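-- Statement S2325: SL_2(q), q odd, has q + 4 conjugacy classes.
import Cfsg.Statements.S2325
import Cfsg.Agent.Lib.Helper39.SL2Conj

set_option autoImplicit false
open Cfsg

namespace Cfsg.Agent.S2325

open Matrix Cfsg.Agent.Lib.Helper39.SL2Conj

variable {F : Type*} [Field F]

/-- The sign `1` or `-1`. -/
def sgn (β : Bool) : F := if β then 1 else -1

theorem sgn_mul_self (β : Bool) : sgn β * sgn β = (1 : F) := by
  cases β <;> simp [sgn]

/-- `1` or the chosen non-square. -/
def lam (ν : Fˣ) (γ : Bool) : Fˣ := if γ then 1 else ν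

/-- The class map. -/
def psi [Fintype F] [DecidableEq F] (ν : Fˣ) :
    Bool ⊕ ↥((Finset.univ.erase (2 : F)).erase (-2)) ⊕ (Bool × Bool) →
      ConjClasses (Matrix.SpecialLinearGroup (Fin 2) F)
  | Sum.inl β => ConjClasses.mk (scal (sgn β) (sgn_mul_self β))
  | Sum.inr (Sum.inl t) => ConjClasses.mk (Mmat 1 (t : F))
  | Sum.inr (Sum.inr (β, γ)) => ConjClasses.mk (Mmat (lam ν γ) (2 * sgn β))

theorem sgn_injective (h : (1 : F) ≠ -1) : Function.Injective (sgn (F := F)) := by
  intro β β' hh
  cases β <;> cases β' <;> simp [sgn] at hh ⊢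
  · exact h hh.symm
  · exact h hh

theorem scal_ne_Mmat (e : F) (he : e * e = 1) (l : Fˣ) (t : F) : Mmat l t ≠ scal e he := by
  intro h
  have := congrArg (fun x : Matrix.SpecialLinearGroup (Fin 2) F =>
    (x : Matrix (Fin 2) (Fin 2) F) 1 0) h
  simp [Mmat_10, scal_val] at this

theorem psi_injective [Fintype F] [DecidableEq F] (h2 : (2 : F) ≠ 0) (ν : Fˣ)
    (hν : ¬ IsSquare (ν : F)) : Function.Injective (psi ν) := by
  have h1 : (1 : F) ≠ -1 := by
    intro h
    apply h2
    linear_combination h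
  rintro (β | t | ⟨β, γ⟩) (β' | t' | ⟨β', γ'⟩) h
  · simp only [psi] at h
    rw [ConjClasses.mk_eq_mk_iff_isConj, isConj_scal_iff] at h
    have := congrArg (fun x : Matrix.SpecialLinearGroup (Fin 2) F =>
      (x : Matrix (Fin 2) (Fin 2) F) 0 0) h
    simp only [scal_val] at this
    have h3 : (sgn β' : F) = sgn β := by simpa using this
    rw [sgn_injective h1 h3]
  · exfalso
    simp only [psi] at h
    rw [ConjClasses.mk_eq_mk_iff_isConj, isConj_scal_iff] at h
    exact scal_ne_Mmat _ _ _ _ h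
  · exfalso
    simp only [psi] at h
    rw [ConjClasses.mk_eq_mk_iff_isConj, isConj_scal_iff] at h
    exact scal_ne_Mmat _ _ _ _ h
  · exfalso
    simp only [psi] at h
    rw [ConjClasses.mk_eq_mk_iff_isConj, isConj_comm, isConj_scal_iff] at h
    exact scal_ne_Mmat _ _ _ _ h
  · simp only [psi] at h
    rw [ConjClasses.mk_eq_mk_iff_isConj] at h
    have := trace_eq_of_isConj h
    simp only [Matrix.trace_fin_two, Mmat_00, Mmat_11, zero_add] at this
    rw [Subtype.ext this]
  · exfalso
    simp only [psi] at h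
    rw [ConjClasses.mk_eq_mk_iff_isConj] at h
    have := trace_eq_of_isConj h
    simp only [Matrix.trace_fin_two, Mmat_00, Mmat_11, zero_add] at this
    have ht := t.2
    simp only [Finset.mem_erase, Finset.mem_univ, and_true] at ht
    cases β'
    · apply ht.1
      rw [this]; simp [sgn]
    · apply ht.2
      rw [this]; simp [sgn]
  · exfalso
    simp only [psi] at h
    rw [ConjClasses.mk_eq_mk_iff_isConj, isConj_comm, isConj_scal_iff] at h
    exact scal_ne_Mmat _ _ _ _ h
  · exfalso
    simp only [psi] at h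
    rw [ConjClasses.mk_eq_mk_iff_isConj] at h
    have := trace_eq_of_isConj h
    simp only [Matrix.trace_fin_two, Mmat_00, Mmat_11, zero_add] at this
    have ht := t'.2
    simp only [Finset.mem_erase, Finset.mem_univ, and_true] at ht
    cases β
    · apply ht.1
      rw [← this]; simp [sgn]
    · apply ht.2
      rw [← this]; simp [sgn]
  · simp only [psi] at h
    rw [ConjClasses.mk_eq_mk_iff_isConj] at h
    have := trace_eq_of_isConj h
    simp only [Matrix.trace_fin_two, Mmat_00, Mmat_11, zero_add] at this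
    have h3 : sgn β = sgn β' := mul_left_cancel₀ h2 this
    have hβ : β = β' := sgn_injective h1 h3
    subst hβ
    obtain ⟨s, hs⟩ := sq_of_isConj_Mmat _ _ (sgn β) (sgn_mul_self β) h
    have hγ : γ = γ' := by
      cases γ <;> cases γ' <;> simp only [lam] at hs
      · rfl
      · exfalso
        simp only [Bool.false_eq_true, if_false, if_true, Units.val_one] at hs
        have hs0 : s ≠ 0 := by
          rintro rfl
          simp at hs
        apply hν
        refine ⟨s⁻¹, ?_⟩
        field_simp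
        linear_combination -hs
      · exfalso
        simp only [Bool.false_eq_true, if_false, if_true, Units.val_one, one_mul] at hs
        apply hν
        exact ⟨s, by rw [hs]; ring⟩
      · rfl
    rw [hγ]

theorem exists_rep_one [Fintype F] (hodd : Fintype.card F % 2 = 1)
    (a b c d : F) (hdet : a * d - b * c = 1)
    (ht : (a + d) ^ 2 - 4 ≠ 0) : ∃ x y : F, c * x ^ 2 + (d - a) * x * y - b * y ^ 2 = 1 := by
  by_cases hc : c = 0
  · subst hc
    have hda : d - a ≠ 0 := by
      intro h
      apply ht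
      have : d = a := sub_eq_zero.mp h
      subst this
      linear_combination 4 * hdet
    refine ⟨(1 + b) / (d - a), 1, ?_⟩
    field_simp
    ring
  · have hD : -(((a + d) ^ 2 - 4) * c) ≠ 0 := neg_ne_zero.mpr (mul_ne_zero ht hc)
    obtain ⟨u, w, h⟩ := FiniteField.exists_root_sum_quadratic
      (f := Polynomial.C c * Polynomial.X ^ 2 + Polynomial.C 0 * Polynomial.X + Polynomial.C (-1))
      (g := Polynomial.C (-(((a + d) ^ 2 - 4) * c)) * Polynomial.X ^ 2 + Polynomial.C 0 * Polynomial.X
        + Polynomial.C 0)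
      (Polynomial.degree_quadratic hc) (Polynomial.degree_quadratic hD) hodd
    simp only [Polynomial.eval_add, Polynomial.eval_mul, Polynomial.eval_C, Polynomial.eval_pow,
      Polynomial.eval_X] at h
    refine ⟨u - (d - a) * w, 2 * c * w, ?_⟩
    linear_combination h + 4 * c * w ^ 2 * hdet

theorem unit_sq_or [Fintype F] (hF : ringChar F ≠ 2) (ν : Fˣ) (hν : ¬ IsSquare (ν : F)) (l : Fˣ) :
    (∃ s : Fˣ, l = 1 * s ^ 2) ∨ (∃ s : Fˣ, l = ν * s ^ 2) := by
  by_cases h : IsSquare (l : F)
  · left
    obtain ⟨r, hr⟩ := h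
    have hr0 : r ≠ 0 := by
      rintro rfl
      simp at hr
    refine ⟨Units.mk0 r hr0, ?_⟩
    apply Units.ext
    simp [hr, pow_two]
  · right
    have h1 : (l : F) ^ (Fintype.card F / 2) = -1 := by
      rcases FiniteField.pow_dichotomy hF l.ne_zero with h' | h'
      · exact absurd ((FiniteField.isSquare_iff hF l.ne_zero).mpr h') h
      · exact h'
    have h2 : (ν : F) ^ (Fintype.card F / 2) = -1 := by
      rcases FiniteField.pow_dichotomy hF ν.ne_zero with h' | h'
      · exact absurd ((FiniteField.isSquare_iff hF ν.ne_zero).mpr h') hν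
      · exact h'
    have h3 : IsSquare ((l : F) / ν) := by
      rw [FiniteField.isSquare_iff hF (div_ne_zero l.ne_zero ν.ne_zero), div_pow, h1, h2]
      simp
    obtain ⟨r, hr⟩ := h3
    have hr0 : r ≠ 0 := by
      rintro rfl
      simp at hr
    refine ⟨Units.mk0 r hr0, ?_⟩
    apply Units.ext
    have hν0 : (ν : F) ≠ 0 := ν.ne_zero
    simp only [Units.val_mul, Units.val_pow_eq_pow_val, Units.val_mk0]
    field_simp at hr
    linear_combination hr

theorem psi_surjective [Fintype F] [DecidableEq F] (hF : ringChar F ≠ 2) (ν : Fˣ)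
    (hν : ¬ IsSquare (ν : F)) : Function.Surjective (psi ν) := by
  have h2 : (2 : F) ≠ 0 := Ring.two_ne_zero hF
  have hodd : Fintype.card F % 2 = 1 := FiniteField.odd_card_of_char_ne_two hF
  intro C
  obtain ⟨g, rfl⟩ := ConjClasses.exists_rep C
  have hdet : (g : Matrix (Fin 2) (Fin 2) F) 0 0 * (g : Matrix (Fin 2) (Fin 2) F) 1 1 -
      (g : Matrix (Fin 2) (Fin 2) F) 0 1 * (g : Matrix (Fin 2) (Fin 2) F) 1 0 = 1 := by
    rw [← Matrix.det_fin_two]; exact g.2
  have hg := Matrix.eta_fin_two (g : Matrix (Fin 2) (Fin 2) F)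
  by_cases hsc : (g : Matrix (Fin 2) (Fin 2) F) 1 0 = 0 ∧ (g : Matrix (Fin 2) (Fin 2) F) 0 1 = 0 ∧
      (g : Matrix (Fin 2) (Fin 2) F) 0 0 = (g : Matrix (Fin 2) (Fin 2) F) 1 1
  · obtain ⟨hc, hb, had⟩ := hsc
    rw [hb, ← had] at hdet
    have h1 : ((g : Matrix (Fin 2) (Fin 2) F) 0 0 - 1) * ((g : Matrix (Fin 2) (Fin 2) F) 0 0 + 1)
        = 0 := by linear_combination hdet
    have h3 : ∃ β : Bool, (g : Matrix (Fin 2) (Fin 2) F) 0 0 = sgn β := by
      rcases mul_eq_zero.mp h1 with h | h
      · exact ⟨true, by simpa [sgn] using sub_eq_zero.mp h⟩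
      · exact ⟨false, by simpa [sgn] using eq_neg_of_add_eq_zero_left h⟩
    obtain ⟨β, hβ⟩ := h3
    refine ⟨Sum.inl β, ?_⟩
    simp only [psi]
    congr 1
    apply Subtype.ext
    rw [scal_val]
    conv_rhs => rw [hg]
    rw [hb, hc, ← had, hβ]
  · -- a nonzero value of the form
    have hval : ∃ (x y : F) (l : Fˣ), (g : Matrix (Fin 2) (Fin 2) F) 1 0 * x ^ 2 +
        ((g : Matrix (Fin 2) (Fin 2) F) 1 1 - (g : Matrix (Fin 2) (Fin 2) F) 0 0) * x * y -
        (g : Matrix (Fin 2) (Fin 2) F) 0 1 * y ^ 2 = (l : F) := by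
      by_cases hc : (g : Matrix (Fin 2) (Fin 2) F) 1 0 = 0
      · by_cases hb : (g : Matrix (Fin 2) (Fin 2) F) 0 1 = 0
        · have had : (g : Matrix (Fin 2) (Fin 2) F) 1 1 - (g : Matrix (Fin 2) (Fin 2) F) 0 0 ≠ 0 :=
            fun h => hsc ⟨hc, hb, (sub_eq_zero.mp h).symm⟩
          exact ⟨1, 1, Units.mk0 _ had, by rw [hc, hb]; simp⟩
        · exact ⟨0, 1, Units.mk0 _ (neg_ne_zero.mpr hb), by simp⟩
      · exact ⟨1, 0, Units.mk0 _ hc, by simp⟩
    by_cases ht2 : (g : Matrix (Fin 2) (Fin 2) F) 0 0 + (g : Matrix (Fin 2) (Fin 2) F) 1 1 = 2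
    · obtain ⟨x, y, l, hl⟩ := hval
      have hc := isConj_Mmat g x y l hl
      rw [ht2] at hc
      rcases unit_sq_or hF ν hν l with ⟨s, hs⟩ | ⟨s, hs⟩
      · refine ⟨Sum.inr (Sum.inr (true, true)), ?_⟩
        simp only [psi, lam, sgn, if_true, mul_one]
        rw [ConjClasses.mk_eq_mk_iff_isConj]
        rw [hs] at hc
        exact (isConj_Mmat_sq 1 s 2).symm.trans hc
      · refine ⟨Sum.inr (Sum.inr (true, false)), ?_⟩
        simp only [psi, lam, sgn, if_true, mul_one, Bool.false_eq_true, if_false]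
        rw [ConjClasses.mk_eq_mk_iff_isConj]
        rw [hs] at hc
        exact (isConj_Mmat_sq ν s 2).symm.trans hc
    · by_cases htm2 : (g : Matrix (Fin 2) (Fin 2) F) 0 0 + (g : Matrix (Fin 2) (Fin 2) F) 1 1 = -2
      · obtain ⟨x, y, l, hl⟩ := hval
        have hc := isConj_Mmat g x y l hl
        rw [htm2] at hc
        rcases unit_sq_or hF ν hν l with ⟨s, hs⟩ | ⟨s, hs⟩
        · refine ⟨Sum.inr (Sum.inr (false, true)), ?_⟩
          simp only [psi, lam, sgn, if_true, Bool.false_eq_true, if_false, mul_neg, mul_one]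
          rw [ConjClasses.mk_eq_mk_iff_isConj]
          rw [hs] at hc
          exact (isConj_Mmat_sq 1 s (-2)).symm.trans hc
        · refine ⟨Sum.inr (Sum.inr (false, false)), ?_⟩
          simp only [psi, lam, sgn, Bool.false_eq_true, if_false, mul_neg, mul_one]
          rw [ConjClasses.mk_eq_mk_iff_isConj]
          rw [hs] at hc
          exact (isConj_Mmat_sq ν s (-2)).symm.trans hc
      · have ht : ((g : Matrix (Fin 2) (Fin 2) F) 0 0 + (g : Matrix (Fin 2) (Fin 2) F) 1 1) ^ 2 - 4
            ≠ 0 := by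
          intro h
          have : ((g : Matrix (Fin 2) (Fin 2) F) 0 0 + (g : Matrix (Fin 2) (Fin 2) F) 1 1 - 2) *
              ((g : Matrix (Fin 2) (Fin 2) F) 0 0 + (g : Matrix (Fin 2) (Fin 2) F) 1 1 + 2) = 0 := by
            linear_combination h
          rcases mul_eq_zero.mp this with h' | h'
          · exact ht2 (sub_eq_zero.mp h')
          · exact htm2 (eq_neg_of_add_eq_zero_left h')
        obtain ⟨x, y, hxy⟩ := exists_rep_one hodd _ _ _ _ hdet ht
        have hc := isConj_Mmat g x y 1 (by rw [hxy]; simp)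
        refine ⟨Sum.inr (Sum.inl ⟨(g : Matrix (Fin 2) (Fin 2) F) 0 0 +
          (g : Matrix (Fin 2) (Fin 2) F) 1 1, ?_⟩), ?_⟩
        · simp only [Finset.mem_erase, Finset.mem_univ, and_true]
          exact ⟨htm2, ht2⟩
        · simp only [psi]
          rw [ConjClasses.mk_eq_mk_iff_isConj]
          exact hc

/-- Over a finite field with q elements, q odd, the special linear group SL₂ has exactly q + 4 conjugacy classes. -/
theorem result {F : Type*} [Field F] [Fintype F] (hodd : Odd (Fintype.card F)) :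
    Nat.card (ConjClasses (Matrix.SpecialLinearGroup (Fin 2) F)) = Fintype.card F + 4 := by
  classical
  have hF : ringChar F ≠ 2 := by
    intro h
    have := FiniteField.even_card_iff_char_two.mp h
    rcases hodd with ⟨k, hk⟩
    omega
  have h2 : (2 : F) ≠ 0 := Ring.two_ne_zero hF
  obtain ⟨ν0, hν0⟩ := FiniteField.exists_nonsquare hF
  have hν00 : ν0 ≠ 0 := by
    rintro rfl
    exact hν0 ⟨0, by simp⟩
  have hinj := psi_injective h2 (Units.mk0 ν0 hν00) hν0
  have hsurj := psi_surjective hF (Units.mk0 ν0 hν00) hν0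
  rw [← Nat.card_eq_of_bijective _ ⟨hinj, hsurj⟩]
  rw [Nat.card_eq_fintype_card, Fintype.card_sum, Fintype.card_sum, Fintype.card_prod,
    Fintype.card_bool, Fintype.card_coe]
  have hm : (-2 : F) ∈ Finset.univ.erase (2 : F) := by
    simp only [Finset.mem_erase, Finset.mem_univ, and_true]
    intro h
    apply h2
    have : (2 : F) * 2 = 0 := by linear_combination (-1 : F) * h
    exact (mul_self_eq_zero.mp this)
  rw [Finset.card_erase_of_mem hm, Finset.card_erase_of_mem (Finset.mem_univ _), Finset.card_univ]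
  have hq : 1 < Fintype.card F := Fintype.one_lt_card
  omega

end Cfsg.Agent.S2325
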