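import Cfsg.Statements.S2430
import Cfsg.Agent.H41.SL2Nonsplit
import Cfsg.Agent.H41.SylowTorus

set_option autoImplicit false
open Cfsg

namespace Cfsg.Agent.S2430

open Cfsg.Agent.H41

theorem fact_lemma (m ℓ : ℕ) (hm : 1 ≤ m) (hℓ : ℓ.Prime) (hℓ2 : ℓ ≠ 2) :
    (ℓ ∣ m → ((m + 1) * ((m + 1) ^ 2 - 1)).factorization ℓ = m.factorization ℓ) ∧
    (ℓ ∣ m + 2 → ((m + 1) * ((m + 1) ^ 2 - 1)).factorization ℓ = (m + 2).factorization ℓ) := by
  have e : (m + 1) ^ 2 - 1 = m * (m + 2) := by
    have : (m + 1) ^ 2 = m * (m + 2) + 1 := by ring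
    omega
  have hℓ3 : 3 ≤ ℓ := by
    have := hℓ.two_le
    omega
  rw [e, Nat.factorization_mul (by omega) (Nat.mul_ne_zero (by omega) (by omega)),
    Nat.factorization_mul (by omega) (by omega)]
  simp only [Finsupp.coe_add, Pi.add_apply]
  constructor
  · intro h
    have h1 : ¬ ℓ ∣ m + 1 := by
      intro h'
      have := (Nat.dvd_add_right h).1 h'
      have := Nat.le_of_dvd (by norm_num) this
      omega
    have h2 : ¬ ℓ ∣ m + 2 := by
      intro h'
      have := (Nat.dvd_add_right h).1 h'
      have := Nat.le_of_dvd (by norm_num) this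
      omega
    rw [Nat.factorization_eq_zero_of_not_dvd h1, Nat.factorization_eq_zero_of_not_dvd h2]
    omega
  · intro h
    have h1 : ¬ ℓ ∣ m + 1 := by
      intro h'
      have h3 : ℓ ∣ (m + 1) + 1 := by
        have : m + 1 + 1 = m + 2 := by omega
        rw [this]; exact h
      have := (Nat.dvd_add_right h').1 h3
      have := Nat.le_of_dvd (by norm_num) this
      omega
    have h2 : ¬ ℓ ∣ m := by
      intro h'
      have := (Nat.dvd_add_right h').1 h
      have := Nat.le_of_dvd (by norm_num) this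
      omega
    rw [Nat.factorization_eq_zero_of_not_dvd h1, Nat.factorization_eq_zero_of_not_dvd h2]
    omega

/-- Let F be a finite field with q elements, q odd, ℓ an odd prime, and P a Sylow ℓ-subgroup of SL₂ over F. If ℓ divides q − 1, the centraliser of P is cyclic of order q − 1 (a split torus) and the normaliser of P has order 2(q − 1); if ℓ divides q + 1, the centraliser of P is cyclic of order q + 1 (a non-split torus) and the normaliser of P has order 2(q + 1). -/
theorem result {F : Type*} [Field F] [Fintype F] (hodd : Odd (Fintype.card F)) (ℓ : ℕ) [Fact ℓ.Prime] (hℓ : ℓ ≠ 2)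
    (P : Sylow ℓ (Matrix.SpecialLinearGroup (Fin 2) F)) :
    (ℓ ∣ Fintype.card F - 1 →
      Nat.card (Subgroup.centralizer ((P : Subgroup (Matrix.SpecialLinearGroup (Fin 2) F)) : Set (Matrix.SpecialLinearGroup (Fin 2) F))) = Fintype.card F - 1 ∧
      IsCyclic (Subgroup.centralizer ((P : Subgroup (Matrix.SpecialLinearGroup (Fin 2) F)) : Set (Matrix.SpecialLinearGroup (Fin 2) F))) ∧
      Nat.card (Subgroup.normalizer ((P : Subgroup (Matrix.SpecialLinearGroup (Fin 2) F)) : Set (Matrix.SpecialLinearGroup (Fin 2) F))) = 2 * (Fintype.card F - 1)) ∧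
    (ℓ ∣ Fintype.card F + 1 →
      Nat.card (Subgroup.centralizer ((P : Subgroup (Matrix.SpecialLinearGroup (Fin 2) F)) : Set (Matrix.SpecialLinearGroup (Fin 2) F))) = Fintype.card F + 1 ∧
      IsCyclic (Subgroup.centralizer ((P : Subgroup (Matrix.SpecialLinearGroup (Fin 2) F)) : Set (Matrix.SpecialLinearGroup (Fin 2) F))) ∧
      Nat.card (Subgroup.normalizer ((P : Subgroup (Matrix.SpecialLinearGroup (Fin 2) F)) : Set (Matrix.SpecialLinearGroup (Fin 2) F))) = 2 * (Fintype.card F + 1)) := by
  classical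
  have hℓp : ℓ.Prime := Fact.out
  have hℓ3 : 3 ≤ ℓ := by
    have := hℓp.two_le
    omega
  have hq : 2 ≤ Fintype.card F := Fintype.one_lt_card
  obtain ⟨m, hm⟩ : ∃ m, Fintype.card F = m + 1 := ⟨Fintype.card F - 1, by omega⟩
  have hm1 : 1 ≤ m := by omega
  have hfl := fact_lemma m ℓ hm1 hℓp hℓ
  have hcardG : Nat.card (Matrix.SpecialLinearGroup (Fin 2) F) = (m + 1) * ((m + 1) ^ 2 - 1) := by
    rw [card_SL2_eq, hm]
  constructor
  · intro hdiv
    have hdiv' : ℓ ∣ m := by rw [hm] at hdiv; simpa using hdiv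
    have hcent : ∀ a ∈ diagSubgroup F, a ≠ 1 → a ≠ negOne →
        Subgroup.centralizer ({a} : Set (Matrix.SpecialLinearGroup (Fin 2) F)) = diagSubgroup F := by
      intro a ha h1 hneg
      apply centralizer_diag a ha
      intro hsq
      have hdet := sl2_det a
      rw [ha.1, zero_mul, sub_zero] at hdet
      have hsq' : ent a 0 0 * ent a 0 0 = 1 := by rw [← pow_two]; exact hsq
      rcases mul_self_eq_one_iff.1 hsq' with h | h
      · apply h1
        apply sl2_ext
        · rw [h, sl2_one00]
        · rw [ha.1, sl2_one01]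
        · rw [ha.2, sl2_one10]
        · rw [h, one_mul] at hdet
          rw [hdet, sl2_one11]
      · apply hneg
        apply sl2_ext
        · rw [h]; rfl
        · rw [ha.1]; rfl
        · rw [ha.2]; rfl
        · rw [h] at hdet
          have : ent a 1 1 = -1 := by linear_combination (-1 : F) * hdet
          rw [this]; rfl
    have key := sylow_in_torus (diagSubgroup F) isCyclic_diagSubgroup ℓ hℓ negOne negOne_mul_self
      hcent (by rw [card_diagSubgroup, hm]; simpa using hdiv')
      (by rw [hcardG, card_diagSubgroup, hm]; simpa using hfl.1 hdiv') P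
    obtain ⟨k1, k2, k3⟩ := key
    refine ⟨by rw [k1, card_diagSubgroup], k2, ?_⟩
    rw [k3]
    -- a regular diagonal element
    obtain ⟨α, hα⟩ := IsCyclic.exists_ofOrder_eq_natCard (α := Fˣ)
    rw [Nat.card_units, Nat.card_eq_fintype_card, hm] at hα
    have hm3 : 3 ≤ m := le_trans hℓ3 (Nat.le_of_dvd (by omega) hdiv')
    have hα2 : ((α : F)) ^ 2 ≠ 1 := by
      intro h
      have h' : α ^ 2 = 1 := Units.ext (by simpa using h)
      have := orderOf_dvd_of_pow_eq_one h'
      rw [hα] at this
      have := Nat.le_of_dvd (by norm_num) this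
      omega
    exact card_diagNormalizer (mkSL (α : F) 0 0 ((α⁻¹ : Fˣ) : F) (by simp)) ⟨rfl, rfl⟩ hα2
  · intro hdiv
    have hdiv' : ℓ ∣ m + 2 := by rw [hm] at hdiv; exact hdiv
    obtain ⟨p, hp⟩ := CharP.exists F
    have : Fact p.Prime := ⟨CharP.char_is_prime F p⟩
    have : NeZero (2 : ℕ) := ⟨by norm_num⟩
    have h2 : Module.finrank F (FiniteField.Extension F p 2) = 2 :=
      FiniteField.finrank_extension F p 2
    let b : Module.Basis (Fin 2) F (FiniteField.Extension F p 2) :=
      Module.finBasisOfFinrankEq F _ h2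
    have key := sylow_in_torus (torus h2 b) (isCyclic_torus h2 b) ℓ hℓ negOne negOne_mul_self
      (fun a ha h1 hneg => centralizer_of_mem_torus h2 b a ha h1 hneg)
      (by rw [card_torus, hm]; exact hdiv')
      (by rw [hcardG, card_torus, hm]; exact hfl.2 hdiv') P
    obtain ⟨k1, k2, k3⟩ := key
    refine ⟨by rw [k1, card_torus], k2, ?_⟩
    rw [k3]
    exact card_torusNormalizer h2 b hodd

end Cfsg.Agent.S2430
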