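import Cfsg.Statements.S2437
import Cfsg.Agent.Lib.Helper39.PSInst

set_option autoImplicit false
open Cfsg

namespace Cfsg.Agent.S2437

open Cfsg.Agent.Lib.Helper39.PSInst Cfsg.Agent.Lib.Helper39.GL2Inst

variable {F : Type*} [Field F]

/-- Number of solutions of `x' * α = x * β`. -/
theorem card_line [Fintype F] [DecidableEq F] (α β : F) :
    Fintype.card {p : F × F // p.2 * α = p.1 * β} =
      if α = 0 ∧ β = 0 then Fintype.card F ^ 2 else Fintype.card F := by
  by_cases hα : α = 0
  · by_cases hβ : β = 0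
    · rw [if_pos ⟨hα, hβ⟩, hα, hβ]
      have : Fintype.card {p : F × F // p.2 * (0 : F) = p.1 * 0} = Fintype.card (F × F) := by
        apply Fintype.card_of_subtype Finset.univ
        intro p
        simp
      rw [this, Fintype.card_prod, pow_two]
    · rw [if_neg (fun h => hβ h.2), hα]
      apply Fintype.card_congr
      refine ⟨fun p => p.1.2, fun x => ⟨(0, x), by simp⟩, ?_, ?_⟩
      · rintro ⟨⟨x, x'⟩, h⟩
        simp only [mul_zero] at h
        have hx : x = 0 := by
          rcases mul_eq_zero.1 h.symm with h' | h'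
          · exact h'
          · exact absurd h' hβ
        apply Subtype.ext
        simp [hx]
      · intro x
        rfl
  · rw [if_neg (fun h => hα h.1)]
    apply Fintype.card_congr
    refine ⟨fun p => p.1.1, fun x => ⟨(x, x * β / α), by field_simp⟩, ?_, ?_⟩
    · rintro ⟨⟨x, x'⟩, h⟩
      apply Subtype.ext
      simp only [Prod.mk.injEq, true_and]
      field_simp
      simp only at h
      linear_combination (-1 : F) * h
    · intro x
      rfl

theorem card_sq_eq_one [Fintype F] [DecidableEq F] (h2 : (2 : F) ≠ 0) :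
    (Finset.univ.filter fun t : Fˣ => (t : F) - ((t⁻¹ : Fˣ) : F) = 0).card = 2 := by
  have : (Finset.univ.filter fun t : Fˣ => (t : F) - ((t⁻¹ : Fˣ) : F) = 0) = {1, -1} := by
    ext t
    simp only [Finset.mem_filter, Finset.mem_univ, true_and, Finset.mem_insert,
      Finset.mem_singleton]
    constructor
    · intro h
      have h1 : (t : F) * (t : F) = 1 := by
        have h' : (t : F) = ((t⁻¹ : Fˣ) : F) := sub_eq_zero.1 h
        nth_rewrite 2 [h']
        simp
      rcases mul_self_eq_one_iff.1 h1 with h' | h'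
      · left; exact Units.ext h'
      · right; exact Units.ext (by simpa using h')
    · rintro (rfl | rfl) <;> simp
  rw [this, Finset.card_pair]
  intro h
  have := congrArg Units.val h
  simp only [Units.val_one, Units.val_neg] at this
  apply h2
  linear_combination this

theorem card_pairs [Fintype F] [DecidableEq F] (h2 : (2 : F) ≠ 0) :
    Fintype.card {p : (Fˣ × F) × (Fˣ × F) //
      p.2.2 * ((p.1.1 : F) - ((p.1.1⁻¹ : Fˣ) : F)) =
        p.1.2 * ((p.2.1 : F) - ((p.2.1⁻¹ : Fˣ) : F))} =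
      Fintype.card F * (Fintype.card F - 1) * (Fintype.card F + 3) := by
  let e : {p : (Fˣ × F) × (Fˣ × F) //
      p.2.2 * ((p.1.1 : F) - ((p.1.1⁻¹ : Fˣ) : F)) =
        p.1.2 * ((p.2.1 : F) - ((p.2.1⁻¹ : Fˣ) : F))} ≃
      Σ tt : Fˣ × Fˣ, {xx : F × F // xx.2 * ((tt.1 : F) - ((tt.1⁻¹ : Fˣ) : F)) =
        xx.1 * ((tt.2 : F) - ((tt.2⁻¹ : Fˣ) : F))} :=
    { toFun := fun p => ⟨(p.1.1.1, p.1.2.1), ⟨(p.1.1.2, p.1.2.2), p.2⟩⟩
      invFun := fun s => ⟨((s.1.1, s.2.1.1), (s.1.2, s.2.1.2)), s.2.2⟩
      left_inv := fun _ => rfl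
      right_inv := fun _ => rfl }
  rw [Fintype.card_congr e, Fintype.card_sigma]
  simp_rw [card_line]
  rw [Finset.sum_ite, Finset.sum_const, Finset.sum_const, smul_eq_mul, smul_eq_mul]
  have hA : (Finset.univ.filter fun tt : Fˣ × Fˣ => (tt.1 : F) - ((tt.1⁻¹ : Fˣ) : F) = 0 ∧
      (tt.2 : F) - ((tt.2⁻¹ : Fˣ) : F) = 0).card = 4 := by
    have : (Finset.univ.filter fun tt : Fˣ × Fˣ => (tt.1 : F) - ((tt.1⁻¹ : Fˣ) : F) = 0 ∧
        (tt.2 : F) - ((tt.2⁻¹ : Fˣ) : F) = 0) =
        (Finset.univ.filter fun t : Fˣ => (t : F) - ((t⁻¹ : Fˣ) : F) = 0) ×ˢ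
        (Finset.univ.filter fun t : Fˣ => (t : F) - ((t⁻¹ : Fˣ) : F) = 0) := by
      ext tt
      simp
    rw [this, Finset.card_product, card_sq_eq_one h2]
  have hAB := Finset.card_filter_add_card_filter_not (s := (Finset.univ : Finset (Fˣ × Fˣ)))
    (fun tt : Fˣ × Fˣ => (tt.1 : F) - ((tt.1⁻¹ : Fˣ) : F) = 0 ∧
      (tt.2 : F) - ((tt.2⁻¹ : Fˣ) : F) = 0)
  rw [hA, Finset.card_univ, Fintype.card_prod, Fintype.card_units] at hAB
  rw [hA]
  have hq : 1 ≤ Fintype.card F := Fintype.card_pos
  obtain ⟨N, hN⟩ : ∃ N, Fintype.card F = N + 1 := ⟨Fintype.card F - 1, by omega⟩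
  rw [hN] at hAB ⊢
  simp only [Nat.add_sub_cancel] at hAB ⊢
  generalize (Finset.univ.filter fun tt : Fˣ × Fˣ => ¬((tt.1 : F) - ((tt.1⁻¹ : Fˣ) : F) = 0 ∧
      (tt.2 : F) - ((tt.2⁻¹ : Fˣ) : F) = 0)).card = B at hAB ⊢
  have : (N + 1) * N * (N + 1 + 3) = (N + 1) * (N * N) + 4 * ((N + 1) * N) := by ring
  rw [this, ← hAB]
  ring

/-- Over a finite field F with q elements, q odd, the upper triangular subgroup of SL₂ (a Borel subgroup, of order q(q − 1)) has exactly q + 3 conjugacy classes. -/
theorem result {F : Type*} [Field F] [Fintype F] (hodd : Odd (Fintype.card F)) :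
    Nat.card (ConjClasses ((Cfsg.upperTriangularGL 2 F).comap Matrix.SpecialLinearGroup.toGL)) = Fintype.card F + 3 := by
  classical
  have h2 : (2 : F) ≠ 0 := by
    intro h2
    have : CharP F 2 := CharTwo.of_one_ne_zero_of_two_eq_zero one_ne_zero h2
    obtain ⟨n, -, hn⟩ := FiniteField.card F 2
    rw [hn] at hodd
    have : Even (2 ^ (n : ℕ)) := (Nat.even_pow.2 ⟨even_two, n.ne_zero⟩)
    exact (Nat.not_even_iff_odd.2 hodd) this
  have hcomm := card_comm_eq_card_conjClasses_mul_card (BSL F)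
  have hq : 1 ≤ Fintype.card F := Fintype.card_pos
  have hB : Nat.card (BSL F) = (Fintype.card F - 1) * Fintype.card F := by
    rw [← Nat.card_congr (Equiv.ofBijective bmSL bmSL_bijective), Nat.card_prod,
      Nat.card_eq_fintype_card, Nat.card_eq_fintype_card, Fintype.card_units]
  have key : ∀ a b : BSL F, Commute a b ↔
      mSL F (a : Matrix.SpecialLinearGroup (Fin 2) F) * mSL F (b : Matrix.SpecialLinearGroup (Fin 2) F)
        = mSL F (b : Matrix.SpecialLinearGroup (Fin 2) F) * mSL F (a : Matrix.SpecialLinearGroup (Fin 2) F) := by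
    intro a b
    constructor
    · intro h
      have := congrArg (fun z : BSL F => mSL F (z : Matrix.SpecialLinearGroup (Fin 2) F)) h.eq
      simpa [map_mul] using this
    · intro h
      apply Subtype.ext
      apply Subtype.ext
      simpa [mSL_apply] using h
  have hpairs : Nat.card {p : BSL F × BSL F // Commute p.1 p.2} =
      Fintype.card F * (Fintype.card F - 1) * (Fintype.card F + 3) := by
    rw [← card_pairs h2, ← Nat.card_eq_fintype_card]
    apply Nat.card_congr
    symm
    refine Equiv.subtypeEquiv (Equiv.prodCongr (Equiv.ofBijective bmSL bmSL_bijective)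
      (Equiv.ofBijective bmSL bmSL_bijective)) ?_
    rintro ⟨⟨t, x⟩, ⟨t', x'⟩⟩
    simp only [Equiv.prodCongr_apply, Prod.map_apply, Equiv.ofBijective_apply]
    rw [key, mSL_bmSL, mSL_bmSL]
    constructor
    · intro h
      ext i j
      fin_cases i <;> fin_cases j <;> simp [Matrix.mul_apply, Fin.sum_univ_two, mul_comm]
      simp only [Units.val_inv_eq_inv_val] at h
      linear_combination h
    · intro h
      have := congrFun (congrFun h 0) 1
      simp [Matrix.mul_apply, Fin.sum_univ_two] at this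
      simp only [Units.val_inv_eq_inv_val]
      linear_combination this
  rw [hpairs, hB] at hcomm
  have hpos : 0 < (Fintype.card F - 1) * Fintype.card F := by
    have : 3 ≤ Fintype.card F := by
      obtain ⟨k, hk⟩ := hodd
      have : Fintype.card F ≠ 1 := Fintype.one_lt_card.ne'
      omega
    apply Nat.mul_pos <;> omega
  apply Nat.eq_of_mul_eq_mul_right hpos
  rw [← hcomm]
  ring

end Cfsg.Agent.S2437
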