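import Cfsg.Statements.S4683
import Cfsg.Agent.Lib.Helper77.BPMax2
import Cfsg.Agent.Lib.Helper75.Section3
import Cfsg.Agent.Lib.Helper75.BlockRank
import Cfsg.Agent.Lib.CT.Orth

set_option autoImplicit false
open Cfsg

namespace Cfsg.Agent.S4683

open Cfsg.Agent.Lib.Helper77.LocalRing Cfsg.Agent.Lib.Helper77.CentralChar
  Cfsg.Agent.Lib.Helper77.ClassSum Cfsg.Agent.Lib.Helper77.BlockIdem
  Cfsg.Agent.Lib.Helper77.BPBasic Cfsg.Agent.Lib.Helper77.BPBrauer
  Cfsg.Agent.Lib.Helper75.Section Cfsg.Agent.Lib.Helper75.Section2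
  Cfsg.Agent.Lib.Helper75.Section3 Cfsg.Agent.Lib.Helper75.BlockRank
open scoped ComplexConjugate

/-- The value of `om` on a class sum is the induced central character. -/
theorem om_classSum {G : Type*} [Group G] [Finite G] (H : Subgroup G) (ξ : H → ℂ) (g : G) :
    om H ξ (classSum g) = inducedCentralChar H ξ g := by
  classical
  have := Fintype.ofFinite G
  have : Fintype H := Fintype.ofFinite H
  unfold om omega inducedCentralChar res classSum
  rw [pair_ofFun, finsum_mem_def, finsum_eq_sum_of_fintype, Finset.sum_div]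
  refine Finset.sum_congr rfl fun h _ => ?_
  rw [coeff_ofFun, Set.indicator_apply]
  by_cases hc : IsConj g (h : G)
  · rw [if_pos hc, if_pos (show h ∈ {h : H | IsConj g (h : G)} from hc), one_mul]
  · rw [if_neg hc, if_neg (show h ∉ {h : H | IsConj g (h : G)} from hc), zero_mul, zero_div]

/-- A Brauer pair of `B` at `P`: the block of `C_G(P)` induces `B`. -/
theorem induced_of_pairOf {G : Type*} [Group G] [Finite G] {p : ℕ} [Fact p.Prime]
    {M : Ideal AlgInt} (hM : IsPModular p M)
    {B : Set (IrrCharacter G)} {P : Subgroup G}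
    {e : Set (IrrCharacter (Subgroup.centralizer (P : Set G)))}
    (hBe : IsBrauerPairOf p M B P e) :
    IsInducedBlock M (Subgroup.centralizer (P : Set G)) e B := by
  have hMp := isPrime_of_isPModular hM
  obtain ⟨χ₀, hχ₀, h⟩ := Cfsg.Agent.Lib.Helper77.BPMax2.exists_irr_of_pairOf hM hBe
  refine ⟨hBe.1.2, hBe.2.1, fun ξ hξ χ hχ g => ?_⟩
  have h1 := h (classSum g)
    ⟨mem_fixedSubring_top_iff.2 (classSum_mem_center g), classSum_mem_intSubring _ _ g⟩ ξ hξ
  rw [om_classSum, omega_classSum _
    (fun x g => Cfsg.Agent.Lib.CT.Orth.irr_isClassFunction χ₀ g x)] at h1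
  have h2 : MemLocalIdeal M (centralChar (χ₀ : G → ℂ) g - centralChar (χ : G → ℂ) g) := by
    have hB := Cfsg.Agent.Lib.CT.DefectZeroBlock.eq_blockOf_of_mem hMp hBe.2.1 hχ₀
    rw [hB] at hχ
    exact hχ g
  have h3 := memLocalIdeal_add hMp h1 h2
  rwa [sub_add_sub_cancel] at h3

section general

variable {H : Type*} [Group H]

/-- The block part as a filtered finite sum. -/
theorem blockPart_eq [Fintype H] [Fintype (IrrCharacter H)] (e : Set (IrrCharacter H)) [DecidablePred (· ∈ e)] (γ : H → ℂ) :
    blockPart e γ = ∑ ξ ∈ Finset.univ.filter (· ∈ e),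
      classInner γ (ξ : H → ℂ) • (ξ : H → ℂ) := by
  have h : (Fintype.ofFinite H) = (inferInstance : Fintype H) := Subsingleton.elim _ _
  funext s
  unfold blockPart
  rw [h, finsum_mem_def, finsum_eq_sum_of_fintype, Finset.sum_filter, Finset.sum_apply]
  refine Finset.sum_congr rfl fun χ _ => ?_
  by_cases hχ : χ ∈ e
  · rw [Set.indicator_of_mem hχ, if_pos hχ]; rfl
  · rw [Set.indicator_of_notMem hχ, if_neg hχ]; rfl

/-- The block part of any function is a class function. -/
theorem isClassFunction_blockPart [Fintype H] [Fintype (IrrCharacter H)]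
    (e : Set (IrrCharacter H)) [DecidablePred (· ∈ e)] (γ : H → ℂ) :
    IsClassFunction H (blockPart e γ) := by
  intro g h
  rw [blockPart_eq]
  simp only [Finset.sum_apply, Pi.smul_apply]
  refine Finset.sum_congr rfl fun ξ _ => ?_
  rw [Cfsg.Agent.Lib.CT.Orth.irr_isClassFunction ξ g h]

/-- A `finsum` over a set of a fintype as a filtered finite sum. -/
theorem finsum_mem_filter {ι : Type*} [Fintype ι] {α : Type*} [AddCommMonoid α]
    (B : Set ι) [DecidablePred (· ∈ B)] (f : ι → α) :
    ∑ᶠ χ ∈ B, f χ = ∑ χ ∈ Finset.univ.filter (· ∈ B), f χ := by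
  rw [finsum_mem_def, finsum_eq_sum_of_fintype, Finset.sum_filter]
  refine Finset.sum_congr rfl fun χ _ => ?_
  by_cases h : χ ∈ B <;> simp [h]

/-- Truncation of a linear combination. -/
theorem pRegularPart_sum (p : ℕ) {ι : Type*} (s : Finset ι) (c : ι → ℂ) (F : ι → H → ℂ) :
    pRegularPart p (∑ i ∈ s, c i • F i) = ∑ i ∈ s, c i • pRegularPart p (F i) := by
  rw [← trunc_apply, map_sum]
  refine Finset.sum_congr rfl fun i _ => ?_
  rw [map_smul, trunc_apply]

/-- Symmetry of the truncated inner product. -/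
theorem classInner_trunc_symm [Fintype H] (p : ℕ) (a b : H → ℂ) :
    classInner (pRegularPart p a) b = conj (classInner (pRegularPart p b) a) := by
  rw [← classInner_pRegularPart_right, Cfsg.Agent.Lib.CT.Clifford.classInner_conj_symm,
    classInner_pRegularPart_right]

/-- The coefficients of the truncated block part. -/
theorem coeff_trunc_blockPart [Fintype H] [Fintype (IrrCharacter H)] (p : ℕ) [Fact p.Prime] (M : Ideal AlgInt) (hM : IsPModular p M)
    (e : Set (IrrCharacter H)) (he : IsPBlock M e) [DecidablePred (· ∈ e)] (γ : H → ℂ)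
    (hγ : IsClassFunction H γ) (ξ' : IrrCharacter H) :
    classInner (pRegularPart p (blockPart e γ)) (ξ' : H → ℂ)
      = if ξ' ∈ e then classInner (pRegularPart p γ) (ξ' : H → ℂ) else 0 := by
  have h2 : γ = ∑ ξ : IrrCharacter H, classInner γ (ξ : H → ℂ) • (ξ : H → ℂ) := by
    funext s
    rw [Cfsg.Agent.Lib.CT.Orth.classFunction_expand_sum γ hγ s, Finset.sum_apply]
    rfl
  have h3 : classInner (pRegularPart p γ) (ξ' : H → ℂ)
      = ∑ ξ : IrrCharacter H, classInner γ (ξ : H → ℂ)
          * classInner (pRegularPart p (ξ : H → ℂ)) (ξ' : H → ℂ) := by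
    conv_lhs => rw [h2]
    rw [pRegularPart_sum, Cfsg.Agent.Lib.CT.Orth.classInner_sum_left]
    refine Finset.sum_congr rfl fun ξ _ => ?_
    rw [Cfsg.Agent.Lib.CT.Orth.classInner_smul_left]
  rw [blockPart_eq, pRegularPart_sum, Cfsg.Agent.Lib.CT.Orth.classInner_sum_left]
  by_cases hξ' : ξ' ∈ e
  · rw [if_pos hξ', h3, Finset.sum_filter]
    refine Finset.sum_congr rfl fun ξ _ => ?_
    rw [Cfsg.Agent.Lib.CT.Orth.classInner_smul_left]
    by_cases hξ : ξ ∈ e
    · rw [if_pos hξ]
    · rw [if_neg hξ, classInner_trunc_symm,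
        classInner_pRegularPart_eq_zero p M hM e he ξ' ξ hξ' hξ, map_zero, mul_zero]
  · rw [if_neg hξ']
    refine Finset.sum_eq_zero fun ξ hξ => ?_
    rw [Cfsg.Agent.Lib.CT.Orth.classInner_smul_left,
      classInner_pRegularPart_eq_zero p M hM e he ξ ξ' (Finset.mem_filter.1 hξ).2 hξ', mul_zero]

end general

section main

variable {G : Type*} [Group G]

/-- The block part of the inverse section is the conjugate of the block part of the section. -/
theorem blockPart_inv [Fintype G] (u : G)
    [Fintype (Subgroup.centralizer ({u} : Set G))]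
    [Fintype (IrrCharacter (Subgroup.centralizer ({u} : Set G)))]
    (e : Set (IrrCharacter (Subgroup.centralizer ({u} : Set G)))) [DecidablePred (· ∈ e)]
    (χ : IrrCharacter G) (s : Subgroup.centralizer ({u} : Set G)) :
    blockPart e (fun c : Subgroup.centralizer ({u} : Set G) => (χ : G → ℂ) (u⁻¹ * c)) s⁻¹
      = conj (blockPart e (fun c : Subgroup.centralizer ({u} : Set G) => (χ : G → ℂ) (u * c)) s) := by
  rw [blockPart_eq, blockPart_eq, Finset.sum_apply, Finset.sum_apply, map_sum]
  refine Finset.sum_congr rfl fun ξ _ => ?_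
  rw [Pi.smul_apply, Pi.smul_apply, smul_eq_mul, smul_eq_mul, map_mul,
    Cfsg.Agent.Lib.CT.Wedderburn.char_apply_inv
      (Cfsg.Agent.Lib.CT.Wedderburn.isCharacter_of_irr ξ.2) s]
  congr 1
  unfold classInner
  rw [map_mul, map_inv₀, Complex.conj_natCast, map_sum]
  congr 1
  rw [← Equiv.sum_comp (Equiv.inv (Subgroup.centralizer ({u} : Set G)))]
  refine Finset.sum_congr rfl fun c _ => ?_
  rw [map_mul, Complex.conj_conj, Equiv.inv_apply,
    Cfsg.Agent.Lib.CT.Wedderburn.char_apply_inv
      (Cfsg.Agent.Lib.CT.Wedderburn.isCharacter_of_irr ξ.2) c, Complex.conj_conj]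
  congr 1
  have hc : u * (c : G) = (c : G) * u := Subgroup.mem_centralizer_iff.1 c.2 u rfl
  have h1 : u⁻¹ * ((c⁻¹ : Subgroup.centralizer ({u} : Set G)) : G) = (u * (c : G))⁻¹ := by
    rw [hc, mul_inv_rev]; rfl
  show (χ : G → ℂ) (u⁻¹ * ((c⁻¹ : Subgroup.centralizer ({u} : Set G)) : G))
    = conj ((χ : G → ℂ) (u * (c : G)))
  rw [h1, Cfsg.Agent.Lib.CT.Wedderburn.char_apply_inv
      (Cfsg.Agent.Lib.CT.Wedderburn.isCharacter_of_irr χ.2)]

/-- The trace identity for the centralizer of the element `u`. -/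
theorem main [Fintype G] (p : ℕ) [Fact p.Prime] (M : Ideal AlgInt) (hM : IsPModular p M)
    (B : Set (IrrCharacter G)) (u : G) (hu : ∃ k : ℕ, orderOf u = p ^ k)
    (e : Set (IrrCharacter (Subgroup.centralizer ({u} : Set G))))
    (hind : IsInducedBlock M (Subgroup.centralizer ({u} : Set G)) e B) :
    ∑ᶠ χ ∈ B, ∑ᶠ s : Subgroup.centralizer ({u} : Set G),
      pRegularPart p (blockPart e
        (fun c : Subgroup.centralizer ({u} : Set G) => (χ : G → ℂ) (u * c))) s
        * blockPart e (fun c : Subgroup.centralizer ({u} : Set G) => (χ : G → ℂ) (u⁻¹ * c)) s⁻¹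
      = (Nat.card (Subgroup.centralizer ({u} : Set G)) : ℂ) * (blockRank p e : ℂ) := by
  classical
  have hpp : p.Prime := Fact.out
  have hMp : M.IsPrime := isPrime_of_isPModular hM
  have : Fintype (Subgroup.centralizer ({u} : Set G)) := Fintype.ofFinite _
  have := Cfsg.Agent.Lib.CT.Wedderburn.finite_irrCharacter G
  have : Fintype (IrrCharacter G) := Fintype.ofFinite _
  have := Cfsg.Agent.Lib.CT.Wedderburn.finite_irrCharacter (Subgroup.centralizer ({u} : Set G))
  have : Fintype (IrrCharacter (Subgroup.centralizer ({u} : Set G))) := Fintype.ofFinite _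
  have he : IsPBlock M e := hind.1
  have hne : (Nat.card (Subgroup.centralizer ({u} : Set G)) : ℂ) ≠ 0 :=
    Nat.cast_ne_zero.mpr Nat.card_pos.ne'
  -- members of `e` lie in `secT`
  have hsec : ∀ ψ ∈ e, ψ ∈ secT M u B := by
    intro ψ hψ
    show IsInducedBlock M _ (blockOf M (ψ : Subgroup.centralizer ({u} : Set G) → ℂ)) B
    rw [← Cfsg.Agent.Lib.CT.DefectZeroBlock.eq_blockOf_of_mem hMp he hψ]
    exact hind
  -- the inner sum for a fixed `χ`
  have hI : ∀ χ : IrrCharacter G, ∑ᶠ s : Subgroup.centralizer ({u} : Set G),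
      pRegularPart p (blockPart e
        (fun c : Subgroup.centralizer ({u} : Set G) => (χ : G → ℂ) (u * c))) s
        * blockPart e (fun c : Subgroup.centralizer ({u} : Set G) => (χ : G → ℂ) (u⁻¹ * c)) s⁻¹
      = (Nat.card (Subgroup.centralizer ({u} : Set G)) : ℂ)
        * ∑ ψ : IrrCharacter (Subgroup.centralizer ({u} : Set G)),
          if ψ ∈ e then classInner (secRes p u (χ : G → ℂ))
              (ψ : Subgroup.centralizer ({u} : Set G) → ℂ)
            * conj (classInner (secRes p u (χ : G → ℂ))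
              (ψ : Subgroup.centralizer ({u} : Set G) → ℂ)) else 0 := by
    intro χ
    obtain ⟨γ, hγdef⟩ : ∃ γ : Subgroup.centralizer ({u} : Set G) → ℂ,
      γ = fun c : Subgroup.centralizer ({u} : Set G) => (χ : G → ℂ) (u * c) := ⟨_, rfl⟩
    rw [← hγdef]
    have hγ : IsClassFunction (Subgroup.centralizer ({u} : Set G)) γ := by
      rw [hγdef]
      exact isClassFunction_shift u (Cfsg.Agent.Lib.CT.Orth.irr_isClassFunction χ)
    obtain ⟨θ, hθ⟩ : ∃ θ : Subgroup.centralizer ({u} : Set G) → ℂ,
      θ = pRegularPart p (blockPart e γ) := ⟨_, rfl⟩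
    rw [← hθ]
    have hθc : IsClassFunction (Subgroup.centralizer ({u} : Set G)) θ := by
      rw [hθ]
      exact isClassFunction_pRegularPart p (isClassFunction_blockPart e γ)
    have hsr : pRegularPart p γ = secRes p u (χ : G → ℂ) := by
      funext c
      by_cases hc : p ∣ orderOf c
      · rw [pRegularPart_of_singular p _ hc, secRes_of_singular p u _ hc]
      · rw [pRegularPart_of_regular p _ hc, secRes_of_regular p u _ hc, hγdef]
    rw [finsum_eq_sum_of_fintype]
    have h1 : ∀ s : Subgroup.centralizer ({u} : Set G),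
        θ s * blockPart e
          (fun c : Subgroup.centralizer ({u} : Set G) => (χ : G → ℂ) (u⁻¹ * c)) s⁻¹
        = θ s * conj (θ s) := by
      intro s
      rw [blockPart_inv, ← hγdef]
      by_cases hs : p ∣ orderOf s
      · rw [hθ, pRegularPart_of_singular p _ hs, zero_mul, zero_mul]
      · rw [hθ, pRegularPart_of_regular p _ hs]
    rw [Finset.sum_congr rfl (fun s _ => h1 s)]
    have h2 : ∑ s : Subgroup.centralizer ({u} : Set G), θ s * conj (θ s)
        = (Nat.card (Subgroup.centralizer ({u} : Set G)) : ℂ) * classInner θ θ := by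
      unfold classInner
      rw [mul_inv_cancel_left₀ hne]
    rw [h2, classInner_eq_sum θ θ hθc]
    congr 1
    refine Finset.sum_congr rfl fun ψ _ => ?_
    rw [hθ, coeff_trunc_blockPart p M hM e he γ hγ ψ, hsr]
    split_ifs with h
    · rfl
    · rw [zero_mul]
  rw [finsum_mem_filter, Finset.sum_congr rfl (fun χ _ => hI χ), ← Finset.mul_sum]
  congr 1
  rw [Finset.sum_comm, blockRank_eq_sum p M hM e he]
  refine Finset.sum_congr rfl fun ψ _ => ?_
  by_cases hψ : ψ ∈ e
  · simp only [if_pos hψ]
    rw [← sum_sq_classInner_secRes hpp hu ψ, Finset.sum_filter]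
    refine Finset.sum_congr rfl fun χ _ => ?_
    by_cases hχ : χ ∈ B
    · rw [if_pos hχ]
    · rw [if_neg hχ, coeff_zero_right p M hM u hu B χ hχ ψ (hsec ψ hψ), zero_mul]
  · simp only [if_neg hψ]
    exact Finset.sum_const_zero

/-- The trace identity for any subgroup equal to the centralizer of `u`. -/
theorem main' [Fintype G] (p : ℕ) [Fact p.Prime] (M : Ideal AlgInt) (hM : IsPModular p M)
    (B : Set (IrrCharacter G)) (u : G) (hu : ∃ k : ℕ, orderOf u = p ^ k)
    (C : Subgroup G) (hC : C = Subgroup.centralizer ({u} : Set G))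
    (e : Set (IrrCharacter C)) (hind : IsInducedBlock M C e B) :
    ∑ᶠ χ ∈ B, ∑ᶠ s : C,
      pRegularPart p (blockPart e (fun c : C => (χ : G → ℂ) (u * c))) s
        * blockPart e (fun c : C => (χ : G → ℂ) (u⁻¹ * c)) s⁻¹
      = (Nat.card C : ℂ) * (blockRank p e : ℂ) := by
  subst hC
  exact main p M hM B u hu e hind

/-- The centralizer of a cyclic group is the centralizer of a generator. -/
theorem centralizer_zpowers_eq (u : G) :
    Subgroup.centralizer (Subgroup.zpowers u : Set G) = Subgroup.centralizer ({u} : Set G) := by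
  ext c
  rw [Subgroup.mem_centralizer_iff, Subgroup.mem_centralizer_iff]
  constructor
  · intro h g hg
    rw [Set.mem_singleton_iff] at hg
    subst hg
    exact h g (Subgroup.mem_zpowers g)
  · intro h g hg
    obtain ⟨k, rfl⟩ := Subgroup.mem_zpowers_iff.1 hg
    have h1 : Commute u c := h u rfl
    exact (h1.zpow_left k).eq

end main

/-- Fix a prime p and a maximal ideal M of the algebraic integers containing p, a p-block B of the finite group G, a p-element u and a p-block e of C = C_G(u) such that (⟨u⟩, e) is a Brauer pair of B (a Brauer element of B). For χ ∈ B let χ_u be the e-part of the class function c ↦ χ(u c) on C and χ_u' the e-part of c ↦ χ(u⁻¹ c). Then the sum over χ ∈ B and over the p-regular elements s of C of χ_u(s)·χ_u'(s⁻¹) equals the order of C times the p-regular rank of e (the number of irreducible Brauer characters of e). -/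
theorem result {G : Type*} [Group G] [Fintype G] (p : ℕ) [Fact p.Prime] (M : Ideal Cfsg.AlgInt) (hM : Cfsg.IsPModular p M) (B : Set (Cfsg.IrrCharacter G)) (u : G) (hu : ∃ k : ℕ, orderOf u = p ^ k) (e : Set (Cfsg.IrrCharacter (Subgroup.centralizer (Subgroup.zpowers u : Set G)))) (hBe : Cfsg.IsBrauerPairOf p M B (Subgroup.zpowers u) e) : ∑ᶠ χ ∈ B, ∑ᶠ s : Subgroup.centralizer (Subgroup.zpowers u : Set G), Cfsg.pRegularPart p (Cfsg.blockPart e (fun c : Subgroup.centralizer (Subgroup.zpowers u : Set G) => (χ : G → ℂ) (u * c))) s * Cfsg.blockPart e (fun c : Subgroup.centralizer (Subgroup.zpowers u : Set G) => (χ : G → ℂ) (u⁻¹ * c)) s⁻¹ = (Nat.card (Subgroup.centralizer (Subgroup.zpowers u : Set G)) : ℂ) * (Cfsg.blockRank p e : ℂ) := by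
  exact main' p M hM B u hu _ (centralizer_zpowers_eq u) e (induced_of_pairOf hM hBe)

end Cfsg.Agent.S4683
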