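import Cfsg.Statements.S2623
import Cfsg.Agent.Lib.Helper44.QDiag
import Cfsg.Agent.Lib.Helper44.Gram

set_option autoImplicit false
open Cfsg

namespace Cfsg.Agent.S2623

open Module QuadraticMap
open Cfsg.Agent.Lib.Helper44.QSpace Cfsg.Agent.Lib.Helper44.QClass Cfsg.Agent.Lib.Helper44.QDiag
open Cfsg.Agent.Lib.Helper44.Gram

/-- Gram determinant of a diagonalising basis. -/
theorem det_diag_basis {F : Type*} [Field F] {V : Type*} [AddCommGroup V] [Module F V] {n : ℕ}
    (Q : QuadraticForm F V) (b : Basis (Fin (n + 1)) F V)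
    (h1 : ∀ i j, i ≠ j → polar Q (b i) (b j) = 0) (h2 : ∀ i, i ≠ Fin.last n → Q (b i) = 1) :
    (LinearMap.BilinForm.toMatrix b (polarBilin Q)).det = 2 ^ (n + 1) * Q (b (Fin.last n)) := by
  have hM : LinearMap.BilinForm.toMatrix b (polarBilin Q)
      = Matrix.diagonal (fun i => 2 * Q (b i)) := by
    ext i j
    rw [LinearMap.BilinForm.toMatrix_apply, Matrix.diagonal_apply]
    by_cases hij : i = j
    · subst hij
      rw [if_pos rfl]
      exact polar_self' Q (b i)
    · rw [if_neg hij]
      exact h1 i j hij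
  rw [hM, Matrix.det_diagonal, Finset.prod_mul_distrib, Finset.prod_const, Finset.card_univ,
    Fintype.card_fin, Fin.prod_univ_castSucc]
  have : ∏ i : Fin n, Q (b i.castSucc) = 1 := by
    apply Finset.prod_eq_one
    intro i _
    exact h2 _ (Fin.castSucc_lt_last i).ne
  rw [this, one_mul]

theorem std_gram {F : Type*} [Field F] {n : ℕ} (Q : QuadraticForm F (Fin n → F)) :
    Matrix.of (fun i j : Fin n => polar ⇑Q (Pi.single i 1) (Pi.single j 1))
      = LinearMap.BilinForm.toMatrix (Pi.basisFun F (Fin n)) (polarBilin Q) := by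
  ext i j
  rw [LinearMap.BilinForm.toMatrix_apply, Pi.basisFun_apply, Pi.basisFun_apply]
  rfl

/-- Over a finite field of odd order, two quadratic forms on F^n with non-degenerate polar forms are isometric iff their discriminants lie in the same square class. -/
theorem result {F : Type*} [Field F] [Fintype F] (h2 : (2 : F) ≠ 0) {n : ℕ} (Q₁ Q₂ : QuadraticForm F (Fin n → F)) (h₁ : (QuadraticMap.polarBilin Q₁).Nondegenerate) (h₂ : (QuadraticMap.polarBilin Q₂).Nondegenerate) : (∃ g : (Fin n → F) ≃ₗ[F] (Fin n → F), ∀ v, Q₂ (g v) = Q₁ v) ↔ IsSquare ((Matrix.of (fun i j : Fin n => QuadraticMap.polar ⇑Q₁ (Pi.single i 1) (Pi.single j 1))).det * (Matrix.of (fun i j : Fin n => QuadraticMap.polar ⇑Q₂ (Pi.single i 1) (Pi.single j 1))).det) := by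
  rw [std_gram, std_gram]
  constructor
  · rintro ⟨g, hg⟩
    have hG : LinearMap.BilinForm.toMatrix (Pi.basisFun F (Fin n)) (polarBilin Q₁)
        = LinearMap.BilinForm.toMatrix ((Pi.basisFun F (Fin n)).map g) (polarBilin Q₂) := by
      ext i j
      rw [LinearMap.BilinForm.toMatrix_apply, LinearMap.BilinForm.toMatrix_apply, Basis.map_apply,
        Basis.map_apply]
      have hpol : ∀ u v, polar Q₂ (g u) (g v) = polar Q₁ u v := by
        intro u v
        unfold polar
        rw [← g.map_add, hg, hg, hg]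
      exact (hpol _ _).symm
    obtain ⟨d, hd, hdet⟩ := gram_det_change ((Pi.basisFun F (Fin n)).map g) (Pi.basisFun F (Fin n))
      (polarBilin Q₂)
    rw [hG, hdet]
    exact ⟨d * (LinearMap.BilinForm.toMatrix (Pi.basisFun F (Fin n)) (polarBilin Q₂)).det, by ring⟩
  · intro hsq
    rcases Nat.eq_zero_or_pos n with hn | hn
    · subst hn
      refine ⟨LinearEquiv.refl F _, fun v => ?_⟩
      have hv : v = 0 := Subsingleton.elim v 0
      rw [hv, map_zero, map_zero, map_zero]
    · obtain ⟨k, rfl⟩ : ∃ k, n = k + 1 := ⟨n - 1, by omega⟩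
      obtain ⟨b₁, ha1, ha2, ha3⟩ := exists_diag_basis h2 k (Fin (k + 1) → F) Q₁
        (Module.finrank_fin_fun F) (sep_of_nondegenerate h₁)
      obtain ⟨b₂, hb1, hb2, hb3⟩ := exists_diag_basis h2 k (Fin (k + 1) → F) Q₂
        (Module.finrank_fin_fun F) (sep_of_nondegenerate h₂)
      obtain ⟨c₁, hc₁, hdet₁⟩ := gram_det_change (Pi.basisFun F (Fin (k + 1))) b₁ (polarBilin Q₁)
      obtain ⟨c₂, hc₂, hdet₂⟩ := gram_det_change (Pi.basisFun F (Fin (k + 1))) b₂ (polarBilin Q₂)
      rw [hdet₁, hdet₂, det_diag_basis Q₁ b₁ ha1 ha2, det_diag_basis Q₂ b₂ hb1 hb2] at hsq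
      set d₁ := Q₁ (b₁ (Fin.last k)) with hd₁
      set d₂ := Q₂ (b₂ (Fin.last k)) with hd₂
      have hsq' : IsSquare (d₁ * d₂) := by
        have e : c₁ ^ 2 * (2 ^ (k + 1) * d₁) * (c₂ ^ 2 * (2 ^ (k + 1) * d₂))
            = (c₁ * c₂ * 2 ^ (k + 1)) ^ 2 * (d₁ * d₂) := by ring
        rw [e] at hsq
        exact (isSquare_sq_mul_iff (mul_ne_zero (mul_ne_zero hc₁ hc₂) (pow_ne_zero _ h2))).mp hsq
      obtain ⟨s, hs⟩ := hsq'
      have ht : (s / d₂) * (s / d₂) * d₂ = d₁ := by
        have e1 : (s / d₂) * (s / d₂) * d₂ = (s * s) / d₂ := by field_simp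
        rw [e1, ← hs]
        field_simp
      have ht0 : s / d₂ ≠ 0 := by
        intro h0
        rw [h0] at ht
        apply ha3
        rw [← ht]; ring
      let w : Fin (k + 1) → F := fun i => if i = Fin.last k then s / d₂ else 1
      have hw : ∀ i, IsUnit (w i) := by
        intro i
        simp only [w]
        split_ifs
        · exact isUnit_iff_ne_zero.mpr ht0
        · exact isUnit_one
      let g := b₁.equiv (b₂.isUnitSMul hw) (Equiv.refl _)
      have hg : ∀ i, g (b₁ i) = w i • b₂ i := by
        intro i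
        simp only [g]
        rw [Basis.equiv_apply, Equiv.refl_apply, Basis.isUnitSMul_apply]
      have hval : ∀ i, Q₂ (g (b₁ i)) = Q₁ (b₁ i) := by
        intro i
        rw [hg, q_smul]
        by_cases hi : i = Fin.last k
        · subst hi
          simp only [w, if_true]
          exact ht
        · simp only [w, if_neg hi]
          rw [ha2 i hi, hb2 i hi]; ring
      have key : Q₂.comp g.toLinearMap = Q₁ := by
        apply quad_ext_basis b₁
        · intro i
          exact hval i
        · intro i j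
          by_cases hij : i = j
          · subst hij
            rw [polar_self', polar_self']
            congr 1
            exact hval i
          · rw [ha1 i j hij]
            have e2 : polar (Q₂.comp g.toLinearMap) (b₁ i) (b₁ j)
                = polar Q₂ (g (b₁ i)) (g (b₁ j)) := by
              unfold polar
              simp only [QuadraticMap.comp_apply, LinearEquiv.coe_coe, map_add]
            rw [e2, hg, hg, polar_smul_l, polar_smul_r, hb1 i j hij]
            ring
      exact ⟨g, fun v => by rw [← key]; rfl⟩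

end Cfsg.Agent.S2623
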