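import Cfsg.Statements.S5959
-- import your own Cfsg.Agent.* helpers here
import Cfsg.Agent.Lib.Helper95.NilJordan

set_option autoImplicit false
open scoped MatrixGroups
open Cfsg

namespace Cfsg.Agent.S5959

open Cfsg.Agent.Lib.Helper95.NilJordan Module

/-- additivity of ranks of powers over an invariant direct decomposition -/
theorem finrank_range_pow_add {F V : Type*} [Field F] [AddCommGroup V] [Module F V]
    [FiniteDimensional F V]
    (N : Module.End F V) (U W : Submodule F V) (hU : ∀ x ∈ U, N x ∈ U) (hW : ∀ x ∈ W, N x ∈ W)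
    (hdisj : U ⊓ W = ⊥) (hsup : U ⊔ W = ⊤) (m : ℕ) :
    finrank F (LinearMap.range (N ^ m)) =
      finrank F (LinearMap.range ((N.restrict hU : Module.End F U) ^ m)) +
      finrank F (LinearMap.range ((N.restrict hW : Module.End F W) ^ m)) := by
  have key : ∀ (U : Submodule F V) (hU : ∀ x ∈ U, N x ∈ U),
      finrank F (LinearMap.range ((N.restrict hU : Module.End F U) ^ m)) =
        finrank F (U.map (N ^ m)) := by
    intro U hU
    have : (LinearMap.range ((N.restrict hU : Module.End F U) ^ m)).map U.subtype =
        U.map (N ^ m) := by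
      ext y
      constructor
      · rintro ⟨_, ⟨x, rfl⟩, rfl⟩
        exact ⟨x, x.2, (restrict_pow_apply N U hU m x).symm⟩
      · rintro ⟨x, hx, rfl⟩
        exact ⟨_, ⟨⟨x, hx⟩, rfl⟩, restrict_pow_apply N U hU m ⟨x, hx⟩⟩
    rw [← this]
    exact (Submodule.finrank_map_subtype_eq _ _).symm
  have hpow : ∀ (U : Submodule F V) (hU : ∀ x ∈ U, N x ∈ U), U.map (N ^ m) ≤ U := by
    intro U hU
    rintro _ ⟨x, hx, rfl⟩
    have := restrict_pow_apply N U hU m ⟨x, hx⟩
    simp only at this
    rw [← this]
    exact Subtype.property _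
  rw [key U hU, key W hW, LinearMap.range_eq_map, ← hsup, Submodule.map_sup]
  have hdisj' : U.map (N ^ m) ⊓ W.map (N ^ m) = ⊥ := by
    apply le_antisymm _ bot_le
    rw [← hdisj]
    exact inf_le_inf (hpow U hU) (hpow W hW)
  have := Submodule.finrank_sup_add_finrank_inf_eq (U.map (N ^ m)) (W.map (N ^ m))
  rw [hdisj', finrank_bot, add_zero] at this
  exact this

theorem poly_identity (F : Type*) [Field F] (p : ℕ) [Fact p.Prime] [CharP F p] :
    ((Polynomial.X : Polynomial F) - 1) ^ (p - 1) = ∑ i ∈ Finset.range p, Polynomial.X ^ i := by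
  have hp : p - 1 + 1 = p := Nat.sub_add_cancel (Fact.out : p.Prime).one_lt.le
  have h1 : ((Polynomial.X : Polynomial F) - 1) * (Polynomial.X - 1) ^ (p - 1) =
      Polynomial.X ^ p - 1 := by
    rw [← pow_succ', hp, sub_pow_char, one_pow]
  have h2 : ((Polynomial.X : Polynomial F) - 1) * ∑ i ∈ Finset.range p, Polynomial.X ^ i =
      Polynomial.X ^ p - 1 := mul_geom_sum _ p
  have hne : (Polynomial.X : Polynomial F) - 1 ≠ 0 := by
    have := Polynomial.X_sub_C_ne_zero (1 : F)
    rwa [map_one] at this
  exact mul_left_cancel₀ hne (h1.trans h2.symm)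

theorem end_identity {F V : Type*} [Field F] [AddCommGroup V] [Module F V] (p : ℕ) [Fact p.Prime]
    [CharP F p] (X : Module.End F V) :
    (X - 1) ^ (p - 1) = ∑ i ∈ Finset.range p, X ^ i := by
  have := congrArg (Polynomial.aeval X) (poly_identity F p)
  simpa using this


/-- Elements of order `p` of PSL_n(q) and imprimitive subgroups: a necessary condition. Here `T = PSL_n(F)` for a field `F` with `q = p^f` elements (`n ≥ 2`, `(n, q) ≠ (2, 2), (2, 3)`), `n = a·t` with `t ≥ 2`, and Ω is the set of direct-sum decompositions of `F^n` into `t` subspaces of dimension `a` (unordered; their number is the number of ordered ones divided by `t!`), whose stabilizers are the imprimitive subgroups of type GL_a(q) ≀ S_t (maximal except in some small cases; maximality is not assumed); an element of `T` of prime order `r` (a matrix `x` of determinant 1 with `x^r` scalar, `x` not scalar) fixes a point of Ω when it permutes the summands of some such decomposition. Suppose `p > 2` divides the number of such decompositions. If every element of `T` of order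 `p` stabilizes such a decomposition, then every partition of `n` into parts of size at most `p` in which the part `p` occurs fewer than `a` times contains (as a sub-multiset) a partition of `a`. -/
theorem result {F : Type*} [Field F] [Fintype F] {p : ℕ} [Fact p.Prime] [CharP F p] {q : ℕ} (hq : Fintype.card F = q)
    (n a t : ℕ) (hn : 2 ≤ n) (hT : (n, q) ≠ (2, 2) ∧ (n, q) ≠ (2, 3)) (hat : n = a * t) (ha : 1 ≤ a) (ht : 2 ≤ t)
    (hp : 2 < p) (hΩ : p ∣ Nat.card {D : Fin t → Submodule F (Fin n → F) // Cfsg.Geo.IsMDecomposition a D} / Nat.factorial t)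
    (h : ∀ x : Matrix.SpecialLinearGroup (Fin n) F,
      (∃ z : F, ((x ^ p : Matrix.SpecialLinearGroup (Fin n) F) : Matrix (Fin n) (Fin n) F) = z • (1 : Matrix (Fin n) (Fin n) F)) →
      (∀ z : F, (x : Matrix (Fin n) (Fin n) F) ≠ z • (1 : Matrix (Fin n) (Fin n) F)) →
      ∃ D : Fin t → Submodule F (Fin n → F), Cfsg.Geo.IsMDecomposition a D ∧
        ∃ σ : Equiv.Perm (Fin t), ∀ j, (D j).map (Matrix.toLin' (x : Matrix (Fin n) (Fin n) F)) = D (σ j)) :
    (∀ μ : Multiset ℕ, (∀ b ∈ μ, 0 < b ∧ b ≤ p) → μ.sum = n → μ.count p < a → ∃ ν : Multiset ℕ, ν ≤ μ ∧ ν.sum = a) := by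
  classical
  intro μ hμ hsum hcount
  have hpp : p.Prime := Fact.out
  have hnpos : 0 < n := by omega
  have hane : a ≤ n := by rw [hat]; exact Nat.le_mul_of_pos_right a (by omega)
  let lam : Nat.Partition n := ⟨μ, fun {i} hi => (hμ i hi).1, hsum⟩
  obtain ⟨r, k, hpos, hmap, hksum⟩ := exists_indexing lam
  have hmap' : Multiset.map k Finset.univ.val = μ := hmap
  have hkp : ∀ i, k i ≤ p := fun i =>
    (hμ (k i) (by rw [← hmap']; exact Multiset.mem_map_of_mem k (Finset.mem_univ_val i))).2
  obtain ⟨A, v, hJ⟩ := exists_model_mat (F := F) k hpos hksum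
  have hAp : A ^ p = 0 := (mat_pow_eq_zero_iff A hJ p).mpr hkp
  by_cases hA0 : A = 0
  · -- all parts are 1
    have hk1 : ∀ i, k i = 1 := by
      have h1 : A ^ 1 = 0 := by rw [pow_one, hA0]
      intro i
      have := (mat_pow_eq_zero_iff A hJ 1).mp h1 i
      have := hpos i
      omega
    have hμ1 : μ = Multiset.replicate (Multiset.card μ) 1 := by
      rw [Multiset.eq_replicate_card]
      intro b hb
      rw [← hmap'] at hb
      obtain ⟨i, _, rfl⟩ := Multiset.mem_map.mp hb
      exact hk1 i
    have hcard : Multiset.card μ = n := by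
      have := hsum
      rw [hμ1] at this
      simpa using this
    rw [hcard] at hμ1
    refine ⟨Multiset.replicate a 1, ?_, by simp⟩
    rw [hμ1]
    exact (Multiset.replicate_le_replicate 1).mpr hane
  · have : Nonempty (Fin n) := ⟨⟨0, hnpos⟩⟩
    have hchar : CharP (Matrix (Fin n) (Fin n) F) p := inferInstance
    have hXp : (1 + A) ^ p = 1 := by
      rw [add_pow_char_of_commute p (Commute.one_left A), one_pow, hAp, add_zero]
    have hdet : (1 + A).det = 1 := by
      have h1 : (1 + A).det ^ p = 1 := by rw [← Matrix.det_pow, hXp, Matrix.det_one]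
      have h2 : ((1 + A).det - 1) ^ p = 0 := by rw [sub_pow_char, h1, one_pow, sub_self]
      exact sub_eq_zero.mp ((pow_eq_zero_iff hpp.ne_zero).mp h2)
    let x : Matrix.SpecialLinearGroup (Fin n) F := ⟨1 + A, hdet⟩
    have hxc : (x : Matrix (Fin n) (Fin n) F) = 1 + A := rfl
    have hx1 : ∃ z : F, ((x ^ p : Matrix.SpecialLinearGroup (Fin n) F) : Matrix (Fin n) (Fin n) F) =
        z • (1 : Matrix (Fin n) (Fin n) F) :=
      ⟨1, by rw [Matrix.SpecialLinearGroup.coe_pow, hxc, hXp, one_smul]⟩
    have hx2 : ∀ z : F, (x : Matrix (Fin n) (Fin n) F) ≠ z • (1 : Matrix (Fin n) (Fin n) F) := by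
      intro z hz
      have hz' : 1 + A = z • (1 : Matrix (Fin n) (Fin n) F) := hz
      have hA' : A = (z - 1) • (1 : Matrix (Fin n) (Fin n) F) := by
        rw [sub_smul, one_smul, ← hz']; simp
      have hz0 : (z - 1) ^ p = 0 := by
        have h3 := hAp
        rw [hA', smul_pow, one_pow] at h3
        have h00 := congrFun (congrFun h3 ⟨0, hnpos⟩) ⟨0, hnpos⟩
        simpa using h00
      have hz1 : z - 1 = 0 := (pow_eq_zero_iff hpp.ne_zero).mp hz0
      apply hA0
      rw [hA', hz1, zero_smul]
    obtain ⟨D, hD, σ, hσ⟩ := h x hx1 hx2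
    rw [hxc] at hσ
    set N : Module.End F (Fin n → F) := Matrix.toLin' A with hN
    set X : Module.End F (Fin n → F) := Matrix.toLin' (1 + A) with hX
    have hXN : N = X - 1 := by
      rw [hX, hN, map_add, Matrix.toLin'_one]
      show Matrix.toLin' A = 1 + Matrix.toLin' A - 1
      rw [add_sub_cancel_left]
    have hXpow : X ^ p = 1 := by
      rw [hX, ← Matrix.toLin'_pow, hXp, Matrix.toLin'_one]; rfl
    have hNpow : N ^ p = 0 := by
      rw [hN, ← Matrix.toLin'_pow, hAp, map_zero]
    -- D injective
    have hDne : ∀ j, D j ≠ ⊥ := by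
      intro j hj
      have h1 := hD.finrank_eq j
      rw [hj, finrank_bot] at h1
      have := hD.pos
      omega
    have hDinj : Function.Injective D := hD.indep.injective hDne
    have hiter : ∀ (m : ℕ) (j : Fin t), (D j).map (X ^ m) = D ((σ ^ m) j) := by
      intro m
      induction m with
      | zero =>
        intro j
        rw [pow_zero, pow_zero]
        exact Submodule.map_id _
      | succ m ih =>
        intro j
        rw [pow_succ', pow_succ', Module.End.mul_eq_comp, Submodule.map_comp, ih, hσ]
        rfl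
    have hσp : ∀ j, (σ ^ p) j = j := by
      intro j
      apply hDinj
      rw [← hiter, hXpow]
      exact Submodule.map_id _
    have hfix : ∀ j, σ j = j := by
      intro j₀
      by_contra hne
      have hmove : ∀ i, 0 < i → i < p → (σ ^ i) j₀ ≠ j₀ := by
        intro i hi hip hfixi
        have hper : Function.IsPeriodicPt σ i j₀ := by
          show σ^[i] j₀ = j₀
          rw [Equiv.Perm.iterate_eq_pow]; exact hfixi
        have hperp : Function.IsPeriodicPt σ p j₀ := by
          show σ^[p] j₀ = j₀
          rw [Equiv.Perm.iterate_eq_pow]; exact hσp j₀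
        have hd1 := hper.minimalPeriod_dvd
        have hd2 := hperp.minimalPeriod_dvd
        rcases (Nat.dvd_prime hpp).mp hd2 with h1 | h1
        · exact hne (Function.minimalPeriod_eq_one_iff_isFixedPt.mp h1)
        · rw [h1] at hd1
          have := Nat.le_of_dvd hi hd1
          omega
      have hinj : ∀ w ∈ D j₀, (N ^ (p - 1)) w = 0 → w = 0 := by
        intro w hw hw0
        have hsum : ∑ i ∈ Finset.range p, (X ^ i) w =
            ∑ i ∈ Finset.range (p - 1), (X ^ (i + 1)) w + w := by
          conv_lhs => rw [← Nat.sub_add_cancel hpp.one_lt.le]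
          rw [Finset.sum_range_succ']
          simp
        rw [hXN, end_identity p X, LinearMap.sum_apply, hsum] at hw0
        have hmem : ∑ i ∈ Finset.range (p - 1), (X ^ (i + 1)) w ∈
            ⨆ (j : Fin t) (_ : j ≠ j₀), D j := by
          apply Submodule.sum_mem
          intro i hi
          have hi' : i < p - 1 := Finset.mem_range.mp hi
          have h1 : (X ^ (i + 1)) w ∈ D ((σ ^ (i + 1)) j₀) := by
            rw [← hiter]
            exact Submodule.mem_map_of_mem hw
          exact (le_iSup₂ (f := fun (j : Fin t) (_ : j ≠ j₀) => D j) _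
            (hmove (i + 1) (by omega) (by omega))) h1
        have hw' : w = -∑ i ∈ Finset.range (p - 1), (X ^ (i + 1)) w := by
          rw [eq_neg_iff_add_eq_zero, add_comm]; exact hw0
        have hwT : w ∈ ⨆ (j : Fin t) (_ : j ≠ j₀), D j := by
          rw [hw']; exact Submodule.neg_mem _ hmem
        have hdisj := hD.indep j₀
        have : w ∈ D j₀ ⊓ ⨆ (j : Fin t) (_ : j ≠ j₀), D j := ⟨hw, hwT⟩
        rw [disjoint_iff.mp hdisj] at this
        exact (Submodule.mem_bot F).mp this
      have hrank : a ≤ finrank F (LinearMap.range (N ^ (p - 1))) := by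
        let g : D j₀ →ₗ[F] (Fin n → F) := (N ^ (p - 1)).domRestrict (D j₀)
        have hg : Function.Injective g := by
          rw [← LinearMap.ker_eq_bot, LinearMap.ker_eq_bot']
          intro w hw
          exact Subtype.ext (hinj w.1 w.2 hw)
        have h1 : finrank F (LinearMap.range g) = a := by
          rw [LinearMap.finrank_range_of_inj hg, hD.finrank_eq]
        rw [← h1]
        apply Submodule.finrank_mono
        rintro _ ⟨w, rfl⟩
        exact ⟨w.1, rfl⟩
      have hcnt : finrank F (LinearMap.range (N ^ (p - 1))) = Multiset.count p μ := by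
        rw [hJ.finrank_range_pow (p - 1), ← hmap', count_map_univ, Finset.card_filter]
        apply Finset.sum_congr rfl
        intro i _
        have := hkp i
        have := hpos i
        split_ifs with hi <;> omega
      omega
    have hDN : ∀ j, ∀ w ∈ D j, N w ∈ D j := by
      intro j w hw
      have h1 : X w ∈ D j := by
        have := Submodule.mem_map_of_mem (f := X) hw
        rw [hσ, hfix] at this
        exact this
      rw [hXN]
      exact (D j).sub_mem h1 hw
    let j0 : Fin t := ⟨0, by omega⟩
    set U : Submodule F (Fin n → F) := D j0 with hUdef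
    set W : Submodule F (Fin n → F) := ⨆ (j : Fin t) (_ : j ≠ j0), D j with hWdef
    have hU : ∀ x ∈ U, N x ∈ U := hDN j0
    have hW : ∀ x ∈ W, N x ∈ W := by
      have : W ≤ W.comap N := by
        rw [hWdef]
        refine iSup₂_le (fun j hj => ?_)
        intro w hw
        exact (le_iSup₂ (f := fun (j : Fin t) (_ : j ≠ j0) => D j) j hj) (hDN j w hw)
      exact fun x hx => this hx
    have hdisj : U ⊓ W = ⊥ := disjoint_iff.mp (hD.indep j0)
    have hsup : U ⊔ W = ⊤ := by
      rw [eq_top_iff, ← hD.iSup_eq_top]
      refine iSup_le (fun j => ?_)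
      by_cases hj : j = j0
      · rw [hj]; exact le_sup_left
      · exact le_trans (le_iSup₂ (f := fun (j : Fin t) (_ : j ≠ j0) => D j) j hj) le_sup_right
    have hnilU : IsNilpotent (N.restrict hU : Module.End F U) := by
      refine ⟨p, ?_⟩
      ext1 x
      apply Subtype.ext
      rw [restrict_pow_apply, hNpow]; rfl
    have hnilW : IsNilpotent (N.restrict hW : Module.End F W) := by
      refine ⟨p, ?_⟩
      ext1 x
      apply Subtype.ext
      rw [restrict_pow_apply, hNpow]; rfl
    obtain ⟨ιU, _, kU, vU, hposU, hJU⟩ := exists_jordan _ U (N.restrict hU) hnilU rfl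
    obtain ⟨ιW, _, kW, vW, hposW, hJW⟩ := exists_jordan _ W (N.restrict hW) hnilW rfl
    have hsums : ∀ m, ∑ i, (k i - m) = ∑ s : ιU ⊕ ιW, (Sum.elim kU kW s - m) := by
      intro m
      rw [← hJ.finrank_range_pow m, finrank_range_pow_add N U W hU hW hdisj hsup m,
        hJU.finrank_range_pow m, hJW.finrank_range_pow m, Fintype.sum_sum_type]
      simp
    have heq := multiset_eq_of_sums k (Sum.elim kU kW) hpos
      (by rintro (i | i); exacts [hposU i, hposW i]) hsums
    refine ⟨Multiset.map kU Finset.univ.val, ?_, ?_⟩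
    · rw [← hmap', heq]
      have hsplit : Multiset.map (Sum.elim kU kW) (Finset.univ : Finset (ιU ⊕ ιW)).val =
          Multiset.map kU Finset.univ.val + Multiset.map kW Finset.univ.val := by
        rw [← Finset.univ_disjSum_univ]
        simp [Finset.disjSum, Multiset.disjSum, Multiset.map_map]
      rw [hsplit]
      exact Multiset.le_add_right _ _
    · have h0 := hJU.finrank_range_pow 0
      rw [pow_zero] at h0
      have h1 : LinearMap.range (1 : Module.End F U) = ⊤ := LinearMap.range_id
      rw [h1, finrank_top, hD.finrank_eq] at h0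
      have h2 : (Multiset.map kU Finset.univ.val).sum = ∑ i, kU i := rfl
      rw [h2, h0]
      simp

end Cfsg.Agent.S5959
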