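import Cfsg.Statements.S2616
import Cfsg.Agent.Lib.Helper44.QBasis

set_option autoImplicit false
open Cfsg

namespace Cfsg.Agent.S2616

open Module QuadraticMap
open Cfsg.Agent.Lib.Helper44.QSpace Cfsg.Agent.Lib.Helper44.QClass Cfsg.Agent.Lib.Helper44.QBasis

/-- Standard bases of a non-degenerate quadratic space of even dimension 2m over a finite field. -/
theorem result {F V : Type*} [Field F] [Finite F] [AddCommGroup V] [Module F V] [FiniteDimensional F V] {m : ℕ} (hm : 1 ≤ m) (hV : Module.finrank F V = 2 * m) (Q : QuadraticForm F V) (hQ : (QuadraticMap.polarBilin Q).Nondegenerate) : (∃ b : Module.Basis (Fin m ⊕ Fin m) F V, (∀ i, Q (b (Sum.inl i)) = 0 ∧ Q (b (Sum.inr i)) = 0) ∧ (∀ i j, QuadraticMap.polar ⇑Q (b (Sum.inl i)) (b (Sum.inr j)) = if i = j then 1 else 0) ∧ (∀ i j, QuadraticMap.polar ⇑Q (b (Sum.inl i)) (b (Sum.inl j)) = 0 ∧ QuadraticMap.polar ⇑Q (b (Sum.inr i)) (b (Sum.inr j)) = 0))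 ∨ (∃ (b : Module.Basis ((Fin (m - 1) ⊕ Fin (m - 1)) ⊕ Fin 2) F V) (ζ : F), (∀ t : F, t ^ 2 + t + ζ ≠ 0) ∧ (∀ i, Q (b (Sum.inl (Sum.inl i))) = 0 ∧ Q (b (Sum.inl (Sum.inr i))) = 0) ∧ (∀ i j, QuadraticMap.polar ⇑Q (b (Sum.inl (Sum.inl i))) (b (Sum.inl (Sum.inr j))) = if i = j then 1 else 0) ∧ (∀ i j, QuadraticMap.polar ⇑Q (b (Sum.inl (Sum.inl i))) (b (Sum.inl (Sum.inl j))) = 0 ∧ QuadraticMap.polar ⇑Q (b (Sum.inl (Sum.inr i))) (b (Sum.inl (Sum.inr j))) = 0) ∧ (∀ i (k : Fin 2), QuadraticMap.polar ⇑Q (b (Sum.inl (Sum.inl i))) (b (Sum.inr k)) = 0 ∧ QuadraticMap.polar ⇑Q (b (Sum.inl (Sum.inr i))) (b (Sum.inr k)) = 0) ∧ Q (b (Sum.inr 0)) = 1 ∧ QuadraticMap.polar ⇑Q (b (Sum.inr 0)) (b (Sum.inr 1)) = 1 ∧ Q (b (Sum.inr 1)) = ζ) := by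
  obtain ⟨k, rfl⟩ : ∃ k, m = k + 1 := ⟨m - 1, by omega⟩
  have hk : k + 1 - 1 = k := by omega
  rw [hk]
  rcases exists_hyp_even k V Q hV (sep_of_nondegenerate hQ) with
    ⟨e, f, hH⟩ | ⟨e, f, x, y, ζ, hH, hE, hO⟩
  · left
    obtain ⟨b, hb⟩ := exists_hyp_basis hH (Fin.elim0 : Fin 0 → V) linearIndependent_empty_type
      (fun _ t => t.elim0) (fun _ t => t.elim0) (by simp; omega)
    obtain ⟨h1, h2, h3, h4, h5⟩ := hH
    refine ⟨b.reindex (Equiv.sumEmpty _ _), ?_, ?_, ?_⟩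
    · intro i
      simp only [Basis.reindex_apply, hb, Equiv.sumEmpty_symm_apply, Sum.elim_inl, Sum.elim_inr]
      exact ⟨h1 i, h2 i⟩
    · intro i j
      simp only [Basis.reindex_apply, hb, Equiv.sumEmpty_symm_apply, Sum.elim_inl, Sum.elim_inr]
      exact h3 i j
    · intro i j
      simp only [Basis.reindex_apply, hb, Equiv.sumEmpty_symm_apply, Sum.elim_inl, Sum.elim_inr]
      exact ⟨h4 i j, h5 i j⟩
  · right
    have her : ∀ i (t : Fin 2), polar Q (e i) (![x, y] t) = 0 := by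
      intro i t
      fin_cases t
      · exact (hO i).1
      · exact (hO i).2.1
    have hfr : ∀ i (t : Fin 2), polar Q (f i) (![x, y] t) = 0 := by
      intro i t
      fin_cases t
      · exact (hO i).2.2.1
      · exact (hO i).2.2.2
    obtain ⟨b, hb⟩ := exists_hyp_basis hH ![x, y] (linearIndependent_ell hE) her hfr
      (by simp; omega)
    obtain ⟨h1, h2, h3, h4, h5⟩ := hH
    obtain ⟨hx, hxy, hy, hζ⟩ := hE
    refine ⟨b, ζ, hζ, ?_, ?_, ?_, ?_, ?_, ?_, ?_⟩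
    · intro i
      simp only [hb, Sum.elim_inl, Sum.elim_inr]
      exact ⟨h1 i, h2 i⟩
    · intro i j
      simp only [hb, Sum.elim_inl, Sum.elim_inr]
      exact h3 i j
    · intro i j
      simp only [hb, Sum.elim_inl, Sum.elim_inr]
      exact ⟨h4 i j, h5 i j⟩
    · intro i t
      simp only [hb, Sum.elim_inl, Sum.elim_inr]
      exact ⟨her i t, hfr i t⟩
    · simpa [hb] using hx
    · simpa [hb] using hxy
    · simpa [hb] using hy

end Cfsg.Agent.S2616
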