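import Cfsg.Statements.S0024
import Mathlib
import Cfsg.Agent.S0023

set_option autoImplicit false
open Pointwise
open Cfsg

namespace Cfsg.Agent.S0024

open Pointwise Cfsg.Agent.S0023

/-- Under coprime action (A normalising K, coprime orders, A or K solvable), any two A-invariant Sylow p-subgroups of K are conjugate by an element of the centraliser of A in K. -/
theorem result {G : Type*} [Group G] [Finite G] (A K : Subgroup G) (hAK : A ≤ Subgroup.normalizer (K : Set G))
    (hcop : (Nat.card A).Coprime (Nat.card K)) (hsolv : Group.IsSolvable A ∨ Group.IsSolvable K)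
    (p : ℕ) [Fact p.Prime] (P Q : Sylow p K)
    (hP : A ≤ Subgroup.normalizer ((P : Subgroup K).map K.subtype : Set G))
    (hQ : A ≤ Subgroup.normalizer ((Q : Subgroup K).map K.subtype : Set G)) :
    ∃ c : K, (c : G) ∈ Subgroup.centralizer (A : Set G) ∧ MulAut.conj c • P = Q := by
  classical
  have hKL : K ≤ K ⊔ A := le_sup_left
  have hAL : A ≤ K ⊔ A := le_sup_right
  have hLn : K ⊔ A ≤ Subgroup.normalizer (K : Set G) := sup_le Subgroup.le_normalizer hAK
  letI := conjAction K (K ⊔ A) hLn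
  haveI : (K.subgroupOf (K ⊔ A)).Normal :=
    (Subgroup.normal_subgroupOf_iff_le_normalizer hKL).mpr hLn
  have hd : Disjoint K A := Subgroup.disjoint_of_coprime_natCard hcop.symm
  have hcompl := compl_in_sup K A hAK hd
  have hcopL : (Nat.card (K.subgroupOf (K ⊔ A))).Coprime (Nat.card (A.subgroupOf (K ⊔ A))) := by
    rw [Cfsg.Agent.S0001.card_subgroupOf_of_le hKL, Cfsg.Agent.S0001.card_subgroupOf_of_le hAL]
    exact hcop.symm
  have hsolvL : Group.IsSolvable (K.subgroupOf (K ⊔ A)) ∨ Group.IsSolvable (A.subgroupOf (K ⊔ A)) := by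
    rcases hsolv with h | h
    · right; exact Cfsg.Agent.S0001.solv_subgroupOf A _
    · left; exact Cfsg.Agent.S0001.solv_subgroupOf K _
  have htrans : ∀ P Q : Sylow p K, ∃ k ∈ K.subgroupOf (K ⊔ A), k • P = Q := by
    intro P Q
    obtain ⟨c, hc⟩ := MulAction.exists_smul_eq K P Q
    refine ⟨⟨c, hKL c.2⟩, Subgroup.mem_subgroupOf.mpr c.2, ?_⟩
    rw [smul_eq_conj K (K ⊔ A) hLn p P c (hKL c.2)]
    exact hc
  have hfix : ∀ R : Sylow p K,
      A ≤ Subgroup.normalizer ((R : Subgroup K).map K.subtype : Set G) →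
      ∀ a ∈ A.subgroupOf (K ⊔ A), a • R = R := by
    intro R hR a ha
    exact smul_eq_of_mem_normalizer K (K ⊔ A) hLn p R a (hR (Subgroup.mem_subgroupOf.mp ha))
  obtain ⟨k, hk, hkPQ⟩ := Cfsg.Agent.S0059.glauberman_conj (K.subgroupOf (K ⊔ A))
    (A.subgroupOf (K ⊔ A)) hcompl hcopL hsolvL htrans P Q (hfix P hP) (hfix Q hQ)
  have hkK : (k : G) ∈ K := Subgroup.mem_subgroupOf.mp hk.1
  refine ⟨⟨k, hkK⟩, ?_, ?_⟩
  · rw [Subgroup.mem_centralizer_iff]
    intro a ha
    have h1 := (Subgroup.mem_centralizer_iff.mp hk.2) ⟨a, hAL ha⟩ (Subgroup.mem_subgroupOf.mpr ha)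
    exact congrArg Subtype.val h1
  · rw [← smul_eq_conj K (K ⊔ A) hLn p P ⟨k, hkK⟩ k.2]
    exact hkPQ

end Cfsg.Agent.S0024
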