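import Cfsg.Statements.S1054
import Cfsg.Agent.Lib.Helper18.LAll
import Cfsg.Agent.Lib.Helper18.Simple
import Cfsg.Agent.S1023
import Cfsg.Agent.S1024
import Cfsg.Agent.S1050
import Cfsg.Agent.S0319

set_option autoImplicit false
open Cfsg

namespace Cfsg.Agent.S1054

/-- The Chevalley groups of types D₄, F₄, E₆, E₇, E₈ are simple over every field. -/
theorem result {F : Type*} [Field F] (D : Cfsg.Lie.ChevalleyDatum)
    (hD : D ∈ [Cfsg.Lie.chevD4, Cfsg.Lie.chevF4, Cfsg.Lie.chevE6, Cfsg.Lie.chevE7, Cfsg.Lie.chevE8]) :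
    IsSimpleGroup ↥(D.group F) ∧ ¬ IsMulCommutative ↥(D.group F) := by
  have hD' : D ∈ [Cfsg.Lie.chevG2, Cfsg.Lie.chevB2, Cfsg.Lie.chevD4, Cfsg.Lie.chevF4,
      Cfsg.Lie.chevE6, Cfsg.Lie.chevE7, Cfsg.Lie.chevE8] :=
    List.mem_cons_of_mem _ (List.mem_cons_of_mem _ hD)
  obtain ⟨A, X, m, w, small, wd, par, dep, wit, hC, hQ, hsm, hL, hI, hn⟩ :=
    Cfsg.Agent.Lib.Helper18.LAll.exists_lfacts D hD'
  have hns : small ≠ true := by
    intro h
    simp only [List.mem_cons, List.not_mem_nil, or_false] at hD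
    have h2 : D.rank = 2 := by rcases hsm h with e | e <;> rw [e] <;> rfl
    rcases hD with e | e | e | e | e <;> rw [e] at h2 <;> revert h2 <;> decide
  exact Cfsg.Agent.Lib.Helper18.Simple.simple hC
    (fun r hr t u => Cfsg.Agent.S1023.result D hD' r hr t u)
    (fun r hr t h => (Cfsg.Agent.S1024.result D hD' r hr t).mp h) hQ
    (fun h => absurd h hns) hL hI hn (Cfsg.Agent.S1050.result D hD')
    (fun _ P h1 h2 h3 h4 => Cfsg.Agent.S0319.result P h1 h2 h3 h4)

end Cfsg.Agent.S1054
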