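import Cfsg.Statements.S1056
import Cfsg.Agent.Lib.Helper18.LAll
import Cfsg.Agent.Lib.Helper18.Simple
import Cfsg.Agent.S1023
import Cfsg.Agent.S1024
import Cfsg.Agent.S1050
import Cfsg.Agent.S0319

set_option autoImplicit false
open Cfsg

namespace Cfsg.Agent.S1056

/-- B₂(F) is simple for every field `F` other than the field with two elements. -/
theorem result {F : Type*} [Field F] (hF : ∃ a : F, a ≠ 0 ∧ a ≠ 1) : IsSimpleGroup ↥(Cfsg.Lie.chevB2.group F) ∧ ¬ IsMulCommutative ↥(Cfsg.Lie.chevB2.group F) := by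
  have hD' : Cfsg.Lie.chevB2 ∈ [Cfsg.Lie.chevG2, Cfsg.Lie.chevB2, Cfsg.Lie.chevD4, Cfsg.Lie.chevF4,
      Cfsg.Lie.chevE6, Cfsg.Lie.chevE7, Cfsg.Lie.chevE8] := by simp
  obtain ⟨A, X, m, w, small, wd, par, dep, wit, hC, hQ, hsm, hL, hI, hn⟩ :=
    Cfsg.Agent.Lib.Helper18.LAll.exists_lfacts Cfsg.Lie.chevB2 hD'
  exact Cfsg.Agent.Lib.Helper18.Simple.simple hC
    (fun r hr t u => Cfsg.Agent.S1023.result Cfsg.Lie.chevB2 hD' r hr t u)
    (fun r hr t h => (Cfsg.Agent.S1024.result Cfsg.Lie.chevB2 hD' r hr t).mp h) hQ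
    (fun _ => hF) hL hI hn (Cfsg.Agent.S1050.result Cfsg.Lie.chevB2 hD')
    (fun _ P h1 h2 h3 h4 => Cfsg.Agent.S0319.result P h1 h2 h3 h4)

end Cfsg.Agent.S1056
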