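import Cfsg.Statements.S1058
import Cfsg.Agent.H18.ChevMap

set_option autoImplicit false
open Cfsg

namespace Cfsg.Agent.S1058

/-! The bridge: the group `P = ⟨x, y | x², y⁶, (xy)⁵, (xy⁵xy)³, (xy⁴xy²)², (xy³xy³)²⟩` has 720
elements (verified coset enumeration), is isomorphic to `Sym(6)`, and maps isomorphically onto the
Chevalley group of type `B₂` over the field with two elements. -/

abbrev fx : FreeGroup (Fin 2) := FreeGroup.of 0
abbrev fy : FreeGroup (Fin 2) := FreeGroup.of 1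

abbrev rels : Set (FreeGroup (Fin 2)) :=
  {fx ^ 2, fy ^ 6, (fx * fy) ^ 5, (fx * fy ^ 5 * fx * fy) ^ 3, (fx * fy ^ 4 * fx * fy ^ 2) ^ 2, (fx * fy ^ 3 * fx * fy ^ 3) ^ 2}

abbrev P := PresentedGroup rels

noncomputable def x : P := PresentedGroup.of 0
noncomputable def y : P := PresentedGroup.of 1

theorem hA : x ^ 2 = 1 := by
  have h : PresentedGroup.mk rels (fx ^ 2) = 1 :=
    PresentedGroup.one_of_mem (by simp [rels])
  simp only [map_pow, map_mul] at h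
  exact h

theorem relA (a : P) : a * x * x = a := by
  calc a * x * x = a * (x ^ 2) := by
        simp only [pow_succ, pow_zero, one_mul, mul_assoc]
    _ = a := by rw [hA, mul_one]

theorem hB : y ^ 6 = 1 := by
  have h : PresentedGroup.mk rels (fy ^ 6) = 1 :=
    PresentedGroup.one_of_mem (by simp [rels])
  simp only [map_pow, map_mul] at h
  exact h

theorem relB (a : P) : a * y * y * y * y * y * y = a := by
  calc a * y * y * y * y * y * y = a * (y ^ 6) := by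
        simp only [pow_succ, pow_zero, one_mul, mul_assoc]
    _ = a := by rw [hB, mul_one]

theorem hC : (x * y) ^ 5 = 1 := by
  have h : PresentedGroup.mk rels ((fx * fy) ^ 5) = 1 :=
    PresentedGroup.one_of_mem (by simp [rels])
  simp only [map_pow, map_mul] at h
  exact h

theorem relC (a : P) : a * x * y * x * y * x * y * x * y * x * y = a := by
  calc a * x * y * x * y * x * y * x * y * x * y = a * ((x * y) ^ 5) := by
        simp only [pow_succ, pow_zero, one_mul, mul_assoc]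
    _ = a := by rw [hC, mul_one]

theorem hD : (x * y ^ 5 * x * y) ^ 3 = 1 := by
  have h : PresentedGroup.mk rels ((fx * fy ^ 5 * fx * fy) ^ 3) = 1 :=
    PresentedGroup.one_of_mem (by simp [rels])
  simp only [map_pow, map_mul] at h
  exact h

theorem relD (a : P) : a * x * y * y * y * y * y * x * y * x * y * y * y * y * y * x * y * x * y * y * y * y * y * x * y = a := by
  calc a * x * y * y * y * y * y * x * y * x * y * y * y * y * y * x * y * x * y * y * y * y * y * x * y = a * ((x * y ^ 5 * x * y) ^ 3) := by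
        simp only [pow_succ, pow_zero, one_mul, mul_assoc]
    _ = a := by rw [hD, mul_one]

theorem hE : (x * y ^ 4 * x * y ^ 2) ^ 2 = 1 := by
  have h : PresentedGroup.mk rels ((fx * fy ^ 4 * fx * fy ^ 2) ^ 2) = 1 :=
    PresentedGroup.one_of_mem (by simp [rels])
  simp only [map_pow, map_mul] at h
  exact h

theorem relE (a : P) : a * x * y * y * y * y * x * y * y * x * y * y * y * y * x * y * y = a := by
  calc a * x * y * y * y * y * x * y * y * x * y * y * y * y * x * y * y = a * ((x * y ^ 4 * x * y ^ 2) ^ 2) := by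
        simp only [pow_succ, pow_zero, one_mul, mul_assoc]
    _ = a := by rw [hE, mul_one]

theorem hF : (x * y ^ 3 * x * y ^ 3) ^ 2 = 1 := by
  have h : PresentedGroup.mk rels ((fx * fy ^ 3 * fx * fy ^ 3) ^ 2) = 1 :=
    PresentedGroup.one_of_mem (by simp [rels])
  simp only [map_pow, map_mul] at h
  exact h

theorem relF (a : P) : a * x * y * y * y * x * y * y * y * x * y * y * y * x * y * y * y = a := by
  calc a * x * y * y * y * x * y * y * y * x * y * y * y * x * y * y * y = a * ((x * y ^ 3 * x * y ^ 3) ^ 2) := by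
        simp only [pow_succ, pow_zero, one_mul, mul_assoc]
    _ = a := by rw [hF, mul_one]


noncomputable def r0 : P := 1
noncomputable def r1 : P := r0 * x
noncomputable def r2 : P := r0 * y
noncomputable def r3 : P := r1 * y
noncomputable def r4 : P := r2 * x
noncomputable def r5 : P := r2 * y
noncomputable def r6 : P := r3 * x
noncomputable def r7 : P := r3 * y
noncomputable def r8 : P := r4 * y
noncomputable def r9 : P := r5 * x
noncomputable def r10 : P := r5 * y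
noncomputable def r11 : P := r6 * y
noncomputable def r12 : P := r7 * x
noncomputable def r13 : P := r7 * y
noncomputable def r14 : P := r8 * x
noncomputable def r15 : P := r8 * y
noncomputable def r16 : P := r9 * y
noncomputable def r17 : P := r10 * x
noncomputable def r18 : P := r10 * y
noncomputable def r19 : P := r11 * x
noncomputable def r20 : P := r11 * y
noncomputable def r21 : P := r12 * y
noncomputable def r22 : P := r13 * x
noncomputable def r23 : P := r13 * y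
noncomputable def r24 : P := r14 * y
noncomputable def r25 : P := r15 * x
noncomputable def r26 : P := r15 * y
noncomputable def r27 : P := r16 * x
noncomputable def r28 : P := r16 * y
noncomputable def r29 : P := r17 * y
noncomputable def r30 : P := r18 * x
noncomputable def r31 : P := r18 * y
noncomputable def r32 : P := r19 * y
noncomputable def r33 : P := r20 * x
noncomputable def r34 : P := r20 * y
noncomputable def r35 : P := r21 * x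
noncomputable def r36 : P := r21 * y
noncomputable def r37 : P := r22 * y
noncomputable def r38 : P := r23 * x
noncomputable def r39 : P := r23 * y
noncomputable def r40 : P := r24 * x
noncomputable def r41 : P := r24 * y
noncomputable def r42 : P := r25 * y
noncomputable def r43 : P := r26 * x
noncomputable def r44 : P := r26 * y
noncomputable def r45 : P := r27 * y
noncomputable def r46 : P := r28 * x
noncomputable def r47 : P := r28 * y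
noncomputable def r48 : P := r29 * x
noncomputable def r49 : P := r29 * y
noncomputable def r50 : P := r30 * y
noncomputable def r51 : P := r31 * x
noncomputable def r52 : P := r32 * x
noncomputable def r53 : P := r32 * y
noncomputable def r54 : P := r33 * y
noncomputable def r55 : P := r34 * x
noncomputable def r56 : P := r34 * y
noncomputable def r57 : P := r35 * y
noncomputable def r58 : P := r36 * x
noncomputable def r59 : P := r36 * y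
noncomputable def r60 : P := r37 * x
noncomputable def r61 : P := r37 * y
noncomputable def r62 : P := r38 * y
noncomputable def r63 : P := r39 * x
noncomputable def r64 : P := r41 * x
noncomputable def r65 : P := r41 * y
noncomputable def r66 : P := r42 * x
noncomputable def r67 : P := r42 * y
noncomputable def r68 : P := r43 * y
noncomputable def r69 : P := r44 * x
noncomputable def r70 : P := r44 * y
noncomputable def r71 : P := r45 * x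
noncomputable def r72 : P := r45 * y
noncomputable def r73 : P := r46 * y
noncomputable def r74 : P := r47 * x
noncomputable def r75 : P := r47 * y
noncomputable def r76 : P := r48 * y
noncomputable def r77 : P := r49 * x
noncomputable def r78 : P := r49 * y
noncomputable def r79 : P := r50 * x
noncomputable def r80 : P := r50 * y
noncomputable def r81 : P := r51 * y
noncomputable def r82 : P := r53 * x
noncomputable def r83 : P := r53 * y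
noncomputable def r84 : P := r54 * x
noncomputable def r85 : P := r54 * y
noncomputable def r86 : P := r55 * y
noncomputable def r87 : P := r56 * x
noncomputable def r88 : P := r56 * y
noncomputable def r89 : P := r57 * x
noncomputable def r90 : P := r57 * y
noncomputable def r91 : P := r58 * y
noncomputable def r92 : P := r59 * x
noncomputable def r93 : P := r59 * y
noncomputable def r94 : P := r60 * y
noncomputable def r95 : P := r61 * x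
noncomputable def r96 : P := r61 * y
noncomputable def r97 : P := r62 * x
noncomputable def r98 : P := r62 * y
noncomputable def r99 : P := r63 * y
noncomputable def r100 : P := r64 * y
noncomputable def r101 : P := r65 * x
noncomputable def r102 : P := r65 * y
noncomputable def r103 : P := r66 * y
noncomputable def r104 : P := r67 * x
noncomputable def r105 : P := r67 * y
noncomputable def r106 : P := r68 * x
noncomputable def r107 : P := r68 * y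
noncomputable def r108 : P := r69 * y
noncomputable def r109 : P := r70 * x
noncomputable def r110 : P := r72 * x
noncomputable def r111 : P := r72 * y
noncomputable def r112 : P := r73 * x
noncomputable def r113 : P := r73 * y
noncomputable def r114 : P := r74 * y
noncomputable def r115 : P := r75 * y
noncomputable def r116 : P := r76 * x
noncomputable def r117 : P := r76 * y
noncomputable def r118 : P := r77 * y
noncomputable def r119 : P := r78 * y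
noncomputable def r120 : P := r79 * y
noncomputable def r121 : P := r80 * y
noncomputable def r122 : P := r81 * x
noncomputable def r123 : P := r81 * y
noncomputable def r124 : P := r82 * y
noncomputable def r125 : P := r83 * x
noncomputable def r126 : P := r83 * y
noncomputable def r127 : P := r84 * y
noncomputable def r128 : P := r85 * x
noncomputable def r129 : P := r85 * y
noncomputable def r130 : P := r86 * x
noncomputable def r131 : P := r86 * y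
noncomputable def r132 : P := r87 * y
noncomputable def r133 : P := r88 * x
noncomputable def r134 : P := r90 * x
noncomputable def r135 : P := r90 * y
noncomputable def r136 : P := r91 * x
noncomputable def r137 : P := r91 * y
noncomputable def r138 : P := r92 * y
noncomputable def r139 : P := r93 * y
noncomputable def r140 : P := r94 * x
noncomputable def r141 : P := r94 * y
noncomputable def r142 : P := r95 * y
noncomputable def r143 : P := r96 * y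
noncomputable def r144 : P := r97 * y
noncomputable def r145 : P := r98 * y
noncomputable def r146 : P := r99 * x
noncomputable def r147 : P := r99 * y
noncomputable def r148 : P := r100 * x
noncomputable def r149 : P := r100 * y
noncomputable def r150 : P := r101 * y
noncomputable def r151 : P := r102 * x
noncomputable def r152 : P := r102 * y
noncomputable def r153 : P := r103 * x
noncomputable def r154 : P := r103 * y
noncomputable def r155 : P := r104 * y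
noncomputable def r156 : P := r105 * x
noncomputable def r157 : P := r105 * y
noncomputable def r158 : P := r106 * y
noncomputable def r159 : P := r107 * x
noncomputable def r160 : P := r107 * y
noncomputable def r161 : P := r108 * x
noncomputable def r162 : P := r108 * y
noncomputable def r163 : P := r109 * y
noncomputable def r164 : P := r110 * y
noncomputable def r165 : P := r111 * y
noncomputable def r166 : P := r112 * y
noncomputable def r167 : P := r113 * y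
noncomputable def r168 : P := r114 * x
noncomputable def r169 : P := r114 * y
noncomputable def r170 : P := r115 * x
noncomputable def r171 : P := r117 * y
noncomputable def r172 : P := r118 * x
noncomputable def r173 : P := r118 * y
noncomputable def r174 : P := r119 * y
noncomputable def r175 : P := r120 * x
noncomputable def r176 : P := r120 * y
noncomputable def r177 : P := r121 * y
noncomputable def r178 : P := r122 * y
noncomputable def r179 : P := r123 * y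
noncomputable def r180 : P := r124 * x
noncomputable def r181 : P := r124 * y
noncomputable def r182 : P := r125 * y
noncomputable def r183 : P := r126 * x
noncomputable def r184 : P := r126 * y
noncomputable def r185 : P := r127 * x
noncomputable def r186 : P := r127 * y
noncomputable def r187 : P := r128 * y
noncomputable def r188 : P := r129 * x
noncomputable def r189 : P := r129 * y
noncomputable def r190 : P := r130 * y
noncomputable def r191 : P := r131 * x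
noncomputable def r192 : P := r131 * y
noncomputable def r193 : P := r132 * x
noncomputable def r194 : P := r132 * y
noncomputable def r195 : P := r133 * y
noncomputable def r196 : P := r134 * y
noncomputable def r197 : P := r135 * y
noncomputable def r198 : P := r136 * y
noncomputable def r199 : P := r137 * y
noncomputable def r200 : P := r138 * x
noncomputable def r201 : P := r138 * y
noncomputable def r202 : P := r139 * x
noncomputable def r203 : P := r141 * y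
noncomputable def r204 : P := r142 * x
noncomputable def r205 : P := r142 * y
noncomputable def r206 : P := r143 * y
noncomputable def r207 : P := r144 * x
noncomputable def r208 : P := r144 * y
noncomputable def r209 : P := r145 * y
noncomputable def r210 : P := r146 * y
noncomputable def r211 : P := r147 * y
noncomputable def r212 : P := r148 * y
noncomputable def r213 : P := r149 * x
noncomputable def r214 : P := r149 * y
noncomputable def r215 : P := r150 * x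
noncomputable def r216 : P := r150 * y
noncomputable def r217 : P := r151 * y
noncomputable def r218 : P := r152 * x
noncomputable def r219 : P := r154 * x
noncomputable def r220 : P := r154 * y
noncomputable def r221 : P := r155 * x
noncomputable def r222 : P := r155 * y
noncomputable def r223 : P := r156 * y
noncomputable def r224 : P := r157 * y
noncomputable def r225 : P := r158 * x
noncomputable def r226 : P := r158 * y
noncomputable def r227 : P := r159 * y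
noncomputable def r228 : P := r160 * y
noncomputable def r229 : P := r161 * y
noncomputable def r230 : P := r162 * y
noncomputable def r231 : P := r163 * y
noncomputable def r232 : P := r164 * x
noncomputable def r233 : P := r164 * y
noncomputable def r234 : P := r165 * x
noncomputable def r235 : P := r165 * y
noncomputable def r236 : P := r166 * x
noncomputable def r237 : P := r166 * y
noncomputable def r238 : P := r167 * x
noncomputable def r239 : P := r167 * y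
noncomputable def r240 : P := r168 * y
noncomputable def r241 : P := r169 * x
noncomputable def r242 : P := r169 * y
noncomputable def r243 : P := r170 * y
noncomputable def r244 : P := r171 * y
noncomputable def r245 : P := r172 * y
noncomputable def r246 : P := r173 * y
noncomputable def r247 : P := r174 * x
noncomputable def r248 : P := r176 * y
noncomputable def r249 : P := r177 * y
noncomputable def r250 : P := r178 * x
noncomputable def r251 : P := r178 * y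
noncomputable def r252 : P := r179 * y
noncomputable def r253 : P := r180 * y
noncomputable def r254 : P := r181 * x
noncomputable def r255 : P := r181 * y
noncomputable def r256 : P := r182 * x
noncomputable def r257 : P := r182 * y
noncomputable def r258 : P := r183 * y
noncomputable def r259 : P := r184 * x
noncomputable def r260 : P := r186 * x
noncomputable def r261 : P := r186 * y
noncomputable def r262 : P := r187 * x
noncomputable def r263 : P := r187 * y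
noncomputable def r264 : P := r188 * y
noncomputable def r265 : P := r189 * y
noncomputable def r266 : P := r190 * x
noncomputable def r267 : P := r190 * y
noncomputable def r268 : P := r191 * y
noncomputable def r269 : P := r192 * y
noncomputable def r270 : P := r193 * y
noncomputable def r271 : P := r194 * y
noncomputable def r272 : P := r195 * y
noncomputable def r273 : P := r196 * x
noncomputable def r274 : P := r196 * y
noncomputable def r275 : P := r197 * x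
noncomputable def r276 : P := r197 * y
noncomputable def r277 : P := r198 * x
noncomputable def r278 : P := r198 * y
noncomputable def r279 : P := r199 * x
noncomputable def r280 : P := r199 * y
noncomputable def r281 : P := r200 * y
noncomputable def r282 : P := r201 * x
noncomputable def r283 : P := r201 * y
noncomputable def r284 : P := r202 * y
noncomputable def r285 : P := r203 * y
noncomputable def r286 : P := r204 * y
noncomputable def r287 : P := r205 * y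
noncomputable def r288 : P := r206 * x
noncomputable def r289 : P := r208 * y
noncomputable def r290 : P := r209 * y
noncomputable def r291 : P := r210 * x
noncomputable def r292 : P := r210 * y
noncomputable def r293 : P := r211 * y
noncomputable def r294 : P := r212 * y
noncomputable def r295 : P := r213 * y
noncomputable def r296 : P := r214 * x
noncomputable def r297 : P := r214 * y
noncomputable def r298 : P := r215 * y
noncomputable def r299 : P := r216 * x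
noncomputable def r300 : P := r216 * y
noncomputable def r301 : P := r217 * x
noncomputable def r302 : P := r217 * y
noncomputable def r303 : P := r218 * y
noncomputable def r304 : P := r219 * y
noncomputable def r305 : P := r220 * y
noncomputable def r306 : P := r221 * y
noncomputable def r307 : P := r222 * y
noncomputable def r308 : P := r223 * y
noncomputable def r309 : P := r224 * x
noncomputable def r310 : P := r226 * y
noncomputable def r311 : P := r227 * y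
noncomputable def r312 : P := r228 * y
noncomputable def r313 : P := r229 * x
noncomputable def r314 : P := r229 * y
noncomputable def r315 : P := r230 * y
noncomputable def r316 : P := r231 * y
noncomputable def r317 : P := r232 * y
noncomputable def r318 : P := r233 * x
noncomputable def r319 : P := r233 * y
noncomputable def r320 : P := r234 * y
noncomputable def r321 : P := r235 * x
noncomputable def r322 : P := r237 * x
noncomputable def r323 : P := r237 * y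
noncomputable def r324 : P := r238 * y
noncomputable def r325 : P := r239 * y
noncomputable def r326 : P := r240 * x
noncomputable def r327 : P := r240 * y
noncomputable def r328 : P := r241 * y
noncomputable def r329 : P := r242 * y
noncomputable def r330 : P := r243 * y
noncomputable def r331 : P := r244 * x
noncomputable def r332 : P := r244 * y
noncomputable def r333 : P := r245 * x
noncomputable def r334 : P := r245 * y
noncomputable def r335 : P := r246 * y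
noncomputable def r336 : P := r247 * y
noncomputable def r337 : P := r248 * y
noncomputable def r338 : P := r249 * x
noncomputable def r339 : P := r251 * y
noncomputable def r340 : P := r253 * y
noncomputable def r341 : P := r254 * y
noncomputable def r342 : P := r255 * x
noncomputable def r343 : P := r255 * y
noncomputable def r344 : P := r256 * y
noncomputable def r345 : P := r257 * x
noncomputable def r346 : P := r257 * y
noncomputable def r347 : P := r258 * x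
noncomputable def r348 : P := r258 * y
noncomputable def r349 : P := r259 * y
noncomputable def r350 : P := r260 * y
noncomputable def r351 : P := r261 * y
noncomputable def r352 : P := r262 * y
noncomputable def r353 : P := r263 * y
noncomputable def r354 : P := r264 * y
noncomputable def r355 : P := r265 * x
noncomputable def r356 : P := r267 * y
noncomputable def r357 : P := r268 * y
noncomputable def r358 : P := r269 * y
noncomputable def r359 : P := r270 * x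
noncomputable def r360 : P := r270 * y
noncomputable def r361 : P := r271 * y
noncomputable def r362 : P := r272 * y
noncomputable def r363 : P := r273 * y
noncomputable def r364 : P := r274 * x
noncomputable def r365 : P := r274 * y
noncomputable def r366 : P := r275 * y
noncomputable def r367 : P := r276 * x
noncomputable def r368 : P := r278 * x
noncomputable def r369 : P := r278 * y
noncomputable def r370 : P := r279 * y
noncomputable def r371 : P := r280 * y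
noncomputable def r372 : P := r281 * x
noncomputable def r373 : P := r281 * y
noncomputable def r374 : P := r282 * y
noncomputable def r375 : P := r283 * y
noncomputable def r376 : P := r284 * y
noncomputable def r377 : P := r285 * x
noncomputable def r378 : P := r285 * y
noncomputable def r379 : P := r286 * x
noncomputable def r380 : P := r286 * y
noncomputable def r381 : P := r287 * y
noncomputable def r382 : P := r288 * y
noncomputable def r383 : P := r289 * y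
noncomputable def r384 : P := r290 * x
noncomputable def r385 : P := r292 * y
noncomputable def r386 : P := r294 * x
noncomputable def r387 : P := r294 * y
noncomputable def r388 : P := r295 * x
noncomputable def r389 : P := r295 * y
noncomputable def r390 : P := r296 * y
noncomputable def r391 : P := r297 * y
noncomputable def r392 : P := r298 * y
noncomputable def r393 : P := r299 * y
noncomputable def r394 : P := r300 * y
noncomputable def r395 : P := r301 * y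
noncomputable def r396 : P := r302 * y
noncomputable def r397 : P := r303 * y
noncomputable def r398 : P := r304 * y
noncomputable def r399 : P := r305 * x
noncomputable def r400 : P := r305 * y
noncomputable def r401 : P := r306 * x
noncomputable def r402 : P := r306 * y
noncomputable def r403 : P := r307 * x
noncomputable def r404 : P := r307 * y
noncomputable def r405 : P := r308 * x
noncomputable def r406 : P := r308 * y
noncomputable def r407 : P := r309 * y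
noncomputable def r408 : P := r310 * y
noncomputable def r409 : P := r311 * y
noncomputable def r410 : P := r312 * x
noncomputable def r411 : P := r314 * y
noncomputable def r412 : P := r315 * y
noncomputable def r413 : P := r316 * y
noncomputable def r414 : P := r317 * y
noncomputable def r415 : P := r318 * y
noncomputable def r416 : P := r319 * x
noncomputable def r417 : P := r319 * y
noncomputable def r418 : P := r320 * x
noncomputable def r419 : P := r320 * y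
noncomputable def r420 : P := r321 * y
noncomputable def r421 : P := r322 * y
noncomputable def r422 : P := r323 * y
noncomputable def r423 : P := r324 * y
noncomputable def r424 : P := r325 * x
noncomputable def r425 : P := r327 * y
noncomputable def r426 : P := r328 * y
noncomputable def r427 : P := r329 * y
noncomputable def r428 : P := r330 * y
noncomputable def r429 : P := r331 * y
noncomputable def r430 : P := r332 * x
noncomputable def r431 : P := r334 * x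
noncomputable def r432 : P := r334 * y
noncomputable def r433 : P := r335 * y
noncomputable def r434 : P := r336 * y
noncomputable def r435 : P := r337 * y
noncomputable def r436 : P := r338 * y
noncomputable def r437 : P := r339 * y
noncomputable def r438 : P := r340 * x
noncomputable def r439 : P := r340 * y
noncomputable def r440 : P := r341 * x
noncomputable def r441 : P := r341 * y
noncomputable def r442 : P := r342 * y
noncomputable def r443 : P := r343 * y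
noncomputable def r444 : P := r344 * y
noncomputable def r445 : P := r345 * y
noncomputable def r446 : P := r346 * y
noncomputable def r447 : P := r347 * y
noncomputable def r448 : P := r348 * y
noncomputable def r449 : P := r349 * y
noncomputable def r450 : P := r350 * y
noncomputable def r451 : P := r351 * x
noncomputable def r452 : P := r351 * y
noncomputable def r453 : P := r352 * x
noncomputable def r454 : P := r352 * y
noncomputable def r455 : P := r353 * x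
noncomputable def r456 : P := r353 * y
noncomputable def r457 : P := r354 * x
noncomputable def r458 : P := r354 * y
noncomputable def r459 : P := r355 * y
noncomputable def r460 : P := r356 * y
noncomputable def r461 : P := r357 * y
noncomputable def r462 : P := r358 * x
noncomputable def r463 : P := r360 * y
noncomputable def r464 : P := r361 * y
noncomputable def r465 : P := r362 * y
noncomputable def r466 : P := r363 * y
noncomputable def r467 : P := r364 * y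
noncomputable def r468 : P := r365 * x
noncomputable def r469 : P := r365 * y
noncomputable def r470 : P := r366 * x
noncomputable def r471 : P := r366 * y
noncomputable def r472 : P := r367 * y
noncomputable def r473 : P := r368 * y
noncomputable def r474 : P := r369 * y
noncomputable def r475 : P := r370 * y
noncomputable def r476 : P := r371 * x
noncomputable def r477 : P := r373 * y
noncomputable def r478 : P := r374 * y
noncomputable def r479 : P := r375 * y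
noncomputable def r480 : P := r376 * y
noncomputable def r481 : P := r377 * y
noncomputable def r482 : P := r378 * x
noncomputable def r483 : P := r380 * x
noncomputable def r484 : P := r380 * y
noncomputable def r485 : P := r381 * y
noncomputable def r486 : P := r382 * y
noncomputable def r487 : P := r383 * y
noncomputable def r488 : P := r384 * y
noncomputable def r489 : P := r385 * y
noncomputable def r490 : P := r386 * y
noncomputable def r491 : P := r387 * y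
noncomputable def r492 : P := r388 * y
noncomputable def r493 : P := r389 * y
noncomputable def r494 : P := r390 * y
noncomputable def r495 : P := r392 * y
noncomputable def r496 : P := r393 * y
noncomputable def r497 : P := r394 * y
noncomputable def r498 : P := r395 * y
noncomputable def r499 : P := r396 * y
noncomputable def r500 : P := r397 * y
noncomputable def r501 : P := r398 * x
noncomputable def r502 : P := r398 * y
noncomputable def r503 : P := r399 * y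
noncomputable def r504 : P := r400 * x
noncomputable def r505 : P := r402 * x
noncomputable def r506 : P := r402 * y
noncomputable def r507 : P := r403 * y
noncomputable def r508 : P := r404 * y
noncomputable def r509 : P := r405 * y
noncomputable def r510 : P := r406 * y
noncomputable def r511 : P := r407 * y
noncomputable def r512 : P := r408 * x
noncomputable def r513 : P := r408 * y
noncomputable def r514 : P := r409 * y
noncomputable def r515 : P := r410 * y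
noncomputable def r516 : P := r414 * x
noncomputable def r517 : P := r414 * y
noncomputable def r518 : P := r415 * x
noncomputable def r519 : P := r415 * y
noncomputable def r520 : P := r417 * y
noncomputable def r521 : P := r418 * y
noncomputable def r522 : P := r419 * y
noncomputable def r523 : P := r420 * y
noncomputable def r524 : P := r422 * x
noncomputable def r525 : P := r422 * y
noncomputable def r526 : P := r423 * x
noncomputable def r527 : P := r423 * y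
noncomputable def r528 : P := r424 * y
noncomputable def r529 : P := r425 * y
noncomputable def r530 : P := r428 * y
noncomputable def r531 : P := r429 * x
noncomputable def r532 : P := r429 * y
noncomputable def r533 : P := r430 * y
noncomputable def r534 : P := r431 * y
noncomputable def r535 : P := r432 * y
noncomputable def r536 : P := r434 * y
noncomputable def r537 : P := r436 * y
noncomputable def r538 : P := r437 * y
noncomputable def r539 : P := r438 * y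
noncomputable def r540 : P := r439 * y
noncomputable def r541 : P := r440 * y
noncomputable def r542 : P := r441 * y
noncomputable def r543 : P := r442 * y
noncomputable def r544 : P := r444 * y
noncomputable def r545 : P := r445 * y
noncomputable def r546 : P := r446 * y
noncomputable def r547 : P := r447 * y
noncomputable def r548 : P := r448 * y
noncomputable def r549 : P := r449 * y
noncomputable def r550 : P := r450 * x
noncomputable def r551 : P := r450 * y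
noncomputable def r552 : P := r451 * y
noncomputable def r553 : P := r452 * x
noncomputable def r554 : P := r454 * x
noncomputable def r555 : P := r454 * y
noncomputable def r556 : P := r455 * y
noncomputable def r557 : P := r456 * y
noncomputable def r558 : P := r457 * y
noncomputable def r559 : P := r458 * y
noncomputable def r560 : P := r459 * y
noncomputable def r561 : P := r460 * x
noncomputable def r562 : P := r460 * y
noncomputable def r563 : P := r461 * y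
noncomputable def r564 : P := r462 * y
noncomputable def r565 : P := r466 * x
noncomputable def r566 : P := r466 * y
noncomputable def r567 : P := r467 * x
noncomputable def r568 : P := r467 * y
noncomputable def r569 : P := r469 * y
noncomputable def r570 : P := r470 * y
noncomputable def r571 : P := r471 * y
noncomputable def r572 : P := r472 * y
noncomputable def r573 : P := r474 * x
noncomputable def r574 : P := r474 * y
noncomputable def r575 : P := r475 * x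
noncomputable def r576 : P := r475 * y
noncomputable def r577 : P := r476 * y
noncomputable def r578 : P := r477 * y
noncomputable def r579 : P := r480 * y
noncomputable def r580 : P := r481 * x
noncomputable def r581 : P := r481 * y
noncomputable def r582 : P := r482 * y
noncomputable def r583 : P := r483 * y
noncomputable def r584 : P := r484 * y
noncomputable def r585 : P := r486 * y
noncomputable def r586 : P := r488 * y
noncomputable def r587 : P := r489 * y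
noncomputable def r588 : P := r490 * y
noncomputable def r589 : P := r491 * y
noncomputable def r590 : P := r492 * y
noncomputable def r591 : P := r493 * y
noncomputable def r592 : P := r494 * y
noncomputable def r593 : P := r495 * y
noncomputable def r594 : P := r498 * y
noncomputable def r595 : P := r499 * y
noncomputable def r596 : P := r500 * y
noncomputable def r597 : P := r501 * y
noncomputable def r598 : P := r502 * x
noncomputable def r599 : P := r502 * y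
noncomputable def r600 : P := r503 * y
noncomputable def r601 : P := r504 * y
noncomputable def r602 : P := r505 * y
noncomputable def r603 : P := r507 * y
noncomputable def r604 : P := r509 * y
noncomputable def r605 : P := r510 * y
noncomputable def r606 : P := r511 * y
noncomputable def r607 : P := r514 * y
noncomputable def r608 : P := r516 * y
noncomputable def r609 : P := r517 * y
noncomputable def r610 : P := r518 * y
noncomputable def r611 : P := r519 * y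
noncomputable def r612 : P := r522 * y
noncomputable def r613 : P := r523 * y
noncomputable def r614 : P := r524 * y
noncomputable def r615 : P := r526 * y
noncomputable def r616 : P := r528 * y
noncomputable def r617 : P := r529 * y
noncomputable def r618 : P := r531 * y
noncomputable def r619 : P := r532 * y
noncomputable def r620 : P := r533 * y
noncomputable def r621 : P := r535 * y
noncomputable def r622 : P := r536 * y
noncomputable def r623 : P := r537 * y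
noncomputable def r624 : P := r539 * y
noncomputable def r625 : P := r540 * y
noncomputable def r626 : P := r541 * y
noncomputable def r627 : P := r542 * y
noncomputable def r628 : P := r543 * y
noncomputable def r629 : P := r544 * y
noncomputable def r630 : P := r547 * y
noncomputable def r631 : P := r548 * y
noncomputable def r632 : P := r549 * y
noncomputable def r633 : P := r550 * y
noncomputable def r634 : P := r551 * x
noncomputable def r635 : P := r551 * y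
noncomputable def r636 : P := r552 * y
noncomputable def r637 : P := r553 * y
noncomputable def r638 : P := r554 * y
noncomputable def r639 : P := r556 * y
noncomputable def r640 : P := r558 * y
noncomputable def r641 : P := r559 * y
noncomputable def r642 : P := r560 * y
noncomputable def r643 : P := r563 * y
noncomputable def r644 : P := r565 * y
noncomputable def r645 : P := r566 * y
noncomputable def r646 : P := r567 * y
noncomputable def r647 : P := r568 * y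
noncomputable def r648 : P := r571 * y
noncomputable def r649 : P := r572 * y
noncomputable def r650 : P := r573 * y
noncomputable def r651 : P := r575 * y
noncomputable def r652 : P := r577 * y
noncomputable def r653 : P := r578 * y
noncomputable def r654 : P := r580 * y
noncomputable def r655 : P := r581 * y
noncomputable def r656 : P := r582 * y
noncomputable def r657 : P := r584 * y
noncomputable def r658 : P := r585 * y
noncomputable def r659 : P := r586 * y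
noncomputable def r660 : P := r588 * y
noncomputable def r661 : P := r590 * y
noncomputable def r662 : P := r591 * y
noncomputable def r663 : P := r592 * y
noncomputable def r664 : P := r593 * x
noncomputable def r665 : P := r593 * y
noncomputable def r666 : P := r597 * y
noncomputable def r667 : P := r599 * y
noncomputable def r668 : P := r601 * y
noncomputable def r669 : P := r603 * x
noncomputable def r670 : P := r603 * y
noncomputable def r671 : P := r606 * y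
noncomputable def r672 : P := r608 * y
noncomputable def r673 : P := r609 * y
noncomputable def r674 : P := r610 * y
noncomputable def r675 : P := r611 * y
noncomputable def r676 : P := r612 * y
noncomputable def r677 : P := r613 * y
noncomputable def r678 : P := r614 * y
noncomputable def r679 : P := r616 * y
noncomputable def r680 : P := r619 * y
noncomputable def r681 : P := r620 * y
noncomputable def r682 : P := r623 * y
noncomputable def r683 : P := r624 * y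
noncomputable def r684 : P := r626 * y
noncomputable def r685 : P := r627 * y
noncomputable def r686 : P := r628 * y
noncomputable def r687 : P := r629 * x
noncomputable def r688 : P := r629 * y
noncomputable def r689 : P := r633 * y
noncomputable def r690 : P := r635 * y
noncomputable def r691 : P := r637 * y
noncomputable def r692 : P := r639 * x
noncomputable def r693 : P := r639 * y
noncomputable def r694 : P := r642 * y
noncomputable def r695 : P := r644 * y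
noncomputable def r696 : P := r645 * y
noncomputable def r697 : P := r646 * y
noncomputable def r698 : P := r647 * y
noncomputable def r699 : P := r648 * y
noncomputable def r700 : P := r649 * y
noncomputable def r701 : P := r650 * y
noncomputable def r702 : P := r652 * y
noncomputable def r703 : P := r655 * y
noncomputable def r704 : P := r656 * y
noncomputable def r705 : P := r659 * y
noncomputable def r706 : P := r660 * x
noncomputable def r707 : P := r660 * y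
noncomputable def r708 : P := r663 * y
noncomputable def r709 : P := r668 * y
noncomputable def r710 : P := r672 * y
noncomputable def r711 : P := r681 * y
noncomputable def r712 : P := r683 * x
noncomputable def r713 : P := r683 * y
noncomputable def r714 : P := r686 * y
noncomputable def r715 : P := r691 * y
noncomputable def r716 : P := r695 * y
noncomputable def r717 : P := r704 * y
noncomputable def r718 : P := r709 * y
noncomputable def r719 : P := r715 * y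
theorem e_0_x : r0 * x = r1 := rfl
theorem e_0_y : r0 * y = r2 := rfl
theorem e_1_y : r1 * y = r3 := rfl
theorem e_2_x : r2 * x = r4 := rfl
theorem e_2_y : r2 * y = r5 := rfl
theorem e_3_x : r3 * x = r6 := rfl
theorem e_3_y : r3 * y = r7 := rfl
theorem e_4_y : r4 * y = r8 := rfl
theorem e_5_x : r5 * x = r9 := rfl
theorem e_5_y : r5 * y = r10 := rfl
theorem e_6_y : r6 * y = r11 := rfl
theorem e_7_x : r7 * x = r12 := rfl
theorem e_7_y : r7 * y = r13 := rfl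
theorem e_8_x : r8 * x = r14 := rfl
theorem e_8_y : r8 * y = r15 := rfl
theorem e_9_y : r9 * y = r16 := rfl
theorem e_10_x : r10 * x = r17 := rfl
theorem e_10_y : r10 * y = r18 := rfl
theorem e_11_x : r11 * x = r19 := rfl
theorem e_11_y : r11 * y = r20 := rfl
theorem e_12_y : r12 * y = r21 := rfl
theorem e_13_x : r13 * x = r22 := rfl
theorem e_13_y : r13 * y = r23 := rfl
theorem e_14_y : r14 * y = r24 := rfl
theorem e_15_x : r15 * x = r25 := rfl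
theorem e_15_y : r15 * y = r26 := rfl
theorem e_16_x : r16 * x = r27 := rfl
theorem e_16_y : r16 * y = r28 := rfl
theorem e_17_y : r17 * y = r29 := rfl
theorem e_18_x : r18 * x = r30 := rfl
theorem e_18_y : r18 * y = r31 := rfl
theorem e_19_y : r19 * y = r32 := rfl
theorem e_20_x : r20 * x = r33 := rfl
theorem e_20_y : r20 * y = r34 := rfl
theorem e_21_x : r21 * x = r35 := rfl
theorem e_21_y : r21 * y = r36 := rfl
theorem e_22_y : r22 * y = r37 := rfl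
theorem e_23_x : r23 * x = r38 := rfl
theorem e_23_y : r23 * y = r39 := rfl
theorem e_24_x : r24 * x = r40 := rfl
theorem e_24_y : r24 * y = r41 := rfl
theorem e_25_y : r25 * y = r42 := rfl
theorem e_26_x : r26 * x = r43 := rfl
theorem e_26_y : r26 * y = r44 := rfl
theorem e_27_y : r27 * y = r45 := rfl
theorem e_28_x : r28 * x = r46 := rfl
theorem e_28_y : r28 * y = r47 := rfl
theorem e_29_x : r29 * x = r48 := rfl
theorem e_29_y : r29 * y = r49 := rfl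
theorem e_30_y : r30 * y = r50 := rfl
theorem e_31_x : r31 * x = r51 := rfl
theorem e_32_x : r32 * x = r52 := rfl
theorem e_32_y : r32 * y = r53 := rfl
theorem e_33_y : r33 * y = r54 := rfl
theorem e_34_x : r34 * x = r55 := rfl
theorem e_34_y : r34 * y = r56 := rfl
theorem e_35_y : r35 * y = r57 := rfl
theorem e_36_x : r36 * x = r58 := rfl
theorem e_36_y : r36 * y = r59 := rfl
theorem e_37_x : r37 * x = r60 := rfl
theorem e_37_y : r37 * y = r61 := rfl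
theorem e_38_y : r38 * y = r62 := rfl
theorem e_39_x : r39 * x = r63 := rfl
theorem e_41_x : r41 * x = r64 := rfl
theorem e_41_y : r41 * y = r65 := rfl
theorem e_42_x : r42 * x = r66 := rfl
theorem e_42_y : r42 * y = r67 := rfl
theorem e_43_y : r43 * y = r68 := rfl
theorem e_44_x : r44 * x = r69 := rfl
theorem e_44_y : r44 * y = r70 := rfl
theorem e_45_x : r45 * x = r71 := rfl
theorem e_45_y : r45 * y = r72 := rfl
theorem e_46_y : r46 * y = r73 := rfl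
theorem e_47_x : r47 * x = r74 := rfl
theorem e_47_y : r47 * y = r75 := rfl
theorem e_48_y : r48 * y = r76 := rfl
theorem e_49_x : r49 * x = r77 := rfl
theorem e_49_y : r49 * y = r78 := rfl
theorem e_50_x : r50 * x = r79 := rfl
theorem e_50_y : r50 * y = r80 := rfl
theorem e_51_y : r51 * y = r81 := rfl
theorem e_53_x : r53 * x = r82 := rfl
theorem e_53_y : r53 * y = r83 := rfl
theorem e_54_x : r54 * x = r84 := rfl
theorem e_54_y : r54 * y = r85 := rfl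
theorem e_55_y : r55 * y = r86 := rfl
theorem e_56_x : r56 * x = r87 := rfl
theorem e_56_y : r56 * y = r88 := rfl
theorem e_57_x : r57 * x = r89 := rfl
theorem e_57_y : r57 * y = r90 := rfl
theorem e_58_y : r58 * y = r91 := rfl
theorem e_59_x : r59 * x = r92 := rfl
theorem e_59_y : r59 * y = r93 := rfl
theorem e_60_y : r60 * y = r94 := rfl
theorem e_61_x : r61 * x = r95 := rfl
theorem e_61_y : r61 * y = r96 := rfl
theorem e_62_x : r62 * x = r97 := rfl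
theorem e_62_y : r62 * y = r98 := rfl
theorem e_63_y : r63 * y = r99 := rfl
theorem e_64_y : r64 * y = r100 := rfl
theorem e_65_x : r65 * x = r101 := rfl
theorem e_65_y : r65 * y = r102 := rfl
theorem e_66_y : r66 * y = r103 := rfl
theorem e_67_x : r67 * x = r104 := rfl
theorem e_67_y : r67 * y = r105 := rfl
theorem e_68_x : r68 * x = r106 := rfl
theorem e_68_y : r68 * y = r107 := rfl
theorem e_69_y : r69 * y = r108 := rfl
theorem e_70_x : r70 * x = r109 := rfl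
theorem e_72_x : r72 * x = r110 := rfl
theorem e_72_y : r72 * y = r111 := rfl
theorem e_73_x : r73 * x = r112 := rfl
theorem e_73_y : r73 * y = r113 := rfl
theorem e_74_y : r74 * y = r114 := rfl
theorem e_75_y : r75 * y = r115 := rfl
theorem e_76_x : r76 * x = r116 := rfl
theorem e_76_y : r76 * y = r117 := rfl
theorem e_77_y : r77 * y = r118 := rfl
theorem e_78_y : r78 * y = r119 := rfl
theorem e_79_y : r79 * y = r120 := rfl
theorem e_80_y : r80 * y = r121 := rfl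
theorem e_81_x : r81 * x = r122 := rfl
theorem e_81_y : r81 * y = r123 := rfl
theorem e_82_y : r82 * y = r124 := rfl
theorem e_83_x : r83 * x = r125 := rfl
theorem e_83_y : r83 * y = r126 := rfl
theorem e_84_y : r84 * y = r127 := rfl
theorem e_85_x : r85 * x = r128 := rfl
theorem e_85_y : r85 * y = r129 := rfl
theorem e_86_x : r86 * x = r130 := rfl
theorem e_86_y : r86 * y = r131 := rfl
theorem e_87_y : r87 * y = r132 := rfl
theorem e_88_x : r88 * x = r133 := rfl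
theorem e_90_x : r90 * x = r134 := rfl
theorem e_90_y : r90 * y = r135 := rfl
theorem e_91_x : r91 * x = r136 := rfl
theorem e_91_y : r91 * y = r137 := rfl
theorem e_92_y : r92 * y = r138 := rfl
theorem e_93_y : r93 * y = r139 := rfl
theorem e_94_x : r94 * x = r140 := rfl
theorem e_94_y : r94 * y = r141 := rfl
theorem e_95_y : r95 * y = r142 := rfl
theorem e_96_y : r96 * y = r143 := rfl
theorem e_97_y : r97 * y = r144 := rfl
theorem e_98_y : r98 * y = r145 := rfl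
theorem e_99_x : r99 * x = r146 := rfl
theorem e_99_y : r99 * y = r147 := rfl
theorem e_100_x : r100 * x = r148 := rfl
theorem e_100_y : r100 * y = r149 := rfl
theorem e_101_y : r101 * y = r150 := rfl
theorem e_102_x : r102 * x = r151 := rfl
theorem e_102_y : r102 * y = r152 := rfl
theorem e_103_x : r103 * x = r153 := rfl
theorem e_103_y : r103 * y = r154 := rfl
theorem e_104_y : r104 * y = r155 := rfl
theorem e_105_x : r105 * x = r156 := rfl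
theorem e_105_y : r105 * y = r157 := rfl
theorem e_106_y : r106 * y = r158 := rfl
theorem e_107_x : r107 * x = r159 := rfl
theorem e_107_y : r107 * y = r160 := rfl
theorem e_108_x : r108 * x = r161 := rfl
theorem e_108_y : r108 * y = r162 := rfl
theorem e_109_y : r109 * y = r163 := rfl
theorem e_110_y : r110 * y = r164 := rfl
theorem e_111_y : r111 * y = r165 := rfl
theorem e_112_y : r112 * y = r166 := rfl
theorem e_113_y : r113 * y = r167 := rfl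
theorem e_114_x : r114 * x = r168 := rfl
theorem e_114_y : r114 * y = r169 := rfl
theorem e_115_x : r115 * x = r170 := rfl
theorem e_117_y : r117 * y = r171 := rfl
theorem e_118_x : r118 * x = r172 := rfl
theorem e_118_y : r118 * y = r173 := rfl
theorem e_119_y : r119 * y = r174 := rfl
theorem e_120_x : r120 * x = r175 := rfl
theorem e_120_y : r120 * y = r176 := rfl
theorem e_121_y : r121 * y = r177 := rfl
theorem e_122_y : r122 * y = r178 := rfl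
theorem e_123_y : r123 * y = r179 := rfl
theorem e_124_x : r124 * x = r180 := rfl
theorem e_124_y : r124 * y = r181 := rfl
theorem e_125_y : r125 * y = r182 := rfl
theorem e_126_x : r126 * x = r183 := rfl
theorem e_126_y : r126 * y = r184 := rfl
theorem e_127_x : r127 * x = r185 := rfl
theorem e_127_y : r127 * y = r186 := rfl
theorem e_128_y : r128 * y = r187 := rfl
theorem e_129_x : r129 * x = r188 := rfl
theorem e_129_y : r129 * y = r189 := rfl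
theorem e_130_y : r130 * y = r190 := rfl
theorem e_131_x : r131 * x = r191 := rfl
theorem e_131_y : r131 * y = r192 := rfl
theorem e_132_x : r132 * x = r193 := rfl
theorem e_132_y : r132 * y = r194 := rfl
theorem e_133_y : r133 * y = r195 := rfl
theorem e_134_y : r134 * y = r196 := rfl
theorem e_135_y : r135 * y = r197 := rfl
theorem e_136_y : r136 * y = r198 := rfl
theorem e_137_y : r137 * y = r199 := rfl
theorem e_138_x : r138 * x = r200 := rfl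
theorem e_138_y : r138 * y = r201 := rfl
theorem e_139_x : r139 * x = r202 := rfl
theorem e_141_y : r141 * y = r203 := rfl
theorem e_142_x : r142 * x = r204 := rfl
theorem e_142_y : r142 * y = r205 := rfl
theorem e_143_y : r143 * y = r206 := rfl
theorem e_144_x : r144 * x = r207 := rfl
theorem e_144_y : r144 * y = r208 := rfl
theorem e_145_y : r145 * y = r209 := rfl
theorem e_146_y : r146 * y = r210 := rfl
theorem e_147_y : r147 * y = r211 := rfl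
theorem e_148_y : r148 * y = r212 := rfl
theorem e_149_x : r149 * x = r213 := rfl
theorem e_149_y : r149 * y = r214 := rfl
theorem e_150_x : r150 * x = r215 := rfl
theorem e_150_y : r150 * y = r216 := rfl
theorem e_151_y : r151 * y = r217 := rfl
theorem e_152_x : r152 * x = r218 := rfl
theorem e_154_x : r154 * x = r219 := rfl
theorem e_154_y : r154 * y = r220 := rfl
theorem e_155_x : r155 * x = r221 := rfl
theorem e_155_y : r155 * y = r222 := rfl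
theorem e_156_y : r156 * y = r223 := rfl
theorem e_157_y : r157 * y = r224 := rfl
theorem e_158_x : r158 * x = r225 := rfl
theorem e_158_y : r158 * y = r226 := rfl
theorem e_159_y : r159 * y = r227 := rfl
theorem e_160_y : r160 * y = r228 := rfl
theorem e_161_y : r161 * y = r229 := rfl
theorem e_162_y : r162 * y = r230 := rfl
theorem e_163_y : r163 * y = r231 := rfl
theorem e_164_x : r164 * x = r232 := rfl
theorem e_164_y : r164 * y = r233 := rfl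
theorem e_165_x : r165 * x = r234 := rfl
theorem e_165_y : r165 * y = r235 := rfl
theorem e_166_x : r166 * x = r236 := rfl
theorem e_166_y : r166 * y = r237 := rfl
theorem e_167_x : r167 * x = r238 := rfl
theorem e_167_y : r167 * y = r239 := rfl
theorem e_168_y : r168 * y = r240 := rfl
theorem e_169_x : r169 * x = r241 := rfl
theorem e_169_y : r169 * y = r242 := rfl
theorem e_170_y : r170 * y = r243 := rfl
theorem e_171_y : r171 * y = r244 := rfl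
theorem e_172_y : r172 * y = r245 := rfl
theorem e_173_y : r173 * y = r246 := rfl
theorem e_174_x : r174 * x = r247 := rfl
theorem e_176_y : r176 * y = r248 := rfl
theorem e_177_y : r177 * y = r249 := rfl
theorem e_178_x : r178 * x = r250 := rfl
theorem e_178_y : r178 * y = r251 := rfl
theorem e_179_y : r179 * y = r252 := rfl
theorem e_180_y : r180 * y = r253 := rfl
theorem e_181_x : r181 * x = r254 := rfl
theorem e_181_y : r181 * y = r255 := rfl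
theorem e_182_x : r182 * x = r256 := rfl
theorem e_182_y : r182 * y = r257 := rfl
theorem e_183_y : r183 * y = r258 := rfl
theorem e_184_x : r184 * x = r259 := rfl
theorem e_186_x : r186 * x = r260 := rfl
theorem e_186_y : r186 * y = r261 := rfl
theorem e_187_x : r187 * x = r262 := rfl
theorem e_187_y : r187 * y = r263 := rfl
theorem e_188_y : r188 * y = r264 := rfl
theorem e_189_y : r189 * y = r265 := rfl
theorem e_190_x : r190 * x = r266 := rfl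
theorem e_190_y : r190 * y = r267 := rfl
theorem e_191_y : r191 * y = r268 := rfl
theorem e_192_y : r192 * y = r269 := rfl
theorem e_193_y : r193 * y = r270 := rfl
theorem e_194_y : r194 * y = r271 := rfl
theorem e_195_y : r195 * y = r272 := rfl
theorem e_196_x : r196 * x = r273 := rfl
theorem e_196_y : r196 * y = r274 := rfl
theorem e_197_x : r197 * x = r275 := rfl
theorem e_197_y : r197 * y = r276 := rfl
theorem e_198_x : r198 * x = r277 := rfl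
theorem e_198_y : r198 * y = r278 := rfl
theorem e_199_x : r199 * x = r279 := rfl
theorem e_199_y : r199 * y = r280 := rfl
theorem e_200_y : r200 * y = r281 := rfl
theorem e_201_x : r201 * x = r282 := rfl
theorem e_201_y : r201 * y = r283 := rfl
theorem e_202_y : r202 * y = r284 := rfl
theorem e_203_y : r203 * y = r285 := rfl
theorem e_204_y : r204 * y = r286 := rfl
theorem e_205_y : r205 * y = r287 := rfl
theorem e_206_x : r206 * x = r288 := rfl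
theorem e_208_y : r208 * y = r289 := rfl
theorem e_209_y : r209 * y = r290 := rfl
theorem e_210_x : r210 * x = r291 := rfl
theorem e_210_y : r210 * y = r292 := rfl
theorem e_211_y : r211 * y = r293 := rfl
theorem e_212_y : r212 * y = r294 := rfl
theorem e_213_y : r213 * y = r295 := rfl
theorem e_214_x : r214 * x = r296 := rfl
theorem e_214_y : r214 * y = r297 := rfl
theorem e_215_y : r215 * y = r298 := rfl
theorem e_216_x : r216 * x = r299 := rfl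
theorem e_216_y : r216 * y = r300 := rfl
theorem e_217_x : r217 * x = r301 := rfl
theorem e_217_y : r217 * y = r302 := rfl
theorem e_218_y : r218 * y = r303 := rfl
theorem e_219_y : r219 * y = r304 := rfl
theorem e_220_y : r220 * y = r305 := rfl
theorem e_221_y : r221 * y = r306 := rfl
theorem e_222_y : r222 * y = r307 := rfl
theorem e_223_y : r223 * y = r308 := rfl
theorem e_224_x : r224 * x = r309 := rfl
theorem e_226_y : r226 * y = r310 := rfl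
theorem e_227_y : r227 * y = r311 := rfl
theorem e_228_y : r228 * y = r312 := rfl
theorem e_229_x : r229 * x = r313 := rfl
theorem e_229_y : r229 * y = r314 := rfl
theorem e_230_y : r230 * y = r315 := rfl
theorem e_231_y : r231 * y = r316 := rfl
theorem e_232_y : r232 * y = r317 := rfl
theorem e_233_x : r233 * x = r318 := rfl
theorem e_233_y : r233 * y = r319 := rfl
theorem e_234_y : r234 * y = r320 := rfl
theorem e_235_x : r235 * x = r321 := rfl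
theorem e_237_x : r237 * x = r322 := rfl
theorem e_237_y : r237 * y = r323 := rfl
theorem e_238_y : r238 * y = r324 := rfl
theorem e_239_y : r239 * y = r325 := rfl
theorem e_240_x : r240 * x = r326 := rfl
theorem e_240_y : r240 * y = r327 := rfl
theorem e_241_y : r241 * y = r328 := rfl
theorem e_242_y : r242 * y = r329 := rfl
theorem e_243_y : r243 * y = r330 := rfl
theorem e_244_x : r244 * x = r331 := rfl
theorem e_244_y : r244 * y = r332 := rfl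
theorem e_245_x : r245 * x = r333 := rfl
theorem e_245_y : r245 * y = r334 := rfl
theorem e_246_y : r246 * y = r335 := rfl
theorem e_247_y : r247 * y = r336 := rfl
theorem e_248_y : r248 * y = r337 := rfl
theorem e_249_x : r249 * x = r338 := rfl
theorem e_251_y : r251 * y = r339 := rfl
theorem e_253_y : r253 * y = r340 := rfl
theorem e_254_y : r254 * y = r341 := rfl
theorem e_255_x : r255 * x = r342 := rfl
theorem e_255_y : r255 * y = r343 := rfl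
theorem e_256_y : r256 * y = r344 := rfl
theorem e_257_x : r257 * x = r345 := rfl
theorem e_257_y : r257 * y = r346 := rfl
theorem e_258_x : r258 * x = r347 := rfl
theorem e_258_y : r258 * y = r348 := rfl
theorem e_259_y : r259 * y = r349 := rfl
theorem e_260_y : r260 * y = r350 := rfl
theorem e_261_y : r261 * y = r351 := rfl
theorem e_262_y : r262 * y = r352 := rfl
theorem e_263_y : r263 * y = r353 := rfl
theorem e_264_y : r264 * y = r354 := rfl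
theorem e_265_x : r265 * x = r355 := rfl
theorem e_267_y : r267 * y = r356 := rfl
theorem e_268_y : r268 * y = r357 := rfl
theorem e_269_y : r269 * y = r358 := rfl
theorem e_270_x : r270 * x = r359 := rfl
theorem e_270_y : r270 * y = r360 := rfl
theorem e_271_y : r271 * y = r361 := rfl
theorem e_272_y : r272 * y = r362 := rfl
theorem e_273_y : r273 * y = r363 := rfl
theorem e_274_x : r274 * x = r364 := rfl
theorem e_274_y : r274 * y = r365 := rfl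
theorem e_275_y : r275 * y = r366 := rfl
theorem e_276_x : r276 * x = r367 := rfl
theorem e_278_x : r278 * x = r368 := rfl
theorem e_278_y : r278 * y = r369 := rfl
theorem e_279_y : r279 * y = r370 := rfl
theorem e_280_y : r280 * y = r371 := rfl
theorem e_281_x : r281 * x = r372 := rfl
theorem e_281_y : r281 * y = r373 := rfl
theorem e_282_y : r282 * y = r374 := rfl
theorem e_283_y : r283 * y = r375 := rfl
theorem e_284_y : r284 * y = r376 := rfl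
theorem e_285_x : r285 * x = r377 := rfl
theorem e_285_y : r285 * y = r378 := rfl
theorem e_286_x : r286 * x = r379 := rfl
theorem e_286_y : r286 * y = r380 := rfl
theorem e_287_y : r287 * y = r381 := rfl
theorem e_288_y : r288 * y = r382 := rfl
theorem e_289_y : r289 * y = r383 := rfl
theorem e_290_x : r290 * x = r384 := rfl
theorem e_292_y : r292 * y = r385 := rfl
theorem e_294_x : r294 * x = r386 := rfl
theorem e_294_y : r294 * y = r387 := rfl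
theorem e_295_x : r295 * x = r388 := rfl
theorem e_295_y : r295 * y = r389 := rfl
theorem e_296_y : r296 * y = r390 := rfl
theorem e_297_y : r297 * y = r391 := rfl
theorem e_298_y : r298 * y = r392 := rfl
theorem e_299_y : r299 * y = r393 := rfl
theorem e_300_y : r300 * y = r394 := rfl
theorem e_301_y : r301 * y = r395 := rfl
theorem e_302_y : r302 * y = r396 := rfl
theorem e_303_y : r303 * y = r397 := rfl
theorem e_304_y : r304 * y = r398 := rfl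
theorem e_305_x : r305 * x = r399 := rfl
theorem e_305_y : r305 * y = r400 := rfl
theorem e_306_x : r306 * x = r401 := rfl
theorem e_306_y : r306 * y = r402 := rfl
theorem e_307_x : r307 * x = r403 := rfl
theorem e_307_y : r307 * y = r404 := rfl
theorem e_308_x : r308 * x = r405 := rfl
theorem e_308_y : r308 * y = r406 := rfl
theorem e_309_y : r309 * y = r407 := rfl
theorem e_310_y : r310 * y = r408 := rfl
theorem e_311_y : r311 * y = r409 := rfl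
theorem e_312_x : r312 * x = r410 := rfl
theorem e_314_y : r314 * y = r411 := rfl
theorem e_315_y : r315 * y = r412 := rfl
theorem e_316_y : r316 * y = r413 := rfl
theorem e_317_y : r317 * y = r414 := rfl
theorem e_318_y : r318 * y = r415 := rfl
theorem e_319_x : r319 * x = r416 := rfl
theorem e_319_y : r319 * y = r417 := rfl
theorem e_320_x : r320 * x = r418 := rfl
theorem e_320_y : r320 * y = r419 := rfl
theorem e_321_y : r321 * y = r420 := rfl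
theorem e_322_y : r322 * y = r421 := rfl
theorem e_323_y : r323 * y = r422 := rfl
theorem e_324_y : r324 * y = r423 := rfl
theorem e_325_x : r325 * x = r424 := rfl
theorem e_327_y : r327 * y = r425 := rfl
theorem e_328_y : r328 * y = r426 := rfl
theorem e_329_y : r329 * y = r427 := rfl
theorem e_330_y : r330 * y = r428 := rfl
theorem e_331_y : r331 * y = r429 := rfl
theorem e_332_x : r332 * x = r430 := rfl
theorem e_334_x : r334 * x = r431 := rfl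
theorem e_334_y : r334 * y = r432 := rfl
theorem e_335_y : r335 * y = r433 := rfl
theorem e_336_y : r336 * y = r434 := rfl
theorem e_337_y : r337 * y = r435 := rfl
theorem e_338_y : r338 * y = r436 := rfl
theorem e_339_y : r339 * y = r437 := rfl
theorem e_340_x : r340 * x = r438 := rfl
theorem e_340_y : r340 * y = r439 := rfl
theorem e_341_x : r341 * x = r440 := rfl
theorem e_341_y : r341 * y = r441 := rfl
theorem e_342_y : r342 * y = r442 := rfl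
theorem e_343_y : r343 * y = r443 := rfl
theorem e_344_y : r344 * y = r444 := rfl
theorem e_345_y : r345 * y = r445 := rfl
theorem e_346_y : r346 * y = r446 := rfl
theorem e_347_y : r347 * y = r447 := rfl
theorem e_348_y : r348 * y = r448 := rfl
theorem e_349_y : r349 * y = r449 := rfl
theorem e_350_y : r350 * y = r450 := rfl
theorem e_351_x : r351 * x = r451 := rfl
theorem e_351_y : r351 * y = r452 := rfl
theorem e_352_x : r352 * x = r453 := rfl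
theorem e_352_y : r352 * y = r454 := rfl
theorem e_353_x : r353 * x = r455 := rfl
theorem e_353_y : r353 * y = r456 := rfl
theorem e_354_x : r354 * x = r457 := rfl
theorem e_354_y : r354 * y = r458 := rfl
theorem e_355_y : r355 * y = r459 := rfl
theorem e_356_y : r356 * y = r460 := rfl
theorem e_357_y : r357 * y = r461 := rfl
theorem e_358_x : r358 * x = r462 := rfl
theorem e_360_y : r360 * y = r463 := rfl
theorem e_361_y : r361 * y = r464 := rfl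
theorem e_362_y : r362 * y = r465 := rfl
theorem e_363_y : r363 * y = r466 := rfl
theorem e_364_y : r364 * y = r467 := rfl
theorem e_365_x : r365 * x = r468 := rfl
theorem e_365_y : r365 * y = r469 := rfl
theorem e_366_x : r366 * x = r470 := rfl
theorem e_366_y : r366 * y = r471 := rfl
theorem e_367_y : r367 * y = r472 := rfl
theorem e_368_y : r368 * y = r473 := rfl
theorem e_369_y : r369 * y = r474 := rfl
theorem e_370_y : r370 * y = r475 := rfl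
theorem e_371_x : r371 * x = r476 := rfl
theorem e_373_y : r373 * y = r477 := rfl
theorem e_374_y : r374 * y = r478 := rfl
theorem e_375_y : r375 * y = r479 := rfl
theorem e_376_y : r376 * y = r480 := rfl
theorem e_377_y : r377 * y = r481 := rfl
theorem e_378_x : r378 * x = r482 := rfl
theorem e_380_x : r380 * x = r483 := rfl
theorem e_380_y : r380 * y = r484 := rfl
theorem e_381_y : r381 * y = r485 := rfl
theorem e_382_y : r382 * y = r486 := rfl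
theorem e_383_y : r383 * y = r487 := rfl
theorem e_384_y : r384 * y = r488 := rfl
theorem e_385_y : r385 * y = r489 := rfl
theorem e_386_y : r386 * y = r490 := rfl
theorem e_387_y : r387 * y = r491 := rfl
theorem e_388_y : r388 * y = r492 := rfl
theorem e_389_y : r389 * y = r493 := rfl
theorem e_390_y : r390 * y = r494 := rfl
theorem e_392_y : r392 * y = r495 := rfl
theorem e_393_y : r393 * y = r496 := rfl
theorem e_394_y : r394 * y = r497 := rfl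
theorem e_395_y : r395 * y = r498 := rfl
theorem e_396_y : r396 * y = r499 := rfl
theorem e_397_y : r397 * y = r500 := rfl
theorem e_398_x : r398 * x = r501 := rfl
theorem e_398_y : r398 * y = r502 := rfl
theorem e_399_y : r399 * y = r503 := rfl
theorem e_400_x : r400 * x = r504 := rfl
theorem e_402_x : r402 * x = r505 := rfl
theorem e_402_y : r402 * y = r506 := rfl
theorem e_403_y : r403 * y = r507 := rfl
theorem e_404_y : r404 * y = r508 := rfl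
theorem e_405_y : r405 * y = r509 := rfl
theorem e_406_y : r406 * y = r510 := rfl
theorem e_407_y : r407 * y = r511 := rfl
theorem e_408_x : r408 * x = r512 := rfl
theorem e_408_y : r408 * y = r513 := rfl
theorem e_409_y : r409 * y = r514 := rfl
theorem e_410_y : r410 * y = r515 := rfl
theorem e_414_x : r414 * x = r516 := rfl
theorem e_414_y : r414 * y = r517 := rfl
theorem e_415_x : r415 * x = r518 := rfl
theorem e_415_y : r415 * y = r519 := rfl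
theorem e_417_y : r417 * y = r520 := rfl
theorem e_418_y : r418 * y = r521 := rfl
theorem e_419_y : r419 * y = r522 := rfl
theorem e_420_y : r420 * y = r523 := rfl
theorem e_422_x : r422 * x = r524 := rfl
theorem e_422_y : r422 * y = r525 := rfl
theorem e_423_x : r423 * x = r526 := rfl
theorem e_423_y : r423 * y = r527 := rfl
theorem e_424_y : r424 * y = r528 := rfl
theorem e_425_y : r425 * y = r529 := rfl
theorem e_428_y : r428 * y = r530 := rfl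
theorem e_429_x : r429 * x = r531 := rfl
theorem e_429_y : r429 * y = r532 := rfl
theorem e_430_y : r430 * y = r533 := rfl
theorem e_431_y : r431 * y = r534 := rfl
theorem e_432_y : r432 * y = r535 := rfl
theorem e_434_y : r434 * y = r536 := rfl
theorem e_436_y : r436 * y = r537 := rfl
theorem e_437_y : r437 * y = r538 := rfl
theorem e_438_y : r438 * y = r539 := rfl
theorem e_439_y : r439 * y = r540 := rfl
theorem e_440_y : r440 * y = r541 := rfl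
theorem e_441_y : r441 * y = r542 := rfl
theorem e_442_y : r442 * y = r543 := rfl
theorem e_444_y : r444 * y = r544 := rfl
theorem e_445_y : r445 * y = r545 := rfl
theorem e_446_y : r446 * y = r546 := rfl
theorem e_447_y : r447 * y = r547 := rfl
theorem e_448_y : r448 * y = r548 := rfl
theorem e_449_y : r449 * y = r549 := rfl
theorem e_450_x : r450 * x = r550 := rfl
theorem e_450_y : r450 * y = r551 := rfl
theorem e_451_y : r451 * y = r552 := rfl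
theorem e_452_x : r452 * x = r553 := rfl
theorem e_454_x : r454 * x = r554 := rfl
theorem e_454_y : r454 * y = r555 := rfl
theorem e_455_y : r455 * y = r556 := rfl
theorem e_456_y : r456 * y = r557 := rfl
theorem e_457_y : r457 * y = r558 := rfl
theorem e_458_y : r458 * y = r559 := rfl
theorem e_459_y : r459 * y = r560 := rfl
theorem e_460_x : r460 * x = r561 := rfl
theorem e_460_y : r460 * y = r562 := rfl
theorem e_461_y : r461 * y = r563 := rfl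
theorem e_462_y : r462 * y = r564 := rfl
theorem e_466_x : r466 * x = r565 := rfl
theorem e_466_y : r466 * y = r566 := rfl
theorem e_467_x : r467 * x = r567 := rfl
theorem e_467_y : r467 * y = r568 := rfl
theorem e_469_y : r469 * y = r569 := rfl
theorem e_470_y : r470 * y = r570 := rfl
theorem e_471_y : r471 * y = r571 := rfl
theorem e_472_y : r472 * y = r572 := rfl
theorem e_474_x : r474 * x = r573 := rfl
theorem e_474_y : r474 * y = r574 := rfl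
theorem e_475_x : r475 * x = r575 := rfl
theorem e_475_y : r475 * y = r576 := rfl
theorem e_476_y : r476 * y = r577 := rfl
theorem e_477_y : r477 * y = r578 := rfl
theorem e_480_y : r480 * y = r579 := rfl
theorem e_481_x : r481 * x = r580 := rfl
theorem e_481_y : r481 * y = r581 := rfl
theorem e_482_y : r482 * y = r582 := rfl
theorem e_483_y : r483 * y = r583 := rfl
theorem e_484_y : r484 * y = r584 := rfl
theorem e_486_y : r486 * y = r585 := rfl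
theorem e_488_y : r488 * y = r586 := rfl
theorem e_489_y : r489 * y = r587 := rfl
theorem e_490_y : r490 * y = r588 := rfl
theorem e_491_y : r491 * y = r589 := rfl
theorem e_492_y : r492 * y = r590 := rfl
theorem e_493_y : r493 * y = r591 := rfl
theorem e_494_y : r494 * y = r592 := rfl
theorem e_495_y : r495 * y = r593 := rfl
theorem e_498_y : r498 * y = r594 := rfl
theorem e_499_y : r499 * y = r595 := rfl
theorem e_500_y : r500 * y = r596 := rfl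
theorem e_501_y : r501 * y = r597 := rfl
theorem e_502_x : r502 * x = r598 := rfl
theorem e_502_y : r502 * y = r599 := rfl
theorem e_503_y : r503 * y = r600 := rfl
theorem e_504_y : r504 * y = r601 := rfl
theorem e_505_y : r505 * y = r602 := rfl
theorem e_507_y : r507 * y = r603 := rfl
theorem e_509_y : r509 * y = r604 := rfl
theorem e_510_y : r510 * y = r605 := rfl
theorem e_511_y : r511 * y = r606 := rfl
theorem e_514_y : r514 * y = r607 := rfl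
theorem e_516_y : r516 * y = r608 := rfl
theorem e_517_y : r517 * y = r609 := rfl
theorem e_518_y : r518 * y = r610 := rfl
theorem e_519_y : r519 * y = r611 := rfl
theorem e_522_y : r522 * y = r612 := rfl
theorem e_523_y : r523 * y = r613 := rfl
theorem e_524_y : r524 * y = r614 := rfl
theorem e_526_y : r526 * y = r615 := rfl
theorem e_528_y : r528 * y = r616 := rfl
theorem e_529_y : r529 * y = r617 := rfl
theorem e_531_y : r531 * y = r618 := rfl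
theorem e_532_y : r532 * y = r619 := rfl
theorem e_533_y : r533 * y = r620 := rfl
theorem e_535_y : r535 * y = r621 := rfl
theorem e_536_y : r536 * y = r622 := rfl
theorem e_537_y : r537 * y = r623 := rfl
theorem e_539_y : r539 * y = r624 := rfl
theorem e_540_y : r540 * y = r625 := rfl
theorem e_541_y : r541 * y = r626 := rfl
theorem e_542_y : r542 * y = r627 := rfl
theorem e_543_y : r543 * y = r628 := rfl
theorem e_544_y : r544 * y = r629 := rfl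
theorem e_547_y : r547 * y = r630 := rfl
theorem e_548_y : r548 * y = r631 := rfl
theorem e_549_y : r549 * y = r632 := rfl
theorem e_550_y : r550 * y = r633 := rfl
theorem e_551_x : r551 * x = r634 := rfl
theorem e_551_y : r551 * y = r635 := rfl
theorem e_552_y : r552 * y = r636 := rfl
theorem e_553_y : r553 * y = r637 := rfl
theorem e_554_y : r554 * y = r638 := rfl
theorem e_556_y : r556 * y = r639 := rfl
theorem e_558_y : r558 * y = r640 := rfl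
theorem e_559_y : r559 * y = r641 := rfl
theorem e_560_y : r560 * y = r642 := rfl
theorem e_563_y : r563 * y = r643 := rfl
theorem e_565_y : r565 * y = r644 := rfl
theorem e_566_y : r566 * y = r645 := rfl
theorem e_567_y : r567 * y = r646 := rfl
theorem e_568_y : r568 * y = r647 := rfl
theorem e_571_y : r571 * y = r648 := rfl
theorem e_572_y : r572 * y = r649 := rfl
theorem e_573_y : r573 * y = r650 := rfl
theorem e_575_y : r575 * y = r651 := rfl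
theorem e_577_y : r577 * y = r652 := rfl
theorem e_578_y : r578 * y = r653 := rfl
theorem e_580_y : r580 * y = r654 := rfl
theorem e_581_y : r581 * y = r655 := rfl
theorem e_582_y : r582 * y = r656 := rfl
theorem e_584_y : r584 * y = r657 := rfl
theorem e_585_y : r585 * y = r658 := rfl
theorem e_586_y : r586 * y = r659 := rfl
theorem e_588_y : r588 * y = r660 := rfl
theorem e_590_y : r590 * y = r661 := rfl
theorem e_591_y : r591 * y = r662 := rfl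
theorem e_592_y : r592 * y = r663 := rfl
theorem e_593_x : r593 * x = r664 := rfl
theorem e_593_y : r593 * y = r665 := rfl
theorem e_597_y : r597 * y = r666 := rfl
theorem e_599_y : r599 * y = r667 := rfl
theorem e_601_y : r601 * y = r668 := rfl
theorem e_603_x : r603 * x = r669 := rfl
theorem e_603_y : r603 * y = r670 := rfl
theorem e_606_y : r606 * y = r671 := rfl
theorem e_608_y : r608 * y = r672 := rfl
theorem e_609_y : r609 * y = r673 := rfl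
theorem e_610_y : r610 * y = r674 := rfl
theorem e_611_y : r611 * y = r675 := rfl
theorem e_612_y : r612 * y = r676 := rfl
theorem e_613_y : r613 * y = r677 := rfl
theorem e_614_y : r614 * y = r678 := rfl
theorem e_616_y : r616 * y = r679 := rfl
theorem e_619_y : r619 * y = r680 := rfl
theorem e_620_y : r620 * y = r681 := rfl
theorem e_623_y : r623 * y = r682 := rfl
theorem e_624_y : r624 * y = r683 := rfl
theorem e_626_y : r626 * y = r684 := rfl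
theorem e_627_y : r627 * y = r685 := rfl
theorem e_628_y : r628 * y = r686 := rfl
theorem e_629_x : r629 * x = r687 := rfl
theorem e_629_y : r629 * y = r688 := rfl
theorem e_633_y : r633 * y = r689 := rfl
theorem e_635_y : r635 * y = r690 := rfl
theorem e_637_y : r637 * y = r691 := rfl
theorem e_639_x : r639 * x = r692 := rfl
theorem e_639_y : r639 * y = r693 := rfl
theorem e_642_y : r642 * y = r694 := rfl
theorem e_644_y : r644 * y = r695 := rfl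
theorem e_645_y : r645 * y = r696 := rfl
theorem e_646_y : r646 * y = r697 := rfl
theorem e_647_y : r647 * y = r698 := rfl
theorem e_648_y : r648 * y = r699 := rfl
theorem e_649_y : r649 * y = r700 := rfl
theorem e_650_y : r650 * y = r701 := rfl
theorem e_652_y : r652 * y = r702 := rfl
theorem e_655_y : r655 * y = r703 := rfl
theorem e_656_y : r656 * y = r704 := rfl
theorem e_659_y : r659 * y = r705 := rfl
theorem e_660_x : r660 * x = r706 := rfl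
theorem e_660_y : r660 * y = r707 := rfl
theorem e_663_y : r663 * y = r708 := rfl
theorem e_668_y : r668 * y = r709 := rfl
theorem e_672_y : r672 * y = r710 := rfl
theorem e_681_y : r681 * y = r711 := rfl
theorem e_683_x : r683 * x = r712 := rfl
theorem e_683_y : r683 * y = r713 := rfl
theorem e_686_y : r686 * y = r714 := rfl
theorem e_691_y : r691 * y = r715 := rfl
theorem e_695_y : r695 * y = r716 := rfl
theorem e_704_y : r704 * y = r717 := rfl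
theorem e_709_y : r709 * y = r718 := rfl
theorem e_715_y : r715 * y = r719 := rfl
theorem e_1_x : r1 * x = r0 := by
  have h := relA r0
  simp only [e_0_x] at h
  exact h
theorem e_4_x : r4 * x = r2 := by
  have h := relA r2
  simp only [e_2_x] at h
  exact h
theorem e_6_x : r6 * x = r3 := by
  have h := relA r3
  simp only [e_3_x] at h
  exact h
theorem e_9_x : r9 * x = r5 := by
  have h := relA r5
  simp only [e_5_x] at h
  exact h
theorem e_12_x : r12 * x = r7 := by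
  have h := relA r7
  simp only [e_7_x] at h
  exact h
theorem e_14_x : r14 * x = r8 := by
  have h := relA r8
  simp only [e_8_x] at h
  exact h
theorem e_17_x : r17 * x = r10 := by
  have h := relA r10
  simp only [e_10_x] at h
  exact h
theorem e_19_x : r19 * x = r11 := by
  have h := relA r11
  simp only [e_11_x] at h
  exact h
theorem e_22_x : r22 * x = r13 := by
  have h := relA r13
  simp only [e_13_x] at h
  exact h
theorem e_25_x : r25 * x = r15 := by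
  have h := relA r15
  simp only [e_15_x] at h
  exact h
theorem e_27_x : r27 * x = r16 := by
  have h := relA r16
  simp only [e_16_x] at h
  exact h
theorem e_30_x : r30 * x = r18 := by
  have h := relA r18
  simp only [e_18_x] at h
  exact h
theorem e_33_x : r33 * x = r20 := by
  have h := relA r20
  simp only [e_20_x] at h
  exact h
theorem e_35_x : r35 * x = r21 := by
  have h := relA r21
  simp only [e_21_x] at h
  exact h
theorem e_38_x : r38 * x = r23 := by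
  have h := relA r23
  simp only [e_23_x] at h
  exact h
theorem e_40_x : r40 * x = r24 := by
  have h := relA r24
  simp only [e_24_x] at h
  exact h
theorem e_43_x : r43 * x = r26 := by
  have h := relA r26
  simp only [e_26_x] at h
  exact h
theorem e_46_x : r46 * x = r28 := by
  have h := relA r28
  simp only [e_28_x] at h
  exact h
theorem e_48_x : r48 * x = r29 := by
  have h := relA r29
  simp only [e_29_x] at h
  exact h
theorem e_51_x : r51 * x = r31 := by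
  have h := relA r31
  simp only [e_31_x] at h
  exact h
theorem e_52_x : r52 * x = r32 := by
  have h := relA r32
  simp only [e_32_x] at h
  exact h
theorem e_55_x : r55 * x = r34 := by
  have h := relA r34
  simp only [e_34_x] at h
  exact h
theorem e_58_x : r58 * x = r36 := by
  have h := relA r36
  simp only [e_36_x] at h
  exact h
theorem e_60_x : r60 * x = r37 := by
  have h := relA r37
  simp only [e_37_x] at h
  exact h
theorem e_63_x : r63 * x = r39 := by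
  have h := relA r39
  simp only [e_39_x] at h
  exact h
theorem e_64_x : r64 * x = r41 := by
  have h := relA r41
  simp only [e_41_x] at h
  exact h
theorem e_66_x : r66 * x = r42 := by
  have h := relA r42
  simp only [e_42_x] at h
  exact h
theorem e_69_x : r69 * x = r44 := by
  have h := relA r44
  simp only [e_44_x] at h
  exact h
theorem e_71_x : r71 * x = r45 := by
  have h := relA r45
  simp only [e_45_x] at h
  exact h
theorem e_74_x : r74 * x = r47 := by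
  have h := relA r47
  simp only [e_47_x] at h
  exact h
theorem e_77_x : r77 * x = r49 := by
  have h := relA r49
  simp only [e_49_x] at h
  exact h
theorem e_79_x : r79 * x = r50 := by
  have h := relA r50
  simp only [e_50_x] at h
  exact h
theorem e_82_x : r82 * x = r53 := by
  have h := relA r53
  simp only [e_53_x] at h
  exact h
theorem e_84_x : r84 * x = r54 := by
  have h := relA r54
  simp only [e_54_x] at h
  exact h
theorem e_87_x : r87 * x = r56 := by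
  have h := relA r56
  simp only [e_56_x] at h
  exact h
theorem e_89_x : r89 * x = r57 := by
  have h := relA r57
  simp only [e_57_x] at h
  exact h
theorem e_92_x : r92 * x = r59 := by
  have h := relA r59
  simp only [e_59_x] at h
  exact h
theorem e_95_x : r95 * x = r61 := by
  have h := relA r61
  simp only [e_61_x] at h
  exact h
theorem e_97_x : r97 * x = r62 := by
  have h := relA r62
  simp only [e_62_x] at h
  exact h
theorem e_101_x : r101 * x = r65 := by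
  have h := relA r65
  simp only [e_65_x] at h
  exact h
theorem e_104_x : r104 * x = r67 := by
  have h := relA r67
  simp only [e_67_x] at h
  exact h
theorem e_106_x : r106 * x = r68 := by
  have h := relA r68
  simp only [e_68_x] at h
  exact h
theorem e_109_x : r109 * x = r70 := by
  have h := relA r70
  simp only [e_70_x] at h
  exact h
theorem e_110_x : r110 * x = r72 := by
  have h := relA r72
  simp only [e_72_x] at h
  exact h
theorem e_112_x : r112 * x = r73 := by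
  have h := relA r73
  simp only [e_73_x] at h
  exact h
theorem e_116_x : r116 * x = r76 := by
  have h := relA r76
  simp only [e_76_x] at h
  exact h
theorem e_122_x : r122 * x = r81 := by
  have h := relA r81
  simp only [e_81_x] at h
  exact h
theorem e_125_x : r125 * x = r83 := by
  have h := relA r83
  simp only [e_83_x] at h
  exact h
theorem e_128_x : r128 * x = r85 := by
  have h := relA r85
  simp only [e_85_x] at h
  exact h
theorem e_130_x : r130 * x = r86 := by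
  have h := relA r86
  simp only [e_86_x] at h
  exact h
theorem e_133_x : r133 * x = r88 := by
  have h := relA r88
  simp only [e_88_x] at h
  exact h
theorem e_134_x : r134 * x = r90 := by
  have h := relA r90
  simp only [e_90_x] at h
  exact h
theorem e_136_x : r136 * x = r91 := by
  have h := relA r91
  simp only [e_91_x] at h
  exact h
theorem e_140_x : r140 * x = r94 := by
  have h := relA r94
  simp only [e_94_x] at h
  exact h
theorem e_146_x : r146 * x = r99 := by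
  have h := relA r99
  simp only [e_99_x] at h
  exact h
theorem e_148_x : r148 * x = r100 := by
  have h := relA r100
  simp only [e_100_x] at h
  exact h
theorem e_151_x : r151 * x = r102 := by
  have h := relA r102
  simp only [e_102_x] at h
  exact h
theorem e_153_x : r153 * x = r103 := by
  have h := relA r103
  simp only [e_103_x] at h
  exact h
theorem e_156_x : r156 * x = r105 := by
  have h := relA r105
  simp only [e_105_x] at h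
  exact h
theorem e_159_x : r159 * x = r107 := by
  have h := relA r107
  simp only [e_107_x] at h
  exact h
theorem e_161_x : r161 * x = r108 := by
  have h := relA r108
  simp only [e_108_x] at h
  exact h
theorem e_168_x : r168 * x = r114 := by
  have h := relA r114
  simp only [e_114_x] at h
  exact h
theorem e_170_x : r170 * x = r115 := by
  have h := relA r115
  simp only [e_115_x] at h
  exact h
theorem e_172_x : r172 * x = r118 := by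
  have h := relA r118
  simp only [e_118_x] at h
  exact h
theorem e_175_x : r175 * x = r120 := by
  have h := relA r120
  simp only [e_120_x] at h
  exact h
theorem e_180_x : r180 * x = r124 := by
  have h := relA r124
  simp only [e_124_x] at h
  exact h
theorem e_183_x : r183 * x = r126 := by
  have h := relA r126
  simp only [e_126_x] at h
  exact h
theorem e_185_x : r185 * x = r127 := by
  have h := relA r127
  simp only [e_127_x] at h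
  exact h
theorem e_188_x : r188 * x = r129 := by
  have h := relA r129
  simp only [e_129_x] at h
  exact h
theorem e_191_x : r191 * x = r131 := by
  have h := relA r131
  simp only [e_131_x] at h
  exact h
theorem e_193_x : r193 * x = r132 := by
  have h := relA r132
  simp only [e_132_x] at h
  exact h
theorem e_200_x : r200 * x = r138 := by
  have h := relA r138
  simp only [e_138_x] at h
  exact h
theorem e_202_x : r202 * x = r139 := by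
  have h := relA r139
  simp only [e_139_x] at h
  exact h
theorem e_204_x : r204 * x = r142 := by
  have h := relA r142
  simp only [e_142_x] at h
  exact h
theorem e_207_x : r207 * x = r144 := by
  have h := relA r144
  simp only [e_144_x] at h
  exact h
theorem e_213_x : r213 * x = r149 := by
  have h := relA r149
  simp only [e_149_x] at h
  exact h
theorem e_215_x : r215 * x = r150 := by
  have h := relA r150
  simp only [e_150_x] at h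
  exact h
theorem e_218_x : r218 * x = r152 := by
  have h := relA r152
  simp only [e_152_x] at h
  exact h
theorem e_219_x : r219 * x = r154 := by
  have h := relA r154
  simp only [e_154_x] at h
  exact h
theorem e_221_x : r221 * x = r155 := by
  have h := relA r155
  simp only [e_155_x] at h
  exact h
theorem e_225_x : r225 * x = r158 := by
  have h := relA r158
  simp only [e_158_x] at h
  exact h
theorem e_232_x : r232 * x = r164 := by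
  have h := relA r164
  simp only [e_164_x] at h
  exact h
theorem e_234_x : r234 * x = r165 := by
  have h := relA r165
  simp only [e_165_x] at h
  exact h
theorem e_236_x : r236 * x = r166 := by
  have h := relA r166
  simp only [e_166_x] at h
  exact h
theorem e_238_x : r238 * x = r167 := by
  have h := relA r167
  simp only [e_167_x] at h
  exact h
theorem e_241_x : r241 * x = r169 := by
  have h := relA r169
  simp only [e_169_x] at h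
  exact h
theorem e_247_x : r247 * x = r174 := by
  have h := relA r174
  simp only [e_174_x] at h
  exact h
theorem e_250_x : r250 * x = r178 := by
  have h := relA r178
  simp only [e_178_x] at h
  exact h
theorem e_254_x : r254 * x = r181 := by
  have h := relA r181
  simp only [e_181_x] at h
  exact h
theorem e_256_x : r256 * x = r182 := by
  have h := relA r182
  simp only [e_182_x] at h
  exact h
theorem e_259_x : r259 * x = r184 := by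
  have h := relA r184
  simp only [e_184_x] at h
  exact h
theorem e_260_x : r260 * x = r186 := by
  have h := relA r186
  simp only [e_186_x] at h
  exact h
theorem e_262_x : r262 * x = r187 := by
  have h := relA r187
  simp only [e_187_x] at h
  exact h
theorem e_266_x : r266 * x = r190 := by
  have h := relA r190
  simp only [e_190_x] at h
  exact h
theorem e_273_x : r273 * x = r196 := by
  have h := relA r196
  simp only [e_196_x] at h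
  exact h
theorem e_275_x : r275 * x = r197 := by
  have h := relA r197
  simp only [e_197_x] at h
  exact h
theorem e_277_x : r277 * x = r198 := by
  have h := relA r198
  simp only [e_198_x] at h
  exact h
theorem e_279_x : r279 * x = r199 := by
  have h := relA r199
  simp only [e_199_x] at h
  exact h
theorem e_282_x : r282 * x = r201 := by
  have h := relA r201
  simp only [e_201_x] at h
  exact h
theorem e_288_x : r288 * x = r206 := by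
  have h := relA r206
  simp only [e_206_x] at h
  exact h
theorem e_291_x : r291 * x = r210 := by
  have h := relA r210
  simp only [e_210_x] at h
  exact h
theorem e_296_x : r296 * x = r214 := by
  have h := relA r214
  simp only [e_214_x] at h
  exact h
theorem e_299_x : r299 * x = r216 := by
  have h := relA r216
  simp only [e_216_x] at h
  exact h
theorem e_301_x : r301 * x = r217 := by
  have h := relA r217
  simp only [e_217_x] at h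
  exact h
theorem e_309_x : r309 * x = r224 := by
  have h := relA r224
  simp only [e_224_x] at h
  exact h
theorem e_313_x : r313 * x = r229 := by
  have h := relA r229
  simp only [e_229_x] at h
  exact h
theorem e_318_x : r318 * x = r233 := by
  have h := relA r233
  simp only [e_233_x] at h
  exact h
theorem e_321_x : r321 * x = r235 := by
  have h := relA r235
  simp only [e_235_x] at h
  exact h
theorem e_322_x : r322 * x = r237 := by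
  have h := relA r237
  simp only [e_237_x] at h
  exact h
theorem e_326_x : r326 * x = r240 := by
  have h := relA r240
  simp only [e_240_x] at h
  exact h
theorem e_331_x : r331 * x = r244 := by
  have h := relA r244
  simp only [e_244_x] at h
  exact h
theorem e_333_x : r333 * x = r245 := by
  have h := relA r245
  simp only [e_245_x] at h
  exact h
theorem e_338_x : r338 * x = r249 := by
  have h := relA r249
  simp only [e_249_x] at h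
  exact h
theorem e_342_x : r342 * x = r255 := by
  have h := relA r255
  simp only [e_255_x] at h
  exact h
theorem e_345_x : r345 * x = r257 := by
  have h := relA r257
  simp only [e_257_x] at h
  exact h
theorem e_347_x : r347 * x = r258 := by
  have h := relA r258
  simp only [e_258_x] at h
  exact h
theorem e_355_x : r355 * x = r265 := by
  have h := relA r265
  simp only [e_265_x] at h
  exact h
theorem e_359_x : r359 * x = r270 := by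
  have h := relA r270
  simp only [e_270_x] at h
  exact h
theorem e_364_x : r364 * x = r274 := by
  have h := relA r274
  simp only [e_274_x] at h
  exact h
theorem e_367_x : r367 * x = r276 := by
  have h := relA r276
  simp only [e_276_x] at h
  exact h
theorem e_368_x : r368 * x = r278 := by
  have h := relA r278
  simp only [e_278_x] at h
  exact h
theorem e_372_x : r372 * x = r281 := by
  have h := relA r281
  simp only [e_281_x] at h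
  exact h
theorem e_377_x : r377 * x = r285 := by
  have h := relA r285
  simp only [e_285_x] at h
  exact h
theorem e_379_x : r379 * x = r286 := by
  have h := relA r286
  simp only [e_286_x] at h
  exact h
theorem e_384_x : r384 * x = r290 := by
  have h := relA r290
  simp only [e_290_x] at h
  exact h
theorem e_386_x : r386 * x = r294 := by
  have h := relA r294
  simp only [e_294_x] at h
  exact h
theorem e_388_x : r388 * x = r295 := by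
  have h := relA r295
  simp only [e_295_x] at h
  exact h
theorem e_399_x : r399 * x = r305 := by
  have h := relA r305
  simp only [e_305_x] at h
  exact h
theorem e_401_x : r401 * x = r306 := by
  have h := relA r306
  simp only [e_306_x] at h
  exact h
theorem e_403_x : r403 * x = r307 := by
  have h := relA r307
  simp only [e_307_x] at h
  exact h
theorem e_405_x : r405 * x = r308 := by
  have h := relA r308
  simp only [e_308_x] at h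
  exact h
theorem e_410_x : r410 * x = r312 := by
  have h := relA r312
  simp only [e_312_x] at h
  exact h
theorem e_416_x : r416 * x = r319 := by
  have h := relA r319
  simp only [e_319_x] at h
  exact h
theorem e_418_x : r418 * x = r320 := by
  have h := relA r320
  simp only [e_320_x] at h
  exact h
theorem e_424_x : r424 * x = r325 := by
  have h := relA r325
  simp only [e_325_x] at h
  exact h
theorem e_430_x : r430 * x = r332 := by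
  have h := relA r332
  simp only [e_332_x] at h
  exact h
theorem e_431_x : r431 * x = r334 := by
  have h := relA r334
  simp only [e_334_x] at h
  exact h
theorem e_438_x : r438 * x = r340 := by
  have h := relA r340
  simp only [e_340_x] at h
  exact h
theorem e_440_x : r440 * x = r341 := by
  have h := relA r341
  simp only [e_341_x] at h
  exact h
theorem e_451_x : r451 * x = r351 := by
  have h := relA r351
  simp only [e_351_x] at h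
  exact h
theorem e_453_x : r453 * x = r352 := by
  have h := relA r352
  simp only [e_352_x] at h
  exact h
theorem e_455_x : r455 * x = r353 := by
  have h := relA r353
  simp only [e_353_x] at h
  exact h
theorem e_457_x : r457 * x = r354 := by
  have h := relA r354
  simp only [e_354_x] at h
  exact h
theorem e_462_x : r462 * x = r358 := by
  have h := relA r358
  simp only [e_358_x] at h
  exact h
theorem e_468_x : r468 * x = r365 := by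
  have h := relA r365
  simp only [e_365_x] at h
  exact h
theorem e_470_x : r470 * x = r366 := by
  have h := relA r366
  simp only [e_366_x] at h
  exact h
theorem e_476_x : r476 * x = r371 := by
  have h := relA r371
  simp only [e_371_x] at h
  exact h
theorem e_482_x : r482 * x = r378 := by
  have h := relA r378
  simp only [e_378_x] at h
  exact h
theorem e_483_x : r483 * x = r380 := by
  have h := relA r380
  simp only [e_380_x] at h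
  exact h
theorem e_501_x : r501 * x = r398 := by
  have h := relA r398
  simp only [e_398_x] at h
  exact h
theorem e_504_x : r504 * x = r400 := by
  have h := relA r400
  simp only [e_400_x] at h
  exact h
theorem e_505_x : r505 * x = r402 := by
  have h := relA r402
  simp only [e_402_x] at h
  exact h
theorem e_512_x : r512 * x = r408 := by
  have h := relA r408
  simp only [e_408_x] at h
  exact h
theorem e_516_x : r516 * x = r414 := by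
  have h := relA r414
  simp only [e_414_x] at h
  exact h
theorem e_518_x : r518 * x = r415 := by
  have h := relA r415
  simp only [e_415_x] at h
  exact h
theorem e_524_x : r524 * x = r422 := by
  have h := relA r422
  simp only [e_422_x] at h
  exact h
theorem e_526_x : r526 * x = r423 := by
  have h := relA r423
  simp only [e_423_x] at h
  exact h
theorem e_531_x : r531 * x = r429 := by
  have h := relA r429
  simp only [e_429_x] at h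
  exact h
theorem e_550_x : r550 * x = r450 := by
  have h := relA r450
  simp only [e_450_x] at h
  exact h
theorem e_553_x : r553 * x = r452 := by
  have h := relA r452
  simp only [e_452_x] at h
  exact h
theorem e_554_x : r554 * x = r454 := by
  have h := relA r454
  simp only [e_454_x] at h
  exact h
theorem e_561_x : r561 * x = r460 := by
  have h := relA r460
  simp only [e_460_x] at h
  exact h
theorem e_565_x : r565 * x = r466 := by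
  have h := relA r466
  simp only [e_466_x] at h
  exact h
theorem e_567_x : r567 * x = r467 := by
  have h := relA r467
  simp only [e_467_x] at h
  exact h
theorem e_573_x : r573 * x = r474 := by
  have h := relA r474
  simp only [e_474_x] at h
  exact h
theorem e_575_x : r575 * x = r475 := by
  have h := relA r475
  simp only [e_475_x] at h
  exact h
theorem e_580_x : r580 * x = r481 := by
  have h := relA r481
  simp only [e_481_x] at h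
  exact h
theorem e_598_x : r598 * x = r502 := by
  have h := relA r502
  simp only [e_502_x] at h
  exact h
theorem e_634_x : r634 * x = r551 := by
  have h := relA r551
  simp only [e_551_x] at h
  exact h
theorem e_664_x : r664 * x = r593 := by
  have h := relA r593
  simp only [e_593_x] at h
  exact h
theorem e_669_x : r669 * x = r603 := by
  have h := relA r603
  simp only [e_603_x] at h
  exact h
theorem e_687_x : r687 * x = r629 := by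
  have h := relA r629
  simp only [e_629_x] at h
  exact h
theorem e_692_x : r692 * x = r639 := by
  have h := relA r639
  simp only [e_639_x] at h
  exact h
theorem e_706_x : r706 * x = r660 := by
  have h := relA r660
  simp only [e_660_x] at h
  exact h
theorem e_712_x : r712 * x = r683 := by
  have h := relA r683
  simp only [e_683_x] at h
  exact h
theorem e_31_y : r31 * y = r0 := by
  have h := relB r0
  simp only [e_0_y, e_2_y, e_5_y, e_10_y, e_18_y] at h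
  exact h
theorem e_39_y : r39 * y = r1 := by
  have h := relB r1
  simp only [e_1_y, e_3_y, e_7_y, e_13_y, e_23_y] at h
  exact h
theorem e_70_y : r70 * y = r4 := by
  have h := relB r4
  simp only [e_4_y, e_8_y, e_15_y, e_26_y, e_44_y] at h
  exact h
theorem e_88_y : r88 * y = r6 := by
  have h := relB r6
  simp only [e_6_y, e_11_y, e_20_y, e_34_y, e_56_y] at h
  exact h
theorem e_115_y : r115 * y = r9 := by
  have h := relB r9
  simp only [e_9_y, e_16_y, e_28_y, e_47_y, e_75_y] at h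
  exact h
theorem e_139_y : r139 * y = r12 := by
  have h := relB r12
  simp only [e_12_y, e_21_y, e_36_y, e_59_y, e_93_y] at h
  exact h
theorem e_152_y : r152 * y = r14 := by
  have h := relB r14
  simp only [e_14_y, e_24_y, e_41_y, e_65_y, e_102_y] at h
  exact h
theorem e_174_y : r174 * y = r17 := by
  have h := relB r17
  simp only [e_17_y, e_29_y, e_49_y, e_78_y, e_119_y] at h
  exact h
theorem e_184_y : r184 * y = r19 := by
  have h := relB r19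
  simp only [e_19_y, e_32_y, e_53_y, e_83_y, e_126_y] at h
  exact h
theorem e_206_y : r206 * y = r22 := by
  have h := relB r22
  simp only [e_22_y, e_37_y, e_61_y, e_96_y, e_143_y] at h
  exact h
theorem e_224_y : r224 * y = r25 := by
  have h := relB r25
  simp only [e_25_y, e_42_y, e_67_y, e_105_y, e_157_y] at h
  exact h
theorem e_235_y : r235 * y = r27 := by
  have h := relB r27
  simp only [e_27_y, e_45_y, e_72_y, e_111_y, e_165_y] at h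
  exact h
theorem e_249_y : r249 * y = r30 := by
  have h := relB r30
  simp only [e_30_y, e_50_y, e_80_y, e_121_y, e_177_y] at h
  exact h
theorem e_265_y : r265 * y = r33 := by
  have h := relB r33
  simp only [e_33_y, e_54_y, e_85_y, e_129_y, e_189_y] at h
  exact h
theorem e_276_y : r276 * y = r35 := by
  have h := relB r35
  simp only [e_35_y, e_57_y, e_90_y, e_135_y, e_197_y] at h
  exact h
theorem e_290_y : r290 * y = r38 := by
  have h := relB r38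
  simp only [e_38_y, e_62_y, e_98_y, e_145_y, e_209_y] at h
  exact h
theorem e_312_y : r312 * y = r43 := by
  have h := relB r43
  simp only [e_43_y, e_68_y, e_107_y, e_160_y, e_228_y] at h
  exact h
theorem e_325_y : r325 * y = r46 := by
  have h := relB r46
  simp only [e_46_y, e_73_y, e_113_y, e_167_y, e_239_y] at h
  exact h
theorem e_332_y : r332 * y = r48 := by
  have h := relB r48
  simp only [e_48_y, e_76_y, e_117_y, e_171_y, e_244_y] at h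
  exact h
theorem e_358_y : r358 * y = r55 := by
  have h := relB r55
  simp only [e_55_y, e_86_y, e_131_y, e_192_y, e_269_y] at h
  exact h
theorem e_371_y : r371 * y = r58 := by
  have h := relB r58
  simp only [e_58_y, e_91_y, e_137_y, e_199_y, e_280_y] at h
  exact h
theorem e_378_y : r378 * y = r60 := by
  have h := relB r60
  simp only [e_60_y, e_94_y, e_141_y, e_203_y, e_285_y] at h
  exact h
theorem e_391_y : r391 * y = r64 := by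
  have h := relB r64
  simp only [e_64_y, e_100_y, e_149_y, e_214_y, e_297_y] at h
  exact h
theorem e_400_y : r400 * y = r66 := by
  have h := relB r66
  simp only [e_66_y, e_103_y, e_154_y, e_220_y, e_305_y] at h
  exact h
theorem e_412_y : r412 * y = r69 := by
  have h := relB r69
  simp only [e_69_y, e_108_y, e_162_y, e_230_y, e_315_y] at h
  exact h
theorem e_427_y : r427 * y = r74 := by
  have h := relB r74
  simp only [e_74_y, e_114_y, e_169_y, e_242_y, e_329_y] at h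
  exact h
theorem e_433_y : r433 * y = r77 := by
  have h := relB r77
  simp only [e_77_y, e_118_y, e_173_y, e_246_y, e_335_y] at h
  exact h
theorem e_435_y : r435 * y = r79 := by
  have h := relB r79
  simp only [e_79_y, e_120_y, e_176_y, e_248_y, e_337_y] at h
  exact h
theorem e_443_y : r443 * y = r82 := by
  have h := relB r82
  simp only [e_82_y, e_124_y, e_181_y, e_255_y, e_343_y] at h
  exact h
theorem e_452_y : r452 * y = r84 := by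
  have h := relB r84
  simp only [e_84_y, e_127_y, e_186_y, e_261_y, e_351_y] at h
  exact h
theorem e_464_y : r464 * y = r87 := by
  have h := relB r87
  simp only [e_87_y, e_132_y, e_194_y, e_271_y, e_361_y] at h
  exact h
theorem e_479_y : r479 * y = r92 := by
  have h := relB r92
  simp only [e_92_y, e_138_y, e_201_y, e_283_y, e_375_y] at h
  exact h
theorem e_485_y : r485 * y = r95 := by
  have h := relB r95
  simp only [e_95_y, e_142_y, e_205_y, e_287_y, e_381_y] at h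
  exact h
theorem e_487_y : r487 * y = r97 := by
  have h := relB r97
  simp only [e_97_y, e_144_y, e_208_y, e_289_y, e_383_y] at h
  exact h
theorem e_497_y : r497 * y = r101 := by
  have h := relB r101
  simp only [e_101_y, e_150_y, e_216_y, e_300_y, e_394_y] at h
  exact h
theorem e_508_y : r508 * y = r104 := by
  have h := relB r104
  simp only [e_104_y, e_155_y, e_222_y, e_307_y, e_404_y] at h
  exact h
theorem e_513_y : r513 * y = r106 := by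
  have h := relB r106
  simp only [e_106_y, e_158_y, e_226_y, e_310_y, e_408_y] at h
  exact h
theorem e_520_y : r520 * y = r110 := by
  have h := relB r110
  simp only [e_110_y, e_164_y, e_233_y, e_319_y, e_417_y] at h
  exact h
theorem e_525_y : r525 * y = r112 := by
  have h := relB r112
  simp only [e_112_y, e_166_y, e_237_y, e_323_y, e_422_y] at h
  exact h
theorem e_538_y : r538 * y = r122 := by
  have h := relB r122
  simp only [e_122_y, e_178_y, e_251_y, e_339_y, e_437_y] at h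
  exact h
theorem e_546_y : r546 * y = r125 := by
  have h := relB r125
  simp only [e_125_y, e_182_y, e_257_y, e_346_y, e_446_y] at h
  exact h
theorem e_557_y : r557 * y = r128 := by
  have h := relB r128
  simp only [e_128_y, e_187_y, e_263_y, e_353_y, e_456_y] at h
  exact h
theorem e_562_y : r562 * y = r130 := by
  have h := relB r130
  simp only [e_130_y, e_190_y, e_267_y, e_356_y, e_460_y] at h
  exact h
theorem e_569_y : r569 * y = r134 := by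
  have h := relB r134
  simp only [e_134_y, e_196_y, e_274_y, e_365_y, e_469_y] at h
  exact h
theorem e_574_y : r574 * y = r136 := by
  have h := relB r136
  simp only [e_136_y, e_198_y, e_278_y, e_369_y, e_474_y] at h
  exact h
theorem e_587_y : r587 * y = r146 := by
  have h := relB r146
  simp only [e_146_y, e_210_y, e_292_y, e_385_y, e_489_y] at h
  exact h
theorem e_589_y : r589 * y = r148 := by
  have h := relB r148
  simp only [e_148_y, e_212_y, e_294_y, e_387_y, e_491_y] at h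
  exact h
theorem e_595_y : r595 * y = r151 := by
  have h := relB r151
  simp only [e_151_y, e_217_y, e_302_y, e_396_y, e_499_y] at h
  exact h
theorem e_605_y : r605 * y = r156 := by
  have h := relB r156
  simp only [e_156_y, e_223_y, e_308_y, e_406_y, e_510_y] at h
  exact h
theorem e_607_y : r607 * y = r159 := by
  have h := relB r159
  simp only [e_159_y, e_227_y, e_311_y, e_409_y, e_514_y] at h
  exact h
theorem e_617_y : r617 * y = r168 := by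
  have h := relB r168
  simp only [e_168_y, e_240_y, e_327_y, e_425_y, e_529_y] at h
  exact h
theorem e_621_y : r621 * y = r172 := by
  have h := relB r172
  simp only [e_172_y, e_245_y, e_334_y, e_432_y, e_535_y] at h
  exact h
theorem e_625_y : r625 * y = r180 := by
  have h := relB r180
  simp only [e_180_y, e_253_y, e_340_y, e_439_y, e_540_y] at h
  exact h
theorem e_631_y : r631 * y = r183 := by
  have h := relB r183
  simp only [e_183_y, e_258_y, e_348_y, e_448_y, e_548_y] at h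
  exact h
theorem e_641_y : r641 * y = r188 := by
  have h := relB r188
  simp only [e_188_y, e_264_y, e_354_y, e_458_y, e_559_y] at h
  exact h
theorem e_643_y : r643 * y = r191 := by
  have h := relB r191
  simp only [e_191_y, e_268_y, e_357_y, e_461_y, e_563_y] at h
  exact h
theorem e_653_y : r653 * y = r200 := by
  have h := relB r200
  simp only [e_200_y, e_281_y, e_373_y, e_477_y, e_578_y] at h
  exact h
theorem e_657_y : r657 * y = r204 := by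
  have h := relB r204
  simp only [e_204_y, e_286_y, e_380_y, e_484_y, e_584_y] at h
  exact h
theorem e_662_y : r662 * y = r213 := by
  have h := relB r213
  simp only [e_213_y, e_295_y, e_389_y, e_493_y, e_591_y] at h
  exact h
theorem e_665_y : r665 * y = r215 := by
  have h := relB r215
  simp only [e_215_y, e_298_y, e_392_y, e_495_y, e_593_y] at h
  exact h
theorem e_667_y : r667 * y = r219 := by
  have h := relB r219
  simp only [e_219_y, e_304_y, e_398_y, e_502_y, e_599_y] at h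
  exact h
theorem e_673_y : r673 * y = r232 := by
  have h := relB r232
  simp only [e_232_y, e_317_y, e_414_y, e_517_y, e_609_y] at h
  exact h
theorem e_676_y : r676 * y = r234 := by
  have h := relB r234
  simp only [e_234_y, e_320_y, e_419_y, e_522_y, e_612_y] at h
  exact h
theorem e_685_y : r685 * y = r254 := by
  have h := relB r254
  simp only [e_254_y, e_341_y, e_441_y, e_542_y, e_627_y] at h
  exact h
theorem e_688_y : r688 * y = r256 := by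
  have h := relB r256
  simp only [e_256_y, e_344_y, e_444_y, e_544_y, e_629_y] at h
  exact h
theorem e_690_y : r690 * y = r260 := by
  have h := relB r260
  simp only [e_260_y, e_350_y, e_450_y, e_551_y, e_635_y] at h
  exact h
theorem e_696_y : r696 * y = r273 := by
  have h := relB r273
  simp only [e_273_y, e_363_y, e_466_y, e_566_y, e_645_y] at h
  exact h
theorem e_699_y : r699 * y = r275 := by
  have h := relB r275
  simp only [e_275_y, e_366_y, e_471_y, e_571_y, e_648_y] at h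
  exact h
theorem e_708_y : r708 * y = r296 := by
  have h := relB r296
  simp only [e_296_y, e_390_y, e_494_y, e_592_y, e_663_y] at h
  exact h
theorem e_714_y : r714 * y = r342 := by
  have h := relB r342
  simp only [e_342_y, e_442_y, e_543_y, e_628_y, e_686_y] at h
  exact h
theorem e_52_y : r52 * y = r51 := by
  have h := relC r0
  simp only [e_0_x, e_1_y, e_3_x, e_6_y, e_11_x, e_19_y, e_32_x] at h
  have h2 : r51 * x * y = r0 := by simp only [e_51_x, e_31_y]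
  exact (mul_right_cancel (mul_right_cancel (h.trans h2.symm)))
theorem e_40_y : r40 * y = r63 := by
  have h := relC r1
  simp only [e_1_x, e_0_y, e_2_x, e_4_y, e_8_x, e_14_y, e_24_x] at h
  have h2 : r63 * x * y = r1 := by simp only [e_63_x, e_39_y]
  exact (mul_right_cancel (mul_right_cancel (h.trans h2.symm)))
theorem e_71_y : r71 * y = r109 := by
  have h := relC r4
  simp only [e_4_x, e_2_y, e_5_x, e_9_y, e_16_x, e_27_y, e_45_x] at h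
  have h2 : r109 * x * y = r4 := by simp only [e_109_x, e_70_y]
  exact (mul_right_cancel (mul_right_cancel (h.trans h2.symm)))
theorem e_89_y : r89 * y = r133 := by
  have h := relC r6
  simp only [e_6_x, e_3_y, e_7_x, e_12_y, e_21_x, e_35_y, e_57_x] at h
  have h2 : r133 * x * y = r6 := by simp only [e_133_x, e_88_y]
  exact (mul_right_cancel (mul_right_cancel (h.trans h2.symm)))
theorem e_116_y : r116 * y = r170 := by
  have h := relC r9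
  simp only [e_9_x, e_5_y, e_10_x, e_17_y, e_29_x, e_48_y, e_76_x] at h
  have h2 : r170 * x * y = r9 := by simp only [e_170_x, e_115_y]
  exact (mul_right_cancel (mul_right_cancel (h.trans h2.symm)))
theorem e_140_y : r140 * y = r202 := by
  have h := relC r12
  simp only [e_12_x, e_7_y, e_13_x, e_22_y, e_37_x, e_60_y, e_94_x] at h
  have h2 : r202 * x * y = r12 := by simp only [e_202_x, e_139_y]
  exact (mul_right_cancel (mul_right_cancel (h.trans h2.symm)))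
theorem e_153_y : r153 * y = r218 := by
  have h := relC r14
  simp only [e_14_x, e_8_y, e_15_x, e_25_y, e_42_x, e_66_y, e_103_x] at h
  have h2 : r218 * x * y = r14 := by simp only [e_218_x, e_152_y]
  exact (mul_right_cancel (mul_right_cancel (h.trans h2.symm)))
theorem e_175_y : r175 * y = r247 := by
  have h := relC r17
  simp only [e_17_x, e_10_y, e_18_x, e_30_y, e_50_x, e_79_y, e_120_x] at h
  have h2 : r247 * x * y = r17 := by simp only [e_247_x, e_174_y]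
  exact (mul_right_cancel (mul_right_cancel (h.trans h2.symm)))
theorem e_185_y : r185 * y = r259 := by
  have h := relC r19
  simp only [e_19_x, e_11_y, e_20_x, e_33_y, e_54_x, e_84_y, e_127_x] at h
  have h2 : r259 * x * y = r19 := by simp only [e_259_x, e_184_y]
  exact (mul_right_cancel (mul_right_cancel (h.trans h2.symm)))
theorem e_207_y : r207 * y = r288 := by
  have h := relC r22
  simp only [e_22_x, e_13_y, e_23_x, e_38_y, e_62_x, e_97_y, e_144_x] at h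
  have h2 : r288 * x * y = r22 := by simp only [e_288_x, e_206_y]
  exact (mul_right_cancel (mul_right_cancel (h.trans h2.symm)))
theorem e_225_y : r225 * y = r309 := by
  have h := relC r25
  simp only [e_25_x, e_15_y, e_26_x, e_43_y, e_68_x, e_106_y, e_158_x] at h
  have h2 : r309 * x * y = r25 := by simp only [e_309_x, e_224_y]
  exact (mul_right_cancel (mul_right_cancel (h.trans h2.symm)))
theorem e_236_y : r236 * y = r321 := by
  have h := relC r27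
  simp only [e_27_x, e_16_y, e_28_x, e_46_y, e_73_x, e_112_y, e_166_x] at h
  have h2 : r321 * x * y = r27 := by simp only [e_321_x, e_235_y]
  exact (mul_right_cancel (mul_right_cancel (h.trans h2.symm)))
theorem e_250_y : r250 * y = r338 := by
  have h := relC r30
  simp only [e_30_x, e_18_y, e_31_x, e_51_y, e_81_x, e_122_y, e_178_x] at h
  have h2 : r338 * x * y = r30 := by simp only [e_338_x, e_249_y]
  exact (mul_right_cancel (mul_right_cancel (h.trans h2.symm)))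
theorem e_266_y : r266 * y = r355 := by
  have h := relC r33
  simp only [e_33_x, e_20_y, e_34_x, e_55_y, e_86_x, e_130_y, e_190_x] at h
  have h2 : r355 * x * y = r33 := by simp only [e_355_x, e_265_y]
  exact (mul_right_cancel (mul_right_cancel (h.trans h2.symm)))
theorem e_277_y : r277 * y = r367 := by
  have h := relC r35
  simp only [e_35_x, e_21_y, e_36_x, e_58_y, e_91_x, e_136_y, e_198_x] at h
  have h2 : r367 * x * y = r35 := by simp only [e_367_x, e_276_y]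
  exact (mul_right_cancel (mul_right_cancel (h.trans h2.symm)))
theorem e_291_y : r291 * y = r384 := by
  have h := relC r38
  simp only [e_38_x, e_23_y, e_39_x, e_63_y, e_99_x, e_146_y, e_210_x] at h
  have h2 : r384 * x * y = r38 := by simp only [e_384_x, e_290_y]
  exact (mul_right_cancel (mul_right_cancel (h.trans h2.symm)))
theorem e_313_y : r313 * y = r410 := by
  have h := relC r43
  simp only [e_43_x, e_26_y, e_44_x, e_69_y, e_108_x, e_161_y, e_229_x] at h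
  have h2 : r410 * x * y = r43 := by simp only [e_410_x, e_312_y]
  exact (mul_right_cancel (mul_right_cancel (h.trans h2.symm)))
theorem e_326_y : r326 * y = r424 := by
  have h := relC r46
  simp only [e_46_x, e_28_y, e_47_x, e_74_y, e_114_x, e_168_y, e_240_x] at h
  have h2 : r424 * x * y = r46 := by simp only [e_424_x, e_325_y]
  exact (mul_right_cancel (mul_right_cancel (h.trans h2.symm)))
theorem e_333_y : r333 * y = r430 := by
  have h := relC r48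
  simp only [e_48_x, e_29_y, e_49_x, e_77_y, e_118_x, e_172_y, e_245_x] at h
  have h2 : r430 * x * y = r48 := by simp only [e_430_x, e_332_y]
  exact (mul_right_cancel (mul_right_cancel (h.trans h2.symm)))
theorem e_359_y : r359 * y = r462 := by
  have h := relC r55
  simp only [e_55_x, e_34_y, e_56_x, e_87_y, e_132_x, e_193_y, e_270_x] at h
  have h2 : r462 * x * y = r55 := by simp only [e_462_x, e_358_y]
  exact (mul_right_cancel (mul_right_cancel (h.trans h2.symm)))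
theorem e_372_y : r372 * y = r476 := by
  have h := relC r58
  simp only [e_58_x, e_36_y, e_59_x, e_92_y, e_138_x, e_200_y, e_281_x] at h
  have h2 : r476 * x * y = r58 := by simp only [e_476_x, e_371_y]
  exact (mul_right_cancel (mul_right_cancel (h.trans h2.symm)))
theorem e_379_y : r379 * y = r482 := by
  have h := relC r60
  simp only [e_60_x, e_37_y, e_61_x, e_95_y, e_142_x, e_204_y, e_286_x] at h
  have h2 : r482 * x * y = r60 := by simp only [e_482_x, e_378_y]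
  exact (mul_right_cancel (mul_right_cancel (h.trans h2.symm)))
theorem e_401_y : r401 * y = r504 := by
  have h := relC r66
  simp only [e_66_x, e_42_y, e_67_x, e_104_y, e_155_x, e_221_y, e_306_x] at h
  have h2 : r504 * x * y = r66 := by simp only [e_504_x, e_400_y]
  exact (mul_right_cancel (mul_right_cancel (h.trans h2.symm)))
theorem e_453_y : r453 * y = r553 := by
  have h := relC r84
  simp only [e_84_x, e_54_y, e_85_x, e_128_y, e_187_x, e_262_y, e_352_x] at h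
  have h2 : r553 * x * y = r84 := by simp only [e_553_x, e_452_y]
  exact (mul_right_cancel (mul_right_cancel (h.trans h2.symm)))
theorem e_435_x : r435 * x = r443 := by
  have h := relD r50
  simp only [e_50_x, e_79_y, e_120_y, e_176_y, e_248_y, e_337_y] at h
  have h2 : r443 * y * x * y * y * y * y * y * x * y * x * y * y * y * y * y * x * y = r50 := by simp only [e_443_y, e_82_x, e_53_y, e_83_y, e_126_y, e_184_y, e_19_y, e_32_x, e_52_y, e_51_x, e_31_y, e_0_y, e_2_y, e_5_y, e_10_y, e_18_x, e_30_y]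
  exact (mul_right_cancel (mul_right_cancel (mul_right_cancel (mul_right_cancel (mul_right_cancel (mul_right_cancel (mul_right_cancel (mul_right_cancel (mul_right_cancel (mul_right_cancel (mul_right_cancel (mul_right_cancel (mul_right_cancel (mul_right_cancel (mul_right_cancel (mul_right_cancel (mul_right_cancel (h.trans h2.symm))))))))))))))))))
theorem e_487_x : r487 * x = r391 := by
  have h := relD r62
  simp only [e_62_x, e_97_y, e_144_y, e_208_y, e_289_y, e_383_y] at h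
  have h2 : r391 * y * x * y * y * y * y * y * x * y * x * y * y * y * y * y * x * y = r62 := by simp only [e_391_y, e_64_x, e_41_y, e_65_y, e_102_y, e_152_y, e_14_y, e_24_x, e_40_y, e_63_x, e_39_y, e_1_y, e_3_y, e_7_y, e_13_y, e_23_x, e_38_y]
  exact (mul_right_cancel (mul_right_cancel (mul_right_cancel (mul_right_cancel (mul_right_cancel (mul_right_cancel (mul_right_cancel (mul_right_cancel (mul_right_cancel (mul_right_cancel (mul_right_cancel (mul_right_cancel (mul_right_cancel (mul_right_cancel (mul_right_cancel (mul_right_cancel (mul_right_cancel (h.trans h2.symm))))))))))))))))))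
theorem e_98_x : r98 * x = r80 := by
  have h := relE r0
  simp only [e_0_x, e_1_y, e_3_y, e_7_y, e_13_y, e_23_x, e_38_y, e_62_y] at h
  have h2 : r80 * y * y * y * y * x * y * y = r0 := by simp only [e_80_y, e_121_y, e_177_y, e_249_y, e_30_x, e_18_y, e_31_y]
  exact (mul_right_cancel (mul_right_cancel (mul_right_cancel (mul_right_cancel (mul_right_cancel (mul_right_cancel (mul_right_cancel (h.trans h2.symm))))))))
theorem e_80_x : r80 * x = r98 := by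
  have h := relE r1
  simp only [e_1_x, e_0_y, e_2_y, e_5_y, e_10_y, e_18_x, e_30_y, e_50_y] at h
  have h2 : r98 * y * y * y * y * x * y * y = r1 := by simp only [e_98_y, e_145_y, e_209_y, e_290_y, e_38_x, e_23_y, e_39_y]
  exact (mul_right_cancel (mul_right_cancel (mul_right_cancel (mul_right_cancel (mul_right_cancel (mul_right_cancel (mul_right_cancel (h.trans h2.symm))))))))
theorem e_123_x : r123 * x = r162 := by
  have h := relE r4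
  simp only [e_4_x, e_2_y, e_5_y, e_10_y, e_18_y, e_31_x, e_51_y, e_81_y] at h
  have h2 : r162 * y * y * y * y * x * y * y = r4 := by simp only [e_162_y, e_230_y, e_315_y, e_412_y, e_69_x, e_44_y, e_70_y]
  exact (mul_right_cancel (mul_right_cancel (mul_right_cancel (mul_right_cancel (mul_right_cancel (mul_right_cancel (mul_right_cancel (h.trans h2.symm))))))))
theorem e_75_x : r75 * x = r93 := by
  have h := relE r5
  simp only [e_5_x, e_9_y, e_16_y, e_28_y, e_47_y] at h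
  have h2 : r93 * y * y * x * y * y * y * y * x * y * y = r5 := by simp only [e_93_y, e_139_y, e_12_x, e_7_y, e_13_y, e_23_y, e_39_y, e_1_x, e_0_y, e_2_y]
  exact (mul_right_cancel (mul_right_cancel (mul_right_cancel (mul_right_cancel (mul_right_cancel (mul_right_cancel (mul_right_cancel (mul_right_cancel (mul_right_cancel (mul_right_cancel (h.trans h2.symm)))))))))))
theorem e_147_x : r147 * x = r194 := by
  have h := relE r6
  simp only [e_6_x, e_3_y, e_7_y, e_13_y, e_23_y, e_39_x, e_63_y, e_99_y] at h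
  have h2 : r194 * y * y * y * y * x * y * y = r6 := by simp only [e_194_y, e_271_y, e_361_y, e_464_y, e_87_x, e_56_y, e_88_y]
  exact (mul_right_cancel (mul_right_cancel (mul_right_cancel (mul_right_cancel (mul_right_cancel (mul_right_cancel (mul_right_cancel (h.trans h2.symm))))))))
theorem e_93_x : r93 * x = r75 := by
  have h := relE r7
  simp only [e_7_x, e_12_y, e_21_y, e_36_y, e_59_y] at h
  have h2 : r75 * y * y * x * y * y * y * y * x * y * y = r7 := by simp only [e_75_y, e_115_y, e_9_x, e_5_y, e_10_y, e_18_y, e_31_y, e_0_x, e_1_y, e_3_y]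
  exact (mul_right_cancel (mul_right_cancel (mul_right_cancel (mul_right_cancel (mul_right_cancel (mul_right_cancel (mul_right_cancel (mul_right_cancel (mul_right_cancel (mul_right_cancel (h.trans h2.symm)))))))))))
theorem e_119_x : r119 * x = r157 := by
  have h := relE r10
  simp only [e_10_x, e_17_y, e_29_y, e_49_y, e_78_y] at h
  have h2 : r157 * y * y * x * y * y * y * y * x * y * y = r10 := by simp only [e_157_y, e_224_y, e_25_x, e_15_y, e_26_y, e_44_y, e_70_y, e_4_x, e_2_y, e_5_y]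
  exact (mul_right_cancel (mul_right_cancel (mul_right_cancel (mul_right_cancel (mul_right_cancel (mul_right_cancel (mul_right_cancel (mul_right_cancel (mul_right_cancel (mul_right_cancel (h.trans h2.symm)))))))))))
theorem e_143_x : r143 * x = r189 := by
  have h := relE r13
  simp only [e_13_x, e_22_y, e_37_y, e_61_y, e_96_y] at h
  have h2 : r189 * y * y * x * y * y * y * y * x * y * y = r13 := by simp only [e_189_y, e_265_y, e_33_x, e_20_y, e_34_y, e_56_y, e_88_y, e_6_x, e_3_y, e_7_y]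
  exact (mul_right_cancel (mul_right_cancel (mul_right_cancel (mul_right_cancel (mul_right_cancel (mul_right_cancel (mul_right_cancel (mul_right_cancel (mul_right_cancel (mul_right_cancel (h.trans h2.symm)))))))))))
theorem e_231_x : r231 * x = r302 := by
  have h := relE r14
  simp only [e_14_x, e_8_y, e_15_y, e_26_y, e_44_y, e_70_x, e_109_y, e_163_y] at h
  have h2 : r302 * y * y * y * y * x * y * y = r14 := by simp only [e_302_y, e_396_y, e_499_y, e_595_y, e_151_x, e_102_y, e_152_y]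
  exact (mul_right_cancel (mul_right_cancel (mul_right_cancel (mul_right_cancel (mul_right_cancel (mul_right_cancel (mul_right_cancel (h.trans h2.symm))))))))
theorem e_157_x : r157 * x = r119 := by
  have h := relE r15
  simp only [e_15_x, e_25_y, e_42_y, e_67_y, e_105_y] at h
  have h2 : r119 * y * y * x * y * y * y * y * x * y * y = r15 := by simp only [e_119_y, e_174_y, e_17_x, e_10_y, e_18_y, e_31_y, e_0_y, e_2_x, e_4_y, e_8_y]
  exact (mul_right_cancel (mul_right_cancel (mul_right_cancel (mul_right_cancel (mul_right_cancel (mul_right_cancel (mul_right_cancel (mul_right_cancel (mul_right_cancel (mul_right_cancel (h.trans h2.symm)))))))))))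
theorem e_177_x : r177 * x = r239 := by
  have h := relE r18
  simp only [e_18_x, e_30_y, e_50_y, e_80_y, e_121_y] at h
  have h2 : r239 * y * y * x * y * y * y * y * x * y * y = r18 := by simp only [e_239_y, e_325_y, e_46_x, e_28_y, e_47_y, e_75_y, e_115_y, e_9_x, e_5_y, e_10_y]
  exact (mul_right_cancel (mul_right_cancel (mul_right_cancel (mul_right_cancel (mul_right_cancel (mul_right_cancel (mul_right_cancel (mul_right_cancel (mul_right_cancel (mul_right_cancel (h.trans h2.symm)))))))))))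
theorem e_272_x : r272 * x = r348 := by
  have h := relE r19
  simp only [e_19_x, e_11_y, e_20_y, e_34_y, e_56_y, e_88_x, e_133_y, e_195_y] at h
  have h2 : r348 * y * y * y * y * x * y * y = r19 := by simp only [e_348_y, e_448_y, e_548_y, e_631_y, e_183_x, e_126_y, e_184_y]
  exact (mul_right_cancel (mul_right_cancel (mul_right_cancel (mul_right_cancel (mul_right_cancel (mul_right_cancel (mul_right_cancel (h.trans h2.symm))))))))
theorem e_189_x : r189 * x = r143 := by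
  have h := relE r20
  simp only [e_20_x, e_33_y, e_54_y, e_85_y, e_129_y] at h
  have h2 : r143 * y * y * x * y * y * y * y * x * y * y = r20 := by simp only [e_143_y, e_206_y, e_22_x, e_13_y, e_23_y, e_39_y, e_1_y, e_3_x, e_6_y, e_11_y]
  exact (mul_right_cancel (mul_right_cancel (mul_right_cancel (mul_right_cancel (mul_right_cancel (mul_right_cancel (mul_right_cancel (mul_right_cancel (mul_right_cancel (mul_right_cancel (h.trans h2.symm)))))))))))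
theorem e_209_x : r209 * x = r280 := by
  have h := relE r23
  simp only [e_23_x, e_38_y, e_62_y, e_98_y, e_145_y] at h
  have h2 : r280 * y * y * x * y * y * y * y * x * y * y = r23 := by simp only [e_280_y, e_371_y, e_58_x, e_36_y, e_59_y, e_93_y, e_139_y, e_12_x, e_7_y, e_13_y]
  exact (mul_right_cancel (mul_right_cancel (mul_right_cancel (mul_right_cancel (mul_right_cancel (mul_right_cancel (mul_right_cancel (mul_right_cancel (mul_right_cancel (mul_right_cancel (h.trans h2.symm)))))))))))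
theorem e_228_x : r228 * x = r297 := by
  have h := relE r26
  simp only [e_26_x, e_43_y, e_68_y, e_107_y, e_160_y] at h
  have h2 : r297 * y * y * x * y * y * y * y * x * y * y = r26 := by simp only [e_297_y, e_391_y, e_64_x, e_41_y, e_65_y, e_102_y, e_152_y, e_14_x, e_8_y, e_15_y]
  exact (mul_right_cancel (mul_right_cancel (mul_right_cancel (mul_right_cancel (mul_right_cancel (mul_right_cancel (mul_right_cancel (mul_right_cancel (mul_right_cancel (mul_right_cancel (h.trans h2.symm)))))))))))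
theorem e_330_x : r330 * x = r419 := by
  have h := relE r27
  simp only [e_27_x, e_16_y, e_28_y, e_47_y, e_75_y, e_115_x, e_170_y, e_243_y] at h
  have h2 : r419 * y * y * y * y * x * y * y = r27 := by simp only [e_419_y, e_522_y, e_612_y, e_676_y, e_234_x, e_165_y, e_235_y]
  exact (mul_right_cancel (mul_right_cancel (mul_right_cancel (mul_right_cancel (mul_right_cancel (mul_right_cancel (mul_right_cancel (h.trans h2.symm))))))))
theorem e_239_x : r239 * x = r177 := by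
  have h := relE r28
  simp only [e_28_x, e_46_y, e_73_y, e_113_y, e_167_y] at h
  have h2 : r177 * y * y * x * y * y * y * y * x * y * y = r28 := by simp only [e_177_y, e_249_y, e_30_x, e_18_y, e_31_y, e_0_y, e_2_y, e_5_x, e_9_y, e_16_y]
  exact (mul_right_cancel (mul_right_cancel (mul_right_cancel (mul_right_cancel (mul_right_cancel (mul_right_cancel (mul_right_cancel (mul_right_cancel (mul_right_cancel (mul_right_cancel (h.trans h2.symm)))))))))))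
theorem e_252_x : r252 * x = r335 := by
  have h := relE r31
  simp only [e_31_x, e_51_y, e_81_y, e_123_y, e_179_y] at h
  have h2 : r335 * y * y * x * y * y * y * y * x * y * y = r31 := by simp only [e_335_y, e_433_y, e_77_x, e_49_y, e_78_y, e_119_y, e_174_y, e_17_x, e_10_y, e_18_y]
  exact (mul_right_cancel (mul_right_cancel (mul_right_cancel (mul_right_cancel (mul_right_cancel (mul_right_cancel (mul_right_cancel (mul_right_cancel (mul_right_cancel (mul_right_cancel (h.trans h2.symm)))))))))))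
theorem e_269_x : r269 * x = r343 := by
  have h := relE r34
  simp only [e_34_x, e_55_y, e_86_y, e_131_y, e_192_y] at h
  have h2 : r343 * y * y * x * y * y * y * y * x * y * y = r34 := by simp only [e_343_y, e_443_y, e_82_x, e_53_y, e_83_y, e_126_y, e_184_y, e_19_x, e_11_y, e_20_y]
  exact (mul_right_cancel (mul_right_cancel (mul_right_cancel (mul_right_cancel (mul_right_cancel (mul_right_cancel (mul_right_cancel (mul_right_cancel (mul_right_cancel (mul_right_cancel (h.trans h2.symm)))))))))))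
theorem e_376_x : r376 * x = r471 := by
  have h := relE r35
  simp only [e_35_x, e_21_y, e_36_y, e_59_y, e_93_y, e_139_x, e_202_y, e_284_y] at h
  have h2 : r471 * y * y * y * y * x * y * y = r35 := by simp only [e_471_y, e_571_y, e_648_y, e_699_y, e_275_x, e_197_y, e_276_y]
  exact (mul_right_cancel (mul_right_cancel (mul_right_cancel (mul_right_cancel (mul_right_cancel (mul_right_cancel (mul_right_cancel (h.trans h2.symm))))))))
theorem e_280_x : r280 * x = r209 := by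
  have h := relE r36
  simp only [e_36_x, e_58_y, e_91_y, e_137_y, e_199_y] at h
  have h2 : r209 * y * y * x * y * y * y * y * x * y * y = r36 := by simp only [e_209_y, e_290_y, e_38_x, e_23_y, e_39_y, e_1_y, e_3_y, e_7_x, e_12_y, e_21_y]
  exact (mul_right_cancel (mul_right_cancel (mul_right_cancel (mul_right_cancel (mul_right_cancel (mul_right_cancel (mul_right_cancel (mul_right_cancel (mul_right_cancel (mul_right_cancel (h.trans h2.symm)))))))))))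
theorem e_293_x : r293 * x = r381 := by
  have h := relE r39
  simp only [e_39_x, e_63_y, e_99_y, e_147_y, e_211_y] at h
  have h2 : r381 * y * y * x * y * y * y * y * x * y * y = r39 := by simp only [e_381_y, e_485_y, e_95_x, e_61_y, e_96_y, e_143_y, e_206_y, e_22_x, e_13_y, e_23_y]
  exact (mul_right_cancel (mul_right_cancel (mul_right_cancel (mul_right_cancel (mul_right_cancel (mul_right_cancel (mul_right_cancel (mul_right_cancel (mul_right_cancel (mul_right_cancel (h.trans h2.symm)))))))))))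
theorem e_297_x : r297 * x = r228 := by
  have h := relE r41
  simp only [e_41_x, e_64_y, e_100_y, e_149_y, e_214_y] at h
  have h2 : r228 * y * y * x * y * y * y * y * x * y * y = r41 := by simp only [e_228_y, e_312_y, e_43_x, e_26_y, e_44_y, e_70_y, e_4_y, e_8_x, e_14_y, e_24_y]
  exact (mul_right_cancel (mul_right_cancel (mul_right_cancel (mul_right_cancel (mul_right_cancel (mul_right_cancel (mul_right_cancel (mul_right_cancel (mul_right_cancel (mul_right_cancel (h.trans h2.symm)))))))))))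
theorem e_315_x : r315 * x = r404 := by
  have h := relE r44
  simp only [e_44_x, e_69_y, e_108_y, e_162_y, e_230_y] at h
  have h2 : r404 * y * y * x * y * y * y * y * x * y * y = r44 := by simp only [e_404_y, e_508_y, e_104_x, e_67_y, e_105_y, e_157_y, e_224_y, e_25_x, e_15_y, e_26_y]
  exact (mul_right_cancel (mul_right_cancel (mul_right_cancel (mul_right_cancel (mul_right_cancel (mul_right_cancel (mul_right_cancel (mul_right_cancel (mul_right_cancel (mul_right_cancel (h.trans h2.symm)))))))))))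
theorem e_329_x : r329 * x = r417 := by
  have h := relE r47
  simp only [e_47_x, e_74_y, e_114_y, e_169_y, e_242_y] at h
  have h2 : r417 * y * y * x * y * y * y * y * x * y * y = r47 := by simp only [e_417_y, e_520_y, e_110_x, e_72_y, e_111_y, e_165_y, e_235_y, e_27_x, e_16_y, e_28_y]
  exact (mul_right_cancel (mul_right_cancel (mul_right_cancel (mul_right_cancel (mul_right_cancel (mul_right_cancel (mul_right_cancel (mul_right_cancel (mul_right_cancel (mul_right_cancel (h.trans h2.symm)))))))))))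
theorem e_343_x : r343 * x = r269 := by
  have h := relE r53
  simp only [e_53_x, e_82_y, e_124_y, e_181_y, e_255_y] at h
  have h2 : r269 * y * y * x * y * y * y * y * x * y * y = r53 := by simp only [e_269_y, e_358_y, e_55_x, e_34_y, e_56_y, e_88_y, e_6_y, e_11_x, e_19_y, e_32_y]
  exact (mul_right_cancel (mul_right_cancel (mul_right_cancel (mul_right_cancel (mul_right_cancel (mul_right_cancel (mul_right_cancel (mul_right_cancel (mul_right_cancel (mul_right_cancel (h.trans h2.symm)))))))))))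
theorem e_361_x : r361 * x = r456 := by
  have h := relE r56
  simp only [e_56_x, e_87_y, e_132_y, e_194_y, e_271_y] at h
  have h2 : r456 * y * y * x * y * y * y * y * x * y * y = r56 := by simp only [e_456_y, e_557_y, e_128_x, e_85_y, e_129_y, e_189_y, e_265_y, e_33_x, e_20_y, e_34_y]
  exact (mul_right_cancel (mul_right_cancel (mul_right_cancel (mul_right_cancel (mul_right_cancel (mul_right_cancel (mul_right_cancel (mul_right_cancel (mul_right_cancel (mul_right_cancel (h.trans h2.symm)))))))))))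
theorem e_375_x : r375 * x = r469 := by
  have h := relE r59
  simp only [e_59_x, e_92_y, e_138_y, e_201_y, e_283_y] at h
  have h2 : r469 * y * y * x * y * y * y * y * x * y * y = r59 := by simp only [e_469_y, e_569_y, e_134_x, e_90_y, e_135_y, e_197_y, e_276_y, e_35_x, e_21_y, e_36_y]
  exact (mul_right_cancel (mul_right_cancel (mul_right_cancel (mul_right_cancel (mul_right_cancel (mul_right_cancel (mul_right_cancel (mul_right_cancel (mul_right_cancel (mul_right_cancel (h.trans h2.symm)))))))))))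
theorem e_404_x : r404 * x = r315 := by
  have h := relE r67
  simp only [e_67_x, e_104_y, e_155_y, e_222_y, e_307_y] at h
  have h2 : r315 * y * y * x * y * y * y * y * x * y * y = r67 := by simp only [e_315_y, e_412_y, e_69_x, e_44_y, e_70_y, e_4_y, e_8_y, e_15_x, e_25_y, e_42_y]
  exact (mul_right_cancel (mul_right_cancel (mul_right_cancel (mul_right_cancel (mul_right_cancel (mul_right_cancel (mul_right_cancel (mul_right_cancel (mul_right_cancel (mul_right_cancel (h.trans h2.symm)))))))))))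
theorem e_413_x : r413 * x = r514 := by
  have h := relE r70
  simp only [e_70_x, e_109_y, e_163_y, e_231_y, e_316_y] at h
  have h2 : r514 * y * y * x * y * y * y * y * x * y * y = r70 := by simp only [e_514_y, e_607_y, e_159_x, e_107_y, e_160_y, e_228_y, e_312_y, e_43_x, e_26_y, e_44_y]
  exact (mul_right_cancel (mul_right_cancel (mul_right_cancel (mul_right_cancel (mul_right_cancel (mul_right_cancel (mul_right_cancel (mul_right_cancel (mul_right_cancel (mul_right_cancel (h.trans h2.symm)))))))))))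
theorem e_417_x : r417 * x = r329 := by
  have h := relE r72
  simp only [e_72_x, e_110_y, e_164_y, e_233_y, e_319_y] at h
  have h2 : r329 * y * y * x * y * y * y * y * x * y * y = r72 := by simp only [e_329_y, e_427_y, e_74_x, e_47_y, e_75_y, e_115_y, e_9_y, e_16_x, e_27_y, e_45_y]
  exact (mul_right_cancel (mul_right_cancel (mul_right_cancel (mul_right_cancel (mul_right_cancel (mul_right_cancel (mul_right_cancel (mul_right_cancel (mul_right_cancel (mul_right_cancel (h.trans h2.symm)))))))))))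
theorem e_137_x : r137 * x = r113 := by
  have h := relE r75
  simp only [e_75_x, e_93_y, e_139_y, e_12_y, e_21_y, e_36_x, e_58_y, e_91_y] at h
  have h2 : r113 * y * y * y * y * x * y * y = r75 := by simp only [e_113_y, e_167_y, e_239_y, e_325_y, e_46_x, e_28_y, e_47_y]
  exact (mul_right_cancel (mul_right_cancel (mul_right_cancel (mul_right_cancel (mul_right_cancel (mul_right_cancel (mul_right_cancel (h.trans h2.symm))))))))
theorem e_437_x : r437 * x = r446 := by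
  have h := relE r81
  simp only [e_81_x, e_122_y, e_178_y, e_251_y, e_339_y] at h
  have h2 : r446 * y * y * x * y * y * y * y * x * y * y = r81 := by simp only [e_446_y, e_546_y, e_125_x, e_83_y, e_126_y, e_184_y, e_19_y, e_32_x, e_52_y, e_51_y]
  exact (mul_right_cancel (mul_right_cancel (mul_right_cancel (mul_right_cancel (mul_right_cancel (mul_right_cancel (mul_right_cancel (mul_right_cancel (mul_right_cancel (mul_right_cancel (h.trans h2.symm)))))))))))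
theorem e_456_x : r456 * x = r361 := by
  have h := relE r85
  simp only [e_85_x, e_128_y, e_187_y, e_263_y, e_353_y] at h
  have h2 : r361 * y * y * x * y * y * y * y * x * y * y = r85 := by simp only [e_361_y, e_464_y, e_87_x, e_56_y, e_88_y, e_6_y, e_11_y, e_20_x, e_33_y, e_54_y]
  exact (mul_right_cancel (mul_right_cancel (mul_right_cancel (mul_right_cancel (mul_right_cancel (mul_right_cancel (mul_right_cancel (mul_right_cancel (mul_right_cancel (mul_right_cancel (h.trans h2.symm)))))))))))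
theorem e_465_x : r465 * x = r563 := by
  have h := relE r88
  simp only [e_88_x, e_133_y, e_195_y, e_272_y, e_362_y] at h
  have h2 : r563 * y * y * x * y * y * y * y * x * y * y = r88 := by simp only [e_563_y, e_643_y, e_191_x, e_131_y, e_192_y, e_269_y, e_358_y, e_55_x, e_34_y, e_56_y]
  exact (mul_right_cancel (mul_right_cancel (mul_right_cancel (mul_right_cancel (mul_right_cancel (mul_right_cancel (mul_right_cancel (mul_right_cancel (mul_right_cancel (mul_right_cancel (h.trans h2.symm)))))))))))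
theorem e_469_x : r469 * x = r375 := by
  have h := relE r90
  simp only [e_90_x, e_134_y, e_196_y, e_274_y, e_365_y] at h
  have h2 : r375 * y * y * x * y * y * y * y * x * y * y = r90 := by simp only [e_375_y, e_479_y, e_92_x, e_59_y, e_93_y, e_139_y, e_12_y, e_21_x, e_35_y, e_57_y]
  exact (mul_right_cancel (mul_right_cancel (mul_right_cancel (mul_right_cancel (mul_right_cancel (mul_right_cancel (mul_right_cancel (mul_right_cancel (mul_right_cancel (mul_right_cancel (h.trans h2.symm)))))))))))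
theorem e_113_x : r113 * x = r137 := by
  have h := relE r93
  simp only [e_93_x, e_75_y, e_115_y, e_9_y, e_16_y, e_28_x, e_46_y, e_73_y] at h
  have h2 : r137 * y * y * y * y * x * y * y = r93 := by simp only [e_137_y, e_199_y, e_280_y, e_371_y, e_58_x, e_36_y, e_59_y]
  exact (mul_right_cancel (mul_right_cancel (mul_right_cancel (mul_right_cancel (mul_right_cancel (mul_right_cancel (mul_right_cancel (h.trans h2.symm))))))))
theorem e_489_x : r489 * x = r394 := by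
  have h := relE r99
  simp only [e_99_x, e_146_y, e_210_y, e_292_y, e_385_y] at h
  have h2 : r394 * y * y * x * y * y * y * y * x * y * y = r99 := by simp only [e_394_y, e_497_y, e_101_x, e_65_y, e_102_y, e_152_y, e_14_y, e_24_x, e_40_y, e_63_y]
  exact (mul_right_cancel (mul_right_cancel (mul_right_cancel (mul_right_cancel (mul_right_cancel (mul_right_cancel (mul_right_cancel (mul_right_cancel (mul_right_cancel (mul_right_cancel (h.trans h2.symm)))))))))))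
theorem e_499_x : r499 * x = r591 := by
  have h := relE r102
  simp only [e_102_x, e_151_y, e_217_y, e_302_y, e_396_y] at h
  have h2 : r591 * y * y * x * y * y * y * y * x * y * y = r102 := by simp only [e_591_y, e_662_y, e_213_x, e_149_y, e_214_y, e_297_y, e_391_y, e_64_x, e_41_y, e_65_y]
  exact (mul_right_cancel (mul_right_cancel (mul_right_cancel (mul_right_cancel (mul_right_cancel (mul_right_cancel (mul_right_cancel (mul_right_cancel (mul_right_cancel (mul_right_cancel (h.trans h2.symm)))))))))))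
theorem e_510_x : r510 * x = r599 := by
  have h := relE r105
  simp only [e_105_x, e_156_y, e_223_y, e_308_y, e_406_y] at h
  have h2 : r599 * y * y * x * y * y * y * y * x * y * y = r105 := by simp only [e_599_y, e_667_y, e_219_x, e_154_y, e_220_y, e_305_y, e_400_y, e_66_x, e_42_y, e_67_y]
  exact (mul_right_cancel (mul_right_cancel (mul_right_cancel (mul_right_cancel (mul_right_cancel (mul_right_cancel (mul_right_cancel (mul_right_cancel (mul_right_cancel (mul_right_cancel (h.trans h2.symm)))))))))))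
theorem e_222_x : r222 * x = r173 := by
  have h := relE r119
  simp only [e_119_x, e_157_y, e_224_y, e_25_y, e_42_y, e_67_x, e_104_y, e_155_y] at h
  have h2 : r173 * y * y * y * y * x * y * y = r119 := by simp only [e_173_y, e_246_y, e_335_y, e_433_y, e_77_x, e_49_y, e_78_y]
  exact (mul_right_cancel (mul_right_cancel (mul_right_cancel (mul_right_cancel (mul_right_cancel (mul_right_cancel (mul_right_cancel (h.trans h2.symm))))))))
theorem e_548_x : r548 * x = r627 := by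
  have h := relE r126
  simp only [e_126_x, e_183_y, e_258_y, e_348_y, e_448_y] at h
  have h2 : r627 * y * y * x * y * y * y * y * x * y * y = r126 := by simp only [e_627_y, e_685_y, e_254_x, e_181_y, e_255_y, e_343_y, e_443_y, e_82_x, e_53_y, e_83_y]
  exact (mul_right_cancel (mul_right_cancel (mul_right_cancel (mul_right_cancel (mul_right_cancel (mul_right_cancel (mul_right_cancel (mul_right_cancel (mul_right_cancel (mul_right_cancel (h.trans h2.symm)))))))))))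
theorem e_559_x : r559 * x = r635 := by
  have h := relE r129
  simp only [e_129_x, e_188_y, e_264_y, e_354_y, e_458_y] at h
  have h2 : r635 * y * y * x * y * y * y * y * x * y * y = r129 := by simp only [e_635_y, e_690_y, e_260_x, e_186_y, e_261_y, e_351_y, e_452_y, e_84_x, e_54_y, e_85_y]
  exact (mul_right_cancel (mul_right_cancel (mul_right_cancel (mul_right_cancel (mul_right_cancel (mul_right_cancel (mul_right_cancel (mul_right_cancel (mul_right_cancel (mul_right_cancel (h.trans h2.symm)))))))))))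
theorem e_263_x : r263 * x = r205 := by
  have h := relE r143
  simp only [e_143_x, e_189_y, e_265_y, e_33_y, e_54_y, e_85_x, e_128_y, e_187_y] at h
  have h2 : r205 * y * y * y * y * x * y * y = r143 := by simp only [e_205_y, e_287_y, e_381_y, e_485_y, e_95_x, e_61_y, e_96_y]
  exact (mul_right_cancel (mul_right_cancel (mul_right_cancel (mul_right_cancel (mul_right_cancel (mul_right_cancel (mul_right_cancel (h.trans h2.symm))))))))
theorem e_591_x : r591 * x = r499 := by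
  have h := relE r149
  simp only [e_149_x, e_213_y, e_295_y, e_389_y, e_493_y] at h
  have h2 : r499 * y * y * x * y * y * y * y * x * y * y = r149 := by simp only [e_499_y, e_595_y, e_151_x, e_102_y, e_152_y, e_14_y, e_24_y, e_41_x, e_64_y, e_100_y]
  exact (mul_right_cancel (mul_right_cancel (mul_right_cancel (mul_right_cancel (mul_right_cancel (mul_right_cancel (mul_right_cancel (mul_right_cancel (mul_right_cancel (mul_right_cancel (h.trans h2.symm)))))))))))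
theorem e_599_x : r599 * x = r510 := by
  have h := relE r154
  simp only [e_154_x, e_219_y, e_304_y, e_398_y, e_502_y] at h
  have h2 : r510 * y * y * x * y * y * y * y * x * y * y = r154 := by simp only [e_510_y, e_605_y, e_156_x, e_105_y, e_157_y, e_224_y, e_25_y, e_42_x, e_66_y, e_103_y]
  exact (mul_right_cancel (mul_right_cancel (mul_right_cancel (mul_right_cancel (mul_right_cancel (mul_right_cancel (mul_right_cancel (mul_right_cancel (mul_right_cancel (mul_right_cancel (h.trans h2.symm)))))))))))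
theorem e_173_x : r173 * x = r222 := by
  have h := relE r157
  simp only [e_157_x, e_119_y, e_174_y, e_17_y, e_29_y, e_49_x, e_77_y, e_118_y] at h
  have h2 : r222 * y * y * y * y * x * y * y = r157 := by simp only [e_222_y, e_307_y, e_404_y, e_508_y, e_104_x, e_67_y, e_105_y]
  exact (mul_right_cancel (mul_right_cancel (mul_right_cancel (mul_right_cancel (mul_right_cancel (mul_right_cancel (mul_right_cancel (h.trans h2.symm))))))))
theorem e_627_x : r627 * x = r548 := by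
  have h := relE r181
  simp only [e_181_x, e_254_y, e_341_y, e_441_y, e_542_y] at h
  have h2 : r548 * y * y * x * y * y * y * y * x * y * y = r181 := by simp only [e_548_y, e_631_y, e_183_x, e_126_y, e_184_y, e_19_y, e_32_y, e_53_x, e_82_y, e_124_y]
  exact (mul_right_cancel (mul_right_cancel (mul_right_cancel (mul_right_cancel (mul_right_cancel (mul_right_cancel (mul_right_cancel (mul_right_cancel (mul_right_cancel (mul_right_cancel (h.trans h2.symm)))))))))))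
theorem e_635_x : r635 * x = r559 := by
  have h := relE r186
  simp only [e_186_x, e_260_y, e_350_y, e_450_y, e_551_y] at h
  have h2 : r559 * y * y * x * y * y * y * y * x * y * y = r186 := by simp only [e_559_y, e_641_y, e_188_x, e_129_y, e_189_y, e_265_y, e_33_y, e_54_x, e_84_y, e_127_y]
  exact (mul_right_cancel (mul_right_cancel (mul_right_cancel (mul_right_cancel (mul_right_cancel (mul_right_cancel (mul_right_cancel (mul_right_cancel (mul_right_cancel (mul_right_cancel (h.trans h2.symm)))))))))))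
theorem e_205_x : r205 * x = r263 := by
  have h := relE r189
  simp only [e_189_x, e_143_y, e_206_y, e_22_y, e_37_y, e_61_x, e_95_y, e_142_y] at h
  have h2 : r263 * y * y * y * y * x * y * y = r189 := by simp only [e_263_y, e_353_y, e_456_y, e_557_y, e_128_x, e_85_y, e_129_y]
  exact (mul_right_cancel (mul_right_cancel (mul_right_cancel (mul_right_cancel (mul_right_cancel (mul_right_cancel (mul_right_cancel (h.trans h2.symm))))))))
theorem e_389_x : r389 * x = r311 := by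
  have h := relE r228
  simp only [e_228_x, e_297_y, e_391_y, e_64_y, e_100_y, e_149_x, e_213_y, e_295_y] at h
  have h2 : r311 * y * y * y * y * x * y * y = r228 := by simp only [e_311_y, e_409_y, e_514_y, e_607_y, e_159_x, e_107_y, e_160_y]
  exact (mul_right_cancel (mul_right_cancel (mul_right_cancel (mul_right_cancel (mul_right_cancel (mul_right_cancel (mul_right_cancel (h.trans h2.symm))))))))
theorem e_675_x : r675 * x = r612 := by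
  have h := relE r233
  simp only [e_233_x, e_318_y, e_415_y, e_519_y, e_611_y] at h
  have h2 : r612 * y * y * x * y * y * y * y * x * y * y = r233 := by simp only [e_612_y, e_676_y, e_234_x, e_165_y, e_235_y, e_27_y, e_45_y, e_72_x, e_110_y, e_164_y]
  exact (mul_right_cancel (mul_right_cancel (mul_right_cancel (mul_right_cancel (mul_right_cancel (mul_right_cancel (mul_right_cancel (mul_right_cancel (mul_right_cancel (mul_right_cancel (h.trans h2.symm)))))))))))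
theorem e_162_x : r162 * x = r123 := by
  have h := relE r252
  simp only [e_252_x, e_335_y, e_433_y, e_77_y, e_118_y, e_173_x, e_222_y, e_307_y, e_404_x, e_315_y, e_412_y, e_69_y, e_108_y] at h
  have h2 : r123 * y * y = r252 := by simp only [e_123_y, e_179_y]
  exact (mul_right_cancel (mul_right_cancel (h.trans h2.symm)))
theorem e_441_x : r441 * x = r357 := by
  have h := relE r269
  simp only [e_269_x, e_343_y, e_443_y, e_82_y, e_124_y, e_181_x, e_254_y, e_341_y] at h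
  have h2 : r357 * y * y * y * y * x * y * y = r269 := by simp only [e_357_y, e_461_y, e_563_y, e_643_y, e_191_x, e_131_y, e_192_y]
  exact (mul_right_cancel (mul_right_cancel (mul_right_cancel (mul_right_cancel (mul_right_cancel (mul_right_cancel (mul_right_cancel (h.trans h2.symm))))))))
theorem e_698_x : r698 * x = r648 := by
  have h := relE r274
  simp only [e_274_x, e_364_y, e_467_y, e_568_y, e_647_y] at h
  have h2 : r648 * y * y * x * y * y * y * y * x * y * y = r274 := by simp only [e_648_y, e_699_y, e_275_x, e_197_y, e_276_y, e_35_y, e_57_y, e_90_x, e_134_y, e_196_y]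
  exact (mul_right_cancel (mul_right_cancel (mul_right_cancel (mul_right_cancel (mul_right_cancel (mul_right_cancel (mul_right_cancel (mul_right_cancel (mul_right_cancel (mul_right_cancel (h.trans h2.symm)))))))))))
theorem e_194_x : r194 * x = r147 := by
  have h := relE r293
  simp only [e_293_x, e_381_y, e_485_y, e_95_y, e_142_y, e_205_x, e_263_y, e_353_y, e_456_x, e_361_y, e_464_y, e_87_y, e_132_y] at h
  have h2 : r147 * y * y = r293 := by simp only [e_147_y, e_211_y]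
  exact (mul_right_cancel (mul_right_cancel (h.trans h2.symm)))
theorem e_707_x : r707 * x = r663 := by
  have h := relE r294
  simp only [e_294_x, e_386_y, e_490_y, e_588_y, e_660_y] at h
  have h2 : r663 * y * y * x * y * y * y * y * x * y * y = r294 := by simp only [e_663_y, e_708_y, e_296_x, e_214_y, e_297_y, e_391_y, e_64_y, e_100_x, e_148_y, e_212_y]
  exact (mul_right_cancel (mul_right_cancel (mul_right_cancel (mul_right_cancel (mul_right_cancel (mul_right_cancel (mul_right_cancel (mul_right_cancel (mul_right_cancel (mul_right_cancel (h.trans h2.symm)))))))))))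
theorem e_311_x : r311 * x = r389 := by
  have h := relE r297
  simp only [e_297_x, e_228_y, e_312_y, e_43_y, e_68_y, e_107_x, e_159_y, e_227_y] at h
  have h2 : r389 * y * y * y * y * x * y * y = r297 := by simp only [e_389_y, e_493_y, e_591_y, e_662_y, e_213_x, e_149_y, e_214_y]
  exact (mul_right_cancel (mul_right_cancel (mul_right_cancel (mul_right_cancel (mul_right_cancel (mul_right_cancel (mul_right_cancel (h.trans h2.symm))))))))
theorem e_713_x : r713 * x = r686 := by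
  have h := relE r340
  simp only [e_340_x, e_438_y, e_539_y, e_624_y, e_683_y] at h
  have h2 : r686 * y * y * x * y * y * y * y * x * y * y = r340 := by simp only [e_686_y, e_714_y, e_342_x, e_255_y, e_343_y, e_443_y, e_82_y, e_124_x, e_180_y, e_253_y]
  exact (mul_right_cancel (mul_right_cancel (mul_right_cancel (mul_right_cancel (mul_right_cancel (mul_right_cancel (mul_right_cancel (mul_right_cancel (mul_right_cancel (mul_right_cancel (h.trans h2.symm)))))))))))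
theorem e_357_x : r357 * x = r441 := by
  have h := relE r343
  simp only [e_343_x, e_269_y, e_358_y, e_55_y, e_86_y, e_131_x, e_191_y, e_268_y] at h
  have h2 : r441 * y * y * y * y * x * y * y = r343 := by simp only [e_441_y, e_542_y, e_627_y, e_685_y, e_254_x, e_181_y, e_255_y]
  exact (mul_right_cancel (mul_right_cancel (mul_right_cancel (mul_right_cancel (mul_right_cancel (mul_right_cancel (mul_right_cancel (h.trans h2.symm))))))))
theorem e_302_x : r302 * x = r231 := by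
  have h := relE r413
  simp only [e_413_x, e_514_y, e_607_y, e_159_y, e_227_y, e_311_x, e_389_y, e_493_y, e_591_x, e_499_y, e_595_y, e_151_y, e_217_y] at h
  have h2 : r231 * y * y = r413 := by simp only [e_231_y, e_316_y]
  exact (mul_right_cancel (mul_right_cancel (h.trans h2.symm)))
theorem e_348_x : r348 * x = r272 := by
  have h := relE r465
  simp only [e_465_x, e_563_y, e_643_y, e_191_y, e_268_y, e_357_x, e_441_y, e_542_y, e_627_x, e_548_y, e_631_y, e_183_y, e_258_y] at h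
  have h2 : r272 * y * y = r465 := by simp only [e_272_y, e_362_y]
  exact (mul_right_cancel (mul_right_cancel (h.trans h2.symm)))
theorem e_96_x : r96 * x = r78 := by
  have h := relF r0
  simp only [e_0_x, e_1_y, e_3_y, e_7_y, e_13_x, e_22_y, e_37_y, e_61_y] at h
  have h2 : r78 * y * y * y * x * y * y * y = r0 := by simp only [e_78_y, e_119_y, e_174_y, e_17_x, e_10_y, e_18_y, e_31_y]
  exact (mul_right_cancel (mul_right_cancel (mul_right_cancel (mul_right_cancel (mul_right_cancel (mul_right_cancel (mul_right_cancel (h.trans h2.symm))))))))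
theorem e_78_x : r78 * x = r96 := by
  have h := relF r1
  simp only [e_1_x, e_0_y, e_2_y, e_5_y, e_10_x, e_17_y, e_29_y, e_49_y] at h
  have h2 : r96 * y * y * y * x * y * y * y = r1 := by simp only [e_96_y, e_143_y, e_206_y, e_22_x, e_13_y, e_23_y, e_39_y]
  exact (mul_right_cancel (mul_right_cancel (mul_right_cancel (mul_right_cancel (mul_right_cancel (mul_right_cancel (mul_right_cancel (h.trans h2.symm))))))))
theorem e_160_x : r160 * x = r121 := by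
  have h := relF r2
  simp only [e_2_x, e_4_y, e_8_y, e_15_y, e_26_x, e_43_y, e_68_y, e_107_y] at h
  have h2 : r121 * y * y * y * x * y * y * y = r2 := by simp only [e_121_y, e_177_y, e_249_y, e_30_x, e_18_y, e_31_y, e_0_y]
  exact (mul_right_cancel (mul_right_cancel (mul_right_cancel (mul_right_cancel (mul_right_cancel (mul_right_cancel (mul_right_cancel (h.trans h2.symm))))))))
theorem e_192_x : r192 * x = r145 := by
  have h := relF r3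
  simp only [e_3_x, e_6_y, e_11_y, e_20_y, e_34_x, e_55_y, e_86_y, e_131_y] at h
  have h2 : r145 * y * y * y * x * y * y * y = r3 := by simp only [e_145_y, e_209_y, e_290_y, e_38_x, e_23_y, e_39_y, e_1_y]
  exact (mul_right_cancel (mul_right_cancel (mul_right_cancel (mul_right_cancel (mul_right_cancel (mul_right_cancel (mul_right_cancel (h.trans h2.symm))))))))
theorem e_121_x : r121 * x = r160 := by
  have h := relF r4
  simp only [e_4_x, e_2_y, e_5_y, e_10_y, e_18_x, e_30_y, e_50_y, e_80_y] at h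
  have h2 : r160 * y * y * y * x * y * y * y = r4 := by simp only [e_160_y, e_228_y, e_312_y, e_43_x, e_26_y, e_44_y, e_70_y]
  exact (mul_right_cancel (mul_right_cancel (mul_right_cancel (mul_right_cancel (mul_right_cancel (mul_right_cancel (mul_right_cancel (h.trans h2.symm))))))))
theorem e_145_x : r145 * x = r192 := by
  have h := relF r6
  simp only [e_6_x, e_3_y, e_7_y, e_13_y, e_23_x, e_38_y, e_62_y, e_98_y] at h
  have h2 : r192 * y * y * y * x * y * y * y = r6 := by simp only [e_192_y, e_269_y, e_358_y, e_55_x, e_34_y, e_56_y, e_88_y]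
  exact (mul_right_cancel (mul_right_cancel (mul_right_cancel (mul_right_cancel (mul_right_cancel (mul_right_cancel (mul_right_cancel (h.trans h2.symm))))))))
theorem e_300_x : r300 * x = r230 := by
  have h := relF r8
  simp only [e_8_x, e_14_y, e_24_y, e_41_y, e_65_x, e_101_y, e_150_y, e_216_y] at h
  have h2 : r230 * y * y * y * x * y * y * y = r8 := by simp only [e_230_y, e_315_y, e_412_y, e_69_x, e_44_y, e_70_y, e_4_y]
  exact (mul_right_cancel (mul_right_cancel (mul_right_cancel (mul_right_cancel (mul_right_cancel (mul_right_cancel (mul_right_cancel (h.trans h2.symm))))))))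
theorem e_179_x : r179 * x = r242 := by
  have h := relF r9
  simp only [e_9_x, e_5_y, e_10_y, e_18_y, e_31_x, e_51_y, e_81_y, e_123_y] at h
  have h2 : r242 * y * y * y * x * y * y * y = r9 := by simp only [e_242_y, e_329_y, e_427_y, e_74_x, e_47_y, e_75_y, e_115_y]
  exact (mul_right_cancel (mul_right_cancel (mul_right_cancel (mul_right_cancel (mul_right_cancel (mul_right_cancel (mul_right_cancel (h.trans h2.symm))))))))
theorem e_346_x : r346 * x = r271 := by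
  have h := relF r11
  simp only [e_11_x, e_19_y, e_32_y, e_53_y, e_83_x, e_125_y, e_182_y, e_257_y] at h
  have h2 : r271 * y * y * y * x * y * y * y = r11 := by simp only [e_271_y, e_361_y, e_464_y, e_87_x, e_56_y, e_88_y, e_6_y]
  exact (mul_right_cancel (mul_right_cancel (mul_right_cancel (mul_right_cancel (mul_right_cancel (mul_right_cancel (mul_right_cancel (h.trans h2.symm))))))))
theorem e_211_x : r211 * x = r283 := by
  have h := relF r12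
  simp only [e_12_x, e_7_y, e_13_y, e_23_y, e_39_x, e_63_y, e_99_y, e_147_y] at h
  have h2 : r283 * y * y * y * x * y * y * y = r12 := by simp only [e_283_y, e_375_y, e_479_y, e_92_x, e_59_y, e_93_y, e_139_y]
  exact (mul_right_cancel (mul_right_cancel (mul_right_cancel (mul_right_cancel (mul_right_cancel (mul_right_cancel (mul_right_cancel (h.trans h2.symm))))))))
theorem e_230_x : r230 * x = r300 := by
  have h := relF r14
  simp only [e_14_x, e_8_y, e_15_y, e_26_y, e_44_x, e_69_y, e_108_y, e_162_y] at h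
  have h2 : r300 * y * y * y * x * y * y * y = r14 := by simp only [e_300_y, e_394_y, e_497_y, e_101_x, e_65_y, e_102_y, e_152_y]
  exact (mul_right_cancel (mul_right_cancel (mul_right_cancel (mul_right_cancel (mul_right_cancel (mul_right_cancel (mul_right_cancel (h.trans h2.symm))))))))
theorem e_111_x : r111 * x = r135 := by
  have h := relF r16
  simp only [e_16_x, e_27_y, e_45_y, e_72_y] at h
  have h2 : r135 * y * y * y * x * y * y * y * x * y * y * y = r16 := by simp only [e_135_y, e_197_y, e_276_y, e_35_x, e_21_y, e_36_y, e_59_y, e_93_x, e_75_y, e_115_y, e_9_y]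
  exact (mul_right_cancel (mul_right_cancel (mul_right_cancel (mul_right_cancel (mul_right_cancel (mul_right_cancel (mul_right_cancel (mul_right_cancel (mul_right_cancel (mul_right_cancel (mul_right_cancel (h.trans h2.symm))))))))))))
theorem e_271_x : r271 * x = r346 := by
  have h := relF r19
  simp only [e_19_x, e_11_y, e_20_y, e_34_y, e_56_x, e_87_y, e_132_y, e_194_y] at h
  have h2 : r346 * y * y * y * x * y * y * y = r19 := by simp only [e_346_y, e_446_y, e_546_y, e_125_x, e_83_y, e_126_y, e_184_y]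
  exact (mul_right_cancel (mul_right_cancel (mul_right_cancel (mul_right_cancel (mul_right_cancel (mul_right_cancel (mul_right_cancel (h.trans h2.symm))))))))
theorem e_135_x : r135 * x = r111 := by
  have h := relF r21
  simp only [e_21_x, e_35_y, e_57_y, e_90_y] at h
  have h2 : r111 * y * y * y * x * y * y * y * x * y * y * y = r21 := by simp only [e_111_y, e_165_y, e_235_y, e_27_x, e_16_y, e_28_y, e_47_y, e_75_x, e_93_y, e_139_y, e_12_y]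
  exact (mul_right_cancel (mul_right_cancel (mul_right_cancel (mul_right_cancel (mul_right_cancel (mul_right_cancel (mul_right_cancel (mul_right_cancel (mul_right_cancel (mul_right_cancel (mul_right_cancel (h.trans h2.symm))))))))))))
theorem e_464_x : r464 * x = r396 := by
  have h := relF r24
  simp only [e_24_x, e_40_y, e_63_y, e_99_y, e_147_x, e_194_y, e_271_y, e_361_y] at h
  have h2 : r396 * y * y * y * x * y * y * y = r24 := by simp only [e_396_y, e_499_y, e_595_y, e_151_x, e_102_y, e_152_y, e_14_y]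
  exact (mul_right_cancel (mul_right_cancel (mul_right_cancel (mul_right_cancel (mul_right_cancel (mul_right_cancel (mul_right_cancel (h.trans h2.symm))))))))
theorem e_316_x : r316 * x = r406 := by
  have h := relF r25
  simp only [e_25_x, e_15_y, e_26_y, e_44_y, e_70_x, e_109_y, e_163_y, e_231_y] at h
  have h2 : r406 * y * y * y * x * y * y * y = r25 := by simp only [e_406_y, e_510_y, e_605_y, e_156_x, e_105_y, e_157_y, e_224_y]
  exact (mul_right_cancel (mul_right_cancel (mul_right_cancel (mul_right_cancel (mul_right_cancel (mul_right_cancel (mul_right_cancel (h.trans h2.symm))))))))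
theorem e_171_x : r171 * x = r220 := by
  have h := relF r29
  simp only [e_29_x, e_48_y, e_76_y, e_117_y] at h
  have h2 : r220 * y * y * y * x * y * y * y * x * y * y * y = r29 := by simp only [e_220_y, e_305_y, e_400_y, e_66_x, e_42_y, e_67_y, e_105_y, e_157_x, e_119_y, e_174_y, e_17_y]
  exact (mul_right_cancel (mul_right_cancel (mul_right_cancel (mul_right_cancel (mul_right_cancel (mul_right_cancel (mul_right_cancel (mul_right_cancel (mul_right_cancel (mul_right_cancel (mul_right_cancel (h.trans h2.symm))))))))))))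
theorem e_412_x : r412 * x = r448 := by
  have h := relF r32
  simp only [e_32_x, e_52_y, e_51_y, e_81_y, e_123_x, e_162_y, e_230_y, e_315_y] at h
  have h2 : r448 * y * y * y * x * y * y * y = r32 := by simp only [e_448_y, e_548_y, e_631_y, e_183_x, e_126_y, e_184_y, e_19_y]
  exact (mul_right_cancel (mul_right_cancel (mul_right_cancel (mul_right_cancel (mul_right_cancel (mul_right_cancel (mul_right_cancel (h.trans h2.symm))))))))
theorem e_362_x : r362 * x = r458 := by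
  have h := relF r33
  simp only [e_33_x, e_20_y, e_34_y, e_56_y, e_88_x, e_133_y, e_195_y, e_272_y] at h
  have h2 : r458 * y * y * y * x * y * y * y = r33 := by simp only [e_458_y, e_559_y, e_641_y, e_188_x, e_129_y, e_189_y, e_265_y]
  exact (mul_right_cancel (mul_right_cancel (mul_right_cancel (mul_right_cancel (mul_right_cancel (mul_right_cancel (mul_right_cancel (h.trans h2.symm))))))))
theorem e_203_x : r203 * x = r261 := by
  have h := relF r37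
  simp only [e_37_x, e_60_y, e_94_y, e_141_y] at h
  have h2 : r261 * y * y * y * x * y * y * y * x * y * y * y = r37 := by simp only [e_261_y, e_351_y, e_452_y, e_84_x, e_54_y, e_85_y, e_129_y, e_189_x, e_143_y, e_206_y, e_22_y]
  exact (mul_right_cancel (mul_right_cancel (mul_right_cancel (mul_right_cancel (mul_right_cancel (mul_right_cancel (mul_right_cancel (mul_right_cancel (mul_right_cancel (mul_right_cancel (mul_right_cancel (h.trans h2.symm))))))))))))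
theorem e_220_x : r220 * x = r171 := by
  have h := relF r42
  simp only [e_42_x, e_66_y, e_103_y, e_154_y] at h
  have h2 : r171 * y * y * y * x * y * y * y * x * y * y * y = r42 := by simp only [e_171_y, e_244_y, e_332_y, e_48_x, e_29_y, e_49_y, e_78_y, e_119_x, e_157_y, e_224_y, e_25_y]
  exact (mul_right_cancel (mul_right_cancel (mul_right_cancel (mul_right_cancel (mul_right_cancel (mul_right_cancel (mul_right_cancel (mul_right_cancel (mul_right_cancel (mul_right_cancel (mul_right_cancel (h.trans h2.symm))))))))))))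
theorem e_595_x : r595 * x = r522 := by
  have h := relF r45
  simp only [e_45_x, e_71_y, e_109_y, e_163_y, e_231_x, e_302_y, e_396_y, e_499_y] at h
  have h2 : r522 * y * y * y * x * y * y * y = r45 := by simp only [e_522_y, e_612_y, e_676_y, e_234_x, e_165_y, e_235_y, e_27_y]
  exact (mul_right_cancel (mul_right_cancel (mul_right_cancel (mul_right_cancel (mul_right_cancel (mul_right_cancel (mul_right_cancel (h.trans h2.symm))))))))
theorem e_248_x : r248 * x = r323 := by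
  have h := relF r50
  simp only [e_50_x, e_79_y, e_120_y, e_176_y] at h
  have h2 : r323 * y * y * y * x * y * y * y * x * y * y * y = r50 := by simp only [e_323_y, e_422_y, e_525_y, e_112_x, e_73_y, e_113_y, e_167_y, e_239_x, e_177_y, e_249_y, e_30_y]
  exact (mul_right_cancel (mul_right_cancel (mul_right_cancel (mul_right_cancel (mul_right_cancel (mul_right_cancel (mul_right_cancel (mul_right_cancel (mul_right_cancel (mul_right_cancel (mul_right_cancel (h.trans h2.symm))))))))))))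
theorem e_261_x : r261 * x = r203 := by
  have h := relF r54
  simp only [e_54_x, e_84_y, e_127_y, e_186_y] at h
  have h2 : r203 * y * y * y * x * y * y * y * x * y * y * y = r54 := by simp only [e_203_y, e_285_y, e_378_y, e_60_x, e_37_y, e_61_y, e_96_y, e_143_x, e_189_y, e_265_y, e_33_y]
  exact (mul_right_cancel (mul_right_cancel (mul_right_cancel (mul_right_cancel (mul_right_cancel (mul_right_cancel (mul_right_cancel (mul_right_cancel (mul_right_cancel (mul_right_cancel (mul_right_cancel (h.trans h2.symm))))))))))))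
theorem e_631_x : r631 * x = r571 := by
  have h := relF r57
  simp only [e_57_x, e_89_y, e_133_y, e_195_y, e_272_x, e_348_y, e_448_y, e_548_y] at h
  have h2 : r571 * y * y * y * x * y * y * y = r57 := by simp only [e_571_y, e_648_y, e_699_y, e_275_x, e_197_y, e_276_y, e_35_y]
  exact (mul_right_cancel (mul_right_cancel (mul_right_cancel (mul_right_cancel (mul_right_cancel (mul_right_cancel (mul_right_cancel (h.trans h2.symm))))))))
theorem e_289_x : r289 * x = r369 := by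
  have h := relF r62
  simp only [e_62_x, e_97_y, e_144_y, e_208_y] at h
  have h2 : r369 * y * y * y * x * y * y * y * x * y * y * y = r62 := by simp only [e_369_y, e_474_y, e_574_y, e_136_x, e_91_y, e_137_y, e_199_y, e_280_x, e_209_y, e_290_y, e_38_y]
  exact (mul_right_cancel (mul_right_cancel (mul_right_cancel (mul_right_cancel (mul_right_cancel (mul_right_cancel (mul_right_cancel (mul_right_cancel (mul_right_cancel (mul_right_cancel (mul_right_cancel (h.trans h2.symm))))))))))))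
theorem e_500_x : r500 * x = r592 := by
  have h := relF r64
  simp only [e_64_x, e_41_y, e_65_y, e_102_y, e_152_x, e_218_y, e_303_y, e_397_y] at h
  have h2 : r592 * y * y * y * x * y * y * y = r64 := by simp only [e_592_y, e_663_y, e_708_y, e_296_x, e_214_y, e_297_y, e_391_y]
  exact (mul_right_cancel (mul_right_cancel (mul_right_cancel (mul_right_cancel (mul_right_cancel (mul_right_cancel (mul_right_cancel (h.trans h2.symm))))))))
theorem e_310_x : r310 * x = r387 := by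
  have h := relF r68
  simp only [e_68_x, e_106_y, e_158_y, e_226_y] at h
  have h2 : r387 * y * y * y * x * y * y * y * x * y * y * y = r68 := by simp only [e_387_y, e_491_y, e_589_y, e_148_x, e_100_y, e_149_y, e_214_y, e_297_x, e_228_y, e_312_y, e_43_y]
  exact (mul_right_cancel (mul_right_cancel (mul_right_cancel (mul_right_cancel (mul_right_cancel (mul_right_cancel (mul_right_cancel (mul_right_cancel (mul_right_cancel (mul_right_cancel (mul_right_cancel (h.trans h2.symm))))))))))))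
theorem e_323_x : r323 * x = r248 := by
  have h := relF r73
  simp only [e_73_x, e_112_y, e_166_y, e_237_y] at h
  have h2 : r248 * y * y * y * x * y * y * y * x * y * y * y = r73 := by simp only [e_248_y, e_337_y, e_435_y, e_79_x, e_50_y, e_80_y, e_121_y, e_177_x, e_239_y, e_325_y, e_46_y]
  exact (mul_right_cancel (mul_right_cancel (mul_right_cancel (mul_right_cancel (mul_right_cancel (mul_right_cancel (mul_right_cancel (mul_right_cancel (mul_right_cancel (mul_right_cancel (mul_right_cancel (h.trans h2.symm))))))))))))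
theorem e_549_x : r549 * x = r628 := by
  have h := relF r82
  simp only [e_82_x, e_53_y, e_83_y, e_126_y, e_184_x, e_259_y, e_349_y, e_449_y] at h
  have h2 : r628 * y * y * y * x * y * y * y = r82 := by simp only [e_628_y, e_686_y, e_714_y, e_342_x, e_255_y, e_343_y, e_443_y]
  exact (mul_right_cancel (mul_right_cancel (mul_right_cancel (mul_right_cancel (mul_right_cancel (mul_right_cancel (mul_right_cancel (h.trans h2.symm))))))))
theorem e_356_x : r356 * x = r439 := by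
  have h := relF r86
  simp only [e_86_x, e_130_y, e_190_y, e_267_y] at h
  have h2 : r439 * y * y * y * x * y * y * y * x * y * y * y = r86 := by simp only [e_439_y, e_540_y, e_625_y, e_180_x, e_124_y, e_181_y, e_255_y, e_343_x, e_269_y, e_358_y, e_55_y]
  exact (mul_right_cancel (mul_right_cancel (mul_right_cancel (mul_right_cancel (mul_right_cancel (mul_right_cancel (mul_right_cancel (mul_right_cancel (mul_right_cancel (mul_right_cancel (mul_right_cancel (h.trans h2.symm))))))))))))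
theorem e_369_x : r369 * x = r289 := by
  have h := relF r91
  simp only [e_91_x, e_136_y, e_198_y, e_278_y] at h
  have h2 : r289 * y * y * y * x * y * y * y * x * y * y * y = r91 := by simp only [e_289_y, e_383_y, e_487_y, e_97_x, e_62_y, e_98_y, e_145_y, e_209_x, e_280_y, e_371_y, e_58_y]
  exact (mul_right_cancel (mul_right_cancel (mul_right_cancel (mul_right_cancel (mul_right_cancel (mul_right_cancel (mul_right_cancel (mul_right_cancel (mul_right_cancel (mul_right_cancel (mul_right_cancel (h.trans h2.symm))))))))))))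
theorem e_387_x : r387 * x = r310 := by
  have h := relF r100
  simp only [e_100_x, e_148_y, e_212_y, e_294_y] at h
  have h2 : r310 * y * y * y * x * y * y * y * x * y * y * y = r100 := by simp only [e_310_y, e_408_y, e_513_y, e_106_x, e_68_y, e_107_y, e_160_y, e_228_x, e_297_y, e_391_y, e_64_y]
  exact (mul_right_cancel (mul_right_cancel (mul_right_cancel (mul_right_cancel (mul_right_cancel (mul_right_cancel (mul_right_cancel (mul_right_cancel (mul_right_cancel (mul_right_cancel (mul_right_cancel (h.trans h2.symm))))))))))))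
theorem e_425_x : r425 * x = r517 := by
  have h := relF r114
  simp only [e_114_x, e_168_y, e_240_y, e_327_y] at h
  have h2 : r517 * y * y * y * x * y * y * y * x * y * y * y = r114 := by simp only [e_517_y, e_609_y, e_673_y, e_232_x, e_164_y, e_233_y, e_319_y, e_417_x, e_329_y, e_427_y, e_74_y]
  exact (mul_right_cancel (mul_right_cancel (mul_right_cancel (mul_right_cancel (mul_right_cancel (mul_right_cancel (mul_right_cancel (mul_right_cancel (mul_right_cancel (mul_right_cancel (mul_right_cancel (h.trans h2.symm))))))))))))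
theorem e_432_x : r432 * x = r339 := by
  have h := relF r118
  simp only [e_118_x, e_172_y, e_245_y, e_334_y] at h
  have h2 : r339 * y * y * y * x * y * y * y * x * y * y * y = r118 := by simp only [e_339_y, e_437_y, e_538_y, e_122_x, e_81_y, e_123_y, e_179_y, e_252_x, e_335_y, e_433_y, e_77_y]
  exact (mul_right_cancel (mul_right_cancel (mul_right_cancel (mul_right_cancel (mul_right_cancel (mul_right_cancel (mul_right_cancel (mul_right_cancel (mul_right_cancel (mul_right_cancel (mul_right_cancel (h.trans h2.symm))))))))))))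
theorem e_439_x : r439 * x = r356 := by
  have h := relF r124
  simp only [e_124_x, e_180_y, e_253_y, e_340_y] at h
  have h2 : r356 * y * y * y * x * y * y * y * x * y * y * y = r124 := by simp only [e_356_y, e_460_y, e_562_y, e_130_x, e_86_y, e_131_y, e_192_y, e_269_x, e_343_y, e_443_y, e_82_y]
  exact (mul_right_cancel (mul_right_cancel (mul_right_cancel (mul_right_cancel (mul_right_cancel (mul_right_cancel (mul_right_cancel (mul_right_cancel (mul_right_cancel (mul_right_cancel (mul_right_cancel (h.trans h2.symm))))))))))))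
theorem e_477_x : r477 * x = r566 := by
  have h := relF r138
  simp only [e_138_x, e_200_y, e_281_y, e_373_y] at h
  have h2 : r566 * y * y * y * x * y * y * y * x * y * y * y = r138 := by simp only [e_566_y, e_645_y, e_696_y, e_273_x, e_196_y, e_274_y, e_365_y, e_469_x, e_375_y, e_479_y, e_92_y]
  exact (mul_right_cancel (mul_right_cancel (mul_right_cancel (mul_right_cancel (mul_right_cancel (mul_right_cancel (mul_right_cancel (mul_right_cancel (mul_right_cancel (mul_right_cancel (mul_right_cancel (h.trans h2.symm))))))))))))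
theorem e_484_x : r484 * x = r385 := by
  have h := relF r142
  simp only [e_142_x, e_204_y, e_286_y, e_380_y] at h
  have h2 : r385 * y * y * y * x * y * y * y * x * y * y * y = r142 := by simp only [e_385_y, e_489_y, e_587_y, e_146_x, e_99_y, e_147_y, e_211_y, e_293_x, e_381_y, e_485_y, e_95_y]
  exact (mul_right_cancel (mul_right_cancel (mul_right_cancel (mul_right_cancel (mul_right_cancel (mul_right_cancel (mul_right_cancel (mul_right_cancel (mul_right_cancel (mul_right_cancel (mul_right_cancel (h.trans h2.symm))))))))))))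
theorem e_517_x : r517 * x = r425 := by
  have h := relF r164
  simp only [e_164_x, e_232_y, e_317_y, e_414_y] at h
  have h2 : r425 * y * y * y * x * y * y * y * x * y * y * y = r164 := by simp only [e_425_y, e_529_y, e_617_y, e_168_x, e_114_y, e_169_y, e_242_y, e_329_x, e_417_y, e_520_y, e_110_y]
  exact (mul_right_cancel (mul_right_cancel (mul_right_cancel (mul_right_cancel (mul_right_cancel (mul_right_cancel (mul_right_cancel (mul_right_cancel (mul_right_cancel (mul_right_cancel (mul_right_cancel (h.trans h2.symm))))))))))))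
theorem e_566_x : r566 * x = r477 := by
  have h := relF r196
  simp only [e_196_x, e_273_y, e_363_y, e_466_y] at h
  have h2 : r477 * y * y * y * x * y * y * y * x * y * y * y = r196 := by simp only [e_477_y, e_578_y, e_653_y, e_200_x, e_138_y, e_201_y, e_283_y, e_375_x, e_469_y, e_569_y, e_134_y]
  exact (mul_right_cancel (mul_right_cancel (mul_right_cancel (mul_right_cancel (mul_right_cancel (mul_right_cancel (mul_right_cancel (mul_right_cancel (mul_right_cancel (mul_right_cancel (mul_right_cancel (h.trans h2.symm))))))))))))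
theorem e_242_x : r242 * x = r179 := by
  have h := relA r179
  simp only [e_179_x] at h
  exact h
theorem e_283_x : r283 * x = r211 := by
  have h := relA r211
  simp only [e_211_x] at h
  exact h
theorem e_335_x : r335 * x = r252 := by
  have h := relA r252
  simp only [e_252_x] at h
  exact h
theorem e_381_x : r381 * x = r293 := by
  have h := relA r293
  simp only [e_293_x] at h
  exact h
theorem e_406_x : r406 * x = r316 := by
  have h := relA r316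
  simp only [e_316_x] at h
  exact h
theorem e_419_x : r419 * x = r330 := by
  have h := relA r330
  simp only [e_330_x] at h
  exact h
theorem e_339_x : r339 * x = r432 := by
  have h := relA r339
  have h2 : r432 * x = r339 := by simp only [e_432_x]
  exact (mul_right_cancel (h.trans h2.symm))
theorem e_458_x : r458 * x = r362 := by
  have h := relA r362
  simp only [e_362_x] at h
  exact h
theorem e_471_x : r471 * x = r376 := by
  have h := relA r376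
  simp only [e_376_x] at h
  exact h
theorem e_385_x : r385 * x = r484 := by
  have h := relA r385
  have h2 : r484 * x = r385 := by simp only [e_484_x]
  exact (mul_right_cancel (h.trans h2.symm))
theorem e_391_x : r391 * x = r487 := by
  have h := relA r391
  have h2 : r487 * x = r391 := by simp only [e_487_x]
  exact (mul_right_cancel (h.trans h2.symm))
theorem e_394_x : r394 * x = r489 := by
  have h := relA r394
  have h2 : r489 * x = r394 := by simp only [e_489_x]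
  exact (mul_right_cancel (h.trans h2.symm))
theorem e_396_x : r396 * x = r464 := by
  have h := relA r396
  have h2 : r464 * x = r396 := by simp only [e_464_x]
  exact (mul_right_cancel (h.trans h2.symm))
theorem e_448_x : r448 * x = r412 := by
  have h := relA r412
  simp only [e_412_x] at h
  exact h
theorem e_514_x : r514 * x = r413 := by
  have h := relA r413
  simp only [e_413_x] at h
  exact h
theorem e_443_x : r443 * x = r435 := by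
  have h := relA r435
  simp only [e_435_x] at h
  exact h
theorem e_446_x : r446 * x = r437 := by
  have h := relA r437
  simp only [e_437_x] at h
  exact h
theorem e_563_x : r563 * x = r465 := by
  have h := relA r465
  simp only [e_465_x] at h
  exact h
theorem e_592_x : r592 * x = r500 := by
  have h := relA r500
  simp only [e_500_x] at h
  exact h
theorem e_522_x : r522 * x = r595 := by
  have h := relA r522
  have h2 : r595 * x = r522 := by simp only [e_595_x]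
  exact (mul_right_cancel (h.trans h2.symm))
theorem e_628_x : r628 * x = r549 := by
  have h := relA r549
  simp only [e_549_x] at h
  exact h
theorem e_571_x : r571 * x = r631 := by
  have h := relA r571
  have h2 : r631 * x = r571 := by simp only [e_631_x]
  exact (mul_right_cancel (h.trans h2.symm))
theorem e_612_x : r612 * x = r675 := by
  have h := relA r612
  have h2 : r675 * x = r612 := by simp only [e_675_x]
  exact (mul_right_cancel (h.trans h2.symm))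
theorem e_648_x : r648 * x = r698 := by
  have h := relA r648
  have h2 : r698 * x = r648 := by simp only [e_698_x]
  exact (mul_right_cancel (h.trans h2.symm))
theorem e_663_x : r663 * x = r707 := by
  have h := relA r663
  have h2 : r707 * x = r663 := by simp only [e_707_x]
  exact (mul_right_cancel (h.trans h2.symm))
theorem e_686_x : r686 * x = r713 := by
  have h := relA r686
  have h2 : r713 * x = r686 := by simp only [e_713_x]
  exact (mul_right_cancel (h.trans h2.symm))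
theorem e_293_y : r293 * y = r40 := by
  have h := relB r40
  simp only [e_40_y, e_63_y, e_99_y, e_147_y, e_211_y] at h
  exact h
theorem e_252_y : r252 * y = r52 := by
  have h := relB r51
  simp only [e_51_y, e_81_y, e_123_y, e_179_y] at h
  have h2 : r52 * y = r51 := by simp only [e_52_y]
  exact (mul_right_cancel (h.trans h2.symm))
theorem e_413_y : r413 * y = r71 := by
  have h := relB r71
  simp only [e_71_y, e_109_y, e_163_y, e_231_y, e_316_y] at h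
  exact h
theorem e_465_y : r465 * y = r89 := by
  have h := relB r89
  simp only [e_89_y, e_133_y, e_195_y, e_272_y, e_362_y] at h
  exact h
theorem e_530_y : r530 * y = r116 := by
  have h := relB r116
  simp only [e_116_y, e_170_y, e_243_y, e_330_y, e_428_y] at h
  exact h
theorem e_579_y : r579 * y = r140 := by
  have h := relB r140
  simp only [e_140_y, e_202_y, e_284_y, e_376_y, e_480_y] at h
  exact h
theorem e_596_y : r596 * y = r153 := by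
  have h := relB r153
  simp only [e_153_y, e_218_y, e_303_y, e_397_y, e_500_y] at h
  exact h
theorem e_622_y : r622 * y = r175 := by
  have h := relB r175
  simp only [e_175_y, e_247_y, e_336_y, e_434_y, e_536_y] at h
  exact h
theorem e_632_y : r632 * y = r185 := by
  have h := relB r185
  simp only [e_185_y, e_259_y, e_349_y, e_449_y, e_549_y] at h
  exact h
theorem e_658_y : r658 * y = r207 := by
  have h := relB r207
  simp only [e_207_y, e_288_y, e_382_y, e_486_y, e_585_y] at h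
  exact h
theorem e_671_y : r671 * y = r225 := by
  have h := relB r225
  simp only [e_225_y, e_309_y, e_407_y, e_511_y, e_606_y] at h
  exact h
theorem e_677_y : r677 * y = r236 := by
  have h := relB r236
  simp only [e_236_y, e_321_y, e_420_y, e_523_y, e_613_y] at h
  exact h
theorem e_682_y : r682 * y = r250 := by
  have h := relB r250
  simp only [e_250_y, e_338_y, e_436_y, e_537_y, e_623_y] at h
  exact h
theorem e_694_y : r694 * y = r266 := by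
  have h := relB r266
  simp only [e_266_y, e_355_y, e_459_y, e_560_y, e_642_y] at h
  exact h
theorem e_700_y : r700 * y = r277 := by
  have h := relB r277
  simp only [e_277_y, e_367_y, e_472_y, e_572_y, e_649_y] at h
  exact h
theorem e_705_y : r705 * y = r291 := by
  have h := relB r291
  simp only [e_291_y, e_384_y, e_488_y, e_586_y, e_659_y] at h
  exact h
theorem e_711_y : r711 * y = r333 := by
  have h := relB r333
  simp only [e_333_y, e_430_y, e_533_y, e_620_y, e_681_y] at h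
  exact h
theorem e_717_y : r717 * y = r379 := by
  have h := relB r379
  simp only [e_379_y, e_482_y, e_582_y, e_656_y, e_704_y] at h
  exact h
theorem e_718_y : r718 * y = r401 := by
  have h := relB r401
  simp only [e_401_y, e_504_y, e_601_y, e_668_y, e_709_y] at h
  exact h
theorem e_719_y : r719 * y = r453 := by
  have h := relB r453
  simp only [e_453_y, e_553_y, e_637_y, e_691_y, e_715_y] at h
  exact h
theorem e_212_x : r212 * x = r287 := by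
  have h := relC r40
  simp only [e_40_x, e_24_y, e_41_x, e_64_y, e_100_x, e_148_y] at h
  have h2 : r287 * y * x * y = r40 := by simp only [e_287_y, e_381_x, e_293_y]
  exact (mul_right_cancel (mul_right_cancel (mul_right_cancel (h.trans h2.symm))))
theorem e_253_x : r253 * x = r246 := by
  have h := relC r52
  simp only [e_52_x, e_32_y, e_53_x, e_82_y, e_124_x, e_180_y] at h
  have h2 : r246 * y * x * y = r52 := by simp only [e_246_y, e_335_x, e_252_y]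
  exact (mul_right_cancel (mul_right_cancel (mul_right_cancel (h.trans h2.symm))))
theorem e_298_x : r298 * x = r383 := by
  have h := relC r64
  simp only [e_64_x, e_41_y, e_65_x, e_101_y, e_150_x, e_215_y] at h
  have h2 : r383 * y * x * y = r64 := by simp only [e_383_y, e_487_x, e_391_y]
  exact (mul_right_cancel (mul_right_cancel (mul_right_cancel (h.trans h2.symm))))
theorem e_163_x : r163 * x = r195 := by
  have h := relC r69
  simp only [e_69_x, e_44_y, e_70_x, e_109_y] at h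
  have h2 : r195 * y * x * y * x * y = r69 := by simp only [e_195_y, e_272_x, e_348_y, e_448_x, e_412_y]
  exact (mul_right_cancel (mul_right_cancel (mul_right_cancel (mul_right_cancel (mul_right_cancel (h.trans h2.symm))))))
theorem e_317_x : r317 * x = r409 := by
  have h := relC r71
  simp only [e_71_x, e_45_y, e_72_x, e_110_y, e_164_x, e_232_y] at h
  have h2 : r409 * y * x * y = r71 := by simp only [e_409_y, e_514_x, e_413_y]
  exact (mul_right_cancel (mul_right_cancel (mul_right_cancel (h.trans h2.symm))))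
theorem e_459_x : r459 * x = r433 := by
  have h := relC r77
  simp only [e_77_x, e_49_y, e_78_x, e_96_y, e_143_x, e_189_y, e_265_x, e_355_y] at h
  have h2 : r433 * y = r77 := by simp only [e_433_y]
  exact (mul_right_cancel (h.trans h2.symm))
theorem e_344_x : r344 * x = r337 := by
  have h := relC r82
  simp only [e_82_x, e_53_y, e_83_x, e_125_y, e_182_x, e_256_y] at h
  have h2 : r337 * y * x * y = r82 := by simp only [e_337_y, e_435_x, e_443_y]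
  exact (mul_right_cancel (mul_right_cancel (mul_right_cancel (h.trans h2.symm))))
theorem e_195_x : r195 * x = r163 := by
  have h := relC r87
  simp only [e_87_x, e_56_y, e_88_x, e_133_y] at h
  have h2 : r163 * y * x * y * x * y = r87 := by simp only [e_163_y, e_231_x, e_302_y, e_396_x, e_464_y]
  exact (mul_right_cancel (mul_right_cancel (mul_right_cancel (mul_right_cancel (mul_right_cancel (h.trans h2.symm))))))
theorem e_363_x : r363 * x = r461 := by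
  have h := relC r89
  simp only [e_89_x, e_57_y, e_90_x, e_134_y, e_196_x, e_273_y] at h
  have h2 : r461 * y * x * y = r89 := by simp only [e_461_y, e_563_x, e_465_y]
  exact (mul_right_cancel (mul_right_cancel (mul_right_cancel (h.trans h2.symm))))
theorem e_407_x : r407 * x = r485 := by
  have h := relC r95
  simp only [e_95_x, e_61_y, e_96_x, e_78_y, e_119_x, e_157_y, e_224_x, e_309_y] at h
  have h2 : r485 * y = r95 := by simp only [e_485_y]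
  exact (mul_right_cancel (h.trans h2.symm))
theorem e_570_x : r570 * x = r520 := by
  have h := relC r110
  simp only [e_110_x, e_72_y, e_111_x, e_135_y, e_197_x, e_275_y, e_366_x, e_470_y] at h
  have h2 : r520 * y = r110 := by simp only [e_520_y]
  exact (mul_right_cancel (h.trans h2.symm))
theorem e_587_x : r587 * x = r538 := by
  have h := relC r122
  simp only [e_122_x, e_81_y, e_123_x, e_162_y, e_230_x, e_300_y, e_394_x, e_489_y] at h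
  have h2 : r538 * y = r122 := by simp only [e_538_y]
  exact (mul_right_cancel (h.trans h2.symm))
theorem e_521_x : r521 * x = r569 := by
  have h := relC r134
  simp only [e_134_x, e_90_y, e_135_x, e_111_y, e_165_x, e_234_y, e_320_x, e_418_y] at h
  have h2 : r569 * y = r134 := by simp only [e_569_y]
  exact (mul_right_cancel (h.trans h2.symm))
theorem e_538_x : r538 * x = r587 := by
  have h := relC r146
  simp only [e_146_x, e_99_y, e_147_x, e_194_y, e_271_x, e_346_y, e_446_x, e_437_y] at h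
  have h2 : r587 * y = r146 := by simp only [e_587_y]
  exact (mul_right_cancel (h.trans h2.symm))
theorem e_303_x : r303 * x = r243 := by
  have h := relC r151
  simp only [e_151_x, e_102_y, e_152_x, e_218_y] at h
  have h2 : r243 * y * x * y * x * y = r151 := by simp only [e_243_y, e_330_x, e_419_y, e_522_x, e_595_y]
  exact (mul_right_cancel (mul_right_cancel (mul_right_cancel (mul_right_cancel (mul_right_cancel (h.trans h2.symm))))))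
theorem e_528_x : r528 * x = r607 := by
  have h := relC r159
  simp only [e_159_x, e_107_y, e_160_x, e_121_y, e_177_x, e_239_y, e_325_x, e_424_y] at h
  have h2 : r607 * y = r159 := by simp only [e_607_y]
  exact (mul_right_cancel (h.trans h2.symm))
theorem e_349_x : r349 * x = r284 := by
  have h := relC r183
  simp only [e_183_x, e_126_y, e_184_x, e_259_y] at h
  have h2 : r284 * y * x * y * x * y = r183 := by simp only [e_284_y, e_376_x, e_471_y, e_571_x, e_631_y]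
  exact (mul_right_cancel (mul_right_cancel (mul_right_cancel (mul_right_cancel (mul_right_cancel (h.trans h2.symm))))))
theorem e_577_x : r577 * x = r643 := by
  have h := relC r191
  simp only [e_191_x, e_131_y, e_192_x, e_145_y, e_209_x, e_280_y, e_371_x, e_476_y] at h
  have h2 : r643 * y = r191 := by simp only [e_643_y]
  exact (mul_right_cancel (h.trans h2.symm))
theorem e_618_x : r618 * x = r667 := by
  have h := relC r219
  simp only [e_219_x, e_154_y, e_220_x, e_171_y, e_244_x, e_331_y, e_429_x, e_531_y] at h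
  have h2 : r667 * y = r219 := by simp only [e_667_y]
  exact (mul_right_cancel (h.trans h2.symm))
theorem e_654_x : r654 * x = r690 := by
  have h := relC r260
  simp only [e_260_x, e_186_y, e_261_x, e_203_y, e_285_x, e_377_y, e_481_x, e_580_y] at h
  have h2 : r690 * y = r260 := by simp only [e_690_y]
  exact (mul_right_cancel (h.trans h2.symm))
theorem e_243_x : r243 * x = r303 := by
  have h := relD r5
  simp only [e_5_x, e_9_y, e_16_y, e_28_y, e_47_y, e_75_y, e_115_x, e_170_y] at h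
  have h2 : r303 * y * y * y * y * y * x * y * x * y * y * y * y * y * x * y = r5 := by simp only [e_303_y, e_397_y, e_500_y, e_596_y, e_153_y, e_218_x, e_152_y, e_14_x, e_8_y, e_15_y, e_26_y, e_44_y, e_70_y, e_4_x, e_2_y]
  exact (mul_right_cancel (mul_right_cancel (mul_right_cancel (mul_right_cancel (mul_right_cancel (mul_right_cancel (mul_right_cancel (mul_right_cancel (mul_right_cancel (mul_right_cancel (mul_right_cancel (mul_right_cancel (mul_right_cancel (mul_right_cancel (mul_right_cancel (h.trans h2.symm))))))))))))))))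
theorem e_284_x : r284 * x = r349 := by
  have h := relD r7
  simp only [e_7_x, e_12_y, e_21_y, e_36_y, e_59_y, e_93_y, e_139_x, e_202_y] at h
  have h2 : r349 * y * y * y * y * y * x * y * x * y * y * y * y * y * x * y = r7 := by simp only [e_349_y, e_449_y, e_549_y, e_632_y, e_185_y, e_259_x, e_184_y, e_19_x, e_11_y, e_20_y, e_34_y, e_56_y, e_88_y, e_6_x, e_3_y]
  exact (mul_right_cancel (mul_right_cancel (mul_right_cancel (mul_right_cancel (mul_right_cancel (mul_right_cancel (mul_right_cancel (mul_right_cancel (mul_right_cancel (mul_right_cancel (mul_right_cancel (mul_right_cancel (mul_right_cancel (mul_right_cancel (mul_right_cancel (h.trans h2.symm))))))))))))))))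
theorem e_336_x : r336 * x = r420 := by
  have h := relD r10
  simp only [e_10_x, e_17_y, e_29_y, e_49_y, e_78_y, e_119_y, e_174_x, e_247_y] at h
  have h2 : r420 * y * y * y * y * y * x * y * x * y * y * y * y * y * x * y = r10 := by simp only [e_420_y, e_523_y, e_613_y, e_677_y, e_236_y, e_321_x, e_235_y, e_27_x, e_16_y, e_28_y, e_47_y, e_75_y, e_115_y, e_9_x, e_5_y]
  exact (mul_right_cancel (mul_right_cancel (mul_right_cancel (mul_right_cancel (mul_right_cancel (mul_right_cancel (mul_right_cancel (mul_right_cancel (mul_right_cancel (mul_right_cancel (mul_right_cancel (mul_right_cancel (mul_right_cancel (mul_right_cancel (mul_right_cancel (h.trans h2.symm))))))))))))))))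
theorem e_382_x : r382 * x = r472 := by
  have h := relD r13
  simp only [e_13_x, e_22_y, e_37_y, e_61_y, e_96_y, e_143_y, e_206_x, e_288_y] at h
  have h2 : r472 * y * y * y * y * y * x * y * x * y * y * y * y * y * x * y = r13 := by simp only [e_472_y, e_572_y, e_649_y, e_700_y, e_277_y, e_367_x, e_276_y, e_35_x, e_21_y, e_36_y, e_59_y, e_93_y, e_139_y, e_12_x, e_7_y]
  exact (mul_right_cancel (mul_right_cancel (mul_right_cancel (mul_right_cancel (mul_right_cancel (mul_right_cancel (mul_right_cancel (mul_right_cancel (mul_right_cancel (mul_right_cancel (mul_right_cancel (mul_right_cancel (mul_right_cancel (mul_right_cancel (mul_right_cancel (h.trans h2.symm))))))))))))))))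
theorem e_420_x : r420 * x = r336 := by
  have h := relD r16
  simp only [e_16_x, e_27_y, e_45_y, e_72_y, e_111_y, e_165_y, e_235_x, e_321_y] at h
  have h2 : r336 * y * y * y * y * y * x * y * x * y * y * y * y * y * x * y = r16 := by simp only [e_336_y, e_434_y, e_536_y, e_622_y, e_175_y, e_247_x, e_174_y, e_17_x, e_10_y, e_18_y, e_31_y, e_0_y, e_2_y, e_5_x, e_9_y]
  exact (mul_right_cancel (mul_right_cancel (mul_right_cancel (mul_right_cancel (mul_right_cancel (mul_right_cancel (mul_right_cancel (mul_right_cancel (mul_right_cancel (mul_right_cancel (mul_right_cancel (mul_right_cancel (mul_right_cancel (mul_right_cancel (mul_right_cancel (h.trans h2.symm))))))))))))))))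
theorem e_436_x : r436 * x = r533 := by
  have h := relD r18
  simp only [e_18_x, e_30_y, e_50_y, e_80_y, e_121_y, e_177_y, e_249_x, e_338_y] at h
  have h2 : r533 * y * y * y * y * y * x * y * x * y * y * y * y * y * x * y = r18 := by simp only [e_533_y, e_620_y, e_681_y, e_711_y, e_333_y, e_430_x, e_332_y, e_48_x, e_29_y, e_49_y, e_78_y, e_119_y, e_174_y, e_17_x, e_10_y]
  exact (mul_right_cancel (mul_right_cancel (mul_right_cancel (mul_right_cancel (mul_right_cancel (mul_right_cancel (mul_right_cancel (mul_right_cancel (mul_right_cancel (mul_right_cancel (mul_right_cancel (mul_right_cancel (mul_right_cancel (mul_right_cancel (mul_right_cancel (h.trans h2.symm))))))))))))))))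
theorem e_472_x : r472 * x = r382 := by
  have h := relD r21
  simp only [e_21_x, e_35_y, e_57_y, e_90_y, e_135_y, e_197_y, e_276_x, e_367_y] at h
  have h2 : r382 * y * y * y * y * y * x * y * x * y * y * y * y * y * x * y = r21 := by simp only [e_382_y, e_486_y, e_585_y, e_658_y, e_207_y, e_288_x, e_206_y, e_22_x, e_13_y, e_23_y, e_39_y, e_1_y, e_3_y, e_7_x, e_12_y]
  exact (mul_right_cancel (mul_right_cancel (mul_right_cancel (mul_right_cancel (mul_right_cancel (mul_right_cancel (mul_right_cancel (mul_right_cancel (mul_right_cancel (mul_right_cancel (mul_right_cancel (mul_right_cancel (mul_right_cancel (mul_right_cancel (mul_right_cancel (h.trans h2.symm))))))))))))))))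
theorem e_488_x : r488 * x = r582 := by
  have h := relD r23
  simp only [e_23_x, e_38_y, e_62_y, e_98_y, e_145_y, e_209_y, e_290_x, e_384_y] at h
  have h2 : r582 * y * y * y * y * y * x * y * x * y * y * y * y * y * x * y = r23 := by simp only [e_582_y, e_656_y, e_704_y, e_717_y, e_379_y, e_482_x, e_378_y, e_60_x, e_37_y, e_61_y, e_96_y, e_143_y, e_206_y, e_22_x, e_13_y]
  exact (mul_right_cancel (mul_right_cancel (mul_right_cancel (mul_right_cancel (mul_right_cancel (mul_right_cancel (mul_right_cancel (mul_right_cancel (mul_right_cancel (mul_right_cancel (mul_right_cancel (mul_right_cancel (mul_right_cancel (mul_right_cancel (mul_right_cancel (h.trans h2.symm))))))))))))))))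
theorem e_485_x : r485 * x = r407 := by
  have h := relD r24
  simp only [e_24_x, e_40_y, e_63_y, e_99_y, e_147_y, e_211_y, e_293_x, e_381_y] at h
  have h2 : r407 * y * y * y * y * y * x * y * x * y * y * y * y * y * x * y = r24 := by simp only [e_407_y, e_511_y, e_606_y, e_671_y, e_225_y, e_309_x, e_224_y, e_25_x, e_15_y, e_26_y, e_44_y, e_70_y, e_4_y, e_8_x, e_14_y]
  exact (mul_right_cancel (mul_right_cancel (mul_right_cancel (mul_right_cancel (mul_right_cancel (mul_right_cancel (mul_right_cancel (mul_right_cancel (mul_right_cancel (mul_right_cancel (mul_right_cancel (mul_right_cancel (mul_right_cancel (mul_right_cancel (mul_right_cancel (h.trans h2.symm))))))))))))))))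
theorem e_515_x : r515 * x = r601 := by
  have h := relD r26
  simp only [e_26_x, e_43_y, e_68_y, e_107_y, e_160_y, e_228_y, e_312_x, e_410_y] at h
  have h2 : r601 * y * y * y * y * y * x * y * x * y * y * y * y * y * x * y = r26 := by simp only [e_601_y, e_668_y, e_709_y, e_718_y, e_401_y, e_504_x, e_400_y, e_66_x, e_42_y, e_67_y, e_105_y, e_157_y, e_224_y, e_25_x, e_15_y]
  exact (mul_right_cancel (mul_right_cancel (mul_right_cancel (mul_right_cancel (mul_right_cancel (mul_right_cancel (mul_right_cancel (mul_right_cancel (mul_right_cancel (mul_right_cancel (mul_right_cancel (mul_right_cancel (mul_right_cancel (mul_right_cancel (mul_right_cancel (h.trans h2.symm))))))))))))))))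
theorem e_533_x : r533 * x = r436 := by
  have h := relD r29
  simp only [e_29_x, e_48_y, e_76_y, e_117_y, e_171_y, e_244_y, e_332_x, e_430_y] at h
  have h2 : r436 * y * y * y * y * y * x * y * x * y * y * y * y * y * x * y = r29 := by simp only [e_436_y, e_537_y, e_623_y, e_682_y, e_250_y, e_338_x, e_249_y, e_30_x, e_18_y, e_31_y, e_0_y, e_2_y, e_5_y, e_10_x, e_17_y]
  exact (mul_right_cancel (mul_right_cancel (mul_right_cancel (mul_right_cancel (mul_right_cancel (mul_right_cancel (mul_right_cancel (mul_right_cancel (mul_right_cancel (mul_right_cancel (mul_right_cancel (mul_right_cancel (mul_right_cancel (mul_right_cancel (mul_right_cancel (h.trans h2.symm))))))))))))))))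
theorem e_433_x : r433 * x = r459 := by
  have h := relD r32
  simp only [e_32_x, e_52_y, e_51_y, e_81_y, e_123_y, e_179_y, e_252_x, e_335_y] at h
  have h2 : r459 * y * y * y * y * y * x * y * x * y * y * y * y * y * x * y = r32 := by simp only [e_459_y, e_560_y, e_642_y, e_694_y, e_266_y, e_355_x, e_265_y, e_33_x, e_20_y, e_34_y, e_56_y, e_88_y, e_6_y, e_11_x, e_19_y]
  exact (mul_right_cancel (mul_right_cancel (mul_right_cancel (mul_right_cancel (mul_right_cancel (mul_right_cancel (mul_right_cancel (mul_right_cancel (mul_right_cancel (mul_right_cancel (mul_right_cancel (mul_right_cancel (mul_right_cancel (mul_right_cancel (mul_right_cancel (h.trans h2.symm))))))))))))))))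
theorem e_564_x : r564 * x = r637 := by
  have h := relD r34
  simp only [e_34_x, e_55_y, e_86_y, e_131_y, e_192_y, e_269_y, e_358_x, e_462_y] at h
  have h2 : r637 * y * y * y * y * y * x * y * x * y * y * y * y * y * x * y = r34 := by simp only [e_637_y, e_691_y, e_715_y, e_719_y, e_453_y, e_553_x, e_452_y, e_84_x, e_54_y, e_85_y, e_129_y, e_189_y, e_265_y, e_33_x, e_20_y]
  exact (mul_right_cancel (mul_right_cancel (mul_right_cancel (mul_right_cancel (mul_right_cancel (mul_right_cancel (mul_right_cancel (mul_right_cancel (mul_right_cancel (mul_right_cancel (mul_right_cancel (mul_right_cancel (mul_right_cancel (mul_right_cancel (mul_right_cancel (h.trans h2.symm))))))))))))))))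
theorem e_582_x : r582 * x = r488 := by
  have h := relD r37
  simp only [e_37_x, e_60_y, e_94_y, e_141_y, e_203_y, e_285_y, e_378_x, e_482_y] at h
  have h2 : r488 * y * y * y * y * y * x * y * x * y * y * y * y * y * x * y = r37 := by simp only [e_488_y, e_586_y, e_659_y, e_705_y, e_291_y, e_384_x, e_290_y, e_38_x, e_23_y, e_39_y, e_1_y, e_3_y, e_7_y, e_13_x, e_22_y]
  exact (mul_right_cancel (mul_right_cancel (mul_right_cancel (mul_right_cancel (mul_right_cancel (mul_right_cancel (mul_right_cancel (mul_right_cancel (mul_right_cancel (mul_right_cancel (mul_right_cancel (mul_right_cancel (mul_right_cancel (mul_right_cancel (mul_right_cancel (h.trans h2.symm))))))))))))))))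
theorem e_542_x : r542 * x = r513 := by
  have h := relD r44
  simp only [e_44_x, e_69_y, e_108_y, e_162_y, e_230_y, e_315_y, e_412_x, e_448_y, e_548_x, e_627_y, e_685_y, e_254_y, e_341_y, e_441_y] at h
  have h2 : r513 * y * x * y * y * y * y * y * x * y = r44 := by simp only [e_513_y, e_106_x, e_68_y, e_107_y, e_160_y, e_228_y, e_312_y, e_43_x, e_26_y]
  exact (mul_right_cancel (mul_right_cancel (mul_right_cancel (mul_right_cancel (mul_right_cancel (mul_right_cancel (mul_right_cancel (mul_right_cancel (mul_right_cancel (h.trans h2.symm))))))))))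
theorem e_493_x : r493 * x = r562 := by
  have h := relD r56
  simp only [e_56_x, e_87_y, e_132_y, e_194_y, e_271_y, e_361_y, e_464_x, e_396_y, e_499_x, e_591_y, e_662_y, e_213_y, e_295_y, e_389_y] at h
  have h2 : r562 * y * x * y * y * y * y * y * x * y = r56 := by simp only [e_562_y, e_130_x, e_86_y, e_131_y, e_192_y, e_269_y, e_358_y, e_55_x, e_34_y]
  exact (mul_right_cancel (mul_right_cancel (mul_right_cancel (mul_right_cancel (mul_right_cancel (mul_right_cancel (mul_right_cancel (mul_right_cancel (mul_right_cancel (h.trans h2.symm))))))))))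
theorem e_513_x : r513 * x = r542 := by
  have h := relD r68
  simp only [e_68_x, e_106_y, e_158_y, e_226_y, e_310_y, e_408_y] at h
  have h2 : r542 * y * x * y * y * y * y * y * x * y * x * y * y * y * y * y * x * y = r68 := by simp only [e_542_y, e_627_x, e_548_y, e_631_y, e_183_y, e_258_y, e_348_y, e_448_x, e_412_y, e_69_x, e_44_y, e_70_y, e_4_y, e_8_y, e_15_y, e_26_x, e_43_y]
  exact (mul_right_cancel (mul_right_cancel (mul_right_cancel (mul_right_cancel (mul_right_cancel (mul_right_cancel (mul_right_cancel (mul_right_cancel (mul_right_cancel (mul_right_cancel (mul_right_cancel (mul_right_cancel (mul_right_cancel (mul_right_cancel (mul_right_cancel (mul_right_cancel (mul_right_cancel (h.trans h2.symm))))))))))))))))))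
theorem e_653_x : r653 * x = r617 := by
  have h := relD r75
  simp only [e_75_x, e_93_y, e_139_y, e_12_y, e_21_y, e_36_y, e_59_x, e_92_y, e_138_x, e_200_y, e_281_y, e_373_y, e_477_y, e_578_y] at h
  have h2 : r617 * y * x * y * y * y * y * y * x * y = r75 := by simp only [e_617_y, e_168_x, e_114_y, e_169_y, e_242_y, e_329_y, e_427_y, e_74_x, e_47_y]
  exact (mul_right_cancel (mul_right_cancel (mul_right_cancel (mul_right_cancel (mul_right_cancel (mul_right_cancel (mul_right_cancel (mul_right_cancel (mul_right_cancel (h.trans h2.symm))))))))))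
theorem e_657_x : r657 * x = r621 := by
  have h := relD r78
  simp only [e_78_x, e_96_y, e_143_y, e_206_y, e_22_y, e_37_y, e_61_x, e_95_y, e_142_x, e_204_y, e_286_y, e_380_y, e_484_y, e_584_y] at h
  have h2 : r621 * y * x * y * y * y * y * y * x * y = r78 := by simp only [e_621_y, e_172_x, e_118_y, e_173_y, e_246_y, e_335_y, e_433_y, e_77_x, e_49_y]
  exact (mul_right_cancel (mul_right_cancel (mul_right_cancel (mul_right_cancel (mul_right_cancel (mul_right_cancel (mul_right_cancel (mul_right_cancel (mul_right_cancel (h.trans h2.symm))))))))))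
theorem e_658_x : r658 * x = r622 := by
  have h := relD r80
  simp only [e_80_x, e_98_y, e_145_y, e_209_y, e_290_y, e_38_y, e_62_x, e_97_y, e_144_x, e_207_y, e_288_y, e_382_y, e_486_y, e_585_y] at h
  have h2 : r622 * y * x * y * y * y * y * y * x * y = r80 := by simp only [e_622_y, e_175_x, e_120_y, e_176_y, e_248_y, e_337_y, e_435_y, e_79_x, e_50_y]
  exact (mul_right_cancel (mul_right_cancel (mul_right_cancel (mul_right_cancel (mul_right_cancel (mul_right_cancel (mul_right_cancel (mul_right_cancel (mul_right_cancel (h.trans h2.symm))))))))))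
theorem e_562_x : r562 * x = r493 := by
  have h := relD r86
  simp only [e_86_x, e_130_y, e_190_y, e_267_y, e_356_y, e_460_y] at h
  have h2 : r493 * y * x * y * y * y * y * y * x * y * x * y * y * y * y * y * x * y = r86 := by simp only [e_493_y, e_591_x, e_499_y, e_595_y, e_151_y, e_217_y, e_302_y, e_396_x, e_464_y, e_87_x, e_56_y, e_88_y, e_6_y, e_11_y, e_20_y, e_34_x, e_55_y]
  exact (mul_right_cancel (mul_right_cancel (mul_right_cancel (mul_right_cancel (mul_right_cancel (mul_right_cancel (mul_right_cancel (mul_right_cancel (mul_right_cancel (mul_right_cancel (mul_right_cancel (mul_right_cancel (mul_right_cancel (mul_right_cancel (mul_right_cancel (mul_right_cancel (mul_right_cancel (h.trans h2.symm))))))))))))))))))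
theorem e_617_x : r617 * x = r653 := by
  have h := relD r93
  simp only [e_93_x, e_75_y, e_115_y, e_9_y, e_16_y, e_28_y, e_47_x, e_74_y, e_114_x, e_168_y, e_240_y, e_327_y, e_425_y, e_529_y] at h
  have h2 : r653 * y * x * y * y * y * y * y * x * y = r93 := by simp only [e_653_y, e_200_x, e_138_y, e_201_y, e_283_y, e_375_y, e_479_y, e_92_x, e_59_y]
  exact (mul_right_cancel (mul_right_cancel (mul_right_cancel (mul_right_cancel (mul_right_cancel (mul_right_cancel (mul_right_cancel (mul_right_cancel (mul_right_cancel (h.trans h2.symm))))))))))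
theorem e_621_x : r621 * x = r657 := by
  have h := relD r96
  simp only [e_96_x, e_78_y, e_119_y, e_174_y, e_17_y, e_29_y, e_49_x, e_77_y, e_118_x, e_172_y, e_245_y, e_334_y, e_432_y, e_535_y] at h
  have h2 : r657 * y * x * y * y * y * y * y * x * y = r96 := by simp only [e_657_y, e_204_x, e_142_y, e_205_y, e_287_y, e_381_y, e_485_y, e_95_x, e_61_y]
  exact (mul_right_cancel (mul_right_cancel (mul_right_cancel (mul_right_cancel (mul_right_cancel (mul_right_cancel (mul_right_cancel (mul_right_cancel (mul_right_cancel (h.trans h2.symm))))))))))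
theorem e_622_x : r622 * x = r658 := by
  have h := relD r98
  simp only [e_98_x, e_80_y, e_121_y, e_177_y, e_249_y, e_30_y, e_50_x, e_79_y, e_120_x, e_175_y, e_247_y, e_336_y, e_434_y, e_536_y] at h
  have h2 : r658 * y * x * y * y * y * y * y * x * y = r98 := by simp only [e_658_y, e_207_x, e_144_y, e_208_y, e_289_y, e_383_y, e_487_y, e_97_x, e_62_y]
  exact (mul_right_cancel (mul_right_cancel (mul_right_cancel (mul_right_cancel (mul_right_cancel (mul_right_cancel (mul_right_cancel (mul_right_cancel (mul_right_cancel (h.trans h2.symm))))))))))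
theorem e_411_y : r411 * y = r470 := by
  have h := relD r108
  simp only [e_108_x, e_161_y, e_229_y, e_314_y] at h
  have h2 : r470 * y * x * y * x * y * y * y * y * y * x * y * x * y * y * y * y * y * x * y = r108 := by simp only [e_470_y, e_570_x, e_520_y, e_110_x, e_72_y, e_111_y, e_165_y, e_235_y, e_27_y, e_45_x, e_71_y, e_109_x, e_70_y, e_4_y, e_8_y, e_15_y, e_26_y, e_44_x, e_69_y]
  exact (mul_right_cancel (mul_right_cancel (mul_right_cancel (mul_right_cancel (mul_right_cancel (mul_right_cancel (mul_right_cancel (mul_right_cancel (mul_right_cancel (mul_right_cancel (mul_right_cancel (mul_right_cancel (mul_right_cancel (mul_right_cancel (mul_right_cancel (mul_right_cancel (mul_right_cancel (mul_right_cancel (mul_right_cancel (h.trans h2.symm))))))))))))))))))))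
theorem e_696_x : r696 * x = r673 := by
  have h := relD r111
  simp only [e_111_x, e_135_y, e_197_y, e_276_y, e_35_y, e_57_y, e_90_x, e_134_y, e_196_x, e_273_y, e_363_y, e_466_y, e_566_y, e_645_y] at h
  have h2 : r673 * y * x * y * y * y * y * y * x * y = r111 := by simp only [e_673_y, e_232_x, e_164_y, e_233_y, e_319_y, e_417_y, e_520_y, e_110_x, e_72_y]
  exact (mul_right_cancel (mul_right_cancel (mul_right_cancel (mul_right_cancel (mul_right_cancel (mul_right_cancel (mul_right_cancel (mul_right_cancel (mul_right_cancel (h.trans h2.symm))))))))))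
theorem e_700_x : r700 * x = r677 := by
  have h := relD r113
  simp only [e_113_x, e_137_y, e_199_y, e_280_y, e_371_y, e_58_y, e_91_x, e_136_y, e_198_x, e_277_y, e_367_y, e_472_y, e_572_y, e_649_y] at h
  have h2 : r677 * y * x * y * y * y * y * y * x * y = r113 := by simp only [e_677_y, e_236_x, e_166_y, e_237_y, e_323_y, e_422_y, e_525_y, e_112_x, e_73_y]
  exact (mul_right_cancel (mul_right_cancel (mul_right_cancel (mul_right_cancel (mul_right_cancel (mul_right_cancel (mul_right_cancel (mul_right_cancel (mul_right_cancel (h.trans h2.symm))))))))))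
theorem e_117_x : r117 * x = r141 := by
  have h := relD r115
  simp only [e_115_x, e_170_y, e_243_y, e_330_y, e_428_y, e_530_y, e_116_x, e_76_y] at h
  have h2 : r141 * y * y * y * y * y * x * y * x * y * y * y * y * y * x * y = r115 := by simp only [e_141_y, e_203_y, e_285_y, e_378_y, e_60_y, e_94_x, e_140_y, e_202_x, e_139_y, e_12_y, e_21_y, e_36_y, e_59_y, e_93_x, e_75_y]
  exact (mul_right_cancel (mul_right_cancel (mul_right_cancel (mul_right_cancel (mul_right_cancel (mul_right_cancel (mul_right_cancel (mul_right_cancel (mul_right_cancel (mul_right_cancel (mul_right_cancel (mul_right_cancel (mul_right_cancel (mul_right_cancel (mul_right_cancel (h.trans h2.symm))))))))))))))))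
theorem e_223_x : r223 * x = r264 := by
  have h := relD r119
  simp only [e_119_x, e_157_y, e_224_y, e_25_y, e_42_y, e_67_y, e_105_x, e_156_y] at h
  have h2 : r264 * y * y * y * y * y * x * y * x * y * y * y * y * y * x * y = r119 := by simp only [e_264_y, e_354_y, e_458_y, e_559_y, e_641_y, e_188_x, e_129_y, e_189_x, e_143_y, e_206_y, e_22_y, e_37_y, e_61_y, e_96_x, e_78_y]
  exact (mul_right_cancel (mul_right_cancel (mul_right_cancel (mul_right_cancel (mul_right_cancel (mul_right_cancel (mul_right_cancel (mul_right_cancel (mul_right_cancel (mul_right_cancel (mul_right_cancel (mul_right_cancel (mul_right_cancel (mul_right_cancel (mul_right_cancel (h.trans h2.symm))))))))))))))))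
theorem e_227_x : r227 * x = r268 := by
  have h := relD r121
  simp only [e_121_x, e_160_y, e_228_y, e_312_y, e_43_y, e_68_y, e_107_x, e_159_y] at h
  have h2 : r268 * y * y * y * y * y * x * y * x * y * y * y * y * y * x * y = r121 := by simp only [e_268_y, e_357_y, e_461_y, e_563_y, e_643_y, e_191_x, e_131_y, e_192_x, e_145_y, e_209_y, e_290_y, e_38_y, e_62_y, e_98_x, e_80_y]
  exact (mul_right_cancel (mul_right_cancel (mul_right_cancel (mul_right_cancel (mul_right_cancel (mul_right_cancel (mul_right_cancel (mul_right_cancel (mul_right_cancel (mul_right_cancel (mul_right_cancel (mul_right_cancel (mul_right_cancel (mul_right_cancel (mul_right_cancel (h.trans h2.symm))))))))))))))))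
theorem e_463_y : r463 * y = r418 := by
  have h := relD r132
  simp only [e_132_x, e_193_y, e_270_y, e_360_y] at h
  have h2 : r418 * y * x * y * x * y * y * y * y * y * x * y * x * y * y * y * y * y * x * y = r132 := by simp only [e_418_y, e_521_x, e_569_y, e_134_x, e_90_y, e_135_y, e_197_y, e_276_y, e_35_y, e_57_x, e_89_y, e_133_x, e_88_y, e_6_y, e_11_y, e_20_y, e_34_y, e_56_x, e_87_y]
  exact (mul_right_cancel (mul_right_cancel (mul_right_cancel (mul_right_cancel (mul_right_cancel (mul_right_cancel (mul_right_cancel (mul_right_cancel (mul_right_cancel (mul_right_cancel (mul_right_cancel (mul_right_cancel (mul_right_cancel (mul_right_cancel (mul_right_cancel (mul_right_cancel (mul_right_cancel (mul_right_cancel (mul_right_cancel (h.trans h2.symm))))))))))))))))))))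
theorem e_673_x : r673 * x = r696 := by
  have h := relD r135
  simp only [e_135_x, e_111_y, e_165_y, e_235_y, e_27_y, e_45_y, e_72_x, e_110_y, e_164_x, e_232_y, e_317_y, e_414_y, e_517_y, e_609_y] at h
  have h2 : r696 * y * x * y * y * y * y * y * x * y = r135 := by simp only [e_696_y, e_273_x, e_196_y, e_274_y, e_365_y, e_469_y, e_569_y, e_134_x, e_90_y]
  exact (mul_right_cancel (mul_right_cancel (mul_right_cancel (mul_right_cancel (mul_right_cancel (mul_right_cancel (mul_right_cancel (mul_right_cancel (mul_right_cancel (h.trans h2.symm))))))))))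
theorem e_677_x : r677 * x = r700 := by
  have h := relD r137
  simp only [e_137_x, e_113_y, e_167_y, e_239_y, e_325_y, e_46_y, e_73_x, e_112_y, e_166_x, e_236_y, e_321_y, e_420_y, e_523_y, e_613_y] at h
  have h2 : r700 * y * x * y * y * y * y * y * x * y = r137 := by simp only [e_700_y, e_277_x, e_198_y, e_278_y, e_369_y, e_474_y, e_574_y, e_136_x, e_91_y]
  exact (mul_right_cancel (mul_right_cancel (mul_right_cancel (mul_right_cancel (mul_right_cancel (mul_right_cancel (mul_right_cancel (mul_right_cancel (mul_right_cancel (h.trans h2.symm))))))))))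
theorem e_141_x : r141 * x = r117 := by
  have h := relD r139
  simp only [e_139_x, e_202_y, e_284_y, e_376_y, e_480_y, e_579_y, e_140_x, e_94_y] at h
  have h2 : r117 * y * y * y * y * y * x * y * x * y * y * y * y * y * x * y = r139 := by simp only [e_117_y, e_171_y, e_244_y, e_332_y, e_48_y, e_76_x, e_116_y, e_170_x, e_115_y, e_9_y, e_16_y, e_28_y, e_47_y, e_75_x, e_93_y]
  exact (mul_right_cancel (mul_right_cancel (mul_right_cancel (mul_right_cancel (mul_right_cancel (mul_right_cancel (mul_right_cancel (mul_right_cancel (mul_right_cancel (mul_right_cancel (mul_right_cancel (mul_right_cancel (mul_right_cancel (mul_right_cancel (mul_right_cancel (h.trans h2.symm))))))))))))))))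
theorem e_264_x : r264 * x = r223 := by
  have h := relD r143
  simp only [e_143_x, e_189_y, e_265_y, e_33_y, e_54_y, e_85_y, e_129_x, e_188_y] at h
  have h2 : r223 * y * y * y * y * y * x * y * x * y * y * y * y * y * x * y = r143 := by simp only [e_223_y, e_308_y, e_406_y, e_510_y, e_605_y, e_156_x, e_105_y, e_157_x, e_119_y, e_174_y, e_17_y, e_29_y, e_49_y, e_78_x, e_96_y]
  exact (mul_right_cancel (mul_right_cancel (mul_right_cancel (mul_right_cancel (mul_right_cancel (mul_right_cancel (mul_right_cancel (mul_right_cancel (mul_right_cancel (mul_right_cancel (mul_right_cancel (mul_right_cancel (mul_right_cancel (mul_right_cancel (mul_right_cancel (h.trans h2.symm))))))))))))))))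
theorem e_268_x : r268 * x = r227 := by
  have h := relD r145
  simp only [e_145_x, e_192_y, e_269_y, e_358_y, e_55_y, e_86_y, e_131_x, e_191_y] at h
  have h2 : r227 * y * y * y * y * y * x * y * x * y * y * y * y * y * x * y = r145 := by simp only [e_227_y, e_311_y, e_409_y, e_514_y, e_607_y, e_159_x, e_107_y, e_160_x, e_121_y, e_177_y, e_249_y, e_30_y, e_50_y, e_80_x, e_98_y]
  exact (mul_right_cancel (mul_right_cancel (mul_right_cancel (mul_right_cancel (mul_right_cancel (mul_right_cancel (mul_right_cancel (mul_right_cancel (mul_right_cancel (mul_right_cancel (mul_right_cancel (mul_right_cancel (mul_right_cancel (mul_right_cancel (mul_right_cancel (h.trans h2.symm))))))))))))))))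
theorem e_665_x : r665 * x = r611 := by
  have h := relD r150
  simp only [e_150_x, e_215_y, e_298_y, e_392_y, e_495_y, e_593_y] at h
  have h2 : r611 * y * x * y * y * y * y * y * x * y * x * y * y * y * y * y * x * y = r150 := by simp only [e_611_y, e_675_x, e_612_y, e_676_y, e_234_y, e_320_y, e_419_y, e_522_x, e_595_y, e_151_x, e_102_y, e_152_y, e_14_y, e_24_y, e_41_y, e_65_x, e_101_y]
  exact (mul_right_cancel (mul_right_cancel (mul_right_cancel (mul_right_cancel (mul_right_cancel (mul_right_cancel (mul_right_cancel (mul_right_cancel (mul_right_cancel (mul_right_cancel (mul_right_cancel (mul_right_cancel (mul_right_cancel (mul_right_cancel (mul_right_cancel (mul_right_cancel (mul_right_cancel (h.trans h2.symm))))))))))))))))))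
theorem e_304_x : r304 * x = r350 := by
  have h := relD r171
  simp only [e_171_x, e_220_y, e_305_y, e_400_y, e_66_y, e_103_y, e_154_x, e_219_y] at h
  have h2 : r350 * y * y * y * y * y * x * y * x * y * y * y * y * y * x * y = r171 := by simp only [e_350_y, e_450_y, e_551_y, e_635_y, e_690_y, e_260_x, e_186_y, e_261_x, e_203_y, e_285_y, e_378_y, e_60_y, e_94_y, e_141_x, e_117_y]
  exact (mul_right_cancel (mul_right_cancel (mul_right_cancel (mul_right_cancel (mul_right_cancel (mul_right_cancel (mul_right_cancel (mul_right_cancel (mul_right_cancel (mul_right_cancel (mul_right_cancel (mul_right_cancel (mul_right_cancel (mul_right_cancel (mul_right_cancel (h.trans h2.symm))))))))))))))))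
theorem e_718_x : r718 * x = r711 := by
  have h := relD r173
  simp only [e_173_x, e_222_y, e_307_y, e_404_y, e_508_y, e_104_y, e_155_x, e_221_y, e_306_x, e_401_y, e_504_y, e_601_y, e_668_y, e_709_y] at h
  have h2 : r711 * y * x * y * y * y * y * y * x * y = r173 := by simp only [e_711_y, e_333_x, e_245_y, e_334_y, e_432_y, e_535_y, e_621_y, e_172_x, e_118_y]
  exact (mul_right_cancel (mul_right_cancel (mul_right_cancel (mul_right_cancel (mul_right_cancel (mul_right_cancel (mul_right_cancel (mul_right_cancel (mul_right_cancel (h.trans h2.symm))))))))))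
theorem e_176_x : r176 * x = r226 := by
  have h := relD r174
  simp only [e_174_x, e_247_y, e_336_y, e_434_y, e_536_y, e_622_y, e_175_x, e_120_y] at h
  have h2 : r226 * y * y * y * y * y * x * y * x * y * y * y * y * y * x * y = r174 := by simp only [e_226_y, e_310_y, e_408_y, e_513_y, e_106_y, e_158_x, e_225_y, e_309_x, e_224_y, e_25_y, e_42_y, e_67_y, e_105_y, e_157_x, e_119_y]
  exact (mul_right_cancel (mul_right_cancel (mul_right_cancel (mul_right_cancel (mul_right_cancel (mul_right_cancel (mul_right_cancel (mul_right_cancel (mul_right_cancel (mul_right_cancel (mul_right_cancel (mul_right_cancel (mul_right_cancel (mul_right_cancel (mul_right_cancel (h.trans h2.symm))))))))))))))))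
theorem e_324_x : r324 * x = r390 := by
  have h := relD r177
  simp only [e_177_x, e_239_y, e_325_y, e_46_y, e_73_y, e_113_y, e_167_x, e_238_y] at h
  have h2 : r390 * y * y * y * y * y * x * y * x * y * y * y * y * y * x * y = r177 := by simp only [e_390_y, e_494_y, e_592_y, e_663_y, e_708_y, e_296_x, e_214_y, e_297_x, e_228_y, e_312_y, e_43_y, e_68_y, e_107_y, e_160_x, e_121_y]
  exact (mul_right_cancel (mul_right_cancel (mul_right_cancel (mul_right_cancel (mul_right_cancel (mul_right_cancel (mul_right_cancel (mul_right_cancel (mul_right_cancel (mul_right_cancel (mul_right_cancel (mul_right_cancel (mul_right_cancel (mul_right_cancel (mul_right_cancel (h.trans h2.symm))))))))))))))))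
theorem e_688_x : r688 * x = r647 := by
  have h := relD r182
  simp only [e_182_x, e_256_y, e_344_y, e_444_y, e_544_y, e_629_y] at h
  have h2 : r647 * y * x * y * y * y * y * y * x * y * x * y * y * y * y * y * x * y = r182 := by simp only [e_647_y, e_698_x, e_648_y, e_699_y, e_275_y, e_366_y, e_471_y, e_571_x, e_631_y, e_183_x, e_126_y, e_184_y, e_19_y, e_32_y, e_53_y, e_83_x, e_125_y]
  exact (mul_right_cancel (mul_right_cancel (mul_right_cancel (mul_right_cancel (mul_right_cancel (mul_right_cancel (mul_right_cancel (mul_right_cancel (mul_right_cancel (mul_right_cancel (mul_right_cancel (mul_right_cancel (mul_right_cancel (mul_right_cancel (mul_right_cancel (mul_right_cancel (mul_right_cancel (h.trans h2.symm))))))))))))))))))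
theorem e_350_x : r350 * x = r304 := by
  have h := relD r203
  simp only [e_203_x, e_261_y, e_351_y, e_452_y, e_84_y, e_127_y, e_186_x, e_260_y] at h
  have h2 : r304 * y * y * y * y * y * x * y * x * y * y * y * y * y * x * y = r203 := by simp only [e_304_y, e_398_y, e_502_y, e_599_y, e_667_y, e_219_x, e_154_y, e_220_x, e_171_y, e_244_y, e_332_y, e_48_y, e_76_y, e_117_x, e_141_y]
  exact (mul_right_cancel (mul_right_cancel (mul_right_cancel (mul_right_cancel (mul_right_cancel (mul_right_cancel (mul_right_cancel (mul_right_cancel (mul_right_cancel (mul_right_cancel (mul_right_cancel (mul_right_cancel (mul_right_cancel (mul_right_cancel (mul_right_cancel (h.trans h2.symm))))))))))))))))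
theorem e_719_x : r719 * x = r717 := by
  have h := relD r205
  simp only [e_205_x, e_263_y, e_353_y, e_456_y, e_557_y, e_128_y, e_187_x, e_262_y, e_352_x, e_453_y, e_553_y, e_637_y, e_691_y, e_715_y] at h
  have h2 : r717 * y * x * y * y * y * y * y * x * y = r205 := by simp only [e_717_y, e_379_x, e_286_y, e_380_y, e_484_y, e_584_y, e_657_y, e_204_x, e_142_y]
  exact (mul_right_cancel (mul_right_cancel (mul_right_cancel (mul_right_cancel (mul_right_cancel (mul_right_cancel (mul_right_cancel (mul_right_cancel (mul_right_cancel (h.trans h2.symm))))))))))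
theorem e_208_x : r208 * x = r267 := by
  have h := relD r206
  simp only [e_206_x, e_288_y, e_382_y, e_486_y, e_585_y, e_658_y, e_207_x, e_144_y] at h
  have h2 : r267 * y * y * y * y * y * x * y * x * y * y * y * y * y * x * y = r206 := by simp only [e_267_y, e_356_y, e_460_y, e_562_y, e_130_y, e_190_x, e_266_y, e_355_x, e_265_y, e_33_y, e_54_y, e_85_y, e_129_y, e_189_x, e_143_y]
  exact (mul_right_cancel (mul_right_cancel (mul_right_cancel (mul_right_cancel (mul_right_cancel (mul_right_cancel (mul_right_cancel (mul_right_cancel (mul_right_cancel (mul_right_cancel (mul_right_cancel (mul_right_cancel (mul_right_cancel (mul_right_cancel (mul_right_cancel (h.trans h2.symm))))))))))))))))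
theorem e_370_x : r370 * x = r442 := by
  have h := relD r209
  simp only [e_209_x, e_280_y, e_371_y, e_58_y, e_91_y, e_137_y, e_199_x, e_279_y] at h
  have h2 : r442 * y * y * y * y * y * x * y * x * y * y * y * y * y * x * y = r209 := by simp only [e_442_y, e_543_y, e_628_y, e_686_y, e_714_y, e_342_x, e_255_y, e_343_x, e_269_y, e_358_y, e_55_y, e_86_y, e_131_y, e_192_x, e_145_y]
  exact (mul_right_cancel (mul_right_cancel (mul_right_cancel (mul_right_cancel (mul_right_cancel (mul_right_cancel (mul_right_cancel (mul_right_cancel (mul_right_cancel (mul_right_cancel (mul_right_cancel (mul_right_cancel (mul_right_cancel (mul_right_cancel (mul_right_cancel (h.trans h2.symm))))))))))))))))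
theorem e_594_y : r594 * y = r531 := by
  have h := relD r217
  simp only [e_217_x, e_301_y, e_395_y, e_498_y] at h
  have h2 : r531 * y * x * y * x * y * y * y * y * y * x * y * x * y * y * y * y * y * x * y = r217 := by simp only [e_531_y, e_618_x, e_667_y, e_219_x, e_154_y, e_220_y, e_305_y, e_400_y, e_66_y, e_103_x, e_153_y, e_218_x, e_152_y, e_14_y, e_24_y, e_41_y, e_65_y, e_102_x, e_151_y]
  exact (mul_right_cancel (mul_right_cancel (mul_right_cancel (mul_right_cancel (mul_right_cancel (mul_right_cancel (mul_right_cancel (mul_right_cancel (mul_right_cancel (mul_right_cancel (mul_right_cancel (mul_right_cancel (mul_right_cancel (mul_right_cancel (mul_right_cancel (mul_right_cancel (mul_right_cancel (mul_right_cancel (mul_right_cancel (h.trans h2.symm))))))))))))))))))))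
theorem e_226_x : r226 * x = r176 := by
  have h := relD r224
  simp only [e_224_x, e_309_y, e_407_y, e_511_y, e_606_y, e_671_y, e_225_x, e_158_y] at h
  have h2 : r176 * y * y * y * y * y * x * y * x * y * y * y * y * y * x * y = r224 := by simp only [e_176_y, e_248_y, e_337_y, e_435_y, e_79_y, e_120_x, e_175_y, e_247_x, e_174_y, e_17_y, e_29_y, e_49_y, e_78_y, e_119_x, e_157_y]
  exact (mul_right_cancel (mul_right_cancel (mul_right_cancel (mul_right_cancel (mul_right_cancel (mul_right_cancel (mul_right_cancel (mul_right_cancel (mul_right_cancel (mul_right_cancel (mul_right_cancel (mul_right_cancel (mul_right_cancel (mul_right_cancel (mul_right_cancel (h.trans h2.symm))))))))))))))))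
theorem e_251_x : r251 * x = r327 := by
  have h := relD r249
  simp only [e_249_x, e_338_y, e_436_y, e_537_y, e_623_y, e_682_y, e_250_x, e_178_y] at h
  have h2 : r327 * y * y * y * y * y * x * y * x * y * y * y * y * y * x * y = r249 := by simp only [e_327_y, e_425_y, e_529_y, e_617_y, e_168_y, e_240_x, e_326_y, e_424_x, e_325_y, e_46_y, e_73_y, e_113_y, e_167_y, e_239_x, e_177_y]
  exact (mul_right_cancel (mul_right_cancel (mul_right_cancel (mul_right_cancel (mul_right_cancel (mul_right_cancel (mul_right_cancel (mul_right_cancel (mul_right_cancel (mul_right_cancel (mul_right_cancel (mul_right_cancel (mul_right_cancel (mul_right_cancel (mul_right_cancel (h.trans h2.symm))))))))))))))))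
theorem e_630_y : r630 * y = r580 := by
  have h := relD r258
  simp only [e_258_x, e_347_y, e_447_y, e_547_y] at h
  have h2 : r580 * y * x * y * x * y * y * y * y * y * x * y * x * y * y * y * y * y * x * y = r258 := by simp only [e_580_y, e_654_x, e_690_y, e_260_x, e_186_y, e_261_y, e_351_y, e_452_y, e_84_y, e_127_x, e_185_y, e_259_x, e_184_y, e_19_y, e_32_y, e_53_y, e_83_y, e_126_x, e_183_y]
  exact (mul_right_cancel (mul_right_cancel (mul_right_cancel (mul_right_cancel (mul_right_cancel (mul_right_cancel (mul_right_cancel (mul_right_cancel (mul_right_cancel (mul_right_cancel (mul_right_cancel (mul_right_cancel (mul_right_cancel (mul_right_cancel (mul_right_cancel (mul_right_cancel (mul_right_cancel (mul_right_cancel (mul_right_cancel (h.trans h2.symm))))))))))))))))))))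
theorem e_267_x : r267 * x = r208 := by
  have h := relD r265
  simp only [e_265_x, e_355_y, e_459_y, e_560_y, e_642_y, e_694_y, e_266_x, e_190_y] at h
  have h2 : r208 * y * y * y * y * y * x * y * x * y * y * y * y * y * x * y = r265 := by simp only [e_208_y, e_289_y, e_383_y, e_487_y, e_97_y, e_144_x, e_207_y, e_288_x, e_206_y, e_22_y, e_37_y, e_61_y, e_96_y, e_143_x, e_189_y]
  exact (mul_right_cancel (mul_right_cancel (mul_right_cancel (mul_right_cancel (mul_right_cancel (mul_right_cancel (mul_right_cancel (mul_right_cancel (mul_right_cancel (mul_right_cancel (mul_right_cancel (mul_right_cancel (mul_right_cancel (mul_right_cancel (mul_right_cancel (h.trans h2.symm))))))))))))))))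
theorem e_292_x : r292 * x = r373 := by
  have h := relD r290
  simp only [e_290_x, e_384_y, e_488_y, e_586_y, e_659_y, e_705_y, e_291_x, e_210_y] at h
  have h2 : r373 * y * y * y * y * y * x * y * x * y * y * y * y * y * x * y = r290 := by simp only [e_373_y, e_477_y, e_578_y, e_653_y, e_200_y, e_281_x, e_372_y, e_476_x, e_371_y, e_58_y, e_91_y, e_137_y, e_199_y, e_280_x, e_209_y]
  exact (mul_right_cancel (mul_right_cancel (mul_right_cancel (mul_right_cancel (mul_right_cancel (mul_right_cancel (mul_right_cancel (mul_right_cancel (mul_right_cancel (mul_right_cancel (mul_right_cancel (mul_right_cancel (mul_right_cancel (mul_right_cancel (mul_right_cancel (h.trans h2.symm))))))))))))))))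
theorem e_507_x : r507 * x = r584 := by
  have h := relD r315
  simp only [e_315_x, e_404_y, e_508_y, e_104_y, e_155_y, e_222_y, e_307_x, e_403_y] at h
  have h2 : r584 * y * y * y * y * y * x * y * x * y * y * y * y * y * x * y = r315 := by simp only [e_584_y, e_657_y, e_204_y, e_286_y, e_380_y, e_484_x, e_385_y, e_489_x, e_394_y, e_497_y, e_101_y, e_150_y, e_216_y, e_300_x, e_230_y]
  exact (mul_right_cancel (mul_right_cancel (mul_right_cancel (mul_right_cancel (mul_right_cancel (mul_right_cancel (mul_right_cancel (mul_right_cancel (mul_right_cancel (mul_right_cancel (mul_right_cancel (mul_right_cancel (mul_right_cancel (mul_right_cancel (mul_right_cancel (h.trans h2.symm))))))))))))))))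
theorem e_509_x : r509 * x = r557 := by
  have h := relD r316
  simp only [e_316_x, e_406_y, e_510_y, e_605_y, e_156_y, e_223_y, e_308_x, e_405_y] at h
  have h2 : r557 * y * y * y * y * y * x * y * x * y * y * y * y * y * x * y = r316 := by simp only [e_557_y, e_128_y, e_187_y, e_263_y, e_353_y, e_456_x, e_361_y, e_464_x, e_396_y, e_499_y, e_595_y, e_151_y, e_217_y, e_302_x, e_231_y]
  exact (mul_right_cancel (mul_right_cancel (mul_right_cancel (mul_right_cancel (mul_right_cancel (mul_right_cancel (mul_right_cancel (mul_right_cancel (mul_right_cancel (mul_right_cancel (mul_right_cancel (mul_right_cancel (mul_right_cancel (mul_right_cancel (mul_right_cancel (h.trans h2.symm))))))))))))))))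
theorem e_561_y : r561 * y = r318 := by
  have h := relD r317
  simp only [e_317_x, e_409_y, e_514_y, e_607_y, e_159_y, e_227_y, e_311_x, e_389_y, e_493_x, e_562_y, e_130_y, e_190_y, e_267_y, e_356_y, e_460_x] at h
  have h2 : r318 * x * y * y * y * y * y * x * y = r317 := by simp only [e_318_x, e_233_y, e_319_y, e_417_y, e_520_y, e_110_y, e_164_x, e_232_y]
  exact (mul_right_cancel (mul_right_cancel (mul_right_cancel (mul_right_cancel (mul_right_cancel (mul_right_cancel (mul_right_cancel (mul_right_cancel (h.trans h2.symm)))))))))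
theorem e_416_y : r416 * y = r438 := by
  have h := relD r329
  simp only [e_329_x, e_417_y, e_520_y, e_110_y, e_164_y, e_233_y, e_319_x] at h
  have h2 : r438 * x * y * y * y * y * y * x * y * x * y * y * y * y * y * x * y = r329 := by simp only [e_438_x, e_340_y, e_439_y, e_540_y, e_625_y, e_180_y, e_253_x, e_246_y, e_335_x, e_252_y, e_52_y, e_51_y, e_81_y, e_123_y, e_179_x, e_242_y]
  exact (mul_right_cancel (mul_right_cancel (mul_right_cancel (mul_right_cancel (mul_right_cancel (mul_right_cancel (mul_right_cancel (mul_right_cancel (mul_right_cancel (mul_right_cancel (mul_right_cancel (mul_right_cancel (mul_right_cancel (mul_right_cancel (mul_right_cancel (mul_right_cancel (h.trans h2.symm)))))))))))))))))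
theorem e_479_x : r479 * x = r397 := by
  have h := relD r330
  simp only [e_330_x, e_419_y, e_522_y, e_612_y, e_676_y, e_234_y, e_320_x, e_418_y, e_521_x, e_569_y, e_134_y, e_196_y, e_274_y, e_365_y, e_469_x, e_375_y] at h
  have h2 : r397 * y * y * y * y * y * x * y = r330 := by simp only [e_397_y, e_500_y, e_596_y, e_153_y, e_218_y, e_303_x, e_243_y]
  exact (mul_right_cancel (mul_right_cancel (mul_right_cancel (mul_right_cancel (mul_right_cancel (mul_right_cancel (mul_right_cancel (h.trans h2.symm))))))))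
theorem e_556_x : r556 * x = r535 := by
  have h := relD r361
  simp only [e_361_x, e_456_y, e_557_y, e_128_y, e_187_y, e_263_y, e_353_x, e_455_y] at h
  have h2 : r535 * y * y * y * y * y * x * y * x * y * y * y * y * y * x * y = r361 := by simp only [e_535_y, e_621_y, e_172_y, e_245_y, e_334_y, e_432_x, e_339_y, e_437_x, e_446_y, e_546_y, e_125_y, e_182_y, e_257_y, e_346_x, e_271_y]
  exact (mul_right_cancel (mul_right_cancel (mul_right_cancel (mul_right_cancel (mul_right_cancel (mul_right_cancel (mul_right_cancel (mul_right_cancel (mul_right_cancel (mul_right_cancel (mul_right_cancel (mul_right_cancel (mul_right_cancel (mul_right_cancel (mul_right_cancel (h.trans h2.symm))))))))))))))))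
theorem e_558_x : r558 * x = r508 := by
  have h := relD r362
  simp only [e_362_x, e_458_y, e_559_y, e_641_y, e_188_y, e_264_y, e_354_x, e_457_y] at h
  have h2 : r508 * y * y * y * y * y * x * y * x * y * y * y * y * y * x * y = r362 := by simp only [e_508_y, e_104_y, e_155_y, e_222_y, e_307_y, e_404_x, e_315_y, e_412_x, e_448_y, e_548_y, e_631_y, e_183_y, e_258_y, e_348_x, e_272_y]
  exact (mul_right_cancel (mul_right_cancel (mul_right_cancel (mul_right_cancel (mul_right_cancel (mul_right_cancel (mul_right_cancel (mul_right_cancel (mul_right_cancel (mul_right_cancel (mul_right_cancel (mul_right_cancel (mul_right_cancel (mul_right_cancel (mul_right_cancel (h.trans h2.symm))))))))))))))))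
theorem e_512_y : r512 * y = r364 := by
  have h := relD r363
  simp only [e_363_x, e_461_y, e_563_y, e_643_y, e_191_y, e_268_y, e_357_x, e_441_y, e_542_x, e_513_y, e_106_y, e_158_y, e_226_y, e_310_y, e_408_x] at h
  have h2 : r364 * x * y * y * y * y * y * x * y = r363 := by simp only [e_364_x, e_274_y, e_365_y, e_469_y, e_569_y, e_134_y, e_196_x, e_273_y]
  exact (mul_right_cancel (mul_right_cancel (mul_right_cancel (mul_right_cancel (mul_right_cancel (mul_right_cancel (mul_right_cancel (mul_right_cancel (h.trans h2.symm)))))))))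
theorem e_468_y : r468 * y = r386 := by
  have h := relD r375
  simp only [e_375_x, e_469_y, e_569_y, e_134_y, e_196_y, e_274_y, e_365_x] at h
  have h2 : r386 * x * y * y * y * y * y * x * y * x * y * y * y * y * y * x * y = r375 := by simp only [e_386_x, e_294_y, e_387_y, e_491_y, e_589_y, e_148_y, e_212_x, e_287_y, e_381_x, e_293_y, e_40_y, e_63_y, e_99_y, e_147_y, e_211_x, e_283_y]
  exact (mul_right_cancel (mul_right_cancel (mul_right_cancel (mul_right_cancel (mul_right_cancel (mul_right_cancel (mul_right_cancel (mul_right_cancel (mul_right_cancel (mul_right_cancel (mul_right_cancel (mul_right_cancel (mul_right_cancel (mul_right_cancel (mul_right_cancel (mul_right_cancel (h.trans h2.symm)))))))))))))))))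
theorem e_427_x : r427 * x = r449 := by
  have h := relD r376
  simp only [e_376_x, e_471_y, e_571_y, e_648_y, e_699_y, e_275_y, e_366_x, e_470_y, e_570_x, e_520_y, e_110_y, e_164_y, e_233_y, e_319_y, e_417_x, e_329_y] at h
  have h2 : r449 * y * y * y * y * y * x * y = r376 := by simp only [e_449_y, e_549_y, e_632_y, e_185_y, e_259_y, e_349_x, e_284_y]
  exact (mul_right_cancel (mul_right_cancel (mul_right_cancel (mul_right_cancel (mul_right_cancel (mul_right_cancel (mul_right_cancel (h.trans h2.symm))))))))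
theorem e_494_x : r494 * x = r574 := by
  have h := relD r500
  simp only [e_500_x, e_592_y, e_663_y, e_708_y, e_296_y, e_390_y] at h
  have h2 : r574 * y * x * y * y * y * y * y * x * y * x * y * y * y * y * y * x * y = r500 := by simp only [e_574_y, e_136_x, e_91_y, e_137_y, e_199_y, e_280_y, e_371_y, e_58_x, e_36_y, e_59_x, e_92_y, e_138_y, e_201_y, e_283_y, e_375_y, e_479_x, e_397_y]
  exact (mul_right_cancel (mul_right_cancel (mul_right_cancel (mul_right_cancel (mul_right_cancel (mul_right_cancel (mul_right_cancel (mul_right_cancel (mul_right_cancel (mul_right_cancel (mul_right_cancel (mul_right_cancel (mul_right_cancel (mul_right_cancel (mul_right_cancel (mul_right_cancel (mul_right_cancel (h.trans h2.symm))))))))))))))))))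
theorem e_598_y : r598 * y = r516 := by
  have h := relD r510
  simp only [e_510_x, e_599_y, e_667_y, e_219_y, e_304_y, e_398_y, e_502_x] at h
  have h2 : r516 * x * y * y * y * y * y * x * y * x * y * y * y * y * y * x * y = r510 := by simp only [e_516_x, e_414_y, e_517_y, e_609_y, e_673_y, e_232_y, e_317_x, e_409_y, e_514_x, e_413_y, e_71_y, e_109_y, e_163_y, e_231_y, e_316_x, e_406_y]
  exact (mul_right_cancel (mul_right_cancel (mul_right_cancel (mul_right_cancel (mul_right_cancel (mul_right_cancel (mul_right_cancel (mul_right_cancel (mul_right_cancel (mul_right_cancel (mul_right_cancel (mul_right_cancel (mul_right_cancel (mul_right_cancel (mul_right_cancel (mul_right_cancel (h.trans h2.symm)))))))))))))))))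
theorem e_543_x : r543 * x = r525 := by
  have h := relD r549
  simp only [e_549_x, e_628_y, e_686_y, e_714_y, e_342_y, e_442_y] at h
  have h2 : r525 * y * x * y * y * y * y * y * x * y * x * y * y * y * y * y * x * y = r549 := by simp only [e_525_y, e_112_x, e_73_y, e_113_y, e_167_y, e_239_y, e_325_y, e_46_x, e_28_y, e_47_x, e_74_y, e_114_y, e_169_y, e_242_y, e_329_y, e_427_x, e_449_y]
  exact (mul_right_cancel (mul_right_cancel (mul_right_cancel (mul_right_cancel (mul_right_cancel (mul_right_cancel (mul_right_cancel (mul_right_cancel (mul_right_cancel (mul_right_cancel (mul_right_cancel (mul_right_cancel (mul_right_cancel (mul_right_cancel (mul_right_cancel (mul_right_cancel (mul_right_cancel (h.trans h2.symm))))))))))))))))))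
theorem e_634_y : r634 * y = r565 := by
  have h := relD r559
  simp only [e_559_x, e_635_y, e_690_y, e_260_y, e_350_y, e_450_y, e_551_x] at h
  have h2 : r565 * x * y * y * y * y * y * x * y * x * y * y * y * y * y * x * y = r559 := by simp only [e_565_x, e_466_y, e_566_y, e_645_y, e_696_y, e_273_y, e_363_x, e_461_y, e_563_x, e_465_y, e_89_y, e_133_y, e_195_y, e_272_y, e_362_x, e_458_y]
  exact (mul_right_cancel (mul_right_cancel (mul_right_cancel (mul_right_cancel (mul_right_cancel (mul_right_cancel (mul_right_cancel (mul_right_cancel (mul_right_cancel (mul_right_cancel (mul_right_cancel (mul_right_cancel (mul_right_cancel (mul_right_cancel (mul_right_cancel (mul_right_cancel (h.trans h2.symm)))))))))))))))))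
theorem e_532_x : r532 * x = r434 := by
  have h := relE r29
  simp only [e_29_x, e_48_y, e_76_y, e_117_y, e_171_y, e_244_x, e_331_y, e_429_y] at h
  have h2 : r434 * y * y * y * y * x * y * y = r29 := by simp only [e_434_y, e_536_y, e_622_y, e_175_y, e_247_x, e_174_y, e_17_y]
  exact (mul_right_cancel (mul_right_cancel (mul_right_cancel (mul_right_cancel (mul_right_cancel (mul_right_cancel (mul_right_cancel (h.trans h2.symm))))))))
theorem e_581_x : r581 * x = r486 := by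
  have h := relE r37
  simp only [e_37_x, e_60_y, e_94_y, e_141_y, e_203_y, e_285_x, e_377_y, e_481_y] at h
  have h2 : r486 * y * y * y * y * x * y * y = r37 := by simp only [e_486_y, e_585_y, e_658_y, e_207_y, e_288_x, e_206_y, e_22_y]
  exact (mul_right_cancel (mul_right_cancel (mul_right_cancel (mul_right_cancel (mul_right_cancel (mul_right_cancel (mul_right_cancel (h.trans h2.symm))))))))
theorem e_397_x : r397 * x = r479 := by
  have h := relE r40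
  simp only [e_40_x, e_24_y, e_41_y, e_65_y, e_102_y, e_152_x, e_218_y, e_303_y] at h
  have h2 : r479 * y * y * y * y * x * y * y = r40 := by simp only [e_479_y, e_92_y, e_138_y, e_201_y, e_283_x, e_211_y, e_293_y]
  exact (mul_right_cancel (mul_right_cancel (mul_right_cancel (mul_right_cancel (mul_right_cancel (mul_right_cancel (mul_right_cancel (h.trans h2.symm))))))))
theorem e_600_x : r600 * x = r511 := by
  have h := relE r42
  simp only [e_42_x, e_66_y, e_103_y, e_154_y, e_220_y, e_305_x, e_399_y, e_503_y] at h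
  have h2 : r511 * y * y * y * y * x * y * y = r42 := by simp only [e_511_y, e_606_y, e_671_y, e_225_y, e_309_x, e_224_y, e_25_y]
  exact (mul_right_cancel (mul_right_cancel (mul_right_cancel (mul_right_cancel (mul_right_cancel (mul_right_cancel (mul_right_cancel (h.trans h2.symm))))))))
theorem e_605_x : r605 * x = r523 := by
  have h := relE r45
  simp only [e_45_x, e_71_y, e_109_y, e_163_y, e_231_y, e_316_x, e_406_y, e_510_y] at h
  have h2 : r523 * y * y * y * y * x * y * y = r45 := by simp only [e_523_y, e_613_y, e_677_y, e_236_y, e_321_x, e_235_y, e_27_y]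
  exact (mul_right_cancel (mul_right_cancel (mul_right_cancel (mul_right_cancel (mul_right_cancel (mul_right_cancel (mul_right_cancel (h.trans h2.symm))))))))
theorem e_449_x : r449 * x = r427 := by
  have h := relE r52
  simp only [e_52_x, e_32_y, e_53_y, e_83_y, e_126_y, e_184_x, e_259_y, e_349_y] at h
  have h2 : r427 * y * y * y * y * x * y * y = r52 := by simp only [e_427_y, e_74_y, e_114_y, e_169_y, e_242_x, e_179_y, e_252_y]
  exact (mul_right_cancel (mul_right_cancel (mul_right_cancel (mul_right_cancel (mul_right_cancel (mul_right_cancel (mul_right_cancel (h.trans h2.symm))))))))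
theorem e_636_x : r636 * x = r560 := by
  have h := relE r54
  simp only [e_54_x, e_84_y, e_127_y, e_186_y, e_261_y, e_351_x, e_451_y, e_552_y] at h
  have h2 : r560 * y * y * y * y * x * y * y = r54 := by simp only [e_560_y, e_642_y, e_694_y, e_266_y, e_355_x, e_265_y, e_33_y]
  exact (mul_right_cancel (mul_right_cancel (mul_right_cancel (mul_right_cancel (mul_right_cancel (mul_right_cancel (mul_right_cancel (h.trans h2.symm))))))))
theorem e_641_x : r641 * x = r572 := by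
  have h := relE r57
  simp only [e_57_x, e_89_y, e_133_y, e_195_y, e_272_y, e_362_x, e_458_y, e_559_y] at h
  have h2 : r572 * y * y * y * y * x * y * y = r57 := by simp only [e_572_y, e_649_y, e_700_y, e_277_y, e_367_x, e_276_y, e_35_y]
  exact (mul_right_cancel (mul_right_cancel (mul_right_cancel (mul_right_cancel (mul_right_cancel (mul_right_cancel (mul_right_cancel (h.trans h2.symm))))))))
theorem e_697_y : r697 * y = r313 := by
  have h := relE r68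
  simp only [e_68_x, e_106_y, e_158_y, e_226_y, e_310_y, e_408_x, e_512_y, e_364_y, e_467_x, e_567_y, e_646_y] at h
  have h2 : r313 * y * x * y * y = r68 := by simp only [e_313_y, e_410_x, e_312_y, e_43_y]
  exact (mul_right_cancel (mul_right_cancel (mul_right_cancel (mul_right_cancel (h.trans h2.symm)))))
theorem e_523_x : r523 * x = r605 := by
  have h := relE r71
  simp only [e_71_x, e_45_y, e_72_y, e_111_y, e_165_y, e_235_x, e_321_y, e_420_y] at h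
  have h2 : r605 * y * y * y * y * x * y * y = r71 := by simp only [e_605_y, e_156_y, e_223_y, e_308_y, e_406_x, e_316_y, e_413_y]
  exact (mul_right_cancel (mul_right_cancel (mul_right_cancel (mul_right_cancel (mul_right_cancel (mul_right_cancel (mul_right_cancel (h.trans h2.symm))))))))
theorem e_537_x : r537 * x = r544 := by
  have h := relE r79
  simp only [e_79_x, e_50_y, e_80_y, e_121_y, e_177_y, e_249_x, e_338_y, e_436_y] at h
  have h2 : r544 * y * y * y * y * x * y * y = r79 := by simp only [e_544_y, e_629_y, e_688_y, e_256_y, e_344_x, e_337_y, e_435_y]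
  exact (mul_right_cancel (mul_right_cancel (mul_right_cancel (mul_right_cancel (mul_right_cancel (mul_right_cancel (mul_right_cancel (h.trans h2.symm))))))))
theorem e_674_y : r674 * y = r359 := by
  have h := relE r86
  simp only [e_86_x, e_130_y, e_190_y, e_267_y, e_356_y, e_460_x, e_561_y, e_318_y, e_415_x, e_518_y, e_610_y] at h
  have h2 : r359 * y * x * y * y = r86 := by simp only [e_359_y, e_462_x, e_358_y, e_55_y]
  exact (mul_right_cancel (mul_right_cancel (mul_right_cancel (mul_right_cancel (h.trans h2.symm)))))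
theorem e_572_x : r572 * x = r641 := by
  have h := relE r89
  simp only [e_89_x, e_57_y, e_90_y, e_135_y, e_197_y, e_276_x, e_367_y, e_472_y] at h
  have h2 : r641 * y * y * y * y * x * y * y = r89 := by simp only [e_641_y, e_188_y, e_264_y, e_354_y, e_458_x, e_362_y, e_465_y]
  exact (mul_right_cancel (mul_right_cancel (mul_right_cancel (mul_right_cancel (mul_right_cancel (mul_right_cancel (mul_right_cancel (h.trans h2.symm))))))))
theorem e_586_x : r586 * x = r495 := by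
  have h := relE r97
  simp only [e_97_x, e_62_y, e_98_y, e_145_y, e_209_y, e_290_x, e_384_y, e_488_y] at h
  have h2 : r495 * y * y * y * y * x * y * y = r97 := by simp only [e_495_y, e_593_y, e_665_y, e_215_y, e_298_x, e_383_y, e_487_y]
  exact (mul_right_cancel (mul_right_cancel (mul_right_cancel (mul_right_cancel (mul_right_cancel (mul_right_cancel (mul_right_cancel (h.trans h2.symm))))))))
theorem e_491_x : r491 * x = r585 := by
  have h := relE r100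
  simp only [e_100_x, e_148_y, e_212_y, e_294_y, e_387_y] at h
  have h2 : r585 * y * y * x * y * y * y * y * x * y * y = r100 := by simp only [e_585_y, e_658_y, e_207_x, e_144_y, e_208_y, e_289_y, e_383_y, e_487_x, e_391_y, e_64_y]
  exact (mul_right_cancel (mul_right_cancel (mul_right_cancel (mul_right_cancel (mul_right_cancel (mul_right_cancel (mul_right_cancel (mul_right_cancel (mul_right_cancel (mul_right_cancel (h.trans h2.symm)))))))))))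
theorem e_708_x : r708 * x = r668 := by
  have h := relE r103
  simp only [e_103_x, e_153_y, e_218_y, e_303_y, e_397_y, e_500_x, e_592_y, e_663_y] at h
  have h2 : r668 * y * y * y * y * x * y * y = r103 := by simp only [e_668_y, e_709_y, e_718_y, e_401_y, e_504_x, e_400_y, e_66_y]
  exact (mul_right_cancel (mul_right_cancel (mul_right_cancel (mul_right_cancel (mul_right_cancel (mul_right_cancel (mul_right_cancel (h.trans h2.symm))))))))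
theorem e_536_x : r536 * x = r540 := by
  have h := relE r120
  simp only [e_120_x, e_175_y, e_247_y, e_336_y, e_434_y] at h
  have h2 : r540 * y * y * x * y * y * y * y * x * y * y = r120 := by simp only [e_540_y, e_625_y, e_180_x, e_124_y, e_181_y, e_255_y, e_343_y, e_443_x, e_435_y, e_79_y]
  exact (mul_right_cancel (mul_right_cancel (mul_right_cancel (mul_right_cancel (mul_right_cancel (mul_right_cancel (mul_right_cancel (mul_right_cancel (mul_right_cancel (mul_right_cancel (h.trans h2.symm)))))))))))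
theorem e_540_x : r540 * x = r536 := by
  have h := relE r124
  simp only [e_124_x, e_180_y, e_253_y, e_340_y, e_439_y] at h
  have h2 : r536 * y * y * x * y * y * y * y * x * y * y = r124 := by simp only [e_536_y, e_622_y, e_175_x, e_120_y, e_176_y, e_248_y, e_337_y, e_435_x, e_443_y, e_82_y]
  exact (mul_right_cancel (mul_right_cancel (mul_right_cancel (mul_right_cancel (mul_right_cancel (mul_right_cancel (mul_right_cancel (mul_right_cancel (mul_right_cancel (mul_right_cancel (h.trans h2.symm)))))))))))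
theorem e_714_x : r714 * x = r691 := by
  have h := relE r127
  simp only [e_127_x, e_185_y, e_259_y, e_349_y, e_449_y, e_549_x, e_628_y, e_686_y] at h
  have h2 : r691 * y * y * y * y * x * y * y = r127 := by simp only [e_691_y, e_715_y, e_719_y, e_453_y, e_553_x, e_452_y, e_84_y]
  exact (mul_right_cancel (mul_right_cancel (mul_right_cancel (mul_right_cancel (mul_right_cancel (mul_right_cancel (mul_right_cancel (h.trans h2.symm))))))))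
theorem e_585_x : r585 * x = r491 := by
  have h := relE r144
  simp only [e_144_x, e_207_y, e_288_y, e_382_y, e_486_y] at h
  have h2 : r491 * y * y * x * y * y * y * y * x * y * y = r144 := by simp only [e_491_y, e_589_y, e_148_x, e_100_y, e_149_y, e_214_y, e_297_y, e_391_x, e_487_y, e_97_y]
  exact (mul_right_cancel (mul_right_cancel (mul_right_cancel (mul_right_cancel (mul_right_cancel (mul_right_cancel (mul_right_cancel (mul_right_cancel (mul_right_cancel (mul_right_cancel (h.trans h2.symm)))))))))))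
theorem e_668_x : r668 * x = r708 := by
  have h := relE r153
  simp only [e_153_x, e_103_y, e_154_y, e_220_y, e_305_y, e_400_x, e_504_y, e_601_y] at h
  have h2 : r708 * y * y * y * y * x * y * y = r153 := by simp only [e_708_y, e_296_y, e_390_y, e_494_y, e_592_x, e_500_y, e_596_y]
  exact (mul_right_cancel (mul_right_cancel (mul_right_cancel (mul_right_cancel (mul_right_cancel (mul_right_cancel (mul_right_cancel (h.trans h2.symm))))))))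
theorem e_570_y : r570 * y = r161 := by
  have h := relE r161
  simp only [e_161_x, e_108_y, e_162_y, e_230_y, e_315_y, e_412_x, e_448_y, e_548_y, e_631_x, e_571_y, e_648_y, e_699_y, e_275_y, e_366_x, e_470_y] at h
  exact h
theorem e_609_x : r609 * x = r646 := by
  have h := relE r164
  simp only [e_164_x, e_232_y, e_317_y, e_414_y, e_517_y] at h
  have h2 : r646 * y * y * x * y * y * y * y * x * y * y = r164 := by simp only [e_646_y, e_697_y, e_313_x, e_229_y, e_314_y, e_411_y, e_470_y, e_570_x, e_520_y, e_110_y]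
  exact (mul_right_cancel (mul_right_cancel (mul_right_cancel (mul_right_cancel (mul_right_cancel (mul_right_cancel (mul_right_cancel (mul_right_cancel (mul_right_cancel (mul_right_cancel (h.trans h2.symm)))))))))))
theorem e_675_y : r675 * y = r561 := by
  have h := relE r165
  simp only [e_165_x, e_234_y, e_320_y, e_419_y, e_522_y, e_612_x] at h
  have h2 : r561 * y * x * y * y * y * y * x * y * y = r165 := by simp only [e_561_y, e_318_x, e_233_y, e_319_y, e_417_y, e_520_y, e_110_x, e_72_y, e_111_y]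
  exact (mul_right_cancel (mul_right_cancel (mul_right_cancel (mul_right_cancel (mul_right_cancel (mul_right_cancel (mul_right_cancel (mul_right_cancel (mul_right_cancel (h.trans h2.symm))))))))))
theorem e_613_x : r613 * x = r624 := by
  have h := relE r166
  simp only [e_166_x, e_236_y, e_321_y, e_420_y, e_523_y] at h
  have h2 : r624 * y * y * x * y * y * y * y * x * y * y = r166 := by simp only [e_624_y, e_683_y, e_713_x, e_686_y, e_714_y, e_342_y, e_442_y, e_543_x, e_525_y, e_112_y]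
  exact (mul_right_cancel (mul_right_cancel (mul_right_cancel (mul_right_cancel (mul_right_cancel (mul_right_cancel (mul_right_cancel (mul_right_cancel (mul_right_cancel (mul_right_cancel (h.trans h2.symm)))))))))))
theorem e_623_x : r623 * x = r659 := by
  have h := relE r178
  simp only [e_178_x, e_250_y, e_338_y, e_436_y, e_537_y] at h
  have h2 : r659 * y * y * x * y * y * y * y * x * y * y = r178 := by simp only [e_659_y, e_705_y, e_291_x, e_210_y, e_292_y, e_385_y, e_489_y, e_587_x, e_538_y, e_122_y]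
  exact (mul_right_cancel (mul_right_cancel (mul_right_cancel (mul_right_cancel (mul_right_cancel (mul_right_cancel (mul_right_cancel (mul_right_cancel (mul_right_cancel (mul_right_cancel (h.trans h2.symm)))))))))))
theorem e_327_x : r327 * x = r251 := by
  have h := relE r179
  simp only [e_179_x, e_242_y, e_329_y, e_427_y, e_74_y, e_114_x, e_168_y, e_240_y] at h
  have h2 : r251 * y * y * y * y * x * y * y = r179 := by simp only [e_251_y, e_339_y, e_437_y, e_538_y, e_122_x, e_81_y, e_123_y]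
  exact (mul_right_cancel (mul_right_cancel (mul_right_cancel (mul_right_cancel (mul_right_cancel (mul_right_cancel (mul_right_cancel (h.trans h2.symm))))))))
theorem e_691_x : r691 * x = r714 := by
  have h := relE r185
  simp only [e_185_x, e_127_y, e_186_y, e_261_y, e_351_y, e_452_x, e_553_y, e_637_y] at h
  have h2 : r714 * y * y * y * y * x * y * y = r185 := by simp only [e_714_y, e_342_y, e_442_y, e_543_y, e_628_x, e_549_y, e_632_y]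
  exact (mul_right_cancel (mul_right_cancel (mul_right_cancel (mul_right_cancel (mul_right_cancel (mul_right_cancel (mul_right_cancel (h.trans h2.symm))))))))
theorem e_521_y : r521 * y = r193 := by
  have h := relE r193
  simp only [e_193_x, e_132_y, e_194_y, e_271_y, e_361_y, e_464_x, e_396_y, e_499_y, e_595_x, e_522_y, e_612_y, e_676_y, e_234_y, e_320_x, e_418_y] at h
  exact h
theorem e_645_x : r645 * x = r610 := by
  have h := relE r196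
  simp only [e_196_x, e_273_y, e_363_y, e_466_y, e_566_y] at h
  have h2 : r610 * y * y * x * y * y * y * y * x * y * y = r196 := by simp only [e_610_y, e_674_y, e_359_x, e_270_y, e_360_y, e_463_y, e_418_y, e_521_x, e_569_y, e_134_y]
  exact (mul_right_cancel (mul_right_cancel (mul_right_cancel (mul_right_cancel (mul_right_cancel (mul_right_cancel (mul_right_cancel (mul_right_cancel (mul_right_cancel (mul_right_cancel (h.trans h2.symm)))))))))))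
theorem e_698_y : r698 * y = r512 := by
  have h := relE r197
  simp only [e_197_x, e_275_y, e_366_y, e_471_y, e_571_y, e_648_x] at h
  have h2 : r512 * y * x * y * y * y * y * x * y * y = r197 := by simp only [e_512_y, e_364_x, e_274_y, e_365_y, e_469_y, e_569_y, e_134_x, e_90_y, e_135_y]
  exact (mul_right_cancel (mul_right_cancel (mul_right_cancel (mul_right_cancel (mul_right_cancel (mul_right_cancel (mul_right_cancel (mul_right_cancel (mul_right_cancel (h.trans h2.symm))))))))))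
theorem e_649_x : r649 * x = r588 := by
  have h := relE r198
  simp only [e_198_x, e_277_y, e_367_y, e_472_y, e_572_y] at h
  have h2 : r588 * y * y * x * y * y * y * y * x * y * y = r198 := by simp only [e_588_y, e_660_y, e_707_x, e_663_y, e_708_y, e_296_y, e_390_y, e_494_x, e_574_y, e_136_y]
  exact (mul_right_cancel (mul_right_cancel (mul_right_cancel (mul_right_cancel (mul_right_cancel (mul_right_cancel (mul_right_cancel (mul_right_cancel (mul_right_cancel (mul_right_cancel (h.trans h2.symm)))))))))))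
theorem e_659_x : r659 * x = r623 := by
  have h := relE r210
  simp only [e_210_x, e_291_y, e_384_y, e_488_y, e_586_y] at h
  have h2 : r623 * y * y * x * y * y * y * y * x * y * y = r210 := by simp only [e_623_y, e_682_y, e_250_x, e_178_y, e_251_y, e_339_y, e_437_y, e_538_x, e_587_y, e_146_y]
  exact (mul_right_cancel (mul_right_cancel (mul_right_cancel (mul_right_cancel (mul_right_cancel (mul_right_cancel (mul_right_cancel (mul_right_cancel (mul_right_cancel (mul_right_cancel (h.trans h2.symm)))))))))))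
theorem e_373_x : r373 * x = r292 := by
  have h := relE r211
  simp only [e_211_x, e_283_y, e_375_y, e_479_y, e_92_y, e_138_x, e_200_y, e_281_y] at h
  have h2 : r292 * y * y * y * y * x * y * y = r211 := by simp only [e_292_y, e_385_y, e_489_y, e_587_y, e_146_x, e_99_y, e_147_y]
  exact (mul_right_cancel (mul_right_cancel (mul_right_cancel (mul_right_cancel (mul_right_cancel (mul_right_cancel (mul_right_cancel (h.trans h2.symm))))))))
theorem e_707_y : r707 * y = r468 := by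
  have h := relE r214
  simp only [e_214_x, e_296_y, e_390_y, e_494_y, e_592_y, e_663_x] at h
  have h2 : r468 * y * x * y * y * y * y * x * y * y = r214 := by simp only [e_468_y, e_386_x, e_294_y, e_387_y, e_491_y, e_589_y, e_148_x, e_100_y, e_149_y]
  exact (mul_right_cancel (mul_right_cancel (mul_right_cancel (mul_right_cancel (mul_right_cancel (mul_right_cancel (mul_right_cancel (mul_right_cancel (mul_right_cancel (h.trans h2.symm))))))))))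
theorem e_619_x : r619 * x = r676 := by
  have h := relE r217
  simp only [e_217_x, e_301_y, e_395_y, e_498_y, e_594_y, e_531_x, e_429_y, e_532_y] at h
  have h2 : r676 * y * y * y * y * x * y * y = r217 := by simp only [e_676_y, e_234_y, e_320_y, e_419_y, e_522_x, e_595_y, e_151_y]
  exact (mul_right_cancel (mul_right_cancel (mul_right_cancel (mul_right_cancel (mul_right_cancel (mul_right_cancel (mul_right_cancel (h.trans h2.symm))))))))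
theorem e_392_x : r392 * x = r314 := by
  have h := relE r230
  simp only [e_230_x, e_300_y, e_394_y, e_497_y, e_101_y, e_150_x, e_215_y, e_298_y] at h
  have h2 : r314 * y * y * y * y * x * y * y = r230 := by simp only [e_314_y, e_411_y, e_470_y, e_570_y, e_161_x, e_108_y, e_162_y]
  exact (mul_right_cancel (mul_right_cancel (mul_right_cancel (mul_right_cancel (mul_right_cancel (mul_right_cancel (mul_right_cancel (h.trans h2.symm))))))))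
theorem e_681_x : r681 * x = r704 := by
  have h := relE r245
  simp only [e_245_x, e_333_y, e_430_y, e_533_y, e_620_y] at h
  have h2 : r704 * y * y * x * y * y * y * y * x * y * y = r245 := by simp only [e_704_y, e_717_y, e_379_x, e_286_y, e_380_y, e_484_y, e_584_y, e_657_x, e_621_y, e_172_y]
  exact (mul_right_cancel (mul_right_cancel (mul_right_cancel (mul_right_cancel (mul_right_cancel (mul_right_cancel (mul_right_cancel (mul_right_cancel (mul_right_cancel (mul_right_cancel (h.trans h2.symm)))))))))))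
theorem e_682_x : r682 * x = r697 := by
  have h := relE r249
  simp only [e_249_x, e_338_y, e_436_y, e_537_y, e_623_y] at h
  have h2 : r697 * y * y * x * y * y * y * y * x * y * y = r249 := by simp only [e_697_y, e_313_y, e_410_x, e_312_y, e_43_y, e_68_y, e_107_y, e_160_x, e_121_y, e_177_y]
  exact (mul_right_cancel (mul_right_cancel (mul_right_cancel (mul_right_cancel (mul_right_cancel (mul_right_cancel (mul_right_cancel (mul_right_cancel (mul_right_cancel (mul_right_cancel (h.trans h2.symm)))))))))))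
theorem e_713_y : r713 * y = r416 := by
  have h := relE r255
  simp only [e_255_x, e_342_y, e_442_y, e_543_y, e_628_y, e_686_x] at h
  have h2 : r416 * y * x * y * y * y * y * x * y * y = r255 := by simp only [e_416_y, e_438_x, e_340_y, e_439_y, e_540_y, e_625_y, e_180_x, e_124_y, e_181_y]
  exact (mul_right_cancel (mul_right_cancel (mul_right_cancel (mul_right_cancel (mul_right_cancel (mul_right_cancel (mul_right_cancel (mul_right_cancel (mul_right_cancel (h.trans h2.symm))))))))))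
theorem e_655_x : r655 * x = r699 := by
  have h := relE r258
  simp only [e_258_x, e_347_y, e_447_y, e_547_y, e_630_y, e_580_x, e_481_y, e_581_y] at h
  have h2 : r699 * y * y * y * y * x * y * y = r258 := by simp only [e_699_y, e_275_y, e_366_y, e_471_y, e_571_x, e_631_y, e_183_y]
  exact (mul_right_cancel (mul_right_cancel (mul_right_cancel (mul_right_cancel (mul_right_cancel (mul_right_cancel (mul_right_cancel (h.trans h2.symm))))))))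
theorem e_444_x : r444 * x = r360 := by
  have h := relE r271
  simp only [e_271_x, e_346_y, e_446_y, e_546_y, e_125_y, e_182_x, e_256_y, e_344_y] at h
  have h2 : r360 * y * y * y * y * x * y * y = r271 := by simp only [e_360_y, e_463_y, e_418_y, e_521_y, e_193_x, e_132_y, e_194_y]
  exact (mul_right_cancel (mul_right_cancel (mul_right_cancel (mul_right_cancel (mul_right_cancel (mul_right_cancel (mul_right_cancel (h.trans h2.symm))))))))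
theorem e_704_x : r704 * x = r681 := by
  have h := relE r286
  simp only [e_286_x, e_379_y, e_482_y, e_582_y, e_656_y] at h
  have h2 : r681 * y * y * x * y * y * y * y * x * y * y = r286 := by simp only [e_681_y, e_711_y, e_333_x, e_245_y, e_334_y, e_432_y, e_535_y, e_621_x, e_657_y, e_204_y]
  exact (mul_right_cancel (mul_right_cancel (mul_right_cancel (mul_right_cancel (mul_right_cancel (mul_right_cancel (mul_right_cancel (mul_right_cancel (mul_right_cancel (mul_right_cancel (h.trans h2.symm)))))))))))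
theorem e_705_x : r705 * x = r674 := by
  have h := relE r290
  simp only [e_290_x, e_384_y, e_488_y, e_586_y, e_659_y] at h
  have h2 : r674 * y * y * x * y * y * y * y * x * y * y = r290 := by simp only [e_674_y, e_359_y, e_462_x, e_358_y, e_55_y, e_86_y, e_131_y, e_192_x, e_145_y, e_209_y]
  exact (mul_right_cancel (mul_right_cancel (mul_right_cancel (mul_right_cancel (mul_right_cancel (mul_right_cancel (mul_right_cancel (mul_right_cancel (mul_right_cancel (mul_right_cancel (h.trans h2.symm)))))))))))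
theorem e_611_x : r611 * x = r665 := by
  have h := relE r298
  simp only [e_298_x, e_383_y, e_487_y, e_97_y, e_144_y, e_208_x, e_267_y, e_356_y, e_460_x, e_561_y, e_318_y, e_415_y, e_519_y] at h
  have h2 : r665 * y * y = r298 := by simp only [e_665_y, e_215_y]
  exact (mul_right_cancel (mul_right_cancel (h.trans h2.symm)))
theorem e_314_x : r314 * x = r392 := by
  have h := relE r300
  simp only [e_300_x, e_230_y, e_315_y, e_412_y, e_69_y, e_108_x, e_161_y, e_229_y] at h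
  have h2 : r392 * y * y * y * y * x * y * y = r300 := by simp only [e_392_y, e_495_y, e_593_y, e_665_y, e_215_x, e_150_y, e_216_y]
  exact (mul_right_cancel (mul_right_cancel (mul_right_cancel (mul_right_cancel (mul_right_cancel (mul_right_cancel (mul_right_cancel (h.trans h2.symm))))))))
theorem e_461_x : r461 * x = r363 := by
  have h := relE r317
  simp only [e_317_x, e_409_y, e_514_y, e_607_y, e_159_y, e_227_x, e_268_y, e_357_y] at h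
  have h2 : r363 * y * y * y * y * x * y * y = r317 := by simp only [e_363_y, e_466_y, e_566_y, e_645_y, e_696_x, e_673_y, e_232_y]
  exact (mul_right_cancel (mul_right_cancel (mul_right_cancel (mul_right_cancel (mul_right_cancel (mul_right_cancel (mul_right_cancel (h.trans h2.symm))))))))
theorem e_712_y : r712 * y = r598 := by
  have h := relE r319
  simp only [e_319_x, e_416_y, e_438_y, e_539_y, e_624_y, e_683_x] at h
  have h2 : r598 * y * x * y * y * y * y * x * y * y = r319 := by simp only [e_598_y, e_516_x, e_414_y, e_517_y, e_609_y, e_673_y, e_232_x, e_164_y, e_233_y]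
  exact (mul_right_cancel (mul_right_cancel (mul_right_cancel (mul_right_cancel (mul_right_cancel (mul_right_cancel (mul_right_cancel (mul_right_cancel (mul_right_cancel (h.trans h2.symm))))))))))
theorem e_711_x : r711 * x = r718 := by
  have h := relE r332
  simp only [e_332_x, e_430_y, e_533_y, e_620_y, e_681_y] at h
  have h2 : r718 * y * y * x * y * y * y * y * x * y * y = r332 := by simp only [e_718_y, e_401_y, e_504_x, e_400_y, e_66_y, e_103_y, e_154_y, e_220_x, e_171_y, e_244_y]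
  exact (mul_right_cancel (mul_right_cancel (mul_right_cancel (mul_right_cancel (mul_right_cancel (mul_right_cancel (mul_right_cancel (mul_right_cancel (mul_right_cancel (mul_right_cancel (h.trans h2.symm)))))))))))
theorem e_337_x : r337 * x = r344 := by
  have h := relE r337
  have h2 : r344 * y * y * y * y * x * y * y * x * y * y * y * y * x * y * y = r337 := by simp only [e_344_y, e_444_y, e_544_y, e_629_y, e_688_x, e_647_y, e_698_y, e_512_x, e_408_y, e_513_y, e_106_y, e_158_y, e_226_x, e_176_y, e_248_y]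
  exact (mul_right_cancel (mul_right_cancel (mul_right_cancel (mul_right_cancel (mul_right_cancel (mul_right_cancel (mul_right_cancel (mul_right_cancel (mul_right_cancel (mul_right_cancel (mul_right_cancel (mul_right_cancel (mul_right_cancel (mul_right_cancel (mul_right_cancel (h.trans h2.symm))))))))))))))))
theorem e_647_x : r647 * x = r688 := by
  have h := relE r344
  simp only [e_344_x, e_337_y, e_435_y, e_79_y, e_120_y, e_176_x, e_226_y, e_310_y, e_408_x, e_512_y, e_364_y, e_467_y, e_568_y] at h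
  have h2 : r688 * y * y = r344 := by simp only [e_688_y, e_256_y]
  exact (mul_right_cancel (mul_right_cancel (h.trans h2.symm)))
theorem e_360_x : r360 * x = r444 := by
  have h := relE r346
  simp only [e_346_x, e_271_y, e_361_y, e_464_y, e_87_y, e_132_x, e_193_y, e_270_y] at h
  have h2 : r444 * y * y * y * y * x * y * y = r346 := by simp only [e_444_y, e_544_y, e_629_y, e_688_y, e_256_x, e_182_y, e_257_y]
  exact (mul_right_cancel (mul_right_cancel (mul_right_cancel (mul_right_cancel (mul_right_cancel (mul_right_cancel (mul_right_cancel (h.trans h2.symm))))))))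
theorem e_409_x : r409 * x = r317 := by
  have h := relE r363
  simp only [e_363_x, e_461_y, e_563_y, e_643_y, e_191_y, e_268_x, e_227_y, e_311_y] at h
  have h2 : r317 * y * y * y * y * x * y * y = r363 := by simp only [e_317_y, e_414_y, e_517_y, e_609_y, e_673_x, e_696_y, e_273_y]
  exact (mul_right_cancel (mul_right_cancel (mul_right_cancel (mul_right_cancel (mul_right_cancel (mul_right_cancel (mul_right_cancel (h.trans h2.symm))))))))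
theorem e_706_y : r706 * y = r634 := by
  have h := relE r365
  simp only [e_365_x, e_468_y, e_386_y, e_490_y, e_588_y, e_660_x] at h
  have h2 : r634 * y * x * y * y * y * y * x * y * y = r365 := by simp only [e_634_y, e_565_x, e_466_y, e_566_y, e_645_y, e_696_y, e_273_x, e_196_y, e_274_y]
  exact (mul_right_cancel (mul_right_cancel (mul_right_cancel (mul_right_cancel (mul_right_cancel (mul_right_cancel (mul_right_cancel (mul_right_cancel (mul_right_cancel (h.trans h2.symm))))))))))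
theorem e_664_y : r664 * y = r377 := by
  have h := relE r366
  simp only [e_366_x, e_470_y, e_570_y, e_161_y, e_229_y, e_314_x, e_392_y, e_495_y, e_593_x] at h
  have h2 : r377 * y * y * y * x * y * y = r366 := by simp only [e_377_y, e_481_y, e_581_y, e_655_x, e_699_y, e_275_y]
  exact (mul_right_cancel (mul_right_cancel (mul_right_cancel (mul_right_cancel (mul_right_cancel (mul_right_cancel (h.trans h2.symm)))))))
theorem e_717_x : r717 * x = r719 := by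
  have h := relE r378
  simp only [e_378_x, e_482_y, e_582_y, e_656_y, e_704_y] at h
  have h2 : r719 * y * y * x * y * y * y * y * x * y * y = r378 := by simp only [e_719_y, e_453_y, e_553_x, e_452_y, e_84_y, e_127_y, e_186_y, e_261_x, e_203_y, e_285_y]
  exact (mul_right_cancel (mul_right_cancel (mul_right_cancel (mul_right_cancel (mul_right_cancel (mul_right_cancel (mul_right_cancel (mul_right_cancel (mul_right_cancel (mul_right_cancel (h.trans h2.symm)))))))))))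
theorem e_383_x : r383 * x = r298 := by
  have h := relE r383
  have h2 : r298 * y * y * y * y * x * y * y * x * y * y * y * y * x * y * y = r383 := by simp only [e_298_y, e_392_y, e_495_y, e_593_y, e_665_x, e_611_y, e_675_y, e_561_x, e_460_y, e_562_y, e_130_y, e_190_y, e_267_x, e_208_y, e_289_y]
  exact (mul_right_cancel (mul_right_cancel (mul_right_cancel (mul_right_cancel (mul_right_cancel (mul_right_cancel (mul_right_cancel (mul_right_cancel (mul_right_cancel (mul_right_cancel (mul_right_cancel (mul_right_cancel (mul_right_cancel (mul_right_cancel (mul_right_cancel (h.trans h2.symm))))))))))))))))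
theorem e_287_x : r287 * x = r212 := by
  have h := relE r387
  simp only [e_387_x, e_310_y, e_408_y, e_513_y, e_106_y, e_158_x, e_225_y, e_309_y, e_407_x, e_485_y, e_95_y, e_142_y, e_205_y] at h
  have h2 : r212 * y * y = r387 := by simp only [e_212_y, e_294_y]
  exact (mul_right_cancel (mul_right_cancel (h.trans h2.symm)))
theorem e_574_x : r574 * x = r494 := by
  have h := relE r391
  simp only [e_391_x, e_487_y, e_97_y, e_144_y, e_208_y, e_289_x, e_369_y, e_474_y] at h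
  have h2 : r494 * y * y * y * y * x * y * y = r391 := by simp only [e_494_y, e_592_y, e_663_y, e_708_y, e_296_x, e_214_y, e_297_y]
  exact (mul_right_cancel (mul_right_cancel (mul_right_cancel (mul_right_cancel (mul_right_cancel (mul_right_cancel (mul_right_cancel (h.trans h2.symm))))))))
theorem e_547_x : r547 * x = r497 := by
  have h := relE r412
  simp only [e_412_x, e_448_y, e_548_y, e_631_y, e_183_y, e_258_x, e_347_y, e_447_y] at h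
  have h2 : r497 * y * y * y * y * x * y * y = r412 := by simp only [e_497_y, e_101_y, e_150_y, e_216_y, e_300_x, e_230_y, e_315_y]
  exact (mul_right_cancel (mul_right_cancel (mul_right_cancel (mul_right_cancel (mul_right_cancel (mul_right_cancel (mul_right_cancel (h.trans h2.symm))))))))
theorem e_710_y : r710 * y = r712 := by
  have h := relE r414
  simp only [e_414_x, e_516_y, e_608_y, e_672_y] at h
  have h2 : r712 * x * y * y * x * y * y * y * y * x * y * y = r414 := by simp only [e_712_x, e_683_y, e_713_y, e_416_x, e_319_y, e_417_y, e_520_y, e_110_y, e_164_x, e_232_y, e_317_y]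
  exact (mul_right_cancel (mul_right_cancel (mul_right_cancel (mul_right_cancel (mul_right_cancel (mul_right_cancel (mul_right_cancel (mul_right_cancel (mul_right_cancel (mul_right_cancel (mul_right_cancel (h.trans h2.symm))))))))))))
theorem e_426_x : r426 * x = r519 := by
  have h := relE r417
  simp only [e_417_x, e_329_y, e_427_y, e_74_y, e_114_y, e_169_x, e_241_y, e_328_y] at h
  have h2 : r519 * y * y * y * y * x * y * y = r417 := by simp only [e_519_y, e_611_y, e_675_y, e_561_y, e_318_x, e_233_y, e_319_y]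
  exact (mul_right_cancel (mul_right_cancel (mul_right_cancel (mul_right_cancel (mul_right_cancel (mul_right_cancel (mul_right_cancel (h.trans h2.symm))))))))
theorem e_545_x : r545 * x = r529 := by
  have h := relE r437
  simp only [e_437_x, e_446_y, e_546_y, e_125_y, e_182_y, e_257_x, e_345_y, e_445_y] at h
  have h2 : r529 * y * y * y * y * x * y * y = r437 := by simp only [e_529_y, e_617_y, e_168_y, e_240_y, e_327_x, e_251_y, e_339_y]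
  exact (mul_right_cancel (mul_right_cancel (mul_right_cancel (mul_right_cancel (mul_right_cancel (mul_right_cancel (mul_right_cancel (h.trans h2.symm))))))))
theorem e_246_x : r246 * x = r253 := by
  have h := relE r439
  simp only [e_439_x, e_356_y, e_460_y, e_562_y, e_130_y, e_190_x, e_266_y, e_355_y, e_459_x, e_433_y, e_77_y, e_118_y, e_173_y] at h
  have h2 : r253 * y * y = r439 := by simp only [e_253_y, e_340_y]
  exact (mul_right_cancel (mul_right_cancel (h.trans h2.symm)))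
theorem e_525_x : r525 * x = r543 := by
  have h := relE r443
  simp only [e_443_x, e_435_y, e_79_y, e_120_y, e_176_y, e_248_x, e_323_y, e_422_y] at h
  have h2 : r543 * y * y * y * y * x * y * y = r443 := by simp only [e_543_y, e_628_y, e_686_y, e_714_y, e_342_x, e_255_y, e_343_y]
  exact (mul_right_cancel (mul_right_cancel (mul_right_cancel (mul_right_cancel (mul_right_cancel (mul_right_cancel (mul_right_cancel (h.trans h2.symm))))))))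
theorem e_498_x : r498 * x = r546 := by
  have h := relE r464
  simp only [e_464_x, e_396_y, e_499_y, e_595_y, e_151_y, e_217_x, e_301_y, e_395_y] at h
  have h2 : r546 * y * y * y * y * x * y * y = r464 := by simp only [e_546_y, e_125_y, e_182_y, e_257_y, e_346_x, e_271_y, e_361_y]
  exact (mul_right_cancel (mul_right_cancel (mul_right_cancel (mul_right_cancel (mul_right_cancel (mul_right_cancel (mul_right_cancel (h.trans h2.symm))))))))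
theorem e_716_y : r716 * y = r706 := by
  have h := relE r466
  simp only [e_466_x, e_565_y, e_644_y, e_695_y] at h
  have h2 : r706 * x * y * y * x * y * y * y * y * x * y * y = r466 := by simp only [e_706_x, e_660_y, e_707_y, e_468_x, e_365_y, e_469_y, e_569_y, e_134_y, e_196_x, e_273_y, e_363_y]
  exact (mul_right_cancel (mul_right_cancel (mul_right_cancel (mul_right_cancel (mul_right_cancel (mul_right_cancel (mul_right_cancel (mul_right_cancel (mul_right_cancel (mul_right_cancel (mul_right_cancel (h.trans h2.symm))))))))))))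
theorem e_478_x : r478 * x = r568 := by
  have h := relE r469
  simp only [e_469_x, e_375_y, e_479_y, e_92_y, e_138_y, e_201_x, e_282_y, e_374_y] at h
  have h2 : r568 * y * y * y * y * x * y * y = r469 := by simp only [e_568_y, e_647_y, e_698_y, e_512_y, e_364_x, e_274_y, e_365_y]
  exact (mul_right_cancel (mul_right_cancel (mul_right_cancel (mul_right_cancel (mul_right_cancel (mul_right_cancel (mul_right_cancel (h.trans h2.symm))))))))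
theorem e_654_y : r654 * y = r347 := by
  have h := relE r481
  simp only [e_481_x, e_580_y] at h
  have h2 : r347 * y * y * x * y * y * x * y * y * y * y * x * y * y = r481 := by simp only [e_347_y, e_447_y, e_547_x, e_497_y, e_101_y, e_150_x, e_215_y, e_298_y, e_392_y, e_495_y, e_593_x, e_664_y, e_377_y]
  exact (mul_right_cancel (mul_right_cancel (mul_right_cancel (mul_right_cancel (mul_right_cancel (mul_right_cancel (mul_right_cancel (mul_right_cancel (mul_right_cancel (mul_right_cancel (mul_right_cancel (mul_right_cancel (mul_right_cancel (h.trans h2.symm))))))))))))))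
theorem e_496_x : r496 * x = r578 := by
  have h := relE r489
  simp only [e_489_x, e_394_y, e_497_y, e_101_y, e_150_y, e_216_x, e_299_y, e_393_y] at h
  have h2 : r578 * y * y * y * y * x * y * y = r489 := by simp only [e_578_y, e_653_y, e_200_y, e_281_y, e_373_x, e_292_y, e_385_y]
  exact (mul_right_cancel (mul_right_cancel (mul_right_cancel (mul_right_cancel (mul_right_cancel (mul_right_cancel (mul_right_cancel (h.trans h2.symm))))))))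
theorem e_495_x : r495 * x = r586 := by
  have h := relE r495
  have h2 : r586 * y * y * y * y * x * y * y * x * y * y * y * y * x * y * y = r495 := by simp only [e_586_y, e_659_y, e_705_y, e_291_y, e_384_x, e_290_y, e_38_y, e_62_x, e_97_y, e_144_y, e_208_y, e_289_y, e_383_x, e_298_y, e_392_y]
  exact (mul_right_cancel (mul_right_cancel (mul_right_cancel (mul_right_cancel (mul_right_cancel (mul_right_cancel (mul_right_cancel (mul_right_cancel (mul_right_cancel (mul_right_cancel (mul_right_cancel (mul_right_cancel (mul_right_cancel (mul_right_cancel (mul_right_cancel (h.trans h2.symm))))))))))))))))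
theorem e_497_x : r497 * x = r547 := by
  have h := relE r497
  have h2 : r547 * y * y * y * y * x * y * y * x * y * y * y * y * x * y * y = r497 := by simp only [e_547_y, e_630_y, e_580_y, e_654_y, e_347_x, e_258_y, e_348_y, e_448_x, e_412_y, e_69_y, e_108_y, e_162_y, e_230_x, e_300_y, e_394_y]
  exact (mul_right_cancel (mul_right_cancel (mul_right_cancel (mul_right_cancel (mul_right_cancel (mul_right_cancel (mul_right_cancel (mul_right_cancel (mul_right_cancel (mul_right_cancel (mul_right_cancel (mul_right_cancel (mul_right_cancel (mul_right_cancel (mul_right_cancel (h.trans h2.symm))))))))))))))))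
theorem e_710_x : r710 * x = r716 := by
  have h := relE r502
  simp only [e_502_x, e_598_y, e_516_y, e_608_y, e_672_y] at h
  have h2 : r716 * y * y * x * y * y * y * y * x * y * y = r502 := by simp only [e_716_y, e_706_y, e_634_x, e_551_y, e_635_y, e_690_y, e_260_y, e_350_x, e_304_y, e_398_y]
  exact (mul_right_cancel (mul_right_cancel (mul_right_cancel (mul_right_cancel (mul_right_cancel (mul_right_cancel (mul_right_cancel (mul_right_cancel (mul_right_cancel (mul_right_cancel (h.trans h2.symm)))))))))))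
theorem e_506_x : r506 * x = r411 := by
  have h := relE r506
  have h2 : r411 * y * y * y * y * x * y * y * x * y * y * y * y * x * y * y = r506 := by simp only [e_411_y, e_470_y, e_570_y, e_161_y, e_229_x, e_313_y, e_410_y, e_515_x, e_601_y, e_668_y, e_709_y, e_718_y, e_401_x, e_306_y, e_402_y]
  exact (mul_right_cancel (mul_right_cancel (mul_right_cancel (mul_right_cancel (mul_right_cancel (mul_right_cancel (mul_right_cancel (mul_right_cancel (mul_right_cancel (mul_right_cancel (mul_right_cancel (mul_right_cancel (mul_right_cancel (mul_right_cancel (mul_right_cancel (h.trans h2.symm))))))))))))))))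
theorem e_626_x : r626 * x = r589 := by
  have h := relE r513
  simp only [e_513_x, e_542_y, e_627_y, e_685_y, e_254_y, e_341_x, e_440_y, e_541_y] at h
  have h2 : r589 * y * y * y * y * x * y * y = r513 := by simp only [e_589_y, e_148_y, e_212_y, e_294_y, e_387_x, e_310_y, e_408_y]
  exact (mul_right_cancel (mul_right_cancel (mul_right_cancel (mul_right_cancel (mul_right_cancel (mul_right_cancel (mul_right_cancel (h.trans h2.symm))))))))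
theorem e_564_y : r564 * y = r518 := by
  have h := relE r518
  simp only [e_518_x, e_415_y, e_519_y, e_611_y, e_675_y, e_561_x, e_460_y, e_562_y, e_130_x, e_86_y, e_131_y, e_192_y, e_269_y, e_358_x, e_462_y] at h
  exact h
theorem e_624_x : r624 * x = r613 := by
  have h := relE r536
  simp only [e_536_x, e_540_y, e_625_y, e_180_y, e_253_y, e_340_x, e_438_y, e_539_y] at h
  have h2 : r613 * y * y * y * y * x * y * y = r536 := by simp only [e_613_y, e_677_y, e_236_y, e_321_y, e_420_x, e_336_y, e_434_y]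
  exact (mul_right_cancel (mul_right_cancel (mul_right_cancel (mul_right_cancel (mul_right_cancel (mul_right_cancel (mul_right_cancel (h.trans h2.symm))))))))
theorem e_544_x : r544 * x = r537 := by
  have h := relE r544
  have h2 : r537 * y * y * y * y * x * y * y * x * y * y * y * y * x * y * y = r544 := by simp only [e_537_y, e_623_y, e_682_y, e_250_y, e_338_x, e_249_y, e_30_y, e_50_x, e_79_y, e_120_y, e_176_y, e_248_y, e_337_x, e_344_y, e_444_y]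
  exact (mul_right_cancel (mul_right_cancel (mul_right_cancel (mul_right_cancel (mul_right_cancel (mul_right_cancel (mul_right_cancel (mul_right_cancel (mul_right_cancel (mul_right_cancel (mul_right_cancel (mul_right_cancel (mul_right_cancel (mul_right_cancel (mul_right_cancel (h.trans h2.symm))))))))))))))))
theorem e_716_x : r716 * x = r710 := by
  have h := relE r551
  simp only [e_551_x, e_634_y, e_565_y, e_644_y, e_695_y] at h
  have h2 : r710 * y * y * x * y * y * y * y * x * y * y = r551 := by simp only [e_710_y, e_712_y, e_598_x, e_502_y, e_599_y, e_667_y, e_219_y, e_304_x, e_350_y, e_450_y]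
  exact (mul_right_cancel (mul_right_cancel (mul_right_cancel (mul_right_cancel (mul_right_cancel (mul_right_cancel (mul_right_cancel (mul_right_cancel (mul_right_cancel (mul_right_cancel (h.trans h2.symm)))))))))))
theorem e_555_x : r555 * x = r463 := by
  have h := relE r555
  have h2 : r463 * y * y * y * y * x * y * y * x * y * y * y * y * x * y * y = r555 := by simp only [e_463_y, e_418_y, e_521_y, e_193_y, e_270_x, e_359_y, e_462_y, e_564_x, e_637_y, e_691_y, e_715_y, e_719_y, e_453_x, e_352_y, e_454_y]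
  exact (mul_right_cancel (mul_right_cancel (mul_right_cancel (mul_right_cancel (mul_right_cancel (mul_right_cancel (mul_right_cancel (mul_right_cancel (mul_right_cancel (mul_right_cancel (mul_right_cancel (mul_right_cancel (mul_right_cancel (mul_right_cancel (mul_right_cancel (h.trans h2.symm))))))))))))))))
theorem e_590_x : r590 * x = r625 := by
  have h := relE r562
  simp only [e_562_x, e_493_y, e_591_y, e_662_y, e_213_y, e_295_x, e_388_y, e_492_y] at h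
  have h2 : r625 * y * y * y * y * x * y * y = r562 := by simp only [e_625_y, e_180_y, e_253_y, e_340_y, e_439_x, e_356_y, e_460_y]
  exact (mul_right_cancel (mul_right_cancel (mul_right_cancel (mul_right_cancel (mul_right_cancel (mul_right_cancel (mul_right_cancel (h.trans h2.symm))))))))
theorem e_515_y : r515 * y = r567 := by
  have h := relE r567
  simp only [e_567_x, e_467_y, e_568_y, e_647_y, e_698_y, e_512_x, e_408_y, e_513_y, e_106_x, e_68_y, e_107_y, e_160_y, e_228_y, e_312_x, e_410_y] at h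
  exact h
theorem e_703_y : r703 * y = r664 := by
  have h := relE r580
  simp only [e_580_x, e_481_y, e_581_y, e_655_y] at h
  have h2 : r664 * x * y * y * x * y * y * y * y * x * y * y = r580 := by simp only [e_664_x, e_593_y, e_665_y, e_215_x, e_150_y, e_216_y, e_300_y, e_394_y, e_497_x, e_547_y, e_630_y]
  exact (mul_right_cancel (mul_right_cancel (mul_right_cancel (mul_right_cancel (mul_right_cancel (mul_right_cancel (mul_right_cancel (mul_right_cancel (mul_right_cancel (mul_right_cancel (mul_right_cancel (h.trans h2.symm))))))))))))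
theorem e_588_x : r588 * x = r649 := by
  have h := relE r585
  simp only [e_585_x, e_491_y, e_589_y, e_148_y, e_212_y, e_294_x, e_386_y, e_490_y] at h
  have h2 : r649 * y * y * y * y * x * y * y = r585 := by simp only [e_649_y, e_700_y, e_277_y, e_367_y, e_472_x, e_382_y, e_486_y]
  exact (mul_right_cancel (mul_right_cancel (mul_right_cancel (mul_right_cancel (mul_right_cancel (mul_right_cancel (mul_right_cancel (h.trans h2.symm))))))))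
theorem e_709_x : r709 * x = r672 := by
  have h := relE r609
  simp only [e_609_x, e_646_y, e_697_y, e_313_y, e_410_y, e_515_x, e_601_y, e_668_y] at h
  have h2 : r672 * y * y * y * y * x * y * y = r609 := by simp only [e_672_y, e_710_y, e_712_y, e_598_y, e_516_x, e_414_y, e_517_y]
  exact (mul_right_cancel (mul_right_cancel (mul_right_cancel (mul_right_cancel (mul_right_cancel (mul_right_cancel (mul_right_cancel (h.trans h2.symm))))))))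
theorem e_687_y : r687 * y = r331 := by
  have h := relE r629
  simp only [e_629_x] at h
  have h2 : r331 * y * y * y * x * y * y * x * y * y * y * y * x * y * y = r629 := by simp only [e_331_y, e_429_y, e_532_y, e_619_x, e_676_y, e_234_y, e_320_x, e_418_y, e_521_y, e_193_y, e_270_y, e_360_x, e_444_y, e_544_y]
  exact (mul_right_cancel (mul_right_cancel (mul_right_cancel (mul_right_cancel (mul_right_cancel (mul_right_cancel (mul_right_cancel (mul_right_cancel (mul_right_cancel (mul_right_cancel (mul_right_cancel (mul_right_cancel (mul_right_cancel (mul_right_cancel (h.trans h2.symm)))))))))))))))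
theorem e_715_x : r715 * x = r695 := by
  have h := relE r645
  simp only [e_645_x, e_610_y, e_674_y, e_359_y, e_462_y, e_564_x, e_637_y, e_691_y] at h
  have h2 : r695 * y * y * y * y * x * y * y = r645 := by simp only [e_695_y, e_716_y, e_706_y, e_634_y, e_565_x, e_466_y, e_566_y]
  exact (mul_right_cancel (mul_right_cancel (mul_right_cancel (mul_right_cancel (mul_right_cancel (mul_right_cancel (mul_right_cancel (h.trans h2.symm))))))))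
theorem e_699_x : r699 * x = r655 := by
  have h := relE r664
  simp only [e_664_x, e_593_y, e_665_y, e_215_y, e_298_y, e_392_x, e_314_y, e_411_y, e_470_x, e_366_y, e_471_y, e_571_y, e_648_y] at h
  have h2 : r655 * y * y = r664 := by simp only [e_655_y, e_703_y]
  exact (mul_right_cancel (mul_right_cancel (h.trans h2.symm)))
theorem e_674_x : r674 * x = r705 := by
  have h := relE r665
  simp only [e_665_x, e_611_y, e_675_y, e_561_y, e_318_y, e_415_x, e_518_y, e_610_y] at h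
  have h2 : r705 * y * y * y * y * x * y * y = r665 := by simp only [e_705_y, e_291_y, e_384_y, e_488_y, e_586_x, e_495_y, e_593_y]
  exact (mul_right_cancel (mul_right_cancel (mul_right_cancel (mul_right_cancel (mul_right_cancel (mul_right_cancel (mul_right_cancel (h.trans h2.symm))))))))
theorem e_697_x : r697 * x = r682 := by
  have h := relE r688
  simp only [e_688_x, e_647_y, e_698_y, e_512_y, e_364_y, e_467_x, e_567_y, e_646_y] at h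
  have h2 : r682 * y * y * y * y * x * y * y = r688 := by simp only [e_682_y, e_250_y, e_338_y, e_436_y, e_537_x, e_544_y, e_629_y]
  exact (mul_right_cancel (mul_right_cancel (mul_right_cancel (mul_right_cancel (mul_right_cancel (mul_right_cancel (mul_right_cancel (h.trans h2.symm))))))))
theorem e_527_x : r527 * x = r428 := by
  have h := relF r28
  simp only [e_28_x, e_46_y, e_73_y, e_113_y, e_167_x, e_238_y, e_324_y, e_423_y] at h
  have h2 : r428 * y * y * y * x * y * y * y = r28 := by simp only [e_428_y, e_530_y, e_116_y, e_170_x, e_115_y, e_9_y, e_16_y]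
  exact (mul_right_cancel (mul_right_cancel (mul_right_cancel (mul_right_cancel (mul_right_cancel (mul_right_cancel (mul_right_cancel (h.trans h2.symm))))))))
theorem e_576_x : r576 * x = r480 := by
  have h := relF r36
  simp only [e_36_x, e_58_y, e_91_y, e_137_y, e_199_x, e_279_y, e_370_y, e_475_y] at h
  have h2 : r480 * y * y * y * x * y * y * y = r36 := by simp only [e_480_y, e_579_y, e_140_y, e_202_x, e_139_y, e_12_y, e_21_y]
  exact (mul_right_cancel (mul_right_cancel (mul_right_cancel (mul_right_cancel (mul_right_cancel (mul_right_cancel (mul_right_cancel (h.trans h2.symm))))))))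
theorem e_670_x : r670 * x = r606 := by
  have h := relF r67
  simp only [e_67_x, e_104_y, e_155_y, e_222_y, e_307_x, e_403_y, e_507_y, e_603_y] at h
  have h2 : r606 * y * y * y * x * y * y * y = r67 := by simp only [e_606_y, e_671_y, e_225_y, e_309_x, e_224_y, e_25_y, e_42_y]
  exact (mul_right_cancel (mul_right_cancel (mul_right_cancel (mul_right_cancel (mul_right_cancel (mul_right_cancel (mul_right_cancel (h.trans h2.symm))))))))
theorem e_693_x : r693 * x = r642 := by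
  have h := relF r85
  simp only [e_85_x, e_128_y, e_187_y, e_263_y, e_353_x, e_455_y, e_556_y, e_639_y] at h
  have h2 : r642 * y * y * y * x * y * y * y = r85 := by simp only [e_642_y, e_694_y, e_266_y, e_355_x, e_265_y, e_33_y, e_54_y]
  exact (mul_right_cancel (mul_right_cancel (mul_right_cancel (mul_right_cancel (mul_right_cancel (mul_right_cancel (mul_right_cancel (h.trans h2.symm))))))))
theorem e_478_y : r478 * y = r399 := by
  have h := relF r103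
  simp only [e_103_x, e_153_y, e_218_y, e_303_y, e_397_x, e_479_y, e_92_y, e_138_y, e_201_x, e_282_y, e_374_y] at h
  have h2 : r399 * x * y * y * y = r103 := by simp only [e_399_x, e_305_y, e_400_y, e_66_y]
  exact (mul_right_cancel (mul_right_cancel (mul_right_cancel (mul_right_cancel (h.trans h2.symm)))))
theorem e_426_y : r426 * y = r451 := by
  have h := relF r127
  simp only [e_127_x, e_185_y, e_259_y, e_349_y, e_449_x, e_427_y, e_74_y, e_114_y, e_169_x, e_241_y, e_328_y] at h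
  have h2 : r451 * x * y * y * y = r127 := by simp only [e_451_x, e_351_y, e_452_y, e_84_y]
  exact (mul_right_cancel (mul_right_cancel (mul_right_cancel (mul_right_cancel (h.trans h2.symm)))))
theorem e_486_x : r486 * x = r581 := by
  have h := relF r144
  simp only [e_144_x, e_207_y, e_288_y, e_382_y] at h
  have h2 : r581 * y * y * y * x * y * y * y * x * y * y * y = r144 := by simp only [e_581_y, e_655_y, e_703_y, e_664_x, e_593_y, e_665_y, e_215_y, e_298_x, e_383_y, e_487_y, e_97_y]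
  exact (mul_right_cancel (mul_right_cancel (mul_right_cancel (mul_right_cancel (mul_right_cancel (mul_right_cancel (mul_right_cancel (mul_right_cancel (mul_right_cancel (mul_right_cancel (mul_right_cancel (h.trans h2.symm))))))))))))
theorem e_600_y : r600 * y = r282 := by
  have h := relF r153
  simp only [e_153_x, e_103_y, e_154_y, e_220_y, e_305_x, e_399_y, e_503_y] at h
  have h2 : r282 * x * y * y * y * x * y * y * y = r153 := by simp only [e_282_x, e_201_y, e_283_y, e_375_y, e_479_x, e_397_y, e_500_y, e_596_y]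
  exact (mul_right_cancel (mul_right_cancel (mul_right_cancel (mul_right_cancel (mul_right_cancel (mul_right_cancel (mul_right_cancel (mul_right_cancel (h.trans h2.symm)))))))))
theorem e_672_x : r672 * x = r709 := by
  have h := relF r154
  simp only [e_154_x, e_219_y, e_304_y, e_398_y, e_502_x, e_598_y, e_516_y, e_608_y] at h
  have h2 : r709 * y * y * y * x * y * y * y = r154 := by simp only [e_709_y, e_718_y, e_401_y, e_504_x, e_400_y, e_66_y, e_103_y]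
  exact (mul_right_cancel (mul_right_cancel (mul_right_cancel (mul_right_cancel (mul_right_cancel (mul_right_cancel (mul_right_cancel (h.trans h2.symm))))))))
theorem e_511_x : r511 * x = r600 := by
  have h := relF r158
  simp only [e_158_x, e_225_y, e_309_y, e_407_y] at h
  have h2 : r600 * y * y * y * x * y * y * y * x * y * y * y = r158 := by simp only [e_600_y, e_282_y, e_374_y, e_478_x, e_568_y, e_647_y, e_698_y, e_512_x, e_408_y, e_513_y, e_106_y]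
  exact (mul_right_cancel (mul_right_cancel (mul_right_cancel (mul_right_cancel (mul_right_cancel (mul_right_cancel (mul_right_cancel (mul_right_cancel (mul_right_cancel (mul_right_cancel (mul_right_cancel (h.trans h2.symm))))))))))))
theorem e_646_x : r646 * x = r609 := by
  have h := relF r159
  simp only [e_159_x, e_107_y, e_160_y, e_228_y, e_312_x, e_410_y, e_515_y, e_567_y] at h
  have h2 : r609 * y * y * y * x * y * y * y = r159 := by simp only [e_609_y, e_673_y, e_232_y, e_317_x, e_409_y, e_514_y, e_607_y]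
  exact (mul_right_cancel (mul_right_cancel (mul_right_cancel (mul_right_cancel (mul_right_cancel (mul_right_cancel (mul_right_cancel (h.trans h2.symm))))))))
theorem e_604_y : r604 * y = r524 := by
  have h := relF r166
  simp only [e_166_x, e_236_y, e_321_y, e_420_y, e_523_x, e_605_y, e_156_y, e_223_y, e_308_x, e_405_y, e_509_y] at h
  have h2 : r524 * x * y * y * y = r166 := by simp only [e_524_x, e_422_y, e_525_y, e_112_y]
  exact (mul_right_cancel (mul_right_cancel (mul_right_cancel (mul_right_cancel (h.trans h2.symm)))))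
theorem e_636_y : r636 * y = r241 := by
  have h := relF r185
  simp only [e_185_x, e_127_y, e_186_y, e_261_y, e_351_x, e_451_y, e_552_y] at h
  have h2 : r241 * x * y * y * y * x * y * y * y = r185 := by simp only [e_241_x, e_169_y, e_242_y, e_329_y, e_427_x, e_449_y, e_549_y, e_632_y]
  exact (mul_right_cancel (mul_right_cancel (mul_right_cancel (mul_right_cancel (mul_right_cancel (mul_right_cancel (mul_right_cancel (mul_right_cancel (h.trans h2.symm)))))))))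
theorem e_695_x : r695 * x = r715 := by
  have h := relF r186
  simp only [e_186_x, e_260_y, e_350_y, e_450_y, e_551_x, e_634_y, e_565_y, e_644_y] at h
  have h2 : r715 * y * y * y * x * y * y * y = r186 := by simp only [e_715_y, e_719_y, e_453_y, e_553_x, e_452_y, e_84_y, e_127_y]
  exact (mul_right_cancel (mul_right_cancel (mul_right_cancel (mul_right_cancel (mul_right_cancel (mul_right_cancel (mul_right_cancel (h.trans h2.symm))))))))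
theorem e_560_x : r560 * x = r636 := by
  have h := relF r190
  simp only [e_190_x, e_266_y, e_355_y, e_459_y] at h
  have h2 : r636 * y * y * y * x * y * y * y * x * y * y * y = r190 := by simp only [e_636_y, e_241_y, e_328_y, e_426_x, e_519_y, e_611_y, e_675_y, e_561_x, e_460_y, e_562_y, e_130_y]
  exact (mul_right_cancel (mul_right_cancel (mul_right_cancel (mul_right_cancel (mul_right_cancel (mul_right_cancel (mul_right_cancel (mul_right_cancel (mul_right_cancel (mul_right_cancel (mul_right_cancel (h.trans h2.symm))))))))))))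
theorem e_610_x : r610 * x = r645 := by
  have h := relF r191
  simp only [e_191_x, e_131_y, e_192_y, e_269_y, e_358_x, e_462_y, e_564_y, e_518_y] at h
  have h2 : r645 * y * y * y * x * y * y * y = r191 := by simp only [e_645_y, e_696_y, e_273_y, e_363_x, e_461_y, e_563_y, e_643_y]
  exact (mul_right_cancel (mul_right_cancel (mul_right_cancel (mul_right_cancel (mul_right_cancel (mul_right_cancel (mul_right_cancel (h.trans h2.symm))))))))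
theorem e_640_y : r640 * y = r573 := by
  have h := relF r198
  simp only [e_198_x, e_277_y, e_367_y, e_472_y, e_572_x, e_641_y, e_188_y, e_264_y, e_354_x, e_457_y, e_558_y] at h
  have h2 : r573 * x * y * y * y = r198 := by simp only [e_573_x, e_474_y, e_574_y, e_136_y]
  exact (mul_right_cancel (mul_right_cancel (mul_right_cancel (mul_right_cancel (h.trans h2.symm)))))
theorem e_568_x : r568 * x = r478 := by
  have h := relF r225
  simp only [e_225_x, e_158_y, e_226_y, e_310_y, e_408_x, e_512_y, e_364_y, e_467_y] at h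
  have h2 : r478 * y * y * y * x * y * y * y = r225 := by simp only [e_478_y, e_399_y, e_503_y, e_600_x, e_511_y, e_606_y, e_671_y]
  exact (mul_right_cancel (mul_right_cancel (mul_right_cancel (mul_right_cancel (mul_right_cancel (mul_right_cancel (mul_right_cancel (h.trans h2.symm))))))))
theorem e_678_y : r678 * y = r405 := by
  have h := relF r236
  simp only [e_236_x, e_166_y, e_237_y, e_323_y, e_422_x, e_524_y, e_614_y] at h
  have h2 : r405 * x * y * y * y * x * y * y * y = r236 := by simp only [e_405_x, e_308_y, e_406_y, e_510_y, e_605_x, e_523_y, e_613_y, e_677_y]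
  exact (mul_right_cancel (mul_right_cancel (mul_right_cancel (mul_right_cancel (mul_right_cancel (mul_right_cancel (mul_right_cancel (mul_right_cancel (h.trans h2.symm)))))))))
theorem e_421_y : r421 * y = r262 := by
  have h := relF r237
  simp only [e_237_x, e_322_y] at h
  have h2 : r262 * y * x * y * y * y * x * y * y * y * x * y * y * y = r237 := by simp only [e_262_y, e_352_x, e_453_y, e_553_y, e_637_y, e_691_x, e_714_y, e_342_y, e_442_y, e_543_x, e_525_y, e_112_y, e_166_y]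
  exact (mul_right_cancel (mul_right_cancel (mul_right_cancel (mul_right_cancel (mul_right_cancel (mul_right_cancel (mul_right_cancel (mul_right_cancel (mul_right_cancel (mul_right_cancel (mul_right_cancel (mul_right_cancel (mul_right_cancel (h.trans h2.symm))))))))))))))
theorem e_671_x : r671 * x = r614 := by
  have h := relF r263
  simp only [e_263_x, e_205_y, e_287_y, e_381_y, e_485_x, e_407_y, e_511_y, e_606_y] at h
  have h2 : r614 * y * y * y * x * y * y * y = r263 := by simp only [e_614_y, e_678_y, e_405_y, e_509_x, e_557_y, e_128_y, e_187_y]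
  exact (mul_right_cancel (mul_right_cancel (mul_right_cancel (mul_right_cancel (mul_right_cancel (mul_right_cancel (mul_right_cancel (h.trans h2.symm))))))))
theorem e_519_x : r519 * x = r426 := by
  have h := relF r266
  simp only [e_266_x, e_190_y, e_267_y, e_356_y, e_460_x, e_561_y, e_318_y, e_415_y] at h
  have h2 : r426 * y * y * y * x * y * y * y = r266 := by simp only [e_426_y, e_451_y, e_552_y, e_636_x, e_560_y, e_642_y, e_694_y]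
  exact (mul_right_cancel (mul_right_cancel (mul_right_cancel (mul_right_cancel (mul_right_cancel (mul_right_cancel (mul_right_cancel (h.trans h2.symm))))))))
theorem e_701_y : r701 * y = r457 := by
  have h := relF r277
  simp only [e_277_x, e_198_y, e_278_y, e_369_y, e_474_x, e_573_y, e_650_y] at h
  have h2 : r457 * x * y * y * y * x * y * y * y = r277 := by simp only [e_457_x, e_354_y, e_458_y, e_559_y, e_641_x, e_572_y, e_649_y, e_700_y]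
  exact (mul_right_cancel (mul_right_cancel (mul_right_cancel (mul_right_cancel (mul_right_cancel (mul_right_cancel (mul_right_cancel (mul_right_cancel (h.trans h2.symm)))))))))
theorem e_473_y : r473 * y = r221 := by
  have h := relF r278
  simp only [e_278_x, e_368_y] at h
  have h2 : r221 * y * x * y * y * y * x * y * y * y * x * y * y * y = r278 := by simp only [e_221_y, e_306_x, e_401_y, e_504_y, e_601_y, e_668_x, e_708_y, e_296_y, e_390_y, e_494_x, e_574_y, e_136_y, e_198_y]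
  exact (mul_right_cancel (mul_right_cancel (mul_right_cancel (mul_right_cancel (mul_right_cancel (mul_right_cancel (mul_right_cancel (mul_right_cancel (mul_right_cancel (mul_right_cancel (mul_right_cancel (mul_right_cancel (mul_right_cancel (h.trans h2.symm))))))))))))))
theorem e_689_y : r689 * y = r299 := by
  have h := relF r299
  simp only [e_299_x, e_216_y, e_300_y, e_394_y, e_497_x, e_547_y, e_630_y, e_580_y, e_654_x, e_690_y, e_260_y, e_350_y, e_450_x, e_550_y, e_633_y] at h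
  exact h
theorem e_520_x : r520 * x = r570 := by
  have h := relF r314
  simp only [e_314_x, e_392_y, e_495_y, e_593_y, e_665_x, e_611_y, e_675_y, e_561_y, e_318_x, e_233_y, e_319_y, e_417_y] at h
  have h2 : r570 * y * y * y = r314 := by simp only [e_570_y, e_161_y, e_229_y]
  exact (mul_right_cancel (mul_right_cancel (mul_right_cancel (h.trans h2.symm))))
theorem e_555_y : r555 * y = r322 := by
  have h := relF r322
  simp only [e_322_x, e_237_y, e_323_y, e_422_y, e_525_x, e_543_y, e_628_y, e_686_y, e_714_x, e_691_y, e_715_y, e_719_y, e_453_x, e_352_y, e_454_y] at h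
  exact h
theorem e_684_x : r684 * x = r630 := by
  have h := relF r341
  simp only [e_341_x, e_440_y, e_541_y, e_626_y] at h
  have h2 : r630 * y * y * y * x * y * y * y * x * y * y * y = r341 := by simp only [e_630_y, e_580_y, e_654_y, e_347_x, e_258_y, e_348_y, e_448_y, e_548_x, e_627_y, e_685_y, e_254_y]
  exact (mul_right_cancel (mul_right_cancel (mul_right_cancel (mul_right_cancel (mul_right_cancel (mul_right_cancel (mul_right_cancel (mul_right_cancel (mul_right_cancel (mul_right_cancel (mul_right_cancel (h.trans h2.symm))))))))))))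
theorem e_569_x : r569 * x = r521 := by
  have h := relF r360
  simp only [e_360_x, e_444_y, e_544_y, e_629_y, e_688_x, e_647_y, e_698_y, e_512_y, e_364_x, e_274_y, e_365_y, e_469_y] at h
  have h2 : r521 * y * y * y = r360 := by simp only [e_521_y, e_193_y, e_270_y]
  exact (mul_right_cancel (mul_right_cancel (mul_right_cancel (h.trans h2.symm))))
theorem e_506_y : r506 * y = r368 := by
  have h := relF r368
  simp only [e_368_x, e_278_y, e_369_y, e_474_y, e_574_x, e_494_y, e_592_y, e_663_y, e_708_x, e_668_y, e_709_y, e_718_y, e_401_x, e_306_y, e_402_y] at h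
  exact h
theorem e_411_x : r411 * x = r506 := by
  have h := relF r404
  simp only [e_404_x, e_315_y, e_412_y, e_69_y, e_108_x, e_161_y, e_229_y, e_314_y] at h
  have h2 : r506 * y * y * y * x * y * y * y = r404 := by simp only [e_506_y, e_368_y, e_473_y, e_221_x, e_155_y, e_222_y, e_307_y]
  exact (mul_right_cancel (mul_right_cancel (mul_right_cancel (mul_right_cancel (mul_right_cancel (mul_right_cancel (mul_right_cancel (h.trans h2.symm))))))))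
theorem e_694_x : r694 * x = r650 := by
  have h := relF r433
  simp only [e_433_x, e_459_y, e_560_y, e_642_y] at h
  have h2 : r650 * y * y * y * x * y * y * y * x * y * y * y = r433 := by simp only [e_650_y, e_701_y, e_457_y, e_558_x, e_508_y, e_104_y, e_155_y, e_222_x, e_173_y, e_246_y, e_335_y]
  exact (mul_right_cancel (mul_right_cancel (mul_right_cancel (mul_right_cancel (mul_right_cancel (mul_right_cancel (mul_right_cancel (mul_right_cancel (mul_right_cancel (mul_right_cancel (mul_right_cancel (h.trans h2.symm))))))))))))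
theorem e_601_x : r601 * x = r515 := by
  have h := relF r436
  simp only [e_436_x, e_533_y, e_620_y, e_681_y, e_711_x, e_718_y, e_401_y, e_504_y] at h
  have h2 : r515 * y * y * y * x * y * y * y = r436 := by simp only [e_515_y, e_567_y, e_646_y, e_697_x, e_682_y, e_250_y, e_338_y]
  exact (mul_right_cancel (mul_right_cancel (mul_right_cancel (mul_right_cancel (mul_right_cancel (mul_right_cancel (mul_right_cancel (h.trans h2.symm))))))))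
theorem e_463_x : r463 * x = r555 := by
  have h := relF r456
  simp only [e_456_x, e_361_y, e_464_y, e_87_y, e_132_x, e_193_y, e_270_y, e_360_y] at h
  have h2 : r555 * y * y * y * x * y * y * y = r456 := by simp only [e_555_y, e_322_y, e_421_y, e_262_x, e_187_y, e_263_y, e_353_y]
  exact (mul_right_cancel (mul_right_cancel (mul_right_cancel (mul_right_cancel (mul_right_cancel (mul_right_cancel (mul_right_cancel (h.trans h2.symm))))))))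
theorem e_637_x : r637 * x = r564 := by
  have h := relF r488
  simp only [e_488_x, e_582_y, e_656_y, e_704_y, e_717_x, e_719_y, e_453_y, e_553_y] at h
  have h2 : r564 * y * y * y * x * y * y * y = r488 := by simp only [e_564_y, e_518_y, e_610_y, e_674_x, e_705_y, e_291_y, e_384_y]
  exact (mul_right_cancel (mul_right_cancel (mul_right_cancel (mul_right_cancel (mul_right_cancel (mul_right_cancel (mul_right_cancel (h.trans h2.symm))))))))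
theorem e_390_x : r390 * x = r324 := by
  have h := relA r324
  simp only [e_324_x] at h
  exact h
theorem e_442_x : r442 * x = r370 := by
  have h := relA r370
  simp only [e_370_x] at h
  exact h
theorem e_428_x : r428 * x = r527 := by
  have h := relA r428
  have h2 : r527 * x = r428 := by simp only [e_527_x]
  exact (mul_right_cancel (h.trans h2.symm))
theorem e_434_x : r434 * x = r532 := by
  have h := relA r434
  have h2 : r532 * x = r434 := by simp only [e_532_x]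
  exact (mul_right_cancel (h.trans h2.symm))
theorem e_480_x : r480 * x = r576 := by
  have h := relA r480
  have h2 : r576 * x = r480 := by simp only [e_576_x]
  exact (mul_right_cancel (h.trans h2.symm))
theorem e_578_x : r578 * x = r496 := by
  have h := relA r496
  simp only [e_496_x] at h
  exact h
theorem e_546_x : r546 * x = r498 := by
  have h := relA r498
  simp only [e_498_x] at h
  exact h
theorem e_584_x : r584 * x = r507 := by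
  have h := relA r507
  simp only [e_507_x] at h
  exact h
theorem e_508_x : r508 * x = r558 := by
  have h := relA r508
  have h2 : r558 * x = r508 := by simp only [e_558_x]
  exact (mul_right_cancel (h.trans h2.symm))
theorem e_557_x : r557 * x = r509 := by
  have h := relA r509
  simp only [e_509_x] at h
  exact h
theorem e_607_x : r607 * x = r528 := by
  have h := relA r528
  simp only [e_528_x] at h
  exact h
theorem e_529_x : r529 * x = r545 := by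
  have h := relA r529
  have h2 : r545 * x = r529 := by simp only [e_545_x]
  exact (mul_right_cancel (h.trans h2.symm))
theorem e_535_x : r535 * x = r556 := by
  have h := relA r535
  have h2 : r556 * x = r535 := by simp only [e_556_x]
  exact (mul_right_cancel (h.trans h2.symm))
theorem e_643_x : r643 * x = r577 := by
  have h := relA r577
  simp only [e_577_x] at h
  exact h
theorem e_589_x : r589 * x = r626 := by
  have h := relA r589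
  have h2 : r626 * x = r589 := by simp only [e_626_x]
  exact (mul_right_cancel (h.trans h2.symm))
theorem e_625_x : r625 * x = r590 := by
  have h := relA r590
  simp only [e_590_x] at h
  exact h
theorem e_606_x : r606 * x = r670 := by
  have h := relA r606
  have h2 : r670 * x = r606 := by simp only [e_670_x]
  exact (mul_right_cancel (h.trans h2.symm))
theorem e_614_x : r614 * x = r671 := by
  have h := relA r614
  have h2 : r671 * x = r614 := by simp only [e_671_x]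
  exact (mul_right_cancel (h.trans h2.symm))
theorem e_667_x : r667 * x = r618 := by
  have h := relA r618
  simp only [e_618_x] at h
  exact h
theorem e_676_x : r676 * x = r619 := by
  have h := relA r619
  simp only [e_619_x] at h
  exact h
theorem e_630_x : r630 * x = r684 := by
  have h := relA r630
  have h2 : r684 * x = r630 := by simp only [e_684_x]
  exact (mul_right_cancel (h.trans h2.symm))
theorem e_642_x : r642 * x = r693 := by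
  have h := relA r642
  have h2 : r693 * x = r642 := by simp only [e_693_x]
  exact (mul_right_cancel (h.trans h2.symm))
theorem e_650_x : r650 * x = r694 := by
  have h := relA r650
  have h2 : r694 * x = r650 := by simp only [e_694_x]
  exact (mul_right_cancel (h.trans h2.symm))
theorem e_690_x : r690 * x = r654 := by
  have h := relA r654
  simp only [e_654_x] at h
  exact h
theorem e_496_y : r496 * y = r550 := by
  have h := relB r299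
  simp only [e_299_y, e_393_y] at h
  have h2 : r550 * y * y * y = r299 := by simp only [e_550_y, e_633_y, e_689_y]
  exact (mul_right_cancel (mul_right_cancel (mul_right_cancel (h.trans h2.symm))))
theorem e_618_y : r618 * y = r301 := by
  have h := relB r301
  simp only [e_301_y, e_395_y, e_498_y, e_594_y, e_531_y] at h
  exact h
theorem e_680_y : r680 * y = r687 := by
  have h := relB r331
  simp only [e_331_y, e_429_y, e_532_y, e_619_y] at h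
  have h2 : r687 * y = r331 := by simp only [e_687_y]
  exact (mul_right_cancel (h.trans h2.symm))
theorem e_395_x : r395 * x = r447 := by
  have h := relC r101
  simp only [e_101_x, e_65_y, e_102_x, e_151_y, e_217_x, e_301_y] at h
  have h2 : r447 * y * x * y = r101 := by simp only [e_447_y, e_547_x, e_497_y]
  exact (mul_right_cancel (mul_right_cancel (mul_right_cancel (h.trans h2.symm))))
theorem e_552_x : r552 * x = r530 := by
  have h := relC r116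
  simp only [e_116_x, e_76_y, e_117_x, e_141_y, e_203_x, e_261_y, e_351_x, e_451_y] at h
  have h2 : r530 * y = r116 := by simp only [e_530_y]
  exact (mul_right_cancel (h.trans h2.symm))
theorem e_447_x : r447 * x = r395 := by
  have h := relC r125
  simp only [e_125_x, e_83_y, e_126_x, e_183_y, e_258_x, e_347_y] at h
  have h2 : r395 * y * x * y = r125 := by simp only [e_395_y, e_498_x, e_546_y]
  exact (mul_right_cancel (mul_right_cancel (mul_right_cancel (h.trans h2.symm))))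
theorem e_503_x : r503 * x = r579 := by
  have h := relC r140
  simp only [e_140_x, e_94_y, e_141_x, e_117_y, e_171_x, e_220_y, e_305_x, e_399_y] at h
  have h2 : r579 * y = r140 := by simp only [e_579_y]
  exact (mul_right_cancel (h.trans h2.symm))
theorem e_492_x : r492 * x = r541 := by
  have h := relC r148
  simp only [e_148_x, e_100_y, e_149_x, e_213_y, e_295_x, e_388_y] at h
  have h2 : r541 * y * x * y = r148 := by simp only [e_541_y, e_626_x, e_589_y]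
  exact (mul_right_cancel (mul_right_cancel (mul_right_cancel (h.trans h2.symm))))
theorem e_633_x : r633 * x = r596 := by
  have h := relC r153
  simp only [e_153_x, e_103_y, e_154_x, e_219_y, e_304_x, e_350_y, e_450_x, e_550_y] at h
  have h2 : r596 * y = r153 := by simp only [e_596_y]
  exact (mul_right_cancel (h.trans h2.symm))
theorem e_328_x : r328 * x = r393 := by
  have h := relC r168
  simp only [e_168_x, e_114_y, e_169_x, e_241_y] at h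
  have h2 : r393 * y * x * y * x * y = r168 := by simp only [e_393_y, e_496_x, e_578_y, e_653_x, e_617_y]
  exact (mul_right_cancel (mul_right_cancel (mul_right_cancel (mul_right_cancel (mul_right_cancel (h.trans h2.symm))))))
theorem e_541_x : r541 * x = r492 := by
  have h := relC r180
  simp only [e_180_x, e_124_y, e_181_x, e_254_y, e_341_x, e_440_y] at h
  have h2 : r492 * y * x * y = r180 := by simp only [e_492_y, e_590_x, e_625_y]
  exact (mul_right_cancel (mul_right_cancel (mul_right_cancel (h.trans h2.symm))))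
theorem e_597_x : r597 * x = r632 := by
  have h := relC r185
  simp only [e_185_x, e_127_y, e_186_x, e_260_y, e_350_x, e_304_y, e_398_x, e_501_y] at h
  have h2 : r632 * y = r185 := by simp only [e_632_y]
  exact (mul_right_cancel (h.trans h2.symm))
theorem e_374_x : r374 * x = r445 := by
  have h := relC r200
  simp only [e_200_x, e_138_y, e_201_x, e_282_y] at h
  have h2 : r445 * y * x * y * x * y = r200 := by simp only [e_445_y, e_545_x, e_529_y, e_617_x, e_653_y]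
  exact (mul_right_cancel (mul_right_cancel (mul_right_cancel (mul_right_cancel (mul_right_cancel (h.trans h2.symm))))))
theorem e_615_x : r615 * x = r662 := by
  have h := relC r213
  simp only [e_213_x, e_149_y, e_214_x, e_296_y, e_390_x, e_324_y, e_423_x, e_526_y] at h
  have h2 : r662 * y = r213 := by simp only [e_662_y]
  exact (mul_right_cancel (h.trans h2.symm))
theorem e_393_x : r393 * x = r328 := by
  have h := relC r215
  simp only [e_215_x, e_150_y, e_216_x, e_299_y] at h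
  have h2 : r328 * y * x * y * x * y = r215 := by simp only [e_328_y, e_426_x, e_519_y, e_611_x, e_665_y]
  exact (mul_right_cancel (mul_right_cancel (mul_right_cancel (mul_right_cancel (mul_right_cancel (h.trans h2.symm))))))
theorem e_539_x : r539 * x = r473 := by
  have h := relC r221
  simp only [e_221_x, e_155_y, e_222_x, e_173_y, e_246_x, e_253_y, e_340_x, e_438_y] at h
  have h2 : r473 * y = r221 := by simp only [e_473_y]
  exact (mul_right_cancel (h.trans h2.symm))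
theorem e_421_x : r421 * x = r490 := by
  have h := relC r236
  simp only [e_236_x, e_166_y, e_237_x, e_322_y] at h
  have h2 : r490 * y * x * y * x * y = r236 := by simp only [e_490_y, e_588_x, e_649_y, e_700_x, e_677_y]
  exact (mul_right_cancel (mul_right_cancel (mul_right_cancel (mul_right_cancel (mul_right_cancel (h.trans h2.symm))))))
theorem e_651_x : r651 * x = r685 := by
  have h := relC r254
  simp only [e_254_x, e_181_y, e_255_x, e_342_y, e_442_x, e_370_y, e_475_x, e_575_y] at h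
  have h2 : r685 * y = r254 := by simp only [e_685_y]
  exact (mul_right_cancel (h.trans h2.symm))
theorem e_445_x : r445 * x = r374 := by
  have h := relC r256
  simp only [e_256_x, e_182_y, e_257_x, e_345_y] at h
  have h2 : r374 * y * x * y * x * y = r256 := by simp only [e_374_y, e_478_x, e_568_y, e_647_x, e_688_y]
  exact (mul_right_cancel (mul_right_cancel (mul_right_cancel (mul_right_cancel (mul_right_cancel (h.trans h2.symm))))))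
theorem e_490_x : r490 * x = r421 := by
  have h := relC r262
  simp only [e_262_x, e_187_y, e_263_x, e_205_y, e_287_x, e_212_y, e_294_x, e_386_y] at h
  have h2 : r421 * y = r262 := by simp only [e_421_y]
  exact (mul_right_cancel (h.trans h2.symm))
theorem e_473_x : r473 * x = r539 := by
  have h := relC r277
  simp only [e_277_x, e_198_y, e_278_x, e_368_y] at h
  have h2 : r539 * y * x * y * x * y = r277 := by simp only [e_539_y, e_624_x, e_613_y, e_677_x, e_700_y]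
  exact (mul_right_cancel (mul_right_cancel (mul_right_cancel (mul_right_cancel (mul_right_cancel (h.trans h2.symm))))))
theorem e_640_x : r640 * x = r689 := by
  have h := relC r299
  simp only [e_299_x, e_216_y, e_300_x, e_230_y, e_315_x, e_404_y, e_508_x, e_558_y] at h
  have h2 : r689 * y = r299 := by simp only [e_689_y]
  exact (mul_right_cancel (h.trans h2.symm))
theorem e_692_y : r692 * y = r326 := by
  have h := relC r326
  simp only [e_326_x, e_240_y, e_327_x, e_251_y, e_339_x, e_432_y, e_535_x, e_556_y, e_639_x] at h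
  exact h
theorem e_534_x : r534 * x = r608 := by
  have h := relC r333
  simp only [e_333_x, e_245_y, e_334_x, e_431_y] at h
  have h2 : r608 * y * x * y * x * y = r333 := by simp only [e_608_y, e_672_x, e_709_y, e_718_x, e_711_y]
  exact (mul_right_cancel (mul_right_cancel (mul_right_cancel (mul_right_cancel (mul_right_cancel (h.trans h2.symm))))))
theorem e_669_y : r669 * y = r372 := by
  have h := relC r372
  simp only [e_372_x, e_281_y, e_373_x, e_292_y, e_385_x, e_484_y, e_584_x, e_507_y, e_603_x] at h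
  exact h
theorem e_583_x : r583 * x = r644 := by
  have h := relC r379
  simp only [e_379_x, e_286_y, e_380_x, e_483_y] at h
  have h2 : r644 * y * x * y * x * y = r379 := by simp only [e_644_y, e_695_x, e_715_y, e_719_x, e_717_y]
  exact (mul_right_cancel (mul_right_cancel (mul_right_cancel (mul_right_cancel (mul_right_cancel (h.trans h2.symm))))))
theorem e_602_x : r602 * x = r656 := by
  have h := relC r401
  simp only [e_401_x, e_306_y, e_402_x, e_505_y] at h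
  have h2 : r656 * y * x * y * x * y = r401 := by simp only [e_656_y, e_704_x, e_681_y, e_711_x, e_718_y]
  exact (mul_right_cancel (mul_right_cancel (mul_right_cancel (mul_right_cancel (mul_right_cancel (h.trans h2.symm))))))
theorem e_616_x : r616 * x = r678 := by
  have h := relC r405
  simp only [e_405_x, e_308_y, e_406_x, e_316_y, e_413_x, e_514_y, e_607_x, e_528_y] at h
  have h2 : r678 * y = r405 := by simp only [e_678_y]
  exact (mul_right_cancel (h.trans h2.symm))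
theorem e_527_y : r527 * y = r554 := by
  have h := relC r418
  simp only [e_418_x, e_320_y, e_419_x, e_330_y, e_428_x] at h
  have h2 : r554 * x * y * x * y = r418 := by simp only [e_554_x, e_454_y, e_555_x, e_463_y]
  exact (mul_right_cancel (mul_right_cancel (mul_right_cancel (mul_right_cancel (h.trans h2.symm)))))
theorem e_638_x : r638 * x = r620 := by
  have h := relC r453
  simp only [e_453_x, e_352_y, e_454_x, e_554_y] at h
  have h2 : r620 * y * x * y * x * y = r453 := by simp only [e_620_y, e_681_x, e_704_y, e_717_x, e_719_y]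
  exact (mul_right_cancel (mul_right_cancel (mul_right_cancel (mul_right_cancel (mul_right_cancel (h.trans h2.symm))))))
theorem e_652_x : r652 * x = r701 := by
  have h := relC r457
  simp only [e_457_x, e_354_y, e_458_x, e_362_y, e_465_x, e_563_y, e_643_x, e_577_y] at h
  have h2 : r701 * y = r457 := by simp only [e_701_y]
  exact (mul_right_cancel (h.trans h2.symm))
theorem e_576_y : r576 * y = r505 := by
  have h := relC r470
  simp only [e_470_x, e_366_y, e_471_x, e_376_y, e_480_x] at h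
  have h2 : r505 * x * y * x * y = r470 := by simp only [e_505_x, e_402_y, e_506_x, e_411_y]
  exact (mul_right_cancel (mul_right_cancel (mul_right_cancel (mul_right_cancel (h.trans h2.symm)))))
theorem e_684_y : r684 * y = r483 := by
  have h := relC r483
  simp only [e_483_x, e_380_y, e_484_x, e_385_y, e_489_x, e_394_y, e_497_x, e_547_y, e_630_x] at h
  exact h
theorem e_545_y : r545 * y = r501 := by
  have h := relC r501
  simp only [e_501_x, e_398_y, e_502_x, e_598_y, e_516_x, e_414_y, e_517_x, e_425_y, e_529_x] at h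
  exact h
theorem e_661_x : r661 * x = r594 := by
  have h := relC r531
  simp only [e_531_x, e_429_y, e_532_x, e_434_y, e_536_x, e_540_y, e_625_x, e_590_y] at h
  have h2 : r594 * y = r531 := by simp only [e_594_y]
  exact (mul_right_cancel (h.trans h2.symm))
theorem e_680_x : r680 * x = r703 := by
  have h := relC r664
  simp only [e_664_x, e_593_y, e_665_x, e_611_y, e_675_x, e_612_y, e_676_x, e_619_y] at h
  have h2 : r703 * y = r664 := by simp only [e_703_y]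
  exact (mul_right_cancel (h.trans h2.symm))
theorem e_703_x : r703 * x = r680 := by
  have h := relC r687
  simp only [e_687_x, e_629_y, e_688_x, e_647_y, e_698_x, e_648_y, e_699_x, e_655_y] at h
  have h2 : r680 * y = r687 := by simp only [e_680_y]
  exact (mul_right_cancel (h.trans h2.symm))
theorem e_679_y : r679 * y = r692 := by
  have h := relD r45
  simp only [e_45_x, e_71_y, e_109_y, e_163_y, e_231_y, e_316_y, e_413_x, e_514_y, e_607_x, e_528_y, e_616_y] at h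
  have h2 : r692 * y * y * x * y * x * y * y * y * y * y * x * y = r45 := by simp only [e_692_y, e_326_y, e_424_x, e_325_y, e_46_x, e_28_y, e_47_y, e_75_y, e_115_y, e_9_y, e_16_x, e_27_y]
  exact (mul_right_cancel (mul_right_cancel (mul_right_cancel (mul_right_cancel (mul_right_cancel (mul_right_cancel (mul_right_cancel (mul_right_cancel (mul_right_cancel (mul_right_cancel (mul_right_cancel (mul_right_cancel (h.trans h2.symm)))))))))))))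
theorem e_702_y : r702 * y = r669 := by
  have h := relD r57
  simp only [e_57_x, e_89_y, e_133_y, e_195_y, e_272_y, e_362_y, e_465_x, e_563_y, e_643_x, e_577_y, e_652_y] at h
  have h2 : r669 * y * y * x * y * x * y * y * y * y * y * x * y = r57 := by simp only [e_669_y, e_372_y, e_476_x, e_371_y, e_58_x, e_36_y, e_59_y, e_93_y, e_139_y, e_12_y, e_21_x, e_35_y]
  exact (mul_right_cancel (mul_right_cancel (mul_right_cancel (mul_right_cancel (mul_right_cancel (mul_right_cancel (mul_right_cancel (mul_right_cancel (mul_right_cancel (mul_right_cancel (mul_right_cancel (mul_right_cancel (h.trans h2.symm)))))))))))))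
theorem e_583_y : r583 * y = r440 := by
  have h := relD r65
  simp only [e_65_x, e_101_y, e_150_y, e_216_y, e_300_y, e_394_y, e_497_x, e_547_y, e_630_x, e_684_y, e_483_y] at h
  have h2 : r440 * y * y * x * y * x * y * y * y * y * y * x * y = r65 := by simp only [e_440_y, e_541_y, e_626_x, e_589_y, e_148_x, e_100_y, e_149_y, e_214_y, e_297_y, e_391_y, e_64_x, e_41_y]
  exact (mul_right_cancel (mul_right_cancel (mul_right_cancel (mul_right_cancel (mul_right_cancel (mul_right_cancel (mul_right_cancel (mul_right_cancel (mul_right_cancel (mul_right_cancel (mul_right_cancel (mul_right_cancel (h.trans h2.symm)))))))))))))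
theorem e_530_x : r530 * x = r552 := by
  have h := relD r76
  simp only [e_76_x, e_116_y, e_170_y, e_243_y, e_330_y, e_428_y] at h
  have h2 : r552 * y * x * y * y * y * y * y * x * y * x * y * y * y * y * y * x * y = r76 := by simp only [e_552_y, e_636_x, e_560_y, e_642_y, e_694_y, e_266_y, e_355_y, e_459_x, e_433_y, e_77_x, e_49_y, e_78_y, e_119_y, e_174_y, e_17_y, e_29_x, e_48_y]
  exact (mul_right_cancel (mul_right_cancel (mul_right_cancel (mul_right_cancel (mul_right_cancel (mul_right_cancel (mul_right_cancel (mul_right_cancel (mul_right_cancel (mul_right_cancel (mul_right_cancel (mul_right_cancel (mul_right_cancel (mul_right_cancel (mul_right_cancel (mul_right_cancel (mul_right_cancel (h.trans h2.symm))))))))))))))))))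
theorem e_579_x : r579 * x = r503 := by
  have h := relD r94
  simp only [e_94_x, e_140_y, e_202_y, e_284_y, e_376_y, e_480_y] at h
  have h2 : r503 * y * x * y * y * y * y * y * x * y * x * y * y * y * y * y * x * y = r94 := by simp only [e_503_y, e_600_x, e_511_y, e_606_y, e_671_y, e_225_y, e_309_y, e_407_x, e_485_y, e_95_x, e_61_y, e_96_y, e_143_y, e_206_y, e_22_y, e_37_x, e_60_y]
  exact (mul_right_cancel (mul_right_cancel (mul_right_cancel (mul_right_cancel (mul_right_cancel (mul_right_cancel (mul_right_cancel (mul_right_cancel (mul_right_cancel (mul_right_cancel (mul_right_cancel (mul_right_cancel (mul_right_cancel (mul_right_cancel (mul_right_cancel (mul_right_cancel (mul_right_cancel (h.trans h2.symm))))))))))))))))))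
theorem e_678_x : r678 * x = r616 := by
  have h := relD r158
  simp only [e_158_x, e_225_y, e_309_y, e_407_y, e_511_y, e_606_y, e_671_x, e_614_y] at h
  have h2 : r616 * y * y * y * y * y * x * y * x * y * y * y * y * y * x * y = r158 := by simp only [e_616_y, e_679_y, e_692_y, e_326_y, e_424_y, e_528_x, e_607_y, e_159_x, e_107_y, e_160_y, e_228_y, e_312_y, e_43_y, e_68_x, e_106_y]
  exact (mul_right_cancel (mul_right_cancel (mul_right_cancel (mul_right_cancel (mul_right_cancel (mul_right_cancel (mul_right_cancel (mul_right_cancel (mul_right_cancel (mul_right_cancel (mul_right_cancel (mul_right_cancel (mul_right_cancel (mul_right_cancel (mul_right_cancel (h.trans h2.symm))))))))))))))))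
theorem e_701_x : r701 * x = r652 := by
  have h := relD r190
  simp only [e_190_x, e_266_y, e_355_y, e_459_y, e_560_y, e_642_y, e_694_x, e_650_y] at h
  have h2 : r652 * y * y * y * y * y * x * y * x * y * y * y * y * y * x * y = r190 := by simp only [e_652_y, e_702_y, e_669_y, e_372_y, e_476_y, e_577_x, e_643_y, e_191_x, e_131_y, e_192_y, e_269_y, e_358_y, e_55_y, e_86_x, e_130_y]
  exact (mul_right_cancel (mul_right_cancel (mul_right_cancel (mul_right_cancel (mul_right_cancel (mul_right_cancel (mul_right_cancel (mul_right_cancel (mul_right_cancel (mul_right_cancel (mul_right_cancel (mul_right_cancel (mul_right_cancel (mul_right_cancel (mul_right_cancel (h.trans h2.symm))))))))))))))))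
theorem e_666_y : r666 * y = r345 := by
  have h := relD r211
  simp only [e_211_x, e_283_y, e_375_y, e_479_y, e_92_y, e_138_y, e_201_x, e_282_y, e_374_x, e_445_y, e_545_y, e_501_y, e_597_y] at h
  have h2 : r345 * x * y * x * y * y * y * y * y * x * y = r211 := by simp only [e_345_x, e_257_y, e_346_x, e_271_y, e_361_y, e_464_y, e_87_y, e_132_y, e_194_x, e_147_y]
  exact (mul_right_cancel (mul_right_cancel (mul_right_cancel (mul_right_cancel (mul_right_cancel (mul_right_cancel (mul_right_cancel (mul_right_cancel (mul_right_cancel (mul_right_cancel (h.trans h2.symm)))))))))))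
theorem e_693_y : r693 * y = r526 := by
  have h := relD r212
  simp only [e_212_x, e_287_y, e_381_y, e_485_y, e_95_y, e_142_y, e_205_x, e_263_y, e_353_x, e_455_y, e_556_y, e_639_y] at h
  have h2 : r526 * y * x * y * x * y * y * y * y * y * x * y = r212 := by simp only [e_526_y, e_615_x, e_662_y, e_213_x, e_149_y, e_214_y, e_297_y, e_391_y, e_64_y, e_100_x, e_148_y]
  exact (mul_right_cancel (mul_right_cancel (mul_right_cancel (mul_right_cancel (mul_right_cancel (mul_right_cancel (mul_right_cancel (mul_right_cancel (mul_right_cancel (mul_right_cancel (mul_right_cancel (h.trans h2.symm))))))))))))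
theorem e_689_x : r689 * x = r640 := by
  have h := relD r216
  simp only [e_216_x, e_299_y, e_393_y, e_496_y, e_550_y, e_633_y] at h
  have h2 : r640 * y * x * y * y * y * y * y * x * y * x * y * y * y * y * y * x * y = r216 := by simp only [e_640_y, e_573_x, e_474_y, e_574_y, e_136_y, e_198_y, e_278_y, e_369_x, e_289_y, e_383_x, e_298_y, e_392_y, e_495_y, e_593_y, e_665_y, e_215_x, e_150_y]
  exact (mul_right_cancel (mul_right_cancel (mul_right_cancel (mul_right_cancel (mul_right_cancel (mul_right_cancel (mul_right_cancel (mul_right_cancel (mul_right_cancel (mul_right_cancel (mul_right_cancel (mul_right_cancel (mul_right_cancel (mul_right_cancel (mul_right_cancel (mul_right_cancel (mul_right_cancel (h.trans h2.symm))))))))))))))))))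
theorem e_638_y : r638 * y = r238 := by
  have h := relD r228
  simp only [e_228_x, e_297_y, e_391_y, e_64_y, e_100_y, e_149_y, e_214_x, e_296_y, e_390_x, e_324_y, e_423_y, e_527_y, e_554_y] at h
  have h2 : r238 * x * y * x * y * y * y * y * y * x * y = r228 := by simp only [e_238_x, e_167_y, e_239_x, e_177_y, e_249_y, e_30_y, e_50_y, e_80_y, e_121_x, e_160_y]
  exact (mul_right_cancel (mul_right_cancel (mul_right_cancel (mul_right_cancel (mul_right_cancel (mul_right_cancel (mul_right_cancel (mul_right_cancel (mul_right_cancel (mul_right_cancel (h.trans h2.symm)))))))))))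
theorem e_620_x : r620 * x = r638 := by
  have h := relD r238
  simp only [e_238_x, e_167_y, e_239_y, e_325_y, e_46_y, e_73_y, e_113_x, e_137_y, e_199_x, e_279_y, e_370_y, e_475_y, e_576_y, e_505_y, e_602_x, e_656_y, e_704_x, e_681_y, e_711_y, e_333_y, e_430_y, e_533_y] at h
  have h2 : r638 * y = r238 := by simp only [e_638_y]
  exact (mul_right_cancel (h.trans h2.symm))
theorem e_670_y : r670 * y = r575 := by
  have h := relD r253
  simp only [e_253_x, e_246_y, e_335_y, e_433_y, e_77_y, e_118_y, e_173_x, e_222_y, e_307_x, e_403_y, e_507_y, e_603_y] at h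
  have h2 : r575 * y * x * y * x * y * y * y * y * y * x * y = r253 := by simp only [e_575_y, e_651_x, e_685_y, e_254_x, e_181_y, e_255_y, e_343_y, e_443_y, e_82_y, e_124_x, e_180_y]
  exact (mul_right_cancel (mul_right_cancel (mul_right_cancel (mul_right_cancel (mul_right_cancel (mul_right_cancel (mul_right_cancel (mul_right_cancel (mul_right_cancel (mul_right_cancel (mul_right_cancel (h.trans h2.symm))))))))))))
theorem e_644_x : r644 * x = r583 := by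
  have h := relD r255
  simp only [e_255_x, e_342_y, e_442_y, e_543_y, e_628_y, e_686_y, e_714_x, e_691_y, e_715_x, e_695_y, e_716_y, e_706_y, e_634_y, e_565_y] at h
  have h2 : r583 * y * x * y * y * y * y * y * x * y = r255 := by simp only [e_583_y, e_440_x, e_341_y, e_441_y, e_542_y, e_627_y, e_685_y, e_254_x, e_181_y]
  exact (mul_right_cancel (mul_right_cancel (mul_right_cancel (mul_right_cancel (mul_right_cancel (mul_right_cancel (mul_right_cancel (mul_right_cancel (mul_right_cancel (h.trans h2.symm))))))))))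
theorem e_666_x : r666 * x = r604 := by
  have h := relD r257
  simp only [e_257_x, e_345_y, e_445_y, e_545_y, e_501_y, e_597_y] at h
  have h2 : r604 * y * x * y * y * y * y * y * x * y * x * y * y * y * y * y * x * y = r257 := by simp only [e_604_y, e_524_x, e_422_y, e_525_y, e_112_y, e_166_y, e_237_y, e_323_x, e_248_y, e_337_x, e_344_y, e_444_y, e_544_y, e_629_y, e_688_y, e_256_x, e_182_y]
  exact (mul_right_cancel (mul_right_cancel (mul_right_cancel (mul_right_cancel (mul_right_cancel (mul_right_cancel (mul_right_cancel (mul_right_cancel (mul_right_cancel (mul_right_cancel (mul_right_cancel (mul_right_cancel (mul_right_cancel (mul_right_cancel (mul_right_cancel (mul_right_cancel (mul_right_cancel (h.trans h2.symm))))))))))))))))))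
theorem e_602_y : r602 * y = r279 := by
  have h := relD r269
  simp only [e_269_x, e_343_y, e_443_y, e_82_y, e_124_y, e_181_y, e_255_x, e_342_y, e_442_x, e_370_y, e_475_y, e_576_y, e_505_y] at h
  have h2 : r279 * x * y * x * y * y * y * y * y * x * y = r269 := by simp only [e_279_x, e_199_y, e_280_x, e_209_y, e_290_y, e_38_y, e_62_y, e_98_y, e_145_x, e_192_y]
  exact (mul_right_cancel (mul_right_cancel (mul_right_cancel (mul_right_cancel (mul_right_cancel (mul_right_cancel (mul_right_cancel (mul_right_cancel (mul_right_cancel (mul_right_cancel (h.trans h2.symm)))))))))))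
theorem e_656_x : r656 * x = r602 := by
  have h := relD r279
  simp only [e_279_x, e_199_y, e_280_y, e_371_y, e_58_y, e_91_y, e_137_x, e_113_y, e_167_x, e_238_y, e_324_y, e_423_y, e_527_y, e_554_y, e_638_x, e_620_y, e_681_x, e_704_y, e_717_y, e_379_y, e_482_y, e_582_y] at h
  have h2 : r602 * y = r279 := by simp only [e_602_y]
  exact (mul_right_cancel (h.trans h2.symm))
theorem e_661_y : r661 * y = r431 := by
  have h := relD r295
  simp only [e_295_x, e_388_y, e_492_y, e_590_y] at h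
  have h2 : r431 * y * x * y * x * y * y * y * y * y * x * y * x * y * y * y * y * y * x * y = r295 := by simp only [e_431_y, e_534_x, e_608_y, e_672_x, e_709_y, e_718_y, e_401_y, e_504_y, e_601_y, e_668_x, e_708_y, e_296_x, e_214_y, e_297_y, e_391_y, e_64_y, e_100_y, e_149_x, e_213_y]
  exact (mul_right_cancel (mul_right_cancel (mul_right_cancel (mul_right_cancel (mul_right_cancel (mul_right_cancel (mul_right_cancel (mul_right_cancel (mul_right_cancel (mul_right_cancel (mul_right_cancel (mul_right_cancel (mul_right_cancel (mul_right_cancel (mul_right_cancel (mul_right_cancel (mul_right_cancel (mul_right_cancel (mul_right_cancel (h.trans h2.symm))))))))))))))))))))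
theorem e_679_x : r679 * x = r702 := by
  have h := relD r308
  simp only [e_308_x, e_405_y, e_509_y, e_604_y, e_524_y, e_614_y, e_678_x, e_616_y] at h
  have h2 : r702 * y * y * y * y * y * x * y * x * y * y * y * y * y * x * y = r308 := by simp only [e_702_y, e_669_y, e_372_y, e_476_y, e_577_y, e_652_x, e_701_y, e_457_x, e_354_y, e_458_y, e_559_y, e_641_y, e_188_y, e_264_x, e_223_y]
  exact (mul_right_cancel (mul_right_cancel (mul_right_cancel (mul_right_cancel (mul_right_cancel (mul_right_cancel (mul_right_cancel (mul_right_cancel (mul_right_cancel (mul_right_cancel (mul_right_cancel (mul_right_cancel (mul_right_cancel (mul_right_cancel (mul_right_cancel (h.trans h2.symm))))))))))))))))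
theorem e_615_y : r615 * y = r455 := by
  have h := relD r326
  simp only [e_326_x, e_240_y, e_327_y, e_425_y, e_529_y, e_617_y, e_168_x, e_114_y, e_169_x, e_241_y, e_328_y, e_426_y, e_451_y, e_552_y, e_636_x, e_560_y, e_642_x, e_693_y, e_526_y] at h
  have h2 : r455 * y * y * x * y = r326 := by simp only [e_455_y, e_556_y, e_639_x, e_692_y]
  exact (mul_right_cancel (mul_right_cancel (mul_right_cancel (mul_right_cancel (h.trans h2.symm)))))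
theorem e_534_y : r534 * y = r388 := by
  have h := relD r332
  simp only [e_332_x, e_430_y, e_533_y, e_620_y, e_681_y, e_711_y, e_333_x, e_245_y, e_334_x, e_431_y] at h
  have h2 : r388 * y * y * y * x * y * x * y * y * y * y * y * x * y = r332 := by simp only [e_388_y, e_492_y, e_590_y, e_661_x, e_594_y, e_531_x, e_429_y, e_532_y, e_619_y, e_680_y, e_687_y, e_331_x, e_244_y]
  exact (mul_right_cancel (mul_right_cancel (mul_right_cancel (mul_right_cancel (mul_right_cancel (mul_right_cancel (mul_right_cancel (mul_right_cancel (mul_right_cancel (mul_right_cancel (mul_right_cancel (mul_right_cancel (mul_right_cancel (h.trans h2.symm))))))))))))))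
theorem e_604_x : r604 * x = r666 := by
  have h := relD r344
  simp only [e_344_x, e_337_y, e_435_y, e_79_y, e_120_y, e_176_y, e_248_x, e_323_y, e_422_x, e_524_y, e_614_y, e_678_y, e_405_y, e_509_y] at h
  have h2 : r666 * y * x * y * y * y * y * y * x * y = r344 := by simp only [e_666_y, e_345_x, e_257_y, e_346_y, e_446_y, e_546_y, e_125_y, e_182_x, e_256_y]
  exact (mul_right_cancel (mul_right_cancel (mul_right_cancel (mul_right_cancel (mul_right_cancel (mul_right_cancel (mul_right_cancel (mul_right_cancel (mul_right_cancel (h.trans h2.symm))))))))))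
theorem e_702_x : r702 * x = r679 := by
  have h := relD r354
  simp only [e_354_x, e_457_y, e_558_y, e_640_y, e_573_y, e_650_y, e_701_x, e_652_y] at h
  have h2 : r679 * y * y * y * y * y * x * y * x * y * y * y * y * y * x * y = r354 := by simp only [e_679_y, e_692_y, e_326_y, e_424_y, e_528_y, e_616_x, e_678_y, e_405_x, e_308_y, e_406_y, e_510_y, e_605_y, e_156_y, e_223_x, e_264_y]
  exact (mul_right_cancel (mul_right_cancel (mul_right_cancel (mul_right_cancel (mul_right_cancel (mul_right_cancel (mul_right_cancel (mul_right_cancel (mul_right_cancel (mul_right_cancel (mul_right_cancel (mul_right_cancel (mul_right_cancel (mul_right_cancel (mul_right_cancel (h.trans h2.symm))))))))))))))))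
theorem e_651_y : r651 * y = r403 := by
  have h := relD r372
  simp only [e_372_x, e_281_y, e_373_y, e_477_y, e_578_y, e_653_y, e_200_x, e_138_y, e_201_x, e_282_y, e_374_y, e_478_y, e_399_y, e_503_y, e_600_x, e_511_y, e_606_x, e_670_y, e_575_y] at h
  have h2 : r403 * y * y * x * y = r372 := by simp only [e_403_y, e_507_y, e_603_x, e_669_y]
  exact (mul_right_cancel (mul_right_cancel (mul_right_cancel (mul_right_cancel (h.trans h2.symm)))))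
theorem e_608_x : r608 * x = r534 := by
  have h := relD r388
  simp only [e_388_x, e_295_y, e_389_y, e_493_y, e_591_y, e_662_y, e_213_x, e_149_y, e_214_x, e_296_y, e_390_y, e_494_y, e_592_y, e_663_y, e_708_x, e_668_y, e_709_x, e_672_y, e_710_y, e_712_y, e_598_y, e_516_y] at h
  have h2 : r534 * y = r388 := by simp only [e_534_y]
  exact (mul_right_cancel (h.trans h2.symm))
theorem e_685_x : r685 * x = r651 := by
  have h := relD r403
  simp only [e_403_x, e_307_y, e_404_y, e_508_y, e_104_y, e_155_y, e_222_x, e_173_y, e_246_x, e_253_y, e_340_y, e_439_y, e_540_y, e_625_y, e_180_x, e_124_y, e_181_x, e_254_y, e_341_y, e_441_y, e_542_y, e_627_y] at h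
  have h2 : r651 * y = r403 := by simp only [e_651_y]
  exact (mul_right_cancel (h.trans h2.symm))
theorem e_594_x : r594 * x = r661 := by
  have h := relD r429
  simp only [e_429_x, e_531_y, e_618_y, e_301_y, e_395_y, e_498_y] at h
  have h2 : r661 * y * x * y * y * y * y * y * x * y * x * y * y * y * y * y * x * y = r429 := by simp only [e_661_y, e_431_x, e_334_y, e_432_y, e_535_y, e_621_y, e_172_y, e_245_x, e_333_y, e_430_x, e_332_y, e_48_y, e_76_y, e_117_y, e_171_y, e_244_x, e_331_y]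
  exact (mul_right_cancel (mul_right_cancel (mul_right_cancel (mul_right_cancel (mul_right_cancel (mul_right_cancel (mul_right_cancel (mul_right_cancel (mul_right_cancel (mul_right_cancel (mul_right_cancel (mul_right_cancel (mul_right_cancel (mul_right_cancel (mul_right_cancel (mul_right_cancel (mul_right_cancel (h.trans h2.symm))))))))))))))))))
theorem e_662_x : r662 * x = r615 := by
  have h := relD r455
  simp only [e_455_x, e_353_y, e_456_y, e_557_y, e_128_y, e_187_y, e_263_x, e_205_y, e_287_x, e_212_y, e_294_y, e_387_y, e_491_y, e_589_y, e_148_x, e_100_y, e_149_x, e_213_y, e_295_y, e_389_y, e_493_y, e_591_y] at h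
  have h2 : r615 * y = r455 := by simp only [e_615_y]
  exact (mul_right_cancel (h.trans h2.symm))
theorem e_632_x : r632 * x = r597 := by
  have h := relD r502
  simp only [e_502_x, e_598_y, e_516_y, e_608_y, e_672_y, e_710_y, e_712_x, e_683_y, e_713_x, e_686_y, e_714_y, e_342_y, e_442_y, e_543_y, e_628_x, e_549_y] at h
  have h2 : r597 * y * y * y * y * y * x * y = r502 := by simp only [e_597_y, e_666_y, e_345_y, e_445_y, e_545_y, e_501_x, e_398_y]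
  exact (mul_right_cancel (mul_right_cancel (mul_right_cancel (mul_right_cancel (mul_right_cancel (mul_right_cancel (mul_right_cancel (h.trans h2.symm))))))))
theorem e_596_x : r596 * x = r633 := by
  have h := relD r551
  simp only [e_551_x, e_634_y, e_565_y, e_644_y, e_695_y, e_716_y, e_706_x, e_660_y, e_707_x, e_663_y, e_708_y, e_296_y, e_390_y, e_494_y, e_592_x, e_500_y] at h
  have h2 : r633 * y * y * y * y * y * x * y = r551 := by simp only [e_633_y, e_689_y, e_299_y, e_393_y, e_496_y, e_550_x, e_450_y]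
  exact (mul_right_cancel (mul_right_cancel (mul_right_cancel (mul_right_cancel (mul_right_cancel (mul_right_cancel (mul_right_cancel (h.trans h2.symm))))))))
abbrev Idx := Fin 12 × Fin 60
noncomputable def rep_c0 : Fin 60 → P
  | ⟨0, _⟩ => r0
  | ⟨1, _⟩ => r1
  | ⟨2, _⟩ => r2
  | ⟨3, _⟩ => r3
  | ⟨4, _⟩ => r4
  | ⟨5, _⟩ => r5
  | ⟨6, _⟩ => r6
  | ⟨7, _⟩ => r7
  | ⟨8, _⟩ => r8
  | ⟨9, _⟩ => r9
  | ⟨10, _⟩ => r10
  | ⟨11, _⟩ => r11
  | ⟨12, _⟩ => r12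
  | ⟨13, _⟩ => r13
  | ⟨14, _⟩ => r14
  | ⟨15, _⟩ => r15
  | ⟨16, _⟩ => r16
  | ⟨17, _⟩ => r17
  | ⟨18, _⟩ => r18
  | ⟨19, _⟩ => r19
  | ⟨20, _⟩ => r20
  | ⟨21, _⟩ => r21
  | ⟨22, _⟩ => r22
  | ⟨23, _⟩ => r23
  | ⟨24, _⟩ => r24
  | ⟨25, _⟩ => r25
  | ⟨26, _⟩ => r26
  | ⟨27, _⟩ => r27
  | ⟨28, _⟩ => r28
  | ⟨29, _⟩ => r29
  | ⟨30, _⟩ => r30
  | ⟨31, _⟩ => r31
  | ⟨32, _⟩ => r32
  | ⟨33, _⟩ => r33
  | ⟨34, _⟩ => r34
  | ⟨35, _⟩ => r35
  | ⟨36, _⟩ => r36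
  | ⟨37, _⟩ => r37
  | ⟨38, _⟩ => r38
  | ⟨39, _⟩ => r39
  | ⟨40, _⟩ => r40
  | ⟨41, _⟩ => r41
  | ⟨42, _⟩ => r42
  | ⟨43, _⟩ => r43
  | ⟨44, _⟩ => r44
  | ⟨45, _⟩ => r45
  | ⟨46, _⟩ => r46
  | ⟨47, _⟩ => r47
  | ⟨48, _⟩ => r48
  | ⟨49, _⟩ => r49
  | ⟨50, _⟩ => r50
  | ⟨51, _⟩ => r51
  | ⟨52, _⟩ => r52
  | ⟨53, _⟩ => r53
  | ⟨54, _⟩ => r54
  | ⟨55, _⟩ => r55
  | ⟨56, _⟩ => r56
  | ⟨57, _⟩ => r57
  | ⟨58, _⟩ => r58
  | ⟨59, _⟩ => r59
  | ⟨n+60, h⟩ => absurd h (by omega)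
noncomputable def rep_c1 : Fin 60 → P
  | ⟨0, _⟩ => r60
  | ⟨1, _⟩ => r61
  | ⟨2, _⟩ => r62
  | ⟨3, _⟩ => r63
  | ⟨4, _⟩ => r64
  | ⟨5, _⟩ => r65
  | ⟨6, _⟩ => r66
  | ⟨7, _⟩ => r67
  | ⟨8, _⟩ => r68
  | ⟨9, _⟩ => r69
  | ⟨10, _⟩ => r70
  | ⟨11, _⟩ => r71
  | ⟨12, _⟩ => r72
  | ⟨13, _⟩ => r73
  | ⟨14, _⟩ => r74
  | ⟨15, _⟩ => r75
  | ⟨16, _⟩ => r76
  | ⟨17, _⟩ => r77
  | ⟨18, _⟩ => r78
  | ⟨19, _⟩ => r79
  | ⟨20, _⟩ => r80
  | ⟨21, _⟩ => r81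
  | ⟨22, _⟩ => r82
  | ⟨23, _⟩ => r83
  | ⟨24, _⟩ => r84
  | ⟨25, _⟩ => r85
  | ⟨26, _⟩ => r86
  | ⟨27, _⟩ => r87
  | ⟨28, _⟩ => r88
  | ⟨29, _⟩ => r89
  | ⟨30, _⟩ => r90
  | ⟨31, _⟩ => r91
  | ⟨32, _⟩ => r92
  | ⟨33, _⟩ => r93
  | ⟨34, _⟩ => r94
  | ⟨35, _⟩ => r95
  | ⟨36, _⟩ => r96
  | ⟨37, _⟩ => r97
  | ⟨38, _⟩ => r98
  | ⟨39, _⟩ => r99
  | ⟨40, _⟩ => r100
  | ⟨41, _⟩ => r101
  | ⟨42, _⟩ => r102
  | ⟨43, _⟩ => r103
  | ⟨44, _⟩ => r104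
  | ⟨45, _⟩ => r105
  | ⟨46, _⟩ => r106
  | ⟨47, _⟩ => r107
  | ⟨48, _⟩ => r108
  | ⟨49, _⟩ => r109
  | ⟨50, _⟩ => r110
  | ⟨51, _⟩ => r111
  | ⟨52, _⟩ => r112
  | ⟨53, _⟩ => r113
  | ⟨54, _⟩ => r114
  | ⟨55, _⟩ => r115
  | ⟨56, _⟩ => r116
  | ⟨57, _⟩ => r117
  | ⟨58, _⟩ => r118
  | ⟨59, _⟩ => r119
  | ⟨n+60, h⟩ => absurd h (by omega)
noncomputable def rep_c2 : Fin 60 → P
  | ⟨0, _⟩ => r120
  | ⟨1, _⟩ => r121
  | ⟨2, _⟩ => r122
  | ⟨3, _⟩ => r123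
  | ⟨4, _⟩ => r124
  | ⟨5, _⟩ => r125
  | ⟨6, _⟩ => r126
  | ⟨7, _⟩ => r127
  | ⟨8, _⟩ => r128
  | ⟨9, _⟩ => r129
  | ⟨10, _⟩ => r130
  | ⟨11, _⟩ => r131
  | ⟨12, _⟩ => r132
  | ⟨13, _⟩ => r133
  | ⟨14, _⟩ => r134
  | ⟨15, _⟩ => r135
  | ⟨16, _⟩ => r136
  | ⟨17, _⟩ => r137
  | ⟨18, _⟩ => r138
  | ⟨19, _⟩ => r139
  | ⟨20, _⟩ => r140
  | ⟨21, _⟩ => r141
  | ⟨22, _⟩ => r142
  | ⟨23, _⟩ => r143
  | ⟨24, _⟩ => r144
  | ⟨25, _⟩ => r145
  | ⟨26, _⟩ => r146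
  | ⟨27, _⟩ => r147
  | ⟨28, _⟩ => r148
  | ⟨29, _⟩ => r149
  | ⟨30, _⟩ => r150
  | ⟨31, _⟩ => r151
  | ⟨32, _⟩ => r152
  | ⟨33, _⟩ => r153
  | ⟨34, _⟩ => r154
  | ⟨35, _⟩ => r155
  | ⟨36, _⟩ => r156
  | ⟨37, _⟩ => r157
  | ⟨38, _⟩ => r158
  | ⟨39, _⟩ => r159
  | ⟨40, _⟩ => r160
  | ⟨41, _⟩ => r161
  | ⟨42, _⟩ => r162
  | ⟨43, _⟩ => r163
  | ⟨44, _⟩ => r164
  | ⟨45, _⟩ => r165
  | ⟨46, _⟩ => r166
  | ⟨47, _⟩ => r167
  | ⟨48, _⟩ => r168
  | ⟨49, _⟩ => r169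
  | ⟨50, _⟩ => r170
  | ⟨51, _⟩ => r171
  | ⟨52, _⟩ => r172
  | ⟨53, _⟩ => r173
  | ⟨54, _⟩ => r174
  | ⟨55, _⟩ => r175
  | ⟨56, _⟩ => r176
  | ⟨57, _⟩ => r177
  | ⟨58, _⟩ => r178
  | ⟨59, _⟩ => r179
  | ⟨n+60, h⟩ => absurd h (by omega)
noncomputable def rep_c3 : Fin 60 → P
  | ⟨0, _⟩ => r180
  | ⟨1, _⟩ => r181
  | ⟨2, _⟩ => r182
  | ⟨3, _⟩ => r183
  | ⟨4, _⟩ => r184
  | ⟨5, _⟩ => r185
  | ⟨6, _⟩ => r186
  | ⟨7, _⟩ => r187
  | ⟨8, _⟩ => r188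
  | ⟨9, _⟩ => r189
  | ⟨10, _⟩ => r190
  | ⟨11, _⟩ => r191
  | ⟨12, _⟩ => r192
  | ⟨13, _⟩ => r193
  | ⟨14, _⟩ => r194
  | ⟨15, _⟩ => r195
  | ⟨16, _⟩ => r196
  | ⟨17, _⟩ => r197
  | ⟨18, _⟩ => r198
  | ⟨19, _⟩ => r199
  | ⟨20, _⟩ => r200
  | ⟨21, _⟩ => r201
  | ⟨22, _⟩ => r202
  | ⟨23, _⟩ => r203
  | ⟨24, _⟩ => r204
  | ⟨25, _⟩ => r205
  | ⟨26, _⟩ => r206
  | ⟨27, _⟩ => r207
  | ⟨28, _⟩ => r208
  | ⟨29, _⟩ => r209
  | ⟨30, _⟩ => r210
  | ⟨31, _⟩ => r211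
  | ⟨32, _⟩ => r212
  | ⟨33, _⟩ => r213
  | ⟨34, _⟩ => r214
  | ⟨35, _⟩ => r215
  | ⟨36, _⟩ => r216
  | ⟨37, _⟩ => r217
  | ⟨38, _⟩ => r218
  | ⟨39, _⟩ => r219
  | ⟨40, _⟩ => r220
  | ⟨41, _⟩ => r221
  | ⟨42, _⟩ => r222
  | ⟨43, _⟩ => r223
  | ⟨44, _⟩ => r224
  | ⟨45, _⟩ => r225
  | ⟨46, _⟩ => r226
  | ⟨47, _⟩ => r227
  | ⟨48, _⟩ => r228
  | ⟨49, _⟩ => r229
  | ⟨50, _⟩ => r230
  | ⟨51, _⟩ => r231
  | ⟨52, _⟩ => r232
  | ⟨53, _⟩ => r233
  | ⟨54, _⟩ => r234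
  | ⟨55, _⟩ => r235
  | ⟨56, _⟩ => r236
  | ⟨57, _⟩ => r237
  | ⟨58, _⟩ => r238
  | ⟨59, _⟩ => r239
  | ⟨n+60, h⟩ => absurd h (by omega)
noncomputable def rep_c4 : Fin 60 → P
  | ⟨0, _⟩ => r240
  | ⟨1, _⟩ => r241
  | ⟨2, _⟩ => r242
  | ⟨3, _⟩ => r243
  | ⟨4, _⟩ => r244
  | ⟨5, _⟩ => r245
  | ⟨6, _⟩ => r246
  | ⟨7, _⟩ => r247
  | ⟨8, _⟩ => r248
  | ⟨9, _⟩ => r249
  | ⟨10, _⟩ => r250
  | ⟨11, _⟩ => r251
  | ⟨12, _⟩ => r252
  | ⟨13, _⟩ => r253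
  | ⟨14, _⟩ => r254
  | ⟨15, _⟩ => r255
  | ⟨16, _⟩ => r256
  | ⟨17, _⟩ => r257
  | ⟨18, _⟩ => r258
  | ⟨19, _⟩ => r259
  | ⟨20, _⟩ => r260
  | ⟨21, _⟩ => r261
  | ⟨22, _⟩ => r262
  | ⟨23, _⟩ => r263
  | ⟨24, _⟩ => r264
  | ⟨25, _⟩ => r265
  | ⟨26, _⟩ => r266
  | ⟨27, _⟩ => r267
  | ⟨28, _⟩ => r268
  | ⟨29, _⟩ => r269
  | ⟨30, _⟩ => r270
  | ⟨31, _⟩ => r271
  | ⟨32, _⟩ => r272
  | ⟨33, _⟩ => r273
  | ⟨34, _⟩ => r274
  | ⟨35, _⟩ => r275
  | ⟨36, _⟩ => r276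
  | ⟨37, _⟩ => r277
  | ⟨38, _⟩ => r278
  | ⟨39, _⟩ => r279
  | ⟨40, _⟩ => r280
  | ⟨41, _⟩ => r281
  | ⟨42, _⟩ => r282
  | ⟨43, _⟩ => r283
  | ⟨44, _⟩ => r284
  | ⟨45, _⟩ => r285
  | ⟨46, _⟩ => r286
  | ⟨47, _⟩ => r287
  | ⟨48, _⟩ => r288
  | ⟨49, _⟩ => r289
  | ⟨50, _⟩ => r290
  | ⟨51, _⟩ => r291
  | ⟨52, _⟩ => r292
  | ⟨53, _⟩ => r293
  | ⟨54, _⟩ => r294
  | ⟨55, _⟩ => r295
  | ⟨56, _⟩ => r296
  | ⟨57, _⟩ => r297
  | ⟨58, _⟩ => r298
  | ⟨59, _⟩ => r299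
  | ⟨n+60, h⟩ => absurd h (by omega)
noncomputable def rep_c5 : Fin 60 → P
  | ⟨0, _⟩ => r300
  | ⟨1, _⟩ => r301
  | ⟨2, _⟩ => r302
  | ⟨3, _⟩ => r303
  | ⟨4, _⟩ => r304
  | ⟨5, _⟩ => r305
  | ⟨6, _⟩ => r306
  | ⟨7, _⟩ => r307
  | ⟨8, _⟩ => r308
  | ⟨9, _⟩ => r309
  | ⟨10, _⟩ => r310
  | ⟨11, _⟩ => r311
  | ⟨12, _⟩ => r312
  | ⟨13, _⟩ => r313
  | ⟨14, _⟩ => r314
  | ⟨15, _⟩ => r315
  | ⟨16, _⟩ => r316
  | ⟨17, _⟩ => r317
  | ⟨18, _⟩ => r318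
  | ⟨19, _⟩ => r319
  | ⟨20, _⟩ => r320
  | ⟨21, _⟩ => r321
  | ⟨22, _⟩ => r322
  | ⟨23, _⟩ => r323
  | ⟨24, _⟩ => r324
  | ⟨25, _⟩ => r325
  | ⟨26, _⟩ => r326
  | ⟨27, _⟩ => r327
  | ⟨28, _⟩ => r328
  | ⟨29, _⟩ => r329
  | ⟨30, _⟩ => r330
  | ⟨31, _⟩ => r331
  | ⟨32, _⟩ => r332
  | ⟨33, _⟩ => r333
  | ⟨34, _⟩ => r334
  | ⟨35, _⟩ => r335
  | ⟨36, _⟩ => r336
  | ⟨37, _⟩ => r337
  | ⟨38, _⟩ => r338
  | ⟨39, _⟩ => r339
  | ⟨40, _⟩ => r340
  | ⟨41, _⟩ => r341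
  | ⟨42, _⟩ => r342
  | ⟨43, _⟩ => r343
  | ⟨44, _⟩ => r344
  | ⟨45, _⟩ => r345
  | ⟨46, _⟩ => r346
  | ⟨47, _⟩ => r347
  | ⟨48, _⟩ => r348
  | ⟨49, _⟩ => r349
  | ⟨50, _⟩ => r350
  | ⟨51, _⟩ => r351
  | ⟨52, _⟩ => r352
  | ⟨53, _⟩ => r353
  | ⟨54, _⟩ => r354
  | ⟨55, _⟩ => r355
  | ⟨56, _⟩ => r356
  | ⟨57, _⟩ => r357
  | ⟨58, _⟩ => r358
  | ⟨59, _⟩ => r359
  | ⟨n+60, h⟩ => absurd h (by omega)
noncomputable def rep_c6 : Fin 60 → P
  | ⟨0, _⟩ => r360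
  | ⟨1, _⟩ => r361
  | ⟨2, _⟩ => r362
  | ⟨3, _⟩ => r363
  | ⟨4, _⟩ => r364
  | ⟨5, _⟩ => r365
  | ⟨6, _⟩ => r366
  | ⟨7, _⟩ => r367
  | ⟨8, _⟩ => r368
  | ⟨9, _⟩ => r369
  | ⟨10, _⟩ => r370
  | ⟨11, _⟩ => r371
  | ⟨12, _⟩ => r372
  | ⟨13, _⟩ => r373
  | ⟨14, _⟩ => r374
  | ⟨15, _⟩ => r375
  | ⟨16, _⟩ => r376
  | ⟨17, _⟩ => r377
  | ⟨18, _⟩ => r378
  | ⟨19, _⟩ => r379
  | ⟨20, _⟩ => r380
  | ⟨21, _⟩ => r381
  | ⟨22, _⟩ => r382
  | ⟨23, _⟩ => r383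
  | ⟨24, _⟩ => r384
  | ⟨25, _⟩ => r385
  | ⟨26, _⟩ => r386
  | ⟨27, _⟩ => r387
  | ⟨28, _⟩ => r388
  | ⟨29, _⟩ => r389
  | ⟨30, _⟩ => r390
  | ⟨31, _⟩ => r391
  | ⟨32, _⟩ => r392
  | ⟨33, _⟩ => r393
  | ⟨34, _⟩ => r394
  | ⟨35, _⟩ => r395
  | ⟨36, _⟩ => r396
  | ⟨37, _⟩ => r397
  | ⟨38, _⟩ => r398
  | ⟨39, _⟩ => r399
  | ⟨40, _⟩ => r400
  | ⟨41, _⟩ => r401
  | ⟨42, _⟩ => r402
  | ⟨43, _⟩ => r403
  | ⟨44, _⟩ => r404
  | ⟨45, _⟩ => r405
  | ⟨46, _⟩ => r406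
  | ⟨47, _⟩ => r407
  | ⟨48, _⟩ => r408
  | ⟨49, _⟩ => r409
  | ⟨50, _⟩ => r410
  | ⟨51, _⟩ => r411
  | ⟨52, _⟩ => r412
  | ⟨53, _⟩ => r413
  | ⟨54, _⟩ => r414
  | ⟨55, _⟩ => r415
  | ⟨56, _⟩ => r416
  | ⟨57, _⟩ => r417
  | ⟨58, _⟩ => r418
  | ⟨59, _⟩ => r419
  | ⟨n+60, h⟩ => absurd h (by omega)
noncomputable def rep_c7 : Fin 60 → P
  | ⟨0, _⟩ => r420
  | ⟨1, _⟩ => r421
  | ⟨2, _⟩ => r422
  | ⟨3, _⟩ => r423
  | ⟨4, _⟩ => r424
  | ⟨5, _⟩ => r425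
  | ⟨6, _⟩ => r426
  | ⟨7, _⟩ => r427
  | ⟨8, _⟩ => r428
  | ⟨9, _⟩ => r429
  | ⟨10, _⟩ => r430
  | ⟨11, _⟩ => r431
  | ⟨12, _⟩ => r432
  | ⟨13, _⟩ => r433
  | ⟨14, _⟩ => r434
  | ⟨15, _⟩ => r435
  | ⟨16, _⟩ => r436
  | ⟨17, _⟩ => r437
  | ⟨18, _⟩ => r438
  | ⟨19, _⟩ => r439
  | ⟨20, _⟩ => r440
  | ⟨21, _⟩ => r441
  | ⟨22, _⟩ => r442
  | ⟨23, _⟩ => r443
  | ⟨24, _⟩ => r444
  | ⟨25, _⟩ => r445
  | ⟨26, _⟩ => r446
  | ⟨27, _⟩ => r447
  | ⟨28, _⟩ => r448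
  | ⟨29, _⟩ => r449
  | ⟨30, _⟩ => r450
  | ⟨31, _⟩ => r451
  | ⟨32, _⟩ => r452
  | ⟨33, _⟩ => r453
  | ⟨34, _⟩ => r454
  | ⟨35, _⟩ => r455
  | ⟨36, _⟩ => r456
  | ⟨37, _⟩ => r457
  | ⟨38, _⟩ => r458
  | ⟨39, _⟩ => r459
  | ⟨40, _⟩ => r460
  | ⟨41, _⟩ => r461
  | ⟨42, _⟩ => r462
  | ⟨43, _⟩ => r463
  | ⟨44, _⟩ => r464
  | ⟨45, _⟩ => r465
  | ⟨46, _⟩ => r466
  | ⟨47, _⟩ => r467
  | ⟨48, _⟩ => r468
  | ⟨49, _⟩ => r469
  | ⟨50, _⟩ => r470
  | ⟨51, _⟩ => r471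
  | ⟨52, _⟩ => r472
  | ⟨53, _⟩ => r473
  | ⟨54, _⟩ => r474
  | ⟨55, _⟩ => r475
  | ⟨56, _⟩ => r476
  | ⟨57, _⟩ => r477
  | ⟨58, _⟩ => r478
  | ⟨59, _⟩ => r479
  | ⟨n+60, h⟩ => absurd h (by omega)
noncomputable def rep_c8 : Fin 60 → P
  | ⟨0, _⟩ => r480
  | ⟨1, _⟩ => r481
  | ⟨2, _⟩ => r482
  | ⟨3, _⟩ => r483
  | ⟨4, _⟩ => r484
  | ⟨5, _⟩ => r485
  | ⟨6, _⟩ => r486
  | ⟨7, _⟩ => r487
  | ⟨8, _⟩ => r488
  | ⟨9, _⟩ => r489
  | ⟨10, _⟩ => r490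
  | ⟨11, _⟩ => r491
  | ⟨12, _⟩ => r492
  | ⟨13, _⟩ => r493
  | ⟨14, _⟩ => r494
  | ⟨15, _⟩ => r495
  | ⟨16, _⟩ => r496
  | ⟨17, _⟩ => r497
  | ⟨18, _⟩ => r498
  | ⟨19, _⟩ => r499
  | ⟨20, _⟩ => r500
  | ⟨21, _⟩ => r501
  | ⟨22, _⟩ => r502
  | ⟨23, _⟩ => r503
  | ⟨24, _⟩ => r504
  | ⟨25, _⟩ => r505
  | ⟨26, _⟩ => r506
  | ⟨27, _⟩ => r507
  | ⟨28, _⟩ => r508
  | ⟨29, _⟩ => r509
  | ⟨30, _⟩ => r510
  | ⟨31, _⟩ => r511
  | ⟨32, _⟩ => r512
  | ⟨33, _⟩ => r513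
  | ⟨34, _⟩ => r514
  | ⟨35, _⟩ => r515
  | ⟨36, _⟩ => r516
  | ⟨37, _⟩ => r517
  | ⟨38, _⟩ => r518
  | ⟨39, _⟩ => r519
  | ⟨40, _⟩ => r520
  | ⟨41, _⟩ => r521
  | ⟨42, _⟩ => r522
  | ⟨43, _⟩ => r523
  | ⟨44, _⟩ => r524
  | ⟨45, _⟩ => r525
  | ⟨46, _⟩ => r526
  | ⟨47, _⟩ => r527
  | ⟨48, _⟩ => r528
  | ⟨49, _⟩ => r529
  | ⟨50, _⟩ => r530
  | ⟨51, _⟩ => r531
  | ⟨52, _⟩ => r532
  | ⟨53, _⟩ => r533
  | ⟨54, _⟩ => r534
  | ⟨55, _⟩ => r535
  | ⟨56, _⟩ => r536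
  | ⟨57, _⟩ => r537
  | ⟨58, _⟩ => r538
  | ⟨59, _⟩ => r539
  | ⟨n+60, h⟩ => absurd h (by omega)
noncomputable def rep_c9 : Fin 60 → P
  | ⟨0, _⟩ => r540
  | ⟨1, _⟩ => r541
  | ⟨2, _⟩ => r542
  | ⟨3, _⟩ => r543
  | ⟨4, _⟩ => r544
  | ⟨5, _⟩ => r545
  | ⟨6, _⟩ => r546
  | ⟨7, _⟩ => r547
  | ⟨8, _⟩ => r548
  | ⟨9, _⟩ => r549
  | ⟨10, _⟩ => r550
  | ⟨11, _⟩ => r551
  | ⟨12, _⟩ => r552
  | ⟨13, _⟩ => r553
  | ⟨14, _⟩ => r554
  | ⟨15, _⟩ => r555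
  | ⟨16, _⟩ => r556
  | ⟨17, _⟩ => r557
  | ⟨18, _⟩ => r558
  | ⟨19, _⟩ => r559
  | ⟨20, _⟩ => r560
  | ⟨21, _⟩ => r561
  | ⟨22, _⟩ => r562
  | ⟨23, _⟩ => r563
  | ⟨24, _⟩ => r564
  | ⟨25, _⟩ => r565
  | ⟨26, _⟩ => r566
  | ⟨27, _⟩ => r567
  | ⟨28, _⟩ => r568
  | ⟨29, _⟩ => r569
  | ⟨30, _⟩ => r570
  | ⟨31, _⟩ => r571
  | ⟨32, _⟩ => r572
  | ⟨33, _⟩ => r573
  | ⟨34, _⟩ => r574
  | ⟨35, _⟩ => r575
  | ⟨36, _⟩ => r576
  | ⟨37, _⟩ => r577
  | ⟨38, _⟩ => r578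
  | ⟨39, _⟩ => r579
  | ⟨40, _⟩ => r580
  | ⟨41, _⟩ => r581
  | ⟨42, _⟩ => r582
  | ⟨43, _⟩ => r583
  | ⟨44, _⟩ => r584
  | ⟨45, _⟩ => r585
  | ⟨46, _⟩ => r586
  | ⟨47, _⟩ => r587
  | ⟨48, _⟩ => r588
  | ⟨49, _⟩ => r589
  | ⟨50, _⟩ => r590
  | ⟨51, _⟩ => r591
  | ⟨52, _⟩ => r592
  | ⟨53, _⟩ => r593
  | ⟨54, _⟩ => r594
  | ⟨55, _⟩ => r595
  | ⟨56, _⟩ => r596
  | ⟨57, _⟩ => r597
  | ⟨58, _⟩ => r598
  | ⟨59, _⟩ => r599
  | ⟨n+60, h⟩ => absurd h (by omega)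
noncomputable def rep_c10 : Fin 60 → P
  | ⟨0, _⟩ => r600
  | ⟨1, _⟩ => r601
  | ⟨2, _⟩ => r602
  | ⟨3, _⟩ => r603
  | ⟨4, _⟩ => r604
  | ⟨5, _⟩ => r605
  | ⟨6, _⟩ => r606
  | ⟨7, _⟩ => r607
  | ⟨8, _⟩ => r608
  | ⟨9, _⟩ => r609
  | ⟨10, _⟩ => r610
  | ⟨11, _⟩ => r611
  | ⟨12, _⟩ => r612
  | ⟨13, _⟩ => r613
  | ⟨14, _⟩ => r614
  | ⟨15, _⟩ => r615
  | ⟨16, _⟩ => r616
  | ⟨17, _⟩ => r617
  | ⟨18, _⟩ => r618
  | ⟨19, _⟩ => r619
  | ⟨20, _⟩ => r620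
  | ⟨21, _⟩ => r621
  | ⟨22, _⟩ => r622
  | ⟨23, _⟩ => r623
  | ⟨24, _⟩ => r624
  | ⟨25, _⟩ => r625
  | ⟨26, _⟩ => r626
  | ⟨27, _⟩ => r627
  | ⟨28, _⟩ => r628
  | ⟨29, _⟩ => r629
  | ⟨30, _⟩ => r630
  | ⟨31, _⟩ => r631
  | ⟨32, _⟩ => r632
  | ⟨33, _⟩ => r633
  | ⟨34, _⟩ => r634
  | ⟨35, _⟩ => r635
  | ⟨36, _⟩ => r636
  | ⟨37, _⟩ => r637
  | ⟨38, _⟩ => r638
  | ⟨39, _⟩ => r639
  | ⟨40, _⟩ => r640
  | ⟨41, _⟩ => r641
  | ⟨42, _⟩ => r642
  | ⟨43, _⟩ => r643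
  | ⟨44, _⟩ => r644
  | ⟨45, _⟩ => r645
  | ⟨46, _⟩ => r646
  | ⟨47, _⟩ => r647
  | ⟨48, _⟩ => r648
  | ⟨49, _⟩ => r649
  | ⟨50, _⟩ => r650
  | ⟨51, _⟩ => r651
  | ⟨52, _⟩ => r652
  | ⟨53, _⟩ => r653
  | ⟨54, _⟩ => r654
  | ⟨55, _⟩ => r655
  | ⟨56, _⟩ => r656
  | ⟨57, _⟩ => r657
  | ⟨58, _⟩ => r658
  | ⟨59, _⟩ => r659
  | ⟨n+60, h⟩ => absurd h (by omega)
noncomputable def rep_c11 : Fin 60 → P
  | ⟨0, _⟩ => r660
  | ⟨1, _⟩ => r661
  | ⟨2, _⟩ => r662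
  | ⟨3, _⟩ => r663
  | ⟨4, _⟩ => r664
  | ⟨5, _⟩ => r665
  | ⟨6, _⟩ => r666
  | ⟨7, _⟩ => r667
  | ⟨8, _⟩ => r668
  | ⟨9, _⟩ => r669
  | ⟨10, _⟩ => r670
  | ⟨11, _⟩ => r671
  | ⟨12, _⟩ => r672
  | ⟨13, _⟩ => r673
  | ⟨14, _⟩ => r674
  | ⟨15, _⟩ => r675
  | ⟨16, _⟩ => r676
  | ⟨17, _⟩ => r677
  | ⟨18, _⟩ => r678
  | ⟨19, _⟩ => r679
  | ⟨20, _⟩ => r680
  | ⟨21, _⟩ => r681
  | ⟨22, _⟩ => r682
  | ⟨23, _⟩ => r683
  | ⟨24, _⟩ => r684
  | ⟨25, _⟩ => r685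
  | ⟨26, _⟩ => r686
  | ⟨27, _⟩ => r687
  | ⟨28, _⟩ => r688
  | ⟨29, _⟩ => r689
  | ⟨30, _⟩ => r690
  | ⟨31, _⟩ => r691
  | ⟨32, _⟩ => r692
  | ⟨33, _⟩ => r693
  | ⟨34, _⟩ => r694
  | ⟨35, _⟩ => r695
  | ⟨36, _⟩ => r696
  | ⟨37, _⟩ => r697
  | ⟨38, _⟩ => r698
  | ⟨39, _⟩ => r699
  | ⟨40, _⟩ => r700
  | ⟨41, _⟩ => r701
  | ⟨42, _⟩ => r702
  | ⟨43, _⟩ => r703
  | ⟨44, _⟩ => r704
  | ⟨45, _⟩ => r705
  | ⟨46, _⟩ => r706
  | ⟨47, _⟩ => r707
  | ⟨48, _⟩ => r708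
  | ⟨49, _⟩ => r709
  | ⟨50, _⟩ => r710
  | ⟨51, _⟩ => r711
  | ⟨52, _⟩ => r712
  | ⟨53, _⟩ => r713
  | ⟨54, _⟩ => r714
  | ⟨55, _⟩ => r715
  | ⟨56, _⟩ => r716
  | ⟨57, _⟩ => r717
  | ⟨58, _⟩ => r718
  | ⟨59, _⟩ => r719
  | ⟨n+60, h⟩ => absurd h (by omega)
noncomputable def rep_ch : Fin 12 → Fin 60 → P
  | ⟨0, _⟩ => rep_c0
  | ⟨1, _⟩ => rep_c1
  | ⟨2, _⟩ => rep_c2
  | ⟨3, _⟩ => rep_c3
  | ⟨4, _⟩ => rep_c4
  | ⟨5, _⟩ => rep_c5
  | ⟨6, _⟩ => rep_c6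
  | ⟨7, _⟩ => rep_c7
  | ⟨8, _⟩ => rep_c8
  | ⟨9, _⟩ => rep_c9
  | ⟨10, _⟩ => rep_c10
  | ⟨11, _⟩ => rep_c11
  | ⟨n+12, h⟩ => absurd h (by omega)
noncomputable def rep (i : Idx) : P := rep_ch i.1 i.2
def nx_x_c0 : Fin 60 → Idx
  | ⟨0, _⟩ => (0, 1)
  | ⟨1, _⟩ => (0, 0)
  | ⟨2, _⟩ => (0, 4)
  | ⟨3, _⟩ => (0, 6)
  | ⟨4, _⟩ => (0, 2)
  | ⟨5, _⟩ => (0, 9)
  | ⟨6, _⟩ => (0, 3)
  | ⟨7, _⟩ => (0, 12)
  | ⟨8, _⟩ => (0, 14)
  | ⟨9, _⟩ => (0, 5)
  | ⟨10, _⟩ => (0, 17)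
  | ⟨11, _⟩ => (0, 19)
  | ⟨12, _⟩ => (0, 7)
  | ⟨13, _⟩ => (0, 22)
  | ⟨14, _⟩ => (0, 8)
  | ⟨15, _⟩ => (0, 25)
  | ⟨16, _⟩ => (0, 27)
  | ⟨17, _⟩ => (0, 10)
  | ⟨18, _⟩ => (0, 30)
  | ⟨19, _⟩ => (0, 11)
  | ⟨20, _⟩ => (0, 33)
  | ⟨21, _⟩ => (0, 35)
  | ⟨22, _⟩ => (0, 13)
  | ⟨23, _⟩ => (0, 38)
  | ⟨24, _⟩ => (0, 40)
  | ⟨25, _⟩ => (0, 15)
  | ⟨26, _⟩ => (0, 43)
  | ⟨27, _⟩ => (0, 16)
  | ⟨28, _⟩ => (0, 46)
  | ⟨29, _⟩ => (0, 48)
  | ⟨30, _⟩ => (0, 18)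
  | ⟨31, _⟩ => (0, 51)
  | ⟨32, _⟩ => (0, 52)
  | ⟨33, _⟩ => (0, 20)
  | ⟨34, _⟩ => (0, 55)
  | ⟨35, _⟩ => (0, 21)
  | ⟨36, _⟩ => (0, 58)
  | ⟨37, _⟩ => (1, 0)
  | ⟨38, _⟩ => (0, 23)
  | ⟨39, _⟩ => (1, 3)
  | ⟨40, _⟩ => (0, 24)
  | ⟨41, _⟩ => (1, 4)
  | ⟨42, _⟩ => (1, 6)
  | ⟨43, _⟩ => (0, 26)
  | ⟨44, _⟩ => (1, 9)
  | ⟨45, _⟩ => (1, 11)
  | ⟨46, _⟩ => (0, 28)
  | ⟨47, _⟩ => (1, 14)
  | ⟨48, _⟩ => (0, 29)
  | ⟨49, _⟩ => (1, 17)
  | ⟨50, _⟩ => (1, 19)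
  | ⟨51, _⟩ => (0, 31)
  | ⟨52, _⟩ => (0, 32)
  | ⟨53, _⟩ => (1, 22)
  | ⟨54, _⟩ => (1, 24)
  | ⟨55, _⟩ => (0, 34)
  | ⟨56, _⟩ => (1, 27)
  | ⟨57, _⟩ => (1, 29)
  | ⟨58, _⟩ => (0, 36)
  | ⟨59, _⟩ => (1, 32)
  | ⟨n+60, h⟩ => absurd h (by omega)
def nx_x_c1 : Fin 60 → Idx
  | ⟨0, _⟩ => (0, 37)
  | ⟨1, _⟩ => (1, 35)
  | ⟨2, _⟩ => (1, 37)
  | ⟨3, _⟩ => (0, 39)
  | ⟨4, _⟩ => (0, 41)
  | ⟨5, _⟩ => (1, 41)
  | ⟨6, _⟩ => (0, 42)
  | ⟨7, _⟩ => (1, 44)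
  | ⟨8, _⟩ => (1, 46)
  | ⟨9, _⟩ => (0, 44)
  | ⟨10, _⟩ => (1, 49)
  | ⟨11, _⟩ => (0, 45)
  | ⟨12, _⟩ => (1, 50)
  | ⟨13, _⟩ => (1, 52)
  | ⟨14, _⟩ => (0, 47)
  | ⟨15, _⟩ => (1, 33)
  | ⟨16, _⟩ => (1, 56)
  | ⟨17, _⟩ => (0, 49)
  | ⟨18, _⟩ => (1, 36)
  | ⟨19, _⟩ => (0, 50)
  | ⟨20, _⟩ => (1, 38)
  | ⟨21, _⟩ => (2, 2)
  | ⟨22, _⟩ => (0, 53)
  | ⟨23, _⟩ => (2, 5)
  | ⟨24, _⟩ => (0, 54)
  | ⟨25, _⟩ => (2, 8)
  | ⟨26, _⟩ => (2, 10)
  | ⟨27, _⟩ => (0, 56)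
  | ⟨28, _⟩ => (2, 13)
  | ⟨29, _⟩ => (0, 57)
  | ⟨30, _⟩ => (2, 14)
  | ⟨31, _⟩ => (2, 16)
  | ⟨32, _⟩ => (0, 59)
  | ⟨33, _⟩ => (1, 15)
  | ⟨34, _⟩ => (2, 20)
  | ⟨35, _⟩ => (1, 1)
  | ⟨36, _⟩ => (1, 18)
  | ⟨37, _⟩ => (1, 2)
  | ⟨38, _⟩ => (1, 20)
  | ⟨39, _⟩ => (2, 26)
  | ⟨40, _⟩ => (2, 28)
  | ⟨41, _⟩ => (1, 5)
  | ⟨42, _⟩ => (2, 31)
  | ⟨43, _⟩ => (2, 33)
  | ⟨44, _⟩ => (1, 7)
  | ⟨45, _⟩ => (2, 36)
  | ⟨46, _⟩ => (1, 8)
  | ⟨47, _⟩ => (2, 39)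
  | ⟨48, _⟩ => (2, 41)
  | ⟨49, _⟩ => (1, 10)
  | ⟨50, _⟩ => (1, 12)
  | ⟨51, _⟩ => (2, 15)
  | ⟨52, _⟩ => (1, 13)
  | ⟨53, _⟩ => (2, 17)
  | ⟨54, _⟩ => (2, 48)
  | ⟨55, _⟩ => (2, 50)
  | ⟨56, _⟩ => (1, 16)
  | ⟨57, _⟩ => (2, 21)
  | ⟨58, _⟩ => (2, 52)
  | ⟨59, _⟩ => (2, 37)
  | ⟨n+60, h⟩ => absurd h (by omega)
def nx_x_c2 : Fin 60 → Idx
  | ⟨0, _⟩ => (2, 55)
  | ⟨1, _⟩ => (2, 40)
  | ⟨2, _⟩ => (1, 21)
  | ⟨3, _⟩ => (2, 42)
  | ⟨4, _⟩ => (3, 0)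
  | ⟨5, _⟩ => (1, 23)
  | ⟨6, _⟩ => (3, 3)
  | ⟨7, _⟩ => (3, 5)
  | ⟨8, _⟩ => (1, 25)
  | ⟨9, _⟩ => (3, 8)
  | ⟨10, _⟩ => (1, 26)
  | ⟨11, _⟩ => (3, 11)
  | ⟨12, _⟩ => (3, 13)
  | ⟨13, _⟩ => (1, 28)
  | ⟨14, _⟩ => (1, 30)
  | ⟨15, _⟩ => (1, 51)
  | ⟨16, _⟩ => (1, 31)
  | ⟨17, _⟩ => (1, 53)
  | ⟨18, _⟩ => (3, 20)
  | ⟨19, _⟩ => (3, 22)
  | ⟨20, _⟩ => (1, 34)
  | ⟨21, _⟩ => (1, 57)
  | ⟨22, _⟩ => (3, 24)
  | ⟨23, _⟩ => (3, 9)
  | ⟨24, _⟩ => (3, 27)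
  | ⟨25, _⟩ => (3, 12)
  | ⟨26, _⟩ => (1, 39)
  | ⟨27, _⟩ => (3, 14)
  | ⟨28, _⟩ => (1, 40)
  | ⟨29, _⟩ => (3, 33)
  | ⟨30, _⟩ => (3, 35)
  | ⟨31, _⟩ => (1, 42)
  | ⟨32, _⟩ => (3, 38)
  | ⟨33, _⟩ => (1, 43)
  | ⟨34, _⟩ => (3, 39)
  | ⟨35, _⟩ => (3, 41)
  | ⟨36, _⟩ => (1, 45)
  | ⟨37, _⟩ => (1, 59)
  | ⟨38, _⟩ => (3, 45)
  | ⟨39, _⟩ => (1, 47)
  | ⟨40, _⟩ => (2, 1)
  | ⟨41, _⟩ => (1, 48)
  | ⟨42, _⟩ => (2, 3)
  | ⟨43, _⟩ => (3, 15)
  | ⟨44, _⟩ => (3, 52)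
  | ⟨45, _⟩ => (3, 54)
  | ⟨46, _⟩ => (3, 56)
  | ⟨47, _⟩ => (3, 58)
  | ⟨48, _⟩ => (1, 54)
  | ⟨49, _⟩ => (4, 1)
  | ⟨50, _⟩ => (1, 55)
  | ⟨51, _⟩ => (3, 40)
  | ⟨52, _⟩ => (1, 58)
  | ⟨53, _⟩ => (3, 42)
  | ⟨54, _⟩ => (4, 7)
  | ⟨55, _⟩ => (2, 0)
  | ⟨56, _⟩ => (3, 46)
  | ⟨57, _⟩ => (3, 59)
  | ⟨58, _⟩ => (4, 10)
  | ⟨59, _⟩ => (4, 2)
  | ⟨n+60, h⟩ => absurd h (by omega)
def nx_x_c3 : Fin 60 → Idx
  | ⟨0, _⟩ => (2, 4)
  | ⟨1, _⟩ => (4, 14)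
  | ⟨2, _⟩ => (4, 16)
  | ⟨3, _⟩ => (2, 6)
  | ⟨4, _⟩ => (4, 19)
  | ⟨5, _⟩ => (2, 7)
  | ⟨6, _⟩ => (4, 20)
  | ⟨7, _⟩ => (4, 22)
  | ⟨8, _⟩ => (2, 9)
  | ⟨9, _⟩ => (2, 23)
  | ⟨10, _⟩ => (4, 26)
  | ⟨11, _⟩ => (2, 11)
  | ⟨12, _⟩ => (2, 25)
  | ⟨13, _⟩ => (2, 12)
  | ⟨14, _⟩ => (2, 27)
  | ⟨15, _⟩ => (2, 43)
  | ⟨16, _⟩ => (4, 33)
  | ⟨17, _⟩ => (4, 35)
  | ⟨18, _⟩ => (4, 37)
  | ⟨19, _⟩ => (4, 39)
  | ⟨20, _⟩ => (2, 18)
  | ⟨21, _⟩ => (4, 42)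
  | ⟨22, _⟩ => (2, 19)
  | ⟨23, _⟩ => (4, 21)
  | ⟨24, _⟩ => (2, 22)
  | ⟨25, _⟩ => (4, 23)
  | ⟨26, _⟩ => (4, 48)
  | ⟨27, _⟩ => (2, 24)
  | ⟨28, _⟩ => (4, 27)
  | ⟨29, _⟩ => (4, 40)
  | ⟨30, _⟩ => (4, 51)
  | ⟨31, _⟩ => (4, 43)
  | ⟨32, _⟩ => (4, 47)
  | ⟨33, _⟩ => (2, 29)
  | ⟨34, _⟩ => (4, 56)
  | ⟨35, _⟩ => (2, 30)
  | ⟨36, _⟩ => (4, 59)
  | ⟨37, _⟩ => (5, 1)
  | ⟨38, _⟩ => (2, 32)
  | ⟨39, _⟩ => (2, 34)
  | ⟨40, _⟩ => (2, 51)
  | ⟨41, _⟩ => (2, 35)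
  | ⟨42, _⟩ => (2, 53)
  | ⟨43, _⟩ => (4, 24)
  | ⟨44, _⟩ => (5, 9)
  | ⟨45, _⟩ => (2, 38)
  | ⟨46, _⟩ => (2, 56)
  | ⟨47, _⟩ => (4, 28)
  | ⟨48, _⟩ => (4, 57)
  | ⟨49, _⟩ => (5, 13)
  | ⟨50, _⟩ => (5, 0)
  | ⟨51, _⟩ => (5, 2)
  | ⟨52, _⟩ => (2, 44)
  | ⟨53, _⟩ => (5, 18)
  | ⟨54, _⟩ => (2, 45)
  | ⟨55, _⟩ => (5, 21)
  | ⟨56, _⟩ => (2, 46)
  | ⟨57, _⟩ => (5, 22)
  | ⟨58, _⟩ => (2, 47)
  | ⟨59, _⟩ => (2, 57)
  | ⟨n+60, h⟩ => absurd h (by omega)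
def nx_x_c4 : Fin 60 → Idx
  | ⟨0, _⟩ => (5, 26)
  | ⟨1, _⟩ => (2, 49)
  | ⟨2, _⟩ => (2, 59)
  | ⟨3, _⟩ => (5, 3)
  | ⟨4, _⟩ => (5, 31)
  | ⟨5, _⟩ => (5, 33)
  | ⟨6, _⟩ => (4, 13)
  | ⟨7, _⟩ => (2, 54)
  | ⟨8, _⟩ => (5, 23)
  | ⟨9, _⟩ => (5, 38)
  | ⟨10, _⟩ => (2, 58)
  | ⟨11, _⟩ => (5, 27)
  | ⟨12, _⟩ => (5, 35)
  | ⟨13, _⟩ => (4, 6)
  | ⟨14, _⟩ => (3, 1)
  | ⟨15, _⟩ => (5, 42)
  | ⟨16, _⟩ => (3, 2)
  | ⟨17, _⟩ => (5, 45)
  | ⟨18, _⟩ => (5, 47)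
  | ⟨19, _⟩ => (3, 4)
  | ⟨20, _⟩ => (3, 6)
  | ⟨21, _⟩ => (3, 23)
  | ⟨22, _⟩ => (3, 7)
  | ⟨23, _⟩ => (3, 25)
  | ⟨24, _⟩ => (3, 43)
  | ⟨25, _⟩ => (5, 55)
  | ⟨26, _⟩ => (3, 10)
  | ⟨27, _⟩ => (3, 28)
  | ⟨28, _⟩ => (3, 47)
  | ⟨29, _⟩ => (5, 43)
  | ⟨30, _⟩ => (5, 59)
  | ⟨31, _⟩ => (5, 46)
  | ⟨32, _⟩ => (5, 48)
  | ⟨33, _⟩ => (3, 16)
  | ⟨34, _⟩ => (6, 4)
  | ⟨35, _⟩ => (3, 17)
  | ⟨36, _⟩ => (6, 7)
  | ⟨37, _⟩ => (3, 18)
  | ⟨38, _⟩ => (6, 8)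
  | ⟨39, _⟩ => (3, 19)
  | ⟨40, _⟩ => (3, 29)
  | ⟨41, _⟩ => (6, 12)
  | ⟨42, _⟩ => (3, 21)
  | ⟨43, _⟩ => (3, 31)
  | ⟨44, _⟩ => (5, 49)
  | ⟨45, _⟩ => (6, 17)
  | ⟨46, _⟩ => (6, 19)
  | ⟨47, _⟩ => (3, 32)
  | ⟨48, _⟩ => (3, 26)
  | ⟨49, _⟩ => (6, 9)
  | ⟨50, _⟩ => (6, 24)
  | ⟨51, _⟩ => (3, 30)
  | ⟨52, _⟩ => (6, 13)
  | ⟨53, _⟩ => (6, 21)
  | ⟨54, _⟩ => (6, 26)
  | ⟨55, _⟩ => (6, 28)
  | ⟨56, _⟩ => (3, 34)
  | ⟨57, _⟩ => (3, 48)
  | ⟨58, _⟩ => (6, 23)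
  | ⟨59, _⟩ => (3, 36)
  | ⟨n+60, h⟩ => absurd h (by omega)
def nx_x_c5 : Fin 60 → Idx
  | ⟨0, _⟩ => (3, 50)
  | ⟨1, _⟩ => (3, 37)
  | ⟨2, _⟩ => (3, 51)
  | ⟨3, _⟩ => (4, 3)
  | ⟨4, _⟩ => (5, 50)
  | ⟨5, _⟩ => (6, 39)
  | ⟨6, _⟩ => (6, 41)
  | ⟨7, _⟩ => (6, 43)
  | ⟨8, _⟩ => (6, 45)
  | ⟨9, _⟩ => (3, 44)
  | ⟨10, _⟩ => (6, 27)
  | ⟨11, _⟩ => (6, 29)
  | ⟨12, _⟩ => (6, 50)
  | ⟨13, _⟩ => (3, 49)
  | ⟨14, _⟩ => (6, 32)
  | ⟨15, _⟩ => (6, 44)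
  | ⟨16, _⟩ => (6, 46)
  | ⟨17, _⟩ => (6, 49)
  | ⟨18, _⟩ => (3, 53)
  | ⟨19, _⟩ => (6, 56)
  | ⟨20, _⟩ => (6, 58)
  | ⟨21, _⟩ => (3, 55)
  | ⟨22, _⟩ => (3, 57)
  | ⟨23, _⟩ => (4, 8)
  | ⟨24, _⟩ => (6, 30)
  | ⟨25, _⟩ => (7, 4)
  | ⟨26, _⟩ => (4, 0)
  | ⟨27, _⟩ => (4, 11)
  | ⟨28, _⟩ => (6, 33)
  | ⟨29, _⟩ => (6, 57)
  | ⟨30, _⟩ => (6, 59)
  | ⟨31, _⟩ => (4, 4)
  | ⟨32, _⟩ => (7, 10)
  | ⟨33, _⟩ => (4, 5)
  | ⟨34, _⟩ => (7, 11)
  | ⟨35, _⟩ => (4, 12)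
  | ⟨36, _⟩ => (7, 0)
  | ⟨37, _⟩ => (5, 44)
  | ⟨38, _⟩ => (4, 9)
  | ⟨39, _⟩ => (7, 12)
  | ⟨40, _⟩ => (7, 18)
  | ⟨41, _⟩ => (7, 20)
  | ⟨42, _⟩ => (4, 15)
  | ⟨43, _⟩ => (4, 29)
  | ⟨44, _⟩ => (5, 37)
  | ⟨45, _⟩ => (4, 17)
  | ⟨46, _⟩ => (4, 31)
  | ⟨47, _⟩ => (4, 18)
  | ⟨48, _⟩ => (4, 32)
  | ⟨49, _⟩ => (4, 44)
  | ⟨50, _⟩ => (5, 4)
  | ⟨51, _⟩ => (7, 31)
  | ⟨52, _⟩ => (7, 33)
  | ⟨53, _⟩ => (7, 35)
  | ⟨54, _⟩ => (7, 37)
  | ⟨55, _⟩ => (4, 25)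
  | ⟨56, _⟩ => (7, 19)
  | ⟨57, _⟩ => (7, 21)
  | ⟨58, _⟩ => (7, 42)
  | ⟨59, _⟩ => (4, 30)
  | ⟨n+60, h⟩ => absurd h (by omega)
def nx_x_c6 : Fin 60 → Idx
  | ⟨0, _⟩ => (7, 24)
  | ⟨1, _⟩ => (7, 36)
  | ⟨2, _⟩ => (7, 38)
  | ⟨3, _⟩ => (7, 41)
  | ⟨4, _⟩ => (4, 34)
  | ⟨5, _⟩ => (7, 48)
  | ⟨6, _⟩ => (7, 50)
  | ⟨7, _⟩ => (4, 36)
  | ⟨8, _⟩ => (4, 38)
  | ⟨9, _⟩ => (4, 49)
  | ⟨10, _⟩ => (7, 22)
  | ⟨11, _⟩ => (7, 56)
  | ⟨12, _⟩ => (4, 41)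
  | ⟨13, _⟩ => (4, 52)
  | ⟨14, _⟩ => (7, 25)
  | ⟨15, _⟩ => (7, 49)
  | ⟨16, _⟩ => (7, 51)
  | ⟨17, _⟩ => (4, 45)
  | ⟨18, _⟩ => (8, 2)
  | ⟨19, _⟩ => (4, 46)
  | ⟨20, _⟩ => (8, 3)
  | ⟨21, _⟩ => (4, 53)
  | ⟨22, _⟩ => (7, 52)
  | ⟨23, _⟩ => (4, 58)
  | ⟨24, _⟩ => (4, 50)
  | ⟨25, _⟩ => (8, 4)
  | ⟨26, _⟩ => (4, 54)
  | ⟨27, _⟩ => (5, 10)
  | ⟨28, _⟩ => (4, 55)
  | ⟨29, _⟩ => (5, 11)
  | ⟨30, _⟩ => (5, 24)
  | ⟨31, _⟩ => (8, 7)
  | ⟨32, _⟩ => (5, 14)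
  | ⟨33, _⟩ => (5, 28)
  | ⟨34, _⟩ => (8, 9)
  | ⟨35, _⟩ => (7, 27)
  | ⟨36, _⟩ => (7, 44)
  | ⟨37, _⟩ => (7, 59)
  | ⟨38, _⟩ => (8, 21)
  | ⟨39, _⟩ => (5, 5)
  | ⟨40, _⟩ => (8, 24)
  | ⟨41, _⟩ => (5, 6)
  | ⟨42, _⟩ => (8, 25)
  | ⟨43, _⟩ => (5, 7)
  | ⟨44, _⟩ => (5, 15)
  | ⟨45, _⟩ => (5, 8)
  | ⟨46, _⟩ => (5, 16)
  | ⟨47, _⟩ => (8, 5)
  | ⟨48, _⟩ => (8, 32)
  | ⟨49, _⟩ => (5, 17)
  | ⟨50, _⟩ => (5, 12)
  | ⟨51, _⟩ => (8, 26)
  | ⟨52, _⟩ => (7, 28)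
  | ⟨53, _⟩ => (8, 34)
  | ⟨54, _⟩ => (8, 36)
  | ⟨55, _⟩ => (8, 38)
  | ⟨56, _⟩ => (5, 19)
  | ⟨57, _⟩ => (5, 29)
  | ⟨58, _⟩ => (5, 20)
  | ⟨59, _⟩ => (5, 30)
  | ⟨n+60, h⟩ => absurd h (by omega)
def nx_x_c7 : Fin 60 → Idx
  | ⟨0, _⟩ => (5, 36)
  | ⟨1, _⟩ => (8, 10)
  | ⟨2, _⟩ => (8, 44)
  | ⟨3, _⟩ => (8, 46)
  | ⟨4, _⟩ => (5, 25)
  | ⟨5, _⟩ => (8, 37)
  | ⟨6, _⟩ => (8, 39)
  | ⟨7, _⟩ => (7, 29)
  | ⟨8, _⟩ => (8, 47)
  | ⟨9, _⟩ => (8, 51)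
  | ⟨10, _⟩ => (5, 32)
  | ⟨11, _⟩ => (5, 34)
  | ⟨12, _⟩ => (5, 39)
  | ⟨13, _⟩ => (7, 39)
  | ⟨14, _⟩ => (8, 52)
  | ⟨15, _⟩ => (7, 23)
  | ⟨16, _⟩ => (8, 53)
  | ⟨17, _⟩ => (7, 26)
  | ⟨18, _⟩ => (5, 40)
  | ⟨19, _⟩ => (5, 56)
  | ⟨20, _⟩ => (5, 41)
  | ⟨21, _⟩ => (5, 57)
  | ⟨22, _⟩ => (6, 10)
  | ⟨23, _⟩ => (7, 15)
  | ⟨24, _⟩ => (6, 0)
  | ⟨25, _⟩ => (6, 14)
  | ⟨26, _⟩ => (7, 17)
  | ⟨27, _⟩ => (6, 35)
  | ⟨28, _⟩ => (6, 52)
  | ⟨29, _⟩ => (7, 7)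
  | ⟨30, _⟩ => (9, 10)
  | ⟨31, _⟩ => (5, 51)
  | ⟨32, _⟩ => (9, 13)
  | ⟨33, _⟩ => (5, 52)
  | ⟨34, _⟩ => (9, 14)
  | ⟨35, _⟩ => (5, 53)
  | ⟨36, _⟩ => (6, 1)
  | ⟨37, _⟩ => (5, 54)
  | ⟨38, _⟩ => (6, 2)
  | ⟨39, _⟩ => (7, 13)
  | ⟨40, _⟩ => (9, 21)
  | ⟨41, _⟩ => (6, 3)
  | ⟨42, _⟩ => (5, 58)
  | ⟨43, _⟩ => (9, 15)
  | ⟨44, _⟩ => (6, 36)
  | ⟨45, _⟩ => (9, 23)
  | ⟨46, _⟩ => (9, 25)
  | ⟨47, _⟩ => (9, 27)
  | ⟨48, _⟩ => (6, 5)
  | ⟨49, _⟩ => (6, 15)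
  | ⟨50, _⟩ => (6, 6)
  | ⟨51, _⟩ => (6, 16)
  | ⟨52, _⟩ => (6, 22)
  | ⟨53, _⟩ => (8, 59)
  | ⟨54, _⟩ => (9, 33)
  | ⟨55, _⟩ => (9, 35)
  | ⟨56, _⟩ => (6, 11)
  | ⟨57, _⟩ => (9, 26)
  | ⟨58, _⟩ => (9, 28)
  | ⟨59, _⟩ => (6, 37)
  | ⟨n+60, h⟩ => absurd h (by omega)
def nx_x_c8 : Fin 60 → Idx
  | ⟨0, _⟩ => (9, 36)
  | ⟨1, _⟩ => (9, 40)
  | ⟨2, _⟩ => (6, 18)
  | ⟨3, _⟩ => (6, 20)
  | ⟨4, _⟩ => (6, 25)
  | ⟨5, _⟩ => (6, 47)
  | ⟨6, _⟩ => (9, 41)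
  | ⟨7, _⟩ => (6, 31)
  | ⟨8, _⟩ => (9, 42)
  | ⟨9, _⟩ => (6, 34)
  | ⟨10, _⟩ => (7, 1)
  | ⟨11, _⟩ => (9, 45)
  | ⟨12, _⟩ => (9, 1)
  | ⟨13, _⟩ => (9, 22)
  | ⟨14, _⟩ => (9, 34)
  | ⟨15, _⟩ => (9, 46)
  | ⟨16, _⟩ => (9, 38)
  | ⟨17, _⟩ => (9, 7)
  | ⟨18, _⟩ => (9, 6)
  | ⟨19, _⟩ => (9, 51)
  | ⟨20, _⟩ => (9, 52)
  | ⟨21, _⟩ => (6, 38)
  | ⟨22, _⟩ => (9, 58)
  | ⟨23, _⟩ => (9, 39)
  | ⟨24, _⟩ => (6, 40)
  | ⟨25, _⟩ => (6, 42)
  | ⟨26, _⟩ => (6, 51)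
  | ⟨27, _⟩ => (9, 44)
  | ⟨28, _⟩ => (9, 18)
  | ⟨29, _⟩ => (9, 17)
  | ⟨30, _⟩ => (9, 59)
  | ⟨31, _⟩ => (10, 0)
  | ⟨32, _⟩ => (6, 48)
  | ⟨33, _⟩ => (9, 2)
  | ⟨34, _⟩ => (6, 53)
  | ⟨35, _⟩ => (10, 1)
  | ⟨36, _⟩ => (6, 54)
  | ⟨37, _⟩ => (7, 5)
  | ⟨38, _⟩ => (6, 55)
  | ⟨39, _⟩ => (7, 6)
  | ⟨40, _⟩ => (9, 30)
  | ⟨41, _⟩ => (9, 29)
  | ⟨42, _⟩ => (9, 55)
  | ⟨43, _⟩ => (10, 5)
  | ⟨44, _⟩ => (7, 2)
  | ⟨45, _⟩ => (9, 3)
  | ⟨46, _⟩ => (7, 3)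
  | ⟨47, _⟩ => (7, 8)
  | ⟨48, _⟩ => (10, 7)
  | ⟨49, _⟩ => (9, 5)
  | ⟨50, _⟩ => (9, 12)
  | ⟨51, _⟩ => (7, 9)
  | ⟨52, _⟩ => (7, 14)
  | ⟨53, _⟩ => (7, 16)
  | ⟨54, _⟩ => (10, 8)
  | ⟨55, _⟩ => (9, 16)
  | ⟨56, _⟩ => (9, 0)
  | ⟨57, _⟩ => (9, 4)
  | ⟨58, _⟩ => (9, 47)
  | ⟨59, _⟩ => (7, 53)
  | ⟨n+60, h⟩ => absurd h (by omega)
def nx_x_c9 : Fin 60 → Idx
  | ⟨0, _⟩ => (8, 56)
  | ⟨1, _⟩ => (8, 12)
  | ⟨2, _⟩ => (8, 33)
  | ⟨3, _⟩ => (8, 45)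
  | ⟨4, _⟩ => (8, 57)
  | ⟨5, _⟩ => (8, 49)
  | ⟨6, _⟩ => (8, 18)
  | ⟨7, _⟩ => (8, 17)
  | ⟨8, _⟩ => (10, 27)
  | ⟨9, _⟩ => (10, 28)
  | ⟨10, _⟩ => (7, 30)
  | ⟨11, _⟩ => (10, 34)
  | ⟨12, _⟩ => (8, 50)
  | ⟨13, _⟩ => (7, 32)
  | ⟨14, _⟩ => (7, 34)
  | ⟨15, _⟩ => (7, 43)
  | ⟨16, _⟩ => (8, 55)
  | ⟨17, _⟩ => (8, 29)
  | ⟨18, _⟩ => (8, 28)
  | ⟨19, _⟩ => (10, 35)
  | ⟨20, _⟩ => (10, 36)
  | ⟨21, _⟩ => (7, 40)
  | ⟨22, _⟩ => (8, 13)
  | ⟨23, _⟩ => (7, 45)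
  | ⟨24, _⟩ => (10, 37)
  | ⟨25, _⟩ => (7, 46)
  | ⟨26, _⟩ => (7, 57)
  | ⟨27, _⟩ => (7, 47)
  | ⟨28, _⟩ => (7, 58)
  | ⟨29, _⟩ => (8, 41)
  | ⟨30, _⟩ => (8, 40)
  | ⟨31, _⟩ => (10, 31)
  | ⟨32, _⟩ => (10, 41)
  | ⟨33, _⟩ => (7, 54)
  | ⟨34, _⟩ => (8, 14)
  | ⟨35, _⟩ => (7, 55)
  | ⟨36, _⟩ => (8, 0)
  | ⟨37, _⟩ => (10, 43)
  | ⟨38, _⟩ => (8, 16)
  | ⟨39, _⟩ => (8, 23)
  | ⟨40, _⟩ => (8, 1)
  | ⟨41, _⟩ => (8, 6)
  | ⟨42, _⟩ => (8, 8)
  | ⟨43, _⟩ => (10, 44)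
  | ⟨44, _⟩ => (8, 27)
  | ⟨45, _⟩ => (8, 11)
  | ⟨46, _⟩ => (8, 15)
  | ⟨47, _⟩ => (8, 58)
  | ⟨48, _⟩ => (10, 49)
  | ⟨49, _⟩ => (10, 26)
  | ⟨50, _⟩ => (10, 25)
  | ⟨51, _⟩ => (8, 19)
  | ⟨52, _⟩ => (8, 20)
  | ⟨53, _⟩ => (11, 4)
  | ⟨54, _⟩ => (11, 1)
  | ⟨55, _⟩ => (8, 42)
  | ⟨56, _⟩ => (10, 33)
  | ⟨57, _⟩ => (10, 32)
  | ⟨58, _⟩ => (8, 22)
  | ⟨59, _⟩ => (8, 30)
  | ⟨n+60, h⟩ => absurd h (by omega)
def nx_x_c10 : Fin 60 → Idx
  | ⟨0, _⟩ => (8, 31)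
  | ⟨1, _⟩ => (8, 35)
  | ⟨2, _⟩ => (10, 56)
  | ⟨3, _⟩ => (11, 9)
  | ⟨4, _⟩ => (11, 6)
  | ⟨5, _⟩ => (8, 43)
  | ⟨6, _⟩ => (11, 10)
  | ⟨7, _⟩ => (8, 48)
  | ⟨8, _⟩ => (8, 54)
  | ⟨9, _⟩ => (10, 46)
  | ⟨10, _⟩ => (10, 45)
  | ⟨11, _⟩ => (11, 5)
  | ⟨12, _⟩ => (11, 15)
  | ⟨13, _⟩ => (10, 24)
  | ⟨14, _⟩ => (11, 11)
  | ⟨15, _⟩ => (11, 2)
  | ⟨16, _⟩ => (11, 18)
  | ⟨17, _⟩ => (10, 53)
  | ⟨18, _⟩ => (11, 7)
  | ⟨19, _⟩ => (11, 16)
  | ⟨20, _⟩ => (10, 38)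
  | ⟨21, _⟩ => (10, 57)
  | ⟨22, _⟩ => (10, 58)
  | ⟨23, _⟩ => (10, 59)
  | ⟨24, _⟩ => (10, 13)
  | ⟨25, _⟩ => (9, 50)
  | ⟨26, _⟩ => (9, 49)
  | ⟨27, _⟩ => (9, 8)
  | ⟨28, _⟩ => (9, 9)
  | ⟨29, _⟩ => (11, 27)
  | ⟨30, _⟩ => (11, 24)
  | ⟨31, _⟩ => (9, 31)
  | ⟨32, _⟩ => (9, 57)
  | ⟨33, _⟩ => (9, 56)
  | ⟨34, _⟩ => (9, 11)
  | ⟨35, _⟩ => (9, 19)
  | ⟨36, _⟩ => (9, 20)
  | ⟨37, _⟩ => (9, 24)
  | ⟨38, _⟩ => (10, 20)
  | ⟨39, _⟩ => (11, 32)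
  | ⟨40, _⟩ => (11, 29)
  | ⟨41, _⟩ => (9, 32)
  | ⟨42, _⟩ => (11, 33)
  | ⟨43, _⟩ => (9, 37)
  | ⟨44, _⟩ => (9, 43)
  | ⟨45, _⟩ => (10, 10)
  | ⟨46, _⟩ => (10, 9)
  | ⟨47, _⟩ => (11, 28)
  | ⟨48, _⟩ => (11, 38)
  | ⟨49, _⟩ => (9, 48)
  | ⟨50, _⟩ => (11, 34)
  | ⟨51, _⟩ => (11, 25)
  | ⟨52, _⟩ => (11, 41)
  | ⟨53, _⟩ => (10, 17)
  | ⟨54, _⟩ => (11, 30)
  | ⟨55, _⟩ => (11, 39)
  | ⟨56, _⟩ => (10, 2)
  | ⟨57, _⟩ => (10, 21)
  | ⟨58, _⟩ => (10, 22)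
  | ⟨59, _⟩ => (10, 23)
  | ⟨n+60, h⟩ => absurd h (by omega)
def nx_x_c11 : Fin 60 → Idx
  | ⟨0, _⟩ => (11, 46)
  | ⟨1, _⟩ => (9, 54)
  | ⟨2, _⟩ => (10, 15)
  | ⟨3, _⟩ => (11, 47)
  | ⟨4, _⟩ => (9, 53)
  | ⟨5, _⟩ => (10, 11)
  | ⟨6, _⟩ => (10, 4)
  | ⟨7, _⟩ => (10, 18)
  | ⟨8, _⟩ => (11, 48)
  | ⟨9, _⟩ => (10, 3)
  | ⟨10, _⟩ => (10, 6)
  | ⟨11, _⟩ => (10, 14)
  | ⟨12, _⟩ => (11, 49)
  | ⟨13, _⟩ => (11, 36)
  | ⟨14, _⟩ => (11, 45)
  | ⟨15, _⟩ => (10, 12)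
  | ⟨16, _⟩ => (10, 19)
  | ⟨17, _⟩ => (11, 40)
  | ⟨18, _⟩ => (10, 16)
  | ⟨19, _⟩ => (11, 42)
  | ⟨20, _⟩ => (11, 43)
  | ⟨21, _⟩ => (11, 44)
  | ⟨22, _⟩ => (11, 37)
  | ⟨23, _⟩ => (11, 52)
  | ⟨24, _⟩ => (10, 30)
  | ⟨25, _⟩ => (10, 51)
  | ⟨26, _⟩ => (11, 53)
  | ⟨27, _⟩ => (10, 29)
  | ⟨28, _⟩ => (10, 47)
  | ⟨29, _⟩ => (10, 40)
  | ⟨30, _⟩ => (10, 54)
  | ⟨31, _⟩ => (11, 54)
  | ⟨32, _⟩ => (10, 39)
  | ⟨33, _⟩ => (10, 42)
  | ⟨34, _⟩ => (10, 50)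
  | ⟨35, _⟩ => (11, 55)
  | ⟨36, _⟩ => (11, 13)
  | ⟨37, _⟩ => (11, 22)
  | ⟨38, _⟩ => (10, 48)
  | ⟨39, _⟩ => (10, 55)
  | ⟨40, _⟩ => (11, 17)
  | ⟨41, _⟩ => (10, 52)
  | ⟨42, _⟩ => (11, 19)
  | ⟨43, _⟩ => (11, 20)
  | ⟨44, _⟩ => (11, 21)
  | ⟨45, _⟩ => (11, 14)
  | ⟨46, _⟩ => (11, 0)
  | ⟨47, _⟩ => (11, 3)
  | ⟨48, _⟩ => (11, 8)
  | ⟨49, _⟩ => (11, 12)
  | ⟨50, _⟩ => (11, 56)
  | ⟨51, _⟩ => (11, 58)
  | ⟨52, _⟩ => (11, 23)
  | ⟨53, _⟩ => (11, 26)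
  | ⟨54, _⟩ => (11, 31)
  | ⟨55, _⟩ => (11, 35)
  | ⟨56, _⟩ => (11, 50)
  | ⟨57, _⟩ => (11, 59)
  | ⟨58, _⟩ => (11, 51)
  | ⟨59, _⟩ => (11, 57)
  | ⟨n+60, h⟩ => absurd h (by omega)
def nx_x_ch : Fin 12 → Fin 60 → Idx
  | ⟨0, _⟩ => nx_x_c0
  | ⟨1, _⟩ => nx_x_c1
  | ⟨2, _⟩ => nx_x_c2
  | ⟨3, _⟩ => nx_x_c3
  | ⟨4, _⟩ => nx_x_c4
  | ⟨5, _⟩ => nx_x_c5
  | ⟨6, _⟩ => nx_x_c6
  | ⟨7, _⟩ => nx_x_c7
  | ⟨8, _⟩ => nx_x_c8
  | ⟨9, _⟩ => nx_x_c9
  | ⟨10, _⟩ => nx_x_c10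
  | ⟨11, _⟩ => nx_x_c11
  | ⟨n+12, h⟩ => absurd h (by omega)
def nx_x (i : Idx) : Idx := nx_x_ch i.1 i.2
def px_x_c0 : Fin 60 → Idx
  | ⟨0, _⟩ => (0, 1)
  | ⟨1, _⟩ => (0, 0)
  | ⟨2, _⟩ => (0, 4)
  | ⟨3, _⟩ => (0, 6)
  | ⟨4, _⟩ => (0, 2)
  | ⟨5, _⟩ => (0, 9)
  | ⟨6, _⟩ => (0, 3)
  | ⟨7, _⟩ => (0, 12)
  | ⟨8, _⟩ => (0, 14)
  | ⟨9, _⟩ => (0, 5)
  | ⟨10, _⟩ => (0, 17)
  | ⟨11, _⟩ => (0, 19)
  | ⟨12, _⟩ => (0, 7)
  | ⟨13, _⟩ => (0, 22)
  | ⟨14, _⟩ => (0, 8)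
  | ⟨15, _⟩ => (0, 25)
  | ⟨16, _⟩ => (0, 27)
  | ⟨17, _⟩ => (0, 10)
  | ⟨18, _⟩ => (0, 30)
  | ⟨19, _⟩ => (0, 11)
  | ⟨20, _⟩ => (0, 33)
  | ⟨21, _⟩ => (0, 35)
  | ⟨22, _⟩ => (0, 13)
  | ⟨23, _⟩ => (0, 38)
  | ⟨24, _⟩ => (0, 40)
  | ⟨25, _⟩ => (0, 15)
  | ⟨26, _⟩ => (0, 43)
  | ⟨27, _⟩ => (0, 16)
  | ⟨28, _⟩ => (0, 46)
  | ⟨29, _⟩ => (0, 48)
  | ⟨30, _⟩ => (0, 18)
  | ⟨31, _⟩ => (0, 51)
  | ⟨32, _⟩ => (0, 52)
  | ⟨33, _⟩ => (0, 20)
  | ⟨34, _⟩ => (0, 55)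
  | ⟨35, _⟩ => (0, 21)
  | ⟨36, _⟩ => (0, 58)
  | ⟨37, _⟩ => (1, 0)
  | ⟨38, _⟩ => (0, 23)
  | ⟨39, _⟩ => (1, 3)
  | ⟨40, _⟩ => (0, 24)
  | ⟨41, _⟩ => (1, 4)
  | ⟨42, _⟩ => (1, 6)
  | ⟨43, _⟩ => (0, 26)
  | ⟨44, _⟩ => (1, 9)
  | ⟨45, _⟩ => (1, 11)
  | ⟨46, _⟩ => (0, 28)
  | ⟨47, _⟩ => (1, 14)
  | ⟨48, _⟩ => (0, 29)
  | ⟨49, _⟩ => (1, 17)
  | ⟨50, _⟩ => (1, 19)
  | ⟨51, _⟩ => (0, 31)
  | ⟨52, _⟩ => (0, 32)
  | ⟨53, _⟩ => (1, 22)
  | ⟨54, _⟩ => (1, 24)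
  | ⟨55, _⟩ => (0, 34)
  | ⟨56, _⟩ => (1, 27)
  | ⟨57, _⟩ => (1, 29)
  | ⟨58, _⟩ => (0, 36)
  | ⟨59, _⟩ => (1, 32)
  | ⟨n+60, h⟩ => absurd h (by omega)
def px_x_c1 : Fin 60 → Idx
  | ⟨0, _⟩ => (0, 37)
  | ⟨1, _⟩ => (1, 35)
  | ⟨2, _⟩ => (1, 37)
  | ⟨3, _⟩ => (0, 39)
  | ⟨4, _⟩ => (0, 41)
  | ⟨5, _⟩ => (1, 41)
  | ⟨6, _⟩ => (0, 42)
  | ⟨7, _⟩ => (1, 44)
  | ⟨8, _⟩ => (1, 46)
  | ⟨9, _⟩ => (0, 44)
  | ⟨10, _⟩ => (1, 49)
  | ⟨11, _⟩ => (0, 45)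
  | ⟨12, _⟩ => (1, 50)
  | ⟨13, _⟩ => (1, 52)
  | ⟨14, _⟩ => (0, 47)
  | ⟨15, _⟩ => (1, 33)
  | ⟨16, _⟩ => (1, 56)
  | ⟨17, _⟩ => (0, 49)
  | ⟨18, _⟩ => (1, 36)
  | ⟨19, _⟩ => (0, 50)
  | ⟨20, _⟩ => (1, 38)
  | ⟨21, _⟩ => (2, 2)
  | ⟨22, _⟩ => (0, 53)
  | ⟨23, _⟩ => (2, 5)
  | ⟨24, _⟩ => (0, 54)
  | ⟨25, _⟩ => (2, 8)
  | ⟨26, _⟩ => (2, 10)
  | ⟨27, _⟩ => (0, 56)
  | ⟨28, _⟩ => (2, 13)
  | ⟨29, _⟩ => (0, 57)
  | ⟨30, _⟩ => (2, 14)
  | ⟨31, _⟩ => (2, 16)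
  | ⟨32, _⟩ => (0, 59)
  | ⟨33, _⟩ => (1, 15)
  | ⟨34, _⟩ => (2, 20)
  | ⟨35, _⟩ => (1, 1)
  | ⟨36, _⟩ => (1, 18)
  | ⟨37, _⟩ => (1, 2)
  | ⟨38, _⟩ => (1, 20)
  | ⟨39, _⟩ => (2, 26)
  | ⟨40, _⟩ => (2, 28)
  | ⟨41, _⟩ => (1, 5)
  | ⟨42, _⟩ => (2, 31)
  | ⟨43, _⟩ => (2, 33)
  | ⟨44, _⟩ => (1, 7)
  | ⟨45, _⟩ => (2, 36)
  | ⟨46, _⟩ => (1, 8)
  | ⟨47, _⟩ => (2, 39)
  | ⟨48, _⟩ => (2, 41)
  | ⟨49, _⟩ => (1, 10)
  | ⟨50, _⟩ => (1, 12)
  | ⟨51, _⟩ => (2, 15)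
  | ⟨52, _⟩ => (1, 13)
  | ⟨53, _⟩ => (2, 17)
  | ⟨54, _⟩ => (2, 48)
  | ⟨55, _⟩ => (2, 50)
  | ⟨56, _⟩ => (1, 16)
  | ⟨57, _⟩ => (2, 21)
  | ⟨58, _⟩ => (2, 52)
  | ⟨59, _⟩ => (2, 37)
  | ⟨n+60, h⟩ => absurd h (by omega)
def px_x_c2 : Fin 60 → Idx
  | ⟨0, _⟩ => (2, 55)
  | ⟨1, _⟩ => (2, 40)
  | ⟨2, _⟩ => (1, 21)
  | ⟨3, _⟩ => (2, 42)
  | ⟨4, _⟩ => (3, 0)
  | ⟨5, _⟩ => (1, 23)
  | ⟨6, _⟩ => (3, 3)
  | ⟨7, _⟩ => (3, 5)
  | ⟨8, _⟩ => (1, 25)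
  | ⟨9, _⟩ => (3, 8)
  | ⟨10, _⟩ => (1, 26)
  | ⟨11, _⟩ => (3, 11)
  | ⟨12, _⟩ => (3, 13)
  | ⟨13, _⟩ => (1, 28)
  | ⟨14, _⟩ => (1, 30)
  | ⟨15, _⟩ => (1, 51)
  | ⟨16, _⟩ => (1, 31)
  | ⟨17, _⟩ => (1, 53)
  | ⟨18, _⟩ => (3, 20)
  | ⟨19, _⟩ => (3, 22)
  | ⟨20, _⟩ => (1, 34)
  | ⟨21, _⟩ => (1, 57)
  | ⟨22, _⟩ => (3, 24)
  | ⟨23, _⟩ => (3, 9)
  | ⟨24, _⟩ => (3, 27)
  | ⟨25, _⟩ => (3, 12)
  | ⟨26, _⟩ => (1, 39)
  | ⟨27, _⟩ => (3, 14)
  | ⟨28, _⟩ => (1, 40)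
  | ⟨29, _⟩ => (3, 33)
  | ⟨30, _⟩ => (3, 35)
  | ⟨31, _⟩ => (1, 42)
  | ⟨32, _⟩ => (3, 38)
  | ⟨33, _⟩ => (1, 43)
  | ⟨34, _⟩ => (3, 39)
  | ⟨35, _⟩ => (3, 41)
  | ⟨36, _⟩ => (1, 45)
  | ⟨37, _⟩ => (1, 59)
  | ⟨38, _⟩ => (3, 45)
  | ⟨39, _⟩ => (1, 47)
  | ⟨40, _⟩ => (2, 1)
  | ⟨41, _⟩ => (1, 48)
  | ⟨42, _⟩ => (2, 3)
  | ⟨43, _⟩ => (3, 15)
  | ⟨44, _⟩ => (3, 52)
  | ⟨45, _⟩ => (3, 54)
  | ⟨46, _⟩ => (3, 56)
  | ⟨47, _⟩ => (3, 58)
  | ⟨48, _⟩ => (1, 54)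
  | ⟨49, _⟩ => (4, 1)
  | ⟨50, _⟩ => (1, 55)
  | ⟨51, _⟩ => (3, 40)
  | ⟨52, _⟩ => (1, 58)
  | ⟨53, _⟩ => (3, 42)
  | ⟨54, _⟩ => (4, 7)
  | ⟨55, _⟩ => (2, 0)
  | ⟨56, _⟩ => (3, 46)
  | ⟨57, _⟩ => (3, 59)
  | ⟨58, _⟩ => (4, 10)
  | ⟨59, _⟩ => (4, 2)
  | ⟨n+60, h⟩ => absurd h (by omega)
def px_x_c3 : Fin 60 → Idx
  | ⟨0, _⟩ => (2, 4)
  | ⟨1, _⟩ => (4, 14)
  | ⟨2, _⟩ => (4, 16)
  | ⟨3, _⟩ => (2, 6)
  | ⟨4, _⟩ => (4, 19)
  | ⟨5, _⟩ => (2, 7)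
  | ⟨6, _⟩ => (4, 20)
  | ⟨7, _⟩ => (4, 22)
  | ⟨8, _⟩ => (2, 9)
  | ⟨9, _⟩ => (2, 23)
  | ⟨10, _⟩ => (4, 26)
  | ⟨11, _⟩ => (2, 11)
  | ⟨12, _⟩ => (2, 25)
  | ⟨13, _⟩ => (2, 12)
  | ⟨14, _⟩ => (2, 27)
  | ⟨15, _⟩ => (2, 43)
  | ⟨16, _⟩ => (4, 33)
  | ⟨17, _⟩ => (4, 35)
  | ⟨18, _⟩ => (4, 37)
  | ⟨19, _⟩ => (4, 39)
  | ⟨20, _⟩ => (2, 18)
  | ⟨21, _⟩ => (4, 42)
  | ⟨22, _⟩ => (2, 19)
  | ⟨23, _⟩ => (4, 21)
  | ⟨24, _⟩ => (2, 22)
  | ⟨25, _⟩ => (4, 23)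
  | ⟨26, _⟩ => (4, 48)
  | ⟨27, _⟩ => (2, 24)
  | ⟨28, _⟩ => (4, 27)
  | ⟨29, _⟩ => (4, 40)
  | ⟨30, _⟩ => (4, 51)
  | ⟨31, _⟩ => (4, 43)
  | ⟨32, _⟩ => (4, 47)
  | ⟨33, _⟩ => (2, 29)
  | ⟨34, _⟩ => (4, 56)
  | ⟨35, _⟩ => (2, 30)
  | ⟨36, _⟩ => (4, 59)
  | ⟨37, _⟩ => (5, 1)
  | ⟨38, _⟩ => (2, 32)
  | ⟨39, _⟩ => (2, 34)
  | ⟨40, _⟩ => (2, 51)
  | ⟨41, _⟩ => (2, 35)
  | ⟨42, _⟩ => (2, 53)
  | ⟨43, _⟩ => (4, 24)
  | ⟨44, _⟩ => (5, 9)
  | ⟨45, _⟩ => (2, 38)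
  | ⟨46, _⟩ => (2, 56)
  | ⟨47, _⟩ => (4, 28)
  | ⟨48, _⟩ => (4, 57)
  | ⟨49, _⟩ => (5, 13)
  | ⟨50, _⟩ => (5, 0)
  | ⟨51, _⟩ => (5, 2)
  | ⟨52, _⟩ => (2, 44)
  | ⟨53, _⟩ => (5, 18)
  | ⟨54, _⟩ => (2, 45)
  | ⟨55, _⟩ => (5, 21)
  | ⟨56, _⟩ => (2, 46)
  | ⟨57, _⟩ => (5, 22)
  | ⟨58, _⟩ => (2, 47)
  | ⟨59, _⟩ => (2, 57)
  | ⟨n+60, h⟩ => absurd h (by omega)
def px_x_c4 : Fin 60 → Idx
  | ⟨0, _⟩ => (5, 26)
  | ⟨1, _⟩ => (2, 49)
  | ⟨2, _⟩ => (2, 59)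
  | ⟨3, _⟩ => (5, 3)
  | ⟨4, _⟩ => (5, 31)
  | ⟨5, _⟩ => (5, 33)
  | ⟨6, _⟩ => (4, 13)
  | ⟨7, _⟩ => (2, 54)
  | ⟨8, _⟩ => (5, 23)
  | ⟨9, _⟩ => (5, 38)
  | ⟨10, _⟩ => (2, 58)
  | ⟨11, _⟩ => (5, 27)
  | ⟨12, _⟩ => (5, 35)
  | ⟨13, _⟩ => (4, 6)
  | ⟨14, _⟩ => (3, 1)
  | ⟨15, _⟩ => (5, 42)
  | ⟨16, _⟩ => (3, 2)
  | ⟨17, _⟩ => (5, 45)
  | ⟨18, _⟩ => (5, 47)
  | ⟨19, _⟩ => (3, 4)
  | ⟨20, _⟩ => (3, 6)
  | ⟨21, _⟩ => (3, 23)
  | ⟨22, _⟩ => (3, 7)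
  | ⟨23, _⟩ => (3, 25)
  | ⟨24, _⟩ => (3, 43)
  | ⟨25, _⟩ => (5, 55)
  | ⟨26, _⟩ => (3, 10)
  | ⟨27, _⟩ => (3, 28)
  | ⟨28, _⟩ => (3, 47)
  | ⟨29, _⟩ => (5, 43)
  | ⟨30, _⟩ => (5, 59)
  | ⟨31, _⟩ => (5, 46)
  | ⟨32, _⟩ => (5, 48)
  | ⟨33, _⟩ => (3, 16)
  | ⟨34, _⟩ => (6, 4)
  | ⟨35, _⟩ => (3, 17)
  | ⟨36, _⟩ => (6, 7)
  | ⟨37, _⟩ => (3, 18)
  | ⟨38, _⟩ => (6, 8)
  | ⟨39, _⟩ => (3, 19)
  | ⟨40, _⟩ => (3, 29)
  | ⟨41, _⟩ => (6, 12)
  | ⟨42, _⟩ => (3, 21)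
  | ⟨43, _⟩ => (3, 31)
  | ⟨44, _⟩ => (5, 49)
  | ⟨45, _⟩ => (6, 17)
  | ⟨46, _⟩ => (6, 19)
  | ⟨47, _⟩ => (3, 32)
  | ⟨48, _⟩ => (3, 26)
  | ⟨49, _⟩ => (6, 9)
  | ⟨50, _⟩ => (6, 24)
  | ⟨51, _⟩ => (3, 30)
  | ⟨52, _⟩ => (6, 13)
  | ⟨53, _⟩ => (6, 21)
  | ⟨54, _⟩ => (6, 26)
  | ⟨55, _⟩ => (6, 28)
  | ⟨56, _⟩ => (3, 34)
  | ⟨57, _⟩ => (3, 48)
  | ⟨58, _⟩ => (6, 23)
  | ⟨59, _⟩ => (3, 36)
  | ⟨n+60, h⟩ => absurd h (by omega)
def px_x_c5 : Fin 60 → Idx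
  | ⟨0, _⟩ => (3, 50)
  | ⟨1, _⟩ => (3, 37)
  | ⟨2, _⟩ => (3, 51)
  | ⟨3, _⟩ => (4, 3)
  | ⟨4, _⟩ => (5, 50)
  | ⟨5, _⟩ => (6, 39)
  | ⟨6, _⟩ => (6, 41)
  | ⟨7, _⟩ => (6, 43)
  | ⟨8, _⟩ => (6, 45)
  | ⟨9, _⟩ => (3, 44)
  | ⟨10, _⟩ => (6, 27)
  | ⟨11, _⟩ => (6, 29)
  | ⟨12, _⟩ => (6, 50)
  | ⟨13, _⟩ => (3, 49)
  | ⟨14, _⟩ => (6, 32)
  | ⟨15, _⟩ => (6, 44)
  | ⟨16, _⟩ => (6, 46)
  | ⟨17, _⟩ => (6, 49)
  | ⟨18, _⟩ => (3, 53)
  | ⟨19, _⟩ => (6, 56)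
  | ⟨20, _⟩ => (6, 58)
  | ⟨21, _⟩ => (3, 55)
  | ⟨22, _⟩ => (3, 57)
  | ⟨23, _⟩ => (4, 8)
  | ⟨24, _⟩ => (6, 30)
  | ⟨25, _⟩ => (7, 4)
  | ⟨26, _⟩ => (4, 0)
  | ⟨27, _⟩ => (4, 11)
  | ⟨28, _⟩ => (6, 33)
  | ⟨29, _⟩ => (6, 57)
  | ⟨30, _⟩ => (6, 59)
  | ⟨31, _⟩ => (4, 4)
  | ⟨32, _⟩ => (7, 10)
  | ⟨33, _⟩ => (4, 5)
  | ⟨34, _⟩ => (7, 11)
  | ⟨35, _⟩ => (4, 12)
  | ⟨36, _⟩ => (7, 0)
  | ⟨37, _⟩ => (5, 44)
  | ⟨38, _⟩ => (4, 9)
  | ⟨39, _⟩ => (7, 12)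
  | ⟨40, _⟩ => (7, 18)
  | ⟨41, _⟩ => (7, 20)
  | ⟨42, _⟩ => (4, 15)
  | ⟨43, _⟩ => (4, 29)
  | ⟨44, _⟩ => (5, 37)
  | ⟨45, _⟩ => (4, 17)
  | ⟨46, _⟩ => (4, 31)
  | ⟨47, _⟩ => (4, 18)
  | ⟨48, _⟩ => (4, 32)
  | ⟨49, _⟩ => (4, 44)
  | ⟨50, _⟩ => (5, 4)
  | ⟨51, _⟩ => (7, 31)
  | ⟨52, _⟩ => (7, 33)
  | ⟨53, _⟩ => (7, 35)
  | ⟨54, _⟩ => (7, 37)
  | ⟨55, _⟩ => (4, 25)
  | ⟨56, _⟩ => (7, 19)
  | ⟨57, _⟩ => (7, 21)
  | ⟨58, _⟩ => (7, 42)
  | ⟨59, _⟩ => (4, 30)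
  | ⟨n+60, h⟩ => absurd h (by omega)
def px_x_c6 : Fin 60 → Idx
  | ⟨0, _⟩ => (7, 24)
  | ⟨1, _⟩ => (7, 36)
  | ⟨2, _⟩ => (7, 38)
  | ⟨3, _⟩ => (7, 41)
  | ⟨4, _⟩ => (4, 34)
  | ⟨5, _⟩ => (7, 48)
  | ⟨6, _⟩ => (7, 50)
  | ⟨7, _⟩ => (4, 36)
  | ⟨8, _⟩ => (4, 38)
  | ⟨9, _⟩ => (4, 49)
  | ⟨10, _⟩ => (7, 22)
  | ⟨11, _⟩ => (7, 56)
  | ⟨12, _⟩ => (4, 41)
  | ⟨13, _⟩ => (4, 52)
  | ⟨14, _⟩ => (7, 25)
  | ⟨15, _⟩ => (7, 49)
  | ⟨16, _⟩ => (7, 51)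
  | ⟨17, _⟩ => (4, 45)
  | ⟨18, _⟩ => (8, 2)
  | ⟨19, _⟩ => (4, 46)
  | ⟨20, _⟩ => (8, 3)
  | ⟨21, _⟩ => (4, 53)
  | ⟨22, _⟩ => (7, 52)
  | ⟨23, _⟩ => (4, 58)
  | ⟨24, _⟩ => (4, 50)
  | ⟨25, _⟩ => (8, 4)
  | ⟨26, _⟩ => (4, 54)
  | ⟨27, _⟩ => (5, 10)
  | ⟨28, _⟩ => (4, 55)
  | ⟨29, _⟩ => (5, 11)
  | ⟨30, _⟩ => (5, 24)
  | ⟨31, _⟩ => (8, 7)
  | ⟨32, _⟩ => (5, 14)
  | ⟨33, _⟩ => (5, 28)
  | ⟨34, _⟩ => (8, 9)
  | ⟨35, _⟩ => (7, 27)
  | ⟨36, _⟩ => (7, 44)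
  | ⟨37, _⟩ => (7, 59)
  | ⟨38, _⟩ => (8, 21)
  | ⟨39, _⟩ => (5, 5)
  | ⟨40, _⟩ => (8, 24)
  | ⟨41, _⟩ => (5, 6)
  | ⟨42, _⟩ => (8, 25)
  | ⟨43, _⟩ => (5, 7)
  | ⟨44, _⟩ => (5, 15)
  | ⟨45, _⟩ => (5, 8)
  | ⟨46, _⟩ => (5, 16)
  | ⟨47, _⟩ => (8, 5)
  | ⟨48, _⟩ => (8, 32)
  | ⟨49, _⟩ => (5, 17)
  | ⟨50, _⟩ => (5, 12)
  | ⟨51, _⟩ => (8, 26)
  | ⟨52, _⟩ => (7, 28)
  | ⟨53, _⟩ => (8, 34)
  | ⟨54, _⟩ => (8, 36)
  | ⟨55, _⟩ => (8, 38)
  | ⟨56, _⟩ => (5, 19)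
  | ⟨57, _⟩ => (5, 29)
  | ⟨58, _⟩ => (5, 20)
  | ⟨59, _⟩ => (5, 30)
  | ⟨n+60, h⟩ => absurd h (by omega)
def px_x_c7 : Fin 60 → Idx
  | ⟨0, _⟩ => (5, 36)
  | ⟨1, _⟩ => (8, 10)
  | ⟨2, _⟩ => (8, 44)
  | ⟨3, _⟩ => (8, 46)
  | ⟨4, _⟩ => (5, 25)
  | ⟨5, _⟩ => (8, 37)
  | ⟨6, _⟩ => (8, 39)
  | ⟨7, _⟩ => (7, 29)
  | ⟨8, _⟩ => (8, 47)
  | ⟨9, _⟩ => (8, 51)
  | ⟨10, _⟩ => (5, 32)
  | ⟨11, _⟩ => (5, 34)
  | ⟨12, _⟩ => (5, 39)
  | ⟨13, _⟩ => (7, 39)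
  | ⟨14, _⟩ => (8, 52)
  | ⟨15, _⟩ => (7, 23)
  | ⟨16, _⟩ => (8, 53)
  | ⟨17, _⟩ => (7, 26)
  | ⟨18, _⟩ => (5, 40)
  | ⟨19, _⟩ => (5, 56)
  | ⟨20, _⟩ => (5, 41)
  | ⟨21, _⟩ => (5, 57)
  | ⟨22, _⟩ => (6, 10)
  | ⟨23, _⟩ => (7, 15)
  | ⟨24, _⟩ => (6, 0)
  | ⟨25, _⟩ => (6, 14)
  | ⟨26, _⟩ => (7, 17)
  | ⟨27, _⟩ => (6, 35)
  | ⟨28, _⟩ => (6, 52)
  | ⟨29, _⟩ => (7, 7)
  | ⟨30, _⟩ => (9, 10)
  | ⟨31, _⟩ => (5, 51)
  | ⟨32, _⟩ => (9, 13)
  | ⟨33, _⟩ => (5, 52)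
  | ⟨34, _⟩ => (9, 14)
  | ⟨35, _⟩ => (5, 53)
  | ⟨36, _⟩ => (6, 1)
  | ⟨37, _⟩ => (5, 54)
  | ⟨38, _⟩ => (6, 2)
  | ⟨39, _⟩ => (7, 13)
  | ⟨40, _⟩ => (9, 21)
  | ⟨41, _⟩ => (6, 3)
  | ⟨42, _⟩ => (5, 58)
  | ⟨43, _⟩ => (9, 15)
  | ⟨44, _⟩ => (6, 36)
  | ⟨45, _⟩ => (9, 23)
  | ⟨46, _⟩ => (9, 25)
  | ⟨47, _⟩ => (9, 27)
  | ⟨48, _⟩ => (6, 5)
  | ⟨49, _⟩ => (6, 15)
  | ⟨50, _⟩ => (6, 6)
  | ⟨51, _⟩ => (6, 16)
  | ⟨52, _⟩ => (6, 22)
  | ⟨53, _⟩ => (8, 59)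
  | ⟨54, _⟩ => (9, 33)
  | ⟨55, _⟩ => (9, 35)
  | ⟨56, _⟩ => (6, 11)
  | ⟨57, _⟩ => (9, 26)
  | ⟨58, _⟩ => (9, 28)
  | ⟨59, _⟩ => (6, 37)
  | ⟨n+60, h⟩ => absurd h (by omega)
def px_x_c8 : Fin 60 → Idx
  | ⟨0, _⟩ => (9, 36)
  | ⟨1, _⟩ => (9, 40)
  | ⟨2, _⟩ => (6, 18)
  | ⟨3, _⟩ => (6, 20)
  | ⟨4, _⟩ => (6, 25)
  | ⟨5, _⟩ => (6, 47)
  | ⟨6, _⟩ => (9, 41)
  | ⟨7, _⟩ => (6, 31)
  | ⟨8, _⟩ => (9, 42)
  | ⟨9, _⟩ => (6, 34)
  | ⟨10, _⟩ => (7, 1)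
  | ⟨11, _⟩ => (9, 45)
  | ⟨12, _⟩ => (9, 1)
  | ⟨13, _⟩ => (9, 22)
  | ⟨14, _⟩ => (9, 34)
  | ⟨15, _⟩ => (9, 46)
  | ⟨16, _⟩ => (9, 38)
  | ⟨17, _⟩ => (9, 7)
  | ⟨18, _⟩ => (9, 6)
  | ⟨19, _⟩ => (9, 51)
  | ⟨20, _⟩ => (9, 52)
  | ⟨21, _⟩ => (6, 38)
  | ⟨22, _⟩ => (9, 58)
  | ⟨23, _⟩ => (9, 39)
  | ⟨24, _⟩ => (6, 40)
  | ⟨25, _⟩ => (6, 42)
  | ⟨26, _⟩ => (6, 51)
  | ⟨27, _⟩ => (9, 44)
  | ⟨28, _⟩ => (9, 18)
  | ⟨29, _⟩ => (9, 17)
  | ⟨30, _⟩ => (9, 59)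
  | ⟨31, _⟩ => (10, 0)
  | ⟨32, _⟩ => (6, 48)
  | ⟨33, _⟩ => (9, 2)
  | ⟨34, _⟩ => (6, 53)
  | ⟨35, _⟩ => (10, 1)
  | ⟨36, _⟩ => (6, 54)
  | ⟨37, _⟩ => (7, 5)
  | ⟨38, _⟩ => (6, 55)
  | ⟨39, _⟩ => (7, 6)
  | ⟨40, _⟩ => (9, 30)
  | ⟨41, _⟩ => (9, 29)
  | ⟨42, _⟩ => (9, 55)
  | ⟨43, _⟩ => (10, 5)
  | ⟨44, _⟩ => (7, 2)
  | ⟨45, _⟩ => (9, 3)
  | ⟨46, _⟩ => (7, 3)
  | ⟨47, _⟩ => (7, 8)
  | ⟨48, _⟩ => (10, 7)
  | ⟨49, _⟩ => (9, 5)
  | ⟨50, _⟩ => (9, 12)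
  | ⟨51, _⟩ => (7, 9)
  | ⟨52, _⟩ => (7, 14)
  | ⟨53, _⟩ => (7, 16)
  | ⟨54, _⟩ => (10, 8)
  | ⟨55, _⟩ => (9, 16)
  | ⟨56, _⟩ => (9, 0)
  | ⟨57, _⟩ => (9, 4)
  | ⟨58, _⟩ => (9, 47)
  | ⟨59, _⟩ => (7, 53)
  | ⟨n+60, h⟩ => absurd h (by omega)
def px_x_c9 : Fin 60 → Idx
  | ⟨0, _⟩ => (8, 56)
  | ⟨1, _⟩ => (8, 12)
  | ⟨2, _⟩ => (8, 33)
  | ⟨3, _⟩ => (8, 45)
  | ⟨4, _⟩ => (8, 57)
  | ⟨5, _⟩ => (8, 49)
  | ⟨6, _⟩ => (8, 18)
  | ⟨7, _⟩ => (8, 17)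
  | ⟨8, _⟩ => (10, 27)
  | ⟨9, _⟩ => (10, 28)
  | ⟨10, _⟩ => (7, 30)
  | ⟨11, _⟩ => (10, 34)
  | ⟨12, _⟩ => (8, 50)
  | ⟨13, _⟩ => (7, 32)
  | ⟨14, _⟩ => (7, 34)
  | ⟨15, _⟩ => (7, 43)
  | ⟨16, _⟩ => (8, 55)
  | ⟨17, _⟩ => (8, 29)
  | ⟨18, _⟩ => (8, 28)
  | ⟨19, _⟩ => (10, 35)
  | ⟨20, _⟩ => (10, 36)
  | ⟨21, _⟩ => (7, 40)
  | ⟨22, _⟩ => (8, 13)
  | ⟨23, _⟩ => (7, 45)
  | ⟨24, _⟩ => (10, 37)
  | ⟨25, _⟩ => (7, 46)
  | ⟨26, _⟩ => (7, 57)
  | ⟨27, _⟩ => (7, 47)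
  | ⟨28, _⟩ => (7, 58)
  | ⟨29, _⟩ => (8, 41)
  | ⟨30, _⟩ => (8, 40)
  | ⟨31, _⟩ => (10, 31)
  | ⟨32, _⟩ => (10, 41)
  | ⟨33, _⟩ => (7, 54)
  | ⟨34, _⟩ => (8, 14)
  | ⟨35, _⟩ => (7, 55)
  | ⟨36, _⟩ => (8, 0)
  | ⟨37, _⟩ => (10, 43)
  | ⟨38, _⟩ => (8, 16)
  | ⟨39, _⟩ => (8, 23)
  | ⟨40, _⟩ => (8, 1)
  | ⟨41, _⟩ => (8, 6)
  | ⟨42, _⟩ => (8, 8)
  | ⟨43, _⟩ => (10, 44)
  | ⟨44, _⟩ => (8, 27)
  | ⟨45, _⟩ => (8, 11)
  | ⟨46, _⟩ => (8, 15)
  | ⟨47, _⟩ => (8, 58)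
  | ⟨48, _⟩ => (10, 49)
  | ⟨49, _⟩ => (10, 26)
  | ⟨50, _⟩ => (10, 25)
  | ⟨51, _⟩ => (8, 19)
  | ⟨52, _⟩ => (8, 20)
  | ⟨53, _⟩ => (11, 4)
  | ⟨54, _⟩ => (11, 1)
  | ⟨55, _⟩ => (8, 42)
  | ⟨56, _⟩ => (10, 33)
  | ⟨57, _⟩ => (10, 32)
  | ⟨58, _⟩ => (8, 22)
  | ⟨59, _⟩ => (8, 30)
  | ⟨n+60, h⟩ => absurd h (by omega)
def px_x_c10 : Fin 60 → Idx
  | ⟨0, _⟩ => (8, 31)
  | ⟨1, _⟩ => (8, 35)
  | ⟨2, _⟩ => (10, 56)
  | ⟨3, _⟩ => (11, 9)
  | ⟨4, _⟩ => (11, 6)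
  | ⟨5, _⟩ => (8, 43)
  | ⟨6, _⟩ => (11, 10)
  | ⟨7, _⟩ => (8, 48)
  | ⟨8, _⟩ => (8, 54)
  | ⟨9, _⟩ => (10, 46)
  | ⟨10, _⟩ => (10, 45)
  | ⟨11, _⟩ => (11, 5)
  | ⟨12, _⟩ => (11, 15)
  | ⟨13, _⟩ => (10, 24)
  | ⟨14, _⟩ => (11, 11)
  | ⟨15, _⟩ => (11, 2)
  | ⟨16, _⟩ => (11, 18)
  | ⟨17, _⟩ => (10, 53)
  | ⟨18, _⟩ => (11, 7)
  | ⟨19, _⟩ => (11, 16)
  | ⟨20, _⟩ => (10, 38)
  | ⟨21, _⟩ => (10, 57)
  | ⟨22, _⟩ => (10, 58)
  | ⟨23, _⟩ => (10, 59)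
  | ⟨24, _⟩ => (10, 13)
  | ⟨25, _⟩ => (9, 50)
  | ⟨26, _⟩ => (9, 49)
  | ⟨27, _⟩ => (9, 8)
  | ⟨28, _⟩ => (9, 9)
  | ⟨29, _⟩ => (11, 27)
  | ⟨30, _⟩ => (11, 24)
  | ⟨31, _⟩ => (9, 31)
  | ⟨32, _⟩ => (9, 57)
  | ⟨33, _⟩ => (9, 56)
  | ⟨34, _⟩ => (9, 11)
  | ⟨35, _⟩ => (9, 19)
  | ⟨36, _⟩ => (9, 20)
  | ⟨37, _⟩ => (9, 24)
  | ⟨38, _⟩ => (10, 20)
  | ⟨39, _⟩ => (11, 32)
  | ⟨40, _⟩ => (11, 29)
  | ⟨41, _⟩ => (9, 32)
  | ⟨42, _⟩ => (11, 33)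
  | ⟨43, _⟩ => (9, 37)
  | ⟨44, _⟩ => (9, 43)
  | ⟨45, _⟩ => (10, 10)
  | ⟨46, _⟩ => (10, 9)
  | ⟨47, _⟩ => (11, 28)
  | ⟨48, _⟩ => (11, 38)
  | ⟨49, _⟩ => (9, 48)
  | ⟨50, _⟩ => (11, 34)
  | ⟨51, _⟩ => (11, 25)
  | ⟨52, _⟩ => (11, 41)
  | ⟨53, _⟩ => (10, 17)
  | ⟨54, _⟩ => (11, 30)
  | ⟨55, _⟩ => (11, 39)
  | ⟨56, _⟩ => (10, 2)
  | ⟨57, _⟩ => (10, 21)
  | ⟨58, _⟩ => (10, 22)
  | ⟨59, _⟩ => (10, 23)
  | ⟨n+60, h⟩ => absurd h (by omega)
def px_x_c11 : Fin 60 → Idx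
  | ⟨0, _⟩ => (11, 46)
  | ⟨1, _⟩ => (9, 54)
  | ⟨2, _⟩ => (10, 15)
  | ⟨3, _⟩ => (11, 47)
  | ⟨4, _⟩ => (9, 53)
  | ⟨5, _⟩ => (10, 11)
  | ⟨6, _⟩ => (10, 4)
  | ⟨7, _⟩ => (10, 18)
  | ⟨8, _⟩ => (11, 48)
  | ⟨9, _⟩ => (10, 3)
  | ⟨10, _⟩ => (10, 6)
  | ⟨11, _⟩ => (10, 14)
  | ⟨12, _⟩ => (11, 49)
  | ⟨13, _⟩ => (11, 36)
  | ⟨14, _⟩ => (11, 45)
  | ⟨15, _⟩ => (10, 12)
  | ⟨16, _⟩ => (10, 19)
  | ⟨17, _⟩ => (11, 40)
  | ⟨18, _⟩ => (10, 16)
  | ⟨19, _⟩ => (11, 42)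
  | ⟨20, _⟩ => (11, 43)
  | ⟨21, _⟩ => (11, 44)
  | ⟨22, _⟩ => (11, 37)
  | ⟨23, _⟩ => (11, 52)
  | ⟨24, _⟩ => (10, 30)
  | ⟨25, _⟩ => (10, 51)
  | ⟨26, _⟩ => (11, 53)
  | ⟨27, _⟩ => (10, 29)
  | ⟨28, _⟩ => (10, 47)
  | ⟨29, _⟩ => (10, 40)
  | ⟨30, _⟩ => (10, 54)
  | ⟨31, _⟩ => (11, 54)
  | ⟨32, _⟩ => (10, 39)
  | ⟨33, _⟩ => (10, 42)
  | ⟨34, _⟩ => (10, 50)
  | ⟨35, _⟩ => (11, 55)
  | ⟨36, _⟩ => (11, 13)
  | ⟨37, _⟩ => (11, 22)
  | ⟨38, _⟩ => (10, 48)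
  | ⟨39, _⟩ => (10, 55)
  | ⟨40, _⟩ => (11, 17)
  | ⟨41, _⟩ => (10, 52)
  | ⟨42, _⟩ => (11, 19)
  | ⟨43, _⟩ => (11, 20)
  | ⟨44, _⟩ => (11, 21)
  | ⟨45, _⟩ => (11, 14)
  | ⟨46, _⟩ => (11, 0)
  | ⟨47, _⟩ => (11, 3)
  | ⟨48, _⟩ => (11, 8)
  | ⟨49, _⟩ => (11, 12)
  | ⟨50, _⟩ => (11, 56)
  | ⟨51, _⟩ => (11, 58)
  | ⟨52, _⟩ => (11, 23)
  | ⟨53, _⟩ => (11, 26)
  | ⟨54, _⟩ => (11, 31)
  | ⟨55, _⟩ => (11, 35)
  | ⟨56, _⟩ => (11, 50)
  | ⟨57, _⟩ => (11, 59)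
  | ⟨58, _⟩ => (11, 51)
  | ⟨59, _⟩ => (11, 57)
  | ⟨n+60, h⟩ => absurd h (by omega)
def px_x_ch : Fin 12 → Fin 60 → Idx
  | ⟨0, _⟩ => px_x_c0
  | ⟨1, _⟩ => px_x_c1
  | ⟨2, _⟩ => px_x_c2
  | ⟨3, _⟩ => px_x_c3
  | ⟨4, _⟩ => px_x_c4
  | ⟨5, _⟩ => px_x_c5
  | ⟨6, _⟩ => px_x_c6
  | ⟨7, _⟩ => px_x_c7
  | ⟨8, _⟩ => px_x_c8
  | ⟨9, _⟩ => px_x_c9
  | ⟨10, _⟩ => px_x_c10
  | ⟨11, _⟩ => px_x_c11
  | ⟨n+12, h⟩ => absurd h (by omega)
def px_x (i : Idx) : Idx := px_x_ch i.1 i.2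
theorem closed_x_c0 : ∀ b : Fin 60, rep_c0 b * x = rep (nx_x_c0 b)
  | ⟨0, _⟩ => e_0_x
  | ⟨1, _⟩ => e_1_x
  | ⟨2, _⟩ => e_2_x
  | ⟨3, _⟩ => e_3_x
  | ⟨4, _⟩ => e_4_x
  | ⟨5, _⟩ => e_5_x
  | ⟨6, _⟩ => e_6_x
  | ⟨7, _⟩ => e_7_x
  | ⟨8, _⟩ => e_8_x
  | ⟨9, _⟩ => e_9_x
  | ⟨10, _⟩ => e_10_x
  | ⟨11, _⟩ => e_11_x
  | ⟨12, _⟩ => e_12_x
  | ⟨13, _⟩ => e_13_x
  | ⟨14, _⟩ => e_14_x
  | ⟨15, _⟩ => e_15_x
  | ⟨16, _⟩ => e_16_x
  | ⟨17, _⟩ => e_17_x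
  | ⟨18, _⟩ => e_18_x
  | ⟨19, _⟩ => e_19_x
  | ⟨20, _⟩ => e_20_x
  | ⟨21, _⟩ => e_21_x
  | ⟨22, _⟩ => e_22_x
  | ⟨23, _⟩ => e_23_x
  | ⟨24, _⟩ => e_24_x
  | ⟨25, _⟩ => e_25_x
  | ⟨26, _⟩ => e_26_x
  | ⟨27, _⟩ => e_27_x
  | ⟨28, _⟩ => e_28_x
  | ⟨29, _⟩ => e_29_x
  | ⟨30, _⟩ => e_30_x
  | ⟨31, _⟩ => e_31_x
  | ⟨32, _⟩ => e_32_x
  | ⟨33, _⟩ => e_33_x
  | ⟨34, _⟩ => e_34_x
  | ⟨35, _⟩ => e_35_x
  | ⟨36, _⟩ => e_36_x
  | ⟨37, _⟩ => e_37_x
  | ⟨38, _⟩ => e_38_x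
  | ⟨39, _⟩ => e_39_x
  | ⟨40, _⟩ => e_40_x
  | ⟨41, _⟩ => e_41_x
  | ⟨42, _⟩ => e_42_x
  | ⟨43, _⟩ => e_43_x
  | ⟨44, _⟩ => e_44_x
  | ⟨45, _⟩ => e_45_x
  | ⟨46, _⟩ => e_46_x
  | ⟨47, _⟩ => e_47_x
  | ⟨48, _⟩ => e_48_x
  | ⟨49, _⟩ => e_49_x
  | ⟨50, _⟩ => e_50_x
  | ⟨51, _⟩ => e_51_x
  | ⟨52, _⟩ => e_52_x
  | ⟨53, _⟩ => e_53_x
  | ⟨54, _⟩ => e_54_x
  | ⟨55, _⟩ => e_55_x
  | ⟨56, _⟩ => e_56_x
  | ⟨57, _⟩ => e_57_x
  | ⟨58, _⟩ => e_58_x
  | ⟨59, _⟩ => e_59_x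
  | ⟨n+60, h⟩ => absurd h (by omega)
theorem closed_x_c1 : ∀ b : Fin 60, rep_c1 b * x = rep (nx_x_c1 b)
  | ⟨0, _⟩ => e_60_x
  | ⟨1, _⟩ => e_61_x
  | ⟨2, _⟩ => e_62_x
  | ⟨3, _⟩ => e_63_x
  | ⟨4, _⟩ => e_64_x
  | ⟨5, _⟩ => e_65_x
  | ⟨6, _⟩ => e_66_x
  | ⟨7, _⟩ => e_67_x
  | ⟨8, _⟩ => e_68_x
  | ⟨9, _⟩ => e_69_x
  | ⟨10, _⟩ => e_70_x
  | ⟨11, _⟩ => e_71_x
  | ⟨12, _⟩ => e_72_x
  | ⟨13, _⟩ => e_73_x
  | ⟨14, _⟩ => e_74_x
  | ⟨15, _⟩ => e_75_x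
  | ⟨16, _⟩ => e_76_x
  | ⟨17, _⟩ => e_77_x
  | ⟨18, _⟩ => e_78_x
  | ⟨19, _⟩ => e_79_x
  | ⟨20, _⟩ => e_80_x
  | ⟨21, _⟩ => e_81_x
  | ⟨22, _⟩ => e_82_x
  | ⟨23, _⟩ => e_83_x
  | ⟨24, _⟩ => e_84_x
  | ⟨25, _⟩ => e_85_x
  | ⟨26, _⟩ => e_86_x
  | ⟨27, _⟩ => e_87_x
  | ⟨28, _⟩ => e_88_x
  | ⟨29, _⟩ => e_89_x
  | ⟨30, _⟩ => e_90_x
  | ⟨31, _⟩ => e_91_x
  | ⟨32, _⟩ => e_92_x
  | ⟨33, _⟩ => e_93_x
  | ⟨34, _⟩ => e_94_x
  | ⟨35, _⟩ => e_95_x
  | ⟨36, _⟩ => e_96_x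
  | ⟨37, _⟩ => e_97_x
  | ⟨38, _⟩ => e_98_x
  | ⟨39, _⟩ => e_99_x
  | ⟨40, _⟩ => e_100_x
  | ⟨41, _⟩ => e_101_x
  | ⟨42, _⟩ => e_102_x
  | ⟨43, _⟩ => e_103_x
  | ⟨44, _⟩ => e_104_x
  | ⟨45, _⟩ => e_105_x
  | ⟨46, _⟩ => e_106_x
  | ⟨47, _⟩ => e_107_x
  | ⟨48, _⟩ => e_108_x
  | ⟨49, _⟩ => e_109_x
  | ⟨50, _⟩ => e_110_x
  | ⟨51, _⟩ => e_111_x
  | ⟨52, _⟩ => e_112_x
  | ⟨53, _⟩ => e_113_x
  | ⟨54, _⟩ => e_114_x
  | ⟨55, _⟩ => e_115_x
  | ⟨56, _⟩ => e_116_x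
  | ⟨57, _⟩ => e_117_x
  | ⟨58, _⟩ => e_118_x
  | ⟨59, _⟩ => e_119_x
  | ⟨n+60, h⟩ => absurd h (by omega)
theorem closed_x_c2 : ∀ b : Fin 60, rep_c2 b * x = rep (nx_x_c2 b)
  | ⟨0, _⟩ => e_120_x
  | ⟨1, _⟩ => e_121_x
  | ⟨2, _⟩ => e_122_x
  | ⟨3, _⟩ => e_123_x
  | ⟨4, _⟩ => e_124_x
  | ⟨5, _⟩ => e_125_x
  | ⟨6, _⟩ => e_126_x
  | ⟨7, _⟩ => e_127_x
  | ⟨8, _⟩ => e_128_x
  | ⟨9, _⟩ => e_129_x
  | ⟨10, _⟩ => e_130_x
  | ⟨11, _⟩ => e_131_x
  | ⟨12, _⟩ => e_132_x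
  | ⟨13, _⟩ => e_133_x
  | ⟨14, _⟩ => e_134_x
  | ⟨15, _⟩ => e_135_x
  | ⟨16, _⟩ => e_136_x
  | ⟨17, _⟩ => e_137_x
  | ⟨18, _⟩ => e_138_x
  | ⟨19, _⟩ => e_139_x
  | ⟨20, _⟩ => e_140_x
  | ⟨21, _⟩ => e_141_x
  | ⟨22, _⟩ => e_142_x
  | ⟨23, _⟩ => e_143_x
  | ⟨24, _⟩ => e_144_x
  | ⟨25, _⟩ => e_145_x
  | ⟨26, _⟩ => e_146_x
  | ⟨27, _⟩ => e_147_x
  | ⟨28, _⟩ => e_148_x
  | ⟨29, _⟩ => e_149_x
  | ⟨30, _⟩ => e_150_x
  | ⟨31, _⟩ => e_151_x
  | ⟨32, _⟩ => e_152_x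
  | ⟨33, _⟩ => e_153_x
  | ⟨34, _⟩ => e_154_x
  | ⟨35, _⟩ => e_155_x
  | ⟨36, _⟩ => e_156_x
  | ⟨37, _⟩ => e_157_x
  | ⟨38, _⟩ => e_158_x
  | ⟨39, _⟩ => e_159_x
  | ⟨40, _⟩ => e_160_x
  | ⟨41, _⟩ => e_161_x
  | ⟨42, _⟩ => e_162_x
  | ⟨43, _⟩ => e_163_x
  | ⟨44, _⟩ => e_164_x
  | ⟨45, _⟩ => e_165_x
  | ⟨46, _⟩ => e_166_x
  | ⟨47, _⟩ => e_167_x
  | ⟨48, _⟩ => e_168_x
  | ⟨49, _⟩ => e_169_x
  | ⟨50, _⟩ => e_170_x
  | ⟨51, _⟩ => e_171_x
  | ⟨52, _⟩ => e_172_x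
  | ⟨53, _⟩ => e_173_x
  | ⟨54, _⟩ => e_174_x
  | ⟨55, _⟩ => e_175_x
  | ⟨56, _⟩ => e_176_x
  | ⟨57, _⟩ => e_177_x
  | ⟨58, _⟩ => e_178_x
  | ⟨59, _⟩ => e_179_x
  | ⟨n+60, h⟩ => absurd h (by omega)
theorem closed_x_c3 : ∀ b : Fin 60, rep_c3 b * x = rep (nx_x_c3 b)
  | ⟨0, _⟩ => e_180_x
  | ⟨1, _⟩ => e_181_x
  | ⟨2, _⟩ => e_182_x
  | ⟨3, _⟩ => e_183_x
  | ⟨4, _⟩ => e_184_x
  | ⟨5, _⟩ => e_185_x
  | ⟨6, _⟩ => e_186_x
  | ⟨7, _⟩ => e_187_x
  | ⟨8, _⟩ => e_188_x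
  | ⟨9, _⟩ => e_189_x
  | ⟨10, _⟩ => e_190_x
  | ⟨11, _⟩ => e_191_x
  | ⟨12, _⟩ => e_192_x
  | ⟨13, _⟩ => e_193_x
  | ⟨14, _⟩ => e_194_x
  | ⟨15, _⟩ => e_195_x
  | ⟨16, _⟩ => e_196_x
  | ⟨17, _⟩ => e_197_x
  | ⟨18, _⟩ => e_198_x
  | ⟨19, _⟩ => e_199_x
  | ⟨20, _⟩ => e_200_x
  | ⟨21, _⟩ => e_201_x
  | ⟨22, _⟩ => e_202_x
  | ⟨23, _⟩ => e_203_x
  | ⟨24, _⟩ => e_204_x
  | ⟨25, _⟩ => e_205_x
  | ⟨26, _⟩ => e_206_x
  | ⟨27, _⟩ => e_207_x
  | ⟨28, _⟩ => e_208_x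
  | ⟨29, _⟩ => e_209_x
  | ⟨30, _⟩ => e_210_x
  | ⟨31, _⟩ => e_211_x
  | ⟨32, _⟩ => e_212_x
  | ⟨33, _⟩ => e_213_x
  | ⟨34, _⟩ => e_214_x
  | ⟨35, _⟩ => e_215_x
  | ⟨36, _⟩ => e_216_x
  | ⟨37, _⟩ => e_217_x
  | ⟨38, _⟩ => e_218_x
  | ⟨39, _⟩ => e_219_x
  | ⟨40, _⟩ => e_220_x
  | ⟨41, _⟩ => e_221_x
  | ⟨42, _⟩ => e_222_x
  | ⟨43, _⟩ => e_223_x
  | ⟨44, _⟩ => e_224_x
  | ⟨45, _⟩ => e_225_x
  | ⟨46, _⟩ => e_226_x
  | ⟨47, _⟩ => e_227_x
  | ⟨48, _⟩ => e_228_x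
  | ⟨49, _⟩ => e_229_x
  | ⟨50, _⟩ => e_230_x
  | ⟨51, _⟩ => e_231_x
  | ⟨52, _⟩ => e_232_x
  | ⟨53, _⟩ => e_233_x
  | ⟨54, _⟩ => e_234_x
  | ⟨55, _⟩ => e_235_x
  | ⟨56, _⟩ => e_236_x
  | ⟨57, _⟩ => e_237_x
  | ⟨58, _⟩ => e_238_x
  | ⟨59, _⟩ => e_239_x
  | ⟨n+60, h⟩ => absurd h (by omega)
theorem closed_x_c4 : ∀ b : Fin 60, rep_c4 b * x = rep (nx_x_c4 b)
  | ⟨0, _⟩ => e_240_x
  | ⟨1, _⟩ => e_241_x
  | ⟨2, _⟩ => e_242_x
  | ⟨3, _⟩ => e_243_x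
  | ⟨4, _⟩ => e_244_x
  | ⟨5, _⟩ => e_245_x
  | ⟨6, _⟩ => e_246_x
  | ⟨7, _⟩ => e_247_x
  | ⟨8, _⟩ => e_248_x
  | ⟨9, _⟩ => e_249_x
  | ⟨10, _⟩ => e_250_x
  | ⟨11, _⟩ => e_251_x
  | ⟨12, _⟩ => e_252_x
  | ⟨13, _⟩ => e_253_x
  | ⟨14, _⟩ => e_254_x
  | ⟨15, _⟩ => e_255_x
  | ⟨16, _⟩ => e_256_x
  | ⟨17, _⟩ => e_257_x
  | ⟨18, _⟩ => e_258_x
  | ⟨19, _⟩ => e_259_x
  | ⟨20, _⟩ => e_260_x
  | ⟨21, _⟩ => e_261_x
  | ⟨22, _⟩ => e_262_x
  | ⟨23, _⟩ => e_263_x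
  | ⟨24, _⟩ => e_264_x
  | ⟨25, _⟩ => e_265_x
  | ⟨26, _⟩ => e_266_x
  | ⟨27, _⟩ => e_267_x
  | ⟨28, _⟩ => e_268_x
  | ⟨29, _⟩ => e_269_x
  | ⟨30, _⟩ => e_270_x
  | ⟨31, _⟩ => e_271_x
  | ⟨32, _⟩ => e_272_x
  | ⟨33, _⟩ => e_273_x
  | ⟨34, _⟩ => e_274_x
  | ⟨35, _⟩ => e_275_x
  | ⟨36, _⟩ => e_276_x
  | ⟨37, _⟩ => e_277_x
  | ⟨38, _⟩ => e_278_x
  | ⟨39, _⟩ => e_279_x
  | ⟨40, _⟩ => e_280_x
  | ⟨41, _⟩ => e_281_x
  | ⟨42, _⟩ => e_282_x
  | ⟨43, _⟩ => e_283_x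
  | ⟨44, _⟩ => e_284_x
  | ⟨45, _⟩ => e_285_x
  | ⟨46, _⟩ => e_286_x
  | ⟨47, _⟩ => e_287_x
  | ⟨48, _⟩ => e_288_x
  | ⟨49, _⟩ => e_289_x
  | ⟨50, _⟩ => e_290_x
  | ⟨51, _⟩ => e_291_x
  | ⟨52, _⟩ => e_292_x
  | ⟨53, _⟩ => e_293_x
  | ⟨54, _⟩ => e_294_x
  | ⟨55, _⟩ => e_295_x
  | ⟨56, _⟩ => e_296_x
  | ⟨57, _⟩ => e_297_x
  | ⟨58, _⟩ => e_298_x
  | ⟨59, _⟩ => e_299_x
  | ⟨n+60, h⟩ => absurd h (by omega)
theorem closed_x_c5 : ∀ b : Fin 60, rep_c5 b * x = rep (nx_x_c5 b)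
  | ⟨0, _⟩ => e_300_x
  | ⟨1, _⟩ => e_301_x
  | ⟨2, _⟩ => e_302_x
  | ⟨3, _⟩ => e_303_x
  | ⟨4, _⟩ => e_304_x
  | ⟨5, _⟩ => e_305_x
  | ⟨6, _⟩ => e_306_x
  | ⟨7, _⟩ => e_307_x
  | ⟨8, _⟩ => e_308_x
  | ⟨9, _⟩ => e_309_x
  | ⟨10, _⟩ => e_310_x
  | ⟨11, _⟩ => e_311_x
  | ⟨12, _⟩ => e_312_x
  | ⟨13, _⟩ => e_313_x
  | ⟨14, _⟩ => e_314_x
  | ⟨15, _⟩ => e_315_x
  | ⟨16, _⟩ => e_316_x
  | ⟨17, _⟩ => e_317_x
  | ⟨18, _⟩ => e_318_x
  | ⟨19, _⟩ => e_319_x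
  | ⟨20, _⟩ => e_320_x
  | ⟨21, _⟩ => e_321_x
  | ⟨22, _⟩ => e_322_x
  | ⟨23, _⟩ => e_323_x
  | ⟨24, _⟩ => e_324_x
  | ⟨25, _⟩ => e_325_x
  | ⟨26, _⟩ => e_326_x
  | ⟨27, _⟩ => e_327_x
  | ⟨28, _⟩ => e_328_x
  | ⟨29, _⟩ => e_329_x
  | ⟨30, _⟩ => e_330_x
  | ⟨31, _⟩ => e_331_x
  | ⟨32, _⟩ => e_332_x
  | ⟨33, _⟩ => e_333_x
  | ⟨34, _⟩ => e_334_x
  | ⟨35, _⟩ => e_335_x
  | ⟨36, _⟩ => e_336_x
  | ⟨37, _⟩ => e_337_x
  | ⟨38, _⟩ => e_338_x
  | ⟨39, _⟩ => e_339_x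
  | ⟨40, _⟩ => e_340_x
  | ⟨41, _⟩ => e_341_x
  | ⟨42, _⟩ => e_342_x
  | ⟨43, _⟩ => e_343_x
  | ⟨44, _⟩ => e_344_x
  | ⟨45, _⟩ => e_345_x
  | ⟨46, _⟩ => e_346_x
  | ⟨47, _⟩ => e_347_x
  | ⟨48, _⟩ => e_348_x
  | ⟨49, _⟩ => e_349_x
  | ⟨50, _⟩ => e_350_x
  | ⟨51, _⟩ => e_351_x
  | ⟨52, _⟩ => e_352_x
  | ⟨53, _⟩ => e_353_x
  | ⟨54, _⟩ => e_354_x
  | ⟨55, _⟩ => e_355_x
  | ⟨56, _⟩ => e_356_x
  | ⟨57, _⟩ => e_357_x
  | ⟨58, _⟩ => e_358_x
  | ⟨59, _⟩ => e_359_x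
  | ⟨n+60, h⟩ => absurd h (by omega)
theorem closed_x_c6 : ∀ b : Fin 60, rep_c6 b * x = rep (nx_x_c6 b)
  | ⟨0, _⟩ => e_360_x
  | ⟨1, _⟩ => e_361_x
  | ⟨2, _⟩ => e_362_x
  | ⟨3, _⟩ => e_363_x
  | ⟨4, _⟩ => e_364_x
  | ⟨5, _⟩ => e_365_x
  | ⟨6, _⟩ => e_366_x
  | ⟨7, _⟩ => e_367_x
  | ⟨8, _⟩ => e_368_x
  | ⟨9, _⟩ => e_369_x
  | ⟨10, _⟩ => e_370_x
  | ⟨11, _⟩ => e_371_x
  | ⟨12, _⟩ => e_372_x
  | ⟨13, _⟩ => e_373_x
  | ⟨14, _⟩ => e_374_x
  | ⟨15, _⟩ => e_375_x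
  | ⟨16, _⟩ => e_376_x
  | ⟨17, _⟩ => e_377_x
  | ⟨18, _⟩ => e_378_x
  | ⟨19, _⟩ => e_379_x
  | ⟨20, _⟩ => e_380_x
  | ⟨21, _⟩ => e_381_x
  | ⟨22, _⟩ => e_382_x
  | ⟨23, _⟩ => e_383_x
  | ⟨24, _⟩ => e_384_x
  | ⟨25, _⟩ => e_385_x
  | ⟨26, _⟩ => e_386_x
  | ⟨27, _⟩ => e_387_x
  | ⟨28, _⟩ => e_388_x
  | ⟨29, _⟩ => e_389_x
  | ⟨30, _⟩ => e_390_x
  | ⟨31, _⟩ => e_391_x
  | ⟨32, _⟩ => e_392_x
  | ⟨33, _⟩ => e_393_x
  | ⟨34, _⟩ => e_394_x
  | ⟨35, _⟩ => e_395_x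
  | ⟨36, _⟩ => e_396_x
  | ⟨37, _⟩ => e_397_x
  | ⟨38, _⟩ => e_398_x
  | ⟨39, _⟩ => e_399_x
  | ⟨40, _⟩ => e_400_x
  | ⟨41, _⟩ => e_401_x
  | ⟨42, _⟩ => e_402_x
  | ⟨43, _⟩ => e_403_x
  | ⟨44, _⟩ => e_404_x
  | ⟨45, _⟩ => e_405_x
  | ⟨46, _⟩ => e_406_x
  | ⟨47, _⟩ => e_407_x
  | ⟨48, _⟩ => e_408_x
  | ⟨49, _⟩ => e_409_x
  | ⟨50, _⟩ => e_410_x
  | ⟨51, _⟩ => e_411_x
  | ⟨52, _⟩ => e_412_x
  | ⟨53, _⟩ => e_413_x
  | ⟨54, _⟩ => e_414_x
  | ⟨55, _⟩ => e_415_x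
  | ⟨56, _⟩ => e_416_x
  | ⟨57, _⟩ => e_417_x
  | ⟨58, _⟩ => e_418_x
  | ⟨59, _⟩ => e_419_x
  | ⟨n+60, h⟩ => absurd h (by omega)
theorem closed_x_c7 : ∀ b : Fin 60, rep_c7 b * x = rep (nx_x_c7 b)
  | ⟨0, _⟩ => e_420_x
  | ⟨1, _⟩ => e_421_x
  | ⟨2, _⟩ => e_422_x
  | ⟨3, _⟩ => e_423_x
  | ⟨4, _⟩ => e_424_x
  | ⟨5, _⟩ => e_425_x
  | ⟨6, _⟩ => e_426_x
  | ⟨7, _⟩ => e_427_x
  | ⟨8, _⟩ => e_428_x
  | ⟨9, _⟩ => e_429_x
  | ⟨10, _⟩ => e_430_x
  | ⟨11, _⟩ => e_431_x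
  | ⟨12, _⟩ => e_432_x
  | ⟨13, _⟩ => e_433_x
  | ⟨14, _⟩ => e_434_x
  | ⟨15, _⟩ => e_435_x
  | ⟨16, _⟩ => e_436_x
  | ⟨17, _⟩ => e_437_x
  | ⟨18, _⟩ => e_438_x
  | ⟨19, _⟩ => e_439_x
  | ⟨20, _⟩ => e_440_x
  | ⟨21, _⟩ => e_441_x
  | ⟨22, _⟩ => e_442_x
  | ⟨23, _⟩ => e_443_x
  | ⟨24, _⟩ => e_444_x
  | ⟨25, _⟩ => e_445_x
  | ⟨26, _⟩ => e_446_x
  | ⟨27, _⟩ => e_447_x
  | ⟨28, _⟩ => e_448_x
  | ⟨29, _⟩ => e_449_x
  | ⟨30, _⟩ => e_450_x
  | ⟨31, _⟩ => e_451_x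
  | ⟨32, _⟩ => e_452_x
  | ⟨33, _⟩ => e_453_x
  | ⟨34, _⟩ => e_454_x
  | ⟨35, _⟩ => e_455_x
  | ⟨36, _⟩ => e_456_x
  | ⟨37, _⟩ => e_457_x
  | ⟨38, _⟩ => e_458_x
  | ⟨39, _⟩ => e_459_x
  | ⟨40, _⟩ => e_460_x
  | ⟨41, _⟩ => e_461_x
  | ⟨42, _⟩ => e_462_x
  | ⟨43, _⟩ => e_463_x
  | ⟨44, _⟩ => e_464_x
  | ⟨45, _⟩ => e_465_x
  | ⟨46, _⟩ => e_466_x
  | ⟨47, _⟩ => e_467_x
  | ⟨48, _⟩ => e_468_x
  | ⟨49, _⟩ => e_469_x
  | ⟨50, _⟩ => e_470_x
  | ⟨51, _⟩ => e_471_x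
  | ⟨52, _⟩ => e_472_x
  | ⟨53, _⟩ => e_473_x
  | ⟨54, _⟩ => e_474_x
  | ⟨55, _⟩ => e_475_x
  | ⟨56, _⟩ => e_476_x
  | ⟨57, _⟩ => e_477_x
  | ⟨58, _⟩ => e_478_x
  | ⟨59, _⟩ => e_479_x
  | ⟨n+60, h⟩ => absurd h (by omega)
theorem closed_x_c8 : ∀ b : Fin 60, rep_c8 b * x = rep (nx_x_c8 b)
  | ⟨0, _⟩ => e_480_x
  | ⟨1, _⟩ => e_481_x
  | ⟨2, _⟩ => e_482_x
  | ⟨3, _⟩ => e_483_x
  | ⟨4, _⟩ => e_484_x
  | ⟨5, _⟩ => e_485_x
  | ⟨6, _⟩ => e_486_x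
  | ⟨7, _⟩ => e_487_x
  | ⟨8, _⟩ => e_488_x
  | ⟨9, _⟩ => e_489_x
  | ⟨10, _⟩ => e_490_x
  | ⟨11, _⟩ => e_491_x
  | ⟨12, _⟩ => e_492_x
  | ⟨13, _⟩ => e_493_x
  | ⟨14, _⟩ => e_494_x
  | ⟨15, _⟩ => e_495_x
  | ⟨16, _⟩ => e_496_x
  | ⟨17, _⟩ => e_497_x
  | ⟨18, _⟩ => e_498_x
  | ⟨19, _⟩ => e_499_x
  | ⟨20, _⟩ => e_500_x
  | ⟨21, _⟩ => e_501_x
  | ⟨22, _⟩ => e_502_x
  | ⟨23, _⟩ => e_503_x
  | ⟨24, _⟩ => e_504_x
  | ⟨25, _⟩ => e_505_x
  | ⟨26, _⟩ => e_506_x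
  | ⟨27, _⟩ => e_507_x
  | ⟨28, _⟩ => e_508_x
  | ⟨29, _⟩ => e_509_x
  | ⟨30, _⟩ => e_510_x
  | ⟨31, _⟩ => e_511_x
  | ⟨32, _⟩ => e_512_x
  | ⟨33, _⟩ => e_513_x
  | ⟨34, _⟩ => e_514_x
  | ⟨35, _⟩ => e_515_x
  | ⟨36, _⟩ => e_516_x
  | ⟨37, _⟩ => e_517_x
  | ⟨38, _⟩ => e_518_x
  | ⟨39, _⟩ => e_519_x
  | ⟨40, _⟩ => e_520_x
  | ⟨41, _⟩ => e_521_x
  | ⟨42, _⟩ => e_522_x
  | ⟨43, _⟩ => e_523_x
  | ⟨44, _⟩ => e_524_x
  | ⟨45, _⟩ => e_525_x
  | ⟨46, _⟩ => e_526_x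
  | ⟨47, _⟩ => e_527_x
  | ⟨48, _⟩ => e_528_x
  | ⟨49, _⟩ => e_529_x
  | ⟨50, _⟩ => e_530_x
  | ⟨51, _⟩ => e_531_x
  | ⟨52, _⟩ => e_532_x
  | ⟨53, _⟩ => e_533_x
  | ⟨54, _⟩ => e_534_x
  | ⟨55, _⟩ => e_535_x
  | ⟨56, _⟩ => e_536_x
  | ⟨57, _⟩ => e_537_x
  | ⟨58, _⟩ => e_538_x
  | ⟨59, _⟩ => e_539_x
  | ⟨n+60, h⟩ => absurd h (by omega)
theorem closed_x_c9 : ∀ b : Fin 60, rep_c9 b * x = rep (nx_x_c9 b)
  | ⟨0, _⟩ => e_540_x
  | ⟨1, _⟩ => e_541_x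
  | ⟨2, _⟩ => e_542_x
  | ⟨3, _⟩ => e_543_x
  | ⟨4, _⟩ => e_544_x
  | ⟨5, _⟩ => e_545_x
  | ⟨6, _⟩ => e_546_x
  | ⟨7, _⟩ => e_547_x
  | ⟨8, _⟩ => e_548_x
  | ⟨9, _⟩ => e_549_x
  | ⟨10, _⟩ => e_550_x
  | ⟨11, _⟩ => e_551_x
  | ⟨12, _⟩ => e_552_x
  | ⟨13, _⟩ => e_553_x
  | ⟨14, _⟩ => e_554_x
  | ⟨15, _⟩ => e_555_x
  | ⟨16, _⟩ => e_556_x
  | ⟨17, _⟩ => e_557_x
  | ⟨18, _⟩ => e_558_x
  | ⟨19, _⟩ => e_559_x
  | ⟨20, _⟩ => e_560_x
  | ⟨21, _⟩ => e_561_x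
  | ⟨22, _⟩ => e_562_x
  | ⟨23, _⟩ => e_563_x
  | ⟨24, _⟩ => e_564_x
  | ⟨25, _⟩ => e_565_x
  | ⟨26, _⟩ => e_566_x
  | ⟨27, _⟩ => e_567_x
  | ⟨28, _⟩ => e_568_x
  | ⟨29, _⟩ => e_569_x
  | ⟨30, _⟩ => e_570_x
  | ⟨31, _⟩ => e_571_x
  | ⟨32, _⟩ => e_572_x
  | ⟨33, _⟩ => e_573_x
  | ⟨34, _⟩ => e_574_x
  | ⟨35, _⟩ => e_575_x
  | ⟨36, _⟩ => e_576_x
  | ⟨37, _⟩ => e_577_x
  | ⟨38, _⟩ => e_578_x
  | ⟨39, _⟩ => e_579_x
  | ⟨40, _⟩ => e_580_x
  | ⟨41, _⟩ => e_581_x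
  | ⟨42, _⟩ => e_582_x
  | ⟨43, _⟩ => e_583_x
  | ⟨44, _⟩ => e_584_x
  | ⟨45, _⟩ => e_585_x
  | ⟨46, _⟩ => e_586_x
  | ⟨47, _⟩ => e_587_x
  | ⟨48, _⟩ => e_588_x
  | ⟨49, _⟩ => e_589_x
  | ⟨50, _⟩ => e_590_x
  | ⟨51, _⟩ => e_591_x
  | ⟨52, _⟩ => e_592_x
  | ⟨53, _⟩ => e_593_x
  | ⟨54, _⟩ => e_594_x
  | ⟨55, _⟩ => e_595_x
  | ⟨56, _⟩ => e_596_x
  | ⟨57, _⟩ => e_597_x
  | ⟨58, _⟩ => e_598_x
  | ⟨59, _⟩ => e_599_x
  | ⟨n+60, h⟩ => absurd h (by omega)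
theorem closed_x_c10 : ∀ b : Fin 60, rep_c10 b * x = rep (nx_x_c10 b)
  | ⟨0, _⟩ => e_600_x
  | ⟨1, _⟩ => e_601_x
  | ⟨2, _⟩ => e_602_x
  | ⟨3, _⟩ => e_603_x
  | ⟨4, _⟩ => e_604_x
  | ⟨5, _⟩ => e_605_x
  | ⟨6, _⟩ => e_606_x
  | ⟨7, _⟩ => e_607_x
  | ⟨8, _⟩ => e_608_x
  | ⟨9, _⟩ => e_609_x
  | ⟨10, _⟩ => e_610_x
  | ⟨11, _⟩ => e_611_x
  | ⟨12, _⟩ => e_612_x
  | ⟨13, _⟩ => e_613_x
  | ⟨14, _⟩ => e_614_x
  | ⟨15, _⟩ => e_615_x
  | ⟨16, _⟩ => e_616_x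
  | ⟨17, _⟩ => e_617_x
  | ⟨18, _⟩ => e_618_x
  | ⟨19, _⟩ => e_619_x
  | ⟨20, _⟩ => e_620_x
  | ⟨21, _⟩ => e_621_x
  | ⟨22, _⟩ => e_622_x
  | ⟨23, _⟩ => e_623_x
  | ⟨24, _⟩ => e_624_x
  | ⟨25, _⟩ => e_625_x
  | ⟨26, _⟩ => e_626_x
  | ⟨27, _⟩ => e_627_x
  | ⟨28, _⟩ => e_628_x
  | ⟨29, _⟩ => e_629_x
  | ⟨30, _⟩ => e_630_x
  | ⟨31, _⟩ => e_631_x
  | ⟨32, _⟩ => e_632_x
  | ⟨33, _⟩ => e_633_x
  | ⟨34, _⟩ => e_634_x
  | ⟨35, _⟩ => e_635_x
  | ⟨36, _⟩ => e_636_x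
  | ⟨37, _⟩ => e_637_x
  | ⟨38, _⟩ => e_638_x
  | ⟨39, _⟩ => e_639_x
  | ⟨40, _⟩ => e_640_x
  | ⟨41, _⟩ => e_641_x
  | ⟨42, _⟩ => e_642_x
  | ⟨43, _⟩ => e_643_x
  | ⟨44, _⟩ => e_644_x
  | ⟨45, _⟩ => e_645_x
  | ⟨46, _⟩ => e_646_x
  | ⟨47, _⟩ => e_647_x
  | ⟨48, _⟩ => e_648_x
  | ⟨49, _⟩ => e_649_x
  | ⟨50, _⟩ => e_650_x
  | ⟨51, _⟩ => e_651_x
  | ⟨52, _⟩ => e_652_x
  | ⟨53, _⟩ => e_653_x
  | ⟨54, _⟩ => e_654_x
  | ⟨55, _⟩ => e_655_x
  | ⟨56, _⟩ => e_656_x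
  | ⟨57, _⟩ => e_657_x
  | ⟨58, _⟩ => e_658_x
  | ⟨59, _⟩ => e_659_x
  | ⟨n+60, h⟩ => absurd h (by omega)
theorem closed_x_c11 : ∀ b : Fin 60, rep_c11 b * x = rep (nx_x_c11 b)
  | ⟨0, _⟩ => e_660_x
  | ⟨1, _⟩ => e_661_x
  | ⟨2, _⟩ => e_662_x
  | ⟨3, _⟩ => e_663_x
  | ⟨4, _⟩ => e_664_x
  | ⟨5, _⟩ => e_665_x
  | ⟨6, _⟩ => e_666_x
  | ⟨7, _⟩ => e_667_x
  | ⟨8, _⟩ => e_668_x
  | ⟨9, _⟩ => e_669_x
  | ⟨10, _⟩ => e_670_x
  | ⟨11, _⟩ => e_671_x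
  | ⟨12, _⟩ => e_672_x
  | ⟨13, _⟩ => e_673_x
  | ⟨14, _⟩ => e_674_x
  | ⟨15, _⟩ => e_675_x
  | ⟨16, _⟩ => e_676_x
  | ⟨17, _⟩ => e_677_x
  | ⟨18, _⟩ => e_678_x
  | ⟨19, _⟩ => e_679_x
  | ⟨20, _⟩ => e_680_x
  | ⟨21, _⟩ => e_681_x
  | ⟨22, _⟩ => e_682_x
  | ⟨23, _⟩ => e_683_x
  | ⟨24, _⟩ => e_684_x
  | ⟨25, _⟩ => e_685_x
  | ⟨26, _⟩ => e_686_x
  | ⟨27, _⟩ => e_687_x
  | ⟨28, _⟩ => e_688_x
  | ⟨29, _⟩ => e_689_x
  | ⟨30, _⟩ => e_690_x
  | ⟨31, _⟩ => e_691_x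
  | ⟨32, _⟩ => e_692_x
  | ⟨33, _⟩ => e_693_x
  | ⟨34, _⟩ => e_694_x
  | ⟨35, _⟩ => e_695_x
  | ⟨36, _⟩ => e_696_x
  | ⟨37, _⟩ => e_697_x
  | ⟨38, _⟩ => e_698_x
  | ⟨39, _⟩ => e_699_x
  | ⟨40, _⟩ => e_700_x
  | ⟨41, _⟩ => e_701_x
  | ⟨42, _⟩ => e_702_x
  | ⟨43, _⟩ => e_703_x
  | ⟨44, _⟩ => e_704_x
  | ⟨45, _⟩ => e_705_x
  | ⟨46, _⟩ => e_706_x
  | ⟨47, _⟩ => e_707_x
  | ⟨48, _⟩ => e_708_x
  | ⟨49, _⟩ => e_709_x
  | ⟨50, _⟩ => e_710_x
  | ⟨51, _⟩ => e_711_x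
  | ⟨52, _⟩ => e_712_x
  | ⟨53, _⟩ => e_713_x
  | ⟨54, _⟩ => e_714_x
  | ⟨55, _⟩ => e_715_x
  | ⟨56, _⟩ => e_716_x
  | ⟨57, _⟩ => e_717_x
  | ⟨58, _⟩ => e_718_x
  | ⟨59, _⟩ => e_719_x
  | ⟨n+60, h⟩ => absurd h (by omega)
theorem closed_x_ch : ∀ (a : Fin 12) (b : Fin 60), rep_ch a b * x = rep (nx_x_ch a b)
  | ⟨0, _⟩ => closed_x_c0
  | ⟨1, _⟩ => closed_x_c1
  | ⟨2, _⟩ => closed_x_c2
  | ⟨3, _⟩ => closed_x_c3
  | ⟨4, _⟩ => closed_x_c4
  | ⟨5, _⟩ => closed_x_c5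
  | ⟨6, _⟩ => closed_x_c6
  | ⟨7, _⟩ => closed_x_c7
  | ⟨8, _⟩ => closed_x_c8
  | ⟨9, _⟩ => closed_x_c9
  | ⟨10, _⟩ => closed_x_c10
  | ⟨11, _⟩ => closed_x_c11
  | ⟨n+12, h⟩ => absurd h (by omega)
theorem closed_x (i : Idx) : rep i * x = rep (nx_x i) :=
  closed_x_ch i.1 i.2
theorem pre_x_c0 : ∀ b : Fin 60, rep (px_x_c0 b) * x = rep_c0 b
  | ⟨0, _⟩ => e_1_x
  | ⟨1, _⟩ => e_0_x
  | ⟨2, _⟩ => e_4_x
  | ⟨3, _⟩ => e_6_x
  | ⟨4, _⟩ => e_2_x
  | ⟨5, _⟩ => e_9_x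
  | ⟨6, _⟩ => e_3_x
  | ⟨7, _⟩ => e_12_x
  | ⟨8, _⟩ => e_14_x
  | ⟨9, _⟩ => e_5_x
  | ⟨10, _⟩ => e_17_x
  | ⟨11, _⟩ => e_19_x
  | ⟨12, _⟩ => e_7_x
  | ⟨13, _⟩ => e_22_x
  | ⟨14, _⟩ => e_8_x
  | ⟨15, _⟩ => e_25_x
  | ⟨16, _⟩ => e_27_x
  | ⟨17, _⟩ => e_10_x
  | ⟨18, _⟩ => e_30_x
  | ⟨19, _⟩ => e_11_x
  | ⟨20, _⟩ => e_33_x
  | ⟨21, _⟩ => e_35_x
  | ⟨22, _⟩ => e_13_x
  | ⟨23, _⟩ => e_38_x
  | ⟨24, _⟩ => e_40_x
  | ⟨25, _⟩ => e_15_x
  | ⟨26, _⟩ => e_43_x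
  | ⟨27, _⟩ => e_16_x
  | ⟨28, _⟩ => e_46_x
  | ⟨29, _⟩ => e_48_x
  | ⟨30, _⟩ => e_18_x
  | ⟨31, _⟩ => e_51_x
  | ⟨32, _⟩ => e_52_x
  | ⟨33, _⟩ => e_20_x
  | ⟨34, _⟩ => e_55_x
  | ⟨35, _⟩ => e_21_x
  | ⟨36, _⟩ => e_58_x
  | ⟨37, _⟩ => e_60_x
  | ⟨38, _⟩ => e_23_x
  | ⟨39, _⟩ => e_63_x
  | ⟨40, _⟩ => e_24_x
  | ⟨41, _⟩ => e_64_x
  | ⟨42, _⟩ => e_66_x
  | ⟨43, _⟩ => e_26_x
  | ⟨44, _⟩ => e_69_x
  | ⟨45, _⟩ => e_71_x
  | ⟨46, _⟩ => e_28_x
  | ⟨47, _⟩ => e_74_x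
  | ⟨48, _⟩ => e_29_x
  | ⟨49, _⟩ => e_77_x
  | ⟨50, _⟩ => e_79_x
  | ⟨51, _⟩ => e_31_x
  | ⟨52, _⟩ => e_32_x
  | ⟨53, _⟩ => e_82_x
  | ⟨54, _⟩ => e_84_x
  | ⟨55, _⟩ => e_34_x
  | ⟨56, _⟩ => e_87_x
  | ⟨57, _⟩ => e_89_x
  | ⟨58, _⟩ => e_36_x
  | ⟨59, _⟩ => e_92_x
  | ⟨n+60, h⟩ => absurd h (by omega)
theorem pre_x_c1 : ∀ b : Fin 60, rep (px_x_c1 b) * x = rep_c1 b
  | ⟨0, _⟩ => e_37_x
  | ⟨1, _⟩ => e_95_x
  | ⟨2, _⟩ => e_97_x
  | ⟨3, _⟩ => e_39_x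
  | ⟨4, _⟩ => e_41_x
  | ⟨5, _⟩ => e_101_x
  | ⟨6, _⟩ => e_42_x
  | ⟨7, _⟩ => e_104_x
  | ⟨8, _⟩ => e_106_x
  | ⟨9, _⟩ => e_44_x
  | ⟨10, _⟩ => e_109_x
  | ⟨11, _⟩ => e_45_x
  | ⟨12, _⟩ => e_110_x
  | ⟨13, _⟩ => e_112_x
  | ⟨14, _⟩ => e_47_x
  | ⟨15, _⟩ => e_93_x
  | ⟨16, _⟩ => e_116_x
  | ⟨17, _⟩ => e_49_x
  | ⟨18, _⟩ => e_96_x
  | ⟨19, _⟩ => e_50_x
  | ⟨20, _⟩ => e_98_x
  | ⟨21, _⟩ => e_122_x
  | ⟨22, _⟩ => e_53_x
  | ⟨23, _⟩ => e_125_x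
  | ⟨24, _⟩ => e_54_x
  | ⟨25, _⟩ => e_128_x
  | ⟨26, _⟩ => e_130_x
  | ⟨27, _⟩ => e_56_x
  | ⟨28, _⟩ => e_133_x
  | ⟨29, _⟩ => e_57_x
  | ⟨30, _⟩ => e_134_x
  | ⟨31, _⟩ => e_136_x
  | ⟨32, _⟩ => e_59_x
  | ⟨33, _⟩ => e_75_x
  | ⟨34, _⟩ => e_140_x
  | ⟨35, _⟩ => e_61_x
  | ⟨36, _⟩ => e_78_x
  | ⟨37, _⟩ => e_62_x
  | ⟨38, _⟩ => e_80_x
  | ⟨39, _⟩ => e_146_x
  | ⟨40, _⟩ => e_148_x
  | ⟨41, _⟩ => e_65_x
  | ⟨42, _⟩ => e_151_x
  | ⟨43, _⟩ => e_153_x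
  | ⟨44, _⟩ => e_67_x
  | ⟨45, _⟩ => e_156_x
  | ⟨46, _⟩ => e_68_x
  | ⟨47, _⟩ => e_159_x
  | ⟨48, _⟩ => e_161_x
  | ⟨49, _⟩ => e_70_x
  | ⟨50, _⟩ => e_72_x
  | ⟨51, _⟩ => e_135_x
  | ⟨52, _⟩ => e_73_x
  | ⟨53, _⟩ => e_137_x
  | ⟨54, _⟩ => e_168_x
  | ⟨55, _⟩ => e_170_x
  | ⟨56, _⟩ => e_76_x
  | ⟨57, _⟩ => e_141_x
  | ⟨58, _⟩ => e_172_x
  | ⟨59, _⟩ => e_157_x
  | ⟨n+60, h⟩ => absurd h (by omega)
theorem pre_x_c2 : ∀ b : Fin 60, rep (px_x_c2 b) * x = rep_c2 b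
  | ⟨0, _⟩ => e_175_x
  | ⟨1, _⟩ => e_160_x
  | ⟨2, _⟩ => e_81_x
  | ⟨3, _⟩ => e_162_x
  | ⟨4, _⟩ => e_180_x
  | ⟨5, _⟩ => e_83_x
  | ⟨6, _⟩ => e_183_x
  | ⟨7, _⟩ => e_185_x
  | ⟨8, _⟩ => e_85_x
  | ⟨9, _⟩ => e_188_x
  | ⟨10, _⟩ => e_86_x
  | ⟨11, _⟩ => e_191_x
  | ⟨12, _⟩ => e_193_x
  | ⟨13, _⟩ => e_88_x
  | ⟨14, _⟩ => e_90_x
  | ⟨15, _⟩ => e_111_x
  | ⟨16, _⟩ => e_91_x
  | ⟨17, _⟩ => e_113_x
  | ⟨18, _⟩ => e_200_x
  | ⟨19, _⟩ => e_202_x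
  | ⟨20, _⟩ => e_94_x
  | ⟨21, _⟩ => e_117_x
  | ⟨22, _⟩ => e_204_x
  | ⟨23, _⟩ => e_189_x
  | ⟨24, _⟩ => e_207_x
  | ⟨25, _⟩ => e_192_x
  | ⟨26, _⟩ => e_99_x
  | ⟨27, _⟩ => e_194_x
  | ⟨28, _⟩ => e_100_x
  | ⟨29, _⟩ => e_213_x
  | ⟨30, _⟩ => e_215_x
  | ⟨31, _⟩ => e_102_x
  | ⟨32, _⟩ => e_218_x
  | ⟨33, _⟩ => e_103_x
  | ⟨34, _⟩ => e_219_x
  | ⟨35, _⟩ => e_221_x
  | ⟨36, _⟩ => e_105_x
  | ⟨37, _⟩ => e_119_x
  | ⟨38, _⟩ => e_225_x
  | ⟨39, _⟩ => e_107_x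
  | ⟨40, _⟩ => e_121_x
  | ⟨41, _⟩ => e_108_x
  | ⟨42, _⟩ => e_123_x
  | ⟨43, _⟩ => e_195_x
  | ⟨44, _⟩ => e_232_x
  | ⟨45, _⟩ => e_234_x
  | ⟨46, _⟩ => e_236_x
  | ⟨47, _⟩ => e_238_x
  | ⟨48, _⟩ => e_114_x
  | ⟨49, _⟩ => e_241_x
  | ⟨50, _⟩ => e_115_x
  | ⟨51, _⟩ => e_220_x
  | ⟨52, _⟩ => e_118_x
  | ⟨53, _⟩ => e_222_x
  | ⟨54, _⟩ => e_247_x
  | ⟨55, _⟩ => e_120_x
  | ⟨56, _⟩ => e_226_x
  | ⟨57, _⟩ => e_239_x
  | ⟨58, _⟩ => e_250_x
  | ⟨59, _⟩ => e_242_x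
  | ⟨n+60, h⟩ => absurd h (by omega)
theorem pre_x_c3 : ∀ b : Fin 60, rep (px_x_c3 b) * x = rep_c3 b
  | ⟨0, _⟩ => e_124_x
  | ⟨1, _⟩ => e_254_x
  | ⟨2, _⟩ => e_256_x
  | ⟨3, _⟩ => e_126_x
  | ⟨4, _⟩ => e_259_x
  | ⟨5, _⟩ => e_127_x
  | ⟨6, _⟩ => e_260_x
  | ⟨7, _⟩ => e_262_x
  | ⟨8, _⟩ => e_129_x
  | ⟨9, _⟩ => e_143_x
  | ⟨10, _⟩ => e_266_x
  | ⟨11, _⟩ => e_131_x
  | ⟨12, _⟩ => e_145_x
  | ⟨13, _⟩ => e_132_x
  | ⟨14, _⟩ => e_147_x
  | ⟨15, _⟩ => e_163_x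
  | ⟨16, _⟩ => e_273_x
  | ⟨17, _⟩ => e_275_x
  | ⟨18, _⟩ => e_277_x
  | ⟨19, _⟩ => e_279_x
  | ⟨20, _⟩ => e_138_x
  | ⟨21, _⟩ => e_282_x
  | ⟨22, _⟩ => e_139_x
  | ⟨23, _⟩ => e_261_x
  | ⟨24, _⟩ => e_142_x
  | ⟨25, _⟩ => e_263_x
  | ⟨26, _⟩ => e_288_x
  | ⟨27, _⟩ => e_144_x
  | ⟨28, _⟩ => e_267_x
  | ⟨29, _⟩ => e_280_x
  | ⟨30, _⟩ => e_291_x
  | ⟨31, _⟩ => e_283_x
  | ⟨32, _⟩ => e_287_x
  | ⟨33, _⟩ => e_149_x
  | ⟨34, _⟩ => e_296_x
  | ⟨35, _⟩ => e_150_x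
  | ⟨36, _⟩ => e_299_x
  | ⟨37, _⟩ => e_301_x
  | ⟨38, _⟩ => e_152_x
  | ⟨39, _⟩ => e_154_x
  | ⟨40, _⟩ => e_171_x
  | ⟨41, _⟩ => e_155_x
  | ⟨42, _⟩ => e_173_x
  | ⟨43, _⟩ => e_264_x
  | ⟨44, _⟩ => e_309_x
  | ⟨45, _⟩ => e_158_x
  | ⟨46, _⟩ => e_176_x
  | ⟨47, _⟩ => e_268_x
  | ⟨48, _⟩ => e_297_x
  | ⟨49, _⟩ => e_313_x
  | ⟨50, _⟩ => e_300_x
  | ⟨51, _⟩ => e_302_x
  | ⟨52, _⟩ => e_164_x
  | ⟨53, _⟩ => e_318_x
  | ⟨54, _⟩ => e_165_x
  | ⟨55, _⟩ => e_321_x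
  | ⟨56, _⟩ => e_166_x
  | ⟨57, _⟩ => e_322_x
  | ⟨58, _⟩ => e_167_x
  | ⟨59, _⟩ => e_177_x
  | ⟨n+60, h⟩ => absurd h (by omega)
theorem pre_x_c4 : ∀ b : Fin 60, rep (px_x_c4 b) * x = rep_c4 b
  | ⟨0, _⟩ => e_326_x
  | ⟨1, _⟩ => e_169_x
  | ⟨2, _⟩ => e_179_x
  | ⟨3, _⟩ => e_303_x
  | ⟨4, _⟩ => e_331_x
  | ⟨5, _⟩ => e_333_x
  | ⟨6, _⟩ => e_253_x
  | ⟨7, _⟩ => e_174_x
  | ⟨8, _⟩ => e_323_x
  | ⟨9, _⟩ => e_338_x
  | ⟨10, _⟩ => e_178_x
  | ⟨11, _⟩ => e_327_x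
  | ⟨12, _⟩ => e_335_x
  | ⟨13, _⟩ => e_246_x
  | ⟨14, _⟩ => e_181_x
  | ⟨15, _⟩ => e_342_x
  | ⟨16, _⟩ => e_182_x
  | ⟨17, _⟩ => e_345_x
  | ⟨18, _⟩ => e_347_x
  | ⟨19, _⟩ => e_184_x
  | ⟨20, _⟩ => e_186_x
  | ⟨21, _⟩ => e_203_x
  | ⟨22, _⟩ => e_187_x
  | ⟨23, _⟩ => e_205_x
  | ⟨24, _⟩ => e_223_x
  | ⟨25, _⟩ => e_355_x
  | ⟨26, _⟩ => e_190_x
  | ⟨27, _⟩ => e_208_x
  | ⟨28, _⟩ => e_227_x
  | ⟨29, _⟩ => e_343_x
  | ⟨30, _⟩ => e_359_x
  | ⟨31, _⟩ => e_346_x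
  | ⟨32, _⟩ => e_348_x
  | ⟨33, _⟩ => e_196_x
  | ⟨34, _⟩ => e_364_x
  | ⟨35, _⟩ => e_197_x
  | ⟨36, _⟩ => e_367_x
  | ⟨37, _⟩ => e_198_x
  | ⟨38, _⟩ => e_368_x
  | ⟨39, _⟩ => e_199_x
  | ⟨40, _⟩ => e_209_x
  | ⟨41, _⟩ => e_372_x
  | ⟨42, _⟩ => e_201_x
  | ⟨43, _⟩ => e_211_x
  | ⟨44, _⟩ => e_349_x
  | ⟨45, _⟩ => e_377_x
  | ⟨46, _⟩ => e_379_x
  | ⟨47, _⟩ => e_212_x
  | ⟨48, _⟩ => e_206_x
  | ⟨49, _⟩ => e_369_x
  | ⟨50, _⟩ => e_384_x
  | ⟨51, _⟩ => e_210_x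
  | ⟨52, _⟩ => e_373_x
  | ⟨53, _⟩ => e_381_x
  | ⟨54, _⟩ => e_386_x
  | ⟨55, _⟩ => e_388_x
  | ⟨56, _⟩ => e_214_x
  | ⟨57, _⟩ => e_228_x
  | ⟨58, _⟩ => e_383_x
  | ⟨59, _⟩ => e_216_x
  | ⟨n+60, h⟩ => absurd h (by omega)
theorem pre_x_c5 : ∀ b : Fin 60, rep (px_x_c5 b) * x = rep_c5 b
  | ⟨0, _⟩ => e_230_x
  | ⟨1, _⟩ => e_217_x
  | ⟨2, _⟩ => e_231_x
  | ⟨3, _⟩ => e_243_x
  | ⟨4, _⟩ => e_350_x
  | ⟨5, _⟩ => e_399_x
  | ⟨6, _⟩ => e_401_x
  | ⟨7, _⟩ => e_403_x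
  | ⟨8, _⟩ => e_405_x
  | ⟨9, _⟩ => e_224_x
  | ⟨10, _⟩ => e_387_x
  | ⟨11, _⟩ => e_389_x
  | ⟨12, _⟩ => e_410_x
  | ⟨13, _⟩ => e_229_x
  | ⟨14, _⟩ => e_392_x
  | ⟨15, _⟩ => e_404_x
  | ⟨16, _⟩ => e_406_x
  | ⟨17, _⟩ => e_409_x
  | ⟨18, _⟩ => e_233_x
  | ⟨19, _⟩ => e_416_x
  | ⟨20, _⟩ => e_418_x
  | ⟨21, _⟩ => e_235_x
  | ⟨22, _⟩ => e_237_x
  | ⟨23, _⟩ => e_248_x
  | ⟨24, _⟩ => e_390_x
  | ⟨25, _⟩ => e_424_x
  | ⟨26, _⟩ => e_240_x
  | ⟨27, _⟩ => e_251_x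
  | ⟨28, _⟩ => e_393_x
  | ⟨29, _⟩ => e_417_x
  | ⟨30, _⟩ => e_419_x
  | ⟨31, _⟩ => e_244_x
  | ⟨32, _⟩ => e_430_x
  | ⟨33, _⟩ => e_245_x
  | ⟨34, _⟩ => e_431_x
  | ⟨35, _⟩ => e_252_x
  | ⟨36, _⟩ => e_420_x
  | ⟨37, _⟩ => e_344_x
  | ⟨38, _⟩ => e_249_x
  | ⟨39, _⟩ => e_432_x
  | ⟨40, _⟩ => e_438_x
  | ⟨41, _⟩ => e_440_x
  | ⟨42, _⟩ => e_255_x
  | ⟨43, _⟩ => e_269_x
  | ⟨44, _⟩ => e_337_x
  | ⟨45, _⟩ => e_257_x
  | ⟨46, _⟩ => e_271_x
  | ⟨47, _⟩ => e_258_x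
  | ⟨48, _⟩ => e_272_x
  | ⟨49, _⟩ => e_284_x
  | ⟨50, _⟩ => e_304_x
  | ⟨51, _⟩ => e_451_x
  | ⟨52, _⟩ => e_453_x
  | ⟨53, _⟩ => e_455_x
  | ⟨54, _⟩ => e_457_x
  | ⟨55, _⟩ => e_265_x
  | ⟨56, _⟩ => e_439_x
  | ⟨57, _⟩ => e_441_x
  | ⟨58, _⟩ => e_462_x
  | ⟨59, _⟩ => e_270_x
  | ⟨n+60, h⟩ => absurd h (by omega)
theorem pre_x_c6 : ∀ b : Fin 60, rep (px_x_c6 b) * x = rep_c6 b
  | ⟨0, _⟩ => e_444_x
  | ⟨1, _⟩ => e_456_x
  | ⟨2, _⟩ => e_458_x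
  | ⟨3, _⟩ => e_461_x
  | ⟨4, _⟩ => e_274_x
  | ⟨5, _⟩ => e_468_x
  | ⟨6, _⟩ => e_470_x
  | ⟨7, _⟩ => e_276_x
  | ⟨8, _⟩ => e_278_x
  | ⟨9, _⟩ => e_289_x
  | ⟨10, _⟩ => e_442_x
  | ⟨11, _⟩ => e_476_x
  | ⟨12, _⟩ => e_281_x
  | ⟨13, _⟩ => e_292_x
  | ⟨14, _⟩ => e_445_x
  | ⟨15, _⟩ => e_469_x
  | ⟨16, _⟩ => e_471_x
  | ⟨17, _⟩ => e_285_x
  | ⟨18, _⟩ => e_482_x
  | ⟨19, _⟩ => e_286_x
  | ⟨20, _⟩ => e_483_x
  | ⟨21, _⟩ => e_293_x
  | ⟨22, _⟩ => e_472_x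
  | ⟨23, _⟩ => e_298_x
  | ⟨24, _⟩ => e_290_x
  | ⟨25, _⟩ => e_484_x
  | ⟨26, _⟩ => e_294_x
  | ⟨27, _⟩ => e_310_x
  | ⟨28, _⟩ => e_295_x
  | ⟨29, _⟩ => e_311_x
  | ⟨30, _⟩ => e_324_x
  | ⟨31, _⟩ => e_487_x
  | ⟨32, _⟩ => e_314_x
  | ⟨33, _⟩ => e_328_x
  | ⟨34, _⟩ => e_489_x
  | ⟨35, _⟩ => e_447_x
  | ⟨36, _⟩ => e_464_x
  | ⟨37, _⟩ => e_479_x
  | ⟨38, _⟩ => e_501_x
  | ⟨39, _⟩ => e_305_x
  | ⟨40, _⟩ => e_504_x
  | ⟨41, _⟩ => e_306_x
  | ⟨42, _⟩ => e_505_x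
  | ⟨43, _⟩ => e_307_x
  | ⟨44, _⟩ => e_315_x
  | ⟨45, _⟩ => e_308_x
  | ⟨46, _⟩ => e_316_x
  | ⟨47, _⟩ => e_485_x
  | ⟨48, _⟩ => e_512_x
  | ⟨49, _⟩ => e_317_x
  | ⟨50, _⟩ => e_312_x
  | ⟨51, _⟩ => e_506_x
  | ⟨52, _⟩ => e_448_x
  | ⟨53, _⟩ => e_514_x
  | ⟨54, _⟩ => e_516_x
  | ⟨55, _⟩ => e_518_x
  | ⟨56, _⟩ => e_319_x
  | ⟨57, _⟩ => e_329_x
  | ⟨58, _⟩ => e_320_x
  | ⟨59, _⟩ => e_330_x
  | ⟨n+60, h⟩ => absurd h (by omega)
theorem pre_x_c7 : ∀ b : Fin 60, rep (px_x_c7 b) * x = rep_c7 b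
  | ⟨0, _⟩ => e_336_x
  | ⟨1, _⟩ => e_490_x
  | ⟨2, _⟩ => e_524_x
  | ⟨3, _⟩ => e_526_x
  | ⟨4, _⟩ => e_325_x
  | ⟨5, _⟩ => e_517_x
  | ⟨6, _⟩ => e_519_x
  | ⟨7, _⟩ => e_449_x
  | ⟨8, _⟩ => e_527_x
  | ⟨9, _⟩ => e_531_x
  | ⟨10, _⟩ => e_332_x
  | ⟨11, _⟩ => e_334_x
  | ⟨12, _⟩ => e_339_x
  | ⟨13, _⟩ => e_459_x
  | ⟨14, _⟩ => e_532_x
  | ⟨15, _⟩ => e_443_x
  | ⟨16, _⟩ => e_533_x
  | ⟨17, _⟩ => e_446_x
  | ⟨18, _⟩ => e_340_x
  | ⟨19, _⟩ => e_356_x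
  | ⟨20, _⟩ => e_341_x
  | ⟨21, _⟩ => e_357_x
  | ⟨22, _⟩ => e_370_x
  | ⟨23, _⟩ => e_435_x
  | ⟨24, _⟩ => e_360_x
  | ⟨25, _⟩ => e_374_x
  | ⟨26, _⟩ => e_437_x
  | ⟨27, _⟩ => e_395_x
  | ⟨28, _⟩ => e_412_x
  | ⟨29, _⟩ => e_427_x
  | ⟨30, _⟩ => e_550_x
  | ⟨31, _⟩ => e_351_x
  | ⟨32, _⟩ => e_553_x
  | ⟨33, _⟩ => e_352_x
  | ⟨34, _⟩ => e_554_x
  | ⟨35, _⟩ => e_353_x
  | ⟨36, _⟩ => e_361_x
  | ⟨37, _⟩ => e_354_x
  | ⟨38, _⟩ => e_362_x
  | ⟨39, _⟩ => e_433_x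
  | ⟨40, _⟩ => e_561_x
  | ⟨41, _⟩ => e_363_x
  | ⟨42, _⟩ => e_358_x
  | ⟨43, _⟩ => e_555_x
  | ⟨44, _⟩ => e_396_x
  | ⟨45, _⟩ => e_563_x
  | ⟨46, _⟩ => e_565_x
  | ⟨47, _⟩ => e_567_x
  | ⟨48, _⟩ => e_365_x
  | ⟨49, _⟩ => e_375_x
  | ⟨50, _⟩ => e_366_x
  | ⟨51, _⟩ => e_376_x
  | ⟨52, _⟩ => e_382_x
  | ⟨53, _⟩ => e_539_x
  | ⟨54, _⟩ => e_573_x
  | ⟨55, _⟩ => e_575_x
  | ⟨56, _⟩ => e_371_x
  | ⟨57, _⟩ => e_566_x
  | ⟨58, _⟩ => e_568_x
  | ⟨59, _⟩ => e_397_x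
  | ⟨n+60, h⟩ => absurd h (by omega)
theorem pre_x_c8 : ∀ b : Fin 60, rep (px_x_c8 b) * x = rep_c8 b
  | ⟨0, _⟩ => e_576_x
  | ⟨1, _⟩ => e_580_x
  | ⟨2, _⟩ => e_378_x
  | ⟨3, _⟩ => e_380_x
  | ⟨4, _⟩ => e_385_x
  | ⟨5, _⟩ => e_407_x
  | ⟨6, _⟩ => e_581_x
  | ⟨7, _⟩ => e_391_x
  | ⟨8, _⟩ => e_582_x
  | ⟨9, _⟩ => e_394_x
  | ⟨10, _⟩ => e_421_x
  | ⟨11, _⟩ => e_585_x
  | ⟨12, _⟩ => e_541_x
  | ⟨13, _⟩ => e_562_x
  | ⟨14, _⟩ => e_574_x
  | ⟨15, _⟩ => e_586_x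
  | ⟨16, _⟩ => e_578_x
  | ⟨17, _⟩ => e_547_x
  | ⟨18, _⟩ => e_546_x
  | ⟨19, _⟩ => e_591_x
  | ⟨20, _⟩ => e_592_x
  | ⟨21, _⟩ => e_398_x
  | ⟨22, _⟩ => e_598_x
  | ⟨23, _⟩ => e_579_x
  | ⟨24, _⟩ => e_400_x
  | ⟨25, _⟩ => e_402_x
  | ⟨26, _⟩ => e_411_x
  | ⟨27, _⟩ => e_584_x
  | ⟨28, _⟩ => e_558_x
  | ⟨29, _⟩ => e_557_x
  | ⟨30, _⟩ => e_599_x
  | ⟨31, _⟩ => e_600_x
  | ⟨32, _⟩ => e_408_x
  | ⟨33, _⟩ => e_542_x
  | ⟨34, _⟩ => e_413_x
  | ⟨35, _⟩ => e_601_x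
  | ⟨36, _⟩ => e_414_x
  | ⟨37, _⟩ => e_425_x
  | ⟨38, _⟩ => e_415_x
  | ⟨39, _⟩ => e_426_x
  | ⟨40, _⟩ => e_570_x
  | ⟨41, _⟩ => e_569_x
  | ⟨42, _⟩ => e_595_x
  | ⟨43, _⟩ => e_605_x
  | ⟨44, _⟩ => e_422_x
  | ⟨45, _⟩ => e_543_x
  | ⟨46, _⟩ => e_423_x
  | ⟨47, _⟩ => e_428_x
  | ⟨48, _⟩ => e_607_x
  | ⟨49, _⟩ => e_545_x
  | ⟨50, _⟩ => e_552_x
  | ⟨51, _⟩ => e_429_x
  | ⟨52, _⟩ => e_434_x
  | ⟨53, _⟩ => e_436_x
  | ⟨54, _⟩ => e_608_x
  | ⟨55, _⟩ => e_556_x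
  | ⟨56, _⟩ => e_540_x
  | ⟨57, _⟩ => e_544_x
  | ⟨58, _⟩ => e_587_x
  | ⟨59, _⟩ => e_473_x
  | ⟨n+60, h⟩ => absurd h (by omega)
theorem pre_x_c9 : ∀ b : Fin 60, rep (px_x_c9 b) * x = rep_c9 b
  | ⟨0, _⟩ => e_536_x
  | ⟨1, _⟩ => e_492_x
  | ⟨2, _⟩ => e_513_x
  | ⟨3, _⟩ => e_525_x
  | ⟨4, _⟩ => e_537_x
  | ⟨5, _⟩ => e_529_x
  | ⟨6, _⟩ => e_498_x
  | ⟨7, _⟩ => e_497_x
  | ⟨8, _⟩ => e_627_x
  | ⟨9, _⟩ => e_628_x
  | ⟨10, _⟩ => e_450_x
  | ⟨11, _⟩ => e_634_x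
  | ⟨12, _⟩ => e_530_x
  | ⟨13, _⟩ => e_452_x
  | ⟨14, _⟩ => e_454_x
  | ⟨15, _⟩ => e_463_x
  | ⟨16, _⟩ => e_535_x
  | ⟨17, _⟩ => e_509_x
  | ⟨18, _⟩ => e_508_x
  | ⟨19, _⟩ => e_635_x
  | ⟨20, _⟩ => e_636_x
  | ⟨21, _⟩ => e_460_x
  | ⟨22, _⟩ => e_493_x
  | ⟨23, _⟩ => e_465_x
  | ⟨24, _⟩ => e_637_x
  | ⟨25, _⟩ => e_466_x
  | ⟨26, _⟩ => e_477_x
  | ⟨27, _⟩ => e_467_x
  | ⟨28, _⟩ => e_478_x
  | ⟨29, _⟩ => e_521_x
  | ⟨30, _⟩ => e_520_x
  | ⟨31, _⟩ => e_631_x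
  | ⟨32, _⟩ => e_641_x
  | ⟨33, _⟩ => e_474_x
  | ⟨34, _⟩ => e_494_x
  | ⟨35, _⟩ => e_475_x
  | ⟨36, _⟩ => e_480_x
  | ⟨37, _⟩ => e_643_x
  | ⟨38, _⟩ => e_496_x
  | ⟨39, _⟩ => e_503_x
  | ⟨40, _⟩ => e_481_x
  | ⟨41, _⟩ => e_486_x
  | ⟨42, _⟩ => e_488_x
  | ⟨43, _⟩ => e_644_x
  | ⟨44, _⟩ => e_507_x
  | ⟨45, _⟩ => e_491_x
  | ⟨46, _⟩ => e_495_x
  | ⟨47, _⟩ => e_538_x
  | ⟨48, _⟩ => e_649_x
  | ⟨49, _⟩ => e_626_x
  | ⟨50, _⟩ => e_625_x
  | ⟨51, _⟩ => e_499_x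
  | ⟨52, _⟩ => e_500_x
  | ⟨53, _⟩ => e_664_x
  | ⟨54, _⟩ => e_661_x
  | ⟨55, _⟩ => e_522_x
  | ⟨56, _⟩ => e_633_x
  | ⟨57, _⟩ => e_632_x
  | ⟨58, _⟩ => e_502_x
  | ⟨59, _⟩ => e_510_x
  | ⟨n+60, h⟩ => absurd h (by omega)
theorem pre_x_c10 : ∀ b : Fin 60, rep (px_x_c10 b) * x = rep_c10 b
  | ⟨0, _⟩ => e_511_x
  | ⟨1, _⟩ => e_515_x
  | ⟨2, _⟩ => e_656_x
  | ⟨3, _⟩ => e_669_x
  | ⟨4, _⟩ => e_666_x
  | ⟨5, _⟩ => e_523_x
  | ⟨6, _⟩ => e_670_x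
  | ⟨7, _⟩ => e_528_x
  | ⟨8, _⟩ => e_534_x
  | ⟨9, _⟩ => e_646_x
  | ⟨10, _⟩ => e_645_x
  | ⟨11, _⟩ => e_665_x
  | ⟨12, _⟩ => e_675_x
  | ⟨13, _⟩ => e_624_x
  | ⟨14, _⟩ => e_671_x
  | ⟨15, _⟩ => e_662_x
  | ⟨16, _⟩ => e_678_x
  | ⟨17, _⟩ => e_653_x
  | ⟨18, _⟩ => e_667_x
  | ⟨19, _⟩ => e_676_x
  | ⟨20, _⟩ => e_638_x
  | ⟨21, _⟩ => e_657_x
  | ⟨22, _⟩ => e_658_x
  | ⟨23, _⟩ => e_659_x
  | ⟨24, _⟩ => e_613_x
  | ⟨25, _⟩ => e_590_x
  | ⟨26, _⟩ => e_589_x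
  | ⟨27, _⟩ => e_548_x
  | ⟨28, _⟩ => e_549_x
  | ⟨29, _⟩ => e_687_x
  | ⟨30, _⟩ => e_684_x
  | ⟨31, _⟩ => e_571_x
  | ⟨32, _⟩ => e_597_x
  | ⟨33, _⟩ => e_596_x
  | ⟨34, _⟩ => e_551_x
  | ⟨35, _⟩ => e_559_x
  | ⟨36, _⟩ => e_560_x
  | ⟨37, _⟩ => e_564_x
  | ⟨38, _⟩ => e_620_x
  | ⟨39, _⟩ => e_692_x
  | ⟨40, _⟩ => e_689_x
  | ⟨41, _⟩ => e_572_x
  | ⟨42, _⟩ => e_693_x
  | ⟨43, _⟩ => e_577_x
  | ⟨44, _⟩ => e_583_x
  | ⟨45, _⟩ => e_610_x
  | ⟨46, _⟩ => e_609_x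
  | ⟨47, _⟩ => e_688_x
  | ⟨48, _⟩ => e_698_x
  | ⟨49, _⟩ => e_588_x
  | ⟨50, _⟩ => e_694_x
  | ⟨51, _⟩ => e_685_x
  | ⟨52, _⟩ => e_701_x
  | ⟨53, _⟩ => e_617_x
  | ⟨54, _⟩ => e_690_x
  | ⟨55, _⟩ => e_699_x
  | ⟨56, _⟩ => e_602_x
  | ⟨57, _⟩ => e_621_x
  | ⟨58, _⟩ => e_622_x
  | ⟨59, _⟩ => e_623_x
  | ⟨n+60, h⟩ => absurd h (by omega)
theorem pre_x_c11 : ∀ b : Fin 60, rep (px_x_c11 b) * x = rep_c11 b
  | ⟨0, _⟩ => e_706_x
  | ⟨1, _⟩ => e_594_x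
  | ⟨2, _⟩ => e_615_x
  | ⟨3, _⟩ => e_707_x
  | ⟨4, _⟩ => e_593_x
  | ⟨5, _⟩ => e_611_x
  | ⟨6, _⟩ => e_604_x
  | ⟨7, _⟩ => e_618_x
  | ⟨8, _⟩ => e_708_x
  | ⟨9, _⟩ => e_603_x
  | ⟨10, _⟩ => e_606_x
  | ⟨11, _⟩ => e_614_x
  | ⟨12, _⟩ => e_709_x
  | ⟨13, _⟩ => e_696_x
  | ⟨14, _⟩ => e_705_x
  | ⟨15, _⟩ => e_612_x
  | ⟨16, _⟩ => e_619_x
  | ⟨17, _⟩ => e_700_x
  | ⟨18, _⟩ => e_616_x
  | ⟨19, _⟩ => e_702_x
  | ⟨20, _⟩ => e_703_x
  | ⟨21, _⟩ => e_704_x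
  | ⟨22, _⟩ => e_697_x
  | ⟨23, _⟩ => e_712_x
  | ⟨24, _⟩ => e_630_x
  | ⟨25, _⟩ => e_651_x
  | ⟨26, _⟩ => e_713_x
  | ⟨27, _⟩ => e_629_x
  | ⟨28, _⟩ => e_647_x
  | ⟨29, _⟩ => e_640_x
  | ⟨30, _⟩ => e_654_x
  | ⟨31, _⟩ => e_714_x
  | ⟨32, _⟩ => e_639_x
  | ⟨33, _⟩ => e_642_x
  | ⟨34, _⟩ => e_650_x
  | ⟨35, _⟩ => e_715_x
  | ⟨36, _⟩ => e_673_x
  | ⟨37, _⟩ => e_682_x
  | ⟨38, _⟩ => e_648_x
  | ⟨39, _⟩ => e_655_x
  | ⟨40, _⟩ => e_677_x
  | ⟨41, _⟩ => e_652_x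
  | ⟨42, _⟩ => e_679_x
  | ⟨43, _⟩ => e_680_x
  | ⟨44, _⟩ => e_681_x
  | ⟨45, _⟩ => e_674_x
  | ⟨46, _⟩ => e_660_x
  | ⟨47, _⟩ => e_663_x
  | ⟨48, _⟩ => e_668_x
  | ⟨49, _⟩ => e_672_x
  | ⟨50, _⟩ => e_716_x
  | ⟨51, _⟩ => e_718_x
  | ⟨52, _⟩ => e_683_x
  | ⟨53, _⟩ => e_686_x
  | ⟨54, _⟩ => e_691_x
  | ⟨55, _⟩ => e_695_x
  | ⟨56, _⟩ => e_710_x
  | ⟨57, _⟩ => e_719_x
  | ⟨58, _⟩ => e_711_x
  | ⟨59, _⟩ => e_717_x
  | ⟨n+60, h⟩ => absurd h (by omega)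
theorem pre_x_ch : ∀ (a : Fin 12) (b : Fin 60), rep (px_x_ch a b) * x = rep_ch a b
  | ⟨0, _⟩ => pre_x_c0
  | ⟨1, _⟩ => pre_x_c1
  | ⟨2, _⟩ => pre_x_c2
  | ⟨3, _⟩ => pre_x_c3
  | ⟨4, _⟩ => pre_x_c4
  | ⟨5, _⟩ => pre_x_c5
  | ⟨6, _⟩ => pre_x_c6
  | ⟨7, _⟩ => pre_x_c7
  | ⟨8, _⟩ => pre_x_c8
  | ⟨9, _⟩ => pre_x_c9
  | ⟨10, _⟩ => pre_x_c10
  | ⟨11, _⟩ => pre_x_c11
  | ⟨n+12, h⟩ => absurd h (by omega)
theorem pre_x (i : Idx) : rep (px_x i) * x = rep i :=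
  pre_x_ch i.1 i.2
def nx_y_c0 : Fin 60 → Idx
  | ⟨0, _⟩ => (0, 2)
  | ⟨1, _⟩ => (0, 3)
  | ⟨2, _⟩ => (0, 5)
  | ⟨3, _⟩ => (0, 7)
  | ⟨4, _⟩ => (0, 8)
  | ⟨5, _⟩ => (0, 10)
  | ⟨6, _⟩ => (0, 11)
  | ⟨7, _⟩ => (0, 13)
  | ⟨8, _⟩ => (0, 15)
  | ⟨9, _⟩ => (0, 16)
  | ⟨10, _⟩ => (0, 18)
  | ⟨11, _⟩ => (0, 20)
  | ⟨12, _⟩ => (0, 21)
  | ⟨13, _⟩ => (0, 23)
  | ⟨14, _⟩ => (0, 24)
  | ⟨15, _⟩ => (0, 26)
  | ⟨16, _⟩ => (0, 28)
  | ⟨17, _⟩ => (0, 29)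
  | ⟨18, _⟩ => (0, 31)
  | ⟨19, _⟩ => (0, 32)
  | ⟨20, _⟩ => (0, 34)
  | ⟨21, _⟩ => (0, 36)
  | ⟨22, _⟩ => (0, 37)
  | ⟨23, _⟩ => (0, 39)
  | ⟨24, _⟩ => (0, 41)
  | ⟨25, _⟩ => (0, 42)
  | ⟨26, _⟩ => (0, 44)
  | ⟨27, _⟩ => (0, 45)
  | ⟨28, _⟩ => (0, 47)
  | ⟨29, _⟩ => (0, 49)
  | ⟨30, _⟩ => (0, 50)
  | ⟨31, _⟩ => (0, 0)
  | ⟨32, _⟩ => (0, 53)
  | ⟨33, _⟩ => (0, 54)
  | ⟨34, _⟩ => (0, 56)
  | ⟨35, _⟩ => (0, 57)
  | ⟨36, _⟩ => (0, 59)
  | ⟨37, _⟩ => (1, 1)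
  | ⟨38, _⟩ => (1, 2)
  | ⟨39, _⟩ => (0, 1)
  | ⟨40, _⟩ => (1, 3)
  | ⟨41, _⟩ => (1, 5)
  | ⟨42, _⟩ => (1, 7)
  | ⟨43, _⟩ => (1, 8)
  | ⟨44, _⟩ => (1, 10)
  | ⟨45, _⟩ => (1, 12)
  | ⟨46, _⟩ => (1, 13)
  | ⟨47, _⟩ => (1, 15)
  | ⟨48, _⟩ => (1, 16)
  | ⟨49, _⟩ => (1, 18)
  | ⟨50, _⟩ => (1, 20)
  | ⟨51, _⟩ => (1, 21)
  | ⟨52, _⟩ => (0, 51)
  | ⟨53, _⟩ => (1, 23)
  | ⟨54, _⟩ => (1, 25)
  | ⟨55, _⟩ => (1, 26)
  | ⟨56, _⟩ => (1, 28)
  | ⟨57, _⟩ => (1, 30)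
  | ⟨58, _⟩ => (1, 31)
  | ⟨59, _⟩ => (1, 33)
  | ⟨n+60, h⟩ => absurd h (by omega)
def nx_y_c1 : Fin 60 → Idx
  | ⟨0, _⟩ => (1, 34)
  | ⟨1, _⟩ => (1, 36)
  | ⟨2, _⟩ => (1, 38)
  | ⟨3, _⟩ => (1, 39)
  | ⟨4, _⟩ => (1, 40)
  | ⟨5, _⟩ => (1, 42)
  | ⟨6, _⟩ => (1, 43)
  | ⟨7, _⟩ => (1, 45)
  | ⟨8, _⟩ => (1, 47)
  | ⟨9, _⟩ => (1, 48)
  | ⟨10, _⟩ => (0, 4)
  | ⟨11, _⟩ => (1, 49)
  | ⟨12, _⟩ => (1, 51)
  | ⟨13, _⟩ => (1, 53)
  | ⟨14, _⟩ => (1, 54)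
  | ⟨15, _⟩ => (1, 55)
  | ⟨16, _⟩ => (1, 57)
  | ⟨17, _⟩ => (1, 58)
  | ⟨18, _⟩ => (1, 59)
  | ⟨19, _⟩ => (2, 0)
  | ⟨20, _⟩ => (2, 1)
  | ⟨21, _⟩ => (2, 3)
  | ⟨22, _⟩ => (2, 4)
  | ⟨23, _⟩ => (2, 6)
  | ⟨24, _⟩ => (2, 7)
  | ⟨25, _⟩ => (2, 9)
  | ⟨26, _⟩ => (2, 11)
  | ⟨27, _⟩ => (2, 12)
  | ⟨28, _⟩ => (0, 6)
  | ⟨29, _⟩ => (2, 13)
  | ⟨30, _⟩ => (2, 15)
  | ⟨31, _⟩ => (2, 17)
  | ⟨32, _⟩ => (2, 18)
  | ⟨33, _⟩ => (2, 19)
  | ⟨34, _⟩ => (2, 21)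
  | ⟨35, _⟩ => (2, 22)
  | ⟨36, _⟩ => (2, 23)
  | ⟨37, _⟩ => (2, 24)
  | ⟨38, _⟩ => (2, 25)
  | ⟨39, _⟩ => (2, 27)
  | ⟨40, _⟩ => (2, 29)
  | ⟨41, _⟩ => (2, 30)
  | ⟨42, _⟩ => (2, 32)
  | ⟨43, _⟩ => (2, 34)
  | ⟨44, _⟩ => (2, 35)
  | ⟨45, _⟩ => (2, 37)
  | ⟨46, _⟩ => (2, 38)
  | ⟨47, _⟩ => (2, 40)
  | ⟨48, _⟩ => (2, 42)
  | ⟨49, _⟩ => (2, 43)
  | ⟨50, _⟩ => (2, 44)
  | ⟨51, _⟩ => (2, 45)
  | ⟨52, _⟩ => (2, 46)
  | ⟨53, _⟩ => (2, 47)
  | ⟨54, _⟩ => (2, 49)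
  | ⟨55, _⟩ => (0, 9)
  | ⟨56, _⟩ => (2, 50)
  | ⟨57, _⟩ => (2, 51)
  | ⟨58, _⟩ => (2, 53)
  | ⟨59, _⟩ => (2, 54)
  | ⟨n+60, h⟩ => absurd h (by omega)
def nx_y_c2 : Fin 60 → Idx
  | ⟨0, _⟩ => (2, 56)
  | ⟨1, _⟩ => (2, 57)
  | ⟨2, _⟩ => (2, 58)
  | ⟨3, _⟩ => (2, 59)
  | ⟨4, _⟩ => (3, 1)
  | ⟨5, _⟩ => (3, 2)
  | ⟨6, _⟩ => (3, 4)
  | ⟨7, _⟩ => (3, 6)
  | ⟨8, _⟩ => (3, 7)
  | ⟨9, _⟩ => (3, 9)
  | ⟨10, _⟩ => (3, 10)
  | ⟨11, _⟩ => (3, 12)
  | ⟨12, _⟩ => (3, 14)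
  | ⟨13, _⟩ => (3, 15)
  | ⟨14, _⟩ => (3, 16)
  | ⟨15, _⟩ => (3, 17)
  | ⟨16, _⟩ => (3, 18)
  | ⟨17, _⟩ => (3, 19)
  | ⟨18, _⟩ => (3, 21)
  | ⟨19, _⟩ => (0, 12)
  | ⟨20, _⟩ => (3, 22)
  | ⟨21, _⟩ => (3, 23)
  | ⟨22, _⟩ => (3, 25)
  | ⟨23, _⟩ => (3, 26)
  | ⟨24, _⟩ => (3, 28)
  | ⟨25, _⟩ => (3, 29)
  | ⟨26, _⟩ => (3, 30)
  | ⟨27, _⟩ => (3, 31)
  | ⟨28, _⟩ => (3, 32)
  | ⟨29, _⟩ => (3, 34)
  | ⟨30, _⟩ => (3, 36)
  | ⟨31, _⟩ => (3, 37)
  | ⟨32, _⟩ => (0, 14)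
  | ⟨33, _⟩ => (3, 38)
  | ⟨34, _⟩ => (3, 40)
  | ⟨35, _⟩ => (3, 42)
  | ⟨36, _⟩ => (3, 43)
  | ⟨37, _⟩ => (3, 44)
  | ⟨38, _⟩ => (3, 46)
  | ⟨39, _⟩ => (3, 47)
  | ⟨40, _⟩ => (3, 48)
  | ⟨41, _⟩ => (3, 49)
  | ⟨42, _⟩ => (3, 50)
  | ⟨43, _⟩ => (3, 51)
  | ⟨44, _⟩ => (3, 53)
  | ⟨45, _⟩ => (3, 55)
  | ⟨46, _⟩ => (3, 57)
  | ⟨47, _⟩ => (3, 59)
  | ⟨48, _⟩ => (4, 0)
  | ⟨49, _⟩ => (4, 2)
  | ⟨50, _⟩ => (4, 3)
  | ⟨51, _⟩ => (4, 4)
  | ⟨52, _⟩ => (4, 5)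
  | ⟨53, _⟩ => (4, 6)
  | ⟨54, _⟩ => (0, 17)
  | ⟨55, _⟩ => (4, 7)
  | ⟨56, _⟩ => (4, 8)
  | ⟨57, _⟩ => (4, 9)
  | ⟨58, _⟩ => (4, 11)
  | ⟨59, _⟩ => (4, 12)
  | ⟨n+60, h⟩ => absurd h (by omega)
def nx_y_c3 : Fin 60 → Idx
  | ⟨0, _⟩ => (4, 13)
  | ⟨1, _⟩ => (4, 15)
  | ⟨2, _⟩ => (4, 17)
  | ⟨3, _⟩ => (4, 18)
  | ⟨4, _⟩ => (0, 19)
  | ⟨5, _⟩ => (4, 19)
  | ⟨6, _⟩ => (4, 21)
  | ⟨7, _⟩ => (4, 23)
  | ⟨8, _⟩ => (4, 24)
  | ⟨9, _⟩ => (4, 25)
  | ⟨10, _⟩ => (4, 27)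
  | ⟨11, _⟩ => (4, 28)
  | ⟨12, _⟩ => (4, 29)
  | ⟨13, _⟩ => (4, 30)
  | ⟨14, _⟩ => (4, 31)
  | ⟨15, _⟩ => (4, 32)
  | ⟨16, _⟩ => (4, 34)
  | ⟨17, _⟩ => (4, 36)
  | ⟨18, _⟩ => (4, 38)
  | ⟨19, _⟩ => (4, 40)
  | ⟨20, _⟩ => (4, 41)
  | ⟨21, _⟩ => (4, 43)
  | ⟨22, _⟩ => (4, 44)
  | ⟨23, _⟩ => (4, 45)
  | ⟨24, _⟩ => (4, 46)
  | ⟨25, _⟩ => (4, 47)
  | ⟨26, _⟩ => (0, 22)
  | ⟨27, _⟩ => (4, 48)
  | ⟨28, _⟩ => (4, 49)
  | ⟨29, _⟩ => (4, 50)
  | ⟨30, _⟩ => (4, 52)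
  | ⟨31, _⟩ => (4, 53)
  | ⟨32, _⟩ => (4, 54)
  | ⟨33, _⟩ => (4, 55)
  | ⟨34, _⟩ => (4, 57)
  | ⟨35, _⟩ => (4, 58)
  | ⟨36, _⟩ => (5, 0)
  | ⟨37, _⟩ => (5, 2)
  | ⟨38, _⟩ => (5, 3)
  | ⟨39, _⟩ => (5, 4)
  | ⟨40, _⟩ => (5, 5)
  | ⟨41, _⟩ => (5, 6)
  | ⟨42, _⟩ => (5, 7)
  | ⟨43, _⟩ => (5, 8)
  | ⟨44, _⟩ => (0, 25)
  | ⟨45, _⟩ => (5, 9)
  | ⟨46, _⟩ => (5, 10)
  | ⟨47, _⟩ => (5, 11)
  | ⟨48, _⟩ => (5, 12)
  | ⟨49, _⟩ => (5, 14)
  | ⟨50, _⟩ => (5, 15)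
  | ⟨51, _⟩ => (5, 16)
  | ⟨52, _⟩ => (5, 17)
  | ⟨53, _⟩ => (5, 19)
  | ⟨54, _⟩ => (5, 20)
  | ⟨55, _⟩ => (0, 27)
  | ⟨56, _⟩ => (5, 21)
  | ⟨57, _⟩ => (5, 23)
  | ⟨58, _⟩ => (5, 24)
  | ⟨59, _⟩ => (5, 25)
  | ⟨n+60, h⟩ => absurd h (by omega)
def nx_y_c4 : Fin 60 → Idx
  | ⟨0, _⟩ => (5, 27)
  | ⟨1, _⟩ => (5, 28)
  | ⟨2, _⟩ => (5, 29)
  | ⟨3, _⟩ => (5, 30)
  | ⟨4, _⟩ => (5, 32)
  | ⟨5, _⟩ => (5, 34)
  | ⟨6, _⟩ => (5, 35)
  | ⟨7, _⟩ => (5, 36)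
  | ⟨8, _⟩ => (5, 37)
  | ⟨9, _⟩ => (0, 30)
  | ⟨10, _⟩ => (5, 38)
  | ⟨11, _⟩ => (5, 39)
  | ⟨12, _⟩ => (0, 52)
  | ⟨13, _⟩ => (5, 40)
  | ⟨14, _⟩ => (5, 41)
  | ⟨15, _⟩ => (5, 43)
  | ⟨16, _⟩ => (5, 44)
  | ⟨17, _⟩ => (5, 46)
  | ⟨18, _⟩ => (5, 48)
  | ⟨19, _⟩ => (5, 49)
  | ⟨20, _⟩ => (5, 50)
  | ⟨21, _⟩ => (5, 51)
  | ⟨22, _⟩ => (5, 52)
  | ⟨23, _⟩ => (5, 53)
  | ⟨24, _⟩ => (5, 54)
  | ⟨25, _⟩ => (0, 33)
  | ⟨26, _⟩ => (5, 55)
  | ⟨27, _⟩ => (5, 56)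
  | ⟨28, _⟩ => (5, 57)
  | ⟨29, _⟩ => (5, 58)
  | ⟨30, _⟩ => (6, 0)
  | ⟨31, _⟩ => (6, 1)
  | ⟨32, _⟩ => (6, 2)
  | ⟨33, _⟩ => (6, 3)
  | ⟨34, _⟩ => (6, 5)
  | ⟨35, _⟩ => (6, 6)
  | ⟨36, _⟩ => (0, 35)
  | ⟨37, _⟩ => (6, 7)
  | ⟨38, _⟩ => (6, 9)
  | ⟨39, _⟩ => (6, 10)
  | ⟨40, _⟩ => (6, 11)
  | ⟨41, _⟩ => (6, 13)
  | ⟨42, _⟩ => (6, 14)
  | ⟨43, _⟩ => (6, 15)
  | ⟨44, _⟩ => (6, 16)
  | ⟨45, _⟩ => (6, 18)
  | ⟨46, _⟩ => (6, 20)
  | ⟨47, _⟩ => (6, 21)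
  | ⟨48, _⟩ => (6, 22)
  | ⟨49, _⟩ => (6, 23)
  | ⟨50, _⟩ => (0, 38)
  | ⟨51, _⟩ => (6, 24)
  | ⟨52, _⟩ => (6, 25)
  | ⟨53, _⟩ => (0, 40)
  | ⟨54, _⟩ => (6, 27)
  | ⟨55, _⟩ => (6, 29)
  | ⟨56, _⟩ => (6, 30)
  | ⟨57, _⟩ => (6, 31)
  | ⟨58, _⟩ => (6, 32)
  | ⟨59, _⟩ => (6, 33)
  | ⟨n+60, h⟩ => absurd h (by omega)
def nx_y_c5 : Fin 60 → Idx
  | ⟨0, _⟩ => (6, 34)
  | ⟨1, _⟩ => (6, 35)
  | ⟨2, _⟩ => (6, 36)
  | ⟨3, _⟩ => (6, 37)
  | ⟨4, _⟩ => (6, 38)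
  | ⟨5, _⟩ => (6, 40)
  | ⟨6, _⟩ => (6, 42)
  | ⟨7, _⟩ => (6, 44)
  | ⟨8, _⟩ => (6, 46)
  | ⟨9, _⟩ => (6, 47)
  | ⟨10, _⟩ => (6, 48)
  | ⟨11, _⟩ => (6, 49)
  | ⟨12, _⟩ => (0, 43)
  | ⟨13, _⟩ => (6, 50)
  | ⟨14, _⟩ => (6, 51)
  | ⟨15, _⟩ => (6, 52)
  | ⟨16, _⟩ => (6, 53)
  | ⟨17, _⟩ => (6, 54)
  | ⟨18, _⟩ => (6, 55)
  | ⟨19, _⟩ => (6, 57)
  | ⟨20, _⟩ => (6, 59)
  | ⟨21, _⟩ => (7, 0)
  | ⟨22, _⟩ => (7, 1)
  | ⟨23, _⟩ => (7, 2)
  | ⟨24, _⟩ => (7, 3)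
  | ⟨25, _⟩ => (0, 46)
  | ⟨26, _⟩ => (7, 4)
  | ⟨27, _⟩ => (7, 5)
  | ⟨28, _⟩ => (7, 6)
  | ⟨29, _⟩ => (7, 7)
  | ⟨30, _⟩ => (7, 8)
  | ⟨31, _⟩ => (7, 9)
  | ⟨32, _⟩ => (0, 48)
  | ⟨33, _⟩ => (7, 10)
  | ⟨34, _⟩ => (7, 12)
  | ⟨35, _⟩ => (7, 13)
  | ⟨36, _⟩ => (7, 14)
  | ⟨37, _⟩ => (7, 15)
  | ⟨38, _⟩ => (7, 16)
  | ⟨39, _⟩ => (7, 17)
  | ⟨40, _⟩ => (7, 19)
  | ⟨41, _⟩ => (7, 21)
  | ⟨42, _⟩ => (7, 22)
  | ⟨43, _⟩ => (7, 23)
  | ⟨44, _⟩ => (7, 24)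
  | ⟨45, _⟩ => (7, 25)
  | ⟨46, _⟩ => (7, 26)
  | ⟨47, _⟩ => (7, 27)
  | ⟨48, _⟩ => (7, 28)
  | ⟨49, _⟩ => (7, 29)
  | ⟨50, _⟩ => (7, 30)
  | ⟨51, _⟩ => (7, 32)
  | ⟨52, _⟩ => (7, 34)
  | ⟨53, _⟩ => (7, 36)
  | ⟨54, _⟩ => (7, 38)
  | ⟨55, _⟩ => (7, 39)
  | ⟨56, _⟩ => (7, 40)
  | ⟨57, _⟩ => (7, 41)
  | ⟨58, _⟩ => (0, 55)
  | ⟨59, _⟩ => (7, 42)
  | ⟨n+60, h⟩ => absurd h (by omega)
def nx_y_c6 : Fin 60 → Idx
  | ⟨0, _⟩ => (7, 43)
  | ⟨1, _⟩ => (7, 44)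
  | ⟨2, _⟩ => (7, 45)
  | ⟨3, _⟩ => (7, 46)
  | ⟨4, _⟩ => (7, 47)
  | ⟨5, _⟩ => (7, 49)
  | ⟨6, _⟩ => (7, 51)
  | ⟨7, _⟩ => (7, 52)
  | ⟨8, _⟩ => (7, 53)
  | ⟨9, _⟩ => (7, 54)
  | ⟨10, _⟩ => (7, 55)
  | ⟨11, _⟩ => (0, 58)
  | ⟨12, _⟩ => (7, 56)
  | ⟨13, _⟩ => (7, 57)
  | ⟨14, _⟩ => (7, 58)
  | ⟨15, _⟩ => (7, 59)
  | ⟨16, _⟩ => (8, 0)
  | ⟨17, _⟩ => (8, 1)
  | ⟨18, _⟩ => (1, 0)
  | ⟨19, _⟩ => (8, 2)
  | ⟨20, _⟩ => (8, 4)
  | ⟨21, _⟩ => (8, 5)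
  | ⟨22, _⟩ => (8, 6)
  | ⟨23, _⟩ => (8, 7)
  | ⟨24, _⟩ => (8, 8)
  | ⟨25, _⟩ => (8, 9)
  | ⟨26, _⟩ => (8, 10)
  | ⟨27, _⟩ => (8, 11)
  | ⟨28, _⟩ => (8, 12)
  | ⟨29, _⟩ => (8, 13)
  | ⟨30, _⟩ => (8, 14)
  | ⟨31, _⟩ => (1, 4)
  | ⟨32, _⟩ => (8, 15)
  | ⟨33, _⟩ => (8, 16)
  | ⟨34, _⟩ => (8, 17)
  | ⟨35, _⟩ => (8, 18)
  | ⟨36, _⟩ => (8, 19)
  | ⟨37, _⟩ => (8, 20)
  | ⟨38, _⟩ => (8, 22)
  | ⟨39, _⟩ => (8, 23)
  | ⟨40, _⟩ => (1, 6)
  | ⟨41, _⟩ => (8, 24)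
  | ⟨42, _⟩ => (8, 26)
  | ⟨43, _⟩ => (8, 27)
  | ⟨44, _⟩ => (8, 28)
  | ⟨45, _⟩ => (8, 29)
  | ⟨46, _⟩ => (8, 30)
  | ⟨47, _⟩ => (8, 31)
  | ⟨48, _⟩ => (8, 33)
  | ⟨49, _⟩ => (8, 34)
  | ⟨50, _⟩ => (8, 35)
  | ⟨51, _⟩ => (7, 50)
  | ⟨52, _⟩ => (1, 9)
  | ⟨53, _⟩ => (1, 11)
  | ⟨54, _⟩ => (8, 37)
  | ⟨55, _⟩ => (8, 39)
  | ⟨56, _⟩ => (7, 18)
  | ⟨57, _⟩ => (8, 40)
  | ⟨58, _⟩ => (8, 41)
  | ⟨59, _⟩ => (8, 42)
  | ⟨n+60, h⟩ => absurd h (by omega)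
def nx_y_c7 : Fin 60 → Idx
  | ⟨0, _⟩ => (8, 43)
  | ⟨1, _⟩ => (4, 22)
  | ⟨2, _⟩ => (8, 45)
  | ⟨3, _⟩ => (8, 47)
  | ⟨4, _⟩ => (8, 48)
  | ⟨5, _⟩ => (8, 49)
  | ⟨6, _⟩ => (7, 31)
  | ⟨7, _⟩ => (1, 14)
  | ⟨8, _⟩ => (8, 50)
  | ⟨9, _⟩ => (8, 52)
  | ⟨10, _⟩ => (8, 53)
  | ⟨11, _⟩ => (8, 54)
  | ⟨12, _⟩ => (8, 55)
  | ⟨13, _⟩ => (1, 17)
  | ⟨14, _⟩ => (8, 56)
  | ⟨15, _⟩ => (1, 19)
  | ⟨16, _⟩ => (8, 57)
  | ⟨17, _⟩ => (8, 58)
  | ⟨18, _⟩ => (8, 59)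
  | ⟨19, _⟩ => (9, 0)
  | ⟨20, _⟩ => (9, 1)
  | ⟨21, _⟩ => (9, 2)
  | ⟨22, _⟩ => (9, 3)
  | ⟨23, _⟩ => (1, 22)
  | ⟨24, _⟩ => (9, 4)
  | ⟨25, _⟩ => (9, 5)
  | ⟨26, _⟩ => (9, 6)
  | ⟨27, _⟩ => (9, 7)
  | ⟨28, _⟩ => (9, 8)
  | ⟨29, _⟩ => (9, 9)
  | ⟨30, _⟩ => (9, 11)
  | ⟨31, _⟩ => (9, 12)
  | ⟨32, _⟩ => (1, 24)
  | ⟨33, _⟩ => (9, 13)
  | ⟨34, _⟩ => (9, 15)
  | ⟨35, _⟩ => (9, 16)
  | ⟨36, _⟩ => (9, 17)
  | ⟨37, _⟩ => (9, 18)
  | ⟨38, _⟩ => (9, 19)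
  | ⟨39, _⟩ => (9, 20)
  | ⟨40, _⟩ => (9, 22)
  | ⟨41, _⟩ => (9, 23)
  | ⟨42, _⟩ => (9, 24)
  | ⟨43, _⟩ => (6, 58)
  | ⟨44, _⟩ => (1, 27)
  | ⟨45, _⟩ => (1, 29)
  | ⟨46, _⟩ => (9, 26)
  | ⟨47, _⟩ => (9, 28)
  | ⟨48, _⟩ => (6, 26)
  | ⟨49, _⟩ => (9, 29)
  | ⟨50, _⟩ => (9, 30)
  | ⟨51, _⟩ => (9, 31)
  | ⟨52, _⟩ => (9, 32)
  | ⟨53, _⟩ => (3, 41)
  | ⟨54, _⟩ => (9, 34)
  | ⟨55, _⟩ => (9, 36)
  | ⟨56, _⟩ => (9, 37)
  | ⟨57, _⟩ => (9, 38)
  | ⟨58, _⟩ => (6, 39)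
  | ⟨59, _⟩ => (1, 32)
  | ⟨n+60, h⟩ => absurd h (by omega)
def nx_y_c8 : Fin 60 → Idx
  | ⟨0, _⟩ => (9, 39)
  | ⟨1, _⟩ => (9, 41)
  | ⟨2, _⟩ => (9, 42)
  | ⟨3, _⟩ => (9, 43)
  | ⟨4, _⟩ => (9, 44)
  | ⟨5, _⟩ => (1, 35)
  | ⟨6, _⟩ => (9, 45)
  | ⟨7, _⟩ => (1, 37)
  | ⟨8, _⟩ => (9, 46)
  | ⟨9, _⟩ => (9, 47)
  | ⟨10, _⟩ => (9, 48)
  | ⟨11, _⟩ => (9, 49)
  | ⟨12, _⟩ => (9, 50)
  | ⟨13, _⟩ => (9, 51)
  | ⟨14, _⟩ => (9, 52)
  | ⟨15, _⟩ => (9, 53)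
  | ⟨16, _⟩ => (9, 10)
  | ⟨17, _⟩ => (1, 41)
  | ⟨18, _⟩ => (9, 54)
  | ⟨19, _⟩ => (9, 55)
  | ⟨20, _⟩ => (9, 56)
  | ⟨21, _⟩ => (9, 57)
  | ⟨22, _⟩ => (9, 59)
  | ⟨23, _⟩ => (10, 0)
  | ⟨24, _⟩ => (10, 1)
  | ⟨25, _⟩ => (10, 2)
  | ⟨26, _⟩ => (6, 8)
  | ⟨27, _⟩ => (10, 3)
  | ⟨28, _⟩ => (1, 44)
  | ⟨29, _⟩ => (10, 4)
  | ⟨30, _⟩ => (10, 5)
  | ⟨31, _⟩ => (10, 6)
  | ⟨32, _⟩ => (6, 4)
  | ⟨33, _⟩ => (1, 46)
  | ⟨34, _⟩ => (10, 7)
  | ⟨35, _⟩ => (9, 27)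
  | ⟨36, _⟩ => (10, 8)
  | ⟨37, _⟩ => (10, 9)
  | ⟨38, _⟩ => (10, 10)
  | ⟨39, _⟩ => (10, 11)
  | ⟨40, _⟩ => (1, 50)
  | ⟨41, _⟩ => (3, 13)
  | ⟨42, _⟩ => (10, 12)
  | ⟨43, _⟩ => (10, 13)
  | ⟨44, _⟩ => (10, 14)
  | ⟨45, _⟩ => (1, 52)
  | ⟨46, _⟩ => (10, 15)
  | ⟨47, _⟩ => (9, 14)
  | ⟨48, _⟩ => (10, 16)
  | ⟨49, _⟩ => (10, 17)
  | ⟨50, _⟩ => (1, 56)
  | ⟨51, _⟩ => (10, 18)
  | ⟨52, _⟩ => (10, 19)
  | ⟨53, _⟩ => (10, 20)
  | ⟨54, _⟩ => (6, 28)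
  | ⟨55, _⟩ => (10, 21)
  | ⟨56, _⟩ => (10, 22)
  | ⟨57, _⟩ => (10, 23)
  | ⟨58, _⟩ => (2, 2)
  | ⟨59, _⟩ => (10, 24)
  | ⟨n+60, h⟩ => absurd h (by omega)
def nx_y_c9 : Fin 60 → Idx
  | ⟨0, _⟩ => (10, 25)
  | ⟨1, _⟩ => (10, 26)
  | ⟨2, _⟩ => (10, 27)
  | ⟨3, _⟩ => (10, 28)
  | ⟨4, _⟩ => (10, 29)
  | ⟨5, _⟩ => (8, 21)
  | ⟨6, _⟩ => (2, 5)
  | ⟨7, _⟩ => (10, 30)
  | ⟨8, _⟩ => (10, 31)
  | ⟨9, _⟩ => (10, 32)
  | ⟨10, _⟩ => (10, 33)
  | ⟨11, _⟩ => (10, 35)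
  | ⟨12, _⟩ => (10, 36)
  | ⟨13, _⟩ => (10, 37)
  | ⟨14, _⟩ => (10, 38)
  | ⟨15, _⟩ => (5, 22)
  | ⟨16, _⟩ => (10, 39)
  | ⟨17, _⟩ => (2, 8)
  | ⟨18, _⟩ => (10, 40)
  | ⟨19, _⟩ => (10, 41)
  | ⟨20, _⟩ => (10, 42)
  | ⟨21, _⟩ => (5, 18)
  | ⟨22, _⟩ => (2, 10)
  | ⟨23, _⟩ => (10, 43)
  | ⟨24, _⟩ => (8, 38)
  | ⟨25, _⟩ => (10, 44)
  | ⟨26, _⟩ => (10, 45)
  | ⟨27, _⟩ => (10, 46)
  | ⟨28, _⟩ => (10, 47)
  | ⟨29, _⟩ => (2, 14)
  | ⟨30, _⟩ => (2, 41)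
  | ⟨31, _⟩ => (10, 48)
  | ⟨32, _⟩ => (10, 49)
  | ⟨33, _⟩ => (10, 50)
  | ⟨34, _⟩ => (2, 16)
  | ⟨35, _⟩ => (10, 51)
  | ⟨36, _⟩ => (8, 25)
  | ⟨37, _⟩ => (10, 52)
  | ⟨38, _⟩ => (10, 53)
  | ⟨39, _⟩ => (2, 20)
  | ⟨40, _⟩ => (10, 54)
  | ⟨41, _⟩ => (10, 55)
  | ⟨42, _⟩ => (10, 56)
  | ⟨43, _⟩ => (7, 20)
  | ⟨44, _⟩ => (10, 57)
  | ⟨45, _⟩ => (10, 58)
  | ⟨46, _⟩ => (10, 59)
  | ⟨47, _⟩ => (2, 26)
  | ⟨48, _⟩ => (11, 0)
  | ⟨49, _⟩ => (2, 28)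
  | ⟨50, _⟩ => (11, 1)
  | ⟨51, _⟩ => (11, 2)
  | ⟨52, _⟩ => (11, 3)
  | ⟨53, _⟩ => (11, 5)
  | ⟨54, _⟩ => (8, 51)
  | ⟨55, _⟩ => (2, 31)
  | ⟨56, _⟩ => (2, 33)
  | ⟨57, _⟩ => (11, 6)
  | ⟨58, _⟩ => (8, 36)
  | ⟨59, _⟩ => (11, 7)
  | ⟨n+60, h⟩ => absurd h (by omega)
def nx_y_c10 : Fin 60 → Idx
  | ⟨0, _⟩ => (4, 42)
  | ⟨1, _⟩ => (11, 8)
  | ⟨2, _⟩ => (4, 39)
  | ⟨3, _⟩ => (11, 10)
  | ⟨4, _⟩ => (8, 44)
  | ⟨5, _⟩ => (2, 36)
  | ⟨6, _⟩ => (11, 11)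
  | ⟨7, _⟩ => (2, 39)
  | ⟨8, _⟩ => (11, 12)
  | ⟨9, _⟩ => (11, 13)
  | ⟨10, _⟩ => (11, 14)
  | ⟨11, _⟩ => (11, 15)
  | ⟨12, _⟩ => (11, 16)
  | ⟨13, _⟩ => (11, 17)
  | ⟨14, _⟩ => (11, 18)
  | ⟨15, _⟩ => (7, 35)
  | ⟨16, _⟩ => (11, 19)
  | ⟨17, _⟩ => (2, 48)
  | ⟨18, _⟩ => (5, 1)
  | ⟨19, _⟩ => (11, 20)
  | ⟨20, _⟩ => (11, 21)
  | ⟨21, _⟩ => (2, 52)
  | ⟨22, _⟩ => (2, 55)
  | ⟨23, _⟩ => (11, 22)
  | ⟨24, _⟩ => (11, 23)
  | ⟨25, _⟩ => (3, 0)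
  | ⟨26, _⟩ => (11, 24)
  | ⟨27, _⟩ => (11, 25)
  | ⟨28, _⟩ => (11, 26)
  | ⟨29, _⟩ => (11, 28)
  | ⟨30, _⟩ => (9, 40)
  | ⟨31, _⟩ => (3, 3)
  | ⟨32, _⟩ => (3, 5)
  | ⟨33, _⟩ => (11, 29)
  | ⟨34, _⟩ => (9, 25)
  | ⟨35, _⟩ => (11, 30)
  | ⟨36, _⟩ => (4, 1)
  | ⟨37, _⟩ => (11, 31)
  | ⟨38, _⟩ => (3, 58)
  | ⟨39, _⟩ => (11, 33)
  | ⟨40, _⟩ => (9, 33)
  | ⟨41, _⟩ => (3, 8)
  | ⟨42, _⟩ => (11, 34)
  | ⟨43, _⟩ => (3, 11)
  | ⟨44, _⟩ => (11, 35)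
  | ⟨45, _⟩ => (11, 36)
  | ⟨46, _⟩ => (11, 37)
  | ⟨47, _⟩ => (11, 38)
  | ⟨48, _⟩ => (11, 39)
  | ⟨49, _⟩ => (11, 40)
  | ⟨50, _⟩ => (11, 41)
  | ⟨51, _⟩ => (6, 43)
  | ⟨52, _⟩ => (11, 42)
  | ⟨53, _⟩ => (3, 20)
  | ⟨54, _⟩ => (5, 47)
  | ⟨55, _⟩ => (11, 43)
  | ⟨56, _⟩ => (11, 44)
  | ⟨57, _⟩ => (3, 24)
  | ⟨58, _⟩ => (3, 27)
  | ⟨59, _⟩ => (11, 45)
  | ⟨n+60, h⟩ => absurd h (by omega)
def nx_y_c11 : Fin 60 → Idx
  | ⟨0, _⟩ => (11, 47)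
  | ⟨1, _⟩ => (7, 11)
  | ⟨2, _⟩ => (3, 33)
  | ⟨3, _⟩ => (11, 48)
  | ⟨4, _⟩ => (6, 17)
  | ⟨5, _⟩ => (3, 35)
  | ⟨6, _⟩ => (5, 45)
  | ⟨7, _⟩ => (3, 39)
  | ⟨8, _⟩ => (11, 49)
  | ⟨9, _⟩ => (6, 12)
  | ⟨10, _⟩ => (9, 35)
  | ⟨11, _⟩ => (3, 45)
  | ⟨12, _⟩ => (11, 50)
  | ⟨13, _⟩ => (3, 52)
  | ⟨14, _⟩ => (5, 59)
  | ⟨15, _⟩ => (9, 21)
  | ⟨16, _⟩ => (3, 54)
  | ⟨17, _⟩ => (3, 56)
  | ⟨18, _⟩ => (6, 45)
  | ⟨19, _⟩ => (11, 32)
  | ⟨20, _⟩ => (11, 27)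
  | ⟨21, _⟩ => (11, 51)
  | ⟨22, _⟩ => (4, 10)
  | ⟨23, _⟩ => (11, 53)
  | ⟨24, _⟩ => (8, 3)
  | ⟨25, _⟩ => (4, 14)
  | ⟨26, _⟩ => (11, 54)
  | ⟨27, _⟩ => (5, 31)
  | ⟨28, _⟩ => (4, 16)
  | ⟨29, _⟩ => (4, 59)
  | ⟨30, _⟩ => (4, 20)
  | ⟨31, _⟩ => (11, 55)
  | ⟨32, _⟩ => (5, 26)
  | ⟨33, _⟩ => (8, 46)
  | ⟨34, _⟩ => (4, 26)
  | ⟨35, _⟩ => (11, 56)
  | ⟨36, _⟩ => (4, 33)
  | ⟨37, _⟩ => (5, 13)
  | ⟨38, _⟩ => (8, 32)
  | ⟨39, _⟩ => (4, 35)
  | ⟨40, _⟩ => (4, 37)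
  | ⟨41, _⟩ => (7, 37)
  | ⟨42, _⟩ => (11, 9)
  | ⟨43, _⟩ => (11, 4)
  | ⟨44, _⟩ => (11, 57)
  | ⟨45, _⟩ => (4, 51)
  | ⟨46, _⟩ => (10, 34)
  | ⟨47, _⟩ => (7, 48)
  | ⟨48, _⟩ => (4, 56)
  | ⟨49, _⟩ => (11, 58)
  | ⟨50, _⟩ => (11, 52)
  | ⟨51, _⟩ => (5, 33)
  | ⟨52, _⟩ => (9, 58)
  | ⟨53, _⟩ => (6, 56)
  | ⟨54, _⟩ => (5, 42)
  | ⟨55, _⟩ => (11, 59)
  | ⟨56, _⟩ => (11, 46)
  | ⟨57, _⟩ => (6, 19)
  | ⟨58, _⟩ => (6, 41)
  | ⟨59, _⟩ => (7, 33)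
  | ⟨n+60, h⟩ => absurd h (by omega)
def nx_y_ch : Fin 12 → Fin 60 → Idx
  | ⟨0, _⟩ => nx_y_c0
  | ⟨1, _⟩ => nx_y_c1
  | ⟨2, _⟩ => nx_y_c2
  | ⟨3, _⟩ => nx_y_c3
  | ⟨4, _⟩ => nx_y_c4
  | ⟨5, _⟩ => nx_y_c5
  | ⟨6, _⟩ => nx_y_c6
  | ⟨7, _⟩ => nx_y_c7
  | ⟨8, _⟩ => nx_y_c8
  | ⟨9, _⟩ => nx_y_c9
  | ⟨10, _⟩ => nx_y_c10
  | ⟨11, _⟩ => nx_y_c11
  | ⟨n+12, h⟩ => absurd h (by omega)
def nx_y (i : Idx) : Idx := nx_y_ch i.1 i.2
def px_y_c0 : Fin 60 → Idx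
  | ⟨0, _⟩ => (0, 31)
  | ⟨1, _⟩ => (0, 39)
  | ⟨2, _⟩ => (0, 0)
  | ⟨3, _⟩ => (0, 1)
  | ⟨4, _⟩ => (1, 10)
  | ⟨5, _⟩ => (0, 2)
  | ⟨6, _⟩ => (1, 28)
  | ⟨7, _⟩ => (0, 3)
  | ⟨8, _⟩ => (0, 4)
  | ⟨9, _⟩ => (1, 55)
  | ⟨10, _⟩ => (0, 5)
  | ⟨11, _⟩ => (0, 6)
  | ⟨12, _⟩ => (2, 19)
  | ⟨13, _⟩ => (0, 7)
  | ⟨14, _⟩ => (2, 32)
  | ⟨15, _⟩ => (0, 8)
  | ⟨16, _⟩ => (0, 9)
  | ⟨17, _⟩ => (2, 54)
  | ⟨18, _⟩ => (0, 10)
  | ⟨19, _⟩ => (3, 4)
  | ⟨20, _⟩ => (0, 11)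
  | ⟨21, _⟩ => (0, 12)
  | ⟨22, _⟩ => (3, 26)
  | ⟨23, _⟩ => (0, 13)
  | ⟨24, _⟩ => (0, 14)
  | ⟨25, _⟩ => (3, 44)
  | ⟨26, _⟩ => (0, 15)
  | ⟨27, _⟩ => (3, 55)
  | ⟨28, _⟩ => (0, 16)
  | ⟨29, _⟩ => (0, 17)
  | ⟨30, _⟩ => (4, 9)
  | ⟨31, _⟩ => (0, 18)
  | ⟨32, _⟩ => (0, 19)
  | ⟨33, _⟩ => (4, 25)
  | ⟨34, _⟩ => (0, 20)
  | ⟨35, _⟩ => (4, 36)
  | ⟨36, _⟩ => (0, 21)
  | ⟨37, _⟩ => (0, 22)
  | ⟨38, _⟩ => (4, 50)
  | ⟨39, _⟩ => (0, 23)
  | ⟨40, _⟩ => (4, 53)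
  | ⟨41, _⟩ => (0, 24)
  | ⟨42, _⟩ => (0, 25)
  | ⟨43, _⟩ => (5, 12)
  | ⟨44, _⟩ => (0, 26)
  | ⟨45, _⟩ => (0, 27)
  | ⟨46, _⟩ => (5, 25)
  | ⟨47, _⟩ => (0, 28)
  | ⟨48, _⟩ => (5, 32)
  | ⟨49, _⟩ => (0, 29)
  | ⟨50, _⟩ => (0, 30)
  | ⟨51, _⟩ => (0, 52)
  | ⟨52, _⟩ => (4, 12)
  | ⟨53, _⟩ => (0, 32)
  | ⟨54, _⟩ => (0, 33)
  | ⟨55, _⟩ => (5, 58)
  | ⟨56, _⟩ => (0, 34)
  | ⟨57, _⟩ => (0, 35)
  | ⟨58, _⟩ => (6, 11)
  | ⟨59, _⟩ => (0, 36)
  | ⟨n+60, h⟩ => absurd h (by omega)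
def px_y_c1 : Fin 60 → Idx
  | ⟨0, _⟩ => (6, 18)
  | ⟨1, _⟩ => (0, 37)
  | ⟨2, _⟩ => (0, 38)
  | ⟨3, _⟩ => (0, 40)
  | ⟨4, _⟩ => (6, 31)
  | ⟨5, _⟩ => (0, 41)
  | ⟨6, _⟩ => (6, 40)
  | ⟨7, _⟩ => (0, 42)
  | ⟨8, _⟩ => (0, 43)
  | ⟨9, _⟩ => (6, 52)
  | ⟨10, _⟩ => (0, 44)
  | ⟨11, _⟩ => (6, 53)
  | ⟨12, _⟩ => (0, 45)
  | ⟨13, _⟩ => (0, 46)
  | ⟨14, _⟩ => (7, 7)
  | ⟨15, _⟩ => (0, 47)
  | ⟨16, _⟩ => (0, 48)
  | ⟨17, _⟩ => (7, 13)
  | ⟨18, _⟩ => (0, 49)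
  | ⟨19, _⟩ => (7, 15)
  | ⟨20, _⟩ => (0, 50)
  | ⟨21, _⟩ => (0, 51)
  | ⟨22, _⟩ => (7, 23)
  | ⟨23, _⟩ => (0, 53)
  | ⟨24, _⟩ => (7, 32)
  | ⟨25, _⟩ => (0, 54)
  | ⟨26, _⟩ => (0, 55)
  | ⟨27, _⟩ => (7, 44)
  | ⟨28, _⟩ => (0, 56)
  | ⟨29, _⟩ => (7, 45)
  | ⟨30, _⟩ => (0, 57)
  | ⟨31, _⟩ => (0, 58)
  | ⟨32, _⟩ => (7, 59)
  | ⟨33, _⟩ => (0, 59)
  | ⟨34, _⟩ => (1, 0)
  | ⟨35, _⟩ => (8, 5)
  | ⟨36, _⟩ => (1, 1)
  | ⟨37, _⟩ => (8, 7)
  | ⟨38, _⟩ => (1, 2)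
  | ⟨39, _⟩ => (1, 3)
  | ⟨40, _⟩ => (1, 4)
  | ⟨41, _⟩ => (8, 17)
  | ⟨42, _⟩ => (1, 5)
  | ⟨43, _⟩ => (1, 6)
  | ⟨44, _⟩ => (8, 28)
  | ⟨45, _⟩ => (1, 7)
  | ⟨46, _⟩ => (8, 33)
  | ⟨47, _⟩ => (1, 8)
  | ⟨48, _⟩ => (1, 9)
  | ⟨49, _⟩ => (1, 11)
  | ⟨50, _⟩ => (8, 40)
  | ⟨51, _⟩ => (1, 12)
  | ⟨52, _⟩ => (8, 45)
  | ⟨53, _⟩ => (1, 13)
  | ⟨54, _⟩ => (1, 14)
  | ⟨55, _⟩ => (1, 15)
  | ⟨56, _⟩ => (8, 50)
  | ⟨57, _⟩ => (1, 16)
  | ⟨58, _⟩ => (1, 17)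
  | ⟨59, _⟩ => (1, 18)
  | ⟨n+60, h⟩ => absurd h (by omega)
def px_y_c2 : Fin 60 → Idx
  | ⟨0, _⟩ => (1, 19)
  | ⟨1, _⟩ => (1, 20)
  | ⟨2, _⟩ => (8, 58)
  | ⟨3, _⟩ => (1, 21)
  | ⟨4, _⟩ => (1, 22)
  | ⟨5, _⟩ => (9, 6)
  | ⟨6, _⟩ => (1, 23)
  | ⟨7, _⟩ => (1, 24)
  | ⟨8, _⟩ => (9, 17)
  | ⟨9, _⟩ => (1, 25)
  | ⟨10, _⟩ => (9, 22)
  | ⟨11, _⟩ => (1, 26)
  | ⟨12, _⟩ => (1, 27)
  | ⟨13, _⟩ => (1, 29)
  | ⟨14, _⟩ => (9, 29)
  | ⟨15, _⟩ => (1, 30)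
  | ⟨16, _⟩ => (9, 34)
  | ⟨17, _⟩ => (1, 31)
  | ⟨18, _⟩ => (1, 32)
  | ⟨19, _⟩ => (1, 33)
  | ⟨20, _⟩ => (9, 39)
  | ⟨21, _⟩ => (1, 34)
  | ⟨22, _⟩ => (1, 35)
  | ⟨23, _⟩ => (1, 36)
  | ⟨24, _⟩ => (1, 37)
  | ⟨25, _⟩ => (1, 38)
  | ⟨26, _⟩ => (9, 47)
  | ⟨27, _⟩ => (1, 39)
  | ⟨28, _⟩ => (9, 49)
  | ⟨29, _⟩ => (1, 40)
  | ⟨30, _⟩ => (1, 41)
  | ⟨31, _⟩ => (9, 55)
  | ⟨32, _⟩ => (1, 42)
  | ⟨33, _⟩ => (9, 56)
  | ⟨34, _⟩ => (1, 43)
  | ⟨35, _⟩ => (1, 44)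
  | ⟨36, _⟩ => (10, 5)
  | ⟨37, _⟩ => (1, 45)
  | ⟨38, _⟩ => (1, 46)
  | ⟨39, _⟩ => (10, 7)
  | ⟨40, _⟩ => (1, 47)
  | ⟨41, _⟩ => (9, 30)
  | ⟨42, _⟩ => (1, 48)
  | ⟨43, _⟩ => (1, 49)
  | ⟨44, _⟩ => (1, 50)
  | ⟨45, _⟩ => (1, 51)
  | ⟨46, _⟩ => (1, 52)
  | ⟨47, _⟩ => (1, 53)
  | ⟨48, _⟩ => (10, 17)
  | ⟨49, _⟩ => (1, 54)
  | ⟨50, _⟩ => (1, 56)
  | ⟨51, _⟩ => (1, 57)
  | ⟨52, _⟩ => (10, 21)
  | ⟨53, _⟩ => (1, 58)
  | ⟨54, _⟩ => (1, 59)
  | ⟨55, _⟩ => (10, 22)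
  | ⟨56, _⟩ => (2, 0)
  | ⟨57, _⟩ => (2, 1)
  | ⟨58, _⟩ => (2, 2)
  | ⟨59, _⟩ => (2, 3)
  | ⟨n+60, h⟩ => absurd h (by omega)
def px_y_c3 : Fin 60 → Idx
  | ⟨0, _⟩ => (10, 25)
  | ⟨1, _⟩ => (2, 4)
  | ⟨2, _⟩ => (2, 5)
  | ⟨3, _⟩ => (10, 31)
  | ⟨4, _⟩ => (2, 6)
  | ⟨5, _⟩ => (10, 32)
  | ⟨6, _⟩ => (2, 7)
  | ⟨7, _⟩ => (2, 8)
  | ⟨8, _⟩ => (10, 41)
  | ⟨9, _⟩ => (2, 9)
  | ⟨10, _⟩ => (2, 10)
  | ⟨11, _⟩ => (10, 43)
  | ⟨12, _⟩ => (2, 11)
  | ⟨13, _⟩ => (8, 41)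
  | ⟨14, _⟩ => (2, 12)
  | ⟨15, _⟩ => (2, 13)
  | ⟨16, _⟩ => (2, 14)
  | ⟨17, _⟩ => (2, 15)
  | ⟨18, _⟩ => (2, 16)
  | ⟨19, _⟩ => (2, 17)
  | ⟨20, _⟩ => (10, 53)
  | ⟨21, _⟩ => (2, 18)
  | ⟨22, _⟩ => (2, 20)
  | ⟨23, _⟩ => (2, 21)
  | ⟨24, _⟩ => (10, 57)
  | ⟨25, _⟩ => (2, 22)
  | ⟨26, _⟩ => (2, 23)
  | ⟨27, _⟩ => (10, 58)
  | ⟨28, _⟩ => (2, 24)
  | ⟨29, _⟩ => (2, 25)
  | ⟨30, _⟩ => (2, 26)
  | ⟨31, _⟩ => (2, 27)
  | ⟨32, _⟩ => (2, 28)
  | ⟨33, _⟩ => (11, 2)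
  | ⟨34, _⟩ => (2, 29)
  | ⟨35, _⟩ => (11, 5)
  | ⟨36, _⟩ => (2, 30)
  | ⟨37, _⟩ => (2, 31)
  | ⟨38, _⟩ => (2, 33)
  | ⟨39, _⟩ => (11, 7)
  | ⟨40, _⟩ => (2, 34)
  | ⟨41, _⟩ => (7, 53)
  | ⟨42, _⟩ => (2, 35)
  | ⟨43, _⟩ => (2, 36)
  | ⟨44, _⟩ => (2, 37)
  | ⟨45, _⟩ => (11, 11)
  | ⟨46, _⟩ => (2, 38)
  | ⟨47, _⟩ => (2, 39)
  | ⟨48, _⟩ => (2, 40)
  | ⟨49, _⟩ => (2, 41)
  | ⟨50, _⟩ => (2, 42)
  | ⟨51, _⟩ => (2, 43)
  | ⟨52, _⟩ => (11, 13)
  | ⟨53, _⟩ => (2, 44)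
  | ⟨54, _⟩ => (11, 16)
  | ⟨55, _⟩ => (2, 45)
  | ⟨56, _⟩ => (11, 17)
  | ⟨57, _⟩ => (2, 46)
  | ⟨58, _⟩ => (10, 38)
  | ⟨59, _⟩ => (2, 47)
  | ⟨n+60, h⟩ => absurd h (by omega)
def px_y_c4 : Fin 60 → Idx
  | ⟨0, _⟩ => (2, 48)
  | ⟨1, _⟩ => (10, 36)
  | ⟨2, _⟩ => (2, 49)
  | ⟨3, _⟩ => (2, 50)
  | ⟨4, _⟩ => (2, 51)
  | ⟨5, _⟩ => (2, 52)
  | ⟨6, _⟩ => (2, 53)
  | ⟨7, _⟩ => (2, 55)
  | ⟨8, _⟩ => (2, 56)
  | ⟨9, _⟩ => (2, 57)
  | ⟨10, _⟩ => (11, 22)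
  | ⟨11, _⟩ => (2, 58)
  | ⟨12, _⟩ => (2, 59)
  | ⟨13, _⟩ => (3, 0)
  | ⟨14, _⟩ => (11, 25)
  | ⟨15, _⟩ => (3, 1)
  | ⟨16, _⟩ => (11, 28)
  | ⟨17, _⟩ => (3, 2)
  | ⟨18, _⟩ => (3, 3)
  | ⟨19, _⟩ => (3, 5)
  | ⟨20, _⟩ => (11, 30)
  | ⟨21, _⟩ => (3, 6)
  | ⟨22, _⟩ => (7, 1)
  | ⟨23, _⟩ => (3, 7)
  | ⟨24, _⟩ => (3, 8)
  | ⟨25, _⟩ => (3, 9)
  | ⟨26, _⟩ => (11, 34)
  | ⟨27, _⟩ => (3, 10)
  | ⟨28, _⟩ => (3, 11)
  | ⟨29, _⟩ => (3, 12)
  | ⟨30, _⟩ => (3, 13)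
  | ⟨31, _⟩ => (3, 14)
  | ⟨32, _⟩ => (3, 15)
  | ⟨33, _⟩ => (11, 36)
  | ⟨34, _⟩ => (3, 16)
  | ⟨35, _⟩ => (11, 39)
  | ⟨36, _⟩ => (3, 17)
  | ⟨37, _⟩ => (11, 40)
  | ⟨38, _⟩ => (3, 18)
  | ⟨39, _⟩ => (10, 2)
  | ⟨40, _⟩ => (3, 19)
  | ⟨41, _⟩ => (3, 20)
  | ⟨42, _⟩ => (10, 0)
  | ⟨43, _⟩ => (3, 21)
  | ⟨44, _⟩ => (3, 22)
  | ⟨45, _⟩ => (3, 23)
  | ⟨46, _⟩ => (3, 24)
  | ⟨47, _⟩ => (3, 25)
  | ⟨48, _⟩ => (3, 27)
  | ⟨49, _⟩ => (3, 28)
  | ⟨50, _⟩ => (3, 29)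
  | ⟨51, _⟩ => (11, 45)
  | ⟨52, _⟩ => (3, 30)
  | ⟨53, _⟩ => (3, 31)
  | ⟨54, _⟩ => (3, 32)
  | ⟨55, _⟩ => (3, 33)
  | ⟨56, _⟩ => (11, 48)
  | ⟨57, _⟩ => (3, 34)
  | ⟨58, _⟩ => (3, 35)
  | ⟨59, _⟩ => (11, 29)
  | ⟨n+60, h⟩ => absurd h (by omega)
def px_y_c5 : Fin 60 → Idx
  | ⟨0, _⟩ => (3, 36)
  | ⟨1, _⟩ => (10, 18)
  | ⟨2, _⟩ => (3, 37)
  | ⟨3, _⟩ => (3, 38)
  | ⟨4, _⟩ => (3, 39)
  | ⟨5, _⟩ => (3, 40)
  | ⟨6, _⟩ => (3, 41)
  | ⟨7, _⟩ => (3, 42)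
  | ⟨8, _⟩ => (3, 43)
  | ⟨9, _⟩ => (3, 45)
  | ⟨10, _⟩ => (3, 46)
  | ⟨11, _⟩ => (3, 47)
  | ⟨12, _⟩ => (3, 48)
  | ⟨13, _⟩ => (11, 37)
  | ⟨14, _⟩ => (3, 49)
  | ⟨15, _⟩ => (3, 50)
  | ⟨16, _⟩ => (3, 51)
  | ⟨17, _⟩ => (3, 52)
  | ⟨18, _⟩ => (9, 21)
  | ⟨19, _⟩ => (3, 53)
  | ⟨20, _⟩ => (3, 54)
  | ⟨21, _⟩ => (3, 56)
  | ⟨22, _⟩ => (9, 15)
  | ⟨23, _⟩ => (3, 57)
  | ⟨24, _⟩ => (3, 58)
  | ⟨25, _⟩ => (3, 59)
  | ⟨26, _⟩ => (11, 32)
  | ⟨27, _⟩ => (4, 0)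
  | ⟨28, _⟩ => (4, 1)
  | ⟨29, _⟩ => (4, 2)
  | ⟨30, _⟩ => (4, 3)
  | ⟨31, _⟩ => (11, 27)
  | ⟨32, _⟩ => (4, 4)
  | ⟨33, _⟩ => (11, 51)
  | ⟨34, _⟩ => (4, 5)
  | ⟨35, _⟩ => (4, 6)
  | ⟨36, _⟩ => (4, 7)
  | ⟨37, _⟩ => (4, 8)
  | ⟨38, _⟩ => (4, 10)
  | ⟨39, _⟩ => (4, 11)
  | ⟨40, _⟩ => (4, 13)
  | ⟨41, _⟩ => (4, 14)
  | ⟨42, _⟩ => (11, 54)
  | ⟨43, _⟩ => (4, 15)
  | ⟨44, _⟩ => (4, 16)
  | ⟨45, _⟩ => (11, 6)
  | ⟨46, _⟩ => (4, 17)
  | ⟨47, _⟩ => (10, 54)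
  | ⟨48, _⟩ => (4, 18)
  | ⟨49, _⟩ => (4, 19)
  | ⟨50, _⟩ => (4, 20)
  | ⟨51, _⟩ => (4, 21)
  | ⟨52, _⟩ => (4, 22)
  | ⟨53, _⟩ => (4, 23)
  | ⟨54, _⟩ => (4, 24)
  | ⟨55, _⟩ => (4, 26)
  | ⟨56, _⟩ => (4, 27)
  | ⟨57, _⟩ => (4, 28)
  | ⟨58, _⟩ => (4, 29)
  | ⟨59, _⟩ => (11, 14)
  | ⟨n+60, h⟩ => absurd h (by omega)
def px_y_c6 : Fin 60 → Idx
  | ⟨0, _⟩ => (4, 30)
  | ⟨1, _⟩ => (4, 31)
  | ⟨2, _⟩ => (4, 32)
  | ⟨3, _⟩ => (4, 33)
  | ⟨4, _⟩ => (8, 32)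
  | ⟨5, _⟩ => (4, 34)
  | ⟨6, _⟩ => (4, 35)
  | ⟨7, _⟩ => (4, 37)
  | ⟨8, _⟩ => (8, 26)
  | ⟨9, _⟩ => (4, 38)
  | ⟨10, _⟩ => (4, 39)
  | ⟨11, _⟩ => (4, 40)
  | ⟨12, _⟩ => (11, 9)
  | ⟨13, _⟩ => (4, 41)
  | ⟨14, _⟩ => (4, 42)
  | ⟨15, _⟩ => (4, 43)
  | ⟨16, _⟩ => (4, 44)
  | ⟨17, _⟩ => (11, 4)
  | ⟨18, _⟩ => (4, 45)
  | ⟨19, _⟩ => (11, 57)
  | ⟨20, _⟩ => (4, 46)
  | ⟨21, _⟩ => (4, 47)
  | ⟨22, _⟩ => (4, 48)
  | ⟨23, _⟩ => (4, 49)
  | ⟨24, _⟩ => (4, 51)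
  | ⟨25, _⟩ => (4, 52)
  | ⟨26, _⟩ => (7, 48)
  | ⟨27, _⟩ => (4, 54)
  | ⟨28, _⟩ => (8, 54)
  | ⟨29, _⟩ => (4, 55)
  | ⟨30, _⟩ => (4, 56)
  | ⟨31, _⟩ => (4, 57)
  | ⟨32, _⟩ => (4, 58)
  | ⟨33, _⟩ => (4, 59)
  | ⟨34, _⟩ => (5, 0)
  | ⟨35, _⟩ => (5, 1)
  | ⟨36, _⟩ => (5, 2)
  | ⟨37, _⟩ => (5, 3)
  | ⟨38, _⟩ => (5, 4)
  | ⟨39, _⟩ => (7, 58)
  | ⟨40, _⟩ => (5, 5)
  | ⟨41, _⟩ => (11, 58)
  | ⟨42, _⟩ => (5, 6)
  | ⟨43, _⟩ => (10, 51)
  | ⟨44, _⟩ => (5, 7)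
  | ⟨45, _⟩ => (11, 18)
  | ⟨46, _⟩ => (5, 8)
  | ⟨47, _⟩ => (5, 9)
  | ⟨48, _⟩ => (5, 10)
  | ⟨49, _⟩ => (5, 11)
  | ⟨50, _⟩ => (5, 13)
  | ⟨51, _⟩ => (5, 14)
  | ⟨52, _⟩ => (5, 15)
  | ⟨53, _⟩ => (5, 16)
  | ⟨54, _⟩ => (5, 17)
  | ⟨55, _⟩ => (5, 18)
  | ⟨56, _⟩ => (11, 53)
  | ⟨57, _⟩ => (5, 19)
  | ⟨58, _⟩ => (7, 43)
  | ⟨59, _⟩ => (5, 20)
  | ⟨n+60, h⟩ => absurd h (by omega)
def px_y_c7 : Fin 60 → Idx
  | ⟨0, _⟩ => (5, 21)
  | ⟨1, _⟩ => (5, 22)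
  | ⟨2, _⟩ => (5, 23)
  | ⟨3, _⟩ => (5, 24)
  | ⟨4, _⟩ => (5, 26)
  | ⟨5, _⟩ => (5, 27)
  | ⟨6, _⟩ => (5, 28)
  | ⟨7, _⟩ => (5, 29)
  | ⟨8, _⟩ => (5, 30)
  | ⟨9, _⟩ => (5, 31)
  | ⟨10, _⟩ => (5, 33)
  | ⟨11, _⟩ => (11, 1)
  | ⟨12, _⟩ => (5, 34)
  | ⟨13, _⟩ => (5, 35)
  | ⟨14, _⟩ => (5, 36)
  | ⟨15, _⟩ => (5, 37)
  | ⟨16, _⟩ => (5, 38)
  | ⟨17, _⟩ => (5, 39)
  | ⟨18, _⟩ => (6, 56)
  | ⟨19, _⟩ => (5, 40)
  | ⟨20, _⟩ => (9, 43)
  | ⟨21, _⟩ => (5, 41)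
  | ⟨22, _⟩ => (5, 42)
  | ⟨23, _⟩ => (5, 43)
  | ⟨24, _⟩ => (5, 44)
  | ⟨25, _⟩ => (5, 45)
  | ⟨26, _⟩ => (5, 46)
  | ⟨27, _⟩ => (5, 47)
  | ⟨28, _⟩ => (5, 48)
  | ⟨29, _⟩ => (5, 49)
  | ⟨30, _⟩ => (5, 50)
  | ⟨31, _⟩ => (7, 6)
  | ⟨32, _⟩ => (5, 51)
  | ⟨33, _⟩ => (11, 59)
  | ⟨34, _⟩ => (5, 52)
  | ⟨35, _⟩ => (10, 15)
  | ⟨36, _⟩ => (5, 53)
  | ⟨37, _⟩ => (11, 41)
  | ⟨38, _⟩ => (5, 54)
  | ⟨39, _⟩ => (5, 55)
  | ⟨40, _⟩ => (5, 56)
  | ⟨41, _⟩ => (5, 57)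
  | ⟨42, _⟩ => (5, 59)
  | ⟨43, _⟩ => (6, 0)
  | ⟨44, _⟩ => (6, 1)
  | ⟨45, _⟩ => (6, 2)
  | ⟨46, _⟩ => (6, 3)
  | ⟨47, _⟩ => (6, 4)
  | ⟨48, _⟩ => (11, 47)
  | ⟨49, _⟩ => (6, 5)
  | ⟨50, _⟩ => (6, 51)
  | ⟨51, _⟩ => (6, 6)
  | ⟨52, _⟩ => (6, 7)
  | ⟨53, _⟩ => (6, 8)
  | ⟨54, _⟩ => (6, 9)
  | ⟨55, _⟩ => (6, 10)
  | ⟨56, _⟩ => (6, 12)
  | ⟨57, _⟩ => (6, 13)
  | ⟨58, _⟩ => (6, 14)
  | ⟨59, _⟩ => (6, 15)
  | ⟨n+60, h⟩ => absurd h (by omega)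
def px_y_c8 : Fin 60 → Idx
  | ⟨0, _⟩ => (6, 16)
  | ⟨1, _⟩ => (6, 17)
  | ⟨2, _⟩ => (6, 19)
  | ⟨3, _⟩ => (11, 24)
  | ⟨4, _⟩ => (6, 20)
  | ⟨5, _⟩ => (6, 21)
  | ⟨6, _⟩ => (6, 22)
  | ⟨7, _⟩ => (6, 23)
  | ⟨8, _⟩ => (6, 24)
  | ⟨9, _⟩ => (6, 25)
  | ⟨10, _⟩ => (6, 26)
  | ⟨11, _⟩ => (6, 27)
  | ⟨12, _⟩ => (6, 28)
  | ⟨13, _⟩ => (6, 29)
  | ⟨14, _⟩ => (6, 30)
  | ⟨15, _⟩ => (6, 32)
  | ⟨16, _⟩ => (6, 33)
  | ⟨17, _⟩ => (6, 34)
  | ⟨18, _⟩ => (6, 35)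
  | ⟨19, _⟩ => (6, 36)
  | ⟨20, _⟩ => (6, 37)
  | ⟨21, _⟩ => (9, 5)
  | ⟨22, _⟩ => (6, 38)
  | ⟨23, _⟩ => (6, 39)
  | ⟨24, _⟩ => (6, 41)
  | ⟨25, _⟩ => (9, 36)
  | ⟨26, _⟩ => (6, 42)
  | ⟨27, _⟩ => (6, 43)
  | ⟨28, _⟩ => (6, 44)
  | ⟨29, _⟩ => (6, 45)
  | ⟨30, _⟩ => (6, 46)
  | ⟨31, _⟩ => (6, 47)
  | ⟨32, _⟩ => (11, 38)
  | ⟨33, _⟩ => (6, 48)
  | ⟨34, _⟩ => (6, 49)
  | ⟨35, _⟩ => (6, 50)
  | ⟨36, _⟩ => (9, 58)
  | ⟨37, _⟩ => (6, 54)
  | ⟨38, _⟩ => (9, 24)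
  | ⟨39, _⟩ => (6, 55)
  | ⟨40, _⟩ => (6, 57)
  | ⟨41, _⟩ => (6, 58)
  | ⟨42, _⟩ => (6, 59)
  | ⟨43, _⟩ => (7, 0)
  | ⟨44, _⟩ => (10, 4)
  | ⟨45, _⟩ => (7, 2)
  | ⟨46, _⟩ => (11, 33)
  | ⟨47, _⟩ => (7, 3)
  | ⟨48, _⟩ => (7, 4)
  | ⟨49, _⟩ => (7, 5)
  | ⟨50, _⟩ => (7, 8)
  | ⟨51, _⟩ => (9, 54)
  | ⟨52, _⟩ => (7, 9)
  | ⟨53, _⟩ => (7, 10)
  | ⟨54, _⟩ => (7, 11)
  | ⟨55, _⟩ => (7, 12)
  | ⟨56, _⟩ => (7, 14)
  | ⟨57, _⟩ => (7, 16)
  | ⟨58, _⟩ => (7, 17)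
  | ⟨59, _⟩ => (7, 18)
  | ⟨n+60, h⟩ => absurd h (by omega)
def px_y_c9 : Fin 60 → Idx
  | ⟨0, _⟩ => (7, 19)
  | ⟨1, _⟩ => (7, 20)
  | ⟨2, _⟩ => (7, 21)
  | ⟨3, _⟩ => (7, 22)
  | ⟨4, _⟩ => (7, 24)
  | ⟨5, _⟩ => (7, 25)
  | ⟨6, _⟩ => (7, 26)
  | ⟨7, _⟩ => (7, 27)
  | ⟨8, _⟩ => (7, 28)
  | ⟨9, _⟩ => (7, 29)
  | ⟨10, _⟩ => (8, 16)
  | ⟨11, _⟩ => (7, 30)
  | ⟨12, _⟩ => (7, 31)
  | ⟨13, _⟩ => (7, 33)
  | ⟨14, _⟩ => (8, 47)
  | ⟨15, _⟩ => (7, 34)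
  | ⟨16, _⟩ => (7, 35)
  | ⟨17, _⟩ => (7, 36)
  | ⟨18, _⟩ => (7, 37)
  | ⟨19, _⟩ => (7, 38)
  | ⟨20, _⟩ => (7, 39)
  | ⟨21, _⟩ => (11, 15)
  | ⟨22, _⟩ => (7, 40)
  | ⟨23, _⟩ => (7, 41)
  | ⟨24, _⟩ => (7, 42)
  | ⟨25, _⟩ => (10, 34)
  | ⟨26, _⟩ => (7, 46)
  | ⟨27, _⟩ => (8, 35)
  | ⟨28, _⟩ => (7, 47)
  | ⟨29, _⟩ => (7, 49)
  | ⟨30, _⟩ => (7, 50)
  | ⟨31, _⟩ => (7, 51)
  | ⟨32, _⟩ => (7, 52)
  | ⟨33, _⟩ => (10, 40)
  | ⟨34, _⟩ => (7, 54)
  | ⟨35, _⟩ => (11, 10)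
  | ⟨36, _⟩ => (7, 55)
  | ⟨37, _⟩ => (7, 56)
  | ⟨38, _⟩ => (7, 57)
  | ⟨39, _⟩ => (8, 0)
  | ⟨40, _⟩ => (10, 30)
  | ⟨41, _⟩ => (8, 1)
  | ⟨42, _⟩ => (8, 2)
  | ⟨43, _⟩ => (8, 3)
  | ⟨44, _⟩ => (8, 4)
  | ⟨45, _⟩ => (8, 6)
  | ⟨46, _⟩ => (8, 8)
  | ⟨47, _⟩ => (8, 9)
  | ⟨48, _⟩ => (8, 10)
  | ⟨49, _⟩ => (8, 11)
  | ⟨50, _⟩ => (8, 12)
  | ⟨51, _⟩ => (8, 13)
  | ⟨52, _⟩ => (8, 14)
  | ⟨53, _⟩ => (8, 15)
  | ⟨54, _⟩ => (8, 18)
  | ⟨55, _⟩ => (8, 19)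
  | ⟨56, _⟩ => (8, 20)
  | ⟨57, _⟩ => (8, 21)
  | ⟨58, _⟩ => (11, 52)
  | ⟨59, _⟩ => (8, 22)
  | ⟨n+60, h⟩ => absurd h (by omega)
def px_y_c10 : Fin 60 → Idx
  | ⟨0, _⟩ => (8, 23)
  | ⟨1, _⟩ => (8, 24)
  | ⟨2, _⟩ => (8, 25)
  | ⟨3, _⟩ => (8, 27)
  | ⟨4, _⟩ => (8, 29)
  | ⟨5, _⟩ => (8, 30)
  | ⟨6, _⟩ => (8, 31)
  | ⟨7, _⟩ => (8, 34)
  | ⟨8, _⟩ => (8, 36)
  | ⟨9, _⟩ => (8, 37)
  | ⟨10, _⟩ => (8, 38)
  | ⟨11, _⟩ => (8, 39)
  | ⟨12, _⟩ => (8, 42)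
  | ⟨13, _⟩ => (8, 43)
  | ⟨14, _⟩ => (8, 44)
  | ⟨15, _⟩ => (8, 46)
  | ⟨16, _⟩ => (8, 48)
  | ⟨17, _⟩ => (8, 49)
  | ⟨18, _⟩ => (8, 51)
  | ⟨19, _⟩ => (8, 52)
  | ⟨20, _⟩ => (8, 53)
  | ⟨21, _⟩ => (8, 55)
  | ⟨22, _⟩ => (8, 56)
  | ⟨23, _⟩ => (8, 57)
  | ⟨24, _⟩ => (8, 59)
  | ⟨25, _⟩ => (9, 0)
  | ⟨26, _⟩ => (9, 1)
  | ⟨27, _⟩ => (9, 2)
  | ⟨28, _⟩ => (9, 3)
  | ⟨29, _⟩ => (9, 4)
  | ⟨30, _⟩ => (9, 7)
  | ⟨31, _⟩ => (9, 8)
  | ⟨32, _⟩ => (9, 9)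
  | ⟨33, _⟩ => (9, 10)
  | ⟨34, _⟩ => (11, 46)
  | ⟨35, _⟩ => (9, 11)
  | ⟨36, _⟩ => (9, 12)
  | ⟨37, _⟩ => (9, 13)
  | ⟨38, _⟩ => (9, 14)
  | ⟨39, _⟩ => (9, 16)
  | ⟨40, _⟩ => (9, 18)
  | ⟨41, _⟩ => (9, 19)
  | ⟨42, _⟩ => (9, 20)
  | ⟨43, _⟩ => (9, 23)
  | ⟨44, _⟩ => (9, 25)
  | ⟨45, _⟩ => (9, 26)
  | ⟨46, _⟩ => (9, 27)
  | ⟨47, _⟩ => (9, 28)
  | ⟨48, _⟩ => (9, 31)
  | ⟨49, _⟩ => (9, 32)
  | ⟨50, _⟩ => (9, 33)
  | ⟨51, _⟩ => (9, 35)
  | ⟨52, _⟩ => (9, 37)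
  | ⟨53, _⟩ => (9, 38)
  | ⟨54, _⟩ => (9, 40)
  | ⟨55, _⟩ => (9, 41)
  | ⟨56, _⟩ => (9, 42)
  | ⟨57, _⟩ => (9, 44)
  | ⟨58, _⟩ => (9, 45)
  | ⟨59, _⟩ => (9, 46)
  | ⟨n+60, h⟩ => absurd h (by omega)
def px_y_c11 : Fin 60 → Idx
  | ⟨0, _⟩ => (9, 48)
  | ⟨1, _⟩ => (9, 50)
  | ⟨2, _⟩ => (9, 51)
  | ⟨3, _⟩ => (9, 52)
  | ⟨4, _⟩ => (11, 43)
  | ⟨5, _⟩ => (9, 53)
  | ⟨6, _⟩ => (9, 57)
  | ⟨7, _⟩ => (9, 59)
  | ⟨8, _⟩ => (10, 1)
  | ⟨9, _⟩ => (11, 42)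
  | ⟨10, _⟩ => (10, 3)
  | ⟨11, _⟩ => (10, 6)
  | ⟨12, _⟩ => (10, 8)
  | ⟨13, _⟩ => (10, 9)
  | ⟨14, _⟩ => (10, 10)
  | ⟨15, _⟩ => (10, 11)
  | ⟨16, _⟩ => (10, 12)
  | ⟨17, _⟩ => (10, 13)
  | ⟨18, _⟩ => (10, 14)
  | ⟨19, _⟩ => (10, 16)
  | ⟨20, _⟩ => (10, 19)
  | ⟨21, _⟩ => (10, 20)
  | ⟨22, _⟩ => (10, 23)
  | ⟨23, _⟩ => (10, 24)
  | ⟨24, _⟩ => (10, 26)
  | ⟨25, _⟩ => (10, 27)
  | ⟨26, _⟩ => (10, 28)
  | ⟨27, _⟩ => (11, 20)
  | ⟨28, _⟩ => (10, 29)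
  | ⟨29, _⟩ => (10, 33)
  | ⟨30, _⟩ => (10, 35)
  | ⟨31, _⟩ => (10, 37)
  | ⟨32, _⟩ => (11, 19)
  | ⟨33, _⟩ => (10, 39)
  | ⟨34, _⟩ => (10, 42)
  | ⟨35, _⟩ => (10, 44)
  | ⟨36, _⟩ => (10, 45)
  | ⟨37, _⟩ => (10, 46)
  | ⟨38, _⟩ => (10, 47)
  | ⟨39, _⟩ => (10, 48)
  | ⟨40, _⟩ => (10, 49)
  | ⟨41, _⟩ => (10, 50)
  | ⟨42, _⟩ => (10, 52)
  | ⟨43, _⟩ => (10, 55)
  | ⟨44, _⟩ => (10, 56)
  | ⟨45, _⟩ => (10, 59)
  | ⟨46, _⟩ => (11, 56)
  | ⟨47, _⟩ => (11, 0)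
  | ⟨48, _⟩ => (11, 3)
  | ⟨49, _⟩ => (11, 8)
  | ⟨50, _⟩ => (11, 12)
  | ⟨51, _⟩ => (11, 21)
  | ⟨52, _⟩ => (11, 50)
  | ⟨53, _⟩ => (11, 23)
  | ⟨54, _⟩ => (11, 26)
  | ⟨55, _⟩ => (11, 31)
  | ⟨56, _⟩ => (11, 35)
  | ⟨57, _⟩ => (11, 44)
  | ⟨58, _⟩ => (11, 49)
  | ⟨59, _⟩ => (11, 55)
  | ⟨n+60, h⟩ => absurd h (by omega)
def px_y_ch : Fin 12 → Fin 60 → Idx
  | ⟨0, _⟩ => px_y_c0
  | ⟨1, _⟩ => px_y_c1
  | ⟨2, _⟩ => px_y_c2
  | ⟨3, _⟩ => px_y_c3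
  | ⟨4, _⟩ => px_y_c4
  | ⟨5, _⟩ => px_y_c5
  | ⟨6, _⟩ => px_y_c6
  | ⟨7, _⟩ => px_y_c7
  | ⟨8, _⟩ => px_y_c8
  | ⟨9, _⟩ => px_y_c9
  | ⟨10, _⟩ => px_y_c10
  | ⟨11, _⟩ => px_y_c11
  | ⟨n+12, h⟩ => absurd h (by omega)
def px_y (i : Idx) : Idx := px_y_ch i.1 i.2
theorem closed_y_c0 : ∀ b : Fin 60, rep_c0 b * y = rep (nx_y_c0 b)
  | ⟨0, _⟩ => e_0_y
  | ⟨1, _⟩ => e_1_y
  | ⟨2, _⟩ => e_2_y
  | ⟨3, _⟩ => e_3_y
  | ⟨4, _⟩ => e_4_y
  | ⟨5, _⟩ => e_5_y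
  | ⟨6, _⟩ => e_6_y
  | ⟨7, _⟩ => e_7_y
  | ⟨8, _⟩ => e_8_y
  | ⟨9, _⟩ => e_9_y
  | ⟨10, _⟩ => e_10_y
  | ⟨11, _⟩ => e_11_y
  | ⟨12, _⟩ => e_12_y
  | ⟨13, _⟩ => e_13_y
  | ⟨14, _⟩ => e_14_y
  | ⟨15, _⟩ => e_15_y
  | ⟨16, _⟩ => e_16_y
  | ⟨17, _⟩ => e_17_y
  | ⟨18, _⟩ => e_18_y
  | ⟨19, _⟩ => e_19_y
  | ⟨20, _⟩ => e_20_y
  | ⟨21, _⟩ => e_21_y
  | ⟨22, _⟩ => e_22_y
  | ⟨23, _⟩ => e_23_y
  | ⟨24, _⟩ => e_24_y
  | ⟨25, _⟩ => e_25_y
  | ⟨26, _⟩ => e_26_y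
  | ⟨27, _⟩ => e_27_y
  | ⟨28, _⟩ => e_28_y
  | ⟨29, _⟩ => e_29_y
  | ⟨30, _⟩ => e_30_y
  | ⟨31, _⟩ => e_31_y
  | ⟨32, _⟩ => e_32_y
  | ⟨33, _⟩ => e_33_y
  | ⟨34, _⟩ => e_34_y
  | ⟨35, _⟩ => e_35_y
  | ⟨36, _⟩ => e_36_y
  | ⟨37, _⟩ => e_37_y
  | ⟨38, _⟩ => e_38_y
  | ⟨39, _⟩ => e_39_y
  | ⟨40, _⟩ => e_40_y
  | ⟨41, _⟩ => e_41_y
  | ⟨42, _⟩ => e_42_y
  | ⟨43, _⟩ => e_43_y
  | ⟨44, _⟩ => e_44_y
  | ⟨45, _⟩ => e_45_y
  | ⟨46, _⟩ => e_46_y
  | ⟨47, _⟩ => e_47_y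
  | ⟨48, _⟩ => e_48_y
  | ⟨49, _⟩ => e_49_y
  | ⟨50, _⟩ => e_50_y
  | ⟨51, _⟩ => e_51_y
  | ⟨52, _⟩ => e_52_y
  | ⟨53, _⟩ => e_53_y
  | ⟨54, _⟩ => e_54_y
  | ⟨55, _⟩ => e_55_y
  | ⟨56, _⟩ => e_56_y
  | ⟨57, _⟩ => e_57_y
  | ⟨58, _⟩ => e_58_y
  | ⟨59, _⟩ => e_59_y
  | ⟨n+60, h⟩ => absurd h (by omega)
theorem closed_y_c1 : ∀ b : Fin 60, rep_c1 b * y = rep (nx_y_c1 b)
  | ⟨0, _⟩ => e_60_y
  | ⟨1, _⟩ => e_61_y
  | ⟨2, _⟩ => e_62_y
  | ⟨3, _⟩ => e_63_y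
  | ⟨4, _⟩ => e_64_y
  | ⟨5, _⟩ => e_65_y
  | ⟨6, _⟩ => e_66_y
  | ⟨7, _⟩ => e_67_y
  | ⟨8, _⟩ => e_68_y
  | ⟨9, _⟩ => e_69_y
  | ⟨10, _⟩ => e_70_y
  | ⟨11, _⟩ => e_71_y
  | ⟨12, _⟩ => e_72_y
  | ⟨13, _⟩ => e_73_y
  | ⟨14, _⟩ => e_74_y
  | ⟨15, _⟩ => e_75_y
  | ⟨16, _⟩ => e_76_y
  | ⟨17, _⟩ => e_77_y
  | ⟨18, _⟩ => e_78_y
  | ⟨19, _⟩ => e_79_y
  | ⟨20, _⟩ => e_80_y
  | ⟨21, _⟩ => e_81_y
  | ⟨22, _⟩ => e_82_y
  | ⟨23, _⟩ => e_83_y
  | ⟨24, _⟩ => e_84_y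
  | ⟨25, _⟩ => e_85_y
  | ⟨26, _⟩ => e_86_y
  | ⟨27, _⟩ => e_87_y
  | ⟨28, _⟩ => e_88_y
  | ⟨29, _⟩ => e_89_y
  | ⟨30, _⟩ => e_90_y
  | ⟨31, _⟩ => e_91_y
  | ⟨32, _⟩ => e_92_y
  | ⟨33, _⟩ => e_93_y
  | ⟨34, _⟩ => e_94_y
  | ⟨35, _⟩ => e_95_y
  | ⟨36, _⟩ => e_96_y
  | ⟨37, _⟩ => e_97_y
  | ⟨38, _⟩ => e_98_y
  | ⟨39, _⟩ => e_99_y
  | ⟨40, _⟩ => e_100_y
  | ⟨41, _⟩ => e_101_y
  | ⟨42, _⟩ => e_102_y
  | ⟨43, _⟩ => e_103_y
  | ⟨44, _⟩ => e_104_y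
  | ⟨45, _⟩ => e_105_y
  | ⟨46, _⟩ => e_106_y
  | ⟨47, _⟩ => e_107_y
  | ⟨48, _⟩ => e_108_y
  | ⟨49, _⟩ => e_109_y
  | ⟨50, _⟩ => e_110_y
  | ⟨51, _⟩ => e_111_y
  | ⟨52, _⟩ => e_112_y
  | ⟨53, _⟩ => e_113_y
  | ⟨54, _⟩ => e_114_y
  | ⟨55, _⟩ => e_115_y
  | ⟨56, _⟩ => e_116_y
  | ⟨57, _⟩ => e_117_y
  | ⟨58, _⟩ => e_118_y
  | ⟨59, _⟩ => e_119_y
  | ⟨n+60, h⟩ => absurd h (by omega)
theorem closed_y_c2 : ∀ b : Fin 60, rep_c2 b * y = rep (nx_y_c2 b)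
  | ⟨0, _⟩ => e_120_y
  | ⟨1, _⟩ => e_121_y
  | ⟨2, _⟩ => e_122_y
  | ⟨3, _⟩ => e_123_y
  | ⟨4, _⟩ => e_124_y
  | ⟨5, _⟩ => e_125_y
  | ⟨6, _⟩ => e_126_y
  | ⟨7, _⟩ => e_127_y
  | ⟨8, _⟩ => e_128_y
  | ⟨9, _⟩ => e_129_y
  | ⟨10, _⟩ => e_130_y
  | ⟨11, _⟩ => e_131_y
  | ⟨12, _⟩ => e_132_y
  | ⟨13, _⟩ => e_133_y
  | ⟨14, _⟩ => e_134_y
  | ⟨15, _⟩ => e_135_y
  | ⟨16, _⟩ => e_136_y
  | ⟨17, _⟩ => e_137_y
  | ⟨18, _⟩ => e_138_y
  | ⟨19, _⟩ => e_139_y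
  | ⟨20, _⟩ => e_140_y
  | ⟨21, _⟩ => e_141_y
  | ⟨22, _⟩ => e_142_y
  | ⟨23, _⟩ => e_143_y
  | ⟨24, _⟩ => e_144_y
  | ⟨25, _⟩ => e_145_y
  | ⟨26, _⟩ => e_146_y
  | ⟨27, _⟩ => e_147_y
  | ⟨28, _⟩ => e_148_y
  | ⟨29, _⟩ => e_149_y
  | ⟨30, _⟩ => e_150_y
  | ⟨31, _⟩ => e_151_y
  | ⟨32, _⟩ => e_152_y
  | ⟨33, _⟩ => e_153_y
  | ⟨34, _⟩ => e_154_y
  | ⟨35, _⟩ => e_155_y
  | ⟨36, _⟩ => e_156_y
  | ⟨37, _⟩ => e_157_y
  | ⟨38, _⟩ => e_158_y
  | ⟨39, _⟩ => e_159_y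
  | ⟨40, _⟩ => e_160_y
  | ⟨41, _⟩ => e_161_y
  | ⟨42, _⟩ => e_162_y
  | ⟨43, _⟩ => e_163_y
  | ⟨44, _⟩ => e_164_y
  | ⟨45, _⟩ => e_165_y
  | ⟨46, _⟩ => e_166_y
  | ⟨47, _⟩ => e_167_y
  | ⟨48, _⟩ => e_168_y
  | ⟨49, _⟩ => e_169_y
  | ⟨50, _⟩ => e_170_y
  | ⟨51, _⟩ => e_171_y
  | ⟨52, _⟩ => e_172_y
  | ⟨53, _⟩ => e_173_y
  | ⟨54, _⟩ => e_174_y
  | ⟨55, _⟩ => e_175_y
  | ⟨56, _⟩ => e_176_y
  | ⟨57, _⟩ => e_177_y
  | ⟨58, _⟩ => e_178_y
  | ⟨59, _⟩ => e_179_y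
  | ⟨n+60, h⟩ => absurd h (by omega)
theorem closed_y_c3 : ∀ b : Fin 60, rep_c3 b * y = rep (nx_y_c3 b)
  | ⟨0, _⟩ => e_180_y
  | ⟨1, _⟩ => e_181_y
  | ⟨2, _⟩ => e_182_y
  | ⟨3, _⟩ => e_183_y
  | ⟨4, _⟩ => e_184_y
  | ⟨5, _⟩ => e_185_y
  | ⟨6, _⟩ => e_186_y
  | ⟨7, _⟩ => e_187_y
  | ⟨8, _⟩ => e_188_y
  | ⟨9, _⟩ => e_189_y
  | ⟨10, _⟩ => e_190_y
  | ⟨11, _⟩ => e_191_y
  | ⟨12, _⟩ => e_192_y
  | ⟨13, _⟩ => e_193_y
  | ⟨14, _⟩ => e_194_y
  | ⟨15, _⟩ => e_195_y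
  | ⟨16, _⟩ => e_196_y
  | ⟨17, _⟩ => e_197_y
  | ⟨18, _⟩ => e_198_y
  | ⟨19, _⟩ => e_199_y
  | ⟨20, _⟩ => e_200_y
  | ⟨21, _⟩ => e_201_y
  | ⟨22, _⟩ => e_202_y
  | ⟨23, _⟩ => e_203_y
  | ⟨24, _⟩ => e_204_y
  | ⟨25, _⟩ => e_205_y
  | ⟨26, _⟩ => e_206_y
  | ⟨27, _⟩ => e_207_y
  | ⟨28, _⟩ => e_208_y
  | ⟨29, _⟩ => e_209_y
  | ⟨30, _⟩ => e_210_y
  | ⟨31, _⟩ => e_211_y
  | ⟨32, _⟩ => e_212_y
  | ⟨33, _⟩ => e_213_y
  | ⟨34, _⟩ => e_214_y
  | ⟨35, _⟩ => e_215_y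
  | ⟨36, _⟩ => e_216_y
  | ⟨37, _⟩ => e_217_y
  | ⟨38, _⟩ => e_218_y
  | ⟨39, _⟩ => e_219_y
  | ⟨40, _⟩ => e_220_y
  | ⟨41, _⟩ => e_221_y
  | ⟨42, _⟩ => e_222_y
  | ⟨43, _⟩ => e_223_y
  | ⟨44, _⟩ => e_224_y
  | ⟨45, _⟩ => e_225_y
  | ⟨46, _⟩ => e_226_y
  | ⟨47, _⟩ => e_227_y
  | ⟨48, _⟩ => e_228_y
  | ⟨49, _⟩ => e_229_y
  | ⟨50, _⟩ => e_230_y
  | ⟨51, _⟩ => e_231_y
  | ⟨52, _⟩ => e_232_y
  | ⟨53, _⟩ => e_233_y
  | ⟨54, _⟩ => e_234_y
  | ⟨55, _⟩ => e_235_y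
  | ⟨56, _⟩ => e_236_y
  | ⟨57, _⟩ => e_237_y
  | ⟨58, _⟩ => e_238_y
  | ⟨59, _⟩ => e_239_y
  | ⟨n+60, h⟩ => absurd h (by omega)
theorem closed_y_c4 : ∀ b : Fin 60, rep_c4 b * y = rep (nx_y_c4 b)
  | ⟨0, _⟩ => e_240_y
  | ⟨1, _⟩ => e_241_y
  | ⟨2, _⟩ => e_242_y
  | ⟨3, _⟩ => e_243_y
  | ⟨4, _⟩ => e_244_y
  | ⟨5, _⟩ => e_245_y
  | ⟨6, _⟩ => e_246_y
  | ⟨7, _⟩ => e_247_y
  | ⟨8, _⟩ => e_248_y
  | ⟨9, _⟩ => e_249_y
  | ⟨10, _⟩ => e_250_y
  | ⟨11, _⟩ => e_251_y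
  | ⟨12, _⟩ => e_252_y
  | ⟨13, _⟩ => e_253_y
  | ⟨14, _⟩ => e_254_y
  | ⟨15, _⟩ => e_255_y
  | ⟨16, _⟩ => e_256_y
  | ⟨17, _⟩ => e_257_y
  | ⟨18, _⟩ => e_258_y
  | ⟨19, _⟩ => e_259_y
  | ⟨20, _⟩ => e_260_y
  | ⟨21, _⟩ => e_261_y
  | ⟨22, _⟩ => e_262_y
  | ⟨23, _⟩ => e_263_y
  | ⟨24, _⟩ => e_264_y
  | ⟨25, _⟩ => e_265_y
  | ⟨26, _⟩ => e_266_y
  | ⟨27, _⟩ => e_267_y
  | ⟨28, _⟩ => e_268_y
  | ⟨29, _⟩ => e_269_y
  | ⟨30, _⟩ => e_270_y
  | ⟨31, _⟩ => e_271_y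
  | ⟨32, _⟩ => e_272_y
  | ⟨33, _⟩ => e_273_y
  | ⟨34, _⟩ => e_274_y
  | ⟨35, _⟩ => e_275_y
  | ⟨36, _⟩ => e_276_y
  | ⟨37, _⟩ => e_277_y
  | ⟨38, _⟩ => e_278_y
  | ⟨39, _⟩ => e_279_y
  | ⟨40, _⟩ => e_280_y
  | ⟨41, _⟩ => e_281_y
  | ⟨42, _⟩ => e_282_y
  | ⟨43, _⟩ => e_283_y
  | ⟨44, _⟩ => e_284_y
  | ⟨45, _⟩ => e_285_y
  | ⟨46, _⟩ => e_286_y
  | ⟨47, _⟩ => e_287_y
  | ⟨48, _⟩ => e_288_y
  | ⟨49, _⟩ => e_289_y
  | ⟨50, _⟩ => e_290_y
  | ⟨51, _⟩ => e_291_y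
  | ⟨52, _⟩ => e_292_y
  | ⟨53, _⟩ => e_293_y
  | ⟨54, _⟩ => e_294_y
  | ⟨55, _⟩ => e_295_y
  | ⟨56, _⟩ => e_296_y
  | ⟨57, _⟩ => e_297_y
  | ⟨58, _⟩ => e_298_y
  | ⟨59, _⟩ => e_299_y
  | ⟨n+60, h⟩ => absurd h (by omega)
theorem closed_y_c5 : ∀ b : Fin 60, rep_c5 b * y = rep (nx_y_c5 b)
  | ⟨0, _⟩ => e_300_y
  | ⟨1, _⟩ => e_301_y
  | ⟨2, _⟩ => e_302_y
  | ⟨3, _⟩ => e_303_y
  | ⟨4, _⟩ => e_304_y
  | ⟨5, _⟩ => e_305_y
  | ⟨6, _⟩ => e_306_y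
  | ⟨7, _⟩ => e_307_y
  | ⟨8, _⟩ => e_308_y
  | ⟨9, _⟩ => e_309_y
  | ⟨10, _⟩ => e_310_y
  | ⟨11, _⟩ => e_311_y
  | ⟨12, _⟩ => e_312_y
  | ⟨13, _⟩ => e_313_y
  | ⟨14, _⟩ => e_314_y
  | ⟨15, _⟩ => e_315_y
  | ⟨16, _⟩ => e_316_y
  | ⟨17, _⟩ => e_317_y
  | ⟨18, _⟩ => e_318_y
  | ⟨19, _⟩ => e_319_y
  | ⟨20, _⟩ => e_320_y
  | ⟨21, _⟩ => e_321_y
  | ⟨22, _⟩ => e_322_y
  | ⟨23, _⟩ => e_323_y
  | ⟨24, _⟩ => e_324_y
  | ⟨25, _⟩ => e_325_y
  | ⟨26, _⟩ => e_326_y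
  | ⟨27, _⟩ => e_327_y
  | ⟨28, _⟩ => e_328_y
  | ⟨29, _⟩ => e_329_y
  | ⟨30, _⟩ => e_330_y
  | ⟨31, _⟩ => e_331_y
  | ⟨32, _⟩ => e_332_y
  | ⟨33, _⟩ => e_333_y
  | ⟨34, _⟩ => e_334_y
  | ⟨35, _⟩ => e_335_y
  | ⟨36, _⟩ => e_336_y
  | ⟨37, _⟩ => e_337_y
  | ⟨38, _⟩ => e_338_y
  | ⟨39, _⟩ => e_339_y
  | ⟨40, _⟩ => e_340_y
  | ⟨41, _⟩ => e_341_y
  | ⟨42, _⟩ => e_342_y
  | ⟨43, _⟩ => e_343_y
  | ⟨44, _⟩ => e_344_y
  | ⟨45, _⟩ => e_345_y
  | ⟨46, _⟩ => e_346_y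
  | ⟨47, _⟩ => e_347_y
  | ⟨48, _⟩ => e_348_y
  | ⟨49, _⟩ => e_349_y
  | ⟨50, _⟩ => e_350_y
  | ⟨51, _⟩ => e_351_y
  | ⟨52, _⟩ => e_352_y
  | ⟨53, _⟩ => e_353_y
  | ⟨54, _⟩ => e_354_y
  | ⟨55, _⟩ => e_355_y
  | ⟨56, _⟩ => e_356_y
  | ⟨57, _⟩ => e_357_y
  | ⟨58, _⟩ => e_358_y
  | ⟨59, _⟩ => e_359_y
  | ⟨n+60, h⟩ => absurd h (by omega)
theorem closed_y_c6 : ∀ b : Fin 60, rep_c6 b * y = rep (nx_y_c6 b)
  | ⟨0, _⟩ => e_360_y
  | ⟨1, _⟩ => e_361_y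
  | ⟨2, _⟩ => e_362_y
  | ⟨3, _⟩ => e_363_y
  | ⟨4, _⟩ => e_364_y
  | ⟨5, _⟩ => e_365_y
  | ⟨6, _⟩ => e_366_y
  | ⟨7, _⟩ => e_367_y
  | ⟨8, _⟩ => e_368_y
  | ⟨9, _⟩ => e_369_y
  | ⟨10, _⟩ => e_370_y
  | ⟨11, _⟩ => e_371_y
  | ⟨12, _⟩ => e_372_y
  | ⟨13, _⟩ => e_373_y
  | ⟨14, _⟩ => e_374_y
  | ⟨15, _⟩ => e_375_y
  | ⟨16, _⟩ => e_376_y
  | ⟨17, _⟩ => e_377_y
  | ⟨18, _⟩ => e_378_y
  | ⟨19, _⟩ => e_379_y
  | ⟨20, _⟩ => e_380_y
  | ⟨21, _⟩ => e_381_y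
  | ⟨22, _⟩ => e_382_y
  | ⟨23, _⟩ => e_383_y
  | ⟨24, _⟩ => e_384_y
  | ⟨25, _⟩ => e_385_y
  | ⟨26, _⟩ => e_386_y
  | ⟨27, _⟩ => e_387_y
  | ⟨28, _⟩ => e_388_y
  | ⟨29, _⟩ => e_389_y
  | ⟨30, _⟩ => e_390_y
  | ⟨31, _⟩ => e_391_y
  | ⟨32, _⟩ => e_392_y
  | ⟨33, _⟩ => e_393_y
  | ⟨34, _⟩ => e_394_y
  | ⟨35, _⟩ => e_395_y
  | ⟨36, _⟩ => e_396_y
  | ⟨37, _⟩ => e_397_y
  | ⟨38, _⟩ => e_398_y
  | ⟨39, _⟩ => e_399_y
  | ⟨40, _⟩ => e_400_y
  | ⟨41, _⟩ => e_401_y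
  | ⟨42, _⟩ => e_402_y
  | ⟨43, _⟩ => e_403_y
  | ⟨44, _⟩ => e_404_y
  | ⟨45, _⟩ => e_405_y
  | ⟨46, _⟩ => e_406_y
  | ⟨47, _⟩ => e_407_y
  | ⟨48, _⟩ => e_408_y
  | ⟨49, _⟩ => e_409_y
  | ⟨50, _⟩ => e_410_y
  | ⟨51, _⟩ => e_411_y
  | ⟨52, _⟩ => e_412_y
  | ⟨53, _⟩ => e_413_y
  | ⟨54, _⟩ => e_414_y
  | ⟨55, _⟩ => e_415_y
  | ⟨56, _⟩ => e_416_y
  | ⟨57, _⟩ => e_417_y
  | ⟨58, _⟩ => e_418_y
  | ⟨59, _⟩ => e_419_y
  | ⟨n+60, h⟩ => absurd h (by omega)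
theorem closed_y_c7 : ∀ b : Fin 60, rep_c7 b * y = rep (nx_y_c7 b)
  | ⟨0, _⟩ => e_420_y
  | ⟨1, _⟩ => e_421_y
  | ⟨2, _⟩ => e_422_y
  | ⟨3, _⟩ => e_423_y
  | ⟨4, _⟩ => e_424_y
  | ⟨5, _⟩ => e_425_y
  | ⟨6, _⟩ => e_426_y
  | ⟨7, _⟩ => e_427_y
  | ⟨8, _⟩ => e_428_y
  | ⟨9, _⟩ => e_429_y
  | ⟨10, _⟩ => e_430_y
  | ⟨11, _⟩ => e_431_y
  | ⟨12, _⟩ => e_432_y
  | ⟨13, _⟩ => e_433_y
  | ⟨14, _⟩ => e_434_y
  | ⟨15, _⟩ => e_435_y
  | ⟨16, _⟩ => e_436_y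
  | ⟨17, _⟩ => e_437_y
  | ⟨18, _⟩ => e_438_y
  | ⟨19, _⟩ => e_439_y
  | ⟨20, _⟩ => e_440_y
  | ⟨21, _⟩ => e_441_y
  | ⟨22, _⟩ => e_442_y
  | ⟨23, _⟩ => e_443_y
  | ⟨24, _⟩ => e_444_y
  | ⟨25, _⟩ => e_445_y
  | ⟨26, _⟩ => e_446_y
  | ⟨27, _⟩ => e_447_y
  | ⟨28, _⟩ => e_448_y
  | ⟨29, _⟩ => e_449_y
  | ⟨30, _⟩ => e_450_y
  | ⟨31, _⟩ => e_451_y
  | ⟨32, _⟩ => e_452_y
  | ⟨33, _⟩ => e_453_y
  | ⟨34, _⟩ => e_454_y
  | ⟨35, _⟩ => e_455_y
  | ⟨36, _⟩ => e_456_y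
  | ⟨37, _⟩ => e_457_y
  | ⟨38, _⟩ => e_458_y
  | ⟨39, _⟩ => e_459_y
  | ⟨40, _⟩ => e_460_y
  | ⟨41, _⟩ => e_461_y
  | ⟨42, _⟩ => e_462_y
  | ⟨43, _⟩ => e_463_y
  | ⟨44, _⟩ => e_464_y
  | ⟨45, _⟩ => e_465_y
  | ⟨46, _⟩ => e_466_y
  | ⟨47, _⟩ => e_467_y
  | ⟨48, _⟩ => e_468_y
  | ⟨49, _⟩ => e_469_y
  | ⟨50, _⟩ => e_470_y
  | ⟨51, _⟩ => e_471_y
  | ⟨52, _⟩ => e_472_y
  | ⟨53, _⟩ => e_473_y
  | ⟨54, _⟩ => e_474_y
  | ⟨55, _⟩ => e_475_y
  | ⟨56, _⟩ => e_476_y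
  | ⟨57, _⟩ => e_477_y
  | ⟨58, _⟩ => e_478_y
  | ⟨59, _⟩ => e_479_y
  | ⟨n+60, h⟩ => absurd h (by omega)
theorem closed_y_c8 : ∀ b : Fin 60, rep_c8 b * y = rep (nx_y_c8 b)
  | ⟨0, _⟩ => e_480_y
  | ⟨1, _⟩ => e_481_y
  | ⟨2, _⟩ => e_482_y
  | ⟨3, _⟩ => e_483_y
  | ⟨4, _⟩ => e_484_y
  | ⟨5, _⟩ => e_485_y
  | ⟨6, _⟩ => e_486_y
  | ⟨7, _⟩ => e_487_y
  | ⟨8, _⟩ => e_488_y
  | ⟨9, _⟩ => e_489_y
  | ⟨10, _⟩ => e_490_y
  | ⟨11, _⟩ => e_491_y
  | ⟨12, _⟩ => e_492_y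
  | ⟨13, _⟩ => e_493_y
  | ⟨14, _⟩ => e_494_y
  | ⟨15, _⟩ => e_495_y
  | ⟨16, _⟩ => e_496_y
  | ⟨17, _⟩ => e_497_y
  | ⟨18, _⟩ => e_498_y
  | ⟨19, _⟩ => e_499_y
  | ⟨20, _⟩ => e_500_y
  | ⟨21, _⟩ => e_501_y
  | ⟨22, _⟩ => e_502_y
  | ⟨23, _⟩ => e_503_y
  | ⟨24, _⟩ => e_504_y
  | ⟨25, _⟩ => e_505_y
  | ⟨26, _⟩ => e_506_y
  | ⟨27, _⟩ => e_507_y
  | ⟨28, _⟩ => e_508_y
  | ⟨29, _⟩ => e_509_y
  | ⟨30, _⟩ => e_510_y
  | ⟨31, _⟩ => e_511_y
  | ⟨32, _⟩ => e_512_y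
  | ⟨33, _⟩ => e_513_y
  | ⟨34, _⟩ => e_514_y
  | ⟨35, _⟩ => e_515_y
  | ⟨36, _⟩ => e_516_y
  | ⟨37, _⟩ => e_517_y
  | ⟨38, _⟩ => e_518_y
  | ⟨39, _⟩ => e_519_y
  | ⟨40, _⟩ => e_520_y
  | ⟨41, _⟩ => e_521_y
  | ⟨42, _⟩ => e_522_y
  | ⟨43, _⟩ => e_523_y
  | ⟨44, _⟩ => e_524_y
  | ⟨45, _⟩ => e_525_y
  | ⟨46, _⟩ => e_526_y
  | ⟨47, _⟩ => e_527_y
  | ⟨48, _⟩ => e_528_y
  | ⟨49, _⟩ => e_529_y
  | ⟨50, _⟩ => e_530_y
  | ⟨51, _⟩ => e_531_y
  | ⟨52, _⟩ => e_532_y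
  | ⟨53, _⟩ => e_533_y
  | ⟨54, _⟩ => e_534_y
  | ⟨55, _⟩ => e_535_y
  | ⟨56, _⟩ => e_536_y
  | ⟨57, _⟩ => e_537_y
  | ⟨58, _⟩ => e_538_y
  | ⟨59, _⟩ => e_539_y
  | ⟨n+60, h⟩ => absurd h (by omega)
theorem closed_y_c9 : ∀ b : Fin 60, rep_c9 b * y = rep (nx_y_c9 b)
  | ⟨0, _⟩ => e_540_y
  | ⟨1, _⟩ => e_541_y
  | ⟨2, _⟩ => e_542_y
  | ⟨3, _⟩ => e_543_y
  | ⟨4, _⟩ => e_544_y
  | ⟨5, _⟩ => e_545_y
  | ⟨6, _⟩ => e_546_y
  | ⟨7, _⟩ => e_547_y
  | ⟨8, _⟩ => e_548_y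
  | ⟨9, _⟩ => e_549_y
  | ⟨10, _⟩ => e_550_y
  | ⟨11, _⟩ => e_551_y
  | ⟨12, _⟩ => e_552_y
  | ⟨13, _⟩ => e_553_y
  | ⟨14, _⟩ => e_554_y
  | ⟨15, _⟩ => e_555_y
  | ⟨16, _⟩ => e_556_y
  | ⟨17, _⟩ => e_557_y
  | ⟨18, _⟩ => e_558_y
  | ⟨19, _⟩ => e_559_y
  | ⟨20, _⟩ => e_560_y
  | ⟨21, _⟩ => e_561_y
  | ⟨22, _⟩ => e_562_y
  | ⟨23, _⟩ => e_563_y
  | ⟨24, _⟩ => e_564_y
  | ⟨25, _⟩ => e_565_y
  | ⟨26, _⟩ => e_566_y
  | ⟨27, _⟩ => e_567_y
  | ⟨28, _⟩ => e_568_y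
  | ⟨29, _⟩ => e_569_y
  | ⟨30, _⟩ => e_570_y
  | ⟨31, _⟩ => e_571_y
  | ⟨32, _⟩ => e_572_y
  | ⟨33, _⟩ => e_573_y
  | ⟨34, _⟩ => e_574_y
  | ⟨35, _⟩ => e_575_y
  | ⟨36, _⟩ => e_576_y
  | ⟨37, _⟩ => e_577_y
  | ⟨38, _⟩ => e_578_y
  | ⟨39, _⟩ => e_579_y
  | ⟨40, _⟩ => e_580_y
  | ⟨41, _⟩ => e_581_y
  | ⟨42, _⟩ => e_582_y
  | ⟨43, _⟩ => e_583_y
  | ⟨44, _⟩ => e_584_y
  | ⟨45, _⟩ => e_585_y
  | ⟨46, _⟩ => e_586_y
  | ⟨47, _⟩ => e_587_y
  | ⟨48, _⟩ => e_588_y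
  | ⟨49, _⟩ => e_589_y
  | ⟨50, _⟩ => e_590_y
  | ⟨51, _⟩ => e_591_y
  | ⟨52, _⟩ => e_592_y
  | ⟨53, _⟩ => e_593_y
  | ⟨54, _⟩ => e_594_y
  | ⟨55, _⟩ => e_595_y
  | ⟨56, _⟩ => e_596_y
  | ⟨57, _⟩ => e_597_y
  | ⟨58, _⟩ => e_598_y
  | ⟨59, _⟩ => e_599_y
  | ⟨n+60, h⟩ => absurd h (by omega)
theorem closed_y_c10 : ∀ b : Fin 60, rep_c10 b * y = rep (nx_y_c10 b)
  | ⟨0, _⟩ => e_600_y
  | ⟨1, _⟩ => e_601_y
  | ⟨2, _⟩ => e_602_y
  | ⟨3, _⟩ => e_603_y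
  | ⟨4, _⟩ => e_604_y
  | ⟨5, _⟩ => e_605_y
  | ⟨6, _⟩ => e_606_y
  | ⟨7, _⟩ => e_607_y
  | ⟨8, _⟩ => e_608_y
  | ⟨9, _⟩ => e_609_y
  | ⟨10, _⟩ => e_610_y
  | ⟨11, _⟩ => e_611_y
  | ⟨12, _⟩ => e_612_y
  | ⟨13, _⟩ => e_613_y
  | ⟨14, _⟩ => e_614_y
  | ⟨15, _⟩ => e_615_y
  | ⟨16, _⟩ => e_616_y
  | ⟨17, _⟩ => e_617_y
  | ⟨18, _⟩ => e_618_y
  | ⟨19, _⟩ => e_619_y
  | ⟨20, _⟩ => e_620_y
  | ⟨21, _⟩ => e_621_y
  | ⟨22, _⟩ => e_622_y
  | ⟨23, _⟩ => e_623_y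
  | ⟨24, _⟩ => e_624_y
  | ⟨25, _⟩ => e_625_y
  | ⟨26, _⟩ => e_626_y
  | ⟨27, _⟩ => e_627_y
  | ⟨28, _⟩ => e_628_y
  | ⟨29, _⟩ => e_629_y
  | ⟨30, _⟩ => e_630_y
  | ⟨31, _⟩ => e_631_y
  | ⟨32, _⟩ => e_632_y
  | ⟨33, _⟩ => e_633_y
  | ⟨34, _⟩ => e_634_y
  | ⟨35, _⟩ => e_635_y
  | ⟨36, _⟩ => e_636_y
  | ⟨37, _⟩ => e_637_y
  | ⟨38, _⟩ => e_638_y
  | ⟨39, _⟩ => e_639_y
  | ⟨40, _⟩ => e_640_y
  | ⟨41, _⟩ => e_641_y
  | ⟨42, _⟩ => e_642_y
  | ⟨43, _⟩ => e_643_y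
  | ⟨44, _⟩ => e_644_y
  | ⟨45, _⟩ => e_645_y
  | ⟨46, _⟩ => e_646_y
  | ⟨47, _⟩ => e_647_y
  | ⟨48, _⟩ => e_648_y
  | ⟨49, _⟩ => e_649_y
  | ⟨50, _⟩ => e_650_y
  | ⟨51, _⟩ => e_651_y
  | ⟨52, _⟩ => e_652_y
  | ⟨53, _⟩ => e_653_y
  | ⟨54, _⟩ => e_654_y
  | ⟨55, _⟩ => e_655_y
  | ⟨56, _⟩ => e_656_y
  | ⟨57, _⟩ => e_657_y
  | ⟨58, _⟩ => e_658_y
  | ⟨59, _⟩ => e_659_y
  | ⟨n+60, h⟩ => absurd h (by omega)
theorem closed_y_c11 : ∀ b : Fin 60, rep_c11 b * y = rep (nx_y_c11 b)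
  | ⟨0, _⟩ => e_660_y
  | ⟨1, _⟩ => e_661_y
  | ⟨2, _⟩ => e_662_y
  | ⟨3, _⟩ => e_663_y
  | ⟨4, _⟩ => e_664_y
  | ⟨5, _⟩ => e_665_y
  | ⟨6, _⟩ => e_666_y
  | ⟨7, _⟩ => e_667_y
  | ⟨8, _⟩ => e_668_y
  | ⟨9, _⟩ => e_669_y
  | ⟨10, _⟩ => e_670_y
  | ⟨11, _⟩ => e_671_y
  | ⟨12, _⟩ => e_672_y
  | ⟨13, _⟩ => e_673_y
  | ⟨14, _⟩ => e_674_y
  | ⟨15, _⟩ => e_675_y
  | ⟨16, _⟩ => e_676_y
  | ⟨17, _⟩ => e_677_y
  | ⟨18, _⟩ => e_678_y
  | ⟨19, _⟩ => e_679_y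
  | ⟨20, _⟩ => e_680_y
  | ⟨21, _⟩ => e_681_y
  | ⟨22, _⟩ => e_682_y
  | ⟨23, _⟩ => e_683_y
  | ⟨24, _⟩ => e_684_y
  | ⟨25, _⟩ => e_685_y
  | ⟨26, _⟩ => e_686_y
  | ⟨27, _⟩ => e_687_y
  | ⟨28, _⟩ => e_688_y
  | ⟨29, _⟩ => e_689_y
  | ⟨30, _⟩ => e_690_y
  | ⟨31, _⟩ => e_691_y
  | ⟨32, _⟩ => e_692_y
  | ⟨33, _⟩ => e_693_y
  | ⟨34, _⟩ => e_694_y
  | ⟨35, _⟩ => e_695_y
  | ⟨36, _⟩ => e_696_y
  | ⟨37, _⟩ => e_697_y
  | ⟨38, _⟩ => e_698_y
  | ⟨39, _⟩ => e_699_y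
  | ⟨40, _⟩ => e_700_y
  | ⟨41, _⟩ => e_701_y
  | ⟨42, _⟩ => e_702_y
  | ⟨43, _⟩ => e_703_y
  | ⟨44, _⟩ => e_704_y
  | ⟨45, _⟩ => e_705_y
  | ⟨46, _⟩ => e_706_y
  | ⟨47, _⟩ => e_707_y
  | ⟨48, _⟩ => e_708_y
  | ⟨49, _⟩ => e_709_y
  | ⟨50, _⟩ => e_710_y
  | ⟨51, _⟩ => e_711_y
  | ⟨52, _⟩ => e_712_y
  | ⟨53, _⟩ => e_713_y
  | ⟨54, _⟩ => e_714_y
  | ⟨55, _⟩ => e_715_y
  | ⟨56, _⟩ => e_716_y
  | ⟨57, _⟩ => e_717_y
  | ⟨58, _⟩ => e_718_y
  | ⟨59, _⟩ => e_719_y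
  | ⟨n+60, h⟩ => absurd h (by omega)
theorem closed_y_ch : ∀ (a : Fin 12) (b : Fin 60), rep_ch a b * y = rep (nx_y_ch a b)
  | ⟨0, _⟩ => closed_y_c0
  | ⟨1, _⟩ => closed_y_c1
  | ⟨2, _⟩ => closed_y_c2
  | ⟨3, _⟩ => closed_y_c3
  | ⟨4, _⟩ => closed_y_c4
  | ⟨5, _⟩ => closed_y_c5
  | ⟨6, _⟩ => closed_y_c6
  | ⟨7, _⟩ => closed_y_c7
  | ⟨8, _⟩ => closed_y_c8
  | ⟨9, _⟩ => closed_y_c9
  | ⟨10, _⟩ => closed_y_c10
  | ⟨11, _⟩ => closed_y_c11
  | ⟨n+12, h⟩ => absurd h (by omega)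
theorem closed_y (i : Idx) : rep i * y = rep (nx_y i) :=
  closed_y_ch i.1 i.2
theorem pre_y_c0 : ∀ b : Fin 60, rep (px_y_c0 b) * y = rep_c0 b
  | ⟨0, _⟩ => e_31_y
  | ⟨1, _⟩ => e_39_y
  | ⟨2, _⟩ => e_0_y
  | ⟨3, _⟩ => e_1_y
  | ⟨4, _⟩ => e_70_y
  | ⟨5, _⟩ => e_2_y
  | ⟨6, _⟩ => e_88_y
  | ⟨7, _⟩ => e_3_y
  | ⟨8, _⟩ => e_4_y
  | ⟨9, _⟩ => e_115_y
  | ⟨10, _⟩ => e_5_y
  | ⟨11, _⟩ => e_6_y
  | ⟨12, _⟩ => e_139_y
  | ⟨13, _⟩ => e_7_y
  | ⟨14, _⟩ => e_152_y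
  | ⟨15, _⟩ => e_8_y
  | ⟨16, _⟩ => e_9_y
  | ⟨17, _⟩ => e_174_y
  | ⟨18, _⟩ => e_10_y
  | ⟨19, _⟩ => e_184_y
  | ⟨20, _⟩ => e_11_y
  | ⟨21, _⟩ => e_12_y
  | ⟨22, _⟩ => e_206_y
  | ⟨23, _⟩ => e_13_y
  | ⟨24, _⟩ => e_14_y
  | ⟨25, _⟩ => e_224_y
  | ⟨26, _⟩ => e_15_y
  | ⟨27, _⟩ => e_235_y
  | ⟨28, _⟩ => e_16_y
  | ⟨29, _⟩ => e_17_y
  | ⟨30, _⟩ => e_249_y
  | ⟨31, _⟩ => e_18_y
  | ⟨32, _⟩ => e_19_y
  | ⟨33, _⟩ => e_265_y
  | ⟨34, _⟩ => e_20_y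
  | ⟨35, _⟩ => e_276_y
  | ⟨36, _⟩ => e_21_y
  | ⟨37, _⟩ => e_22_y
  | ⟨38, _⟩ => e_290_y
  | ⟨39, _⟩ => e_23_y
  | ⟨40, _⟩ => e_293_y
  | ⟨41, _⟩ => e_24_y
  | ⟨42, _⟩ => e_25_y
  | ⟨43, _⟩ => e_312_y
  | ⟨44, _⟩ => e_26_y
  | ⟨45, _⟩ => e_27_y
  | ⟨46, _⟩ => e_325_y
  | ⟨47, _⟩ => e_28_y
  | ⟨48, _⟩ => e_332_y
  | ⟨49, _⟩ => e_29_y
  | ⟨50, _⟩ => e_30_y
  | ⟨51, _⟩ => e_52_y
  | ⟨52, _⟩ => e_252_y
  | ⟨53, _⟩ => e_32_y
  | ⟨54, _⟩ => e_33_y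
  | ⟨55, _⟩ => e_358_y
  | ⟨56, _⟩ => e_34_y
  | ⟨57, _⟩ => e_35_y
  | ⟨58, _⟩ => e_371_y
  | ⟨59, _⟩ => e_36_y
  | ⟨n+60, h⟩ => absurd h (by omega)
theorem pre_y_c1 : ∀ b : Fin 60, rep (px_y_c1 b) * y = rep_c1 b
  | ⟨0, _⟩ => e_378_y
  | ⟨1, _⟩ => e_37_y
  | ⟨2, _⟩ => e_38_y
  | ⟨3, _⟩ => e_40_y
  | ⟨4, _⟩ => e_391_y
  | ⟨5, _⟩ => e_41_y
  | ⟨6, _⟩ => e_400_y
  | ⟨7, _⟩ => e_42_y
  | ⟨8, _⟩ => e_43_y
  | ⟨9, _⟩ => e_412_y
  | ⟨10, _⟩ => e_44_y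
  | ⟨11, _⟩ => e_413_y
  | ⟨12, _⟩ => e_45_y
  | ⟨13, _⟩ => e_46_y
  | ⟨14, _⟩ => e_427_y
  | ⟨15, _⟩ => e_47_y
  | ⟨16, _⟩ => e_48_y
  | ⟨17, _⟩ => e_433_y
  | ⟨18, _⟩ => e_49_y
  | ⟨19, _⟩ => e_435_y
  | ⟨20, _⟩ => e_50_y
  | ⟨21, _⟩ => e_51_y
  | ⟨22, _⟩ => e_443_y
  | ⟨23, _⟩ => e_53_y
  | ⟨24, _⟩ => e_452_y
  | ⟨25, _⟩ => e_54_y
  | ⟨26, _⟩ => e_55_y
  | ⟨27, _⟩ => e_464_y
  | ⟨28, _⟩ => e_56_y
  | ⟨29, _⟩ => e_465_y
  | ⟨30, _⟩ => e_57_y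
  | ⟨31, _⟩ => e_58_y
  | ⟨32, _⟩ => e_479_y
  | ⟨33, _⟩ => e_59_y
  | ⟨34, _⟩ => e_60_y
  | ⟨35, _⟩ => e_485_y
  | ⟨36, _⟩ => e_61_y
  | ⟨37, _⟩ => e_487_y
  | ⟨38, _⟩ => e_62_y
  | ⟨39, _⟩ => e_63_y
  | ⟨40, _⟩ => e_64_y
  | ⟨41, _⟩ => e_497_y
  | ⟨42, _⟩ => e_65_y
  | ⟨43, _⟩ => e_66_y
  | ⟨44, _⟩ => e_508_y
  | ⟨45, _⟩ => e_67_y
  | ⟨46, _⟩ => e_513_y
  | ⟨47, _⟩ => e_68_y
  | ⟨48, _⟩ => e_69_y
  | ⟨49, _⟩ => e_71_y
  | ⟨50, _⟩ => e_520_y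
  | ⟨51, _⟩ => e_72_y
  | ⟨52, _⟩ => e_525_y
  | ⟨53, _⟩ => e_73_y
  | ⟨54, _⟩ => e_74_y
  | ⟨55, _⟩ => e_75_y
  | ⟨56, _⟩ => e_530_y
  | ⟨57, _⟩ => e_76_y
  | ⟨58, _⟩ => e_77_y
  | ⟨59, _⟩ => e_78_y
  | ⟨n+60, h⟩ => absurd h (by omega)
theorem pre_y_c2 : ∀ b : Fin 60, rep (px_y_c2 b) * y = rep_c2 b
  | ⟨0, _⟩ => e_79_y
  | ⟨1, _⟩ => e_80_y
  | ⟨2, _⟩ => e_538_y
  | ⟨3, _⟩ => e_81_y
  | ⟨4, _⟩ => e_82_y
  | ⟨5, _⟩ => e_546_y
  | ⟨6, _⟩ => e_83_y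
  | ⟨7, _⟩ => e_84_y
  | ⟨8, _⟩ => e_557_y
  | ⟨9, _⟩ => e_85_y
  | ⟨10, _⟩ => e_562_y
  | ⟨11, _⟩ => e_86_y
  | ⟨12, _⟩ => e_87_y
  | ⟨13, _⟩ => e_89_y
  | ⟨14, _⟩ => e_569_y
  | ⟨15, _⟩ => e_90_y
  | ⟨16, _⟩ => e_574_y
  | ⟨17, _⟩ => e_91_y
  | ⟨18, _⟩ => e_92_y
  | ⟨19, _⟩ => e_93_y
  | ⟨20, _⟩ => e_579_y
  | ⟨21, _⟩ => e_94_y
  | ⟨22, _⟩ => e_95_y
  | ⟨23, _⟩ => e_96_y
  | ⟨24, _⟩ => e_97_y
  | ⟨25, _⟩ => e_98_y
  | ⟨26, _⟩ => e_587_y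
  | ⟨27, _⟩ => e_99_y
  | ⟨28, _⟩ => e_589_y
  | ⟨29, _⟩ => e_100_y
  | ⟨30, _⟩ => e_101_y
  | ⟨31, _⟩ => e_595_y
  | ⟨32, _⟩ => e_102_y
  | ⟨33, _⟩ => e_596_y
  | ⟨34, _⟩ => e_103_y
  | ⟨35, _⟩ => e_104_y
  | ⟨36, _⟩ => e_605_y
  | ⟨37, _⟩ => e_105_y
  | ⟨38, _⟩ => e_106_y
  | ⟨39, _⟩ => e_607_y
  | ⟨40, _⟩ => e_107_y
  | ⟨41, _⟩ => e_570_y
  | ⟨42, _⟩ => e_108_y
  | ⟨43, _⟩ => e_109_y
  | ⟨44, _⟩ => e_110_y
  | ⟨45, _⟩ => e_111_y
  | ⟨46, _⟩ => e_112_y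
  | ⟨47, _⟩ => e_113_y
  | ⟨48, _⟩ => e_617_y
  | ⟨49, _⟩ => e_114_y
  | ⟨50, _⟩ => e_116_y
  | ⟨51, _⟩ => e_117_y
  | ⟨52, _⟩ => e_621_y
  | ⟨53, _⟩ => e_118_y
  | ⟨54, _⟩ => e_119_y
  | ⟨55, _⟩ => e_622_y
  | ⟨56, _⟩ => e_120_y
  | ⟨57, _⟩ => e_121_y
  | ⟨58, _⟩ => e_122_y
  | ⟨59, _⟩ => e_123_y
  | ⟨n+60, h⟩ => absurd h (by omega)
theorem pre_y_c3 : ∀ b : Fin 60, rep (px_y_c3 b) * y = rep_c3 b
  | ⟨0, _⟩ => e_625_y
  | ⟨1, _⟩ => e_124_y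
  | ⟨2, _⟩ => e_125_y
  | ⟨3, _⟩ => e_631_y
  | ⟨4, _⟩ => e_126_y
  | ⟨5, _⟩ => e_632_y
  | ⟨6, _⟩ => e_127_y
  | ⟨7, _⟩ => e_128_y
  | ⟨8, _⟩ => e_641_y
  | ⟨9, _⟩ => e_129_y
  | ⟨10, _⟩ => e_130_y
  | ⟨11, _⟩ => e_643_y
  | ⟨12, _⟩ => e_131_y
  | ⟨13, _⟩ => e_521_y
  | ⟨14, _⟩ => e_132_y
  | ⟨15, _⟩ => e_133_y
  | ⟨16, _⟩ => e_134_y
  | ⟨17, _⟩ => e_135_y
  | ⟨18, _⟩ => e_136_y
  | ⟨19, _⟩ => e_137_y
  | ⟨20, _⟩ => e_653_y
  | ⟨21, _⟩ => e_138_y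
  | ⟨22, _⟩ => e_140_y
  | ⟨23, _⟩ => e_141_y
  | ⟨24, _⟩ => e_657_y
  | ⟨25, _⟩ => e_142_y
  | ⟨26, _⟩ => e_143_y
  | ⟨27, _⟩ => e_658_y
  | ⟨28, _⟩ => e_144_y
  | ⟨29, _⟩ => e_145_y
  | ⟨30, _⟩ => e_146_y
  | ⟨31, _⟩ => e_147_y
  | ⟨32, _⟩ => e_148_y
  | ⟨33, _⟩ => e_662_y
  | ⟨34, _⟩ => e_149_y
  | ⟨35, _⟩ => e_665_y
  | ⟨36, _⟩ => e_150_y
  | ⟨37, _⟩ => e_151_y
  | ⟨38, _⟩ => e_153_y
  | ⟨39, _⟩ => e_667_y
  | ⟨40, _⟩ => e_154_y
  | ⟨41, _⟩ => e_473_y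
  | ⟨42, _⟩ => e_155_y
  | ⟨43, _⟩ => e_156_y
  | ⟨44, _⟩ => e_157_y
  | ⟨45, _⟩ => e_671_y
  | ⟨46, _⟩ => e_158_y
  | ⟨47, _⟩ => e_159_y
  | ⟨48, _⟩ => e_160_y
  | ⟨49, _⟩ => e_161_y
  | ⟨50, _⟩ => e_162_y
  | ⟨51, _⟩ => e_163_y
  | ⟨52, _⟩ => e_673_y
  | ⟨53, _⟩ => e_164_y
  | ⟨54, _⟩ => e_676_y
  | ⟨55, _⟩ => e_165_y
  | ⟨56, _⟩ => e_677_y
  | ⟨57, _⟩ => e_166_y
  | ⟨58, _⟩ => e_638_y
  | ⟨59, _⟩ => e_167_y
  | ⟨n+60, h⟩ => absurd h (by omega)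
theorem pre_y_c4 : ∀ b : Fin 60, rep (px_y_c4 b) * y = rep_c4 b
  | ⟨0, _⟩ => e_168_y
  | ⟨1, _⟩ => e_636_y
  | ⟨2, _⟩ => e_169_y
  | ⟨3, _⟩ => e_170_y
  | ⟨4, _⟩ => e_171_y
  | ⟨5, _⟩ => e_172_y
  | ⟨6, _⟩ => e_173_y
  | ⟨7, _⟩ => e_175_y
  | ⟨8, _⟩ => e_176_y
  | ⟨9, _⟩ => e_177_y
  | ⟨10, _⟩ => e_682_y
  | ⟨11, _⟩ => e_178_y
  | ⟨12, _⟩ => e_179_y
  | ⟨13, _⟩ => e_180_y
  | ⟨14, _⟩ => e_685_y
  | ⟨15, _⟩ => e_181_y
  | ⟨16, _⟩ => e_688_y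
  | ⟨17, _⟩ => e_182_y
  | ⟨18, _⟩ => e_183_y
  | ⟨19, _⟩ => e_185_y
  | ⟨20, _⟩ => e_690_y
  | ⟨21, _⟩ => e_186_y
  | ⟨22, _⟩ => e_421_y
  | ⟨23, _⟩ => e_187_y
  | ⟨24, _⟩ => e_188_y
  | ⟨25, _⟩ => e_189_y
  | ⟨26, _⟩ => e_694_y
  | ⟨27, _⟩ => e_190_y
  | ⟨28, _⟩ => e_191_y
  | ⟨29, _⟩ => e_192_y
  | ⟨30, _⟩ => e_193_y
  | ⟨31, _⟩ => e_194_y
  | ⟨32, _⟩ => e_195_y
  | ⟨33, _⟩ => e_696_y
  | ⟨34, _⟩ => e_196_y
  | ⟨35, _⟩ => e_699_y
  | ⟨36, _⟩ => e_197_y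
  | ⟨37, _⟩ => e_700_y
  | ⟨38, _⟩ => e_198_y
  | ⟨39, _⟩ => e_602_y
  | ⟨40, _⟩ => e_199_y
  | ⟨41, _⟩ => e_200_y
  | ⟨42, _⟩ => e_600_y
  | ⟨43, _⟩ => e_201_y
  | ⟨44, _⟩ => e_202_y
  | ⟨45, _⟩ => e_203_y
  | ⟨46, _⟩ => e_204_y
  | ⟨47, _⟩ => e_205_y
  | ⟨48, _⟩ => e_207_y
  | ⟨49, _⟩ => e_208_y
  | ⟨50, _⟩ => e_209_y
  | ⟨51, _⟩ => e_705_y
  | ⟨52, _⟩ => e_210_y
  | ⟨53, _⟩ => e_211_y
  | ⟨54, _⟩ => e_212_y
  | ⟨55, _⟩ => e_213_y
  | ⟨56, _⟩ => e_708_y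
  | ⟨57, _⟩ => e_214_y
  | ⟨58, _⟩ => e_215_y
  | ⟨59, _⟩ => e_689_y
  | ⟨n+60, h⟩ => absurd h (by omega)
theorem pre_y_c5 : ∀ b : Fin 60, rep (px_y_c5 b) * y = rep_c5 b
  | ⟨0, _⟩ => e_216_y
  | ⟨1, _⟩ => e_618_y
  | ⟨2, _⟩ => e_217_y
  | ⟨3, _⟩ => e_218_y
  | ⟨4, _⟩ => e_219_y
  | ⟨5, _⟩ => e_220_y
  | ⟨6, _⟩ => e_221_y
  | ⟨7, _⟩ => e_222_y
  | ⟨8, _⟩ => e_223_y
  | ⟨9, _⟩ => e_225_y
  | ⟨10, _⟩ => e_226_y
  | ⟨11, _⟩ => e_227_y
  | ⟨12, _⟩ => e_228_y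
  | ⟨13, _⟩ => e_697_y
  | ⟨14, _⟩ => e_229_y
  | ⟨15, _⟩ => e_230_y
  | ⟨16, _⟩ => e_231_y
  | ⟨17, _⟩ => e_232_y
  | ⟨18, _⟩ => e_561_y
  | ⟨19, _⟩ => e_233_y
  | ⟨20, _⟩ => e_234_y
  | ⟨21, _⟩ => e_236_y
  | ⟨22, _⟩ => e_555_y
  | ⟨23, _⟩ => e_237_y
  | ⟨24, _⟩ => e_238_y
  | ⟨25, _⟩ => e_239_y
  | ⟨26, _⟩ => e_692_y
  | ⟨27, _⟩ => e_240_y
  | ⟨28, _⟩ => e_241_y
  | ⟨29, _⟩ => e_242_y
  | ⟨30, _⟩ => e_243_y
  | ⟨31, _⟩ => e_687_y
  | ⟨32, _⟩ => e_244_y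
  | ⟨33, _⟩ => e_711_y
  | ⟨34, _⟩ => e_245_y
  | ⟨35, _⟩ => e_246_y
  | ⟨36, _⟩ => e_247_y
  | ⟨37, _⟩ => e_248_y
  | ⟨38, _⟩ => e_250_y
  | ⟨39, _⟩ => e_251_y
  | ⟨40, _⟩ => e_253_y
  | ⟨41, _⟩ => e_254_y
  | ⟨42, _⟩ => e_714_y
  | ⟨43, _⟩ => e_255_y
  | ⟨44, _⟩ => e_256_y
  | ⟨45, _⟩ => e_666_y
  | ⟨46, _⟩ => e_257_y
  | ⟨47, _⟩ => e_654_y
  | ⟨48, _⟩ => e_258_y
  | ⟨49, _⟩ => e_259_y
  | ⟨50, _⟩ => e_260_y
  | ⟨51, _⟩ => e_261_y
  | ⟨52, _⟩ => e_262_y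
  | ⟨53, _⟩ => e_263_y
  | ⟨54, _⟩ => e_264_y
  | ⟨55, _⟩ => e_266_y
  | ⟨56, _⟩ => e_267_y
  | ⟨57, _⟩ => e_268_y
  | ⟨58, _⟩ => e_269_y
  | ⟨59, _⟩ => e_674_y
  | ⟨n+60, h⟩ => absurd h (by omega)
theorem pre_y_c6 : ∀ b : Fin 60, rep (px_y_c6 b) * y = rep_c6 b
  | ⟨0, _⟩ => e_270_y
  | ⟨1, _⟩ => e_271_y
  | ⟨2, _⟩ => e_272_y
  | ⟨3, _⟩ => e_273_y
  | ⟨4, _⟩ => e_512_y
  | ⟨5, _⟩ => e_274_y
  | ⟨6, _⟩ => e_275_y
  | ⟨7, _⟩ => e_277_y
  | ⟨8, _⟩ => e_506_y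
  | ⟨9, _⟩ => e_278_y
  | ⟨10, _⟩ => e_279_y
  | ⟨11, _⟩ => e_280_y
  | ⟨12, _⟩ => e_669_y
  | ⟨13, _⟩ => e_281_y
  | ⟨14, _⟩ => e_282_y
  | ⟨15, _⟩ => e_283_y
  | ⟨16, _⟩ => e_284_y
  | ⟨17, _⟩ => e_664_y
  | ⟨18, _⟩ => e_285_y
  | ⟨19, _⟩ => e_717_y
  | ⟨20, _⟩ => e_286_y
  | ⟨21, _⟩ => e_287_y
  | ⟨22, _⟩ => e_288_y
  | ⟨23, _⟩ => e_289_y
  | ⟨24, _⟩ => e_291_y
  | ⟨25, _⟩ => e_292_y
  | ⟨26, _⟩ => e_468_y
  | ⟨27, _⟩ => e_294_y
  | ⟨28, _⟩ => e_534_y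
  | ⟨29, _⟩ => e_295_y
  | ⟨30, _⟩ => e_296_y
  | ⟨31, _⟩ => e_297_y
  | ⟨32, _⟩ => e_298_y
  | ⟨33, _⟩ => e_299_y
  | ⟨34, _⟩ => e_300_y
  | ⟨35, _⟩ => e_301_y
  | ⟨36, _⟩ => e_302_y
  | ⟨37, _⟩ => e_303_y
  | ⟨38, _⟩ => e_304_y
  | ⟨39, _⟩ => e_478_y
  | ⟨40, _⟩ => e_305_y
  | ⟨41, _⟩ => e_718_y
  | ⟨42, _⟩ => e_306_y
  | ⟨43, _⟩ => e_651_y
  | ⟨44, _⟩ => e_307_y
  | ⟨45, _⟩ => e_678_y
  | ⟨46, _⟩ => e_308_y
  | ⟨47, _⟩ => e_309_y
  | ⟨48, _⟩ => e_310_y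
  | ⟨49, _⟩ => e_311_y
  | ⟨50, _⟩ => e_313_y
  | ⟨51, _⟩ => e_314_y
  | ⟨52, _⟩ => e_315_y
  | ⟨53, _⟩ => e_316_y
  | ⟨54, _⟩ => e_317_y
  | ⟨55, _⟩ => e_318_y
  | ⟨56, _⟩ => e_713_y
  | ⟨57, _⟩ => e_319_y
  | ⟨58, _⟩ => e_463_y
  | ⟨59, _⟩ => e_320_y
  | ⟨n+60, h⟩ => absurd h (by omega)
theorem pre_y_c7 : ∀ b : Fin 60, rep (px_y_c7 b) * y = rep_c7 b
  | ⟨0, _⟩ => e_321_y
  | ⟨1, _⟩ => e_322_y
  | ⟨2, _⟩ => e_323_y
  | ⟨3, _⟩ => e_324_y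
  | ⟨4, _⟩ => e_326_y
  | ⟨5, _⟩ => e_327_y
  | ⟨6, _⟩ => e_328_y
  | ⟨7, _⟩ => e_329_y
  | ⟨8, _⟩ => e_330_y
  | ⟨9, _⟩ => e_331_y
  | ⟨10, _⟩ => e_333_y
  | ⟨11, _⟩ => e_661_y
  | ⟨12, _⟩ => e_334_y
  | ⟨13, _⟩ => e_335_y
  | ⟨14, _⟩ => e_336_y
  | ⟨15, _⟩ => e_337_y
  | ⟨16, _⟩ => e_338_y
  | ⟨17, _⟩ => e_339_y
  | ⟨18, _⟩ => e_416_y
  | ⟨19, _⟩ => e_340_y
  | ⟨20, _⟩ => e_583_y
  | ⟨21, _⟩ => e_341_y
  | ⟨22, _⟩ => e_342_y
  | ⟨23, _⟩ => e_343_y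
  | ⟨24, _⟩ => e_344_y
  | ⟨25, _⟩ => e_345_y
  | ⟨26, _⟩ => e_346_y
  | ⟨27, _⟩ => e_347_y
  | ⟨28, _⟩ => e_348_y
  | ⟨29, _⟩ => e_349_y
  | ⟨30, _⟩ => e_350_y
  | ⟨31, _⟩ => e_426_y
  | ⟨32, _⟩ => e_351_y
  | ⟨33, _⟩ => e_719_y
  | ⟨34, _⟩ => e_352_y
  | ⟨35, _⟩ => e_615_y
  | ⟨36, _⟩ => e_353_y
  | ⟨37, _⟩ => e_701_y
  | ⟨38, _⟩ => e_354_y
  | ⟨39, _⟩ => e_355_y
  | ⟨40, _⟩ => e_356_y
  | ⟨41, _⟩ => e_357_y
  | ⟨42, _⟩ => e_359_y
  | ⟨43, _⟩ => e_360_y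
  | ⟨44, _⟩ => e_361_y
  | ⟨45, _⟩ => e_362_y
  | ⟨46, _⟩ => e_363_y
  | ⟨47, _⟩ => e_364_y
  | ⟨48, _⟩ => e_707_y
  | ⟨49, _⟩ => e_365_y
  | ⟨50, _⟩ => e_411_y
  | ⟨51, _⟩ => e_366_y
  | ⟨52, _⟩ => e_367_y
  | ⟨53, _⟩ => e_368_y
  | ⟨54, _⟩ => e_369_y
  | ⟨55, _⟩ => e_370_y
  | ⟨56, _⟩ => e_372_y
  | ⟨57, _⟩ => e_373_y
  | ⟨58, _⟩ => e_374_y
  | ⟨59, _⟩ => e_375_y
  | ⟨n+60, h⟩ => absurd h (by omega)
theorem pre_y_c8 : ∀ b : Fin 60, rep (px_y_c8 b) * y = rep_c8 b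
  | ⟨0, _⟩ => e_376_y
  | ⟨1, _⟩ => e_377_y
  | ⟨2, _⟩ => e_379_y
  | ⟨3, _⟩ => e_684_y
  | ⟨4, _⟩ => e_380_y
  | ⟨5, _⟩ => e_381_y
  | ⟨6, _⟩ => e_382_y
  | ⟨7, _⟩ => e_383_y
  | ⟨8, _⟩ => e_384_y
  | ⟨9, _⟩ => e_385_y
  | ⟨10, _⟩ => e_386_y
  | ⟨11, _⟩ => e_387_y
  | ⟨12, _⟩ => e_388_y
  | ⟨13, _⟩ => e_389_y
  | ⟨14, _⟩ => e_390_y
  | ⟨15, _⟩ => e_392_y
  | ⟨16, _⟩ => e_393_y
  | ⟨17, _⟩ => e_394_y
  | ⟨18, _⟩ => e_395_y
  | ⟨19, _⟩ => e_396_y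
  | ⟨20, _⟩ => e_397_y
  | ⟨21, _⟩ => e_545_y
  | ⟨22, _⟩ => e_398_y
  | ⟨23, _⟩ => e_399_y
  | ⟨24, _⟩ => e_401_y
  | ⟨25, _⟩ => e_576_y
  | ⟨26, _⟩ => e_402_y
  | ⟨27, _⟩ => e_403_y
  | ⟨28, _⟩ => e_404_y
  | ⟨29, _⟩ => e_405_y
  | ⟨30, _⟩ => e_406_y
  | ⟨31, _⟩ => e_407_y
  | ⟨32, _⟩ => e_698_y
  | ⟨33, _⟩ => e_408_y
  | ⟨34, _⟩ => e_409_y
  | ⟨35, _⟩ => e_410_y
  | ⟨36, _⟩ => e_598_y
  | ⟨37, _⟩ => e_414_y
  | ⟨38, _⟩ => e_564_y
  | ⟨39, _⟩ => e_415_y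
  | ⟨40, _⟩ => e_417_y
  | ⟨41, _⟩ => e_418_y
  | ⟨42, _⟩ => e_419_y
  | ⟨43, _⟩ => e_420_y
  | ⟨44, _⟩ => e_604_y
  | ⟨45, _⟩ => e_422_y
  | ⟨46, _⟩ => e_693_y
  | ⟨47, _⟩ => e_423_y
  | ⟨48, _⟩ => e_424_y
  | ⟨49, _⟩ => e_425_y
  | ⟨50, _⟩ => e_428_y
  | ⟨51, _⟩ => e_594_y
  | ⟨52, _⟩ => e_429_y
  | ⟨53, _⟩ => e_430_y
  | ⟨54, _⟩ => e_431_y
  | ⟨55, _⟩ => e_432_y
  | ⟨56, _⟩ => e_434_y
  | ⟨57, _⟩ => e_436_y
  | ⟨58, _⟩ => e_437_y
  | ⟨59, _⟩ => e_438_y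
  | ⟨n+60, h⟩ => absurd h (by omega)
theorem pre_y_c9 : ∀ b : Fin 60, rep (px_y_c9 b) * y = rep_c9 b
  | ⟨0, _⟩ => e_439_y
  | ⟨1, _⟩ => e_440_y
  | ⟨2, _⟩ => e_441_y
  | ⟨3, _⟩ => e_442_y
  | ⟨4, _⟩ => e_444_y
  | ⟨5, _⟩ => e_445_y
  | ⟨6, _⟩ => e_446_y
  | ⟨7, _⟩ => e_447_y
  | ⟨8, _⟩ => e_448_y
  | ⟨9, _⟩ => e_449_y
  | ⟨10, _⟩ => e_496_y
  | ⟨11, _⟩ => e_450_y
  | ⟨12, _⟩ => e_451_y
  | ⟨13, _⟩ => e_453_y
  | ⟨14, _⟩ => e_527_y
  | ⟨15, _⟩ => e_454_y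
  | ⟨16, _⟩ => e_455_y
  | ⟨17, _⟩ => e_456_y
  | ⟨18, _⟩ => e_457_y
  | ⟨19, _⟩ => e_458_y
  | ⟨20, _⟩ => e_459_y
  | ⟨21, _⟩ => e_675_y
  | ⟨22, _⟩ => e_460_y
  | ⟨23, _⟩ => e_461_y
  | ⟨24, _⟩ => e_462_y
  | ⟨25, _⟩ => e_634_y
  | ⟨26, _⟩ => e_466_y
  | ⟨27, _⟩ => e_515_y
  | ⟨28, _⟩ => e_467_y
  | ⟨29, _⟩ => e_469_y
  | ⟨30, _⟩ => e_470_y
  | ⟨31, _⟩ => e_471_y
  | ⟨32, _⟩ => e_472_y
  | ⟨33, _⟩ => e_640_y
  | ⟨34, _⟩ => e_474_y
  | ⟨35, _⟩ => e_670_y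
  | ⟨36, _⟩ => e_475_y
  | ⟨37, _⟩ => e_476_y
  | ⟨38, _⟩ => e_477_y
  | ⟨39, _⟩ => e_480_y
  | ⟨40, _⟩ => e_630_y
  | ⟨41, _⟩ => e_481_y
  | ⟨42, _⟩ => e_482_y
  | ⟨43, _⟩ => e_483_y
  | ⟨44, _⟩ => e_484_y
  | ⟨45, _⟩ => e_486_y
  | ⟨46, _⟩ => e_488_y
  | ⟨47, _⟩ => e_489_y
  | ⟨48, _⟩ => e_490_y
  | ⟨49, _⟩ => e_491_y
  | ⟨50, _⟩ => e_492_y
  | ⟨51, _⟩ => e_493_y
  | ⟨52, _⟩ => e_494_y
  | ⟨53, _⟩ => e_495_y
  | ⟨54, _⟩ => e_498_y
  | ⟨55, _⟩ => e_499_y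
  | ⟨56, _⟩ => e_500_y
  | ⟨57, _⟩ => e_501_y
  | ⟨58, _⟩ => e_712_y
  | ⟨59, _⟩ => e_502_y
  | ⟨n+60, h⟩ => absurd h (by omega)
theorem pre_y_c10 : ∀ b : Fin 60, rep (px_y_c10 b) * y = rep_c10 b
  | ⟨0, _⟩ => e_503_y
  | ⟨1, _⟩ => e_504_y
  | ⟨2, _⟩ => e_505_y
  | ⟨3, _⟩ => e_507_y
  | ⟨4, _⟩ => e_509_y
  | ⟨5, _⟩ => e_510_y
  | ⟨6, _⟩ => e_511_y
  | ⟨7, _⟩ => e_514_y
  | ⟨8, _⟩ => e_516_y
  | ⟨9, _⟩ => e_517_y
  | ⟨10, _⟩ => e_518_y
  | ⟨11, _⟩ => e_519_y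
  | ⟨12, _⟩ => e_522_y
  | ⟨13, _⟩ => e_523_y
  | ⟨14, _⟩ => e_524_y
  | ⟨15, _⟩ => e_526_y
  | ⟨16, _⟩ => e_528_y
  | ⟨17, _⟩ => e_529_y
  | ⟨18, _⟩ => e_531_y
  | ⟨19, _⟩ => e_532_y
  | ⟨20, _⟩ => e_533_y
  | ⟨21, _⟩ => e_535_y
  | ⟨22, _⟩ => e_536_y
  | ⟨23, _⟩ => e_537_y
  | ⟨24, _⟩ => e_539_y
  | ⟨25, _⟩ => e_540_y
  | ⟨26, _⟩ => e_541_y
  | ⟨27, _⟩ => e_542_y
  | ⟨28, _⟩ => e_543_y
  | ⟨29, _⟩ => e_544_y
  | ⟨30, _⟩ => e_547_y
  | ⟨31, _⟩ => e_548_y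
  | ⟨32, _⟩ => e_549_y
  | ⟨33, _⟩ => e_550_y
  | ⟨34, _⟩ => e_706_y
  | ⟨35, _⟩ => e_551_y
  | ⟨36, _⟩ => e_552_y
  | ⟨37, _⟩ => e_553_y
  | ⟨38, _⟩ => e_554_y
  | ⟨39, _⟩ => e_556_y
  | ⟨40, _⟩ => e_558_y
  | ⟨41, _⟩ => e_559_y
  | ⟨42, _⟩ => e_560_y
  | ⟨43, _⟩ => e_563_y
  | ⟨44, _⟩ => e_565_y
  | ⟨45, _⟩ => e_566_y
  | ⟨46, _⟩ => e_567_y
  | ⟨47, _⟩ => e_568_y
  | ⟨48, _⟩ => e_571_y
  | ⟨49, _⟩ => e_572_y
  | ⟨50, _⟩ => e_573_y
  | ⟨51, _⟩ => e_575_y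
  | ⟨52, _⟩ => e_577_y
  | ⟨53, _⟩ => e_578_y
  | ⟨54, _⟩ => e_580_y
  | ⟨55, _⟩ => e_581_y
  | ⟨56, _⟩ => e_582_y
  | ⟨57, _⟩ => e_584_y
  | ⟨58, _⟩ => e_585_y
  | ⟨59, _⟩ => e_586_y
  | ⟨n+60, h⟩ => absurd h (by omega)
theorem pre_y_c11 : ∀ b : Fin 60, rep (px_y_c11 b) * y = rep_c11 b
  | ⟨0, _⟩ => e_588_y
  | ⟨1, _⟩ => e_590_y
  | ⟨2, _⟩ => e_591_y
  | ⟨3, _⟩ => e_592_y
  | ⟨4, _⟩ => e_703_y
  | ⟨5, _⟩ => e_593_y
  | ⟨6, _⟩ => e_597_y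
  | ⟨7, _⟩ => e_599_y
  | ⟨8, _⟩ => e_601_y
  | ⟨9, _⟩ => e_702_y
  | ⟨10, _⟩ => e_603_y
  | ⟨11, _⟩ => e_606_y
  | ⟨12, _⟩ => e_608_y
  | ⟨13, _⟩ => e_609_y
  | ⟨14, _⟩ => e_610_y
  | ⟨15, _⟩ => e_611_y
  | ⟨16, _⟩ => e_612_y
  | ⟨17, _⟩ => e_613_y
  | ⟨18, _⟩ => e_614_y
  | ⟨19, _⟩ => e_616_y
  | ⟨20, _⟩ => e_619_y
  | ⟨21, _⟩ => e_620_y
  | ⟨22, _⟩ => e_623_y
  | ⟨23, _⟩ => e_624_y
  | ⟨24, _⟩ => e_626_y
  | ⟨25, _⟩ => e_627_y
  | ⟨26, _⟩ => e_628_y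
  | ⟨27, _⟩ => e_680_y
  | ⟨28, _⟩ => e_629_y
  | ⟨29, _⟩ => e_633_y
  | ⟨30, _⟩ => e_635_y
  | ⟨31, _⟩ => e_637_y
  | ⟨32, _⟩ => e_679_y
  | ⟨33, _⟩ => e_639_y
  | ⟨34, _⟩ => e_642_y
  | ⟨35, _⟩ => e_644_y
  | ⟨36, _⟩ => e_645_y
  | ⟨37, _⟩ => e_646_y
  | ⟨38, _⟩ => e_647_y
  | ⟨39, _⟩ => e_648_y
  | ⟨40, _⟩ => e_649_y
  | ⟨41, _⟩ => e_650_y
  | ⟨42, _⟩ => e_652_y
  | ⟨43, _⟩ => e_655_y
  | ⟨44, _⟩ => e_656_y
  | ⟨45, _⟩ => e_659_y
  | ⟨46, _⟩ => e_716_y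
  | ⟨47, _⟩ => e_660_y
  | ⟨48, _⟩ => e_663_y
  | ⟨49, _⟩ => e_668_y
  | ⟨50, _⟩ => e_672_y
  | ⟨51, _⟩ => e_681_y
  | ⟨52, _⟩ => e_710_y
  | ⟨53, _⟩ => e_683_y
  | ⟨54, _⟩ => e_686_y
  | ⟨55, _⟩ => e_691_y
  | ⟨56, _⟩ => e_695_y
  | ⟨57, _⟩ => e_704_y
  | ⟨58, _⟩ => e_709_y
  | ⟨59, _⟩ => e_715_y
  | ⟨n+60, h⟩ => absurd h (by omega)
theorem pre_y_ch : ∀ (a : Fin 12) (b : Fin 60), rep (px_y_ch a b) * y = rep_ch a b
  | ⟨0, _⟩ => pre_y_c0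
  | ⟨1, _⟩ => pre_y_c1
  | ⟨2, _⟩ => pre_y_c2
  | ⟨3, _⟩ => pre_y_c3
  | ⟨4, _⟩ => pre_y_c4
  | ⟨5, _⟩ => pre_y_c5
  | ⟨6, _⟩ => pre_y_c6
  | ⟨7, _⟩ => pre_y_c7
  | ⟨8, _⟩ => pre_y_c8
  | ⟨9, _⟩ => pre_y_c9
  | ⟨10, _⟩ => pre_y_c10
  | ⟨11, _⟩ => pre_y_c11
  | ⟨n+12, h⟩ => absurd h (by omega)
theorem pre_y (i : Idx) : rep (px_y i) * y = rep i :=
  pre_y_ch i.1 i.2

theorem rep_surj : Function.Surjective rep := by
  let H : Subgroup P :=
    { carrier := {p | ∀ s : P, s ∈ Set.range rep ↔ s * p ∈ Set.range rep}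
      mul_mem' := by
        intro a b ha hb s
        rw [ha s, hb (s * a), mul_assoc]
      one_mem' := by intro s; rw [mul_one]
      inv_mem' := by
        intro a ha s
        rw [ha (s * a⁻¹), inv_mul_cancel_right] }
  have hgen : ∀ j : Fin 2, (PresentedGroup.of j : P) ∈ H := by
    intro j
    fin_cases j
    · intro s
      constructor
      · rintro ⟨i, rfl⟩
        exact ⟨nx_x i, (closed_x i).symm⟩
      · rintro ⟨i, hi⟩
        refine ⟨px_x i, ?_⟩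
        have := pre_x i
        rw [hi] at this
        exact mul_right_cancel this
    · intro s
      constructor
      · rintro ⟨i, rfl⟩
        exact ⟨nx_y i, (closed_y i).symm⟩
      · rintro ⟨i, hi⟩
        refine ⟨px_y i, ?_⟩
        have := pre_y i
        rw [hi] at this
        exact mul_right_cancel this
  intro p
  have hp : p ∈ H := PresentedGroup.generated_by rels H hgen p
  have h1 : (1 : P) * p ∈ Set.range rep := (hp 1).mp ⟨(0, 0), rfl⟩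
  rw [one_mul] at h1
  exact h1

/-! ### Target 1: `Sym(6)` -/

abbrev sw (a b : Fin 6) : Equiv.Perm (Fin 6) := Equiv.swap a b

def gX : Equiv.Perm (Fin 6) := sw 0 1
def gY : Equiv.Perm (Fin 6) := sw 0 1 * sw 1 2 * sw 2 3 * sw 3 4 * sw 4 5

set_option maxRecDepth 100000 in
theorem lift_rel6 : ∀ r ∈ rels, FreeGroup.lift ![gX, gY] r = 1 := by
  intro r hr
  simp only [rels, Set.mem_insert_iff, Set.mem_singleton_iff] at hr
  rcases hr with rfl | rfl | rfl | rfl | rfl | rfl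
  all_goals
    simp only [map_pow, map_mul, FreeGroup.lift_apply_of]
    decide

noncomputable def ψ0 : P →* Equiv.Perm (Fin 6) := PresentedGroup.toGroup lift_rel6

theorem ψ0_x : ψ0 x = gX := by simp [ψ0, x]
theorem ψ0_y : ψ0 y = gY := by simp [ψ0, y]

def m6_0 : Equiv.Perm (Fin 6) := 1
def m6_1 : Equiv.Perm (Fin 6) := sw 0 1
def m6_2 : Equiv.Perm (Fin 6) := sw 0 1 * sw 1 2 * sw 2 3 * sw 3 4 * sw 4 5
def m6_3 : Equiv.Perm (Fin 6) := sw 1 2 * sw 2 3 * sw 3 4 * sw 4 5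
def m6_4 : Equiv.Perm (Fin 6) := sw 0 2 * sw 2 3 * sw 3 4 * sw 4 5
def m6_5 : Equiv.Perm (Fin 6) := sw 0 2 * sw 2 4 * sw 1 3 * sw 3 5
def m6_6 : Equiv.Perm (Fin 6) := sw 0 2 * sw 2 3 * sw 3 4 * sw 4 5 * sw 5 1
def m6_7 : Equiv.Perm (Fin 6) := sw 0 2 * sw 2 4 * sw 4 1 * sw 1 3 * sw 3 5
def m6_8 : Equiv.Perm (Fin 6) := sw 0 1 * sw 1 3 * sw 3 5 * sw 5 2 * sw 2 4
def m6_9 : Equiv.Perm (Fin 6) := sw 0 3 * sw 3 5 * sw 5 1 * sw 1 2 * sw 2 4
def m6_10 : Equiv.Perm (Fin 6) := sw 0 3 * sw 1 4 * sw 2 5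
def m6_11 : Equiv.Perm (Fin 6) := sw 1 3 * sw 3 5 * sw 5 2 * sw 2 4
def m6_12 : Equiv.Perm (Fin 6) := sw 0 3 * sw 3 5 * sw 1 2 * sw 2 4
def m6_13 : Equiv.Perm (Fin 6) := sw 0 3 * sw 3 1 * sw 1 4 * sw 2 5
def m6_14 : Equiv.Perm (Fin 6) := sw 0 3 * sw 3 5 * sw 5 2 * sw 2 4
def m6_15 : Equiv.Perm (Fin 6) := sw 0 3 * sw 1 4 * sw 4 2 * sw 2 5
def m6_16 : Equiv.Perm (Fin 6) := sw 0 2 * sw 2 5 * sw 5 3 * sw 1 4
def m6_17 : Equiv.Perm (Fin 6) := sw 0 4 * sw 4 1 * sw 1 3 * sw 2 5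
def m6_18 : Equiv.Perm (Fin 6) := sw 0 4 * sw 4 2 * sw 1 5 * sw 5 3
def m6_19 : Equiv.Perm (Fin 6) := sw 0 3 * sw 3 5 * sw 5 2 * sw 2 4 * sw 4 1
def m6_20 : Equiv.Perm (Fin 6) := sw 0 3 * sw 3 1 * sw 1 4 * sw 4 2 * sw 2 5
def m6_21 : Equiv.Perm (Fin 6) := sw 0 2 * sw 2 5 * sw 5 3 * sw 3 1 * sw 1 4
def m6_22 : Equiv.Perm (Fin 6) := sw 0 4 * sw 1 3 * sw 2 5
def m6_23 : Equiv.Perm (Fin 6) := sw 0 4 * sw 4 2 * sw 2 1 * sw 1 5 * sw 5 3
def m6_24 : Equiv.Perm (Fin 6) := sw 0 1 * sw 1 4 * sw 4 2 * sw 2 5 * sw 5 3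
def m6_25 : Equiv.Perm (Fin 6) := sw 0 4 * sw 4 2 * sw 2 5 * sw 5 1 * sw 1 3
def m6_26 : Equiv.Perm (Fin 6) := sw 0 4 * sw 4 1 * sw 1 5 * sw 5 3 * sw 3 2
def m6_27 : Equiv.Perm (Fin 6) := sw 0 4 * sw 4 1 * sw 1 2 * sw 2 5 * sw 5 3
def m6_28 : Equiv.Perm (Fin 6) := sw 0 4 * sw 4 3 * sw 3 1 * sw 1 5 * sw 5 2
def m6_29 : Equiv.Perm (Fin 6) := sw 0 3 * sw 3 1 * sw 1 5 * sw 5 4 * sw 4 2
def m6_30 : Equiv.Perm (Fin 6) := sw 0 5 * sw 5 3 * sw 3 1 * sw 1 4 * sw 4 2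
def m6_31 : Equiv.Perm (Fin 6) := sw 0 5 * sw 5 4 * sw 4 3 * sw 3 2 * sw 2 1
def m6_32 : Equiv.Perm (Fin 6) := sw 1 4 * sw 4 2 * sw 2 5 * sw 5 3
def m6_33 : Equiv.Perm (Fin 6) := sw 0 4 * sw 4 2 * sw 2 5 * sw 1 3
def m6_34 : Equiv.Perm (Fin 6) := sw 0 4 * sw 1 5 * sw 5 3 * sw 3 2
def m6_35 : Equiv.Perm (Fin 6) := sw 0 4 * sw 1 2 * sw 2 5 * sw 5 3
def m6_36 : Equiv.Perm (Fin 6) := sw 0 4 * sw 4 3 * sw 1 5 * sw 5 2
def m6_37 : Equiv.Perm (Fin 6) := sw 0 3 * sw 1 5 * sw 5 4 * sw 4 2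
def m6_38 : Equiv.Perm (Fin 6) := sw 0 5 * sw 5 3 * sw 1 4 * sw 4 2
def m6_39 : Equiv.Perm (Fin 6) := sw 0 5 * sw 5 4 * sw 4 3 * sw 3 2
def m6_40 : Equiv.Perm (Fin 6) := sw 0 4 * sw 4 2 * sw 2 5 * sw 5 3
def m6_41 : Equiv.Perm (Fin 6) := sw 0 4 * sw 4 3 * sw 3 2 * sw 1 5
def m6_42 : Equiv.Perm (Fin 6) := sw 0 3 * sw 3 2 * sw 1 5 * sw 5 4
def m6_43 : Equiv.Perm (Fin 6) := sw 0 5 * sw 5 3 * sw 3 2 * sw 1 4
def m6_44 : Equiv.Perm (Fin 6) := sw 0 5 * sw 5 4 * sw 4 3 * sw 3 1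
def m6_45 : Equiv.Perm (Fin 6) := sw 0 2 * sw 1 5 * sw 5 4 * sw 4 3
def m6_46 : Equiv.Perm (Fin 6) := sw 0 5 * sw 5 2 * sw 1 4 * sw 4 3
def m6_47 : Equiv.Perm (Fin 6) := sw 0 5 * sw 5 4 * sw 4 2 * sw 2 1
def m6_48 : Equiv.Perm (Fin 6) := sw 0 5 * sw 5 4 * sw 4 2 * sw 1 3
def m6_49 : Equiv.Perm (Fin 6) := sw 0 5 * sw 5 3 * sw 3 2 * sw 2 1
def m6_50 : Equiv.Perm (Fin 6) := sw 0 4 * sw 4 3 * sw 3 2 * sw 2 1
def m6_51 : Equiv.Perm (Fin 6) := sw 1 5 * sw 5 4 * sw 4 3 * sw 3 2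
def m6_52 : Equiv.Perm (Fin 6) := sw 0 4 * sw 4 2 * sw 2 5 * sw 5 3 * sw 3 1
def m6_53 : Equiv.Perm (Fin 6) := sw 0 4 * sw 4 3 * sw 3 2 * sw 2 1 * sw 1 5
def m6_54 : Equiv.Perm (Fin 6) := sw 0 3 * sw 3 2 * sw 2 1 * sw 1 5 * sw 5 4
def m6_55 : Equiv.Perm (Fin 6) := sw 0 5 * sw 5 3 * sw 3 2 * sw 2 1 * sw 1 4
def m6_56 : Equiv.Perm (Fin 6) := sw 0 5 * sw 5 4 * sw 4 3
def m6_57 : Equiv.Perm (Fin 6) := sw 0 2 * sw 2 1 * sw 1 5 * sw 5 4 * sw 4 3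
def m6_58 : Equiv.Perm (Fin 6) := sw 0 5 * sw 5 2 * sw 2 1 * sw 1 4 * sw 4 3
def m6_59 : Equiv.Perm (Fin 6) := sw 0 5 * sw 5 4 * sw 4 2
def m6_60 : Equiv.Perm (Fin 6) := sw 0 5 * sw 5 4 * sw 4 2 * sw 2 1 * sw 1 3
def m6_61 : Equiv.Perm (Fin 6) := sw 0 5 * sw 5 3 * sw 3 2
def m6_62 : Equiv.Perm (Fin 6) := sw 0 4 * sw 4 3 * sw 3 2
def m6_63 : Equiv.Perm (Fin 6) := sw 0 1 * sw 1 5 * sw 5 4 * sw 4 3 * sw 3 2
def m6_64 : Equiv.Perm (Fin 6) := sw 0 5 * sw 5 1 * sw 1 4 * sw 4 3 * sw 3 2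
def m6_65 : Equiv.Perm (Fin 6) := sw 0 5 * sw 5 4 * sw 4 1
def m6_66 : Equiv.Perm (Fin 6) := sw 0 5 * sw 5 4 * sw 4 1 * sw 1 3 * sw 3 2
def m6_67 : Equiv.Perm (Fin 6) := sw 0 5 * sw 5 3 * sw 3 1
def m6_68 : Equiv.Perm (Fin 6) := sw 0 4 * sw 4 3 * sw 3 1
def m6_69 : Equiv.Perm (Fin 6) := sw 1 5 * sw 5 4 * sw 4 3
def m6_70 : Equiv.Perm (Fin 6) := sw 1 2
def m6_71 : Equiv.Perm (Fin 6) := sw 0 5 * sw 5 4 * sw 4 3 * sw 3 1 * sw 1 2
def m6_72 : Equiv.Perm (Fin 6) := sw 0 5 * sw 5 2 * sw 2 1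
def m6_73 : Equiv.Perm (Fin 6) := sw 0 4 * sw 4 2 * sw 2 1
def m6_74 : Equiv.Perm (Fin 6) := sw 1 5 * sw 5 4 * sw 4 2
def m6_75 : Equiv.Perm (Fin 6) := sw 2 3
def m6_76 : Equiv.Perm (Fin 6) := sw 0 3 * sw 3 2 * sw 2 1
def m6_77 : Equiv.Perm (Fin 6) := sw 1 5 * sw 5 3 * sw 3 2
def m6_78 : Equiv.Perm (Fin 6) := sw 3 4
def m6_79 : Equiv.Perm (Fin 6) := sw 1 4 * sw 4 3 * sw 3 2
def m6_80 : Equiv.Perm (Fin 6) := sw 4 5
def m6_81 : Equiv.Perm (Fin 6) := sw 0 5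
def m6_82 : Equiv.Perm (Fin 6) := sw 0 5 * sw 1 4 * sw 4 3 * sw 3 2
def m6_83 : Equiv.Perm (Fin 6) := sw 0 5 * sw 5 4
def m6_84 : Equiv.Perm (Fin 6) := sw 0 5 * sw 5 4 * sw 1 3 * sw 3 2
def m6_85 : Equiv.Perm (Fin 6) := sw 0 5 * sw 5 3
def m6_86 : Equiv.Perm (Fin 6) := sw 0 4 * sw 4 3
def m6_87 : Equiv.Perm (Fin 6) := sw 0 1 * sw 1 5 * sw 5 4 * sw 4 3
def m6_88 : Equiv.Perm (Fin 6) := sw 0 1 * sw 1 2
def m6_89 : Equiv.Perm (Fin 6) := sw 0 5 * sw 5 4 * sw 4 3 * sw 1 2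
def m6_90 : Equiv.Perm (Fin 6) := sw 0 5 * sw 5 2
def m6_91 : Equiv.Perm (Fin 6) := sw 0 4 * sw 4 2
def m6_92 : Equiv.Perm (Fin 6) := sw 0 1 * sw 1 5 * sw 5 4 * sw 4 2
def m6_93 : Equiv.Perm (Fin 6) := sw 0 1 * sw 2 3
def m6_94 : Equiv.Perm (Fin 6) := sw 0 3 * sw 3 2
def m6_95 : Equiv.Perm (Fin 6) := sw 0 1 * sw 1 5 * sw 5 3 * sw 3 2
def m6_96 : Equiv.Perm (Fin 6) := sw 0 1 * sw 3 4
def m6_97 : Equiv.Perm (Fin 6) := sw 0 1 * sw 1 4 * sw 4 3 * sw 3 2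
def m6_98 : Equiv.Perm (Fin 6) := sw 0 1 * sw 4 5
def m6_99 : Equiv.Perm (Fin 6) := sw 0 5 * sw 5 1
def m6_100 : Equiv.Perm (Fin 6) := sw 0 4 * sw 4 1
def m6_101 : Equiv.Perm (Fin 6) := sw 1 5 * sw 5 4
def m6_102 : Equiv.Perm (Fin 6) := sw 1 2 * sw 2 3
def m6_103 : Equiv.Perm (Fin 6) := sw 0 3 * sw 3 1
def m6_104 : Equiv.Perm (Fin 6) := sw 1 5 * sw 5 3
def m6_105 : Equiv.Perm (Fin 6) := sw 1 2 * sw 3 4
def m6_106 : Equiv.Perm (Fin 6) := sw 1 4 * sw 4 3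
def m6_107 : Equiv.Perm (Fin 6) := sw 1 2 * sw 4 5
def m6_108 : Equiv.Perm (Fin 6) := sw 0 5 * sw 1 2
def m6_109 : Equiv.Perm (Fin 6) := sw 0 2 * sw 2 1
def m6_110 : Equiv.Perm (Fin 6) := sw 1 5 * sw 5 2
def m6_111 : Equiv.Perm (Fin 6) := sw 2 3 * sw 3 4
def m6_112 : Equiv.Perm (Fin 6) := sw 1 4 * sw 4 2
def m6_113 : Equiv.Perm (Fin 6) := sw 2 3 * sw 4 5
def m6_114 : Equiv.Perm (Fin 6) := sw 0 5 * sw 2 3
def m6_115 : Equiv.Perm (Fin 6) := sw 0 1 * sw 1 3 * sw 3 4 * sw 4 5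
def m6_116 : Equiv.Perm (Fin 6) := sw 1 3 * sw 3 2
def m6_117 : Equiv.Perm (Fin 6) := sw 3 4 * sw 4 5
def m6_118 : Equiv.Perm (Fin 6) := sw 0 5 * sw 3 4
def m6_119 : Equiv.Perm (Fin 6) := sw 0 1 * sw 1 2 * sw 2 4 * sw 4 5
def m6_120 : Equiv.Perm (Fin 6) := sw 0 4 * sw 4 5
def m6_121 : Equiv.Perm (Fin 6) := sw 0 1 * sw 1 2 * sw 2 3 * sw 3 5
def m6_122 : Equiv.Perm (Fin 6) := sw 0 1 * sw 1 5
def m6_123 : Equiv.Perm (Fin 6) := sw 0 1 * sw 1 2 * sw 2 3 * sw 3 4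
def m6_124 : Equiv.Perm (Fin 6) := sw 0 4
def m6_125 : Equiv.Perm (Fin 6) := sw 0 1 * sw 1 5 * sw 5 4
def m6_126 : Equiv.Perm (Fin 6) := sw 0 1 * sw 1 2 * sw 2 3
def m6_127 : Equiv.Perm (Fin 6) := sw 0 3
def m6_128 : Equiv.Perm (Fin 6) := sw 0 1 * sw 1 5 * sw 5 3
def m6_129 : Equiv.Perm (Fin 6) := sw 0 1 * sw 1 2 * sw 3 4
def m6_130 : Equiv.Perm (Fin 6) := sw 0 1 * sw 1 4 * sw 4 3
def m6_131 : Equiv.Perm (Fin 6) := sw 0 1 * sw 1 2 * sw 4 5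
def m6_132 : Equiv.Perm (Fin 6) := sw 0 5 * sw 5 1 * sw 1 2
def m6_133 : Equiv.Perm (Fin 6) := sw 0 2
def m6_134 : Equiv.Perm (Fin 6) := sw 0 1 * sw 1 5 * sw 5 2
def m6_135 : Equiv.Perm (Fin 6) := sw 0 1 * sw 2 3 * sw 3 4
def m6_136 : Equiv.Perm (Fin 6) := sw 0 1 * sw 1 4 * sw 4 2
def m6_137 : Equiv.Perm (Fin 6) := sw 0 1 * sw 2 3 * sw 4 5
def m6_138 : Equiv.Perm (Fin 6) := sw 0 5 * sw 5 1 * sw 2 3
def m6_139 : Equiv.Perm (Fin 6) := sw 1 3 * sw 3 4 * sw 4 5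
def m6_140 : Equiv.Perm (Fin 6) := sw 0 1 * sw 1 3 * sw 3 2
def m6_141 : Equiv.Perm (Fin 6) := sw 0 1 * sw 3 4 * sw 4 5
def m6_142 : Equiv.Perm (Fin 6) := sw 0 5 * sw 5 1 * sw 3 4
def m6_143 : Equiv.Perm (Fin 6) := sw 1 2 * sw 2 4 * sw 4 5
def m6_144 : Equiv.Perm (Fin 6) := sw 0 4 * sw 4 5 * sw 5 1
def m6_145 : Equiv.Perm (Fin 6) := sw 1 2 * sw 2 3 * sw 3 5
def m6_146 : Equiv.Perm (Fin 6) := sw 1 5
def m6_147 : Equiv.Perm (Fin 6) := sw 1 2 * sw 2 3 * sw 3 4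
def m6_148 : Equiv.Perm (Fin 6) := sw 1 4
def m6_149 : Equiv.Perm (Fin 6) := sw 1 2 * sw 2 3 * sw 4 5
def m6_150 : Equiv.Perm (Fin 6) := sw 0 5 * sw 1 2 * sw 2 3
def m6_151 : Equiv.Perm (Fin 6) := sw 0 2 * sw 2 3 * sw 3 1
def m6_152 : Equiv.Perm (Fin 6) := sw 0 2 * sw 2 1 * sw 1 3 * sw 3 4 * sw 4 5
def m6_153 : Equiv.Perm (Fin 6) := sw 1 3
def m6_154 : Equiv.Perm (Fin 6) := sw 1 2 * sw 3 4 * sw 4 5
def m6_155 : Equiv.Perm (Fin 6) := sw 0 5 * sw 1 2 * sw 3 4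
def m6_156 : Equiv.Perm (Fin 6) := sw 0 2 * sw 2 1 * sw 3 4
def m6_157 : Equiv.Perm (Fin 6) := sw 0 2 * sw 2 4 * sw 4 5
def m6_158 : Equiv.Perm (Fin 6) := sw 0 4 * sw 4 5 * sw 1 2
def m6_159 : Equiv.Perm (Fin 6) := sw 0 2 * sw 2 1 * sw 4 5
def m6_160 : Equiv.Perm (Fin 6) := sw 0 2 * sw 2 3 * sw 3 5
def m6_161 : Equiv.Perm (Fin 6) := sw 0 2 * sw 2 1 * sw 1 5
def m6_162 : Equiv.Perm (Fin 6) := sw 0 2 * sw 2 3 * sw 3 4
def m6_163 : Equiv.Perm (Fin 6) := sw 2 3 * sw 3 4 * sw 4 5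
def m6_164 : Equiv.Perm (Fin 6) := sw 0 5 * sw 2 3 * sw 3 4
def m6_165 : Equiv.Perm (Fin 6) := sw 0 1 * sw 1 3 * sw 3 2 * sw 2 4 * sw 4 5
def m6_166 : Equiv.Perm (Fin 6) := sw 0 4 * sw 4 5 * sw 2 3
def m6_167 : Equiv.Perm (Fin 6) := sw 0 1 * sw 1 3 * sw 3 5
def m6_168 : Equiv.Perm (Fin 6) := sw 0 1 * sw 1 5 * sw 2 3
def m6_169 : Equiv.Perm (Fin 6) := sw 0 1 * sw 1 3 * sw 3 4
def m6_170 : Equiv.Perm (Fin 6) := sw 0 3 * sw 3 4 * sw 4 5
def m6_171 : Equiv.Perm (Fin 6) := sw 0 1 * sw 1 2 * sw 2 4 * sw 4 3 * sw 3 5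
def m6_172 : Equiv.Perm (Fin 6) := sw 0 1 * sw 1 5 * sw 3 4
def m6_173 : Equiv.Perm (Fin 6) := sw 0 1 * sw 1 2 * sw 2 4
def m6_174 : Equiv.Perm (Fin 6) := sw 0 2 * sw 2 3 * sw 3 5 * sw 5 1 * sw 1 4
def m6_175 : Equiv.Perm (Fin 6) := sw 0 1 * sw 1 4 * sw 4 5
def m6_176 : Equiv.Perm (Fin 6) := sw 0 1 * sw 1 2 * sw 2 3 * sw 3 5 * sw 5 4
def m6_177 : Equiv.Perm (Fin 6) := sw 0 2 * sw 2 5 * sw 5 1 * sw 1 3 * sw 3 4
def m6_178 : Equiv.Perm (Fin 6) := sw 0 5 * sw 5 1 * sw 1 2 * sw 2 3 * sw 3 4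
def m6_179 : Equiv.Perm (Fin 6) := sw 0 2 * sw 2 4 * sw 4 5 * sw 5 1 * sw 1 3
def m6_180 : Equiv.Perm (Fin 6) := sw 0 1 * sw 1 4
def m6_181 : Equiv.Perm (Fin 6) := sw 0 1 * sw 1 2 * sw 2 3 * sw 4 5
def m6_182 : Equiv.Perm (Fin 6) := sw 0 5 * sw 5 1 * sw 1 2 * sw 2 3
def m6_183 : Equiv.Perm (Fin 6) := sw 0 2 * sw 2 3
def m6_184 : Equiv.Perm (Fin 6) := sw 0 2 * sw 1 3 * sw 3 4 * sw 4 5
def m6_185 : Equiv.Perm (Fin 6) := sw 0 1 * sw 1 3
def m6_186 : Equiv.Perm (Fin 6) := sw 0 1 * sw 1 2 * sw 3 4 * sw 4 5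
def m6_187 : Equiv.Perm (Fin 6) := sw 0 5 * sw 5 1 * sw 1 2 * sw 3 4
def m6_188 : Equiv.Perm (Fin 6) := sw 0 2 * sw 3 4
def m6_189 : Equiv.Perm (Fin 6) := sw 0 2 * sw 2 4 * sw 4 5 * sw 5 1
def m6_190 : Equiv.Perm (Fin 6) := sw 0 4 * sw 4 5 * sw 5 1 * sw 1 2
def m6_191 : Equiv.Perm (Fin 6) := sw 0 2 * sw 4 5
def m6_192 : Equiv.Perm (Fin 6) := sw 0 2 * sw 2 3 * sw 3 5 * sw 5 1
def m6_193 : Equiv.Perm (Fin 6) := sw 0 2 * sw 1 5
def m6_194 : Equiv.Perm (Fin 6) := sw 0 2 * sw 2 3 * sw 3 4 * sw 4 1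
def m6_195 : Equiv.Perm (Fin 6) := sw 0 1 * sw 2 3 * sw 3 4 * sw 4 5
def m6_196 : Equiv.Perm (Fin 6) := sw 0 5 * sw 5 1 * sw 2 3 * sw 3 4
def m6_197 : Equiv.Perm (Fin 6) := sw 1 3 * sw 3 2 * sw 2 4 * sw 4 5
def m6_198 : Equiv.Perm (Fin 6) := sw 0 4 * sw 4 5 * sw 5 1 * sw 2 3
def m6_199 : Equiv.Perm (Fin 6) := sw 1 3 * sw 3 5
def m6_200 : Equiv.Perm (Fin 6) := sw 1 5 * sw 2 3
def m6_201 : Equiv.Perm (Fin 6) := sw 1 3 * sw 3 4
def m6_202 : Equiv.Perm (Fin 6) := sw 0 3 * sw 3 4 * sw 4 5 * sw 5 1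
def m6_203 : Equiv.Perm (Fin 6) := sw 1 2 * sw 2 4 * sw 4 3 * sw 3 5
def m6_204 : Equiv.Perm (Fin 6) := sw 1 5 * sw 3 4
def m6_205 : Equiv.Perm (Fin 6) := sw 1 2 * sw 2 4
def m6_206 : Equiv.Perm (Fin 6) := sw 0 2 * sw 2 3 * sw 3 5 * sw 1 4
def m6_207 : Equiv.Perm (Fin 6) := sw 1 4 * sw 4 5
def m6_208 : Equiv.Perm (Fin 6) := sw 1 2 * sw 2 3 * sw 3 5 * sw 5 4
def m6_209 : Equiv.Perm (Fin 6) := sw 0 2 * sw 2 5 * sw 1 3 * sw 3 4
def m6_210 : Equiv.Perm (Fin 6) := sw 0 5 * sw 1 2 * sw 2 3 * sw 3 4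
def m6_211 : Equiv.Perm (Fin 6) := sw 0 2 * sw 2 4 * sw 4 5 * sw 1 3
def m6_212 : Equiv.Perm (Fin 6) := sw 0 4 * sw 4 5 * sw 1 2 * sw 2 3
def m6_213 : Equiv.Perm (Fin 6) := sw 0 2 * sw 2 3 * sw 3 1 * sw 4 5
def m6_214 : Equiv.Perm (Fin 6) := sw 0 2 * sw 2 1 * sw 1 3 * sw 3 5
def m6_215 : Equiv.Perm (Fin 6) := sw 0 2 * sw 2 3 * sw 3 1 * sw 1 5
def m6_216 : Equiv.Perm (Fin 6) := sw 0 2 * sw 2 1 * sw 1 3 * sw 3 4
def m6_217 : Equiv.Perm (Fin 6) := sw 1 3 * sw 3 4 * sw 4 5 * sw 5 2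
def m6_218 : Equiv.Perm (Fin 6) := sw 0 3 * sw 3 4 * sw 4 5 * sw 1 2
def m6_219 : Equiv.Perm (Fin 6) := sw 0 2 * sw 2 1 * sw 3 4 * sw 4 5
def m6_220 : Equiv.Perm (Fin 6) := sw 0 2 * sw 2 4 * sw 4 3 * sw 3 5
def m6_221 : Equiv.Perm (Fin 6) := sw 0 2 * sw 2 1 * sw 1 5 * sw 3 4
def m6_222 : Equiv.Perm (Fin 6) := sw 0 2 * sw 2 4
def m6_223 : Equiv.Perm (Fin 6) := sw 2 4 * sw 4 5
def m6_224 : Equiv.Perm (Fin 6) := sw 0 1 * sw 1 4 * sw 2 3 * sw 3 5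
def m6_225 : Equiv.Perm (Fin 6) := sw 0 2 * sw 2 1 * sw 1 4 * sw 4 5
def m6_226 : Equiv.Perm (Fin 6) := sw 0 2 * sw 2 3 * sw 3 5 * sw 5 4
def m6_227 : Equiv.Perm (Fin 6) := sw 2 3 * sw 3 5
def m6_228 : Equiv.Perm (Fin 6) := sw 0 1 * sw 1 3 * sw 3 4 * sw 2 5
def m6_229 : Equiv.Perm (Fin 6) := sw 0 5 * sw 5 2 * sw 2 3 * sw 3 4
def m6_230 : Equiv.Perm (Fin 6) := sw 0 1 * sw 1 3 * sw 2 4 * sw 4 5
def m6_231 : Equiv.Perm (Fin 6) := sw 0 1 * sw 1 3 * sw 3 5 * sw 2 4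
def m6_232 : Equiv.Perm (Fin 6) := sw 0 1 * sw 1 5 * sw 2 3 * sw 3 4
def m6_233 : Equiv.Perm (Fin 6) := sw 0 1 * sw 1 3 * sw 3 2 * sw 2 4
def m6_234 : Equiv.Perm (Fin 6) := sw 0 3 * sw 3 2 * sw 2 4 * sw 4 5
def m6_235 : Equiv.Perm (Fin 6) := sw 0 3 * sw 3 5 * sw 5 1 * sw 1 4
def m6_236 : Equiv.Perm (Fin 6) := sw 0 1 * sw 1 4 * sw 4 5 * sw 2 3
def m6_237 : Equiv.Perm (Fin 6) := sw 0 1 * sw 1 3 * sw 3 5 * sw 5 4
def m6_238 : Equiv.Perm (Fin 6) := sw 0 3 * sw 3 5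
def m6_239 : Equiv.Perm (Fin 6) := sw 0 3 * sw 3 4 * sw 1 2 * sw 2 5
def m6_240 : Equiv.Perm (Fin 6) := sw 0 5 * sw 5 1 * sw 1 3 * sw 3 4
def m6_241 : Equiv.Perm (Fin 6) := sw 0 3 * sw 3 4
def m6_242 : Equiv.Perm (Fin 6) := sw 0 3 * sw 1 2 * sw 2 4 * sw 4 5
def m6_243 : Equiv.Perm (Fin 6) := sw 0 1 * sw 1 2 * sw 2 4 * sw 3 5
def m6_244 : Equiv.Perm (Fin 6) := sw 0 2 * sw 2 5 * sw 5 1 * sw 1 4
def m6_245 : Equiv.Perm (Fin 6) := sw 0 5 * sw 5 1 * sw 1 2 * sw 2 4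
def m6_246 : Equiv.Perm (Fin 6) := sw 0 2 * sw 2 3 * sw 1 4 * sw 4 5
def m6_247 : Equiv.Perm (Fin 6) := sw 0 4 * sw 1 2 * sw 2 3 * sw 3 5
def m6_248 : Equiv.Perm (Fin 6) := sw 0 2 * sw 2 5 * sw 5 1 * sw 1 3
def m6_249 : Equiv.Perm (Fin 6) := sw 0 3 * sw 1 5 * sw 5 2 * sw 2 4
def m6_250 : Equiv.Perm (Fin 6) := sw 0 2 * sw 2 3 * sw 3 4 * sw 1 5
def m6_251 : Equiv.Perm (Fin 6) := sw 0 2 * sw 2 4 * sw 4 1 * sw 1 3
def m6_252 : Equiv.Perm (Fin 6) := sw 0 3 * sw 3 5 * sw 5 2 * sw 1 4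
def m6_253 : Equiv.Perm (Fin 6) := sw 0 4 * sw 4 5 * sw 5 1 * sw 1 2 * sw 2 3
def m6_254 : Equiv.Perm (Fin 6) := sw 0 2 * sw 2 3 * sw 4 5
def m6_255 : Equiv.Perm (Fin 6) := sw 0 2 * sw 1 3 * sw 3 5
def m6_256 : Equiv.Perm (Fin 6) := sw 0 2 * sw 2 3 * sw 1 5
def m6_257 : Equiv.Perm (Fin 6) := sw 0 2 * sw 1 3 * sw 3 4
def m6_258 : Equiv.Perm (Fin 6) := sw 0 1 * sw 1 3 * sw 3 4 * sw 4 5 * sw 5 2
def m6_259 : Equiv.Perm (Fin 6) := sw 0 3 * sw 3 4 * sw 4 5 * sw 5 1 * sw 1 2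
def m6_260 : Equiv.Perm (Fin 6) := sw 0 2 * sw 3 4 * sw 4 5
def m6_261 : Equiv.Perm (Fin 6) := sw 0 2 * sw 2 4 * sw 4 3 * sw 3 5 * sw 5 1
def m6_262 : Equiv.Perm (Fin 6) := sw 0 2 * sw 1 5 * sw 3 4
def m6_263 : Equiv.Perm (Fin 6) := sw 0 2 * sw 2 4 * sw 4 1
def m6_264 : Equiv.Perm (Fin 6) := sw 0 1 * sw 2 4 * sw 4 5
def m6_265 : Equiv.Perm (Fin 6) := sw 1 4 * sw 2 3 * sw 3 5
def m6_266 : Equiv.Perm (Fin 6) := sw 0 2 * sw 1 4 * sw 4 5
def m6_267 : Equiv.Perm (Fin 6) := sw 0 2 * sw 2 3 * sw 3 5 * sw 5 4 * sw 4 1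
def m6_268 : Equiv.Perm (Fin 6) := sw 0 1 * sw 2 3 * sw 3 5
def m6_269 : Equiv.Perm (Fin 6) := sw 1 3 * sw 3 4 * sw 2 5
def m6_270 : Equiv.Perm (Fin 6) := sw 0 5 * sw 5 2 * sw 2 3 * sw 3 4 * sw 4 1
def m6_271 : Equiv.Perm (Fin 6) := sw 1 3 * sw 2 4 * sw 4 5
def m6_272 : Equiv.Perm (Fin 6) := sw 1 3 * sw 3 5 * sw 2 4
def m6_273 : Equiv.Perm (Fin 6) := sw 1 5 * sw 2 3 * sw 3 4
def m6_274 : Equiv.Perm (Fin 6) := sw 1 3 * sw 3 2 * sw 2 4
def m6_275 : Equiv.Perm (Fin 6) := sw 0 3 * sw 3 2 * sw 2 4 * sw 4 5 * sw 5 1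
def m6_276 : Equiv.Perm (Fin 6) := sw 0 3 * sw 3 5 * sw 1 4
def m6_277 : Equiv.Perm (Fin 6) := sw 1 4 * sw 4 5 * sw 2 3
def m6_278 : Equiv.Perm (Fin 6) := sw 1 3 * sw 3 5 * sw 5 4
def m6_279 : Equiv.Perm (Fin 6) := sw 0 3 * sw 3 5 * sw 5 1
def m6_280 : Equiv.Perm (Fin 6) := sw 0 3 * sw 3 4 * sw 4 1 * sw 1 2 * sw 2 5
def m6_281 : Equiv.Perm (Fin 6) := sw 0 5 * sw 1 3 * sw 3 4
def m6_282 : Equiv.Perm (Fin 6) := sw 0 3 * sw 3 4 * sw 4 1
def m6_283 : Equiv.Perm (Fin 6) := sw 0 3 * sw 3 1 * sw 1 2 * sw 2 4 * sw 4 5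
def m6_284 : Equiv.Perm (Fin 6) := sw 1 2 * sw 2 4 * sw 3 5
def m6_285 : Equiv.Perm (Fin 6) := sw 0 2 * sw 2 5 * sw 1 4
def m6_286 : Equiv.Perm (Fin 6) := sw 0 5 * sw 1 2 * sw 2 4
def m6_287 : Equiv.Perm (Fin 6) := sw 0 2 * sw 2 3 * sw 3 1 * sw 1 4 * sw 4 5
def m6_288 : Equiv.Perm (Fin 6) := sw 0 4 * sw 4 1 * sw 1 2 * sw 2 3 * sw 3 5
def m6_289 : Equiv.Perm (Fin 6) := sw 0 2 * sw 2 5 * sw 1 3
def m6_290 : Equiv.Perm (Fin 6) := sw 0 3 * sw 3 1 * sw 1 5 * sw 5 2 * sw 2 4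
def m6_291 : Equiv.Perm (Fin 6) := sw 0 2 * sw 2 3 * sw 3 4 * sw 4 1 * sw 1 5
def m6_292 : Equiv.Perm (Fin 6) := sw 0 2 * sw 2 4 * sw 1 3
def m6_293 : Equiv.Perm (Fin 6) := sw 0 3 * sw 3 5 * sw 5 2 * sw 2 1 * sw 1 4
def m6_294 : Equiv.Perm (Fin 6) := sw 0 2 * sw 2 1 * sw 1 3 * sw 3 5 * sw 5 4
def m6_295 : Equiv.Perm (Fin 6) := sw 1 3 * sw 3 5 * sw 5 2
def m6_296 : Equiv.Perm (Fin 6) := sw 0 3 * sw 3 5 * sw 1 2
def m6_297 : Equiv.Perm (Fin 6) := sw 0 3 * sw 3 4 * sw 2 5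
def m6_298 : Equiv.Perm (Fin 6) := sw 0 5 * sw 5 2 * sw 2 1 * sw 1 3 * sw 3 4
def m6_299 : Equiv.Perm (Fin 6) := sw 0 3 * sw 3 4 * sw 1 2
def m6_300 : Equiv.Perm (Fin 6) := sw 0 3 * sw 2 4 * sw 4 5
def m6_301 : Equiv.Perm (Fin 6) := sw 0 3 * sw 3 4 * sw 4 5 * sw 5 2 * sw 2 1
def m6_302 : Equiv.Perm (Fin 6) := sw 0 3 * sw 3 5 * sw 2 4
def m6_303 : Equiv.Perm (Fin 6) := sw 0 2 * sw 2 4 * sw 3 5
def m6_304 : Equiv.Perm (Fin 6) := sw 2 4 * sw 4 3 * sw 3 5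
def m6_305 : Equiv.Perm (Fin 6) := sw 0 1 * sw 1 4 * sw 2 5
def m6_306 : Equiv.Perm (Fin 6) := sw 0 5 * sw 5 2 * sw 2 4
def m6_307 : Equiv.Perm (Fin 6) := sw 0 1 * sw 1 4 * sw 4 5 * sw 5 2 * sw 2 3
def m6_308 : Equiv.Perm (Fin 6) := sw 0 1 * sw 1 4 * sw 4 2 * sw 2 3 * sw 3 5
def m6_309 : Equiv.Perm (Fin 6) := sw 0 4 * sw 2 3 * sw 3 5
def m6_310 : Equiv.Perm (Fin 6) := sw 0 1 * sw 1 3 * sw 2 5
def m6_311 : Equiv.Perm (Fin 6) := sw 0 1 * sw 1 3 * sw 3 4 * sw 4 2 * sw 2 5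
def m6_312 : Equiv.Perm (Fin 6) := sw 0 3 * sw 1 5 * sw 2 4
def m6_313 : Equiv.Perm (Fin 6) := sw 0 1 * sw 1 5 * sw 5 2 * sw 2 3 * sw 3 4
def m6_314 : Equiv.Perm (Fin 6) := sw 0 1 * sw 1 3 * sw 2 4
def m6_315 : Equiv.Perm (Fin 6) := sw 0 3 * sw 3 5 * sw 5 1 * sw 1 4 * sw 4 2
def m6_316 : Equiv.Perm (Fin 6) := sw 0 3 * sw 3 2 * sw 2 5 * sw 5 1 * sw 1 4
def m6_317 : Equiv.Perm (Fin 6) := sw 0 5 * sw 5 1 * sw 1 3 * sw 3 2 * sw 2 4
def m6_318 : Equiv.Perm (Fin 6) := sw 0 3 * sw 3 2 * sw 2 4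
def m6_319 : Equiv.Perm (Fin 6) := sw 0 3 * sw 1 4 * sw 4 5
def m6_320 : Equiv.Perm (Fin 6) := sw 0 1 * sw 1 4 * sw 3 5
def m6_321 : Equiv.Perm (Fin 6) := sw 0 4 * sw 1 3 * sw 3 5
def m6_322 : Equiv.Perm (Fin 6) := sw 0 3 * sw 3 5 * sw 5 4
def m6_323 : Equiv.Perm (Fin 6) := sw 0 3 * sw 1 2 * sw 2 5
def m6_324 : Equiv.Perm (Fin 6) := sw 0 1 * sw 1 2 * sw 2 5 * sw 5 3 * sw 3 4
def m6_325 : Equiv.Perm (Fin 6) := sw 0 2 * sw 2 4 * sw 4 1 * sw 1 5 * sw 5 3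
def m6_326 : Equiv.Perm (Fin 6) := sw 0 3 * sw 3 4 * sw 1 5
def m6_327 : Equiv.Perm (Fin 6) := sw 0 3 * sw 1 2 * sw 2 4
def m6_328 : Equiv.Perm (Fin 6) := sw 0 1 * sw 1 2 * sw 2 4 * sw 4 5 * sw 5 3
def m6_329 : Equiv.Perm (Fin 6) := sw 0 2 * sw 1 4 * sw 3 5
def m6_330 : Equiv.Perm (Fin 6) := sw 0 2 * sw 2 5 * sw 5 1 * sw 1 4 * sw 4 3
def m6_331 : Equiv.Perm (Fin 6) := sw 0 4 * sw 1 2 * sw 2 5
def m6_332 : Equiv.Perm (Fin 6) := sw 0 4 * sw 4 1 * sw 1 5 * sw 5 2 * sw 2 3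
def m6_333 : Equiv.Perm (Fin 6) := sw 0 2 * sw 2 4 * sw 1 5
def m6_334 : Equiv.Perm (Fin 6) := sw 0 2 * sw 2 3 * sw 1 4
def m6_335 : Equiv.Perm (Fin 6) := sw 0 4 * sw 4 1 * sw 1 3 * sw 3 5 * sw 5 2
def m6_336 : Equiv.Perm (Fin 6) := sw 0 2 * sw 2 5 * sw 5 4 * sw 4 1 * sw 1 3
def m6_337 : Equiv.Perm (Fin 6) := sw 0 3 * sw 3 4 * sw 4 1 * sw 1 5 * sw 5 2
def m6_338 : Equiv.Perm (Fin 6) := sw 0 5 * sw 5 2 * sw 2 4 * sw 4 1 * sw 1 3
def m6_339 : Equiv.Perm (Fin 6) := sw 0 3 * sw 3 1 * sw 1 4 * sw 4 5 * sw 5 2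
def m6_340 : Equiv.Perm (Fin 6) := sw 0 2 * sw 1 3 * sw 3 5 * sw 5 4
def m6_341 : Equiv.Perm (Fin 6) := sw 0 1 * sw 1 3 * sw 3 5 * sw 5 2
def m6_342 : Equiv.Perm (Fin 6) := sw 0 3 * sw 3 5 * sw 5 1 * sw 1 2
def m6_343 : Equiv.Perm (Fin 6) := sw 0 3 * sw 3 4 * sw 4 1 * sw 2 5
def m6_344 : Equiv.Perm (Fin 6) := sw 0 5 * sw 5 2 * sw 1 3 * sw 3 4
def m6_345 : Equiv.Perm (Fin 6) := sw 0 3 * sw 3 4 * sw 4 1 * sw 1 2
def m6_346 : Equiv.Perm (Fin 6) := sw 0 3 * sw 3 1 * sw 2 4 * sw 4 5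
def m6_347 : Equiv.Perm (Fin 6) := sw 0 3 * sw 3 4 * sw 4 5 * sw 5 2
def m6_348 : Equiv.Perm (Fin 6) := sw 0 3 * sw 3 5 * sw 5 1 * sw 2 4
def m6_349 : Equiv.Perm (Fin 6) := sw 0 2 * sw 2 4 * sw 4 1 * sw 3 5
def m6_350 : Equiv.Perm (Fin 6) := sw 0 1 * sw 2 4 * sw 4 3 * sw 3 5
def m6_351 : Equiv.Perm (Fin 6) := sw 1 4 * sw 2 5
def m6_352 : Equiv.Perm (Fin 6) := sw 0 5 * sw 5 2 * sw 2 4 * sw 4 1
def m6_353 : Equiv.Perm (Fin 6) := sw 1 4 * sw 4 5 * sw 5 2 * sw 2 3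
def m6_354 : Equiv.Perm (Fin 6) := sw 1 4 * sw 4 2 * sw 2 3 * sw 3 5
def m6_355 : Equiv.Perm (Fin 6) := sw 0 4 * sw 4 1 * sw 2 3 * sw 3 5
def m6_356 : Equiv.Perm (Fin 6) := sw 1 3 * sw 2 5
def m6_357 : Equiv.Perm (Fin 6) := sw 1 3 * sw 3 4 * sw 4 2 * sw 2 5
def m6_358 : Equiv.Perm (Fin 6) := sw 0 3 * sw 3 1 * sw 1 5 * sw 2 4
def m6_359 : Equiv.Perm (Fin 6) := sw 1 5 * sw 5 2 * sw 2 3 * sw 3 4
def m6_360 : Equiv.Perm (Fin 6) := sw 1 3 * sw 2 4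
def m6_361 : Equiv.Perm (Fin 6) := sw 0 3 * sw 3 5 * sw 1 4 * sw 4 2
def m6_362 : Equiv.Perm (Fin 6) := sw 0 3 * sw 3 2 * sw 2 5 * sw 1 4
def m6_363 : Equiv.Perm (Fin 6) := sw 0 5 * sw 1 3 * sw 3 2 * sw 2 4
def m6_364 : Equiv.Perm (Fin 6) := sw 0 3 * sw 3 2 * sw 2 4 * sw 4 1
def m6_365 : Equiv.Perm (Fin 6) := sw 0 3 * sw 3 1 * sw 1 4 * sw 4 5
def m6_366 : Equiv.Perm (Fin 6) := sw 1 4 * sw 3 5
def m6_367 : Equiv.Perm (Fin 6) := sw 0 4 * sw 4 1 * sw 1 3 * sw 3 5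
def m6_368 : Equiv.Perm (Fin 6) := sw 0 3 * sw 3 5 * sw 5 4 * sw 4 1
def m6_369 : Equiv.Perm (Fin 6) := sw 0 3 * sw 3 1 * sw 1 2 * sw 2 5
def m6_370 : Equiv.Perm (Fin 6) := sw 1 2 * sw 2 5 * sw 5 3 * sw 3 4
def m6_371 : Equiv.Perm (Fin 6) := sw 0 2 * sw 2 4 * sw 1 5 * sw 5 3
def m6_372 : Equiv.Perm (Fin 6) := sw 0 3 * sw 3 4 * sw 4 1 * sw 1 5
def m6_373 : Equiv.Perm (Fin 6) := sw 0 3 * sw 3 1 * sw 1 2 * sw 2 4
def m6_374 : Equiv.Perm (Fin 6) := sw 1 2 * sw 2 4 * sw 4 5 * sw 5 3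
def m6_375 : Equiv.Perm (Fin 6) := sw 0 2 * sw 2 1 * sw 1 4 * sw 3 5
def m6_376 : Equiv.Perm (Fin 6) := sw 0 2 * sw 2 5 * sw 1 4 * sw 4 3
def m6_377 : Equiv.Perm (Fin 6) := sw 0 4 * sw 4 1 * sw 1 2 * sw 2 5
def m6_378 : Equiv.Perm (Fin 6) := sw 0 4 * sw 1 5 * sw 5 2 * sw 2 3
def m6_379 : Equiv.Perm (Fin 6) := sw 0 2 * sw 2 4 * sw 4 1 * sw 1 5
def m6_380 : Equiv.Perm (Fin 6) := sw 0 2 * sw 2 3 * sw 3 1 * sw 1 4
def m6_381 : Equiv.Perm (Fin 6) := sw 0 4 * sw 1 3 * sw 3 5 * sw 5 2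
def m6_382 : Equiv.Perm (Fin 6) := sw 0 2 * sw 2 5 * sw 5 4 * sw 1 3
def m6_383 : Equiv.Perm (Fin 6) := sw 0 3 * sw 3 4 * sw 1 5 * sw 5 2
def m6_384 : Equiv.Perm (Fin 6) := sw 0 5 * sw 5 2 * sw 2 4 * sw 1 3
def m6_385 : Equiv.Perm (Fin 6) := sw 0 3 * sw 1 4 * sw 4 5 * sw 5 2
def m6_386 : Equiv.Perm (Fin 6) := sw 0 3 * sw 3 5 * sw 5 4 * sw 1 2
def m6_387 : Equiv.Perm (Fin 6) := sw 0 3 * sw 2 5
def m6_388 : Equiv.Perm (Fin 6) := sw 0 3 * sw 3 5 * sw 5 2 * sw 2 1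
def m6_389 : Equiv.Perm (Fin 6) := sw 0 3 * sw 3 4 * sw 4 2 * sw 2 5
def m6_390 : Equiv.Perm (Fin 6) := sw 0 2 * sw 2 5 * sw 5 3 * sw 3 4
def m6_391 : Equiv.Perm (Fin 6) := sw 0 1 * sw 1 5 * sw 5 3 * sw 2 4
def m6_392 : Equiv.Perm (Fin 6) := sw 0 3 * sw 2 4
def m6_393 : Equiv.Perm (Fin 6) := sw 0 2 * sw 2 4 * sw 4 5 * sw 5 3
def m6_394 : Equiv.Perm (Fin 6) := sw 0 1 * sw 1 4 * sw 4 2 * sw 3 5
def m6_395 : Equiv.Perm (Fin 6) := sw 2 4 * sw 3 5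
def m6_396 : Equiv.Perm (Fin 6) := sw 0 1 * sw 1 4 * sw 2 5 * sw 5 3
def m6_397 : Equiv.Perm (Fin 6) := sw 0 1 * sw 1 4 * sw 4 3 * sw 2 5
def m6_398 : Equiv.Perm (Fin 6) := sw 0 1 * sw 1 4 * sw 4 2 * sw 2 5
def m6_399 : Equiv.Perm (Fin 6) := sw 0 4 * sw 2 5
def m6_400 : Equiv.Perm (Fin 6) := sw 0 4 * sw 4 2 * sw 2 3 * sw 1 5
def m6_401 : Equiv.Perm (Fin 6) := sw 0 1 * sw 1 5 * sw 5 2 * sw 2 4
def m6_402 : Equiv.Perm (Fin 6) := sw 0 1 * sw 1 4 * sw 4 2 * sw 2 3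
def m6_403 : Equiv.Perm (Fin 6) := sw 0 4 * sw 4 5 * sw 5 2 * sw 2 3
def m6_404 : Equiv.Perm (Fin 6) := sw 0 4 * sw 4 2 * sw 1 3 * sw 3 5
def m6_405 : Equiv.Perm (Fin 6) := sw 0 4 * sw 4 2 * sw 2 3 * sw 3 5
def m6_406 : Equiv.Perm (Fin 6) := sw 0 4 * sw 1 3 * sw 3 2 * sw 2 5
def m6_407 : Equiv.Perm (Fin 6) := sw 0 1 * sw 1 3 * sw 2 5 * sw 5 4
def m6_408 : Equiv.Perm (Fin 6) := sw 0 3 * sw 3 4 * sw 4 2 * sw 1 5
def m6_409 : Equiv.Perm (Fin 6) := sw 0 3 * sw 3 2 * sw 2 4 * sw 1 5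
def m6_410 : Equiv.Perm (Fin 6) := sw 0 5 * sw 5 1 * sw 1 3 * sw 2 4
def m6_411 : Equiv.Perm (Fin 6) := sw 0 3 * sw 3 2 * sw 1 4 * sw 4 5
def m6_412 : Equiv.Perm (Fin 6) := sw 0 4 * sw 4 1 * sw 2 5 * sw 5 3
def m6_413 : Equiv.Perm (Fin 6) := sw 0 4 * sw 4 1 * sw 1 5 * sw 5 3
def m6_414 : Equiv.Perm (Fin 6) := sw 0 3 * sw 1 4
def m6_415 : Equiv.Perm (Fin 6) := sw 0 1 * sw 1 4 * sw 4 5 * sw 5 3
def m6_416 : Equiv.Perm (Fin 6) := sw 0 4 * sw 4 5 * sw 5 1 * sw 1 3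
def m6_417 : Equiv.Perm (Fin 6) := sw 0 4 * sw 4 1 * sw 1 2 * sw 3 5
def m6_418 : Equiv.Perm (Fin 6) := sw 0 4 * sw 3 5
def m6_419 : Equiv.Perm (Fin 6) := sw 0 4 * sw 4 3 * sw 1 2 * sw 2 5
def m6_420 : Equiv.Perm (Fin 6) := sw 0 3 * sw 1 2 * sw 2 5 * sw 5 4
def m6_421 : Equiv.Perm (Fin 6) := sw 0 1 * sw 1 2 * sw 2 5 * sw 5 3
def m6_422 : Equiv.Perm (Fin 6) := sw 0 2 * sw 1 5 * sw 5 3 * sw 3 4
def m6_423 : Equiv.Perm (Fin 6) := sw 0 2 * sw 2 4 * sw 4 3 * sw 1 5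
def m6_424 : Equiv.Perm (Fin 6) := sw 0 5 * sw 5 3 * sw 1 2 * sw 2 4
def m6_425 : Equiv.Perm (Fin 6) := sw 0 2 * sw 1 4 * sw 4 5 * sw 5 3
def m6_426 : Equiv.Perm (Fin 6) := sw 0 2 * sw 1 4 * sw 4 3 * sw 3 5
def m6_427 : Equiv.Perm (Fin 6) := sw 0 4 * sw 4 3 * sw 3 1 * sw 2 5
def m6_428 : Equiv.Perm (Fin 6) := sw 0 4 * sw 4 1 * sw 1 5 * sw 5 2
def m6_429 : Equiv.Perm (Fin 6) := sw 0 2 * sw 2 3 * sw 1 5 * sw 5 4
def m6_430 : Equiv.Perm (Fin 6) := sw 0 5 * sw 5 2 * sw 2 3 * sw 1 4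
def m6_431 : Equiv.Perm (Fin 6) := sw 0 4 * sw 4 1 * sw 1 2 * sw 2 3
def m6_432 : Equiv.Perm (Fin 6) := sw 0 4 * sw 4 5 * sw 5 2 * sw 1 3
def m6_433 : Equiv.Perm (Fin 6) := sw 0 3 * sw 3 1 * sw 2 5 * sw 5 4
def m6_434 : Equiv.Perm (Fin 6) := sw 0 3 * sw 3 1 * sw 1 5 * sw 5 2
def m6_435 : Equiv.Perm (Fin 6) := sw 0 5 * sw 5 3 * sw 3 1 * sw 2 4
def m6_436 : Equiv.Perm (Fin 6) := sw 0 3 * sw 3 1 * sw 1 4 * sw 4 2
def m6_437 : Equiv.Perm (Fin 6) := sw 0 4 * sw 4 2 * sw 2 1 * sw 3 5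
def m6_438 : Equiv.Perm (Fin 6) := sw 0 3 * sw 3 5 * sw 5 4 * sw 4 1 * sw 1 2
def m6_439 : Equiv.Perm (Fin 6) := sw 0 3 * sw 3 1 * sw 2 5
def m6_440 : Equiv.Perm (Fin 6) := sw 0 3 * sw 3 5 * sw 5 2
def m6_441 : Equiv.Perm (Fin 6) := sw 0 3 * sw 3 4 * sw 4 2 * sw 2 5 * sw 5 1
def m6_442 : Equiv.Perm (Fin 6) := sw 0 2 * sw 2 5 * sw 5 3 * sw 3 4 * sw 4 1
def m6_443 : Equiv.Perm (Fin 6) := sw 1 5 * sw 5 3 * sw 2 4
def m6_444 : Equiv.Perm (Fin 6) := sw 0 3 * sw 3 1 * sw 2 4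
def m6_445 : Equiv.Perm (Fin 6) := sw 0 2 * sw 2 4 * sw 4 5 * sw 5 3 * sw 3 1
def m6_446 : Equiv.Perm (Fin 6) := sw 1 4 * sw 4 2 * sw 3 5
def m6_447 : Equiv.Perm (Fin 6) := sw 0 1 * sw 2 4 * sw 3 5
def m6_448 : Equiv.Perm (Fin 6) := sw 1 4 * sw 2 5 * sw 5 3
def m6_449 : Equiv.Perm (Fin 6) := sw 1 4 * sw 4 3 * sw 2 5
def m6_450 : Equiv.Perm (Fin 6) := sw 1 4 * sw 4 2 * sw 2 5
def m6_451 : Equiv.Perm (Fin 6) := sw 0 4 * sw 4 1 * sw 2 5
def m6_452 : Equiv.Perm (Fin 6) := sw 0 4 * sw 4 2 * sw 2 3 * sw 3 1 * sw 1 5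
def m6_453 : Equiv.Perm (Fin 6) := sw 1 5 * sw 5 2 * sw 2 4
def m6_454 : Equiv.Perm (Fin 6) := sw 1 4 * sw 4 2 * sw 2 3
def m6_455 : Equiv.Perm (Fin 6) := sw 0 4 * sw 4 5 * sw 5 2 * sw 2 3 * sw 3 1
def m6_456 : Equiv.Perm (Fin 6) := sw 0 4 * sw 4 2 * sw 2 1 * sw 1 3 * sw 3 5
def m6_457 : Equiv.Perm (Fin 6) := sw 0 4 * sw 4 2 * sw 2 3 * sw 3 5 * sw 5 1
def m6_458 : Equiv.Perm (Fin 6) := sw 0 4 * sw 4 1 * sw 1 3 * sw 3 2 * sw 2 5
def m6_459 : Equiv.Perm (Fin 6) := sw 1 3 * sw 2 5 * sw 5 4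
def m6_460 : Equiv.Perm (Fin 6) := sw 0 3 * sw 3 4 * sw 4 2 * sw 2 1 * sw 1 5
def m6_461 : Equiv.Perm (Fin 6) := sw 0 3 * sw 3 2 * sw 2 4 * sw 4 1 * sw 1 5
def m6_462 : Equiv.Perm (Fin 6) := sw 0 5 * sw 1 3 * sw 2 4
def m6_463 : Equiv.Perm (Fin 6) := sw 0 3 * sw 3 2 * sw 2 1 * sw 1 4 * sw 4 5
def m6_464 : Equiv.Perm (Fin 6) := sw 0 4 * sw 2 5 * sw 5 3
def m6_465 : Equiv.Perm (Fin 6) := sw 0 4 * sw 1 5 * sw 5 3
def m6_466 : Equiv.Perm (Fin 6) := sw 0 3 * sw 3 1 * sw 1 4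
def m6_467 : Equiv.Perm (Fin 6) := sw 1 4 * sw 4 5 * sw 5 3
def m6_468 : Equiv.Perm (Fin 6) := sw 0 4 * sw 4 5 * sw 1 3
def m6_469 : Equiv.Perm (Fin 6) := sw 0 4 * sw 1 2 * sw 3 5
def m6_470 : Equiv.Perm (Fin 6) := sw 0 4 * sw 4 1 * sw 3 5
def m6_471 : Equiv.Perm (Fin 6) := sw 0 4 * sw 4 3 * sw 3 1 * sw 1 2 * sw 2 5
def m6_472 : Equiv.Perm (Fin 6) := sw 0 3 * sw 3 1 * sw 1 2 * sw 2 5 * sw 5 4
def m6_473 : Equiv.Perm (Fin 6) := sw 1 2 * sw 2 5 * sw 5 3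
def m6_474 : Equiv.Perm (Fin 6) := sw 0 2 * sw 2 1 * sw 1 5 * sw 5 3 * sw 3 4
def m6_475 : Equiv.Perm (Fin 6) := sw 0 2 * sw 2 4 * sw 4 3 * sw 3 1 * sw 1 5
def m6_476 : Equiv.Perm (Fin 6) := sw 0 5 * sw 5 3 * sw 3 1 * sw 1 2 * sw 2 4
def m6_477 : Equiv.Perm (Fin 6) := sw 0 2 * sw 2 1 * sw 1 4 * sw 4 5 * sw 5 3
def m6_478 : Equiv.Perm (Fin 6) := sw 0 2 * sw 2 1 * sw 1 4 * sw 4 3 * sw 3 5
def m6_479 : Equiv.Perm (Fin 6) := sw 0 4 * sw 4 3 * sw 2 5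
def m6_480 : Equiv.Perm (Fin 6) := sw 0 4 * sw 1 5 * sw 5 2
def m6_481 : Equiv.Perm (Fin 6) := sw 0 2 * sw 2 3 * sw 3 1 * sw 1 5 * sw 5 4
def m6_482 : Equiv.Perm (Fin 6) := sw 0 5 * sw 5 2 * sw 2 3 * sw 3 1 * sw 1 4
def m6_483 : Equiv.Perm (Fin 6) := sw 0 4 * sw 1 2 * sw 2 3
def m6_484 : Equiv.Perm (Fin 6) := sw 0 4 * sw 4 5 * sw 5 2 * sw 2 1 * sw 1 3
def m6_485 : Equiv.Perm (Fin 6) := sw 0 3 * sw 2 5 * sw 5 4
def m6_486 : Equiv.Perm (Fin 6) := sw 0 3 * sw 1 5 * sw 5 2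
def m6_487 : Equiv.Perm (Fin 6) := sw 0 5 * sw 5 3 * sw 2 4
def m6_488 : Equiv.Perm (Fin 6) := sw 0 3 * sw 1 4 * sw 4 2
def m6_489 : Equiv.Perm (Fin 6) := sw 0 4 * sw 4 2 * sw 3 5
def m6_490 : Equiv.Perm (Fin 6) := sw 0 2 * sw 2 5 * sw 5 3
def m6_491 : Equiv.Perm (Fin 6) := sw 0 1 * sw 1 5 * sw 5 3 * sw 3 4 * sw 4 2
def m6_492 : Equiv.Perm (Fin 6) := sw 2 5 * sw 5 3 * sw 3 4
def m6_493 : Equiv.Perm (Fin 6) := sw 0 1 * sw 1 5 * sw 5 3 * sw 3 2 * sw 2 4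
def m6_494 : Equiv.Perm (Fin 6) := sw 0 1 * sw 1 5 * sw 5 2 * sw 2 4 * sw 4 3
def m6_495 : Equiv.Perm (Fin 6) := sw 0 1 * sw 1 4 * sw 4 5 * sw 5 3 * sw 3 2
def m6_496 : Equiv.Perm (Fin 6) := sw 0 1 * sw 1 4 * sw 4 3 * sw 3 5 * sw 5 2
def m6_497 : Equiv.Perm (Fin 6) := sw 0 4 * sw 4 3 * sw 3 2 * sw 2 5 * sw 5 1
def m6_498 : Equiv.Perm (Fin 6) := sw 0 1 * sw 1 4 * sw 4 3 * sw 3 2 * sw 2 5
def m6_499 : Equiv.Perm (Fin 6) := sw 0 4 * sw 4 3 * sw 1 5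
def m6_500 : Equiv.Perm (Fin 6) := sw 0 4 * sw 4 2 * sw 1 5
def m6_501 : Equiv.Perm (Fin 6) := sw 0 4 * sw 4 2 * sw 2 5
def m6_502 : Equiv.Perm (Fin 6) := sw 0 4 * sw 1 5 * sw 2 3
def m6_503 : Equiv.Perm (Fin 6) := sw 0 1 * sw 1 5 * sw 5 4 * sw 4 2 * sw 2 3
def m6_504 : Equiv.Perm (Fin 6) := sw 0 5 * sw 5 1 * sw 1 4 * sw 4 2 * sw 2 3
def m6_505 : Equiv.Perm (Fin 6) := sw 0 4 * sw 4 2 * sw 2 3
def m6_506 : Equiv.Perm (Fin 6) := sw 0 4 * sw 4 5 * sw 5 1 * sw 1 3 * sw 3 2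
def m6_507 : Equiv.Perm (Fin 6) := sw 0 1 * sw 1 3 * sw 3 5 * sw 5 4 * sw 4 2
def m6_508 : Equiv.Perm (Fin 6) := sw 0 3 * sw 3 2 * sw 2 5 * sw 5 4 * sw 4 1
def m6_509 : Equiv.Perm (Fin 6) := sw 0 1 * sw 1 3 * sw 3 2 * sw 2 5 * sw 5 4
def m6_510 : Equiv.Perm (Fin 6) := sw 0 3 * sw 1 5 * sw 5 4
def m6_511 : Equiv.Perm (Fin 6) := sw 0 3 * sw 3 2 * sw 1 5
def m6_512 : Equiv.Perm (Fin 6) := sw 0 5 * sw 5 1 * sw 1 3 * sw 3 4 * sw 4 2
def m6_513 : Equiv.Perm (Fin 6) := sw 0 5 * sw 5 3 * sw 3 2 * sw 2 4 * sw 4 1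
def m6_514 : Equiv.Perm (Fin 6) := sw 0 5 * sw 5 3 * sw 1 4
def m6_515 : Equiv.Perm (Fin 6) := sw 0 3 * sw 3 2 * sw 1 4
def m6_516 : Equiv.Perm (Fin 6) := sw 0 4 * sw 4 1 * sw 1 3
def m6_517 : Equiv.Perm (Fin 6) := sw 0 4 * sw 4 5 * sw 5 3 * sw 3 1 * sw 1 2
def m6_518 : Equiv.Perm (Fin 6) := sw 0 4 * sw 4 5 * sw 5 3
def m6_519 : Equiv.Perm (Fin 6) := sw 0 4 * sw 4 3 * sw 3 5 * sw 5 1 * sw 1 2
def m6_520 : Equiv.Perm (Fin 6) := sw 0 2 * sw 2 5 * sw 5 4 * sw 4 3 * sw 3 1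
def m6_521 : Equiv.Perm (Fin 6) := sw 0 1 * sw 1 2 * sw 2 5 * sw 5 4 * sw 4 3
def m6_522 : Equiv.Perm (Fin 6) := sw 0 2 * sw 1 5 * sw 5 4
def m6_523 : Equiv.Perm (Fin 6) := sw 0 2 * sw 1 5 * sw 5 3
def m6_524 : Equiv.Perm (Fin 6) := sw 0 5 * sw 5 3 * sw 3 4 * sw 4 1 * sw 1 2
def m6_525 : Equiv.Perm (Fin 6) := sw 0 5 * sw 5 2 * sw 2 4 * sw 4 3 * sw 3 1
def m6_526 : Equiv.Perm (Fin 6) := sw 0 5 * sw 5 1 * sw 1 2 * sw 2 4 * sw 4 3
def m6_527 : Equiv.Perm (Fin 6) := sw 0 5 * sw 5 2 * sw 1 4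
def m6_528 : Equiv.Perm (Fin 6) := sw 0 2 * sw 1 4 * sw 4 3
def m6_529 : Equiv.Perm (Fin 6) := sw 0 4 * sw 4 3 * sw 3 5 * sw 5 2 * sw 2 1
def m6_530 : Equiv.Perm (Fin 6) := sw 0 5 * sw 5 4 * sw 4 2 * sw 2 3 * sw 3 1
def m6_531 : Equiv.Perm (Fin 6) := sw 0 5 * sw 5 4 * sw 4 1 * sw 1 2 * sw 2 3
def m6_532 : Equiv.Perm (Fin 6) := sw 0 5 * sw 5 2 * sw 1 3
def m6_533 : Equiv.Perm (Fin 6) := sw 0 4 * sw 4 2 * sw 1 3
def m6_534 : Equiv.Perm (Fin 6) := sw 0 2 * sw 1 3 * sw 4 5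
def m6_535 : Equiv.Perm (Fin 6) := sw 0 3 * sw 3 5 * sw 5 4 * sw 4 2 * sw 2 1
def m6_536 : Equiv.Perm (Fin 6) := sw 0 5 * sw 5 3 * sw 3 4 * sw 4 2 * sw 2 1
def m6_537 : Equiv.Perm (Fin 6) := sw 0 4 * sw 4 5 * sw 5 3 * sw 3 2 * sw 2 1
def m6_538 : Equiv.Perm (Fin 6) := sw 2 5 * sw 5 4 * sw 4 3
def m6_539 : Equiv.Perm (Fin 6) := sw 0 2 * sw 2 5 * sw 5 3 * sw 3 1
def m6_540 : Equiv.Perm (Fin 6) := sw 1 5 * sw 5 3 * sw 3 4 * sw 4 2
def m6_541 : Equiv.Perm (Fin 6) := sw 0 1 * sw 2 5 * sw 5 3 * sw 3 4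
def m6_542 : Equiv.Perm (Fin 6) := sw 1 5 * sw 5 3 * sw 3 2 * sw 2 4
def m6_543 : Equiv.Perm (Fin 6) := sw 1 5 * sw 5 2 * sw 2 4 * sw 4 3
def m6_544 : Equiv.Perm (Fin 6) := sw 1 4 * sw 4 5 * sw 5 3 * sw 3 2
def m6_545 : Equiv.Perm (Fin 6) := sw 1 4 * sw 4 3 * sw 3 5 * sw 5 2
def m6_546 : Equiv.Perm (Fin 6) := sw 0 4 * sw 4 3 * sw 3 2 * sw 2 5
def m6_547 : Equiv.Perm (Fin 6) := sw 1 4 * sw 4 3 * sw 3 2 * sw 2 5
def m6_548 : Equiv.Perm (Fin 6) := sw 0 4 * sw 4 3 * sw 3 1 * sw 1 5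
def m6_549 : Equiv.Perm (Fin 6) := sw 0 4 * sw 4 2 * sw 2 1 * sw 1 5
def m6_550 : Equiv.Perm (Fin 6) := sw 0 4 * sw 4 2 * sw 2 5 * sw 5 1
def m6_551 : Equiv.Perm (Fin 6) := sw 0 4 * sw 4 1 * sw 1 5 * sw 2 3
def m6_552 : Equiv.Perm (Fin 6) := sw 1 5 * sw 5 4 * sw 4 2 * sw 2 3
def m6_553 : Equiv.Perm (Fin 6) := sw 0 5 * sw 1 4 * sw 4 2 * sw 2 3
def m6_554 : Equiv.Perm (Fin 6) := sw 0 4 * sw 4 2 * sw 2 3 * sw 3 1
def m6_555 : Equiv.Perm (Fin 6) := sw 0 4 * sw 4 5 * sw 1 3 * sw 3 2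
def m6_556 : Equiv.Perm (Fin 6) := sw 1 3 * sw 3 5 * sw 5 4 * sw 4 2
def m6_557 : Equiv.Perm (Fin 6) := sw 0 3 * sw 3 2 * sw 2 5 * sw 5 4
def m6_558 : Equiv.Perm (Fin 6) := sw 1 3 * sw 3 2 * sw 2 5 * sw 5 4
def m6_559 : Equiv.Perm (Fin 6) := sw 0 3 * sw 3 1 * sw 1 5 * sw 5 4
def m6_560 : Equiv.Perm (Fin 6) := sw 0 3 * sw 3 2 * sw 2 1 * sw 1 5
def m6_561 : Equiv.Perm (Fin 6) := sw 0 5 * sw 1 3 * sw 3 4 * sw 4 2
def m6_562 : Equiv.Perm (Fin 6) := sw 0 5 * sw 5 3 * sw 3 2 * sw 2 4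
def m6_563 : Equiv.Perm (Fin 6) := sw 0 5 * sw 5 3 * sw 3 1 * sw 1 4
def m6_564 : Equiv.Perm (Fin 6) := sw 0 3 * sw 3 2 * sw 2 1 * sw 1 4
def m6_565 : Equiv.Perm (Fin 6) := sw 0 4 * sw 1 3
def m6_566 : Equiv.Perm (Fin 6) := sw 0 4 * sw 4 5 * sw 5 3 * sw 1 2
def m6_567 : Equiv.Perm (Fin 6) := sw 0 4 * sw 4 5 * sw 5 3 * sw 3 1
def m6_568 : Equiv.Perm (Fin 6) := sw 0 4 * sw 4 3 * sw 3 5 * sw 1 2
def m6_569 : Equiv.Perm (Fin 6) := sw 0 2 * sw 2 5 * sw 5 4 * sw 4 3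
def m6_570 : Equiv.Perm (Fin 6) := sw 1 2 * sw 2 5 * sw 5 4 * sw 4 3
def m6_571 : Equiv.Perm (Fin 6) := sw 0 2 * sw 2 1 * sw 1 5 * sw 5 4
def m6_572 : Equiv.Perm (Fin 6) := sw 0 2 * sw 2 1 * sw 1 5 * sw 5 3
def m6_573 : Equiv.Perm (Fin 6) := sw 0 5 * sw 5 3 * sw 3 4 * sw 1 2
def m6_574 : Equiv.Perm (Fin 6) := sw 0 5 * sw 5 2 * sw 2 4 * sw 4 3
def m6_575 : Equiv.Perm (Fin 6) := sw 0 5 * sw 1 2 * sw 2 4 * sw 4 3
def m6_576 : Equiv.Perm (Fin 6) := sw 0 5 * sw 5 2 * sw 2 1 * sw 1 4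
def m6_577 : Equiv.Perm (Fin 6) := sw 0 2 * sw 2 1 * sw 1 4 * sw 4 3
def m6_578 : Equiv.Perm (Fin 6) := sw 0 4 * sw 4 3 * sw 3 5 * sw 5 2
def m6_579 : Equiv.Perm (Fin 6) := sw 0 5 * sw 5 4 * sw 4 2 * sw 2 3
def m6_580 : Equiv.Perm (Fin 6) := sw 0 5 * sw 5 4 * sw 1 2 * sw 2 3
def m6_581 : Equiv.Perm (Fin 6) := sw 0 5 * sw 5 2 * sw 2 1 * sw 1 3
def m6_582 : Equiv.Perm (Fin 6) := sw 0 4 * sw 4 2 * sw 2 1 * sw 1 3
def m6_583 : Equiv.Perm (Fin 6) := sw 0 2 * sw 2 1 * sw 1 3 * sw 4 5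
def m6_584 : Equiv.Perm (Fin 6) := sw 0 3 * sw 3 5 * sw 5 4 * sw 4 2
def m6_585 : Equiv.Perm (Fin 6) := sw 0 5 * sw 5 3 * sw 3 4 * sw 4 2
def m6_586 : Equiv.Perm (Fin 6) := sw 0 4 * sw 4 5 * sw 5 3 * sw 3 2
def m6_587 : Equiv.Perm (Fin 6) := sw 0 1 * sw 2 5 * sw 5 4 * sw 4 3
def m6_588 : Equiv.Perm (Fin 6) := sw 0 1 * sw 1 5 * sw 5 2 * sw 3 4
def m6_589 : Equiv.Perm (Fin 6) := sw 0 5 * sw 5 1 * sw 2 4 * sw 4 3
def m6_590 : Equiv.Perm (Fin 6) := sw 0 1 * sw 1 5 * sw 2 4 * sw 4 3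
def m6_591 : Equiv.Perm (Fin 6) := sw 0 5 * sw 5 1 * sw 1 4 * sw 4 3
def m6_592 : Equiv.Perm (Fin 6) := sw 0 5 * sw 5 1 * sw 1 4 * sw 4 2
def m6_593 : Equiv.Perm (Fin 6) := sw 0 4 * sw 4 3 * sw 3 5 * sw 5 1
def m6_594 : Equiv.Perm (Fin 6) := sw 0 4 * sw 1 5
def m6_595 : Equiv.Perm (Fin 6) := sw 0 5 * sw 5 4 * sw 4 1 * sw 1 2
def m6_596 : Equiv.Perm (Fin 6) := sw 0 5 * sw 5 4 * sw 4 1 * sw 2 3
def m6_597 : Equiv.Perm (Fin 6) := sw 0 1 * sw 1 5 * sw 5 4 * sw 2 3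
def m6_598 : Equiv.Perm (Fin 6) := sw 0 5 * sw 5 1 * sw 1 4 * sw 2 3
def m6_599 : Equiv.Perm (Fin 6) := sw 0 5 * sw 5 4 * sw 4 1 * sw 1 3
def m6_600 : Equiv.Perm (Fin 6) := sw 0 5 * sw 5 1 * sw 1 3 * sw 3 2
def m6_601 : Equiv.Perm (Fin 6) := sw 0 4 * sw 4 1 * sw 1 3 * sw 3 2
def m6_602 : Equiv.Perm (Fin 6) := sw 0 1 * sw 1 3 * sw 3 2 * sw 4 5
def m6_603 : Equiv.Perm (Fin 6) := sw 0 3 * sw 3 2 * sw 2 5 * sw 5 1
def m6_604 : Equiv.Perm (Fin 6) := sw 0 3 * sw 1 5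
def m6_605 : Equiv.Perm (Fin 6) := sw 0 5 * sw 5 3 * sw 3 1 * sw 1 2
def m6_606 : Equiv.Perm (Fin 6) := sw 0 5 * sw 5 3 * sw 3 4 * sw 4 1
def m6_607 : Equiv.Perm (Fin 6) := sw 0 4 * sw 4 3 * sw 3 1 * sw 1 2
def m6_608 : Equiv.Perm (Fin 6) := sw 0 3 * sw 3 1 * sw 1 2 * sw 4 5
def m6_609 : Equiv.Perm (Fin 6) := sw 0 2 * sw 2 1 * sw 3 5 * sw 5 4
def m6_610 : Equiv.Perm (Fin 6) := sw 0 1 * sw 1 2 * sw 3 5 * sw 5 4
def m6_611 : Equiv.Perm (Fin 6) := sw 0 2 * sw 2 5 * sw 5 4 * sw 4 1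
def m6_612 : Equiv.Perm (Fin 6) := sw 0 5 * sw 5 2 * sw 2 3 * sw 3 1
def m6_613 : Equiv.Perm (Fin 6) := sw 0 5 * sw 5 2 * sw 2 1 * sw 3 4
def m6_614 : Equiv.Perm (Fin 6) := sw 0 2 * sw 2 4 * sw 4 3 * sw 3 1
def m6_615 : Equiv.Perm (Fin 6) := sw 0 2 * sw 1 4
def m6_616 : Equiv.Perm (Fin 6) := sw 0 4 * sw 4 5 * sw 5 2 * sw 2 1
def m6_617 : Equiv.Perm (Fin 6) := sw 2 5 * sw 5 4
def m6_618 : Equiv.Perm (Fin 6) := sw 0 2 * sw 1 3
def m6_619 : Equiv.Perm (Fin 6) := sw 0 3 * sw 3 4 * sw 4 2 * sw 2 1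
def m6_620 : Equiv.Perm (Fin 6) := sw 0 3 * sw 3 2 * sw 2 1 * sw 4 5
def m6_621 : Equiv.Perm (Fin 6) := sw 2 5 * sw 5 3
def m6_622 : Equiv.Perm (Fin 6) := sw 2 4 * sw 4 3
def m6_623 : Equiv.Perm (Fin 6) := sw 3 5 * sw 5 4
def m6_624 : Equiv.Perm (Fin 6) := sw 1 5 * sw 5 2 * sw 3 4
def m6_625 : Equiv.Perm (Fin 6) := sw 0 5 * sw 2 4 * sw 4 3
def m6_626 : Equiv.Perm (Fin 6) := sw 1 5 * sw 2 4 * sw 4 3
def m6_627 : Equiv.Perm (Fin 6) := sw 0 5 * sw 1 4 * sw 4 3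
def m6_628 : Equiv.Perm (Fin 6) := sw 0 5 * sw 1 4 * sw 4 2
def m6_629 : Equiv.Perm (Fin 6) := sw 0 4 * sw 4 3 * sw 3 5
def m6_630 : Equiv.Perm (Fin 6) := sw 0 4 * sw 4 1 * sw 1 5
def m6_631 : Equiv.Perm (Fin 6) := sw 0 5 * sw 5 4 * sw 1 2
def m6_632 : Equiv.Perm (Fin 6) := sw 0 5 * sw 5 4 * sw 2 3
def m6_633 : Equiv.Perm (Fin 6) := sw 1 5 * sw 5 4 * sw 2 3
def m6_634 : Equiv.Perm (Fin 6) := sw 0 5 * sw 1 4 * sw 2 3
def m6_635 : Equiv.Perm (Fin 6) := sw 0 5 * sw 5 4 * sw 1 3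
def m6_636 : Equiv.Perm (Fin 6) := sw 0 5 * sw 1 3 * sw 3 2
def m6_637 : Equiv.Perm (Fin 6) := sw 0 4 * sw 1 3 * sw 3 2
def m6_638 : Equiv.Perm (Fin 6) := sw 1 3 * sw 3 2 * sw 4 5
def m6_639 : Equiv.Perm (Fin 6) := sw 0 3 * sw 3 2 * sw 2 5
def m6_640 : Equiv.Perm (Fin 6) := sw 0 3 * sw 3 1 * sw 1 5
def m6_641 : Equiv.Perm (Fin 6) := sw 0 5 * sw 5 3 * sw 1 2
def m6_642 : Equiv.Perm (Fin 6) := sw 0 5 * sw 5 3 * sw 3 4
def m6_643 : Equiv.Perm (Fin 6) := sw 0 4 * sw 4 3 * sw 1 2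
def m6_644 : Equiv.Perm (Fin 6) := sw 0 3 * sw 1 2 * sw 4 5
def m6_645 : Equiv.Perm (Fin 6) := sw 0 2 * sw 3 5 * sw 5 4
def m6_646 : Equiv.Perm (Fin 6) := sw 1 2 * sw 3 5 * sw 5 4
def m6_647 : Equiv.Perm (Fin 6) := sw 0 2 * sw 2 5 * sw 5 4
def m6_648 : Equiv.Perm (Fin 6) := sw 0 5 * sw 5 2 * sw 2 3
def m6_649 : Equiv.Perm (Fin 6) := sw 0 5 * sw 5 2 * sw 3 4
def m6_650 : Equiv.Perm (Fin 6) := sw 0 2 * sw 2 4 * sw 4 3
def m6_651 : Equiv.Perm (Fin 6) := sw 0 2 * sw 2 1 * sw 1 4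
def m6_652 : Equiv.Perm (Fin 6) := sw 0 4 * sw 4 5 * sw 5 2
def m6_653 : Equiv.Perm (Fin 6) := sw 0 1 * sw 2 5 * sw 5 4
def m6_654 : Equiv.Perm (Fin 6) := sw 0 2 * sw 2 1 * sw 1 3
def m6_655 : Equiv.Perm (Fin 6) := sw 0 3 * sw 3 4 * sw 4 2
def m6_656 : Equiv.Perm (Fin 6) := sw 0 3 * sw 3 2 * sw 4 5
def m6_657 : Equiv.Perm (Fin 6) := sw 0 1 * sw 2 5 * sw 5 3
def m6_658 : Equiv.Perm (Fin 6) := sw 0 1 * sw 2 4 * sw 4 3
def m6_659 : Equiv.Perm (Fin 6) := sw 0 1 * sw 3 5 * sw 5 4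
def m6_660 : Equiv.Perm (Fin 6) := sw 0 5 * sw 5 1 * sw 2 4
def m6_661 : Equiv.Perm (Fin 6) := sw 0 5 * sw 5 1 * sw 1 4
def m6_662 : Equiv.Perm (Fin 6) := sw 0 4 * sw 4 1 * sw 1 2
def m6_663 : Equiv.Perm (Fin 6) := sw 0 4 * sw 4 1 * sw 2 3
def m6_664 : Equiv.Perm (Fin 6) := sw 1 4 * sw 4 3 * sw 3 5
def m6_665 : Equiv.Perm (Fin 6) := sw 1 2 * sw 2 5 * sw 5 4
def m6_666 : Equiv.Perm (Fin 6) := sw 0 5 * sw 5 1 * sw 1 3
def m6_667 : Equiv.Perm (Fin 6) := sw 0 3 * sw 3 1 * sw 1 2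
def m6_668 : Equiv.Perm (Fin 6) := sw 0 3 * sw 3 1 * sw 4 5
def m6_669 : Equiv.Perm (Fin 6) := sw 1 3 * sw 3 2 * sw 2 5
def m6_670 : Equiv.Perm (Fin 6) := sw 1 5 * sw 5 3 * sw 3 4
def m6_671 : Equiv.Perm (Fin 6) := sw 1 2 * sw 2 4 * sw 4 3
def m6_672 : Equiv.Perm (Fin 6) := sw 0 2 * sw 2 1 * sw 3 5
def m6_673 : Equiv.Perm (Fin 6) := sw 2 5
def m6_674 : Equiv.Perm (Fin 6) := sw 0 2 * sw 2 5 * sw 5 1
def m6_675 : Equiv.Perm (Fin 6) := sw 1 5 * sw 5 2 * sw 2 3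
def m6_676 : Equiv.Perm (Fin 6) := sw 1 3 * sw 3 4 * sw 4 2
def m6_677 : Equiv.Perm (Fin 6) := sw 2 4
def m6_678 : Equiv.Perm (Fin 6) := sw 1 4 * sw 4 5 * sw 5 2
def m6_679 : Equiv.Perm (Fin 6) := sw 2 3 * sw 3 5 * sw 5 4
def m6_680 : Equiv.Perm (Fin 6) := sw 2 4 * sw 4 5 * sw 5 3
def m6_681 : Equiv.Perm (Fin 6) := sw 3 5
def m6_682 : Equiv.Perm (Fin 6) := sw 0 1 * sw 1 2 * sw 2 5
def m6_683 : Equiv.Perm (Fin 6) := sw 0 5 * sw 2 4
def m6_684 : Equiv.Perm (Fin 6) := sw 0 5 * sw 1 4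
def m6_685 : Equiv.Perm (Fin 6) := sw 0 4 * sw 1 2
def m6_686 : Equiv.Perm (Fin 6) := sw 0 4 * sw 2 3
def m6_687 : Equiv.Perm (Fin 6) := sw 0 1 * sw 1 4 * sw 4 3 * sw 3 5
def m6_688 : Equiv.Perm (Fin 6) := sw 0 1 * sw 1 2 * sw 2 5 * sw 5 4
def m6_689 : Equiv.Perm (Fin 6) := sw 0 5 * sw 1 3
def m6_690 : Equiv.Perm (Fin 6) := sw 0 3 * sw 1 2
def m6_691 : Equiv.Perm (Fin 6) := sw 0 3 * sw 4 5
def m6_692 : Equiv.Perm (Fin 6) := sw 0 1 * sw 1 3 * sw 3 2 * sw 2 5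
def m6_693 : Equiv.Perm (Fin 6) := sw 0 1 * sw 1 5 * sw 5 3 * sw 3 4
def m6_694 : Equiv.Perm (Fin 6) := sw 0 1 * sw 1 2 * sw 2 4 * sw 4 3
def m6_695 : Equiv.Perm (Fin 6) := sw 0 2 * sw 3 5
def m6_696 : Equiv.Perm (Fin 6) := sw 0 1 * sw 2 5
def m6_697 : Equiv.Perm (Fin 6) := sw 0 2 * sw 2 5
def m6_698 : Equiv.Perm (Fin 6) := sw 0 1 * sw 1 5 * sw 5 2 * sw 2 3
def m6_699 : Equiv.Perm (Fin 6) := sw 0 1 * sw 1 3 * sw 3 4 * sw 4 2
def m6_700 : Equiv.Perm (Fin 6) := sw 0 1 * sw 2 4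
def m6_701 : Equiv.Perm (Fin 6) := sw 0 1 * sw 1 4 * sw 4 5 * sw 5 2
def m6_702 : Equiv.Perm (Fin 6) := sw 0 1 * sw 2 3 * sw 3 5 * sw 5 4
def m6_703 : Equiv.Perm (Fin 6) := sw 0 1 * sw 2 4 * sw 4 5 * sw 5 3
def m6_704 : Equiv.Perm (Fin 6) := sw 0 1 * sw 3 5
def m6_705 : Equiv.Perm (Fin 6) := sw 1 2 * sw 2 5
def m6_706 : Equiv.Perm (Fin 6) := sw 1 5 * sw 2 4
def m6_707 : Equiv.Perm (Fin 6) := sw 1 4 * sw 2 3
def m6_708 : Equiv.Perm (Fin 6) := sw 1 3 * sw 4 5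
def m6_709 : Equiv.Perm (Fin 6) := sw 1 2 * sw 3 5
def m6_710 : Equiv.Perm (Fin 6) := sw 2 5 * sw 3 4
def m6_711 : Equiv.Perm (Fin 6) := sw 0 1 * sw 1 2 * sw 2 5 * sw 3 4
def m6_712 : Equiv.Perm (Fin 6) := sw 0 1 * sw 1 5 * sw 2 4
def m6_713 : Equiv.Perm (Fin 6) := sw 0 1 * sw 1 4 * sw 2 3
def m6_714 : Equiv.Perm (Fin 6) := sw 0 1 * sw 1 3 * sw 4 5
def m6_715 : Equiv.Perm (Fin 6) := sw 0 1 * sw 1 2 * sw 3 5
def m6_716 : Equiv.Perm (Fin 6) := sw 0 1 * sw 2 5 * sw 3 4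
def m6_717 : Equiv.Perm (Fin 6) := sw 1 2 * sw 2 5 * sw 3 4
def m6_718 : Equiv.Perm (Fin 6) := sw 0 2 * sw 2 5 * sw 3 4
def m6_719 : Equiv.Perm (Fin 6) := sw 0 2 * sw 2 5 * sw 5 1 * sw 3 4
theorem t6_0 : ψ0 r0 = m6_0 := by
  show ψ0 1 = m6_0
  rw [map_one]; rfl
theorem t6_1 : ψ0 r1 = m6_1 := by
  show ψ0 (r0 * x) = m6_1
  rw [map_mul, t6_0, ψ0_x]; decide
theorem t6_2 : ψ0 r2 = m6_2 := by
  show ψ0 (r0 * y) = m6_2
  rw [map_mul, t6_0, ψ0_y]; decide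
theorem t6_3 : ψ0 r3 = m6_3 := by
  show ψ0 (r1 * y) = m6_3
  rw [map_mul, t6_1, ψ0_y]; decide
theorem t6_4 : ψ0 r4 = m6_4 := by
  show ψ0 (r2 * x) = m6_4
  rw [map_mul, t6_2, ψ0_x]; decide
theorem t6_5 : ψ0 r5 = m6_5 := by
  show ψ0 (r2 * y) = m6_5
  rw [map_mul, t6_2, ψ0_y]; decide
theorem t6_6 : ψ0 r6 = m6_6 := by
  show ψ0 (r3 * x) = m6_6
  rw [map_mul, t6_3, ψ0_x]; decide
theorem t6_7 : ψ0 r7 = m6_7 := by
  show ψ0 (r3 * y) = m6_7
  rw [map_mul, t6_3, ψ0_y]; decide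
theorem t6_8 : ψ0 r8 = m6_8 := by
  show ψ0 (r4 * y) = m6_8
  rw [map_mul, t6_4, ψ0_y]; decide
theorem t6_9 : ψ0 r9 = m6_9 := by
  show ψ0 (r5 * x) = m6_9
  rw [map_mul, t6_5, ψ0_x]; decide
theorem t6_10 : ψ0 r10 = m6_10 := by
  show ψ0 (r5 * y) = m6_10
  rw [map_mul, t6_5, ψ0_y]; decide
theorem t6_11 : ψ0 r11 = m6_11 := by
  show ψ0 (r6 * y) = m6_11
  rw [map_mul, t6_6, ψ0_y]; decide
theorem t6_12 : ψ0 r12 = m6_12 := by
  show ψ0 (r7 * x) = m6_12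
  rw [map_mul, t6_7, ψ0_x]; decide
theorem t6_13 : ψ0 r13 = m6_13 := by
  show ψ0 (r7 * y) = m6_13
  rw [map_mul, t6_7, ψ0_y]; decide
theorem t6_14 : ψ0 r14 = m6_14 := by
  show ψ0 (r8 * x) = m6_14
  rw [map_mul, t6_8, ψ0_x]; decide
theorem t6_15 : ψ0 r15 = m6_15 := by
  show ψ0 (r8 * y) = m6_15
  rw [map_mul, t6_8, ψ0_y]; decide
theorem t6_16 : ψ0 r16 = m6_16 := by
  show ψ0 (r9 * y) = m6_16
  rw [map_mul, t6_9, ψ0_y]; decide
theorem t6_17 : ψ0 r17 = m6_17 := by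
  show ψ0 (r10 * x) = m6_17
  rw [map_mul, t6_10, ψ0_x]; decide
theorem t6_18 : ψ0 r18 = m6_18 := by
  show ψ0 (r10 * y) = m6_18
  rw [map_mul, t6_10, ψ0_y]; decide
theorem t6_19 : ψ0 r19 = m6_19 := by
  show ψ0 (r11 * x) = m6_19
  rw [map_mul, t6_11, ψ0_x]; decide
theorem t6_20 : ψ0 r20 = m6_20 := by
  show ψ0 (r11 * y) = m6_20
  rw [map_mul, t6_11, ψ0_y]; decide
theorem t6_21 : ψ0 r21 = m6_21 := by
  show ψ0 (r12 * y) = m6_21
  rw [map_mul, t6_12, ψ0_y]; decide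
theorem t6_22 : ψ0 r22 = m6_22 := by
  show ψ0 (r13 * x) = m6_22
  rw [map_mul, t6_13, ψ0_x]; decide
theorem t6_23 : ψ0 r23 = m6_23 := by
  show ψ0 (r13 * y) = m6_23
  rw [map_mul, t6_13, ψ0_y]; decide
theorem t6_24 : ψ0 r24 = m6_24 := by
  show ψ0 (r14 * y) = m6_24
  rw [map_mul, t6_14, ψ0_y]; decide
theorem t6_25 : ψ0 r25 = m6_25 := by
  show ψ0 (r15 * x) = m6_25
  rw [map_mul, t6_15, ψ0_x]; decide
theorem t6_26 : ψ0 r26 = m6_26 := by
  show ψ0 (r15 * y) = m6_26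
  rw [map_mul, t6_15, ψ0_y]; decide
theorem t6_27 : ψ0 r27 = m6_27 := by
  show ψ0 (r16 * x) = m6_27
  rw [map_mul, t6_16, ψ0_x]; decide
theorem t6_28 : ψ0 r28 = m6_28 := by
  show ψ0 (r16 * y) = m6_28
  rw [map_mul, t6_16, ψ0_y]; decide
theorem t6_29 : ψ0 r29 = m6_29 := by
  show ψ0 (r17 * y) = m6_29
  rw [map_mul, t6_17, ψ0_y]; decide
theorem t6_30 : ψ0 r30 = m6_30 := by
  show ψ0 (r18 * x) = m6_30
  rw [map_mul, t6_18, ψ0_x]; decide
theorem t6_31 : ψ0 r31 = m6_31 := by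
  show ψ0 (r18 * y) = m6_31
  rw [map_mul, t6_18, ψ0_y]; decide
theorem t6_32 : ψ0 r32 = m6_32 := by
  show ψ0 (r19 * y) = m6_32
  rw [map_mul, t6_19, ψ0_y]; decide
theorem t6_33 : ψ0 r33 = m6_33 := by
  show ψ0 (r20 * x) = m6_33
  rw [map_mul, t6_20, ψ0_x]; decide
theorem t6_34 : ψ0 r34 = m6_34 := by
  show ψ0 (r20 * y) = m6_34
  rw [map_mul, t6_20, ψ0_y]; decide
theorem t6_35 : ψ0 r35 = m6_35 := by
  show ψ0 (r21 * x) = m6_35
  rw [map_mul, t6_21, ψ0_x]; decide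
theorem t6_36 : ψ0 r36 = m6_36 := by
  show ψ0 (r21 * y) = m6_36
  rw [map_mul, t6_21, ψ0_y]; decide
theorem t6_37 : ψ0 r37 = m6_37 := by
  show ψ0 (r22 * y) = m6_37
  rw [map_mul, t6_22, ψ0_y]; decide
theorem t6_38 : ψ0 r38 = m6_38 := by
  show ψ0 (r23 * x) = m6_38
  rw [map_mul, t6_23, ψ0_x]; decide
theorem t6_39 : ψ0 r39 = m6_39 := by
  show ψ0 (r23 * y) = m6_39
  rw [map_mul, t6_23, ψ0_y]; decide
theorem t6_40 : ψ0 r40 = m6_40 := by
  show ψ0 (r24 * x) = m6_40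
  rw [map_mul, t6_24, ψ0_x]; decide
theorem t6_41 : ψ0 r41 = m6_41 := by
  show ψ0 (r24 * y) = m6_41
  rw [map_mul, t6_24, ψ0_y]; decide
theorem t6_42 : ψ0 r42 = m6_42 := by
  show ψ0 (r25 * y) = m6_42
  rw [map_mul, t6_25, ψ0_y]; decide
theorem t6_43 : ψ0 r43 = m6_43 := by
  show ψ0 (r26 * x) = m6_43
  rw [map_mul, t6_26, ψ0_x]; decide
theorem t6_44 : ψ0 r44 = m6_44 := by
  show ψ0 (r26 * y) = m6_44
  rw [map_mul, t6_26, ψ0_y]; decide
theorem t6_45 : ψ0 r45 = m6_45 := by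
  show ψ0 (r27 * y) = m6_45
  rw [map_mul, t6_27, ψ0_y]; decide
theorem t6_46 : ψ0 r46 = m6_46 := by
  show ψ0 (r28 * x) = m6_46
  rw [map_mul, t6_28, ψ0_x]; decide
theorem t6_47 : ψ0 r47 = m6_47 := by
  show ψ0 (r28 * y) = m6_47
  rw [map_mul, t6_28, ψ0_y]; decide
theorem t6_48 : ψ0 r48 = m6_48 := by
  show ψ0 (r29 * x) = m6_48
  rw [map_mul, t6_29, ψ0_x]; decide
theorem t6_49 : ψ0 r49 = m6_49 := by
  show ψ0 (r29 * y) = m6_49
  rw [map_mul, t6_29, ψ0_y]; decide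
theorem t6_50 : ψ0 r50 = m6_50 := by
  show ψ0 (r30 * y) = m6_50
  rw [map_mul, t6_30, ψ0_y]; decide
theorem t6_51 : ψ0 r51 = m6_51 := by
  show ψ0 (r31 * x) = m6_51
  rw [map_mul, t6_31, ψ0_x]; decide
theorem t6_52 : ψ0 r52 = m6_52 := by
  show ψ0 (r32 * x) = m6_52
  rw [map_mul, t6_32, ψ0_x]; decide
theorem t6_53 : ψ0 r53 = m6_53 := by
  show ψ0 (r32 * y) = m6_53
  rw [map_mul, t6_32, ψ0_y]; decide
theorem t6_54 : ψ0 r54 = m6_54 := by
  show ψ0 (r33 * y) = m6_54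
  rw [map_mul, t6_33, ψ0_y]; decide
theorem t6_55 : ψ0 r55 = m6_55 := by
  show ψ0 (r34 * x) = m6_55
  rw [map_mul, t6_34, ψ0_x]; decide
theorem t6_56 : ψ0 r56 = m6_56 := by
  show ψ0 (r34 * y) = m6_56
  rw [map_mul, t6_34, ψ0_y]; decide
theorem t6_57 : ψ0 r57 = m6_57 := by
  show ψ0 (r35 * y) = m6_57
  rw [map_mul, t6_35, ψ0_y]; decide
theorem t6_58 : ψ0 r58 = m6_58 := by
  show ψ0 (r36 * x) = m6_58
  rw [map_mul, t6_36, ψ0_x]; decide
theorem t6_59 : ψ0 r59 = m6_59 := by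
  show ψ0 (r36 * y) = m6_59
  rw [map_mul, t6_36, ψ0_y]; decide
theorem t6_60 : ψ0 r60 = m6_60 := by
  show ψ0 (r37 * x) = m6_60
  rw [map_mul, t6_37, ψ0_x]; decide
theorem t6_61 : ψ0 r61 = m6_61 := by
  show ψ0 (r37 * y) = m6_61
  rw [map_mul, t6_37, ψ0_y]; decide
theorem t6_62 : ψ0 r62 = m6_62 := by
  show ψ0 (r38 * y) = m6_62
  rw [map_mul, t6_38, ψ0_y]; decide
theorem t6_63 : ψ0 r63 = m6_63 := by
  show ψ0 (r39 * x) = m6_63
  rw [map_mul, t6_39, ψ0_x]; decide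
theorem t6_64 : ψ0 r64 = m6_64 := by
  show ψ0 (r41 * x) = m6_64
  rw [map_mul, t6_41, ψ0_x]; decide
theorem t6_65 : ψ0 r65 = m6_65 := by
  show ψ0 (r41 * y) = m6_65
  rw [map_mul, t6_41, ψ0_y]; decide
theorem t6_66 : ψ0 r66 = m6_66 := by
  show ψ0 (r42 * x) = m6_66
  rw [map_mul, t6_42, ψ0_x]; decide
theorem t6_67 : ψ0 r67 = m6_67 := by
  show ψ0 (r42 * y) = m6_67
  rw [map_mul, t6_42, ψ0_y]; decide
theorem t6_68 : ψ0 r68 = m6_68 := by
  show ψ0 (r43 * y) = m6_68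
  rw [map_mul, t6_43, ψ0_y]; decide
theorem t6_69 : ψ0 r69 = m6_69 := by
  show ψ0 (r44 * x) = m6_69
  rw [map_mul, t6_44, ψ0_x]; decide
theorem t6_70 : ψ0 r70 = m6_70 := by
  show ψ0 (r44 * y) = m6_70
  rw [map_mul, t6_44, ψ0_y]; decide
theorem t6_71 : ψ0 r71 = m6_71 := by
  show ψ0 (r45 * x) = m6_71
  rw [map_mul, t6_45, ψ0_x]; decide
theorem t6_72 : ψ0 r72 = m6_72 := by
  show ψ0 (r45 * y) = m6_72
  rw [map_mul, t6_45, ψ0_y]; decide
theorem t6_73 : ψ0 r73 = m6_73 := by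
  show ψ0 (r46 * y) = m6_73
  rw [map_mul, t6_46, ψ0_y]; decide
theorem t6_74 : ψ0 r74 = m6_74 := by
  show ψ0 (r47 * x) = m6_74
  rw [map_mul, t6_47, ψ0_x]; decide
theorem t6_75 : ψ0 r75 = m6_75 := by
  show ψ0 (r47 * y) = m6_75
  rw [map_mul, t6_47, ψ0_y]; decide
theorem t6_76 : ψ0 r76 = m6_76 := by
  show ψ0 (r48 * y) = m6_76
  rw [map_mul, t6_48, ψ0_y]; decide
theorem t6_77 : ψ0 r77 = m6_77 := by
  show ψ0 (r49 * x) = m6_77
  rw [map_mul, t6_49, ψ0_x]; decide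
theorem t6_78 : ψ0 r78 = m6_78 := by
  show ψ0 (r49 * y) = m6_78
  rw [map_mul, t6_49, ψ0_y]; decide
theorem t6_79 : ψ0 r79 = m6_79 := by
  show ψ0 (r50 * x) = m6_79
  rw [map_mul, t6_50, ψ0_x]; decide
theorem t6_80 : ψ0 r80 = m6_80 := by
  show ψ0 (r50 * y) = m6_80
  rw [map_mul, t6_50, ψ0_y]; decide
theorem t6_81 : ψ0 r81 = m6_81 := by
  show ψ0 (r51 * y) = m6_81
  rw [map_mul, t6_51, ψ0_y]; decide
theorem t6_82 : ψ0 r82 = m6_82 := by
  show ψ0 (r53 * x) = m6_82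
  rw [map_mul, t6_53, ψ0_x]; decide
theorem t6_83 : ψ0 r83 = m6_83 := by
  show ψ0 (r53 * y) = m6_83
  rw [map_mul, t6_53, ψ0_y]; decide
theorem t6_84 : ψ0 r84 = m6_84 := by
  show ψ0 (r54 * x) = m6_84
  rw [map_mul, t6_54, ψ0_x]; decide
theorem t6_85 : ψ0 r85 = m6_85 := by
  show ψ0 (r54 * y) = m6_85
  rw [map_mul, t6_54, ψ0_y]; decide
theorem t6_86 : ψ0 r86 = m6_86 := by
  show ψ0 (r55 * y) = m6_86
  rw [map_mul, t6_55, ψ0_y]; decide
theorem t6_87 : ψ0 r87 = m6_87 := by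
  show ψ0 (r56 * x) = m6_87
  rw [map_mul, t6_56, ψ0_x]; decide
theorem t6_88 : ψ0 r88 = m6_88 := by
  show ψ0 (r56 * y) = m6_88
  rw [map_mul, t6_56, ψ0_y]; decide
theorem t6_89 : ψ0 r89 = m6_89 := by
  show ψ0 (r57 * x) = m6_89
  rw [map_mul, t6_57, ψ0_x]; decide
theorem t6_90 : ψ0 r90 = m6_90 := by
  show ψ0 (r57 * y) = m6_90
  rw [map_mul, t6_57, ψ0_y]; decide
theorem t6_91 : ψ0 r91 = m6_91 := by
  show ψ0 (r58 * y) = m6_91
  rw [map_mul, t6_58, ψ0_y]; decide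
theorem t6_92 : ψ0 r92 = m6_92 := by
  show ψ0 (r59 * x) = m6_92
  rw [map_mul, t6_59, ψ0_x]; decide
theorem t6_93 : ψ0 r93 = m6_93 := by
  show ψ0 (r59 * y) = m6_93
  rw [map_mul, t6_59, ψ0_y]; decide
theorem t6_94 : ψ0 r94 = m6_94 := by
  show ψ0 (r60 * y) = m6_94
  rw [map_mul, t6_60, ψ0_y]; decide
theorem t6_95 : ψ0 r95 = m6_95 := by
  show ψ0 (r61 * x) = m6_95
  rw [map_mul, t6_61, ψ0_x]; decide
theorem t6_96 : ψ0 r96 = m6_96 := by
  show ψ0 (r61 * y) = m6_96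
  rw [map_mul, t6_61, ψ0_y]; decide
theorem t6_97 : ψ0 r97 = m6_97 := by
  show ψ0 (r62 * x) = m6_97
  rw [map_mul, t6_62, ψ0_x]; decide
theorem t6_98 : ψ0 r98 = m6_98 := by
  show ψ0 (r62 * y) = m6_98
  rw [map_mul, t6_62, ψ0_y]; decide
theorem t6_99 : ψ0 r99 = m6_99 := by
  show ψ0 (r63 * y) = m6_99
  rw [map_mul, t6_63, ψ0_y]; decide
theorem t6_100 : ψ0 r100 = m6_100 := by
  show ψ0 (r64 * y) = m6_100
  rw [map_mul, t6_64, ψ0_y]; decide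
theorem t6_101 : ψ0 r101 = m6_101 := by
  show ψ0 (r65 * x) = m6_101
  rw [map_mul, t6_65, ψ0_x]; decide
theorem t6_102 : ψ0 r102 = m6_102 := by
  show ψ0 (r65 * y) = m6_102
  rw [map_mul, t6_65, ψ0_y]; decide
theorem t6_103 : ψ0 r103 = m6_103 := by
  show ψ0 (r66 * y) = m6_103
  rw [map_mul, t6_66, ψ0_y]; decide
theorem t6_104 : ψ0 r104 = m6_104 := by
  show ψ0 (r67 * x) = m6_104
  rw [map_mul, t6_67, ψ0_x]; decide
theorem t6_105 : ψ0 r105 = m6_105 := by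
  show ψ0 (r67 * y) = m6_105
  rw [map_mul, t6_67, ψ0_y]; decide
theorem t6_106 : ψ0 r106 = m6_106 := by
  show ψ0 (r68 * x) = m6_106
  rw [map_mul, t6_68, ψ0_x]; decide
theorem t6_107 : ψ0 r107 = m6_107 := by
  show ψ0 (r68 * y) = m6_107
  rw [map_mul, t6_68, ψ0_y]; decide
theorem t6_108 : ψ0 r108 = m6_108 := by
  show ψ0 (r69 * y) = m6_108
  rw [map_mul, t6_69, ψ0_y]; decide
theorem t6_109 : ψ0 r109 = m6_109 := by
  show ψ0 (r70 * x) = m6_109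
  rw [map_mul, t6_70, ψ0_x]; decide
theorem t6_110 : ψ0 r110 = m6_110 := by
  show ψ0 (r72 * x) = m6_110
  rw [map_mul, t6_72, ψ0_x]; decide
theorem t6_111 : ψ0 r111 = m6_111 := by
  show ψ0 (r72 * y) = m6_111
  rw [map_mul, t6_72, ψ0_y]; decide
theorem t6_112 : ψ0 r112 = m6_112 := by
  show ψ0 (r73 * x) = m6_112
  rw [map_mul, t6_73, ψ0_x]; decide
theorem t6_113 : ψ0 r113 = m6_113 := by
  show ψ0 (r73 * y) = m6_113
  rw [map_mul, t6_73, ψ0_y]; decide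
theorem t6_114 : ψ0 r114 = m6_114 := by
  show ψ0 (r74 * y) = m6_114
  rw [map_mul, t6_74, ψ0_y]; decide
theorem t6_115 : ψ0 r115 = m6_115 := by
  show ψ0 (r75 * y) = m6_115
  rw [map_mul, t6_75, ψ0_y]; decide
theorem t6_116 : ψ0 r116 = m6_116 := by
  show ψ0 (r76 * x) = m6_116
  rw [map_mul, t6_76, ψ0_x]; decide
theorem t6_117 : ψ0 r117 = m6_117 := by
  show ψ0 (r76 * y) = m6_117
  rw [map_mul, t6_76, ψ0_y]; decide
theorem t6_118 : ψ0 r118 = m6_118 := by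
  show ψ0 (r77 * y) = m6_118
  rw [map_mul, t6_77, ψ0_y]; decide
theorem t6_119 : ψ0 r119 = m6_119 := by
  show ψ0 (r78 * y) = m6_119
  rw [map_mul, t6_78, ψ0_y]; decide
theorem t6_120 : ψ0 r120 = m6_120 := by
  show ψ0 (r79 * y) = m6_120
  rw [map_mul, t6_79, ψ0_y]; decide
theorem t6_121 : ψ0 r121 = m6_121 := by
  show ψ0 (r80 * y) = m6_121
  rw [map_mul, t6_80, ψ0_y]; decide
theorem t6_122 : ψ0 r122 = m6_122 := by
  show ψ0 (r81 * x) = m6_122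
  rw [map_mul, t6_81, ψ0_x]; decide
theorem t6_123 : ψ0 r123 = m6_123 := by
  show ψ0 (r81 * y) = m6_123
  rw [map_mul, t6_81, ψ0_y]; decide
theorem t6_124 : ψ0 r124 = m6_124 := by
  show ψ0 (r82 * y) = m6_124
  rw [map_mul, t6_82, ψ0_y]; decide
theorem t6_125 : ψ0 r125 = m6_125 := by
  show ψ0 (r83 * x) = m6_125
  rw [map_mul, t6_83, ψ0_x]; decide
theorem t6_126 : ψ0 r126 = m6_126 := by
  show ψ0 (r83 * y) = m6_126
  rw [map_mul, t6_83, ψ0_y]; decide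
theorem t6_127 : ψ0 r127 = m6_127 := by
  show ψ0 (r84 * y) = m6_127
  rw [map_mul, t6_84, ψ0_y]; decide
theorem t6_128 : ψ0 r128 = m6_128 := by
  show ψ0 (r85 * x) = m6_128
  rw [map_mul, t6_85, ψ0_x]; decide
theorem t6_129 : ψ0 r129 = m6_129 := by
  show ψ0 (r85 * y) = m6_129
  rw [map_mul, t6_85, ψ0_y]; decide
theorem t6_130 : ψ0 r130 = m6_130 := by
  show ψ0 (r86 * x) = m6_130
  rw [map_mul, t6_86, ψ0_x]; decide
theorem t6_131 : ψ0 r131 = m6_131 := by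
  show ψ0 (r86 * y) = m6_131
  rw [map_mul, t6_86, ψ0_y]; decide
theorem t6_132 : ψ0 r132 = m6_132 := by
  show ψ0 (r87 * y) = m6_132
  rw [map_mul, t6_87, ψ0_y]; decide
theorem t6_133 : ψ0 r133 = m6_133 := by
  show ψ0 (r88 * x) = m6_133
  rw [map_mul, t6_88, ψ0_x]; decide
theorem t6_134 : ψ0 r134 = m6_134 := by
  show ψ0 (r90 * x) = m6_134
  rw [map_mul, t6_90, ψ0_x]; decide
theorem t6_135 : ψ0 r135 = m6_135 := by
  show ψ0 (r90 * y) = m6_135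
  rw [map_mul, t6_90, ψ0_y]; decide
theorem t6_136 : ψ0 r136 = m6_136 := by
  show ψ0 (r91 * x) = m6_136
  rw [map_mul, t6_91, ψ0_x]; decide
theorem t6_137 : ψ0 r137 = m6_137 := by
  show ψ0 (r91 * y) = m6_137
  rw [map_mul, t6_91, ψ0_y]; decide
theorem t6_138 : ψ0 r138 = m6_138 := by
  show ψ0 (r92 * y) = m6_138
  rw [map_mul, t6_92, ψ0_y]; decide
theorem t6_139 : ψ0 r139 = m6_139 := by
  show ψ0 (r93 * y) = m6_139
  rw [map_mul, t6_93, ψ0_y]; decide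
theorem t6_140 : ψ0 r140 = m6_140 := by
  show ψ0 (r94 * x) = m6_140
  rw [map_mul, t6_94, ψ0_x]; decide
theorem t6_141 : ψ0 r141 = m6_141 := by
  show ψ0 (r94 * y) = m6_141
  rw [map_mul, t6_94, ψ0_y]; decide
theorem t6_142 : ψ0 r142 = m6_142 := by
  show ψ0 (r95 * y) = m6_142
  rw [map_mul, t6_95, ψ0_y]; decide
theorem t6_143 : ψ0 r143 = m6_143 := by
  show ψ0 (r96 * y) = m6_143
  rw [map_mul, t6_96, ψ0_y]; decide
theorem t6_144 : ψ0 r144 = m6_144 := by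
  show ψ0 (r97 * y) = m6_144
  rw [map_mul, t6_97, ψ0_y]; decide
theorem t6_145 : ψ0 r145 = m6_145 := by
  show ψ0 (r98 * y) = m6_145
  rw [map_mul, t6_98, ψ0_y]; decide
theorem t6_146 : ψ0 r146 = m6_146 := by
  show ψ0 (r99 * x) = m6_146
  rw [map_mul, t6_99, ψ0_x]; decide
theorem t6_147 : ψ0 r147 = m6_147 := by
  show ψ0 (r99 * y) = m6_147
  rw [map_mul, t6_99, ψ0_y]; decide
theorem t6_148 : ψ0 r148 = m6_148 := by
  show ψ0 (r100 * x) = m6_148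
  rw [map_mul, t6_100, ψ0_x]; decide
theorem t6_149 : ψ0 r149 = m6_149 := by
  show ψ0 (r100 * y) = m6_149
  rw [map_mul, t6_100, ψ0_y]; decide
theorem t6_150 : ψ0 r150 = m6_150 := by
  show ψ0 (r101 * y) = m6_150
  rw [map_mul, t6_101, ψ0_y]; decide
theorem t6_151 : ψ0 r151 = m6_151 := by
  show ψ0 (r102 * x) = m6_151
  rw [map_mul, t6_102, ψ0_x]; decide
theorem t6_152 : ψ0 r152 = m6_152 := by
  show ψ0 (r102 * y) = m6_152
  rw [map_mul, t6_102, ψ0_y]; decide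
theorem t6_153 : ψ0 r153 = m6_153 := by
  show ψ0 (r103 * x) = m6_153
  rw [map_mul, t6_103, ψ0_x]; decide
theorem t6_154 : ψ0 r154 = m6_154 := by
  show ψ0 (r103 * y) = m6_154
  rw [map_mul, t6_103, ψ0_y]; decide
theorem t6_155 : ψ0 r155 = m6_155 := by
  show ψ0 (r104 * y) = m6_155
  rw [map_mul, t6_104, ψ0_y]; decide
theorem t6_156 : ψ0 r156 = m6_156 := by
  show ψ0 (r105 * x) = m6_156
  rw [map_mul, t6_105, ψ0_x]; decide
theorem t6_157 : ψ0 r157 = m6_157 := by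
  show ψ0 (r105 * y) = m6_157
  rw [map_mul, t6_105, ψ0_y]; decide
theorem t6_158 : ψ0 r158 = m6_158 := by
  show ψ0 (r106 * y) = m6_158
  rw [map_mul, t6_106, ψ0_y]; decide
theorem t6_159 : ψ0 r159 = m6_159 := by
  show ψ0 (r107 * x) = m6_159
  rw [map_mul, t6_107, ψ0_x]; decide
theorem t6_160 : ψ0 r160 = m6_160 := by
  show ψ0 (r107 * y) = m6_160
  rw [map_mul, t6_107, ψ0_y]; decide
theorem t6_161 : ψ0 r161 = m6_161 := by
  show ψ0 (r108 * x) = m6_161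
  rw [map_mul, t6_108, ψ0_x]; decide
theorem t6_162 : ψ0 r162 = m6_162 := by
  show ψ0 (r108 * y) = m6_162
  rw [map_mul, t6_108, ψ0_y]; decide
theorem t6_163 : ψ0 r163 = m6_163 := by
  show ψ0 (r109 * y) = m6_163
  rw [map_mul, t6_109, ψ0_y]; decide
theorem t6_164 : ψ0 r164 = m6_164 := by
  show ψ0 (r110 * y) = m6_164
  rw [map_mul, t6_110, ψ0_y]; decide
theorem t6_165 : ψ0 r165 = m6_165 := by
  show ψ0 (r111 * y) = m6_165
  rw [map_mul, t6_111, ψ0_y]; decide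
theorem t6_166 : ψ0 r166 = m6_166 := by
  show ψ0 (r112 * y) = m6_166
  rw [map_mul, t6_112, ψ0_y]; decide
theorem t6_167 : ψ0 r167 = m6_167 := by
  show ψ0 (r113 * y) = m6_167
  rw [map_mul, t6_113, ψ0_y]; decide
theorem t6_168 : ψ0 r168 = m6_168 := by
  show ψ0 (r114 * x) = m6_168
  rw [map_mul, t6_114, ψ0_x]; decide
theorem t6_169 : ψ0 r169 = m6_169 := by
  show ψ0 (r114 * y) = m6_169
  rw [map_mul, t6_114, ψ0_y]; decide
theorem t6_170 : ψ0 r170 = m6_170 := by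
  show ψ0 (r115 * x) = m6_170
  rw [map_mul, t6_115, ψ0_x]; decide
theorem t6_171 : ψ0 r171 = m6_171 := by
  show ψ0 (r117 * y) = m6_171
  rw [map_mul, t6_117, ψ0_y]; decide
theorem t6_172 : ψ0 r172 = m6_172 := by
  show ψ0 (r118 * x) = m6_172
  rw [map_mul, t6_118, ψ0_x]; decide
theorem t6_173 : ψ0 r173 = m6_173 := by
  show ψ0 (r118 * y) = m6_173
  rw [map_mul, t6_118, ψ0_y]; decide
theorem t6_174 : ψ0 r174 = m6_174 := by
  show ψ0 (r119 * y) = m6_174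
  rw [map_mul, t6_119, ψ0_y]; decide
theorem t6_175 : ψ0 r175 = m6_175 := by
  show ψ0 (r120 * x) = m6_175
  rw [map_mul, t6_120, ψ0_x]; decide
theorem t6_176 : ψ0 r176 = m6_176 := by
  show ψ0 (r120 * y) = m6_176
  rw [map_mul, t6_120, ψ0_y]; decide
theorem t6_177 : ψ0 r177 = m6_177 := by
  show ψ0 (r121 * y) = m6_177
  rw [map_mul, t6_121, ψ0_y]; decide
theorem t6_178 : ψ0 r178 = m6_178 := by
  show ψ0 (r122 * y) = m6_178
  rw [map_mul, t6_122, ψ0_y]; decide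
theorem t6_179 : ψ0 r179 = m6_179 := by
  show ψ0 (r123 * y) = m6_179
  rw [map_mul, t6_123, ψ0_y]; decide
theorem t6_180 : ψ0 r180 = m6_180 := by
  show ψ0 (r124 * x) = m6_180
  rw [map_mul, t6_124, ψ0_x]; decide
theorem t6_181 : ψ0 r181 = m6_181 := by
  show ψ0 (r124 * y) = m6_181
  rw [map_mul, t6_124, ψ0_y]; decide
theorem t6_182 : ψ0 r182 = m6_182 := by
  show ψ0 (r125 * y) = m6_182
  rw [map_mul, t6_125, ψ0_y]; decide
theorem t6_183 : ψ0 r183 = m6_183 := by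
  show ψ0 (r126 * x) = m6_183
  rw [map_mul, t6_126, ψ0_x]; decide
theorem t6_184 : ψ0 r184 = m6_184 := by
  show ψ0 (r126 * y) = m6_184
  rw [map_mul, t6_126, ψ0_y]; decide
theorem t6_185 : ψ0 r185 = m6_185 := by
  show ψ0 (r127 * x) = m6_185
  rw [map_mul, t6_127, ψ0_x]; decide
theorem t6_186 : ψ0 r186 = m6_186 := by
  show ψ0 (r127 * y) = m6_186
  rw [map_mul, t6_127, ψ0_y]; decide
theorem t6_187 : ψ0 r187 = m6_187 := by
  show ψ0 (r128 * y) = m6_187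
  rw [map_mul, t6_128, ψ0_y]; decide
theorem t6_188 : ψ0 r188 = m6_188 := by
  show ψ0 (r129 * x) = m6_188
  rw [map_mul, t6_129, ψ0_x]; decide
theorem t6_189 : ψ0 r189 = m6_189 := by
  show ψ0 (r129 * y) = m6_189
  rw [map_mul, t6_129, ψ0_y]; decide
theorem t6_190 : ψ0 r190 = m6_190 := by
  show ψ0 (r130 * y) = m6_190
  rw [map_mul, t6_130, ψ0_y]; decide
theorem t6_191 : ψ0 r191 = m6_191 := by
  show ψ0 (r131 * x) = m6_191
  rw [map_mul, t6_131, ψ0_x]; decide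
theorem t6_192 : ψ0 r192 = m6_192 := by
  show ψ0 (r131 * y) = m6_192
  rw [map_mul, t6_131, ψ0_y]; decide
theorem t6_193 : ψ0 r193 = m6_193 := by
  show ψ0 (r132 * x) = m6_193
  rw [map_mul, t6_132, ψ0_x]; decide
theorem t6_194 : ψ0 r194 = m6_194 := by
  show ψ0 (r132 * y) = m6_194
  rw [map_mul, t6_132, ψ0_y]; decide
theorem t6_195 : ψ0 r195 = m6_195 := by
  show ψ0 (r133 * y) = m6_195
  rw [map_mul, t6_133, ψ0_y]; decide
theorem t6_196 : ψ0 r196 = m6_196 := by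
  show ψ0 (r134 * y) = m6_196
  rw [map_mul, t6_134, ψ0_y]; decide
theorem t6_197 : ψ0 r197 = m6_197 := by
  show ψ0 (r135 * y) = m6_197
  rw [map_mul, t6_135, ψ0_y]; decide
theorem t6_198 : ψ0 r198 = m6_198 := by
  show ψ0 (r136 * y) = m6_198
  rw [map_mul, t6_136, ψ0_y]; decide
theorem t6_199 : ψ0 r199 = m6_199 := by
  show ψ0 (r137 * y) = m6_199
  rw [map_mul, t6_137, ψ0_y]; decide
theorem t6_200 : ψ0 r200 = m6_200 := by
  show ψ0 (r138 * x) = m6_200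
  rw [map_mul, t6_138, ψ0_x]; decide
theorem t6_201 : ψ0 r201 = m6_201 := by
  show ψ0 (r138 * y) = m6_201
  rw [map_mul, t6_138, ψ0_y]; decide
theorem t6_202 : ψ0 r202 = m6_202 := by
  show ψ0 (r139 * x) = m6_202
  rw [map_mul, t6_139, ψ0_x]; decide
theorem t6_203 : ψ0 r203 = m6_203 := by
  show ψ0 (r141 * y) = m6_203
  rw [map_mul, t6_141, ψ0_y]; decide
theorem t6_204 : ψ0 r204 = m6_204 := by
  show ψ0 (r142 * x) = m6_204
  rw [map_mul, t6_142, ψ0_x]; decide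
theorem t6_205 : ψ0 r205 = m6_205 := by
  show ψ0 (r142 * y) = m6_205
  rw [map_mul, t6_142, ψ0_y]; decide
theorem t6_206 : ψ0 r206 = m6_206 := by
  show ψ0 (r143 * y) = m6_206
  rw [map_mul, t6_143, ψ0_y]; decide
theorem t6_207 : ψ0 r207 = m6_207 := by
  show ψ0 (r144 * x) = m6_207
  rw [map_mul, t6_144, ψ0_x]; decide
theorem t6_208 : ψ0 r208 = m6_208 := by
  show ψ0 (r144 * y) = m6_208
  rw [map_mul, t6_144, ψ0_y]; decide
theorem t6_209 : ψ0 r209 = m6_209 := by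
  show ψ0 (r145 * y) = m6_209
  rw [map_mul, t6_145, ψ0_y]; decide
theorem t6_210 : ψ0 r210 = m6_210 := by
  show ψ0 (r146 * y) = m6_210
  rw [map_mul, t6_146, ψ0_y]; decide
theorem t6_211 : ψ0 r211 = m6_211 := by
  show ψ0 (r147 * y) = m6_211
  rw [map_mul, t6_147, ψ0_y]; decide
theorem t6_212 : ψ0 r212 = m6_212 := by
  show ψ0 (r148 * y) = m6_212
  rw [map_mul, t6_148, ψ0_y]; decide
theorem t6_213 : ψ0 r213 = m6_213 := by
  show ψ0 (r149 * x) = m6_213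
  rw [map_mul, t6_149, ψ0_x]; decide
theorem t6_214 : ψ0 r214 = m6_214 := by
  show ψ0 (r149 * y) = m6_214
  rw [map_mul, t6_149, ψ0_y]; decide
theorem t6_215 : ψ0 r215 = m6_215 := by
  show ψ0 (r150 * x) = m6_215
  rw [map_mul, t6_150, ψ0_x]; decide
theorem t6_216 : ψ0 r216 = m6_216 := by
  show ψ0 (r150 * y) = m6_216
  rw [map_mul, t6_150, ψ0_y]; decide
theorem t6_217 : ψ0 r217 = m6_217 := by
  show ψ0 (r151 * y) = m6_217
  rw [map_mul, t6_151, ψ0_y]; decide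
theorem t6_218 : ψ0 r218 = m6_218 := by
  show ψ0 (r152 * x) = m6_218
  rw [map_mul, t6_152, ψ0_x]; decide
theorem t6_219 : ψ0 r219 = m6_219 := by
  show ψ0 (r154 * x) = m6_219
  rw [map_mul, t6_154, ψ0_x]; decide
theorem t6_220 : ψ0 r220 = m6_220 := by
  show ψ0 (r154 * y) = m6_220
  rw [map_mul, t6_154, ψ0_y]; decide
theorem t6_221 : ψ0 r221 = m6_221 := by
  show ψ0 (r155 * x) = m6_221
  rw [map_mul, t6_155, ψ0_x]; decide
theorem t6_222 : ψ0 r222 = m6_222 := by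
  show ψ0 (r155 * y) = m6_222
  rw [map_mul, t6_155, ψ0_y]; decide
theorem t6_223 : ψ0 r223 = m6_223 := by
  show ψ0 (r156 * y) = m6_223
  rw [map_mul, t6_156, ψ0_y]; decide
theorem t6_224 : ψ0 r224 = m6_224 := by
  show ψ0 (r157 * y) = m6_224
  rw [map_mul, t6_157, ψ0_y]; decide
theorem t6_225 : ψ0 r225 = m6_225 := by
  show ψ0 (r158 * x) = m6_225
  rw [map_mul, t6_158, ψ0_x]; decide
theorem t6_226 : ψ0 r226 = m6_226 := by
  show ψ0 (r158 * y) = m6_226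
  rw [map_mul, t6_158, ψ0_y]; decide
theorem t6_227 : ψ0 r227 = m6_227 := by
  show ψ0 (r159 * y) = m6_227
  rw [map_mul, t6_159, ψ0_y]; decide
theorem t6_228 : ψ0 r228 = m6_228 := by
  show ψ0 (r160 * y) = m6_228
  rw [map_mul, t6_160, ψ0_y]; decide
theorem t6_229 : ψ0 r229 = m6_229 := by
  show ψ0 (r161 * y) = m6_229
  rw [map_mul, t6_161, ψ0_y]; decide
theorem t6_230 : ψ0 r230 = m6_230 := by
  show ψ0 (r162 * y) = m6_230
  rw [map_mul, t6_162, ψ0_y]; decide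
theorem t6_231 : ψ0 r231 = m6_231 := by
  show ψ0 (r163 * y) = m6_231
  rw [map_mul, t6_163, ψ0_y]; decide
theorem t6_232 : ψ0 r232 = m6_232 := by
  show ψ0 (r164 * x) = m6_232
  rw [map_mul, t6_164, ψ0_x]; decide
theorem t6_233 : ψ0 r233 = m6_233 := by
  show ψ0 (r164 * y) = m6_233
  rw [map_mul, t6_164, ψ0_y]; decide
theorem t6_234 : ψ0 r234 = m6_234 := by
  show ψ0 (r165 * x) = m6_234
  rw [map_mul, t6_165, ψ0_x]; decide
theorem t6_235 : ψ0 r235 = m6_235 := by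
  show ψ0 (r165 * y) = m6_235
  rw [map_mul, t6_165, ψ0_y]; decide
theorem t6_236 : ψ0 r236 = m6_236 := by
  show ψ0 (r166 * x) = m6_236
  rw [map_mul, t6_166, ψ0_x]; decide
theorem t6_237 : ψ0 r237 = m6_237 := by
  show ψ0 (r166 * y) = m6_237
  rw [map_mul, t6_166, ψ0_y]; decide
theorem t6_238 : ψ0 r238 = m6_238 := by
  show ψ0 (r167 * x) = m6_238
  rw [map_mul, t6_167, ψ0_x]; decide
theorem t6_239 : ψ0 r239 = m6_239 := by
  show ψ0 (r167 * y) = m6_239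
  rw [map_mul, t6_167, ψ0_y]; decide
theorem t6_240 : ψ0 r240 = m6_240 := by
  show ψ0 (r168 * y) = m6_240
  rw [map_mul, t6_168, ψ0_y]; decide
theorem t6_241 : ψ0 r241 = m6_241 := by
  show ψ0 (r169 * x) = m6_241
  rw [map_mul, t6_169, ψ0_x]; decide
theorem t6_242 : ψ0 r242 = m6_242 := by
  show ψ0 (r169 * y) = m6_242
  rw [map_mul, t6_169, ψ0_y]; decide
theorem t6_243 : ψ0 r243 = m6_243 := by
  show ψ0 (r170 * y) = m6_243
  rw [map_mul, t6_170, ψ0_y]; decide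
theorem t6_244 : ψ0 r244 = m6_244 := by
  show ψ0 (r171 * y) = m6_244
  rw [map_mul, t6_171, ψ0_y]; decide
theorem t6_245 : ψ0 r245 = m6_245 := by
  show ψ0 (r172 * y) = m6_245
  rw [map_mul, t6_172, ψ0_y]; decide
theorem t6_246 : ψ0 r246 = m6_246 := by
  show ψ0 (r173 * y) = m6_246
  rw [map_mul, t6_173, ψ0_y]; decide
theorem t6_247 : ψ0 r247 = m6_247 := by
  show ψ0 (r174 * x) = m6_247
  rw [map_mul, t6_174, ψ0_x]; decide
theorem t6_248 : ψ0 r248 = m6_248 := by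
  show ψ0 (r176 * y) = m6_248
  rw [map_mul, t6_176, ψ0_y]; decide
theorem t6_249 : ψ0 r249 = m6_249 := by
  show ψ0 (r177 * y) = m6_249
  rw [map_mul, t6_177, ψ0_y]; decide
theorem t6_250 : ψ0 r250 = m6_250 := by
  show ψ0 (r178 * x) = m6_250
  rw [map_mul, t6_178, ψ0_x]; decide
theorem t6_251 : ψ0 r251 = m6_251 := by
  show ψ0 (r178 * y) = m6_251
  rw [map_mul, t6_178, ψ0_y]; decide
theorem t6_252 : ψ0 r252 = m6_252 := by
  show ψ0 (r179 * y) = m6_252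
  rw [map_mul, t6_179, ψ0_y]; decide
theorem t6_253 : ψ0 r253 = m6_253 := by
  show ψ0 (r180 * y) = m6_253
  rw [map_mul, t6_180, ψ0_y]; decide
theorem t6_254 : ψ0 r254 = m6_254 := by
  show ψ0 (r181 * x) = m6_254
  rw [map_mul, t6_181, ψ0_x]; decide
theorem t6_255 : ψ0 r255 = m6_255 := by
  show ψ0 (r181 * y) = m6_255
  rw [map_mul, t6_181, ψ0_y]; decide
theorem t6_256 : ψ0 r256 = m6_256 := by
  show ψ0 (r182 * x) = m6_256
  rw [map_mul, t6_182, ψ0_x]; decide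
theorem t6_257 : ψ0 r257 = m6_257 := by
  show ψ0 (r182 * y) = m6_257
  rw [map_mul, t6_182, ψ0_y]; decide
theorem t6_258 : ψ0 r258 = m6_258 := by
  show ψ0 (r183 * y) = m6_258
  rw [map_mul, t6_183, ψ0_y]; decide
theorem t6_259 : ψ0 r259 = m6_259 := by
  show ψ0 (r184 * x) = m6_259
  rw [map_mul, t6_184, ψ0_x]; decide
theorem t6_260 : ψ0 r260 = m6_260 := by
  show ψ0 (r186 * x) = m6_260
  rw [map_mul, t6_186, ψ0_x]; decide
theorem t6_261 : ψ0 r261 = m6_261 := by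
  show ψ0 (r186 * y) = m6_261
  rw [map_mul, t6_186, ψ0_y]; decide
theorem t6_262 : ψ0 r262 = m6_262 := by
  show ψ0 (r187 * x) = m6_262
  rw [map_mul, t6_187, ψ0_x]; decide
theorem t6_263 : ψ0 r263 = m6_263 := by
  show ψ0 (r187 * y) = m6_263
  rw [map_mul, t6_187, ψ0_y]; decide
theorem t6_264 : ψ0 r264 = m6_264 := by
  show ψ0 (r188 * y) = m6_264
  rw [map_mul, t6_188, ψ0_y]; decide
theorem t6_265 : ψ0 r265 = m6_265 := by
  show ψ0 (r189 * y) = m6_265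
  rw [map_mul, t6_189, ψ0_y]; decide
theorem t6_266 : ψ0 r266 = m6_266 := by
  show ψ0 (r190 * x) = m6_266
  rw [map_mul, t6_190, ψ0_x]; decide
theorem t6_267 : ψ0 r267 = m6_267 := by
  show ψ0 (r190 * y) = m6_267
  rw [map_mul, t6_190, ψ0_y]; decide
theorem t6_268 : ψ0 r268 = m6_268 := by
  show ψ0 (r191 * y) = m6_268
  rw [map_mul, t6_191, ψ0_y]; decide
theorem t6_269 : ψ0 r269 = m6_269 := by
  show ψ0 (r192 * y) = m6_269
  rw [map_mul, t6_192, ψ0_y]; decide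
theorem t6_270 : ψ0 r270 = m6_270 := by
  show ψ0 (r193 * y) = m6_270
  rw [map_mul, t6_193, ψ0_y]; decide
theorem t6_271 : ψ0 r271 = m6_271 := by
  show ψ0 (r194 * y) = m6_271
  rw [map_mul, t6_194, ψ0_y]; decide
theorem t6_272 : ψ0 r272 = m6_272 := by
  show ψ0 (r195 * y) = m6_272
  rw [map_mul, t6_195, ψ0_y]; decide
theorem t6_273 : ψ0 r273 = m6_273 := by
  show ψ0 (r196 * x) = m6_273
  rw [map_mul, t6_196, ψ0_x]; decide
theorem t6_274 : ψ0 r274 = m6_274 := by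
  show ψ0 (r196 * y) = m6_274
  rw [map_mul, t6_196, ψ0_y]; decide
theorem t6_275 : ψ0 r275 = m6_275 := by
  show ψ0 (r197 * x) = m6_275
  rw [map_mul, t6_197, ψ0_x]; decide
theorem t6_276 : ψ0 r276 = m6_276 := by
  show ψ0 (r197 * y) = m6_276
  rw [map_mul, t6_197, ψ0_y]; decide
theorem t6_277 : ψ0 r277 = m6_277 := by
  show ψ0 (r198 * x) = m6_277
  rw [map_mul, t6_198, ψ0_x]; decide
theorem t6_278 : ψ0 r278 = m6_278 := by
  show ψ0 (r198 * y) = m6_278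
  rw [map_mul, t6_198, ψ0_y]; decide
theorem t6_279 : ψ0 r279 = m6_279 := by
  show ψ0 (r199 * x) = m6_279
  rw [map_mul, t6_199, ψ0_x]; decide
theorem t6_280 : ψ0 r280 = m6_280 := by
  show ψ0 (r199 * y) = m6_280
  rw [map_mul, t6_199, ψ0_y]; decide
theorem t6_281 : ψ0 r281 = m6_281 := by
  show ψ0 (r200 * y) = m6_281
  rw [map_mul, t6_200, ψ0_y]; decide
theorem t6_282 : ψ0 r282 = m6_282 := by
  show ψ0 (r201 * x) = m6_282
  rw [map_mul, t6_201, ψ0_x]; decide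
theorem t6_283 : ψ0 r283 = m6_283 := by
  show ψ0 (r201 * y) = m6_283
  rw [map_mul, t6_201, ψ0_y]; decide
theorem t6_284 : ψ0 r284 = m6_284 := by
  show ψ0 (r202 * y) = m6_284
  rw [map_mul, t6_202, ψ0_y]; decide
theorem t6_285 : ψ0 r285 = m6_285 := by
  show ψ0 (r203 * y) = m6_285
  rw [map_mul, t6_203, ψ0_y]; decide
theorem t6_286 : ψ0 r286 = m6_286 := by
  show ψ0 (r204 * y) = m6_286
  rw [map_mul, t6_204, ψ0_y]; decide
theorem t6_287 : ψ0 r287 = m6_287 := by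
  show ψ0 (r205 * y) = m6_287
  rw [map_mul, t6_205, ψ0_y]; decide
theorem t6_288 : ψ0 r288 = m6_288 := by
  show ψ0 (r206 * x) = m6_288
  rw [map_mul, t6_206, ψ0_x]; decide
theorem t6_289 : ψ0 r289 = m6_289 := by
  show ψ0 (r208 * y) = m6_289
  rw [map_mul, t6_208, ψ0_y]; decide
theorem t6_290 : ψ0 r290 = m6_290 := by
  show ψ0 (r209 * y) = m6_290
  rw [map_mul, t6_209, ψ0_y]; decide
theorem t6_291 : ψ0 r291 = m6_291 := by
  show ψ0 (r210 * x) = m6_291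
  rw [map_mul, t6_210, ψ0_x]; decide
theorem t6_292 : ψ0 r292 = m6_292 := by
  show ψ0 (r210 * y) = m6_292
  rw [map_mul, t6_210, ψ0_y]; decide
theorem t6_293 : ψ0 r293 = m6_293 := by
  show ψ0 (r211 * y) = m6_293
  rw [map_mul, t6_211, ψ0_y]; decide
theorem t6_294 : ψ0 r294 = m6_294 := by
  show ψ0 (r212 * y) = m6_294
  rw [map_mul, t6_212, ψ0_y]; decide
theorem t6_295 : ψ0 r295 = m6_295 := by
  show ψ0 (r213 * y) = m6_295
  rw [map_mul, t6_213, ψ0_y]; decide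
theorem t6_296 : ψ0 r296 = m6_296 := by
  show ψ0 (r214 * x) = m6_296
  rw [map_mul, t6_214, ψ0_x]; decide
theorem t6_297 : ψ0 r297 = m6_297 := by
  show ψ0 (r214 * y) = m6_297
  rw [map_mul, t6_214, ψ0_y]; decide
theorem t6_298 : ψ0 r298 = m6_298 := by
  show ψ0 (r215 * y) = m6_298
  rw [map_mul, t6_215, ψ0_y]; decide
theorem t6_299 : ψ0 r299 = m6_299 := by
  show ψ0 (r216 * x) = m6_299
  rw [map_mul, t6_216, ψ0_x]; decide
theorem t6_300 : ψ0 r300 = m6_300 := by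
  show ψ0 (r216 * y) = m6_300
  rw [map_mul, t6_216, ψ0_y]; decide
theorem t6_301 : ψ0 r301 = m6_301 := by
  show ψ0 (r217 * x) = m6_301
  rw [map_mul, t6_217, ψ0_x]; decide
theorem t6_302 : ψ0 r302 = m6_302 := by
  show ψ0 (r217 * y) = m6_302
  rw [map_mul, t6_217, ψ0_y]; decide
theorem t6_303 : ψ0 r303 = m6_303 := by
  show ψ0 (r218 * y) = m6_303
  rw [map_mul, t6_218, ψ0_y]; decide
theorem t6_304 : ψ0 r304 = m6_304 := by
  show ψ0 (r219 * y) = m6_304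
  rw [map_mul, t6_219, ψ0_y]; decide
theorem t6_305 : ψ0 r305 = m6_305 := by
  show ψ0 (r220 * y) = m6_305
  rw [map_mul, t6_220, ψ0_y]; decide
theorem t6_306 : ψ0 r306 = m6_306 := by
  show ψ0 (r221 * y) = m6_306
  rw [map_mul, t6_221, ψ0_y]; decide
theorem t6_307 : ψ0 r307 = m6_307 := by
  show ψ0 (r222 * y) = m6_307
  rw [map_mul, t6_222, ψ0_y]; decide
theorem t6_308 : ψ0 r308 = m6_308 := by
  show ψ0 (r223 * y) = m6_308
  rw [map_mul, t6_223, ψ0_y]; decide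
theorem t6_309 : ψ0 r309 = m6_309 := by
  show ψ0 (r224 * x) = m6_309
  rw [map_mul, t6_224, ψ0_x]; decide
theorem t6_310 : ψ0 r310 = m6_310 := by
  show ψ0 (r226 * y) = m6_310
  rw [map_mul, t6_226, ψ0_y]; decide
theorem t6_311 : ψ0 r311 = m6_311 := by
  show ψ0 (r227 * y) = m6_311
  rw [map_mul, t6_227, ψ0_y]; decide
theorem t6_312 : ψ0 r312 = m6_312 := by
  show ψ0 (r228 * y) = m6_312
  rw [map_mul, t6_228, ψ0_y]; decide
theorem t6_313 : ψ0 r313 = m6_313 := by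
  show ψ0 (r229 * x) = m6_313
  rw [map_mul, t6_229, ψ0_x]; decide
theorem t6_314 : ψ0 r314 = m6_314 := by
  show ψ0 (r229 * y) = m6_314
  rw [map_mul, t6_229, ψ0_y]; decide
theorem t6_315 : ψ0 r315 = m6_315 := by
  show ψ0 (r230 * y) = m6_315
  rw [map_mul, t6_230, ψ0_y]; decide
theorem t6_316 : ψ0 r316 = m6_316 := by
  show ψ0 (r231 * y) = m6_316
  rw [map_mul, t6_231, ψ0_y]; decide
theorem t6_317 : ψ0 r317 = m6_317 := by
  show ψ0 (r232 * y) = m6_317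
  rw [map_mul, t6_232, ψ0_y]; decide
theorem t6_318 : ψ0 r318 = m6_318 := by
  show ψ0 (r233 * x) = m6_318
  rw [map_mul, t6_233, ψ0_x]; decide
theorem t6_319 : ψ0 r319 = m6_319 := by
  show ψ0 (r233 * y) = m6_319
  rw [map_mul, t6_233, ψ0_y]; decide
theorem t6_320 : ψ0 r320 = m6_320 := by
  show ψ0 (r234 * y) = m6_320
  rw [map_mul, t6_234, ψ0_y]; decide
theorem t6_321 : ψ0 r321 = m6_321 := by
  show ψ0 (r235 * x) = m6_321
  rw [map_mul, t6_235, ψ0_x]; decide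
theorem t6_322 : ψ0 r322 = m6_322 := by
  show ψ0 (r237 * x) = m6_322
  rw [map_mul, t6_237, ψ0_x]; decide
theorem t6_323 : ψ0 r323 = m6_323 := by
  show ψ0 (r237 * y) = m6_323
  rw [map_mul, t6_237, ψ0_y]; decide
theorem t6_324 : ψ0 r324 = m6_324 := by
  show ψ0 (r238 * y) = m6_324
  rw [map_mul, t6_238, ψ0_y]; decide
theorem t6_325 : ψ0 r325 = m6_325 := by
  show ψ0 (r239 * y) = m6_325
  rw [map_mul, t6_239, ψ0_y]; decide
theorem t6_326 : ψ0 r326 = m6_326 := by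
  show ψ0 (r240 * x) = m6_326
  rw [map_mul, t6_240, ψ0_x]; decide
theorem t6_327 : ψ0 r327 = m6_327 := by
  show ψ0 (r240 * y) = m6_327
  rw [map_mul, t6_240, ψ0_y]; decide
theorem t6_328 : ψ0 r328 = m6_328 := by
  show ψ0 (r241 * y) = m6_328
  rw [map_mul, t6_241, ψ0_y]; decide
theorem t6_329 : ψ0 r329 = m6_329 := by
  show ψ0 (r242 * y) = m6_329
  rw [map_mul, t6_242, ψ0_y]; decide
theorem t6_330 : ψ0 r330 = m6_330 := by
  show ψ0 (r243 * y) = m6_330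
  rw [map_mul, t6_243, ψ0_y]; decide
theorem t6_331 : ψ0 r331 = m6_331 := by
  show ψ0 (r244 * x) = m6_331
  rw [map_mul, t6_244, ψ0_x]; decide
theorem t6_332 : ψ0 r332 = m6_332 := by
  show ψ0 (r244 * y) = m6_332
  rw [map_mul, t6_244, ψ0_y]; decide
theorem t6_333 : ψ0 r333 = m6_333 := by
  show ψ0 (r245 * x) = m6_333
  rw [map_mul, t6_245, ψ0_x]; decide
theorem t6_334 : ψ0 r334 = m6_334 := by
  show ψ0 (r245 * y) = m6_334
  rw [map_mul, t6_245, ψ0_y]; decide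
theorem t6_335 : ψ0 r335 = m6_335 := by
  show ψ0 (r246 * y) = m6_335
  rw [map_mul, t6_246, ψ0_y]; decide
theorem t6_336 : ψ0 r336 = m6_336 := by
  show ψ0 (r247 * y) = m6_336
  rw [map_mul, t6_247, ψ0_y]; decide
theorem t6_337 : ψ0 r337 = m6_337 := by
  show ψ0 (r248 * y) = m6_337
  rw [map_mul, t6_248, ψ0_y]; decide
theorem t6_338 : ψ0 r338 = m6_338 := by
  show ψ0 (r249 * x) = m6_338
  rw [map_mul, t6_249, ψ0_x]; decide
theorem t6_339 : ψ0 r339 = m6_339 := by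
  show ψ0 (r251 * y) = m6_339
  rw [map_mul, t6_251, ψ0_y]; decide
theorem t6_340 : ψ0 r340 = m6_340 := by
  show ψ0 (r253 * y) = m6_340
  rw [map_mul, t6_253, ψ0_y]; decide
theorem t6_341 : ψ0 r341 = m6_341 := by
  show ψ0 (r254 * y) = m6_341
  rw [map_mul, t6_254, ψ0_y]; decide
theorem t6_342 : ψ0 r342 = m6_342 := by
  show ψ0 (r255 * x) = m6_342
  rw [map_mul, t6_255, ψ0_x]; decide
theorem t6_343 : ψ0 r343 = m6_343 := by
  show ψ0 (r255 * y) = m6_343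
  rw [map_mul, t6_255, ψ0_y]; decide
theorem t6_344 : ψ0 r344 = m6_344 := by
  show ψ0 (r256 * y) = m6_344
  rw [map_mul, t6_256, ψ0_y]; decide
theorem t6_345 : ψ0 r345 = m6_345 := by
  show ψ0 (r257 * x) = m6_345
  rw [map_mul, t6_257, ψ0_x]; decide
theorem t6_346 : ψ0 r346 = m6_346 := by
  show ψ0 (r257 * y) = m6_346
  rw [map_mul, t6_257, ψ0_y]; decide
theorem t6_347 : ψ0 r347 = m6_347 := by
  show ψ0 (r258 * x) = m6_347
  rw [map_mul, t6_258, ψ0_x]; decide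
theorem t6_348 : ψ0 r348 = m6_348 := by
  show ψ0 (r258 * y) = m6_348
  rw [map_mul, t6_258, ψ0_y]; decide
theorem t6_349 : ψ0 r349 = m6_349 := by
  show ψ0 (r259 * y) = m6_349
  rw [map_mul, t6_259, ψ0_y]; decide
theorem t6_350 : ψ0 r350 = m6_350 := by
  show ψ0 (r260 * y) = m6_350
  rw [map_mul, t6_260, ψ0_y]; decide
theorem t6_351 : ψ0 r351 = m6_351 := by
  show ψ0 (r261 * y) = m6_351
  rw [map_mul, t6_261, ψ0_y]; decide
theorem t6_352 : ψ0 r352 = m6_352 := by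
  show ψ0 (r262 * y) = m6_352
  rw [map_mul, t6_262, ψ0_y]; decide
theorem t6_353 : ψ0 r353 = m6_353 := by
  show ψ0 (r263 * y) = m6_353
  rw [map_mul, t6_263, ψ0_y]; decide
theorem t6_354 : ψ0 r354 = m6_354 := by
  show ψ0 (r264 * y) = m6_354
  rw [map_mul, t6_264, ψ0_y]; decide
theorem t6_355 : ψ0 r355 = m6_355 := by
  show ψ0 (r265 * x) = m6_355
  rw [map_mul, t6_265, ψ0_x]; decide
theorem t6_356 : ψ0 r356 = m6_356 := by
  show ψ0 (r267 * y) = m6_356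
  rw [map_mul, t6_267, ψ0_y]; decide
theorem t6_357 : ψ0 r357 = m6_357 := by
  show ψ0 (r268 * y) = m6_357
  rw [map_mul, t6_268, ψ0_y]; decide
theorem t6_358 : ψ0 r358 = m6_358 := by
  show ψ0 (r269 * y) = m6_358
  rw [map_mul, t6_269, ψ0_y]; decide
theorem t6_359 : ψ0 r359 = m6_359 := by
  show ψ0 (r270 * x) = m6_359
  rw [map_mul, t6_270, ψ0_x]; decide
theorem t6_360 : ψ0 r360 = m6_360 := by
  show ψ0 (r270 * y) = m6_360
  rw [map_mul, t6_270, ψ0_y]; decide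
theorem t6_361 : ψ0 r361 = m6_361 := by
  show ψ0 (r271 * y) = m6_361
  rw [map_mul, t6_271, ψ0_y]; decide
theorem t6_362 : ψ0 r362 = m6_362 := by
  show ψ0 (r272 * y) = m6_362
  rw [map_mul, t6_272, ψ0_y]; decide
theorem t6_363 : ψ0 r363 = m6_363 := by
  show ψ0 (r273 * y) = m6_363
  rw [map_mul, t6_273, ψ0_y]; decide
theorem t6_364 : ψ0 r364 = m6_364 := by
  show ψ0 (r274 * x) = m6_364
  rw [map_mul, t6_274, ψ0_x]; decide
theorem t6_365 : ψ0 r365 = m6_365 := by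
  show ψ0 (r274 * y) = m6_365
  rw [map_mul, t6_274, ψ0_y]; decide
theorem t6_366 : ψ0 r366 = m6_366 := by
  show ψ0 (r275 * y) = m6_366
  rw [map_mul, t6_275, ψ0_y]; decide
theorem t6_367 : ψ0 r367 = m6_367 := by
  show ψ0 (r276 * x) = m6_367
  rw [map_mul, t6_276, ψ0_x]; decide
theorem t6_368 : ψ0 r368 = m6_368 := by
  show ψ0 (r278 * x) = m6_368
  rw [map_mul, t6_278, ψ0_x]; decide
theorem t6_369 : ψ0 r369 = m6_369 := by
  show ψ0 (r278 * y) = m6_369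
  rw [map_mul, t6_278, ψ0_y]; decide
theorem t6_370 : ψ0 r370 = m6_370 := by
  show ψ0 (r279 * y) = m6_370
  rw [map_mul, t6_279, ψ0_y]; decide
theorem t6_371 : ψ0 r371 = m6_371 := by
  show ψ0 (r280 * y) = m6_371
  rw [map_mul, t6_280, ψ0_y]; decide
theorem t6_372 : ψ0 r372 = m6_372 := by
  show ψ0 (r281 * x) = m6_372
  rw [map_mul, t6_281, ψ0_x]; decide
theorem t6_373 : ψ0 r373 = m6_373 := by
  show ψ0 (r281 * y) = m6_373
  rw [map_mul, t6_281, ψ0_y]; decide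
theorem t6_374 : ψ0 r374 = m6_374 := by
  show ψ0 (r282 * y) = m6_374
  rw [map_mul, t6_282, ψ0_y]; decide
theorem t6_375 : ψ0 r375 = m6_375 := by
  show ψ0 (r283 * y) = m6_375
  rw [map_mul, t6_283, ψ0_y]; decide
theorem t6_376 : ψ0 r376 = m6_376 := by
  show ψ0 (r284 * y) = m6_376
  rw [map_mul, t6_284, ψ0_y]; decide
theorem t6_377 : ψ0 r377 = m6_377 := by
  show ψ0 (r285 * x) = m6_377
  rw [map_mul, t6_285, ψ0_x]; decide
theorem t6_378 : ψ0 r378 = m6_378 := by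
  show ψ0 (r285 * y) = m6_378
  rw [map_mul, t6_285, ψ0_y]; decide
theorem t6_379 : ψ0 r379 = m6_379 := by
  show ψ0 (r286 * x) = m6_379
  rw [map_mul, t6_286, ψ0_x]; decide
theorem t6_380 : ψ0 r380 = m6_380 := by
  show ψ0 (r286 * y) = m6_380
  rw [map_mul, t6_286, ψ0_y]; decide
theorem t6_381 : ψ0 r381 = m6_381 := by
  show ψ0 (r287 * y) = m6_381
  rw [map_mul, t6_287, ψ0_y]; decide
theorem t6_382 : ψ0 r382 = m6_382 := by
  show ψ0 (r288 * y) = m6_382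
  rw [map_mul, t6_288, ψ0_y]; decide
theorem t6_383 : ψ0 r383 = m6_383 := by
  show ψ0 (r289 * y) = m6_383
  rw [map_mul, t6_289, ψ0_y]; decide
theorem t6_384 : ψ0 r384 = m6_384 := by
  show ψ0 (r290 * x) = m6_384
  rw [map_mul, t6_290, ψ0_x]; decide
theorem t6_385 : ψ0 r385 = m6_385 := by
  show ψ0 (r292 * y) = m6_385
  rw [map_mul, t6_292, ψ0_y]; decide
theorem t6_386 : ψ0 r386 = m6_386 := by
  show ψ0 (r294 * x) = m6_386
  rw [map_mul, t6_294, ψ0_x]; decide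
theorem t6_387 : ψ0 r387 = m6_387 := by
  show ψ0 (r294 * y) = m6_387
  rw [map_mul, t6_294, ψ0_y]; decide
theorem t6_388 : ψ0 r388 = m6_388 := by
  show ψ0 (r295 * x) = m6_388
  rw [map_mul, t6_295, ψ0_x]; decide
theorem t6_389 : ψ0 r389 = m6_389 := by
  show ψ0 (r295 * y) = m6_389
  rw [map_mul, t6_295, ψ0_y]; decide
theorem t6_390 : ψ0 r390 = m6_390 := by
  show ψ0 (r296 * y) = m6_390
  rw [map_mul, t6_296, ψ0_y]; decide
theorem t6_391 : ψ0 r391 = m6_391 := by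
  show ψ0 (r297 * y) = m6_391
  rw [map_mul, t6_297, ψ0_y]; decide
theorem t6_392 : ψ0 r392 = m6_392 := by
  show ψ0 (r298 * y) = m6_392
  rw [map_mul, t6_298, ψ0_y]; decide
theorem t6_393 : ψ0 r393 = m6_393 := by
  show ψ0 (r299 * y) = m6_393
  rw [map_mul, t6_299, ψ0_y]; decide
theorem t6_394 : ψ0 r394 = m6_394 := by
  show ψ0 (r300 * y) = m6_394
  rw [map_mul, t6_300, ψ0_y]; decide
theorem t6_395 : ψ0 r395 = m6_395 := by
  show ψ0 (r301 * y) = m6_395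
  rw [map_mul, t6_301, ψ0_y]; decide
theorem t6_396 : ψ0 r396 = m6_396 := by
  show ψ0 (r302 * y) = m6_396
  rw [map_mul, t6_302, ψ0_y]; decide
theorem t6_397 : ψ0 r397 = m6_397 := by
  show ψ0 (r303 * y) = m6_397
  rw [map_mul, t6_303, ψ0_y]; decide
theorem t6_398 : ψ0 r398 = m6_398 := by
  show ψ0 (r304 * y) = m6_398
  rw [map_mul, t6_304, ψ0_y]; decide
theorem t6_399 : ψ0 r399 = m6_399 := by
  show ψ0 (r305 * x) = m6_399
  rw [map_mul, t6_305, ψ0_x]; decide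
theorem t6_400 : ψ0 r400 = m6_400 := by
  show ψ0 (r305 * y) = m6_400
  rw [map_mul, t6_305, ψ0_y]; decide
theorem t6_401 : ψ0 r401 = m6_401 := by
  show ψ0 (r306 * x) = m6_401
  rw [map_mul, t6_306, ψ0_x]; decide
theorem t6_402 : ψ0 r402 = m6_402 := by
  show ψ0 (r306 * y) = m6_402
  rw [map_mul, t6_306, ψ0_y]; decide
theorem t6_403 : ψ0 r403 = m6_403 := by
  show ψ0 (r307 * x) = m6_403
  rw [map_mul, t6_307, ψ0_x]; decide
theorem t6_404 : ψ0 r404 = m6_404 := by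
  show ψ0 (r307 * y) = m6_404
  rw [map_mul, t6_307, ψ0_y]; decide
theorem t6_405 : ψ0 r405 = m6_405 := by
  show ψ0 (r308 * x) = m6_405
  rw [map_mul, t6_308, ψ0_x]; decide
theorem t6_406 : ψ0 r406 = m6_406 := by
  show ψ0 (r308 * y) = m6_406
  rw [map_mul, t6_308, ψ0_y]; decide
theorem t6_407 : ψ0 r407 = m6_407 := by
  show ψ0 (r309 * y) = m6_407
  rw [map_mul, t6_309, ψ0_y]; decide
theorem t6_408 : ψ0 r408 = m6_408 := by
  show ψ0 (r310 * y) = m6_408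
  rw [map_mul, t6_310, ψ0_y]; decide
theorem t6_409 : ψ0 r409 = m6_409 := by
  show ψ0 (r311 * y) = m6_409
  rw [map_mul, t6_311, ψ0_y]; decide
theorem t6_410 : ψ0 r410 = m6_410 := by
  show ψ0 (r312 * x) = m6_410
  rw [map_mul, t6_312, ψ0_x]; decide
theorem t6_411 : ψ0 r411 = m6_411 := by
  show ψ0 (r314 * y) = m6_411
  rw [map_mul, t6_314, ψ0_y]; decide
theorem t6_412 : ψ0 r412 = m6_412 := by
  show ψ0 (r315 * y) = m6_412
  rw [map_mul, t6_315, ψ0_y]; decide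
theorem t6_413 : ψ0 r413 = m6_413 := by
  show ψ0 (r316 * y) = m6_413
  rw [map_mul, t6_316, ψ0_y]; decide
theorem t6_414 : ψ0 r414 = m6_414 := by
  show ψ0 (r317 * y) = m6_414
  rw [map_mul, t6_317, ψ0_y]; decide
theorem t6_415 : ψ0 r415 = m6_415 := by
  show ψ0 (r318 * y) = m6_415
  rw [map_mul, t6_318, ψ0_y]; decide
theorem t6_416 : ψ0 r416 = m6_416 := by
  show ψ0 (r319 * x) = m6_416
  rw [map_mul, t6_319, ψ0_x]; decide
theorem t6_417 : ψ0 r417 = m6_417 := by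
  show ψ0 (r319 * y) = m6_417
  rw [map_mul, t6_319, ψ0_y]; decide
theorem t6_418 : ψ0 r418 = m6_418 := by
  show ψ0 (r320 * x) = m6_418
  rw [map_mul, t6_320, ψ0_x]; decide
theorem t6_419 : ψ0 r419 = m6_419 := by
  show ψ0 (r320 * y) = m6_419
  rw [map_mul, t6_320, ψ0_y]; decide
theorem t6_420 : ψ0 r420 = m6_420 := by
  show ψ0 (r321 * y) = m6_420
  rw [map_mul, t6_321, ψ0_y]; decide
theorem t6_421 : ψ0 r421 = m6_421 := by
  show ψ0 (r322 * y) = m6_421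
  rw [map_mul, t6_322, ψ0_y]; decide
theorem t6_422 : ψ0 r422 = m6_422 := by
  show ψ0 (r323 * y) = m6_422
  rw [map_mul, t6_323, ψ0_y]; decide
theorem t6_423 : ψ0 r423 = m6_423 := by
  show ψ0 (r324 * y) = m6_423
  rw [map_mul, t6_324, ψ0_y]; decide
theorem t6_424 : ψ0 r424 = m6_424 := by
  show ψ0 (r325 * x) = m6_424
  rw [map_mul, t6_325, ψ0_x]; decide
theorem t6_425 : ψ0 r425 = m6_425 := by
  show ψ0 (r327 * y) = m6_425
  rw [map_mul, t6_327, ψ0_y]; decide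
theorem t6_426 : ψ0 r426 = m6_426 := by
  show ψ0 (r328 * y) = m6_426
  rw [map_mul, t6_328, ψ0_y]; decide
theorem t6_427 : ψ0 r427 = m6_427 := by
  show ψ0 (r329 * y) = m6_427
  rw [map_mul, t6_329, ψ0_y]; decide
theorem t6_428 : ψ0 r428 = m6_428 := by
  show ψ0 (r330 * y) = m6_428
  rw [map_mul, t6_330, ψ0_y]; decide
theorem t6_429 : ψ0 r429 = m6_429 := by
  show ψ0 (r331 * y) = m6_429
  rw [map_mul, t6_331, ψ0_y]; decide
theorem t6_430 : ψ0 r430 = m6_430 := by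
  show ψ0 (r332 * x) = m6_430
  rw [map_mul, t6_332, ψ0_x]; decide
theorem t6_431 : ψ0 r431 = m6_431 := by
  show ψ0 (r334 * x) = m6_431
  rw [map_mul, t6_334, ψ0_x]; decide
theorem t6_432 : ψ0 r432 = m6_432 := by
  show ψ0 (r334 * y) = m6_432
  rw [map_mul, t6_334, ψ0_y]; decide
theorem t6_433 : ψ0 r433 = m6_433 := by
  show ψ0 (r335 * y) = m6_433
  rw [map_mul, t6_335, ψ0_y]; decide
theorem t6_434 : ψ0 r434 = m6_434 := by
  show ψ0 (r336 * y) = m6_434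
  rw [map_mul, t6_336, ψ0_y]; decide
theorem t6_435 : ψ0 r435 = m6_435 := by
  show ψ0 (r337 * y) = m6_435
  rw [map_mul, t6_337, ψ0_y]; decide
theorem t6_436 : ψ0 r436 = m6_436 := by
  show ψ0 (r338 * y) = m6_436
  rw [map_mul, t6_338, ψ0_y]; decide
theorem t6_437 : ψ0 r437 = m6_437 := by
  show ψ0 (r339 * y) = m6_437
  rw [map_mul, t6_339, ψ0_y]; decide
theorem t6_438 : ψ0 r438 = m6_438 := by
  show ψ0 (r340 * x) = m6_438
  rw [map_mul, t6_340, ψ0_x]; decide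
theorem t6_439 : ψ0 r439 = m6_439 := by
  show ψ0 (r340 * y) = m6_439
  rw [map_mul, t6_340, ψ0_y]; decide
theorem t6_440 : ψ0 r440 = m6_440 := by
  show ψ0 (r341 * x) = m6_440
  rw [map_mul, t6_341, ψ0_x]; decide
theorem t6_441 : ψ0 r441 = m6_441 := by
  show ψ0 (r341 * y) = m6_441
  rw [map_mul, t6_341, ψ0_y]; decide
theorem t6_442 : ψ0 r442 = m6_442 := by
  show ψ0 (r342 * y) = m6_442
  rw [map_mul, t6_342, ψ0_y]; decide
theorem t6_443 : ψ0 r443 = m6_443 := by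
  show ψ0 (r343 * y) = m6_443
  rw [map_mul, t6_343, ψ0_y]; decide
theorem t6_444 : ψ0 r444 = m6_444 := by
  show ψ0 (r344 * y) = m6_444
  rw [map_mul, t6_344, ψ0_y]; decide
theorem t6_445 : ψ0 r445 = m6_445 := by
  show ψ0 (r345 * y) = m6_445
  rw [map_mul, t6_345, ψ0_y]; decide
theorem t6_446 : ψ0 r446 = m6_446 := by
  show ψ0 (r346 * y) = m6_446
  rw [map_mul, t6_346, ψ0_y]; decide
theorem t6_447 : ψ0 r447 = m6_447 := by
  show ψ0 (r347 * y) = m6_447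
  rw [map_mul, t6_347, ψ0_y]; decide
theorem t6_448 : ψ0 r448 = m6_448 := by
  show ψ0 (r348 * y) = m6_448
  rw [map_mul, t6_348, ψ0_y]; decide
theorem t6_449 : ψ0 r449 = m6_449 := by
  show ψ0 (r349 * y) = m6_449
  rw [map_mul, t6_349, ψ0_y]; decide
theorem t6_450 : ψ0 r450 = m6_450 := by
  show ψ0 (r350 * y) = m6_450
  rw [map_mul, t6_350, ψ0_y]; decide
theorem t6_451 : ψ0 r451 = m6_451 := by
  show ψ0 (r351 * x) = m6_451
  rw [map_mul, t6_351, ψ0_x]; decide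
theorem t6_452 : ψ0 r452 = m6_452 := by
  show ψ0 (r351 * y) = m6_452
  rw [map_mul, t6_351, ψ0_y]; decide
theorem t6_453 : ψ0 r453 = m6_453 := by
  show ψ0 (r352 * x) = m6_453
  rw [map_mul, t6_352, ψ0_x]; decide
theorem t6_454 : ψ0 r454 = m6_454 := by
  show ψ0 (r352 * y) = m6_454
  rw [map_mul, t6_352, ψ0_y]; decide
theorem t6_455 : ψ0 r455 = m6_455 := by
  show ψ0 (r353 * x) = m6_455
  rw [map_mul, t6_353, ψ0_x]; decide
theorem t6_456 : ψ0 r456 = m6_456 := by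
  show ψ0 (r353 * y) = m6_456
  rw [map_mul, t6_353, ψ0_y]; decide
theorem t6_457 : ψ0 r457 = m6_457 := by
  show ψ0 (r354 * x) = m6_457
  rw [map_mul, t6_354, ψ0_x]; decide
theorem t6_458 : ψ0 r458 = m6_458 := by
  show ψ0 (r354 * y) = m6_458
  rw [map_mul, t6_354, ψ0_y]; decide
theorem t6_459 : ψ0 r459 = m6_459 := by
  show ψ0 (r355 * y) = m6_459
  rw [map_mul, t6_355, ψ0_y]; decide
theorem t6_460 : ψ0 r460 = m6_460 := by
  show ψ0 (r356 * y) = m6_460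
  rw [map_mul, t6_356, ψ0_y]; decide
theorem t6_461 : ψ0 r461 = m6_461 := by
  show ψ0 (r357 * y) = m6_461
  rw [map_mul, t6_357, ψ0_y]; decide
theorem t6_462 : ψ0 r462 = m6_462 := by
  show ψ0 (r358 * x) = m6_462
  rw [map_mul, t6_358, ψ0_x]; decide
theorem t6_463 : ψ0 r463 = m6_463 := by
  show ψ0 (r360 * y) = m6_463
  rw [map_mul, t6_360, ψ0_y]; decide
theorem t6_464 : ψ0 r464 = m6_464 := by
  show ψ0 (r361 * y) = m6_464
  rw [map_mul, t6_361, ψ0_y]; decide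
theorem t6_465 : ψ0 r465 = m6_465 := by
  show ψ0 (r362 * y) = m6_465
  rw [map_mul, t6_362, ψ0_y]; decide
theorem t6_466 : ψ0 r466 = m6_466 := by
  show ψ0 (r363 * y) = m6_466
  rw [map_mul, t6_363, ψ0_y]; decide
theorem t6_467 : ψ0 r467 = m6_467 := by
  show ψ0 (r364 * y) = m6_467
  rw [map_mul, t6_364, ψ0_y]; decide
theorem t6_468 : ψ0 r468 = m6_468 := by
  show ψ0 (r365 * x) = m6_468
  rw [map_mul, t6_365, ψ0_x]; decide
theorem t6_469 : ψ0 r469 = m6_469 := by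
  show ψ0 (r365 * y) = m6_469
  rw [map_mul, t6_365, ψ0_y]; decide
theorem t6_470 : ψ0 r470 = m6_470 := by
  show ψ0 (r366 * x) = m6_470
  rw [map_mul, t6_366, ψ0_x]; decide
theorem t6_471 : ψ0 r471 = m6_471 := by
  show ψ0 (r366 * y) = m6_471
  rw [map_mul, t6_366, ψ0_y]; decide
theorem t6_472 : ψ0 r472 = m6_472 := by
  show ψ0 (r367 * y) = m6_472
  rw [map_mul, t6_367, ψ0_y]; decide
theorem t6_473 : ψ0 r473 = m6_473 := by
  show ψ0 (r368 * y) = m6_473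
  rw [map_mul, t6_368, ψ0_y]; decide
theorem t6_474 : ψ0 r474 = m6_474 := by
  show ψ0 (r369 * y) = m6_474
  rw [map_mul, t6_369, ψ0_y]; decide
theorem t6_475 : ψ0 r475 = m6_475 := by
  show ψ0 (r370 * y) = m6_475
  rw [map_mul, t6_370, ψ0_y]; decide
theorem t6_476 : ψ0 r476 = m6_476 := by
  show ψ0 (r371 * x) = m6_476
  rw [map_mul, t6_371, ψ0_x]; decide
theorem t6_477 : ψ0 r477 = m6_477 := by
  show ψ0 (r373 * y) = m6_477
  rw [map_mul, t6_373, ψ0_y]; decide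
theorem t6_478 : ψ0 r478 = m6_478 := by
  show ψ0 (r374 * y) = m6_478
  rw [map_mul, t6_374, ψ0_y]; decide
theorem t6_479 : ψ0 r479 = m6_479 := by
  show ψ0 (r375 * y) = m6_479
  rw [map_mul, t6_375, ψ0_y]; decide
theorem t6_480 : ψ0 r480 = m6_480 := by
  show ψ0 (r376 * y) = m6_480
  rw [map_mul, t6_376, ψ0_y]; decide
theorem t6_481 : ψ0 r481 = m6_481 := by
  show ψ0 (r377 * y) = m6_481
  rw [map_mul, t6_377, ψ0_y]; decide
theorem t6_482 : ψ0 r482 = m6_482 := by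
  show ψ0 (r378 * x) = m6_482
  rw [map_mul, t6_378, ψ0_x]; decide
theorem t6_483 : ψ0 r483 = m6_483 := by
  show ψ0 (r380 * x) = m6_483
  rw [map_mul, t6_380, ψ0_x]; decide
theorem t6_484 : ψ0 r484 = m6_484 := by
  show ψ0 (r380 * y) = m6_484
  rw [map_mul, t6_380, ψ0_y]; decide
theorem t6_485 : ψ0 r485 = m6_485 := by
  show ψ0 (r381 * y) = m6_485
  rw [map_mul, t6_381, ψ0_y]; decide
theorem t6_486 : ψ0 r486 = m6_486 := by
  show ψ0 (r382 * y) = m6_486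
  rw [map_mul, t6_382, ψ0_y]; decide
theorem t6_487 : ψ0 r487 = m6_487 := by
  show ψ0 (r383 * y) = m6_487
  rw [map_mul, t6_383, ψ0_y]; decide
theorem t6_488 : ψ0 r488 = m6_488 := by
  show ψ0 (r384 * y) = m6_488
  rw [map_mul, t6_384, ψ0_y]; decide
theorem t6_489 : ψ0 r489 = m6_489 := by
  show ψ0 (r385 * y) = m6_489
  rw [map_mul, t6_385, ψ0_y]; decide
theorem t6_490 : ψ0 r490 = m6_490 := by
  show ψ0 (r386 * y) = m6_490
  rw [map_mul, t6_386, ψ0_y]; decide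
theorem t6_491 : ψ0 r491 = m6_491 := by
  show ψ0 (r387 * y) = m6_491
  rw [map_mul, t6_387, ψ0_y]; decide
theorem t6_492 : ψ0 r492 = m6_492 := by
  show ψ0 (r388 * y) = m6_492
  rw [map_mul, t6_388, ψ0_y]; decide
theorem t6_493 : ψ0 r493 = m6_493 := by
  show ψ0 (r389 * y) = m6_493
  rw [map_mul, t6_389, ψ0_y]; decide
theorem t6_494 : ψ0 r494 = m6_494 := by
  show ψ0 (r390 * y) = m6_494
  rw [map_mul, t6_390, ψ0_y]; decide
theorem t6_495 : ψ0 r495 = m6_495 := by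
  show ψ0 (r392 * y) = m6_495
  rw [map_mul, t6_392, ψ0_y]; decide
theorem t6_496 : ψ0 r496 = m6_496 := by
  show ψ0 (r393 * y) = m6_496
  rw [map_mul, t6_393, ψ0_y]; decide
theorem t6_497 : ψ0 r497 = m6_497 := by
  show ψ0 (r394 * y) = m6_497
  rw [map_mul, t6_394, ψ0_y]; decide
theorem t6_498 : ψ0 r498 = m6_498 := by
  show ψ0 (r395 * y) = m6_498
  rw [map_mul, t6_395, ψ0_y]; decide
theorem t6_499 : ψ0 r499 = m6_499 := by
  show ψ0 (r396 * y) = m6_499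
  rw [map_mul, t6_396, ψ0_y]; decide
theorem t6_500 : ψ0 r500 = m6_500 := by
  show ψ0 (r397 * y) = m6_500
  rw [map_mul, t6_397, ψ0_y]; decide
theorem t6_501 : ψ0 r501 = m6_501 := by
  show ψ0 (r398 * x) = m6_501
  rw [map_mul, t6_398, ψ0_x]; decide
theorem t6_502 : ψ0 r502 = m6_502 := by
  show ψ0 (r398 * y) = m6_502
  rw [map_mul, t6_398, ψ0_y]; decide
theorem t6_503 : ψ0 r503 = m6_503 := by
  show ψ0 (r399 * y) = m6_503
  rw [map_mul, t6_399, ψ0_y]; decide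
theorem t6_504 : ψ0 r504 = m6_504 := by
  show ψ0 (r400 * x) = m6_504
  rw [map_mul, t6_400, ψ0_x]; decide
theorem t6_505 : ψ0 r505 = m6_505 := by
  show ψ0 (r402 * x) = m6_505
  rw [map_mul, t6_402, ψ0_x]; decide
theorem t6_506 : ψ0 r506 = m6_506 := by
  show ψ0 (r402 * y) = m6_506
  rw [map_mul, t6_402, ψ0_y]; decide
theorem t6_507 : ψ0 r507 = m6_507 := by
  show ψ0 (r403 * y) = m6_507
  rw [map_mul, t6_403, ψ0_y]; decide
theorem t6_508 : ψ0 r508 = m6_508 := by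
  show ψ0 (r404 * y) = m6_508
  rw [map_mul, t6_404, ψ0_y]; decide
theorem t6_509 : ψ0 r509 = m6_509 := by
  show ψ0 (r405 * y) = m6_509
  rw [map_mul, t6_405, ψ0_y]; decide
theorem t6_510 : ψ0 r510 = m6_510 := by
  show ψ0 (r406 * y) = m6_510
  rw [map_mul, t6_406, ψ0_y]; decide
theorem t6_511 : ψ0 r511 = m6_511 := by
  show ψ0 (r407 * y) = m6_511
  rw [map_mul, t6_407, ψ0_y]; decide
theorem t6_512 : ψ0 r512 = m6_512 := by
  show ψ0 (r408 * x) = m6_512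
  rw [map_mul, t6_408, ψ0_x]; decide
theorem t6_513 : ψ0 r513 = m6_513 := by
  show ψ0 (r408 * y) = m6_513
  rw [map_mul, t6_408, ψ0_y]; decide
theorem t6_514 : ψ0 r514 = m6_514 := by
  show ψ0 (r409 * y) = m6_514
  rw [map_mul, t6_409, ψ0_y]; decide
theorem t6_515 : ψ0 r515 = m6_515 := by
  show ψ0 (r410 * y) = m6_515
  rw [map_mul, t6_410, ψ0_y]; decide
theorem t6_516 : ψ0 r516 = m6_516 := by
  show ψ0 (r414 * x) = m6_516
  rw [map_mul, t6_414, ψ0_x]; decide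
theorem t6_517 : ψ0 r517 = m6_517 := by
  show ψ0 (r414 * y) = m6_517
  rw [map_mul, t6_414, ψ0_y]; decide
theorem t6_518 : ψ0 r518 = m6_518 := by
  show ψ0 (r415 * x) = m6_518
  rw [map_mul, t6_415, ψ0_x]; decide
theorem t6_519 : ψ0 r519 = m6_519 := by
  show ψ0 (r415 * y) = m6_519
  rw [map_mul, t6_415, ψ0_y]; decide
theorem t6_520 : ψ0 r520 = m6_520 := by
  show ψ0 (r417 * y) = m6_520
  rw [map_mul, t6_417, ψ0_y]; decide
theorem t6_521 : ψ0 r521 = m6_521 := by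
  show ψ0 (r418 * y) = m6_521
  rw [map_mul, t6_418, ψ0_y]; decide
theorem t6_522 : ψ0 r522 = m6_522 := by
  show ψ0 (r419 * y) = m6_522
  rw [map_mul, t6_419, ψ0_y]; decide
theorem t6_523 : ψ0 r523 = m6_523 := by
  show ψ0 (r420 * y) = m6_523
  rw [map_mul, t6_420, ψ0_y]; decide
theorem t6_524 : ψ0 r524 = m6_524 := by
  show ψ0 (r422 * x) = m6_524
  rw [map_mul, t6_422, ψ0_x]; decide
theorem t6_525 : ψ0 r525 = m6_525 := by
  show ψ0 (r422 * y) = m6_525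
  rw [map_mul, t6_422, ψ0_y]; decide
theorem t6_526 : ψ0 r526 = m6_526 := by
  show ψ0 (r423 * x) = m6_526
  rw [map_mul, t6_423, ψ0_x]; decide
theorem t6_527 : ψ0 r527 = m6_527 := by
  show ψ0 (r423 * y) = m6_527
  rw [map_mul, t6_423, ψ0_y]; decide
theorem t6_528 : ψ0 r528 = m6_528 := by
  show ψ0 (r424 * y) = m6_528
  rw [map_mul, t6_424, ψ0_y]; decide
theorem t6_529 : ψ0 r529 = m6_529 := by
  show ψ0 (r425 * y) = m6_529
  rw [map_mul, t6_425, ψ0_y]; decide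
theorem t6_530 : ψ0 r530 = m6_530 := by
  show ψ0 (r428 * y) = m6_530
  rw [map_mul, t6_428, ψ0_y]; decide
theorem t6_531 : ψ0 r531 = m6_531 := by
  show ψ0 (r429 * x) = m6_531
  rw [map_mul, t6_429, ψ0_x]; decide
theorem t6_532 : ψ0 r532 = m6_532 := by
  show ψ0 (r429 * y) = m6_532
  rw [map_mul, t6_429, ψ0_y]; decide
theorem t6_533 : ψ0 r533 = m6_533 := by
  show ψ0 (r430 * y) = m6_533
  rw [map_mul, t6_430, ψ0_y]; decide
theorem t6_534 : ψ0 r534 = m6_534 := by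
  show ψ0 (r431 * y) = m6_534
  rw [map_mul, t6_431, ψ0_y]; decide
theorem t6_535 : ψ0 r535 = m6_535 := by
  show ψ0 (r432 * y) = m6_535
  rw [map_mul, t6_432, ψ0_y]; decide
theorem t6_536 : ψ0 r536 = m6_536 := by
  show ψ0 (r434 * y) = m6_536
  rw [map_mul, t6_434, ψ0_y]; decide
theorem t6_537 : ψ0 r537 = m6_537 := by
  show ψ0 (r436 * y) = m6_537
  rw [map_mul, t6_436, ψ0_y]; decide
theorem t6_538 : ψ0 r538 = m6_538 := by
  show ψ0 (r437 * y) = m6_538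
  rw [map_mul, t6_437, ψ0_y]; decide
theorem t6_539 : ψ0 r539 = m6_539 := by
  show ψ0 (r438 * y) = m6_539
  rw [map_mul, t6_438, ψ0_y]; decide
theorem t6_540 : ψ0 r540 = m6_540 := by
  show ψ0 (r439 * y) = m6_540
  rw [map_mul, t6_439, ψ0_y]; decide
theorem t6_541 : ψ0 r541 = m6_541 := by
  show ψ0 (r440 * y) = m6_541
  rw [map_mul, t6_440, ψ0_y]; decide
theorem t6_542 : ψ0 r542 = m6_542 := by
  show ψ0 (r441 * y) = m6_542
  rw [map_mul, t6_441, ψ0_y]; decide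
theorem t6_543 : ψ0 r543 = m6_543 := by
  show ψ0 (r442 * y) = m6_543
  rw [map_mul, t6_442, ψ0_y]; decide
theorem t6_544 : ψ0 r544 = m6_544 := by
  show ψ0 (r444 * y) = m6_544
  rw [map_mul, t6_444, ψ0_y]; decide
theorem t6_545 : ψ0 r545 = m6_545 := by
  show ψ0 (r445 * y) = m6_545
  rw [map_mul, t6_445, ψ0_y]; decide
theorem t6_546 : ψ0 r546 = m6_546 := by
  show ψ0 (r446 * y) = m6_546
  rw [map_mul, t6_446, ψ0_y]; decide
theorem t6_547 : ψ0 r547 = m6_547 := by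
  show ψ0 (r447 * y) = m6_547
  rw [map_mul, t6_447, ψ0_y]; decide
theorem t6_548 : ψ0 r548 = m6_548 := by
  show ψ0 (r448 * y) = m6_548
  rw [map_mul, t6_448, ψ0_y]; decide
theorem t6_549 : ψ0 r549 = m6_549 := by
  show ψ0 (r449 * y) = m6_549
  rw [map_mul, t6_449, ψ0_y]; decide
theorem t6_550 : ψ0 r550 = m6_550 := by
  show ψ0 (r450 * x) = m6_550
  rw [map_mul, t6_450, ψ0_x]; decide
theorem t6_551 : ψ0 r551 = m6_551 := by
  show ψ0 (r450 * y) = m6_551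
  rw [map_mul, t6_450, ψ0_y]; decide
theorem t6_552 : ψ0 r552 = m6_552 := by
  show ψ0 (r451 * y) = m6_552
  rw [map_mul, t6_451, ψ0_y]; decide
theorem t6_553 : ψ0 r553 = m6_553 := by
  show ψ0 (r452 * x) = m6_553
  rw [map_mul, t6_452, ψ0_x]; decide
theorem t6_554 : ψ0 r554 = m6_554 := by
  show ψ0 (r454 * x) = m6_554
  rw [map_mul, t6_454, ψ0_x]; decide
theorem t6_555 : ψ0 r555 = m6_555 := by
  show ψ0 (r454 * y) = m6_555
  rw [map_mul, t6_454, ψ0_y]; decide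
theorem t6_556 : ψ0 r556 = m6_556 := by
  show ψ0 (r455 * y) = m6_556
  rw [map_mul, t6_455, ψ0_y]; decide
theorem t6_557 : ψ0 r557 = m6_557 := by
  show ψ0 (r456 * y) = m6_557
  rw [map_mul, t6_456, ψ0_y]; decide
theorem t6_558 : ψ0 r558 = m6_558 := by
  show ψ0 (r457 * y) = m6_558
  rw [map_mul, t6_457, ψ0_y]; decide
theorem t6_559 : ψ0 r559 = m6_559 := by
  show ψ0 (r458 * y) = m6_559
  rw [map_mul, t6_458, ψ0_y]; decide
theorem t6_560 : ψ0 r560 = m6_560 := by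
  show ψ0 (r459 * y) = m6_560
  rw [map_mul, t6_459, ψ0_y]; decide
theorem t6_561 : ψ0 r561 = m6_561 := by
  show ψ0 (r460 * x) = m6_561
  rw [map_mul, t6_460, ψ0_x]; decide
theorem t6_562 : ψ0 r562 = m6_562 := by
  show ψ0 (r460 * y) = m6_562
  rw [map_mul, t6_460, ψ0_y]; decide
theorem t6_563 : ψ0 r563 = m6_563 := by
  show ψ0 (r461 * y) = m6_563
  rw [map_mul, t6_461, ψ0_y]; decide
theorem t6_564 : ψ0 r564 = m6_564 := by
  show ψ0 (r462 * y) = m6_564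
  rw [map_mul, t6_462, ψ0_y]; decide
theorem t6_565 : ψ0 r565 = m6_565 := by
  show ψ0 (r466 * x) = m6_565
  rw [map_mul, t6_466, ψ0_x]; decide
theorem t6_566 : ψ0 r566 = m6_566 := by
  show ψ0 (r466 * y) = m6_566
  rw [map_mul, t6_466, ψ0_y]; decide
theorem t6_567 : ψ0 r567 = m6_567 := by
  show ψ0 (r467 * x) = m6_567
  rw [map_mul, t6_467, ψ0_x]; decide
theorem t6_568 : ψ0 r568 = m6_568 := by
  show ψ0 (r467 * y) = m6_568
  rw [map_mul, t6_467, ψ0_y]; decide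
theorem t6_569 : ψ0 r569 = m6_569 := by
  show ψ0 (r469 * y) = m6_569
  rw [map_mul, t6_469, ψ0_y]; decide
theorem t6_570 : ψ0 r570 = m6_570 := by
  show ψ0 (r470 * y) = m6_570
  rw [map_mul, t6_470, ψ0_y]; decide
theorem t6_571 : ψ0 r571 = m6_571 := by
  show ψ0 (r471 * y) = m6_571
  rw [map_mul, t6_471, ψ0_y]; decide
theorem t6_572 : ψ0 r572 = m6_572 := by
  show ψ0 (r472 * y) = m6_572
  rw [map_mul, t6_472, ψ0_y]; decide
theorem t6_573 : ψ0 r573 = m6_573 := by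
  show ψ0 (r474 * x) = m6_573
  rw [map_mul, t6_474, ψ0_x]; decide
theorem t6_574 : ψ0 r574 = m6_574 := by
  show ψ0 (r474 * y) = m6_574
  rw [map_mul, t6_474, ψ0_y]; decide
theorem t6_575 : ψ0 r575 = m6_575 := by
  show ψ0 (r475 * x) = m6_575
  rw [map_mul, t6_475, ψ0_x]; decide
theorem t6_576 : ψ0 r576 = m6_576 := by
  show ψ0 (r475 * y) = m6_576
  rw [map_mul, t6_475, ψ0_y]; decide
theorem t6_577 : ψ0 r577 = m6_577 := by
  show ψ0 (r476 * y) = m6_577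
  rw [map_mul, t6_476, ψ0_y]; decide
theorem t6_578 : ψ0 r578 = m6_578 := by
  show ψ0 (r477 * y) = m6_578
  rw [map_mul, t6_477, ψ0_y]; decide
theorem t6_579 : ψ0 r579 = m6_579 := by
  show ψ0 (r480 * y) = m6_579
  rw [map_mul, t6_480, ψ0_y]; decide
theorem t6_580 : ψ0 r580 = m6_580 := by
  show ψ0 (r481 * x) = m6_580
  rw [map_mul, t6_481, ψ0_x]; decide
theorem t6_581 : ψ0 r581 = m6_581 := by
  show ψ0 (r481 * y) = m6_581
  rw [map_mul, t6_481, ψ0_y]; decide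
theorem t6_582 : ψ0 r582 = m6_582 := by
  show ψ0 (r482 * y) = m6_582
  rw [map_mul, t6_482, ψ0_y]; decide
theorem t6_583 : ψ0 r583 = m6_583 := by
  show ψ0 (r483 * y) = m6_583
  rw [map_mul, t6_483, ψ0_y]; decide
theorem t6_584 : ψ0 r584 = m6_584 := by
  show ψ0 (r484 * y) = m6_584
  rw [map_mul, t6_484, ψ0_y]; decide
theorem t6_585 : ψ0 r585 = m6_585 := by
  show ψ0 (r486 * y) = m6_585
  rw [map_mul, t6_486, ψ0_y]; decide
theorem t6_586 : ψ0 r586 = m6_586 := by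
  show ψ0 (r488 * y) = m6_586
  rw [map_mul, t6_488, ψ0_y]; decide
theorem t6_587 : ψ0 r587 = m6_587 := by
  show ψ0 (r489 * y) = m6_587
  rw [map_mul, t6_489, ψ0_y]; decide
theorem t6_588 : ψ0 r588 = m6_588 := by
  show ψ0 (r490 * y) = m6_588
  rw [map_mul, t6_490, ψ0_y]; decide
theorem t6_589 : ψ0 r589 = m6_589 := by
  show ψ0 (r491 * y) = m6_589
  rw [map_mul, t6_491, ψ0_y]; decide
theorem t6_590 : ψ0 r590 = m6_590 := by
  show ψ0 (r492 * y) = m6_590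
  rw [map_mul, t6_492, ψ0_y]; decide
theorem t6_591 : ψ0 r591 = m6_591 := by
  show ψ0 (r493 * y) = m6_591
  rw [map_mul, t6_493, ψ0_y]; decide
theorem t6_592 : ψ0 r592 = m6_592 := by
  show ψ0 (r494 * y) = m6_592
  rw [map_mul, t6_494, ψ0_y]; decide
theorem t6_593 : ψ0 r593 = m6_593 := by
  show ψ0 (r495 * y) = m6_593
  rw [map_mul, t6_495, ψ0_y]; decide
theorem t6_594 : ψ0 r594 = m6_594 := by
  show ψ0 (r498 * y) = m6_594
  rw [map_mul, t6_498, ψ0_y]; decide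
theorem t6_595 : ψ0 r595 = m6_595 := by
  show ψ0 (r499 * y) = m6_595
  rw [map_mul, t6_499, ψ0_y]; decide
theorem t6_596 : ψ0 r596 = m6_596 := by
  show ψ0 (r500 * y) = m6_596
  rw [map_mul, t6_500, ψ0_y]; decide
theorem t6_597 : ψ0 r597 = m6_597 := by
  show ψ0 (r501 * y) = m6_597
  rw [map_mul, t6_501, ψ0_y]; decide
theorem t6_598 : ψ0 r598 = m6_598 := by
  show ψ0 (r502 * x) = m6_598
  rw [map_mul, t6_502, ψ0_x]; decide
theorem t6_599 : ψ0 r599 = m6_599 := by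
  show ψ0 (r502 * y) = m6_599
  rw [map_mul, t6_502, ψ0_y]; decide
theorem t6_600 : ψ0 r600 = m6_600 := by
  show ψ0 (r503 * y) = m6_600
  rw [map_mul, t6_503, ψ0_y]; decide
theorem t6_601 : ψ0 r601 = m6_601 := by
  show ψ0 (r504 * y) = m6_601
  rw [map_mul, t6_504, ψ0_y]; decide
theorem t6_602 : ψ0 r602 = m6_602 := by
  show ψ0 (r505 * y) = m6_602
  rw [map_mul, t6_505, ψ0_y]; decide
theorem t6_603 : ψ0 r603 = m6_603 := by
  show ψ0 (r507 * y) = m6_603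
  rw [map_mul, t6_507, ψ0_y]; decide
theorem t6_604 : ψ0 r604 = m6_604 := by
  show ψ0 (r509 * y) = m6_604
  rw [map_mul, t6_509, ψ0_y]; decide
theorem t6_605 : ψ0 r605 = m6_605 := by
  show ψ0 (r510 * y) = m6_605
  rw [map_mul, t6_510, ψ0_y]; decide
theorem t6_606 : ψ0 r606 = m6_606 := by
  show ψ0 (r511 * y) = m6_606
  rw [map_mul, t6_511, ψ0_y]; decide
theorem t6_607 : ψ0 r607 = m6_607 := by
  show ψ0 (r514 * y) = m6_607
  rw [map_mul, t6_514, ψ0_y]; decide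
theorem t6_608 : ψ0 r608 = m6_608 := by
  show ψ0 (r516 * y) = m6_608
  rw [map_mul, t6_516, ψ0_y]; decide
theorem t6_609 : ψ0 r609 = m6_609 := by
  show ψ0 (r517 * y) = m6_609
  rw [map_mul, t6_517, ψ0_y]; decide
theorem t6_610 : ψ0 r610 = m6_610 := by
  show ψ0 (r518 * y) = m6_610
  rw [map_mul, t6_518, ψ0_y]; decide
theorem t6_611 : ψ0 r611 = m6_611 := by
  show ψ0 (r519 * y) = m6_611
  rw [map_mul, t6_519, ψ0_y]; decide
theorem t6_612 : ψ0 r612 = m6_612 := by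
  show ψ0 (r522 * y) = m6_612
  rw [map_mul, t6_522, ψ0_y]; decide
theorem t6_613 : ψ0 r613 = m6_613 := by
  show ψ0 (r523 * y) = m6_613
  rw [map_mul, t6_523, ψ0_y]; decide
theorem t6_614 : ψ0 r614 = m6_614 := by
  show ψ0 (r524 * y) = m6_614
  rw [map_mul, t6_524, ψ0_y]; decide
theorem t6_615 : ψ0 r615 = m6_615 := by
  show ψ0 (r526 * y) = m6_615
  rw [map_mul, t6_526, ψ0_y]; decide
theorem t6_616 : ψ0 r616 = m6_616 := by
  show ψ0 (r528 * y) = m6_616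
  rw [map_mul, t6_528, ψ0_y]; decide
theorem t6_617 : ψ0 r617 = m6_617 := by
  show ψ0 (r529 * y) = m6_617
  rw [map_mul, t6_529, ψ0_y]; decide
theorem t6_618 : ψ0 r618 = m6_618 := by
  show ψ0 (r531 * y) = m6_618
  rw [map_mul, t6_531, ψ0_y]; decide
theorem t6_619 : ψ0 r619 = m6_619 := by
  show ψ0 (r532 * y) = m6_619
  rw [map_mul, t6_532, ψ0_y]; decide
theorem t6_620 : ψ0 r620 = m6_620 := by
  show ψ0 (r533 * y) = m6_620
  rw [map_mul, t6_533, ψ0_y]; decide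
theorem t6_621 : ψ0 r621 = m6_621 := by
  show ψ0 (r535 * y) = m6_621
  rw [map_mul, t6_535, ψ0_y]; decide
theorem t6_622 : ψ0 r622 = m6_622 := by
  show ψ0 (r536 * y) = m6_622
  rw [map_mul, t6_536, ψ0_y]; decide
theorem t6_623 : ψ0 r623 = m6_623 := by
  show ψ0 (r537 * y) = m6_623
  rw [map_mul, t6_537, ψ0_y]; decide
theorem t6_624 : ψ0 r624 = m6_624 := by
  show ψ0 (r539 * y) = m6_624
  rw [map_mul, t6_539, ψ0_y]; decide
theorem t6_625 : ψ0 r625 = m6_625 := by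
  show ψ0 (r540 * y) = m6_625
  rw [map_mul, t6_540, ψ0_y]; decide
theorem t6_626 : ψ0 r626 = m6_626 := by
  show ψ0 (r541 * y) = m6_626
  rw [map_mul, t6_541, ψ0_y]; decide
theorem t6_627 : ψ0 r627 = m6_627 := by
  show ψ0 (r542 * y) = m6_627
  rw [map_mul, t6_542, ψ0_y]; decide
theorem t6_628 : ψ0 r628 = m6_628 := by
  show ψ0 (r543 * y) = m6_628
  rw [map_mul, t6_543, ψ0_y]; decide
theorem t6_629 : ψ0 r629 = m6_629 := by
  show ψ0 (r544 * y) = m6_629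
  rw [map_mul, t6_544, ψ0_y]; decide
theorem t6_630 : ψ0 r630 = m6_630 := by
  show ψ0 (r547 * y) = m6_630
  rw [map_mul, t6_547, ψ0_y]; decide
theorem t6_631 : ψ0 r631 = m6_631 := by
  show ψ0 (r548 * y) = m6_631
  rw [map_mul, t6_548, ψ0_y]; decide
theorem t6_632 : ψ0 r632 = m6_632 := by
  show ψ0 (r549 * y) = m6_632
  rw [map_mul, t6_549, ψ0_y]; decide
theorem t6_633 : ψ0 r633 = m6_633 := by
  show ψ0 (r550 * y) = m6_633
  rw [map_mul, t6_550, ψ0_y]; decide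
theorem t6_634 : ψ0 r634 = m6_634 := by
  show ψ0 (r551 * x) = m6_634
  rw [map_mul, t6_551, ψ0_x]; decide
theorem t6_635 : ψ0 r635 = m6_635 := by
  show ψ0 (r551 * y) = m6_635
  rw [map_mul, t6_551, ψ0_y]; decide
theorem t6_636 : ψ0 r636 = m6_636 := by
  show ψ0 (r552 * y) = m6_636
  rw [map_mul, t6_552, ψ0_y]; decide
theorem t6_637 : ψ0 r637 = m6_637 := by
  show ψ0 (r553 * y) = m6_637
  rw [map_mul, t6_553, ψ0_y]; decide
theorem t6_638 : ψ0 r638 = m6_638 := by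
  show ψ0 (r554 * y) = m6_638
  rw [map_mul, t6_554, ψ0_y]; decide
theorem t6_639 : ψ0 r639 = m6_639 := by
  show ψ0 (r556 * y) = m6_639
  rw [map_mul, t6_556, ψ0_y]; decide
theorem t6_640 : ψ0 r640 = m6_640 := by
  show ψ0 (r558 * y) = m6_640
  rw [map_mul, t6_558, ψ0_y]; decide
theorem t6_641 : ψ0 r641 = m6_641 := by
  show ψ0 (r559 * y) = m6_641
  rw [map_mul, t6_559, ψ0_y]; decide
theorem t6_642 : ψ0 r642 = m6_642 := by
  show ψ0 (r560 * y) = m6_642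
  rw [map_mul, t6_560, ψ0_y]; decide
theorem t6_643 : ψ0 r643 = m6_643 := by
  show ψ0 (r563 * y) = m6_643
  rw [map_mul, t6_563, ψ0_y]; decide
theorem t6_644 : ψ0 r644 = m6_644 := by
  show ψ0 (r565 * y) = m6_644
  rw [map_mul, t6_565, ψ0_y]; decide
theorem t6_645 : ψ0 r645 = m6_645 := by
  show ψ0 (r566 * y) = m6_645
  rw [map_mul, t6_566, ψ0_y]; decide
theorem t6_646 : ψ0 r646 = m6_646 := by
  show ψ0 (r567 * y) = m6_646
  rw [map_mul, t6_567, ψ0_y]; decide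
theorem t6_647 : ψ0 r647 = m6_647 := by
  show ψ0 (r568 * y) = m6_647
  rw [map_mul, t6_568, ψ0_y]; decide
theorem t6_648 : ψ0 r648 = m6_648 := by
  show ψ0 (r571 * y) = m6_648
  rw [map_mul, t6_571, ψ0_y]; decide
theorem t6_649 : ψ0 r649 = m6_649 := by
  show ψ0 (r572 * y) = m6_649
  rw [map_mul, t6_572, ψ0_y]; decide
theorem t6_650 : ψ0 r650 = m6_650 := by
  show ψ0 (r573 * y) = m6_650
  rw [map_mul, t6_573, ψ0_y]; decide
theorem t6_651 : ψ0 r651 = m6_651 := by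
  show ψ0 (r575 * y) = m6_651
  rw [map_mul, t6_575, ψ0_y]; decide
theorem t6_652 : ψ0 r652 = m6_652 := by
  show ψ0 (r577 * y) = m6_652
  rw [map_mul, t6_577, ψ0_y]; decide
theorem t6_653 : ψ0 r653 = m6_653 := by
  show ψ0 (r578 * y) = m6_653
  rw [map_mul, t6_578, ψ0_y]; decide
theorem t6_654 : ψ0 r654 = m6_654 := by
  show ψ0 (r580 * y) = m6_654
  rw [map_mul, t6_580, ψ0_y]; decide
theorem t6_655 : ψ0 r655 = m6_655 := by
  show ψ0 (r581 * y) = m6_655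
  rw [map_mul, t6_581, ψ0_y]; decide
theorem t6_656 : ψ0 r656 = m6_656 := by
  show ψ0 (r582 * y) = m6_656
  rw [map_mul, t6_582, ψ0_y]; decide
theorem t6_657 : ψ0 r657 = m6_657 := by
  show ψ0 (r584 * y) = m6_657
  rw [map_mul, t6_584, ψ0_y]; decide
theorem t6_658 : ψ0 r658 = m6_658 := by
  show ψ0 (r585 * y) = m6_658
  rw [map_mul, t6_585, ψ0_y]; decide
theorem t6_659 : ψ0 r659 = m6_659 := by
  show ψ0 (r586 * y) = m6_659
  rw [map_mul, t6_586, ψ0_y]; decide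
theorem t6_660 : ψ0 r660 = m6_660 := by
  show ψ0 (r588 * y) = m6_660
  rw [map_mul, t6_588, ψ0_y]; decide
theorem t6_661 : ψ0 r661 = m6_661 := by
  show ψ0 (r590 * y) = m6_661
  rw [map_mul, t6_590, ψ0_y]; decide
theorem t6_662 : ψ0 r662 = m6_662 := by
  show ψ0 (r591 * y) = m6_662
  rw [map_mul, t6_591, ψ0_y]; decide
theorem t6_663 : ψ0 r663 = m6_663 := by
  show ψ0 (r592 * y) = m6_663
  rw [map_mul, t6_592, ψ0_y]; decide
theorem t6_664 : ψ0 r664 = m6_664 := by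
  show ψ0 (r593 * x) = m6_664
  rw [map_mul, t6_593, ψ0_x]; decide
theorem t6_665 : ψ0 r665 = m6_665 := by
  show ψ0 (r593 * y) = m6_665
  rw [map_mul, t6_593, ψ0_y]; decide
theorem t6_666 : ψ0 r666 = m6_666 := by
  show ψ0 (r597 * y) = m6_666
  rw [map_mul, t6_597, ψ0_y]; decide
theorem t6_667 : ψ0 r667 = m6_667 := by
  show ψ0 (r599 * y) = m6_667
  rw [map_mul, t6_599, ψ0_y]; decide
theorem t6_668 : ψ0 r668 = m6_668 := by
  show ψ0 (r601 * y) = m6_668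
  rw [map_mul, t6_601, ψ0_y]; decide
theorem t6_669 : ψ0 r669 = m6_669 := by
  show ψ0 (r603 * x) = m6_669
  rw [map_mul, t6_603, ψ0_x]; decide
theorem t6_670 : ψ0 r670 = m6_670 := by
  show ψ0 (r603 * y) = m6_670
  rw [map_mul, t6_603, ψ0_y]; decide
theorem t6_671 : ψ0 r671 = m6_671 := by
  show ψ0 (r606 * y) = m6_671
  rw [map_mul, t6_606, ψ0_y]; decide
theorem t6_672 : ψ0 r672 = m6_672 := by
  show ψ0 (r608 * y) = m6_672
  rw [map_mul, t6_608, ψ0_y]; decide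
theorem t6_673 : ψ0 r673 = m6_673 := by
  show ψ0 (r609 * y) = m6_673
  rw [map_mul, t6_609, ψ0_y]; decide
theorem t6_674 : ψ0 r674 = m6_674 := by
  show ψ0 (r610 * y) = m6_674
  rw [map_mul, t6_610, ψ0_y]; decide
theorem t6_675 : ψ0 r675 = m6_675 := by
  show ψ0 (r611 * y) = m6_675
  rw [map_mul, t6_611, ψ0_y]; decide
theorem t6_676 : ψ0 r676 = m6_676 := by
  show ψ0 (r612 * y) = m6_676
  rw [map_mul, t6_612, ψ0_y]; decide
theorem t6_677 : ψ0 r677 = m6_677 := by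
  show ψ0 (r613 * y) = m6_677
  rw [map_mul, t6_613, ψ0_y]; decide
theorem t6_678 : ψ0 r678 = m6_678 := by
  show ψ0 (r614 * y) = m6_678
  rw [map_mul, t6_614, ψ0_y]; decide
theorem t6_679 : ψ0 r679 = m6_679 := by
  show ψ0 (r616 * y) = m6_679
  rw [map_mul, t6_616, ψ0_y]; decide
theorem t6_680 : ψ0 r680 = m6_680 := by
  show ψ0 (r619 * y) = m6_680
  rw [map_mul, t6_619, ψ0_y]; decide
theorem t6_681 : ψ0 r681 = m6_681 := by
  show ψ0 (r620 * y) = m6_681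
  rw [map_mul, t6_620, ψ0_y]; decide
theorem t6_682 : ψ0 r682 = m6_682 := by
  show ψ0 (r623 * y) = m6_682
  rw [map_mul, t6_623, ψ0_y]; decide
theorem t6_683 : ψ0 r683 = m6_683 := by
  show ψ0 (r624 * y) = m6_683
  rw [map_mul, t6_624, ψ0_y]; decide
theorem t6_684 : ψ0 r684 = m6_684 := by
  show ψ0 (r626 * y) = m6_684
  rw [map_mul, t6_626, ψ0_y]; decide
theorem t6_685 : ψ0 r685 = m6_685 := by
  show ψ0 (r627 * y) = m6_685
  rw [map_mul, t6_627, ψ0_y]; decide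
theorem t6_686 : ψ0 r686 = m6_686 := by
  show ψ0 (r628 * y) = m6_686
  rw [map_mul, t6_628, ψ0_y]; decide
theorem t6_687 : ψ0 r687 = m6_687 := by
  show ψ0 (r629 * x) = m6_687
  rw [map_mul, t6_629, ψ0_x]; decide
theorem t6_688 : ψ0 r688 = m6_688 := by
  show ψ0 (r629 * y) = m6_688
  rw [map_mul, t6_629, ψ0_y]; decide
theorem t6_689 : ψ0 r689 = m6_689 := by
  show ψ0 (r633 * y) = m6_689
  rw [map_mul, t6_633, ψ0_y]; decide
theorem t6_690 : ψ0 r690 = m6_690 := by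
  show ψ0 (r635 * y) = m6_690
  rw [map_mul, t6_635, ψ0_y]; decide
theorem t6_691 : ψ0 r691 = m6_691 := by
  show ψ0 (r637 * y) = m6_691
  rw [map_mul, t6_637, ψ0_y]; decide
theorem t6_692 : ψ0 r692 = m6_692 := by
  show ψ0 (r639 * x) = m6_692
  rw [map_mul, t6_639, ψ0_x]; decide
theorem t6_693 : ψ0 r693 = m6_693 := by
  show ψ0 (r639 * y) = m6_693
  rw [map_mul, t6_639, ψ0_y]; decide
theorem t6_694 : ψ0 r694 = m6_694 := by
  show ψ0 (r642 * y) = m6_694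
  rw [map_mul, t6_642, ψ0_y]; decide
theorem t6_695 : ψ0 r695 = m6_695 := by
  show ψ0 (r644 * y) = m6_695
  rw [map_mul, t6_644, ψ0_y]; decide
theorem t6_696 : ψ0 r696 = m6_696 := by
  show ψ0 (r645 * y) = m6_696
  rw [map_mul, t6_645, ψ0_y]; decide
theorem t6_697 : ψ0 r697 = m6_697 := by
  show ψ0 (r646 * y) = m6_697
  rw [map_mul, t6_646, ψ0_y]; decide
theorem t6_698 : ψ0 r698 = m6_698 := by
  show ψ0 (r647 * y) = m6_698
  rw [map_mul, t6_647, ψ0_y]; decide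
theorem t6_699 : ψ0 r699 = m6_699 := by
  show ψ0 (r648 * y) = m6_699
  rw [map_mul, t6_648, ψ0_y]; decide
theorem t6_700 : ψ0 r700 = m6_700 := by
  show ψ0 (r649 * y) = m6_700
  rw [map_mul, t6_649, ψ0_y]; decide
theorem t6_701 : ψ0 r701 = m6_701 := by
  show ψ0 (r650 * y) = m6_701
  rw [map_mul, t6_650, ψ0_y]; decide
theorem t6_702 : ψ0 r702 = m6_702 := by
  show ψ0 (r652 * y) = m6_702
  rw [map_mul, t6_652, ψ0_y]; decide
theorem t6_703 : ψ0 r703 = m6_703 := by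
  show ψ0 (r655 * y) = m6_703
  rw [map_mul, t6_655, ψ0_y]; decide
theorem t6_704 : ψ0 r704 = m6_704 := by
  show ψ0 (r656 * y) = m6_704
  rw [map_mul, t6_656, ψ0_y]; decide
theorem t6_705 : ψ0 r705 = m6_705 := by
  show ψ0 (r659 * y) = m6_705
  rw [map_mul, t6_659, ψ0_y]; decide
theorem t6_706 : ψ0 r706 = m6_706 := by
  show ψ0 (r660 * x) = m6_706
  rw [map_mul, t6_660, ψ0_x]; decide
theorem t6_707 : ψ0 r707 = m6_707 := by
  show ψ0 (r660 * y) = m6_707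
  rw [map_mul, t6_660, ψ0_y]; decide
theorem t6_708 : ψ0 r708 = m6_708 := by
  show ψ0 (r663 * y) = m6_708
  rw [map_mul, t6_663, ψ0_y]; decide
theorem t6_709 : ψ0 r709 = m6_709 := by
  show ψ0 (r668 * y) = m6_709
  rw [map_mul, t6_668, ψ0_y]; decide
theorem t6_710 : ψ0 r710 = m6_710 := by
  show ψ0 (r672 * y) = m6_710
  rw [map_mul, t6_672, ψ0_y]; decide
theorem t6_711 : ψ0 r711 = m6_711 := by
  show ψ0 (r681 * y) = m6_711
  rw [map_mul, t6_681, ψ0_y]; decide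
theorem t6_712 : ψ0 r712 = m6_712 := by
  show ψ0 (r683 * x) = m6_712
  rw [map_mul, t6_683, ψ0_x]; decide
theorem t6_713 : ψ0 r713 = m6_713 := by
  show ψ0 (r683 * y) = m6_713
  rw [map_mul, t6_683, ψ0_y]; decide
theorem t6_714 : ψ0 r714 = m6_714 := by
  show ψ0 (r686 * y) = m6_714
  rw [map_mul, t6_686, ψ0_y]; decide
theorem t6_715 : ψ0 r715 = m6_715 := by
  show ψ0 (r691 * y) = m6_715
  rw [map_mul, t6_691, ψ0_y]; decide
theorem t6_716 : ψ0 r716 = m6_716 := by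
  show ψ0 (r695 * y) = m6_716
  rw [map_mul, t6_695, ψ0_y]; decide
theorem t6_717 : ψ0 r717 = m6_717 := by
  show ψ0 (r704 * y) = m6_717
  rw [map_mul, t6_704, ψ0_y]; decide
theorem t6_718 : ψ0 r718 = m6_718 := by
  show ψ0 (r709 * y) = m6_718
  rw [map_mul, t6_709, ψ0_y]; decide
theorem t6_719 : ψ0 r719 = m6_719 := by
  show ψ0 (r715 * y) = m6_719
  rw [map_mul, t6_715, ψ0_y]; decide
def M6_c0 : Fin 60 → Equiv.Perm (Fin 6)
  | ⟨0, _⟩ => m6_0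
  | ⟨1, _⟩ => m6_1
  | ⟨2, _⟩ => m6_2
  | ⟨3, _⟩ => m6_3
  | ⟨4, _⟩ => m6_4
  | ⟨5, _⟩ => m6_5
  | ⟨6, _⟩ => m6_6
  | ⟨7, _⟩ => m6_7
  | ⟨8, _⟩ => m6_8
  | ⟨9, _⟩ => m6_9
  | ⟨10, _⟩ => m6_10
  | ⟨11, _⟩ => m6_11
  | ⟨12, _⟩ => m6_12
  | ⟨13, _⟩ => m6_13
  | ⟨14, _⟩ => m6_14
  | ⟨15, _⟩ => m6_15
  | ⟨16, _⟩ => m6_16
  | ⟨17, _⟩ => m6_17
  | ⟨18, _⟩ => m6_18
  | ⟨19, _⟩ => m6_19
  | ⟨20, _⟩ => m6_20
  | ⟨21, _⟩ => m6_21
  | ⟨22, _⟩ => m6_22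
  | ⟨23, _⟩ => m6_23
  | ⟨24, _⟩ => m6_24
  | ⟨25, _⟩ => m6_25
  | ⟨26, _⟩ => m6_26
  | ⟨27, _⟩ => m6_27
  | ⟨28, _⟩ => m6_28
  | ⟨29, _⟩ => m6_29
  | ⟨30, _⟩ => m6_30
  | ⟨31, _⟩ => m6_31
  | ⟨32, _⟩ => m6_32
  | ⟨33, _⟩ => m6_33
  | ⟨34, _⟩ => m6_34
  | ⟨35, _⟩ => m6_35
  | ⟨36, _⟩ => m6_36
  | ⟨37, _⟩ => m6_37
  | ⟨38, _⟩ => m6_38
  | ⟨39, _⟩ => m6_39
  | ⟨40, _⟩ => m6_40
  | ⟨41, _⟩ => m6_41
  | ⟨42, _⟩ => m6_42
  | ⟨43, _⟩ => m6_43
  | ⟨44, _⟩ => m6_44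
  | ⟨45, _⟩ => m6_45
  | ⟨46, _⟩ => m6_46
  | ⟨47, _⟩ => m6_47
  | ⟨48, _⟩ => m6_48
  | ⟨49, _⟩ => m6_49
  | ⟨50, _⟩ => m6_50
  | ⟨51, _⟩ => m6_51
  | ⟨52, _⟩ => m6_52
  | ⟨53, _⟩ => m6_53
  | ⟨54, _⟩ => m6_54
  | ⟨55, _⟩ => m6_55
  | ⟨56, _⟩ => m6_56
  | ⟨57, _⟩ => m6_57
  | ⟨58, _⟩ => m6_58
  | ⟨59, _⟩ => m6_59
  | ⟨n+60, h⟩ => absurd h (by omega)
def M6_c1 : Fin 60 → Equiv.Perm (Fin 6)
  | ⟨0, _⟩ => m6_60
  | ⟨1, _⟩ => m6_61
  | ⟨2, _⟩ => m6_62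
  | ⟨3, _⟩ => m6_63
  | ⟨4, _⟩ => m6_64
  | ⟨5, _⟩ => m6_65
  | ⟨6, _⟩ => m6_66
  | ⟨7, _⟩ => m6_67
  | ⟨8, _⟩ => m6_68
  | ⟨9, _⟩ => m6_69
  | ⟨10, _⟩ => m6_70
  | ⟨11, _⟩ => m6_71
  | ⟨12, _⟩ => m6_72
  | ⟨13, _⟩ => m6_73
  | ⟨14, _⟩ => m6_74
  | ⟨15, _⟩ => m6_75
  | ⟨16, _⟩ => m6_76
  | ⟨17, _⟩ => m6_77
  | ⟨18, _⟩ => m6_78
  | ⟨19, _⟩ => m6_79
  | ⟨20, _⟩ => m6_80
  | ⟨21, _⟩ => m6_81
  | ⟨22, _⟩ => m6_82
  | ⟨23, _⟩ => m6_83
  | ⟨24, _⟩ => m6_84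
  | ⟨25, _⟩ => m6_85
  | ⟨26, _⟩ => m6_86
  | ⟨27, _⟩ => m6_87
  | ⟨28, _⟩ => m6_88
  | ⟨29, _⟩ => m6_89
  | ⟨30, _⟩ => m6_90
  | ⟨31, _⟩ => m6_91
  | ⟨32, _⟩ => m6_92
  | ⟨33, _⟩ => m6_93
  | ⟨34, _⟩ => m6_94
  | ⟨35, _⟩ => m6_95
  | ⟨36, _⟩ => m6_96
  | ⟨37, _⟩ => m6_97
  | ⟨38, _⟩ => m6_98
  | ⟨39, _⟩ => m6_99
  | ⟨40, _⟩ => m6_100
  | ⟨41, _⟩ => m6_101
  | ⟨42, _⟩ => m6_102
  | ⟨43, _⟩ => m6_103
  | ⟨44, _⟩ => m6_104
  | ⟨45, _⟩ => m6_105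
  | ⟨46, _⟩ => m6_106
  | ⟨47, _⟩ => m6_107
  | ⟨48, _⟩ => m6_108
  | ⟨49, _⟩ => m6_109
  | ⟨50, _⟩ => m6_110
  | ⟨51, _⟩ => m6_111
  | ⟨52, _⟩ => m6_112
  | ⟨53, _⟩ => m6_113
  | ⟨54, _⟩ => m6_114
  | ⟨55, _⟩ => m6_115
  | ⟨56, _⟩ => m6_116
  | ⟨57, _⟩ => m6_117
  | ⟨58, _⟩ => m6_118
  | ⟨59, _⟩ => m6_119
  | ⟨n+60, h⟩ => absurd h (by omega)
def M6_c2 : Fin 60 → Equiv.Perm (Fin 6)
  | ⟨0, _⟩ => m6_120
  | ⟨1, _⟩ => m6_121
  | ⟨2, _⟩ => m6_122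
  | ⟨3, _⟩ => m6_123
  | ⟨4, _⟩ => m6_124
  | ⟨5, _⟩ => m6_125
  | ⟨6, _⟩ => m6_126
  | ⟨7, _⟩ => m6_127
  | ⟨8, _⟩ => m6_128
  | ⟨9, _⟩ => m6_129
  | ⟨10, _⟩ => m6_130
  | ⟨11, _⟩ => m6_131
  | ⟨12, _⟩ => m6_132
  | ⟨13, _⟩ => m6_133
  | ⟨14, _⟩ => m6_134
  | ⟨15, _⟩ => m6_135
  | ⟨16, _⟩ => m6_136
  | ⟨17, _⟩ => m6_137
  | ⟨18, _⟩ => m6_138
  | ⟨19, _⟩ => m6_139
  | ⟨20, _⟩ => m6_140
  | ⟨21, _⟩ => m6_141
  | ⟨22, _⟩ => m6_142
  | ⟨23, _⟩ => m6_143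
  | ⟨24, _⟩ => m6_144
  | ⟨25, _⟩ => m6_145
  | ⟨26, _⟩ => m6_146
  | ⟨27, _⟩ => m6_147
  | ⟨28, _⟩ => m6_148
  | ⟨29, _⟩ => m6_149
  | ⟨30, _⟩ => m6_150
  | ⟨31, _⟩ => m6_151
  | ⟨32, _⟩ => m6_152
  | ⟨33, _⟩ => m6_153
  | ⟨34, _⟩ => m6_154
  | ⟨35, _⟩ => m6_155
  | ⟨36, _⟩ => m6_156
  | ⟨37, _⟩ => m6_157
  | ⟨38, _⟩ => m6_158
  | ⟨39, _⟩ => m6_159
  | ⟨40, _⟩ => m6_160
  | ⟨41, _⟩ => m6_161
  | ⟨42, _⟩ => m6_162
  | ⟨43, _⟩ => m6_163
  | ⟨44, _⟩ => m6_164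
  | ⟨45, _⟩ => m6_165
  | ⟨46, _⟩ => m6_166
  | ⟨47, _⟩ => m6_167
  | ⟨48, _⟩ => m6_168
  | ⟨49, _⟩ => m6_169
  | ⟨50, _⟩ => m6_170
  | ⟨51, _⟩ => m6_171
  | ⟨52, _⟩ => m6_172
  | ⟨53, _⟩ => m6_173
  | ⟨54, _⟩ => m6_174
  | ⟨55, _⟩ => m6_175
  | ⟨56, _⟩ => m6_176
  | ⟨57, _⟩ => m6_177
  | ⟨58, _⟩ => m6_178
  | ⟨59, _⟩ => m6_179
  | ⟨n+60, h⟩ => absurd h (by omega)
def M6_c3 : Fin 60 → Equiv.Perm (Fin 6)
  | ⟨0, _⟩ => m6_180
  | ⟨1, _⟩ => m6_181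
  | ⟨2, _⟩ => m6_182
  | ⟨3, _⟩ => m6_183
  | ⟨4, _⟩ => m6_184
  | ⟨5, _⟩ => m6_185
  | ⟨6, _⟩ => m6_186
  | ⟨7, _⟩ => m6_187
  | ⟨8, _⟩ => m6_188
  | ⟨9, _⟩ => m6_189
  | ⟨10, _⟩ => m6_190
  | ⟨11, _⟩ => m6_191
  | ⟨12, _⟩ => m6_192
  | ⟨13, _⟩ => m6_193
  | ⟨14, _⟩ => m6_194
  | ⟨15, _⟩ => m6_195
  | ⟨16, _⟩ => m6_196
  | ⟨17, _⟩ => m6_197
  | ⟨18, _⟩ => m6_198
  | ⟨19, _⟩ => m6_199
  | ⟨20, _⟩ => m6_200
  | ⟨21, _⟩ => m6_201
  | ⟨22, _⟩ => m6_202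
  | ⟨23, _⟩ => m6_203
  | ⟨24, _⟩ => m6_204
  | ⟨25, _⟩ => m6_205
  | ⟨26, _⟩ => m6_206
  | ⟨27, _⟩ => m6_207
  | ⟨28, _⟩ => m6_208
  | ⟨29, _⟩ => m6_209
  | ⟨30, _⟩ => m6_210
  | ⟨31, _⟩ => m6_211
  | ⟨32, _⟩ => m6_212
  | ⟨33, _⟩ => m6_213
  | ⟨34, _⟩ => m6_214
  | ⟨35, _⟩ => m6_215
  | ⟨36, _⟩ => m6_216
  | ⟨37, _⟩ => m6_217
  | ⟨38, _⟩ => m6_218
  | ⟨39, _⟩ => m6_219
  | ⟨40, _⟩ => m6_220
  | ⟨41, _⟩ => m6_221
  | ⟨42, _⟩ => m6_222
  | ⟨43, _⟩ => m6_223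
  | ⟨44, _⟩ => m6_224
  | ⟨45, _⟩ => m6_225
  | ⟨46, _⟩ => m6_226
  | ⟨47, _⟩ => m6_227
  | ⟨48, _⟩ => m6_228
  | ⟨49, _⟩ => m6_229
  | ⟨50, _⟩ => m6_230
  | ⟨51, _⟩ => m6_231
  | ⟨52, _⟩ => m6_232
  | ⟨53, _⟩ => m6_233
  | ⟨54, _⟩ => m6_234
  | ⟨55, _⟩ => m6_235
  | ⟨56, _⟩ => m6_236
  | ⟨57, _⟩ => m6_237
  | ⟨58, _⟩ => m6_238
  | ⟨59, _⟩ => m6_239
  | ⟨n+60, h⟩ => absurd h (by omega)
def M6_c4 : Fin 60 → Equiv.Perm (Fin 6)
  | ⟨0, _⟩ => m6_240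
  | ⟨1, _⟩ => m6_241
  | ⟨2, _⟩ => m6_242
  | ⟨3, _⟩ => m6_243
  | ⟨4, _⟩ => m6_244
  | ⟨5, _⟩ => m6_245
  | ⟨6, _⟩ => m6_246
  | ⟨7, _⟩ => m6_247
  | ⟨8, _⟩ => m6_248
  | ⟨9, _⟩ => m6_249
  | ⟨10, _⟩ => m6_250
  | ⟨11, _⟩ => m6_251
  | ⟨12, _⟩ => m6_252
  | ⟨13, _⟩ => m6_253
  | ⟨14, _⟩ => m6_254
  | ⟨15, _⟩ => m6_255
  | ⟨16, _⟩ => m6_256
  | ⟨17, _⟩ => m6_257
  | ⟨18, _⟩ => m6_258
  | ⟨19, _⟩ => m6_259
  | ⟨20, _⟩ => m6_260
  | ⟨21, _⟩ => m6_261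
  | ⟨22, _⟩ => m6_262
  | ⟨23, _⟩ => m6_263
  | ⟨24, _⟩ => m6_264
  | ⟨25, _⟩ => m6_265
  | ⟨26, _⟩ => m6_266
  | ⟨27, _⟩ => m6_267
  | ⟨28, _⟩ => m6_268
  | ⟨29, _⟩ => m6_269
  | ⟨30, _⟩ => m6_270
  | ⟨31, _⟩ => m6_271
  | ⟨32, _⟩ => m6_272
  | ⟨33, _⟩ => m6_273
  | ⟨34, _⟩ => m6_274
  | ⟨35, _⟩ => m6_275
  | ⟨36, _⟩ => m6_276
  | ⟨37, _⟩ => m6_277
  | ⟨38, _⟩ => m6_278
  | ⟨39, _⟩ => m6_279
  | ⟨40, _⟩ => m6_280
  | ⟨41, _⟩ => m6_281
  | ⟨42, _⟩ => m6_282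
  | ⟨43, _⟩ => m6_283
  | ⟨44, _⟩ => m6_284
  | ⟨45, _⟩ => m6_285
  | ⟨46, _⟩ => m6_286
  | ⟨47, _⟩ => m6_287
  | ⟨48, _⟩ => m6_288
  | ⟨49, _⟩ => m6_289
  | ⟨50, _⟩ => m6_290
  | ⟨51, _⟩ => m6_291
  | ⟨52, _⟩ => m6_292
  | ⟨53, _⟩ => m6_293
  | ⟨54, _⟩ => m6_294
  | ⟨55, _⟩ => m6_295
  | ⟨56, _⟩ => m6_296
  | ⟨57, _⟩ => m6_297
  | ⟨58, _⟩ => m6_298
  | ⟨59, _⟩ => m6_299
  | ⟨n+60, h⟩ => absurd h (by omega)
def M6_c5 : Fin 60 → Equiv.Perm (Fin 6)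
  | ⟨0, _⟩ => m6_300
  | ⟨1, _⟩ => m6_301
  | ⟨2, _⟩ => m6_302
  | ⟨3, _⟩ => m6_303
  | ⟨4, _⟩ => m6_304
  | ⟨5, _⟩ => m6_305
  | ⟨6, _⟩ => m6_306
  | ⟨7, _⟩ => m6_307
  | ⟨8, _⟩ => m6_308
  | ⟨9, _⟩ => m6_309
  | ⟨10, _⟩ => m6_310
  | ⟨11, _⟩ => m6_311
  | ⟨12, _⟩ => m6_312
  | ⟨13, _⟩ => m6_313
  | ⟨14, _⟩ => m6_314
  | ⟨15, _⟩ => m6_315
  | ⟨16, _⟩ => m6_316
  | ⟨17, _⟩ => m6_317
  | ⟨18, _⟩ => m6_318
  | ⟨19, _⟩ => m6_319
  | ⟨20, _⟩ => m6_320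
  | ⟨21, _⟩ => m6_321
  | ⟨22, _⟩ => m6_322
  | ⟨23, _⟩ => m6_323
  | ⟨24, _⟩ => m6_324
  | ⟨25, _⟩ => m6_325
  | ⟨26, _⟩ => m6_326
  | ⟨27, _⟩ => m6_327
  | ⟨28, _⟩ => m6_328
  | ⟨29, _⟩ => m6_329
  | ⟨30, _⟩ => m6_330
  | ⟨31, _⟩ => m6_331
  | ⟨32, _⟩ => m6_332
  | ⟨33, _⟩ => m6_333
  | ⟨34, _⟩ => m6_334
  | ⟨35, _⟩ => m6_335
  | ⟨36, _⟩ => m6_336
  | ⟨37, _⟩ => m6_337
  | ⟨38, _⟩ => m6_338
  | ⟨39, _⟩ => m6_339
  | ⟨40, _⟩ => m6_340
  | ⟨41, _⟩ => m6_341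
  | ⟨42, _⟩ => m6_342
  | ⟨43, _⟩ => m6_343
  | ⟨44, _⟩ => m6_344
  | ⟨45, _⟩ => m6_345
  | ⟨46, _⟩ => m6_346
  | ⟨47, _⟩ => m6_347
  | ⟨48, _⟩ => m6_348
  | ⟨49, _⟩ => m6_349
  | ⟨50, _⟩ => m6_350
  | ⟨51, _⟩ => m6_351
  | ⟨52, _⟩ => m6_352
  | ⟨53, _⟩ => m6_353
  | ⟨54, _⟩ => m6_354
  | ⟨55, _⟩ => m6_355
  | ⟨56, _⟩ => m6_356
  | ⟨57, _⟩ => m6_357
  | ⟨58, _⟩ => m6_358
  | ⟨59, _⟩ => m6_359
  | ⟨n+60, h⟩ => absurd h (by omega)
def M6_c6 : Fin 60 → Equiv.Perm (Fin 6)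
  | ⟨0, _⟩ => m6_360
  | ⟨1, _⟩ => m6_361
  | ⟨2, _⟩ => m6_362
  | ⟨3, _⟩ => m6_363
  | ⟨4, _⟩ => m6_364
  | ⟨5, _⟩ => m6_365
  | ⟨6, _⟩ => m6_366
  | ⟨7, _⟩ => m6_367
  | ⟨8, _⟩ => m6_368
  | ⟨9, _⟩ => m6_369
  | ⟨10, _⟩ => m6_370
  | ⟨11, _⟩ => m6_371
  | ⟨12, _⟩ => m6_372
  | ⟨13, _⟩ => m6_373
  | ⟨14, _⟩ => m6_374
  | ⟨15, _⟩ => m6_375
  | ⟨16, _⟩ => m6_376
  | ⟨17, _⟩ => m6_377
  | ⟨18, _⟩ => m6_378
  | ⟨19, _⟩ => m6_379
  | ⟨20, _⟩ => m6_380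
  | ⟨21, _⟩ => m6_381
  | ⟨22, _⟩ => m6_382
  | ⟨23, _⟩ => m6_383
  | ⟨24, _⟩ => m6_384
  | ⟨25, _⟩ => m6_385
  | ⟨26, _⟩ => m6_386
  | ⟨27, _⟩ => m6_387
  | ⟨28, _⟩ => m6_388
  | ⟨29, _⟩ => m6_389
  | ⟨30, _⟩ => m6_390
  | ⟨31, _⟩ => m6_391
  | ⟨32, _⟩ => m6_392
  | ⟨33, _⟩ => m6_393
  | ⟨34, _⟩ => m6_394
  | ⟨35, _⟩ => m6_395
  | ⟨36, _⟩ => m6_396
  | ⟨37, _⟩ => m6_397
  | ⟨38, _⟩ => m6_398
  | ⟨39, _⟩ => m6_399
  | ⟨40, _⟩ => m6_400
  | ⟨41, _⟩ => m6_401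
  | ⟨42, _⟩ => m6_402
  | ⟨43, _⟩ => m6_403
  | ⟨44, _⟩ => m6_404
  | ⟨45, _⟩ => m6_405
  | ⟨46, _⟩ => m6_406
  | ⟨47, _⟩ => m6_407
  | ⟨48, _⟩ => m6_408
  | ⟨49, _⟩ => m6_409
  | ⟨50, _⟩ => m6_410
  | ⟨51, _⟩ => m6_411
  | ⟨52, _⟩ => m6_412
  | ⟨53, _⟩ => m6_413
  | ⟨54, _⟩ => m6_414
  | ⟨55, _⟩ => m6_415
  | ⟨56, _⟩ => m6_416
  | ⟨57, _⟩ => m6_417
  | ⟨58, _⟩ => m6_418
  | ⟨59, _⟩ => m6_419
  | ⟨n+60, h⟩ => absurd h (by omega)
def M6_c7 : Fin 60 → Equiv.Perm (Fin 6)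
  | ⟨0, _⟩ => m6_420
  | ⟨1, _⟩ => m6_421
  | ⟨2, _⟩ => m6_422
  | ⟨3, _⟩ => m6_423
  | ⟨4, _⟩ => m6_424
  | ⟨5, _⟩ => m6_425
  | ⟨6, _⟩ => m6_426
  | ⟨7, _⟩ => m6_427
  | ⟨8, _⟩ => m6_428
  | ⟨9, _⟩ => m6_429
  | ⟨10, _⟩ => m6_430
  | ⟨11, _⟩ => m6_431
  | ⟨12, _⟩ => m6_432
  | ⟨13, _⟩ => m6_433
  | ⟨14, _⟩ => m6_434
  | ⟨15, _⟩ => m6_435
  | ⟨16, _⟩ => m6_436
  | ⟨17, _⟩ => m6_437
  | ⟨18, _⟩ => m6_438
  | ⟨19, _⟩ => m6_439
  | ⟨20, _⟩ => m6_440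
  | ⟨21, _⟩ => m6_441
  | ⟨22, _⟩ => m6_442
  | ⟨23, _⟩ => m6_443
  | ⟨24, _⟩ => m6_444
  | ⟨25, _⟩ => m6_445
  | ⟨26, _⟩ => m6_446
  | ⟨27, _⟩ => m6_447
  | ⟨28, _⟩ => m6_448
  | ⟨29, _⟩ => m6_449
  | ⟨30, _⟩ => m6_450
  | ⟨31, _⟩ => m6_451
  | ⟨32, _⟩ => m6_452
  | ⟨33, _⟩ => m6_453
  | ⟨34, _⟩ => m6_454
  | ⟨35, _⟩ => m6_455
  | ⟨36, _⟩ => m6_456
  | ⟨37, _⟩ => m6_457
  | ⟨38, _⟩ => m6_458
  | ⟨39, _⟩ => m6_459
  | ⟨40, _⟩ => m6_460
  | ⟨41, _⟩ => m6_461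
  | ⟨42, _⟩ => m6_462
  | ⟨43, _⟩ => m6_463
  | ⟨44, _⟩ => m6_464
  | ⟨45, _⟩ => m6_465
  | ⟨46, _⟩ => m6_466
  | ⟨47, _⟩ => m6_467
  | ⟨48, _⟩ => m6_468
  | ⟨49, _⟩ => m6_469
  | ⟨50, _⟩ => m6_470
  | ⟨51, _⟩ => m6_471
  | ⟨52, _⟩ => m6_472
  | ⟨53, _⟩ => m6_473
  | ⟨54, _⟩ => m6_474
  | ⟨55, _⟩ => m6_475
  | ⟨56, _⟩ => m6_476
  | ⟨57, _⟩ => m6_477
  | ⟨58, _⟩ => m6_478
  | ⟨59, _⟩ => m6_479
  | ⟨n+60, h⟩ => absurd h (by omega)
def M6_c8 : Fin 60 → Equiv.Perm (Fin 6)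
  | ⟨0, _⟩ => m6_480
  | ⟨1, _⟩ => m6_481
  | ⟨2, _⟩ => m6_482
  | ⟨3, _⟩ => m6_483
  | ⟨4, _⟩ => m6_484
  | ⟨5, _⟩ => m6_485
  | ⟨6, _⟩ => m6_486
  | ⟨7, _⟩ => m6_487
  | ⟨8, _⟩ => m6_488
  | ⟨9, _⟩ => m6_489
  | ⟨10, _⟩ => m6_490
  | ⟨11, _⟩ => m6_491
  | ⟨12, _⟩ => m6_492
  | ⟨13, _⟩ => m6_493
  | ⟨14, _⟩ => m6_494
  | ⟨15, _⟩ => m6_495
  | ⟨16, _⟩ => m6_496
  | ⟨17, _⟩ => m6_497
  | ⟨18, _⟩ => m6_498
  | ⟨19, _⟩ => m6_499
  | ⟨20, _⟩ => m6_500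
  | ⟨21, _⟩ => m6_501
  | ⟨22, _⟩ => m6_502
  | ⟨23, _⟩ => m6_503
  | ⟨24, _⟩ => m6_504
  | ⟨25, _⟩ => m6_505
  | ⟨26, _⟩ => m6_506
  | ⟨27, _⟩ => m6_507
  | ⟨28, _⟩ => m6_508
  | ⟨29, _⟩ => m6_509
  | ⟨30, _⟩ => m6_510
  | ⟨31, _⟩ => m6_511
  | ⟨32, _⟩ => m6_512
  | ⟨33, _⟩ => m6_513
  | ⟨34, _⟩ => m6_514
  | ⟨35, _⟩ => m6_515
  | ⟨36, _⟩ => m6_516
  | ⟨37, _⟩ => m6_517
  | ⟨38, _⟩ => m6_518
  | ⟨39, _⟩ => m6_519
  | ⟨40, _⟩ => m6_520
  | ⟨41, _⟩ => m6_521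
  | ⟨42, _⟩ => m6_522
  | ⟨43, _⟩ => m6_523
  | ⟨44, _⟩ => m6_524
  | ⟨45, _⟩ => m6_525
  | ⟨46, _⟩ => m6_526
  | ⟨47, _⟩ => m6_527
  | ⟨48, _⟩ => m6_528
  | ⟨49, _⟩ => m6_529
  | ⟨50, _⟩ => m6_530
  | ⟨51, _⟩ => m6_531
  | ⟨52, _⟩ => m6_532
  | ⟨53, _⟩ => m6_533
  | ⟨54, _⟩ => m6_534
  | ⟨55, _⟩ => m6_535
  | ⟨56, _⟩ => m6_536
  | ⟨57, _⟩ => m6_537
  | ⟨58, _⟩ => m6_538
  | ⟨59, _⟩ => m6_539
  | ⟨n+60, h⟩ => absurd h (by omega)
def M6_c9 : Fin 60 → Equiv.Perm (Fin 6)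
  | ⟨0, _⟩ => m6_540
  | ⟨1, _⟩ => m6_541
  | ⟨2, _⟩ => m6_542
  | ⟨3, _⟩ => m6_543
  | ⟨4, _⟩ => m6_544
  | ⟨5, _⟩ => m6_545
  | ⟨6, _⟩ => m6_546
  | ⟨7, _⟩ => m6_547
  | ⟨8, _⟩ => m6_548
  | ⟨9, _⟩ => m6_549
  | ⟨10, _⟩ => m6_550
  | ⟨11, _⟩ => m6_551
  | ⟨12, _⟩ => m6_552
  | ⟨13, _⟩ => m6_553
  | ⟨14, _⟩ => m6_554
  | ⟨15, _⟩ => m6_555
  | ⟨16, _⟩ => m6_556
  | ⟨17, _⟩ => m6_557
  | ⟨18, _⟩ => m6_558
  | ⟨19, _⟩ => m6_559
  | ⟨20, _⟩ => m6_560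
  | ⟨21, _⟩ => m6_561
  | ⟨22, _⟩ => m6_562
  | ⟨23, _⟩ => m6_563
  | ⟨24, _⟩ => m6_564
  | ⟨25, _⟩ => m6_565
  | ⟨26, _⟩ => m6_566
  | ⟨27, _⟩ => m6_567
  | ⟨28, _⟩ => m6_568
  | ⟨29, _⟩ => m6_569
  | ⟨30, _⟩ => m6_570
  | ⟨31, _⟩ => m6_571
  | ⟨32, _⟩ => m6_572
  | ⟨33, _⟩ => m6_573
  | ⟨34, _⟩ => m6_574
  | ⟨35, _⟩ => m6_575
  | ⟨36, _⟩ => m6_576
  | ⟨37, _⟩ => m6_577
  | ⟨38, _⟩ => m6_578
  | ⟨39, _⟩ => m6_579
  | ⟨40, _⟩ => m6_580
  | ⟨41, _⟩ => m6_581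
  | ⟨42, _⟩ => m6_582
  | ⟨43, _⟩ => m6_583
  | ⟨44, _⟩ => m6_584
  | ⟨45, _⟩ => m6_585
  | ⟨46, _⟩ => m6_586
  | ⟨47, _⟩ => m6_587
  | ⟨48, _⟩ => m6_588
  | ⟨49, _⟩ => m6_589
  | ⟨50, _⟩ => m6_590
  | ⟨51, _⟩ => m6_591
  | ⟨52, _⟩ => m6_592
  | ⟨53, _⟩ => m6_593
  | ⟨54, _⟩ => m6_594
  | ⟨55, _⟩ => m6_595
  | ⟨56, _⟩ => m6_596
  | ⟨57, _⟩ => m6_597
  | ⟨58, _⟩ => m6_598
  | ⟨59, _⟩ => m6_599
  | ⟨n+60, h⟩ => absurd h (by omega)
def M6_c10 : Fin 60 → Equiv.Perm (Fin 6)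
  | ⟨0, _⟩ => m6_600
  | ⟨1, _⟩ => m6_601
  | ⟨2, _⟩ => m6_602
  | ⟨3, _⟩ => m6_603
  | ⟨4, _⟩ => m6_604
  | ⟨5, _⟩ => m6_605
  | ⟨6, _⟩ => m6_606
  | ⟨7, _⟩ => m6_607
  | ⟨8, _⟩ => m6_608
  | ⟨9, _⟩ => m6_609
  | ⟨10, _⟩ => m6_610
  | ⟨11, _⟩ => m6_611
  | ⟨12, _⟩ => m6_612
  | ⟨13, _⟩ => m6_613
  | ⟨14, _⟩ => m6_614
  | ⟨15, _⟩ => m6_615
  | ⟨16, _⟩ => m6_616
  | ⟨17, _⟩ => m6_617
  | ⟨18, _⟩ => m6_618
  | ⟨19, _⟩ => m6_619
  | ⟨20, _⟩ => m6_620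
  | ⟨21, _⟩ => m6_621
  | ⟨22, _⟩ => m6_622
  | ⟨23, _⟩ => m6_623
  | ⟨24, _⟩ => m6_624
  | ⟨25, _⟩ => m6_625
  | ⟨26, _⟩ => m6_626
  | ⟨27, _⟩ => m6_627
  | ⟨28, _⟩ => m6_628
  | ⟨29, _⟩ => m6_629
  | ⟨30, _⟩ => m6_630
  | ⟨31, _⟩ => m6_631
  | ⟨32, _⟩ => m6_632
  | ⟨33, _⟩ => m6_633
  | ⟨34, _⟩ => m6_634
  | ⟨35, _⟩ => m6_635
  | ⟨36, _⟩ => m6_636
  | ⟨37, _⟩ => m6_637
  | ⟨38, _⟩ => m6_638
  | ⟨39, _⟩ => m6_639
  | ⟨40, _⟩ => m6_640
  | ⟨41, _⟩ => m6_641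
  | ⟨42, _⟩ => m6_642
  | ⟨43, _⟩ => m6_643
  | ⟨44, _⟩ => m6_644
  | ⟨45, _⟩ => m6_645
  | ⟨46, _⟩ => m6_646
  | ⟨47, _⟩ => m6_647
  | ⟨48, _⟩ => m6_648
  | ⟨49, _⟩ => m6_649
  | ⟨50, _⟩ => m6_650
  | ⟨51, _⟩ => m6_651
  | ⟨52, _⟩ => m6_652
  | ⟨53, _⟩ => m6_653
  | ⟨54, _⟩ => m6_654
  | ⟨55, _⟩ => m6_655
  | ⟨56, _⟩ => m6_656
  | ⟨57, _⟩ => m6_657
  | ⟨58, _⟩ => m6_658
  | ⟨59, _⟩ => m6_659
  | ⟨n+60, h⟩ => absurd h (by omega)
def M6_c11 : Fin 60 → Equiv.Perm (Fin 6)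
  | ⟨0, _⟩ => m6_660
  | ⟨1, _⟩ => m6_661
  | ⟨2, _⟩ => m6_662
  | ⟨3, _⟩ => m6_663
  | ⟨4, _⟩ => m6_664
  | ⟨5, _⟩ => m6_665
  | ⟨6, _⟩ => m6_666
  | ⟨7, _⟩ => m6_667
  | ⟨8, _⟩ => m6_668
  | ⟨9, _⟩ => m6_669
  | ⟨10, _⟩ => m6_670
  | ⟨11, _⟩ => m6_671
  | ⟨12, _⟩ => m6_672
  | ⟨13, _⟩ => m6_673
  | ⟨14, _⟩ => m6_674
  | ⟨15, _⟩ => m6_675
  | ⟨16, _⟩ => m6_676
  | ⟨17, _⟩ => m6_677
  | ⟨18, _⟩ => m6_678
  | ⟨19, _⟩ => m6_679
  | ⟨20, _⟩ => m6_680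
  | ⟨21, _⟩ => m6_681
  | ⟨22, _⟩ => m6_682
  | ⟨23, _⟩ => m6_683
  | ⟨24, _⟩ => m6_684
  | ⟨25, _⟩ => m6_685
  | ⟨26, _⟩ => m6_686
  | ⟨27, _⟩ => m6_687
  | ⟨28, _⟩ => m6_688
  | ⟨29, _⟩ => m6_689
  | ⟨30, _⟩ => m6_690
  | ⟨31, _⟩ => m6_691
  | ⟨32, _⟩ => m6_692
  | ⟨33, _⟩ => m6_693
  | ⟨34, _⟩ => m6_694
  | ⟨35, _⟩ => m6_695
  | ⟨36, _⟩ => m6_696
  | ⟨37, _⟩ => m6_697
  | ⟨38, _⟩ => m6_698
  | ⟨39, _⟩ => m6_699
  | ⟨40, _⟩ => m6_700
  | ⟨41, _⟩ => m6_701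
  | ⟨42, _⟩ => m6_702
  | ⟨43, _⟩ => m6_703
  | ⟨44, _⟩ => m6_704
  | ⟨45, _⟩ => m6_705
  | ⟨46, _⟩ => m6_706
  | ⟨47, _⟩ => m6_707
  | ⟨48, _⟩ => m6_708
  | ⟨49, _⟩ => m6_709
  | ⟨50, _⟩ => m6_710
  | ⟨51, _⟩ => m6_711
  | ⟨52, _⟩ => m6_712
  | ⟨53, _⟩ => m6_713
  | ⟨54, _⟩ => m6_714
  | ⟨55, _⟩ => m6_715
  | ⟨56, _⟩ => m6_716
  | ⟨57, _⟩ => m6_717
  | ⟨58, _⟩ => m6_718
  | ⟨59, _⟩ => m6_719
  | ⟨n+60, h⟩ => absurd h (by omega)
def M6_ch : Fin 12 → Fin 60 → Equiv.Perm (Fin 6)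
  | ⟨0, _⟩ => M6_c0
  | ⟨1, _⟩ => M6_c1
  | ⟨2, _⟩ => M6_c2
  | ⟨3, _⟩ => M6_c3
  | ⟨4, _⟩ => M6_c4
  | ⟨5, _⟩ => M6_c5
  | ⟨6, _⟩ => M6_c6
  | ⟨7, _⟩ => M6_c7
  | ⟨8, _⟩ => M6_c8
  | ⟨9, _⟩ => M6_c9
  | ⟨10, _⟩ => M6_c10
  | ⟨11, _⟩ => M6_c11
  | ⟨n+12, h⟩ => absurd h (by omega)
def M6 (i : Idx) : Equiv.Perm (Fin 6) := M6_ch i.1 i.2
theorem ψ0_rep_c0 : ∀ b : Fin 60, ψ0 (rep_c0 b) = M6_c0 b
  | ⟨0, _⟩ => t6_0
  | ⟨1, _⟩ => t6_1
  | ⟨2, _⟩ => t6_2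
  | ⟨3, _⟩ => t6_3
  | ⟨4, _⟩ => t6_4
  | ⟨5, _⟩ => t6_5
  | ⟨6, _⟩ => t6_6
  | ⟨7, _⟩ => t6_7
  | ⟨8, _⟩ => t6_8
  | ⟨9, _⟩ => t6_9
  | ⟨10, _⟩ => t6_10
  | ⟨11, _⟩ => t6_11
  | ⟨12, _⟩ => t6_12
  | ⟨13, _⟩ => t6_13
  | ⟨14, _⟩ => t6_14
  | ⟨15, _⟩ => t6_15
  | ⟨16, _⟩ => t6_16
  | ⟨17, _⟩ => t6_17
  | ⟨18, _⟩ => t6_18
  | ⟨19, _⟩ => t6_19
  | ⟨20, _⟩ => t6_20
  | ⟨21, _⟩ => t6_21
  | ⟨22, _⟩ => t6_22
  | ⟨23, _⟩ => t6_23
  | ⟨24, _⟩ => t6_24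
  | ⟨25, _⟩ => t6_25
  | ⟨26, _⟩ => t6_26
  | ⟨27, _⟩ => t6_27
  | ⟨28, _⟩ => t6_28
  | ⟨29, _⟩ => t6_29
  | ⟨30, _⟩ => t6_30
  | ⟨31, _⟩ => t6_31
  | ⟨32, _⟩ => t6_32
  | ⟨33, _⟩ => t6_33
  | ⟨34, _⟩ => t6_34
  | ⟨35, _⟩ => t6_35
  | ⟨36, _⟩ => t6_36
  | ⟨37, _⟩ => t6_37
  | ⟨38, _⟩ => t6_38
  | ⟨39, _⟩ => t6_39
  | ⟨40, _⟩ => t6_40
  | ⟨41, _⟩ => t6_41
  | ⟨42, _⟩ => t6_42
  | ⟨43, _⟩ => t6_43
  | ⟨44, _⟩ => t6_44
  | ⟨45, _⟩ => t6_45
  | ⟨46, _⟩ => t6_46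
  | ⟨47, _⟩ => t6_47
  | ⟨48, _⟩ => t6_48
  | ⟨49, _⟩ => t6_49
  | ⟨50, _⟩ => t6_50
  | ⟨51, _⟩ => t6_51
  | ⟨52, _⟩ => t6_52
  | ⟨53, _⟩ => t6_53
  | ⟨54, _⟩ => t6_54
  | ⟨55, _⟩ => t6_55
  | ⟨56, _⟩ => t6_56
  | ⟨57, _⟩ => t6_57
  | ⟨58, _⟩ => t6_58
  | ⟨59, _⟩ => t6_59
  | ⟨n+60, h⟩ => absurd h (by omega)
theorem ψ0_rep_c1 : ∀ b : Fin 60, ψ0 (rep_c1 b) = M6_c1 b
  | ⟨0, _⟩ => t6_60
  | ⟨1, _⟩ => t6_61
  | ⟨2, _⟩ => t6_62
  | ⟨3, _⟩ => t6_63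
  | ⟨4, _⟩ => t6_64
  | ⟨5, _⟩ => t6_65
  | ⟨6, _⟩ => t6_66
  | ⟨7, _⟩ => t6_67
  | ⟨8, _⟩ => t6_68
  | ⟨9, _⟩ => t6_69
  | ⟨10, _⟩ => t6_70
  | ⟨11, _⟩ => t6_71
  | ⟨12, _⟩ => t6_72
  | ⟨13, _⟩ => t6_73
  | ⟨14, _⟩ => t6_74
  | ⟨15, _⟩ => t6_75
  | ⟨16, _⟩ => t6_76
  | ⟨17, _⟩ => t6_77
  | ⟨18, _⟩ => t6_78
  | ⟨19, _⟩ => t6_79
  | ⟨20, _⟩ => t6_80
  | ⟨21, _⟩ => t6_81
  | ⟨22, _⟩ => t6_82
  | ⟨23, _⟩ => t6_83
  | ⟨24, _⟩ => t6_84
  | ⟨25, _⟩ => t6_85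
  | ⟨26, _⟩ => t6_86
  | ⟨27, _⟩ => t6_87
  | ⟨28, _⟩ => t6_88
  | ⟨29, _⟩ => t6_89
  | ⟨30, _⟩ => t6_90
  | ⟨31, _⟩ => t6_91
  | ⟨32, _⟩ => t6_92
  | ⟨33, _⟩ => t6_93
  | ⟨34, _⟩ => t6_94
  | ⟨35, _⟩ => t6_95
  | ⟨36, _⟩ => t6_96
  | ⟨37, _⟩ => t6_97
  | ⟨38, _⟩ => t6_98
  | ⟨39, _⟩ => t6_99
  | ⟨40, _⟩ => t6_100
  | ⟨41, _⟩ => t6_101
  | ⟨42, _⟩ => t6_102
  | ⟨43, _⟩ => t6_103
  | ⟨44, _⟩ => t6_104
  | ⟨45, _⟩ => t6_105
  | ⟨46, _⟩ => t6_106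
  | ⟨47, _⟩ => t6_107
  | ⟨48, _⟩ => t6_108
  | ⟨49, _⟩ => t6_109
  | ⟨50, _⟩ => t6_110
  | ⟨51, _⟩ => t6_111
  | ⟨52, _⟩ => t6_112
  | ⟨53, _⟩ => t6_113
  | ⟨54, _⟩ => t6_114
  | ⟨55, _⟩ => t6_115
  | ⟨56, _⟩ => t6_116
  | ⟨57, _⟩ => t6_117
  | ⟨58, _⟩ => t6_118
  | ⟨59, _⟩ => t6_119
  | ⟨n+60, h⟩ => absurd h (by omega)
theorem ψ0_rep_c2 : ∀ b : Fin 60, ψ0 (rep_c2 b) = M6_c2 b
  | ⟨0, _⟩ => t6_120
  | ⟨1, _⟩ => t6_121
  | ⟨2, _⟩ => t6_122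
  | ⟨3, _⟩ => t6_123
  | ⟨4, _⟩ => t6_124
  | ⟨5, _⟩ => t6_125
  | ⟨6, _⟩ => t6_126
  | ⟨7, _⟩ => t6_127
  | ⟨8, _⟩ => t6_128
  | ⟨9, _⟩ => t6_129
  | ⟨10, _⟩ => t6_130
  | ⟨11, _⟩ => t6_131
  | ⟨12, _⟩ => t6_132
  | ⟨13, _⟩ => t6_133
  | ⟨14, _⟩ => t6_134
  | ⟨15, _⟩ => t6_135
  | ⟨16, _⟩ => t6_136
  | ⟨17, _⟩ => t6_137
  | ⟨18, _⟩ => t6_138
  | ⟨19, _⟩ => t6_139
  | ⟨20, _⟩ => t6_140
  | ⟨21, _⟩ => t6_141
  | ⟨22, _⟩ => t6_142
  | ⟨23, _⟩ => t6_143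
  | ⟨24, _⟩ => t6_144
  | ⟨25, _⟩ => t6_145
  | ⟨26, _⟩ => t6_146
  | ⟨27, _⟩ => t6_147
  | ⟨28, _⟩ => t6_148
  | ⟨29, _⟩ => t6_149
  | ⟨30, _⟩ => t6_150
  | ⟨31, _⟩ => t6_151
  | ⟨32, _⟩ => t6_152
  | ⟨33, _⟩ => t6_153
  | ⟨34, _⟩ => t6_154
  | ⟨35, _⟩ => t6_155
  | ⟨36, _⟩ => t6_156
  | ⟨37, _⟩ => t6_157
  | ⟨38, _⟩ => t6_158
  | ⟨39, _⟩ => t6_159
  | ⟨40, _⟩ => t6_160
  | ⟨41, _⟩ => t6_161
  | ⟨42, _⟩ => t6_162
  | ⟨43, _⟩ => t6_163
  | ⟨44, _⟩ => t6_164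
  | ⟨45, _⟩ => t6_165
  | ⟨46, _⟩ => t6_166
  | ⟨47, _⟩ => t6_167
  | ⟨48, _⟩ => t6_168
  | ⟨49, _⟩ => t6_169
  | ⟨50, _⟩ => t6_170
  | ⟨51, _⟩ => t6_171
  | ⟨52, _⟩ => t6_172
  | ⟨53, _⟩ => t6_173
  | ⟨54, _⟩ => t6_174
  | ⟨55, _⟩ => t6_175
  | ⟨56, _⟩ => t6_176
  | ⟨57, _⟩ => t6_177
  | ⟨58, _⟩ => t6_178
  | ⟨59, _⟩ => t6_179
  | ⟨n+60, h⟩ => absurd h (by omega)
theorem ψ0_rep_c3 : ∀ b : Fin 60, ψ0 (rep_c3 b) = M6_c3 b
  | ⟨0, _⟩ => t6_180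
  | ⟨1, _⟩ => t6_181
  | ⟨2, _⟩ => t6_182
  | ⟨3, _⟩ => t6_183
  | ⟨4, _⟩ => t6_184
  | ⟨5, _⟩ => t6_185
  | ⟨6, _⟩ => t6_186
  | ⟨7, _⟩ => t6_187
  | ⟨8, _⟩ => t6_188
  | ⟨9, _⟩ => t6_189
  | ⟨10, _⟩ => t6_190
  | ⟨11, _⟩ => t6_191
  | ⟨12, _⟩ => t6_192
  | ⟨13, _⟩ => t6_193
  | ⟨14, _⟩ => t6_194
  | ⟨15, _⟩ => t6_195
  | ⟨16, _⟩ => t6_196
  | ⟨17, _⟩ => t6_197
  | ⟨18, _⟩ => t6_198
  | ⟨19, _⟩ => t6_199
  | ⟨20, _⟩ => t6_200
  | ⟨21, _⟩ => t6_201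
  | ⟨22, _⟩ => t6_202
  | ⟨23, _⟩ => t6_203
  | ⟨24, _⟩ => t6_204
  | ⟨25, _⟩ => t6_205
  | ⟨26, _⟩ => t6_206
  | ⟨27, _⟩ => t6_207
  | ⟨28, _⟩ => t6_208
  | ⟨29, _⟩ => t6_209
  | ⟨30, _⟩ => t6_210
  | ⟨31, _⟩ => t6_211
  | ⟨32, _⟩ => t6_212
  | ⟨33, _⟩ => t6_213
  | ⟨34, _⟩ => t6_214
  | ⟨35, _⟩ => t6_215
  | ⟨36, _⟩ => t6_216
  | ⟨37, _⟩ => t6_217
  | ⟨38, _⟩ => t6_218
  | ⟨39, _⟩ => t6_219
  | ⟨40, _⟩ => t6_220
  | ⟨41, _⟩ => t6_221
  | ⟨42, _⟩ => t6_222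
  | ⟨43, _⟩ => t6_223
  | ⟨44, _⟩ => t6_224
  | ⟨45, _⟩ => t6_225
  | ⟨46, _⟩ => t6_226
  | ⟨47, _⟩ => t6_227
  | ⟨48, _⟩ => t6_228
  | ⟨49, _⟩ => t6_229
  | ⟨50, _⟩ => t6_230
  | ⟨51, _⟩ => t6_231
  | ⟨52, _⟩ => t6_232
  | ⟨53, _⟩ => t6_233
  | ⟨54, _⟩ => t6_234
  | ⟨55, _⟩ => t6_235
  | ⟨56, _⟩ => t6_236
  | ⟨57, _⟩ => t6_237
  | ⟨58, _⟩ => t6_238
  | ⟨59, _⟩ => t6_239
  | ⟨n+60, h⟩ => absurd h (by omega)
theorem ψ0_rep_c4 : ∀ b : Fin 60, ψ0 (rep_c4 b) = M6_c4 b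
  | ⟨0, _⟩ => t6_240
  | ⟨1, _⟩ => t6_241
  | ⟨2, _⟩ => t6_242
  | ⟨3, _⟩ => t6_243
  | ⟨4, _⟩ => t6_244
  | ⟨5, _⟩ => t6_245
  | ⟨6, _⟩ => t6_246
  | ⟨7, _⟩ => t6_247
  | ⟨8, _⟩ => t6_248
  | ⟨9, _⟩ => t6_249
  | ⟨10, _⟩ => t6_250
  | ⟨11, _⟩ => t6_251
  | ⟨12, _⟩ => t6_252
  | ⟨13, _⟩ => t6_253
  | ⟨14, _⟩ => t6_254
  | ⟨15, _⟩ => t6_255
  | ⟨16, _⟩ => t6_256
  | ⟨17, _⟩ => t6_257
  | ⟨18, _⟩ => t6_258
  | ⟨19, _⟩ => t6_259
  | ⟨20, _⟩ => t6_260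
  | ⟨21, _⟩ => t6_261
  | ⟨22, _⟩ => t6_262
  | ⟨23, _⟩ => t6_263
  | ⟨24, _⟩ => t6_264
  | ⟨25, _⟩ => t6_265
  | ⟨26, _⟩ => t6_266
  | ⟨27, _⟩ => t6_267
  | ⟨28, _⟩ => t6_268
  | ⟨29, _⟩ => t6_269
  | ⟨30, _⟩ => t6_270
  | ⟨31, _⟩ => t6_271
  | ⟨32, _⟩ => t6_272
  | ⟨33, _⟩ => t6_273
  | ⟨34, _⟩ => t6_274
  | ⟨35, _⟩ => t6_275
  | ⟨36, _⟩ => t6_276
  | ⟨37, _⟩ => t6_277
  | ⟨38, _⟩ => t6_278
  | ⟨39, _⟩ => t6_279
  | ⟨40, _⟩ => t6_280
  | ⟨41, _⟩ => t6_281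
  | ⟨42, _⟩ => t6_282
  | ⟨43, _⟩ => t6_283
  | ⟨44, _⟩ => t6_284
  | ⟨45, _⟩ => t6_285
  | ⟨46, _⟩ => t6_286
  | ⟨47, _⟩ => t6_287
  | ⟨48, _⟩ => t6_288
  | ⟨49, _⟩ => t6_289
  | ⟨50, _⟩ => t6_290
  | ⟨51, _⟩ => t6_291
  | ⟨52, _⟩ => t6_292
  | ⟨53, _⟩ => t6_293
  | ⟨54, _⟩ => t6_294
  | ⟨55, _⟩ => t6_295
  | ⟨56, _⟩ => t6_296
  | ⟨57, _⟩ => t6_297
  | ⟨58, _⟩ => t6_298
  | ⟨59, _⟩ => t6_299
  | ⟨n+60, h⟩ => absurd h (by omega)
theorem ψ0_rep_c5 : ∀ b : Fin 60, ψ0 (rep_c5 b) = M6_c5 b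
  | ⟨0, _⟩ => t6_300
  | ⟨1, _⟩ => t6_301
  | ⟨2, _⟩ => t6_302
  | ⟨3, _⟩ => t6_303
  | ⟨4, _⟩ => t6_304
  | ⟨5, _⟩ => t6_305
  | ⟨6, _⟩ => t6_306
  | ⟨7, _⟩ => t6_307
  | ⟨8, _⟩ => t6_308
  | ⟨9, _⟩ => t6_309
  | ⟨10, _⟩ => t6_310
  | ⟨11, _⟩ => t6_311
  | ⟨12, _⟩ => t6_312
  | ⟨13, _⟩ => t6_313
  | ⟨14, _⟩ => t6_314
  | ⟨15, _⟩ => t6_315
  | ⟨16, _⟩ => t6_316
  | ⟨17, _⟩ => t6_317
  | ⟨18, _⟩ => t6_318
  | ⟨19, _⟩ => t6_319
  | ⟨20, _⟩ => t6_320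
  | ⟨21, _⟩ => t6_321
  | ⟨22, _⟩ => t6_322
  | ⟨23, _⟩ => t6_323
  | ⟨24, _⟩ => t6_324
  | ⟨25, _⟩ => t6_325
  | ⟨26, _⟩ => t6_326
  | ⟨27, _⟩ => t6_327
  | ⟨28, _⟩ => t6_328
  | ⟨29, _⟩ => t6_329
  | ⟨30, _⟩ => t6_330
  | ⟨31, _⟩ => t6_331
  | ⟨32, _⟩ => t6_332
  | ⟨33, _⟩ => t6_333
  | ⟨34, _⟩ => t6_334
  | ⟨35, _⟩ => t6_335
  | ⟨36, _⟩ => t6_336
  | ⟨37, _⟩ => t6_337
  | ⟨38, _⟩ => t6_338
  | ⟨39, _⟩ => t6_339
  | ⟨40, _⟩ => t6_340
  | ⟨41, _⟩ => t6_341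
  | ⟨42, _⟩ => t6_342
  | ⟨43, _⟩ => t6_343
  | ⟨44, _⟩ => t6_344
  | ⟨45, _⟩ => t6_345
  | ⟨46, _⟩ => t6_346
  | ⟨47, _⟩ => t6_347
  | ⟨48, _⟩ => t6_348
  | ⟨49, _⟩ => t6_349
  | ⟨50, _⟩ => t6_350
  | ⟨51, _⟩ => t6_351
  | ⟨52, _⟩ => t6_352
  | ⟨53, _⟩ => t6_353
  | ⟨54, _⟩ => t6_354
  | ⟨55, _⟩ => t6_355
  | ⟨56, _⟩ => t6_356
  | ⟨57, _⟩ => t6_357
  | ⟨58, _⟩ => t6_358
  | ⟨59, _⟩ => t6_359
  | ⟨n+60, h⟩ => absurd h (by omega)
theorem ψ0_rep_c6 : ∀ b : Fin 60, ψ0 (rep_c6 b) = M6_c6 b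
  | ⟨0, _⟩ => t6_360
  | ⟨1, _⟩ => t6_361
  | ⟨2, _⟩ => t6_362
  | ⟨3, _⟩ => t6_363
  | ⟨4, _⟩ => t6_364
  | ⟨5, _⟩ => t6_365
  | ⟨6, _⟩ => t6_366
  | ⟨7, _⟩ => t6_367
  | ⟨8, _⟩ => t6_368
  | ⟨9, _⟩ => t6_369
  | ⟨10, _⟩ => t6_370
  | ⟨11, _⟩ => t6_371
  | ⟨12, _⟩ => t6_372
  | ⟨13, _⟩ => t6_373
  | ⟨14, _⟩ => t6_374
  | ⟨15, _⟩ => t6_375
  | ⟨16, _⟩ => t6_376
  | ⟨17, _⟩ => t6_377
  | ⟨18, _⟩ => t6_378
  | ⟨19, _⟩ => t6_379
  | ⟨20, _⟩ => t6_380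
  | ⟨21, _⟩ => t6_381
  | ⟨22, _⟩ => t6_382
  | ⟨23, _⟩ => t6_383
  | ⟨24, _⟩ => t6_384
  | ⟨25, _⟩ => t6_385
  | ⟨26, _⟩ => t6_386
  | ⟨27, _⟩ => t6_387
  | ⟨28, _⟩ => t6_388
  | ⟨29, _⟩ => t6_389
  | ⟨30, _⟩ => t6_390
  | ⟨31, _⟩ => t6_391
  | ⟨32, _⟩ => t6_392
  | ⟨33, _⟩ => t6_393
  | ⟨34, _⟩ => t6_394
  | ⟨35, _⟩ => t6_395
  | ⟨36, _⟩ => t6_396
  | ⟨37, _⟩ => t6_397
  | ⟨38, _⟩ => t6_398
  | ⟨39, _⟩ => t6_399
  | ⟨40, _⟩ => t6_400
  | ⟨41, _⟩ => t6_401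
  | ⟨42, _⟩ => t6_402
  | ⟨43, _⟩ => t6_403
  | ⟨44, _⟩ => t6_404
  | ⟨45, _⟩ => t6_405
  | ⟨46, _⟩ => t6_406
  | ⟨47, _⟩ => t6_407
  | ⟨48, _⟩ => t6_408
  | ⟨49, _⟩ => t6_409
  | ⟨50, _⟩ => t6_410
  | ⟨51, _⟩ => t6_411
  | ⟨52, _⟩ => t6_412
  | ⟨53, _⟩ => t6_413
  | ⟨54, _⟩ => t6_414
  | ⟨55, _⟩ => t6_415
  | ⟨56, _⟩ => t6_416
  | ⟨57, _⟩ => t6_417
  | ⟨58, _⟩ => t6_418
  | ⟨59, _⟩ => t6_419
  | ⟨n+60, h⟩ => absurd h (by omega)
theorem ψ0_rep_c7 : ∀ b : Fin 60, ψ0 (rep_c7 b) = M6_c7 b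
  | ⟨0, _⟩ => t6_420
  | ⟨1, _⟩ => t6_421
  | ⟨2, _⟩ => t6_422
  | ⟨3, _⟩ => t6_423
  | ⟨4, _⟩ => t6_424
  | ⟨5, _⟩ => t6_425
  | ⟨6, _⟩ => t6_426
  | ⟨7, _⟩ => t6_427
  | ⟨8, _⟩ => t6_428
  | ⟨9, _⟩ => t6_429
  | ⟨10, _⟩ => t6_430
  | ⟨11, _⟩ => t6_431
  | ⟨12, _⟩ => t6_432
  | ⟨13, _⟩ => t6_433
  | ⟨14, _⟩ => t6_434
  | ⟨15, _⟩ => t6_435
  | ⟨16, _⟩ => t6_436
  | ⟨17, _⟩ => t6_437
  | ⟨18, _⟩ => t6_438
  | ⟨19, _⟩ => t6_439
  | ⟨20, _⟩ => t6_440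
  | ⟨21, _⟩ => t6_441
  | ⟨22, _⟩ => t6_442
  | ⟨23, _⟩ => t6_443
  | ⟨24, _⟩ => t6_444
  | ⟨25, _⟩ => t6_445
  | ⟨26, _⟩ => t6_446
  | ⟨27, _⟩ => t6_447
  | ⟨28, _⟩ => t6_448
  | ⟨29, _⟩ => t6_449
  | ⟨30, _⟩ => t6_450
  | ⟨31, _⟩ => t6_451
  | ⟨32, _⟩ => t6_452
  | ⟨33, _⟩ => t6_453
  | ⟨34, _⟩ => t6_454
  | ⟨35, _⟩ => t6_455
  | ⟨36, _⟩ => t6_456
  | ⟨37, _⟩ => t6_457
  | ⟨38, _⟩ => t6_458
  | ⟨39, _⟩ => t6_459
  | ⟨40, _⟩ => t6_460
  | ⟨41, _⟩ => t6_461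
  | ⟨42, _⟩ => t6_462
  | ⟨43, _⟩ => t6_463
  | ⟨44, _⟩ => t6_464
  | ⟨45, _⟩ => t6_465
  | ⟨46, _⟩ => t6_466
  | ⟨47, _⟩ => t6_467
  | ⟨48, _⟩ => t6_468
  | ⟨49, _⟩ => t6_469
  | ⟨50, _⟩ => t6_470
  | ⟨51, _⟩ => t6_471
  | ⟨52, _⟩ => t6_472
  | ⟨53, _⟩ => t6_473
  | ⟨54, _⟩ => t6_474
  | ⟨55, _⟩ => t6_475
  | ⟨56, _⟩ => t6_476
  | ⟨57, _⟩ => t6_477
  | ⟨58, _⟩ => t6_478
  | ⟨59, _⟩ => t6_479
  | ⟨n+60, h⟩ => absurd h (by omega)
theorem ψ0_rep_c8 : ∀ b : Fin 60, ψ0 (rep_c8 b) = M6_c8 b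
  | ⟨0, _⟩ => t6_480
  | ⟨1, _⟩ => t6_481
  | ⟨2, _⟩ => t6_482
  | ⟨3, _⟩ => t6_483
  | ⟨4, _⟩ => t6_484
  | ⟨5, _⟩ => t6_485
  | ⟨6, _⟩ => t6_486
  | ⟨7, _⟩ => t6_487
  | ⟨8, _⟩ => t6_488
  | ⟨9, _⟩ => t6_489
  | ⟨10, _⟩ => t6_490
  | ⟨11, _⟩ => t6_491
  | ⟨12, _⟩ => t6_492
  | ⟨13, _⟩ => t6_493
  | ⟨14, _⟩ => t6_494
  | ⟨15, _⟩ => t6_495
  | ⟨16, _⟩ => t6_496
  | ⟨17, _⟩ => t6_497
  | ⟨18, _⟩ => t6_498
  | ⟨19, _⟩ => t6_499
  | ⟨20, _⟩ => t6_500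
  | ⟨21, _⟩ => t6_501
  | ⟨22, _⟩ => t6_502
  | ⟨23, _⟩ => t6_503
  | ⟨24, _⟩ => t6_504
  | ⟨25, _⟩ => t6_505
  | ⟨26, _⟩ => t6_506
  | ⟨27, _⟩ => t6_507
  | ⟨28, _⟩ => t6_508
  | ⟨29, _⟩ => t6_509
  | ⟨30, _⟩ => t6_510
  | ⟨31, _⟩ => t6_511
  | ⟨32, _⟩ => t6_512
  | ⟨33, _⟩ => t6_513
  | ⟨34, _⟩ => t6_514
  | ⟨35, _⟩ => t6_515
  | ⟨36, _⟩ => t6_516
  | ⟨37, _⟩ => t6_517
  | ⟨38, _⟩ => t6_518
  | ⟨39, _⟩ => t6_519
  | ⟨40, _⟩ => t6_520
  | ⟨41, _⟩ => t6_521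
  | ⟨42, _⟩ => t6_522
  | ⟨43, _⟩ => t6_523
  | ⟨44, _⟩ => t6_524
  | ⟨45, _⟩ => t6_525
  | ⟨46, _⟩ => t6_526
  | ⟨47, _⟩ => t6_527
  | ⟨48, _⟩ => t6_528
  | ⟨49, _⟩ => t6_529
  | ⟨50, _⟩ => t6_530
  | ⟨51, _⟩ => t6_531
  | ⟨52, _⟩ => t6_532
  | ⟨53, _⟩ => t6_533
  | ⟨54, _⟩ => t6_534
  | ⟨55, _⟩ => t6_535
  | ⟨56, _⟩ => t6_536
  | ⟨57, _⟩ => t6_537
  | ⟨58, _⟩ => t6_538
  | ⟨59, _⟩ => t6_539
  | ⟨n+60, h⟩ => absurd h (by omega)
theorem ψ0_rep_c9 : ∀ b : Fin 60, ψ0 (rep_c9 b) = M6_c9 b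
  | ⟨0, _⟩ => t6_540
  | ⟨1, _⟩ => t6_541
  | ⟨2, _⟩ => t6_542
  | ⟨3, _⟩ => t6_543
  | ⟨4, _⟩ => t6_544
  | ⟨5, _⟩ => t6_545
  | ⟨6, _⟩ => t6_546
  | ⟨7, _⟩ => t6_547
  | ⟨8, _⟩ => t6_548
  | ⟨9, _⟩ => t6_549
  | ⟨10, _⟩ => t6_550
  | ⟨11, _⟩ => t6_551
  | ⟨12, _⟩ => t6_552
  | ⟨13, _⟩ => t6_553
  | ⟨14, _⟩ => t6_554
  | ⟨15, _⟩ => t6_555
  | ⟨16, _⟩ => t6_556
  | ⟨17, _⟩ => t6_557
  | ⟨18, _⟩ => t6_558
  | ⟨19, _⟩ => t6_559
  | ⟨20, _⟩ => t6_560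
  | ⟨21, _⟩ => t6_561
  | ⟨22, _⟩ => t6_562
  | ⟨23, _⟩ => t6_563
  | ⟨24, _⟩ => t6_564
  | ⟨25, _⟩ => t6_565
  | ⟨26, _⟩ => t6_566
  | ⟨27, _⟩ => t6_567
  | ⟨28, _⟩ => t6_568
  | ⟨29, _⟩ => t6_569
  | ⟨30, _⟩ => t6_570
  | ⟨31, _⟩ => t6_571
  | ⟨32, _⟩ => t6_572
  | ⟨33, _⟩ => t6_573
  | ⟨34, _⟩ => t6_574
  | ⟨35, _⟩ => t6_575
  | ⟨36, _⟩ => t6_576
  | ⟨37, _⟩ => t6_577
  | ⟨38, _⟩ => t6_578
  | ⟨39, _⟩ => t6_579
  | ⟨40, _⟩ => t6_580
  | ⟨41, _⟩ => t6_581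
  | ⟨42, _⟩ => t6_582
  | ⟨43, _⟩ => t6_583
  | ⟨44, _⟩ => t6_584
  | ⟨45, _⟩ => t6_585
  | ⟨46, _⟩ => t6_586
  | ⟨47, _⟩ => t6_587
  | ⟨48, _⟩ => t6_588
  | ⟨49, _⟩ => t6_589
  | ⟨50, _⟩ => t6_590
  | ⟨51, _⟩ => t6_591
  | ⟨52, _⟩ => t6_592
  | ⟨53, _⟩ => t6_593
  | ⟨54, _⟩ => t6_594
  | ⟨55, _⟩ => t6_595
  | ⟨56, _⟩ => t6_596
  | ⟨57, _⟩ => t6_597
  | ⟨58, _⟩ => t6_598
  | ⟨59, _⟩ => t6_599
  | ⟨n+60, h⟩ => absurd h (by omega)
theorem ψ0_rep_c10 : ∀ b : Fin 60, ψ0 (rep_c10 b) = M6_c10 b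
  | ⟨0, _⟩ => t6_600
  | ⟨1, _⟩ => t6_601
  | ⟨2, _⟩ => t6_602
  | ⟨3, _⟩ => t6_603
  | ⟨4, _⟩ => t6_604
  | ⟨5, _⟩ => t6_605
  | ⟨6, _⟩ => t6_606
  | ⟨7, _⟩ => t6_607
  | ⟨8, _⟩ => t6_608
  | ⟨9, _⟩ => t6_609
  | ⟨10, _⟩ => t6_610
  | ⟨11, _⟩ => t6_611
  | ⟨12, _⟩ => t6_612
  | ⟨13, _⟩ => t6_613
  | ⟨14, _⟩ => t6_614
  | ⟨15, _⟩ => t6_615
  | ⟨16, _⟩ => t6_616
  | ⟨17, _⟩ => t6_617
  | ⟨18, _⟩ => t6_618
  | ⟨19, _⟩ => t6_619
  | ⟨20, _⟩ => t6_620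
  | ⟨21, _⟩ => t6_621
  | ⟨22, _⟩ => t6_622
  | ⟨23, _⟩ => t6_623
  | ⟨24, _⟩ => t6_624
  | ⟨25, _⟩ => t6_625
  | ⟨26, _⟩ => t6_626
  | ⟨27, _⟩ => t6_627
  | ⟨28, _⟩ => t6_628
  | ⟨29, _⟩ => t6_629
  | ⟨30, _⟩ => t6_630
  | ⟨31, _⟩ => t6_631
  | ⟨32, _⟩ => t6_632
  | ⟨33, _⟩ => t6_633
  | ⟨34, _⟩ => t6_634
  | ⟨35, _⟩ => t6_635
  | ⟨36, _⟩ => t6_636
  | ⟨37, _⟩ => t6_637
  | ⟨38, _⟩ => t6_638
  | ⟨39, _⟩ => t6_639
  | ⟨40, _⟩ => t6_640
  | ⟨41, _⟩ => t6_641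
  | ⟨42, _⟩ => t6_642
  | ⟨43, _⟩ => t6_643
  | ⟨44, _⟩ => t6_644
  | ⟨45, _⟩ => t6_645
  | ⟨46, _⟩ => t6_646
  | ⟨47, _⟩ => t6_647
  | ⟨48, _⟩ => t6_648
  | ⟨49, _⟩ => t6_649
  | ⟨50, _⟩ => t6_650
  | ⟨51, _⟩ => t6_651
  | ⟨52, _⟩ => t6_652
  | ⟨53, _⟩ => t6_653
  | ⟨54, _⟩ => t6_654
  | ⟨55, _⟩ => t6_655
  | ⟨56, _⟩ => t6_656
  | ⟨57, _⟩ => t6_657
  | ⟨58, _⟩ => t6_658
  | ⟨59, _⟩ => t6_659
  | ⟨n+60, h⟩ => absurd h (by omega)
theorem ψ0_rep_c11 : ∀ b : Fin 60, ψ0 (rep_c11 b) = M6_c11 b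
  | ⟨0, _⟩ => t6_660
  | ⟨1, _⟩ => t6_661
  | ⟨2, _⟩ => t6_662
  | ⟨3, _⟩ => t6_663
  | ⟨4, _⟩ => t6_664
  | ⟨5, _⟩ => t6_665
  | ⟨6, _⟩ => t6_666
  | ⟨7, _⟩ => t6_667
  | ⟨8, _⟩ => t6_668
  | ⟨9, _⟩ => t6_669
  | ⟨10, _⟩ => t6_670
  | ⟨11, _⟩ => t6_671
  | ⟨12, _⟩ => t6_672
  | ⟨13, _⟩ => t6_673
  | ⟨14, _⟩ => t6_674
  | ⟨15, _⟩ => t6_675
  | ⟨16, _⟩ => t6_676
  | ⟨17, _⟩ => t6_677
  | ⟨18, _⟩ => t6_678
  | ⟨19, _⟩ => t6_679
  | ⟨20, _⟩ => t6_680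
  | ⟨21, _⟩ => t6_681
  | ⟨22, _⟩ => t6_682
  | ⟨23, _⟩ => t6_683
  | ⟨24, _⟩ => t6_684
  | ⟨25, _⟩ => t6_685
  | ⟨26, _⟩ => t6_686
  | ⟨27, _⟩ => t6_687
  | ⟨28, _⟩ => t6_688
  | ⟨29, _⟩ => t6_689
  | ⟨30, _⟩ => t6_690
  | ⟨31, _⟩ => t6_691
  | ⟨32, _⟩ => t6_692
  | ⟨33, _⟩ => t6_693
  | ⟨34, _⟩ => t6_694
  | ⟨35, _⟩ => t6_695
  | ⟨36, _⟩ => t6_696
  | ⟨37, _⟩ => t6_697
  | ⟨38, _⟩ => t6_698
  | ⟨39, _⟩ => t6_699
  | ⟨40, _⟩ => t6_700
  | ⟨41, _⟩ => t6_701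
  | ⟨42, _⟩ => t6_702
  | ⟨43, _⟩ => t6_703
  | ⟨44, _⟩ => t6_704
  | ⟨45, _⟩ => t6_705
  | ⟨46, _⟩ => t6_706
  | ⟨47, _⟩ => t6_707
  | ⟨48, _⟩ => t6_708
  | ⟨49, _⟩ => t6_709
  | ⟨50, _⟩ => t6_710
  | ⟨51, _⟩ => t6_711
  | ⟨52, _⟩ => t6_712
  | ⟨53, _⟩ => t6_713
  | ⟨54, _⟩ => t6_714
  | ⟨55, _⟩ => t6_715
  | ⟨56, _⟩ => t6_716
  | ⟨57, _⟩ => t6_717
  | ⟨58, _⟩ => t6_718
  | ⟨59, _⟩ => t6_719
  | ⟨n+60, h⟩ => absurd h (by omega)
theorem ψ0_rep_ch : ∀ (a : Fin 12) (b : Fin 60), ψ0 (rep_ch a b) = M6_ch a b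
  | ⟨0, _⟩ => ψ0_rep_c0
  | ⟨1, _⟩ => ψ0_rep_c1
  | ⟨2, _⟩ => ψ0_rep_c2
  | ⟨3, _⟩ => ψ0_rep_c3
  | ⟨4, _⟩ => ψ0_rep_c4
  | ⟨5, _⟩ => ψ0_rep_c5
  | ⟨6, _⟩ => ψ0_rep_c6
  | ⟨7, _⟩ => ψ0_rep_c7
  | ⟨8, _⟩ => ψ0_rep_c8
  | ⟨9, _⟩ => ψ0_rep_c9
  | ⟨10, _⟩ => ψ0_rep_c10
  | ⟨11, _⟩ => ψ0_rep_c11
  | ⟨n+12, h⟩ => absurd h (by omega)
theorem ψ0_rep (i : Idx) : ψ0 (rep i) = M6 i :=
  ψ0_rep_ch i.1 i.2
def codes6 : List ℕ := [44790, 44785, 7465, 15240, 7460, 9020, 15230, 2540, 16795, 9015, 17055, 18090, 2535, 15975, 16785, 10575, 24830, 17050, 26170, 18075, 3015, 23750, 15970, 25990, 26125, 10570, 25090, 24820, 19690, 33945, 26165, 35465, 26340, 3010, 23830, 23740, 19510, 33765, 25985, 35435, 26110, 12130, 32865, 25085, 35285, 35240, 19685, 34385, 33935, 28985, 43240, 35490, 26320, 4390, 31605, 23825, 35075, 35060, 19505, 34355, 33755, 28955, 43210, 35455, 12125, 33125, 32855, 28805,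 43060, 35310, 44760, 35225, 21425, 42160, 34410, 44610, 44535, 29010, 43710, 43260, 38310, 5915, 4385, 31835, 31595, 28595, 42850, 35095, 44725, 35045, 21395, 42130, 34375, 44605, 44505, 28975, 43705, 43225, 38305, 13685, 40900, 33150, 44400, 44355, 28830, 43680, 43080, 38280, 5885, 44750, 21450, 42450, 42180, 38130, 5735, 7435, 44550, 30750, 4835, 7285, 7210, 6385, 5935, 39865, 39610, 31855, 44185, 44145, 28615, 43645, 42865, 38245, 13625, 44720, 21415, 42445, 42145, 38125, 13505, 15210, 44515, 30745, 12605, 15060, 14980, 14160, 13710, 41160, 40920, 37920, 5525, 44390, 7400, 44370, 30720, 4805, 43670, 7280, 7180, 38270, 6380, 5900, 39860, 23010, 3575, 7075, 7030, 6355, 5755, 39835, 7425, 5125, 4855, 39685, 8990, 7225, 32305, 8840, 8765, 14420, 39625, 37705, 13085, 44180, 15140, 44155, 30685, 12545, 43640, 15050, 14920, 38240, 14150, 13640, 41150, 23005, 11345, 14850, 14800,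 14130, 13530, 41130, 15195, 12900, 12630, 40980, 2510, 15000, 33600, 2360, 2285, 6860, 6820, 37910, 6320, 5540, 39800, 22950, 7395, 30710, 5120, 4820, 39680, 22830, 16765, 7190, 32300, 21930, 16615, 16535, 22195, 3835, 3595, 39475, 7065, 8955, 7045, 32275, 6345, 8835, 8735, 39825, 14415, 24565, 8630, 8585, 14390, 8980, 13160, 17025, 8780, 40340, 17955, 14380, 37700, 14060, 13100, 41060, 22915, 15135, 30680, 12890, 12560, 40970, 22825, 18060, 14930, 33590, 21925, 17910, 17825, 22410, 11610, 11370, 40770, 14835, 2475, 14820, 33570, 14115, 2355, 2255, 41115, 6855, 25860, 2150, 2105, 6830, 2500, 5600, 15945, 2300, 39260, 16695, 32240, 21870, 6315, 16605, 16475, 39795, 22185, 22935, 3825, 24560, 20670, 16405, 16355, 22165, 3805, 16750, 20935, 3655, 10545, 16555, 41635, 11475, 8415, 8375, 39465, 14355, 24505, 8950, 32265, 13155, 24385, 24800, 8745, 40335, 29965, 25730, 11870,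 8620, 16990, 8600, 40310, 17950, 32600, 17745, 17015, 22275, 33500, 21835, 14055, 17895, 17735, 41055, 22395, 22905, 11595, 25850, 20665, 17700, 17645, 22380, 11580, 18040, 21150, 11430, 2985, 17850, 41850, 3735, 1935, 1895, 40755, 6795, 25800, 2470, 33555, 5595, 25680, 23720, 2265, 39255, 30180, 24470, 4310, 2140, 15910, 2120, 39230, 16690, 31520, 16485, 15935, 22095, 32235, 20925, 21855, 3645, 24380, 26095, 41625, 29960, 27025, 27150, 23965, 19645, 3445, 16390, 10510, 16375, 41605, 22150, 11470, 3790, 8410, 33895, 11265, 8385, 10535, 14715, 25240, 24730, 40275, 29905, 14350, 25720, 24490, 11860, 32595, 28705, 25520, 11840, 24785, 30050, 12770, 19840, 17530, 32540, 16985, 40300, 22270, 34095, 20985, 26285, 41715, 27040, 33495, 21135, 21825, 11415, 25670, 26310, 41835, 30170, 27060, 27145, 25260, 19860, 11220, 17680, 2950, 17670, 41820, 22360, 3730, 11560, 1930, 34110, 3525,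 1905, 2975, 6975, 23950, 23650, 39195, 30120, 6790, 24460, 25780, 4300, 31515, 28920, 24260, 4280, 23705, 29870, 5030, 19630, 16270, 31460, 15905, 39220, 22090, 33885, 20805, 26075, 41535, 27010, 28700, 26815, 26970, 23935, 19615, 30265, 20545, 12280, 4525, 11770, 11050, 3430, 8350, 33835, 10505, 41590, 14710, 34795, 33015, 31735, 32505, 13425, 11255, 25205, 24725, 40635, 40270, 30040, 29890, 12760, 35390, 35185, 33080, 28760, 25505, 19805, 11825, 17525, 43010, 20560, 34025, 32525, 20975, 41710, 37820, 34815, 26825, 30280, 35610, 28910, 26850, 26965, 25230, 19830, 30300, 20580, 4510, 12300, 4210, 3310, 11200, 1870, 34050, 2945, 41800, 6970, 34830, 31725, 33030, 31425, 5685, 3515, 23915, 23645, 39375, 39190, 29860, 30100, 5020, 35180, 35400, 31820, 28580, 24245, 19595, 4265, 16265, 42830, 20530, 33815, 31445, 20795, 41530, 37640, 34785, 26795, 30250, 35605, 20335, 12245,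 4495, 11765, 11045, 12820, 8530, 33065, 32945, 31675, 8345, 32495, 13415, 40630, 38035, 13575, 13065, 28745, 25565, 43000, 37815, 36110, 36085, 33230, 21065, 20345, 43130, 40850, 22720, 34530, 44300, 42375, 38055, 29130, 43350, 36150, 20370, 4475, 12270, 4205, 3305, 5050, 2050, 31805, 31655, 32970, 1865, 31415, 5675, 39370, 38070, 5805, 5505, 28565, 24275, 42820, 37635, 36080, 36120, 31940, 20855, 20315, 42920, 39590, 22690, 34525, 44120, 42345, 38025, 29125, 43345, 36145, 11165, 8525, 40840, 40720, 12840, 33240, 13055, 44295, 37875, 13590, 25590, 43140, 29630, 21570, 13790, 21090, 42390, 42270, 22740, 34890, 30390, 29670, 6025, 3395, 2045, 39580, 39430, 5065, 31945, 5495, 44115, 37665, 5815, 24295, 42925, 29600, 21565, 6020, 20875, 42355, 42265, 22705, 34885, 30385, 29665, 13800, 11190, 40740, 37890, 29640, 20490, 4945, 3415, 39445, 37675, 29605, 20485, 12720, 4940, 12710]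

def enc6 (σ : Equiv.Perm (Fin 6)) : ℕ :=
  (σ 0).val + 6 * (σ 1).val + 36 * (σ 2).val + 216 * (σ 3).val + 1296 * (σ 4).val
    + 7776 * (σ 5).val

set_option maxRecDepth 100000 in
theorem dec6_M6 : ∀ i : Idx, codes6.idxOf (enc6 (M6 i)) = i.1.val * 60 + i.2.val := by decide +kernel

theorem ψ0_rep_inj : ∀ i j : Idx, ψ0 (rep i) = ψ0 (rep j) → i = j := by
  intro i j h
  rw [ψ0_rep, ψ0_rep] at h
  have h1 := dec6_M6 i
  rw [h, dec6_M6 j] at h1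
  have hi := i.2.isLt
  have hj := j.2.isLt
  apply Prod.ext
  · apply Fin.ext; omega
  · apply Fin.ext; omega

theorem rep_inj : Function.Injective rep := by
  intro i j h
  exact ψ0_rep_inj i j (by rw [h])

theorem card_P : Nat.card P = 720 := by
  rw [← Nat.card_congr (Equiv.ofBijective rep ⟨rep_inj, rep_surj⟩), Nat.card_prod, Nat.card_fin,
    Nat.card_fin]

instance finite_P : Finite P := Finite.of_surjective rep rep_surj

theorem ψ0_inj : Function.Injective ψ0 := by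
  intro p p' h
  obtain ⟨i, rfl⟩ := rep_surj p
  obtain ⟨j, rfl⟩ := rep_surj p'
  rw [ψ0_rep_inj i j h]

theorem ψ0_bij : Function.Bijective ψ0 := by
  apply ψ0_inj.bijective_of_nat_card_le
  rw [card_P, Nat.card_eq_fintype_card, Fintype.card_perm, Fintype.card_fin]
  decide

/-- The presented group is `Sym(6)`. -/
noncomputable def ψiso : P ≃* Equiv.Perm (Fin 6) := MulEquiv.ofBijective ψ0 ψ0_bij

/-! ### Target 2: the Chevalley group over `ZMod 2` -/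

abbrev D := Cfsg.Lie.chevB2
abbrev I10 := D.Idx
abbrev G2 := GL I10 (ZMod 2)

/-- Position of a coordinate. -/
def enc : I10 → ℕ
  | Sum.inl i => i.val
  | Sum.inr u => 2 + u.val

/-- A matrix over the field with two elements, given by the bitmasks of its rows. -/
def lit (rws : List ℕ) : Matrix I10 I10 (ZMod 2) :=
  fun i j => if (rws.getD (enc i) 0).testBit (enc j) then 1 else 0

theorem lit_one : lit [1, 2, 4, 8, 16, 32, 64, 128, 256, 512] = 1 := by decide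

set_option maxRecDepth 100000 in
theorem xzero : ∀ r : Fin D.nroots, D.xMat (ZMod 2) r 0 = 1 := by decide

theorem z01 : ∀ s : ZMod 2, s = 0 ∨ s = 1 := by decide

set_option maxRecDepth 100000 in
theorem xone0 : D.xMat (ZMod 2) ⟨0, by decide⟩ 1 = lit [513, 514, 516, 136, 272, 32, 64, 128, 256, 512] := by decide
theorem sq0 : lit [513, 514, 516, 136, 272, 32, 64, 128, 256, 512] * lit [513, 514, 516, 136, 272, 32, 64, 128, 256, 512] = 1 := by decide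
def g0 : G2 := ⟨lit [513, 514, 516, 136, 272, 32, 64, 128, 256, 512], lit [513, 514, 516, 136, 272, 32, 64, 128, 256, 512], sq0, sq0⟩
theorem v0 : (g0 : Matrix I10 I10 (ZMod 2)) = lit [513, 514, 516, 136, 272, 32, 64, 128, 256, 512] := rfl
set_option maxRecDepth 100000 in
theorem xone1 : D.xMat (ZMod 2) ⟨1, by decide⟩ 1 = lit [257, 2, 68, 266, 80, 544, 64, 640, 256, 512] := by decide
theorem sq1 : lit [257, 2, 68, 266, 80, 544, 64, 640, 256, 512] * lit [257, 2, 68, 266, 80, 544, 64, 640, 256, 512] = 1 := by decide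
def g1 : G2 := ⟨lit [257, 2, 68, 266, 80, 544, 64, 640, 256, 512], lit [257, 2, 68, 266, 80, 544, 64, 640, 256, 512], sq1, sq1⟩
theorem v1 : (g1 : Matrix I10 I10 (ZMod 2)) = lit [257, 2, 68, 266, 80, 544, 64, 640, 256, 512] := rfl
set_option maxRecDepth 100000 in
theorem xone2 : D.xMat (ZMod 2) ⟨2, by decide⟩ 1 = lit [129, 2, 36, 40, 146, 32, 576, 128, 768, 512] := by decide
theorem sq2 : lit [129, 2, 36, 40, 146, 32, 576, 128, 768, 512] * lit [129, 2, 36, 40, 146, 32, 576, 128, 768, 512] = 1 := by decide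
def g2 : G2 := ⟨lit [129, 2, 36, 40, 146, 32, 576, 128, 768, 512], lit [129, 2, 36, 40, 146, 32, 576, 128, 768, 512], sq2, sq2⟩
theorem v2 : (g2 : Matrix I10 I10 (ZMod 2)) = lit [129, 2, 36, 40, 146, 32, 576, 128, 768, 512] := rfl
set_option maxRecDepth 100000 in
theorem xone3 : D.xMat (ZMod 2) ⟨3, by decide⟩ 1 = lit [1, 66, 4, 24, 16, 96, 64, 384, 256, 512] := by decide
theorem sq3 : lit [1, 66, 4, 24, 16, 96, 64, 384, 256, 512] * lit [1, 66, 4, 24, 16, 96, 64, 384, 256, 512] = 1 := by decide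
def g3 : G2 := ⟨lit [1, 66, 4, 24, 16, 96, 64, 384, 256, 512], lit [1, 66, 4, 24, 16, 96, 64, 384, 256, 512], sq3, sq3⟩
theorem v3 : (g3 : Matrix I10 I10 (ZMod 2)) = lit [1, 66, 4, 24, 16, 96, 64, 384, 256, 512] := rfl
set_option maxRecDepth 100000 in
theorem xone4 : D.xMat (ZMod 2) ⟨4, by decide⟩ 1 = lit [1, 34, 4, 8, 24, 32, 96, 128, 384, 512] := by decide
theorem sq4 : lit [1, 34, 4, 8, 24, 32, 96, 128, 384, 512] * lit [1, 34, 4, 8, 24, 32, 96, 128, 384, 512] = 1 := by decide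
def g4 : G2 := ⟨lit [1, 34, 4, 8, 24, 32, 96, 128, 384, 512], lit [1, 34, 4, 8, 24, 32, 96, 128, 384, 512], sq4, sq4⟩
theorem v4 : (g4 : Matrix I10 I10 (ZMod 2)) = lit [1, 34, 4, 8, 24, 32, 96, 128, 384, 512] := rfl
set_option maxRecDepth 100000 in
theorem xone5 : D.xMat (ZMod 2) ⟨5, by decide⟩ 1 = lit [17, 2, 4, 12, 16, 36, 64, 146, 320, 576] := by decide
theorem sq5 : lit [17, 2, 4, 12, 16, 36, 64, 146, 320, 576] * lit [17, 2, 4, 12, 16, 36, 64, 146, 320, 576] = 1 := by decide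
def g5 : G2 := ⟨lit [17, 2, 4, 12, 16, 36, 64, 146, 320, 576], lit [17, 2, 4, 12, 16, 36, 64, 146, 320, 576], sq5, sq5⟩
theorem v5 : (g5 : Matrix I10 I10 (ZMod 2)) = lit [17, 2, 4, 12, 16, 36, 64, 146, 320, 576] := rfl
set_option maxRecDepth 100000 in
theorem xone6 : D.xMat (ZMod 2) ⟨6, by decide⟩ 1 = lit [9, 2, 4, 8, 20, 32, 68, 160, 266, 544] := by decide
theorem sq6 : lit [9, 2, 4, 8, 20, 32, 68, 160, 266, 544] * lit [9, 2, 4, 8, 20, 32, 68, 160, 266, 544] = 1 := by decide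
def g6 : G2 := ⟨lit [9, 2, 4, 8, 20, 32, 68, 160, 266, 544], lit [9, 2, 4, 8, 20, 32, 68, 160, 266, 544], sq6, sq6⟩
theorem v6 : (g6 : Matrix I10 I10 (ZMod 2)) = lit [9, 2, 4, 8, 20, 32, 68, 160, 266, 544] := rfl
set_option maxRecDepth 100000 in
theorem xone7 : D.xMat (ZMod 2) ⟨7, by decide⟩ 1 = lit [5, 6, 4, 8, 16, 32, 64, 136, 272, 516] := by decide
theorem sq7 : lit [5, 6, 4, 8, 16, 32, 64, 136, 272, 516] * lit [5, 6, 4, 8, 16, 32, 64, 136, 272, 516] = 1 := by decide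
def g7 : G2 := ⟨lit [5, 6, 4, 8, 16, 32, 64, 136, 272, 516], lit [5, 6, 4, 8, 16, 32, 64, 136, 272, 516], sq7, sq7⟩
theorem v7 : (g7 : Matrix I10 I10 (ZMod 2)) = lit [5, 6, 4, 8, 16, 32, 64, 136, 272, 516] := rfl

theorem st0 : lit [257, 2, 68, 266, 80, 544, 64, 640, 256, 512] * lit [1, 34, 4, 8, 24, 32, 96, 128, 384, 512] = lit [385, 34, 100, 426, 120, 544, 96, 640, 384, 512] := by decide
theorem st1 : lit [385, 34, 100, 426, 120, 544, 96, 640, 384, 512] * lit [5, 6, 4, 8, 16, 32, 64, 136, 272, 516] = lit [413, 38, 100, 438, 120, 548, 96, 652, 408, 516] := by decide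
theorem st2 : lit [513, 514, 516, 136, 272, 32, 64, 128, 256, 512] * lit [513, 514, 516, 136, 272, 32, 64, 128, 256, 512] = lit [1, 2, 4, 8, 16, 32, 64, 128, 256, 512] := by decide
theorem st3 : lit [413, 38, 100, 438, 120, 548, 96, 652, 408, 516] * lit [413, 38, 100, 438, 120, 548, 96, 652, 408, 516] = lit [803, 614, 544, 266, 906, 68, 580, 346, 730, 608] := by decide
theorem st4 : lit [803, 614, 544, 266, 906, 68, 580, 346, 730, 608] * lit [413, 38, 100, 438, 120, 548, 96, 652, 408, 516] = lit [3, 2, 32, 8, 128, 4, 512, 16, 256, 64] := by decide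
theorem st5 : lit [3, 2, 32, 8, 128, 4, 512, 16, 256, 64] * lit [413, 38, 100, 438, 120, 548, 96, 652, 408, 516] = lit [443, 38, 548, 438, 652, 100, 516, 120, 408, 96] := by decide
theorem st6 : lit [443, 38, 548, 438, 652, 100, 516, 120, 408, 96] * lit [413, 38, 100, 438, 120, 548, 96, 652, 408, 516] = lit [325, 614, 68, 266, 346, 544, 608, 906, 730, 580] := by decide
theorem st7 : lit [325, 614, 68, 266, 346, 544, 608, 906, 730, 580] * lit [413, 38, 100, 438, 120, 548, 96, 652, 408, 516] = lit [1, 2, 4, 8, 16, 32, 64, 128, 256, 512] := by decide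
theorem st8 : lit [513, 514, 516, 136, 272, 32, 64, 128, 256, 512] * lit [413, 38, 100, 438, 120, 548, 96, 652, 408, 516] = lit [921, 546, 608, 826, 480, 548, 96, 652, 408, 516] := by decide
theorem st9 : lit [921, 546, 608, 826, 480, 548, 96, 652, 408, 516] * lit [513, 514, 516, 136, 272, 32, 64, 128, 256, 512] = lit [25, 34, 608, 186, 480, 36, 96, 12, 24, 4] := by decide
theorem st10 : lit [25, 34, 608, 186, 480, 36, 96, 12, 24, 4] * lit [413, 38, 100, 438, 120, 548, 96, 652, 408, 516] = lit [83, 514, 64, 320, 336, 576, 580, 466, 462, 100] := by decide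
theorem st11 : lit [83, 514, 64, 320, 336, 576, 580, 466, 462, 100] * lit [513, 514, 516, 136, 272, 32, 64, 128, 256, 512] = lit [339, 2, 64, 320, 80, 576, 68, 722, 334, 612] := by decide
theorem st12 : lit [339, 2, 64, 320, 80, 576, 68, 722, 334, 612] * lit [413, 38, 100, 438, 120, 548, 96, 652, 408, 516] = lit [59, 38, 96, 504, 24, 612, 4, 182, 12, 36] := by decide
theorem st13 : lit [59, 38, 96, 504, 24, 612, 4, 182, 12, 36] * lit [513, 514, 516, 136, 272, 32, 64, 128, 256, 512] = lit [443, 38, 96, 120, 408, 100, 516, 438, 652, 548] := by decide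
theorem st14 : lit [443, 38, 96, 120, 408, 100, 516, 438, 652, 548] * lit [413, 38, 100, 438, 120, 548, 96, 652, 408, 516] = lit [325, 614, 580, 906, 730, 544, 608, 266, 346, 68] := by decide
theorem st15 : lit [325, 614, 580, 906, 730, 544, 608, 266, 346, 68] * lit [513, 514, 516, 136, 272, 32, 64, 128, 256, 512] = lit [325, 614, 68, 266, 346, 544, 608, 906, 730, 580] := by decide
theorem st16 : lit [921, 546, 608, 826, 480, 548, 96, 652, 408, 516] * lit [413, 38, 100, 438, 120, 548, 96, 652, 408, 516] = lit [323, 6, 64, 80, 336, 68, 580, 346, 730, 608] := by decide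
theorem st17 : lit [323, 6, 64, 80, 336, 68, 580, 346, 730, 608] * lit [413, 38, 100, 438, 120, 548, 96, 652, 408, 516] = lit [67, 66, 96, 24, 384, 4, 512, 16, 256, 64] := by decide
theorem st18 : lit [67, 66, 96, 24, 384, 4, 512, 16, 256, 64] * lit [413, 38, 100, 438, 120, 548, 96, 652, 408, 516] = lit [475, 70, 580, 462, 788, 100, 516, 120, 408, 96] := by decide
theorem st19 : lit [475, 70, 580, 462, 788, 100, 516, 120, 408, 96] * lit [413, 38, 100, 438, 120, 548, 96, 652, 408, 516] = lit [769, 34, 512, 640, 896, 544, 608, 906, 730, 580] := by decide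
theorem st20 : lit [769, 34, 512, 640, 896, 544, 608, 906, 730, 580] * lit [513, 514, 516, 136, 272, 32, 64, 128, 256, 512] = lit [257, 546, 512, 640, 896, 544, 608, 266, 346, 68] := by decide
theorem st21 : lit [257, 546, 512, 640, 896, 544, 608, 266, 346, 68] * lit [413, 38, 100, 438, 120, 548, 96, 652, 408, 516] = lit [5, 6, 516, 136, 272, 32, 64, 8, 16, 4] := by decide
theorem st22 : lit [5, 6, 516, 136, 272, 32, 64, 8, 16, 4] * lit [513, 514, 516, 136, 272, 32, 64, 128, 256, 512] = lit [5, 6, 4, 8, 16, 32, 64, 136, 272, 516] := by decide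
theorem st23 : lit [5, 6, 4, 8, 16, 32, 64, 136, 272, 516] * lit [413, 38, 100, 438, 120, 548, 96, 652, 408, 516] = lit [505, 66, 100, 438, 120, 548, 96, 826, 480, 608] := by decide
theorem st24 : lit [505, 66, 100, 438, 120, 548, 96, 826, 480, 608] * lit [413, 38, 100, 438, 120, 548, 96, 652, 408, 516] = lit [259, 70, 544, 266, 906, 68, 580, 80, 336, 64] := by decide
theorem st25 : lit [259, 70, 544, 266, 906, 68, 580, 80, 336, 64] * lit [413, 38, 100, 438, 120, 548, 96, 652, 408, 516] = lit [35, 34, 32, 8, 128, 4, 512, 24, 384, 96] := by decide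
theorem st26 : lit [35, 34, 32, 8, 128, 4, 512, 24, 384, 96] * lit [413, 38, 100, 438, 120, 548, 96, 652, 408, 516] = lit [927, 514, 548, 438, 652, 100, 516, 462, 788, 580] := by decide
theorem st27 : lit [927, 514, 548, 438, 652, 100, 516, 462, 788, 580] * lit [413, 38, 100, 438, 120, 548, 96, 652, 408, 516] = lit [257, 546, 68, 266, 346, 544, 608, 640, 896, 512] := by decide
theorem st28 : lit [257, 546, 68, 266, 346, 544, 608, 640, 896, 512] * lit [513, 514, 516, 136, 272, 32, 64, 128, 256, 512] = lit [769, 34, 580, 906, 730, 544, 608, 640, 896, 512] := by decide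
theorem st29 : lit [769, 34, 580, 906, 730, 544, 608, 640, 896, 512] * lit [413, 38, 100, 438, 120, 548, 96, 652, 408, 516] = lit [513, 514, 512, 128, 256, 32, 64, 136, 272, 516] := by decide
theorem st30 : lit [513, 514, 512, 128, 256, 32, 64, 136, 272, 516] * lit [513, 514, 516, 136, 272, 32, 64, 128, 256, 512] = lit [1, 2, 512, 128, 256, 32, 64, 8, 16, 4] := by decide
theorem st31 : lit [1, 2, 512, 128, 256, 32, 64, 8, 16, 4] * lit [413, 38, 100, 438, 120, 548, 96, 652, 408, 516] = lit [413, 38, 516, 652, 408, 548, 96, 438, 120, 100] := by decide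
theorem st32 : lit [413, 38, 516, 652, 408, 548, 96, 438, 120, 100] * lit [413, 38, 100, 438, 120, 548, 96, 652, 408, 516] = lit [803, 614, 608, 346, 730, 68, 580, 266, 906, 544] := by decide
theorem st33 : lit [803, 614, 608, 346, 730, 68, 580, 266, 906, 544] * lit [413, 38, 100, 438, 120, 548, 96, 652, 408, 516] = lit [3, 2, 64, 16, 256, 4, 512, 8, 128, 32] := by decide
theorem st34 : lit [3, 2, 64, 16, 256, 4, 512, 8, 128, 32] * lit [413, 38, 100, 438, 120, 548, 96, 652, 408, 516] = lit [443, 38, 96, 120, 408, 100, 516, 438, 652, 548] := by decide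
theorem st35 : lit [475, 70, 580, 462, 788, 100, 516, 120, 408, 96] * lit [513, 514, 516, 136, 272, 32, 64, 128, 256, 512] = lit [91, 70, 68, 334, 20, 612, 4, 504, 24, 96] := by decide
theorem st36 : lit [91, 70, 68, 334, 20, 612, 4, 504, 24, 96] * lit [413, 38, 100, 438, 120, 548, 96, 652, 408, 516] = lit [21, 34, 4, 12, 28, 36, 100, 158, 462, 580] := by decide
theorem st37 : lit [21, 34, 4, 12, 28, 36, 100, 158, 462, 580] * lit [413, 38, 100, 438, 120, 548, 96, 652, 408, 516] = lit [385, 514, 100, 466, 426, 576, 544, 768, 640, 512] := by decide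
theorem st38 : lit [385, 514, 100, 466, 426, 576, 544, 768, 640, 512] * lit [513, 514, 516, 136, 272, 32, 64, 128, 256, 512] = lit [897, 2, 612, 722, 810, 576, 544, 768, 640, 512] := by decide
theorem st39 : lit [897, 2, 612, 722, 810, 576, 544, 768, 640, 512] * lit [413, 38, 100, 438, 120, 548, 96, 652, 408, 516] = lit [141, 38, 36, 182, 40, 612, 32, 924, 136, 516] := by decide
theorem st40 : lit [141, 38, 36, 182, 40, 612, 32, 924, 136, 516] * lit [413, 38, 100, 438, 120, 548, 96, 652, 408, 516] = lit [707, 614, 576, 146, 914, 36, 548, 186, 826, 608] := by decide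
theorem st41 : lit [707, 614, 576, 146, 914, 36, 548, 186, 826, 608] * lit [413, 38, 100, 438, 120, 548, 96, 652, 408, 516] = lit [339, 2, 612, 722, 334, 576, 68, 320, 80, 64] := by decide
theorem st42 : lit [339, 2, 612, 722, 334, 576, 68, 320, 80, 64] * lit [413, 38, 100, 438, 120, 548, 96, 652, 408, 516] = lit [59, 38, 36, 182, 12, 612, 4, 504, 24, 96] := by decide
theorem st43 : lit [59, 38, 36, 182, 12, 612, 4, 504, 24, 96] * lit [513, 514, 516, 136, 272, 32, 64, 128, 256, 512] = lit [443, 38, 548, 438, 652, 100, 516, 120, 408, 96] := by decide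
theorem st44 : lit [67, 66, 96, 24, 384, 4, 512, 16, 256, 64] * lit [513, 514, 516, 136, 272, 32, 64, 128, 256, 512] = lit [67, 578, 96, 408, 384, 516, 512, 272, 256, 64] := by decide
theorem st45 : lit [67, 578, 96, 408, 384, 516, 512, 272, 256, 64] * lit [413, 38, 100, 438, 120, 548, 96, 652, 408, 516] = lit [475, 578, 580, 730, 788, 608, 516, 480, 408, 96] := by decide
theorem st46 : lit [475, 578, 580, 730, 788, 608, 516, 480, 408, 96] * lit [413, 38, 100, 438, 120, 548, 96, 652, 408, 516] = lit [769, 578, 512, 256, 896, 64, 608, 336, 730, 580] := by decide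
theorem st47 : lit [769, 578, 512, 256, 896, 64, 608, 336, 730, 580] * lit [413, 38, 100, 438, 120, 548, 96, 652, 408, 516] = lit [513, 578, 516, 408, 272, 96, 64, 384, 256, 512] := by decide
theorem st48 : lit [513, 578, 516, 408, 272, 96, 64, 384, 256, 512] * lit [513, 514, 516, 136, 272, 32, 64, 128, 256, 512] = lit [1, 66, 4, 24, 16, 96, 64, 384, 256, 512] := by decide
theorem st49 : lit [1, 66, 4, 24, 16, 96, 64, 384, 256, 512] * lit [413, 38, 100, 438, 120, 548, 96, 652, 408, 516] = lit [413, 70, 100, 462, 120, 580, 96, 788, 408, 516] := by decide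
theorem st50 : lit [413, 70, 100, 462, 120, 580, 96, 788, 408, 516] * lit [413, 38, 100, 438, 120, 548, 96, 652, 408, 516] = lit [803, 34, 544, 640, 906, 512, 580, 896, 730, 608] := by decide
theorem st51 : lit [803, 34, 544, 640, 906, 512, 580, 896, 730, 608] * lit [413, 38, 100, 438, 120, 548, 96, 652, 408, 516] = lit [3, 514, 32, 136, 128, 516, 512, 272, 256, 64] := by decide
theorem st52 : lit [3, 514, 32, 136, 128, 516, 512, 272, 256, 64] * lit [513, 514, 516, 136, 272, 32, 64, 128, 256, 512] = lit [3, 2, 32, 8, 128, 4, 512, 16, 256, 64] := by decide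
theorem st53 : lit [323, 6, 64, 80, 336, 68, 580, 346, 730, 608] * lit [513, 514, 516, 136, 272, 32, 64, 128, 256, 512] = lit [323, 6, 64, 336, 80, 580, 68, 730, 346, 608] := by decide
theorem st54 : lit [323, 6, 64, 336, 80, 580, 68, 730, 346, 608] * lit [413, 38, 100, 438, 120, 548, 96, 652, 408, 516] = lit [67, 66, 96, 384, 24, 512, 4, 256, 16, 64] := by decide
theorem st55 : lit [67, 66, 96, 384, 24, 512, 4, 256, 16, 64] * lit [513, 514, 516, 136, 272, 32, 64, 128, 256, 512] = lit [67, 578, 96, 384, 408, 512, 516, 256, 272, 64] := by decide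
theorem st56 : lit [67, 578, 96, 384, 408, 512, 516, 256, 272, 64] * lit [413, 38, 100, 438, 120, 548, 96, 652, 408, 516] = lit [475, 578, 580, 788, 730, 516, 608, 408, 480, 96] := by decide
theorem st57 : lit [475, 578, 580, 788, 730, 516, 608, 408, 480, 96] * lit [413, 38, 100, 438, 120, 548, 96, 652, 408, 516] = lit [769, 578, 512, 896, 256, 608, 64, 730, 336, 580] := by decide
theorem st58 : lit [769, 578, 512, 896, 256, 608, 64, 730, 336, 580] * lit [513, 514, 516, 136, 272, 32, 64, 128, 256, 512] = lit [257, 66, 512, 896, 256, 608, 64, 346, 80, 68] := by decide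
theorem st59 : lit [257, 66, 512, 896, 256, 608, 64, 346, 80, 68] * lit [413, 38, 100, 438, 120, 548, 96, 652, 408, 516] = lit [5, 70, 516, 272, 408, 64, 96, 16, 24, 4] := by decide
theorem st60 : lit [5, 70, 516, 272, 408, 64, 96, 16, 24, 4] * lit [513, 514, 516, 136, 272, 32, 64, 128, 256, 512] = lit [5, 70, 4, 16, 24, 64, 96, 272, 408, 516] := by decide
theorem st61 : lit [5, 70, 4, 16, 24, 64, 96, 272, 408, 516] * lit [413, 38, 100, 438, 120, 548, 96, 652, 408, 516] = lit [505, 34, 100, 120, 462, 96, 580, 480, 730, 608] := by decide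
theorem st62 : lit [505, 34, 100, 120, 462, 96, 580, 480, 730, 608] * lit [413, 38, 100, 438, 120, 548, 96, 652, 408, 516] = lit [259, 514, 544, 906, 640, 580, 512, 336, 256, 64] := by decide
theorem st63 : lit [259, 514, 544, 906, 640, 580, 512, 336, 256, 64] * lit [513, 514, 516, 136, 272, 32, 64, 128, 256, 512] = lit [259, 2, 544, 266, 640, 68, 512, 80, 256, 64] := by decide
theorem st64 : lit [259, 2, 544, 266, 640, 68, 512, 80, 256, 64] * lit [413, 38, 100, 438, 120, 548, 96, 652, 408, 516] = lit [35, 38, 32, 8, 136, 4, 516, 24, 408, 96] := by decide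
theorem st65 : lit [35, 38, 32, 8, 136, 4, 516, 24, 408, 96] * lit [413, 38, 100, 438, 120, 548, 96, 652, 408, 516] = lit [927, 614, 548, 438, 826, 100, 608, 462, 730, 580] := by decide
theorem st66 : lit [927, 614, 548, 438, 826, 100, 608, 462, 730, 580] * lit [413, 38, 100, 438, 120, 548, 96, 652, 408, 516] = lit [257, 2, 68, 266, 80, 544, 64, 640, 256, 512] := by decide
theorem st67 : lit [59, 38, 96, 504, 24, 612, 4, 182, 12, 36] * lit [413, 38, 100, 438, 120, 548, 96, 652, 408, 516] = lit [593, 614, 580, 158, 462, 36, 100, 146, 466, 576] := by decide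
theorem st68 : lit [593, 614, 580, 158, 462, 36, 100, 146, 466, 576] * lit [413, 38, 100, 438, 120, 548, 96, 652, 408, 516] = lit [897, 2, 512, 768, 640, 576, 544, 722, 810, 612] := by decide
theorem st69 : lit [897, 2, 512, 768, 640, 576, 544, 722, 810, 612] * lit [413, 38, 100, 438, 120, 548, 96, 652, 408, 516] = lit [141, 38, 516, 924, 136, 612, 32, 182, 40, 36] := by decide
theorem st70 : lit [141, 38, 516, 924, 136, 612, 32, 182, 40, 36] * lit [513, 514, 516, 136, 272, 32, 64, 128, 256, 512] = lit [13, 38, 4, 28, 8, 100, 32, 438, 168, 548] := by decide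
theorem st71 : lit [13, 38, 4, 28, 8, 100, 32, 438, 168, 548] * lit [413, 38, 100, 438, 120, 548, 96, 652, 408, 516] = lit [79, 614, 100, 426, 438, 544, 548, 266, 286, 68] := by decide
theorem st72 : lit [79, 614, 100, 426, 438, 544, 548, 266, 286, 68] * lit [513, 514, 516, 136, 272, 32, 64, 128, 256, 512] = lit [719, 614, 612, 810, 182, 544, 36, 906, 158, 580] := by decide
theorem st73 : lit [719, 614, 612, 810, 182, 544, 36, 906, 158, 580] * lit [413, 38, 100, 438, 120, 548, 96, 652, 408, 516] = lit [129, 2, 36, 40, 146, 32, 576, 128, 768, 512] := by decide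
theorem st74 : lit [3, 2, 32, 8, 128, 4, 512, 16, 256, 64] * lit [513, 514, 516, 136, 272, 32, 64, 128, 256, 512] = lit [3, 514, 32, 136, 128, 516, 512, 272, 256, 64] := by decide
theorem st75 : lit [3, 514, 32, 136, 128, 516, 512, 272, 256, 64] * lit [413, 38, 100, 438, 120, 548, 96, 652, 408, 516] = lit [443, 546, 548, 826, 652, 608, 516, 480, 408, 96] := by decide
theorem st76 : lit [443, 546, 548, 826, 652, 608, 516, 480, 408, 96] * lit [413, 38, 100, 438, 120, 548, 96, 652, 408, 516] = lit [325, 6, 68, 80, 346, 64, 608, 336, 730, 580] := by decide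
theorem st77 : lit [325, 6, 68, 80, 346, 64, 608, 336, 730, 580] * lit [413, 38, 100, 438, 120, 548, 96, 652, 408, 516] = lit [1, 66, 4, 24, 16, 96, 64, 384, 256, 512] := by decide
theorem st78 : lit [803, 614, 544, 266, 906, 68, 580, 346, 730, 608] * lit [513, 514, 516, 136, 272, 32, 64, 128, 256, 512] = lit [803, 614, 544, 906, 266, 580, 68, 730, 346, 608] := by decide
theorem st79 : lit [803, 614, 544, 906, 266, 580, 68, 730, 346, 608] * lit [413, 38, 100, 438, 120, 548, 96, 652, 408, 516] = lit [3, 2, 32, 128, 8, 512, 4, 256, 16, 64] := by decide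
theorem st80 : lit [3, 2, 32, 128, 8, 512, 4, 256, 16, 64] * lit [513, 514, 516, 136, 272, 32, 64, 128, 256, 512] = lit [3, 514, 32, 128, 136, 512, 516, 256, 272, 64] := by decide
theorem st81 : lit [3, 514, 32, 128, 136, 512, 516, 256, 272, 64] * lit [413, 38, 100, 438, 120, 548, 96, 652, 408, 516] = lit [443, 546, 548, 652, 826, 516, 608, 408, 480, 96] := by decide
theorem st82 : lit [443, 546, 548, 652, 826, 516, 608, 408, 480, 96] * lit [413, 38, 100, 438, 120, 548, 96, 652, 408, 516] = lit [325, 6, 68, 346, 80, 608, 64, 730, 336, 580] := by decide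
theorem st83 : lit [325, 6, 68, 346, 80, 608, 64, 730, 336, 580] * lit [413, 38, 100, 438, 120, 548, 96, 652, 408, 516] = lit [1, 66, 4, 16, 24, 64, 96, 256, 384, 512] := by decide
theorem st84 : lit [1, 66, 4, 16, 24, 64, 96, 256, 384, 512] * lit [413, 38, 100, 438, 120, 548, 96, 652, 408, 516] = lit [413, 70, 100, 120, 462, 96, 580, 408, 788, 516] := by decide
theorem st85 : lit [413, 70, 100, 120, 462, 96, 580, 408, 788, 516] * lit [413, 38, 100, 438, 120, 548, 96, 652, 408, 516] = lit [803, 34, 544, 906, 640, 580, 512, 730, 896, 608] := by decide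
theorem st86 : lit [803, 34, 544, 906, 640, 580, 512, 730, 896, 608] * lit [513, 514, 516, 136, 272, 32, 64, 128, 256, 512] = lit [803, 546, 544, 266, 640, 68, 512, 346, 896, 608] := by decide
theorem st87 : lit [803, 546, 544, 266, 640, 68, 512, 346, 896, 608] * lit [413, 38, 100, 438, 120, 548, 96, 652, 408, 516] = lit [3, 6, 32, 8, 136, 4, 516, 16, 272, 64] := by decide
theorem st88 : lit [3, 6, 32, 8, 136, 4, 516, 16, 272, 64] * lit [413, 38, 100, 438, 120, 548, 96, 652, 408, 516] = lit [443, 66, 548, 438, 826, 100, 608, 120, 480, 96] := by decide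
theorem st89 : lit [443, 66, 548, 438, 826, 100, 608, 120, 480, 96] * lit [413, 38, 100, 438, 120, 548, 96, 652, 408, 516] = lit [325, 70, 68, 266, 80, 544, 64, 906, 336, 580] := by decide
theorem st90 : lit [325, 70, 68, 266, 80, 544, 64, 906, 336, 580] * lit [413, 38, 100, 438, 120, 548, 96, 652, 408, 516] = lit [1, 34, 4, 8, 24, 32, 96, 128, 384, 512] := by decide
theorem st91 : lit [83, 514, 64, 320, 336, 576, 580, 466, 462, 100] * lit [413, 38, 100, 438, 120, 548, 96, 652, 408, 516] = lit [419, 546, 96, 504, 384, 612, 512, 810, 640, 544] := by decide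
theorem st92 : lit [419, 546, 96, 504, 384, 612, 512, 810, 640, 544] * lit [513, 514, 516, 136, 272, 32, 64, 128, 256, 512] = lit [419, 34, 96, 120, 384, 100, 512, 426, 640, 544] := by decide
theorem st93 : lit [419, 34, 96, 120, 384, 100, 512, 426, 640, 544] * lit [413, 38, 100, 438, 120, 548, 96, 652, 408, 516] = lit [139, 514, 580, 906, 788, 544, 516, 160, 136, 32] := by decide
theorem st94 : lit [139, 514, 580, 906, 788, 544, 516, 160, 136, 32] * lit [413, 38, 100, 438, 120, 548, 96, 652, 408, 516] = lit [641, 546, 512, 128, 896, 32, 608, 168, 826, 548] := by decide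
theorem st95 : lit [641, 546, 512, 128, 896, 32, 608, 168, 826, 548] * lit [513, 514, 516, 136, 272, 32, 64, 128, 256, 512] = lit [129, 34, 512, 128, 896, 32, 608, 40, 186, 36] := by decide
theorem st96 : lit [129, 34, 512, 128, 896, 32, 608, 40, 186, 36] * lit [413, 38, 100, 438, 120, 548, 96, 652, 408, 516] = lit [785, 514, 516, 652, 272, 548, 64, 914, 320, 576] := by decide
theorem st97 : lit [785, 514, 516, 652, 272, 548, 64, 914, 320, 576] * lit [513, 514, 516, 136, 272, 32, 64, 128, 256, 512] = lit [17, 2, 4, 12, 16, 36, 64, 146, 320, 576] := by decide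
theorem st98 : lit [413, 38, 100, 438, 120, 548, 96, 652, 408, 516] * lit [513, 514, 516, 136, 272, 32, 64, 128, 256, 512] = lit [29, 38, 612, 182, 504, 36, 96, 12, 24, 4] := by decide
theorem st99 : lit [29, 38, 612, 182, 504, 36, 96, 12, 24, 4] * lit [413, 38, 100, 438, 120, 548, 96, 652, 408, 516] = lit [55, 614, 36, 146, 158, 576, 580, 466, 462, 100] := by decide
theorem st100 : lit [55, 614, 36, 146, 158, 576, 580, 466, 462, 100] * lit [413, 38, 100, 438, 120, 548, 96, 652, 408, 516] = lit [899, 2, 576, 722, 768, 612, 512, 810, 640, 544] := by decide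
theorem st101 : lit [899, 2, 576, 722, 768, 612, 512, 810, 640, 544] * lit [413, 38, 100, 438, 120, 548, 96, 652, 408, 516] = lit [171, 38, 612, 182, 924, 36, 516, 40, 136, 32] := by decide
theorem st102 : lit [171, 38, 612, 182, 924, 36, 516, 40, 136, 32] * lit [513, 514, 516, 136, 272, 32, 64, 128, 256, 512] = lit [43, 38, 100, 438, 28, 548, 4, 168, 8, 32] := by decide
theorem st103 : lit [43, 38, 100, 438, 28, 548, 4, 168, 8, 32] * lit [413, 38, 100, 438, 120, 548, 96, 652, 408, 516] = lit [553, 614, 544, 266, 426, 68, 100, 286, 438, 548] := by decide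
theorem st104 : lit [553, 614, 544, 266, 426, 68, 100, 286, 438, 548] * lit [413, 38, 100, 438, 120, 548, 96, 652, 408, 516] = lit [11, 2, 32, 8, 160, 4, 544, 20, 266, 68] := by decide
theorem st105 : lit [11, 2, 32, 8, 160, 4, 544, 20, 266, 68] * lit [413, 38, 100, 438, 120, 548, 96, 652, 408, 516] = lit [13, 38, 548, 438, 168, 100, 32, 28, 8, 4] := by decide
theorem st106 : lit [13, 38, 548, 438, 168, 100, 32, 28, 8, 4] * lit [413, 38, 100, 438, 120, 548, 96, 652, 408, 516] = lit [79, 614, 68, 266, 286, 544, 548, 426, 438, 100] := by decide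
theorem st107 : lit [79, 614, 68, 266, 286, 544, 548, 426, 438, 100] * lit [413, 38, 100, 438, 120, 548, 96, 652, 408, 516] = lit [9, 2, 4, 8, 20, 32, 68, 160, 266, 544] := by decide

def gA : G2 := g0
def gB : G2 := g1 * g4 * g7

theorem vA : (gA : Matrix I10 I10 (ZMod 2)) = lit [513, 514, 516, 136, 272, 32, 64, 128, 256, 512] := rfl
theorem vB : (gB : Matrix I10 I10 (ZMod 2)) = lit [413, 38, 100, 438, 120, 548, 96, 652, 408, 516] := by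
  unfold gB
  simp only [Units.val_mul, v1, v4, v7]
  simp only [st0, st1]

theorem GhA : gA ^ 2 = 1 := by
  apply Units.ext
  simp only [Units.val_pow_eq_pow_val, Units.val_mul, Units.val_one, vA, vB, pow_succ, pow_zero,
    one_mul, ← mul_assoc]
  simp only [st2]
  exact lit_one

theorem GhB : gB ^ 6 = 1 := by
  apply Units.ext
  simp only [Units.val_pow_eq_pow_val, Units.val_mul, Units.val_one, vA, vB, pow_succ, pow_zero,
    one_mul, ← mul_assoc]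
  simp only [st3, st4, st5, st6, st7]
  exact lit_one

theorem GhC : (gA * gB) ^ 5 = 1 := by
  apply Units.ext
  simp only [Units.val_pow_eq_pow_val, Units.val_mul, Units.val_one, vA, vB, pow_succ, pow_zero,
    one_mul, ← mul_assoc]
  simp only [st8, st9, st10, st11, st12, st13, st14, st15, st7]
  exact lit_one

theorem GhD : (gA * gB ^ 5 * gA * gB) ^ 3 = 1 := by
  apply Units.ext
  simp only [Units.val_pow_eq_pow_val, Units.val_mul, Units.val_one, vA, vB, pow_succ, pow_zero,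
    one_mul, ← mul_assoc]
  simp only [st8, st16, st17, st18, st19, st20, st21, st22, st23, st24, st25, st26, st27, st28, st29, st30, st31, st32, st33, st34, st14, st15, st7]
  exact lit_one

theorem GhE : (gA * gB ^ 4 * gA * gB ^ 2) ^ 2 = 1 := by
  apply Units.ext
  simp only [Units.val_pow_eq_pow_val, Units.val_mul, Units.val_one, vA, vB, pow_succ, pow_zero,
    one_mul, ← mul_assoc]
  simp only [st8, st16, st17, st18, st35, st36, st37, st38, st39, st40, st41, st42, st43, st6, st7]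
  exact lit_one

theorem GhF : (gA * gB ^ 3 * gA * gB ^ 3) ^ 2 = 1 := by
  apply Units.ext
  simp only [Units.val_pow_eq_pow_val, Units.val_mul, Units.val_one, vA, vB, pow_succ, pow_zero,
    one_mul, ← mul_assoc]
  simp only [st8, st16, st17, st44, st45, st46, st47, st48, st49, st50, st51, st52, st5, st6, st7]
  exact lit_one


theorem lift_relG : ∀ r ∈ rels, FreeGroup.lift ![gA, gB] r = 1 := by
  intro r hr
  simp only [rels, Set.mem_insert_iff, Set.mem_singleton_iff] at hr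
  rcases hr with rfl | rfl | rfl | rfl | rfl | rfl
  · simp only [map_pow, map_mul, FreeGroup.lift_apply_of]
    exact GhA
  · simp only [map_pow, map_mul, FreeGroup.lift_apply_of]
    exact GhB
  · simp only [map_pow, map_mul, FreeGroup.lift_apply_of]
    exact GhC
  · simp only [map_pow, map_mul, FreeGroup.lift_apply_of]
    exact GhD
  · simp only [map_pow, map_mul, FreeGroup.lift_apply_of]
    exact GhE
  · simp only [map_pow, map_mul, FreeGroup.lift_apply_of]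
    exact GhF

noncomputable def φ2 : P →* G2 := PresentedGroup.toGroup lift_relG

theorem φ2_x : φ2 x = gA := by simp [φ2, x]
theorem φ2_y : φ2 y = gB := by simp [φ2, y]

theorem w0 : ((φ2 (x) : G2) : Matrix I10 I10 (ZMod 2)) = lit [513, 514, 516, 136, 272, 32, 64, 128, 256, 512] := by
  rw [φ2_x]; rfl
theorem w1 : ((φ2 (x * y * y * x * y * x * y * y * x * y * x * y * y * x * y * y * y) : G2) : Matrix I10 I10 (ZMod 2)) = lit [257, 2, 68, 266, 80, 544, 64, 640, 256, 512] := by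
  simp only [map_mul, φ2_x, φ2_y, Units.val_mul, vA, vB]
  simp only [st8, st16, st53, st54, st55, st56, st57, st58, st59, st60, st61, st62, st63, st64, st65, st66]
theorem w2 : ((φ2 (x * y * x * y * x * y * y * y * y * x * y * x * y) : G2) : Matrix I10 I10 (ZMod 2)) = lit [129, 2, 36, 40, 146, 32, 576, 128, 768, 512] := by
  simp only [map_mul, φ2_x, φ2_y, Units.val_mul, vA, vB]
  simp only [st8, st9, st10, st11, st12, st67, st68, st69, st70, st71, st72, st73]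
theorem w3 : ((φ2 (y * y * y * x * y * y * y) : G2) : Matrix I10 I10 (ZMod 2)) = lit [1, 66, 4, 24, 16, 96, 64, 384, 256, 512] := by
  simp only [map_mul, φ2_x, φ2_y, Units.val_mul, vA, vB]
  simp only [st3, st4, st74, st75, st76, st77]
theorem w4 : ((φ2 (y * y * x * y * x * y * y * y * y * y * x * y * y * y * y) : G2) : Matrix I10 I10 (ZMod 2)) = lit [1, 34, 4, 8, 24, 32, 96, 128, 384, 512] := by
  simp only [map_mul, φ2_x, φ2_y, Units.val_mul, vA, vB]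
  simp only [st3, st78, st79, st80, st81, st82, st83, st84, st85, st86, st87, st88, st89, st90]
theorem w5 : ((φ2 (x * y * x * y * y * x * y * y * x * y * x) : G2) : Matrix I10 I10 (ZMod 2)) = lit [17, 2, 4, 12, 16, 36, 64, 146, 320, 576] := by
  simp only [map_mul, φ2_x, φ2_y, Units.val_mul, vA, vB]
  simp only [st8, st9, st10, st91, st92, st93, st94, st95, st96, st97]
theorem w6 : ((φ2 (y * x * y * y * y * x * y * y * y * y * y) : G2) : Matrix I10 I10 (ZMod 2)) = lit [9, 2, 4, 8, 20, 32, 68, 160, 266, 544] := by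
  simp only [map_mul, φ2_x, φ2_y, Units.val_mul, vA, vB]
  simp only [st98, st99, st100, st101, st102, st103, st104, st105, st106, st107]
theorem w7 : ((φ2 (x * y * y * y * y * y * x * y * x) : G2) : Matrix I10 I10 (ZMod 2)) = lit [5, 6, 4, 8, 16, 32, 64, 136, 272, 516] := by
  simp only [map_mul, φ2_x, φ2_y, Units.val_mul, vA, vB]
  simp only [st8, st16, st17, st18, st19, st20, st21, st22]

theorem yy_ne : φ2 (y * y) ≠ 1 := by
  intro h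
  have h2 : ((φ2 (y * y) : G2) : Matrix I10 I10 (ZMod 2)) = 1 := by rw [h]; rfl
  simp only [map_mul, φ2_y, Units.val_mul, vB] at h2
  simp only [st3] at h2
  revert h2
  decide

theorem yy_mem : ψ0 (y * y) ∈ alternatingGroup (Fin 6) := by
  rw [Equiv.Perm.mem_alternatingGroup, map_mul, Equiv.Perm.sign_mul, Int.units_mul_self]

theorem φ2_inj : Function.Injective φ2 := by
  let Θ : Equiv.Perm (Fin 6) →* G2 := φ2.comp ψiso.symm.toMonoidHom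
  have hΘ : Function.Injective Θ := by
    rw [← MonoidHom.ker_eq_bot_iff]
    by_contra hne
    have hnt : Nontrivial ↥Θ.ker := (Subgroup.nontrivial_iff_ne_bot _).mpr hne
    have hle := Equiv.Perm.alternatingGroup_le_of_normal (α := Fin 6) (by simp) hnt
    have h1 : Θ (ψ0 (y * y)) = 1 := hle yy_mem
    have h2 : ψiso.symm (ψ0 (y * y)) = y * y := ψiso.symm_apply_apply (y * y)
    have h3 : Θ (ψ0 (y * y)) = φ2 (y * y) := congrArg φ2 h2
    exact yy_ne (h3 ▸ h1)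
  intro p p' h
  apply ψiso.injective
  apply hΘ
  show φ2 (ψiso.symm (ψiso p)) = φ2 (ψiso.symm (ψiso p'))
  rw [ψiso.symm_apply_apply, ψiso.symm_apply_apply, h]

/-- Every root element over `ZMod 2` is in the image. -/
theorem key : ∀ (r : Fin D.nroots) (s : ZMod 2),
    ∃ p : P, ((φ2 p : G2) : Matrix I10 I10 (ZMod 2)) = D.xMat (ZMod 2) r s := by
  intro r s
  obtain ⟨r, hr⟩ := r
  have hr' : r < 8 := hr
  interval_cases r
  · rcases z01 s with rfl | rfl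
    · exact ⟨1, by rw [map_one]; exact (xzero _).symm⟩
    · exact ⟨x, by rw [w0]; exact xone0.symm⟩
  · rcases z01 s with rfl | rfl
    · exact ⟨1, by rw [map_one]; exact (xzero _).symm⟩
    · exact ⟨x * y * y * x * y * x * y * y * x * y * x * y * y * x * y * y * y, by rw [w1]; exact xone1.symm⟩
  · rcases z01 s with rfl | rfl
    · exact ⟨1, by rw [map_one]; exact (xzero _).symm⟩
    · exact ⟨x * y * x * y * x * y * y * y * y * x * y * x * y, by rw [w2]; exact xone2.symm⟩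
  · rcases z01 s with rfl | rfl
    · exact ⟨1, by rw [map_one]; exact (xzero _).symm⟩
    · exact ⟨y * y * y * x * y * y * y, by rw [w3]; exact xone3.symm⟩
  · rcases z01 s with rfl | rfl
    · exact ⟨1, by rw [map_one]; exact (xzero _).symm⟩
    · exact ⟨y * y * x * y * x * y * y * y * y * y * x * y * y * y * y, by rw [w4]; exact xone4.symm⟩
  · rcases z01 s with rfl | rfl
    · exact ⟨1, by rw [map_one]; exact (xzero _).symm⟩
    · exact ⟨x * y * x * y * y * x * y * y * x * y * x, by rw [w5]; exact xone5.symm⟩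
  · rcases z01 s with rfl | rfl
    · exact ⟨1, by rw [map_one]; exact (xzero _).symm⟩
    · exact ⟨y * x * y * y * y * x * y * y * y * y * y, by rw [w6]; exact xone6.symm⟩
  · rcases z01 s with rfl | rfl
    · exact ⟨1, by rw [map_one]; exact (xzero _).symm⟩
    · exact ⟨x * y * y * y * y * y * x * y * x, by rw [w7]; exact xone7.symm⟩

/-! ### Passing to a field with two elements -/

section field

variable {F : Type*} [Field F] (f : ZMod 2 →+* F)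

/-- The presented group inside `GL` over `F`. -/
noncomputable def φ : P →* GL I10 F := (Matrix.GeneralLinearGroup.map f).comp φ2

theorem val_map (g : G2) :
    ((Matrix.GeneralLinearGroup.map f g : GL I10 F) : Matrix I10 I10 F) =
      (g : Matrix I10 I10 (ZMod 2)).map f := rfl

theorem map_inj : Function.Injective (Matrix.GeneralLinearGroup.map (n := I10) f) := by
  intro g h hgh
  apply Units.ext
  have h1 := congrArg (fun u : GL I10 F => (u : Matrix I10 I10 F)) hgh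
  simp only [val_map] at h1
  exact Matrix.map_injective (RingHom.injective f) h1

theorem φ_inj : Function.Injective (φ f) := (map_inj f).comp φ2_inj

theorem mem_of_val (g : G2) (r : Fin D.nroots) (s : ZMod 2)
    (h : (g : Matrix I10 I10 (ZMod 2)) = D.xMat (ZMod 2) r s) :
    Matrix.GeneralLinearGroup.map f g ∈ D.group F := by
  apply Subgroup.subset_closure
  refine ⟨r, f s, ?_⟩
  rw [val_map, h, Cfsg.Agent.H18.xMat_map]

theorem φ_mem (p : P) : φ f p ∈ D.group F := by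
  have hgen : ∀ j : Fin 2, (PresentedGroup.of j : P) ∈ (D.group F).comap (φ f) := by
    intro j
    fin_cases j
    · show Matrix.GeneralLinearGroup.map f (φ2 x) ∈ D.group F
      rw [φ2_x]
      exact mem_of_val f g0 _ 1 (v0.trans xone0.symm)
    · show Matrix.GeneralLinearGroup.map f (φ2 y) ∈ D.group F
      rw [φ2_y]
      unfold gB
      rw [map_mul, map_mul]
      exact mul_mem (mul_mem (mem_of_val f g1 _ 1 (v1.trans xone1.symm))
        (mem_of_val f g4 _ 1 (v4.trans xone4.symm))) (mem_of_val f g7 _ 1 (v7.trans xone7.symm))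
  exact PresentedGroup.generated_by rels ((D.group F).comap (φ f)) hgen p

theorem φ_range (hf : Function.Surjective f) : (φ f).range = D.group F := by
  apply le_antisymm
  · rintro _ ⟨p, rfl⟩
    exact φ_mem f p
  · unfold Cfsg.Lie.ChevalleyDatum.group
    rw [Subgroup.closure_le]
    rintro g ⟨r, t, hg⟩
    obtain ⟨s, rfl⟩ := hf t
    obtain ⟨p, hp⟩ := key r s
    refine ⟨p, ?_⟩
    apply Units.ext
    rw [hg]
    show ((Matrix.GeneralLinearGroup.map f (φ2 p) : GL I10 F) : Matrix I10 I10 F) = _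
    rw [val_map, hp, Cfsg.Agent.H18.xMat_map]

end field

/-- B₂(2) ≅ S₆. -/
theorem result {F : Type*} [Field F] [Fintype F] (hF : Fintype.card F = 2) :
    Nonempty (↥(Cfsg.Lie.chevB2.group F) ≃* Equiv.Perm (Fin 6)) := by
  classical
  let e : ZMod 2 ≃+* F := ZMod.ringEquivOfPrime F Nat.prime_two hF
  have hr : (φ e.toRingHom).range = D.group F := φ_range e.toRingHom e.surjective
  exact ⟨(MulEquiv.subgroupCongr hr.symm).trans
    ((MonoidHom.ofInjective (φ_inj e.toRingHom)).symm.trans ψiso)⟩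

end Cfsg.Agent.S1058
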