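import Cfsg.Statements.S1112
import Cfsg.Agent.Lib.Helper19.TwAb
import Cfsg.Agent.Lib.Helper18.CAll
import Cfsg.Agent.Lib.Helper36.ChevTabF4

set_option autoImplicit false
set_option linter.unusedSimpArgs false
set_option linter.unusedVariables false
set_option linter.unusedSectionVars false
open Cfsg

namespace Cfsg.Agent.S1112

open Cfsg.Lie Cfsg.Agent.Lib.Helper18 Cfsg.Agent.Lib.Helper18.BNPairC Cfsg.Agent.Lib.Helper18.Grade
  Cfsg.Agent.Lib.Helper36 Cfsg.Agent.Lib.Helper36.ChevEngine Cfsg.Agent.Lib.Helper36.ChevSound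
  Cfsg.Agent.Lib.Helper19.TwCore Cfsg.Agent.Lib.Helper19.TwEngine Cfsg.Agent.Lib.Helper19.TwGlue
  Cfsg.Agent.Lib.Helper19.TwPerf Cfsg.Agent.Lib.Helper19.TwAb

variable {K : Type*} [Field K]

/-! ### The six families of elements (`T` stands for the `θ`-th power of `t`, `W` for the
`2θ`-th power of `u`) -/

/-- `x_{p₁}(T) x_{p₄}(t)` -/
def Pw (t T : K) : List (ℕ × K) := [(33, T), (24, t)]
/-- `x_{-p₁}(T) x_{-p₄}(t)` -/
def Pwm (t T : K) : List (ℕ × K) := [(14, T), (23, t)]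
/-- `x_a(T) x_b(t) x_{a+b}(tT)` -/
def Aw (t T : K) : List (ℕ × K) := [(27, T), (25, t), (28, t * T)]
/-- `x_{a+b}(u) x_{2a+b}(W)` -/
def Zw (u W : K) : List (ℕ × K) := [(28, u), (30, W)]
/-- the negative counterpart of `Aw` -/
def Awm (t T : K) : List (ℕ × K) := [(20, T), (22, t), (19, t * T)]
/-- the negative counterpart of `Zw` -/
def Zwm (u W : K) : List (ℕ × K) := [(19, u), (17, W)]

theorem lt_Pw (t T : K) : ∀ p ∈ Pw t T, p.1 < chevF4.nroots := by
  intro p hp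
  simp only [Pw, List.mem_cons, List.not_mem_nil, or_false] at hp
  rcases hp with rfl | rfl <;> (dsimp only; decide)
theorem lt_Pwm (t T : K) : ∀ p ∈ Pwm t T, p.1 < chevF4.nroots := by
  intro p hp
  simp only [Pwm, List.mem_cons, List.not_mem_nil, or_false] at hp
  rcases hp with rfl | rfl <;> (dsimp only; decide)
theorem lt_Aw (t T : K) : ∀ p ∈ Aw t T, p.1 < chevF4.nroots := by
  intro p hp
  simp only [Aw, List.mem_cons, List.not_mem_nil, or_false] at hp
  rcases hp with rfl | rfl | rfl <;> (dsimp only; decide)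
theorem lt_Zw (t T : K) : ∀ p ∈ Zw t T, p.1 < chevF4.nroots := by
  intro p hp
  simp only [Zw, List.mem_cons, List.not_mem_nil, or_false] at hp
  rcases hp with rfl | rfl <;> (dsimp only; decide)
theorem lt_Awm (t T : K) : ∀ p ∈ Awm t T, p.1 < chevF4.nroots := by
  intro p hp
  simp only [Awm, List.mem_cons, List.not_mem_nil, or_false] at hp
  rcases hp with rfl | rfl | rfl <;> (dsimp only; decide)
theorem lt_Zwm (t T : K) : ∀ p ∈ Zwm t T, p.1 < chevF4.nroots := by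
  intro p hp
  simp only [Zwm, List.mem_cons, List.not_mem_nil, or_false] at hp
  rcases hp with rfl | rfl <;> (dsimp only; decide)

/-! ### Word identities in characteristic `2` -/

def qRU_0 : Param := [⟨1, 0, 0, 0⟩]
theorem eqRU_0 (t u v : K) : evalParam t u v qRU_0 = 1 := by
  simp only [qRU_0, evalParam, monoEval]
  push_cast
  ring
def qRU_1 : Param := [⟨1, 0, 0, 0⟩]
theorem eqRU_1 (t u v : K) : evalParam t u v qRU_1 = 1 * 1 := by
  simp only [qRU_1, evalParam, monoEval]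
  push_cast
  ring
def qRU_2 : Param := [⟨1, 0, 1, 0⟩]
theorem eqRU_2 (t u v : K) : evalParam t u v qRU_2 = u := by
  simp only [qRU_2, evalParam, monoEval]
  push_cast
  ring
def qRU_3 : Param := [⟨1, 1, 0, 0⟩]
theorem eqRU_3 (t u v : K) : evalParam t u v qRU_3 = t := by
  simp only [qRU_3, evalParam, monoEval]
  push_cast
  ring
def qRU_4 : Param := [⟨1, 1, 1, 0⟩]
theorem eqRU_4 (t u v : K) : evalParam t u v qRU_4 = t * u := by
  simp only [qRU_4, evalParam, monoEval]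
  push_cast
  ring
def qRU_5 : Param := [⟨1, 0, 0, 0⟩, ⟨1, 0, 1, 0⟩]
theorem eqRU_5 (t u v : K) : evalParam t u v qRU_5 = 1 + u := by
  simp only [qRU_5, evalParam, monoEval]
  push_cast
  ring
def qRU_6 : Param := [⟨1, 0, 0, 0⟩, ⟨1, 1, 0, 0⟩]
theorem eqRU_6 (t u v : K) : evalParam t u v qRU_6 = 1 + t := by
  simp only [qRU_6, evalParam, monoEval]
  push_cast
  ring
def qRU_7 : Param := [⟨1, 0, 0, 0⟩, ⟨1, 0, 1, 0⟩, ⟨1, 1, 0, 0⟩, ⟨1, 1, 1, 0⟩]
theorem eqRU_7 (t u v : K) : evalParam t u v qRU_7 = (1 + t) * (1 + u) := by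
  simp only [qRU_7, evalParam, monoEval]
  push_cast
  ring
def qRU_8 : Param := [⟨1, 0, 2, 0⟩]
theorem eqRU_8 (t u v : K) : evalParam t u v qRU_8 = u ^ 2 := by
  simp only [qRU_8, evalParam, monoEval]
  push_cast
  ring
def sLRU : SWord := [(27, qRU_0), (25, qRU_0), (28, qRU_1), (27, qRU_2), (25, qRU_3), (28, qRU_4)]
def sRRU : SWord := [(27, qRU_5), (25, qRU_6), (28, qRU_7), (28, qRU_3), (30, qRU_8)]
set_option maxRecDepth 100000 in
theorem chkRU : checkRelP 2 ChevTabF4.tab chevF4.rank chevF4.nroots sLRU sRRU = true := by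
  decide +kernel

theorem RU (hp : ((2 : ℕ) : K) = 0) (s S : K) :
    chevF4.wordMat K (Aw 1 1 ++ Aw s S) =
      chevF4.wordMat K (Aw (1 + s) (1 + S) ++ Zw s (S ^ 2)) := by
  have h := checkRelP_sound (F := K) 2 hp chevF4 ChevTabF4.tab ChevTabF4.tok sLRU sRRU chkRU s S 0
  simp only [sLRU, sRRU, evalWord_cons, evalWord_nil, eqRU_0, eqRU_1, eqRU_2, eqRU_3, eqRU_4, eqRU_5, eqRU_6, eqRU_7, eqRU_8] at h
  exact h

def qRV_0 : Param := [⟨1, 0, 0, 0⟩]
theorem eqRV_0 (t u v : K) : evalParam t u v qRV_0 = 1 := by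
  simp only [qRV_0, evalParam, monoEval]
  push_cast
  ring
def qRV_1 : Param := [⟨1, 0, 0, 0⟩]
theorem eqRV_1 (t u v : K) : evalParam t u v qRV_1 = 1 * 1 := by
  simp only [qRV_1, evalParam, monoEval]
  push_cast
  ring
def qRV_2 : Param := [⟨1, 0, 1, 0⟩]
theorem eqRV_2 (t u v : K) : evalParam t u v qRV_2 = u := by
  simp only [qRV_2, evalParam, monoEval]
  push_cast
  ring
def qRV_3 : Param := [⟨1, 1, 0, 0⟩]
theorem eqRV_3 (t u v : K) : evalParam t u v qRV_3 = t := by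
  simp only [qRV_3, evalParam, monoEval]
  push_cast
  ring
def qRV_4 : Param := [⟨1, 1, 1, 0⟩]
theorem eqRV_4 (t u v : K) : evalParam t u v qRV_4 = t * u := by
  simp only [qRV_4, evalParam, monoEval]
  push_cast
  ring
def qRV_5 : Param := [⟨1, 0, 0, 0⟩, ⟨1, 0, 1, 0⟩]
theorem eqRV_5 (t u v : K) : evalParam t u v qRV_5 = 1 + u := by
  simp only [qRV_5, evalParam, monoEval]
  push_cast
  ring
def qRV_6 : Param := [⟨1, 0, 0, 0⟩, ⟨1, 1, 0, 0⟩]
theorem eqRV_6 (t u v : K) : evalParam t u v qRV_6 = 1 + t := by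
  simp only [qRV_6, evalParam, monoEval]
  push_cast
  ring
def qRV_7 : Param := [⟨1, 0, 0, 0⟩, ⟨1, 0, 1, 0⟩, ⟨1, 1, 0, 0⟩, ⟨1, 1, 1, 0⟩]
theorem eqRV_7 (t u v : K) : evalParam t u v qRV_7 = (1 + t) * (1 + u) := by
  simp only [qRV_7, evalParam, monoEval]
  push_cast
  ring
def qRV_8 : Param := [⟨1, 0, 2, 0⟩]
theorem eqRV_8 (t u v : K) : evalParam t u v qRV_8 = u ^ 2 := by
  simp only [qRV_8, evalParam, monoEval]
  push_cast
  ring
def sLRV : SWord := [(20, qRV_0), (22, qRV_0), (19, qRV_1), (20, qRV_2), (22, qRV_3), (19, qRV_4)]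
def sRRV : SWord := [(20, qRV_5), (22, qRV_6), (19, qRV_7), (19, qRV_3), (17, qRV_8)]
set_option maxRecDepth 100000 in
theorem chkRV : checkRelP 2 ChevTabF4.tab chevF4.rank chevF4.nroots sLRV sRRV = true := by
  decide +kernel

theorem RV (hp : ((2 : ℕ) : K) = 0) (s S : K) :
    chevF4.wordMat K (Awm 1 1 ++ Awm s S) =
      chevF4.wordMat K (Awm (1 + s) (1 + S) ++ Zwm s (S ^ 2)) := by
  have h := checkRelP_sound (F := K) 2 hp chevF4 ChevTabF4.tab ChevTabF4.tok sLRV sRRV chkRV s S 0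
  simp only [sLRV, sRRV, evalWord_cons, evalWord_nil, eqRV_0, eqRV_1, eqRV_2, eqRV_3, eqRV_4, eqRV_5, eqRV_6, eqRV_7, eqRV_8] at h
  exact h

def sLc24_33 : SWord := [(24, pt 1), (33, pu 1)]
def sRc24_33 : SWord := [(33, pu 1), (24, pt 1)]
set_option maxRecDepth 100000 in
theorem chkc24_33 : checkRelP 2 ChevTabF4.tab chevF4.rank chevF4.nroots sLc24_33 sRc24_33 = true := by
  decide +kernel

theorem c24_33 (hp : ((2 : ℕ) : K) = 0) (a b : K) :
    chevF4.x K 24 a * chevF4.x K 33 b = chevF4.x K 33 b * chevF4.x K 24 a := by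
  have h := checkRelP_sound (F := K) 2 hp chevF4 ChevTabF4.tab ChevTabF4.tok sLc24_33 sRc24_33 chkc24_33 a b 0
  simp only [sLc24_33, sRc24_33, evalWord_cons, evalWord_nil, evalParam_pt, evalParam_pu,
    Int.cast_one, one_mul, Cfsg.Agent.Lib.Helper18.Sub.wordMat_cons,
    Cfsg.Agent.Lib.Helper18.Sub.wordMat_nil, mul_one] at h
  exact h

def sLc24_14 : SWord := [(24, pt 1), (14, pu 1)]
def sRc24_14 : SWord := [(14, pu 1), (24, pt 1)]
set_option maxRecDepth 100000 in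
theorem chkc24_14 : checkRelP 2 ChevTabF4.tab chevF4.rank chevF4.nroots sLc24_14 sRc24_14 = true := by
  decide +kernel

theorem c24_14 (hp : ((2 : ℕ) : K) = 0) (a b : K) :
    chevF4.x K 24 a * chevF4.x K 14 b = chevF4.x K 14 b * chevF4.x K 24 a := by
  have h := checkRelP_sound (F := K) 2 hp chevF4 ChevTabF4.tab ChevTabF4.tok sLc24_14 sRc24_14 chkc24_14 a b 0
  simp only [sLc24_14, sRc24_14, evalWord_cons, evalWord_nil, evalParam_pt, evalParam_pu,
    Int.cast_one, one_mul, Cfsg.Agent.Lib.Helper18.Sub.wordMat_cons,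
    Cfsg.Agent.Lib.Helper18.Sub.wordMat_nil, mul_one] at h
  exact h

def sLc23_33 : SWord := [(23, pt 1), (33, pu 1)]
def sRc23_33 : SWord := [(33, pu 1), (23, pt 1)]
set_option maxRecDepth 100000 in
theorem chkc23_33 : checkRelP 2 ChevTabF4.tab chevF4.rank chevF4.nroots sLc23_33 sRc23_33 = true := by
  decide +kernel

theorem c23_33 (hp : ((2 : ℕ) : K) = 0) (a b : K) :
    chevF4.x K 23 a * chevF4.x K 33 b = chevF4.x K 33 b * chevF4.x K 23 a := by
  have h := checkRelP_sound (F := K) 2 hp chevF4 ChevTabF4.tab ChevTabF4.tok sLc23_33 sRc23_33 chkc23_33 a b 0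
  simp only [sLc23_33, sRc23_33, evalWord_cons, evalWord_nil, evalParam_pt, evalParam_pu,
    Int.cast_one, one_mul, Cfsg.Agent.Lib.Helper18.Sub.wordMat_cons,
    Cfsg.Agent.Lib.Helper18.Sub.wordMat_nil, mul_one] at h
  exact h

def sLc23_14 : SWord := [(23, pt 1), (14, pu 1)]
def sRc23_14 : SWord := [(14, pu 1), (23, pt 1)]
set_option maxRecDepth 100000 in
theorem chkc23_14 : checkRelP 2 ChevTabF4.tab chevF4.rank chevF4.nroots sLc23_14 sRc23_14 = true := by
  decide +kernel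

theorem c23_14 (hp : ((2 : ℕ) : K) = 0) (a b : K) :
    chevF4.x K 23 a * chevF4.x K 14 b = chevF4.x K 14 b * chevF4.x K 23 a := by
  have h := checkRelP_sound (F := K) 2 hp chevF4 ChevTabF4.tab ChevTabF4.tok sLc23_14 sRc23_14 chkc23_14 a b 0
  simp only [sLc23_14, sRc23_14, evalWord_cons, evalWord_nil, evalParam_pt, evalParam_pu,
    Int.cast_one, one_mul, Cfsg.Agent.Lib.Helper18.Sub.wordMat_cons,
    Cfsg.Agent.Lib.Helper18.Sub.wordMat_nil, mul_one] at h
  exact h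

def sLc30_28 : SWord := [(30, pt 1), (28, pu 1)]
def sRc30_28 : SWord := [(28, pu 1), (30, pt 1)]
set_option maxRecDepth 100000 in
theorem chkc30_28 : checkRelP 2 ChevTabF4.tab chevF4.rank chevF4.nroots sLc30_28 sRc30_28 = true := by
  decide +kernel

theorem c30_28 (hp : ((2 : ℕ) : K) = 0) (a b : K) :
    chevF4.x K 30 a * chevF4.x K 28 b = chevF4.x K 28 b * chevF4.x K 30 a := by
  have h := checkRelP_sound (F := K) 2 hp chevF4 ChevTabF4.tab ChevTabF4.tok sLc30_28 sRc30_28 chkc30_28 a b 0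
  simp only [sLc30_28, sRc30_28, evalWord_cons, evalWord_nil, evalParam_pt, evalParam_pu,
    Int.cast_one, one_mul, Cfsg.Agent.Lib.Helper18.Sub.wordMat_cons,
    Cfsg.Agent.Lib.Helper18.Sub.wordMat_nil, mul_one] at h
  exact h

def sLc17_19 : SWord := [(17, pt 1), (19, pu 1)]
def sRc17_19 : SWord := [(19, pu 1), (17, pt 1)]
set_option maxRecDepth 100000 in
theorem chkc17_19 : checkRelP 2 ChevTabF4.tab chevF4.rank chevF4.nroots sLc17_19 sRc17_19 = true := by
  decide +kernel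

theorem c17_19 (hp : ((2 : ℕ) : K) = 0) (a b : K) :
    chevF4.x K 17 a * chevF4.x K 19 b = chevF4.x K 19 b * chevF4.x K 17 a := by
  have h := checkRelP_sound (F := K) 2 hp chevF4 ChevTabF4.tab ChevTabF4.tok sLc17_19 sRc17_19 chkc17_19 a b 0
  simp only [sLc17_19, sRc17_19, evalWord_cons, evalWord_nil, evalParam_pt, evalParam_pu,
    Int.cast_one, one_mul, Cfsg.Agent.Lib.Helper18.Sub.wordMat_cons,
    Cfsg.Agent.Lib.Helper18.Sub.wordMat_nil, mul_one] at h
  exact h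

/-! ### The pairings with the coroots of `p₁` and `p₄` -/

theorem pE33_33 : pairE FTabF4.fd 33 33 = 2 := by decide
theorem pE33_24 : pairE FTabF4.fd 33 24 = 0 := by decide
theorem pE33_27 : pairE FTabF4.fd 33 27 = -1 := by decide
theorem pE33_25 : pairE FTabF4.fd 33 25 = 0 := by decide
theorem pE33_28 : pairE FTabF4.fd 33 28 = -1 := by decide
theorem pE33_30 : pairE FTabF4.fd 33 30 = -2 := by decide
theorem pE33_14 : pairE FTabF4.fd 33 14 = -2 := by decide
theorem pE33_23 : pairE FTabF4.fd 33 23 = 0 := by decide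
theorem pE33_20 : pairE FTabF4.fd 33 20 = 1 := by decide
theorem pE33_22 : pairE FTabF4.fd 33 22 = 0 := by decide
theorem pE33_19 : pairE FTabF4.fd 33 19 = 1 := by decide
theorem pE33_17 : pairE FTabF4.fd 33 17 = 2 := by decide
theorem pE24_33 : pairE FTabF4.fd 24 33 = 0 := by decide
theorem pE24_24 : pairE FTabF4.fd 24 24 = 2 := by decide
theorem pE24_27 : pairE FTabF4.fd 24 27 = 0 := by decide
theorem pE24_25 : pairE FTabF4.fd 24 25 = -1 := by decide
theorem pE24_28 : pairE FTabF4.fd 24 28 = -1 := by decide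
theorem pE24_30 : pairE FTabF4.fd 24 30 = -1 := by decide
theorem pE24_14 : pairE FTabF4.fd 24 14 = 0 := by decide
theorem pE24_23 : pairE FTabF4.fd 24 23 = -2 := by decide
theorem pE24_20 : pairE FTabF4.fd 24 20 = 0 := by decide
theorem pE24_22 : pairE FTabF4.fd 24 22 = 1 := by decide
theorem pE24_19 : pairE FTabF4.fd 24 19 = 1 := by decide
theorem pE24_17 : pairE FTabF4.fd 24 17 = 1 := by decide

/-- ²F₄(2^(2m+1)) (m ≥ 1) equals its derived subgroup. -/
theorem result {K : Type*} [Field K] [Fintype K] {m : ℕ} (hK : Fintype.card K = 2 ^ (2 * m + 1)) (hm : 1 ≤ m) : commutator ↥(Cfsg.Lie.twistedF4 K (2 ^ m)) = ⊤ := by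
  have hF := CAll.cfF4.af
  have hadd : ∀ r < chevF4.nroots, ∀ t u : K,
      chevF4.x K r t * chevF4.x K r u = chevF4.x K r (t + u) :=
    fun r hr t u => Cfsg.Agent.S1023.result chevF4 (by simp) r hr t u
  have h2 : ((2 : ℕ) : K) = 0 := natCast_eq_zero_of_card Nat.prime_two hK
  have h2' : (2 : K) = 0 := by exact_mod_cast h2
  have hneg : ∀ x : K, -x = x := by
    intro x
    linear_combination (-x) * h2'
  obtain ⟨e, he⟩ : ∃ e : ℕ, e = 2 ^ m := ⟨_, rfl⟩
  rw [← he]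
  have he0 : e ≠ 0 := by
    rw [he]
    positivity
  have he2 : 2 ≤ e := by
    rw [he]
    calc 2 = 2 ^ 1 := by norm_num
      _ ≤ 2 ^ m := Nat.pow_le_pow_right (by norm_num) hm
  have hcard : Fintype.card K = 2 * e * e := by
    rw [hK, he]
    ring
  have hfrob2 : ∀ x y : K, (x + y) ^ 2 = x ^ 2 + y ^ 2 :=
    frob_add (n := 2 * m + 1) (by omega) hK
  have hfrob : ∀ x y : K, (x + y) ^ e = x ^ e + y ^ e := by
    rw [he]
    exact frob_pow_add hfrob2 m
  have hfrob' : ∀ x y : K, (x + y) ^ (2 * e) = x ^ (2 * e) + y ^ (2 * e) := by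
    have e1 : 2 * e = 2 ^ (m + 1) := by
      rw [he]
      ring
    rw [e1]
    exact frob_pow_add hfrob2 (m + 1)
  have hsq : ∀ x : K, ((x ^ e) ^ e) ^ 2 = x := by
    intro x
    rw [← pow_mul, ← pow_mul]
    have e1 : e * (e * 2) = Fintype.card K := by
      rw [hcard]
      ring
    rw [e1]
    exact FiniteField.pow_card x
  have h0e : (0 : K) ^ e = 0 := zero_pow he0
  have h0e' : (0 : K) ^ (2 * e) = 0 := zero_pow (by omega)
  have hr33 : (33 : ℕ) < chevF4.nroots := by decide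
  have hr24 : (24 : ℕ) < chevF4.nroots := by decide
  have hr14 : (14 : ℕ) < chevF4.nroots := by decide
  have hr23 : (23 : ℕ) < chevF4.nroots := by decide
  have hr28 : (28 : ℕ) < chevF4.nroots := by decide
  have hr30 : (30 : ℕ) < chevF4.nroots := by decide
  have hr19 : (19 : ℕ) < chevF4.nroots := by decide
  have hr17 : (17 : ℕ) < chevF4.nroots := by decide
  show commutator ↥(chevF4.genSubgroup K (f4Words K e)) = ⊤
  set S := f4Words K e with hS
  set G := chevF4.genSubgroup K S with hG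
  -- words with parameters zero
  have hA0 : chevF4.wordMat K (Aw 0 0) = 1 := Cfsg.Agent.Lib.Helper19.TwAb.wordMat_zero hF hadd _ (by
    intro p hp
    simp only [Aw, List.mem_cons, List.not_mem_nil, or_false] at hp
    rcases hp with rfl | rfl | rfl <;> exact ⟨by dsimp only; decide, by simp⟩)
  have hZ0 : chevF4.wordMat K (Zw 0 0) = 1 := Cfsg.Agent.Lib.Helper19.TwAb.wordMat_zero hF hadd _ (by
    intro p hp
    simp only [Zw, List.mem_cons, List.not_mem_nil, or_false] at hp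
    rcases hp with rfl | rfl <;> exact ⟨by dsimp only; decide, by simp⟩)
  have hAm0 : chevF4.wordMat K (Awm 0 0) = 1 := Cfsg.Agent.Lib.Helper19.TwAb.wordMat_zero hF hadd _ (by
    intro p hp
    simp only [Awm, List.mem_cons, List.not_mem_nil, or_false] at hp
    rcases hp with rfl | rfl | rfl <;> exact ⟨by dsimp only; decide, by simp⟩)
  have hZm0 : chevF4.wordMat K (Zwm 0 0) = 1 := Cfsg.Agent.Lib.Helper19.TwAb.wordMat_zero hF hadd _ (by
    intro p hp
    simp only [Zwm, List.mem_cons, List.not_mem_nil, or_false] at hp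
    rcases hp with rfl | rfl <;> exact ⟨by dsimp only; decide, by simp⟩)
  -- the generators as products of the families
  have hwU : ∀ t u : K, chevF4.wordMat K (b2ClassWord e f4a f4b f4ab f4aab t u) =
      chevF4.wordMat K (Aw t (t ^ e) ++ Zw u (u ^ (2 * e))) := by
    intro t u
    have e1 : t ^ (e + 1) = t * t ^ e := pow_succ' t e
    have e3 : b2ClassWord e f4a f4b f4ab f4aab t u = [(27, t ^ e), (25, t), (28, t * t ^ e + u),
        (30, u ^ (2 * e))] := by
      simp only [b2ClassWord, f4a, f4b, f4ab, f4aab, e1]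
    rw [e3]
    exact dec4 chevF4 hadd 27 25 28 30 hr28 _ _ _ _ _
  have hwV : ∀ t u : K, chevF4.wordMat K (b2ClassWord e f4ma f4mb f4mab f4maab t u) =
      chevF4.wordMat K (Awm t (t ^ e) ++ Zwm u (u ^ (2 * e))) := by
    intro t u
    have e1 : t ^ (e + 1) = t * t ^ e := pow_succ' t e
    have e3 : b2ClassWord e f4ma f4mb f4mab f4maab t u = [(20, t ^ e), (22, t),
        (19, t * t ^ e + u), (17, u ^ (2 * e))] := by
      simp only [b2ClassWord, f4ma, f4mb, f4mab, f4maab, e1]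
    rw [e3]
    exact dec4 chevF4 hadd 20 22 19 17 hr19 _ _ _ _ _
  -- membership of the families
  have mP : ∀ t T : K, T = t ^ e → wU hF (Pw t T) ∈ G := by
    intro t T hT
    subst hT
    exact wU_mem_gen hF S (Or.inl ⟨t, Or.inl rfl⟩)
  have mPm : ∀ t T : K, T = t ^ e → wU hF (Pwm t T) ∈ G := by
    intro t T hT
    subst hT
    exact wU_mem_gen hF S (Or.inl ⟨t, Or.inr rfl⟩)
  have mA : ∀ t T : K, T = t ^ e → wU hF (Aw t T) ∈ G := by
    intro t T hT
    subst hT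
    have h1 : wU hF (b2ClassWord e f4a f4b f4ab f4aab t 0) ∈ G :=
      wU_mem_gen hF S (Or.inr ⟨t, 0, Or.inl rfl⟩)
    refine mem_congr hF G ?_ h1
    rw [hwU, Sub.wordMat_append, h0e', hZ0, mul_one]
  have mZ : ∀ u W : K, W = u ^ (2 * e) → wU hF (Zw u W) ∈ G := by
    intro u W hW
    subst hW
    have h1 : wU hF (b2ClassWord e f4a f4b f4ab f4aab 0 u) ∈ G :=
      wU_mem_gen hF S (Or.inr ⟨0, u, Or.inl rfl⟩)
    refine mem_congr hF G ?_ h1
    rw [hwU, Sub.wordMat_append, h0e, hA0, one_mul]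
  have mAm : ∀ t T : K, T = t ^ e → wU hF (Awm t T) ∈ G := by
    intro t T hT
    subst hT
    have h1 : wU hF (b2ClassWord e f4ma f4mb f4mab f4maab t 0) ∈ G :=
      wU_mem_gen hF S (Or.inr ⟨t, 0, Or.inr rfl⟩)
    refine mem_congr hF G ?_ h1
    rw [hwV, Sub.wordMat_append, h0e', hZm0, mul_one]
  have mZm : ∀ u W : K, W = u ^ (2 * e) → wU hF (Zwm u W) ∈ G := by
    intro u W hW
    subst hW
    have h1 : wU hF (b2ClassWord e f4ma f4mb f4mab f4maab 0 u) ∈ G :=
      wU_mem_gen hF S (Or.inr ⟨0, u, Or.inr rfl⟩)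
    refine mem_congr hF G ?_ h1
    rw [hwV, Sub.wordMat_append, h0e, hAm0, one_mul]
  have habU : ∀ t u : K, abv hF G (b2ClassWord e f4a f4b f4ab f4aab t u) =
      abv hF G (Aw t (t ^ e)) * abv hF G (Zw u (u ^ (2 * e))) := by
    intro t u
    rw [abv_congr hF G (hwU t u), abv_append hF G (mA _ _ rfl) (mZ _ _ rfl)]
  have habV : ∀ t u : K, abv hF G (b2ClassWord e f4ma f4mb f4mab f4maab t u) =
      abv hF G (Awm t (t ^ e)) * abv hF G (Zwm u (u ^ (2 * e))) := by
    intro t u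
    rw [abv_congr hF G (hwV t u), abv_append hF G (mAm _ _ rfl) (mZm _ _ rfl)]
  -- the torus elements `h_{p₁}(c^θ) h_{p₄}(c)`
  have hmat : ∀ C c : K, chevF4.wordMat K (pairN 33 24 14 23 C c ++ pairN 33 24 14 23 (-1) (-1)) =
      chevF4.hMat K 33 C * chevF4.hMat K 24 c :=
    pair_torus chevF4 33 24 14 23 rfl rfl (c24_33 h2) (c24_14 h2) (c23_33 h2) (c23_14 h2)
  have hmem : ∀ c : K, c ≠ 0 →
      wU hF (pairN 33 24 14 23 (c ^ e) c ++ pairN 33 24 14 23 (-1) (-1)) ∈ G := by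
    intro c hc
    have e1 : pairN 33 24 14 23 (c ^ e) c =
        Pw c (c ^ e) ++ Pwm (-c⁻¹) (-(c ^ e)⁻¹) ++ Pw c (c ^ e) := rfl
    have e2 : pairN 33 24 14 23 (-1 : K) (-1) =
        Pw (-1) (-1) ++ Pwm (-(-1 : K)⁻¹) (-(-1 : K)⁻¹) ++ Pw (-1) (-1) := rfl
    rw [e1, e2, wU_append, wU_append, wU_append, wU_append, wU_append]
    have m1 := mP c (c ^ e) rfl
    have m2 := mPm (-c⁻¹) (-(c ^ e)⁻¹) (by rw [hneg, hneg, inv_pow])
    have m3 := mP (-1) (-1) (by rw [hneg, one_pow])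
    have m4 := mPm (-(-1 : K)⁻¹) (-(-1 : K)⁻¹) (by rw [hneg 1, inv_one, hneg 1, one_pow])
    exact G.mul_mem (G.mul_mem (G.mul_mem m1 m2) m1) (G.mul_mem (G.mul_mem m3 m4) m3)
  have hact : ∀ c : K, c ≠ 0 → ∀ w : List (ℕ × K), (∀ p ∈ w, p.1 < chevF4.nroots) →
      wU hF w ∈ G → abv hF G (w.map fun p => (p.1, (c ^ e) ^ pairE FTabF4.fd 33 p.1 *
        (c ^ pairE FTabF4.fd 24 p.1 * p.2))) = abv hF G w :=
    fun c hc w hw hwm =>
      hh_conj hF G hr33 hr24 (pow_ne_zero e hc) hc (hmat _ _) (hmem c hc) hw hwm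
  -- existence of suitable scalars
  obtain ⟨c₁, hc₁, hc₁'⟩ := exists_pow_ne_one (K := K) 2 (by norm_num) (by
    rw [hcard]
    nlinarith)
  obtain ⟨c₂, hc₂, hc₂'⟩ := exists_pow_ne_one (K := K) (e + 1) (by omega) (by
    rw [hcard]
    nlinarith)
  have hc₂'' : c₂ * c₂ ^ e ≠ 1 := by
    have e1 : c₂ ^ (e + 1) = c₂ * c₂ ^ e := pow_succ' c₂ e
    rwa [← e1]
  have hc₁1 : 1 + c₁ ≠ 0 := by
    intro h
    apply hc₁'
    have e1 : c₁ = 1 := by linear_combination h - h2'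
    rw [e1, one_pow]
  -- the pair families
  have hP : ∀ t : K, abv hF G (Pw t (t ^ e)) = 1 := by
    apply family_add (fun t => abv hF G (Pw t (t ^ e))) ?_ (c₁ ^ 2) hc₁' ?_
    · intro u u'
      show abv hF G (Pw (u + u') ((u + u') ^ e)) =
        abv hF G (Pw u (u ^ e)) * abv hF G (Pw u' (u' ^ e))
      rw [hfrob, ← abv_append hF G (mP _ _ rfl) (mP _ _ rfl)]
      exact (abv_congr hF G (pair_add chevF4 hadd 33 24 hr33 hr24 (c24_33 h2) _ _ _ _)).symm
    · intro u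
      show abv hF G (Pw (c₁ ^ 2 * u) ((c₁ ^ 2 * u) ^ e)) = abv hF G (Pw u (u ^ e))
      have h := hact c₁ hc₁ (Pw u (u ^ e)) (lt_Pw _ _) (mP _ _ rfl)
      have e1 : ((Pw u (u ^ e)).map fun p => (p.1, (c₁ ^ e) ^ pairE FTabF4.fd 33 p.1 *
          (c₁ ^ pairE FTabF4.fd 24 p.1 * p.2))) = Pw (c₁ ^ 2 * u) ((c₁ ^ 2 * u) ^ e) := by
        simp only [Pw, List.map_cons, List.map_nil, pE33_33, pE33_24, pE33_27, pE33_25, pE33_28, pE33_30, pE33_14, pE33_23, pE33_20, pE33_22, pE33_19, pE33_17, pE24_33, pE24_24, pE24_27, pE24_25, pE24_28, pE24_30, pE24_14, pE24_23, pE24_20, pE24_22, pE24_19, pE24_17]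
        apply list2_ext
        · simp only [zpow_neg, zpow_ofNat, zpow_one, zpow_zero]
          ring
        · simp only [zpow_neg, zpow_ofNat, zpow_one, zpow_zero]
          ring
      rw [e1] at h
      exact h
  have hPm : ∀ t : K, abv hF G (Pwm t (t ^ e)) = 1 := by
    apply family_add (fun t => abv hF G (Pwm t (t ^ e))) ?_ ((c₁⁻¹) ^ 2) ?_ ?_
    · intro u u'
      show abv hF G (Pwm (u + u') ((u + u') ^ e)) =
        abv hF G (Pwm u (u ^ e)) * abv hF G (Pwm u' (u' ^ e))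
      rw [hfrob, ← abv_append hF G (mPm _ _ rfl) (mPm _ _ rfl)]
      exact (abv_congr hF G (pair_add chevF4 hadd 14 23 hr14 hr23 (c23_14 h2) _ _ _ _)).symm
    · intro h
      apply hc₁'
      have e1 : c₁ ^ 2 * (c₁⁻¹) ^ 2 = 1 := by
        field_simp
      rw [h, mul_one] at e1
      exact e1
    · intro u
      show abv hF G (Pwm ((c₁⁻¹) ^ 2 * u) (((c₁⁻¹) ^ 2 * u) ^ e)) = abv hF G (Pwm u (u ^ e))
      have h := hact c₁ hc₁ (Pwm u (u ^ e)) (lt_Pwm _ _) (mPm _ _ rfl)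
      have hce : c₁ ^ e ≠ 0 := pow_ne_zero _ hc₁
      have e1 : ((Pwm u (u ^ e)).map fun p => (p.1, (c₁ ^ e) ^ pairE FTabF4.fd 33 p.1 *
          (c₁ ^ pairE FTabF4.fd 24 p.1 * p.2))) =
          Pwm ((c₁⁻¹) ^ 2 * u) (((c₁⁻¹) ^ 2 * u) ^ e) := by
        simp only [Pwm, List.map_cons, List.map_nil, pE33_33, pE33_24, pE33_27, pE33_25, pE33_28, pE33_30, pE33_14, pE33_23, pE33_20, pE33_22, pE33_19, pE33_17, pE24_33, pE24_24, pE24_27, pE24_25, pE24_28, pE24_30, pE24_14, pE24_23, pE24_20, pE24_22, pE24_19, pE24_17]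
        apply list2_ext
        · simp only [zpow_neg, zpow_ofNat, zpow_one, zpow_zero, mul_pow, inv_pow]
          field_simp
          try ring
        · simp only [zpow_neg, zpow_ofNat, zpow_one, zpow_zero, mul_pow, inv_pow]
          field_simp
      rw [e1] at h
      exact h
  -- the families `Zw`, `Zwm`
  have hZ : ∀ u : K, abv hF G (Zw u (u ^ (2 * e))) = 1 := by
    have hκ0 : c₂ * c₂ ^ e ≠ 0 := mul_ne_zero hc₂ (pow_ne_zero _ hc₂)
    apply family_add (fun u => abv hF G (Zw u (u ^ (2 * e)))) ?_ (c₂ * c₂ ^ e)⁻¹ ?_ ?_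
    · intro u u'
      show abv hF G (Zw (u + u') ((u + u') ^ (2 * e))) =
        abv hF G (Zw u (u ^ (2 * e))) * abv hF G (Zw u' (u' ^ (2 * e)))
      rw [hfrob', ← abv_append hF G (mZ _ _ rfl) (mZ _ _ rfl)]
      exact (abv_congr hF G (pair_add chevF4 hadd 28 30 hr28 hr30 (c30_28 h2) _ _ _ _)).symm
    · intro h
      apply hc₂''
      rw [inv_eq_one] at h
      exact h
    · intro u
      show abv hF G (Zw ((c₂ * c₂ ^ e)⁻¹ * u) (((c₂ * c₂ ^ e)⁻¹ * u) ^ (2 * e))) =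
        abv hF G (Zw u (u ^ (2 * e)))
      have h := hact c₂ hc₂ (Zw u (u ^ (2 * e))) (lt_Zw _ _) (mZ _ _ rfl)
      have hce : c₂ ^ e ≠ 0 := pow_ne_zero _ hc₂
      have e0 : ((c₂ * c₂ ^ e)⁻¹ * u) ^ (2 * e) = ((c₂ ^ e) ^ 2 * c₂)⁻¹ * u ^ (2 * e) := by
        have e1 : (c₂ * c₂ ^ e) ^ (2 * e) = (c₂ ^ e) ^ 2 * ((c₂ ^ e) ^ e) ^ 2 := by ring
        rw [mul_pow, inv_pow, e1, hsq]
      have e1 : ((Zw u (u ^ (2 * e))).map fun p => (p.1, (c₂ ^ e) ^ pairE FTabF4.fd 33 p.1 *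
          (c₂ ^ pairE FTabF4.fd 24 p.1 * p.2))) =
          Zw ((c₂ * c₂ ^ e)⁻¹ * u) (((c₂ * c₂ ^ e)⁻¹ * u) ^ (2 * e)) := by
        rw [e0]
        simp only [Zw, List.map_cons, List.map_nil, pE33_33, pE33_24, pE33_27, pE33_25, pE33_28, pE33_30, pE33_14, pE33_23, pE33_20, pE33_22, pE33_19, pE33_17, pE24_33, pE24_24, pE24_27, pE24_25, pE24_28, pE24_30, pE24_14, pE24_23, pE24_20, pE24_22, pE24_19, pE24_17]
        apply list2_ext
        · simp only [zpow_neg, zpow_ofNat, zpow_one, zpow_zero]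
          field_simp
        · simp only [zpow_neg, zpow_ofNat, zpow_one, zpow_zero]
          field_simp
      rw [e1] at h
      exact h
  have hZm : ∀ u : K, abv hF G (Zwm u (u ^ (2 * e))) = 1 := by
    apply family_add (fun u => abv hF G (Zwm u (u ^ (2 * e)))) ?_ (c₂ * c₂ ^ e) hc₂'' ?_
    · intro u u'
      show abv hF G (Zwm (u + u') ((u + u') ^ (2 * e))) =
        abv hF G (Zwm u (u ^ (2 * e))) * abv hF G (Zwm u' (u' ^ (2 * e)))
      rw [hfrob', ← abv_append hF G (mZm _ _ rfl) (mZm _ _ rfl)]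
      exact (abv_congr hF G (pair_add chevF4 hadd 19 17 hr19 hr17 (c17_19 h2) _ _ _ _)).symm
    · intro u
      show abv hF G (Zwm (c₂ * c₂ ^ e * u) ((c₂ * c₂ ^ e * u) ^ (2 * e))) =
        abv hF G (Zwm u (u ^ (2 * e)))
      have h := hact c₂ hc₂ (Zwm u (u ^ (2 * e))) (lt_Zwm _ _) (mZm _ _ rfl)
      have e0 : (c₂ * c₂ ^ e * u) ^ (2 * e) = (c₂ ^ e) ^ 2 * c₂ * u ^ (2 * e) := by
        have e1 : (c₂ * c₂ ^ e * u) ^ (2 * e) =
            (c₂ ^ e) ^ 2 * ((c₂ ^ e) ^ e) ^ 2 * u ^ (2 * e) := by ring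
        rw [e1, hsq]
      have e1 : ((Zwm u (u ^ (2 * e))).map fun p => (p.1, (c₂ ^ e) ^ pairE FTabF4.fd 33 p.1 *
          (c₂ ^ pairE FTabF4.fd 24 p.1 * p.2))) =
          Zwm (c₂ * c₂ ^ e * u) ((c₂ * c₂ ^ e * u) ^ (2 * e)) := by
        rw [e0]
        simp only [Zwm, List.map_cons, List.map_nil, pE33_33, pE33_24, pE33_27, pE33_25, pE33_28, pE33_30, pE33_14, pE33_23, pE33_20, pE33_22, pE33_19, pE33_17, pE24_33, pE24_24, pE24_27, pE24_25, pE24_28, pE24_30, pE24_14, pE24_23, pE24_20, pE24_22, pE24_19, pE24_17]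
        apply list2_ext
        · simp only [zpow_neg, zpow_ofNat, zpow_one, zpow_zero]
          ring
        · simp only [zpow_neg, zpow_ofNat, zpow_one, zpow_zero]
          ring
      rw [e1] at h
      exact h
  have hZ' : ∀ u W : K, W = u ^ (2 * e) → abv hF G (Zw u W) = 1 := by
    intro u W hW
    subst hW
    exact hZ u
  have hZm' : ∀ u W : K, W = u ^ (2 * e) → abv hF G (Zwm u W) = 1 := by
    intro u W hW
    subst hW
    exact hZm u
  -- the families `Aw`, `Awm`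
  have hA : ∀ t : K, abv hF G (Aw t (t ^ e)) = 1 := by
    apply family_all (fun t => abv hF G (Aw t (t ^ e))) ?_ ?_ c₁ hc₁ hc₁1
    · intro κ t hκ
      show abv hF G (Aw (κ * t) ((κ * t) ^ e)) = abv hF G (Aw t (t ^ e))
      have hκ' : κ⁻¹ ≠ 0 := inv_ne_zero hκ
      have hκe : κ ^ e ≠ 0 := pow_ne_zero _ hκ
      have h := hact κ⁻¹ hκ' (Aw t (t ^ e)) (lt_Aw _ _) (mA _ _ rfl)
      have e1 : ((Aw t (t ^ e)).map fun p => (p.1, (κ⁻¹ ^ e) ^ pairE FTabF4.fd 33 p.1 *
          (κ⁻¹ ^ pairE FTabF4.fd 24 p.1 * p.2))) = Aw (κ * t) ((κ * t) ^ e) := by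
        simp only [Aw, List.map_cons, List.map_nil, pE33_33, pE33_24, pE33_27, pE33_25, pE33_28, pE33_30, pE33_14, pE33_23, pE33_20, pE33_22, pE33_19, pE33_17, pE24_33, pE24_24, pE24_27, pE24_25, pE24_28, pE24_30, pE24_14, pE24_23, pE24_20, pE24_22, pE24_19, pE24_17]
        apply list3_ext
        · simp only [zpow_neg, zpow_ofNat, zpow_one, zpow_zero, mul_pow, inv_pow, inv_inv]
          try ring
        · simp only [zpow_neg, zpow_ofNat, zpow_one, zpow_zero, mul_pow, inv_pow, inv_inv]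
          try ring
        · simp only [zpow_neg, zpow_ofNat, zpow_one, zpow_zero, mul_pow, inv_pow, inv_inv]
          try ring
      rw [e1] at h
      exact h
    · intro s
      show abv hF G (Aw 1 (1 ^ e)) * abv hF G (Aw s (s ^ e)) =
        abv hF G (Aw (1 + s) ((1 + s) ^ e))
      rw [one_pow, hfrob, one_pow]
      have hR := RU h2 s (s ^ e)
      have m1 : wU hF (Aw (1 : K) 1) ∈ G := mA 1 1 (one_pow e).symm
      have m2 := mA s (s ^ e) rfl
      have m3 : wU hF (Aw (1 + s) (1 + s ^ e)) ∈ G := mA _ _ (by rw [hfrob, one_pow])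
      have x4 : (s ^ e) ^ 2 = s ^ (2 * e) := (pow_mul' s 2 e).symm
      have m4 : wU hF (Zw s ((s ^ e) ^ 2)) ∈ G := mZ _ _ x4
      have h1 := abv_congr hF G hR
      rw [abv_append hF G m1 m2, abv_append hF G m3 m4, hZ' _ _ x4, mul_one] at h1
      exact h1
  have hAm : ∀ t : K, abv hF G (Awm t (t ^ e)) = 1 := by
    apply family_all (fun t => abv hF G (Awm t (t ^ e))) ?_ ?_ c₁ hc₁ hc₁1
    · intro κ t hκ
      show abv hF G (Awm (κ * t) ((κ * t) ^ e)) = abv hF G (Awm t (t ^ e))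
      have h := hact κ hκ (Awm t (t ^ e)) (lt_Awm _ _) (mAm _ _ rfl)
      have e1 : ((Awm t (t ^ e)).map fun p => (p.1, (κ ^ e) ^ pairE FTabF4.fd 33 p.1 *
          (κ ^ pairE FTabF4.fd 24 p.1 * p.2))) = Awm (κ * t) ((κ * t) ^ e) := by
        simp only [Awm, List.map_cons, List.map_nil, pE33_33, pE33_24, pE33_27, pE33_25, pE33_28, pE33_30, pE33_14, pE33_23, pE33_20, pE33_22, pE33_19, pE33_17, pE24_33, pE24_24, pE24_27, pE24_25, pE24_28, pE24_30, pE24_14, pE24_23, pE24_20, pE24_22, pE24_19, pE24_17]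
        apply list3_ext
        · simp only [zpow_neg, zpow_ofNat, zpow_one, zpow_zero, mul_pow]
          try ring
        · simp only [zpow_neg, zpow_ofNat, zpow_one, zpow_zero, mul_pow]
          try ring
        · simp only [zpow_neg, zpow_ofNat, zpow_one, zpow_zero, mul_pow]
          try ring
      rw [e1] at h
      exact h
    · intro s
      show abv hF G (Awm 1 (1 ^ e)) * abv hF G (Awm s (s ^ e)) =
        abv hF G (Awm (1 + s) ((1 + s) ^ e))
      rw [one_pow, hfrob, one_pow]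
      have hR := RV h2 s (s ^ e)
      have m1 : wU hF (Awm (1 : K) 1) ∈ G := mAm 1 1 (one_pow e).symm
      have m2 := mAm s (s ^ e) rfl
      have m3 : wU hF (Awm (1 + s) (1 + s ^ e)) ∈ G := mAm _ _ (by rw [hfrob, one_pow])
      have x4 : (s ^ e) ^ 2 = s ^ (2 * e) := (pow_mul' s 2 e).symm
      have m4 : wU hF (Zwm s ((s ^ e) ^ 2)) ∈ G := mZm _ _ x4
      have h1 := abv_congr hF G hR
      rw [abv_append hF G m1 m2, abv_append hF G m3 m4, hZm' _ _ x4, mul_one] at h1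
      exact h1
  apply commutator_eq_top_of_abv hF S
  intro wd hwd
  rcases hwd with ⟨t, rfl | rfl⟩ | ⟨t, u, rfl | rfl⟩
  · exact hP t
  · exact hPm t
  · rw [habU, hA, hZ, mul_one]
  · rw [habV, hAm, hZm, mul_one]

end Cfsg.Agent.S1112
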