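import Cfsg.Statements.S1113
import Cfsg.Agent.Lib.Helper19.TwGlue
import Cfsg.Agent.Lib.Helper18.CAll
import Cfsg.Agent.Lib.Helper18.LAll
import Cfsg.Agent.Lib.Helper18.HOrderTab
import Cfsg.Agent.Lib.Helper36.ChevTabF4

set_option autoImplicit false
set_option linter.unusedSimpArgs false
open Cfsg

namespace Cfsg.Agent.S1113

open Cfsg.Lie Cfsg.Agent.Lib.Helper18 Cfsg.Agent.Lib.Helper18.BNPairC
  Cfsg.Agent.Lib.Helper18.Long Cfsg.Agent.Lib.Helper18.HOrder Cfsg.Agent.Lib.Helper18.Loop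
  Cfsg.Agent.Lib.Helper36 Cfsg.Agent.Lib.Helper36.ChevEngine Cfsg.Agent.Lib.Helper36.ChevSound
  Cfsg.Agent.Lib.Helper19.TwCore Cfsg.Agent.Lib.Helper19.TwEngine Cfsg.Agent.Lib.Helper19.TwGlue

/-- the blocks of the word of the longest element: `w_{p₁} w_{p₄}` and `(w_{p₂} w_{p₃})²`, four
times -/
def blocks : List (List ℕ) :=
  [[0, 3], [1, 2, 1, 2], [0, 3], [1, 2, 1, 2], [0, 3], [1, 2, 1, 2], [0, 3], [1, 2, 1, 2]]

def wd : List ℕ := [0, 3, 1, 2, 1, 2, 0, 3, 1, 2, 1, 2, 0, 3, 1, 2, 1, 2, 0, 3, 1, 2, 1, 2]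

def wr : List ℕ := [2, 1, 2, 1, 3, 0, 2, 1, 2, 1, 3, 0, 2, 1, 2, 1, 3, 0, 2, 1, 2, 1, 3, 0]

set_option maxRecDepth 100000 in
theorem l_ok : allB 48 (chkL FTabF4.fd WTabF4.X OTabF4.m wd wr) = true := by
  decide +kernel

theorem lfacts : LFacts FTabF4.fd WTabF4.X OTabF4.m wd :=
  LFacts.of_checks (wd' := wr) (by decide) (by decide) (fun r (hr : r < 48) => allB_imp l_ok r hr)

/-- `x_{p₁}(1) x_{p₄}(1)` -/
def zP : List (ℕ × ℤ) := [(33, 1), (24, 1)]

/-- `x_{-p₁}(1) x_{-p₄}(1)` -/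
def zPm : List (ℕ × ℤ) := [(14, 1), (23, 1)]

/-- `x_{a+b}(1) x_{2a+b}(1)` -/
def zU : List (ℕ × ℤ) := [(27, 0), (25, 0), (28, 1), (30, 1)]

/-- `x_{-a-b}(1) x_{-2a-b}(1)` -/
def zV : List (ℕ × ℤ) := [(20, 0), (22, 0), (19, 1), (17, 1)]

/-- `x_a(1) x_b(1) x_{a+b}(1)` -/
def zB : List (ℕ × ℤ) := [(27, 1), (25, 1), (28, 1), (30, 0)]

/-- the test word of the fundamental root with index `j` -/
def zOf (j : ℕ) : List (ℕ × ℤ) := if j = 1 ∨ j = 2 then zB else zP

set_option maxRecDepth 100000 in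
theorem chk_pair : checkRelP 2 ChevTabF4.tab chevF4.rank chevF4.nroots (symN chevF4 [0, 3])
    (symC [zP, zPm, zP].flatten) = true := by decide +kernel

set_option maxRecDepth 100000 in
theorem chk_b2 : checkRelP 2 ChevTabF4.tab chevF4.rank chevF4.nroots (symN chevF4 [1, 2, 1, 2])
    (symC [zU, zV, zU, zV, zU].flatten) = true := by decide +kernel

set_option maxRecDepth 100000 in
theorem chk_ent : ∀ j < 4, entryOK 0 ChevTabF4.tab chevF4.rank chevF4.nroots (symC (zOf j)) j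
    (chevF4.rank + chevF4.neg (chevF4.simple j)) (cst 1) = true := by decide +kernel

theorem pos_ok : ∀ j < 4, ∀ q ∈ zOf j, chevF4.IsPosRoot q.1 := by decide

/-- The normal core of `B¹ = G¹ ∩ B` in ²F₄(2^(2m+1)) is trivial. -/
theorem result {K : Type*} [Field K] [Fintype K] {m : ℕ} (hK : Fintype.card K = 2 ^ (2 * m + 1)) :
    ((Cfsg.Lie.chevF4.borelSubgroup K ⊓ Cfsg.Lie.twistedF4 K (2 ^ m)).subgroupOf (Cfsg.Lie.twistedF4 K (2 ^ m))).normalCore = ⊥ := by
  have h2 : ((2 : ℕ) : K) = 0 := natCast_eq_zero_of_card Nat.prime_two hK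
  have he : (2 ^ m : ℕ) ≠ 0 := pow_ne_zero m (by norm_num)
  have hd := HOrderTab.hokF4
  rw [← FTabF4.fd_eq] at hd
  have hzP : castW K zP ∈ f4Words K (2 ^ m) :=
    Or.inl ⟨1, Or.inl (by simp [castW, zP, f4PairWord, f4p1, f4p4])⟩
  have hzPm : castW K zPm ∈ f4Words K (2 ^ m) :=
    Or.inl ⟨1, Or.inr (by simp [castW, zPm, f4PairWord, f4m1, f4m4])⟩
  have hzU : castW K zU ∈ f4Words K (2 ^ m) :=
    Or.inr ⟨0, 1, Or.inl (by simp [castW, zU, b2ClassWord, f4a, f4b, f4ab, f4aab, he])⟩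
  have hzV : castW K zV ∈ f4Words K (2 ^ m) :=
    Or.inr ⟨0, 1, Or.inr (by simp [castW, zV, b2ClassWord, f4ma, f4mb, f4mab, f4maab, he])⟩
  have hzB : castW K zB ∈ f4Words K (2 ^ m) :=
    Or.inr ⟨1, 0, Or.inl (by simp [castW, zB, b2ClassWord, f4a, f4b, f4ab, f4aab, he])⟩
  show ((chevF4.borelSubgroup K ⊓ chevF4.genSubgroup K (f4Words K (2 ^ m))).subgroupOf
    (chevF4.genSubgroup K (f4Words K (2 ^ m)))).normalCore = ⊥
  apply tw_core_of_checks CAll.cfF4 hd blocks lfacts ChevTabF4.tab ChevTabF4.tok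
  · intro b hb
    have hb' : b = [0, 3] ∨ b = [1, 2, 1, 2] := by
      simp only [blocks, List.mem_cons, List.not_mem_nil, or_false] at hb
      tauto
    rcases hb' with rfl | rfl
    · apply nw_mem_gen CAll.cfF4.af 2 h2 ChevTabF4.tab ChevTabF4.tok _ _ (by decide)
        [zP, zPm, zP] ?_ chk_pair
      intro z hz
      simp only [List.mem_cons, List.not_mem_nil, or_false] at hz
      rcases hz with rfl | rfl | rfl
      · exact hzP
      · exact hzPm
      · exact hzP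
    · apply nw_mem_gen CAll.cfF4.af 2 h2 ChevTabF4.tab ChevTabF4.tok _ _ (by decide)
        [zU, zV, zU, zV, zU] ?_ chk_b2
      intro z hz
      simp only [List.mem_cons, List.not_mem_nil, or_false] at hz
      rcases hz with rfl | rfl | rfl | rfl | rfl
      · exact hzU
      · exact hzV
      · exact hzU
      · exact hzV
      · exact hzU
  · intro j
    have hj : j.val < 4 := j.isLt
    refine ⟨zOf j.val, ?_, pos_ok j.val hj, chk_ent j.val hj⟩
    have h4 : zOf j.val = zB ∨ zOf j.val = zP := by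
      unfold zOf
      split_ifs
      · exact Or.inl rfl
      · exact Or.inr rfl
    rcases h4 with h | h
    · rw [h]; exact hzB
    · rw [h]; exact hzP

end Cfsg.Agent.S1113
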