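import Cfsg.Statements.S1110
import Cfsg.Agent.Lib.Helper19.TwSigF4
import Cfsg.Agent.Lib.Helper18.Tw4
import Cfsg.Agent.Lib.Helper18.HOrderTab
import Cfsg.Agent.S1113
import Cfsg.Agent.S1112
import Cfsg.Agent.S1024

set_option autoImplicit false
open Cfsg

namespace Cfsg.Agent.S1110


open Cfsg.Lie Cfsg.Agent.Lib.Helper18 Cfsg.Agent.Lib.Helper18.Fast Cfsg.Agent.Lib.Helper18.AllRoots
  Cfsg.Agent.Lib.Helper18.Units Cfsg.Agent.Lib.Helper18.Sub Cfsg.Agent.Lib.Helper19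

section generic

variable {A : FData} {D : ChevalleyDatum} {K : Type*} [Field K]

/-- the characters of a torus element fixed by a twisting endomorphism -/
theorem sig_chi (hF : AFacts A D) {bar lam : ℕ → ℕ} {φ : K →+* K}
    {σ : ↥(D.group K) →* ↥(D.group K)} (hσ : TwSig.IsSig D bar lam φ σ)
    (hinj : ∀ r < D.nroots, ∀ a b : K, D.x K r a = D.x K r b → a = b)
    (cu : Fin A.rank → Kˣ) (hfix : HOrder.torHom D A K cu ∈ TwSig.fixG σ)
    {r : ℕ} (hr : r < D.nroots) (hbr : bar r < D.nroots) :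
    Torus.chi A (HOrder.extP A.rank cu) (bar r) =
      φ (Torus.chi A (HOrder.extP A.rank cu) r) ^ lam r := by
  obtain ⟨hg, hσg⟩ := (TwSig.mem_fixG σ _).mp hfix
  have hc0 : ∀ i, HOrder.extP A.rank cu i ≠ 0 := HOrder.extP_ne_zero cu
  have e : (⟨HOrder.torHom D A K cu, hg⟩ : ↥(D.group K)) *
      ⟨xU hF K r hr 1, xU_mem_group hF r hr 1⟩ =
      ⟨xU hF K r hr (Torus.chi A (HOrder.extP A.rank cu) r), xU_mem_group hF r hr _⟩ *
        ⟨HOrder.torHom D A K cu, hg⟩ := by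
    apply Subtype.ext
    apply Units.ext
    show Torus.tor D A (HOrder.extP A.rank cu) * D.x K r 1 =
      D.x K r (Torus.chi A (HOrder.extP A.rank cu) r) * Torus.tor D A (HOrder.extP A.rank cu)
    rw [Torus.tor_mul_x hF hr hc0, mul_one]
  have e2 := congrArg (fun y : ↥(D.group K) => ((σ y : ↥(D.group K)) : GL D.Idx K).1) e
  simp only [map_mul] at e2
  have h0 := hσ ⟨xU hF K r hr 1, xU_mem_group hF r hr 1⟩ r 1 hr rfl
  have h1 := hσ ⟨xU hF K r hr (Torus.chi A (HOrder.extP A.rank cu) r), xU_mem_group hF r hr _⟩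
    r _ hr rfl
  have e3 : Torus.tor D A (HOrder.extP A.rank cu) * D.x K (bar r) (φ 1 ^ lam r) =
      D.x K (bar r) (φ (Torus.chi A (HOrder.extP A.rank cu) r) ^ lam r) *
        Torus.tor D A (HOrder.extP A.rank cu) := by
    rw [← h0, ← h1]
    have := e2
    simp only [Subgroup.coe_mul, Units.val_mul, hσg] at this
    exact this
  rw [Torus.tor_mul_x hF hbr hc0, map_one, one_pow, mul_one] at e3
  have e4 := congrArg (fun M => M * Torus.tor D A (fun i => (HOrder.extP A.rank cu i)⁻¹)) e3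
  simp only [mul_assoc, Torus.tor_mul_tor_inv hc0, mul_one] at e4
  exact hinj _ hbr _ _ e4

/-- torus elements with the same characters at the fundamental roots coincide -/
theorem tor_eq_of_chi (hF : AFacts A D) {P P' Q Q' : ℕ → ℕ → ℤ} {d : ℕ → ℕ} {m : ℕ → ℕ → ℤ}
    (hd : HOrder.HOK A P P' Q Q' d m) (cu cu' : Fin A.rank → Kˣ)
    (h : ∀ j < A.rank, Torus.chi A (HOrder.extP A.rank cu) (A.simple j) =
      Torus.chi A (HOrder.extP A.rank cu') (A.simple j)) :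
    HOrder.torHom D A K cu = HOrder.torHom D A K cu' := by
  have h1 : cu * cu'⁻¹ ∈ (HOrder.torHom D A K).ker := by
    rw [HOrder.torHom_ker hF hd]
    funext j
    have hj := hF.sfacts.simple_lt j.val j.isLt
    have e3 := h j.val j.isLt
    rw [HOrder.chi_extP cu hj, HOrder.chi_extP cu' hj] at e3
    have e4 := Units.ext e3
    unfold HOrder.psi HOrder.cartanZ
    simp only [Pi.mul_apply, Pi.inv_apply, mul_zpow, inv_zpow, Finset.prod_mul_distrib,
      Finset.prod_inv_distrib, Pi.one_apply]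
    rw [e4]
    exact mul_inv_cancel _
  have h2 := (MonoidHom.mem_ker).mp h1
  rw [map_mul, map_inv, mul_inv_eq_one] at h2
  exact h2

/-- the action on a root subgroup of a product `T₁ · n T₂ n⁻¹` -/
theorem conj_rel {X : Weyl.WD} {m : ℕ → ℕ → ℤ} {w : ℕ → ℤ} (hC : BNPairC.CFacts A D X m w)
    (T1 T2 : GL D.Idx K) (wd : List (ℕ × Bool)) (hwd : ∀ p ∈ wd, p.1 < A.rank) {b : ℕ}
    (hb : b < D.nroots) (a1 a2 : K)
    (h1 : ∀ t : K, T1.1 * D.x K b t = D.x K b (a1 * t) * T1.1)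
    (h2 : ∀ t : K, T2.1 * D.x K (Long.wperm X (wd.map Prod.fst).reverse b) t =
      D.x K (Long.wperm X (wd.map Prod.fst).reverse b) (a2 * t) * T2.1) (t : K) :
    T1 * (Long.nw hC.af K wd * T2 * (Long.nw hC.af K wd)⁻¹) * WGroup.xg hC.af K b t =
      WGroup.xg hC.af K b (a1 * a2 * t) * (T1 * (Long.nw hC.af K wd * T2 * (Long.nw hC.af K wd)⁻¹)) := by
  have hF := hC.af
  have hbn : b < A.n := WGroup.lt_n hF hb
  have hb' : Long.wperm X (wd.map Prod.fst).reverse b < D.nroots := by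
    rw [hF.agrees.n_eq]
    apply Long.wperm_lt hC.wf _ hbn
    intro i hi
    obtain ⟨q, hq, rfl⟩ := List.mem_map.mp (List.mem_reverse.mp hi)
    exact hwd q hq
  obtain ⟨ε, hε, h⟩ := Cells.nw_inv_conj (F := K) hC hwd hbn
  set n := Long.nw hC.af K wd with hn
  set b' := Long.wperm X (wd.map Prod.fst).reverse b with hb'def
  have k1 : ∀ u : K, n⁻¹ * WGroup.xg hF K b u = WGroup.xg hF K b' (ε * u) * n⁻¹ := by
    intro u
    rw [← h u]
    group
  have k3 : ∀ u : K, n * WGroup.xg hF K b' u = WGroup.xg hF K b (ε⁻¹ * u) * n := by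
    intro u
    have := h (ε⁻¹ * u)
    rw [← mul_assoc, mul_inv_cancel₀ hε, one_mul] at this
    rw [← this]
    group
  have k2 : ∀ u : K, T2 * WGroup.xg hF K b' u = WGroup.xg hF K b' (a2 * u) * T2 := by
    intro u
    apply Units.ext
    rw [Units.val_mul, Units.val_mul, WGroup.coe_xg hF hb', WGroup.coe_xg hF hb']
    exact h2 u
  have k4 : ∀ u : K, T1 * WGroup.xg hF K b u = WGroup.xg hF K b (a1 * u) * T1 := by
    intro u
    apply Units.ext
    rw [Units.val_mul, Units.val_mul, WGroup.coe_xg hF hb, WGroup.coe_xg hF hb]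
    exact h1 u
  have e : a1 * (ε⁻¹ * (a2 * (ε * t))) = a1 * a2 * t := by
    field_simp
  calc T1 * (n * T2 * n⁻¹) * WGroup.xg hF K b t
      = T1 * (n * (T2 * (n⁻¹ * WGroup.xg hF K b t))) := by simp only [mul_assoc]
    _ = T1 * (n * (T2 * WGroup.xg hF K b' (ε * t) * n⁻¹)) := by rw [k1]; simp only [mul_assoc]
    _ = T1 * (n * WGroup.xg hF K b' (a2 * (ε * t)) * (T2 * n⁻¹)) := by
        rw [k2]; simp only [mul_assoc]
    _ = T1 * WGroup.xg hF K b (ε⁻¹ * (a2 * (ε * t))) * (n * T2 * n⁻¹) := by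
        rw [k3]; simp only [mul_assoc]
    _ = WGroup.xg hF K b (a1 * a2 * t) * (T1 * (n * T2 * n⁻¹)) := by
        rw [k4, e]; simp only [mul_assoc]

end generic

section f4

variable {K : Type*} [Field K]

theorem x_inj (r : ℕ) (hr : r < chevF4.nroots) (a b : K)
    (h : chevF4.x K r a = chevF4.x K r b) : a = b := by
  have hadd := Cfsg.Agent.S1023.result (F := K) chevF4 (by simp) r hr
  have h1 : chevF4.x K r (a + -b) = 1 := by
    rw [← hadd, h, hadd, add_neg_cancel]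
    exact (Cfsg.Agent.S1024.result (F := K) chevF4 (by simp) r hr 0).mpr rfl
  have h2 := (Cfsg.Agent.S1024.result (F := K) chevF4 (by simp) r hr _).mp h1
  linear_combination h2

variable [Fintype K] {m : ℕ}

theorem card_le (hK : Fintype.card K = 2 ^ (2 * m + 1)) :
    Nat.card ↥(chevF4.diagonalSubgroup K ⊓ twistedF4 K (2 ^ m)) ≤ Nat.card (Kˣ × Kˣ) := by
  have hC := CAll.cfF4
  have hF := hC.af
  obtain ⟨φ, σ, hφ, hσ⟩ := TwSigF4.exists_sig hK
  have hG1 := TwSigF4.f4_fix hK hφ hσ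
  have hd := HOrderTab.hokF4
  rw [← FTabF4.fd_eq] at hd
  have hex : ∀ g : ↥(chevF4.diagonalSubgroup K ⊓ twistedF4 K (2 ^ m)),
      ∃ cu : Fin FTabF4.fd.rank → Kˣ, HOrder.torHom chevF4 FTabF4.fd K cu = g.1 := by
    intro g
    have h1 : g.1 ∈ chevF4.diagonalSubgroup K := g.2.1
    have h2 : g.1 ∈ (HOrder.torHom chevF4 FTabF4.fd K).range := by
      rw [HOrder.torHom_range hF]
      exact h1
    exact MonoidHom.mem_range.mp h2
  choose cu hcu using hex
  have hfix : ∀ g, HOrder.torHom chevF4 FTabF4.fd K (cu g) ∈ TwSig.fixG σ := by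
    intro g
    rw [hcu g]
    exact hG1 g.2.2
  have s0 : FTabF4.fd.simple 0 = 33 := by decide
  have s1 : FTabF4.fd.simple 1 = 27 := by decide
  have s2 : FTabF4.fd.simple 2 = 25 := by decide
  have s3 : FTabF4.fd.simple 3 = 24 := by decide
  have b33 : GraphAutF4.gd.bar 33 = 24 := by decide
  have b27 : GraphAutF4.gd.bar 27 = 25 := by decide
  have h24 : ∀ g, Torus.chi FTabF4.fd (HOrder.extP FTabF4.fd.rank (cu g)) 24 =
      φ (Torus.chi FTabF4.fd (HOrder.extP FTabF4.fd.rank (cu g)) 33) ^ GraphAutF4.gd.lam 33 := by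
    intro g
    have := sig_chi hF hσ x_inj (cu g) (hfix g) (r := 33) (by decide) (by decide)
    rwa [b33] at this
  have h25 : ∀ g, Torus.chi FTabF4.fd (HOrder.extP FTabF4.fd.rank (cu g)) 25 =
      φ (Torus.chi FTabF4.fd (HOrder.extP FTabF4.fd.rank (cu g)) 27) ^ GraphAutF4.gd.lam 27 := by
    intro g
    have := sig_chi hF hσ x_inj (cu g) (hfix g) (r := 27) (by decide) (by decide)
    rwa [b27] at this
  apply Nat.card_le_card_of_injective
    (fun g => (HOrder.psi (HOrder.cartanZ FTabF4.fd) (cu g) ⟨0, by decide⟩,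
      HOrder.psi (HOrder.cartanZ FTabF4.fd) (cu g) ⟨1, by decide⟩))
  intro g g' hgg
  simp only [Prod.mk.injEq] at hgg
  obtain ⟨h0, h1⟩ := hgg
  have c33 : Torus.chi FTabF4.fd (HOrder.extP FTabF4.fd.rank (cu g)) 33 =
      Torus.chi FTabF4.fd (HOrder.extP FTabF4.fd.rank (cu g')) 33 := by
    rw [HOrder.chi_extP (cu g) (by decide : 33 < FTabF4.fd.n),
      HOrder.chi_extP (cu g') (by decide : 33 < FTabF4.fd.n)]
    exact congrArg Units.val h0
  have c27 : Torus.chi FTabF4.fd (HOrder.extP FTabF4.fd.rank (cu g)) 27 =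
      Torus.chi FTabF4.fd (HOrder.extP FTabF4.fd.rank (cu g')) 27 := by
    rw [HOrder.chi_extP (cu g) (by decide : 27 < FTabF4.fd.n),
      HOrder.chi_extP (cu g') (by decide : 27 < FTabF4.fd.n)]
    exact congrArg Units.val h1
  apply Subtype.ext
  rw [← hcu g, ← hcu g']
  apply tor_eq_of_chi hF hd
  intro j hj
  have hj4 : j < 4 := hj
  interval_cases j
  · rw [s0]
    exact c33
  · rw [s1]
    exact c27
  · rw [s2, h25, h25, c27]
  · rw [s3, h24, h24, c33]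

theorem pE33_37 : Grade.pairE FTabF4.fd 33 37 = 0 := by decide
theorem pE24_37 : Grade.pairE FTabF4.fd 24 37 = -1 := by decide
theorem pE33_32 : Grade.pairE FTabF4.fd 33 32 = -2 := by decide
theorem pE24_32 : Grade.pairE FTabF4.fd 24 32 = 0 := by decide
theorem wp25 : Long.wperm WTabF4.X [2, 1, 2, 1] 25 = 22 := by decide
theorem wp33 : Long.wperm WTabF4.X [2, 1, 2, 1] 33 = 37 := by decide
theorem wp24 : Long.wperm WTabF4.X [2, 1, 2, 1] 24 = 32 := by decide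

omit [Fintype K] in
/-- the arithmetic behind the independence of the two families of torus elements -/
theorem arith (e : ℕ) (s s' r r' : K) (hs0 : s ≠ 0) (hs'0 : s' ≠ 0) (hr0 : r ≠ 0) (hr'0 : r' ≠ 0)
    (E1 : s⁻¹ * r = s'⁻¹ * r') (E2 : (s ^ e) ^ 2 * r⁻¹ = (s' ^ e) ^ 2 * r'⁻¹)
    (E3 : s ^ 2 * ((r ^ e) ^ 2)⁻¹ = s' ^ 2 * ((r' ^ e) ^ 2)⁻¹) : s = s' ∧ r = r' := by
  have E1' : r * s' = r' * s := by
    calc r * s' = s * s' * (s⁻¹ * r) := by field_simp
      _ = s * s' * (s'⁻¹ * r') := by rw [E1]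
      _ = r' * s := by field_simp
  have E2' : (s ^ e) ^ 2 * r' = (s' ^ e) ^ 2 * r := by
    calc (s ^ e) ^ 2 * r' = r * r' * ((s ^ e) ^ 2 * r⁻¹) := by field_simp
      _ = r * r' * ((s' ^ e) ^ 2 * r'⁻¹) := by rw [E2]
      _ = (s' ^ e) ^ 2 * r := by field_simp
  have E3' : s ^ 2 * (r' ^ e) ^ 2 = s' ^ 2 * (r ^ e) ^ 2 := by
    calc s ^ 2 * (r' ^ e) ^ 2 = (r ^ e) ^ 2 * (r' ^ e) ^ 2 * (s ^ 2 * ((r ^ e) ^ 2)⁻¹) := by
          field_simp
      _ = (r ^ e) ^ 2 * (r' ^ e) ^ 2 * (s' ^ 2 * ((r' ^ e) ^ 2)⁻¹) := by rw [E3]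
      _ = s' ^ 2 * (r ^ e) ^ 2 := by field_simp
  have ha0 : s / s' ≠ 0 := div_ne_zero hs0 hs'0
  have F1 : r / r' = s / s' := by
    rw [div_eq_div_iff hr'0 hs'0]
    linear_combination E1'
  have F2 : ((s / s') ^ e) ^ 2 = s / s' := by
    have h : ((s / s') ^ e) ^ 2 = r / r' := by
      rw [div_pow, div_pow, div_eq_div_iff (pow_ne_zero _ (pow_ne_zero _ hs'0)) hr'0]
      linear_combination E2'
    rw [h, F1]
  have F3 : (s / s') ^ 2 = s / s' := by
    have h : (s / s') ^ 2 = ((r / r') ^ e) ^ 2 := by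
      rw [div_pow, div_pow, div_pow,
        div_eq_div_iff (pow_ne_zero _ hs'0) (pow_ne_zero _ (pow_ne_zero _ hr'0))]
      linear_combination E3'
    rw [h, F1, F2]
  have ha1 : s / s' = 1 := by
    have h : s / s' * (s / s' - 1) = 0 := by linear_combination F3
    rcases mul_eq_zero.mp h with h | h
    · exact absurd h ha0
    · linear_combination h
  exact ⟨(div_eq_one_iff_eq hs'0).mp ha1, (div_eq_one_iff_eq hr'0).mp (F1.trans ha1)⟩

theorem le_card (hK : Fintype.card K = 2 ^ (2 * m + 1)) :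
    Nat.card (Kˣ × Kˣ) ≤ Nat.card ↥(chevF4.diagonalSubgroup K ⊓ twistedF4 K (2 ^ m)) := by
  have hC := CAll.cfF4
  have hF := hC.af
  have h2 : ((2 : ℕ) : K) = 0 := TwCore.natCast_eq_zero_of_card Nat.prime_two hK
  have h2' : (2 : K) = 0 := by exact_mod_cast h2
  have hneg : ∀ x : K, -x = x := by
    intro x
    linear_combination (-x) * h2'
  have he' : (2 ^ m : ℕ) ≠ 0 := pow_ne_zero m (by norm_num)
  have hzU : TwGlue.castW K Cfsg.Agent.S1113.zU ∈ f4Words K (2 ^ m) :=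
    Or.inr ⟨0, 1, Or.inl (by simp [TwGlue.castW, Cfsg.Agent.S1113.zU,
      b2ClassWord, f4a, f4b, f4ab, f4aab])⟩
  have hzV : TwGlue.castW K Cfsg.Agent.S1113.zV ∈ f4Words K (2 ^ m) :=
    Or.inr ⟨0, 1, Or.inr (by simp [TwGlue.castW, Cfsg.Agent.S1113.zV,
      b2ClassWord, f4ma, f4mb, f4mab, f4maab])⟩
  have hmemB : Long.nw hC.af K (Long.plain [1, 2, 1, 2]) ∈ twistedF4 K (2 ^ m) := by
    apply TwGlue.nw_mem_gen hC.af 2 h2
      Cfsg.Agent.Lib.Helper36.ChevTabF4.tab Cfsg.Agent.Lib.Helper36.ChevTabF4.tok _ _ (by decide)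
      [Cfsg.Agent.S1113.zU, Cfsg.Agent.S1113.zV, Cfsg.Agent.S1113.zU, Cfsg.Agent.S1113.zV,
        Cfsg.Agent.S1113.zU] ?_ Cfsg.Agent.S1113.chk_b2
    intro z hz
    simp only [List.mem_cons, List.not_mem_nil, or_false] at hz
    rcases hz with rfl | rfl | rfl | rfl | rfl
    · exact hzU
    · exact hzV
    · exact hzU
    · exact hzV
    · exact hzU
  obtain ⟨e, he⟩ : ∃ e : ℕ, e = 2 ^ m := ⟨_, rfl⟩
  rw [← he] at hmemB ⊢
  have hr33 : (33 : ℕ) < chevF4.nroots := by decide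
  have hr24 : (24 : ℕ) < chevF4.nroots := by decide
  have hmemB' : Long.nw hC.af K (Long.plain [1, 2, 1, 2]) ∈
      chevF4.genSubgroup K (f4Words K e) := hmemB
  show Nat.card (Kˣ × Kˣ) ≤
    Nat.card ↥(chevF4.diagonalSubgroup K ⊓ chevF4.genSubgroup K (f4Words K e))
  set S := f4Words K e with hS
  set G := chevF4.genSubgroup K S with hG
  have mP : ∀ t T : K, T = t ^ e → TwPerf.wU hF (Cfsg.Agent.S1112.Pw t T) ∈ G := by
    intro t T hT
    subst hT
    exact TwPerf.wU_mem_gen hF S (Or.inl ⟨t, Or.inl rfl⟩)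
  have mPm : ∀ t T : K, T = t ^ e → TwPerf.wU hF (Cfsg.Agent.S1112.Pwm t T) ∈ G := by
    intro t T hT
    subst hT
    exact TwPerf.wU_mem_gen hF S (Or.inl ⟨t, Or.inr rfl⟩)
  have hmat : ∀ C c : K, chevF4.wordMat K (TwAb.pairN 33 24 14 23 C c ++
      TwAb.pairN 33 24 14 23 (-1) (-1)) = chevF4.hMat K 33 C * chevF4.hMat K 24 c :=
    TwAb.pair_torus chevF4 33 24 14 23 rfl rfl (Cfsg.Agent.S1112.c24_33 h2)
      (Cfsg.Agent.S1112.c24_14 h2) (Cfsg.Agent.S1112.c23_33 h2) (Cfsg.Agent.S1112.c23_14 h2)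
  have hmem : ∀ c : K, c ≠ 0 →
      TwPerf.wU hF (TwAb.pairN 33 24 14 23 (c ^ e) c ++ TwAb.pairN 33 24 14 23 (-1) (-1)) ∈ G := by
    intro c hc
    have e1 : TwAb.pairN 33 24 14 23 (c ^ e) c =
        Cfsg.Agent.S1112.Pw c (c ^ e) ++ Cfsg.Agent.S1112.Pwm (-c⁻¹) (-(c ^ e)⁻¹) ++
          Cfsg.Agent.S1112.Pw c (c ^ e) := rfl
    have e2 : TwAb.pairN 33 24 14 23 (-1 : K) (-1) =
        Cfsg.Agent.S1112.Pw (-1) (-1) ++ Cfsg.Agent.S1112.Pwm (-(-1 : K)⁻¹) (-(-1 : K)⁻¹) ++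
          Cfsg.Agent.S1112.Pw (-1) (-1) := rfl
    rw [e1, e2, TwPerf.wU_append, TwPerf.wU_append, TwPerf.wU_append, TwPerf.wU_append,
      TwPerf.wU_append]
    have m1 := mP c (c ^ e) rfl
    have m2 := mPm (-c⁻¹) (-(c ^ e)⁻¹) (by rw [hneg, hneg, inv_pow])
    have m3 := mP (-1) (-1) (by rw [hneg, one_pow])
    have m4 := mPm (-(-1 : K)⁻¹) (-(-1 : K)⁻¹) (by rw [hneg 1, inv_one, hneg 1, one_pow])
    exact G.mul_mem (G.mul_mem (G.mul_mem m1 m2) m1) (G.mul_mem (G.mul_mem m3 m4) m3)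
  -- the first family
  obtain ⟨T, hT⟩ : ∃ T : K → GL chevF4.Idx K, ∀ c, T c =
      TwPerf.wU hF (TwAb.pairN 33 24 14 23 (c ^ e) c ++ TwAb.pairN 33 24 14 23 (-1) (-1)) :=
    ⟨_, fun _ => rfl⟩
  have hTmat : ∀ c : K, ((T c : GL chevF4.Idx K) : Matrix chevF4.Idx chevF4.Idx K) =
      chevF4.hMat K 33 (c ^ e) * chevF4.hMat K 24 c := by
    intro c
    rw [hT, TwPerf.coe_wU, hmat]
  have hTG : ∀ c : K, c ≠ 0 → T c ∈ G := by
    intro c hc
    rw [hT]
    exact hmem c hc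
  have hTH : ∀ c : K, c ≠ 0 → T c ∈ chevF4.diagonalSubgroup K := by
    intro c hc
    have e1 : T c = hU hF K 33 hr33 (c ^ e) * hU hF K 24 hr24 c := by
      apply Units.ext
      rw [hTmat, Units.val_mul, coe_hU, coe_hU]
    rw [e1]
    exact Subgroup.mul_mem _ (hU_mem hF 33 hr33 (pow_ne_zero e hc)) (hU_mem hF 24 hr24 hc)
  have hTrel : ∀ c : K, c ≠ 0 → ∀ b < chevF4.nroots, ∀ t : K,
      ((T c : GL chevF4.Idx K) : Matrix chevF4.Idx chevF4.Idx K) * chevF4.x K b t =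
        chevF4.x K b ((c ^ e) ^ Grade.pairE FTabF4.fd 33 b * c ^ Grade.pairE FTabF4.fd 24 b * t) *
          ((T c : GL chevF4.Idx K) : Matrix chevF4.Idx chevF4.Idx K) := by
    intro c hc b hb t
    have h := TwAb.hh_mul_word hF hr33 hr24 (pow_ne_zero e hc) hc [(b, t)] (by
      intro p hp
      rw [List.mem_singleton.mp hp]
      exact hb)
    simp only [List.map_cons, List.map_nil, Sub.wordMat_cons, Sub.wordMat_nil, mul_one] at h
    rw [hTmat, mul_assoc ((c ^ e) ^ Grade.pairE FTabF4.fd 33 b)]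
    exact h
  -- the conjugating element
  have hwd : ∀ p ∈ Long.plain [1, 2, 1, 2], p.1 < FTabF4.fd.rank :=
    Long.plain_lt (by decide)
  have hnN := Cfsg.Agent.Lib.Helper18.Norm.monomial_le_normalizer hF K (Core.nw_mem_monomial (F := K) hC hwd)
  have hnH : ∀ c : K, c ≠ 0 → Long.nw hC.af K (Long.plain [1, 2, 1, 2]) * T c *
      (Long.nw hC.af K (Long.plain [1, 2, 1, 2]))⁻¹ ∈ chevF4.diagonalSubgroup K := by
    intro c hc
    exact (Subgroup.mem_set_normalizer_iff.mp hnN (T c)).mp (hTH c hc)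
  have key : ∀ (s r : Kˣ) (b b' : ℕ), b < chevF4.nroots → b' < chevF4.nroots →
      Long.wperm WTabF4.X [2, 1, 2, 1] b = b' → ∀ t : K,
      T s * (Long.nw hC.af K (Long.plain [1, 2, 1, 2]) * T r *
        (Long.nw hC.af K (Long.plain [1, 2, 1, 2]))⁻¹) * WGroup.xg hC.af K b t =
      WGroup.xg hC.af K b (((s : K) ^ e) ^ Grade.pairE FTabF4.fd 33 b *
        (s : K) ^ Grade.pairE FTabF4.fd 24 b * (((r : K) ^ e) ^ Grade.pairE FTabF4.fd 33 b' *
        (r : K) ^ Grade.pairE FTabF4.fd 24 b') * t) *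
      (T s * (Long.nw hC.af K (Long.plain [1, 2, 1, 2]) * T r *
        (Long.nw hC.af K (Long.plain [1, 2, 1, 2]))⁻¹)) := by
    intro s r b b' hb hb' hbb t
    subst hbb
    exact conj_rel hC (T s) (T r) (Long.plain [1, 2, 1, 2]) hwd hb _ _
      (hTrel s s.ne_zero b hb) (hTrel r r.ne_zero _ hb') t
  have key2 : ∀ (s r s' r' : Kˣ) (b b' : ℕ), b < chevF4.nroots → b' < chevF4.nroots →
      Long.wperm WTabF4.X [2, 1, 2, 1] b = b' →
      T s * (Long.nw hC.af K (Long.plain [1, 2, 1, 2]) * T r *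
        (Long.nw hC.af K (Long.plain [1, 2, 1, 2]))⁻¹) =
      T s' * (Long.nw hC.af K (Long.plain [1, 2, 1, 2]) * T r' *
        (Long.nw hC.af K (Long.plain [1, 2, 1, 2]))⁻¹) →
      ((s : K) ^ e) ^ Grade.pairE FTabF4.fd 33 b *
        (s : K) ^ Grade.pairE FTabF4.fd 24 b * (((r : K) ^ e) ^ Grade.pairE FTabF4.fd 33 b' *
        (r : K) ^ Grade.pairE FTabF4.fd 24 b') =
      ((s' : K) ^ e) ^ Grade.pairE FTabF4.fd 33 b *
        (s' : K) ^ Grade.pairE FTabF4.fd 24 b * (((r' : K) ^ e) ^ Grade.pairE FTabF4.fd 33 b' *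
        (r' : K) ^ Grade.pairE FTabF4.fd 24 b') := by
    intro s r s' r' b b' hb hb' hbb heq
    have k1 := key s r b b' hb hb' hbb 1
    have k2 := key s' r' b b' hb hb' hbb 1
    rw [heq, k2] at k1
    have k3 := mul_right_cancel k1
    have k4 := congrArg (fun g : GL chevF4.Idx K => (g : Matrix chevF4.Idx chevF4.Idx K)) k3
    simp only [WGroup.coe_xg hF hb, mul_one] at k4
    exact (x_inj b hb _ _ k4).symm
  apply Nat.card_le_card_of_injective (fun p : Kˣ × Kˣ =>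
    (⟨T p.1 * (Long.nw hC.af K (Long.plain [1, 2, 1, 2]) * T p.2 *
        (Long.nw hC.af K (Long.plain [1, 2, 1, 2]))⁻¹),
      Subgroup.mem_inf.mpr ⟨Subgroup.mul_mem _ (hTH _ p.1.ne_zero) (hnH _ p.2.ne_zero),
        Subgroup.mul_mem _ (hTG _ p.1.ne_zero) (Subgroup.mul_mem _ (Subgroup.mul_mem _ hmemB'
          (hTG _ p.2.ne_zero)) (Subgroup.inv_mem _ hmemB'))⟩⟩ :
      ↥(chevF4.diagonalSubgroup K ⊓ G)))
  rintro ⟨s, r⟩ ⟨s', r'⟩ hpp
  have heq := congrArg Subtype.val hpp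
  simp only at heq
  have E1 := key2 s r s' r' 25 22 (by decide) (by decide) wp25 heq
  have E2 := key2 s r s' r' 33 37 (by decide) (by decide) wp33 heq
  have E3 := key2 s r s' r' 24 32 (by decide) (by decide) wp24 heq
  rw [Cfsg.Agent.S1112.pE33_25, Cfsg.Agent.S1112.pE24_25, Cfsg.Agent.S1112.pE33_22,
    Cfsg.Agent.S1112.pE24_22] at E1
  rw [Cfsg.Agent.S1112.pE33_33, Cfsg.Agent.S1112.pE24_33, pE33_37, pE24_37] at E2
  rw [Cfsg.Agent.S1112.pE33_24, Cfsg.Agent.S1112.pE24_24, pE33_32, pE24_32] at E3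
  simp only [zpow_neg, zpow_ofNat, pow_zero, pow_one, one_mul, mul_one] at E1 E2 E3
  obtain ⟨h1, h2⟩ := arith e (s : K) s' r r' s.ne_zero s'.ne_zero r.ne_zero r'.ne_zero E1 E2 E3
  exact Prod.ext (Units.ext h1) (Units.ext h2)

end f4

/-- `|H¹| = |G¹ ∩ H|`: `|H¹| = (2 ^ (2 * m + 1) - 1) ^ 2` for ²F₄(2^(2m+1)). -/
theorem result {K : Type*} [Field K] [Fintype K] {m : ℕ} (hK : Fintype.card K = 2 ^ (2 * m + 1)) :
    Nat.card ↥(Cfsg.Lie.chevF4.diagonalSubgroup K ⊓ Cfsg.Lie.twistedF4 K (2 ^ m)) = (2 ^ (2 * m + 1) - 1) ^ 2 := by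
  have hU : Nat.card (Kˣ × Kˣ) = (2 ^ (2 * m + 1) - 1) ^ 2 := by
    classical
    rw [Nat.card_prod, Nat.card_eq_fintype_card, Fintype.card_units, hK]
    ring
  rw [← hU]
  exact le_antisymm (card_le hK) (le_card hK)

end Cfsg.Agent.S1110
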