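import Cfsg.Statements.S2621
import Cfsg.Agent.Lib.Helper44.Gram
import Cfsg.Agent.Lib.Helper44.FinSq

set_option autoImplicit false
open Cfsg

namespace Cfsg.Agent.S2621

open Cfsg.Agent.Lib.Helper44.Gram Cfsg.Agent.Lib.Helper44.FinSq

/-- standard Gram matrix of the elliptic form -/
def stdGram {F : Type*} [Field F] (k : ℕ) (a c : F) :
    Matrix ((Fin k ⊕ Fin k) ⊕ Fin 2) ((Fin k ⊕ Fin k) ⊕ Fin 2) F :=
  Matrix.fromBlocks
    (Matrix.fromBlocks (0 : Matrix (Fin k) (Fin k) F) (1 : Matrix (Fin k) (Fin k) F)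
      (1 : Matrix (Fin k) (Fin k) F) (0 : Matrix (Fin k) (Fin k) F))
    0 0 (!![2, a; a, 2 * c] : Matrix (Fin 2) (Fin 2) F)

theorem polar_minus {F : Type*} [Field F] (k : ℕ) (a c : F) (u v : (Fin k ⊕ Fin k) ⊕ Fin 2 → F) :
    QuadraticMap.polar (Cfsg.quadFormMinus k F a c) u v = Matrix.toBilin' (stdGram k a c) u v := by
  rw [Matrix.toBilin'_apply']
  simp only [stdGram, QuadraticMap.polar, Cfsg.quadFormMinus, Pi.add_apply, dotProduct, Matrix.mulVec,
    Fintype.sum_sum_type, Matrix.fromBlocks_apply₁₁, Matrix.fromBlocks_apply₁₂,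
    Matrix.fromBlocks_apply₂₁, Matrix.fromBlocks_apply₂₂, Matrix.zero_apply, zero_mul,
    Finset.sum_const_zero, zero_add, add_zero, Matrix.one_apply, ite_mul, one_mul,
    Finset.sum_ite_eq, Finset.mem_univ, if_true, Fin.sum_univ_two, Matrix.of_apply,
    Matrix.cons_val', Matrix.cons_val_zero, Matrix.cons_val_one, Matrix.cons_val_fin_one]
  have e : ∀ (f g h : Fin k → F) (x y z w : F),
      (∑ i, f i + x) - (∑ i, g i + y) - (∑ i, h i + z) = ∑ i, (f i - g i - h i) + w ↔ x - y - z = w := by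
    intro f g h x y z w
    rw [Finset.sum_sub_distrib, Finset.sum_sub_distrib]
    constructor
    · intro hh; linear_combination hh
    · intro hh; linear_combination hh
  have e2 : ∑ x, u (Sum.inl (Sum.inl x)) * v (Sum.inl (Sum.inr x)) + ∑ x, u (Sum.inl (Sum.inr x)) * v (Sum.inl (Sum.inl x))
      = ∑ i, ((u (Sum.inl (Sum.inl i)) + v (Sum.inl (Sum.inl i))) * (u (Sum.inl (Sum.inr i)) + v (Sum.inl (Sum.inr i)))
          - u (Sum.inl (Sum.inl i)) * u (Sum.inl (Sum.inr i)) - v (Sum.inl (Sum.inl i)) * v (Sum.inl (Sum.inr i))) := by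
    rw [← Finset.sum_add_distrib]
    apply Finset.sum_congr rfl
    intro i _
    ring
  rw [e2, e]
  ring

theorem det_stdGram {F : Type*} [Field F] (k : ℕ) (a c : F) :
    (stdGram k a c).det = (-1) ^ k * (4 * c - a ^ 2) := by
  unfold stdGram
  rw [Matrix.det_fromBlocks_zero₁₂, det_antidiag, Matrix.det_fin_two_of]
  ring

theorem parity_aux {q m : ℕ} (hq : Odd q) :
    Even (m * (q - 1) / 2) ↔ (Even m ∨ q % 4 ≠ 3) := by
  obtain ⟨k, rfl⟩ := hq
  have h1 : m * (2 * k + 1 - 1) / 2 = m * k := by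
    rw [Nat.add_sub_cancel, ← mul_assoc, mul_comm m 2, mul_assoc, Nat.mul_div_cancel_left _ (by norm_num)]
  rw [h1, Nat.even_mul]
  have h2 : Even k ↔ (2 * k + 1) % 4 ≠ 3 := by
    rw [Nat.even_iff]; omega
  rw [h2]

theorem isSquare_neg_one_pow {F : Type*} [Field F] [Fintype F] (m : ℕ) :
    IsSquare ((-1 : F) ^ m) ↔ (Even m ∨ Fintype.card F % 4 ≠ 3) := by
  rcases Nat.even_or_odd m with hm | hm
  · rw [hm.neg_one_pow]
    simp [hm]
  · rw [hm.neg_one_pow, FiniteField.isSquare_neg_one_iff]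
    have : ¬ Even m := Nat.not_even_iff_odd.mpr hm
    simp [this]

theorem disc_nonsquare {F : Type*} [Field F] (h2 : (2 : F) ≠ 0) (a c : F)
    (hac : ∀ z₁ z₂ : F, z₁ ^ 2 + a * z₁ * z₂ + c * z₂ ^ 2 = 0 → z₁ = 0 ∧ z₂ = 0) :
    ¬ IsSquare (a ^ 2 - 4 * c) := by
  rintro ⟨r, hr⟩
  have := (hac ((-a + r) / 2) 1 (by
    field_simp
    linear_combination -hr)).2
  exact one_ne_zero this

/-- Discriminant of an elliptic quadratic form. -/
theorem result {F : Type*} [Field F] [Fintype F] {q : ℕ} (hF : Fintype.card F = q) (hq : Odd q) {m : ℕ} (hm : 1 ≤ m) (a c : F) (hac : ∀ z₁ z₂ : F, z₁ ^ 2 + a * z₁ * z₂ + c * z₂ ^ 2 = 0 → z₁ = 0 ∧ z₂ = 0) {ι : Type*} [Fintype ι] [DecidableEq ι] (b : Module.Basis ι F ((Fin (m - 1) ⊕ Fin (m - 1)) ⊕ Fin 2 → F)) : IsSquare (Matrix.of (fun i j : ι => QuadraticMap.polar (Cfsg.quadFormMinus (m - 1) F a c) (b i) (b j))).det ↔ ¬ Even (m * (q - 1) / 2) := by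
  have h2 : (2 : F) ≠ 0 := two_ne_zero_of_odd_card (hF ▸ hq)
  rw [gram_polar_eq b _ _ (polar_minus (m - 1) a c)]
  obtain ⟨d, hd, hdet⟩ := gram_det_change b (Pi.basisFun F ((Fin (m - 1) ⊕ Fin (m - 1)) ⊕ Fin 2))
    (Matrix.toBilin' (stdGram (m - 1) a c))
  rw [hdet, LinearMap.BilinForm.toMatrix_basisFun, LinearMap.BilinForm.toMatrix'_toBilin',
    det_stdGram, isSquare_sq_mul_iff hd]
  have hns := disc_nonsquare h2 a c hac
  have e1 : (-1 : F) ^ (m - 1) * (4 * c - a ^ 2) = (-1) ^ m * (a ^ 2 - 4 * c) := by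
    obtain ⟨j, rfl⟩ : ∃ j, m = j + 1 := ⟨m - 1, by omega⟩
    rw [Nat.add_sub_cancel, pow_succ]; ring
  rw [e1, isSquare_mul_nonsquare_iff (pow_ne_zero _ (neg_ne_zero.mpr one_ne_zero)) hns,
    isSquare_neg_one_pow, parity_aux hq, hF]

end Cfsg.Agent.S2621
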