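import Cfsg.Statements.S0791
import Cfsg.Agent.Lib.Helper44.NegOne
import Cfsg.Agent.Lib.Helper44.NegPairs
import Cfsg.Agent.S2621

set_option autoImplicit false
open Cfsg

namespace Cfsg.Agent.S0791

open Module QuadraticMap
open Cfsg.Agent.Lib.Helper44.NegPairs Cfsg.Agent.Lib.Helper44.NegOne Cfsg.Agent.Lib.Helper44.FinSq
open Cfsg.Agent.Lib.Helper44.Gram

/-- −1 ∈ Ω⁻_2m(q) iff q^m ≡ −1 (mod 4), for q odd and m ≥ 1; for the minus-type form quadFormMinus (m−1) with anisotropic binary part. -/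
theorem result {F : Type*} [Field F] [Fintype F] {q : ℕ} (hF : Fintype.card F = q) (hodd : Odd q) (m : ℕ) (hm : 1 ≤ m) (a b : F) (hab : ∀ z₁ z₂ : F, z₁ ^ 2 + a * z₁ * z₂ + b * z₂ ^ 2 = 0 → z₁ = 0 ∧ z₂ = 0) : (∃ g : ↥(Cfsg.isometryGroup F (Cfsg.quadFormMinus (m - 1) F a b)), g ∈ Cfsg.Omega F (Cfsg.quadFormMinus (m - 1) F a b) ∧ ((g : Matrix.GeneralLinearGroup ((Fin (m - 1) ⊕ Fin (m - 1)) ⊕ Fin 2) F) : Matrix ((Fin (m - 1) ⊕ Fin (m - 1)) ⊕ Fin 2) ((Fin (m - 1) ⊕ Fin (m - 1)) ⊕ Fin 2) F) = -1) ↔ q ^ m % 4 = 3 := by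
  have h2 : (2 : F) ≠ 0 := two_ne_zero_of_odd_card (hF ▸ hodd)
  have hcard : Fintype.card ((Fin (m - 1) ⊕ Fin (m - 1)) ⊕ Fin 2) = 2 * m := by
    simp only [Fintype.card_sum, Fintype.card_fin]; omega
  have key := neg_one_mem_omega_iff h2 (minusQ (m - 1) F a b) (sep_minusQ h2 (m - 1) a b hab)
    (by rw [hcard]; omega) (by rw [hcard]; exact even_two_mul m)
    (Pi.basisFun F ((Fin (m - 1) ⊕ Fin (m - 1)) ⊕ Fin 2))
  have hgram := gram_polar_eq (Pi.basisFun F ((Fin (m - 1) ⊕ Fin (m - 1)) ⊕ Fin 2))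
    (Cfsg.quadFormMinus (m - 1) F a b) (polarBilin (minusQ (m - 1) F a b)) (fun u v => rfl)
  rw [← hgram, Cfsg.Agent.S2621.result hF hodd hm a b hab, Cfsg.Agent.S2621.parity_aux hodd,
    ← pow_mod_four_iff hodd] at key
  rw [show (∃ g : ↥(Cfsg.isometryGroup F (Cfsg.quadFormMinus (m - 1) F a b)), g ∈ Cfsg.Omega F (Cfsg.quadFormMinus (m - 1) F a b) ∧ ((g : Matrix.GeneralLinearGroup ((Fin (m - 1) ⊕ Fin (m - 1)) ⊕ Fin 2) F) : Matrix ((Fin (m - 1) ⊕ Fin (m - 1)) ⊕ Fin 2) ((Fin (m - 1) ⊕ Fin (m - 1)) ⊕ Fin 2) F) = -1) ↔ ¬ (q ^ m % 4 = 1) from key]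
  have hoddp : Odd (q ^ m) := hodd.pow
  rw [Nat.odd_iff] at hoddp
  omega

end Cfsg.Agent.S0791
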