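import Cfsg.Statements.S1066
import Cfsg.Agent.Lib.Helper18.TwE6O

set_option autoImplicit false
open Cfsg

namespace Cfsg.Agent.S1066

/-- `gcd(3, q+1) · |²E₆(q)| = q³⁶ (q² - 1)(q⁵ + 1)(q⁶ - 1)(q⁸ - 1)(q⁹ + 1)(q¹² - 1)`, the group being realised inside E₆ over the field with `q²` elements. -/
theorem result {K : Type*} [Field K] [Fintype K] {q : ℕ} (hq : IsPrimePow q) (hK : Fintype.card K = q ^ 2) :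
    Nat.gcd 3 (q + 1) * Nat.card ↥(Cfsg.Lie.twistedE6 K q) =
      q ^ 36 * (q ^ 2 - 1) * (q ^ 5 + 1) * (q ^ 6 - 1) * (q ^ 8 - 1) * (q ^ 9 + 1) * (q ^ 12 - 1) := by
  have hH := Cfsg.Agent.Lib.Helper18.TwE6H.card_H_E6 hq hK
  rw [Cfsg.Agent.Lib.Helper18.TwE6O.card_E6 hq hK, Cfsg.Agent.Lib.Helper18.TwE6O.poly_eq]
  obtain ⟨k, rfl⟩ : ∃ k, q = k + 1 := ⟨q - 1, by have := hq.one_lt; omega⟩
  have e1 : k + 1 - 1 = k := Nat.add_sub_cancel k 1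
  have e2 : (k + 1) ^ 2 - 1 = k * (k + 2) := by
    apply Nat.sub_eq_of_eq_add
    ring
  have e6 : (k + 1) ^ 6 - 1 = k * ((k + 1) ^ 5 + (k + 1) ^ 4 + (k + 1) ^ 3 + (k + 1) ^ 2 +
      (k + 1) + 1) := by
    apply Nat.sub_eq_of_eq_add
    ring
  have e8 : (k + 1) ^ 8 - 1 = k * (k + 2) * ((k + 1) ^ 6 + (k + 1) ^ 4 + (k + 1) ^ 2 + 1) := by
    apply Nat.sub_eq_of_eq_add
    ring
  have e12 : (k + 1) ^ 12 - 1 = k * ((k + 1) ^ 11 + (k + 1) ^ 10 + (k + 1) ^ 9 + (k + 1) ^ 8 +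
      (k + 1) ^ 7 + (k + 1) ^ 6 + (k + 1) ^ 5 + (k + 1) ^ 4 + (k + 1) ^ 3 + (k + 1) ^ 2 +
      (k + 1) + 1) := by
    apply Nat.sub_eq_of_eq_add
    ring
  rw [e1, e2] at hH
  rw [e2, e6, e8, e12]
  generalize Nat.card ↥(Cfsg.Lie.chevE6.diagonalSubgroup K ⊓ Cfsg.Lie.twistedE6 K (k + 1)) = c
    at hH ⊢
  generalize Nat.gcd 3 (k + 1 + 1) = g at hH ⊢
  calc g * ((((k + 1) ^ 5 + 1) * ((k + 1) ^ 9 + 1) *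
        ((k + 1) ^ 5 + (k + 1) ^ 4 + (k + 1) ^ 3 + (k + 1) ^ 2 + (k + 1) + 1) *
        ((k + 1) ^ 6 + (k + 1) ^ 4 + (k + 1) ^ 2 + 1) *
        ((k + 1) ^ 11 + (k + 1) ^ 10 + (k + 1) ^ 9 + (k + 1) ^ 8 + (k + 1) ^ 7 + (k + 1) ^ 6 +
          (k + 1) ^ 5 + (k + 1) ^ 4 + (k + 1) ^ 3 + (k + 1) ^ 2 + (k + 1) + 1)) *
        ((k + 1) ^ 36 * c))
      = (((k + 1) ^ 5 + 1) * ((k + 1) ^ 9 + 1) *
        ((k + 1) ^ 5 + (k + 1) ^ 4 + (k + 1) ^ 3 + (k + 1) ^ 2 + (k + 1) + 1) *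
        ((k + 1) ^ 6 + (k + 1) ^ 4 + (k + 1) ^ 2 + 1) *
        ((k + 1) ^ 11 + (k + 1) ^ 10 + (k + 1) ^ 9 + (k + 1) ^ 8 + (k + 1) ^ 7 + (k + 1) ^ 6 +
          (k + 1) ^ 5 + (k + 1) ^ 4 + (k + 1) ^ 3 + (k + 1) ^ 2 + (k + 1) + 1)) *
        ((k + 1) ^ 36 * (c * g)) := by ring
    _ = _ := by
      rw [hH]
      ring

end Cfsg.Agent.S1066
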