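import Cfsg.Statements.S1511
import Cfsg.Agent.Lib.Helper25.TIInd
import Cfsg.Agent.Lib.Helper25.CyclicTI
import Cfsg.Agent.Lib.Helper3.Orth
import Cfsg.Agent.Lib.CT.LinChar
import Cfsg.Agent.Lib.CT.Ops
import Cfsg.Agent.Lib.CT.IndChar
import Mathlib

set_option autoImplicit false
open Cfsg

namespace Cfsg.Agent.S1511

open scoped ComplexConjugate
open Cfsg.Agent.Lib.Helper3.Irr Cfsg.Agent.Lib.CT.FrobRec Cfsg.Agent.Lib.Helper25.TIInd
open Cfsg.Agent.Lib.Helper26.GenChar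

theorem ite_iff (P Q : Prop) [Decidable P] [Decidable Q] (h : P ↔ Q) :
    (if P then (1 : ℂ) else 0) = if Q then 1 else 0 := by
  by_cases hp : P
  · rw [if_pos hp, if_pos (h.mp hp)]
  · rw [if_neg hp, if_neg (fun hq => hp (h.mpr hq))]

theorem cyclic_comm {L : Type*} [Group L] (W : Subgroup L) (h : IsCyclic W) :
    ∀ a ∈ W, ∀ b ∈ W, a * b = b * a := by
  obtain ⟨g, hg⟩ := (Subgroup.isCyclic_iff_exists_zpowers_eq_top W).mp h
  intro a ha b hb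
  rw [← hg] at ha hb
  obtain ⟨i, rfl⟩ := Subgroup.mem_zpowers_iff.mp ha
  obtain ⟨j, rfl⟩ := Subgroup.mem_zpowers_iff.mp hb
  exact ((Commute.refl g).zpow_zpow i j).eq


/-- Let L be a finite group with K normal with complement W₁ ≠ 1 a cyclic Hall subgroup, and W₂ ≠ 1 a cyclic subgroup of K equal to C_K(x) for every non-identity x ∈ W₁, with W₁W₂ of odd order. Then there are a map μ from the linear characters of W = W₁ ⊔ W₂ to irreducible characters of L, injective, and a sign δ(ω) ∈ {1, −1} depending only on the values of ω on W₂, such that: for ω, ω' agreeing on W₂, the function induced to L from ω − ω' equals δ(ω) • (μ ω − μ ω'); μ ω x = δ(ω) ω x for x ∈ W outside W₂; every irreducible character of L not of the form μ ω vanishes on W outside W₂; and μ ω 1 − δ(ω) is an integer multiple of Nat.card W₁. -/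
theorem result {L : Type*} [Group L] [Fintype L] (K W₁ W₂ : Subgroup L) [hK : K.Normal] (hKW₁ : K ⊓ W₁ = ⊥) (hKW₁' : K ⊔ W₁ = ⊤) (hW₁ : W₁ ≠ ⊥) (hW₁c : IsCyclic W₁) (hHall : Nat.Coprime (Nat.card W₁) W₁.index) (hW₂ : W₂ ≠ ⊥) (hW₂c : IsCyclic W₂) (hW₂K : W₂ ≤ K) (hC : ∀ x ∈ W₁, x ≠ 1 → K ⊓ Subgroup.centralizer ({x} : Set L) = W₂) (hodd : Odd (Nat.card ↥(W₁ ⊔ W₂))) : ∃ (μ : (↥(W₁ ⊔ W₂) →* ℂˣ) → (L → ℂ)) (δ : (↥(W₁ ⊔ W₂) →* ℂˣ) → ℂ), Function.Injective μ ∧ (∀ ω, Cfsg.IsIrrCharacter L (μ ω)) ∧ (∀ ω, δ ω = 1 ∨ δ ω = -1) ∧ (∀ ω ω' : ↥(W₁ ⊔ W₂) →* ℂˣ, (∀ w : ↥(W₁ ⊔ W₂), (w : L) ∈ W₂ → ω w = ω' w) → δ ω = δ ω' ∧ Cfsg.indFun (W₁ ⊔ W₂) (fun w => (ω w : ℂ) - (ω' w : ℂ)) = δ ω • (μ ω - μ ω')) ∧ (∀ ω, ∀ w : ↥(W₁ ⊔ W₂), (w : L) ∉ W₂ → μ ω w = δ ω * (ω w : ℂ)) ∧ (∀ θ : L → ℂ, Cfsg.IsIrrCharacter L θ → (∀ ω, θ ≠ μ ω) → ∀ w : ↥(W₁ ⊔ W₂), (w : L) ∉ W₂ → θ w = 0) ∧ (∀ ω, ∃ n : ℤ, μ ω 1 - δ ω = n * (Nat.card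 W₁ : ℂ)) := by
  classical
  have hdisj : W₁ ⊓ W₂ = ⊥ := by
    rw [eq_bot_iff, ← hKW₁, inf_comm]
    exact inf_le_inf_right _ hW₂K
  have hcomm : ∀ a ∈ W₁, ∀ b ∈ W₂, a * b = b * a := by
    intro a ha b hb
    by_cases ha1 : a = 1
    · subst ha1; simp
    · have hb' : b ∈ K ⊓ Subgroup.centralizer ({a} : Set L) := by rw [hC a ha ha1]; exact hb
      have h2 : b ∈ Subgroup.centralizer ({a} : Set L) := hb'.2
      rw [Subgroup.mem_centralizer_singleton_iff] at h2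
      exact h2.symm
  have hcompl : Subgroup.IsComplement' K W₁ := by
    apply Subgroup.isComplement'_of_disjoint_and_mul_eq_univ (disjoint_iff.mpr hKW₁)
    rw [← Subgroup.normal_mul, hKW₁']; rfl
  have hidx : W₁.index = Nat.card K := hcompl.index_eq_card
  have hcopx : ∀ x ∈ W₁, Nat.Coprime (orderOf x) (Nat.card K) := by
    intro x hx
    rw [← hidx]
    exact hHall.coprime_dvd_left (Subgroup.orderOf_dvd_natCard W₁ hx)
  have hW₁comm := cyclic_comm W₁ hW₁c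
  have hW₂comm := cyclic_comm W₂ hW₂c
  obtain ⟨e, E, he, hE⟩ := Cfsg.Agent.Lib.Helper25.CyclicTI.exists_param W₁ W₂ hdisj hcomm
  have hwdec : ∀ w : ↥(W₁ ⊔ W₂), ∃ a : W₁, ∃ b : W₂, w = e (a, b) ∧ (w : L) = a * b := by
    intro w
    obtain ⟨⟨a, b⟩, hab⟩ := e.surjective w
    exact ⟨a, b, hab.symm, by rw [← hab]; exact he (a, b)⟩
  have hWcomm : ∀ x ∈ W₁ ⊔ W₂, ∀ y ∈ W₁ ⊔ W₂, x * y = y * x := by
    intro x hx y hy
    obtain ⟨a, b, -, hx'⟩ := hwdec ⟨x, hx⟩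
    obtain ⟨c, d, -, hy'⟩ := hwdec ⟨y, hy⟩
    simp only at hx' hy'
    rw [hx', hy']
    have h1 := hW₁comm a a.2 c c.2
    have h2 := hW₂comm b b.2 d d.2
    have h3 := hcomm a a.2 d d.2
    have h4 := hcomm c c.2 b b.2
    calc (a : L) * b * (c * d) = a * (b * c) * d := by group
      _ = a * (c * b) * d := by rw [← h4]
      _ = (a * c) * (b * d) := by group
      _ = (c * a) * (d * b) := by rw [h1, h2]
      _ = c * (a * d) * b := by group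
      _ = c * (d * a) * b := by rw [h3]
      _ = c * d * (a * b) := by group
  have hdecomp : ∀ g : L, ∃ k ∈ K, ∃ w ∈ W₁, k * w = g := by
    intro g
    have hgtop : g ∈ K ⊔ W₁ := by rw [hKW₁']; exact Subgroup.mem_top g
    rw [← SetLike.mem_coe, Subgroup.normal_mul, Set.mem_mul] at hgtop
    exact hgtop
  -- the TI set
  obtain ⟨A, hAdef⟩ : ∃ A : Set L, ∀ x, x ∈ A ↔ (x ∈ W₁ ⊔ W₂ ∧ x ∉ W₂) :=
    ⟨{w | w ∈ W₁ ⊔ W₂ ∧ w ∉ W₂}, fun x => Iff.rfl⟩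
  have hTI : ∀ a ∈ A, ∀ g : L, g * a * g⁻¹ ∈ A → g ∈ W₁ ⊔ W₂ := by
    intro a haA g hgA
    obtain ⟨haW, haW₂⟩ := (hAdef a).mp haA
    obtain ⟨hgW, hgW₂⟩ := (hAdef _).mp hgA
    obtain ⟨a₁, a₂, -, ha⟩ := hwdec ⟨a, haW⟩
    obtain ⟨b₁, b₂, -, hb⟩ := hwdec ⟨g * a * g⁻¹, hgW⟩
    simp only at ha hb
    subst ha
    obtain ⟨k, hk, u, hu, rfl⟩ := hdecomp g
    have ha₁1 : (a₁ : L) ≠ 1 := by
      intro h
      apply haW₂
      rw [h, one_mul]; exact a₂.2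
    have hua : u * ((a₁ : L) * a₂) * u⁻¹ = (a₁ : L) * a₂ := by
      have := hWcomm u (Subgroup.mem_sup_left hu) _ haW
      rw [this]; group
    have hka : k * ((a₁ : L) * a₂) * k⁻¹ = b₁ * b₂ := by
      rw [← hb]
      have : k * u * ((a₁ : L) * a₂) * (k * u)⁻¹ = k * (u * ((a₁ : L) * a₂) * u⁻¹) * k⁻¹ := by
        group
      rw [this, hua]
    have hb₁ : (b₁ : L) = a₁ := by
      have h1 : (b₁ : L) * (a₁ : L)⁻¹ ∈ K := by
        have e1 : (b₁ : L) * (a₁ : L)⁻¹ =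
            k * ((a₁ : L) * ((a₂ : L) * k⁻¹ * (b₂ : L)⁻¹) * (a₁ : L)⁻¹) := by
          have : (b₁ : L) = k * ((a₁ : L) * a₂) * k⁻¹ * (b₂ : L)⁻¹ := by rw [hka]; group
          rw [this]; group
        rw [e1]
        exact K.mul_mem hk (hK.conj_mem _ (K.mul_mem (K.mul_mem (hW₂K a₂.2) (K.inv_mem hk))
          (K.inv_mem (hW₂K b₂.2))) _)
      have h2 : (b₁ : L) * (a₁ : L)⁻¹ ∈ K ⊓ W₁ := ⟨h1, W₁.mul_mem b₁.2 (W₁.inv_mem a₁.2)⟩
      rw [hKW₁, Subgroup.mem_bot] at h2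
      exact mul_inv_eq_one.mp h2
    obtain ⟨e', he1, he0⟩ := Nat.chineseRemainder (hcopx a₁ a₁.2) 1 0
    have hpow : ∀ c ∈ W₂, ((a₁ : L) * c) ^ e' = a₁ := by
      intro c hc
      have hcm : Commute (a₁ : L) c := hcomm a₁ a₁.2 c hc
      rw [hcm.mul_pow]
      have h1 : c ^ e' = 1 := by
        have : orderOf c ∣ e' :=
          (Subgroup.orderOf_dvd_natCard K (hW₂K hc)).trans ((Nat.modEq_zero_iff_dvd).mp he0)
        exact orderOf_dvd_iff_pow_eq_one.mp this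
      have h2 : (a₁ : L) ^ e' = a₁ := by
        have : (a₁ : L) ^ e' = (a₁ : L) ^ 1 := by rw [pow_eq_pow_iff_modEq]; exact he1
        simpa using this
      rw [h1, h2, mul_one]
    have hk₁ : k * (a₁ : L) * k⁻¹ = a₁ := by
      have h3 := congrArg (fun z => z ^ e') hka
      simp only [conj_pow] at h3
      rw [hb₁, hpow a₂ a₂.2, hpow b₂ b₂.2] at h3
      exact h3
    have hkW₂ : k ∈ W₂ := by
      rw [← hC a₁ a₁.2 ha₁1]
      refine Subgroup.mem_inf.mpr ⟨hk, ?_⟩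
      rw [Subgroup.mem_centralizer_singleton_iff]
      calc k * (a₁ : L) = k * a₁ * k⁻¹ * k := by group
        _ = a₁ * k := by rw [hk₁]
    exact Subgroup.mul_mem _ (Subgroup.mem_sup_right hkW₂) (Subgroup.mem_sup_left hu)
  have hD : DadeHypothesis A (W₁ ⊔ W₂) (fun _ => (⊥ : Subgroup L)) := by
    apply dade_of_TI A (W₁ ⊔ W₂)
    · intro h
      exact ((hAdef 1).mp h).2 W₂.one_mem
    · intro a ha
      exact ((hAdef a).mp ha).1
    · intro x hx a ha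
      have : x * a * x⁻¹ = a := by
        rw [hWcomm x hx a ((hAdef a).mp ha).1]; group
      rw [this]; exact ha
    · exact hTI
  -- linear characters of W
  have hlinirr : ∀ ω : ↥(W₁ ⊔ W₂) →* ℂˣ,
      IsIrrCharacter ↥(W₁ ⊔ W₂) (fun w => ((ω w : ℂˣ) : ℂ)) :=
    fun ω => Cfsg.Agent.Lib.CT.LinChar.isIrrCharacter_of_hom ω
  have hlincf : ∀ ω : ↥(W₁ ⊔ W₂) →* ℂˣ,
      IsClassFunction ↥(W₁ ⊔ W₂) (fun w => ((ω w : ℂˣ) : ℂ)) :=
    fun ω => IsCharacter.isClassFunction (IsIrrCharacter.isCharacter (hlinirr ω))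
  have hlinorth : ∀ ω ω' : ↥(W₁ ⊔ W₂) →* ℂˣ,
      classInner (fun w => ((ω w : ℂˣ) : ℂ)) (fun w => ((ω' w : ℂˣ) : ℂ)) =
        if ω = ω' then 1 else 0 := by
    intro ω ω'
    have h : classInner (fun w => ((ω w : ℂˣ) : ℂ)) (fun w => ((ω' w : ℂˣ) : ℂ)) = _ :=
      irr_orthonormal (⟨_, hlinirr ω⟩ : IrrCharacter ↥(W₁ ⊔ W₂)) ⟨_, hlinirr ω'⟩
    rw [h]
    by_cases hω : ω = ω'
    · rw [if_pos hω, if_pos (by rw [hω])]
    · rw [if_neg hω, if_neg]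
      intro hh
      apply hω
      have h2 := congrArg Subtype.val hh
      apply MonoidHom.ext
      intro w
      exact Units.ext (congrFun h2 w)
  have hdcf : ∀ ω ω' : ↥(W₁ ⊔ W₂) →* ℂˣ,
      IsClassFunction ↥(W₁ ⊔ W₂) (fun w => ((ω w : ℂˣ) : ℂ) - ((ω' w : ℂˣ) : ℂ)) := by
    intro ω ω' g h
    have h1 := hlincf ω g h
    have h2 := hlincf ω' g h
    simp only at h1 h2 ⊢
    rw [h1, h2]
  obtain ⟨Φ, hΦdef⟩ : ∃ Φ : (↥(W₁ ⊔ W₂) →* ℂˣ) → (L → ℂ),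
      ∀ ω, Φ ω = indFun (W₁ ⊔ W₂) (fun w => ((ω w : ℂˣ) : ℂ)) := ⟨_, fun _ => rfl⟩
  have hΦchar : ∀ ω, IsCharacter L (Φ ω) := by
    intro ω
    rw [hΦdef]
    exact Cfsg.Agent.Lib.CT.IndChar.isCharacter_indFun _ _ (IsIrrCharacter.isCharacter (hlinirr ω))
  have hΦone : ∀ ω, Φ ω 1 = ((W₁ ⊔ W₂).index : ℂ) := by
    intro ω
    rw [hΦdef, indFun_one]
    simp
  have hvan : ∀ ω ω' : ↥(W₁ ⊔ W₂) →* ℂˣ,
      (∀ w : ↥(W₁ ⊔ W₂), (w : L) ∈ W₂ → ω w = ω' w) →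
      ∀ x : ↥(W₁ ⊔ W₂), (x : L) ∉ A → ((ω x : ℂˣ) : ℂ) - ((ω' x : ℂˣ) : ℂ) = 0 := by
    intro ω ω' h x hx
    have hxW₂ : (x : L) ∈ W₂ := by
      by_contra hc
      exact hx ((hAdef _).mpr ⟨x.2, hc⟩)
    rw [h x hxW₂, sub_self]
  have hsub : ∀ ω ω' : ↥(W₁ ⊔ W₂) →* ℂˣ, Φ ω - Φ ω' =
      indFun (W₁ ⊔ W₂) (fun w => ((ω w : ℂˣ) : ℂ) - ((ω' w : ℂˣ) : ℂ)) := by
    intro ω ω'
    rw [hΦdef, hΦdef, ← indFun_sub]
    rfl
  have hiso : ∀ ω₁ ω₂ ω₃ ω₄ : ↥(W₁ ⊔ W₂) →* ℂˣ,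
      (∀ w : ↥(W₁ ⊔ W₂), (w : L) ∈ W₂ → ω₁ w = ω₂ w) →
      (∀ w : ↥(W₁ ⊔ W₂), (w : L) ∈ W₂ → ω₃ w = ω₄ w) →
      classInner (Φ ω₁ - Φ ω₂) (Φ ω₃ - Φ ω₄) =
        (if ω₁ = ω₃ then (1 : ℂ) else 0) - (if ω₁ = ω₄ then 1 else 0) -
          (if ω₂ = ω₃ then 1 else 0) + (if ω₂ = ω₄ then 1 else 0) := by
    intro ω₁ ω₂ ω₃ ω₄ h12 h34
    rw [hsub, hsub, ind_isometry A _ hD _ _ (hdcf _ _) (hvan _ _ h12) (hdcf _ _) (hvan _ _ h34)]
    have e1 : ∀ ω ω' : ↥(W₁ ⊔ W₂) →* ℂˣ,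
        (fun w : ↥(W₁ ⊔ W₂) => ((ω w : ℂˣ) : ℂ) - ((ω' w : ℂˣ) : ℂ)) =
        (fun w => ((ω w : ℂˣ) : ℂ)) - (fun w => ((ω' w : ℂˣ) : ℂ)) := fun _ _ => rfl
    rw [e1, e1, classInner_sub_left, classInner_sub_right, classInner_sub_right, hlinorth,
      hlinorth, hlinorth, hlinorth]
    ring
  -- index sets
  have hfin1 : Finite (↥W₁ →* ℂˣ) := Cfsg.Agent.Lib.Helper25.CyclicTI.finite_hom_sub W₁ hW₁comm
  haveI : Fintype (↥W₁ →* ℂˣ) := Fintype.ofFinite _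
  have hfin2 : Finite (↥W₂ →* ℂˣ) := Cfsg.Agent.Lib.Helper25.CyclicTI.finite_hom_sub W₂ hW₂comm
  haveI : Fintype (↥W₂ →* ℂˣ) := Fintype.ofFinite _
  have hfin3 : Finite (↥(W₁ ⊔ W₂) →* ℂˣ) := Finite.of_equiv _ E
  haveI : Fintype (↥(W₁ ⊔ W₂) →* ℂˣ) := Fintype.ofFinite _
  have hn1 : Nat.card (↥W₁ →* ℂˣ) = Nat.card W₁ := Cfsg.Agent.S1507.card_hom_sub W₁ hW₁comm
  obtain ⟨n, ⟨ι⟩⟩ : ∃ n, Nonempty (Fin n ≃ (↥W₁ →* ℂˣ)) := ⟨_, ⟨(Finite.equivFin _).symm⟩⟩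
  have hncard : n = Nat.card W₁ := by
    rw [← hn1, ← Nat.card_congr ι, Nat.card_fin]
  have hn : 2 ≤ n := by
    rw [hncard]
    exact (Subgroup.one_lt_card_iff_ne_bot W₁).mpr hW₁
  have hagreeE : ∀ (α α' : ↥W₁ →* ℂˣ) (β : ↥W₂ →* ℂˣ), ∀ w : ↥(W₁ ⊔ W₂), (w : L) ∈ W₂ →
      E (α, β) w = E (α', β) w := by
    intro α α' β w hw
    obtain ⟨a, b, hab, hab'⟩ := hwdec w
    have ha1 : a = 1 := by
      have h1 : (a : L) ∈ W₂ := by
        have : (a : L) = w * (b : L)⁻¹ := by rw [hab']; group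
        rw [this]; exact W₂.mul_mem hw (W₂.inv_mem b.2)
      have h2 : (a : L) ∈ W₁ ⊓ W₂ := ⟨a.2, h1⟩
      rw [hdisj, Subgroup.mem_bot] at h2
      exact Subtype.ext h2
    rw [hab, hE, hE, ha1, map_one, map_one]
  have hagree_conv : ∀ (α α' : ↥W₁ →* ℂˣ) (β β' : ↥W₂ →* ℂˣ),
      (∀ w : ↥(W₁ ⊔ W₂), (w : L) ∈ W₂ → E (α, β) w = E (α', β') w) → β = β' := by
    intro α α' β β' h
    apply MonoidHom.ext
    intro b
    have h1 := h (e (1, b)) (by rw [he]; simpa using b.2)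
    rw [hE, hE, map_one, map_one, one_mul, one_mul] at h1
    exact h1
  have hex : ∀ β : ↥W₂ →* ℂˣ, ∃ ε : ℂ, (ε = 1 ∨ ε = -1) ∧ ∃ θ : Fin n → (L → ℂ),
      (∀ i, IsIrrCharacter L (θ i)) ∧ Function.Injective θ ∧
      ∀ i j, Φ (E (ι i, β)) - Φ (E (ι j, β)) = ε • (θ i - θ j) := by
    intro β
    apply exceptional hn (fun i => Φ (E (ι i, β))) (fun i => hΦchar _)
    · intro i j k l
      rw [hiso _ _ _ _ (hagreeE _ _ β) (hagreeE _ _ β)]
      have hinj : ∀ i k : Fin n, (E (ι i, β) = E (ι k, β)) ↔ i = k := by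
        intro i k
        constructor
        · intro h
          have := E.injective h
          exact ι.injective (congrArg Prod.fst this)
        · intro h; rw [h]
      rw [ite_iff _ _ (hinj i k), ite_iff _ _ (hinj i l), ite_iff _ _ (hinj j k),
        ite_iff _ _ (hinj j l)]
    · intro i j; rw [hΦone, hΦone]
  choose ε hε θ hθirr hθinj hθeq using hex
  obtain ⟨μ, hμdef⟩ : ∃ μ : (↥(W₁ ⊔ W₂) →* ℂˣ) → (L → ℂ),
      ∀ ω, μ ω = θ (E.symm ω).2 (ι.symm (E.symm ω).1) := ⟨_, fun _ => rfl⟩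
  obtain ⟨δ, hδdef⟩ : ∃ δ : (↥(W₁ ⊔ W₂) →* ℂˣ) → ℂ,
      ∀ ω, δ ω = ε (E.symm ω).2 := ⟨_, fun _ => rfl⟩
  have hμE : ∀ i β, μ (E (ι i, β)) = θ β i := by
    intro i β
    rw [hμdef]
    simp
  have hδE : ∀ α β, δ (E (α, β)) = ε β := by
    intro α β
    rw [hδdef]
    simp
  have hωrep : ∀ ω : ↥(W₁ ⊔ W₂) →* ℂˣ, ∃ i β, ω = E (ι i, β) := by
    intro ω
    refine ⟨ι.symm (E.symm ω).1, (E.symm ω).2, ?_⟩
    simp
  have hμirr : ∀ ω, IsIrrCharacter L (μ ω) := by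
    intro ω
    rw [hμdef]
    exact hθirr _ _
  have hd : ∀ ω ω' : ↥(W₁ ⊔ W₂) →* ℂˣ,
      (∀ w : ↥(W₁ ⊔ W₂), (w : L) ∈ W₂ → ω w = ω' w) →
      δ ω = δ ω' ∧ indFun (W₁ ⊔ W₂) (fun w => ((ω w : ℂˣ) : ℂ) - ((ω' w : ℂˣ) : ℂ)) =
        δ ω • (μ ω - μ ω') := by
    intro ω ω' h
    obtain ⟨i, β, rfl⟩ := hωrep ω
    obtain ⟨j, β', rfl⟩ := hωrep ω'
    have hβ : β = β' := hagree_conv _ _ _ _ h
    subst hβ
    refine ⟨by rw [hδE, hδE], ?_⟩
    rw [← hsub, hθeq β i j, hδE, hμE, hμE]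
  have hμinj : Function.Injective μ := by
    intro ω ω' h
    obtain ⟨i, β, rfl⟩ := hωrep ω
    obtain ⟨k, β', rfl⟩ := hωrep ω'
    rw [hμE, hμE] at h
    by_cases hβ : β = β'
    · subst hβ
      rw [hθinj β h]
    · exfalso
      haveI : Nontrivial (Fin n) := Fin.nontrivial_iff_two_le.mpr hn
      obtain ⟨i', hi'⟩ := exists_ne i
      obtain ⟨l, hl⟩ := exists_ne k
      have h1 := hiso (E (ι i, β)) (E (ι i', β)) (E (ι k, β')) (E (ι l, β'))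
        (hagreeE _ _ β) (hagreeE _ _ β')
      have hne : ∀ a b : Fin n, E (ι a, β) ≠ E (ι b, β') := by
        intro a b hab
        exact hβ (congrArg Prod.snd (E.injective hab))
      rw [if_neg (hne _ _), if_neg (hne _ _), if_neg (hne _ _), if_neg (hne _ _)] at h1
      have hz : (0 : ℂ) - 0 - 0 + 0 = 0 := by ring
      rw [hz] at h1
      rw [hθeq β i i', hθeq β' k l] at h1
      rw [classInner_smul_left, Cfsg.Agent.Lib.Helper3.Irr.classInner_smul_right, classInner_sub_left, classInner_sub_right,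
        classInner_sub_right] at h1
      have h11 : classInner (θ β i) (θ β' k) = 1 := by
        rw [h]; exact irr_inner_self (⟨_, hθirr β' k⟩ : IrrCharacter L)
      have h12 : classInner (θ β i) (θ β' l) = 0 := by
        rw [h]
        exact irr_inner_ne (χ := (⟨_, hθirr β' k⟩ : IrrCharacter L)) (ψ := ⟨_, hθirr β' l⟩)
          (fun hh => hl ((hθinj β' (congrArg Subtype.val hh)).symm))
      have h21 : classInner (θ β i') (θ β' k) = 0 := by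
        rw [← h]
        exact irr_inner_ne (χ := (⟨_, hθirr β i'⟩ : IrrCharacter L)) (ψ := ⟨_, hθirr β i⟩)
          (fun hh => hi' (hθinj β (congrArg Subtype.val hh)))
      have h22 : classInner (θ β i') (θ β' l) = 0 ∨ classInner (θ β i') (θ β' l) = 1 := by
        have h5 : classInner (θ β i') (θ β' l) = _ :=
          irr_orthonormal (⟨_, hθirr β i'⟩ : IrrCharacter L) ⟨_, hθirr β' l⟩
        rw [h5]
        split_ifs
        · right; rfl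
        · left; rfl
      rw [h11, h12, h21] at h1
      have hε1 : ε β ≠ 0 := by rcases hε β with h | h <;> rw [h] <;> norm_num
      have hε2 : conj (ε β') ≠ 0 := by rcases hε β' with h | h <;> rw [h] <;> simp
      have h5 := (mul_eq_zero.mp h1).resolve_left hε1
      have h6 := (mul_eq_zero.mp h5).resolve_left hε2
      rcases h22 with h22 | h22 <;> rw [h22] at h6 <;> norm_num at h6
  have hfinI := finite_irrCharacter (G := L)
  haveI : Fintype (IrrCharacter L) := Fintype.ofFinite _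
  have hnpos : 0 < n := by omega
  have hkey : ∀ w : ↥(W₁ ⊔ W₂), (w : L) ∉ W₂ →
      (∀ ω : ↥(W₁ ⊔ W₂) →* ℂˣ, μ ω w = δ ω * ((ω w : ℂˣ) : ℂ)) ∧
      (∀ θ' : L → ℂ, IsIrrCharacter L θ' → (∀ ω, θ' ≠ μ ω) → θ' w = 0) := by
    intro w hw
    have hwA : (w : L) ∈ A := (hAdef _).mpr ⟨w.2, hw⟩
    obtain ⟨a, b, hab, hab'⟩ := hwdec w
    have ha1 : a ≠ 1 := by
      rintro rfl
      apply hw
      rw [hab']; simpa using b.2
    have hstar : ∀ β i j, ε β * (θ β i w - θ β j w) =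
        ((E (ι i, β) w : ℂˣ) : ℂ) - ((E (ι j, β) w : ℂˣ) : ℂ) := by
      intro β i j
      have h1 := congrFun (hθeq β i j) (w : L)
      rw [hsub, ind_apply A _ hD _ (hdcf _ _) (hvan _ _ (hagreeE _ _ β)) w hwA] at h1
      rw [h1]; rfl
    have hεsq : ∀ β, ε β * ε β = 1 := by
      intro β; rcases hε β with h | h <;> rw [h] <;> norm_num
    obtain ⟨c, hcdef⟩ : ∃ c : (↥W₂ →* ℂˣ) → ℂ, ∀ β, c β =
        ε β * θ β ⟨0, hnpos⟩ w - ((E (ι ⟨0, hnpos⟩, β) w : ℂˣ) : ℂ) := ⟨_, fun _ => rfl⟩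
    have hX : ∀ β i, θ β i w = ε β * (((E (ι i, β) w : ℂˣ) : ℂ) + c β) := by
      intro β i
      have h1 := hstar β i ⟨0, hnpos⟩
      have h2 : ε β * θ β i w = ((E (ι i, β) w : ℂˣ) : ℂ) + c β := by
        rw [hcdef]
        linear_combination h1
      calc θ β i w = (ε β * ε β) * θ β i w := by rw [hεsq]; ring
        _ = ε β * (ε β * θ β i w) := by ring
        _ = _ := by rw [h2]
    have hnormω : ∀ ω : ↥(W₁ ⊔ W₂) →* ℂˣ, Complex.normSq ((ω w : ℂˣ) : ℂ) = 1 := by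
      intro ω
      have := Cfsg.Agent.Lib.CT.LinChar.linear_norm
        (Cfsg.Agent.Lib.CT.LinChar.isCharacter_of_hom ω) (by simp) w
      rw [Complex.normSq_eq_norm_sq, this]; norm_num
    have hnormε : ∀ β, Complex.normSq (ε β) = 1 := by
      intro β; rcases hε β with h | h <;> rw [h] <;> simp
    have hnX : ∀ β i, Complex.normSq (θ β i w) = 1 + Complex.normSq (c β) +
        2 * (((E (ι i, β) w : ℂˣ) : ℂ) * conj (c β)).re := by
      intro β i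
      rw [hX, Complex.normSq_mul, hnormε, one_mul, Complex.normSq_add, hnormω]
    have hsumω : ∀ β, ∑ i, ((E (ι i, β) w : ℂˣ) : ℂ) = 0 := by
      intro β
      have h1 : ∀ i, ((E (ι i, β) w : ℂˣ) : ℂ) = ((ι i a : ℂˣ) : ℂ) * ((β b : ℂˣ) : ℂ) := by
        intro i; rw [hab, hE]; push_cast; rfl
      rw [Finset.sum_congr rfl (fun i _ => h1 i), ← Finset.sum_mul,
        Equiv.sum_comp ι (fun α => ((α a : ℂˣ) : ℂ)),
        Cfsg.Agent.Lib.Helper25.CyclicTI.sum_hom_sub W₁ hW₁comm a, if_neg ha1, zero_mul]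
    have hsumi : ∀ β, ∑ i, Complex.normSq (θ β i w) = (n : ℝ) * (1 + Complex.normSq (c β)) := by
      intro β
      rw [Finset.sum_congr rfl (fun i _ => hnX β i), Finset.sum_add_distrib, Finset.sum_const,
        Finset.card_univ, Fintype.card_fin, ← Finset.mul_sum, ← Complex.re_sum, ← Finset.sum_mul,
        hsumω β]
      simp
      ring
    have hsumμ : ∑ ω : ↥(W₁ ⊔ W₂) →* ℂˣ, Complex.normSq (μ ω w) =
        ∑ β : ↥W₂ →* ℂˣ, (n : ℝ) * (1 + Complex.normSq (c β)) := by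
      rw [← Equiv.sum_comp E (fun ω => Complex.normSq (μ ω w)), Fintype.sum_prod_type,
        Finset.sum_comm]
      apply Finset.sum_congr rfl
      intro β _
      rw [← hsumi β, ← Equiv.sum_comp ι (fun α => Complex.normSq (μ (E (α, β)) w))]
      apply Finset.sum_congr rfl
      intro i _
      rw [hμE]
    have hcent : Subgroup.centralizer ({(w : L)} : Set L) = W₁ ⊔ W₂ := by
      apply le_antisymm
      · intro g hg
        rw [Subgroup.mem_centralizer_singleton_iff] at hg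
        apply hTI (w : L) hwA g
        have e1 : g * (w : L) * g⁻¹ = w := by rw [hg]; group
        rw [e1]; exact hwA
      · intro g hg
        rw [Subgroup.mem_centralizer_singleton_iff]
        exact hWcomm g hg w w.2
    have horth2 : ∑ χ : IrrCharacter L, Complex.normSq ((χ : L → ℂ) w) =
        (Nat.card ↥(W₁ ⊔ W₂) : ℝ) := by
      have h1 := Cfsg.Agent.Lib.Helper3.Orth.second_orthogonality_sum (w : L) (w : L)
      rw [if_pos (IsConj.refl _), hcent] at h1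
      have h2 : ∑ χ : IrrCharacter L, (χ : L → ℂ) w * conj ((χ : L → ℂ) w) =
          ((∑ χ : IrrCharacter L, Complex.normSq ((χ : L → ℂ) w) : ℝ) : ℂ) := by
        push_cast
        apply Finset.sum_congr rfl
        intro χ _
        rw [Complex.mul_conj]
      rw [h2] at h1
      exact_mod_cast h1
    obtain ⟨μ', hμ'⟩ : ∃ μ' : (↥(W₁ ⊔ W₂) →* ℂˣ) → IrrCharacter L, ∀ ω, (μ' ω : L → ℂ) = μ ω :=
      ⟨fun ω => ⟨μ ω, hμirr ω⟩, fun _ => rfl⟩
    have hμ'inj : Function.Injective μ' := by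
      intro x y h
      apply hμinj
      rw [← hμ', ← hμ', h]
    have hsumimg : ∑ χ ∈ Finset.univ.image μ', Complex.normSq ((χ : L → ℂ) w) =
        ∑ ω, Complex.normSq (μ ω w) := by
      rw [Finset.sum_image (fun x _ y _ h => hμ'inj h)]
      apply Finset.sum_congr rfl
      intro ω _
      rw [hμ']
    have hcardW : (Nat.card ↥(W₁ ⊔ W₂) : ℝ) = (n : ℝ) * (Fintype.card (↥W₂ →* ℂˣ) : ℝ) := by
      have h1 : Nat.card ↥(W₁ ⊔ W₂) = Nat.card W₁ * Nat.card W₂ := by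
        rw [← Nat.card_congr e.toEquiv, Nat.card_prod]
      have h2 : Fintype.card (↥W₂ →* ℂˣ) = Nat.card W₂ := by
        rw [← Nat.card_eq_fintype_card]
        exact Cfsg.Agent.S1507.card_hom_sub W₂ hW₂comm
      rw [h1, h2, hncard]
      push_cast
      rfl
    have hsplit : ∑ β : ↥W₂ →* ℂˣ, (n : ℝ) * (1 + Complex.normSq (c β)) =
        (n : ℝ) * Fintype.card (↥W₂ →* ℂˣ) + (n : ℝ) * ∑ β, Complex.normSq (c β) := by
      rw [← Finset.mul_sum, Finset.sum_add_distrib, Finset.sum_const, Finset.card_univ]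
      simp
      ring
    have hle : ∑ χ ∈ Finset.univ.image μ', Complex.normSq ((χ : L → ℂ) w) ≤
        ∑ χ : IrrCharacter L, Complex.normSq ((χ : L → ℂ) w) :=
      Finset.sum_le_sum_of_subset_of_nonneg (Finset.subset_univ _)
        (fun _ _ _ => Complex.normSq_nonneg _)
    rw [hsumimg, hsumμ, horth2, hcardW, hsplit] at hle
    have hnpos' : (0 : ℝ) < n := by exact_mod_cast hnpos
    have hc0 : ∀ β, c β = 0 := by
      have h2 : ∑ β : ↥W₂ →* ℂˣ, Complex.normSq (c β) ≤ 0 := by nlinarith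
      have h3 := (Finset.sum_eq_zero_iff_of_nonneg
        (fun β _ => Complex.normSq_nonneg (c β))).mp
        (le_antisymm h2 (Finset.sum_nonneg (fun β _ => Complex.normSq_nonneg _)))
      intro β
      exact Complex.normSq_eq_zero.mp (h3 β (Finset.mem_univ β))
    constructor
    · intro ω
      obtain ⟨i, β, rfl⟩ := hωrep ω
      rw [hμE, hδE, hX, hc0, add_zero]
    · intro θ' hθ' hne
      have hnot : (⟨θ', hθ'⟩ : IrrCharacter L) ∉ Finset.univ.image μ' := by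
        intro hmem
        obtain ⟨ω, _, hω⟩ := Finset.mem_image.mp hmem
        apply hne ω
        rw [← hμ', hω]
      have hle2 : ∑ χ ∈ insert (⟨θ', hθ'⟩ : IrrCharacter L) (Finset.univ.image μ'),
          Complex.normSq ((χ : L → ℂ) w) ≤
          ∑ χ : IrrCharacter L, Complex.normSq ((χ : L → ℂ) w) :=
        Finset.sum_le_sum_of_subset_of_nonneg (Finset.subset_univ _)
          (fun _ _ _ => Complex.normSq_nonneg _)
      rw [Finset.sum_insert hnot, hsumimg, hsumμ, horth2, hcardW, hsplit] at hle2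
      have h0 : ∑ β : ↥W₂ →* ℂˣ, Complex.normSq (c β) = 0 := by
        apply Finset.sum_eq_zero
        intro β _
        rw [hc0, map_zero]
      rw [h0, mul_zero, add_zero] at hle2
      have h2 : Complex.normSq (θ' w) ≤ 0 := by linarith
      exact Complex.normSq_eq_zero.mp (le_antisymm h2 (Complex.normSq_nonneg _))
  have hg : ∀ ω : ↥(W₁ ⊔ W₂) →* ℂˣ, ∃ m : ℤ, μ ω 1 - δ ω = m * (Nat.card W₁ : ℂ) := by
    intro ω
    obtain ⟨inc, hinc⟩ : ∃ inc : ↥W₁ →* ↥(W₁ ⊔ W₂), ∀ x : ↥W₁, ((inc x : ↥(W₁ ⊔ W₂)) : L) = x :=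
      ⟨Subgroup.inclusion le_sup_left, fun _ => rfl⟩
    obtain ⟨η, hηdef⟩ : ∃ η : ↥W₁ → ℂ, ∀ x, η x = μ ω (x : L) - δ ω * ((ω (inc x) : ℂˣ) : ℂ) :=
      ⟨_, fun _ => rfl⟩
    have hη0 : ∀ x : ↥W₁, x ≠ 1 → η x = 0 := by
      intro x hx
      have hxW₂ : ((inc x : ↥(W₁ ⊔ W₂)) : L) ∉ W₂ := by
        intro h
        rw [hinc] at h
        have h2 : (x : L) ∈ W₁ ⊓ W₂ := ⟨x.2, h⟩
        rw [hdisj, Subgroup.mem_bot] at h2
        exact hx (Subtype.ext h2)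
      have h3 := (hkey (inc x) hxW₂).1 ω
      rw [hinc] at h3
      rw [hηdef, h3, sub_self]
    have hηgen : IsGeneralizedCharacter ↥W₁ η := by
      have h1 : IsCharacter ↥W₁ (fun x : ↥W₁ => μ ω (x : L)) :=
        Cfsg.Agent.Lib.CT.Ops.isCharacter_restrict W₁ (IsIrrCharacter.isCharacter (hμirr ω))
      have h2 : IsCharacter ↥W₁ (fun x : ↥W₁ => ((ω (inc x) : ℂˣ) : ℂ)) :=
        Cfsg.Agent.Lib.CT.LinChar.isCharacter_of_hom (ω.comp inc)
      have hδ : δ ω = 1 ∨ δ ω = -1 := by rw [hδdef]; exact hε _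
      rcases hδ with h | h
      · refine ⟨_, _, h1, h2, ?_⟩
        funext x
        rw [hηdef, h]
        simp
      · refine ⟨_, 0, Cfsg.Agent.Lib.CT.Ops.isCharacter_add h1 h2,
          Cfsg.Agent.Lib.CT.Ops.isCharacter_zero, ?_⟩
        funext x
        rw [hηdef, h]
        simp
    have htriv : IsGeneralizedCharacter ↥W₁ (fun _ => (1 : ℂ)) :=
      isGeneralizedCharacter_of_irr Cfsg.Agent.Lib.CT.Ops.isIrrCharacter_one
    obtain ⟨m, hm⟩ := classInner_genChar_int hηgen htriv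
    refine ⟨m, ?_⟩
    rw [← hm]
    unfold classInner
    rw [Finset.sum_eq_single (1 : ↥W₁)]
    · have hW0 : (Nat.card W₁ : ℂ) ≠ 0 := by exact_mod_cast Nat.card_pos.ne'
      have h1 : η 1 = μ ω 1 - δ ω := by
        rw [hηdef]
        simp
      rw [h1]
      simp
      field_simp
    · intro x _ hx
      rw [hη0 x hx, zero_mul]
    · intro h; exact absurd (Finset.mem_univ _) h
  exact ⟨μ, δ, hμinj, hμirr, fun ω => by rw [hδdef]; exact hε _, hd,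
    fun ω w hw => (hkey w hw).1 ω, fun θ' hθ' hne w hw => (hkey w hw).2 θ' hθ' hne, hg⟩

end Cfsg.Agent.S1511
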