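import Cfsg.Statements.S1685
import Cfsg.Agent.Lib.Helper29.S1685.Up0
import Cfsg.Agent.Lib.Helper29.S1685.Up1
import Cfsg.Agent.Lib.Helper29.S1685.Up2
import Cfsg.Agent.Lib.Helper29.S1685.Up3
import Cfsg.Agent.Lib.Helper29.S1685.Lo0
import Cfsg.Agent.Lib.Helper29.S1685.Lo1
import Cfsg.Agent.Lib.Helper29.S1685.Lo2
import Cfsg.Agent.Lib.Helper29.S1685.Lo3

set_option autoImplicit false
open Cfsg

namespace Cfsg.Agent.S1685

open Cfsg.Agent.Lib.Helper29 Cfsg.Agent.Lib.Helper29.TcTrace Cfsg.Agent.Lib.Helper29.TcCert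
  Cfsg.Agent.Lib.Helper29.TcPerm Cfsg.Agent.Lib.Helper29.TcCox Cfsg.Agent.Lib.Helper29.S1685 in
theorem upAll : ∀ b, b < 910 → ∃ J, chkBlk D lay cols 22 20020 b J = true := fun b h =>
  if h0 : b < 228 then up_0_228 b (Nat.zero_le _) h0 else
  if h1 : b < 456 then up_228_456 b (Nat.le_of_not_lt h0) h1 else
  if h2 : b < 684 then up_456_684 b (Nat.le_of_not_lt h1) h2 else
  up_684_910 b (Nat.le_of_not_lt h2) h

open Cfsg.Agent.Lib.Helper29 Cfsg.Agent.Lib.Helper29.TcTrace Cfsg.Agent.Lib.Helper29.TcCert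
  Cfsg.Agent.Lib.Helper29.TcPerm Cfsg.Agent.Lib.Helper29.TcCox Cfsg.Agent.Lib.Helper29.S1685 in
theorem loAll : ∀ b, b < 352 → ∃ J, chkPBlk P 5 31 40 14080 b J = true := fun b h =>
  if h0 : b < 88 then lo_0_88 b (Nat.zero_le _) h0 else
  if h1 : b < 176 then lo_88_176 b (Nat.le_of_not_lt h0) h1 else
  if h2 : b < 264 then lo_176_264 b (Nat.le_of_not_lt h1) h2 else
  lo_264_352 b (Nat.le_of_not_lt h2) h

open Cfsg.Agent.Lib.Helper29 Cfsg.Agent.Lib.Helper29.TcTrace Cfsg.Agent.Lib.Helper29.TcCert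
  Cfsg.Agent.Lib.Helper29.TcPerm Cfsg.Agent.Lib.Helper29.TcCox Cfsg.Agent.Lib.Helper29.S1685 in
theorem ok : CoxOK Cfsg.Spor.Fi22.edges Cfsg.Spor.Fi22.extra
    ({Cfsg.Spor.Fi22.b, Cfsg.Spor.Fi22.c, Cfsg.Spor.Fi22.d, Cfsg.Spor.Fi22.e, Cfsg.Spor.Fi22.f, Cfsg.Spor.Fi22.g, Cfsg.Spor.Fi22.h, Cfsg.Spor.Fi22.i} : Set (FreeGroup Cfsg.Spor.Fi22.Gen))
    nodesL extraWords hWords colOf colLetters invL 9 8
    D 19 380380 14080 8 524287 VL RL MG MT PAR PL FIN VERT vtree lay cols 22 20020 910 baseL P 5 31 40 352 where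
  hnodes := by decide
  hnodes' := by decide
  hextra := by rfl
  hS := by
    intro x
    simp only [Set.mem_insert_iff, Set.mem_singleton_iff, hWords, List.map_cons, List.map_nil,
      List.mem_cons, List.not_mem_nil, or_false]
    exact Iff.rfl
  hcolOf := by rintro ⟨x, y⟩; cases x <;> cases y <;> decide
  hround := by decide
  hinvL := by decide
  hinvinv := by decide
  hnH := by rfl
  hD := by rfl
  hW := by decide
  hWN := by decide
  hN := by decide
  hRL := by decide +kernel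
  hVLlen := by rfl
  hRLlen := by rfl
  hRH := by decide +kernel
  hlive0 := by decide +kernel
  hcols := by decide
  hB := by decide
  hcov := by decide
  hblk := upAll
  hbase := by decide +kernel
  hvtree := by decide +kernel
  hWL := by decide
  hPn := by decide
  hn := by decide
  hPcols := by decide
  hPrels := by decide +kernel
  hPhws := by decide +kernel
  hPtwl := by decide +kernel
  hPnH := by rfl
  hBL := by decide
  hcovL := by decide
  hblkL := loAll
  hbound1 := by decide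
  hbv := by decide +kernel

/-- In the presented Fischer group Fi₂₂ (generators a, …, i), the subgroup generated by the images of b, c, d, e, f, g, h, i has index 14080. -/
theorem result : (((Subgroup.closure ({Cfsg.Spor.Fi22.b, Cfsg.Spor.Fi22.c, Cfsg.Spor.Fi22.d, Cfsg.Spor.Fi22.e, Cfsg.Spor.Fi22.f, Cfsg.Spor.Fi22.g, Cfsg.Spor.Fi22.h, Cfsg.Spor.Fi22.i} : Set (FreeGroup Cfsg.Spor.Fi22.Gen))).map (PresentedGroup.mk (Cfsg.Spor.coxRelators Cfsg.Spor.Fi22.edges ∪ {r | r ∈ Cfsg.Spor.Fi22.extra})))).index = 14080 := by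
  obtain ⟨hidx, f, hf, horb⟩ := Cfsg.Agent.Lib.Helper29.TcCox.cox_main ok
  exact hidx


end Cfsg.Agent.S1685
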