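import Cfsg.Statements.S0896
import Mathlib
import Cfsg.Agent.Lib.Helper3.BrauerMain
import Cfsg.Agent.Lib.Helper3.Dade

set_option autoImplicit false
open Cfsg

namespace Cfsg.Agent.S0896

open Cfsg.Agent.Lib.Helper3.Irr Cfsg.Agent.Lib.CT.FrobRec Cfsg.Agent.Lib.CT.Clifford
  Cfsg.Agent.Lib.Helper3.BrauerMain Cfsg.Agent.Lib.Helper3.Dade
open scoped ComplexConjugate

universe u

/-- The restriction of `ϑ` to `N ∩ E`, viewed inside `E`. -/
noncomputable def resM {G : Type u} [Group G] (N : Subgroup G) (ϑ : N → ℂ) (E : Subgroup G) :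
    N.subgroupOf E → ℂ :=
  fun x => ϑ ⟨((x : E) : G), Subgroup.mem_subgroupOf.1 x.2⟩

theorem isCharacter_resM {G : Type u} [Group G] (N : Subgroup G) {ϑ : N → ℂ}
    (hϑ : IsCharacter N ϑ) (E : Subgroup G) : IsCharacter (N.subgroupOf E) (resM N ϑ E) := by
  let f : N.subgroupOf E →* N :=
    { toFun := fun x => ⟨((x : E) : G), Subgroup.mem_subgroupOf.1 x.2⟩
      map_one' := rfl
      map_mul' := fun _ _ => rfl }
  exact Cfsg.Agent.Lib.CT.Ops.isCharacter_comp_hom f hϑ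

/-- An elementary subgroup covering `G/N` on which a character has inner product prime to `p`
against `ϑ`. -/
def Good {G : Type u} [Group G] [Fintype G] (p : ℕ) (N : Subgroup G) (ϑ : N → ℂ) : Prop :=
  ∃ (E : Subgroup G) (ψ : E → ℂ), IsElementary p E ∧ IsCharacter E ψ ∧ N ⊔ E = ⊤ ∧
    ∃ I : ℕ, ¬ p ∣ I ∧ ∀ [Fintype (N.subgroupOf E)],
      classInner (fun x : N.subgroupOf E => ψ (x : E) * resM N ϑ E x) (resM N ϑ E) = I

theorem good_of_mem {G : Type u} [Group G] [Fintype G] {p : ℕ} (hp : p.Prime) (N : Subgroup G)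
    [hN : N.Normal] [Fintype N] {k : ℕ} (hk : N.index = p ^ k) (ϑ : N → ℂ)
    (hϑ : IsCharacter N ϑ)
    (hinv : ∀ (g : G) (n : N), ϑ ⟨g * n * g⁻¹, hN.conj_mem (n : G) n.2 g⟩ = ϑ n)
    {f : G → ℂ} (hf : f ∈ elemSpan p G) :
    ∃ z : ℤ, dadeL N ϑ f = z ∧ (¬ (p : ℤ) ∣ z → Good p N ϑ) := by
  classical
  refine AddSubgroup.closure_induction
    (p := fun f _ => ∃ z : ℤ, dadeL N ϑ f = z ∧ (¬ (p : ℤ) ∣ z → Good p N ϑ)) ?_ ?_ ?_ ?_ hf
  · rintro f ⟨E, ψ, hE, hψ, rfl⟩
    haveI : Fintype E := Fintype.ofFinite _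
    haveI instM : Fintype (N.subgroupOf E) := Fintype.ofFinite _
    have hα := isCharacter_resM N hϑ E
    have hγ : IsCharacter (N.subgroupOf E)
        (fun x : N.subgroupOf E => ψ (x : E) * resM N ϑ E x) :=
      Cfsg.Agent.Lib.CT.Ops.isCharacter_mul
        (Cfsg.Agent.Lib.CT.Ops.isCharacter_restrict (N.subgroupOf E) hψ) hα
    obtain ⟨I, hI⟩ := classInner_char_nat hγ hα
    refine ⟨((N ⊔ E).index : ℤ) * (I : ℤ), ?_, ?_⟩
    · rw [dadeL_indFun N ϑ hinv E ψ]
      have : classInner (fun x : N.subgroupOf E => ψ (x : E) *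
          ϑ ⟨((x : E) : G), Subgroup.mem_subgroupOf.1 x.2⟩)
          (fun x : N.subgroupOf E => ϑ ⟨((x : E) : G), Subgroup.mem_subgroupOf.1 x.2⟩) = I := hI
      rw [this]
      push_cast
      ring
    · intro hz
      have h1 : ¬ p ∣ (N ⊔ E).index := by
        intro h
        apply hz
        exact Dvd.dvd.mul_right (Int.natCast_dvd_natCast.2 h) _
      have h2 : ¬ p ∣ I := by
        intro h
        apply hz
        exact Dvd.dvd.mul_left (Int.natCast_dvd_natCast.2 h) _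
      have h3 : (N ⊔ E).index ∣ p ^ k := by
        rw [← hk]
        exact Subgroup.index_dvd_of_le le_sup_left
      obtain ⟨j, -, hj⟩ := (Nat.dvd_prime_pow hp).1 h3
      have h4 : N ⊔ E = ⊤ := by
        rw [← Subgroup.index_eq_one, hj]
        rcases Nat.eq_zero_or_pos j with h0 | hpos
        · rw [h0, pow_zero]
        · exfalso
          apply h1
          rw [hj]
          exact dvd_pow_self p hpos.ne'
      refine ⟨E, ψ, hE, hψ, h4, I, h2, ?_⟩
      intro inst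
      have hinst : inst = instM := Subsingleton.elim _ _
      subst hinst
      exact hI
  · exact ⟨0, by rw [dadeL_zero]; simp, fun h => absurd (dvd_zero _) h⟩
  · rintro x y _ _ ⟨z₁, h₁, g₁⟩ ⟨z₂, h₂, g₂⟩
    refine ⟨z₁ + z₂, by rw [dadeL_add, h₁, h₂]; push_cast; ring, fun h => ?_⟩
    by_cases hz₁ : (p : ℤ) ∣ z₁
    · apply g₂
      intro hz₂
      exact h (dvd_add hz₁ hz₂)
    · exact g₁ hz₁
  · rintro x _ ⟨z, h₁, g₁⟩
    refine ⟨-z, by rw [dadeL_neg, h₁]; push_cast; ring, fun h => g₁ (fun hz => h ?_)⟩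
    exact (dvd_neg).2 hz

/-- Let N be a normal subgroup of the finite group G with the index of N a power of the prime p, and ϑ an irreducible character of N invariant under conjugation by G. Then there are a p-elementary subgroup E of G with E ⊔ N = ⊤ and an irreducible character φ of the subgroup E ⊓ N, invariant under conjugation by E, such that the inner product of the restriction of ϑ to E ⊓ N with φ is an integer not divisible by p. -/
theorem result {G : Type*} [Group G] [Fintype G] (p : ℕ) (hp : p.Prime) (N : Subgroup G) [hN : N.Normal] (hind : ∃ k : ℕ, N.index = p ^ k) (ϑ : N → ℂ) (hϑ : Cfsg.IsIrrCharacter N ϑ) (hinv : ∀ (g : G) (n : N), ϑ ⟨g * n * g⁻¹, hN.conj_mem (n : G) n.2 g⟩ = ϑ n) : ∃ (E : Subgroup G) (φ : ↥(E ⊓ N) → ℂ), Cfsg.IsElementary p E ∧ E ⊔ N = ⊤ ∧ Cfsg.IsIrrCharacter ↥(E ⊓ N) φ ∧ (∀ (g : G) (hg : g ∈ E) (x : ↥(E ⊓ N)), φ ⟨g * x * g⁻¹, ⟨(E.mul_mem (E.mul_mem hg x.2.1) (E.inv_mem hg)), hN.conj_mem (x : G)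 x.2.2 g⟩⟩ = φ x) ∧ ∃ m : ℕ, ¬ p ∣ m ∧ (Nat.card ↥(E ⊓ N) : ℂ)⁻¹ * ∑ᶠ x : ↥(E ⊓ N), ϑ ⟨(x : G), x.2.2⟩ * conj (φ x) = (m : ℂ) := by
  classical
  haveI : Fact p.Prime := ⟨hp⟩
  haveI : Fintype N := Fintype.ofFinite _
  obtain ⟨k, hk⟩ := hind
  obtain ⟨m₀, hm₀, hmem⟩ := brauer_local (G := G) (p := p)
  obtain ⟨z, hz, hgood⟩ := good_of_mem hp N hk ϑ (IsIrrCharacter.isCharacter hϑ) hinv hmem
  rw [dadeL_const N hϑ] at hz
  have hz' : m₀ = z := by exact_mod_cast hz
  obtain ⟨E, ψ, hE, hψ, hsup, I, hI, hII⟩ := hgood (by rw [← hz']; exact hm₀)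
  haveI : Fintype E := Fintype.ofFinite _
  haveI : Fintype (N.subgroupOf E) := Fintype.ofFinite _
  have hMn : (N.subgroupOf E).Normal := hN.subgroupOf E
  have hMidx : (N.subgroupOf E).index = p ^ k := by
    have e3 : N.relIndex (N ⊔ E) = N.relIndex E := Subgroup.relIndex_sup_left E N
    rw [hsup, Subgroup.relIndex_top_right, hk] at e3
    exact e3.symm
  have hα := isCharacter_resM N (IsIrrCharacter.isCharacter hϑ) E
  have hγ : IsCharacter (N.subgroupOf E)
      (fun x : N.subgroupOf E => ψ (x : E) * resM N ϑ E x) :=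
    Cfsg.Agent.Lib.CT.Ops.isCharacter_mul
      (Cfsg.Agent.Lib.CT.Ops.isCharacter_restrict (N.subgroupOf E) hψ) hα
  have hαinv : ∀ e : E, conjFun (N.subgroupOf E) hMn (resM N ϑ E) e = resM N ϑ E := by
    intro e
    funext x
    rw [conjFun_apply]
    exact hinv (e : G) ⟨((x : E) : G), Subgroup.mem_subgroupOf.1 x.2⟩
  have hγinv : ∀ e : E, conjFun (N.subgroupOf E) hMn
      (fun x : N.subgroupOf E => ψ (x : E) * resM N ϑ E x) e
        = (fun x : N.subgroupOf E => ψ (x : E) * resM N ϑ E x) := by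
    intro e
    funext x
    rw [conjFun_apply]
    have h1 := congrFun (hαinv e) x
    rw [conjFun_apply] at h1
    simp only
    rw [h1]
    congr 1
    exact IsCharacter.isClassFunction hψ (x : E) e
  obtain ⟨φM, hφM, hφinv, m, hm, hmeq⟩ := exists_invariant_constituent hp (N.subgroupOf E) hMn
    hMidx hα hγ hαinv hγinv hII hI
  let ι : ↥(E ⊓ N) ≃* N.subgroupOf E :=
    { toFun := fun x => ⟨⟨(x : G), x.2.1⟩, Subgroup.mem_subgroupOf.2 x.2.2⟩
      invFun := fun y => ⟨((y : E) : G), ⟨(y : E).2, Subgroup.mem_subgroupOf.1 y.2⟩⟩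
      left_inv := fun x => rfl
      right_inv := fun y => rfl
      map_mul' := fun _ _ => rfl }
  refine ⟨E, fun x => φM (ι x), hE, by rw [sup_comm]; exact hsup,
    Cfsg.Agent.Lib.CT.Ops.isIrrCharacter_comp_mulEquiv ι hφM, ?_, m, hm, ?_⟩
  · intro g hg x
    have h1 := congrFun (hφinv ⟨g, hg⟩) (ι x)
    rw [conjFun_apply] at h1
    exact h1
  · rw [← hmeq]
    unfold classInner
    rw [Nat.card_congr ι.toEquiv]
    congr 1
    rw [← finsum_eq_sum_of_fintype]
    exact finsum_comp_equiv ι.toEquiv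
      (f := fun y : N.subgroupOf E => resM N ϑ E y * conj (φM y))

end Cfsg.Agent.S0896
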