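import Cfsg.Statements.S0153
import Mathlib
import Cfsg.Agent.Lib.Helper3.Orth

set_option autoImplicit false
open Cfsg

namespace Cfsg.Agent.S0153

open Cfsg.Agent.Lib.Helper3.Irr Cfsg.Agent.Lib.Helper3.Orth


universe u v

/-- The character of a product representation. -/
theorem char_prod' {G : Type*} [Group G] {V W : Type*} [AddCommGroup V] [Module ℂ V]
    [FiniteDimensional ℂ V] [AddCommGroup W] [Module ℂ W] [FiniteDimensional ℂ W]
    (ρ : Representation ℂ G V) (σ : Representation ℂ G W) :
    (ρ.prod σ).character = ρ.character + σ.character := by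
  funext g
  simp only [Representation.character, Pi.add_apply]
  exact LinearMap.trace_prodMap' (ρ g) (σ g)

/-- An injective intertwiner splits off as a direct factor (Maschke). -/
theorem exists_prod_equiv {G : Type*} [Group G] [Finite G] {T V : Type*} [AddCommGroup T]
    [Module ℂ T] [AddCommGroup V] [Module ℂ V] (τ : Representation ℂ G T)
    (ρ : Representation ℂ G V) (f : Representation.IntertwiningMap τ ρ)
    (hf : Function.Injective f) :
    ∃ U' : Subrepresentation ρ, Nonempty ((τ.prod U'.toRepresentation).Equiv ρ) := by
  have : NeZero (Nat.card G : ℂ) := ⟨by exact_mod_cast Nat.card_pos.ne'⟩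
  obtain ⟨U', hcompl⟩ := exists_isCompl f.range
  refine ⟨U', ?_⟩
  let Φ : T × U'.toSubmodule →ₗ[ℂ] V := f.toLinearMap.coprod U'.toSubmodule.subtype
  have hΦ : ∀ x : T × U'.toSubmodule, Φ x = f x.1 + (x.2 : V) := fun x => rfl
  have hint : ∀ g, Φ ∘ₗ (τ.prod U'.toRepresentation) g = ρ g ∘ₗ Φ := by
    intro g
    refine LinearMap.ext (fun x => ?_)
    rw [LinearMap.comp_apply, LinearMap.comp_apply, hΦ, hΦ, Representation.prod_apply_apply,
      map_add]
    have h1 : f (τ g x.1) = ρ g (f x.1) := LinearMap.congr_fun (f.isIntertwining' g) x.1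
    have h2 : ((U'.toRepresentation g x.2 : U'.toSubmodule) : V) = ρ g (x.2 : V) := rfl
    show f (τ g x.1) + ((U'.toRepresentation g x.2 : U'.toSubmodule) : V) = _
    rw [h1, h2]
  let F : Representation.IntertwiningMap (τ.prod U'.toRepresentation) ρ := ⟨Φ, hint⟩
  have hdisj : f.range.toSubmodule ⊓ U'.toSubmodule = ⊥ := by
    have := hcompl.inf_eq_bot
    exact congrArg Subrepresentation.toSubmodule this
  have hsup : f.range.toSubmodule ⊔ U'.toSubmodule = ⊤ := by
    have := hcompl.sup_eq_top
    exact congrArg Subrepresentation.toSubmodule this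
  have hbij : Function.Bijective F := by
    constructor
    · show Function.Injective Φ
      rw [← LinearMap.ker_eq_bot (f := Φ), LinearMap.ker_eq_bot']
      intro x hx
      rw [hΦ] at hx
      have h1 : f x.1 ∈ f.range.toSubmodule ⊓ U'.toSubmodule := by
        refine ⟨⟨x.1, rfl⟩, ?_⟩
        have : f x.1 = -(x.2 : V) := eq_neg_of_add_eq_zero_left hx
        rw [this]
        exact U'.toSubmodule.neg_mem x.2.2
      rw [hdisj, Submodule.mem_bot] at h1
      have h2 : x.1 = 0 := hf (by rw [h1, map_zero])
      have h3 : (x.2 : V) = 0 := by rw [h1, zero_add] at hx; exact hx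
      exact Prod.ext h2 (Subtype.ext h3)
    · show Function.Surjective Φ
      intro v
      have hv : v ∈ f.range.toSubmodule ⊔ U'.toSubmodule := by rw [hsup]; trivial
      obtain ⟨a, ⟨t, rfl⟩, b, hb, rfl⟩ := Submodule.mem_sup.1 hv
      exact ⟨(t, ⟨b, hb⟩), rfl⟩
  exact ⟨F.ofBijective hbij⟩

/-- Equivalent representations stay equivalent after adding a common factor. -/
theorem prod_equiv_congr {G : Type*} [Group G] {T A B : Type*} [AddCommGroup T]
    [Module ℂ T] [AddCommGroup A] [Module ℂ A] [AddCommGroup B] [Module ℂ B]
    (τ : Representation ℂ G T) {α : Representation ℂ G A} {β : Representation ℂ G B}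
    (e : α.Equiv β) : Nonempty ((τ.prod α).Equiv (τ.prod β)) := by
  refine ⟨Representation.Equiv.mk ((LinearEquiv.refl ℂ T).prodCongr e.toLinearEquiv) ?_⟩
  intro g
  refine LinearMap.ext (fun x => ?_)
  have h1 : e (α g x.2) = β g (e x.2) := LinearMap.congr_fun (e.isIntertwining' g) x.2
  simp only [LinearMap.comp_apply, LinearEquiv.coe_coe, Representation.prod_apply_apply,
    LinearEquiv.prodCongr_apply, LinearEquiv.refl_apply]
  exact Prod.ext rfl h1

/-- A nonzero inner product with an irreducible character gives an injective intertwiner. -/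
theorem exists_injective_of_inner_ne_zero {G : Type*} [Group G] [Fintype G] {T X : Type*}
    [AddCommGroup T] [Module ℂ T] [FiniteDimensional ℂ T] [AddCommGroup X] [Module ℂ X]
    [FiniteDimensional ℂ X] (τ : Representation ℂ G T) [τ.IsIrreducible]
    (π : Representation ℂ G X) (hne : classInner π.character τ.character ≠ 0) :
    ∃ f : Representation.IntertwiningMap τ π, Function.Injective f := by
  have hinv : Invertible (Nat.card G : ℂ) :=
    invertibleOfNonzero (by exact_mod_cast Nat.card_pos.ne')
  have h1 := Representation.card_inv_mul_sum_char_mul_char_eq_finrank τ π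
  have h2 : classInner π.character τ.character
      = (Nat.card G : ℂ)⁻¹ * ∑ g : G, π.character g * τ.character g⁻¹ := by
    unfold classInner
    congr 1
    refine Finset.sum_congr rfl (fun g _ => ?_)
    rw [Cfsg.Agent.Lib.Helper3.Spectral.char_inv]
  rw [h2, h1] at hne
  have h3 : Module.finrank ℂ (Representation.IntertwiningMap τ π) ≠ 0 := by
    exact_mod_cast hne
  obtain ⟨f, hf⟩ : ∃ f : Representation.IntertwiningMap τ π, f ≠ 0 := by
    by_contra hcon
    push Not at hcon
    have : Subsingleton (Representation.IntertwiningMap τ π) :=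
      ⟨fun a b => by rw [hcon a, hcon b]⟩
    exact h3 (Module.finrank_zero_of_subsingleton)
  rcases Representation.IsIrreducible.injective_or_eq_zero f with h | h
  · exact ⟨f, h⟩
  · exact absurd h hf

theorem aux {G : Type*} [Group G] [Finite G] : ∀ (n : ℕ) (V : Type u) (W : Type v)
    [AddCommGroup V] [Module ℂ V] [FiniteDimensional ℂ V] [AddCommGroup W] [Module ℂ W]
    [FiniteDimensional ℂ W] (ρ : Representation ℂ G V) (σ : Representation ℂ G W),
    Module.finrank ℂ V = n → ρ.character = σ.character → Nonempty (ρ.Equiv σ) := by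
  classical
  have : Fintype G := Fintype.ofFinite G
  have hinv : Invertible (Nat.card G : ℂ) :=
    invertibleOfNonzero (by exact_mod_cast Nat.card_pos.ne')
  have hcard : (Nat.card G : ℂ) ≠ 0 := by exact_mod_cast Nat.card_pos.ne'
  have := finite_irrCharacter (G := G)
  have : Fintype (IrrCharacter G) := Fintype.ofFinite _
  intro n
  induction n using Nat.strong_induction_on with
  | _ n ih =>
    intro V W _ _ _ _ _ _ ρ σ hn hchar
    have hdim : Module.finrank ℂ W = Module.finrank ℂ V := by
      have h1 := congrFun hchar 1
      rw [Representation.char_one, Representation.char_one] at h1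
      exact_mod_cast h1.symm
    rcases Nat.eq_zero_or_pos n with h0 | hpos
    · -- zero-dimensional case
      have hV : Subsingleton V := Module.finrank_zero_iff.1 (by rw [hn, h0])
      have hW : Subsingleton W := Module.finrank_zero_iff.1 (by rw [hdim, hn, h0])
      refine ⟨Representation.Equiv.mk (LinearEquiv.ofFinrankEq V W hdim.symm) ?_⟩
      intro g
      ext v
      exact Subsingleton.elim _ _
    · -- find an irreducible constituent
      have hχ : IsCharacter G ρ.character := isCharacter_of_rep ρ
      obtain ⟨ψ, hψ⟩ : ∃ ψ : IrrCharacter G, classInner ρ.character (ψ : G → ℂ) ≠ 0 := by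
        by_contra hcon
        push Not at hcon
        have h1 := classFunction_eq_sum ρ.character (IsCharacter.isClassFunction hχ)
        simp only [hcon, zero_smul, Finset.sum_const_zero] at h1
        have h2 := congrFun h1 1
        rw [Representation.char_one, hn] at h2
        have : (n : ℂ) ≠ 0 := by exact_mod_cast hpos.ne'
        exact this h2
      obtain ⟨ψ, d, τ, hτ, rfl⟩ := ψ
      obtain ⟨f₁, hf₁⟩ := exists_injective_of_inner_ne_zero τ ρ hψ
      obtain ⟨f₂, hf₂⟩ := exists_injective_of_inner_ne_zero τ σ (by rw [← hchar]; exact hψ)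
      obtain ⟨U', ⟨E₁⟩⟩ := exists_prod_equiv τ ρ f₁ hf₁
      obtain ⟨W', ⟨E₂⟩⟩ := exists_prod_equiv τ σ f₂ hf₂
      have hc1 : ρ.character = τ.character + U'.toRepresentation.character := by
        rw [← Representation.char_iso E₁, char_prod']
      have hc2 : σ.character = τ.character + W'.toRepresentation.character := by
        rw [← Representation.char_iso E₂, char_prod']
      have hc3 : U'.toRepresentation.character = W'.toRepresentation.character := by
        rw [hc1, hc2] at hchar
        exact add_left_cancel hchar
      have hlt : Module.finrank ℂ U'.toSubmodule < n := by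
        have h1 : Module.finrank ℂ ((Fin d → ℂ) × U'.toSubmodule) = Module.finrank ℂ V :=
          E₁.toLinearEquiv.finrank_eq
        rw [Module.finrank_prod, hn] at h1
        have h2 : 0 < Module.finrank ℂ (Fin d → ℂ) := finrank_pos_of_isIrreducible τ
        omega
      obtain ⟨e'⟩ := ih _ hlt U'.toSubmodule W'.toSubmodule U'.toRepresentation
        W'.toRepresentation rfl hc3
      obtain ⟨E₃⟩ := prod_equiv_congr τ e'
      exact ⟨(E₁.symm.trans E₃).trans E₂⟩

/-- Complex representations of a finite group with equal characters are equivalent. -/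
theorem result {G : Type*} [Group G] [Finite G] {V W : Type*} [AddCommGroup V] [Module ℂ V] [FiniteDimensional ℂ V] [AddCommGroup W] [Module ℂ W] [FiniteDimensional ℂ W] (ρ : Representation ℂ G V) (σ : Representation ℂ G W) (h : ρ.character = σ.character) : Nonempty (ρ.Equiv σ) := by
  exact aux _ V W ρ σ rfl h

end Cfsg.Agent.S0153
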