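import Cfsg.Statements.S0595
import Cfsg.Agent.Lib.Helper11.QuadSylow

set_option autoImplicit false
open Cfsg

namespace Cfsg.Agent.S0595

/-- For odd p, a faithful action on an elementary abelian p-group that is not p-stable forces non-abelian Sylow 2-subgroups. -/
theorem result {G : Type*} [Group G] [Finite G] {p : ℕ} [Fact p.Prime] (hp : p ≠ 2) (V H : Subgroup G) (hV : Cfsg.IsElementaryAbelian p V) (hHV : H ≤ Subgroup.normalizer (V : Set G)) (hf : H ⊓ Subgroup.centralizer (V : Set G) = ⊥) (a : G) (haH : a ∈ H) (hq : ⁅⁅V, Subgroup.zpowers a⁆, Subgroup.zpowers a⁆ = ⊥) (hna : a ∉ (Cfsg.pCore p H).map H.subtype) (T : Sylow 2 H) : ¬ IsMulCommutative T := by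
  obtain ⟨y₁, y₂, -, -, hy₁, hy₂, hq₁, hq₂, hle, hnp⟩ :=
    Cfsg.Agent.Lib.Helper11.QuadSylow.exists_pair_of_not_mem_pCore V H hHV a haH hq hna
  have hf' : Subgroup.closure ({y₁, y₂} : Set G) ⊓ Subgroup.centralizer (V : Set G) = ⊥ := by
    rw [eq_bot_iff, ← hf]
    exact inf_le_inf_right _ hle
  obtain ⟨K, L, hL, hK, ⟨e⟩⟩ :=
    Cfsg.Agent.Lib.Helper11.QuadBridge.exists_SL2_section hp V
      (Subgroup.closure ({y₁, y₂} : Set G)) hV (hle.trans hHV) hf' y₁ y₂ rfl hq₁ hq₂ hnp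
  obtain ⟨x, y, hxy, hne⟩ := Cfsg.Agent.Lib.Helper11.QuadSylow.exists_nonabelian_two_subgroup hp
  exact Cfsg.Agent.Lib.Helper11.QuadSylow.not_comm_sylow_of_section H K L hL (hK.trans hle) e x y
    hxy hne T

end Cfsg.Agent.S0595
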