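import Mathlib
import Cfsg.Statements.S2034
import Cfsg.Agent.Lib.Helper66.StemLocal
import Cfsg.Agent.Lib.Helper86.M11Syl
import Cfsg.Agent.Lib.Helper86.SD16

set_option autoImplicit false
open Cfsg

namespace Cfsg.Agent.S2034

open Cfsg.Spor Cfsg.Agent.Lib.Helper7.GolayBase Cfsg.Agent.Lib.Helper7.GolayPerm
  Cfsg.Agent.Lib.Helper86.M11Data Cfsg.Agent.Lib.Helper86.M11Core Cfsg.Agent.Lib.Helper86.M11Syl
open Cfsg.Agent.Lib.Helper66

/-- Table of an element of order 3. -/
def xT : List Nat :=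
  [0, 3, 6, 4, 1, 22, 18, 21, 12, 9, 5, 20, 16, 13, 14, 15, 8, 7, 2, 11, 19, 17, 10, 23]

/-- Table of a second element of order 3, commuting with the first. -/
def yT : List Nat :=
  [0, 6, 12, 18, 2, 10, 16, 21, 3, 9, 22, 11, 4, 13, 23, 14, 1, 7, 8, 19, 20, 17, 5, 15]

theorem ne_of_rep {g h : Equiv.Perm GolayPt} {s t : List Nat} (hg : Rep g s) (hh : Rep h t)
    {i : Nat} (hi : i < 24) (hne : s.getD i 0 ≠ t.getD i 0) : g ≠ h := by
  rintro rfl
  apply hne
  have h1 := hg.2 (pt i)
  have h2 := hh.2 (pt i)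
  rw [idx_pt hi] at h1 h2
  rw [h1, h2]

/-- Explicit elementary abelian subgroup of order 9 of `M11` with an element inverting one
generator and centralizing the other. -/
theorem exists_data3 : ∃ x y g : Equiv.Perm GolayPt, x ∈ M11 ∧ y ∈ M11 ∧ g ∈ M11 ∧
    x ^ 3 = 1 ∧ x ≠ 1 ∧ y ^ 3 = 1 ∧ x * y = y * x ∧ y ≠ 1 ∧ y ≠ x ∧ y ≠ x ^ 2 ∧
    g * x * g⁻¹ = x⁻¹ ∧ g * y * g⁻¹ = y := by
  obtain ⟨a, ha, hra⟩ := tabsB_rep aT (by decide +kernel)
  obtain ⟨b, hb, hrb⟩ := tabsB_rep bT (by decide +kernel)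
  obtain ⟨g₁, hg₁, hr1⟩ := tabsB_rep g1T (by decide +kernel)
  obtain ⟨g₂, hg₂, hr2⟩ := tabsB_rep g2T (by decide +kernel)
  have hx : a * a * g₂ ∈ M11 := Subgroup.mul_mem _ (Subgroup.mul_mem _ ha ha) hg₂
  have hy : g₁ * a * b * g₁ * g₂ * a ∈ M11 :=
    Subgroup.mul_mem _ (Subgroup.mul_mem _ (Subgroup.mul_mem _ (Subgroup.mul_mem _
      (Subgroup.mul_mem _ hg₁ ha) hb) hg₁) hg₂) ha
  have hrx : Rep (a * a * g₂) xT := by
    have h := (hra.mul hra).mul hr2
    have e : tmul (tmul aT aT) g2T = xT := by decide +kernel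
    rw [e] at h
    exact h
  have hry : Rep (g₁ * a * b * g₁ * g₂ * a) yT := by
    have h := (((((hr1.mul hra).mul hrb).mul hr1).mul hr2).mul hra)
    have e : tmul (tmul (tmul (tmul (tmul g1T aT) bT) g1T) g2T) aT = yT := by decide +kernel
    rw [e] at h
    exact h
  refine ⟨a * a * g₂, g₁ * a * b * g₁ * g₂ * a, b, hx, hy, hb, ?_, ?_, ?_, ?_, ?_, ?_, ?_, ?_, ?_⟩
  · have h := rep_pow hrx 3
    have e : tpow xT 3 = idT := by decide +kernel
    rw [e] at h
    exact h.eq_one
  · exact ne_one_of_rep hrx (i := 1) (by decide) (by decide +kernel)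
  · have h := rep_pow hry 3
    have e : tpow yT 3 = idT := by decide +kernel
    rw [e] at h
    exact h.eq_one
  · have hL := hrx.mul hry
    have hR := hry.mul hrx
    have e : tmul xT yT = tmul yT xT := by decide +kernel
    rw [e] at hL
    exact hL.ext hR
  · exact ne_one_of_rep hry (i := 1) (by decide) (by decide +kernel)
  · exact ne_of_rep hry hrx (i := 1) (by decide) (by decide +kernel)
  · exact ne_of_rep hry (rep_pow hrx 2) (i := 1) (by decide) (by decide +kernel)
  · have h1 : a * a * g₂ * (b * (a * a * g₂)) = b := by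
      have hL := hrx.mul (hrb.mul hrx)
      have e : tmul xT (tmul bT xT) = bT := by decide +kernel
      rw [e] at hL
      exact hL.ext hrb
    have h2 : b * (a * a * g₂) = (a * a * g₂)⁻¹ * b := by
      rw [eq_inv_mul_iff_mul_eq]; exact h1
    rw [h2, mul_inv_cancel_right]
  · have h1 : b * (g₁ * a * b * g₁ * g₂ * a) = g₁ * a * b * g₁ * g₂ * a * b := by
      have hL := hrb.mul hry
      have hR := hry.mul hrb
      have e : tmul bT yT = tmul yT bT := by decide +kernel
      rw [e] at hL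
      exact hL.ext hR
    rw [h1, mul_inv_cancel_right]

theorem card_sylow2 (P : Sylow 2 Cfsg.Spor.M11) : Nat.card (P : Subgroup Cfsg.Spor.M11) = 16 := by
  rw [Sylow.card_eq_multiplicity, card_M11]
  have h : (7920 : ℕ) = 2 ^ 4 * 495 := by norm_num
  rw [Nat.factorization_def _ Nat.prime_two, h]
  rw [padicValNat.mul (by norm_num) (by norm_num), padicValNat.prime_pow,
    padicValNat.eq_zero_of_not_dvd (by norm_num)]
  rfl

/-- A prime `l ≠ 2, 3` divides `7920` at most once. -/
theorem factorization_le_one {l : ℕ} (hl : l.Prime) (h2 : l ≠ 2) (h3 : l ≠ 3) :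
    (7920 : ℕ).factorization l ≤ 1 := by
  by_contra hcon
  have h : 2 ≤ (7920 : ℕ).factorization l := by omega
  have hdvd : l ^ 2 ∣ 7920 := (hl.pow_dvd_iff_le_factorization (by norm_num)).mpr h
  have hl1 : l ∣ 7920 := dvd_trans (dvd_pow_self l (by norm_num)) hdvd
  have e : (7920 : ℕ) = 2 ^ 4 * 3 ^ 2 * 5 * 11 := by norm_num
  rw [e] at hl1
  rcases (Nat.Prime.dvd_mul hl).mp hl1 with h | h
  · rcases (Nat.Prime.dvd_mul hl).mp h with h | h
    · rcases (Nat.Prime.dvd_mul hl).mp h with h | h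
      · exact h2 ((Nat.prime_dvd_prime_iff_eq hl Nat.prime_two).mp (hl.dvd_of_dvd_pow h))
      · exact h3 ((Nat.prime_dvd_prime_iff_eq hl Nat.prime_three).mp (hl.dvd_of_dvd_pow h))
    · have h5 : l = 5 := (Nat.prime_dvd_prime_iff_eq hl (by norm_num)).mp h
      subst h5
      norm_num at hdvd
  · have h11 : l = 11 := (Nat.prime_dvd_prime_iff_eq hl (by norm_num)).mp h
    subst h11
    norm_num at hdvd

/-- In a finite group of order `7920`, a subgroup generated by two commuting elements of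
order `3`, the second not a power of the first, has index prime to `3`. -/
theorem index_coprime_three {G : Type*} [Group G] [Finite G] (hG : Nat.card G = 7920)
    {x y : G} (hx3 : x ^ 3 = 1) (hx1 : x ≠ 1) (hy3 : y ^ 3 = 1) (hxy : x * y = y * x)
    (hy1 : y ≠ 1) (hyx : y ≠ x) (hyx2 : y ≠ x ^ 2) :
    ((Subgroup.closure ({x, y} : Set G)).index).Coprime 3 := by
  classical
  have : Fact (Nat.Prime 3) := ⟨Nat.prime_three⟩
  have hcomm : ∀ u ∈ ({x, y} : Set G), ∀ v ∈ ({x, y} : Set G), u * v = v * u := by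
    intro u hu v hv
    have hu' : u = x ∨ u = y := hu
    have hv' : v = x ∨ v = y := hv
    rcases hu' with h1 | h1 <;> rcases hv' with h2 | h2 <;> rw [h1, h2]
    · exact hxy
    · exact hxy.symm
  have hmc := Subgroup.isMulCommutative_closure hcomm
  have hcube : ∀ u ∈ Subgroup.closure ({x, y} : Set G), u ^ 3 = 1 := by
    intro u hu
    induction hu using Subgroup.closure_induction with
    | mem a ha =>
      have ha' : a = x ∨ a = y := ha
      rcases ha' with h | h <;> rw [h]
      · exact hx3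
      · exact hy3
    | one => exact one_pow 3
    | mul a b ha hb iha ihb =>
      have hab : a * b = b * a :=
        congrArg Subtype.val (hmc.is_comm.comm ⟨a, ha⟩ ⟨b, hb⟩)
      rw [Commute.mul_pow hab, iha, ihb, one_mul]
    | inv a _ iha => rw [inv_pow, iha, inv_one]
  have hP : IsPGroup 3 (Subgroup.closure ({x, y} : Set G)) := by
    intro u
    refine ⟨1, Subtype.ext ?_⟩
    rw [pow_one, Subgroup.coe_pow]
    exact hcube u u.2
  obtain ⟨n, hn⟩ := IsPGroup.iff_card.mp hP
  have hox : orderOf x = 3 := orderOf_eq_prime hx3 hx1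
  have hxU : x ∈ Subgroup.closure ({x, y} : Set G) := Subgroup.subset_closure (by simp)
  have hyU : y ∈ Subgroup.closure ({x, y} : Set G) := Subgroup.subset_closure (by simp)
  have hz : Subgroup.zpowers x ≤ Subgroup.closure ({x, y} : Set G) :=
    Subgroup.zpowers_le.mpr hxU
  have hcz : Nat.card (Subgroup.zpowers x) = 3 := by rw [Nat.card_zpowers, hox]
  have hynot : y ∉ Subgroup.zpowers x := by
    intro hy
    obtain ⟨k, hk⟩ := Subgroup.mem_zpowers_iff.mp hy
    have h1 : x ^ (k % (3 : ℤ)) = y := by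
      have := zpow_mod_orderOf x k
      rw [hox, hk] at this
      exact_mod_cast this
    have hr0 : 0 ≤ k % 3 := Int.emod_nonneg _ (by norm_num)
    have hr3 : k % 3 < 3 := Int.emod_lt_of_pos _ (by norm_num)
    have hcases : k % 3 = 0 ∨ k % 3 = 1 ∨ k % 3 = 2 := by omega
    rcases hcases with h | h | h
    · rw [h, zpow_zero] at h1; exact hy1 h1.symm
    · rw [h, zpow_one] at h1; exact hyx h1.symm
    · rw [h] at h1
      have h2 : x ^ (2 : ℤ) = x ^ 2 := by exact_mod_cast rfl
      rw [h2] at h1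
      exact hyx2 h1.symm
  have hn2 : 2 ≤ n := by
    by_contra hcon
    have hn1 : n ≤ 1 := by omega
    have hle : Nat.card (Subgroup.closure ({x, y} : Set G)) ≤ 3 := by
      rw [hn]
      calc 3 ^ n ≤ 3 ^ 1 := Nat.pow_le_pow_right (by norm_num) hn1
        _ = 3 := by norm_num
    have heq := Subgroup.eq_of_le_of_card_ge hz (by rw [hcz]; exact hle)
    exact hynot (heq ▸ hyU)
  have h9 : 9 ∣ Nat.card (Subgroup.closure ({x, y} : Set G)) := by
    rw [hn]
    exact (by norm_num : (9 : ℕ) = 3 ^ 2) ▸ pow_dvd_pow 3 hn2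
  obtain ⟨m, hm⟩ := h9
  have hidx := Subgroup.card_mul_index (Subgroup.closure ({x, y} : Set G))
  rw [hG, hm] at hidx
  have h880 : (Subgroup.closure ({x, y} : Set G)).index ∣ 880 := by
    refine ⟨m, ?_⟩
    have : 9 * (m * (Subgroup.closure ({x, y} : Set G)).index) = 9 * 880 := by
      rw [← mul_assoc, hidx]
    have h := Nat.eq_of_mul_eq_mul_left (by norm_num : 0 < 9) this
    rw [← h, mul_comm]
  exact Nat.Coprime.coprime_dvd_left h880 (by norm_num)

/-- The Schur multiplier of the Mathieu group M₁₁ (the stabiliser of a dodecad and one of its points in the automorphism group of the length-24 binary code) is trivial; here the Schur multiplier is described through stem extensions, as in the definitions: surjective homomorphisms onto the group from a finite group, whose kernel is central in that finite group and contained in that finite group's commutator subgroup. -/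
theorem result : Cfsg.HasCyclicSchurMultiplier ↥Cfsg.Spor.M11 1 := by
  apply Cfsg.Agent.Lib.Helper35.Stem.hasCyclicSchurMultiplier_one
  intro Γ _ _ σ hσ
  apply StemLocal.ker_eq_bot_of_local σ hσ
  intro l hl
  have hfact : Fact l.Prime := ⟨hl⟩
  by_cases h2 : l = 2
  · subst h2
    obtain ⟨a, b, g₁, g₂, ha, hb, hg₁, hg₂, h8, h4, hb2, hba, hf1, hf2⟩ :=
      Cfsg.Agent.Lib.Helper86.M11Syl.exists_data
    have rel : Cfsg.Agent.Lib.Helper86.SD16.Rel (⟨a, ha⟩ : Cfsg.Spor.M11) ⟨b, hb⟩ :=
      { a8 := Subtype.ext h8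
        a4 := fun h => h4 (congrArg Subtype.val h)
        b2 := Subtype.ext hb2
        ba := Subtype.ext hba }
    obtain ⟨P, hP⟩ := rel.isPGroup.exists_le_sylow
    have hPeq := rel.closure_eq_of_card hP (card_sylow2 P)
    refine ⟨Subgroup.closure ({⟨a, ha⟩, ⟨b, hb⟩} : Set Cfsg.Spor.M11), ?_, ?_⟩
    · rw [hPeq, Nat.coprime_comm]
      exact (Nat.Prime.coprime_iff_not_dvd Nat.prime_two).mpr P.not_dvd_index
    · intro z hz
      rw [StemLocal.sd16_commutator_inf_ker σ hσ.1 hσ.2.1 rel, Subgroup.mem_bot] at hz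
      rw [hz, orderOf_one]
      norm_num
  by_cases h3 : l = 3
  · subst h3
    obtain ⟨x, y, g, hx, hy, hg, hx3, hx1, hy3, hxy, hy1, hyx, hyx2, hgx, hgy⟩ := exists_data3
    refine ⟨Subgroup.closure ({⟨x, hx⟩, ⟨y, hy⟩} : Set Cfsg.Spor.M11), ?_, ?_⟩
    · exact index_coprime_three card_M11 (x := (⟨x, hx⟩ : Cfsg.Spor.M11)) (y := ⟨y, hy⟩)
        (Subtype.ext hx3) (fun h => hx1 (congrArg Subtype.val h)) (Subtype.ext hy3)
        (Subtype.ext hxy) (fun h => hy1 (congrArg Subtype.val h))
        (fun h => hyx (congrArg Subtype.val h)) (fun h => hyx2 (congrArg Subtype.val h))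
    · intro z hz
      have hsq := StemLocal.sq_eq_one_of_pair σ hσ.1 hσ.2.1
        (x := (⟨x, hx⟩ : Cfsg.Spor.M11)) (y := ⟨y, hy⟩) (g := ⟨g, hg⟩)
        (Subtype.ext hxy) (Subtype.ext hgx) (Subtype.ext hgy) z (Subgroup.mem_inf.mp hz).1
      intro ho
      have hdvd := orderOf_dvd_of_pow_eq_one hsq
      rw [ho] at hdvd
      norm_num at hdvd
  · obtain ⟨P⟩ := (inferInstance : Nonempty (Sylow l Cfsg.Spor.M11))
    have hcard : Nat.card (P : Subgroup Cfsg.Spor.M11) = l ^ (7920 : ℕ).factorization l := by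
      rw [Sylow.card_eq_multiplicity, card_M11]
    have hle := factorization_le_one hl h2 h3
    have hcyc : IsCyclic (P : Subgroup Cfsg.Spor.M11) := by
      rcases Nat.lt_or_ge ((7920 : ℕ).factorization l) 1 with h | h
      · have h0 : (7920 : ℕ).factorization l = 0 := by omega
        rw [h0, pow_zero] at hcard
        have : Subsingleton (P : Subgroup Cfsg.Spor.M11) :=
          (Nat.card_eq_one_iff_unique.mp hcard).1
        exact isCyclic_of_subsingleton
      · have h1 : (7920 : ℕ).factorization l = 1 := le_antisymm hle h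
        rw [h1, pow_one] at hcard
        exact isCyclic_of_prime_card hcard
    refine ⟨(P : Subgroup Cfsg.Spor.M11), ?_, ?_⟩
    · rw [Nat.coprime_comm]
      exact (Nat.Prime.coprime_iff_not_dvd hl).mpr P.not_dvd_index
    · intro z hz
      rw [StemLocal.commutator_comap_eq_bot_of_isCyclic σ hσ.1 hσ.2.1] at hz
      have hz1 : z = 1 := by
        have := (Subgroup.mem_inf.mp hz).1
        rwa [Subgroup.mem_bot] at this
      rw [hz1, orderOf_one]
      exact hl.one_lt.ne

end Cfsg.Agent.S2034
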