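import Cfsg.Statements.S0254
import Cfsg.Agent.Lib.Helper5.SL2Card

set_option autoImplicit false
open Cfsg

namespace Cfsg.Agent.S0254

/-! The bridge: the group `P = ⟨x, y | x², y⁴, (xy)⁵, (xy²)⁵⟩` has 360 elements (verified coset
enumeration) and maps injectively into both `PSL(2,9)` and `Sym(6)`. -/

abbrev rels : Set (FreeGroup (Fin 2)) :=
  {FreeGroup.of (0 : Fin 2) ^ 2, FreeGroup.of (1 : Fin 2) ^ 4,
    (FreeGroup.of (0 : Fin 2) * FreeGroup.of 1) ^ 5,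
    (FreeGroup.of (0 : Fin 2) * FreeGroup.of 1 * FreeGroup.of 1) ^ 5}

abbrev P := PresentedGroup rels

noncomputable def x : P := PresentedGroup.of 0
noncomputable def y : P := PresentedGroup.of 1

theorem hx2 : x ^ 2 = 1 := by
  have h : PresentedGroup.mk rels (FreeGroup.of 0 ^ 2) = 1 :=
    PresentedGroup.one_of_mem (by simp [rels])
  rw [map_pow] at h
  exact h

theorem hy4 : y ^ 4 = 1 := by
  have h : PresentedGroup.mk rels (FreeGroup.of 1 ^ 4) = 1 :=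
    PresentedGroup.one_of_mem (by simp [rels])
  rw [map_pow] at h
  exact h

theorem hxy5 : (x * y) ^ 5 = 1 := by
  have h : PresentedGroup.mk rels ((FreeGroup.of 0 * FreeGroup.of 1) ^ 5) = 1 :=
    PresentedGroup.one_of_mem (by simp [rels])
  rw [map_pow, map_mul] at h
  exact h

theorem hxyy5 : (x * y * y) ^ 5 = 1 := by
  have h : PresentedGroup.mk rels
      ((FreeGroup.of 0 * FreeGroup.of 1 * FreeGroup.of 1) ^ 5) = 1 :=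
    PresentedGroup.one_of_mem (by simp [rels])
  rw [map_pow, map_mul, map_mul] at h
  exact h

theorem relA (a : P) : a * x * x = a := by
  calc a * x * x = a * x ^ 2 := by simp only [pow_succ, pow_zero, one_mul, mul_assoc]
    _ = a := by rw [hx2, mul_one]

theorem relB (a : P) : a * y * y * y * y = a := by
  calc a * y * y * y * y = a * y ^ 4 := by simp only [pow_succ, pow_zero, one_mul, mul_assoc]
    _ = a := by rw [hy4, mul_one]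

theorem relC (a : P) : a * x * y * x * y * x * y * x * y * x * y = a := by
  calc a * x * y * x * y * x * y * x * y * x * y = a * (x * y) ^ 5 := by
        simp only [pow_succ, pow_zero, one_mul, mul_assoc]
    _ = a := by rw [hxy5, mul_one]

theorem relD (a : P) : a * x * y * y * x * y * y * x * y * y * x * y * y * x * y * y = a := by
  calc a * x * y * y * x * y * y * x * y * y * x * y * y * x * y * y = a * (x * y * y) ^ 5 := by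
        simp only [pow_succ, pow_zero, one_mul, mul_assoc]
    _ = a := by rw [hxyy5, mul_one]

noncomputable def r0 : P := 1
noncomputable def r1 : P := r0 * x
noncomputable def r2 : P := r0 * y
noncomputable def r3 : P := r1 * y
noncomputable def r4 : P := r2 * x
noncomputable def r5 : P := r2 * y
noncomputable def r6 : P := r3 * x
noncomputable def r7 : P := r3 * y
noncomputable def r8 : P := r4 * y
noncomputable def r9 : P := r5 * x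
noncomputable def r10 : P := r5 * y
noncomputable def r11 : P := r6 * y
noncomputable def r12 : P := r7 * x
noncomputable def r13 : P := r7 * y
noncomputable def r14 : P := r8 * x
noncomputable def r15 : P := r8 * y
noncomputable def r16 : P := r9 * y
noncomputable def r17 : P := r10 * x
noncomputable def r18 : P := r11 * x
noncomputable def r19 : P := r11 * y
noncomputable def r20 : P := r12 * y
noncomputable def r21 : P := r13 * x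
noncomputable def r22 : P := r14 * y
noncomputable def r23 : P := r15 * x
noncomputable def r24 : P := r15 * y
noncomputable def r25 : P := r16 * x
noncomputable def r26 : P := r16 * y
noncomputable def r27 : P := r17 * y
noncomputable def r28 : P := r18 * y
noncomputable def r29 : P := r19 * x
noncomputable def r30 : P := r19 * y
noncomputable def r31 : P := r20 * x
noncomputable def r32 : P := r20 * y
noncomputable def r33 : P := r21 * y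
noncomputable def r34 : P := r22 * x
noncomputable def r35 : P := r22 * y
noncomputable def r36 : P := r23 * y
noncomputable def r37 : P := r24 * x
noncomputable def r38 : P := r25 * y
noncomputable def r39 : P := r26 * x
noncomputable def r40 : P := r26 * y
noncomputable def r41 : P := r27 * x
noncomputable def r42 : P := r27 * y
noncomputable def r43 : P := r28 * x
noncomputable def r44 : P := r28 * y
noncomputable def r45 : P := r29 * y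
noncomputable def r46 : P := r30 * x
noncomputable def r47 : P := r31 * y
noncomputable def r48 : P := r32 * x
noncomputable def r49 : P := r32 * y
noncomputable def r50 : P := r33 * x
noncomputable def r51 : P := r33 * y
noncomputable def r52 : P := r35 * x
noncomputable def r53 : P := r35 * y
noncomputable def r54 : P := r36 * x
noncomputable def r55 : P := r36 * y
noncomputable def r56 : P := r37 * y
noncomputable def r57 : P := r38 * x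
noncomputable def r58 : P := r38 * y
noncomputable def r59 : P := r39 * y
noncomputable def r60 : P := r40 * x
noncomputable def r61 : P := r41 * y
noncomputable def r62 : P := r42 * x
noncomputable def r63 : P := r44 * x
noncomputable def r64 : P := r44 * y
noncomputable def r65 : P := r45 * x
noncomputable def r66 : P := r45 * y
noncomputable def r67 : P := r46 * y
noncomputable def r68 : P := r47 * x
noncomputable def r69 : P := r47 * y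
noncomputable def r70 : P := r48 * y
noncomputable def r71 : P := r49 * x
noncomputable def r72 : P := r50 * y
noncomputable def r73 : P := r51 * x
noncomputable def r74 : P := r52 * y
noncomputable def r75 : P := r53 * x
noncomputable def r76 : P := r54 * y
noncomputable def r77 : P := r55 * x
noncomputable def r78 : P := r55 * y
noncomputable def r79 : P := r56 * x
noncomputable def r80 : P := r56 * y
noncomputable def r81 : P := r58 * x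
noncomputable def r82 : P := r58 * y
noncomputable def r83 : P := r59 * x
noncomputable def r84 : P := r60 * y
noncomputable def r85 : P := r61 * x
noncomputable def r86 : P := r61 * y
noncomputable def r87 : P := r62 * y
noncomputable def r88 : P := r63 * y
noncomputable def r89 : P := r64 * x
noncomputable def r90 : P := r65 * y
noncomputable def r91 : P := r66 * x
noncomputable def r92 : P := r66 * y
noncomputable def r93 : P := r67 * x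
noncomputable def r94 : P := r67 * y
noncomputable def r95 : P := r69 * x
noncomputable def r96 : P := r69 * y
noncomputable def r97 : P := r70 * x
noncomputable def r98 : P := r71 * y
noncomputable def r99 : P := r72 * x
noncomputable def r100 : P := r72 * y
noncomputable def r101 : P := r73 * y
noncomputable def r102 : P := r74 * x
noncomputable def r103 : P := r74 * y
noncomputable def r104 : P := r75 * y
noncomputable def r105 : P := r76 * x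
noncomputable def r106 : P := r76 * y
noncomputable def r107 : P := r77 * y
noncomputable def r108 : P := r78 * x
noncomputable def r109 : P := r79 * y
noncomputable def r110 : P := r80 * x
noncomputable def r111 : P := r81 * y
noncomputable def r112 : P := r82 * x
noncomputable def r113 : P := r83 * y
noncomputable def r114 : P := r84 * x
noncomputable def r115 : P := r84 * y
noncomputable def r116 : P := r86 * x
noncomputable def r117 : P := r86 * y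
noncomputable def r118 : P := r87 * x
noncomputable def r119 : P := r88 * x
noncomputable def r120 : P := r88 * y
noncomputable def r121 : P := r89 * y
noncomputable def r122 : P := r90 * x
noncomputable def r123 : P := r90 * y
noncomputable def r124 : P := r91 * y
noncomputable def r125 : P := r92 * x
noncomputable def r126 : P := r93 * y
noncomputable def r127 : P := r94 * x
noncomputable def r128 : P := r95 * y
noncomputable def r129 : P := r96 * x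
noncomputable def r130 : P := r97 * y
noncomputable def r131 : P := r98 * x
noncomputable def r132 : P := r98 * y
noncomputable def r133 : P := r100 * x
noncomputable def r134 : P := r100 * y
noncomputable def r135 : P := r101 * x
noncomputable def r136 : P := r102 * y
noncomputable def r137 : P := r103 * x
noncomputable def r138 : P := r103 * y
noncomputable def r139 : P := r104 * x
noncomputable def r140 : P := r104 * y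
noncomputable def r141 : P := r106 * x
noncomputable def r142 : P := r106 * y
noncomputable def r143 : P := r107 * x
noncomputable def r144 : P := r108 * y
noncomputable def r145 : P := r109 * x
noncomputable def r146 : P := r109 * y
noncomputable def r147 : P := r110 * y
noncomputable def r148 : P := r111 * x
noncomputable def r149 : P := r111 * y
noncomputable def r150 : P := r112 * y
noncomputable def r151 : P := r113 * x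
noncomputable def r152 : P := r113 * y
noncomputable def r153 : P := r114 * y
noncomputable def r154 : P := r115 * x
noncomputable def r155 : P := r116 * y
noncomputable def r156 : P := r117 * x
noncomputable def r157 : P := r118 * y
noncomputable def r158 : P := r120 * x
noncomputable def r159 : P := r120 * y
noncomputable def r160 : P := r121 * x
noncomputable def r161 : P := r121 * y
noncomputable def r162 : P := r123 * x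
noncomputable def r163 : P := r123 * y
noncomputable def r164 : P := r125 * y
noncomputable def r165 : P := r126 * x
noncomputable def r166 : P := r126 * y
noncomputable def r167 : P := r127 * y
noncomputable def r168 : P := r128 * x
noncomputable def r169 : P := r128 * y
noncomputable def r170 : P := r129 * y
noncomputable def r171 : P := r130 * x
noncomputable def r172 : P := r130 * y
noncomputable def r173 : P := r131 * y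
noncomputable def r174 : P := r132 * x
noncomputable def r175 : P := r133 * y
noncomputable def r176 : P := r134 * x
noncomputable def r177 : P := r135 * y
noncomputable def r178 : P := r136 * y
noncomputable def r179 : P := r137 * y
noncomputable def r180 : P := r138 * x
noncomputable def r181 : P := r139 * y
noncomputable def r182 : P := r140 * x
noncomputable def r183 : P := r141 * y
noncomputable def r184 : P := r142 * x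
noncomputable def r185 : P := r143 * y
noncomputable def r186 : P := r144 * x
noncomputable def r187 : P := r144 * y
noncomputable def r188 : P := r146 * x
noncomputable def r189 : P := r146 * y
noncomputable def r190 : P := r147 * x
noncomputable def r191 : P := r148 * y
noncomputable def r192 : P := r149 * x
noncomputable def r193 : P := r149 * y
noncomputable def r194 : P := r150 * x
noncomputable def r195 : P := r150 * y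
noncomputable def r196 : P := r152 * x
noncomputable def r197 : P := r152 * y
noncomputable def r198 : P := r153 * x
noncomputable def r199 : P := r153 * y
noncomputable def r200 : P := r154 * y
noncomputable def r201 : P := r155 * x
noncomputable def r202 : P := r155 * y
noncomputable def r203 : P := r156 * y
noncomputable def r204 : P := r157 * x
noncomputable def r205 : P := r157 * y
noncomputable def r206 : P := r158 * y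
noncomputable def r207 : P := r159 * x
noncomputable def r208 : P := r160 * y
noncomputable def r209 : P := r162 * y
noncomputable def r210 : P := r163 * x
noncomputable def r211 : P := r164 * x
noncomputable def r212 : P := r164 * y
noncomputable def r213 : P := r166 * x
noncomputable def r214 : P := r166 * y
noncomputable def r215 : P := r167 * x
noncomputable def r216 : P := r168 * y
noncomputable def r217 : P := r169 * x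
noncomputable def r218 : P := r169 * y
noncomputable def r219 : P := r170 * x
noncomputable def r220 : P := r170 * y
noncomputable def r221 : P := r172 * x
noncomputable def r222 : P := r173 * y
noncomputable def r223 : P := r174 * y
noncomputable def r224 : P := r175 * x
noncomputable def r225 : P := r176 * y
noncomputable def r226 : P := r177 * x
noncomputable def r227 : P := r177 * y
noncomputable def r228 : P := r178 * x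
noncomputable def r229 : P := r178 * y
noncomputable def r230 : P := r181 * x
noncomputable def r231 : P := r181 * y
noncomputable def r232 : P := r182 * y
noncomputable def r233 : P := r183 * x
noncomputable def r234 : P := r183 * y
noncomputable def r235 : P := r184 * y
noncomputable def r236 : P := r185 * x
noncomputable def r237 : P := r185 * y
noncomputable def r238 : P := r186 * y
noncomputable def r239 : P := r187 * x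
noncomputable def r240 : P := r188 * y
noncomputable def r241 : P := r191 * y
noncomputable def r242 : P := r192 * y
noncomputable def r243 : P := r193 * x
noncomputable def r244 : P := r194 * y
noncomputable def r245 : P := r195 * x
noncomputable def r246 : P := r196 * y
noncomputable def r247 : P := r199 * x
noncomputable def r248 : P := r199 * y
noncomputable def r249 : P := r200 * x
noncomputable def r250 : P := r201 * y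
noncomputable def r251 : P := r202 * y
noncomputable def r252 : P := r203 * y
noncomputable def r253 : P := r205 * x
noncomputable def r254 : P := r205 * y
noncomputable def r255 : P := r208 * x
noncomputable def r256 : P := r208 * y
noncomputable def r257 : P := r209 * x
noncomputable def r258 : P := r209 * y
noncomputable def r259 : P := r210 * y
noncomputable def r260 : P := r211 * y
noncomputable def r261 : P := r212 * x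
noncomputable def r262 : P := r213 * y
noncomputable def r263 : P := r216 * y
noncomputable def r264 : P := r217 * y
noncomputable def r265 : P := r218 * x
noncomputable def r266 : P := r219 * y
noncomputable def r267 : P := r220 * x
noncomputable def r268 : P := r221 * y
noncomputable def r269 : P := r222 * x
noncomputable def r270 : P := r222 * y
noncomputable def r271 : P := r223 * x
noncomputable def r272 : P := r224 * y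
noncomputable def r273 : P := r225 * y
noncomputable def r274 : P := r227 * x
noncomputable def r275 : P := r227 * y
noncomputable def r276 : P := r229 * x
noncomputable def r277 : P := r231 * x
noncomputable def r278 : P := r231 * y
noncomputable def r279 : P := r232 * x
noncomputable def r280 : P := r234 * x
noncomputable def r281 : P := r234 * y
noncomputable def r282 : P := r235 * x
noncomputable def r283 : P := r235 * y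
noncomputable def r284 : P := r237 * x
noncomputable def r285 : P := r239 * y
noncomputable def r286 : P := r240 * x
noncomputable def r287 : P := r241 * x
noncomputable def r288 : P := r241 * y
noncomputable def r289 : P := r244 * x
noncomputable def r290 : P := r246 * x
noncomputable def r291 : P := r246 * y
noncomputable def r292 : P := r247 * y
noncomputable def r293 : P := r250 * y
noncomputable def r294 : P := r251 * x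
noncomputable def r295 : P := r252 * x
noncomputable def r296 : P := r253 * y
noncomputable def r297 : P := r256 * x
noncomputable def r298 : P := r256 * y
noncomputable def r299 : P := r258 * x
noncomputable def r300 : P := r258 * y
noncomputable def r301 : P := r259 * x
noncomputable def r302 : P := r259 * y
noncomputable def r303 : P := r261 * y
noncomputable def r304 : P := r262 * x
noncomputable def r305 : P := r263 * x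
noncomputable def r306 : P := r263 * y
noncomputable def r307 : P := r266 * x
noncomputable def r308 : P := r268 * x
noncomputable def r309 : P := r268 * y
noncomputable def r310 : P := r269 * y
noncomputable def r311 : P := r272 * y
noncomputable def r312 : P := r273 * x
noncomputable def r313 : P := r274 * y
noncomputable def r314 : P := r276 * y
noncomputable def r315 : P := r277 * y
noncomputable def r316 : P := r280 * y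
noncomputable def r317 : P := r281 * x
noncomputable def r318 : P := r282 * y
noncomputable def r319 : P := r283 * x
noncomputable def r320 : P := r284 * y
noncomputable def r321 : P := r285 * x
noncomputable def r322 : P := r286 * y
noncomputable def r323 : P := r288 * x
noncomputable def r324 : P := r291 * y
noncomputable def r325 : P := r292 * x
noncomputable def r326 : P := r293 * x
noncomputable def r327 : P := r296 * x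
noncomputable def r328 : P := r296 * y
noncomputable def r329 : P := r297 * y
noncomputable def r330 : P := r299 * y
noncomputable def r331 : P := r300 * x
noncomputable def r332 : P := r301 * y
noncomputable def r333 : P := r302 * x
noncomputable def r334 : P := r303 * x
noncomputable def r335 : P := r304 * y
noncomputable def r336 : P := r306 * x
noncomputable def r337 : P := r309 * y
noncomputable def r338 : P := r310 * x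
noncomputable def r339 : P := r311 * x
noncomputable def r340 : P := r313 * x
noncomputable def r341 : P := r313 * y
noncomputable def r342 : P := r314 * x
noncomputable def r343 : P := r314 * y
noncomputable def r344 : P := r315 * x
noncomputable def r345 : P := r318 * x
noncomputable def r346 : P := r320 * x
noncomputable def r347 : P := r320 * y
noncomputable def r348 : P := r322 * y
noncomputable def r349 : P := r323 * y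
noncomputable def r350 : P := r324 * x
noncomputable def r351 : P := r325 * y
noncomputable def r352 : P := r329 * x
noncomputable def r353 : P := r332 * x
noncomputable def r354 : P := r335 * y
noncomputable def r355 : P := r336 * y
noncomputable def r356 : P := r348 * x
noncomputable def r357 : P := r349 * x
noncomputable def r358 : P := r349 * y
noncomputable def r359 : P := r351 * y
theorem e_0_x : r0 * x = r1 := rfl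
theorem e_0_y : r0 * y = r2 := rfl
theorem e_1_y : r1 * y = r3 := rfl
theorem e_2_x : r2 * x = r4 := rfl
theorem e_2_y : r2 * y = r5 := rfl
theorem e_3_x : r3 * x = r6 := rfl
theorem e_3_y : r3 * y = r7 := rfl
theorem e_4_y : r4 * y = r8 := rfl
theorem e_5_x : r5 * x = r9 := rfl
theorem e_5_y : r5 * y = r10 := rfl
theorem e_6_y : r6 * y = r11 := rfl
theorem e_7_x : r7 * x = r12 := rfl
theorem e_7_y : r7 * y = r13 := rfl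
theorem e_8_x : r8 * x = r14 := rfl
theorem e_8_y : r8 * y = r15 := rfl
theorem e_9_y : r9 * y = r16 := rfl
theorem e_10_x : r10 * x = r17 := rfl
theorem e_11_x : r11 * x = r18 := rfl
theorem e_11_y : r11 * y = r19 := rfl
theorem e_12_y : r12 * y = r20 := rfl
theorem e_13_x : r13 * x = r21 := rfl
theorem e_14_y : r14 * y = r22 := rfl
theorem e_15_x : r15 * x = r23 := rfl
theorem e_15_y : r15 * y = r24 := rfl
theorem e_16_x : r16 * x = r25 := rfl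
theorem e_16_y : r16 * y = r26 := rfl
theorem e_17_y : r17 * y = r27 := rfl
theorem e_18_y : r18 * y = r28 := rfl
theorem e_19_x : r19 * x = r29 := rfl
theorem e_19_y : r19 * y = r30 := rfl
theorem e_20_x : r20 * x = r31 := rfl
theorem e_20_y : r20 * y = r32 := rfl
theorem e_21_y : r21 * y = r33 := rfl
theorem e_22_x : r22 * x = r34 := rfl
theorem e_22_y : r22 * y = r35 := rfl
theorem e_23_y : r23 * y = r36 := rfl
theorem e_24_x : r24 * x = r37 := rfl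
theorem e_25_y : r25 * y = r38 := rfl
theorem e_26_x : r26 * x = r39 := rfl
theorem e_26_y : r26 * y = r40 := rfl
theorem e_27_x : r27 * x = r41 := rfl
theorem e_27_y : r27 * y = r42 := rfl
theorem e_28_x : r28 * x = r43 := rfl
theorem e_28_y : r28 * y = r44 := rfl
theorem e_29_y : r29 * y = r45 := rfl
theorem e_30_x : r30 * x = r46 := rfl
theorem e_31_y : r31 * y = r47 := rfl
theorem e_32_x : r32 * x = r48 := rfl
theorem e_32_y : r32 * y = r49 := rfl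
theorem e_33_x : r33 * x = r50 := rfl
theorem e_33_y : r33 * y = r51 := rfl
theorem e_35_x : r35 * x = r52 := rfl
theorem e_35_y : r35 * y = r53 := rfl
theorem e_36_x : r36 * x = r54 := rfl
theorem e_36_y : r36 * y = r55 := rfl
theorem e_37_y : r37 * y = r56 := rfl
theorem e_38_x : r38 * x = r57 := rfl
theorem e_38_y : r38 * y = r58 := rfl
theorem e_39_y : r39 * y = r59 := rfl
theorem e_40_x : r40 * x = r60 := rfl
theorem e_41_y : r41 * y = r61 := rfl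
theorem e_42_x : r42 * x = r62 := rfl
theorem e_44_x : r44 * x = r63 := rfl
theorem e_44_y : r44 * y = r64 := rfl
theorem e_45_x : r45 * x = r65 := rfl
theorem e_45_y : r45 * y = r66 := rfl
theorem e_46_y : r46 * y = r67 := rfl
theorem e_47_x : r47 * x = r68 := rfl
theorem e_47_y : r47 * y = r69 := rfl
theorem e_48_y : r48 * y = r70 := rfl
theorem e_49_x : r49 * x = r71 := rfl
theorem e_50_y : r50 * y = r72 := rfl
theorem e_51_x : r51 * x = r73 := rfl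
theorem e_52_y : r52 * y = r74 := rfl
theorem e_53_x : r53 * x = r75 := rfl
theorem e_54_y : r54 * y = r76 := rfl
theorem e_55_x : r55 * x = r77 := rfl
theorem e_55_y : r55 * y = r78 := rfl
theorem e_56_x : r56 * x = r79 := rfl
theorem e_56_y : r56 * y = r80 := rfl
theorem e_58_x : r58 * x = r81 := rfl
theorem e_58_y : r58 * y = r82 := rfl
theorem e_59_x : r59 * x = r83 := rfl
theorem e_60_y : r60 * y = r84 := rfl
theorem e_61_x : r61 * x = r85 := rfl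
theorem e_61_y : r61 * y = r86 := rfl
theorem e_62_y : r62 * y = r87 := rfl
theorem e_63_y : r63 * y = r88 := rfl
theorem e_64_x : r64 * x = r89 := rfl
theorem e_65_y : r65 * y = r90 := rfl
theorem e_66_x : r66 * x = r91 := rfl
theorem e_66_y : r66 * y = r92 := rfl
theorem e_67_x : r67 * x = r93 := rfl
theorem e_67_y : r67 * y = r94 := rfl
theorem e_69_x : r69 * x = r95 := rfl
theorem e_69_y : r69 * y = r96 := rfl
theorem e_70_x : r70 * x = r97 := rfl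
theorem e_71_y : r71 * y = r98 := rfl
theorem e_72_x : r72 * x = r99 := rfl
theorem e_72_y : r72 * y = r100 := rfl
theorem e_73_y : r73 * y = r101 := rfl
theorem e_74_x : r74 * x = r102 := rfl
theorem e_74_y : r74 * y = r103 := rfl
theorem e_75_y : r75 * y = r104 := rfl
theorem e_76_x : r76 * x = r105 := rfl
theorem e_76_y : r76 * y = r106 := rfl
theorem e_77_y : r77 * y = r107 := rfl
theorem e_78_x : r78 * x = r108 := rfl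
theorem e_79_y : r79 * y = r109 := rfl
theorem e_80_x : r80 * x = r110 := rfl
theorem e_81_y : r81 * y = r111 := rfl
theorem e_82_x : r82 * x = r112 := rfl
theorem e_83_y : r83 * y = r113 := rfl
theorem e_84_x : r84 * x = r114 := rfl
theorem e_84_y : r84 * y = r115 := rfl
theorem e_86_x : r86 * x = r116 := rfl
theorem e_86_y : r86 * y = r117 := rfl
theorem e_87_x : r87 * x = r118 := rfl
theorem e_88_x : r88 * x = r119 := rfl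
theorem e_88_y : r88 * y = r120 := rfl
theorem e_89_y : r89 * y = r121 := rfl
theorem e_90_x : r90 * x = r122 := rfl
theorem e_90_y : r90 * y = r123 := rfl
theorem e_91_y : r91 * y = r124 := rfl
theorem e_92_x : r92 * x = r125 := rfl
theorem e_93_y : r93 * y = r126 := rfl
theorem e_94_x : r94 * x = r127 := rfl
theorem e_95_y : r95 * y = r128 := rfl
theorem e_96_x : r96 * x = r129 := rfl
theorem e_97_y : r97 * y = r130 := rfl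
theorem e_98_x : r98 * x = r131 := rfl
theorem e_98_y : r98 * y = r132 := rfl
theorem e_100_x : r100 * x = r133 := rfl
theorem e_100_y : r100 * y = r134 := rfl
theorem e_101_x : r101 * x = r135 := rfl
theorem e_102_y : r102 * y = r136 := rfl
theorem e_103_x : r103 * x = r137 := rfl
theorem e_103_y : r103 * y = r138 := rfl
theorem e_104_x : r104 * x = r139 := rfl
theorem e_104_y : r104 * y = r140 := rfl
theorem e_106_x : r106 * x = r141 := rfl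
theorem e_106_y : r106 * y = r142 := rfl
theorem e_107_x : r107 * x = r143 := rfl
theorem e_108_y : r108 * y = r144 := rfl
theorem e_109_x : r109 * x = r145 := rfl
theorem e_109_y : r109 * y = r146 := rfl
theorem e_110_y : r110 * y = r147 := rfl
theorem e_111_x : r111 * x = r148 := rfl
theorem e_111_y : r111 * y = r149 := rfl
theorem e_112_y : r112 * y = r150 := rfl
theorem e_113_x : r113 * x = r151 := rfl
theorem e_113_y : r113 * y = r152 := rfl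
theorem e_114_y : r114 * y = r153 := rfl
theorem e_115_x : r115 * x = r154 := rfl
theorem e_116_y : r116 * y = r155 := rfl
theorem e_117_x : r117 * x = r156 := rfl
theorem e_118_y : r118 * y = r157 := rfl
theorem e_120_x : r120 * x = r158 := rfl
theorem e_120_y : r120 * y = r159 := rfl
theorem e_121_x : r121 * x = r160 := rfl
theorem e_121_y : r121 * y = r161 := rfl
theorem e_123_x : r123 * x = r162 := rfl
theorem e_123_y : r123 * y = r163 := rfl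
theorem e_125_y : r125 * y = r164 := rfl
theorem e_126_x : r126 * x = r165 := rfl
theorem e_126_y : r126 * y = r166 := rfl
theorem e_127_y : r127 * y = r167 := rfl
theorem e_128_x : r128 * x = r168 := rfl
theorem e_128_y : r128 * y = r169 := rfl
theorem e_129_y : r129 * y = r170 := rfl
theorem e_130_x : r130 * x = r171 := rfl
theorem e_130_y : r130 * y = r172 := rfl
theorem e_131_y : r131 * y = r173 := rfl
theorem e_132_x : r132 * x = r174 := rfl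
theorem e_133_y : r133 * y = r175 := rfl
theorem e_134_x : r134 * x = r176 := rfl
theorem e_135_y : r135 * y = r177 := rfl
theorem e_136_y : r136 * y = r178 := rfl
theorem e_137_y : r137 * y = r179 := rfl
theorem e_138_x : r138 * x = r180 := rfl
theorem e_139_y : r139 * y = r181 := rfl
theorem e_140_x : r140 * x = r182 := rfl
theorem e_141_y : r141 * y = r183 := rfl
theorem e_142_x : r142 * x = r184 := rfl
theorem e_143_y : r143 * y = r185 := rfl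
theorem e_144_x : r144 * x = r186 := rfl
theorem e_144_y : r144 * y = r187 := rfl
theorem e_146_x : r146 * x = r188 := rfl
theorem e_146_y : r146 * y = r189 := rfl
theorem e_147_x : r147 * x = r190 := rfl
theorem e_148_y : r148 * y = r191 := rfl
theorem e_149_x : r149 * x = r192 := rfl
theorem e_149_y : r149 * y = r193 := rfl
theorem e_150_x : r150 * x = r194 := rfl
theorem e_150_y : r150 * y = r195 := rfl
theorem e_152_x : r152 * x = r196 := rfl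
theorem e_152_y : r152 * y = r197 := rfl
theorem e_153_x : r153 * x = r198 := rfl
theorem e_153_y : r153 * y = r199 := rfl
theorem e_154_y : r154 * y = r200 := rfl
theorem e_155_x : r155 * x = r201 := rfl
theorem e_155_y : r155 * y = r202 := rfl
theorem e_156_y : r156 * y = r203 := rfl
theorem e_157_x : r157 * x = r204 := rfl
theorem e_157_y : r157 * y = r205 := rfl
theorem e_158_y : r158 * y = r206 := rfl
theorem e_159_x : r159 * x = r207 := rfl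
theorem e_160_y : r160 * y = r208 := rfl
theorem e_162_y : r162 * y = r209 := rfl
theorem e_163_x : r163 * x = r210 := rfl
theorem e_164_x : r164 * x = r211 := rfl
theorem e_164_y : r164 * y = r212 := rfl
theorem e_166_x : r166 * x = r213 := rfl
theorem e_166_y : r166 * y = r214 := rfl
theorem e_167_x : r167 * x = r215 := rfl
theorem e_168_y : r168 * y = r216 := rfl
theorem e_169_x : r169 * x = r217 := rfl
theorem e_169_y : r169 * y = r218 := rfl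
theorem e_170_x : r170 * x = r219 := rfl
theorem e_170_y : r170 * y = r220 := rfl
theorem e_172_x : r172 * x = r221 := rfl
theorem e_173_y : r173 * y = r222 := rfl
theorem e_174_y : r174 * y = r223 := rfl
theorem e_175_x : r175 * x = r224 := rfl
theorem e_176_y : r176 * y = r225 := rfl
theorem e_177_x : r177 * x = r226 := rfl
theorem e_177_y : r177 * y = r227 := rfl
theorem e_178_x : r178 * x = r228 := rfl
theorem e_178_y : r178 * y = r229 := rfl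
theorem e_181_x : r181 * x = r230 := rfl
theorem e_181_y : r181 * y = r231 := rfl
theorem e_182_y : r182 * y = r232 := rfl
theorem e_183_x : r183 * x = r233 := rfl
theorem e_183_y : r183 * y = r234 := rfl
theorem e_184_y : r184 * y = r235 := rfl
theorem e_185_x : r185 * x = r236 := rfl
theorem e_185_y : r185 * y = r237 := rfl
theorem e_186_y : r186 * y = r238 := rfl
theorem e_187_x : r187 * x = r239 := rfl
theorem e_188_y : r188 * y = r240 := rfl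
theorem e_191_y : r191 * y = r241 := rfl
theorem e_192_y : r192 * y = r242 := rfl
theorem e_193_x : r193 * x = r243 := rfl
theorem e_194_y : r194 * y = r244 := rfl
theorem e_195_x : r195 * x = r245 := rfl
theorem e_196_y : r196 * y = r246 := rfl
theorem e_199_x : r199 * x = r247 := rfl
theorem e_199_y : r199 * y = r248 := rfl
theorem e_200_x : r200 * x = r249 := rfl
theorem e_201_y : r201 * y = r250 := rfl
theorem e_202_y : r202 * y = r251 := rfl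
theorem e_203_y : r203 * y = r252 := rfl
theorem e_205_x : r205 * x = r253 := rfl
theorem e_205_y : r205 * y = r254 := rfl
theorem e_208_x : r208 * x = r255 := rfl
theorem e_208_y : r208 * y = r256 := rfl
theorem e_209_x : r209 * x = r257 := rfl
theorem e_209_y : r209 * y = r258 := rfl
theorem e_210_y : r210 * y = r259 := rfl
theorem e_211_y : r211 * y = r260 := rfl
theorem e_212_x : r212 * x = r261 := rfl
theorem e_213_y : r213 * y = r262 := rfl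
theorem e_216_y : r216 * y = r263 := rfl
theorem e_217_y : r217 * y = r264 := rfl
theorem e_218_x : r218 * x = r265 := rfl
theorem e_219_y : r219 * y = r266 := rfl
theorem e_220_x : r220 * x = r267 := rfl
theorem e_221_y : r221 * y = r268 := rfl
theorem e_222_x : r222 * x = r269 := rfl
theorem e_222_y : r222 * y = r270 := rfl
theorem e_223_x : r223 * x = r271 := rfl
theorem e_224_y : r224 * y = r272 := rfl
theorem e_225_y : r225 * y = r273 := rfl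
theorem e_227_x : r227 * x = r274 := rfl
theorem e_227_y : r227 * y = r275 := rfl
theorem e_229_x : r229 * x = r276 := rfl
theorem e_231_x : r231 * x = r277 := rfl
theorem e_231_y : r231 * y = r278 := rfl
theorem e_232_x : r232 * x = r279 := rfl
theorem e_234_x : r234 * x = r280 := rfl
theorem e_234_y : r234 * y = r281 := rfl
theorem e_235_x : r235 * x = r282 := rfl
theorem e_235_y : r235 * y = r283 := rfl
theorem e_237_x : r237 * x = r284 := rfl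
theorem e_239_y : r239 * y = r285 := rfl
theorem e_240_x : r240 * x = r286 := rfl
theorem e_241_x : r241 * x = r287 := rfl
theorem e_241_y : r241 * y = r288 := rfl
theorem e_244_x : r244 * x = r289 := rfl
theorem e_246_x : r246 * x = r290 := rfl
theorem e_246_y : r246 * y = r291 := rfl
theorem e_247_y : r247 * y = r292 := rfl
theorem e_250_y : r250 * y = r293 := rfl
theorem e_251_x : r251 * x = r294 := rfl
theorem e_252_x : r252 * x = r295 := rfl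
theorem e_253_y : r253 * y = r296 := rfl
theorem e_256_x : r256 * x = r297 := rfl
theorem e_256_y : r256 * y = r298 := rfl
theorem e_258_x : r258 * x = r299 := rfl
theorem e_258_y : r258 * y = r300 := rfl
theorem e_259_x : r259 * x = r301 := rfl
theorem e_259_y : r259 * y = r302 := rfl
theorem e_261_y : r261 * y = r303 := rfl
theorem e_262_x : r262 * x = r304 := rfl
theorem e_263_x : r263 * x = r305 := rfl
theorem e_263_y : r263 * y = r306 := rfl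
theorem e_266_x : r266 * x = r307 := rfl
theorem e_268_x : r268 * x = r308 := rfl
theorem e_268_y : r268 * y = r309 := rfl
theorem e_269_y : r269 * y = r310 := rfl
theorem e_272_y : r272 * y = r311 := rfl
theorem e_273_x : r273 * x = r312 := rfl
theorem e_274_y : r274 * y = r313 := rfl
theorem e_276_y : r276 * y = r314 := rfl
theorem e_277_y : r277 * y = r315 := rfl
theorem e_280_y : r280 * y = r316 := rfl
theorem e_281_x : r281 * x = r317 := rfl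
theorem e_282_y : r282 * y = r318 := rfl
theorem e_283_x : r283 * x = r319 := rfl
theorem e_284_y : r284 * y = r320 := rfl
theorem e_285_x : r285 * x = r321 := rfl
theorem e_286_y : r286 * y = r322 := rfl
theorem e_288_x : r288 * x = r323 := rfl
theorem e_291_y : r291 * y = r324 := rfl
theorem e_292_x : r292 * x = r325 := rfl
theorem e_293_x : r293 * x = r326 := rfl
theorem e_296_x : r296 * x = r327 := rfl
theorem e_296_y : r296 * y = r328 := rfl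
theorem e_297_y : r297 * y = r329 := rfl
theorem e_299_y : r299 * y = r330 := rfl
theorem e_300_x : r300 * x = r331 := rfl
theorem e_301_y : r301 * y = r332 := rfl
theorem e_302_x : r302 * x = r333 := rfl
theorem e_303_x : r303 * x = r334 := rfl
theorem e_304_y : r304 * y = r335 := rfl
theorem e_306_x : r306 * x = r336 := rfl
theorem e_309_y : r309 * y = r337 := rfl
theorem e_310_x : r310 * x = r338 := rfl
theorem e_311_x : r311 * x = r339 := rfl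
theorem e_313_x : r313 * x = r340 := rfl
theorem e_313_y : r313 * y = r341 := rfl
theorem e_314_x : r314 * x = r342 := rfl
theorem e_314_y : r314 * y = r343 := rfl
theorem e_315_x : r315 * x = r344 := rfl
theorem e_318_x : r318 * x = r345 := rfl
theorem e_320_x : r320 * x = r346 := rfl
theorem e_320_y : r320 * y = r347 := rfl
theorem e_322_y : r322 * y = r348 := rfl
theorem e_323_y : r323 * y = r349 := rfl
theorem e_324_x : r324 * x = r350 := rfl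
theorem e_325_y : r325 * y = r351 := rfl
theorem e_329_x : r329 * x = r352 := rfl
theorem e_332_x : r332 * x = r353 := rfl
theorem e_335_y : r335 * y = r354 := rfl
theorem e_336_y : r336 * y = r355 := rfl
theorem e_348_x : r348 * x = r356 := rfl
theorem e_349_x : r349 * x = r357 := rfl
theorem e_349_y : r349 * y = r358 := rfl
theorem e_351_y : r351 * y = r359 := rfl
theorem e_1_x : r1 * x = r0 := by
  have h := relA r0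
  simp only [e_0_x] at h
  exact h
theorem e_4_x : r4 * x = r2 := by
  have h := relA r2
  simp only [e_2_x] at h
  exact h
theorem e_6_x : r6 * x = r3 := by
  have h := relA r3
  simp only [e_3_x] at h
  exact h
theorem e_9_x : r9 * x = r5 := by
  have h := relA r5
  simp only [e_5_x] at h
  exact h
theorem e_12_x : r12 * x = r7 := by
  have h := relA r7
  simp only [e_7_x] at h
  exact h
theorem e_14_x : r14 * x = r8 := by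
  have h := relA r8
  simp only [e_8_x] at h
  exact h
theorem e_17_x : r17 * x = r10 := by
  have h := relA r10
  simp only [e_10_x] at h
  exact h
theorem e_18_x : r18 * x = r11 := by
  have h := relA r11
  simp only [e_11_x] at h
  exact h
theorem e_21_x : r21 * x = r13 := by
  have h := relA r13
  simp only [e_13_x] at h
  exact h
theorem e_23_x : r23 * x = r15 := by
  have h := relA r15
  simp only [e_15_x] at h
  exact h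
theorem e_25_x : r25 * x = r16 := by
  have h := relA r16
  simp only [e_16_x] at h
  exact h
theorem e_29_x : r29 * x = r19 := by
  have h := relA r19
  simp only [e_19_x] at h
  exact h
theorem e_31_x : r31 * x = r20 := by
  have h := relA r20
  simp only [e_20_x] at h
  exact h
theorem e_34_x : r34 * x = r22 := by
  have h := relA r22
  simp only [e_22_x] at h
  exact h
theorem e_37_x : r37 * x = r24 := by
  have h := relA r24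
  simp only [e_24_x] at h
  exact h
theorem e_39_x : r39 * x = r26 := by
  have h := relA r26
  simp only [e_26_x] at h
  exact h
theorem e_41_x : r41 * x = r27 := by
  have h := relA r27
  simp only [e_27_x] at h
  exact h
theorem e_43_x : r43 * x = r28 := by
  have h := relA r28
  simp only [e_28_x] at h
  exact h
theorem e_46_x : r46 * x = r30 := by
  have h := relA r30
  simp only [e_30_x] at h
  exact h
theorem e_48_x : r48 * x = r32 := by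
  have h := relA r32
  simp only [e_32_x] at h
  exact h
theorem e_50_x : r50 * x = r33 := by
  have h := relA r33
  simp only [e_33_x] at h
  exact h
theorem e_52_x : r52 * x = r35 := by
  have h := relA r35
  simp only [e_35_x] at h
  exact h
theorem e_54_x : r54 * x = r36 := by
  have h := relA r36
  simp only [e_36_x] at h
  exact h
theorem e_57_x : r57 * x = r38 := by
  have h := relA r38
  simp only [e_38_x] at h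
  exact h
theorem e_60_x : r60 * x = r40 := by
  have h := relA r40
  simp only [e_40_x] at h
  exact h
theorem e_62_x : r62 * x = r42 := by
  have h := relA r42
  simp only [e_42_x] at h
  exact h
theorem e_63_x : r63 * x = r44 := by
  have h := relA r44
  simp only [e_44_x] at h
  exact h
theorem e_65_x : r65 * x = r45 := by
  have h := relA r45
  simp only [e_45_x] at h
  exact h
theorem e_68_x : r68 * x = r47 := by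
  have h := relA r47
  simp only [e_47_x] at h
  exact h
theorem e_71_x : r71 * x = r49 := by
  have h := relA r49
  simp only [e_49_x] at h
  exact h
theorem e_73_x : r73 * x = r51 := by
  have h := relA r51
  simp only [e_51_x] at h
  exact h
theorem e_75_x : r75 * x = r53 := by
  have h := relA r53
  simp only [e_53_x] at h
  exact h
theorem e_77_x : r77 * x = r55 := by
  have h := relA r55
  simp only [e_55_x] at h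
  exact h
theorem e_79_x : r79 * x = r56 := by
  have h := relA r56
  simp only [e_56_x] at h
  exact h
theorem e_81_x : r81 * x = r58 := by
  have h := relA r58
  simp only [e_58_x] at h
  exact h
theorem e_83_x : r83 * x = r59 := by
  have h := relA r59
  simp only [e_59_x] at h
  exact h
theorem e_85_x : r85 * x = r61 := by
  have h := relA r61
  simp only [e_61_x] at h
  exact h
theorem e_89_x : r89 * x = r64 := by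
  have h := relA r64
  simp only [e_64_x] at h
  exact h
theorem e_91_x : r91 * x = r66 := by
  have h := relA r66
  simp only [e_66_x] at h
  exact h
theorem e_93_x : r93 * x = r67 := by
  have h := relA r67
  simp only [e_67_x] at h
  exact h
theorem e_95_x : r95 * x = r69 := by
  have h := relA r69
  simp only [e_69_x] at h
  exact h
theorem e_97_x : r97 * x = r70 := by
  have h := relA r70
  simp only [e_70_x] at h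
  exact h
theorem e_99_x : r99 * x = r72 := by
  have h := relA r72
  simp only [e_72_x] at h
  exact h
theorem e_102_x : r102 * x = r74 := by
  have h := relA r74
  simp only [e_74_x] at h
  exact h
theorem e_105_x : r105 * x = r76 := by
  have h := relA r76
  simp only [e_76_x] at h
  exact h
theorem e_108_x : r108 * x = r78 := by
  have h := relA r78
  simp only [e_78_x] at h
  exact h
theorem e_110_x : r110 * x = r80 := by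
  have h := relA r80
  simp only [e_80_x] at h
  exact h
theorem e_112_x : r112 * x = r82 := by
  have h := relA r82
  simp only [e_82_x] at h
  exact h
theorem e_114_x : r114 * x = r84 := by
  have h := relA r84
  simp only [e_84_x] at h
  exact h
theorem e_116_x : r116 * x = r86 := by
  have h := relA r86
  simp only [e_86_x] at h
  exact h
theorem e_118_x : r118 * x = r87 := by
  have h := relA r87
  simp only [e_87_x] at h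
  exact h
theorem e_119_x : r119 * x = r88 := by
  have h := relA r88
  simp only [e_88_x] at h
  exact h
theorem e_122_x : r122 * x = r90 := by
  have h := relA r90
  simp only [e_90_x] at h
  exact h
theorem e_125_x : r125 * x = r92 := by
  have h := relA r92
  simp only [e_92_x] at h
  exact h
theorem e_127_x : r127 * x = r94 := by
  have h := relA r94
  simp only [e_94_x] at h
  exact h
theorem e_129_x : r129 * x = r96 := by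
  have h := relA r96
  simp only [e_96_x] at h
  exact h
theorem e_131_x : r131 * x = r98 := by
  have h := relA r98
  simp only [e_98_x] at h
  exact h
theorem e_133_x : r133 * x = r100 := by
  have h := relA r100
  simp only [e_100_x] at h
  exact h
theorem e_135_x : r135 * x = r101 := by
  have h := relA r101
  simp only [e_101_x] at h
  exact h
theorem e_137_x : r137 * x = r103 := by
  have h := relA r103
  simp only [e_103_x] at h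
  exact h
theorem e_139_x : r139 * x = r104 := by
  have h := relA r104
  simp only [e_104_x] at h
  exact h
theorem e_141_x : r141 * x = r106 := by
  have h := relA r106
  simp only [e_106_x] at h
  exact h
theorem e_143_x : r143 * x = r107 := by
  have h := relA r107
  simp only [e_107_x] at h
  exact h
theorem e_145_x : r145 * x = r109 := by
  have h := relA r109
  simp only [e_109_x] at h
  exact h
theorem e_148_x : r148 * x = r111 := by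
  have h := relA r111
  simp only [e_111_x] at h
  exact h
theorem e_151_x : r151 * x = r113 := by
  have h := relA r113
  simp only [e_113_x] at h
  exact h
theorem e_154_x : r154 * x = r115 := by
  have h := relA r115
  simp only [e_115_x] at h
  exact h
theorem e_156_x : r156 * x = r117 := by
  have h := relA r117
  simp only [e_117_x] at h
  exact h
theorem e_158_x : r158 * x = r120 := by
  have h := relA r120
  simp only [e_120_x] at h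
  exact h
theorem e_160_x : r160 * x = r121 := by
  have h := relA r121
  simp only [e_121_x] at h
  exact h
theorem e_162_x : r162 * x = r123 := by
  have h := relA r123
  simp only [e_123_x] at h
  exact h
theorem e_165_x : r165 * x = r126 := by
  have h := relA r126
  simp only [e_126_x] at h
  exact h
theorem e_168_x : r168 * x = r128 := by
  have h := relA r128
  simp only [e_128_x] at h
  exact h
theorem e_171_x : r171 * x = r130 := by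
  have h := relA r130
  simp only [e_130_x] at h
  exact h
theorem e_174_x : r174 * x = r132 := by
  have h := relA r132
  simp only [e_132_x] at h
  exact h
theorem e_176_x : r176 * x = r134 := by
  have h := relA r134
  simp only [e_134_x] at h
  exact h
theorem e_180_x : r180 * x = r138 := by
  have h := relA r138
  simp only [e_138_x] at h
  exact h
theorem e_182_x : r182 * x = r140 := by
  have h := relA r140
  simp only [e_140_x] at h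
  exact h
theorem e_184_x : r184 * x = r142 := by
  have h := relA r142
  simp only [e_142_x] at h
  exact h
theorem e_186_x : r186 * x = r144 := by
  have h := relA r144
  simp only [e_144_x] at h
  exact h
theorem e_188_x : r188 * x = r146 := by
  have h := relA r146
  simp only [e_146_x] at h
  exact h
theorem e_190_x : r190 * x = r147 := by
  have h := relA r147
  simp only [e_147_x] at h
  exact h
theorem e_192_x : r192 * x = r149 := by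
  have h := relA r149
  simp only [e_149_x] at h
  exact h
theorem e_194_x : r194 * x = r150 := by
  have h := relA r150
  simp only [e_150_x] at h
  exact h
theorem e_196_x : r196 * x = r152 := by
  have h := relA r152
  simp only [e_152_x] at h
  exact h
theorem e_198_x : r198 * x = r153 := by
  have h := relA r153
  simp only [e_153_x] at h
  exact h
theorem e_201_x : r201 * x = r155 := by
  have h := relA r155
  simp only [e_155_x] at h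
  exact h
theorem e_204_x : r204 * x = r157 := by
  have h := relA r157
  simp only [e_157_x] at h
  exact h
theorem e_207_x : r207 * x = r159 := by
  have h := relA r159
  simp only [e_159_x] at h
  exact h
theorem e_210_x : r210 * x = r163 := by
  have h := relA r163
  simp only [e_163_x] at h
  exact h
theorem e_211_x : r211 * x = r164 := by
  have h := relA r164
  simp only [e_164_x] at h
  exact h
theorem e_213_x : r213 * x = r166 := by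
  have h := relA r166
  simp only [e_166_x] at h
  exact h
theorem e_215_x : r215 * x = r167 := by
  have h := relA r167
  simp only [e_167_x] at h
  exact h
theorem e_217_x : r217 * x = r169 := by
  have h := relA r169
  simp only [e_169_x] at h
  exact h
theorem e_219_x : r219 * x = r170 := by
  have h := relA r170
  simp only [e_170_x] at h
  exact h
theorem e_221_x : r221 * x = r172 := by
  have h := relA r172
  simp only [e_172_x] at h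
  exact h
theorem e_224_x : r224 * x = r175 := by
  have h := relA r175
  simp only [e_175_x] at h
  exact h
theorem e_226_x : r226 * x = r177 := by
  have h := relA r177
  simp only [e_177_x] at h
  exact h
theorem e_228_x : r228 * x = r178 := by
  have h := relA r178
  simp only [e_178_x] at h
  exact h
theorem e_230_x : r230 * x = r181 := by
  have h := relA r181
  simp only [e_181_x] at h
  exact h
theorem e_233_x : r233 * x = r183 := by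
  have h := relA r183
  simp only [e_183_x] at h
  exact h
theorem e_236_x : r236 * x = r185 := by
  have h := relA r185
  simp only [e_185_x] at h
  exact h
theorem e_239_x : r239 * x = r187 := by
  have h := relA r187
  simp only [e_187_x] at h
  exact h
theorem e_243_x : r243 * x = r193 := by
  have h := relA r193
  simp only [e_193_x] at h
  exact h
theorem e_245_x : r245 * x = r195 := by
  have h := relA r195
  simp only [e_195_x] at h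
  exact h
theorem e_247_x : r247 * x = r199 := by
  have h := relA r199
  simp only [e_199_x] at h
  exact h
theorem e_249_x : r249 * x = r200 := by
  have h := relA r200
  simp only [e_200_x] at h
  exact h
theorem e_253_x : r253 * x = r205 := by
  have h := relA r205
  simp only [e_205_x] at h
  exact h
theorem e_255_x : r255 * x = r208 := by
  have h := relA r208
  simp only [e_208_x] at h
  exact h
theorem e_257_x : r257 * x = r209 := by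
  have h := relA r209
  simp only [e_209_x] at h
  exact h
theorem e_261_x : r261 * x = r212 := by
  have h := relA r212
  simp only [e_212_x] at h
  exact h
theorem e_265_x : r265 * x = r218 := by
  have h := relA r218
  simp only [e_218_x] at h
  exact h
theorem e_267_x : r267 * x = r220 := by
  have h := relA r220
  simp only [e_220_x] at h
  exact h
theorem e_269_x : r269 * x = r222 := by
  have h := relA r222
  simp only [e_222_x] at h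
  exact h
theorem e_271_x : r271 * x = r223 := by
  have h := relA r223
  simp only [e_223_x] at h
  exact h
theorem e_274_x : r274 * x = r227 := by
  have h := relA r227
  simp only [e_227_x] at h
  exact h
theorem e_276_x : r276 * x = r229 := by
  have h := relA r229
  simp only [e_229_x] at h
  exact h
theorem e_277_x : r277 * x = r231 := by
  have h := relA r231
  simp only [e_231_x] at h
  exact h
theorem e_279_x : r279 * x = r232 := by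
  have h := relA r232
  simp only [e_232_x] at h
  exact h
theorem e_280_x : r280 * x = r234 := by
  have h := relA r234
  simp only [e_234_x] at h
  exact h
theorem e_282_x : r282 * x = r235 := by
  have h := relA r235
  simp only [e_235_x] at h
  exact h
theorem e_284_x : r284 * x = r237 := by
  have h := relA r237
  simp only [e_237_x] at h
  exact h
theorem e_286_x : r286 * x = r240 := by
  have h := relA r240
  simp only [e_240_x] at h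
  exact h
theorem e_287_x : r287 * x = r241 := by
  have h := relA r241
  simp only [e_241_x] at h
  exact h
theorem e_289_x : r289 * x = r244 := by
  have h := relA r244
  simp only [e_244_x] at h
  exact h
theorem e_290_x : r290 * x = r246 := by
  have h := relA r246
  simp only [e_246_x] at h
  exact h
theorem e_294_x : r294 * x = r251 := by
  have h := relA r251
  simp only [e_251_x] at h
  exact h
theorem e_295_x : r295 * x = r252 := by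
  have h := relA r252
  simp only [e_252_x] at h
  exact h
theorem e_297_x : r297 * x = r256 := by
  have h := relA r256
  simp only [e_256_x] at h
  exact h
theorem e_299_x : r299 * x = r258 := by
  have h := relA r258
  simp only [e_258_x] at h
  exact h
theorem e_301_x : r301 * x = r259 := by
  have h := relA r259
  simp only [e_259_x] at h
  exact h
theorem e_304_x : r304 * x = r262 := by
  have h := relA r262
  simp only [e_262_x] at h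
  exact h
theorem e_305_x : r305 * x = r263 := by
  have h := relA r263
  simp only [e_263_x] at h
  exact h
theorem e_307_x : r307 * x = r266 := by
  have h := relA r266
  simp only [e_266_x] at h
  exact h
theorem e_308_x : r308 * x = r268 := by
  have h := relA r268
  simp only [e_268_x] at h
  exact h
theorem e_312_x : r312 * x = r273 := by
  have h := relA r273
  simp only [e_273_x] at h
  exact h
theorem e_317_x : r317 * x = r281 := by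
  have h := relA r281
  simp only [e_281_x] at h
  exact h
theorem e_319_x : r319 * x = r283 := by
  have h := relA r283
  simp only [e_283_x] at h
  exact h
theorem e_321_x : r321 * x = r285 := by
  have h := relA r285
  simp only [e_285_x] at h
  exact h
theorem e_323_x : r323 * x = r288 := by
  have h := relA r288
  simp only [e_288_x] at h
  exact h
theorem e_325_x : r325 * x = r292 := by
  have h := relA r292
  simp only [e_292_x] at h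
  exact h
theorem e_326_x : r326 * x = r293 := by
  have h := relA r293
  simp only [e_293_x] at h
  exact h
theorem e_327_x : r327 * x = r296 := by
  have h := relA r296
  simp only [e_296_x] at h
  exact h
theorem e_331_x : r331 * x = r300 := by
  have h := relA r300
  simp only [e_300_x] at h
  exact h
theorem e_333_x : r333 * x = r302 := by
  have h := relA r302
  simp only [e_302_x] at h
  exact h
theorem e_334_x : r334 * x = r303 := by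
  have h := relA r303
  simp only [e_303_x] at h
  exact h
theorem e_336_x : r336 * x = r306 := by
  have h := relA r306
  simp only [e_306_x] at h
  exact h
theorem e_338_x : r338 * x = r310 := by
  have h := relA r310
  simp only [e_310_x] at h
  exact h
theorem e_339_x : r339 * x = r311 := by
  have h := relA r311
  simp only [e_311_x] at h
  exact h
theorem e_340_x : r340 * x = r313 := by
  have h := relA r313
  simp only [e_313_x] at h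
  exact h
theorem e_342_x : r342 * x = r314 := by
  have h := relA r314
  simp only [e_314_x] at h
  exact h
theorem e_344_x : r344 * x = r315 := by
  have h := relA r315
  simp only [e_315_x] at h
  exact h
theorem e_345_x : r345 * x = r318 := by
  have h := relA r318
  simp only [e_318_x] at h
  exact h
theorem e_346_x : r346 * x = r320 := by
  have h := relA r320
  simp only [e_320_x] at h
  exact h
theorem e_350_x : r350 * x = r324 := by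
  have h := relA r324
  simp only [e_324_x] at h
  exact h
theorem e_352_x : r352 * x = r329 := by
  have h := relA r329
  simp only [e_329_x] at h
  exact h
theorem e_353_x : r353 * x = r332 := by
  have h := relA r332
  simp only [e_332_x] at h
  exact h
theorem e_356_x : r356 * x = r348 := by
  have h := relA r348
  simp only [e_348_x] at h
  exact h
theorem e_357_x : r357 * x = r349 := by
  have h := relA r349
  simp only [e_349_x] at h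
  exact h
theorem e_10_y : r10 * y = r0 := by
  have h := relB r0
  simp only [e_0_y, e_2_y, e_5_y] at h
  exact h
theorem e_13_y : r13 * y = r1 := by
  have h := relB r1
  simp only [e_1_y, e_3_y, e_7_y] at h
  exact h
theorem e_24_y : r24 * y = r4 := by
  have h := relB r4
  simp only [e_4_y, e_8_y, e_15_y] at h
  exact h
theorem e_30_y : r30 * y = r6 := by
  have h := relB r6
  simp only [e_6_y, e_11_y, e_19_y] at h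
  exact h
theorem e_40_y : r40 * y = r9 := by
  have h := relB r9
  simp only [e_9_y, e_16_y, e_26_y] at h
  exact h
theorem e_49_y : r49 * y = r12 := by
  have h := relB r12
  simp only [e_12_y, e_20_y, e_32_y] at h
  exact h
theorem e_53_y : r53 * y = r14 := by
  have h := relB r14
  simp only [e_14_y, e_22_y, e_35_y] at h
  exact h
theorem e_64_y : r64 * y = r18 := by
  have h := relB r18
  simp only [e_18_y, e_28_y, e_44_y] at h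
  exact h
theorem e_78_y : r78 * y = r23 := by
  have h := relB r23
  simp only [e_23_y, e_36_y, e_55_y] at h
  exact h
theorem e_82_y : r82 * y = r25 := by
  have h := relB r25
  simp only [e_25_y, e_38_y, e_58_y] at h
  exact h
theorem e_92_y : r92 * y = r29 := by
  have h := relB r29
  simp only [e_29_y, e_45_y, e_66_y] at h
  exact h
theorem e_96_y : r96 * y = r31 := by
  have h := relB r31
  simp only [e_31_y, e_47_y, e_69_y] at h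
  exact h
theorem e_117_y : r117 * y = r41 := by
  have h := relB r41
  simp only [e_41_y, e_61_y, e_86_y] at h
  exact h
theorem e_134_y : r134 * y = r50 := by
  have h := relB r50
  simp only [e_50_y, e_72_y, e_100_y] at h
  exact h
theorem e_138_y : r138 * y = r52 := by
  have h := relB r52
  simp only [e_52_y, e_74_y, e_103_y] at h
  exact h
theorem e_142_y : r142 * y = r54 := by
  have h := relB r54
  simp only [e_54_y, e_76_y, e_106_y] at h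
  exact h
theorem e_159_y : r159 * y = r63 := by
  have h := relB r63
  simp only [e_63_y, e_88_y, e_120_y] at h
  exact h
theorem e_163_y : r163 * y = r65 := by
  have h := relB r65
  simp only [e_65_y, e_90_y, e_123_y] at h
  exact h
theorem e_189_y : r189 * y = r79 := by
  have h := relB r79
  simp only [e_79_y, e_109_y, e_146_y] at h
  exact h
theorem e_193_y : r193 * y = r81 := by
  have h := relB r81
  simp only [e_81_y, e_111_y, e_149_y] at h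
  exact h
theorem e_197_y : r197 * y = r83 := by
  have h := relB r83
  simp only [e_83_y, e_113_y, e_152_y] at h
  exact h
theorem e_214_y : r214 * y = r93 := by
  have h := relB r93
  simp only [e_93_y, e_126_y, e_166_y] at h
  exact h
theorem e_218_y : r218 * y = r95 := by
  have h := relB r95
  simp only [e_95_y, e_128_y, e_169_y] at h
  exact h
theorem e_229_y : r229 * y = r102 := by
  have h := relB r102
  simp only [e_102_y, e_136_y, e_178_y] at h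
  exact h
theorem e_248_y : r248 * y = r114 := by
  have h := relB r114
  simp only [e_114_y, e_153_y, e_199_y] at h
  exact h
theorem e_251_y : r251 * y = r116 := by
  have h := relB r116
  simp only [e_116_y, e_155_y, e_202_y] at h
  exact h
theorem e_254_y : r254 * y = r118 := by
  have h := relB r118
  simp only [e_118_y, e_157_y, e_205_y] at h
  exact h
theorem e_270_y : r270 * y = r131 := by
  have h := relB r131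
  simp only [e_131_y, e_173_y, e_222_y] at h
  exact h
theorem e_275_y : r275 * y = r135 := by
  have h := relB r135
  simp only [e_135_y, e_177_y, e_227_y] at h
  exact h
theorem e_278_y : r278 * y = r139 := by
  have h := relB r139
  simp only [e_139_y, e_181_y, e_231_y] at h
  exact h
theorem e_281_y : r281 * y = r141 := by
  have h := relB r141
  simp only [e_141_y, e_183_y, e_234_y] at h
  exact h
theorem e_288_y : r288 * y = r148 := by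
  have h := relB r148
  simp only [e_148_y, e_191_y, e_241_y] at h
  exact h
theorem e_298_y : r298 * y = r160 := by
  have h := relB r160
  simp only [e_160_y, e_208_y, e_256_y] at h
  exact h
theorem e_300_y : r300 * y = r162 := by
  have h := relB r162
  simp only [e_162_y, e_209_y, e_258_y] at h
  exact h
theorem e_306_y : r306 * y = r168 := by
  have h := relB r168
  simp only [e_168_y, e_216_y, e_263_y] at h
  exact h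
theorem e_324_y : r324 * y = r196 := by
  have h := relB r196
  simp only [e_196_y, e_246_y, e_291_y] at h
  exact h
theorem e_337_y : r337 * y = r221 := by
  have h := relB r221
  simp only [e_221_y, e_268_y, e_309_y] at h
  exact h
theorem e_43_y : r43 * y = r17 := by
  have h := relC r0
  simp only [e_0_x, e_1_y, e_3_x, e_6_y, e_11_x, e_18_y, e_28_x] at h
  have h2 : r17 * x * y = r0 := by simp only [e_17_x, e_10_y]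
  exact (mul_right_cancel (mul_right_cancel (h.trans h2.symm)))
theorem e_34_y : r34 * y = r21 := by
  have h := relC r1
  simp only [e_1_x, e_0_y, e_2_x, e_4_y, e_8_x, e_14_y, e_22_x] at h
  have h2 : r21 * x * y = r1 := by simp only [e_21_x, e_13_y]
  exact (mul_right_cancel (mul_right_cancel (h.trans h2.symm)))
theorem e_57_y : r57 * y = r37 := by
  have h := relC r4
  simp only [e_4_x, e_2_y, e_5_x, e_9_y, e_16_x, e_25_y, e_38_x] at h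
  have h2 : r37 * x * y = r4 := by simp only [e_37_x, e_24_y]
  exact (mul_right_cancel (mul_right_cancel (h.trans h2.symm)))
theorem e_68_y : r68 * y = r46 := by
  have h := relC r6
  simp only [e_6_x, e_3_y, e_7_x, e_12_y, e_20_x, e_31_y, e_47_x] at h
  have h2 : r46 * x * y = r6 := by simp only [e_46_x, e_30_y]
  exact (mul_right_cancel (mul_right_cancel (h.trans h2.symm)))
theorem e_85_y : r85 * y = r60 := by
  have h := relC r9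
  simp only [e_9_x, e_5_y, e_10_x, e_17_y, e_27_x, e_41_y, e_61_x] at h
  have h2 : r60 * x * y = r9 := by simp only [e_60_x, e_40_y]
  exact (mul_right_cancel (mul_right_cancel (h.trans h2.symm)))
theorem e_99_y : r99 * y = r71 := by
  have h := relC r12
  simp only [e_12_x, e_7_y, e_13_x, e_21_y, e_33_x, e_50_y, e_72_x] at h
  have h2 : r71 * x * y = r12 := by simp only [e_71_x, e_49_y]
  exact (mul_right_cancel (mul_right_cancel (h.trans h2.symm)))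
theorem e_105_y : r105 * y = r75 := by
  have h := relC r14
  simp only [e_14_x, e_8_y, e_15_x, e_23_y, e_36_x, e_54_y, e_76_x] at h
  have h2 : r75 * x * y = r14 := by simp only [e_75_x, e_53_y]
  exact (mul_right_cancel (mul_right_cancel (h.trans h2.symm)))
theorem e_122_y : r122 * y = r89 := by
  have h := relC r18
  simp only [e_18_x, e_11_y, e_19_x, e_29_y, e_45_x, e_65_y, e_90_x] at h
  have h2 : r89 * x * y = r18 := by simp only [e_89_x, e_64_y]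
  exact (mul_right_cancel (mul_right_cancel (h.trans h2.symm)))
theorem e_145_y : r145 * y = r108 := by
  have h := relC r23
  simp only [e_23_x, e_15_y, e_24_x, e_37_y, e_56_x, e_79_y, e_109_x] at h
  have h2 : r108 * x * y = r23 := by simp only [e_108_x, e_78_y]
  exact (mul_right_cancel (mul_right_cancel (h.trans h2.symm)))
theorem e_151_y : r151 * y = r112 := by
  have h := relC r25
  simp only [e_25_x, e_16_y, e_26_x, e_39_y, e_59_x, e_83_y, e_113_x] at h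
  have h2 : r112 * x * y = r25 := by simp only [e_112_x, e_82_y]
  exact (mul_right_cancel (mul_right_cancel (h.trans h2.symm)))
theorem e_165_y : r165 * y = r125 := by
  have h := relC r29
  simp only [e_29_x, e_19_y, e_30_x, e_46_y, e_67_x, e_93_y, e_126_x] at h
  have h2 : r125 * x * y = r29 := by simp only [e_125_x, e_92_y]
  exact (mul_right_cancel (mul_right_cancel (h.trans h2.symm)))
theorem e_171_y : r171 * y = r129 := by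
  have h := relC r31
  simp only [e_31_x, e_20_y, e_32_x, e_48_y, e_70_x, e_97_y, e_130_x] at h
  have h2 : r129 * x * y = r31 := by simp only [e_129_x, e_96_y]
  exact (mul_right_cancel (mul_right_cancel (h.trans h2.symm)))
theorem e_204_y : r204 * y = r156 := by
  have h := relC r41
  simp only [e_41_x, e_27_y, e_42_x, e_62_y, e_87_x, e_118_y, e_157_x] at h
  have h2 : r156 * x * y = r41 := by simp only [e_156_x, e_117_y]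
  exact (mul_right_cancel (mul_right_cancel (h.trans h2.symm)))
theorem e_226_y : r226 * y = r176 := by
  have h := relC r50
  simp only [e_50_x, e_33_y, e_51_x, e_73_y, e_101_x, e_135_y, e_177_x] at h
  have h2 : r176 * x * y = r50 := by simp only [e_176_x, e_134_y]
  exact (mul_right_cancel (mul_right_cancel (h.trans h2.symm)))
theorem e_230_y : r230 * y = r180 := by
  have h := relC r52
  simp only [e_52_x, e_35_y, e_53_x, e_75_y, e_104_x, e_139_y, e_181_x] at h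
  have h2 : r180 * x * y = r52 := by simp only [e_180_x, e_138_y]
  exact (mul_right_cancel (mul_right_cancel (h.trans h2.symm)))
theorem e_236_y : r236 * y = r184 := by
  have h := relC r54
  simp only [e_54_x, e_36_y, e_55_x, e_77_y, e_107_x, e_143_y, e_185_x] at h
  have h2 : r184 * x * y = r54 := by simp only [e_184_x, e_142_y]
  exact (mul_right_cancel (mul_right_cancel (h.trans h2.symm)))
theorem e_255_y : r255 * y = r207 := by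
  have h := relC r63
  simp only [e_63_x, e_44_y, e_64_x, e_89_y, e_121_x, e_160_y, e_208_x] at h
  have h2 : r207 * x * y = r63 := by simp only [e_207_x, e_159_y]
  exact (mul_right_cancel (mul_right_cancel (h.trans h2.symm)))
theorem e_289_y : r289 * y = r243 := by
  have h := relC r81
  simp only [e_81_x, e_58_y, e_82_x, e_112_y, e_150_x, e_194_y, e_244_x] at h
  have h2 : r243 * x * y = r81 := by simp only [e_243_x, e_193_y]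
  exact (mul_right_cancel (mul_right_cancel (h.trans h2.symm)))
theorem e_307_y : r307 * y = r265 := by
  have h := relC r95
  simp only [e_95_x, e_69_y, e_96_x, e_129_y, e_170_x, e_219_y, e_266_x] at h
  have h2 : r265 * x * y = r95 := by simp only [e_265_x, e_218_y]
  exact (mul_right_cancel (mul_right_cancel (h.trans h2.symm)))
theorem e_345_y : r345 * y = r317 := by
  have h := relC r141
  simp only [e_141_x, e_106_y, e_142_x, e_184_y, e_235_x, e_282_y, e_318_x] at h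
  have h2 : r317 * x * y = r141 := by simp only [e_317_x, e_281_y]
  exact (mul_right_cancel (mul_right_cancel (h.trans h2.symm)))
theorem e_353_y : r353 * y = r331 := by
  have h := relC r162
  simp only [e_162_x, e_123_y, e_163_x, e_210_y, e_259_x, e_301_y, e_332_x] at h
  have h2 : r331 * x * y = r162 := by simp only [e_331_x, e_300_y]
  exact (mul_right_cancel (mul_right_cancel (h.trans h2.symm)))
theorem e_70_y : r70 * y = r39 := by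
  have h := relD r0
  simp only [e_0_x, e_1_y, e_3_y, e_7_x, e_12_y, e_20_y, e_32_x, e_48_y] at h
  have h2 : r39 * x * y * y * x * y * y = r0 := by simp only [e_39_x, e_26_y, e_40_y, e_9_x, e_5_y, e_10_y]
  exact (mul_right_cancel (mul_right_cancel (mul_right_cancel (mul_right_cancel (mul_right_cancel (mul_right_cancel (h.trans h2.symm)))))))
theorem e_59_y : r59 * y = r48 := by
  have h := relD r1
  simp only [e_1_x, e_0_y, e_2_y, e_5_x, e_9_y, e_16_y, e_26_x, e_39_y] at h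
  have h2 : r48 * x * y * y * x * y * y = r1 := by simp only [e_48_x, e_32_y, e_49_y, e_12_x, e_7_y, e_13_y]
  exact (mul_right_cancel (mul_right_cancel (mul_right_cancel (mul_right_cancel (mul_right_cancel (mul_right_cancel (h.trans h2.symm)))))))
theorem e_87_y : r87 * y = r77 := by
  have h := relD r4
  simp only [e_4_x, e_2_y, e_5_y, e_10_x, e_17_y, e_27_y, e_42_x, e_62_y] at h
  have h2 : r77 * x * y * y * x * y * y = r4 := by simp only [e_77_x, e_55_y, e_78_y, e_23_x, e_15_y, e_24_y]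
  exact (mul_right_cancel (mul_right_cancel (mul_right_cancel (mul_right_cancel (mul_right_cancel (mul_right_cancel (h.trans h2.symm)))))))
theorem e_101_y : r101 * y = r91 := by
  have h := relD r6
  simp only [e_6_x, e_3_y, e_7_y, e_13_x, e_21_y, e_33_y, e_51_x, e_73_y] at h
  have h2 : r91 * x * y * y * x * y * y = r6 := by simp only [e_91_x, e_66_y, e_92_y, e_29_x, e_19_y, e_30_y]
  exact (mul_right_cancel (mul_right_cancel (mul_right_cancel (mul_right_cancel (mul_right_cancel (mul_right_cancel (h.trans h2.symm)))))))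
theorem e_147_y : r147 * y = r137 := by
  have h := relD r14
  simp only [e_14_x, e_8_y, e_15_y, e_24_x, e_37_y, e_56_y, e_80_x, e_110_y] at h
  have h2 : r137 * x * y * y * x * y * y = r14 := by simp only [e_137_x, e_103_y, e_138_y, e_52_x, e_35_y, e_53_y]
  exact (mul_right_cancel (mul_right_cancel (mul_right_cancel (mul_right_cancel (mul_right_cancel (mul_right_cancel (h.trans h2.symm)))))))
theorem e_167_y : r167 * y = r158 := by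
  have h := relD r18
  simp only [e_18_x, e_11_y, e_19_y, e_30_x, e_46_y, e_67_y, e_94_x, e_127_y] at h
  have h2 : r158 * x * y * y * x * y * y = r18 := by simp only [e_158_x, e_120_y, e_159_y, e_63_x, e_44_y, e_64_y]
  exact (mul_right_cancel (mul_right_cancel (mul_right_cancel (mul_right_cancel (mul_right_cancel (mul_right_cancel (h.trans h2.symm)))))))
theorem e_200_y : r200 * y = r192 := by
  have h := relD r25
  simp only [e_25_x, e_16_y, e_26_y, e_40_x, e_60_y, e_84_y, e_115_x, e_154_y] at h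
  have h2 : r192 * x * y * y * x * y * y = r25 := by simp only [e_192_x, e_149_y, e_193_y, e_81_x, e_58_y, e_82_y]
  exact (mul_right_cancel (mul_right_cancel (mul_right_cancel (mul_right_cancel (mul_right_cancel (mul_right_cancel (h.trans h2.symm)))))))
theorem e_223_y : r223 * y = r217 := by
  have h := relD r31
  simp only [e_31_x, e_20_y, e_32_y, e_49_x, e_71_y, e_98_y, e_132_x, e_174_y] at h
  have h2 : r217 * x * y * y * x * y * y = r31 := by simp only [e_217_x, e_169_y, e_218_y, e_95_x, e_69_y, e_96_y]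
  exact (mul_right_cancel (mul_right_cancel (mul_right_cancel (mul_right_cancel (mul_right_cancel (mul_right_cancel (h.trans h2.symm)))))))
theorem e_285_y : r285 * y = r280 := by
  have h := relD r54
  simp only [e_54_x, e_36_y, e_55_y, e_78_x, e_108_y, e_144_y, e_187_x, e_239_y] at h
  have h2 : r280 * x * y * y * x * y * y = r54 := by simp only [e_280_x, e_234_y, e_281_y, e_141_x, e_106_y, e_142_y]
  exact (mul_right_cancel (mul_right_cancel (mul_right_cancel (mul_right_cancel (mul_right_cancel (mul_right_cancel (h.trans h2.symm)))))))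
theorem e_303_y : r303 * y = r299 := by
  have h := relD r65
  simp only [e_65_x, e_45_y, e_66_y, e_92_x, e_125_y, e_164_y, e_212_x, e_261_y] at h
  have h2 : r299 * x * y * y * x * y * y = r65 := by simp only [e_299_x, e_258_y, e_300_y, e_162_x, e_123_y, e_163_y]
  exact (mul_right_cancel (mul_right_cancel (mul_right_cancel (mul_right_cancel (mul_right_cancel (mul_right_cancel (h.trans h2.symm)))))))
theorem e_309_x : r309 * x = r291 := by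
  have h := relD r70
  simp only [e_70_x, e_97_y, e_130_y, e_172_x, e_221_y, e_268_y] at h
  have h2 : r291 * y * y * x * y * y * x * y * y = r70 := by simp only [e_291_y, e_324_y, e_196_x, e_152_y, e_197_y, e_83_x, e_59_y, e_48_y]
  exact (mul_right_cancel (mul_right_cancel (mul_right_cancel (mul_right_cancel (mul_right_cancel (mul_right_cancel (mul_right_cancel (mul_right_cancel (h.trans h2.symm)))))))))
theorem e_291_x : r291 * x = r309 := by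
  have h := relA r291
  have h2 : r309 * x = r291 := by simp only [e_309_x]
  exact (mul_right_cancel (h.trans h2.symm))
theorem e_42_y : r42 * y = r43 := by
  have h := relB r17
  simp only [e_17_y, e_27_y] at h
  have h2 : r43 * y = r17 := by simp only [e_43_y]
  exact (mul_right_cancel (h.trans h2.symm))
theorem e_51_y : r51 * y = r34 := by
  have h := relB r21
  simp only [e_21_y, e_33_y] at h
  have h2 : r34 * y = r21 := by simp only [e_34_y]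
  exact (mul_right_cancel (h.trans h2.symm))
theorem e_80_y : r80 * y = r57 := by
  have h := relB r37
  simp only [e_37_y, e_56_y] at h
  have h2 : r57 * y = r37 := by simp only [e_57_y]
  exact (mul_right_cancel (h.trans h2.symm))
theorem e_94_y : r94 * y = r68 := by
  have h := relB r46
  simp only [e_46_y, e_67_y] at h
  have h2 : r68 * y = r46 := by simp only [e_68_y]
  exact (mul_right_cancel (h.trans h2.symm))
theorem e_115_y : r115 * y = r85 := by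
  have h := relB r60
  simp only [e_60_y, e_84_y] at h
  have h2 : r85 * y = r60 := by simp only [e_85_y]
  exact (mul_right_cancel (h.trans h2.symm))
theorem e_107_y : r107 * y = r62 := by
  have h := relB r62
  simp only [e_62_y, e_87_y, e_77_y] at h
  exact h
theorem e_132_y : r132 * y = r99 := by
  have h := relB r71
  simp only [e_71_y, e_98_y] at h
  have h2 : r99 * y = r71 := by simp only [e_99_y]
  exact (mul_right_cancel (h.trans h2.symm))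
theorem e_124_y : r124 * y = r73 := by
  have h := relB r73
  simp only [e_73_y, e_101_y, e_91_y] at h
  exact h
theorem e_140_y : r140 * y = r105 := by
  have h := relB r75
  simp only [e_75_y, e_104_y] at h
  have h2 : r105 * y = r75 := by simp only [e_105_y]
  exact (mul_right_cancel (h.trans h2.symm))
theorem e_161_y : r161 * y = r122 := by
  have h := relB r89
  simp only [e_89_y, e_121_y] at h
  have h2 : r122 * y = r89 := by simp only [e_122_y]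
  exact (mul_right_cancel (h.trans h2.symm))
theorem e_187_y : r187 * y = r145 := by
  have h := relB r108
  simp only [e_108_y, e_144_y] at h
  have h2 : r145 * y = r108 := by simp only [e_145_y]
  exact (mul_right_cancel (h.trans h2.symm))
theorem e_179_y : r179 * y = r110 := by
  have h := relB r110
  simp only [e_110_y, e_147_y, e_137_y] at h
  exact h
theorem e_195_y : r195 * y = r151 := by
  have h := relB r112
  simp only [e_112_y, e_150_y] at h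
  have h2 : r151 * y = r112 := by simp only [e_151_y]
  exact (mul_right_cancel (h.trans h2.symm))
theorem e_212_y : r212 * y = r165 := by
  have h := relB r125
  simp only [e_125_y, e_164_y] at h
  have h2 : r165 * y = r125 := by simp only [e_165_y]
  exact (mul_right_cancel (h.trans h2.symm))
theorem e_206_y : r206 * y = r127 := by
  have h := relB r127
  simp only [e_127_y, e_167_y, e_158_y] at h
  exact h
theorem e_220_y : r220 * y = r171 := by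
  have h := relB r129
  simp only [e_129_y, e_170_y] at h
  have h2 : r171 * y = r129 := by simp only [e_171_y]
  exact (mul_right_cancel (h.trans h2.symm))
theorem e_242_y : r242 * y = r154 := by
  have h := relB r154
  simp only [e_154_y, e_200_y, e_192_y] at h
  exact h
theorem e_252_y : r252 * y = r204 := by
  have h := relB r156
  simp only [e_156_y, e_203_y] at h
  have h2 : r204 * y = r156 := by simp only [e_204_y]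
  exact (mul_right_cancel (h.trans h2.symm))
theorem e_264_y : r264 * y = r174 := by
  have h := relB r174
  simp only [e_174_y, e_223_y, e_217_y] at h
  exact h
theorem e_273_y : r273 * y = r226 := by
  have h := relB r176
  simp only [e_176_y, e_225_y] at h
  have h2 : r226 * y = r176 := by simp only [e_226_y]
  exact (mul_right_cancel (h.trans h2.symm))
theorem e_283_y : r283 * y = r236 := by
  have h := relB r184
  simp only [e_184_y, e_235_y] at h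
  have h2 : r236 * y = r184 := by simp only [e_236_y]
  exact (mul_right_cancel (h.trans h2.symm))
theorem e_316_y : r316 * y = r239 := by
  have h := relB r239
  simp only [e_239_y, e_285_y, e_280_y] at h
  exact h
theorem e_330_y : r330 * y = r261 := by
  have h := relB r261
  simp only [e_261_y, e_303_y, e_299_y] at h
  exact h
theorem e_136_x : r136 * x = r124 := by
  have h := relC r34
  simp only [e_34_x, e_22_y, e_35_x, e_52_y, e_74_x, e_102_y] at h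
  have h2 : r124 * y * x * y = r34 := by simp only [e_124_y, e_73_x, e_51_y]
  exact (mul_right_cancel (mul_right_cancel (mul_right_cancel (h.trans h2.symm))))
theorem e_198_y : r198 * y = r97 := by
  have h := relC r39
  simp only [e_39_x, e_26_y, e_40_x, e_60_y, e_84_x, e_114_y, e_153_x] at h
  have h2 : r97 * x * y = r39 := by simp only [e_97_x, e_70_y]
  exact (mul_right_cancel (mul_right_cancel (h.trans h2.symm)))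
theorem e_119_y : r119 * y = r143 := by
  have h := relC r43
  simp only [e_43_x, e_28_y, e_44_x, e_63_y, e_88_x] at h
  have h2 : r143 * x * y * x * y = r43 := by simp only [e_143_x, e_107_y, e_62_x, e_42_y]
  exact (mul_right_cancel (mul_right_cancel (mul_right_cancel (mul_right_cancel (h.trans h2.symm)))))
theorem e_173_x : r173 * x = r197 := by
  have h := relC r48
  simp only [e_48_x, e_32_y, e_49_x, e_71_y, e_98_x, e_131_y] at h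
  have h2 : r197 * y * x * y = r48 := by simp only [e_197_y, e_83_x, e_59_y]
  exact (mul_right_cancel (mul_right_cancel (mul_right_cancel (h.trans h2.symm))))
theorem e_191_x : r191 * x = r179 := by
  have h := relC r57
  simp only [e_57_x, e_38_y, e_58_x, e_81_y, e_111_x, e_148_y] at h
  have h2 : r179 * y * x * y = r57 := by simp only [e_179_y, e_110_x, e_80_y]
  exact (mul_right_cancel (mul_right_cancel (mul_right_cancel (h.trans h2.symm))))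
theorem e_216_x : r216 * x = r206 := by
  have h := relC r68
  simp only [e_68_x, e_47_y, e_69_x, e_95_y, e_128_x, e_168_y] at h
  have h2 : r206 * y * x * y = r68 := by simp only [e_206_y, e_127_x, e_94_y]
  exact (mul_right_cancel (mul_right_cancel (mul_right_cancel (h.trans h2.symm))))
theorem e_238_x : r238 * x = r254 := by
  have h := relC r77
  simp only [e_77_x, e_55_y, e_78_x, e_108_y, e_144_x, e_186_y] at h
  have h2 : r254 * y * x * y = r77 := by simp only [e_254_y, e_118_x, e_87_y]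
  exact (mul_right_cancel (mul_right_cancel (mul_right_cancel (h.trans h2.symm))))
theorem e_250_x : r250 * x = r242 := by
  have h := relC r85
  simp only [e_85_x, e_61_y, e_86_x, e_116_y, e_155_x, e_201_y] at h
  have h2 : r242 * y * x * y = r85 := by simp only [e_242_y, e_154_x, e_115_y]
  exact (mul_right_cancel (mul_right_cancel (mul_right_cancel (h.trans h2.symm))))
theorem e_260_x : r260 * x = r275 := by
  have h := relC r91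
  simp only [e_91_x, e_66_y, e_92_x, e_125_y, e_164_x, e_211_y] at h
  have h2 : r275 * y * x * y = r91 := by simp only [e_275_y, e_135_x, e_101_y]
  exact (mul_right_cancel (mul_right_cancel (mul_right_cancel (h.trans h2.symm))))
theorem e_272_x : r272 * x = r264 := by
  have h := relC r99
  simp only [e_99_x, e_72_y, e_100_x, e_133_y, e_175_x, e_224_y] at h
  have h2 : r264 * y * x * y = r99 := by simp only [e_264_y, e_174_x, e_132_y]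
  exact (mul_right_cancel (mul_right_cancel (mul_right_cancel (h.trans h2.symm))))
theorem e_322_x : r322 * x = r316 := by
  have h := relC r145
  simp only [e_145_x, e_109_y, e_146_x, e_188_y, e_240_x, e_286_y] at h
  have h2 : r316 * y * x * y = r145 := by simp only [e_316_y, e_239_x, e_187_y]
  exact (mul_right_cancel (mul_right_cancel (mul_right_cancel (h.trans h2.symm))))
theorem e_335_x : r335 * x = r330 := by
  have h := relC r165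
  simp only [e_165_x, e_126_y, e_166_x, e_213_y, e_262_x, e_304_y] at h
  have h2 : r330 * y * x * y = r165 := by simp only [e_330_y, e_261_x, e_212_y]
  exact (mul_right_cancel (mul_right_cancel (mul_right_cancel (h.trans h2.symm))))
theorem e_175_y : r175 * y = r182 := by
  have h := relD r22
  simp only [e_22_x, e_34_y, e_21_y, e_33_x, e_50_y, e_72_y, e_100_x, e_133_y] at h
  have h2 : r182 * x * y * y * x * y * y = r22 := by simp only [e_182_x, e_140_y, e_105_y, e_75_x, e_53_y, e_14_y]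
  exact (mul_right_cancel (mul_right_cancel (mul_right_cancel (mul_right_cancel (mul_right_cancel (mul_right_cancel (h.trans h2.symm)))))))
theorem e_202_x : r202 * x = r161 := by
  have h := relD r27
  simp only [e_27_x, e_41_y, e_61_y, e_86_x, e_116_y, e_155_y] at h
  have h2 : r161 * y * y * x * y * y * x * y * y = r27 := by simp only [e_161_y, e_122_y, e_89_x, e_64_y, e_18_y, e_28_x, e_43_y, e_17_y]
  exact (mul_right_cancel (mul_right_cancel (mul_right_cancel (mul_right_cancel (mul_right_cancel (mul_right_cancel (mul_right_cancel (mul_right_cancel (h.trans h2.symm)))))))))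
theorem e_232_y : r232 * y = r133 := by
  have h := relD r34
  simp only [e_34_x, e_22_y, e_35_y, e_53_x, e_75_y, e_104_y, e_140_x, e_182_y] at h
  have h2 : r133 * x * y * y * x * y * y = r34 := by simp only [e_133_x, e_100_y, e_134_y, e_50_x, e_33_y, e_51_y]
  exact (mul_right_cancel (mul_right_cancel (mul_right_cancel (mul_right_cancel (mul_right_cancel (mul_right_cancel (h.trans h2.symm)))))))
theorem e_240_y : r240 * y = r245 := by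
  have h := relD r38
  simp only [e_38_x, e_57_y, e_37_y, e_56_x, e_79_y, e_109_y, e_146_x, e_188_y] at h
  have h2 : r245 * x * y * y * x * y * y = r38 := by simp only [e_245_x, e_195_y, e_151_y, e_112_x, e_82_y, e_25_y]
  exact (mul_right_cancel (mul_right_cancel (mul_right_cancel (mul_right_cancel (mul_right_cancel (mul_right_cancel (h.trans h2.symm)))))))
theorem e_161_x : r161 * x = r202 := by
  have h := relD r41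
  simp only [e_41_x, e_27_y, e_42_y, e_43_x, e_28_y, e_44_y, e_64_x, e_89_y, e_121_y] at h
  have h2 : r202 * y * y * x * y * y = r41 := by simp only [e_202_y, e_251_y, e_116_x, e_86_y, e_117_y]
  exact (mul_right_cancel (mul_right_cancel (mul_right_cancel (mul_right_cancel (mul_right_cancel (h.trans h2.symm))))))
theorem e_262_y : r262 * y = r267 := by
  have h := relD r47
  simp only [e_47_x, e_68_y, e_46_y, e_67_x, e_93_y, e_126_y, e_166_x, e_213_y] at h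
  have h2 : r267 * x * y * y * x * y * y = r47 := by simp only [e_267_x, e_220_y, e_171_y, e_129_x, e_96_y, e_31_y]
  exact (mul_right_cancel (mul_right_cancel (mul_right_cancel (mul_right_cancel (mul_right_cancel (mul_right_cancel (h.trans h2.symm)))))))
theorem e_172_y : r172 * y = r198 := by
  have h := relD r59
  simp only [e_59_x, e_83_y, e_113_y, e_152_x, e_196_y, e_246_y, e_291_x, e_309_y, e_337_y, e_221_x] at h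
  have h2 : r198 * y * x * y * y = r59 := by simp only [e_198_y, e_97_x, e_70_y, e_39_y]
  exact (mul_right_cancel (mul_right_cancel (mul_right_cancel (mul_right_cancel (h.trans h2.symm)))))
theorem e_292_y : r292 * y = r295 := by
  have h := relD r61
  simp only [e_61_x, e_85_y, e_60_y, e_84_x, e_114_y, e_153_y, e_199_x, e_247_y] at h
  have h2 : r295 * x * y * y * x * y * y = r61 := by simp only [e_295_x, e_252_y, e_204_y, e_156_x, e_117_y, e_41_y]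
  exact (mul_right_cancel (mul_right_cancel (mul_right_cancel (mul_right_cancel (mul_right_cancel (mul_right_cancel (h.trans h2.symm)))))))
theorem e_310_y : r310 * y = r312 := by
  have h := relD r72
  simp only [e_72_x, e_99_y, e_71_y, e_98_x, e_131_y, e_173_y, e_222_x, e_269_y] at h
  have h2 : r312 * x * y * y * x * y * y = r72 := by simp only [e_312_x, e_273_y, e_226_y, e_176_x, e_134_y, e_50_y]
  exact (mul_right_cancel (mul_right_cancel (mul_right_cancel (mul_right_cancel (mul_right_cancel (mul_right_cancel (h.trans h2.symm)))))))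
theorem e_315_y : r315 * y = r319 := by
  have h := relD r76
  simp only [e_76_x, e_105_y, e_75_y, e_104_x, e_139_y, e_181_y, e_231_x, e_277_y] at h
  have h2 : r319 * x * y * y * x * y * y = r76 := by simp only [e_319_x, e_283_y, e_236_y, e_184_x, e_142_y, e_54_y]
  exact (mul_right_cancel (mul_right_cancel (mul_right_cancel (mul_right_cancel (mul_right_cancel (mul_right_cancel (h.trans h2.symm)))))))
theorem e_124_x : r124 * x = r136 := by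
  have h := relA r124
  have h2 : r136 * x = r124 := by simp only [e_136_x]
  exact (mul_right_cancel (h.trans h2.symm))
theorem e_197_x : r197 * x = r173 := by
  have h := relA r173
  simp only [e_173_x] at h
  exact h
theorem e_179_x : r179 * x = r191 := by
  have h := relA r179
  have h2 : r191 * x = r179 := by simp only [e_191_x]
  exact (mul_right_cancel (h.trans h2.symm))
theorem e_206_x : r206 * x = r216 := by
  have h := relA r206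
  have h2 : r216 * x = r206 := by simp only [e_216_x]
  exact (mul_right_cancel (h.trans h2.symm))
theorem e_254_x : r254 * x = r238 := by
  have h := relA r238
  simp only [e_238_x] at h
  exact h
theorem e_242_x : r242 * x = r250 := by
  have h := relA r242
  have h2 : r250 * x = r242 := by simp only [e_250_x]
  exact (mul_right_cancel (h.trans h2.symm))
theorem e_275_x : r275 * x = r260 := by
  have h := relA r260
  simp only [e_260_x] at h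
  exact h
theorem e_264_x : r264 * x = r272 := by
  have h := relA r264
  have h2 : r272 * x = r264 := by simp only [e_272_x]
  exact (mul_right_cancel (h.trans h2.symm))
theorem e_316_x : r316 * x = r322 := by
  have h := relA r316
  have h2 : r322 * x = r316 := by simp only [e_322_x]
  exact (mul_right_cancel (h.trans h2.symm))
theorem e_330_x : r330 * x = r335 := by
  have h := relA r330
  have h2 : r335 * x = r330 := by simp only [e_335_x]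
  exact (mul_right_cancel (h.trans h2.symm))
theorem e_237_y : r237 * y = r119 := by
  have h := relB r119
  simp only [e_119_y, e_143_y, e_185_y] at h
  exact h
theorem e_228_y : r228 * y = r210 := by
  have h := relC r65
  simp only [e_65_x, e_45_y, e_66_x, e_91_y, e_124_x, e_136_y, e_178_x] at h
  have h2 : r210 * x * y = r65 := by simp only [e_210_x, e_163_y]
  exact (mul_right_cancel (mul_right_cancel (h.trans h2.symm)))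
theorem e_287_y : r287 * y = r276 := by
  have h := relC r102
  simp only [e_102_x, e_74_y, e_103_x, e_137_y, e_179_x, e_191_y, e_241_x] at h
  have h2 : r276 * x * y = r102 := by simp only [e_276_x, e_229_y]
  exact (mul_right_cancel (mul_right_cancel (h.trans h2.symm)))
theorem e_233_y : r233 * y = r224 := by
  have h := relC r105
  simp only [e_105_x, e_76_y, e_106_x, e_141_y, e_183_x] at h
  have h2 : r224 * x * y * x * y = r105 := by simp only [e_224_x, e_175_y, e_182_x, e_140_y]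
  exact (mul_right_cancel (mul_right_cancel (mul_right_cancel (mul_right_cancel (h.trans h2.symm)))))
theorem e_305_y : r305 * y = r284 := by
  have h := relC r119
  simp only [e_119_x, e_88_y, e_120_x, e_158_y, e_206_x, e_216_y, e_263_x] at h
  have h2 : r284 * x * y = r119 := by simp only [e_284_x, e_237_y]
  exact (mul_right_cancel (mul_right_cancel (h.trans h2.symm)))
theorem e_257_y : r257 * y = r201 := by
  have h := relC r122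
  simp only [e_122_x, e_90_y, e_123_x, e_162_y, e_209_x] at h
  have h2 : r201 * x * y * x * y = r122 := by simp only [e_201_x, e_155_y, e_202_x, e_161_y]
  exact (mul_right_cancel (mul_right_cancel (mul_right_cancel (mul_right_cancel (h.trans h2.symm)))))
theorem e_326_y : r326 * y = r323 := by
  have h := relC r148
  simp only [e_148_x, e_111_y, e_149_x, e_192_y, e_242_x, e_250_y, e_293_x] at h
  have h2 : r323 * x * y = r148 := by simp only [e_323_x, e_288_y]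
  exact (mul_right_cancel (mul_right_cancel (h.trans h2.symm)))
theorem e_290_y : r290 * y = r286 := by
  have h := relC r151
  simp only [e_151_x, e_113_y, e_152_x, e_196_y, e_246_x] at h
  have h2 : r286 * x * y * x * y = r151 := by simp only [e_286_x, e_240_y, e_245_x, e_195_y]
  exact (mul_right_cancel (mul_right_cancel (mul_right_cancel (mul_right_cancel (h.trans h2.symm)))))
theorem e_339_y : r339 * y = r336 := by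
  have h := relC r168
  simp only [e_168_x, e_128_y, e_169_x, e_217_y, e_264_x, e_272_y, e_311_x] at h
  have h2 : r336 * x * y = r168 := by simp only [e_336_x, e_306_y]
  exact (mul_right_cancel (mul_right_cancel (h.trans h2.symm)))
theorem e_308_y : r308 * y = r304 := by
  have h := relC r171
  simp only [e_171_x, e_130_y, e_172_x, e_221_y, e_268_x] at h
  have h2 : r304 * x * y * x * y = r171 := by simp only [e_304_x, e_262_y, e_267_x, e_220_y]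
  exact (mul_right_cancel (mul_right_cancel (mul_right_cancel (mul_right_cancel (h.trans h2.symm)))))
theorem e_338_y : r338 * y = r350 := by
  have h := relC r196
  simp only [e_196_x, e_152_y, e_197_x, e_173_y, e_222_x, e_269_y, e_310_x] at h
  have h2 : r350 * x * y = r196 := by simp only [e_350_x, e_324_y]
  exact (mul_right_cancel (mul_right_cancel (h.trans h2.symm)))
theorem e_351_x : r351 * x = r337 := by
  have h := relC r198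
  simp only [e_198_x, e_153_y, e_199_x, e_247_y, e_292_x, e_325_y] at h
  have h2 : r337 * y * x * y = r198 := by simp only [e_337_y, e_221_x, e_172_y]
  exact (mul_right_cancel (mul_right_cancel (mul_right_cancel (h.trans h2.symm))))
theorem e_327_y : r327 * y = r325 := by
  have h := relC r204
  simp only [e_204_x, e_157_y, e_205_x, e_253_y, e_296_x] at h
  have h2 : r325 * x * y * x * y = r204 := by simp only [e_325_x, e_292_y, e_295_x, e_252_y]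
  exact (mul_right_cancel (mul_right_cancel (mul_right_cancel (mul_right_cancel (h.trans h2.symm)))))
theorem e_340_y : r340 * y = r338 := by
  have h := relC r226
  simp only [e_226_x, e_177_y, e_227_x, e_274_y, e_313_x] at h
  have h2 : r338 * x * y * x * y = r226 := by simp only [e_338_x, e_310_y, e_312_x, e_273_y]
  exact (mul_right_cancel (mul_right_cancel (mul_right_cancel (mul_right_cancel (h.trans h2.symm)))))
theorem e_346_y : r346 * y = r344 := by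
  have h := relC r236
  simp only [e_236_x, e_185_y, e_237_x, e_284_y, e_320_x] at h
  have h2 : r344 * x * y * x * y = r236 := by simp only [e_344_x, e_315_y, e_319_x, e_283_y]
  exact (mul_right_cancel (mul_right_cancel (mul_right_cancel (mul_right_cancel (h.trans h2.symm)))))
theorem e_321_y : r321 * y = r274 := by
  have h := relD r246
  simp only [e_246_x, e_290_y, e_286_y, e_322_x, e_316_y, e_239_y, e_285_x] at h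
  have h2 : r274 * y * x * y * y * x * y * y = r246 := by simp only [e_274_y, e_313_x, e_340_y, e_338_y, e_350_x, e_324_y, e_196_y]
  exact (mul_right_cancel (mul_right_cancel (mul_right_cancel (mul_right_cancel (mul_right_cancel (mul_right_cancel (mul_right_cancel (h.trans h2.symm))))))))
theorem e_334_y : r334 * y = r253 := by
  have h := relD r268
  simp only [e_268_x, e_308_y, e_304_y, e_335_x, e_330_y, e_261_y, e_303_x] at h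
  have h2 : r253 * y * x * y * y * x * y * y = r268 := by simp only [e_253_y, e_296_x, e_327_y, e_325_y, e_351_x, e_337_y, e_221_y]
  exact (mul_right_cancel (mul_right_cancel (mul_right_cancel (mul_right_cancel (mul_right_cancel (mul_right_cancel (mul_right_cancel (h.trans h2.symm))))))))
theorem e_337_x : r337 * x = r351 := by
  have h := relA r337
  have h2 : r351 * x = r337 := by simp only [e_351_x]
  exact (mul_right_cancel (h.trans h2.symm))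
theorem e_293_y : r293 * y = r257 := by
  have h := relB r201
  simp only [e_201_y, e_250_y] at h
  have h2 : r257 * y = r201 := by simp only [e_257_y]
  exact (mul_right_cancel (h.trans h2.symm))
theorem e_302_y : r302 * y = r228 := by
  have h := relB r210
  simp only [e_210_y, e_259_y] at h
  have h2 : r228 * y = r210 := by simp only [e_228_y]
  exact (mul_right_cancel (h.trans h2.symm))
theorem e_311_y : r311 * y = r233 := by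
  have h := relB r224
  simp only [e_224_y, e_272_y] at h
  have h2 : r233 * y = r224 := by simp only [e_233_y]
  exact (mul_right_cancel (h.trans h2.symm))
theorem e_328_y : r328 * y = r334 := by
  have h := relB r253
  simp only [e_253_y, e_296_y] at h
  have h2 : r334 * y = r253 := by simp only [e_334_y]
  exact (mul_right_cancel (h.trans h2.symm))
theorem e_341_y : r341 * y = r321 := by
  have h := relB r274
  simp only [e_274_y, e_313_y] at h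
  have h2 : r321 * y = r274 := by simp only [e_321_y]
  exact (mul_right_cancel (h.trans h2.symm))
theorem e_343_y : r343 * y = r287 := by
  have h := relB r276
  simp only [e_276_y, e_314_y] at h
  have h2 : r287 * y = r276 := by simp only [e_287_y]
  exact (mul_right_cancel (h.trans h2.symm))
theorem e_347_y : r347 * y = r305 := by
  have h := relB r284
  simp only [e_284_y, e_320_y] at h
  have h2 : r305 * y = r284 := by simp only [e_305_y]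
  exact (mul_right_cancel (h.trans h2.symm))
theorem e_348_y : r348 * y = r290 := by
  have h := relB r286
  simp only [e_286_y, e_322_y] at h
  have h2 : r290 * y = r286 := by simp only [e_290_y]
  exact (mul_right_cancel (h.trans h2.symm))
theorem e_354_y : r354 * y = r308 := by
  have h := relB r304
  simp only [e_304_y, e_335_y] at h
  have h2 : r308 * y = r304 := by simp only [e_308_y]
  exact (mul_right_cancel (h.trans h2.symm))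
theorem e_358_y : r358 * y = r326 := by
  have h := relB r323
  simp only [e_323_y, e_349_y] at h
  have h2 : r326 * y = r323 := by simp only [e_326_y]
  exact (mul_right_cancel (h.trans h2.symm))
theorem e_359_y : r359 * y = r327 := by
  have h := relB r325
  simp only [e_325_y, e_351_y] at h
  have h2 : r327 * y = r325 := by simp only [e_327_y]
  exact (mul_right_cancel (h.trans h2.symm))
theorem e_260_y : r260 * y = r186 := by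
  have h := relC r186
  simp only [e_186_x, e_144_y, e_187_x, e_239_y, e_285_x, e_321_y, e_274_x, e_227_y, e_275_x] at h
  exact h
theorem e_238_y : r238 * y = r211 := by
  have h := relC r211
  simp only [e_211_x, e_164_y, e_212_x, e_261_y, e_303_x, e_334_y, e_253_x, e_205_y, e_254_x] at h
  exact h
theorem e_356_y : r356 * y = r339 := by
  have h := relC r233
  simp only [e_233_x, e_183_y, e_234_x, e_280_y, e_316_x, e_322_y, e_348_x] at h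
  have h2 : r339 * x * y = r233 := by simp only [e_339_x, e_311_y]
  exact (mul_right_cancel (mul_right_cancel (h.trans h2.symm)))
theorem e_354_x : r354 * x = r358 := by
  have h := relC r257
  simp only [e_257_x, e_209_y, e_258_x, e_299_y, e_330_x, e_335_y] at h
  have h2 : r358 * y * x * y = r257 := by simp only [e_358_y, e_326_x, e_293_y]
  exact (mul_right_cancel (mul_right_cancel (mul_right_cancel (h.trans h2.symm))))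
theorem e_328_x : r328 * x = r347 := by
  have h := relD r87
  simp only [e_87_x, e_118_y, e_157_y, e_205_x, e_253_y, e_296_y] at h
  have h2 : r347 * y * y * x * y * y * x * y * y = r87 := by simp only [e_347_y, e_305_y, e_284_x, e_237_y, e_119_y, e_143_x, e_107_y, e_62_y]
  exact (mul_right_cancel (mul_right_cancel (mul_right_cancel (mul_right_cancel (mul_right_cancel (mul_right_cancel (mul_right_cancel (mul_right_cancel (h.trans h2.symm)))))))))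
theorem e_329_y : r329 * y = r333 := by
  have h := relD r90
  simp only [e_90_x, e_122_y, e_89_y, e_121_x, e_160_y, e_208_y, e_256_x, e_297_y] at h
  have h2 : r333 * x * y * y * x * y * y = r90 := by simp only [e_333_x, e_302_y, e_228_y, e_210_x, e_163_y, e_65_y]
  exact (mul_right_cancel (mul_right_cancel (mul_right_cancel (mul_right_cancel (mul_right_cancel (mul_right_cancel (h.trans h2.symm)))))))
theorem e_341_x : r341 * x = r343 := by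
  have h := relD r101
  simp only [e_101_x, e_135_y, e_177_y, e_227_x, e_274_y, e_313_y] at h
  have h2 : r343 * y * y * x * y * y * x * y * y = r101 := by simp only [e_343_y, e_287_y, e_276_x, e_229_y, e_102_y, e_136_x, e_124_y, e_73_y]
  exact (mul_right_cancel (mul_right_cancel (mul_right_cancel (mul_right_cancel (mul_right_cancel (mul_right_cancel (mul_right_cancel (mul_right_cancel (h.trans h2.symm)))))))))
theorem e_347_x : r347 * x = r328 := by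
  have h := relD r107
  simp only [e_107_x, e_143_y, e_185_y, e_237_x, e_284_y, e_320_y] at h
  have h2 : r328 * y * y * x * y * y * x * y * y = r107 := by simp only [e_328_y, e_334_y, e_253_x, e_205_y, e_254_y, e_118_x, e_87_y, e_77_y]
  exact (mul_right_cancel (mul_right_cancel (mul_right_cancel (mul_right_cancel (mul_right_cancel (mul_right_cancel (mul_right_cancel (mul_right_cancel (h.trans h2.symm)))))))))
theorem e_214_x : r214 * x = r189 := by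
  have h := relD r109
  simp only [e_109_x, e_145_y, e_108_y, e_144_x, e_186_y, e_238_y, e_211_x, e_164_y, e_212_y, e_165_x, e_126_y, e_166_y] at h
  have h2 : r189 * y * y = r109 := by simp only [e_189_y, e_79_y]
  exact (mul_right_cancel (mul_right_cancel (h.trans h2.symm)))
theorem e_343_x : r343 * x = r341 := by
  have h := relD r124
  simp only [e_124_x, e_136_y, e_178_y, e_229_x, e_276_y, e_314_y] at h
  have h2 : r341 * y * y * x * y * y * x * y * y = r124 := by simp only [e_341_y, e_321_y, e_274_x, e_227_y, e_275_y, e_135_x, e_101_y, e_91_y]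
  exact (mul_right_cancel (mul_right_cancel (mul_right_cancel (mul_right_cancel (mul_right_cancel (mul_right_cancel (mul_right_cancel (mul_right_cancel (h.trans h2.symm)))))))))
theorem e_189_x : r189 * x = r214 := by
  have h := relD r126
  simp only [e_126_x, e_165_y, e_125_y, e_164_x, e_211_y, e_260_y, e_186_x, e_144_y, e_187_y, e_145_x, e_109_y, e_146_y] at h
  have h2 : r214 * y * y = r126 := by simp only [e_214_y, e_93_y]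
  exact (mul_right_cancel (mul_right_cancel (h.trans h2.symm)))
theorem e_190_y : r190 * y = r213 := by
  have h := relD r147
  simp only [e_147_x] at h
  have h2 : r213 * y * x * y * y * x * y * y * x * y * y * x * y * y = r147 := by simp only [e_213_y, e_262_x, e_304_y, e_335_y, e_354_x, e_358_y, e_326_y, e_323_x, e_288_y, e_148_y, e_191_x, e_179_y, e_110_y]
  exact (mul_right_cancel (mul_right_cancel (mul_right_cancel (mul_right_cancel (mul_right_cancel (mul_right_cancel (mul_right_cancel (mul_right_cancel (mul_right_cancel (mul_right_cancel (mul_right_cancel (mul_right_cancel (mul_right_cancel (h.trans h2.symm))))))))))))))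
theorem e_203_x : r203 * x = r225 := by
  have h := relD r157
  simp only [e_157_x, e_204_y, e_156_y] at h
  have h2 : r225 * y * y * x * y * y * x * y * y * x * y * y = r157 := by simp only [e_225_y, e_273_y, e_226_x, e_177_y, e_227_y, e_275_x, e_260_y, e_186_y, e_238_x, e_254_y, e_118_y]
  exact (mul_right_cancel (mul_right_cancel (mul_right_cancel (mul_right_cancel (mul_right_cancel (mul_right_cancel (mul_right_cancel (mul_right_cancel (mul_right_cancel (mul_right_cancel (mul_right_cancel (h.trans h2.symm))))))))))))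
theorem e_215_y : r215 * y = r188 := by
  have h := relD r167
  simp only [e_167_x] at h
  have h2 : r188 * y * x * y * y * x * y * y * x * y * y * x * y * y = r167 := by simp only [e_188_y, e_240_x, e_286_y, e_322_y, e_348_x, e_356_y, e_339_y, e_336_x, e_306_y, e_168_y, e_216_x, e_206_y, e_127_y]
  exact (mul_right_cancel (mul_right_cancel (mul_right_cancel (mul_right_cancel (mul_right_cancel (mul_right_cancel (mul_right_cancel (mul_right_cancel (mul_right_cancel (mul_right_cancel (mul_right_cancel (mul_right_cancel (mul_right_cancel (h.trans h2.symm))))))))))))))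
theorem e_225_x : r225 * x = r203 := by
  have h := relD r177
  simp only [e_177_x, e_226_y, e_176_y] at h
  have h2 : r203 * y * y * x * y * y * x * y * y * x * y * y = r177 := by simp only [e_203_y, e_252_y, e_204_x, e_157_y, e_205_y, e_254_x, e_238_y, e_211_y, e_260_x, e_275_y, e_135_y]
  exact (mul_right_cancel (mul_right_cancel (mul_right_cancel (mul_right_cancel (mul_right_cancel (mul_right_cancel (mul_right_cancel (mul_right_cancel (mul_right_cancel (mul_right_cancel (mul_right_cancel (h.trans h2.symm))))))))))))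
theorem e_245_y : r245 * y = r215 := by
  have h := relD r188
  simp only [e_188_x, e_146_y, e_189_y, e_79_x, e_56_y, e_80_y, e_57_x, e_38_y, e_58_y, e_82_x, e_112_y, e_150_y, e_195_x] at h
  have h2 : r215 * y = r188 := by simp only [e_215_y]
  exact (mul_right_cancel (h.trans h2.symm))
theorem e_355_y : r355 * y = r356 := by
  have h := relD r206
  simp only [e_206_x, e_216_y, e_263_y, e_306_x, e_336_y] at h
  have h2 : r356 * x * y * y * x * y * y * x * y * y = r206 := by simp only [e_356_x, e_348_y, e_290_y, e_286_x, e_240_y, e_245_y, e_215_x, e_167_y, e_158_y]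
  exact (mul_right_cancel (mul_right_cancel (mul_right_cancel (mul_right_cancel (mul_right_cancel (mul_right_cancel (mul_right_cancel (mul_right_cancel (mul_right_cancel (h.trans h2.symm))))))))))
theorem e_267_y : r267 * y = r190 := by
  have h := relD r213
  simp only [e_213_x, e_166_y, e_214_y, e_93_x, e_67_y, e_94_y, e_68_x, e_47_y, e_69_y, e_96_x, e_129_y, e_170_y, e_220_x] at h
  have h2 : r190 * y = r213 := by simp only [e_190_y]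
  exact (mul_right_cancel (h.trans h2.symm))
theorem e_358_x : r358 * x = r354 := by
  have h := relD r288
  simp only [e_288_x, e_323_y, e_349_y] at h
  have h2 : r354 * y * y * x * y * y * x * y * y * x * y * y = r288 := by simp only [e_354_y, e_308_y, e_304_x, e_262_y, e_267_y, e_190_x, e_147_y, e_137_y, e_179_x, e_191_y, e_241_y]
  exact (mul_right_cancel (mul_right_cancel (mul_right_cancel (mul_right_cancel (mul_right_cancel (mul_right_cancel (mul_right_cancel (mul_right_cancel (mul_right_cancel (mul_right_cancel (mul_right_cancel (h.trans h2.symm))))))))))))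
theorem e_312_y : r312 * y = r294 := by
  have h := relC r116
  simp only [e_116_x, e_86_y, e_117_x, e_156_y, e_203_x, e_225_y, e_273_x] at h
  have h2 : r294 * x * y = r116 := by simp only [e_294_x, e_251_y]
  exact (mul_right_cancel (mul_right_cancel (h.trans h2.symm)))
theorem e_295_y : r295 * y = r279 := by
  have h := relC r133
  simp only [e_133_x, e_100_y, e_134_x, e_176_y, e_225_x, e_203_y, e_252_x] at h
  have h2 : r279 * x * y = r133 := by simp only [e_279_x, e_232_y]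
  exact (mul_right_cancel (mul_right_cancel (h.trans h2.symm)))
theorem e_180_y : r180 * y = r219 := by
  have h := relC r137
  simp only [e_137_x, e_103_y, e_138_x] at h
  have h2 : r219 * x * y * x * y * x * y = r137 := by simp only [e_219_x, e_170_y, e_220_x, e_267_y, e_190_x, e_147_y]
  exact (mul_right_cancel (mul_right_cancel (mul_right_cancel (mul_right_cancel (mul_right_cancel (mul_right_cancel (h.trans h2.symm)))))))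
theorem e_207_y : r207 * y = r194 := by
  have h := relC r158
  simp only [e_158_x, e_120_y, e_159_x] at h
  have h2 : r194 * x * y * x * y * x * y = r158 := by simp only [e_194_x, e_150_y, e_195_x, e_245_y, e_215_x, e_167_y]
  exact (mul_right_cancel (mul_right_cancel (mul_right_cancel (mul_right_cancel (mul_right_cancel (mul_right_cancel (h.trans h2.symm)))))))
theorem e_342_y : r342 * y = r352 := by
  have h := relC r228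
  simp only [e_228_x, e_178_y, e_229_x, e_276_y, e_314_x] at h
  have h2 : r352 * x * y * x * y = r228 := by simp only [e_352_x, e_329_y, e_333_x, e_302_y]
  exact (mul_right_cancel (mul_right_cancel (mul_right_cancel (mul_right_cancel (h.trans h2.symm)))))
theorem e_317_y : r317 * y = r342 := by
  have h := relC r280
  simp only [e_280_x, e_234_y, e_281_x] at h
  have h2 : r342 * x * y * x * y * x * y = r280 := by simp only [e_342_x, e_314_y, e_343_x, e_341_y, e_321_x, e_285_y]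
  exact (mul_right_cancel (mul_right_cancel (mul_right_cancel (mul_right_cancel (mul_right_cancel (mul_right_cancel (h.trans h2.symm)))))))
theorem e_357_y : r357 * y = r340 := by
  have h := relC r287
  simp only [e_287_x, e_241_y, e_288_x, e_323_y, e_349_x] at h
  have h2 : r340 * x * y * x * y = r287 := by simp only [e_340_x, e_313_y, e_341_x, e_343_y]
  exact (mul_right_cancel (mul_right_cancel (mul_right_cancel (mul_right_cancel (h.trans h2.symm)))))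
theorem e_359_x : r359 * x = r355 := by
  have h := relC r290
  simp only [e_290_x, e_246_y, e_291_x, e_309_y, e_337_x, e_351_y] at h
  have h2 : r355 * y * x * y = r290 := by simp only [e_355_y, e_356_x, e_348_y]
  exact (mul_right_cancel (mul_right_cancel (mul_right_cancel (h.trans h2.symm))))
theorem e_331_y : r331 * y = r346 := by
  have h := relC r299
  simp only [e_299_x, e_258_y, e_300_x] at h
  have h2 : r346 * x * y * x * y * x * y = r299 := by simp only [e_346_x, e_320_y, e_347_x, e_328_y, e_334_x, e_303_y]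
  exact (mul_right_cancel (mul_right_cancel (mul_right_cancel (mul_right_cancel (mul_right_cancel (mul_right_cancel (h.trans h2.symm)))))))
theorem e_355_x : r355 * x = r359 := by
  have h := relC r305
  simp only [e_305_x, e_263_y, e_306_x, e_336_y] at h
  have h2 : r359 * y * x * y * x * y = r305 := by simp only [e_359_y, e_327_x, e_296_y, e_328_x, e_347_y]
  exact (mul_right_cancel (mul_right_cancel (mul_right_cancel (mul_right_cancel (mul_right_cancel (h.trans h2.symm))))))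
theorem e_350_y : r350 * y = r357 := by
  have h := relC r308
  simp only [e_308_x, e_268_y, e_309_x, e_291_y, e_324_x] at h
  have h2 : r357 * x * y * x * y = r308 := by simp only [e_357_x, e_349_y, e_358_x, e_354_y]
  exact (mul_right_cancel (mul_right_cancel (mul_right_cancel (mul_right_cancel (h.trans h2.symm)))))
theorem e_279_y : r279 * y = r247 := by
  have h := relD r85
  simp only [e_85_x, e_61_y, e_86_y, e_117_x, e_156_y, e_203_y, e_252_x, e_295_y] at h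
  have h2 : r247 * x * y * y * x * y * y = r85 := by simp only [e_247_x, e_199_y, e_248_y, e_114_x, e_84_y, e_115_y]
  exact (mul_right_cancel (mul_right_cancel (mul_right_cancel (mul_right_cancel (mul_right_cancel (mul_right_cancel (h.trans h2.symm)))))))
theorem e_294_y : r294 * y = r269 := by
  have h := relD r99
  simp only [e_99_x, e_72_y, e_100_y, e_134_x, e_176_y, e_225_y, e_273_x, e_312_y] at h
  have h2 : r269 * x * y * y * x * y * y = r99 := by simp only [e_269_x, e_222_y, e_270_y, e_131_x, e_98_y, e_132_y]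
  exact (mul_right_cancel (mul_right_cancel (mul_right_cancel (mul_right_cancel (mul_right_cancel (mul_right_cancel (h.trans h2.symm)))))))
theorem e_265_y : r265 * y = r301 := by
  have h := relD r102
  simp only [e_102_x, e_74_y, e_103_y, e_138_x, e_180_y, e_219_y, e_266_x, e_307_y] at h
  have h2 : r301 * x * y * y * x * y * y = r102 := by simp only [e_301_x, e_259_y, e_302_y, e_228_x, e_178_y, e_229_y]
  exact (mul_right_cancel (mul_right_cancel (mul_right_cancel (mul_right_cancel (mul_right_cancel (mul_right_cancel (h.trans h2.symm)))))))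
theorem e_243_y : r243 * y = r282 := by
  have h := relD r119
  simp only [e_119_x, e_88_y, e_120_y, e_159_x, e_207_y, e_194_y, e_244_x, e_289_y] at h
  have h2 : r282 * x * y * y * x * y * y = r119 := by simp only [e_282_x, e_235_y, e_283_y, e_236_x, e_185_y, e_237_y]
  exact (mul_right_cancel (mul_right_cancel (mul_right_cancel (mul_right_cancel (mul_right_cancel (mul_right_cancel (h.trans h2.symm)))))))
theorem e_270_x : r270 * x = r298 := by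
  have h := relD r151
  simp only [e_151_x, e_113_y, e_152_y, e_197_x, e_173_y, e_222_y] at h
  have h2 : r298 * y * y * x * y * y * x * y * y = r151 := by simp only [e_298_y, e_160_y, e_208_x, e_255_y, e_207_y, e_194_x, e_150_y, e_195_y]
  exact (mul_right_cancel (mul_right_cancel (mul_right_cancel (mul_right_cancel (mul_right_cancel (mul_right_cancel (mul_right_cancel (mul_right_cancel (h.trans h2.symm)))))))))
theorem e_248_x : r248 * x = r278 := by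
  have h := relD r171
  simp only [e_171_x, e_130_y, e_172_y, e_198_x, e_153_y, e_199_y] at h
  have h2 : r278 * y * y * x * y * y * x * y * y = r171 := by simp only [e_278_y, e_139_y, e_181_x, e_230_y, e_180_y, e_219_x, e_170_y, e_220_y]
  exact (mul_right_cancel (mul_right_cancel (mul_right_cancel (mul_right_cancel (mul_right_cancel (mul_right_cancel (mul_right_cancel (mul_right_cancel (h.trans h2.symm)))))))))
theorem e_333_y : r333 * y = r271 := by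
  have h := relD r233
  simp only [e_233_x, e_183_y, e_234_y, e_281_x, e_317_y, e_342_y, e_352_x, e_329_y] at h
  have h2 : r271 * x * y * y * x * y * y = r233 := by simp only [e_271_x, e_223_y, e_217_y, e_264_x, e_272_y, e_311_y]
  exact (mul_right_cancel (mul_right_cancel (mul_right_cancel (mul_right_cancel (mul_right_cancel (mul_right_cancel (h.trans h2.symm)))))))
theorem e_319_y : r319 * y = r249 := by
  have h := relD r242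
  simp only [e_242_x, e_250_y, e_293_y, e_257_x, e_209_y, e_258_y, e_300_x, e_331_y, e_346_y, e_344_x, e_315_y] at h
  have h2 : r249 * x * y * y = r242 := by simp only [e_249_x, e_200_y, e_192_y]
  exact (mul_right_cancel (mul_right_cancel (mul_right_cancel (h.trans h2.symm))))
theorem e_249_y : r249 * y = r277 := by
  have h := relD r277
  simp only [e_277_x, e_231_y, e_278_y, e_139_x, e_104_y, e_140_y, e_105_x, e_76_y, e_106_y, e_142_x, e_184_y, e_235_y, e_283_x, e_319_y] at h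
  exact h
theorem e_271_y : r271 * y = r297 := by
  have h := relD r297
  simp only [e_297_x, e_256_y, e_298_y, e_160_x, e_121_y, e_161_y, e_122_x, e_90_y, e_123_y, e_163_x, e_210_y, e_259_y, e_302_x, e_333_y] at h
  exact h
theorem e_344_y : r344 * y = r353 := by
  have h := relD r315
  simp only [e_315_x] at h
  have h2 : r353 * y * x * y * y * x * y * y * x * y * y * x * y * y = r315 := by simp only [e_353_y, e_331_x, e_300_y, e_162_y, e_209_x, e_257_y, e_201_y, e_250_x, e_242_y, e_154_y, e_200_x, e_249_y, e_277_y]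
  exact (mul_right_cancel (mul_right_cancel (mul_right_cancel (mul_right_cancel (mul_right_cancel (mul_right_cancel (mul_right_cancel (mul_right_cancel (mul_right_cancel (mul_right_cancel (mul_right_cancel (mul_right_cancel (mul_right_cancel (h.trans h2.symm))))))))))))))
theorem e_352_y : r352 * y = r345 := by
  have h := relD r317
  simp only [e_317_x, e_281_y, e_141_y, e_183_x, e_233_y, e_224_y, e_272_x, e_264_y, e_174_y, e_223_x, e_271_y, e_297_y, e_329_x] at h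
  have h2 : r345 * y = r317 := by simp only [e_345_y]
  exact (mul_right_cancel (h.trans h2.symm))
theorem e_332_y : r332 * y = r307 := by
  have h := relD r320
  simp only [e_320_x, e_346_y, e_344_y, e_353_x] at h
  have h2 : r307 * y * x * y * y * x * y * y * x * y * y = r320 := by simp only [e_307_y, e_265_x, e_218_y, e_95_y, e_128_x, e_168_y, e_216_y, e_263_x, e_305_y, e_284_y]
  exact (mul_right_cancel (mul_right_cancel (mul_right_cancel (mul_right_cancel (mul_right_cancel (mul_right_cancel (mul_right_cancel (mul_right_cancel (mul_right_cancel (mul_right_cancel (h.trans h2.symm)))))))))))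
theorem e_318_y : r318 * y = r289 := by
  have h := relD r345
  simp only [e_345_x] at h
  have h2 : r289 * y * x * y * y * x * y * y * x * y * y * x * y * y = r345 := by simp only [e_289_y, e_243_x, e_193_y, e_81_y, e_111_x, e_148_y, e_191_y, e_241_x, e_287_y, e_276_y, e_314_x, e_342_y, e_352_y]
  exact (mul_right_cancel (mul_right_cancel (mul_right_cancel (mul_right_cancel (mul_right_cancel (mul_right_cancel (mul_right_cancel (mul_right_cancel (mul_right_cancel (mul_right_cancel (mul_right_cancel (mul_right_cancel (mul_right_cancel (h.trans h2.symm))))))))))))))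
theorem e_278_x : r278 * x = r248 := by
  have h := relA r248
  simp only [e_248_x] at h
  exact h
theorem e_298_x : r298 * x = r270 := by
  have h := relA r270
  simp only [e_270_x] at h
  exact h
theorem e_266_y : r266 * y = r230 := by
  have h := relB r180
  simp only [e_180_y, e_219_y] at h
  have h2 : r230 * y = r180 := by simp only [e_230_y]
  exact (mul_right_cancel (h.trans h2.symm))
theorem e_244_y : r244 * y = r255 := by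
  have h := relB r194
  simp only [e_194_y] at h
  have h2 : r255 * y * y = r194 := by simp only [e_255_y, e_207_y]
  exact (mul_right_cancel (mul_right_cancel (h.trans h2.symm)))
noncomputable def rep : Fin 360 → P
  | ⟨0, _⟩ => r0
  | ⟨1, _⟩ => r1
  | ⟨2, _⟩ => r2
  | ⟨3, _⟩ => r3
  | ⟨4, _⟩ => r4
  | ⟨5, _⟩ => r5
  | ⟨6, _⟩ => r6
  | ⟨7, _⟩ => r7
  | ⟨8, _⟩ => r8
  | ⟨9, _⟩ => r9
  | ⟨10, _⟩ => r10
  | ⟨11, _⟩ => r11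
  | ⟨12, _⟩ => r12
  | ⟨13, _⟩ => r13
  | ⟨14, _⟩ => r14
  | ⟨15, _⟩ => r15
  | ⟨16, _⟩ => r16
  | ⟨17, _⟩ => r17
  | ⟨18, _⟩ => r18
  | ⟨19, _⟩ => r19
  | ⟨20, _⟩ => r20
  | ⟨21, _⟩ => r21
  | ⟨22, _⟩ => r22
  | ⟨23, _⟩ => r23
  | ⟨24, _⟩ => r24
  | ⟨25, _⟩ => r25
  | ⟨26, _⟩ => r26
  | ⟨27, _⟩ => r27
  | ⟨28, _⟩ => r28
  | ⟨29, _⟩ => r29
  | ⟨30, _⟩ => r30
  | ⟨31, _⟩ => r31
  | ⟨32, _⟩ => r32
  | ⟨33, _⟩ => r33
  | ⟨34, _⟩ => r34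
  | ⟨35, _⟩ => r35
  | ⟨36, _⟩ => r36
  | ⟨37, _⟩ => r37
  | ⟨38, _⟩ => r38
  | ⟨39, _⟩ => r39
  | ⟨40, _⟩ => r40
  | ⟨41, _⟩ => r41
  | ⟨42, _⟩ => r42
  | ⟨43, _⟩ => r43
  | ⟨44, _⟩ => r44
  | ⟨45, _⟩ => r45
  | ⟨46, _⟩ => r46
  | ⟨47, _⟩ => r47
  | ⟨48, _⟩ => r48
  | ⟨49, _⟩ => r49
  | ⟨50, _⟩ => r50
  | ⟨51, _⟩ => r51
  | ⟨52, _⟩ => r52
  | ⟨53, _⟩ => r53
  | ⟨54, _⟩ => r54
  | ⟨55, _⟩ => r55
  | ⟨56, _⟩ => r56
  | ⟨57, _⟩ => r57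
  | ⟨58, _⟩ => r58
  | ⟨59, _⟩ => r59
  | ⟨60, _⟩ => r60
  | ⟨61, _⟩ => r61
  | ⟨62, _⟩ => r62
  | ⟨63, _⟩ => r63
  | ⟨64, _⟩ => r64
  | ⟨65, _⟩ => r65
  | ⟨66, _⟩ => r66
  | ⟨67, _⟩ => r67
  | ⟨68, _⟩ => r68
  | ⟨69, _⟩ => r69
  | ⟨70, _⟩ => r70
  | ⟨71, _⟩ => r71
  | ⟨72, _⟩ => r72
  | ⟨73, _⟩ => r73
  | ⟨74, _⟩ => r74
  | ⟨75, _⟩ => r75
  | ⟨76, _⟩ => r76
  | ⟨77, _⟩ => r77
  | ⟨78, _⟩ => r78
  | ⟨79, _⟩ => r79
  | ⟨80, _⟩ => r80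
  | ⟨81, _⟩ => r81
  | ⟨82, _⟩ => r82
  | ⟨83, _⟩ => r83
  | ⟨84, _⟩ => r84
  | ⟨85, _⟩ => r85
  | ⟨86, _⟩ => r86
  | ⟨87, _⟩ => r87
  | ⟨88, _⟩ => r88
  | ⟨89, _⟩ => r89
  | ⟨90, _⟩ => r90
  | ⟨91, _⟩ => r91
  | ⟨92, _⟩ => r92
  | ⟨93, _⟩ => r93
  | ⟨94, _⟩ => r94
  | ⟨95, _⟩ => r95
  | ⟨96, _⟩ => r96
  | ⟨97, _⟩ => r97
  | ⟨98, _⟩ => r98
  | ⟨99, _⟩ => r99
  | ⟨100, _⟩ => r100
  | ⟨101, _⟩ => r101
  | ⟨102, _⟩ => r102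
  | ⟨103, _⟩ => r103
  | ⟨104, _⟩ => r104
  | ⟨105, _⟩ => r105
  | ⟨106, _⟩ => r106
  | ⟨107, _⟩ => r107
  | ⟨108, _⟩ => r108
  | ⟨109, _⟩ => r109
  | ⟨110, _⟩ => r110
  | ⟨111, _⟩ => r111
  | ⟨112, _⟩ => r112
  | ⟨113, _⟩ => r113
  | ⟨114, _⟩ => r114
  | ⟨115, _⟩ => r115
  | ⟨116, _⟩ => r116
  | ⟨117, _⟩ => r117
  | ⟨118, _⟩ => r118
  | ⟨119, _⟩ => r119
  | ⟨120, _⟩ => r120
  | ⟨121, _⟩ => r121
  | ⟨122, _⟩ => r122
  | ⟨123, _⟩ => r123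
  | ⟨124, _⟩ => r124
  | ⟨125, _⟩ => r125
  | ⟨126, _⟩ => r126
  | ⟨127, _⟩ => r127
  | ⟨128, _⟩ => r128
  | ⟨129, _⟩ => r129
  | ⟨130, _⟩ => r130
  | ⟨131, _⟩ => r131
  | ⟨132, _⟩ => r132
  | ⟨133, _⟩ => r133
  | ⟨134, _⟩ => r134
  | ⟨135, _⟩ => r135
  | ⟨136, _⟩ => r136
  | ⟨137, _⟩ => r137
  | ⟨138, _⟩ => r138
  | ⟨139, _⟩ => r139
  | ⟨140, _⟩ => r140
  | ⟨141, _⟩ => r141
  | ⟨142, _⟩ => r142
  | ⟨143, _⟩ => r143
  | ⟨144, _⟩ => r144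
  | ⟨145, _⟩ => r145
  | ⟨146, _⟩ => r146
  | ⟨147, _⟩ => r147
  | ⟨148, _⟩ => r148
  | ⟨149, _⟩ => r149
  | ⟨150, _⟩ => r150
  | ⟨151, _⟩ => r151
  | ⟨152, _⟩ => r152
  | ⟨153, _⟩ => r153
  | ⟨154, _⟩ => r154
  | ⟨155, _⟩ => r155
  | ⟨156, _⟩ => r156
  | ⟨157, _⟩ => r157
  | ⟨158, _⟩ => r158
  | ⟨159, _⟩ => r159
  | ⟨160, _⟩ => r160
  | ⟨161, _⟩ => r161
  | ⟨162, _⟩ => r162
  | ⟨163, _⟩ => r163
  | ⟨164, _⟩ => r164
  | ⟨165, _⟩ => r165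
  | ⟨166, _⟩ => r166
  | ⟨167, _⟩ => r167
  | ⟨168, _⟩ => r168
  | ⟨169, _⟩ => r169
  | ⟨170, _⟩ => r170
  | ⟨171, _⟩ => r171
  | ⟨172, _⟩ => r172
  | ⟨173, _⟩ => r173
  | ⟨174, _⟩ => r174
  | ⟨175, _⟩ => r175
  | ⟨176, _⟩ => r176
  | ⟨177, _⟩ => r177
  | ⟨178, _⟩ => r178
  | ⟨179, _⟩ => r179
  | ⟨180, _⟩ => r180
  | ⟨181, _⟩ => r181
  | ⟨182, _⟩ => r182
  | ⟨183, _⟩ => r183
  | ⟨184, _⟩ => r184
  | ⟨185, _⟩ => r185
  | ⟨186, _⟩ => r186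
  | ⟨187, _⟩ => r187
  | ⟨188, _⟩ => r188
  | ⟨189, _⟩ => r189
  | ⟨190, _⟩ => r190
  | ⟨191, _⟩ => r191
  | ⟨192, _⟩ => r192
  | ⟨193, _⟩ => r193
  | ⟨194, _⟩ => r194
  | ⟨195, _⟩ => r195
  | ⟨196, _⟩ => r196
  | ⟨197, _⟩ => r197
  | ⟨198, _⟩ => r198
  | ⟨199, _⟩ => r199
  | ⟨200, _⟩ => r200
  | ⟨201, _⟩ => r201
  | ⟨202, _⟩ => r202
  | ⟨203, _⟩ => r203
  | ⟨204, _⟩ => r204
  | ⟨205, _⟩ => r205
  | ⟨206, _⟩ => r206
  | ⟨207, _⟩ => r207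
  | ⟨208, _⟩ => r208
  | ⟨209, _⟩ => r209
  | ⟨210, _⟩ => r210
  | ⟨211, _⟩ => r211
  | ⟨212, _⟩ => r212
  | ⟨213, _⟩ => r213
  | ⟨214, _⟩ => r214
  | ⟨215, _⟩ => r215
  | ⟨216, _⟩ => r216
  | ⟨217, _⟩ => r217
  | ⟨218, _⟩ => r218
  | ⟨219, _⟩ => r219
  | ⟨220, _⟩ => r220
  | ⟨221, _⟩ => r221
  | ⟨222, _⟩ => r222
  | ⟨223, _⟩ => r223
  | ⟨224, _⟩ => r224
  | ⟨225, _⟩ => r225
  | ⟨226, _⟩ => r226
  | ⟨227, _⟩ => r227
  | ⟨228, _⟩ => r228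
  | ⟨229, _⟩ => r229
  | ⟨230, _⟩ => r230
  | ⟨231, _⟩ => r231
  | ⟨232, _⟩ => r232
  | ⟨233, _⟩ => r233
  | ⟨234, _⟩ => r234
  | ⟨235, _⟩ => r235
  | ⟨236, _⟩ => r236
  | ⟨237, _⟩ => r237
  | ⟨238, _⟩ => r238
  | ⟨239, _⟩ => r239
  | ⟨240, _⟩ => r240
  | ⟨241, _⟩ => r241
  | ⟨242, _⟩ => r242
  | ⟨243, _⟩ => r243
  | ⟨244, _⟩ => r244
  | ⟨245, _⟩ => r245
  | ⟨246, _⟩ => r246
  | ⟨247, _⟩ => r247
  | ⟨248, _⟩ => r248
  | ⟨249, _⟩ => r249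
  | ⟨250, _⟩ => r250
  | ⟨251, _⟩ => r251
  | ⟨252, _⟩ => r252
  | ⟨253, _⟩ => r253
  | ⟨254, _⟩ => r254
  | ⟨255, _⟩ => r255
  | ⟨256, _⟩ => r256
  | ⟨257, _⟩ => r257
  | ⟨258, _⟩ => r258
  | ⟨259, _⟩ => r259
  | ⟨260, _⟩ => r260
  | ⟨261, _⟩ => r261
  | ⟨262, _⟩ => r262
  | ⟨263, _⟩ => r263
  | ⟨264, _⟩ => r264
  | ⟨265, _⟩ => r265
  | ⟨266, _⟩ => r266
  | ⟨267, _⟩ => r267
  | ⟨268, _⟩ => r268
  | ⟨269, _⟩ => r269
  | ⟨270, _⟩ => r270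
  | ⟨271, _⟩ => r271
  | ⟨272, _⟩ => r272
  | ⟨273, _⟩ => r273
  | ⟨274, _⟩ => r274
  | ⟨275, _⟩ => r275
  | ⟨276, _⟩ => r276
  | ⟨277, _⟩ => r277
  | ⟨278, _⟩ => r278
  | ⟨279, _⟩ => r279
  | ⟨280, _⟩ => r280
  | ⟨281, _⟩ => r281
  | ⟨282, _⟩ => r282
  | ⟨283, _⟩ => r283
  | ⟨284, _⟩ => r284
  | ⟨285, _⟩ => r285
  | ⟨286, _⟩ => r286
  | ⟨287, _⟩ => r287
  | ⟨288, _⟩ => r288
  | ⟨289, _⟩ => r289
  | ⟨290, _⟩ => r290
  | ⟨291, _⟩ => r291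
  | ⟨292, _⟩ => r292
  | ⟨293, _⟩ => r293
  | ⟨294, _⟩ => r294
  | ⟨295, _⟩ => r295
  | ⟨296, _⟩ => r296
  | ⟨297, _⟩ => r297
  | ⟨298, _⟩ => r298
  | ⟨299, _⟩ => r299
  | ⟨300, _⟩ => r300
  | ⟨301, _⟩ => r301
  | ⟨302, _⟩ => r302
  | ⟨303, _⟩ => r303
  | ⟨304, _⟩ => r304
  | ⟨305, _⟩ => r305
  | ⟨306, _⟩ => r306
  | ⟨307, _⟩ => r307
  | ⟨308, _⟩ => r308
  | ⟨309, _⟩ => r309
  | ⟨310, _⟩ => r310
  | ⟨311, _⟩ => r311
  | ⟨312, _⟩ => r312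
  | ⟨313, _⟩ => r313
  | ⟨314, _⟩ => r314
  | ⟨315, _⟩ => r315
  | ⟨316, _⟩ => r316
  | ⟨317, _⟩ => r317
  | ⟨318, _⟩ => r318
  | ⟨319, _⟩ => r319
  | ⟨320, _⟩ => r320
  | ⟨321, _⟩ => r321
  | ⟨322, _⟩ => r322
  | ⟨323, _⟩ => r323
  | ⟨324, _⟩ => r324
  | ⟨325, _⟩ => r325
  | ⟨326, _⟩ => r326
  | ⟨327, _⟩ => r327
  | ⟨328, _⟩ => r328
  | ⟨329, _⟩ => r329
  | ⟨330, _⟩ => r330
  | ⟨331, _⟩ => r331
  | ⟨332, _⟩ => r332
  | ⟨333, _⟩ => r333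
  | ⟨334, _⟩ => r334
  | ⟨335, _⟩ => r335
  | ⟨336, _⟩ => r336
  | ⟨337, _⟩ => r337
  | ⟨338, _⟩ => r338
  | ⟨339, _⟩ => r339
  | ⟨340, _⟩ => r340
  | ⟨341, _⟩ => r341
  | ⟨342, _⟩ => r342
  | ⟨343, _⟩ => r343
  | ⟨344, _⟩ => r344
  | ⟨345, _⟩ => r345
  | ⟨346, _⟩ => r346
  | ⟨347, _⟩ => r347
  | ⟨348, _⟩ => r348
  | ⟨349, _⟩ => r349
  | ⟨350, _⟩ => r350
  | ⟨351, _⟩ => r351
  | ⟨352, _⟩ => r352
  | ⟨353, _⟩ => r353
  | ⟨354, _⟩ => r354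
  | ⟨355, _⟩ => r355
  | ⟨356, _⟩ => r356
  | ⟨357, _⟩ => r357
  | ⟨358, _⟩ => r358
  | ⟨359, _⟩ => r359
  | ⟨n+360, h⟩ => absurd h (by omega)
def nx_x : Fin 360 → Fin 360
  | ⟨0, _⟩ => 1
  | ⟨1, _⟩ => 0
  | ⟨2, _⟩ => 4
  | ⟨3, _⟩ => 6
  | ⟨4, _⟩ => 2
  | ⟨5, _⟩ => 9
  | ⟨6, _⟩ => 3
  | ⟨7, _⟩ => 12
  | ⟨8, _⟩ => 14
  | ⟨9, _⟩ => 5
  | ⟨10, _⟩ => 17
  | ⟨11, _⟩ => 18
  | ⟨12, _⟩ => 7
  | ⟨13, _⟩ => 21
  | ⟨14, _⟩ => 8
  | ⟨15, _⟩ => 23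
  | ⟨16, _⟩ => 25
  | ⟨17, _⟩ => 10
  | ⟨18, _⟩ => 11
  | ⟨19, _⟩ => 29
  | ⟨20, _⟩ => 31
  | ⟨21, _⟩ => 13
  | ⟨22, _⟩ => 34
  | ⟨23, _⟩ => 15
  | ⟨24, _⟩ => 37
  | ⟨25, _⟩ => 16
  | ⟨26, _⟩ => 39
  | ⟨27, _⟩ => 41
  | ⟨28, _⟩ => 43
  | ⟨29, _⟩ => 19
  | ⟨30, _⟩ => 46
  | ⟨31, _⟩ => 20
  | ⟨32, _⟩ => 48
  | ⟨33, _⟩ => 50
  | ⟨34, _⟩ => 22
  | ⟨35, _⟩ => 52
  | ⟨36, _⟩ => 54
  | ⟨37, _⟩ => 24
  | ⟨38, _⟩ => 57
  | ⟨39, _⟩ => 26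
  | ⟨40, _⟩ => 60
  | ⟨41, _⟩ => 27
  | ⟨42, _⟩ => 62
  | ⟨43, _⟩ => 28
  | ⟨44, _⟩ => 63
  | ⟨45, _⟩ => 65
  | ⟨46, _⟩ => 30
  | ⟨47, _⟩ => 68
  | ⟨48, _⟩ => 32
  | ⟨49, _⟩ => 71
  | ⟨50, _⟩ => 33
  | ⟨51, _⟩ => 73
  | ⟨52, _⟩ => 35
  | ⟨53, _⟩ => 75
  | ⟨54, _⟩ => 36
  | ⟨55, _⟩ => 77
  | ⟨56, _⟩ => 79
  | ⟨57, _⟩ => 38
  | ⟨58, _⟩ => 81
  | ⟨59, _⟩ => 83
  | ⟨60, _⟩ => 40
  | ⟨61, _⟩ => 85
  | ⟨62, _⟩ => 42
  | ⟨63, _⟩ => 44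
  | ⟨64, _⟩ => 89
  | ⟨65, _⟩ => 45
  | ⟨66, _⟩ => 91
  | ⟨67, _⟩ => 93
  | ⟨68, _⟩ => 47
  | ⟨69, _⟩ => 95
  | ⟨70, _⟩ => 97
  | ⟨71, _⟩ => 49
  | ⟨72, _⟩ => 99
  | ⟨73, _⟩ => 51
  | ⟨74, _⟩ => 102
  | ⟨75, _⟩ => 53
  | ⟨76, _⟩ => 105
  | ⟨77, _⟩ => 55
  | ⟨78, _⟩ => 108
  | ⟨79, _⟩ => 56
  | ⟨80, _⟩ => 110
  | ⟨81, _⟩ => 58
  | ⟨82, _⟩ => 112
  | ⟨83, _⟩ => 59
  | ⟨84, _⟩ => 114
  | ⟨85, _⟩ => 61
  | ⟨86, _⟩ => 116
  | ⟨87, _⟩ => 118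
  | ⟨88, _⟩ => 119
  | ⟨89, _⟩ => 64
  | ⟨90, _⟩ => 122
  | ⟨91, _⟩ => 66
  | ⟨92, _⟩ => 125
  | ⟨93, _⟩ => 67
  | ⟨94, _⟩ => 127
  | ⟨95, _⟩ => 69
  | ⟨96, _⟩ => 129
  | ⟨97, _⟩ => 70
  | ⟨98, _⟩ => 131
  | ⟨99, _⟩ => 72
  | ⟨100, _⟩ => 133
  | ⟨101, _⟩ => 135
  | ⟨102, _⟩ => 74
  | ⟨103, _⟩ => 137
  | ⟨104, _⟩ => 139
  | ⟨105, _⟩ => 76
  | ⟨106, _⟩ => 141
  | ⟨107, _⟩ => 143
  | ⟨108, _⟩ => 78
  | ⟨109, _⟩ => 145
  | ⟨110, _⟩ => 80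
  | ⟨111, _⟩ => 148
  | ⟨112, _⟩ => 82
  | ⟨113, _⟩ => 151
  | ⟨114, _⟩ => 84
  | ⟨115, _⟩ => 154
  | ⟨116, _⟩ => 86
  | ⟨117, _⟩ => 156
  | ⟨118, _⟩ => 87
  | ⟨119, _⟩ => 88
  | ⟨120, _⟩ => 158
  | ⟨121, _⟩ => 160
  | ⟨122, _⟩ => 90
  | ⟨123, _⟩ => 162
  | ⟨124, _⟩ => 136
  | ⟨125, _⟩ => 92
  | ⟨126, _⟩ => 165
  | ⟨127, _⟩ => 94
  | ⟨128, _⟩ => 168
  | ⟨129, _⟩ => 96
  | ⟨130, _⟩ => 171
  | ⟨131, _⟩ => 98
  | ⟨132, _⟩ => 174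
  | ⟨133, _⟩ => 100
  | ⟨134, _⟩ => 176
  | ⟨135, _⟩ => 101
  | ⟨136, _⟩ => 124
  | ⟨137, _⟩ => 103
  | ⟨138, _⟩ => 180
  | ⟨139, _⟩ => 104
  | ⟨140, _⟩ => 182
  | ⟨141, _⟩ => 106
  | ⟨142, _⟩ => 184
  | ⟨143, _⟩ => 107
  | ⟨144, _⟩ => 186
  | ⟨145, _⟩ => 109
  | ⟨146, _⟩ => 188
  | ⟨147, _⟩ => 190
  | ⟨148, _⟩ => 111
  | ⟨149, _⟩ => 192
  | ⟨150, _⟩ => 194
  | ⟨151, _⟩ => 113
  | ⟨152, _⟩ => 196
  | ⟨153, _⟩ => 198
  | ⟨154, _⟩ => 115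
  | ⟨155, _⟩ => 201
  | ⟨156, _⟩ => 117
  | ⟨157, _⟩ => 204
  | ⟨158, _⟩ => 120
  | ⟨159, _⟩ => 207
  | ⟨160, _⟩ => 121
  | ⟨161, _⟩ => 202
  | ⟨162, _⟩ => 123
  | ⟨163, _⟩ => 210
  | ⟨164, _⟩ => 211
  | ⟨165, _⟩ => 126
  | ⟨166, _⟩ => 213
  | ⟨167, _⟩ => 215
  | ⟨168, _⟩ => 128
  | ⟨169, _⟩ => 217
  | ⟨170, _⟩ => 219
  | ⟨171, _⟩ => 130
  | ⟨172, _⟩ => 221
  | ⟨173, _⟩ => 197
  | ⟨174, _⟩ => 132
  | ⟨175, _⟩ => 224
  | ⟨176, _⟩ => 134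
  | ⟨177, _⟩ => 226
  | ⟨178, _⟩ => 228
  | ⟨179, _⟩ => 191
  | ⟨180, _⟩ => 138
  | ⟨181, _⟩ => 230
  | ⟨182, _⟩ => 140
  | ⟨183, _⟩ => 233
  | ⟨184, _⟩ => 142
  | ⟨185, _⟩ => 236
  | ⟨186, _⟩ => 144
  | ⟨187, _⟩ => 239
  | ⟨188, _⟩ => 146
  | ⟨189, _⟩ => 214
  | ⟨190, _⟩ => 147
  | ⟨191, _⟩ => 179
  | ⟨192, _⟩ => 149
  | ⟨193, _⟩ => 243
  | ⟨194, _⟩ => 150
  | ⟨195, _⟩ => 245
  | ⟨196, _⟩ => 152
  | ⟨197, _⟩ => 173
  | ⟨198, _⟩ => 153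
  | ⟨199, _⟩ => 247
  | ⟨200, _⟩ => 249
  | ⟨201, _⟩ => 155
  | ⟨202, _⟩ => 161
  | ⟨203, _⟩ => 225
  | ⟨204, _⟩ => 157
  | ⟨205, _⟩ => 253
  | ⟨206, _⟩ => 216
  | ⟨207, _⟩ => 159
  | ⟨208, _⟩ => 255
  | ⟨209, _⟩ => 257
  | ⟨210, _⟩ => 163
  | ⟨211, _⟩ => 164
  | ⟨212, _⟩ => 261
  | ⟨213, _⟩ => 166
  | ⟨214, _⟩ => 189
  | ⟨215, _⟩ => 167
  | ⟨216, _⟩ => 206
  | ⟨217, _⟩ => 169
  | ⟨218, _⟩ => 265
  | ⟨219, _⟩ => 170
  | ⟨220, _⟩ => 267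
  | ⟨221, _⟩ => 172
  | ⟨222, _⟩ => 269
  | ⟨223, _⟩ => 271
  | ⟨224, _⟩ => 175
  | ⟨225, _⟩ => 203
  | ⟨226, _⟩ => 177
  | ⟨227, _⟩ => 274
  | ⟨228, _⟩ => 178
  | ⟨229, _⟩ => 276
  | ⟨230, _⟩ => 181
  | ⟨231, _⟩ => 277
  | ⟨232, _⟩ => 279
  | ⟨233, _⟩ => 183
  | ⟨234, _⟩ => 280
  | ⟨235, _⟩ => 282
  | ⟨236, _⟩ => 185
  | ⟨237, _⟩ => 284
  | ⟨238, _⟩ => 254
  | ⟨239, _⟩ => 187
  | ⟨240, _⟩ => 286
  | ⟨241, _⟩ => 287
  | ⟨242, _⟩ => 250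
  | ⟨243, _⟩ => 193
  | ⟨244, _⟩ => 289
  | ⟨245, _⟩ => 195
  | ⟨246, _⟩ => 290
  | ⟨247, _⟩ => 199
  | ⟨248, _⟩ => 278
  | ⟨249, _⟩ => 200
  | ⟨250, _⟩ => 242
  | ⟨251, _⟩ => 294
  | ⟨252, _⟩ => 295
  | ⟨253, _⟩ => 205
  | ⟨254, _⟩ => 238
  | ⟨255, _⟩ => 208
  | ⟨256, _⟩ => 297
  | ⟨257, _⟩ => 209
  | ⟨258, _⟩ => 299
  | ⟨259, _⟩ => 301
  | ⟨260, _⟩ => 275
  | ⟨261, _⟩ => 212
  | ⟨262, _⟩ => 304
  | ⟨263, _⟩ => 305
  | ⟨264, _⟩ => 272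
  | ⟨265, _⟩ => 218
  | ⟨266, _⟩ => 307
  | ⟨267, _⟩ => 220
  | ⟨268, _⟩ => 308
  | ⟨269, _⟩ => 222
  | ⟨270, _⟩ => 298
  | ⟨271, _⟩ => 223
  | ⟨272, _⟩ => 264
  | ⟨273, _⟩ => 312
  | ⟨274, _⟩ => 227
  | ⟨275, _⟩ => 260
  | ⟨276, _⟩ => 229
  | ⟨277, _⟩ => 231
  | ⟨278, _⟩ => 248
  | ⟨279, _⟩ => 232
  | ⟨280, _⟩ => 234
  | ⟨281, _⟩ => 317
  | ⟨282, _⟩ => 235
  | ⟨283, _⟩ => 319
  | ⟨284, _⟩ => 237
  | ⟨285, _⟩ => 321
  | ⟨286, _⟩ => 240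
  | ⟨287, _⟩ => 241
  | ⟨288, _⟩ => 323
  | ⟨289, _⟩ => 244
  | ⟨290, _⟩ => 246
  | ⟨291, _⟩ => 309
  | ⟨292, _⟩ => 325
  | ⟨293, _⟩ => 326
  | ⟨294, _⟩ => 251
  | ⟨295, _⟩ => 252
  | ⟨296, _⟩ => 327
  | ⟨297, _⟩ => 256
  | ⟨298, _⟩ => 270
  | ⟨299, _⟩ => 258
  | ⟨300, _⟩ => 331
  | ⟨301, _⟩ => 259
  | ⟨302, _⟩ => 333
  | ⟨303, _⟩ => 334
  | ⟨304, _⟩ => 262
  | ⟨305, _⟩ => 263
  | ⟨306, _⟩ => 336
  | ⟨307, _⟩ => 266
  | ⟨308, _⟩ => 268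
  | ⟨309, _⟩ => 291
  | ⟨310, _⟩ => 338
  | ⟨311, _⟩ => 339
  | ⟨312, _⟩ => 273
  | ⟨313, _⟩ => 340
  | ⟨314, _⟩ => 342
  | ⟨315, _⟩ => 344
  | ⟨316, _⟩ => 322
  | ⟨317, _⟩ => 281
  | ⟨318, _⟩ => 345
  | ⟨319, _⟩ => 283
  | ⟨320, _⟩ => 346
  | ⟨321, _⟩ => 285
  | ⟨322, _⟩ => 316
  | ⟨323, _⟩ => 288
  | ⟨324, _⟩ => 350
  | ⟨325, _⟩ => 292
  | ⟨326, _⟩ => 293
  | ⟨327, _⟩ => 296
  | ⟨328, _⟩ => 347
  | ⟨329, _⟩ => 352
  | ⟨330, _⟩ => 335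
  | ⟨331, _⟩ => 300
  | ⟨332, _⟩ => 353
  | ⟨333, _⟩ => 302
  | ⟨334, _⟩ => 303
  | ⟨335, _⟩ => 330
  | ⟨336, _⟩ => 306
  | ⟨337, _⟩ => 351
  | ⟨338, _⟩ => 310
  | ⟨339, _⟩ => 311
  | ⟨340, _⟩ => 313
  | ⟨341, _⟩ => 343
  | ⟨342, _⟩ => 314
  | ⟨343, _⟩ => 341
  | ⟨344, _⟩ => 315
  | ⟨345, _⟩ => 318
  | ⟨346, _⟩ => 320
  | ⟨347, _⟩ => 328
  | ⟨348, _⟩ => 356
  | ⟨349, _⟩ => 357
  | ⟨350, _⟩ => 324
  | ⟨351, _⟩ => 337
  | ⟨352, _⟩ => 329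
  | ⟨353, _⟩ => 332
  | ⟨354, _⟩ => 358
  | ⟨355, _⟩ => 359
  | ⟨356, _⟩ => 348
  | ⟨357, _⟩ => 349
  | ⟨358, _⟩ => 354
  | ⟨359, _⟩ => 355
  | ⟨n+360, h⟩ => absurd h (by omega)
def px_x : Fin 360 → Fin 360
  | ⟨0, _⟩ => 1
  | ⟨1, _⟩ => 0
  | ⟨2, _⟩ => 4
  | ⟨3, _⟩ => 6
  | ⟨4, _⟩ => 2
  | ⟨5, _⟩ => 9
  | ⟨6, _⟩ => 3
  | ⟨7, _⟩ => 12
  | ⟨8, _⟩ => 14
  | ⟨9, _⟩ => 5
  | ⟨10, _⟩ => 17
  | ⟨11, _⟩ => 18
  | ⟨12, _⟩ => 7
  | ⟨13, _⟩ => 21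
  | ⟨14, _⟩ => 8
  | ⟨15, _⟩ => 23
  | ⟨16, _⟩ => 25
  | ⟨17, _⟩ => 10
  | ⟨18, _⟩ => 11
  | ⟨19, _⟩ => 29
  | ⟨20, _⟩ => 31
  | ⟨21, _⟩ => 13
  | ⟨22, _⟩ => 34
  | ⟨23, _⟩ => 15
  | ⟨24, _⟩ => 37
  | ⟨25, _⟩ => 16
  | ⟨26, _⟩ => 39
  | ⟨27, _⟩ => 41
  | ⟨28, _⟩ => 43
  | ⟨29, _⟩ => 19
  | ⟨30, _⟩ => 46
  | ⟨31, _⟩ => 20
  | ⟨32, _⟩ => 48
  | ⟨33, _⟩ => 50
  | ⟨34, _⟩ => 22
  | ⟨35, _⟩ => 52
  | ⟨36, _⟩ => 54
  | ⟨37, _⟩ => 24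
  | ⟨38, _⟩ => 57
  | ⟨39, _⟩ => 26
  | ⟨40, _⟩ => 60
  | ⟨41, _⟩ => 27
  | ⟨42, _⟩ => 62
  | ⟨43, _⟩ => 28
  | ⟨44, _⟩ => 63
  | ⟨45, _⟩ => 65
  | ⟨46, _⟩ => 30
  | ⟨47, _⟩ => 68
  | ⟨48, _⟩ => 32
  | ⟨49, _⟩ => 71
  | ⟨50, _⟩ => 33
  | ⟨51, _⟩ => 73
  | ⟨52, _⟩ => 35
  | ⟨53, _⟩ => 75
  | ⟨54, _⟩ => 36
  | ⟨55, _⟩ => 77
  | ⟨56, _⟩ => 79
  | ⟨57, _⟩ => 38
  | ⟨58, _⟩ => 81
  | ⟨59, _⟩ => 83
  | ⟨60, _⟩ => 40
  | ⟨61, _⟩ => 85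
  | ⟨62, _⟩ => 42
  | ⟨63, _⟩ => 44
  | ⟨64, _⟩ => 89
  | ⟨65, _⟩ => 45
  | ⟨66, _⟩ => 91
  | ⟨67, _⟩ => 93
  | ⟨68, _⟩ => 47
  | ⟨69, _⟩ => 95
  | ⟨70, _⟩ => 97
  | ⟨71, _⟩ => 49
  | ⟨72, _⟩ => 99
  | ⟨73, _⟩ => 51
  | ⟨74, _⟩ => 102
  | ⟨75, _⟩ => 53
  | ⟨76, _⟩ => 105
  | ⟨77, _⟩ => 55
  | ⟨78, _⟩ => 108
  | ⟨79, _⟩ => 56
  | ⟨80, _⟩ => 110
  | ⟨81, _⟩ => 58
  | ⟨82, _⟩ => 112
  | ⟨83, _⟩ => 59
  | ⟨84, _⟩ => 114
  | ⟨85, _⟩ => 61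
  | ⟨86, _⟩ => 116
  | ⟨87, _⟩ => 118
  | ⟨88, _⟩ => 119
  | ⟨89, _⟩ => 64
  | ⟨90, _⟩ => 122
  | ⟨91, _⟩ => 66
  | ⟨92, _⟩ => 125
  | ⟨93, _⟩ => 67
  | ⟨94, _⟩ => 127
  | ⟨95, _⟩ => 69
  | ⟨96, _⟩ => 129
  | ⟨97, _⟩ => 70
  | ⟨98, _⟩ => 131
  | ⟨99, _⟩ => 72
  | ⟨100, _⟩ => 133
  | ⟨101, _⟩ => 135
  | ⟨102, _⟩ => 74
  | ⟨103, _⟩ => 137
  | ⟨104, _⟩ => 139
  | ⟨105, _⟩ => 76
  | ⟨106, _⟩ => 141
  | ⟨107, _⟩ => 143
  | ⟨108, _⟩ => 78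
  | ⟨109, _⟩ => 145
  | ⟨110, _⟩ => 80
  | ⟨111, _⟩ => 148
  | ⟨112, _⟩ => 82
  | ⟨113, _⟩ => 151
  | ⟨114, _⟩ => 84
  | ⟨115, _⟩ => 154
  | ⟨116, _⟩ => 86
  | ⟨117, _⟩ => 156
  | ⟨118, _⟩ => 87
  | ⟨119, _⟩ => 88
  | ⟨120, _⟩ => 158
  | ⟨121, _⟩ => 160
  | ⟨122, _⟩ => 90
  | ⟨123, _⟩ => 162
  | ⟨124, _⟩ => 136
  | ⟨125, _⟩ => 92
  | ⟨126, _⟩ => 165
  | ⟨127, _⟩ => 94
  | ⟨128, _⟩ => 168
  | ⟨129, _⟩ => 96
  | ⟨130, _⟩ => 171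
  | ⟨131, _⟩ => 98
  | ⟨132, _⟩ => 174
  | ⟨133, _⟩ => 100
  | ⟨134, _⟩ => 176
  | ⟨135, _⟩ => 101
  | ⟨136, _⟩ => 124
  | ⟨137, _⟩ => 103
  | ⟨138, _⟩ => 180
  | ⟨139, _⟩ => 104
  | ⟨140, _⟩ => 182
  | ⟨141, _⟩ => 106
  | ⟨142, _⟩ => 184
  | ⟨143, _⟩ => 107
  | ⟨144, _⟩ => 186
  | ⟨145, _⟩ => 109
  | ⟨146, _⟩ => 188
  | ⟨147, _⟩ => 190
  | ⟨148, _⟩ => 111
  | ⟨149, _⟩ => 192
  | ⟨150, _⟩ => 194
  | ⟨151, _⟩ => 113
  | ⟨152, _⟩ => 196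
  | ⟨153, _⟩ => 198
  | ⟨154, _⟩ => 115
  | ⟨155, _⟩ => 201
  | ⟨156, _⟩ => 117
  | ⟨157, _⟩ => 204
  | ⟨158, _⟩ => 120
  | ⟨159, _⟩ => 207
  | ⟨160, _⟩ => 121
  | ⟨161, _⟩ => 202
  | ⟨162, _⟩ => 123
  | ⟨163, _⟩ => 210
  | ⟨164, _⟩ => 211
  | ⟨165, _⟩ => 126
  | ⟨166, _⟩ => 213
  | ⟨167, _⟩ => 215
  | ⟨168, _⟩ => 128
  | ⟨169, _⟩ => 217
  | ⟨170, _⟩ => 219
  | ⟨171, _⟩ => 130
  | ⟨172, _⟩ => 221
  | ⟨173, _⟩ => 197
  | ⟨174, _⟩ => 132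
  | ⟨175, _⟩ => 224
  | ⟨176, _⟩ => 134
  | ⟨177, _⟩ => 226
  | ⟨178, _⟩ => 228
  | ⟨179, _⟩ => 191
  | ⟨180, _⟩ => 138
  | ⟨181, _⟩ => 230
  | ⟨182, _⟩ => 140
  | ⟨183, _⟩ => 233
  | ⟨184, _⟩ => 142
  | ⟨185, _⟩ => 236
  | ⟨186, _⟩ => 144
  | ⟨187, _⟩ => 239
  | ⟨188, _⟩ => 146
  | ⟨189, _⟩ => 214
  | ⟨190, _⟩ => 147
  | ⟨191, _⟩ => 179
  | ⟨192, _⟩ => 149
  | ⟨193, _⟩ => 243
  | ⟨194, _⟩ => 150
  | ⟨195, _⟩ => 245
  | ⟨196, _⟩ => 152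
  | ⟨197, _⟩ => 173
  | ⟨198, _⟩ => 153
  | ⟨199, _⟩ => 247
  | ⟨200, _⟩ => 249
  | ⟨201, _⟩ => 155
  | ⟨202, _⟩ => 161
  | ⟨203, _⟩ => 225
  | ⟨204, _⟩ => 157
  | ⟨205, _⟩ => 253
  | ⟨206, _⟩ => 216
  | ⟨207, _⟩ => 159
  | ⟨208, _⟩ => 255
  | ⟨209, _⟩ => 257
  | ⟨210, _⟩ => 163
  | ⟨211, _⟩ => 164
  | ⟨212, _⟩ => 261
  | ⟨213, _⟩ => 166
  | ⟨214, _⟩ => 189
  | ⟨215, _⟩ => 167
  | ⟨216, _⟩ => 206
  | ⟨217, _⟩ => 169
  | ⟨218, _⟩ => 265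
  | ⟨219, _⟩ => 170
  | ⟨220, _⟩ => 267
  | ⟨221, _⟩ => 172
  | ⟨222, _⟩ => 269
  | ⟨223, _⟩ => 271
  | ⟨224, _⟩ => 175
  | ⟨225, _⟩ => 203
  | ⟨226, _⟩ => 177
  | ⟨227, _⟩ => 274
  | ⟨228, _⟩ => 178
  | ⟨229, _⟩ => 276
  | ⟨230, _⟩ => 181
  | ⟨231, _⟩ => 277
  | ⟨232, _⟩ => 279
  | ⟨233, _⟩ => 183
  | ⟨234, _⟩ => 280
  | ⟨235, _⟩ => 282
  | ⟨236, _⟩ => 185
  | ⟨237, _⟩ => 284
  | ⟨238, _⟩ => 254
  | ⟨239, _⟩ => 187
  | ⟨240, _⟩ => 286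
  | ⟨241, _⟩ => 287
  | ⟨242, _⟩ => 250
  | ⟨243, _⟩ => 193
  | ⟨244, _⟩ => 289
  | ⟨245, _⟩ => 195
  | ⟨246, _⟩ => 290
  | ⟨247, _⟩ => 199
  | ⟨248, _⟩ => 278
  | ⟨249, _⟩ => 200
  | ⟨250, _⟩ => 242
  | ⟨251, _⟩ => 294
  | ⟨252, _⟩ => 295
  | ⟨253, _⟩ => 205
  | ⟨254, _⟩ => 238
  | ⟨255, _⟩ => 208
  | ⟨256, _⟩ => 297
  | ⟨257, _⟩ => 209
  | ⟨258, _⟩ => 299
  | ⟨259, _⟩ => 301
  | ⟨260, _⟩ => 275
  | ⟨261, _⟩ => 212
  | ⟨262, _⟩ => 304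
  | ⟨263, _⟩ => 305
  | ⟨264, _⟩ => 272
  | ⟨265, _⟩ => 218
  | ⟨266, _⟩ => 307
  | ⟨267, _⟩ => 220
  | ⟨268, _⟩ => 308
  | ⟨269, _⟩ => 222
  | ⟨270, _⟩ => 298
  | ⟨271, _⟩ => 223
  | ⟨272, _⟩ => 264
  | ⟨273, _⟩ => 312
  | ⟨274, _⟩ => 227
  | ⟨275, _⟩ => 260
  | ⟨276, _⟩ => 229
  | ⟨277, _⟩ => 231
  | ⟨278, _⟩ => 248
  | ⟨279, _⟩ => 232
  | ⟨280, _⟩ => 234
  | ⟨281, _⟩ => 317
  | ⟨282, _⟩ => 235
  | ⟨283, _⟩ => 319
  | ⟨284, _⟩ => 237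
  | ⟨285, _⟩ => 321
  | ⟨286, _⟩ => 240
  | ⟨287, _⟩ => 241
  | ⟨288, _⟩ => 323
  | ⟨289, _⟩ => 244
  | ⟨290, _⟩ => 246
  | ⟨291, _⟩ => 309
  | ⟨292, _⟩ => 325
  | ⟨293, _⟩ => 326
  | ⟨294, _⟩ => 251
  | ⟨295, _⟩ => 252
  | ⟨296, _⟩ => 327
  | ⟨297, _⟩ => 256
  | ⟨298, _⟩ => 270
  | ⟨299, _⟩ => 258
  | ⟨300, _⟩ => 331
  | ⟨301, _⟩ => 259
  | ⟨302, _⟩ => 333
  | ⟨303, _⟩ => 334
  | ⟨304, _⟩ => 262
  | ⟨305, _⟩ => 263
  | ⟨306, _⟩ => 336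
  | ⟨307, _⟩ => 266
  | ⟨308, _⟩ => 268
  | ⟨309, _⟩ => 291
  | ⟨310, _⟩ => 338
  | ⟨311, _⟩ => 339
  | ⟨312, _⟩ => 273
  | ⟨313, _⟩ => 340
  | ⟨314, _⟩ => 342
  | ⟨315, _⟩ => 344
  | ⟨316, _⟩ => 322
  | ⟨317, _⟩ => 281
  | ⟨318, _⟩ => 345
  | ⟨319, _⟩ => 283
  | ⟨320, _⟩ => 346
  | ⟨321, _⟩ => 285
  | ⟨322, _⟩ => 316
  | ⟨323, _⟩ => 288
  | ⟨324, _⟩ => 350
  | ⟨325, _⟩ => 292
  | ⟨326, _⟩ => 293
  | ⟨327, _⟩ => 296
  | ⟨328, _⟩ => 347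
  | ⟨329, _⟩ => 352
  | ⟨330, _⟩ => 335
  | ⟨331, _⟩ => 300
  | ⟨332, _⟩ => 353
  | ⟨333, _⟩ => 302
  | ⟨334, _⟩ => 303
  | ⟨335, _⟩ => 330
  | ⟨336, _⟩ => 306
  | ⟨337, _⟩ => 351
  | ⟨338, _⟩ => 310
  | ⟨339, _⟩ => 311
  | ⟨340, _⟩ => 313
  | ⟨341, _⟩ => 343
  | ⟨342, _⟩ => 314
  | ⟨343, _⟩ => 341
  | ⟨344, _⟩ => 315
  | ⟨345, _⟩ => 318
  | ⟨346, _⟩ => 320
  | ⟨347, _⟩ => 328
  | ⟨348, _⟩ => 356
  | ⟨349, _⟩ => 357
  | ⟨350, _⟩ => 324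
  | ⟨351, _⟩ => 337
  | ⟨352, _⟩ => 329
  | ⟨353, _⟩ => 332
  | ⟨354, _⟩ => 358
  | ⟨355, _⟩ => 359
  | ⟨356, _⟩ => 348
  | ⟨357, _⟩ => 349
  | ⟨358, _⟩ => 354
  | ⟨359, _⟩ => 355
  | ⟨n+360, h⟩ => absurd h (by omega)
theorem closed_x : ∀ i : Fin 360, rep i * x = rep (nx_x i)
  | ⟨0, _⟩ => e_0_x
  | ⟨1, _⟩ => e_1_x
  | ⟨2, _⟩ => e_2_x
  | ⟨3, _⟩ => e_3_x
  | ⟨4, _⟩ => e_4_x
  | ⟨5, _⟩ => e_5_x
  | ⟨6, _⟩ => e_6_x
  | ⟨7, _⟩ => e_7_x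
  | ⟨8, _⟩ => e_8_x
  | ⟨9, _⟩ => e_9_x
  | ⟨10, _⟩ => e_10_x
  | ⟨11, _⟩ => e_11_x
  | ⟨12, _⟩ => e_12_x
  | ⟨13, _⟩ => e_13_x
  | ⟨14, _⟩ => e_14_x
  | ⟨15, _⟩ => e_15_x
  | ⟨16, _⟩ => e_16_x
  | ⟨17, _⟩ => e_17_x
  | ⟨18, _⟩ => e_18_x
  | ⟨19, _⟩ => e_19_x
  | ⟨20, _⟩ => e_20_x
  | ⟨21, _⟩ => e_21_x
  | ⟨22, _⟩ => e_22_x
  | ⟨23, _⟩ => e_23_x
  | ⟨24, _⟩ => e_24_x
  | ⟨25, _⟩ => e_25_x
  | ⟨26, _⟩ => e_26_x
  | ⟨27, _⟩ => e_27_x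
  | ⟨28, _⟩ => e_28_x
  | ⟨29, _⟩ => e_29_x
  | ⟨30, _⟩ => e_30_x
  | ⟨31, _⟩ => e_31_x
  | ⟨32, _⟩ => e_32_x
  | ⟨33, _⟩ => e_33_x
  | ⟨34, _⟩ => e_34_x
  | ⟨35, _⟩ => e_35_x
  | ⟨36, _⟩ => e_36_x
  | ⟨37, _⟩ => e_37_x
  | ⟨38, _⟩ => e_38_x
  | ⟨39, _⟩ => e_39_x
  | ⟨40, _⟩ => e_40_x
  | ⟨41, _⟩ => e_41_x
  | ⟨42, _⟩ => e_42_x
  | ⟨43, _⟩ => e_43_x
  | ⟨44, _⟩ => e_44_x
  | ⟨45, _⟩ => e_45_x
  | ⟨46, _⟩ => e_46_x
  | ⟨47, _⟩ => e_47_x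
  | ⟨48, _⟩ => e_48_x
  | ⟨49, _⟩ => e_49_x
  | ⟨50, _⟩ => e_50_x
  | ⟨51, _⟩ => e_51_x
  | ⟨52, _⟩ => e_52_x
  | ⟨53, _⟩ => e_53_x
  | ⟨54, _⟩ => e_54_x
  | ⟨55, _⟩ => e_55_x
  | ⟨56, _⟩ => e_56_x
  | ⟨57, _⟩ => e_57_x
  | ⟨58, _⟩ => e_58_x
  | ⟨59, _⟩ => e_59_x
  | ⟨60, _⟩ => e_60_x
  | ⟨61, _⟩ => e_61_x
  | ⟨62, _⟩ => e_62_x
  | ⟨63, _⟩ => e_63_x
  | ⟨64, _⟩ => e_64_x
  | ⟨65, _⟩ => e_65_x
  | ⟨66, _⟩ => e_66_x
  | ⟨67, _⟩ => e_67_x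
  | ⟨68, _⟩ => e_68_x
  | ⟨69, _⟩ => e_69_x
  | ⟨70, _⟩ => e_70_x
  | ⟨71, _⟩ => e_71_x
  | ⟨72, _⟩ => e_72_x
  | ⟨73, _⟩ => e_73_x
  | ⟨74, _⟩ => e_74_x
  | ⟨75, _⟩ => e_75_x
  | ⟨76, _⟩ => e_76_x
  | ⟨77, _⟩ => e_77_x
  | ⟨78, _⟩ => e_78_x
  | ⟨79, _⟩ => e_79_x
  | ⟨80, _⟩ => e_80_x
  | ⟨81, _⟩ => e_81_x
  | ⟨82, _⟩ => e_82_x
  | ⟨83, _⟩ => e_83_x
  | ⟨84, _⟩ => e_84_x
  | ⟨85, _⟩ => e_85_x
  | ⟨86, _⟩ => e_86_x
  | ⟨87, _⟩ => e_87_x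
  | ⟨88, _⟩ => e_88_x
  | ⟨89, _⟩ => e_89_x
  | ⟨90, _⟩ => e_90_x
  | ⟨91, _⟩ => e_91_x
  | ⟨92, _⟩ => e_92_x
  | ⟨93, _⟩ => e_93_x
  | ⟨94, _⟩ => e_94_x
  | ⟨95, _⟩ => e_95_x
  | ⟨96, _⟩ => e_96_x
  | ⟨97, _⟩ => e_97_x
  | ⟨98, _⟩ => e_98_x
  | ⟨99, _⟩ => e_99_x
  | ⟨100, _⟩ => e_100_x
  | ⟨101, _⟩ => e_101_x
  | ⟨102, _⟩ => e_102_x
  | ⟨103, _⟩ => e_103_x
  | ⟨104, _⟩ => e_104_x
  | ⟨105, _⟩ => e_105_x
  | ⟨106, _⟩ => e_106_x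
  | ⟨107, _⟩ => e_107_x
  | ⟨108, _⟩ => e_108_x
  | ⟨109, _⟩ => e_109_x
  | ⟨110, _⟩ => e_110_x
  | ⟨111, _⟩ => e_111_x
  | ⟨112, _⟩ => e_112_x
  | ⟨113, _⟩ => e_113_x
  | ⟨114, _⟩ => e_114_x
  | ⟨115, _⟩ => e_115_x
  | ⟨116, _⟩ => e_116_x
  | ⟨117, _⟩ => e_117_x
  | ⟨118, _⟩ => e_118_x
  | ⟨119, _⟩ => e_119_x
  | ⟨120, _⟩ => e_120_x
  | ⟨121, _⟩ => e_121_x
  | ⟨122, _⟩ => e_122_x
  | ⟨123, _⟩ => e_123_x
  | ⟨124, _⟩ => e_124_x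
  | ⟨125, _⟩ => e_125_x
  | ⟨126, _⟩ => e_126_x
  | ⟨127, _⟩ => e_127_x
  | ⟨128, _⟩ => e_128_x
  | ⟨129, _⟩ => e_129_x
  | ⟨130, _⟩ => e_130_x
  | ⟨131, _⟩ => e_131_x
  | ⟨132, _⟩ => e_132_x
  | ⟨133, _⟩ => e_133_x
  | ⟨134, _⟩ => e_134_x
  | ⟨135, _⟩ => e_135_x
  | ⟨136, _⟩ => e_136_x
  | ⟨137, _⟩ => e_137_x
  | ⟨138, _⟩ => e_138_x
  | ⟨139, _⟩ => e_139_x
  | ⟨140, _⟩ => e_140_x
  | ⟨141, _⟩ => e_141_x
  | ⟨142, _⟩ => e_142_x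
  | ⟨143, _⟩ => e_143_x
  | ⟨144, _⟩ => e_144_x
  | ⟨145, _⟩ => e_145_x
  | ⟨146, _⟩ => e_146_x
  | ⟨147, _⟩ => e_147_x
  | ⟨148, _⟩ => e_148_x
  | ⟨149, _⟩ => e_149_x
  | ⟨150, _⟩ => e_150_x
  | ⟨151, _⟩ => e_151_x
  | ⟨152, _⟩ => e_152_x
  | ⟨153, _⟩ => e_153_x
  | ⟨154, _⟩ => e_154_x
  | ⟨155, _⟩ => e_155_x
  | ⟨156, _⟩ => e_156_x
  | ⟨157, _⟩ => e_157_x
  | ⟨158, _⟩ => e_158_x
  | ⟨159, _⟩ => e_159_x
  | ⟨160, _⟩ => e_160_x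
  | ⟨161, _⟩ => e_161_x
  | ⟨162, _⟩ => e_162_x
  | ⟨163, _⟩ => e_163_x
  | ⟨164, _⟩ => e_164_x
  | ⟨165, _⟩ => e_165_x
  | ⟨166, _⟩ => e_166_x
  | ⟨167, _⟩ => e_167_x
  | ⟨168, _⟩ => e_168_x
  | ⟨169, _⟩ => e_169_x
  | ⟨170, _⟩ => e_170_x
  | ⟨171, _⟩ => e_171_x
  | ⟨172, _⟩ => e_172_x
  | ⟨173, _⟩ => e_173_x
  | ⟨174, _⟩ => e_174_x
  | ⟨175, _⟩ => e_175_x
  | ⟨176, _⟩ => e_176_x
  | ⟨177, _⟩ => e_177_x
  | ⟨178, _⟩ => e_178_x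
  | ⟨179, _⟩ => e_179_x
  | ⟨180, _⟩ => e_180_x
  | ⟨181, _⟩ => e_181_x
  | ⟨182, _⟩ => e_182_x
  | ⟨183, _⟩ => e_183_x
  | ⟨184, _⟩ => e_184_x
  | ⟨185, _⟩ => e_185_x
  | ⟨186, _⟩ => e_186_x
  | ⟨187, _⟩ => e_187_x
  | ⟨188, _⟩ => e_188_x
  | ⟨189, _⟩ => e_189_x
  | ⟨190, _⟩ => e_190_x
  | ⟨191, _⟩ => e_191_x
  | ⟨192, _⟩ => e_192_x
  | ⟨193, _⟩ => e_193_x
  | ⟨194, _⟩ => e_194_x
  | ⟨195, _⟩ => e_195_x
  | ⟨196, _⟩ => e_196_x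
  | ⟨197, _⟩ => e_197_x
  | ⟨198, _⟩ => e_198_x
  | ⟨199, _⟩ => e_199_x
  | ⟨200, _⟩ => e_200_x
  | ⟨201, _⟩ => e_201_x
  | ⟨202, _⟩ => e_202_x
  | ⟨203, _⟩ => e_203_x
  | ⟨204, _⟩ => e_204_x
  | ⟨205, _⟩ => e_205_x
  | ⟨206, _⟩ => e_206_x
  | ⟨207, _⟩ => e_207_x
  | ⟨208, _⟩ => e_208_x
  | ⟨209, _⟩ => e_209_x
  | ⟨210, _⟩ => e_210_x
  | ⟨211, _⟩ => e_211_x
  | ⟨212, _⟩ => e_212_x
  | ⟨213, _⟩ => e_213_x
  | ⟨214, _⟩ => e_214_x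
  | ⟨215, _⟩ => e_215_x
  | ⟨216, _⟩ => e_216_x
  | ⟨217, _⟩ => e_217_x
  | ⟨218, _⟩ => e_218_x
  | ⟨219, _⟩ => e_219_x
  | ⟨220, _⟩ => e_220_x
  | ⟨221, _⟩ => e_221_x
  | ⟨222, _⟩ => e_222_x
  | ⟨223, _⟩ => e_223_x
  | ⟨224, _⟩ => e_224_x
  | ⟨225, _⟩ => e_225_x
  | ⟨226, _⟩ => e_226_x
  | ⟨227, _⟩ => e_227_x
  | ⟨228, _⟩ => e_228_x
  | ⟨229, _⟩ => e_229_x
  | ⟨230, _⟩ => e_230_x
  | ⟨231, _⟩ => e_231_x
  | ⟨232, _⟩ => e_232_x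
  | ⟨233, _⟩ => e_233_x
  | ⟨234, _⟩ => e_234_x
  | ⟨235, _⟩ => e_235_x
  | ⟨236, _⟩ => e_236_x
  | ⟨237, _⟩ => e_237_x
  | ⟨238, _⟩ => e_238_x
  | ⟨239, _⟩ => e_239_x
  | ⟨240, _⟩ => e_240_x
  | ⟨241, _⟩ => e_241_x
  | ⟨242, _⟩ => e_242_x
  | ⟨243, _⟩ => e_243_x
  | ⟨244, _⟩ => e_244_x
  | ⟨245, _⟩ => e_245_x
  | ⟨246, _⟩ => e_246_x
  | ⟨247, _⟩ => e_247_x
  | ⟨248, _⟩ => e_248_x
  | ⟨249, _⟩ => e_249_x
  | ⟨250, _⟩ => e_250_x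
  | ⟨251, _⟩ => e_251_x
  | ⟨252, _⟩ => e_252_x
  | ⟨253, _⟩ => e_253_x
  | ⟨254, _⟩ => e_254_x
  | ⟨255, _⟩ => e_255_x
  | ⟨256, _⟩ => e_256_x
  | ⟨257, _⟩ => e_257_x
  | ⟨258, _⟩ => e_258_x
  | ⟨259, _⟩ => e_259_x
  | ⟨260, _⟩ => e_260_x
  | ⟨261, _⟩ => e_261_x
  | ⟨262, _⟩ => e_262_x
  | ⟨263, _⟩ => e_263_x
  | ⟨264, _⟩ => e_264_x
  | ⟨265, _⟩ => e_265_x
  | ⟨266, _⟩ => e_266_x
  | ⟨267, _⟩ => e_267_x
  | ⟨268, _⟩ => e_268_x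
  | ⟨269, _⟩ => e_269_x
  | ⟨270, _⟩ => e_270_x
  | ⟨271, _⟩ => e_271_x
  | ⟨272, _⟩ => e_272_x
  | ⟨273, _⟩ => e_273_x
  | ⟨274, _⟩ => e_274_x
  | ⟨275, _⟩ => e_275_x
  | ⟨276, _⟩ => e_276_x
  | ⟨277, _⟩ => e_277_x
  | ⟨278, _⟩ => e_278_x
  | ⟨279, _⟩ => e_279_x
  | ⟨280, _⟩ => e_280_x
  | ⟨281, _⟩ => e_281_x
  | ⟨282, _⟩ => e_282_x
  | ⟨283, _⟩ => e_283_x
  | ⟨284, _⟩ => e_284_x
  | ⟨285, _⟩ => e_285_x
  | ⟨286, _⟩ => e_286_x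
  | ⟨287, _⟩ => e_287_x
  | ⟨288, _⟩ => e_288_x
  | ⟨289, _⟩ => e_289_x
  | ⟨290, _⟩ => e_290_x
  | ⟨291, _⟩ => e_291_x
  | ⟨292, _⟩ => e_292_x
  | ⟨293, _⟩ => e_293_x
  | ⟨294, _⟩ => e_294_x
  | ⟨295, _⟩ => e_295_x
  | ⟨296, _⟩ => e_296_x
  | ⟨297, _⟩ => e_297_x
  | ⟨298, _⟩ => e_298_x
  | ⟨299, _⟩ => e_299_x
  | ⟨300, _⟩ => e_300_x
  | ⟨301, _⟩ => e_301_x
  | ⟨302, _⟩ => e_302_x
  | ⟨303, _⟩ => e_303_x
  | ⟨304, _⟩ => e_304_x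
  | ⟨305, _⟩ => e_305_x
  | ⟨306, _⟩ => e_306_x
  | ⟨307, _⟩ => e_307_x
  | ⟨308, _⟩ => e_308_x
  | ⟨309, _⟩ => e_309_x
  | ⟨310, _⟩ => e_310_x
  | ⟨311, _⟩ => e_311_x
  | ⟨312, _⟩ => e_312_x
  | ⟨313, _⟩ => e_313_x
  | ⟨314, _⟩ => e_314_x
  | ⟨315, _⟩ => e_315_x
  | ⟨316, _⟩ => e_316_x
  | ⟨317, _⟩ => e_317_x
  | ⟨318, _⟩ => e_318_x
  | ⟨319, _⟩ => e_319_x
  | ⟨320, _⟩ => e_320_x
  | ⟨321, _⟩ => e_321_x
  | ⟨322, _⟩ => e_322_x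
  | ⟨323, _⟩ => e_323_x
  | ⟨324, _⟩ => e_324_x
  | ⟨325, _⟩ => e_325_x
  | ⟨326, _⟩ => e_326_x
  | ⟨327, _⟩ => e_327_x
  | ⟨328, _⟩ => e_328_x
  | ⟨329, _⟩ => e_329_x
  | ⟨330, _⟩ => e_330_x
  | ⟨331, _⟩ => e_331_x
  | ⟨332, _⟩ => e_332_x
  | ⟨333, _⟩ => e_333_x
  | ⟨334, _⟩ => e_334_x
  | ⟨335, _⟩ => e_335_x
  | ⟨336, _⟩ => e_336_x
  | ⟨337, _⟩ => e_337_x
  | ⟨338, _⟩ => e_338_x
  | ⟨339, _⟩ => e_339_x
  | ⟨340, _⟩ => e_340_x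
  | ⟨341, _⟩ => e_341_x
  | ⟨342, _⟩ => e_342_x
  | ⟨343, _⟩ => e_343_x
  | ⟨344, _⟩ => e_344_x
  | ⟨345, _⟩ => e_345_x
  | ⟨346, _⟩ => e_346_x
  | ⟨347, _⟩ => e_347_x
  | ⟨348, _⟩ => e_348_x
  | ⟨349, _⟩ => e_349_x
  | ⟨350, _⟩ => e_350_x
  | ⟨351, _⟩ => e_351_x
  | ⟨352, _⟩ => e_352_x
  | ⟨353, _⟩ => e_353_x
  | ⟨354, _⟩ => e_354_x
  | ⟨355, _⟩ => e_355_x
  | ⟨356, _⟩ => e_356_x
  | ⟨357, _⟩ => e_357_x
  | ⟨358, _⟩ => e_358_x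
  | ⟨359, _⟩ => e_359_x
  | ⟨n+360, h⟩ => absurd h (by omega)
theorem pre_x : ∀ i : Fin 360, rep (px_x i) * x = rep i
  | ⟨0, _⟩ => e_1_x
  | ⟨1, _⟩ => e_0_x
  | ⟨2, _⟩ => e_4_x
  | ⟨3, _⟩ => e_6_x
  | ⟨4, _⟩ => e_2_x
  | ⟨5, _⟩ => e_9_x
  | ⟨6, _⟩ => e_3_x
  | ⟨7, _⟩ => e_12_x
  | ⟨8, _⟩ => e_14_x
  | ⟨9, _⟩ => e_5_x
  | ⟨10, _⟩ => e_17_x
  | ⟨11, _⟩ => e_18_x
  | ⟨12, _⟩ => e_7_x
  | ⟨13, _⟩ => e_21_x
  | ⟨14, _⟩ => e_8_x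
  | ⟨15, _⟩ => e_23_x
  | ⟨16, _⟩ => e_25_x
  | ⟨17, _⟩ => e_10_x
  | ⟨18, _⟩ => e_11_x
  | ⟨19, _⟩ => e_29_x
  | ⟨20, _⟩ => e_31_x
  | ⟨21, _⟩ => e_13_x
  | ⟨22, _⟩ => e_34_x
  | ⟨23, _⟩ => e_15_x
  | ⟨24, _⟩ => e_37_x
  | ⟨25, _⟩ => e_16_x
  | ⟨26, _⟩ => e_39_x
  | ⟨27, _⟩ => e_41_x
  | ⟨28, _⟩ => e_43_x
  | ⟨29, _⟩ => e_19_x
  | ⟨30, _⟩ => e_46_x
  | ⟨31, _⟩ => e_20_x
  | ⟨32, _⟩ => e_48_x
  | ⟨33, _⟩ => e_50_x
  | ⟨34, _⟩ => e_22_x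
  | ⟨35, _⟩ => e_52_x
  | ⟨36, _⟩ => e_54_x
  | ⟨37, _⟩ => e_24_x
  | ⟨38, _⟩ => e_57_x
  | ⟨39, _⟩ => e_26_x
  | ⟨40, _⟩ => e_60_x
  | ⟨41, _⟩ => e_27_x
  | ⟨42, _⟩ => e_62_x
  | ⟨43, _⟩ => e_28_x
  | ⟨44, _⟩ => e_63_x
  | ⟨45, _⟩ => e_65_x
  | ⟨46, _⟩ => e_30_x
  | ⟨47, _⟩ => e_68_x
  | ⟨48, _⟩ => e_32_x
  | ⟨49, _⟩ => e_71_x
  | ⟨50, _⟩ => e_33_x
  | ⟨51, _⟩ => e_73_x
  | ⟨52, _⟩ => e_35_x
  | ⟨53, _⟩ => e_75_x
  | ⟨54, _⟩ => e_36_x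
  | ⟨55, _⟩ => e_77_x
  | ⟨56, _⟩ => e_79_x
  | ⟨57, _⟩ => e_38_x
  | ⟨58, _⟩ => e_81_x
  | ⟨59, _⟩ => e_83_x
  | ⟨60, _⟩ => e_40_x
  | ⟨61, _⟩ => e_85_x
  | ⟨62, _⟩ => e_42_x
  | ⟨63, _⟩ => e_44_x
  | ⟨64, _⟩ => e_89_x
  | ⟨65, _⟩ => e_45_x
  | ⟨66, _⟩ => e_91_x
  | ⟨67, _⟩ => e_93_x
  | ⟨68, _⟩ => e_47_x
  | ⟨69, _⟩ => e_95_x
  | ⟨70, _⟩ => e_97_x
  | ⟨71, _⟩ => e_49_x
  | ⟨72, _⟩ => e_99_x
  | ⟨73, _⟩ => e_51_x
  | ⟨74, _⟩ => e_102_x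
  | ⟨75, _⟩ => e_53_x
  | ⟨76, _⟩ => e_105_x
  | ⟨77, _⟩ => e_55_x
  | ⟨78, _⟩ => e_108_x
  | ⟨79, _⟩ => e_56_x
  | ⟨80, _⟩ => e_110_x
  | ⟨81, _⟩ => e_58_x
  | ⟨82, _⟩ => e_112_x
  | ⟨83, _⟩ => e_59_x
  | ⟨84, _⟩ => e_114_x
  | ⟨85, _⟩ => e_61_x
  | ⟨86, _⟩ => e_116_x
  | ⟨87, _⟩ => e_118_x
  | ⟨88, _⟩ => e_119_x
  | ⟨89, _⟩ => e_64_x
  | ⟨90, _⟩ => e_122_x
  | ⟨91, _⟩ => e_66_x
  | ⟨92, _⟩ => e_125_x
  | ⟨93, _⟩ => e_67_x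
  | ⟨94, _⟩ => e_127_x
  | ⟨95, _⟩ => e_69_x
  | ⟨96, _⟩ => e_129_x
  | ⟨97, _⟩ => e_70_x
  | ⟨98, _⟩ => e_131_x
  | ⟨99, _⟩ => e_72_x
  | ⟨100, _⟩ => e_133_x
  | ⟨101, _⟩ => e_135_x
  | ⟨102, _⟩ => e_74_x
  | ⟨103, _⟩ => e_137_x
  | ⟨104, _⟩ => e_139_x
  | ⟨105, _⟩ => e_76_x
  | ⟨106, _⟩ => e_141_x
  | ⟨107, _⟩ => e_143_x
  | ⟨108, _⟩ => e_78_x
  | ⟨109, _⟩ => e_145_x
  | ⟨110, _⟩ => e_80_x
  | ⟨111, _⟩ => e_148_x
  | ⟨112, _⟩ => e_82_x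
  | ⟨113, _⟩ => e_151_x
  | ⟨114, _⟩ => e_84_x
  | ⟨115, _⟩ => e_154_x
  | ⟨116, _⟩ => e_86_x
  | ⟨117, _⟩ => e_156_x
  | ⟨118, _⟩ => e_87_x
  | ⟨119, _⟩ => e_88_x
  | ⟨120, _⟩ => e_158_x
  | ⟨121, _⟩ => e_160_x
  | ⟨122, _⟩ => e_90_x
  | ⟨123, _⟩ => e_162_x
  | ⟨124, _⟩ => e_136_x
  | ⟨125, _⟩ => e_92_x
  | ⟨126, _⟩ => e_165_x
  | ⟨127, _⟩ => e_94_x
  | ⟨128, _⟩ => e_168_x
  | ⟨129, _⟩ => e_96_x
  | ⟨130, _⟩ => e_171_x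
  | ⟨131, _⟩ => e_98_x
  | ⟨132, _⟩ => e_174_x
  | ⟨133, _⟩ => e_100_x
  | ⟨134, _⟩ => e_176_x
  | ⟨135, _⟩ => e_101_x
  | ⟨136, _⟩ => e_124_x
  | ⟨137, _⟩ => e_103_x
  | ⟨138, _⟩ => e_180_x
  | ⟨139, _⟩ => e_104_x
  | ⟨140, _⟩ => e_182_x
  | ⟨141, _⟩ => e_106_x
  | ⟨142, _⟩ => e_184_x
  | ⟨143, _⟩ => e_107_x
  | ⟨144, _⟩ => e_186_x
  | ⟨145, _⟩ => e_109_x
  | ⟨146, _⟩ => e_188_x
  | ⟨147, _⟩ => e_190_x
  | ⟨148, _⟩ => e_111_x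
  | ⟨149, _⟩ => e_192_x
  | ⟨150, _⟩ => e_194_x
  | ⟨151, _⟩ => e_113_x
  | ⟨152, _⟩ => e_196_x
  | ⟨153, _⟩ => e_198_x
  | ⟨154, _⟩ => e_115_x
  | ⟨155, _⟩ => e_201_x
  | ⟨156, _⟩ => e_117_x
  | ⟨157, _⟩ => e_204_x
  | ⟨158, _⟩ => e_120_x
  | ⟨159, _⟩ => e_207_x
  | ⟨160, _⟩ => e_121_x
  | ⟨161, _⟩ => e_202_x
  | ⟨162, _⟩ => e_123_x
  | ⟨163, _⟩ => e_210_x
  | ⟨164, _⟩ => e_211_x
  | ⟨165, _⟩ => e_126_x
  | ⟨166, _⟩ => e_213_x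
  | ⟨167, _⟩ => e_215_x
  | ⟨168, _⟩ => e_128_x
  | ⟨169, _⟩ => e_217_x
  | ⟨170, _⟩ => e_219_x
  | ⟨171, _⟩ => e_130_x
  | ⟨172, _⟩ => e_221_x
  | ⟨173, _⟩ => e_197_x
  | ⟨174, _⟩ => e_132_x
  | ⟨175, _⟩ => e_224_x
  | ⟨176, _⟩ => e_134_x
  | ⟨177, _⟩ => e_226_x
  | ⟨178, _⟩ => e_228_x
  | ⟨179, _⟩ => e_191_x
  | ⟨180, _⟩ => e_138_x
  | ⟨181, _⟩ => e_230_x
  | ⟨182, _⟩ => e_140_x
  | ⟨183, _⟩ => e_233_x
  | ⟨184, _⟩ => e_142_x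
  | ⟨185, _⟩ => e_236_x
  | ⟨186, _⟩ => e_144_x
  | ⟨187, _⟩ => e_239_x
  | ⟨188, _⟩ => e_146_x
  | ⟨189, _⟩ => e_214_x
  | ⟨190, _⟩ => e_147_x
  | ⟨191, _⟩ => e_179_x
  | ⟨192, _⟩ => e_149_x
  | ⟨193, _⟩ => e_243_x
  | ⟨194, _⟩ => e_150_x
  | ⟨195, _⟩ => e_245_x
  | ⟨196, _⟩ => e_152_x
  | ⟨197, _⟩ => e_173_x
  | ⟨198, _⟩ => e_153_x
  | ⟨199, _⟩ => e_247_x
  | ⟨200, _⟩ => e_249_x
  | ⟨201, _⟩ => e_155_x
  | ⟨202, _⟩ => e_161_x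
  | ⟨203, _⟩ => e_225_x
  | ⟨204, _⟩ => e_157_x
  | ⟨205, _⟩ => e_253_x
  | ⟨206, _⟩ => e_216_x
  | ⟨207, _⟩ => e_159_x
  | ⟨208, _⟩ => e_255_x
  | ⟨209, _⟩ => e_257_x
  | ⟨210, _⟩ => e_163_x
  | ⟨211, _⟩ => e_164_x
  | ⟨212, _⟩ => e_261_x
  | ⟨213, _⟩ => e_166_x
  | ⟨214, _⟩ => e_189_x
  | ⟨215, _⟩ => e_167_x
  | ⟨216, _⟩ => e_206_x
  | ⟨217, _⟩ => e_169_x
  | ⟨218, _⟩ => e_265_x
  | ⟨219, _⟩ => e_170_x
  | ⟨220, _⟩ => e_267_x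
  | ⟨221, _⟩ => e_172_x
  | ⟨222, _⟩ => e_269_x
  | ⟨223, _⟩ => e_271_x
  | ⟨224, _⟩ => e_175_x
  | ⟨225, _⟩ => e_203_x
  | ⟨226, _⟩ => e_177_x
  | ⟨227, _⟩ => e_274_x
  | ⟨228, _⟩ => e_178_x
  | ⟨229, _⟩ => e_276_x
  | ⟨230, _⟩ => e_181_x
  | ⟨231, _⟩ => e_277_x
  | ⟨232, _⟩ => e_279_x
  | ⟨233, _⟩ => e_183_x
  | ⟨234, _⟩ => e_280_x
  | ⟨235, _⟩ => e_282_x
  | ⟨236, _⟩ => e_185_x
  | ⟨237, _⟩ => e_284_x
  | ⟨238, _⟩ => e_254_x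
  | ⟨239, _⟩ => e_187_x
  | ⟨240, _⟩ => e_286_x
  | ⟨241, _⟩ => e_287_x
  | ⟨242, _⟩ => e_250_x
  | ⟨243, _⟩ => e_193_x
  | ⟨244, _⟩ => e_289_x
  | ⟨245, _⟩ => e_195_x
  | ⟨246, _⟩ => e_290_x
  | ⟨247, _⟩ => e_199_x
  | ⟨248, _⟩ => e_278_x
  | ⟨249, _⟩ => e_200_x
  | ⟨250, _⟩ => e_242_x
  | ⟨251, _⟩ => e_294_x
  | ⟨252, _⟩ => e_295_x
  | ⟨253, _⟩ => e_205_x
  | ⟨254, _⟩ => e_238_x
  | ⟨255, _⟩ => e_208_x
  | ⟨256, _⟩ => e_297_x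
  | ⟨257, _⟩ => e_209_x
  | ⟨258, _⟩ => e_299_x
  | ⟨259, _⟩ => e_301_x
  | ⟨260, _⟩ => e_275_x
  | ⟨261, _⟩ => e_212_x
  | ⟨262, _⟩ => e_304_x
  | ⟨263, _⟩ => e_305_x
  | ⟨264, _⟩ => e_272_x
  | ⟨265, _⟩ => e_218_x
  | ⟨266, _⟩ => e_307_x
  | ⟨267, _⟩ => e_220_x
  | ⟨268, _⟩ => e_308_x
  | ⟨269, _⟩ => e_222_x
  | ⟨270, _⟩ => e_298_x
  | ⟨271, _⟩ => e_223_x
  | ⟨272, _⟩ => e_264_x
  | ⟨273, _⟩ => e_312_x
  | ⟨274, _⟩ => e_227_x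
  | ⟨275, _⟩ => e_260_x
  | ⟨276, _⟩ => e_229_x
  | ⟨277, _⟩ => e_231_x
  | ⟨278, _⟩ => e_248_x
  | ⟨279, _⟩ => e_232_x
  | ⟨280, _⟩ => e_234_x
  | ⟨281, _⟩ => e_317_x
  | ⟨282, _⟩ => e_235_x
  | ⟨283, _⟩ => e_319_x
  | ⟨284, _⟩ => e_237_x
  | ⟨285, _⟩ => e_321_x
  | ⟨286, _⟩ => e_240_x
  | ⟨287, _⟩ => e_241_x
  | ⟨288, _⟩ => e_323_x
  | ⟨289, _⟩ => e_244_x
  | ⟨290, _⟩ => e_246_x
  | ⟨291, _⟩ => e_309_x
  | ⟨292, _⟩ => e_325_x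
  | ⟨293, _⟩ => e_326_x
  | ⟨294, _⟩ => e_251_x
  | ⟨295, _⟩ => e_252_x
  | ⟨296, _⟩ => e_327_x
  | ⟨297, _⟩ => e_256_x
  | ⟨298, _⟩ => e_270_x
  | ⟨299, _⟩ => e_258_x
  | ⟨300, _⟩ => e_331_x
  | ⟨301, _⟩ => e_259_x
  | ⟨302, _⟩ => e_333_x
  | ⟨303, _⟩ => e_334_x
  | ⟨304, _⟩ => e_262_x
  | ⟨305, _⟩ => e_263_x
  | ⟨306, _⟩ => e_336_x
  | ⟨307, _⟩ => e_266_x
  | ⟨308, _⟩ => e_268_x
  | ⟨309, _⟩ => e_291_x
  | ⟨310, _⟩ => e_338_x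
  | ⟨311, _⟩ => e_339_x
  | ⟨312, _⟩ => e_273_x
  | ⟨313, _⟩ => e_340_x
  | ⟨314, _⟩ => e_342_x
  | ⟨315, _⟩ => e_344_x
  | ⟨316, _⟩ => e_322_x
  | ⟨317, _⟩ => e_281_x
  | ⟨318, _⟩ => e_345_x
  | ⟨319, _⟩ => e_283_x
  | ⟨320, _⟩ => e_346_x
  | ⟨321, _⟩ => e_285_x
  | ⟨322, _⟩ => e_316_x
  | ⟨323, _⟩ => e_288_x
  | ⟨324, _⟩ => e_350_x
  | ⟨325, _⟩ => e_292_x
  | ⟨326, _⟩ => e_293_x
  | ⟨327, _⟩ => e_296_x
  | ⟨328, _⟩ => e_347_x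
  | ⟨329, _⟩ => e_352_x
  | ⟨330, _⟩ => e_335_x
  | ⟨331, _⟩ => e_300_x
  | ⟨332, _⟩ => e_353_x
  | ⟨333, _⟩ => e_302_x
  | ⟨334, _⟩ => e_303_x
  | ⟨335, _⟩ => e_330_x
  | ⟨336, _⟩ => e_306_x
  | ⟨337, _⟩ => e_351_x
  | ⟨338, _⟩ => e_310_x
  | ⟨339, _⟩ => e_311_x
  | ⟨340, _⟩ => e_313_x
  | ⟨341, _⟩ => e_343_x
  | ⟨342, _⟩ => e_314_x
  | ⟨343, _⟩ => e_341_x
  | ⟨344, _⟩ => e_315_x
  | ⟨345, _⟩ => e_318_x
  | ⟨346, _⟩ => e_320_x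
  | ⟨347, _⟩ => e_328_x
  | ⟨348, _⟩ => e_356_x
  | ⟨349, _⟩ => e_357_x
  | ⟨350, _⟩ => e_324_x
  | ⟨351, _⟩ => e_337_x
  | ⟨352, _⟩ => e_329_x
  | ⟨353, _⟩ => e_332_x
  | ⟨354, _⟩ => e_358_x
  | ⟨355, _⟩ => e_359_x
  | ⟨356, _⟩ => e_348_x
  | ⟨357, _⟩ => e_349_x
  | ⟨358, _⟩ => e_354_x
  | ⟨359, _⟩ => e_355_x
  | ⟨n+360, h⟩ => absurd h (by omega)
def nx_y : Fin 360 → Fin 360
  | ⟨0, _⟩ => 2
  | ⟨1, _⟩ => 3
  | ⟨2, _⟩ => 5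
  | ⟨3, _⟩ => 7
  | ⟨4, _⟩ => 8
  | ⟨5, _⟩ => 10
  | ⟨6, _⟩ => 11
  | ⟨7, _⟩ => 13
  | ⟨8, _⟩ => 15
  | ⟨9, _⟩ => 16
  | ⟨10, _⟩ => 0
  | ⟨11, _⟩ => 19
  | ⟨12, _⟩ => 20
  | ⟨13, _⟩ => 1
  | ⟨14, _⟩ => 22
  | ⟨15, _⟩ => 24
  | ⟨16, _⟩ => 26
  | ⟨17, _⟩ => 27
  | ⟨18, _⟩ => 28
  | ⟨19, _⟩ => 30
  | ⟨20, _⟩ => 32
  | ⟨21, _⟩ => 33
  | ⟨22, _⟩ => 35
  | ⟨23, _⟩ => 36
  | ⟨24, _⟩ => 4
  | ⟨25, _⟩ => 38
  | ⟨26, _⟩ => 40
  | ⟨27, _⟩ => 42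
  | ⟨28, _⟩ => 44
  | ⟨29, _⟩ => 45
  | ⟨30, _⟩ => 6
  | ⟨31, _⟩ => 47
  | ⟨32, _⟩ => 49
  | ⟨33, _⟩ => 51
  | ⟨34, _⟩ => 21
  | ⟨35, _⟩ => 53
  | ⟨36, _⟩ => 55
  | ⟨37, _⟩ => 56
  | ⟨38, _⟩ => 58
  | ⟨39, _⟩ => 59
  | ⟨40, _⟩ => 9
  | ⟨41, _⟩ => 61
  | ⟨42, _⟩ => 43
  | ⟨43, _⟩ => 17
  | ⟨44, _⟩ => 64
  | ⟨45, _⟩ => 66
  | ⟨46, _⟩ => 67
  | ⟨47, _⟩ => 69
  | ⟨48, _⟩ => 70
  | ⟨49, _⟩ => 12
  | ⟨50, _⟩ => 72
  | ⟨51, _⟩ => 34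
  | ⟨52, _⟩ => 74
  | ⟨53, _⟩ => 14
  | ⟨54, _⟩ => 76
  | ⟨55, _⟩ => 78
  | ⟨56, _⟩ => 80
  | ⟨57, _⟩ => 37
  | ⟨58, _⟩ => 82
  | ⟨59, _⟩ => 48
  | ⟨60, _⟩ => 84
  | ⟨61, _⟩ => 86
  | ⟨62, _⟩ => 87
  | ⟨63, _⟩ => 88
  | ⟨64, _⟩ => 18
  | ⟨65, _⟩ => 90
  | ⟨66, _⟩ => 92
  | ⟨67, _⟩ => 94
  | ⟨68, _⟩ => 46
  | ⟨69, _⟩ => 96
  | ⟨70, _⟩ => 39
  | ⟨71, _⟩ => 98
  | ⟨72, _⟩ => 100
  | ⟨73, _⟩ => 101
  | ⟨74, _⟩ => 103
  | ⟨75, _⟩ => 104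
  | ⟨76, _⟩ => 106
  | ⟨77, _⟩ => 107
  | ⟨78, _⟩ => 23
  | ⟨79, _⟩ => 109
  | ⟨80, _⟩ => 57
  | ⟨81, _⟩ => 111
  | ⟨82, _⟩ => 25
  | ⟨83, _⟩ => 113
  | ⟨84, _⟩ => 115
  | ⟨85, _⟩ => 60
  | ⟨86, _⟩ => 117
  | ⟨87, _⟩ => 77
  | ⟨88, _⟩ => 120
  | ⟨89, _⟩ => 121
  | ⟨90, _⟩ => 123
  | ⟨91, _⟩ => 124
  | ⟨92, _⟩ => 29
  | ⟨93, _⟩ => 126
  | ⟨94, _⟩ => 68
  | ⟨95, _⟩ => 128
  | ⟨96, _⟩ => 31
  | ⟨97, _⟩ => 130
  | ⟨98, _⟩ => 132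
  | ⟨99, _⟩ => 71
  | ⟨100, _⟩ => 134
  | ⟨101, _⟩ => 91
  | ⟨102, _⟩ => 136
  | ⟨103, _⟩ => 138
  | ⟨104, _⟩ => 140
  | ⟨105, _⟩ => 75
  | ⟨106, _⟩ => 142
  | ⟨107, _⟩ => 62
  | ⟨108, _⟩ => 144
  | ⟨109, _⟩ => 146
  | ⟨110, _⟩ => 147
  | ⟨111, _⟩ => 149
  | ⟨112, _⟩ => 150
  | ⟨113, _⟩ => 152
  | ⟨114, _⟩ => 153
  | ⟨115, _⟩ => 85
  | ⟨116, _⟩ => 155
  | ⟨117, _⟩ => 41
  | ⟨118, _⟩ => 157
  | ⟨119, _⟩ => 143
  | ⟨120, _⟩ => 159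
  | ⟨121, _⟩ => 161
  | ⟨122, _⟩ => 89
  | ⟨123, _⟩ => 163
  | ⟨124, _⟩ => 73
  | ⟨125, _⟩ => 164
  | ⟨126, _⟩ => 166
  | ⟨127, _⟩ => 167
  | ⟨128, _⟩ => 169
  | ⟨129, _⟩ => 170
  | ⟨130, _⟩ => 172
  | ⟨131, _⟩ => 173
  | ⟨132, _⟩ => 99
  | ⟨133, _⟩ => 175
  | ⟨134, _⟩ => 50
  | ⟨135, _⟩ => 177
  | ⟨136, _⟩ => 178
  | ⟨137, _⟩ => 179
  | ⟨138, _⟩ => 52
  | ⟨139, _⟩ => 181
  | ⟨140, _⟩ => 105
  | ⟨141, _⟩ => 183
  | ⟨142, _⟩ => 54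
  | ⟨143, _⟩ => 185
  | ⟨144, _⟩ => 187
  | ⟨145, _⟩ => 108
  | ⟨146, _⟩ => 189
  | ⟨147, _⟩ => 137
  | ⟨148, _⟩ => 191
  | ⟨149, _⟩ => 193
  | ⟨150, _⟩ => 195
  | ⟨151, _⟩ => 112
  | ⟨152, _⟩ => 197
  | ⟨153, _⟩ => 199
  | ⟨154, _⟩ => 200
  | ⟨155, _⟩ => 202
  | ⟨156, _⟩ => 203
  | ⟨157, _⟩ => 205
  | ⟨158, _⟩ => 206
  | ⟨159, _⟩ => 63
  | ⟨160, _⟩ => 208
  | ⟨161, _⟩ => 122
  | ⟨162, _⟩ => 209
  | ⟨163, _⟩ => 65
  | ⟨164, _⟩ => 212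
  | ⟨165, _⟩ => 125
  | ⟨166, _⟩ => 214
  | ⟨167, _⟩ => 158
  | ⟨168, _⟩ => 216
  | ⟨169, _⟩ => 218
  | ⟨170, _⟩ => 220
  | ⟨171, _⟩ => 129
  | ⟨172, _⟩ => 198
  | ⟨173, _⟩ => 222
  | ⟨174, _⟩ => 223
  | ⟨175, _⟩ => 182
  | ⟨176, _⟩ => 225
  | ⟨177, _⟩ => 227
  | ⟨178, _⟩ => 229
  | ⟨179, _⟩ => 110
  | ⟨180, _⟩ => 219
  | ⟨181, _⟩ => 231
  | ⟨182, _⟩ => 232
  | ⟨183, _⟩ => 234
  | ⟨184, _⟩ => 235
  | ⟨185, _⟩ => 237
  | ⟨186, _⟩ => 238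
  | ⟨187, _⟩ => 145
  | ⟨188, _⟩ => 240
  | ⟨189, _⟩ => 79
  | ⟨190, _⟩ => 213
  | ⟨191, _⟩ => 241
  | ⟨192, _⟩ => 242
  | ⟨193, _⟩ => 81
  | ⟨194, _⟩ => 244
  | ⟨195, _⟩ => 151
  | ⟨196, _⟩ => 246
  | ⟨197, _⟩ => 83
  | ⟨198, _⟩ => 97
  | ⟨199, _⟩ => 248
  | ⟨200, _⟩ => 192
  | ⟨201, _⟩ => 250
  | ⟨202, _⟩ => 251
  | ⟨203, _⟩ => 252
  | ⟨204, _⟩ => 156
  | ⟨205, _⟩ => 254
  | ⟨206, _⟩ => 127
  | ⟨207, _⟩ => 194
  | ⟨208, _⟩ => 256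
  | ⟨209, _⟩ => 258
  | ⟨210, _⟩ => 259
  | ⟨211, _⟩ => 260
  | ⟨212, _⟩ => 165
  | ⟨213, _⟩ => 262
  | ⟨214, _⟩ => 93
  | ⟨215, _⟩ => 188
  | ⟨216, _⟩ => 263
  | ⟨217, _⟩ => 264
  | ⟨218, _⟩ => 95
  | ⟨219, _⟩ => 266
  | ⟨220, _⟩ => 171
  | ⟨221, _⟩ => 268
  | ⟨222, _⟩ => 270
  | ⟨223, _⟩ => 217
  | ⟨224, _⟩ => 272
  | ⟨225, _⟩ => 273
  | ⟨226, _⟩ => 176
  | ⟨227, _⟩ => 275
  | ⟨228, _⟩ => 210
  | ⟨229, _⟩ => 102
  | ⟨230, _⟩ => 180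
  | ⟨231, _⟩ => 278
  | ⟨232, _⟩ => 133
  | ⟨233, _⟩ => 224
  | ⟨234, _⟩ => 281
  | ⟨235, _⟩ => 283
  | ⟨236, _⟩ => 184
  | ⟨237, _⟩ => 119
  | ⟨238, _⟩ => 211
  | ⟨239, _⟩ => 285
  | ⟨240, _⟩ => 245
  | ⟨241, _⟩ => 288
  | ⟨242, _⟩ => 154
  | ⟨243, _⟩ => 282
  | ⟨244, _⟩ => 255
  | ⟨245, _⟩ => 215
  | ⟨246, _⟩ => 291
  | ⟨247, _⟩ => 292
  | ⟨248, _⟩ => 114
  | ⟨249, _⟩ => 277
  | ⟨250, _⟩ => 293
  | ⟨251, _⟩ => 116
  | ⟨252, _⟩ => 204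
  | ⟨253, _⟩ => 296
  | ⟨254, _⟩ => 118
  | ⟨255, _⟩ => 207
  | ⟨256, _⟩ => 298
  | ⟨257, _⟩ => 201
  | ⟨258, _⟩ => 300
  | ⟨259, _⟩ => 302
  | ⟨260, _⟩ => 186
  | ⟨261, _⟩ => 303
  | ⟨262, _⟩ => 267
  | ⟨263, _⟩ => 306
  | ⟨264, _⟩ => 174
  | ⟨265, _⟩ => 301
  | ⟨266, _⟩ => 230
  | ⟨267, _⟩ => 190
  | ⟨268, _⟩ => 309
  | ⟨269, _⟩ => 310
  | ⟨270, _⟩ => 131
  | ⟨271, _⟩ => 297
  | ⟨272, _⟩ => 311
  | ⟨273, _⟩ => 226
  | ⟨274, _⟩ => 313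
  | ⟨275, _⟩ => 135
  | ⟨276, _⟩ => 314
  | ⟨277, _⟩ => 315
  | ⟨278, _⟩ => 139
  | ⟨279, _⟩ => 247
  | ⟨280, _⟩ => 316
  | ⟨281, _⟩ => 141
  | ⟨282, _⟩ => 318
  | ⟨283, _⟩ => 236
  | ⟨284, _⟩ => 320
  | ⟨285, _⟩ => 280
  | ⟨286, _⟩ => 322
  | ⟨287, _⟩ => 276
  | ⟨288, _⟩ => 148
  | ⟨289, _⟩ => 243
  | ⟨290, _⟩ => 286
  | ⟨291, _⟩ => 324
  | ⟨292, _⟩ => 295
  | ⟨293, _⟩ => 257
  | ⟨294, _⟩ => 269
  | ⟨295, _⟩ => 279
  | ⟨296, _⟩ => 328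
  | ⟨297, _⟩ => 329
  | ⟨298, _⟩ => 160
  | ⟨299, _⟩ => 330
  | ⟨300, _⟩ => 162
  | ⟨301, _⟩ => 332
  | ⟨302, _⟩ => 228
  | ⟨303, _⟩ => 299
  | ⟨304, _⟩ => 335
  | ⟨305, _⟩ => 284
  | ⟨306, _⟩ => 168
  | ⟨307, _⟩ => 265
  | ⟨308, _⟩ => 304
  | ⟨309, _⟩ => 337
  | ⟨310, _⟩ => 312
  | ⟨311, _⟩ => 233
  | ⟨312, _⟩ => 294
  | ⟨313, _⟩ => 341
  | ⟨314, _⟩ => 343
  | ⟨315, _⟩ => 319
  | ⟨316, _⟩ => 239
  | ⟨317, _⟩ => 342
  | ⟨318, _⟩ => 289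
  | ⟨319, _⟩ => 249
  | ⟨320, _⟩ => 347
  | ⟨321, _⟩ => 274
  | ⟨322, _⟩ => 348
  | ⟨323, _⟩ => 349
  | ⟨324, _⟩ => 196
  | ⟨325, _⟩ => 351
  | ⟨326, _⟩ => 323
  | ⟨327, _⟩ => 325
  | ⟨328, _⟩ => 334
  | ⟨329, _⟩ => 333
  | ⟨330, _⟩ => 261
  | ⟨331, _⟩ => 346
  | ⟨332, _⟩ => 307
  | ⟨333, _⟩ => 271
  | ⟨334, _⟩ => 253
  | ⟨335, _⟩ => 354
  | ⟨336, _⟩ => 355
  | ⟨337, _⟩ => 221
  | ⟨338, _⟩ => 350
  | ⟨339, _⟩ => 336
  | ⟨340, _⟩ => 338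
  | ⟨341, _⟩ => 321
  | ⟨342, _⟩ => 352
  | ⟨343, _⟩ => 287
  | ⟨344, _⟩ => 353
  | ⟨345, _⟩ => 317
  | ⟨346, _⟩ => 344
  | ⟨347, _⟩ => 305
  | ⟨348, _⟩ => 290
  | ⟨349, _⟩ => 358
  | ⟨350, _⟩ => 357
  | ⟨351, _⟩ => 359
  | ⟨352, _⟩ => 345
  | ⟨353, _⟩ => 331
  | ⟨354, _⟩ => 308
  | ⟨355, _⟩ => 356
  | ⟨356, _⟩ => 339
  | ⟨357, _⟩ => 340
  | ⟨358, _⟩ => 326
  | ⟨359, _⟩ => 327
  | ⟨n+360, h⟩ => absurd h (by omega)
def px_y : Fin 360 → Fin 360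
  | ⟨0, _⟩ => 10
  | ⟨1, _⟩ => 13
  | ⟨2, _⟩ => 0
  | ⟨3, _⟩ => 1
  | ⟨4, _⟩ => 24
  | ⟨5, _⟩ => 2
  | ⟨6, _⟩ => 30
  | ⟨7, _⟩ => 3
  | ⟨8, _⟩ => 4
  | ⟨9, _⟩ => 40
  | ⟨10, _⟩ => 5
  | ⟨11, _⟩ => 6
  | ⟨12, _⟩ => 49
  | ⟨13, _⟩ => 7
  | ⟨14, _⟩ => 53
  | ⟨15, _⟩ => 8
  | ⟨16, _⟩ => 9
  | ⟨17, _⟩ => 43
  | ⟨18, _⟩ => 64
  | ⟨19, _⟩ => 11
  | ⟨20, _⟩ => 12
  | ⟨21, _⟩ => 34
  | ⟨22, _⟩ => 14
  | ⟨23, _⟩ => 78
  | ⟨24, _⟩ => 15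
  | ⟨25, _⟩ => 82
  | ⟨26, _⟩ => 16
  | ⟨27, _⟩ => 17
  | ⟨28, _⟩ => 18
  | ⟨29, _⟩ => 92
  | ⟨30, _⟩ => 19
  | ⟨31, _⟩ => 96
  | ⟨32, _⟩ => 20
  | ⟨33, _⟩ => 21
  | ⟨34, _⟩ => 51
  | ⟨35, _⟩ => 22
  | ⟨36, _⟩ => 23
  | ⟨37, _⟩ => 57
  | ⟨38, _⟩ => 25
  | ⟨39, _⟩ => 70
  | ⟨40, _⟩ => 26
  | ⟨41, _⟩ => 117
  | ⟨42, _⟩ => 27
  | ⟨43, _⟩ => 42
  | ⟨44, _⟩ => 28
  | ⟨45, _⟩ => 29
  | ⟨46, _⟩ => 68
  | ⟨47, _⟩ => 31
  | ⟨48, _⟩ => 59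
  | ⟨49, _⟩ => 32
  | ⟨50, _⟩ => 134
  | ⟨51, _⟩ => 33
  | ⟨52, _⟩ => 138
  | ⟨53, _⟩ => 35
  | ⟨54, _⟩ => 142
  | ⟨55, _⟩ => 36
  | ⟨56, _⟩ => 37
  | ⟨57, _⟩ => 80
  | ⟨58, _⟩ => 38
  | ⟨59, _⟩ => 39
  | ⟨60, _⟩ => 85
  | ⟨61, _⟩ => 41
  | ⟨62, _⟩ => 107
  | ⟨63, _⟩ => 159
  | ⟨64, _⟩ => 44
  | ⟨65, _⟩ => 163
  | ⟨66, _⟩ => 45
  | ⟨67, _⟩ => 46
  | ⟨68, _⟩ => 94
  | ⟨69, _⟩ => 47
  | ⟨70, _⟩ => 48
  | ⟨71, _⟩ => 99
  | ⟨72, _⟩ => 50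
  | ⟨73, _⟩ => 124
  | ⟨74, _⟩ => 52
  | ⟨75, _⟩ => 105
  | ⟨76, _⟩ => 54
  | ⟨77, _⟩ => 87
  | ⟨78, _⟩ => 55
  | ⟨79, _⟩ => 189
  | ⟨80, _⟩ => 56
  | ⟨81, _⟩ => 193
  | ⟨82, _⟩ => 58
  | ⟨83, _⟩ => 197
  | ⟨84, _⟩ => 60
  | ⟨85, _⟩ => 115
  | ⟨86, _⟩ => 61
  | ⟨87, _⟩ => 62
  | ⟨88, _⟩ => 63
  | ⟨89, _⟩ => 122
  | ⟨90, _⟩ => 65
  | ⟨91, _⟩ => 101
  | ⟨92, _⟩ => 66
  | ⟨93, _⟩ => 214
  | ⟨94, _⟩ => 67
  | ⟨95, _⟩ => 218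
  | ⟨96, _⟩ => 69
  | ⟨97, _⟩ => 198
  | ⟨98, _⟩ => 71
  | ⟨99, _⟩ => 132
  | ⟨100, _⟩ => 72
  | ⟨101, _⟩ => 73
  | ⟨102, _⟩ => 229
  | ⟨103, _⟩ => 74
  | ⟨104, _⟩ => 75
  | ⟨105, _⟩ => 140
  | ⟨106, _⟩ => 76
  | ⟨107, _⟩ => 77
  | ⟨108, _⟩ => 145
  | ⟨109, _⟩ => 79
  | ⟨110, _⟩ => 179
  | ⟨111, _⟩ => 81
  | ⟨112, _⟩ => 151
  | ⟨113, _⟩ => 83
  | ⟨114, _⟩ => 248
  | ⟨115, _⟩ => 84
  | ⟨116, _⟩ => 251
  | ⟨117, _⟩ => 86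
  | ⟨118, _⟩ => 254
  | ⟨119, _⟩ => 237
  | ⟨120, _⟩ => 88
  | ⟨121, _⟩ => 89
  | ⟨122, _⟩ => 161
  | ⟨123, _⟩ => 90
  | ⟨124, _⟩ => 91
  | ⟨125, _⟩ => 165
  | ⟨126, _⟩ => 93
  | ⟨127, _⟩ => 206
  | ⟨128, _⟩ => 95
  | ⟨129, _⟩ => 171
  | ⟨130, _⟩ => 97
  | ⟨131, _⟩ => 270
  | ⟨132, _⟩ => 98
  | ⟨133, _⟩ => 232
  | ⟨134, _⟩ => 100
  | ⟨135, _⟩ => 275
  | ⟨136, _⟩ => 102
  | ⟨137, _⟩ => 147
  | ⟨138, _⟩ => 103
  | ⟨139, _⟩ => 278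
  | ⟨140, _⟩ => 104
  | ⟨141, _⟩ => 281
  | ⟨142, _⟩ => 106
  | ⟨143, _⟩ => 119
  | ⟨144, _⟩ => 108
  | ⟨145, _⟩ => 187
  | ⟨146, _⟩ => 109
  | ⟨147, _⟩ => 110
  | ⟨148, _⟩ => 288
  | ⟨149, _⟩ => 111
  | ⟨150, _⟩ => 112
  | ⟨151, _⟩ => 195
  | ⟨152, _⟩ => 113
  | ⟨153, _⟩ => 114
  | ⟨154, _⟩ => 242
  | ⟨155, _⟩ => 116
  | ⟨156, _⟩ => 204
  | ⟨157, _⟩ => 118
  | ⟨158, _⟩ => 167
  | ⟨159, _⟩ => 120
  | ⟨160, _⟩ => 298
  | ⟨161, _⟩ => 121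
  | ⟨162, _⟩ => 300
  | ⟨163, _⟩ => 123
  | ⟨164, _⟩ => 125
  | ⟨165, _⟩ => 212
  | ⟨166, _⟩ => 126
  | ⟨167, _⟩ => 127
  | ⟨168, _⟩ => 306
  | ⟨169, _⟩ => 128
  | ⟨170, _⟩ => 129
  | ⟨171, _⟩ => 220
  | ⟨172, _⟩ => 130
  | ⟨173, _⟩ => 131
  | ⟨174, _⟩ => 264
  | ⟨175, _⟩ => 133
  | ⟨176, _⟩ => 226
  | ⟨177, _⟩ => 135
  | ⟨178, _⟩ => 136
  | ⟨179, _⟩ => 137
  | ⟨180, _⟩ => 230
  | ⟨181, _⟩ => 139
  | ⟨182, _⟩ => 175
  | ⟨183, _⟩ => 141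
  | ⟨184, _⟩ => 236
  | ⟨185, _⟩ => 143
  | ⟨186, _⟩ => 260
  | ⟨187, _⟩ => 144
  | ⟨188, _⟩ => 215
  | ⟨189, _⟩ => 146
  | ⟨190, _⟩ => 267
  | ⟨191, _⟩ => 148
  | ⟨192, _⟩ => 200
  | ⟨193, _⟩ => 149
  | ⟨194, _⟩ => 207
  | ⟨195, _⟩ => 150
  | ⟨196, _⟩ => 324
  | ⟨197, _⟩ => 152
  | ⟨198, _⟩ => 172
  | ⟨199, _⟩ => 153
  | ⟨200, _⟩ => 154
  | ⟨201, _⟩ => 257
  | ⟨202, _⟩ => 155
  | ⟨203, _⟩ => 156
  | ⟨204, _⟩ => 252
  | ⟨205, _⟩ => 157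
  | ⟨206, _⟩ => 158
  | ⟨207, _⟩ => 255
  | ⟨208, _⟩ => 160
  | ⟨209, _⟩ => 162
  | ⟨210, _⟩ => 228
  | ⟨211, _⟩ => 238
  | ⟨212, _⟩ => 164
  | ⟨213, _⟩ => 190
  | ⟨214, _⟩ => 166
  | ⟨215, _⟩ => 245
  | ⟨216, _⟩ => 168
  | ⟨217, _⟩ => 223
  | ⟨218, _⟩ => 169
  | ⟨219, _⟩ => 180
  | ⟨220, _⟩ => 170
  | ⟨221, _⟩ => 337
  | ⟨222, _⟩ => 173
  | ⟨223, _⟩ => 174
  | ⟨224, _⟩ => 233
  | ⟨225, _⟩ => 176
  | ⟨226, _⟩ => 273
  | ⟨227, _⟩ => 177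
  | ⟨228, _⟩ => 302
  | ⟨229, _⟩ => 178
  | ⟨230, _⟩ => 266
  | ⟨231, _⟩ => 181
  | ⟨232, _⟩ => 182
  | ⟨233, _⟩ => 311
  | ⟨234, _⟩ => 183
  | ⟨235, _⟩ => 184
  | ⟨236, _⟩ => 283
  | ⟨237, _⟩ => 185
  | ⟨238, _⟩ => 186
  | ⟨239, _⟩ => 316
  | ⟨240, _⟩ => 188
  | ⟨241, _⟩ => 191
  | ⟨242, _⟩ => 192
  | ⟨243, _⟩ => 289
  | ⟨244, _⟩ => 194
  | ⟨245, _⟩ => 240
  | ⟨246, _⟩ => 196
  | ⟨247, _⟩ => 279
  | ⟨248, _⟩ => 199
  | ⟨249, _⟩ => 319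
  | ⟨250, _⟩ => 201
  | ⟨251, _⟩ => 202
  | ⟨252, _⟩ => 203
  | ⟨253, _⟩ => 334
  | ⟨254, _⟩ => 205
  | ⟨255, _⟩ => 244
  | ⟨256, _⟩ => 208
  | ⟨257, _⟩ => 293
  | ⟨258, _⟩ => 209
  | ⟨259, _⟩ => 210
  | ⟨260, _⟩ => 211
  | ⟨261, _⟩ => 330
  | ⟨262, _⟩ => 213
  | ⟨263, _⟩ => 216
  | ⟨264, _⟩ => 217
  | ⟨265, _⟩ => 307
  | ⟨266, _⟩ => 219
  | ⟨267, _⟩ => 262
  | ⟨268, _⟩ => 221
  | ⟨269, _⟩ => 294
  | ⟨270, _⟩ => 222
  | ⟨271, _⟩ => 333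
  | ⟨272, _⟩ => 224
  | ⟨273, _⟩ => 225
  | ⟨274, _⟩ => 321
  | ⟨275, _⟩ => 227
  | ⟨276, _⟩ => 287
  | ⟨277, _⟩ => 249
  | ⟨278, _⟩ => 231
  | ⟨279, _⟩ => 295
  | ⟨280, _⟩ => 285
  | ⟨281, _⟩ => 234
  | ⟨282, _⟩ => 243
  | ⟨283, _⟩ => 235
  | ⟨284, _⟩ => 305
  | ⟨285, _⟩ => 239
  | ⟨286, _⟩ => 290
  | ⟨287, _⟩ => 343
  | ⟨288, _⟩ => 241
  | ⟨289, _⟩ => 318
  | ⟨290, _⟩ => 348
  | ⟨291, _⟩ => 246
  | ⟨292, _⟩ => 247
  | ⟨293, _⟩ => 250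
  | ⟨294, _⟩ => 312
  | ⟨295, _⟩ => 292
  | ⟨296, _⟩ => 253
  | ⟨297, _⟩ => 271
  | ⟨298, _⟩ => 256
  | ⟨299, _⟩ => 303
  | ⟨300, _⟩ => 258
  | ⟨301, _⟩ => 265
  | ⟨302, _⟩ => 259
  | ⟨303, _⟩ => 261
  | ⟨304, _⟩ => 308
  | ⟨305, _⟩ => 347
  | ⟨306, _⟩ => 263
  | ⟨307, _⟩ => 332
  | ⟨308, _⟩ => 354
  | ⟨309, _⟩ => 268
  | ⟨310, _⟩ => 269
  | ⟨311, _⟩ => 272
  | ⟨312, _⟩ => 310
  | ⟨313, _⟩ => 274
  | ⟨314, _⟩ => 276
  | ⟨315, _⟩ => 277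
  | ⟨316, _⟩ => 280
  | ⟨317, _⟩ => 345
  | ⟨318, _⟩ => 282
  | ⟨319, _⟩ => 315
  | ⟨320, _⟩ => 284
  | ⟨321, _⟩ => 341
  | ⟨322, _⟩ => 286
  | ⟨323, _⟩ => 326
  | ⟨324, _⟩ => 291
  | ⟨325, _⟩ => 327
  | ⟨326, _⟩ => 358
  | ⟨327, _⟩ => 359
  | ⟨328, _⟩ => 296
  | ⟨329, _⟩ => 297
  | ⟨330, _⟩ => 299
  | ⟨331, _⟩ => 353
  | ⟨332, _⟩ => 301
  | ⟨333, _⟩ => 329
  | ⟨334, _⟩ => 328
  | ⟨335, _⟩ => 304
  | ⟨336, _⟩ => 339
  | ⟨337, _⟩ => 309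
  | ⟨338, _⟩ => 340
  | ⟨339, _⟩ => 356
  | ⟨340, _⟩ => 357
  | ⟨341, _⟩ => 313
  | ⟨342, _⟩ => 317
  | ⟨343, _⟩ => 314
  | ⟨344, _⟩ => 346
  | ⟨345, _⟩ => 352
  | ⟨346, _⟩ => 331
  | ⟨347, _⟩ => 320
  | ⟨348, _⟩ => 322
  | ⟨349, _⟩ => 323
  | ⟨350, _⟩ => 338
  | ⟨351, _⟩ => 325
  | ⟨352, _⟩ => 342
  | ⟨353, _⟩ => 344
  | ⟨354, _⟩ => 335
  | ⟨355, _⟩ => 336
  | ⟨356, _⟩ => 355
  | ⟨357, _⟩ => 350
  | ⟨358, _⟩ => 349
  | ⟨359, _⟩ => 351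
  | ⟨n+360, h⟩ => absurd h (by omega)
theorem closed_y : ∀ i : Fin 360, rep i * y = rep (nx_y i)
  | ⟨0, _⟩ => e_0_y
  | ⟨1, _⟩ => e_1_y
  | ⟨2, _⟩ => e_2_y
  | ⟨3, _⟩ => e_3_y
  | ⟨4, _⟩ => e_4_y
  | ⟨5, _⟩ => e_5_y
  | ⟨6, _⟩ => e_6_y
  | ⟨7, _⟩ => e_7_y
  | ⟨8, _⟩ => e_8_y
  | ⟨9, _⟩ => e_9_y
  | ⟨10, _⟩ => e_10_y
  | ⟨11, _⟩ => e_11_y
  | ⟨12, _⟩ => e_12_y
  | ⟨13, _⟩ => e_13_y
  | ⟨14, _⟩ => e_14_y
  | ⟨15, _⟩ => e_15_y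
  | ⟨16, _⟩ => e_16_y
  | ⟨17, _⟩ => e_17_y
  | ⟨18, _⟩ => e_18_y
  | ⟨19, _⟩ => e_19_y
  | ⟨20, _⟩ => e_20_y
  | ⟨21, _⟩ => e_21_y
  | ⟨22, _⟩ => e_22_y
  | ⟨23, _⟩ => e_23_y
  | ⟨24, _⟩ => e_24_y
  | ⟨25, _⟩ => e_25_y
  | ⟨26, _⟩ => e_26_y
  | ⟨27, _⟩ => e_27_y
  | ⟨28, _⟩ => e_28_y
  | ⟨29, _⟩ => e_29_y
  | ⟨30, _⟩ => e_30_y
  | ⟨31, _⟩ => e_31_y
  | ⟨32, _⟩ => e_32_y
  | ⟨33, _⟩ => e_33_y
  | ⟨34, _⟩ => e_34_y
  | ⟨35, _⟩ => e_35_y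
  | ⟨36, _⟩ => e_36_y
  | ⟨37, _⟩ => e_37_y
  | ⟨38, _⟩ => e_38_y
  | ⟨39, _⟩ => e_39_y
  | ⟨40, _⟩ => e_40_y
  | ⟨41, _⟩ => e_41_y
  | ⟨42, _⟩ => e_42_y
  | ⟨43, _⟩ => e_43_y
  | ⟨44, _⟩ => e_44_y
  | ⟨45, _⟩ => e_45_y
  | ⟨46, _⟩ => e_46_y
  | ⟨47, _⟩ => e_47_y
  | ⟨48, _⟩ => e_48_y
  | ⟨49, _⟩ => e_49_y
  | ⟨50, _⟩ => e_50_y
  | ⟨51, _⟩ => e_51_y
  | ⟨52, _⟩ => e_52_y
  | ⟨53, _⟩ => e_53_y
  | ⟨54, _⟩ => e_54_y
  | ⟨55, _⟩ => e_55_y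
  | ⟨56, _⟩ => e_56_y
  | ⟨57, _⟩ => e_57_y
  | ⟨58, _⟩ => e_58_y
  | ⟨59, _⟩ => e_59_y
  | ⟨60, _⟩ => e_60_y
  | ⟨61, _⟩ => e_61_y
  | ⟨62, _⟩ => e_62_y
  | ⟨63, _⟩ => e_63_y
  | ⟨64, _⟩ => e_64_y
  | ⟨65, _⟩ => e_65_y
  | ⟨66, _⟩ => e_66_y
  | ⟨67, _⟩ => e_67_y
  | ⟨68, _⟩ => e_68_y
  | ⟨69, _⟩ => e_69_y
  | ⟨70, _⟩ => e_70_y
  | ⟨71, _⟩ => e_71_y
  | ⟨72, _⟩ => e_72_y
  | ⟨73, _⟩ => e_73_y
  | ⟨74, _⟩ => e_74_y
  | ⟨75, _⟩ => e_75_y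
  | ⟨76, _⟩ => e_76_y
  | ⟨77, _⟩ => e_77_y
  | ⟨78, _⟩ => e_78_y
  | ⟨79, _⟩ => e_79_y
  | ⟨80, _⟩ => e_80_y
  | ⟨81, _⟩ => e_81_y
  | ⟨82, _⟩ => e_82_y
  | ⟨83, _⟩ => e_83_y
  | ⟨84, _⟩ => e_84_y
  | ⟨85, _⟩ => e_85_y
  | ⟨86, _⟩ => e_86_y
  | ⟨87, _⟩ => e_87_y
  | ⟨88, _⟩ => e_88_y
  | ⟨89, _⟩ => e_89_y
  | ⟨90, _⟩ => e_90_y
  | ⟨91, _⟩ => e_91_y
  | ⟨92, _⟩ => e_92_y
  | ⟨93, _⟩ => e_93_y
  | ⟨94, _⟩ => e_94_y
  | ⟨95, _⟩ => e_95_y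
  | ⟨96, _⟩ => e_96_y
  | ⟨97, _⟩ => e_97_y
  | ⟨98, _⟩ => e_98_y
  | ⟨99, _⟩ => e_99_y
  | ⟨100, _⟩ => e_100_y
  | ⟨101, _⟩ => e_101_y
  | ⟨102, _⟩ => e_102_y
  | ⟨103, _⟩ => e_103_y
  | ⟨104, _⟩ => e_104_y
  | ⟨105, _⟩ => e_105_y
  | ⟨106, _⟩ => e_106_y
  | ⟨107, _⟩ => e_107_y
  | ⟨108, _⟩ => e_108_y
  | ⟨109, _⟩ => e_109_y
  | ⟨110, _⟩ => e_110_y
  | ⟨111, _⟩ => e_111_y
  | ⟨112, _⟩ => e_112_y
  | ⟨113, _⟩ => e_113_y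
  | ⟨114, _⟩ => e_114_y
  | ⟨115, _⟩ => e_115_y
  | ⟨116, _⟩ => e_116_y
  | ⟨117, _⟩ => e_117_y
  | ⟨118, _⟩ => e_118_y
  | ⟨119, _⟩ => e_119_y
  | ⟨120, _⟩ => e_120_y
  | ⟨121, _⟩ => e_121_y
  | ⟨122, _⟩ => e_122_y
  | ⟨123, _⟩ => e_123_y
  | ⟨124, _⟩ => e_124_y
  | ⟨125, _⟩ => e_125_y
  | ⟨126, _⟩ => e_126_y
  | ⟨127, _⟩ => e_127_y
  | ⟨128, _⟩ => e_128_y
  | ⟨129, _⟩ => e_129_y
  | ⟨130, _⟩ => e_130_y
  | ⟨131, _⟩ => e_131_y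
  | ⟨132, _⟩ => e_132_y
  | ⟨133, _⟩ => e_133_y
  | ⟨134, _⟩ => e_134_y
  | ⟨135, _⟩ => e_135_y
  | ⟨136, _⟩ => e_136_y
  | ⟨137, _⟩ => e_137_y
  | ⟨138, _⟩ => e_138_y
  | ⟨139, _⟩ => e_139_y
  | ⟨140, _⟩ => e_140_y
  | ⟨141, _⟩ => e_141_y
  | ⟨142, _⟩ => e_142_y
  | ⟨143, _⟩ => e_143_y
  | ⟨144, _⟩ => e_144_y
  | ⟨145, _⟩ => e_145_y
  | ⟨146, _⟩ => e_146_y
  | ⟨147, _⟩ => e_147_y
  | ⟨148, _⟩ => e_148_y
  | ⟨149, _⟩ => e_149_y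
  | ⟨150, _⟩ => e_150_y
  | ⟨151, _⟩ => e_151_y
  | ⟨152, _⟩ => e_152_y
  | ⟨153, _⟩ => e_153_y
  | ⟨154, _⟩ => e_154_y
  | ⟨155, _⟩ => e_155_y
  | ⟨156, _⟩ => e_156_y
  | ⟨157, _⟩ => e_157_y
  | ⟨158, _⟩ => e_158_y
  | ⟨159, _⟩ => e_159_y
  | ⟨160, _⟩ => e_160_y
  | ⟨161, _⟩ => e_161_y
  | ⟨162, _⟩ => e_162_y
  | ⟨163, _⟩ => e_163_y
  | ⟨164, _⟩ => e_164_y
  | ⟨165, _⟩ => e_165_y
  | ⟨166, _⟩ => e_166_y
  | ⟨167, _⟩ => e_167_y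
  | ⟨168, _⟩ => e_168_y
  | ⟨169, _⟩ => e_169_y
  | ⟨170, _⟩ => e_170_y
  | ⟨171, _⟩ => e_171_y
  | ⟨172, _⟩ => e_172_y
  | ⟨173, _⟩ => e_173_y
  | ⟨174, _⟩ => e_174_y
  | ⟨175, _⟩ => e_175_y
  | ⟨176, _⟩ => e_176_y
  | ⟨177, _⟩ => e_177_y
  | ⟨178, _⟩ => e_178_y
  | ⟨179, _⟩ => e_179_y
  | ⟨180, _⟩ => e_180_y
  | ⟨181, _⟩ => e_181_y
  | ⟨182, _⟩ => e_182_y
  | ⟨183, _⟩ => e_183_y
  | ⟨184, _⟩ => e_184_y
  | ⟨185, _⟩ => e_185_y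
  | ⟨186, _⟩ => e_186_y
  | ⟨187, _⟩ => e_187_y
  | ⟨188, _⟩ => e_188_y
  | ⟨189, _⟩ => e_189_y
  | ⟨190, _⟩ => e_190_y
  | ⟨191, _⟩ => e_191_y
  | ⟨192, _⟩ => e_192_y
  | ⟨193, _⟩ => e_193_y
  | ⟨194, _⟩ => e_194_y
  | ⟨195, _⟩ => e_195_y
  | ⟨196, _⟩ => e_196_y
  | ⟨197, _⟩ => e_197_y
  | ⟨198, _⟩ => e_198_y
  | ⟨199, _⟩ => e_199_y
  | ⟨200, _⟩ => e_200_y
  | ⟨201, _⟩ => e_201_y
  | ⟨202, _⟩ => e_202_y
  | ⟨203, _⟩ => e_203_y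
  | ⟨204, _⟩ => e_204_y
  | ⟨205, _⟩ => e_205_y
  | ⟨206, _⟩ => e_206_y
  | ⟨207, _⟩ => e_207_y
  | ⟨208, _⟩ => e_208_y
  | ⟨209, _⟩ => e_209_y
  | ⟨210, _⟩ => e_210_y
  | ⟨211, _⟩ => e_211_y
  | ⟨212, _⟩ => e_212_y
  | ⟨213, _⟩ => e_213_y
  | ⟨214, _⟩ => e_214_y
  | ⟨215, _⟩ => e_215_y
  | ⟨216, _⟩ => e_216_y
  | ⟨217, _⟩ => e_217_y
  | ⟨218, _⟩ => e_218_y
  | ⟨219, _⟩ => e_219_y
  | ⟨220, _⟩ => e_220_y
  | ⟨221, _⟩ => e_221_y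
  | ⟨222, _⟩ => e_222_y
  | ⟨223, _⟩ => e_223_y
  | ⟨224, _⟩ => e_224_y
  | ⟨225, _⟩ => e_225_y
  | ⟨226, _⟩ => e_226_y
  | ⟨227, _⟩ => e_227_y
  | ⟨228, _⟩ => e_228_y
  | ⟨229, _⟩ => e_229_y
  | ⟨230, _⟩ => e_230_y
  | ⟨231, _⟩ => e_231_y
  | ⟨232, _⟩ => e_232_y
  | ⟨233, _⟩ => e_233_y
  | ⟨234, _⟩ => e_234_y
  | ⟨235, _⟩ => e_235_y
  | ⟨236, _⟩ => e_236_y
  | ⟨237, _⟩ => e_237_y
  | ⟨238, _⟩ => e_238_y
  | ⟨239, _⟩ => e_239_y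
  | ⟨240, _⟩ => e_240_y
  | ⟨241, _⟩ => e_241_y
  | ⟨242, _⟩ => e_242_y
  | ⟨243, _⟩ => e_243_y
  | ⟨244, _⟩ => e_244_y
  | ⟨245, _⟩ => e_245_y
  | ⟨246, _⟩ => e_246_y
  | ⟨247, _⟩ => e_247_y
  | ⟨248, _⟩ => e_248_y
  | ⟨249, _⟩ => e_249_y
  | ⟨250, _⟩ => e_250_y
  | ⟨251, _⟩ => e_251_y
  | ⟨252, _⟩ => e_252_y
  | ⟨253, _⟩ => e_253_y
  | ⟨254, _⟩ => e_254_y
  | ⟨255, _⟩ => e_255_y
  | ⟨256, _⟩ => e_256_y
  | ⟨257, _⟩ => e_257_y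
  | ⟨258, _⟩ => e_258_y
  | ⟨259, _⟩ => e_259_y
  | ⟨260, _⟩ => e_260_y
  | ⟨261, _⟩ => e_261_y
  | ⟨262, _⟩ => e_262_y
  | ⟨263, _⟩ => e_263_y
  | ⟨264, _⟩ => e_264_y
  | ⟨265, _⟩ => e_265_y
  | ⟨266, _⟩ => e_266_y
  | ⟨267, _⟩ => e_267_y
  | ⟨268, _⟩ => e_268_y
  | ⟨269, _⟩ => e_269_y
  | ⟨270, _⟩ => e_270_y
  | ⟨271, _⟩ => e_271_y
  | ⟨272, _⟩ => e_272_y
  | ⟨273, _⟩ => e_273_y
  | ⟨274, _⟩ => e_274_y
  | ⟨275, _⟩ => e_275_y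
  | ⟨276, _⟩ => e_276_y
  | ⟨277, _⟩ => e_277_y
  | ⟨278, _⟩ => e_278_y
  | ⟨279, _⟩ => e_279_y
  | ⟨280, _⟩ => e_280_y
  | ⟨281, _⟩ => e_281_y
  | ⟨282, _⟩ => e_282_y
  | ⟨283, _⟩ => e_283_y
  | ⟨284, _⟩ => e_284_y
  | ⟨285, _⟩ => e_285_y
  | ⟨286, _⟩ => e_286_y
  | ⟨287, _⟩ => e_287_y
  | ⟨288, _⟩ => e_288_y
  | ⟨289, _⟩ => e_289_y
  | ⟨290, _⟩ => e_290_y
  | ⟨291, _⟩ => e_291_y
  | ⟨292, _⟩ => e_292_y
  | ⟨293, _⟩ => e_293_y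
  | ⟨294, _⟩ => e_294_y
  | ⟨295, _⟩ => e_295_y
  | ⟨296, _⟩ => e_296_y
  | ⟨297, _⟩ => e_297_y
  | ⟨298, _⟩ => e_298_y
  | ⟨299, _⟩ => e_299_y
  | ⟨300, _⟩ => e_300_y
  | ⟨301, _⟩ => e_301_y
  | ⟨302, _⟩ => e_302_y
  | ⟨303, _⟩ => e_303_y
  | ⟨304, _⟩ => e_304_y
  | ⟨305, _⟩ => e_305_y
  | ⟨306, _⟩ => e_306_y
  | ⟨307, _⟩ => e_307_y
  | ⟨308, _⟩ => e_308_y
  | ⟨309, _⟩ => e_309_y
  | ⟨310, _⟩ => e_310_y
  | ⟨311, _⟩ => e_311_y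
  | ⟨312, _⟩ => e_312_y
  | ⟨313, _⟩ => e_313_y
  | ⟨314, _⟩ => e_314_y
  | ⟨315, _⟩ => e_315_y
  | ⟨316, _⟩ => e_316_y
  | ⟨317, _⟩ => e_317_y
  | ⟨318, _⟩ => e_318_y
  | ⟨319, _⟩ => e_319_y
  | ⟨320, _⟩ => e_320_y
  | ⟨321, _⟩ => e_321_y
  | ⟨322, _⟩ => e_322_y
  | ⟨323, _⟩ => e_323_y
  | ⟨324, _⟩ => e_324_y
  | ⟨325, _⟩ => e_325_y
  | ⟨326, _⟩ => e_326_y
  | ⟨327, _⟩ => e_327_y
  | ⟨328, _⟩ => e_328_y
  | ⟨329, _⟩ => e_329_y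
  | ⟨330, _⟩ => e_330_y
  | ⟨331, _⟩ => e_331_y
  | ⟨332, _⟩ => e_332_y
  | ⟨333, _⟩ => e_333_y
  | ⟨334, _⟩ => e_334_y
  | ⟨335, _⟩ => e_335_y
  | ⟨336, _⟩ => e_336_y
  | ⟨337, _⟩ => e_337_y
  | ⟨338, _⟩ => e_338_y
  | ⟨339, _⟩ => e_339_y
  | ⟨340, _⟩ => e_340_y
  | ⟨341, _⟩ => e_341_y
  | ⟨342, _⟩ => e_342_y
  | ⟨343, _⟩ => e_343_y
  | ⟨344, _⟩ => e_344_y
  | ⟨345, _⟩ => e_345_y
  | ⟨346, _⟩ => e_346_y
  | ⟨347, _⟩ => e_347_y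
  | ⟨348, _⟩ => e_348_y
  | ⟨349, _⟩ => e_349_y
  | ⟨350, _⟩ => e_350_y
  | ⟨351, _⟩ => e_351_y
  | ⟨352, _⟩ => e_352_y
  | ⟨353, _⟩ => e_353_y
  | ⟨354, _⟩ => e_354_y
  | ⟨355, _⟩ => e_355_y
  | ⟨356, _⟩ => e_356_y
  | ⟨357, _⟩ => e_357_y
  | ⟨358, _⟩ => e_358_y
  | ⟨359, _⟩ => e_359_y
  | ⟨n+360, h⟩ => absurd h (by omega)
theorem pre_y : ∀ i : Fin 360, rep (px_y i) * y = rep i
  | ⟨0, _⟩ => e_10_y
  | ⟨1, _⟩ => e_13_y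
  | ⟨2, _⟩ => e_0_y
  | ⟨3, _⟩ => e_1_y
  | ⟨4, _⟩ => e_24_y
  | ⟨5, _⟩ => e_2_y
  | ⟨6, _⟩ => e_30_y
  | ⟨7, _⟩ => e_3_y
  | ⟨8, _⟩ => e_4_y
  | ⟨9, _⟩ => e_40_y
  | ⟨10, _⟩ => e_5_y
  | ⟨11, _⟩ => e_6_y
  | ⟨12, _⟩ => e_49_y
  | ⟨13, _⟩ => e_7_y
  | ⟨14, _⟩ => e_53_y
  | ⟨15, _⟩ => e_8_y
  | ⟨16, _⟩ => e_9_y
  | ⟨17, _⟩ => e_43_y
  | ⟨18, _⟩ => e_64_y
  | ⟨19, _⟩ => e_11_y
  | ⟨20, _⟩ => e_12_y
  | ⟨21, _⟩ => e_34_y
  | ⟨22, _⟩ => e_14_y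
  | ⟨23, _⟩ => e_78_y
  | ⟨24, _⟩ => e_15_y
  | ⟨25, _⟩ => e_82_y
  | ⟨26, _⟩ => e_16_y
  | ⟨27, _⟩ => e_17_y
  | ⟨28, _⟩ => e_18_y
  | ⟨29, _⟩ => e_92_y
  | ⟨30, _⟩ => e_19_y
  | ⟨31, _⟩ => e_96_y
  | ⟨32, _⟩ => e_20_y
  | ⟨33, _⟩ => e_21_y
  | ⟨34, _⟩ => e_51_y
  | ⟨35, _⟩ => e_22_y
  | ⟨36, _⟩ => e_23_y
  | ⟨37, _⟩ => e_57_y
  | ⟨38, _⟩ => e_25_y
  | ⟨39, _⟩ => e_70_y
  | ⟨40, _⟩ => e_26_y
  | ⟨41, _⟩ => e_117_y
  | ⟨42, _⟩ => e_27_y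
  | ⟨43, _⟩ => e_42_y
  | ⟨44, _⟩ => e_28_y
  | ⟨45, _⟩ => e_29_y
  | ⟨46, _⟩ => e_68_y
  | ⟨47, _⟩ => e_31_y
  | ⟨48, _⟩ => e_59_y
  | ⟨49, _⟩ => e_32_y
  | ⟨50, _⟩ => e_134_y
  | ⟨51, _⟩ => e_33_y
  | ⟨52, _⟩ => e_138_y
  | ⟨53, _⟩ => e_35_y
  | ⟨54, _⟩ => e_142_y
  | ⟨55, _⟩ => e_36_y
  | ⟨56, _⟩ => e_37_y
  | ⟨57, _⟩ => e_80_y
  | ⟨58, _⟩ => e_38_y
  | ⟨59, _⟩ => e_39_y
  | ⟨60, _⟩ => e_85_y
  | ⟨61, _⟩ => e_41_y
  | ⟨62, _⟩ => e_107_y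
  | ⟨63, _⟩ => e_159_y
  | ⟨64, _⟩ => e_44_y
  | ⟨65, _⟩ => e_163_y
  | ⟨66, _⟩ => e_45_y
  | ⟨67, _⟩ => e_46_y
  | ⟨68, _⟩ => e_94_y
  | ⟨69, _⟩ => e_47_y
  | ⟨70, _⟩ => e_48_y
  | ⟨71, _⟩ => e_99_y
  | ⟨72, _⟩ => e_50_y
  | ⟨73, _⟩ => e_124_y
  | ⟨74, _⟩ => e_52_y
  | ⟨75, _⟩ => e_105_y
  | ⟨76, _⟩ => e_54_y
  | ⟨77, _⟩ => e_87_y
  | ⟨78, _⟩ => e_55_y
  | ⟨79, _⟩ => e_189_y
  | ⟨80, _⟩ => e_56_y
  | ⟨81, _⟩ => e_193_y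
  | ⟨82, _⟩ => e_58_y
  | ⟨83, _⟩ => e_197_y
  | ⟨84, _⟩ => e_60_y
  | ⟨85, _⟩ => e_115_y
  | ⟨86, _⟩ => e_61_y
  | ⟨87, _⟩ => e_62_y
  | ⟨88, _⟩ => e_63_y
  | ⟨89, _⟩ => e_122_y
  | ⟨90, _⟩ => e_65_y
  | ⟨91, _⟩ => e_101_y
  | ⟨92, _⟩ => e_66_y
  | ⟨93, _⟩ => e_214_y
  | ⟨94, _⟩ => e_67_y
  | ⟨95, _⟩ => e_218_y
  | ⟨96, _⟩ => e_69_y
  | ⟨97, _⟩ => e_198_y
  | ⟨98, _⟩ => e_71_y
  | ⟨99, _⟩ => e_132_y
  | ⟨100, _⟩ => e_72_y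
  | ⟨101, _⟩ => e_73_y
  | ⟨102, _⟩ => e_229_y
  | ⟨103, _⟩ => e_74_y
  | ⟨104, _⟩ => e_75_y
  | ⟨105, _⟩ => e_140_y
  | ⟨106, _⟩ => e_76_y
  | ⟨107, _⟩ => e_77_y
  | ⟨108, _⟩ => e_145_y
  | ⟨109, _⟩ => e_79_y
  | ⟨110, _⟩ => e_179_y
  | ⟨111, _⟩ => e_81_y
  | ⟨112, _⟩ => e_151_y
  | ⟨113, _⟩ => e_83_y
  | ⟨114, _⟩ => e_248_y
  | ⟨115, _⟩ => e_84_y
  | ⟨116, _⟩ => e_251_y
  | ⟨117, _⟩ => e_86_y
  | ⟨118, _⟩ => e_254_y
  | ⟨119, _⟩ => e_237_y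
  | ⟨120, _⟩ => e_88_y
  | ⟨121, _⟩ => e_89_y
  | ⟨122, _⟩ => e_161_y
  | ⟨123, _⟩ => e_90_y
  | ⟨124, _⟩ => e_91_y
  | ⟨125, _⟩ => e_165_y
  | ⟨126, _⟩ => e_93_y
  | ⟨127, _⟩ => e_206_y
  | ⟨128, _⟩ => e_95_y
  | ⟨129, _⟩ => e_171_y
  | ⟨130, _⟩ => e_97_y
  | ⟨131, _⟩ => e_270_y
  | ⟨132, _⟩ => e_98_y
  | ⟨133, _⟩ => e_232_y
  | ⟨134, _⟩ => e_100_y
  | ⟨135, _⟩ => e_275_y
  | ⟨136, _⟩ => e_102_y
  | ⟨137, _⟩ => e_147_y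
  | ⟨138, _⟩ => e_103_y
  | ⟨139, _⟩ => e_278_y
  | ⟨140, _⟩ => e_104_y
  | ⟨141, _⟩ => e_281_y
  | ⟨142, _⟩ => e_106_y
  | ⟨143, _⟩ => e_119_y
  | ⟨144, _⟩ => e_108_y
  | ⟨145, _⟩ => e_187_y
  | ⟨146, _⟩ => e_109_y
  | ⟨147, _⟩ => e_110_y
  | ⟨148, _⟩ => e_288_y
  | ⟨149, _⟩ => e_111_y
  | ⟨150, _⟩ => e_112_y
  | ⟨151, _⟩ => e_195_y
  | ⟨152, _⟩ => e_113_y
  | ⟨153, _⟩ => e_114_y
  | ⟨154, _⟩ => e_242_y
  | ⟨155, _⟩ => e_116_y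
  | ⟨156, _⟩ => e_204_y
  | ⟨157, _⟩ => e_118_y
  | ⟨158, _⟩ => e_167_y
  | ⟨159, _⟩ => e_120_y
  | ⟨160, _⟩ => e_298_y
  | ⟨161, _⟩ => e_121_y
  | ⟨162, _⟩ => e_300_y
  | ⟨163, _⟩ => e_123_y
  | ⟨164, _⟩ => e_125_y
  | ⟨165, _⟩ => e_212_y
  | ⟨166, _⟩ => e_126_y
  | ⟨167, _⟩ => e_127_y
  | ⟨168, _⟩ => e_306_y
  | ⟨169, _⟩ => e_128_y
  | ⟨170, _⟩ => e_129_y
  | ⟨171, _⟩ => e_220_y
  | ⟨172, _⟩ => e_130_y
  | ⟨173, _⟩ => e_131_y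
  | ⟨174, _⟩ => e_264_y
  | ⟨175, _⟩ => e_133_y
  | ⟨176, _⟩ => e_226_y
  | ⟨177, _⟩ => e_135_y
  | ⟨178, _⟩ => e_136_y
  | ⟨179, _⟩ => e_137_y
  | ⟨180, _⟩ => e_230_y
  | ⟨181, _⟩ => e_139_y
  | ⟨182, _⟩ => e_175_y
  | ⟨183, _⟩ => e_141_y
  | ⟨184, _⟩ => e_236_y
  | ⟨185, _⟩ => e_143_y
  | ⟨186, _⟩ => e_260_y
  | ⟨187, _⟩ => e_144_y
  | ⟨188, _⟩ => e_215_y
  | ⟨189, _⟩ => e_146_y
  | ⟨190, _⟩ => e_267_y
  | ⟨191, _⟩ => e_148_y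
  | ⟨192, _⟩ => e_200_y
  | ⟨193, _⟩ => e_149_y
  | ⟨194, _⟩ => e_207_y
  | ⟨195, _⟩ => e_150_y
  | ⟨196, _⟩ => e_324_y
  | ⟨197, _⟩ => e_152_y
  | ⟨198, _⟩ => e_172_y
  | ⟨199, _⟩ => e_153_y
  | ⟨200, _⟩ => e_154_y
  | ⟨201, _⟩ => e_257_y
  | ⟨202, _⟩ => e_155_y
  | ⟨203, _⟩ => e_156_y
  | ⟨204, _⟩ => e_252_y
  | ⟨205, _⟩ => e_157_y
  | ⟨206, _⟩ => e_158_y
  | ⟨207, _⟩ => e_255_y
  | ⟨208, _⟩ => e_160_y
  | ⟨209, _⟩ => e_162_y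
  | ⟨210, _⟩ => e_228_y
  | ⟨211, _⟩ => e_238_y
  | ⟨212, _⟩ => e_164_y
  | ⟨213, _⟩ => e_190_y
  | ⟨214, _⟩ => e_166_y
  | ⟨215, _⟩ => e_245_y
  | ⟨216, _⟩ => e_168_y
  | ⟨217, _⟩ => e_223_y
  | ⟨218, _⟩ => e_169_y
  | ⟨219, _⟩ => e_180_y
  | ⟨220, _⟩ => e_170_y
  | ⟨221, _⟩ => e_337_y
  | ⟨222, _⟩ => e_173_y
  | ⟨223, _⟩ => e_174_y
  | ⟨224, _⟩ => e_233_y
  | ⟨225, _⟩ => e_176_y
  | ⟨226, _⟩ => e_273_y
  | ⟨227, _⟩ => e_177_y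
  | ⟨228, _⟩ => e_302_y
  | ⟨229, _⟩ => e_178_y
  | ⟨230, _⟩ => e_266_y
  | ⟨231, _⟩ => e_181_y
  | ⟨232, _⟩ => e_182_y
  | ⟨233, _⟩ => e_311_y
  | ⟨234, _⟩ => e_183_y
  | ⟨235, _⟩ => e_184_y
  | ⟨236, _⟩ => e_283_y
  | ⟨237, _⟩ => e_185_y
  | ⟨238, _⟩ => e_186_y
  | ⟨239, _⟩ => e_316_y
  | ⟨240, _⟩ => e_188_y
  | ⟨241, _⟩ => e_191_y
  | ⟨242, _⟩ => e_192_y
  | ⟨243, _⟩ => e_289_y
  | ⟨244, _⟩ => e_194_y
  | ⟨245, _⟩ => e_240_y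
  | ⟨246, _⟩ => e_196_y
  | ⟨247, _⟩ => e_279_y
  | ⟨248, _⟩ => e_199_y
  | ⟨249, _⟩ => e_319_y
  | ⟨250, _⟩ => e_201_y
  | ⟨251, _⟩ => e_202_y
  | ⟨252, _⟩ => e_203_y
  | ⟨253, _⟩ => e_334_y
  | ⟨254, _⟩ => e_205_y
  | ⟨255, _⟩ => e_244_y
  | ⟨256, _⟩ => e_208_y
  | ⟨257, _⟩ => e_293_y
  | ⟨258, _⟩ => e_209_y
  | ⟨259, _⟩ => e_210_y
  | ⟨260, _⟩ => e_211_y
  | ⟨261, _⟩ => e_330_y
  | ⟨262, _⟩ => e_213_y
  | ⟨263, _⟩ => e_216_y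
  | ⟨264, _⟩ => e_217_y
  | ⟨265, _⟩ => e_307_y
  | ⟨266, _⟩ => e_219_y
  | ⟨267, _⟩ => e_262_y
  | ⟨268, _⟩ => e_221_y
  | ⟨269, _⟩ => e_294_y
  | ⟨270, _⟩ => e_222_y
  | ⟨271, _⟩ => e_333_y
  | ⟨272, _⟩ => e_224_y
  | ⟨273, _⟩ => e_225_y
  | ⟨274, _⟩ => e_321_y
  | ⟨275, _⟩ => e_227_y
  | ⟨276, _⟩ => e_287_y
  | ⟨277, _⟩ => e_249_y
  | ⟨278, _⟩ => e_231_y
  | ⟨279, _⟩ => e_295_y
  | ⟨280, _⟩ => e_285_y
  | ⟨281, _⟩ => e_234_y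
  | ⟨282, _⟩ => e_243_y
  | ⟨283, _⟩ => e_235_y
  | ⟨284, _⟩ => e_305_y
  | ⟨285, _⟩ => e_239_y
  | ⟨286, _⟩ => e_290_y
  | ⟨287, _⟩ => e_343_y
  | ⟨288, _⟩ => e_241_y
  | ⟨289, _⟩ => e_318_y
  | ⟨290, _⟩ => e_348_y
  | ⟨291, _⟩ => e_246_y
  | ⟨292, _⟩ => e_247_y
  | ⟨293, _⟩ => e_250_y
  | ⟨294, _⟩ => e_312_y
  | ⟨295, _⟩ => e_292_y
  | ⟨296, _⟩ => e_253_y
  | ⟨297, _⟩ => e_271_y
  | ⟨298, _⟩ => e_256_y
  | ⟨299, _⟩ => e_303_y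
  | ⟨300, _⟩ => e_258_y
  | ⟨301, _⟩ => e_265_y
  | ⟨302, _⟩ => e_259_y
  | ⟨303, _⟩ => e_261_y
  | ⟨304, _⟩ => e_308_y
  | ⟨305, _⟩ => e_347_y
  | ⟨306, _⟩ => e_263_y
  | ⟨307, _⟩ => e_332_y
  | ⟨308, _⟩ => e_354_y
  | ⟨309, _⟩ => e_268_y
  | ⟨310, _⟩ => e_269_y
  | ⟨311, _⟩ => e_272_y
  | ⟨312, _⟩ => e_310_y
  | ⟨313, _⟩ => e_274_y
  | ⟨314, _⟩ => e_276_y
  | ⟨315, _⟩ => e_277_y
  | ⟨316, _⟩ => e_280_y
  | ⟨317, _⟩ => e_345_y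
  | ⟨318, _⟩ => e_282_y
  | ⟨319, _⟩ => e_315_y
  | ⟨320, _⟩ => e_284_y
  | ⟨321, _⟩ => e_341_y
  | ⟨322, _⟩ => e_286_y
  | ⟨323, _⟩ => e_326_y
  | ⟨324, _⟩ => e_291_y
  | ⟨325, _⟩ => e_327_y
  | ⟨326, _⟩ => e_358_y
  | ⟨327, _⟩ => e_359_y
  | ⟨328, _⟩ => e_296_y
  | ⟨329, _⟩ => e_297_y
  | ⟨330, _⟩ => e_299_y
  | ⟨331, _⟩ => e_353_y
  | ⟨332, _⟩ => e_301_y
  | ⟨333, _⟩ => e_329_y
  | ⟨334, _⟩ => e_328_y
  | ⟨335, _⟩ => e_304_y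
  | ⟨336, _⟩ => e_339_y
  | ⟨337, _⟩ => e_309_y
  | ⟨338, _⟩ => e_340_y
  | ⟨339, _⟩ => e_356_y
  | ⟨340, _⟩ => e_357_y
  | ⟨341, _⟩ => e_313_y
  | ⟨342, _⟩ => e_317_y
  | ⟨343, _⟩ => e_314_y
  | ⟨344, _⟩ => e_346_y
  | ⟨345, _⟩ => e_352_y
  | ⟨346, _⟩ => e_331_y
  | ⟨347, _⟩ => e_320_y
  | ⟨348, _⟩ => e_322_y
  | ⟨349, _⟩ => e_323_y
  | ⟨350, _⟩ => e_338_y
  | ⟨351, _⟩ => e_325_y
  | ⟨352, _⟩ => e_342_y
  | ⟨353, _⟩ => e_344_y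
  | ⟨354, _⟩ => e_335_y
  | ⟨355, _⟩ => e_336_y
  | ⟨356, _⟩ => e_355_y
  | ⟨357, _⟩ => e_350_y
  | ⟨358, _⟩ => e_349_y
  | ⟨359, _⟩ => e_351_y
  | ⟨n+360, h⟩ => absurd h (by omega)

theorem rep_surj : Function.Surjective rep := by
  let H : Subgroup P :=
    { carrier := {p | ∀ s : P, s ∈ Set.range rep ↔ s * p ∈ Set.range rep}
      mul_mem' := by
        intro a b ha hb s
        rw [ha s, hb (s * a), mul_assoc]
      one_mem' := by intro s; rw [mul_one]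
      inv_mem' := by
        intro a ha s
        rw [ha (s * a⁻¹), inv_mul_cancel_right] }
  have hgen : ∀ j : Fin 2, (PresentedGroup.of j : P) ∈ H := by
    intro j
    fin_cases j
    · intro s
      constructor
      · rintro ⟨i, rfl⟩
        exact ⟨nx_x i, (closed_x i).symm⟩
      · rintro ⟨i, hi⟩
        refine ⟨px_x i, ?_⟩
        have := pre_x i
        rw [hi] at this
        exact mul_right_cancel this
    · intro s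
      constructor
      · rintro ⟨i, rfl⟩
        exact ⟨nx_y i, (closed_y i).symm⟩
      · rintro ⟨i, hi⟩
        refine ⟨px_y i, ?_⟩
        have := pre_y i
        rw [hi] at this
        exact mul_right_cancel this
  intro p
  have hp : p ∈ H := PresentedGroup.generated_by rels H hgen p
  have h1 : (1 : P) * p ∈ Set.range rep := (hp 1).mp ⟨0, rfl⟩
  rw [one_mul] at h1
  exact h1

/-! ### Target 1: `Sym(6)` -/

abbrev sw (a b : Fin 6) : Equiv.Perm (Fin 6) := Equiv.swap a b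

def gX : Equiv.Perm (Fin 6) := sw 2 3 * sw 4 5
def gY : Equiv.Perm (Fin 6) := sw 0 2 * sw 1 3 * sw 3 4 * sw 4 5

set_option maxRecDepth 100000 in
theorem lift_rel6 : ∀ r ∈ rels, FreeGroup.lift ![gX, gY] r = 1 := by
  intro r hr
  simp only [rels, Set.mem_insert_iff, Set.mem_singleton_iff] at hr
  rcases hr with rfl | rfl | rfl | rfl
  all_goals
    simp only [map_pow, map_mul, FreeGroup.lift_apply_of]
    decide

noncomputable def ψ0 : P →* Equiv.Perm (Fin 6) := PresentedGroup.toGroup lift_rel6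

theorem ψ0_x : ψ0 x = gX := by simp [ψ0, x]
theorem ψ0_y : ψ0 y = gY := by simp [ψ0, y]

def m6_0 : Equiv.Perm (Fin 6) := 1
def m6_1 : Equiv.Perm (Fin 6) := sw 2 3 * sw 4 5
def m6_2 : Equiv.Perm (Fin 6) := sw 0 2 * sw 1 3 * sw 3 4 * sw 4 5
def m6_3 : Equiv.Perm (Fin 6) := sw 0 3 * sw 3 5 * sw 5 1 * sw 1 2
def m6_4 : Equiv.Perm (Fin 6) := sw 0 2 * sw 2 4 * sw 4 1 * sw 1 3
def m6_5 : Equiv.Perm (Fin 6) := sw 1 4 * sw 3 5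
def m6_6 : Equiv.Perm (Fin 6) := sw 0 3 * sw 1 2 * sw 2 5 * sw 5 4
def m6_7 : Equiv.Perm (Fin 6) := sw 1 5 * sw 5 2 * sw 2 3 * sw 3 4
def m6_8 : Equiv.Perm (Fin 6) := sw 0 4 * sw 4 5 * sw 5 3 * sw 3 1
def m6_9 : Equiv.Perm (Fin 6) := sw 1 4 * sw 4 3 * sw 3 2 * sw 2 5
def m6_10 : Equiv.Perm (Fin 6) := sw 0 2 * sw 1 5 * sw 5 4 * sw 4 3
def m6_11 : Equiv.Perm (Fin 6) := sw 0 5 * sw 5 2 * sw 2 3 * sw 3 1
def m6_12 : Equiv.Perm (Fin 6) := sw 1 5 * sw 2 4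
def m6_13 : Equiv.Perm (Fin 6) := sw 0 3 * sw 3 1 * sw 1 4 * sw 4 2
def m6_14 : Equiv.Perm (Fin 6) := sw 0 4 * sw 4 3 * sw 3 2 * sw 2 1
def m6_15 : Equiv.Perm (Fin 6) := sw 0 2 * sw 2 4 * sw 4 3 * sw 3 5
def m6_16 : Equiv.Perm (Fin 6) := sw 0 5 * sw 5 4 * sw 4 1 * sw 1 2
def m6_17 : Equiv.Perm (Fin 6) := sw 0 2 * sw 2 1 * sw 1 5 * sw 5 3
def m6_18 : Equiv.Perm (Fin 6) := sw 0 5 * sw 5 4 * sw 4 2 * sw 2 1
def m6_19 : Equiv.Perm (Fin 6) := sw 0 3 * sw 3 4 * sw 4 2 * sw 2 5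
def m6_20 : Equiv.Perm (Fin 6) := sw 0 4 * sw 4 1 * sw 1 3 * sw 3 2
def m6_21 : Equiv.Perm (Fin 6) := sw 0 3 * sw 1 4 * sw 4 5 * sw 5 2
def m6_22 : Equiv.Perm (Fin 6) := sw 0 1 * sw 1 2 * sw 2 4 * sw 4 5
def m6_23 : Equiv.Perm (Fin 6) := sw 0 2 * sw 2 5 * sw 5 3 * sw 3 4
def m6_24 : Equiv.Perm (Fin 6) := sw 0 4 * sw 1 5
def m6_25 : Equiv.Perm (Fin 6) := sw 0 5 * sw 5 1 * sw 1 2 * sw 2 3
def m6_26 : Equiv.Perm (Fin 6) := sw 1 3 * sw 2 5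
def m6_27 : Equiv.Perm (Fin 6) := sw 0 1 * sw 3 4
def m6_28 : Equiv.Perm (Fin 6) := sw 0 1 * sw 1 3 * sw 3 2 * sw 2 5
def m6_29 : Equiv.Perm (Fin 6) := sw 0 3 * sw 3 5 * sw 5 2 * sw 2 4
def m6_30 : Equiv.Perm (Fin 6) := sw 0 5 * sw 5 1 * sw 1 4 * sw 2 3
def m6_31 : Equiv.Perm (Fin 6) := sw 0 4 * sw 4 5 * sw 5 1 * sw 1 3
def m6_32 : Equiv.Perm (Fin 6) := sw 1 2 * sw 2 4 * sw 4 5 * sw 5 3
def m6_33 : Equiv.Perm (Fin 6) := sw 0 1 * sw 2 3 * sw 3 5 * sw 5 4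
def m6_34 : Equiv.Perm (Fin 6) := sw 0 1 * sw 1 2 * sw 2 3 * sw 3 4
def m6_35 : Equiv.Perm (Fin 6) := sw 0 4 * sw 1 3 * sw 3 5 * sw 5 2
def m6_36 : Equiv.Perm (Fin 6) := sw 0 5 * sw 5 1 * sw 1 4 * sw 4 3
def m6_37 : Equiv.Perm (Fin 6) := sw 0 4 * sw 4 1 * sw 1 5 * sw 2 3
def m6_38 : Equiv.Perm (Fin 6) := sw 0 3 * sw 3 4 * sw 4 1 * sw 2 5
def m6_39 : Equiv.Perm (Fin 6) := sw 1 3 * sw 3 5 * sw 5 4 * sw 4 2
def m6_40 : Equiv.Perm (Fin 6) := sw 0 5 * sw 5 3 * sw 3 4 * sw 4 2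
def m6_41 : Equiv.Perm (Fin 6) := sw 0 1 * sw 2 4 * sw 4 5 * sw 5 3
def m6_42 : Equiv.Perm (Fin 6) := sw 0 2 * sw 2 1 * sw 1 4 * sw 4 5
def m6_43 : Equiv.Perm (Fin 6) := sw 0 1 * sw 1 3 * sw 3 5 * sw 5 4
def m6_44 : Equiv.Perm (Fin 6) := sw 0 5 * sw 5 3 * sw 3 4 * sw 1 2
def m6_45 : Equiv.Perm (Fin 6) := sw 0 4 * sw 4 2 * sw 2 3 * sw 1 5
def m6_46 : Equiv.Perm (Fin 6) := sw 0 5 * sw 1 4
def m6_47 : Equiv.Perm (Fin 6) := sw 0 2 * sw 2 4 * sw 4 1 * sw 3 5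
def m6_48 : Equiv.Perm (Fin 6) := sw 1 2 * sw 3 4
def m6_49 : Equiv.Perm (Fin 6) := sw 0 4 * sw 4 3 * sw 3 5 * sw 5 2
def m6_50 : Equiv.Perm (Fin 6) := sw 0 1 * sw 2 5
def m6_51 : Equiv.Perm (Fin 6) := sw 0 3 * sw 3 2 * sw 2 1 * sw 1 5
def m6_52 : Equiv.Perm (Fin 6) := sw 0 4 * sw 4 2 * sw 2 5 * sw 1 3
def m6_53 : Equiv.Perm (Fin 6) := sw 0 1 * sw 1 5 * sw 5 3 * sw 2 4
def m6_54 : Equiv.Perm (Fin 6) := sw 0 5 * sw 5 3 * sw 3 2 * sw 1 4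
def m6_55 : Equiv.Perm (Fin 6) := sw 0 2 * sw 2 5 * sw 5 4 * sw 4 1
def m6_56 : Equiv.Perm (Fin 6) := sw 0 3 * sw 3 1 * sw 1 2 * sw 2 4
def m6_57 : Equiv.Perm (Fin 6) := sw 0 3 * sw 3 5 * sw 5 1 * sw 2 4
def m6_58 : Equiv.Perm (Fin 6) := sw 0 5 * sw 1 4 * sw 4 2 * sw 2 3
def m6_59 : Equiv.Perm (Fin 6) := sw 0 1 * sw 1 5 * sw 5 3 * sw 3 2
def m6_60 : Equiv.Perm (Fin 6) := sw 0 5 * sw 5 2 * sw 2 4 * sw 4 3
def m6_61 : Equiv.Perm (Fin 6) := sw 0 4 * sw 4 3 * sw 3 5 * sw 1 2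
def m6_62 : Equiv.Perm (Fin 6) := sw 0 2 * sw 2 3 * sw 3 1 * sw 1 4
def m6_63 : Equiv.Perm (Fin 6) := sw 0 5 * sw 1 2 * sw 2 4 * sw 4 3
def m6_64 : Equiv.Perm (Fin 6) := sw 0 1 * sw 1 4 * sw 4 3 * sw 2 5
def m6_65 : Equiv.Perm (Fin 6) := sw 0 4 * sw 4 1 * sw 1 5 * sw 5 2
def m6_66 : Equiv.Perm (Fin 6) := sw 0 3 * sw 3 2 * sw 2 4 * sw 4 1
def m6_67 : Equiv.Perm (Fin 6) := sw 0 2 * sw 2 5 * sw 5 4 * sw 1 3
def m6_68 : Equiv.Perm (Fin 6) := sw 0 2 * sw 2 5 * sw 5 1 * sw 3 4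
def m6_69 : Equiv.Perm (Fin 6) := sw 0 4 * sw 4 3 * sw 3 1 * sw 1 5
def m6_70 : Equiv.Perm (Fin 6) := sw 0 1 * sw 1 4 * sw 4 5 * sw 5 2
def m6_71 : Equiv.Perm (Fin 6) := sw 0 4 * sw 4 2 * sw 2 5 * sw 5 3
def m6_72 : Equiv.Perm (Fin 6) := sw 0 5 * sw 1 3 * sw 3 4 * sw 4 2
def m6_73 : Equiv.Perm (Fin 6) := sw 0 3 * sw 3 1 * sw 1 5 * sw 5 4
def m6_74 : Equiv.Perm (Fin 6) := sw 0 5 * sw 5 3 * sw 3 2 * sw 2 4
def m6_75 : Equiv.Perm (Fin 6) := sw 0 1 * sw 1 5 * sw 5 2 * sw 3 4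
def m6_76 : Equiv.Perm (Fin 6) := sw 1 2 * sw 2 5 * sw 5 4 * sw 4 3
def m6_77 : Equiv.Perm (Fin 6) := sw 0 2 * sw 2 3 * sw 3 5 * sw 5 1
def m6_78 : Equiv.Perm (Fin 6) := sw 0 5 * sw 1 3
def m6_79 : Equiv.Perm (Fin 6) := sw 0 3 * sw 3 4 * sw 4 5 * sw 1 2
def m6_80 : Equiv.Perm (Fin 6) := sw 0 4 * sw 4 5 * sw 5 2 * sw 2 3
def m6_81 : Equiv.Perm (Fin 6) := sw 0 5 * sw 5 2 * sw 2 1 * sw 1 4
def m6_82 : Equiv.Perm (Fin 6) := sw 0 3 * sw 3 2 * sw 2 5 * sw 5 4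
def m6_83 : Equiv.Perm (Fin 6) := sw 0 1 * sw 1 5 * sw 5 4 * sw 4 3
def m6_84 : Equiv.Perm (Fin 6) := sw 0 4 * sw 4 2 * sw 2 5 * sw 5 1
def m6_85 : Equiv.Perm (Fin 6) := sw 0 4 * sw 1 2 * sw 2 5 * sw 5 3
def m6_86 : Equiv.Perm (Fin 6) := sw 0 1 * sw 1 5 * sw 5 2 * sw 2 4
def m6_87 : Equiv.Perm (Fin 6) := sw 0 3 * sw 4 5
def m6_88 : Equiv.Perm (Fin 6) := sw 0 4 * sw 2 5
def m6_89 : Equiv.Perm (Fin 6) := sw 0 1 * sw 1 4 * sw 4 2 * sw 3 5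
def m6_90 : Equiv.Perm (Fin 6) := sw 1 3 * sw 2 4
def m6_91 : Equiv.Perm (Fin 6) := sw 0 3 * sw 3 4 * sw 4 5 * sw 5 1
def m6_92 : Equiv.Perm (Fin 6) := sw 0 4 * sw 4 5 * sw 1 2 * sw 2 3
def m6_93 : Equiv.Perm (Fin 6) := sw 0 2 * sw 2 1 * sw 1 3 * sw 3 5
def m6_94 : Equiv.Perm (Fin 6) := sw 0 5 * sw 5 3
def m6_95 : Equiv.Perm (Fin 6) := sw 0 4 * sw 1 5 * sw 5 3 * sw 3 2
def m6_96 : Equiv.Perm (Fin 6) := sw 0 2 * sw 2 4
def m6_97 : Equiv.Perm (Fin 6) := sw 0 1 * sw 1 4 * sw 4 2 * sw 2 3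
def m6_98 : Equiv.Perm (Fin 6) := sw 0 5 * sw 5 1 * sw 2 4 * sw 4 3
def m6_99 : Equiv.Perm (Fin 6) := sw 0 5 * sw 5 2 * sw 2 4 * sw 1 3
def m6_100 : Equiv.Perm (Fin 6) := sw 0 1 * sw 1 4 * sw 2 5 * sw 5 3
def m6_101 : Equiv.Perm (Fin 6) := sw 0 2 * sw 2 3
def m6_102 : Equiv.Perm (Fin 6) := sw 0 5 * sw 3 4
def m6_103 : Equiv.Perm (Fin 6) := sw 0 4 * sw 4 3 * sw 1 2 * sw 2 5
def m6_104 : Equiv.Perm (Fin 6) := sw 1 4 * sw 4 2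
def m6_105 : Equiv.Perm (Fin 6) := sw 1 2 * sw 3 5
def m6_106 : Equiv.Perm (Fin 6) := sw 0 5 * sw 5 2
def m6_107 : Equiv.Perm (Fin 6) := sw 0 3 * sw 3 4 * sw 4 1 * sw 1 5
def m6_108 : Equiv.Perm (Fin 6) := sw 0 5 * sw 5 4 * sw 1 3 * sw 3 2
def m6_109 : Equiv.Perm (Fin 6) := sw 0 1 * sw 1 4 * sw 2 3 * sw 3 5
def m6_110 : Equiv.Perm (Fin 6) := sw 0 4 * sw 4 2
def m6_111 : Equiv.Perm (Fin 6) := sw 0 1 * sw 1 3 * sw 2 5 * sw 5 4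
def m6_112 : Equiv.Perm (Fin 6) := sw 0 3 * sw 3 5
def m6_113 : Equiv.Perm (Fin 6) := sw 0 2 * sw 2 1
def m6_114 : Equiv.Perm (Fin 6) := sw 0 4 * sw 4 1 * sw 2 3 * sw 3 5
def m6_115 : Equiv.Perm (Fin 6) := sw 0 5 * sw 1 3 * sw 3 2 * sw 2 4
def m6_116 : Equiv.Perm (Fin 6) := sw 0 1 * sw 1 5 * sw 2 3 * sw 3 4
def m6_117 : Equiv.Perm (Fin 6) := sw 0 4 * sw 4 2 * sw 2 1 * sw 1 3
def m6_118 : Equiv.Perm (Fin 6) := sw 0 3 * sw 3 2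
def m6_119 : Equiv.Perm (Fin 6) := sw 0 4 * sw 4 2 * sw 2 3 * sw 3 5
def m6_120 : Equiv.Perm (Fin 6) := sw 0 5 * sw 5 1 * sw 1 3 * sw 2 4
def m6_121 : Equiv.Perm (Fin 6) := sw 1 5 * sw 5 4 * sw 4 3 * sw 3 2
def m6_122 : Equiv.Perm (Fin 6) := sw 1 3 * sw 3 4 * sw 4 5 * sw 5 2
def m6_123 : Equiv.Perm (Fin 6) := sw 0 4 * sw 4 5 * sw 5 3 * sw 3 2
def m6_124 : Equiv.Perm (Fin 6) := sw 0 2 * sw 2 3 * sw 3 5 * sw 1 4
def m6_125 : Equiv.Perm (Fin 6) := sw 0 4 * sw 1 2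
def m6_126 : Equiv.Perm (Fin 6) := sw 0 1 * sw 1 5 * sw 5 3 * sw 3 4
def m6_127 : Equiv.Perm (Fin 6) := sw 0 5 * sw 5 4 * sw 4 3 * sw 3 2
def m6_128 : Equiv.Perm (Fin 6) := sw 0 1 * sw 1 2 * sw 2 4 * sw 4 3
def m6_129 : Equiv.Perm (Fin 6) := sw 0 2 * sw 2 3 * sw 3 4 * sw 4 5
def m6_130 : Equiv.Perm (Fin 6) := sw 0 3 * sw 3 2 * sw 2 1 * sw 4 5
def m6_131 : Equiv.Perm (Fin 6) := sw 0 5 * sw 5 3 * sw 3 4 * sw 4 1
def m6_132 : Equiv.Perm (Fin 6) := sw 0 4 * sw 4 1 * sw 1 2 * sw 2 5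
def m6_133 : Equiv.Perm (Fin 6) := sw 0 1 * sw 1 4 * sw 4 3 * sw 3 5
def m6_134 : Equiv.Perm (Fin 6) := sw 0 5 * sw 5 4 * sw 4 3 * sw 1 2
def m6_135 : Equiv.Perm (Fin 6) := sw 0 2 * sw 4 5
def m6_136 : Equiv.Perm (Fin 6) := sw 0 2 * sw 2 5 * sw 5 1 * sw 1 4
def m6_137 : Equiv.Perm (Fin 6) := sw 0 4 * sw 4 1 * sw 1 2 * sw 3 5
def m6_138 : Equiv.Perm (Fin 6) := sw 0 5 * sw 5 2 * sw 2 4 * sw 4 1
def m6_139 : Equiv.Perm (Fin 6) := sw 1 4 * sw 4 5 * sw 5 2 * sw 2 3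
def m6_140 : Equiv.Perm (Fin 6) := sw 0 1 * sw 1 3 * sw 3 2 * sw 4 5
def m6_141 : Equiv.Perm (Fin 6) := sw 0 5 * sw 5 4 * sw 4 2 * sw 2 3
def m6_142 : Equiv.Perm (Fin 6) := sw 1 3 * sw 3 4 * sw 4 2 * sw 2 5
def m6_143 : Equiv.Perm (Fin 6) := sw 0 3 * sw 3 2 * sw 2 4 * sw 1 5
def m6_144 : Equiv.Perm (Fin 6) := sw 0 1 * sw 1 2 * sw 2 5 * sw 5 3
def m6_145 : Equiv.Perm (Fin 6) := sw 0 1 * sw 1 4 * sw 4 2 * sw 2 5
def m6_146 : Equiv.Perm (Fin 6) := sw 0 3 * sw 1 5 * sw 5 4 * sw 4 2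
def m6_147 : Equiv.Perm (Fin 6) := sw 1 3 * sw 3 2 * sw 2 4 * sw 4 5
def m6_148 : Equiv.Perm (Fin 6) := sw 0 1 * sw 1 3 * sw 3 5 * sw 5 2
def m6_149 : Equiv.Perm (Fin 6) := sw 0 5 * sw 5 3 * sw 3 2 * sw 2 1
def m6_150 : Equiv.Perm (Fin 6) := sw 0 2 * sw 2 3 * sw 3 4 * sw 1 5
def m6_151 : Equiv.Perm (Fin 6) := sw 0 2 * sw 2 3 * sw 3 1 * sw 4 5
def m6_152 : Equiv.Perm (Fin 6) := sw 0 1 * sw 1 3 * sw 3 4 * sw 4 5
def m6_153 : Equiv.Perm (Fin 6) := sw 0 3 * sw 3 1 * sw 1 5 * sw 2 4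
def m6_154 : Equiv.Perm (Fin 6) := sw 0 5 * sw 5 1 * sw 1 3 * sw 3 4
def m6_155 : Equiv.Perm (Fin 6) := sw 0 3 * sw 3 2 * sw 2 1 * sw 1 4
def m6_156 : Equiv.Perm (Fin 6) := sw 0 4 * sw 4 5 * sw 5 2 * sw 1 3
def m6_157 : Equiv.Perm (Fin 6) := sw 1 2 * sw 2 3 * sw 3 4 * sw 4 5
def m6_158 : Equiv.Perm (Fin 6) := sw 0 5 * sw 5 2 * sw 1 3 * sw 3 4
def m6_159 : Equiv.Perm (Fin 6) := sw 0 4 * sw 4 1 * sw 2 5 * sw 5 3
def m6_160 : Equiv.Perm (Fin 6) := sw 1 5 * sw 5 3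
def m6_161 : Equiv.Perm (Fin 6) := sw 0 1 * sw 1 2
def m6_162 : Equiv.Perm (Fin 6) := sw 0 4 * sw 4 3
def m6_163 : Equiv.Perm (Fin 6) := sw 1 2 * sw 2 4 * sw 4 3 * sw 3 5
def m6_164 : Equiv.Perm (Fin 6) := sw 0 1 * sw 1 3 * sw 2 4 * sw 4 5
def m6_165 : Equiv.Perm (Fin 6) := sw 0 1 * sw 1 5 * sw 2 4 * sw 4 3
def m6_166 : Equiv.Perm (Fin 6) := sw 0 2 * sw 2 1 * sw 1 4 * sw 4 3
def m6_167 : Equiv.Perm (Fin 6) := sw 1 2 * sw 2 5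
def m6_168 : Equiv.Perm (Fin 6) := sw 0 1 * sw 1 2 * sw 3 4 * sw 4 5
def m6_169 : Equiv.Perm (Fin 6) := sw 0 4 * sw 4 5 * sw 5 2 * sw 2 1
def m6_170 : Equiv.Perm (Fin 6) := sw 0 3 * sw 3 5 * sw 5 1 * sw 1 4
def m6_171 : Equiv.Perm (Fin 6) := sw 0 3 * sw 3 1
def m6_172 : Equiv.Perm (Fin 6) := sw 0 1 * sw 1 2 * sw 2 3 * sw 3 5
def m6_173 : Equiv.Perm (Fin 6) := sw 0 2 * sw 2 5 * sw 1 4 * sw 4 3
def m6_174 : Equiv.Perm (Fin 6) := sw 0 4 * sw 1 2 * sw 2 3 * sw 3 5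
def m6_175 : Equiv.Perm (Fin 6) := sw 0 2 * sw 2 1 * sw 1 5 * sw 5 4
def m6_176 : Equiv.Perm (Fin 6) := sw 0 5 * sw 5 3 * sw 3 1 * sw 1 2
def m6_177 : Equiv.Perm (Fin 6) := sw 1 3 * sw 3 5
def m6_178 : Equiv.Perm (Fin 6) := sw 0 5 * sw 5 4 * sw 4 1 * sw 1 3
def m6_179 : Equiv.Perm (Fin 6) := sw 1 5 * sw 5 2 * sw 2 4 * sw 4 3
def m6_180 : Equiv.Perm (Fin 6) := sw 0 5 * sw 5 1 * sw 2 3 * sw 3 4
def m6_181 : Equiv.Perm (Fin 6) := sw 0 3 * sw 3 5 * sw 5 4 * sw 4 2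
def m6_182 : Equiv.Perm (Fin 6) := sw 0 1 * sw 1 3
def m6_183 : Equiv.Perm (Fin 6) := sw 0 3 * sw 3 2 * sw 2 5 * sw 5 1
def m6_184 : Equiv.Perm (Fin 6) := sw 1 3 * sw 3 5 * sw 5 2 * sw 2 4
def m6_185 : Equiv.Perm (Fin 6) := sw 0 4 * sw 4 1 * sw 1 2 * sw 2 3
def m6_186 : Equiv.Perm (Fin 6) := sw 0 1 * sw 1 2 * sw 3 5 * sw 5 4
def m6_187 : Equiv.Perm (Fin 6) := sw 0 5 * sw 5 2 * sw 2 1 * sw 3 4
def m6_188 : Equiv.Perm (Fin 6) := sw 0 3 * sw 3 1 * sw 1 5 * sw 5 2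
def m6_189 : Equiv.Perm (Fin 6) := sw 0 1 * sw 2 3
def m6_190 : Equiv.Perm (Fin 6) := sw 1 3 * sw 3 4
def m6_191 : Equiv.Perm (Fin 6) := sw 1 5 * sw 5 3 * sw 3 4 * sw 4 2
def m6_192 : Equiv.Perm (Fin 6) := sw 0 5 * sw 5 4 * sw 4 3 * sw 3 1
def m6_193 : Equiv.Perm (Fin 6) := sw 0 1 * sw 1 2 * sw 2 5 * sw 3 4
def m6_194 : Equiv.Perm (Fin 6) := sw 0 2 * sw 2 4 * sw 4 1 * sw 1 5
def m6_195 : Equiv.Perm (Fin 6) := sw 0 3 * sw 1 4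
def m6_196 : Equiv.Perm (Fin 6) := sw 0 1 * sw 1 3 * sw 3 2 * sw 2 4
def m6_197 : Equiv.Perm (Fin 6) := sw 0 2 * sw 2 1 * sw 1 4 * sw 3 5
def m6_198 : Equiv.Perm (Fin 6) := sw 0 3 * sw 3 4 * sw 1 5 * sw 5 2
def m6_199 : Equiv.Perm (Fin 6) := sw 0 4 * sw 2 3
def m6_200 : Equiv.Perm (Fin 6) := sw 0 2 * sw 2 5 * sw 5 3 * sw 1 4
def m6_201 : Equiv.Perm (Fin 6) := sw 0 3 * sw 3 1 * sw 1 4 * sw 4 5
def m6_202 : Equiv.Perm (Fin 6) := sw 0 1 * sw 1 2 * sw 2 3 * sw 4 5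
def m6_203 : Equiv.Perm (Fin 6) := sw 2 4 * sw 3 5
def m6_204 : Equiv.Perm (Fin 6) := sw 1 2 * sw 2 4
def m6_205 : Equiv.Perm (Fin 6) := sw 0 3 * sw 3 5 * sw 5 2 * sw 1 4
def m6_206 : Equiv.Perm (Fin 6) := sw 1 4 * sw 4 2 * sw 2 5 * sw 5 3
def m6_207 : Equiv.Perm (Fin 6) := sw 0 4 * sw 4 3 * sw 3 5 * sw 5 1
def m6_208 : Equiv.Perm (Fin 6) := sw 0 2 * sw 3 4
def m6_209 : Equiv.Perm (Fin 6) := sw 0 2 * sw 2 4 * sw 4 5 * sw 5 1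
def m6_210 : Equiv.Perm (Fin 6) := sw 1 2 * sw 2 5 * sw 5 3 * sw 3 4
def m6_211 : Equiv.Perm (Fin 6) := sw 0 1 * sw 1 3 * sw 3 4 * sw 4 2
def m6_212 : Equiv.Perm (Fin 6) := sw 0 4 * sw 4 2 * sw 2 1 * sw 3 5
def m6_213 : Equiv.Perm (Fin 6) := sw 0 2 * sw 1 4 * sw 4 5 * sw 5 3
def m6_214 : Equiv.Perm (Fin 6) := sw 0 1 * sw 4 5
def m6_215 : Equiv.Perm (Fin 6) := sw 1 2 * sw 2 3 * sw 3 5 * sw 5 4
def m6_216 : Equiv.Perm (Fin 6) := sw 1 4 * sw 4 3 * sw 3 5 * sw 5 2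
def m6_217 : Equiv.Perm (Fin 6) := sw 0 4 * sw 4 2 * sw 2 3 * sw 3 1
def m6_218 : Equiv.Perm (Fin 6) := sw 0 1 * sw 1 3 * sw 3 5 * sw 2 4
def m6_219 : Equiv.Perm (Fin 6) := sw 0 3 * sw 3 2 * sw 2 5 * sw 1 4
def m6_220 : Equiv.Perm (Fin 6) := sw 0 2 * sw 2 3 * sw 1 5 * sw 5 4
def m6_221 : Equiv.Perm (Fin 6) := sw 0 1 * sw 1 2 * sw 2 5 * sw 5 4
def m6_222 : Equiv.Perm (Fin 6) := sw 0 5 * sw 5 4
def m6_223 : Equiv.Perm (Fin 6) := sw 0 3 * sw 1 5 * sw 5 2 * sw 2 4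
def m6_224 : Equiv.Perm (Fin 6) := sw 0 2 * sw 2 3 * sw 3 1 * sw 1 5
def m6_225 : Equiv.Perm (Fin 6) := sw 2 5 * sw 3 4
def m6_226 : Equiv.Perm (Fin 6) := sw 1 3 * sw 3 2 * sw 2 5 * sw 5 4
def m6_227 : Equiv.Perm (Fin 6) := sw 0 2 * sw 1 5 * sw 5 3 * sw 3 4
def m6_228 : Equiv.Perm (Fin 6) := sw 0 5 * sw 5 1 * sw 1 3 * sw 3 2
def m6_229 : Equiv.Perm (Fin 6) := sw 0 2 * sw 2 5 * sw 5 3 * sw 3 1
def m6_230 : Equiv.Perm (Fin 6) := sw 0 3 * sw 2 5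
def m6_231 : Equiv.Perm (Fin 6) := sw 1 5 * sw 2 3
def m6_232 : Equiv.Perm (Fin 6) := sw 0 2 * sw 2 1 * sw 3 4 * sw 4 5
def m6_233 : Equiv.Perm (Fin 6) := sw 0 3 * sw 3 5 * sw 5 4 * sw 4 1
def m6_234 : Equiv.Perm (Fin 6) := sw 0 5 * sw 1 2 * sw 2 3 * sw 3 4
def m6_235 : Equiv.Perm (Fin 6) := sw 0 4 * sw 4 2 * sw 1 5 * sw 5 3
def m6_236 : Equiv.Perm (Fin 6) := sw 0 4 * sw 4 5 * sw 5 1 * sw 1 2
def m6_237 : Equiv.Perm (Fin 6) := sw 0 3 * sw 3 1 * sw 2 4 * sw 4 5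
def m6_238 : Equiv.Perm (Fin 6) := sw 1 5 * sw 5 2
def m6_239 : Equiv.Perm (Fin 6) := sw 0 5 * sw 5 3 * sw 3 1 * sw 2 4
def m6_240 : Equiv.Perm (Fin 6) := sw 2 3 * sw 3 4
def m6_241 : Equiv.Perm (Fin 6) := sw 0 1 * sw 1 4 * sw 4 3 * sw 3 2
def m6_242 : Equiv.Perm (Fin 6) := sw 0 2 * sw 2 5
def m6_243 : Equiv.Perm (Fin 6) := sw 0 1 * sw 1 2 * sw 2 4 * sw 3 5
def m6_244 : Equiv.Perm (Fin 6) := sw 0 4 * sw 1 3
def m6_245 : Equiv.Perm (Fin 6) := sw 0 3 * sw 3 2 * sw 1 4 * sw 4 5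
def m6_246 : Equiv.Perm (Fin 6) := sw 0 4 * sw 4 5 * sw 5 3 * sw 1 2
def m6_247 : Equiv.Perm (Fin 6) := sw 0 4 * sw 4 5
def m6_248 : Equiv.Perm (Fin 6) := sw 0 3 * sw 1 2 * sw 2 4 * sw 4 5
def m6_249 : Equiv.Perm (Fin 6) := sw 0 2 * sw 1 4 * sw 4 3 * sw 3 5
def m6_250 : Equiv.Perm (Fin 6) := sw 0 2 * sw 2 3 * sw 3 5 * sw 5 4
def m6_251 : Equiv.Perm (Fin 6) := sw 0 3 * sw 3 5 * sw 5 2 * sw 2 1
def m6_252 : Equiv.Perm (Fin 6) := sw 0 4 * sw 4 3 * sw 3 2 * sw 1 5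
def m6_253 : Equiv.Perm (Fin 6) := sw 0 3 * sw 1 4 * sw 4 2 * sw 2 5
def m6_254 : Equiv.Perm (Fin 6) := sw 1 5 * sw 5 4 * sw 4 2 * sw 2 3
def m6_255 : Equiv.Perm (Fin 6) := sw 0 2 * sw 2 4 * sw 4 5 * sw 5 3
def m6_256 : Equiv.Perm (Fin 6) := sw 1 4 * sw 4 5
def m6_257 : Equiv.Perm (Fin 6) := sw 0 2 * sw 2 3 * sw 3 4 * sw 4 1
def m6_258 : Equiv.Perm (Fin 6) := sw 0 4 * sw 4 1 * sw 1 3 * sw 3 5
def m6_259 : Equiv.Perm (Fin 6) := sw 0 5 * sw 5 2 * sw 1 4 * sw 4 3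
def m6_260 : Equiv.Perm (Fin 6) := sw 1 4 * sw 4 5 * sw 5 3 * sw 3 2
def m6_261 : Equiv.Perm (Fin 6) := sw 0 4 * sw 4 3 * sw 3 1 * sw 2 5
def m6_262 : Equiv.Perm (Fin 6) := sw 3 5 * sw 5 4
def m6_263 : Equiv.Perm (Fin 6) := sw 0 1 * sw 1 5 * sw 5 4 * sw 4 2
def m6_264 : Equiv.Perm (Fin 6) := sw 0 3 * sw 3 2 * sw 2 4 * sw 4 5
def m6_265 : Equiv.Perm (Fin 6) := sw 0 1 * sw 1 3 * sw 3 4 * sw 2 5
def m6_266 : Equiv.Perm (Fin 6) := sw 0 5 * sw 5 4 * sw 1 2 * sw 2 3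
def m6_267 : Equiv.Perm (Fin 6) := sw 0 2 * sw 1 5
def m6_268 : Equiv.Perm (Fin 6) := sw 0 5 * sw 5 2 * sw 2 1 * sw 1 3
def m6_269 : Equiv.Perm (Fin 6) := sw 0 5 * sw 2 3
def m6_270 : Equiv.Perm (Fin 6) := sw 0 2 * sw 2 5 * sw 5 1 * sw 1 3
def m6_271 : Equiv.Perm (Fin 6) := sw 0 3 * sw 3 4 * sw 4 2 * sw 1 5
def m6_272 : Equiv.Perm (Fin 6) := sw 0 3 * sw 3 4
def m6_273 : Equiv.Perm (Fin 6) := sw 0 5 * sw 5 1 * sw 1 4 * sw 4 2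
def m6_274 : Equiv.Perm (Fin 6) := sw 0 2 * sw 2 4 * sw 4 3 * sw 1 5
def m6_275 : Equiv.Perm (Fin 6) := sw 1 4 * sw 4 3
def m6_276 : Equiv.Perm (Fin 6) := sw 0 2 * sw 2 1 * sw 3 5 * sw 5 4
def m6_277 : Equiv.Perm (Fin 6) := sw 1 5 * sw 5 4
def m6_278 : Equiv.Perm (Fin 6) := sw 0 3 * sw 3 4 * sw 4 1 * sw 1 2
def m6_279 : Equiv.Perm (Fin 6) := sw 0 2 * sw 2 4 * sw 4 3 * sw 3 1
def m6_280 : Equiv.Perm (Fin 6) := sw 0 5 * sw 5 1 * sw 1 2 * sw 2 4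
def m6_281 : Equiv.Perm (Fin 6) := sw 0 3 * sw 3 1 * sw 1 4 * sw 2 5
def m6_282 : Equiv.Perm (Fin 6) := sw 0 4 * sw 4 3 * sw 1 5 * sw 5 2
def m6_283 : Equiv.Perm (Fin 6) := sw 2 4 * sw 4 3
def m6_284 : Equiv.Perm (Fin 6) := sw 0 3 * sw 3 4 * sw 4 2 * sw 2 1
def m6_285 : Equiv.Perm (Fin 6) := sw 0 4 * sw 4 3 * sw 3 2 * sw 2 5
def m6_286 : Equiv.Perm (Fin 6) := sw 2 4 * sw 4 5
def m6_287 : Equiv.Perm (Fin 6) := sw 0 1 * sw 1 4 * sw 4 5 * sw 5 3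
def m6_288 : Equiv.Perm (Fin 6) := sw 1 2 * sw 4 5
def m6_289 : Equiv.Perm (Fin 6) := sw 0 4 * sw 4 5 * sw 1 3 * sw 3 2
def m6_290 : Equiv.Perm (Fin 6) := sw 0 4 * sw 4 3 * sw 3 1 * sw 1 2
def m6_291 : Equiv.Perm (Fin 6) := sw 0 1 * sw 2 4 * sw 4 3 * sw 3 5
def m6_292 : Equiv.Perm (Fin 6) := sw 0 2 * sw 2 4 * sw 1 3 * sw 3 5
def m6_293 : Equiv.Perm (Fin 6) := sw 0 3 * sw 1 5
def m6_294 : Equiv.Perm (Fin 6) := sw 0 3 * sw 3 1 * sw 2 5 * sw 5 4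
def m6_295 : Equiv.Perm (Fin 6) := sw 0 4 * sw 4 1 * sw 1 5 * sw 5 3
def m6_296 : Equiv.Perm (Fin 6) := sw 0 5 * sw 5 4 * sw 4 1 * sw 2 3
def m6_297 : Equiv.Perm (Fin 6) := sw 1 4 * sw 2 3
def m6_298 : Equiv.Perm (Fin 6) := sw 0 2 * sw 1 3 * sw 3 5 * sw 5 4
def m6_299 : Equiv.Perm (Fin 6) := sw 0 4 * sw 1 3 * sw 3 2 * sw 2 5
def m6_300 : Equiv.Perm (Fin 6) := sw 0 2 * sw 2 4 * sw 1 5 * sw 5 3
def m6_301 : Equiv.Perm (Fin 6) := sw 0 5 * sw 5 3 * sw 1 4 * sw 4 2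
def m6_302 : Equiv.Perm (Fin 6) := sw 2 5 * sw 5 4
def m6_303 : Equiv.Perm (Fin 6) := sw 0 5 * sw 2 4
def m6_304 : Equiv.Perm (Fin 6) := sw 2 5 * sw 5 3
def m6_305 : Equiv.Perm (Fin 6) := sw 0 1 * sw 1 5 * sw 5 2 * sw 2 3
def m6_306 : Equiv.Perm (Fin 6) := sw 1 3 * sw 3 2
def m6_307 : Equiv.Perm (Fin 6) := sw 0 5 * sw 1 2
def m6_308 : Equiv.Perm (Fin 6) := sw 0 5 * sw 5 4 * sw 4 2 * sw 1 3
def m6_309 : Equiv.Perm (Fin 6) := sw 0 1 * sw 2 5 * sw 5 3 * sw 3 4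
def m6_310 : Equiv.Perm (Fin 6) := sw 0 3 * sw 3 4 * sw 1 2 * sw 2 5
def m6_311 : Equiv.Perm (Fin 6) := sw 0 2 * sw 2 3 * sw 1 4 * sw 4 5
def m6_312 : Equiv.Perm (Fin 6) := sw 0 5 * sw 5 2 * sw 2 3 * sw 1 4
def m6_313 : Equiv.Perm (Fin 6) := sw 0 4 * sw 4 1
def m6_314 : Equiv.Perm (Fin 6) := sw 0 1 * sw 1 5
def m6_315 : Equiv.Perm (Fin 6) := sw 0 2 * sw 1 3
def m6_316 : Equiv.Perm (Fin 6) := sw 0 4 * sw 4 1 * sw 1 3 * sw 2 5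
def m6_317 : Equiv.Perm (Fin 6) := sw 0 3 * sw 3 5 * sw 1 4 * sw 4 2
def m6_318 : Equiv.Perm (Fin 6) := sw 0 1 * sw 2 4
def m6_319 : Equiv.Perm (Fin 6) := sw 3 4 * sw 4 5
def m6_320 : Equiv.Perm (Fin 6) := sw 0 1 * sw 1 4 * sw 4 5 * sw 2 3
def m6_321 : Equiv.Perm (Fin 6) := sw 0 4 * sw 3 5
def m6_322 : Equiv.Perm (Fin 6) := sw 0 4 * sw 4 2 * sw 1 3 * sw 3 5
def m6_323 : Equiv.Perm (Fin 6) := sw 1 2 * sw 2 3
def m6_324 : Equiv.Perm (Fin 6) := sw 0 4 * sw 4 2 * sw 2 1 * sw 1 5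
def m6_325 : Equiv.Perm (Fin 6) := sw 0 2 * sw 2 5 * sw 1 3 * sw 3 4
def m6_326 : Equiv.Perm (Fin 6) := sw 0 3 * sw 3 2 * sw 1 5 * sw 5 4
def m6_327 : Equiv.Perm (Fin 6) := sw 0 5 * sw 5 1
def m6_328 : Equiv.Perm (Fin 6) := sw 0 3 * sw 3 1 * sw 1 2 * sw 2 5
def m6_329 : Equiv.Perm (Fin 6) := sw 0 3 * sw 3 1 * sw 1 2 * sw 4 5
def m6_330 : Equiv.Perm (Fin 6) := sw 0 5 * sw 5 3 * sw 1 2 * sw 2 4
def m6_331 : Equiv.Perm (Fin 6) := sw 0 2 * sw 2 1 * sw 1 5 * sw 3 4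
def m6_332 : Equiv.Perm (Fin 6) := sw 0 1 * sw 2 5 * sw 5 4 * sw 4 3
def m6_333 : Equiv.Perm (Fin 6) := sw 2 3 * sw 3 5
def m6_334 : Equiv.Perm (Fin 6) := sw 0 5 * sw 5 2 * sw 2 3 * sw 3 4
def m6_335 : Equiv.Perm (Fin 6) := sw 0 5 * sw 5 1 * sw 1 2 * sw 3 4
def m6_336 : Equiv.Perm (Fin 6) := sw 1 3 * sw 4 5
def m6_337 : Equiv.Perm (Fin 6) := sw 0 5 * sw 1 4 * sw 4 3 * sw 3 2
def m6_338 : Equiv.Perm (Fin 6) := sw 0 3 * sw 3 5 * sw 1 2 * sw 2 4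
def m6_339 : Equiv.Perm (Fin 6) := sw 0 2 * sw 1 4
def m6_340 : Equiv.Perm (Fin 6) := sw 0 4 * sw 4 5 * sw 5 1 * sw 2 3
def m6_341 : Equiv.Perm (Fin 6) := sw 0 2 * sw 2 4 * sw 4 5 * sw 1 3
def m6_342 : Equiv.Perm (Fin 6) := sw 0 1 * sw 1 5 * sw 5 4 * sw 2 3
def m6_343 : Equiv.Perm (Fin 6) := sw 0 2 * sw 2 1 * sw 1 3 * sw 3 4
def m6_344 : Equiv.Perm (Fin 6) := sw 0 2 * sw 2 1 * sw 1 3 * sw 4 5
def m6_345 : Equiv.Perm (Fin 6) := sw 0 1 * sw 2 3 * sw 3 4 * sw 4 5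
def m6_346 : Equiv.Perm (Fin 6) := sw 0 1 * sw 1 4
def m6_347 : Equiv.Perm (Fin 6) := sw 0 3 * sw 3 5 * sw 5 4 * sw 1 2
def m6_348 : Equiv.Perm (Fin 6) := sw 1 5 * sw 5 3 * sw 3 2 * sw 2 4
def m6_349 : Equiv.Perm (Fin 6) := sw 0 3 * sw 3 4 * sw 4 5 * sw 5 2
def m6_350 : Equiv.Perm (Fin 6) := sw 0 4 * sw 1 5 * sw 5 2 * sw 2 3
def m6_351 : Equiv.Perm (Fin 6) := sw 0 5 * sw 5 3 * sw 3 1 * sw 1 4
def m6_352 : Equiv.Perm (Fin 6) := sw 0 3 * sw 1 2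
def m6_353 : Equiv.Perm (Fin 6) := sw 0 1 * sw 3 5
def m6_354 : Equiv.Perm (Fin 6) := sw 1 4 * sw 2 5
def m6_355 : Equiv.Perm (Fin 6) := sw 0 2 * sw 3 5
def m6_356 : Equiv.Perm (Fin 6) := sw 1 5 * sw 3 4
def m6_357 : Equiv.Perm (Fin 6) := sw 0 3 * sw 2 4
def m6_358 : Equiv.Perm (Fin 6) := sw 1 4 * sw 4 2 * sw 2 3 * sw 3 5
def m6_359 : Equiv.Perm (Fin 6) := sw 0 2 * sw 2 5 * sw 5 4 * sw 4 3
theorem t6_0 : ψ0 r0 = m6_0 := by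
  show ψ0 1 = m6_0
  rw [map_one]; rfl
theorem t6_1 : ψ0 r1 = m6_1 := by
  show ψ0 (r0 * x) = m6_1
  rw [map_mul, t6_0, ψ0_x]; decide
theorem t6_2 : ψ0 r2 = m6_2 := by
  show ψ0 (r0 * y) = m6_2
  rw [map_mul, t6_0, ψ0_y]; decide
theorem t6_3 : ψ0 r3 = m6_3 := by
  show ψ0 (r1 * y) = m6_3
  rw [map_mul, t6_1, ψ0_y]; decide
theorem t6_4 : ψ0 r4 = m6_4 := by
  show ψ0 (r2 * x) = m6_4
  rw [map_mul, t6_2, ψ0_x]; decide
theorem t6_5 : ψ0 r5 = m6_5 := by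
  show ψ0 (r2 * y) = m6_5
  rw [map_mul, t6_2, ψ0_y]; decide
theorem t6_6 : ψ0 r6 = m6_6 := by
  show ψ0 (r3 * x) = m6_6
  rw [map_mul, t6_3, ψ0_x]; decide
theorem t6_7 : ψ0 r7 = m6_7 := by
  show ψ0 (r3 * y) = m6_7
  rw [map_mul, t6_3, ψ0_y]; decide
theorem t6_8 : ψ0 r8 = m6_8 := by
  show ψ0 (r4 * y) = m6_8
  rw [map_mul, t6_4, ψ0_y]; decide
theorem t6_9 : ψ0 r9 = m6_9 := by
  show ψ0 (r5 * x) = m6_9
  rw [map_mul, t6_5, ψ0_x]; decide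
theorem t6_10 : ψ0 r10 = m6_10 := by
  show ψ0 (r5 * y) = m6_10
  rw [map_mul, t6_5, ψ0_y]; decide
theorem t6_11 : ψ0 r11 = m6_11 := by
  show ψ0 (r6 * y) = m6_11
  rw [map_mul, t6_6, ψ0_y]; decide
theorem t6_12 : ψ0 r12 = m6_12 := by
  show ψ0 (r7 * x) = m6_12
  rw [map_mul, t6_7, ψ0_x]; decide
theorem t6_13 : ψ0 r13 = m6_13 := by
  show ψ0 (r7 * y) = m6_13
  rw [map_mul, t6_7, ψ0_y]; decide
theorem t6_14 : ψ0 r14 = m6_14 := by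
  show ψ0 (r8 * x) = m6_14
  rw [map_mul, t6_8, ψ0_x]; decide
theorem t6_15 : ψ0 r15 = m6_15 := by
  show ψ0 (r8 * y) = m6_15
  rw [map_mul, t6_8, ψ0_y]; decide
theorem t6_16 : ψ0 r16 = m6_16 := by
  show ψ0 (r9 * y) = m6_16
  rw [map_mul, t6_9, ψ0_y]; decide
theorem t6_17 : ψ0 r17 = m6_17 := by
  show ψ0 (r10 * x) = m6_17
  rw [map_mul, t6_10, ψ0_x]; decide
theorem t6_18 : ψ0 r18 = m6_18 := by
  show ψ0 (r11 * x) = m6_18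
  rw [map_mul, t6_11, ψ0_x]; decide
theorem t6_19 : ψ0 r19 = m6_19 := by
  show ψ0 (r11 * y) = m6_19
  rw [map_mul, t6_11, ψ0_y]; decide
theorem t6_20 : ψ0 r20 = m6_20 := by
  show ψ0 (r12 * y) = m6_20
  rw [map_mul, t6_12, ψ0_y]; decide
theorem t6_21 : ψ0 r21 = m6_21 := by
  show ψ0 (r13 * x) = m6_21
  rw [map_mul, t6_13, ψ0_x]; decide
theorem t6_22 : ψ0 r22 = m6_22 := by
  show ψ0 (r14 * y) = m6_22
  rw [map_mul, t6_14, ψ0_y]; decide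
theorem t6_23 : ψ0 r23 = m6_23 := by
  show ψ0 (r15 * x) = m6_23
  rw [map_mul, t6_15, ψ0_x]; decide
theorem t6_24 : ψ0 r24 = m6_24 := by
  show ψ0 (r15 * y) = m6_24
  rw [map_mul, t6_15, ψ0_y]; decide
theorem t6_25 : ψ0 r25 = m6_25 := by
  show ψ0 (r16 * x) = m6_25
  rw [map_mul, t6_16, ψ0_x]; decide
theorem t6_26 : ψ0 r26 = m6_26 := by
  show ψ0 (r16 * y) = m6_26
  rw [map_mul, t6_16, ψ0_y]; decide
theorem t6_27 : ψ0 r27 = m6_27 := by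
  show ψ0 (r17 * y) = m6_27
  rw [map_mul, t6_17, ψ0_y]; decide
theorem t6_28 : ψ0 r28 = m6_28 := by
  show ψ0 (r18 * y) = m6_28
  rw [map_mul, t6_18, ψ0_y]; decide
theorem t6_29 : ψ0 r29 = m6_29 := by
  show ψ0 (r19 * x) = m6_29
  rw [map_mul, t6_19, ψ0_x]; decide
theorem t6_30 : ψ0 r30 = m6_30 := by
  show ψ0 (r19 * y) = m6_30
  rw [map_mul, t6_19, ψ0_y]; decide
theorem t6_31 : ψ0 r31 = m6_31 := by
  show ψ0 (r20 * x) = m6_31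
  rw [map_mul, t6_20, ψ0_x]; decide
theorem t6_32 : ψ0 r32 = m6_32 := by
  show ψ0 (r20 * y) = m6_32
  rw [map_mul, t6_20, ψ0_y]; decide
theorem t6_33 : ψ0 r33 = m6_33 := by
  show ψ0 (r21 * y) = m6_33
  rw [map_mul, t6_21, ψ0_y]; decide
theorem t6_34 : ψ0 r34 = m6_34 := by
  show ψ0 (r22 * x) = m6_34
  rw [map_mul, t6_22, ψ0_x]; decide
theorem t6_35 : ψ0 r35 = m6_35 := by
  show ψ0 (r22 * y) = m6_35
  rw [map_mul, t6_22, ψ0_y]; decide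
theorem t6_36 : ψ0 r36 = m6_36 := by
  show ψ0 (r23 * y) = m6_36
  rw [map_mul, t6_23, ψ0_y]; decide
theorem t6_37 : ψ0 r37 = m6_37 := by
  show ψ0 (r24 * x) = m6_37
  rw [map_mul, t6_24, ψ0_x]; decide
theorem t6_38 : ψ0 r38 = m6_38 := by
  show ψ0 (r25 * y) = m6_38
  rw [map_mul, t6_25, ψ0_y]; decide
theorem t6_39 : ψ0 r39 = m6_39 := by
  show ψ0 (r26 * x) = m6_39
  rw [map_mul, t6_26, ψ0_x]; decide
theorem t6_40 : ψ0 r40 = m6_40 := by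
  show ψ0 (r26 * y) = m6_40
  rw [map_mul, t6_26, ψ0_y]; decide
theorem t6_41 : ψ0 r41 = m6_41 := by
  show ψ0 (r27 * x) = m6_41
  rw [map_mul, t6_27, ψ0_x]; decide
theorem t6_42 : ψ0 r42 = m6_42 := by
  show ψ0 (r27 * y) = m6_42
  rw [map_mul, t6_27, ψ0_y]; decide
theorem t6_43 : ψ0 r43 = m6_43 := by
  show ψ0 (r28 * x) = m6_43
  rw [map_mul, t6_28, ψ0_x]; decide
theorem t6_44 : ψ0 r44 = m6_44 := by
  show ψ0 (r28 * y) = m6_44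
  rw [map_mul, t6_28, ψ0_y]; decide
theorem t6_45 : ψ0 r45 = m6_45 := by
  show ψ0 (r29 * y) = m6_45
  rw [map_mul, t6_29, ψ0_y]; decide
theorem t6_46 : ψ0 r46 = m6_46 := by
  show ψ0 (r30 * x) = m6_46
  rw [map_mul, t6_30, ψ0_x]; decide
theorem t6_47 : ψ0 r47 = m6_47 := by
  show ψ0 (r31 * y) = m6_47
  rw [map_mul, t6_31, ψ0_y]; decide
theorem t6_48 : ψ0 r48 = m6_48 := by
  show ψ0 (r32 * x) = m6_48
  rw [map_mul, t6_32, ψ0_x]; decide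
theorem t6_49 : ψ0 r49 = m6_49 := by
  show ψ0 (r32 * y) = m6_49
  rw [map_mul, t6_32, ψ0_y]; decide
theorem t6_50 : ψ0 r50 = m6_50 := by
  show ψ0 (r33 * x) = m6_50
  rw [map_mul, t6_33, ψ0_x]; decide
theorem t6_51 : ψ0 r51 = m6_51 := by
  show ψ0 (r33 * y) = m6_51
  rw [map_mul, t6_33, ψ0_y]; decide
theorem t6_52 : ψ0 r52 = m6_52 := by
  show ψ0 (r35 * x) = m6_52
  rw [map_mul, t6_35, ψ0_x]; decide
theorem t6_53 : ψ0 r53 = m6_53 := by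
  show ψ0 (r35 * y) = m6_53
  rw [map_mul, t6_35, ψ0_y]; decide
theorem t6_54 : ψ0 r54 = m6_54 := by
  show ψ0 (r36 * x) = m6_54
  rw [map_mul, t6_36, ψ0_x]; decide
theorem t6_55 : ψ0 r55 = m6_55 := by
  show ψ0 (r36 * y) = m6_55
  rw [map_mul, t6_36, ψ0_y]; decide
theorem t6_56 : ψ0 r56 = m6_56 := by
  show ψ0 (r37 * y) = m6_56
  rw [map_mul, t6_37, ψ0_y]; decide
theorem t6_57 : ψ0 r57 = m6_57 := by
  show ψ0 (r38 * x) = m6_57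
  rw [map_mul, t6_38, ψ0_x]; decide
theorem t6_58 : ψ0 r58 = m6_58 := by
  show ψ0 (r38 * y) = m6_58
  rw [map_mul, t6_38, ψ0_y]; decide
theorem t6_59 : ψ0 r59 = m6_59 := by
  show ψ0 (r39 * y) = m6_59
  rw [map_mul, t6_39, ψ0_y]; decide
theorem t6_60 : ψ0 r60 = m6_60 := by
  show ψ0 (r40 * x) = m6_60
  rw [map_mul, t6_40, ψ0_x]; decide
theorem t6_61 : ψ0 r61 = m6_61 := by
  show ψ0 (r41 * y) = m6_61
  rw [map_mul, t6_41, ψ0_y]; decide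
theorem t6_62 : ψ0 r62 = m6_62 := by
  show ψ0 (r42 * x) = m6_62
  rw [map_mul, t6_42, ψ0_x]; decide
theorem t6_63 : ψ0 r63 = m6_63 := by
  show ψ0 (r44 * x) = m6_63
  rw [map_mul, t6_44, ψ0_x]; decide
theorem t6_64 : ψ0 r64 = m6_64 := by
  show ψ0 (r44 * y) = m6_64
  rw [map_mul, t6_44, ψ0_y]; decide
theorem t6_65 : ψ0 r65 = m6_65 := by
  show ψ0 (r45 * x) = m6_65
  rw [map_mul, t6_45, ψ0_x]; decide
theorem t6_66 : ψ0 r66 = m6_66 := by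
  show ψ0 (r45 * y) = m6_66
  rw [map_mul, t6_45, ψ0_y]; decide
theorem t6_67 : ψ0 r67 = m6_67 := by
  show ψ0 (r46 * y) = m6_67
  rw [map_mul, t6_46, ψ0_y]; decide
theorem t6_68 : ψ0 r68 = m6_68 := by
  show ψ0 (r47 * x) = m6_68
  rw [map_mul, t6_47, ψ0_x]; decide
theorem t6_69 : ψ0 r69 = m6_69 := by
  show ψ0 (r47 * y) = m6_69
  rw [map_mul, t6_47, ψ0_y]; decide
theorem t6_70 : ψ0 r70 = m6_70 := by
  show ψ0 (r48 * y) = m6_70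
  rw [map_mul, t6_48, ψ0_y]; decide
theorem t6_71 : ψ0 r71 = m6_71 := by
  show ψ0 (r49 * x) = m6_71
  rw [map_mul, t6_49, ψ0_x]; decide
theorem t6_72 : ψ0 r72 = m6_72 := by
  show ψ0 (r50 * y) = m6_72
  rw [map_mul, t6_50, ψ0_y]; decide
theorem t6_73 : ψ0 r73 = m6_73 := by
  show ψ0 (r51 * x) = m6_73
  rw [map_mul, t6_51, ψ0_x]; decide
theorem t6_74 : ψ0 r74 = m6_74 := by
  show ψ0 (r52 * y) = m6_74
  rw [map_mul, t6_52, ψ0_y]; decide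
theorem t6_75 : ψ0 r75 = m6_75 := by
  show ψ0 (r53 * x) = m6_75
  rw [map_mul, t6_53, ψ0_x]; decide
theorem t6_76 : ψ0 r76 = m6_76 := by
  show ψ0 (r54 * y) = m6_76
  rw [map_mul, t6_54, ψ0_y]; decide
theorem t6_77 : ψ0 r77 = m6_77 := by
  show ψ0 (r55 * x) = m6_77
  rw [map_mul, t6_55, ψ0_x]; decide
theorem t6_78 : ψ0 r78 = m6_78 := by
  show ψ0 (r55 * y) = m6_78
  rw [map_mul, t6_55, ψ0_y]; decide
theorem t6_79 : ψ0 r79 = m6_79 := by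
  show ψ0 (r56 * x) = m6_79
  rw [map_mul, t6_56, ψ0_x]; decide
theorem t6_80 : ψ0 r80 = m6_80 := by
  show ψ0 (r56 * y) = m6_80
  rw [map_mul, t6_56, ψ0_y]; decide
theorem t6_81 : ψ0 r81 = m6_81 := by
  show ψ0 (r58 * x) = m6_81
  rw [map_mul, t6_58, ψ0_x]; decide
theorem t6_82 : ψ0 r82 = m6_82 := by
  show ψ0 (r58 * y) = m6_82
  rw [map_mul, t6_58, ψ0_y]; decide
theorem t6_83 : ψ0 r83 = m6_83 := by
  show ψ0 (r59 * x) = m6_83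
  rw [map_mul, t6_59, ψ0_x]; decide
theorem t6_84 : ψ0 r84 = m6_84 := by
  show ψ0 (r60 * y) = m6_84
  rw [map_mul, t6_60, ψ0_y]; decide
theorem t6_85 : ψ0 r85 = m6_85 := by
  show ψ0 (r61 * x) = m6_85
  rw [map_mul, t6_61, ψ0_x]; decide
theorem t6_86 : ψ0 r86 = m6_86 := by
  show ψ0 (r61 * y) = m6_86
  rw [map_mul, t6_61, ψ0_y]; decide
theorem t6_87 : ψ0 r87 = m6_87 := by
  show ψ0 (r62 * y) = m6_87
  rw [map_mul, t6_62, ψ0_y]; decide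
theorem t6_88 : ψ0 r88 = m6_88 := by
  show ψ0 (r63 * y) = m6_88
  rw [map_mul, t6_63, ψ0_y]; decide
theorem t6_89 : ψ0 r89 = m6_89 := by
  show ψ0 (r64 * x) = m6_89
  rw [map_mul, t6_64, ψ0_x]; decide
theorem t6_90 : ψ0 r90 = m6_90 := by
  show ψ0 (r65 * y) = m6_90
  rw [map_mul, t6_65, ψ0_y]; decide
theorem t6_91 : ψ0 r91 = m6_91 := by
  show ψ0 (r66 * x) = m6_91
  rw [map_mul, t6_66, ψ0_x]; decide
theorem t6_92 : ψ0 r92 = m6_92 := by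
  show ψ0 (r66 * y) = m6_92
  rw [map_mul, t6_66, ψ0_y]; decide
theorem t6_93 : ψ0 r93 = m6_93 := by
  show ψ0 (r67 * x) = m6_93
  rw [map_mul, t6_67, ψ0_x]; decide
theorem t6_94 : ψ0 r94 = m6_94 := by
  show ψ0 (r67 * y) = m6_94
  rw [map_mul, t6_67, ψ0_y]; decide
theorem t6_95 : ψ0 r95 = m6_95 := by
  show ψ0 (r69 * x) = m6_95
  rw [map_mul, t6_69, ψ0_x]; decide
theorem t6_96 : ψ0 r96 = m6_96 := by
  show ψ0 (r69 * y) = m6_96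
  rw [map_mul, t6_69, ψ0_y]; decide
theorem t6_97 : ψ0 r97 = m6_97 := by
  show ψ0 (r70 * x) = m6_97
  rw [map_mul, t6_70, ψ0_x]; decide
theorem t6_98 : ψ0 r98 = m6_98 := by
  show ψ0 (r71 * y) = m6_98
  rw [map_mul, t6_71, ψ0_y]; decide
theorem t6_99 : ψ0 r99 = m6_99 := by
  show ψ0 (r72 * x) = m6_99
  rw [map_mul, t6_72, ψ0_x]; decide
theorem t6_100 : ψ0 r100 = m6_100 := by
  show ψ0 (r72 * y) = m6_100
  rw [map_mul, t6_72, ψ0_y]; decide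
theorem t6_101 : ψ0 r101 = m6_101 := by
  show ψ0 (r73 * y) = m6_101
  rw [map_mul, t6_73, ψ0_y]; decide
theorem t6_102 : ψ0 r102 = m6_102 := by
  show ψ0 (r74 * x) = m6_102
  rw [map_mul, t6_74, ψ0_x]; decide
theorem t6_103 : ψ0 r103 = m6_103 := by
  show ψ0 (r74 * y) = m6_103
  rw [map_mul, t6_74, ψ0_y]; decide
theorem t6_104 : ψ0 r104 = m6_104 := by
  show ψ0 (r75 * y) = m6_104
  rw [map_mul, t6_75, ψ0_y]; decide
theorem t6_105 : ψ0 r105 = m6_105 := by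
  show ψ0 (r76 * x) = m6_105
  rw [map_mul, t6_76, ψ0_x]; decide
theorem t6_106 : ψ0 r106 = m6_106 := by
  show ψ0 (r76 * y) = m6_106
  rw [map_mul, t6_76, ψ0_y]; decide
theorem t6_107 : ψ0 r107 = m6_107 := by
  show ψ0 (r77 * y) = m6_107
  rw [map_mul, t6_77, ψ0_y]; decide
theorem t6_108 : ψ0 r108 = m6_108 := by
  show ψ0 (r78 * x) = m6_108
  rw [map_mul, t6_78, ψ0_x]; decide
theorem t6_109 : ψ0 r109 = m6_109 := by
  show ψ0 (r79 * y) = m6_109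
  rw [map_mul, t6_79, ψ0_y]; decide
theorem t6_110 : ψ0 r110 = m6_110 := by
  show ψ0 (r80 * x) = m6_110
  rw [map_mul, t6_80, ψ0_x]; decide
theorem t6_111 : ψ0 r111 = m6_111 := by
  show ψ0 (r81 * y) = m6_111
  rw [map_mul, t6_81, ψ0_y]; decide
theorem t6_112 : ψ0 r112 = m6_112 := by
  show ψ0 (r82 * x) = m6_112
  rw [map_mul, t6_82, ψ0_x]; decide
theorem t6_113 : ψ0 r113 = m6_113 := by
  show ψ0 (r83 * y) = m6_113
  rw [map_mul, t6_83, ψ0_y]; decide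
theorem t6_114 : ψ0 r114 = m6_114 := by
  show ψ0 (r84 * x) = m6_114
  rw [map_mul, t6_84, ψ0_x]; decide
theorem t6_115 : ψ0 r115 = m6_115 := by
  show ψ0 (r84 * y) = m6_115
  rw [map_mul, t6_84, ψ0_y]; decide
theorem t6_116 : ψ0 r116 = m6_116 := by
  show ψ0 (r86 * x) = m6_116
  rw [map_mul, t6_86, ψ0_x]; decide
theorem t6_117 : ψ0 r117 = m6_117 := by
  show ψ0 (r86 * y) = m6_117
  rw [map_mul, t6_86, ψ0_y]; decide
theorem t6_118 : ψ0 r118 = m6_118 := by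
  show ψ0 (r87 * x) = m6_118
  rw [map_mul, t6_87, ψ0_x]; decide
theorem t6_119 : ψ0 r119 = m6_119 := by
  show ψ0 (r88 * x) = m6_119
  rw [map_mul, t6_88, ψ0_x]; decide
theorem t6_120 : ψ0 r120 = m6_120 := by
  show ψ0 (r88 * y) = m6_120
  rw [map_mul, t6_88, ψ0_y]; decide
theorem t6_121 : ψ0 r121 = m6_121 := by
  show ψ0 (r89 * y) = m6_121
  rw [map_mul, t6_89, ψ0_y]; decide
theorem t6_122 : ψ0 r122 = m6_122 := by
  show ψ0 (r90 * x) = m6_122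
  rw [map_mul, t6_90, ψ0_x]; decide
theorem t6_123 : ψ0 r123 = m6_123 := by
  show ψ0 (r90 * y) = m6_123
  rw [map_mul, t6_90, ψ0_y]; decide
theorem t6_124 : ψ0 r124 = m6_124 := by
  show ψ0 (r91 * y) = m6_124
  rw [map_mul, t6_91, ψ0_y]; decide
theorem t6_125 : ψ0 r125 = m6_125 := by
  show ψ0 (r92 * x) = m6_125
  rw [map_mul, t6_92, ψ0_x]; decide
theorem t6_126 : ψ0 r126 = m6_126 := by
  show ψ0 (r93 * y) = m6_126
  rw [map_mul, t6_93, ψ0_y]; decide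
theorem t6_127 : ψ0 r127 = m6_127 := by
  show ψ0 (r94 * x) = m6_127
  rw [map_mul, t6_94, ψ0_x]; decide
theorem t6_128 : ψ0 r128 = m6_128 := by
  show ψ0 (r95 * y) = m6_128
  rw [map_mul, t6_95, ψ0_y]; decide
theorem t6_129 : ψ0 r129 = m6_129 := by
  show ψ0 (r96 * x) = m6_129
  rw [map_mul, t6_96, ψ0_x]; decide
theorem t6_130 : ψ0 r130 = m6_130 := by
  show ψ0 (r97 * y) = m6_130
  rw [map_mul, t6_97, ψ0_y]; decide
theorem t6_131 : ψ0 r131 = m6_131 := by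
  show ψ0 (r98 * x) = m6_131
  rw [map_mul, t6_98, ψ0_x]; decide
theorem t6_132 : ψ0 r132 = m6_132 := by
  show ψ0 (r98 * y) = m6_132
  rw [map_mul, t6_98, ψ0_y]; decide
theorem t6_133 : ψ0 r133 = m6_133 := by
  show ψ0 (r100 * x) = m6_133
  rw [map_mul, t6_100, ψ0_x]; decide
theorem t6_134 : ψ0 r134 = m6_134 := by
  show ψ0 (r100 * y) = m6_134
  rw [map_mul, t6_100, ψ0_y]; decide
theorem t6_135 : ψ0 r135 = m6_135 := by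
  show ψ0 (r101 * x) = m6_135
  rw [map_mul, t6_101, ψ0_x]; decide
theorem t6_136 : ψ0 r136 = m6_136 := by
  show ψ0 (r102 * y) = m6_136
  rw [map_mul, t6_102, ψ0_y]; decide
theorem t6_137 : ψ0 r137 = m6_137 := by
  show ψ0 (r103 * x) = m6_137
  rw [map_mul, t6_103, ψ0_x]; decide
theorem t6_138 : ψ0 r138 = m6_138 := by
  show ψ0 (r103 * y) = m6_138
  rw [map_mul, t6_103, ψ0_y]; decide
theorem t6_139 : ψ0 r139 = m6_139 := by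
  show ψ0 (r104 * x) = m6_139
  rw [map_mul, t6_104, ψ0_x]; decide
theorem t6_140 : ψ0 r140 = m6_140 := by
  show ψ0 (r104 * y) = m6_140
  rw [map_mul, t6_104, ψ0_y]; decide
theorem t6_141 : ψ0 r141 = m6_141 := by
  show ψ0 (r106 * x) = m6_141
  rw [map_mul, t6_106, ψ0_x]; decide
theorem t6_142 : ψ0 r142 = m6_142 := by
  show ψ0 (r106 * y) = m6_142
  rw [map_mul, t6_106, ψ0_y]; decide
theorem t6_143 : ψ0 r143 = m6_143 := by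
  show ψ0 (r107 * x) = m6_143
  rw [map_mul, t6_107, ψ0_x]; decide
theorem t6_144 : ψ0 r144 = m6_144 := by
  show ψ0 (r108 * y) = m6_144
  rw [map_mul, t6_108, ψ0_y]; decide
theorem t6_145 : ψ0 r145 = m6_145 := by
  show ψ0 (r109 * x) = m6_145
  rw [map_mul, t6_109, ψ0_x]; decide
theorem t6_146 : ψ0 r146 = m6_146 := by
  show ψ0 (r109 * y) = m6_146
  rw [map_mul, t6_109, ψ0_y]; decide
theorem t6_147 : ψ0 r147 = m6_147 := by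
  show ψ0 (r110 * y) = m6_147
  rw [map_mul, t6_110, ψ0_y]; decide
theorem t6_148 : ψ0 r148 = m6_148 := by
  show ψ0 (r111 * x) = m6_148
  rw [map_mul, t6_111, ψ0_x]; decide
theorem t6_149 : ψ0 r149 = m6_149 := by
  show ψ0 (r111 * y) = m6_149
  rw [map_mul, t6_111, ψ0_y]; decide
theorem t6_150 : ψ0 r150 = m6_150 := by
  show ψ0 (r112 * y) = m6_150
  rw [map_mul, t6_112, ψ0_y]; decide
theorem t6_151 : ψ0 r151 = m6_151 := by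
  show ψ0 (r113 * x) = m6_151
  rw [map_mul, t6_113, ψ0_x]; decide
theorem t6_152 : ψ0 r152 = m6_152 := by
  show ψ0 (r113 * y) = m6_152
  rw [map_mul, t6_113, ψ0_y]; decide
theorem t6_153 : ψ0 r153 = m6_153 := by
  show ψ0 (r114 * y) = m6_153
  rw [map_mul, t6_114, ψ0_y]; decide
theorem t6_154 : ψ0 r154 = m6_154 := by
  show ψ0 (r115 * x) = m6_154
  rw [map_mul, t6_115, ψ0_x]; decide
theorem t6_155 : ψ0 r155 = m6_155 := by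
  show ψ0 (r116 * y) = m6_155
  rw [map_mul, t6_116, ψ0_y]; decide
theorem t6_156 : ψ0 r156 = m6_156 := by
  show ψ0 (r117 * x) = m6_156
  rw [map_mul, t6_117, ψ0_x]; decide
theorem t6_157 : ψ0 r157 = m6_157 := by
  show ψ0 (r118 * y) = m6_157
  rw [map_mul, t6_118, ψ0_y]; decide
theorem t6_158 : ψ0 r158 = m6_158 := by
  show ψ0 (r120 * x) = m6_158
  rw [map_mul, t6_120, ψ0_x]; decide
theorem t6_159 : ψ0 r159 = m6_159 := by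
  show ψ0 (r120 * y) = m6_159
  rw [map_mul, t6_120, ψ0_y]; decide
theorem t6_160 : ψ0 r160 = m6_160 := by
  show ψ0 (r121 * x) = m6_160
  rw [map_mul, t6_121, ψ0_x]; decide
theorem t6_161 : ψ0 r161 = m6_161 := by
  show ψ0 (r121 * y) = m6_161
  rw [map_mul, t6_121, ψ0_y]; decide
theorem t6_162 : ψ0 r162 = m6_162 := by
  show ψ0 (r123 * x) = m6_162
  rw [map_mul, t6_123, ψ0_x]; decide
theorem t6_163 : ψ0 r163 = m6_163 := by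
  show ψ0 (r123 * y) = m6_163
  rw [map_mul, t6_123, ψ0_y]; decide
theorem t6_164 : ψ0 r164 = m6_164 := by
  show ψ0 (r125 * y) = m6_164
  rw [map_mul, t6_125, ψ0_y]; decide
theorem t6_165 : ψ0 r165 = m6_165 := by
  show ψ0 (r126 * x) = m6_165
  rw [map_mul, t6_126, ψ0_x]; decide
theorem t6_166 : ψ0 r166 = m6_166 := by
  show ψ0 (r126 * y) = m6_166
  rw [map_mul, t6_126, ψ0_y]; decide
theorem t6_167 : ψ0 r167 = m6_167 := by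
  show ψ0 (r127 * y) = m6_167
  rw [map_mul, t6_127, ψ0_y]; decide
theorem t6_168 : ψ0 r168 = m6_168 := by
  show ψ0 (r128 * x) = m6_168
  rw [map_mul, t6_128, ψ0_x]; decide
theorem t6_169 : ψ0 r169 = m6_169 := by
  show ψ0 (r128 * y) = m6_169
  rw [map_mul, t6_128, ψ0_y]; decide
theorem t6_170 : ψ0 r170 = m6_170 := by
  show ψ0 (r129 * y) = m6_170
  rw [map_mul, t6_129, ψ0_y]; decide
theorem t6_171 : ψ0 r171 = m6_171 := by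
  show ψ0 (r130 * x) = m6_171
  rw [map_mul, t6_130, ψ0_x]; decide
theorem t6_172 : ψ0 r172 = m6_172 := by
  show ψ0 (r130 * y) = m6_172
  rw [map_mul, t6_130, ψ0_y]; decide
theorem t6_173 : ψ0 r173 = m6_173 := by
  show ψ0 (r131 * y) = m6_173
  rw [map_mul, t6_131, ψ0_y]; decide
theorem t6_174 : ψ0 r174 = m6_174 := by
  show ψ0 (r132 * x) = m6_174
  rw [map_mul, t6_132, ψ0_x]; decide
theorem t6_175 : ψ0 r175 = m6_175 := by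
  show ψ0 (r133 * y) = m6_175
  rw [map_mul, t6_133, ψ0_y]; decide
theorem t6_176 : ψ0 r176 = m6_176 := by
  show ψ0 (r134 * x) = m6_176
  rw [map_mul, t6_134, ψ0_x]; decide
theorem t6_177 : ψ0 r177 = m6_177 := by
  show ψ0 (r135 * y) = m6_177
  rw [map_mul, t6_135, ψ0_y]; decide
theorem t6_178 : ψ0 r178 = m6_178 := by
  show ψ0 (r136 * y) = m6_178
  rw [map_mul, t6_136, ψ0_y]; decide
theorem t6_179 : ψ0 r179 = m6_179 := by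
  show ψ0 (r137 * y) = m6_179
  rw [map_mul, t6_137, ψ0_y]; decide
theorem t6_180 : ψ0 r180 = m6_180 := by
  show ψ0 (r138 * x) = m6_180
  rw [map_mul, t6_138, ψ0_x]; decide
theorem t6_181 : ψ0 r181 = m6_181 := by
  show ψ0 (r139 * y) = m6_181
  rw [map_mul, t6_139, ψ0_y]; decide
theorem t6_182 : ψ0 r182 = m6_182 := by
  show ψ0 (r140 * x) = m6_182
  rw [map_mul, t6_140, ψ0_x]; decide
theorem t6_183 : ψ0 r183 = m6_183 := by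
  show ψ0 (r141 * y) = m6_183
  rw [map_mul, t6_141, ψ0_y]; decide
theorem t6_184 : ψ0 r184 = m6_184 := by
  show ψ0 (r142 * x) = m6_184
  rw [map_mul, t6_142, ψ0_x]; decide
theorem t6_185 : ψ0 r185 = m6_185 := by
  show ψ0 (r143 * y) = m6_185
  rw [map_mul, t6_143, ψ0_y]; decide
theorem t6_186 : ψ0 r186 = m6_186 := by
  show ψ0 (r144 * x) = m6_186
  rw [map_mul, t6_144, ψ0_x]; decide
theorem t6_187 : ψ0 r187 = m6_187 := by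
  show ψ0 (r144 * y) = m6_187
  rw [map_mul, t6_144, ψ0_y]; decide
theorem t6_188 : ψ0 r188 = m6_188 := by
  show ψ0 (r146 * x) = m6_188
  rw [map_mul, t6_146, ψ0_x]; decide
theorem t6_189 : ψ0 r189 = m6_189 := by
  show ψ0 (r146 * y) = m6_189
  rw [map_mul, t6_146, ψ0_y]; decide
theorem t6_190 : ψ0 r190 = m6_190 := by
  show ψ0 (r147 * x) = m6_190
  rw [map_mul, t6_147, ψ0_x]; decide
theorem t6_191 : ψ0 r191 = m6_191 := by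
  show ψ0 (r148 * y) = m6_191
  rw [map_mul, t6_148, ψ0_y]; decide
theorem t6_192 : ψ0 r192 = m6_192 := by
  show ψ0 (r149 * x) = m6_192
  rw [map_mul, t6_149, ψ0_x]; decide
theorem t6_193 : ψ0 r193 = m6_193 := by
  show ψ0 (r149 * y) = m6_193
  rw [map_mul, t6_149, ψ0_y]; decide
theorem t6_194 : ψ0 r194 = m6_194 := by
  show ψ0 (r150 * x) = m6_194
  rw [map_mul, t6_150, ψ0_x]; decide
theorem t6_195 : ψ0 r195 = m6_195 := by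
  show ψ0 (r150 * y) = m6_195
  rw [map_mul, t6_150, ψ0_y]; decide
theorem t6_196 : ψ0 r196 = m6_196 := by
  show ψ0 (r152 * x) = m6_196
  rw [map_mul, t6_152, ψ0_x]; decide
theorem t6_197 : ψ0 r197 = m6_197 := by
  show ψ0 (r152 * y) = m6_197
  rw [map_mul, t6_152, ψ0_y]; decide
theorem t6_198 : ψ0 r198 = m6_198 := by
  show ψ0 (r153 * x) = m6_198
  rw [map_mul, t6_153, ψ0_x]; decide
theorem t6_199 : ψ0 r199 = m6_199 := by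
  show ψ0 (r153 * y) = m6_199
  rw [map_mul, t6_153, ψ0_y]; decide
theorem t6_200 : ψ0 r200 = m6_200 := by
  show ψ0 (r154 * y) = m6_200
  rw [map_mul, t6_154, ψ0_y]; decide
theorem t6_201 : ψ0 r201 = m6_201 := by
  show ψ0 (r155 * x) = m6_201
  rw [map_mul, t6_155, ψ0_x]; decide
theorem t6_202 : ψ0 r202 = m6_202 := by
  show ψ0 (r155 * y) = m6_202
  rw [map_mul, t6_155, ψ0_y]; decide
theorem t6_203 : ψ0 r203 = m6_203 := by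
  show ψ0 (r156 * y) = m6_203
  rw [map_mul, t6_156, ψ0_y]; decide
theorem t6_204 : ψ0 r204 = m6_204 := by
  show ψ0 (r157 * x) = m6_204
  rw [map_mul, t6_157, ψ0_x]; decide
theorem t6_205 : ψ0 r205 = m6_205 := by
  show ψ0 (r157 * y) = m6_205
  rw [map_mul, t6_157, ψ0_y]; decide
theorem t6_206 : ψ0 r206 = m6_206 := by
  show ψ0 (r158 * y) = m6_206
  rw [map_mul, t6_158, ψ0_y]; decide
theorem t6_207 : ψ0 r207 = m6_207 := by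
  show ψ0 (r159 * x) = m6_207
  rw [map_mul, t6_159, ψ0_x]; decide
theorem t6_208 : ψ0 r208 = m6_208 := by
  show ψ0 (r160 * y) = m6_208
  rw [map_mul, t6_160, ψ0_y]; decide
theorem t6_209 : ψ0 r209 = m6_209 := by
  show ψ0 (r162 * y) = m6_209
  rw [map_mul, t6_162, ψ0_y]; decide
theorem t6_210 : ψ0 r210 = m6_210 := by
  show ψ0 (r163 * x) = m6_210
  rw [map_mul, t6_163, ψ0_x]; decide
theorem t6_211 : ψ0 r211 = m6_211 := by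
  show ψ0 (r164 * x) = m6_211
  rw [map_mul, t6_164, ψ0_x]; decide
theorem t6_212 : ψ0 r212 = m6_212 := by
  show ψ0 (r164 * y) = m6_212
  rw [map_mul, t6_164, ψ0_y]; decide
theorem t6_213 : ψ0 r213 = m6_213 := by
  show ψ0 (r166 * x) = m6_213
  rw [map_mul, t6_166, ψ0_x]; decide
theorem t6_214 : ψ0 r214 = m6_214 := by
  show ψ0 (r166 * y) = m6_214
  rw [map_mul, t6_166, ψ0_y]; decide
theorem t6_215 : ψ0 r215 = m6_215 := by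
  show ψ0 (r167 * x) = m6_215
  rw [map_mul, t6_167, ψ0_x]; decide
theorem t6_216 : ψ0 r216 = m6_216 := by
  show ψ0 (r168 * y) = m6_216
  rw [map_mul, t6_168, ψ0_y]; decide
theorem t6_217 : ψ0 r217 = m6_217 := by
  show ψ0 (r169 * x) = m6_217
  rw [map_mul, t6_169, ψ0_x]; decide
theorem t6_218 : ψ0 r218 = m6_218 := by
  show ψ0 (r169 * y) = m6_218
  rw [map_mul, t6_169, ψ0_y]; decide
theorem t6_219 : ψ0 r219 = m6_219 := by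
  show ψ0 (r170 * x) = m6_219
  rw [map_mul, t6_170, ψ0_x]; decide
theorem t6_220 : ψ0 r220 = m6_220 := by
  show ψ0 (r170 * y) = m6_220
  rw [map_mul, t6_170, ψ0_y]; decide
theorem t6_221 : ψ0 r221 = m6_221 := by
  show ψ0 (r172 * x) = m6_221
  rw [map_mul, t6_172, ψ0_x]; decide
theorem t6_222 : ψ0 r222 = m6_222 := by
  show ψ0 (r173 * y) = m6_222
  rw [map_mul, t6_173, ψ0_y]; decide
theorem t6_223 : ψ0 r223 = m6_223 := by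
  show ψ0 (r174 * y) = m6_223
  rw [map_mul, t6_174, ψ0_y]; decide
theorem t6_224 : ψ0 r224 = m6_224 := by
  show ψ0 (r175 * x) = m6_224
  rw [map_mul, t6_175, ψ0_x]; decide
theorem t6_225 : ψ0 r225 = m6_225 := by
  show ψ0 (r176 * y) = m6_225
  rw [map_mul, t6_176, ψ0_y]; decide
theorem t6_226 : ψ0 r226 = m6_226 := by
  show ψ0 (r177 * x) = m6_226
  rw [map_mul, t6_177, ψ0_x]; decide
theorem t6_227 : ψ0 r227 = m6_227 := by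
  show ψ0 (r177 * y) = m6_227
  rw [map_mul, t6_177, ψ0_y]; decide
theorem t6_228 : ψ0 r228 = m6_228 := by
  show ψ0 (r178 * x) = m6_228
  rw [map_mul, t6_178, ψ0_x]; decide
theorem t6_229 : ψ0 r229 = m6_229 := by
  show ψ0 (r178 * y) = m6_229
  rw [map_mul, t6_178, ψ0_y]; decide
theorem t6_230 : ψ0 r230 = m6_230 := by
  show ψ0 (r181 * x) = m6_230
  rw [map_mul, t6_181, ψ0_x]; decide
theorem t6_231 : ψ0 r231 = m6_231 := by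
  show ψ0 (r181 * y) = m6_231
  rw [map_mul, t6_181, ψ0_y]; decide
theorem t6_232 : ψ0 r232 = m6_232 := by
  show ψ0 (r182 * y) = m6_232
  rw [map_mul, t6_182, ψ0_y]; decide
theorem t6_233 : ψ0 r233 = m6_233 := by
  show ψ0 (r183 * x) = m6_233
  rw [map_mul, t6_183, ψ0_x]; decide
theorem t6_234 : ψ0 r234 = m6_234 := by
  show ψ0 (r183 * y) = m6_234
  rw [map_mul, t6_183, ψ0_y]; decide
theorem t6_235 : ψ0 r235 = m6_235 := by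
  show ψ0 (r184 * y) = m6_235
  rw [map_mul, t6_184, ψ0_y]; decide
theorem t6_236 : ψ0 r236 = m6_236 := by
  show ψ0 (r185 * x) = m6_236
  rw [map_mul, t6_185, ψ0_x]; decide
theorem t6_237 : ψ0 r237 = m6_237 := by
  show ψ0 (r185 * y) = m6_237
  rw [map_mul, t6_185, ψ0_y]; decide
theorem t6_238 : ψ0 r238 = m6_238 := by
  show ψ0 (r186 * y) = m6_238
  rw [map_mul, t6_186, ψ0_y]; decide
theorem t6_239 : ψ0 r239 = m6_239 := by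
  show ψ0 (r187 * x) = m6_239
  rw [map_mul, t6_187, ψ0_x]; decide
theorem t6_240 : ψ0 r240 = m6_240 := by
  show ψ0 (r188 * y) = m6_240
  rw [map_mul, t6_188, ψ0_y]; decide
theorem t6_241 : ψ0 r241 = m6_241 := by
  show ψ0 (r191 * y) = m6_241
  rw [map_mul, t6_191, ψ0_y]; decide
theorem t6_242 : ψ0 r242 = m6_242 := by
  show ψ0 (r192 * y) = m6_242
  rw [map_mul, t6_192, ψ0_y]; decide
theorem t6_243 : ψ0 r243 = m6_243 := by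
  show ψ0 (r193 * x) = m6_243
  rw [map_mul, t6_193, ψ0_x]; decide
theorem t6_244 : ψ0 r244 = m6_244 := by
  show ψ0 (r194 * y) = m6_244
  rw [map_mul, t6_194, ψ0_y]; decide
theorem t6_245 : ψ0 r245 = m6_245 := by
  show ψ0 (r195 * x) = m6_245
  rw [map_mul, t6_195, ψ0_x]; decide
theorem t6_246 : ψ0 r246 = m6_246 := by
  show ψ0 (r196 * y) = m6_246
  rw [map_mul, t6_196, ψ0_y]; decide
theorem t6_247 : ψ0 r247 = m6_247 := by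
  show ψ0 (r199 * x) = m6_247
  rw [map_mul, t6_199, ψ0_x]; decide
theorem t6_248 : ψ0 r248 = m6_248 := by
  show ψ0 (r199 * y) = m6_248
  rw [map_mul, t6_199, ψ0_y]; decide
theorem t6_249 : ψ0 r249 = m6_249 := by
  show ψ0 (r200 * x) = m6_249
  rw [map_mul, t6_200, ψ0_x]; decide
theorem t6_250 : ψ0 r250 = m6_250 := by
  show ψ0 (r201 * y) = m6_250
  rw [map_mul, t6_201, ψ0_y]; decide
theorem t6_251 : ψ0 r251 = m6_251 := by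
  show ψ0 (r202 * y) = m6_251
  rw [map_mul, t6_202, ψ0_y]; decide
theorem t6_252 : ψ0 r252 = m6_252 := by
  show ψ0 (r203 * y) = m6_252
  rw [map_mul, t6_203, ψ0_y]; decide
theorem t6_253 : ψ0 r253 = m6_253 := by
  show ψ0 (r205 * x) = m6_253
  rw [map_mul, t6_205, ψ0_x]; decide
theorem t6_254 : ψ0 r254 = m6_254 := by
  show ψ0 (r205 * y) = m6_254
  rw [map_mul, t6_205, ψ0_y]; decide
theorem t6_255 : ψ0 r255 = m6_255 := by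
  show ψ0 (r208 * x) = m6_255
  rw [map_mul, t6_208, ψ0_x]; decide
theorem t6_256 : ψ0 r256 = m6_256 := by
  show ψ0 (r208 * y) = m6_256
  rw [map_mul, t6_208, ψ0_y]; decide
theorem t6_257 : ψ0 r257 = m6_257 := by
  show ψ0 (r209 * x) = m6_257
  rw [map_mul, t6_209, ψ0_x]; decide
theorem t6_258 : ψ0 r258 = m6_258 := by
  show ψ0 (r209 * y) = m6_258
  rw [map_mul, t6_209, ψ0_y]; decide
theorem t6_259 : ψ0 r259 = m6_259 := by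
  show ψ0 (r210 * y) = m6_259
  rw [map_mul, t6_210, ψ0_y]; decide
theorem t6_260 : ψ0 r260 = m6_260 := by
  show ψ0 (r211 * y) = m6_260
  rw [map_mul, t6_211, ψ0_y]; decide
theorem t6_261 : ψ0 r261 = m6_261 := by
  show ψ0 (r212 * x) = m6_261
  rw [map_mul, t6_212, ψ0_x]; decide
theorem t6_262 : ψ0 r262 = m6_262 := by
  show ψ0 (r213 * y) = m6_262
  rw [map_mul, t6_213, ψ0_y]; decide
theorem t6_263 : ψ0 r263 = m6_263 := by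
  show ψ0 (r216 * y) = m6_263
  rw [map_mul, t6_216, ψ0_y]; decide
theorem t6_264 : ψ0 r264 = m6_264 := by
  show ψ0 (r217 * y) = m6_264
  rw [map_mul, t6_217, ψ0_y]; decide
theorem t6_265 : ψ0 r265 = m6_265 := by
  show ψ0 (r218 * x) = m6_265
  rw [map_mul, t6_218, ψ0_x]; decide
theorem t6_266 : ψ0 r266 = m6_266 := by
  show ψ0 (r219 * y) = m6_266
  rw [map_mul, t6_219, ψ0_y]; decide
theorem t6_267 : ψ0 r267 = m6_267 := by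
  show ψ0 (r220 * x) = m6_267
  rw [map_mul, t6_220, ψ0_x]; decide
theorem t6_268 : ψ0 r268 = m6_268 := by
  show ψ0 (r221 * y) = m6_268
  rw [map_mul, t6_221, ψ0_y]; decide
theorem t6_269 : ψ0 r269 = m6_269 := by
  show ψ0 (r222 * x) = m6_269
  rw [map_mul, t6_222, ψ0_x]; decide
theorem t6_270 : ψ0 r270 = m6_270 := by
  show ψ0 (r222 * y) = m6_270
  rw [map_mul, t6_222, ψ0_y]; decide
theorem t6_271 : ψ0 r271 = m6_271 := by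
  show ψ0 (r223 * x) = m6_271
  rw [map_mul, t6_223, ψ0_x]; decide
theorem t6_272 : ψ0 r272 = m6_272 := by
  show ψ0 (r224 * y) = m6_272
  rw [map_mul, t6_224, ψ0_y]; decide
theorem t6_273 : ψ0 r273 = m6_273 := by
  show ψ0 (r225 * y) = m6_273
  rw [map_mul, t6_225, ψ0_y]; decide
theorem t6_274 : ψ0 r274 = m6_274 := by
  show ψ0 (r227 * x) = m6_274
  rw [map_mul, t6_227, ψ0_x]; decide
theorem t6_275 : ψ0 r275 = m6_275 := by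
  show ψ0 (r227 * y) = m6_275
  rw [map_mul, t6_227, ψ0_y]; decide
theorem t6_276 : ψ0 r276 = m6_276 := by
  show ψ0 (r229 * x) = m6_276
  rw [map_mul, t6_229, ψ0_x]; decide
theorem t6_277 : ψ0 r277 = m6_277 := by
  show ψ0 (r231 * x) = m6_277
  rw [map_mul, t6_231, ψ0_x]; decide
theorem t6_278 : ψ0 r278 = m6_278 := by
  show ψ0 (r231 * y) = m6_278
  rw [map_mul, t6_231, ψ0_y]; decide
theorem t6_279 : ψ0 r279 = m6_279 := by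
  show ψ0 (r232 * x) = m6_279
  rw [map_mul, t6_232, ψ0_x]; decide
theorem t6_280 : ψ0 r280 = m6_280 := by
  show ψ0 (r234 * x) = m6_280
  rw [map_mul, t6_234, ψ0_x]; decide
theorem t6_281 : ψ0 r281 = m6_281 := by
  show ψ0 (r234 * y) = m6_281
  rw [map_mul, t6_234, ψ0_y]; decide
theorem t6_282 : ψ0 r282 = m6_282 := by
  show ψ0 (r235 * x) = m6_282
  rw [map_mul, t6_235, ψ0_x]; decide
theorem t6_283 : ψ0 r283 = m6_283 := by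
  show ψ0 (r235 * y) = m6_283
  rw [map_mul, t6_235, ψ0_y]; decide
theorem t6_284 : ψ0 r284 = m6_284 := by
  show ψ0 (r237 * x) = m6_284
  rw [map_mul, t6_237, ψ0_x]; decide
theorem t6_285 : ψ0 r285 = m6_285 := by
  show ψ0 (r239 * y) = m6_285
  rw [map_mul, t6_239, ψ0_y]; decide
theorem t6_286 : ψ0 r286 = m6_286 := by
  show ψ0 (r240 * x) = m6_286
  rw [map_mul, t6_240, ψ0_x]; decide
theorem t6_287 : ψ0 r287 = m6_287 := by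
  show ψ0 (r241 * x) = m6_287
  rw [map_mul, t6_241, ψ0_x]; decide
theorem t6_288 : ψ0 r288 = m6_288 := by
  show ψ0 (r241 * y) = m6_288
  rw [map_mul, t6_241, ψ0_y]; decide
theorem t6_289 : ψ0 r289 = m6_289 := by
  show ψ0 (r244 * x) = m6_289
  rw [map_mul, t6_244, ψ0_x]; decide
theorem t6_290 : ψ0 r290 = m6_290 := by
  show ψ0 (r246 * x) = m6_290
  rw [map_mul, t6_246, ψ0_x]; decide
theorem t6_291 : ψ0 r291 = m6_291 := by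
  show ψ0 (r246 * y) = m6_291
  rw [map_mul, t6_246, ψ0_y]; decide
theorem t6_292 : ψ0 r292 = m6_292 := by
  show ψ0 (r247 * y) = m6_292
  rw [map_mul, t6_247, ψ0_y]; decide
theorem t6_293 : ψ0 r293 = m6_293 := by
  show ψ0 (r250 * y) = m6_293
  rw [map_mul, t6_250, ψ0_y]; decide
theorem t6_294 : ψ0 r294 = m6_294 := by
  show ψ0 (r251 * x) = m6_294
  rw [map_mul, t6_251, ψ0_x]; decide
theorem t6_295 : ψ0 r295 = m6_295 := by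
  show ψ0 (r252 * x) = m6_295
  rw [map_mul, t6_252, ψ0_x]; decide
theorem t6_296 : ψ0 r296 = m6_296 := by
  show ψ0 (r253 * y) = m6_296
  rw [map_mul, t6_253, ψ0_y]; decide
theorem t6_297 : ψ0 r297 = m6_297 := by
  show ψ0 (r256 * x) = m6_297
  rw [map_mul, t6_256, ψ0_x]; decide
theorem t6_298 : ψ0 r298 = m6_298 := by
  show ψ0 (r256 * y) = m6_298
  rw [map_mul, t6_256, ψ0_y]; decide
theorem t6_299 : ψ0 r299 = m6_299 := by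
  show ψ0 (r258 * x) = m6_299
  rw [map_mul, t6_258, ψ0_x]; decide
theorem t6_300 : ψ0 r300 = m6_300 := by
  show ψ0 (r258 * y) = m6_300
  rw [map_mul, t6_258, ψ0_y]; decide
theorem t6_301 : ψ0 r301 = m6_301 := by
  show ψ0 (r259 * x) = m6_301
  rw [map_mul, t6_259, ψ0_x]; decide
theorem t6_302 : ψ0 r302 = m6_302 := by
  show ψ0 (r259 * y) = m6_302
  rw [map_mul, t6_259, ψ0_y]; decide
theorem t6_303 : ψ0 r303 = m6_303 := by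
  show ψ0 (r261 * y) = m6_303
  rw [map_mul, t6_261, ψ0_y]; decide
theorem t6_304 : ψ0 r304 = m6_304 := by
  show ψ0 (r262 * x) = m6_304
  rw [map_mul, t6_262, ψ0_x]; decide
theorem t6_305 : ψ0 r305 = m6_305 := by
  show ψ0 (r263 * x) = m6_305
  rw [map_mul, t6_263, ψ0_x]; decide
theorem t6_306 : ψ0 r306 = m6_306 := by
  show ψ0 (r263 * y) = m6_306
  rw [map_mul, t6_263, ψ0_y]; decide
theorem t6_307 : ψ0 r307 = m6_307 := by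
  show ψ0 (r266 * x) = m6_307
  rw [map_mul, t6_266, ψ0_x]; decide
theorem t6_308 : ψ0 r308 = m6_308 := by
  show ψ0 (r268 * x) = m6_308
  rw [map_mul, t6_268, ψ0_x]; decide
theorem t6_309 : ψ0 r309 = m6_309 := by
  show ψ0 (r268 * y) = m6_309
  rw [map_mul, t6_268, ψ0_y]; decide
theorem t6_310 : ψ0 r310 = m6_310 := by
  show ψ0 (r269 * y) = m6_310
  rw [map_mul, t6_269, ψ0_y]; decide
theorem t6_311 : ψ0 r311 = m6_311 := by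
  show ψ0 (r272 * y) = m6_311
  rw [map_mul, t6_272, ψ0_y]; decide
theorem t6_312 : ψ0 r312 = m6_312 := by
  show ψ0 (r273 * x) = m6_312
  rw [map_mul, t6_273, ψ0_x]; decide
theorem t6_313 : ψ0 r313 = m6_313 := by
  show ψ0 (r274 * y) = m6_313
  rw [map_mul, t6_274, ψ0_y]; decide
theorem t6_314 : ψ0 r314 = m6_314 := by
  show ψ0 (r276 * y) = m6_314
  rw [map_mul, t6_276, ψ0_y]; decide
theorem t6_315 : ψ0 r315 = m6_315 := by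
  show ψ0 (r277 * y) = m6_315
  rw [map_mul, t6_277, ψ0_y]; decide
theorem t6_316 : ψ0 r316 = m6_316 := by
  show ψ0 (r280 * y) = m6_316
  rw [map_mul, t6_280, ψ0_y]; decide
theorem t6_317 : ψ0 r317 = m6_317 := by
  show ψ0 (r281 * x) = m6_317
  rw [map_mul, t6_281, ψ0_x]; decide
theorem t6_318 : ψ0 r318 = m6_318 := by
  show ψ0 (r282 * y) = m6_318
  rw [map_mul, t6_282, ψ0_y]; decide
theorem t6_319 : ψ0 r319 = m6_319 := by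
  show ψ0 (r283 * x) = m6_319
  rw [map_mul, t6_283, ψ0_x]; decide
theorem t6_320 : ψ0 r320 = m6_320 := by
  show ψ0 (r284 * y) = m6_320
  rw [map_mul, t6_284, ψ0_y]; decide
theorem t6_321 : ψ0 r321 = m6_321 := by
  show ψ0 (r285 * x) = m6_321
  rw [map_mul, t6_285, ψ0_x]; decide
theorem t6_322 : ψ0 r322 = m6_322 := by
  show ψ0 (r286 * y) = m6_322
  rw [map_mul, t6_286, ψ0_y]; decide
theorem t6_323 : ψ0 r323 = m6_323 := by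
  show ψ0 (r288 * x) = m6_323
  rw [map_mul, t6_288, ψ0_x]; decide
theorem t6_324 : ψ0 r324 = m6_324 := by
  show ψ0 (r291 * y) = m6_324
  rw [map_mul, t6_291, ψ0_y]; decide
theorem t6_325 : ψ0 r325 = m6_325 := by
  show ψ0 (r292 * x) = m6_325
  rw [map_mul, t6_292, ψ0_x]; decide
theorem t6_326 : ψ0 r326 = m6_326 := by
  show ψ0 (r293 * x) = m6_326
  rw [map_mul, t6_293, ψ0_x]; decide
theorem t6_327 : ψ0 r327 = m6_327 := by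
  show ψ0 (r296 * x) = m6_327
  rw [map_mul, t6_296, ψ0_x]; decide
theorem t6_328 : ψ0 r328 = m6_328 := by
  show ψ0 (r296 * y) = m6_328
  rw [map_mul, t6_296, ψ0_y]; decide
theorem t6_329 : ψ0 r329 = m6_329 := by
  show ψ0 (r297 * y) = m6_329
  rw [map_mul, t6_297, ψ0_y]; decide
theorem t6_330 : ψ0 r330 = m6_330 := by
  show ψ0 (r299 * y) = m6_330
  rw [map_mul, t6_299, ψ0_y]; decide
theorem t6_331 : ψ0 r331 = m6_331 := by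
  show ψ0 (r300 * x) = m6_331
  rw [map_mul, t6_300, ψ0_x]; decide
theorem t6_332 : ψ0 r332 = m6_332 := by
  show ψ0 (r301 * y) = m6_332
  rw [map_mul, t6_301, ψ0_y]; decide
theorem t6_333 : ψ0 r333 = m6_333 := by
  show ψ0 (r302 * x) = m6_333
  rw [map_mul, t6_302, ψ0_x]; decide
theorem t6_334 : ψ0 r334 = m6_334 := by
  show ψ0 (r303 * x) = m6_334
  rw [map_mul, t6_303, ψ0_x]; decide
theorem t6_335 : ψ0 r335 = m6_335 := by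
  show ψ0 (r304 * y) = m6_335
  rw [map_mul, t6_304, ψ0_y]; decide
theorem t6_336 : ψ0 r336 = m6_336 := by
  show ψ0 (r306 * x) = m6_336
  rw [map_mul, t6_306, ψ0_x]; decide
theorem t6_337 : ψ0 r337 = m6_337 := by
  show ψ0 (r309 * y) = m6_337
  rw [map_mul, t6_309, ψ0_y]; decide
theorem t6_338 : ψ0 r338 = m6_338 := by
  show ψ0 (r310 * x) = m6_338
  rw [map_mul, t6_310, ψ0_x]; decide
theorem t6_339 : ψ0 r339 = m6_339 := by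
  show ψ0 (r311 * x) = m6_339
  rw [map_mul, t6_311, ψ0_x]; decide
theorem t6_340 : ψ0 r340 = m6_340 := by
  show ψ0 (r313 * x) = m6_340
  rw [map_mul, t6_313, ψ0_x]; decide
theorem t6_341 : ψ0 r341 = m6_341 := by
  show ψ0 (r313 * y) = m6_341
  rw [map_mul, t6_313, ψ0_y]; decide
theorem t6_342 : ψ0 r342 = m6_342 := by
  show ψ0 (r314 * x) = m6_342
  rw [map_mul, t6_314, ψ0_x]; decide
theorem t6_343 : ψ0 r343 = m6_343 := by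
  show ψ0 (r314 * y) = m6_343
  rw [map_mul, t6_314, ψ0_y]; decide
theorem t6_344 : ψ0 r344 = m6_344 := by
  show ψ0 (r315 * x) = m6_344
  rw [map_mul, t6_315, ψ0_x]; decide
theorem t6_345 : ψ0 r345 = m6_345 := by
  show ψ0 (r318 * x) = m6_345
  rw [map_mul, t6_318, ψ0_x]; decide
theorem t6_346 : ψ0 r346 = m6_346 := by
  show ψ0 (r320 * x) = m6_346
  rw [map_mul, t6_320, ψ0_x]; decide
theorem t6_347 : ψ0 r347 = m6_347 := by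
  show ψ0 (r320 * y) = m6_347
  rw [map_mul, t6_320, ψ0_y]; decide
theorem t6_348 : ψ0 r348 = m6_348 := by
  show ψ0 (r322 * y) = m6_348
  rw [map_mul, t6_322, ψ0_y]; decide
theorem t6_349 : ψ0 r349 = m6_349 := by
  show ψ0 (r323 * y) = m6_349
  rw [map_mul, t6_323, ψ0_y]; decide
theorem t6_350 : ψ0 r350 = m6_350 := by
  show ψ0 (r324 * x) = m6_350
  rw [map_mul, t6_324, ψ0_x]; decide
theorem t6_351 : ψ0 r351 = m6_351 := by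
  show ψ0 (r325 * y) = m6_351
  rw [map_mul, t6_325, ψ0_y]; decide
theorem t6_352 : ψ0 r352 = m6_352 := by
  show ψ0 (r329 * x) = m6_352
  rw [map_mul, t6_329, ψ0_x]; decide
theorem t6_353 : ψ0 r353 = m6_353 := by
  show ψ0 (r332 * x) = m6_353
  rw [map_mul, t6_332, ψ0_x]; decide
theorem t6_354 : ψ0 r354 = m6_354 := by
  show ψ0 (r335 * y) = m6_354
  rw [map_mul, t6_335, ψ0_y]; decide
theorem t6_355 : ψ0 r355 = m6_355 := by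
  show ψ0 (r336 * y) = m6_355
  rw [map_mul, t6_336, ψ0_y]; decide
theorem t6_356 : ψ0 r356 = m6_356 := by
  show ψ0 (r348 * x) = m6_356
  rw [map_mul, t6_348, ψ0_x]; decide
theorem t6_357 : ψ0 r357 = m6_357 := by
  show ψ0 (r349 * x) = m6_357
  rw [map_mul, t6_349, ψ0_x]; decide
theorem t6_358 : ψ0 r358 = m6_358 := by
  show ψ0 (r349 * y) = m6_358
  rw [map_mul, t6_349, ψ0_y]; decide
theorem t6_359 : ψ0 r359 = m6_359 := by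
  show ψ0 (r351 * y) = m6_359
  rw [map_mul, t6_351, ψ0_y]; decide
def M6 : Fin 360 → Equiv.Perm (Fin 6)
  | ⟨0, _⟩ => m6_0
  | ⟨1, _⟩ => m6_1
  | ⟨2, _⟩ => m6_2
  | ⟨3, _⟩ => m6_3
  | ⟨4, _⟩ => m6_4
  | ⟨5, _⟩ => m6_5
  | ⟨6, _⟩ => m6_6
  | ⟨7, _⟩ => m6_7
  | ⟨8, _⟩ => m6_8
  | ⟨9, _⟩ => m6_9
  | ⟨10, _⟩ => m6_10
  | ⟨11, _⟩ => m6_11
  | ⟨12, _⟩ => m6_12
  | ⟨13, _⟩ => m6_13
  | ⟨14, _⟩ => m6_14
  | ⟨15, _⟩ => m6_15
  | ⟨16, _⟩ => m6_16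
  | ⟨17, _⟩ => m6_17
  | ⟨18, _⟩ => m6_18
  | ⟨19, _⟩ => m6_19
  | ⟨20, _⟩ => m6_20
  | ⟨21, _⟩ => m6_21
  | ⟨22, _⟩ => m6_22
  | ⟨23, _⟩ => m6_23
  | ⟨24, _⟩ => m6_24
  | ⟨25, _⟩ => m6_25
  | ⟨26, _⟩ => m6_26
  | ⟨27, _⟩ => m6_27
  | ⟨28, _⟩ => m6_28
  | ⟨29, _⟩ => m6_29
  | ⟨30, _⟩ => m6_30
  | ⟨31, _⟩ => m6_31
  | ⟨32, _⟩ => m6_32
  | ⟨33, _⟩ => m6_33
  | ⟨34, _⟩ => m6_34
  | ⟨35, _⟩ => m6_35
  | ⟨36, _⟩ => m6_36
  | ⟨37, _⟩ => m6_37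
  | ⟨38, _⟩ => m6_38
  | ⟨39, _⟩ => m6_39
  | ⟨40, _⟩ => m6_40
  | ⟨41, _⟩ => m6_41
  | ⟨42, _⟩ => m6_42
  | ⟨43, _⟩ => m6_43
  | ⟨44, _⟩ => m6_44
  | ⟨45, _⟩ => m6_45
  | ⟨46, _⟩ => m6_46
  | ⟨47, _⟩ => m6_47
  | ⟨48, _⟩ => m6_48
  | ⟨49, _⟩ => m6_49
  | ⟨50, _⟩ => m6_50
  | ⟨51, _⟩ => m6_51
  | ⟨52, _⟩ => m6_52
  | ⟨53, _⟩ => m6_53
  | ⟨54, _⟩ => m6_54
  | ⟨55, _⟩ => m6_55
  | ⟨56, _⟩ => m6_56
  | ⟨57, _⟩ => m6_57
  | ⟨58, _⟩ => m6_58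
  | ⟨59, _⟩ => m6_59
  | ⟨60, _⟩ => m6_60
  | ⟨61, _⟩ => m6_61
  | ⟨62, _⟩ => m6_62
  | ⟨63, _⟩ => m6_63
  | ⟨64, _⟩ => m6_64
  | ⟨65, _⟩ => m6_65
  | ⟨66, _⟩ => m6_66
  | ⟨67, _⟩ => m6_67
  | ⟨68, _⟩ => m6_68
  | ⟨69, _⟩ => m6_69
  | ⟨70, _⟩ => m6_70
  | ⟨71, _⟩ => m6_71
  | ⟨72, _⟩ => m6_72
  | ⟨73, _⟩ => m6_73
  | ⟨74, _⟩ => m6_74
  | ⟨75, _⟩ => m6_75
  | ⟨76, _⟩ => m6_76
  | ⟨77, _⟩ => m6_77
  | ⟨78, _⟩ => m6_78
  | ⟨79, _⟩ => m6_79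
  | ⟨80, _⟩ => m6_80
  | ⟨81, _⟩ => m6_81
  | ⟨82, _⟩ => m6_82
  | ⟨83, _⟩ => m6_83
  | ⟨84, _⟩ => m6_84
  | ⟨85, _⟩ => m6_85
  | ⟨86, _⟩ => m6_86
  | ⟨87, _⟩ => m6_87
  | ⟨88, _⟩ => m6_88
  | ⟨89, _⟩ => m6_89
  | ⟨90, _⟩ => m6_90
  | ⟨91, _⟩ => m6_91
  | ⟨92, _⟩ => m6_92
  | ⟨93, _⟩ => m6_93
  | ⟨94, _⟩ => m6_94
  | ⟨95, _⟩ => m6_95
  | ⟨96, _⟩ => m6_96
  | ⟨97, _⟩ => m6_97
  | ⟨98, _⟩ => m6_98
  | ⟨99, _⟩ => m6_99
  | ⟨100, _⟩ => m6_100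
  | ⟨101, _⟩ => m6_101
  | ⟨102, _⟩ => m6_102
  | ⟨103, _⟩ => m6_103
  | ⟨104, _⟩ => m6_104
  | ⟨105, _⟩ => m6_105
  | ⟨106, _⟩ => m6_106
  | ⟨107, _⟩ => m6_107
  | ⟨108, _⟩ => m6_108
  | ⟨109, _⟩ => m6_109
  | ⟨110, _⟩ => m6_110
  | ⟨111, _⟩ => m6_111
  | ⟨112, _⟩ => m6_112
  | ⟨113, _⟩ => m6_113
  | ⟨114, _⟩ => m6_114
  | ⟨115, _⟩ => m6_115
  | ⟨116, _⟩ => m6_116
  | ⟨117, _⟩ => m6_117
  | ⟨118, _⟩ => m6_118
  | ⟨119, _⟩ => m6_119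
  | ⟨120, _⟩ => m6_120
  | ⟨121, _⟩ => m6_121
  | ⟨122, _⟩ => m6_122
  | ⟨123, _⟩ => m6_123
  | ⟨124, _⟩ => m6_124
  | ⟨125, _⟩ => m6_125
  | ⟨126, _⟩ => m6_126
  | ⟨127, _⟩ => m6_127
  | ⟨128, _⟩ => m6_128
  | ⟨129, _⟩ => m6_129
  | ⟨130, _⟩ => m6_130
  | ⟨131, _⟩ => m6_131
  | ⟨132, _⟩ => m6_132
  | ⟨133, _⟩ => m6_133
  | ⟨134, _⟩ => m6_134
  | ⟨135, _⟩ => m6_135
  | ⟨136, _⟩ => m6_136
  | ⟨137, _⟩ => m6_137
  | ⟨138, _⟩ => m6_138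
  | ⟨139, _⟩ => m6_139
  | ⟨140, _⟩ => m6_140
  | ⟨141, _⟩ => m6_141
  | ⟨142, _⟩ => m6_142
  | ⟨143, _⟩ => m6_143
  | ⟨144, _⟩ => m6_144
  | ⟨145, _⟩ => m6_145
  | ⟨146, _⟩ => m6_146
  | ⟨147, _⟩ => m6_147
  | ⟨148, _⟩ => m6_148
  | ⟨149, _⟩ => m6_149
  | ⟨150, _⟩ => m6_150
  | ⟨151, _⟩ => m6_151
  | ⟨152, _⟩ => m6_152
  | ⟨153, _⟩ => m6_153
  | ⟨154, _⟩ => m6_154
  | ⟨155, _⟩ => m6_155
  | ⟨156, _⟩ => m6_156
  | ⟨157, _⟩ => m6_157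
  | ⟨158, _⟩ => m6_158
  | ⟨159, _⟩ => m6_159
  | ⟨160, _⟩ => m6_160
  | ⟨161, _⟩ => m6_161
  | ⟨162, _⟩ => m6_162
  | ⟨163, _⟩ => m6_163
  | ⟨164, _⟩ => m6_164
  | ⟨165, _⟩ => m6_165
  | ⟨166, _⟩ => m6_166
  | ⟨167, _⟩ => m6_167
  | ⟨168, _⟩ => m6_168
  | ⟨169, _⟩ => m6_169
  | ⟨170, _⟩ => m6_170
  | ⟨171, _⟩ => m6_171
  | ⟨172, _⟩ => m6_172
  | ⟨173, _⟩ => m6_173
  | ⟨174, _⟩ => m6_174
  | ⟨175, _⟩ => m6_175
  | ⟨176, _⟩ => m6_176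
  | ⟨177, _⟩ => m6_177
  | ⟨178, _⟩ => m6_178
  | ⟨179, _⟩ => m6_179
  | ⟨180, _⟩ => m6_180
  | ⟨181, _⟩ => m6_181
  | ⟨182, _⟩ => m6_182
  | ⟨183, _⟩ => m6_183
  | ⟨184, _⟩ => m6_184
  | ⟨185, _⟩ => m6_185
  | ⟨186, _⟩ => m6_186
  | ⟨187, _⟩ => m6_187
  | ⟨188, _⟩ => m6_188
  | ⟨189, _⟩ => m6_189
  | ⟨190, _⟩ => m6_190
  | ⟨191, _⟩ => m6_191
  | ⟨192, _⟩ => m6_192
  | ⟨193, _⟩ => m6_193
  | ⟨194, _⟩ => m6_194
  | ⟨195, _⟩ => m6_195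
  | ⟨196, _⟩ => m6_196
  | ⟨197, _⟩ => m6_197
  | ⟨198, _⟩ => m6_198
  | ⟨199, _⟩ => m6_199
  | ⟨200, _⟩ => m6_200
  | ⟨201, _⟩ => m6_201
  | ⟨202, _⟩ => m6_202
  | ⟨203, _⟩ => m6_203
  | ⟨204, _⟩ => m6_204
  | ⟨205, _⟩ => m6_205
  | ⟨206, _⟩ => m6_206
  | ⟨207, _⟩ => m6_207
  | ⟨208, _⟩ => m6_208
  | ⟨209, _⟩ => m6_209
  | ⟨210, _⟩ => m6_210
  | ⟨211, _⟩ => m6_211
  | ⟨212, _⟩ => m6_212
  | ⟨213, _⟩ => m6_213
  | ⟨214, _⟩ => m6_214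
  | ⟨215, _⟩ => m6_215
  | ⟨216, _⟩ => m6_216
  | ⟨217, _⟩ => m6_217
  | ⟨218, _⟩ => m6_218
  | ⟨219, _⟩ => m6_219
  | ⟨220, _⟩ => m6_220
  | ⟨221, _⟩ => m6_221
  | ⟨222, _⟩ => m6_222
  | ⟨223, _⟩ => m6_223
  | ⟨224, _⟩ => m6_224
  | ⟨225, _⟩ => m6_225
  | ⟨226, _⟩ => m6_226
  | ⟨227, _⟩ => m6_227
  | ⟨228, _⟩ => m6_228
  | ⟨229, _⟩ => m6_229
  | ⟨230, _⟩ => m6_230
  | ⟨231, _⟩ => m6_231
  | ⟨232, _⟩ => m6_232
  | ⟨233, _⟩ => m6_233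
  | ⟨234, _⟩ => m6_234
  | ⟨235, _⟩ => m6_235
  | ⟨236, _⟩ => m6_236
  | ⟨237, _⟩ => m6_237
  | ⟨238, _⟩ => m6_238
  | ⟨239, _⟩ => m6_239
  | ⟨240, _⟩ => m6_240
  | ⟨241, _⟩ => m6_241
  | ⟨242, _⟩ => m6_242
  | ⟨243, _⟩ => m6_243
  | ⟨244, _⟩ => m6_244
  | ⟨245, _⟩ => m6_245
  | ⟨246, _⟩ => m6_246
  | ⟨247, _⟩ => m6_247
  | ⟨248, _⟩ => m6_248
  | ⟨249, _⟩ => m6_249
  | ⟨250, _⟩ => m6_250
  | ⟨251, _⟩ => m6_251
  | ⟨252, _⟩ => m6_252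
  | ⟨253, _⟩ => m6_253
  | ⟨254, _⟩ => m6_254
  | ⟨255, _⟩ => m6_255
  | ⟨256, _⟩ => m6_256
  | ⟨257, _⟩ => m6_257
  | ⟨258, _⟩ => m6_258
  | ⟨259, _⟩ => m6_259
  | ⟨260, _⟩ => m6_260
  | ⟨261, _⟩ => m6_261
  | ⟨262, _⟩ => m6_262
  | ⟨263, _⟩ => m6_263
  | ⟨264, _⟩ => m6_264
  | ⟨265, _⟩ => m6_265
  | ⟨266, _⟩ => m6_266
  | ⟨267, _⟩ => m6_267
  | ⟨268, _⟩ => m6_268
  | ⟨269, _⟩ => m6_269
  | ⟨270, _⟩ => m6_270
  | ⟨271, _⟩ => m6_271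
  | ⟨272, _⟩ => m6_272
  | ⟨273, _⟩ => m6_273
  | ⟨274, _⟩ => m6_274
  | ⟨275, _⟩ => m6_275
  | ⟨276, _⟩ => m6_276
  | ⟨277, _⟩ => m6_277
  | ⟨278, _⟩ => m6_278
  | ⟨279, _⟩ => m6_279
  | ⟨280, _⟩ => m6_280
  | ⟨281, _⟩ => m6_281
  | ⟨282, _⟩ => m6_282
  | ⟨283, _⟩ => m6_283
  | ⟨284, _⟩ => m6_284
  | ⟨285, _⟩ => m6_285
  | ⟨286, _⟩ => m6_286
  | ⟨287, _⟩ => m6_287
  | ⟨288, _⟩ => m6_288
  | ⟨289, _⟩ => m6_289
  | ⟨290, _⟩ => m6_290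
  | ⟨291, _⟩ => m6_291
  | ⟨292, _⟩ => m6_292
  | ⟨293, _⟩ => m6_293
  | ⟨294, _⟩ => m6_294
  | ⟨295, _⟩ => m6_295
  | ⟨296, _⟩ => m6_296
  | ⟨297, _⟩ => m6_297
  | ⟨298, _⟩ => m6_298
  | ⟨299, _⟩ => m6_299
  | ⟨300, _⟩ => m6_300
  | ⟨301, _⟩ => m6_301
  | ⟨302, _⟩ => m6_302
  | ⟨303, _⟩ => m6_303
  | ⟨304, _⟩ => m6_304
  | ⟨305, _⟩ => m6_305
  | ⟨306, _⟩ => m6_306
  | ⟨307, _⟩ => m6_307
  | ⟨308, _⟩ => m6_308
  | ⟨309, _⟩ => m6_309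
  | ⟨310, _⟩ => m6_310
  | ⟨311, _⟩ => m6_311
  | ⟨312, _⟩ => m6_312
  | ⟨313, _⟩ => m6_313
  | ⟨314, _⟩ => m6_314
  | ⟨315, _⟩ => m6_315
  | ⟨316, _⟩ => m6_316
  | ⟨317, _⟩ => m6_317
  | ⟨318, _⟩ => m6_318
  | ⟨319, _⟩ => m6_319
  | ⟨320, _⟩ => m6_320
  | ⟨321, _⟩ => m6_321
  | ⟨322, _⟩ => m6_322
  | ⟨323, _⟩ => m6_323
  | ⟨324, _⟩ => m6_324
  | ⟨325, _⟩ => m6_325
  | ⟨326, _⟩ => m6_326
  | ⟨327, _⟩ => m6_327
  | ⟨328, _⟩ => m6_328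
  | ⟨329, _⟩ => m6_329
  | ⟨330, _⟩ => m6_330
  | ⟨331, _⟩ => m6_331
  | ⟨332, _⟩ => m6_332
  | ⟨333, _⟩ => m6_333
  | ⟨334, _⟩ => m6_334
  | ⟨335, _⟩ => m6_335
  | ⟨336, _⟩ => m6_336
  | ⟨337, _⟩ => m6_337
  | ⟨338, _⟩ => m6_338
  | ⟨339, _⟩ => m6_339
  | ⟨340, _⟩ => m6_340
  | ⟨341, _⟩ => m6_341
  | ⟨342, _⟩ => m6_342
  | ⟨343, _⟩ => m6_343
  | ⟨344, _⟩ => m6_344
  | ⟨345, _⟩ => m6_345
  | ⟨346, _⟩ => m6_346
  | ⟨347, _⟩ => m6_347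
  | ⟨348, _⟩ => m6_348
  | ⟨349, _⟩ => m6_349
  | ⟨350, _⟩ => m6_350
  | ⟨351, _⟩ => m6_351
  | ⟨352, _⟩ => m6_352
  | ⟨353, _⟩ => m6_353
  | ⟨354, _⟩ => m6_354
  | ⟨355, _⟩ => m6_355
  | ⟨356, _⟩ => m6_356
  | ⟨357, _⟩ => m6_357
  | ⟨358, _⟩ => m6_358
  | ⟨359, _⟩ => m6_359
  | ⟨n+360, h⟩ => absurd h (by omega)
theorem ψ0_rep : ∀ i : Fin 360, ψ0 (rep i) = M6 i
  | ⟨0, _⟩ => t6_0
  | ⟨1, _⟩ => t6_1
  | ⟨2, _⟩ => t6_2
  | ⟨3, _⟩ => t6_3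
  | ⟨4, _⟩ => t6_4
  | ⟨5, _⟩ => t6_5
  | ⟨6, _⟩ => t6_6
  | ⟨7, _⟩ => t6_7
  | ⟨8, _⟩ => t6_8
  | ⟨9, _⟩ => t6_9
  | ⟨10, _⟩ => t6_10
  | ⟨11, _⟩ => t6_11
  | ⟨12, _⟩ => t6_12
  | ⟨13, _⟩ => t6_13
  | ⟨14, _⟩ => t6_14
  | ⟨15, _⟩ => t6_15
  | ⟨16, _⟩ => t6_16
  | ⟨17, _⟩ => t6_17
  | ⟨18, _⟩ => t6_18
  | ⟨19, _⟩ => t6_19
  | ⟨20, _⟩ => t6_20
  | ⟨21, _⟩ => t6_21
  | ⟨22, _⟩ => t6_22
  | ⟨23, _⟩ => t6_23
  | ⟨24, _⟩ => t6_24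
  | ⟨25, _⟩ => t6_25
  | ⟨26, _⟩ => t6_26
  | ⟨27, _⟩ => t6_27
  | ⟨28, _⟩ => t6_28
  | ⟨29, _⟩ => t6_29
  | ⟨30, _⟩ => t6_30
  | ⟨31, _⟩ => t6_31
  | ⟨32, _⟩ => t6_32
  | ⟨33, _⟩ => t6_33
  | ⟨34, _⟩ => t6_34
  | ⟨35, _⟩ => t6_35
  | ⟨36, _⟩ => t6_36
  | ⟨37, _⟩ => t6_37
  | ⟨38, _⟩ => t6_38
  | ⟨39, _⟩ => t6_39
  | ⟨40, _⟩ => t6_40
  | ⟨41, _⟩ => t6_41
  | ⟨42, _⟩ => t6_42
  | ⟨43, _⟩ => t6_43
  | ⟨44, _⟩ => t6_44
  | ⟨45, _⟩ => t6_45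
  | ⟨46, _⟩ => t6_46
  | ⟨47, _⟩ => t6_47
  | ⟨48, _⟩ => t6_48
  | ⟨49, _⟩ => t6_49
  | ⟨50, _⟩ => t6_50
  | ⟨51, _⟩ => t6_51
  | ⟨52, _⟩ => t6_52
  | ⟨53, _⟩ => t6_53
  | ⟨54, _⟩ => t6_54
  | ⟨55, _⟩ => t6_55
  | ⟨56, _⟩ => t6_56
  | ⟨57, _⟩ => t6_57
  | ⟨58, _⟩ => t6_58
  | ⟨59, _⟩ => t6_59
  | ⟨60, _⟩ => t6_60
  | ⟨61, _⟩ => t6_61
  | ⟨62, _⟩ => t6_62
  | ⟨63, _⟩ => t6_63
  | ⟨64, _⟩ => t6_64
  | ⟨65, _⟩ => t6_65
  | ⟨66, _⟩ => t6_66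
  | ⟨67, _⟩ => t6_67
  | ⟨68, _⟩ => t6_68
  | ⟨69, _⟩ => t6_69
  | ⟨70, _⟩ => t6_70
  | ⟨71, _⟩ => t6_71
  | ⟨72, _⟩ => t6_72
  | ⟨73, _⟩ => t6_73
  | ⟨74, _⟩ => t6_74
  | ⟨75, _⟩ => t6_75
  | ⟨76, _⟩ => t6_76
  | ⟨77, _⟩ => t6_77
  | ⟨78, _⟩ => t6_78
  | ⟨79, _⟩ => t6_79
  | ⟨80, _⟩ => t6_80
  | ⟨81, _⟩ => t6_81
  | ⟨82, _⟩ => t6_82
  | ⟨83, _⟩ => t6_83
  | ⟨84, _⟩ => t6_84
  | ⟨85, _⟩ => t6_85
  | ⟨86, _⟩ => t6_86
  | ⟨87, _⟩ => t6_87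
  | ⟨88, _⟩ => t6_88
  | ⟨89, _⟩ => t6_89
  | ⟨90, _⟩ => t6_90
  | ⟨91, _⟩ => t6_91
  | ⟨92, _⟩ => t6_92
  | ⟨93, _⟩ => t6_93
  | ⟨94, _⟩ => t6_94
  | ⟨95, _⟩ => t6_95
  | ⟨96, _⟩ => t6_96
  | ⟨97, _⟩ => t6_97
  | ⟨98, _⟩ => t6_98
  | ⟨99, _⟩ => t6_99
  | ⟨100, _⟩ => t6_100
  | ⟨101, _⟩ => t6_101
  | ⟨102, _⟩ => t6_102
  | ⟨103, _⟩ => t6_103
  | ⟨104, _⟩ => t6_104
  | ⟨105, _⟩ => t6_105
  | ⟨106, _⟩ => t6_106
  | ⟨107, _⟩ => t6_107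
  | ⟨108, _⟩ => t6_108
  | ⟨109, _⟩ => t6_109
  | ⟨110, _⟩ => t6_110
  | ⟨111, _⟩ => t6_111
  | ⟨112, _⟩ => t6_112
  | ⟨113, _⟩ => t6_113
  | ⟨114, _⟩ => t6_114
  | ⟨115, _⟩ => t6_115
  | ⟨116, _⟩ => t6_116
  | ⟨117, _⟩ => t6_117
  | ⟨118, _⟩ => t6_118
  | ⟨119, _⟩ => t6_119
  | ⟨120, _⟩ => t6_120
  | ⟨121, _⟩ => t6_121
  | ⟨122, _⟩ => t6_122
  | ⟨123, _⟩ => t6_123
  | ⟨124, _⟩ => t6_124
  | ⟨125, _⟩ => t6_125
  | ⟨126, _⟩ => t6_126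
  | ⟨127, _⟩ => t6_127
  | ⟨128, _⟩ => t6_128
  | ⟨129, _⟩ => t6_129
  | ⟨130, _⟩ => t6_130
  | ⟨131, _⟩ => t6_131
  | ⟨132, _⟩ => t6_132
  | ⟨133, _⟩ => t6_133
  | ⟨134, _⟩ => t6_134
  | ⟨135, _⟩ => t6_135
  | ⟨136, _⟩ => t6_136
  | ⟨137, _⟩ => t6_137
  | ⟨138, _⟩ => t6_138
  | ⟨139, _⟩ => t6_139
  | ⟨140, _⟩ => t6_140
  | ⟨141, _⟩ => t6_141
  | ⟨142, _⟩ => t6_142
  | ⟨143, _⟩ => t6_143
  | ⟨144, _⟩ => t6_144
  | ⟨145, _⟩ => t6_145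
  | ⟨146, _⟩ => t6_146
  | ⟨147, _⟩ => t6_147
  | ⟨148, _⟩ => t6_148
  | ⟨149, _⟩ => t6_149
  | ⟨150, _⟩ => t6_150
  | ⟨151, _⟩ => t6_151
  | ⟨152, _⟩ => t6_152
  | ⟨153, _⟩ => t6_153
  | ⟨154, _⟩ => t6_154
  | ⟨155, _⟩ => t6_155
  | ⟨156, _⟩ => t6_156
  | ⟨157, _⟩ => t6_157
  | ⟨158, _⟩ => t6_158
  | ⟨159, _⟩ => t6_159
  | ⟨160, _⟩ => t6_160
  | ⟨161, _⟩ => t6_161
  | ⟨162, _⟩ => t6_162
  | ⟨163, _⟩ => t6_163
  | ⟨164, _⟩ => t6_164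
  | ⟨165, _⟩ => t6_165
  | ⟨166, _⟩ => t6_166
  | ⟨167, _⟩ => t6_167
  | ⟨168, _⟩ => t6_168
  | ⟨169, _⟩ => t6_169
  | ⟨170, _⟩ => t6_170
  | ⟨171, _⟩ => t6_171
  | ⟨172, _⟩ => t6_172
  | ⟨173, _⟩ => t6_173
  | ⟨174, _⟩ => t6_174
  | ⟨175, _⟩ => t6_175
  | ⟨176, _⟩ => t6_176
  | ⟨177, _⟩ => t6_177
  | ⟨178, _⟩ => t6_178
  | ⟨179, _⟩ => t6_179
  | ⟨180, _⟩ => t6_180
  | ⟨181, _⟩ => t6_181
  | ⟨182, _⟩ => t6_182
  | ⟨183, _⟩ => t6_183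
  | ⟨184, _⟩ => t6_184
  | ⟨185, _⟩ => t6_185
  | ⟨186, _⟩ => t6_186
  | ⟨187, _⟩ => t6_187
  | ⟨188, _⟩ => t6_188
  | ⟨189, _⟩ => t6_189
  | ⟨190, _⟩ => t6_190
  | ⟨191, _⟩ => t6_191
  | ⟨192, _⟩ => t6_192
  | ⟨193, _⟩ => t6_193
  | ⟨194, _⟩ => t6_194
  | ⟨195, _⟩ => t6_195
  | ⟨196, _⟩ => t6_196
  | ⟨197, _⟩ => t6_197
  | ⟨198, _⟩ => t6_198
  | ⟨199, _⟩ => t6_199
  | ⟨200, _⟩ => t6_200
  | ⟨201, _⟩ => t6_201
  | ⟨202, _⟩ => t6_202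
  | ⟨203, _⟩ => t6_203
  | ⟨204, _⟩ => t6_204
  | ⟨205, _⟩ => t6_205
  | ⟨206, _⟩ => t6_206
  | ⟨207, _⟩ => t6_207
  | ⟨208, _⟩ => t6_208
  | ⟨209, _⟩ => t6_209
  | ⟨210, _⟩ => t6_210
  | ⟨211, _⟩ => t6_211
  | ⟨212, _⟩ => t6_212
  | ⟨213, _⟩ => t6_213
  | ⟨214, _⟩ => t6_214
  | ⟨215, _⟩ => t6_215
  | ⟨216, _⟩ => t6_216
  | ⟨217, _⟩ => t6_217
  | ⟨218, _⟩ => t6_218
  | ⟨219, _⟩ => t6_219
  | ⟨220, _⟩ => t6_220
  | ⟨221, _⟩ => t6_221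
  | ⟨222, _⟩ => t6_222
  | ⟨223, _⟩ => t6_223
  | ⟨224, _⟩ => t6_224
  | ⟨225, _⟩ => t6_225
  | ⟨226, _⟩ => t6_226
  | ⟨227, _⟩ => t6_227
  | ⟨228, _⟩ => t6_228
  | ⟨229, _⟩ => t6_229
  | ⟨230, _⟩ => t6_230
  | ⟨231, _⟩ => t6_231
  | ⟨232, _⟩ => t6_232
  | ⟨233, _⟩ => t6_233
  | ⟨234, _⟩ => t6_234
  | ⟨235, _⟩ => t6_235
  | ⟨236, _⟩ => t6_236
  | ⟨237, _⟩ => t6_237
  | ⟨238, _⟩ => t6_238
  | ⟨239, _⟩ => t6_239
  | ⟨240, _⟩ => t6_240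
  | ⟨241, _⟩ => t6_241
  | ⟨242, _⟩ => t6_242
  | ⟨243, _⟩ => t6_243
  | ⟨244, _⟩ => t6_244
  | ⟨245, _⟩ => t6_245
  | ⟨246, _⟩ => t6_246
  | ⟨247, _⟩ => t6_247
  | ⟨248, _⟩ => t6_248
  | ⟨249, _⟩ => t6_249
  | ⟨250, _⟩ => t6_250
  | ⟨251, _⟩ => t6_251
  | ⟨252, _⟩ => t6_252
  | ⟨253, _⟩ => t6_253
  | ⟨254, _⟩ => t6_254
  | ⟨255, _⟩ => t6_255
  | ⟨256, _⟩ => t6_256
  | ⟨257, _⟩ => t6_257
  | ⟨258, _⟩ => t6_258
  | ⟨259, _⟩ => t6_259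
  | ⟨260, _⟩ => t6_260
  | ⟨261, _⟩ => t6_261
  | ⟨262, _⟩ => t6_262
  | ⟨263, _⟩ => t6_263
  | ⟨264, _⟩ => t6_264
  | ⟨265, _⟩ => t6_265
  | ⟨266, _⟩ => t6_266
  | ⟨267, _⟩ => t6_267
  | ⟨268, _⟩ => t6_268
  | ⟨269, _⟩ => t6_269
  | ⟨270, _⟩ => t6_270
  | ⟨271, _⟩ => t6_271
  | ⟨272, _⟩ => t6_272
  | ⟨273, _⟩ => t6_273
  | ⟨274, _⟩ => t6_274
  | ⟨275, _⟩ => t6_275
  | ⟨276, _⟩ => t6_276
  | ⟨277, _⟩ => t6_277
  | ⟨278, _⟩ => t6_278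
  | ⟨279, _⟩ => t6_279
  | ⟨280, _⟩ => t6_280
  | ⟨281, _⟩ => t6_281
  | ⟨282, _⟩ => t6_282
  | ⟨283, _⟩ => t6_283
  | ⟨284, _⟩ => t6_284
  | ⟨285, _⟩ => t6_285
  | ⟨286, _⟩ => t6_286
  | ⟨287, _⟩ => t6_287
  | ⟨288, _⟩ => t6_288
  | ⟨289, _⟩ => t6_289
  | ⟨290, _⟩ => t6_290
  | ⟨291, _⟩ => t6_291
  | ⟨292, _⟩ => t6_292
  | ⟨293, _⟩ => t6_293
  | ⟨294, _⟩ => t6_294
  | ⟨295, _⟩ => t6_295
  | ⟨296, _⟩ => t6_296
  | ⟨297, _⟩ => t6_297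
  | ⟨298, _⟩ => t6_298
  | ⟨299, _⟩ => t6_299
  | ⟨300, _⟩ => t6_300
  | ⟨301, _⟩ => t6_301
  | ⟨302, _⟩ => t6_302
  | ⟨303, _⟩ => t6_303
  | ⟨304, _⟩ => t6_304
  | ⟨305, _⟩ => t6_305
  | ⟨306, _⟩ => t6_306
  | ⟨307, _⟩ => t6_307
  | ⟨308, _⟩ => t6_308
  | ⟨309, _⟩ => t6_309
  | ⟨310, _⟩ => t6_310
  | ⟨311, _⟩ => t6_311
  | ⟨312, _⟩ => t6_312
  | ⟨313, _⟩ => t6_313
  | ⟨314, _⟩ => t6_314
  | ⟨315, _⟩ => t6_315
  | ⟨316, _⟩ => t6_316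
  | ⟨317, _⟩ => t6_317
  | ⟨318, _⟩ => t6_318
  | ⟨319, _⟩ => t6_319
  | ⟨320, _⟩ => t6_320
  | ⟨321, _⟩ => t6_321
  | ⟨322, _⟩ => t6_322
  | ⟨323, _⟩ => t6_323
  | ⟨324, _⟩ => t6_324
  | ⟨325, _⟩ => t6_325
  | ⟨326, _⟩ => t6_326
  | ⟨327, _⟩ => t6_327
  | ⟨328, _⟩ => t6_328
  | ⟨329, _⟩ => t6_329
  | ⟨330, _⟩ => t6_330
  | ⟨331, _⟩ => t6_331
  | ⟨332, _⟩ => t6_332
  | ⟨333, _⟩ => t6_333
  | ⟨334, _⟩ => t6_334
  | ⟨335, _⟩ => t6_335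
  | ⟨336, _⟩ => t6_336
  | ⟨337, _⟩ => t6_337
  | ⟨338, _⟩ => t6_338
  | ⟨339, _⟩ => t6_339
  | ⟨340, _⟩ => t6_340
  | ⟨341, _⟩ => t6_341
  | ⟨342, _⟩ => t6_342
  | ⟨343, _⟩ => t6_343
  | ⟨344, _⟩ => t6_344
  | ⟨345, _⟩ => t6_345
  | ⟨346, _⟩ => t6_346
  | ⟨347, _⟩ => t6_347
  | ⟨348, _⟩ => t6_348
  | ⟨349, _⟩ => t6_349
  | ⟨350, _⟩ => t6_350
  | ⟨351, _⟩ => t6_351
  | ⟨352, _⟩ => t6_352
  | ⟨353, _⟩ => t6_353
  | ⟨354, _⟩ => t6_354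
  | ⟨355, _⟩ => t6_355
  | ⟨356, _⟩ => t6_356
  | ⟨357, _⟩ => t6_357
  | ⟨358, _⟩ => t6_358
  | ⟨359, _⟩ => t6_359
  | ⟨n+360, h⟩ => absurd h (by omega)
def codes6 : List ℕ := [44790, 38130, 15140, 14055, 40340, 25800, 32595, 17850, 30100, 12300, 35240, 21065, 11190, 41715, 43240, 5120, 33065, 28580, 34385, 3645, 40630, 22095, 7285, 24380, 8530, 13085, 21150, 43705, 5815, 16785, 8345, 14350, 30180, 34885, 39865, 16690, 11765, 1870, 17895, 34830, 26795, 30385, 7190, 32275, 24245, 10510, 2045, 25850, 43680, 20530, 21565, 5685, 3010, 26095, 25085, 33230, 39255, 11595, 2945, 28975, 19595, 5020, 39230, 4265, 19645, 17530, 40755, 31520, 12710, 4210, 22705, 26110, 3515, 31425, 23915, 20335, 35400, 14150, 5495, 7395, 22150, 16265, 31725, 35095, 11200, 23740, 16375, 37665, 16390, 27025, 41850, 15195, 6820, 6320, 28595, 23830, 39680, 41605, 12245,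 15935, 23965, 44180, 4835, 11860, 42180, 29640, 21395, 2265, 31595, 16765, 42130, 33895, 6345, 44750, 18040, 1895, 3595, 41530, 44505, 3790, 10535, 35490, 22950, 30250, 2510, 39580, 24295, 35435, 42925, 7460, 38055, 25565, 2140, 5065, 35045, 38240, 8630, 25720, 17645, 22380, 38035, 33815, 11430, 8385, 28705, 3445, 33765, 14850, 21835, 28985, 8780, 37910, 7435, 2985, 8735, 39375, 22270, 15240, 17735, 25240, 28830, 44725, 42850, 12900, 22195, 4495, 42830, 13800, 30685, 22720, 8955, 44355, 6385, 4310, 8980, 31820, 28745, 14130, 32495, 19830, 11345, 34785, 44155, 13575, 18090, 40300, 36085, 20345, 20985, 44605, 41130, 26850, 35285, 4945, 2120, 40275, 39475, 24470, 16485, 39430, 24830, 6795, 37705, 27150, 40980, 17955, 26340, 12820, 43640, 15050, 25680, 42355, 27040, 30050, 38305, 33600, 20580, 41800, 3835, 1935, 32540, 31945, 31835, 17025,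 5540, 20490, 33030, 25520, 13415, 28910, 20925, 13530, 30710, 33555, 2285, 26170, 14920, 22395, 21450, 26285, 42450, 43225, 6020, 24565, 39190, 14715, 29860, 7210, 14415, 12770, 32300, 21855, 12130, 10575, 34050, 29960, 15000, 41150, 2470, 19685, 30300, 19840, 36150, 34375, 7065, 16615, 31445, 13640, 20795, 5735, 13160, 11265, 39825, 11045, 11840, 43080, 36110, 33150, 41055, 43130, 8585, 15975, 19510, 43350, 42375, 4510, 22830, 29905, 38280, 6970, 43000, 20665, 9020, 13065, 34095, 24730, 32945, 40740, 33500, 8410, 23720, 25985, 34530, 3395, 29130, 20875, 44550, 5885, 33935, 26965, 8835, 14390, 16985, 40900, 5935, 44300, 17050, 3735, 42265, 30750, 7045, 24490, 11470, 44400, 3310, 2360, 32865, 13685, 5595, 37815, 24785, 4820, 35605, 21930, 16535, 12545, 37890, 4385, 2535, 40850, 14800, 6860, 31675, 39800, 37640, 23005, 39625, 32235, 25230,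 22905, 15910, 23645, 44115, 29665, 17700, 29600, 12630, 41625, 11580, 35180]

def enc6 (σ : Equiv.Perm (Fin 6)) : ℕ :=
  (σ 0).val + 6 * (σ 1).val + 36 * (σ 2).val + 216 * (σ 3).val + 1296 * (σ 4).val
    + 7776 * (σ 5).val

set_option maxRecDepth 100000 in
theorem dec6_M6 : ∀ i : Fin 360, codes6.idxOf (enc6 (M6 i)) = i.val := by decide

theorem ψ0_rep_inj : ∀ i j : Fin 360, ψ0 (rep i) = ψ0 (rep j) → i = j := by
  intro i j h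
  rw [ψ0_rep, ψ0_rep] at h
  have h1 := dec6_M6 i
  rw [h, dec6_M6 j] at h1
  exact Fin.ext h1.symm

theorem rep_inj : Function.Injective rep := by
  intro i j h
  exact ψ0_rep_inj i j (by rw [h])

theorem card_P : Nat.card P = 360 := by
  rw [← Nat.card_congr (Equiv.ofBijective rep ⟨rep_inj, rep_surj⟩), Nat.card_fin]

instance finite_P : Finite P := Finite.of_surjective rep rep_surj

theorem ψ0_inj : Function.Injective ψ0 := by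
  intro p p' h
  obtain ⟨i, rfl⟩ := rep_surj p
  obtain ⟨j, rfl⟩ := rep_surj p'
  rw [ψ0_rep_inj i j h]

theorem ψ0_range : ψ0.range = alternatingGroup (Fin 6) := by
  apply Equiv.Perm.eq_alternatingGroup_of_index_eq_two
  have hcard : Nat.card ψ0.range = 360 := by
    rw [← Nat.card_congr (MonoidHom.ofInjective ψ0_inj).toEquiv, card_P]
  have h1 := Subgroup.card_mul_index ψ0.range
  rw [hcard, Nat.card_eq_fintype_card, Fintype.card_perm, Fintype.card_fin] at h1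
  have h2 : (6 : ℕ).factorial = 720 := by decide
  rw [h2] at h1
  omega

/-! ### Target 2: `PSL(2, F)` for a field `F` receiving the nine-element field -/

abbrev F9 := QuadraticAlgebra (ZMod 3) (-1) 0

instance hab : Fact (∀ r : ZMod 3, r ^ 2 ≠ -1 + 0 * r) := ⟨by decide⟩

instance fintypeF9 : Fintype F9 :=
  Fintype.ofEquiv (ZMod 3 × ZMod 3) (QuadraticAlgebra.equivProd (-1) 0).symm

theorem card_F9 : Fintype.card F9 = 9 := by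
  rw [Fintype.card_congr (QuadraticAlgebra.equivProd (-1 : ZMod 3) 0)]
  simp

abbrev S9 := Matrix.SpecialLinearGroup (Fin 2) F9

def gA : S9 := ⟨!![⟨0, 0⟩, ⟨0, 1⟩; ⟨0, 1⟩, ⟨0, 0⟩], by rw [Matrix.det_fin_two]; decide⟩
def gB : S9 := ⟨!![⟨1, 0⟩, ⟨1, 0⟩; ⟨1, 1⟩, ⟨2, 1⟩], by rw [Matrix.det_fin_two]; decide⟩
def negOne : S9 := ⟨!![⟨2, 0⟩, ⟨0, 0⟩; ⟨0, 0⟩, ⟨2, 0⟩], by rw [Matrix.det_fin_two]; decide⟩

section target9

variable {F : Type*} [Field F] (f : F9 →+* F)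

/-- `SL(2, F9) → PSL(2, F)`. -/
noncomputable def q : S9 →* Matrix.ProjectiveSpecialLinearGroup (Fin 2) F :=
  (QuotientGroup.mk' (Subgroup.center (Matrix.SpecialLinearGroup (Fin 2) F))).comp
    (Matrix.SpecialLinearGroup.map f)

theorem q_eq_one_iff (m : S9) :
    q f m = 1 ↔ Matrix.SpecialLinearGroup.map f m ∈
      Subgroup.center (Matrix.SpecialLinearGroup (Fin 2) F) := by
  unfold q
  rw [MonoidHom.comp_apply, QuotientGroup.mk'_apply, QuotientGroup.eq_one_iff]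

theorem q_negOne : q f negOne = 1 := by
  rw [q_eq_one_iff, Matrix.SpecialLinearGroup.mem_center_iff]
  refine ⟨f ⟨2, 0⟩, ?_, ?_⟩
  · rw [Fintype.card_fin, ← map_pow]
    have : (⟨2, 0⟩ : F9) ^ 2 = 1 := by decide
    rw [this, map_one]
  · have e : ∀ i j, (Matrix.SpecialLinearGroup.map f negOne).1 i j = f (negOne.1 i j) :=
      fun i j => rfl
    have z : (⟨0, 0⟩ : F9) = 0 := rfl
    ext i j
    rw [e]
    fin_cases i <;> fin_cases j <;> simp [negOne, Matrix.scalar_apply, z]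

theorem q_scalar (m : S9) (h : q f m = 1) :
    m.1 0 1 = 0 ∧ m.1 1 0 = 0 ∧ m.1 0 0 = m.1 1 1 := by
  rw [q_eq_one_iff, Matrix.SpecialLinearGroup.mem_center_iff] at h
  obtain ⟨r, -, hr⟩ := h
  have hinj : Function.Injective f := RingHom.injective f
  have e : ∀ i j, Matrix.scalar (Fin 2) r i j = f (m.1 i j) := by
    intro i j
    rw [hr]
    rfl
  refine ⟨?_, ?_, ?_⟩
  · apply hinj
    rw [← e 0 1, map_zero]
    simp [Matrix.scalar_apply]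
  · apply hinj
    rw [← e 1 0, map_zero]
    simp [Matrix.scalar_apply]
  · apply hinj
    rw [← e 0 0, ← e 1 1]
    simp [Matrix.scalar_apply]

theorem hA2 : gA ^ 2 = negOne := by decide
theorem hB4 : gB ^ 4 = negOne := by decide
theorem hAB5 : (gA * gB) ^ 5 = negOne := by decide
theorem hABB5 : (gA * gB * gB) ^ 5 = 1 := by decide

theorem lift_rel9 : ∀ r ∈ rels, FreeGroup.lift ![q f gA, q f gB] r = 1 := by
  intro r hr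
  simp only [rels, Set.mem_insert_iff, Set.mem_singleton_iff] at hr
  rcases hr with rfl | rfl | rfl | rfl
  · simp only [map_pow, FreeGroup.lift_apply_of]
    show q f gA ^ 2 = 1
    rw [← map_pow, hA2, q_negOne]
  · simp only [map_pow, FreeGroup.lift_apply_of]
    show q f gB ^ 4 = 1
    rw [← map_pow, hB4, q_negOne]
  · simp only [map_pow, map_mul, FreeGroup.lift_apply_of]
    show (q f gA * q f gB) ^ 5 = 1
    rw [← map_mul, ← map_pow, hAB5, q_negOne]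
  · simp only [map_pow, map_mul, FreeGroup.lift_apply_of]
    show (q f gA * q f gB * q f gB) ^ 5 = 1
    rw [← map_mul, ← map_mul, ← map_pow, hABB5, map_one]

noncomputable def Φ : P →* Matrix.ProjectiveSpecialLinearGroup (Fin 2) F :=
  PresentedGroup.toGroup (lift_rel9 f)

theorem Φ_x : Φ f x = q f gA := by simp [Φ, x]
theorem Φ_y : Φ f y = q f gB := by simp [Φ, y]

def m9_0 : S9 := ⟨!![⟨1, 0⟩, ⟨0, 0⟩; ⟨0, 0⟩, ⟨1, 0⟩], by rw [Matrix.det_fin_two]; decide⟩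
def m9_1 : S9 := ⟨!![⟨0, 0⟩, ⟨0, 1⟩; ⟨0, 1⟩, ⟨0, 0⟩], by rw [Matrix.det_fin_two]; decide⟩
def m9_2 : S9 := ⟨!![⟨1, 0⟩, ⟨1, 0⟩; ⟨1, 1⟩, ⟨2, 1⟩], by rw [Matrix.det_fin_two]; decide⟩
def m9_3 : S9 := ⟨!![⟨2, 1⟩, ⟨2, 2⟩; ⟨0, 1⟩, ⟨0, 1⟩], by rw [Matrix.det_fin_two]; decide⟩
def m9_4 : S9 := ⟨!![⟨0, 1⟩, ⟨0, 1⟩; ⟨2, 2⟩, ⟨2, 1⟩], by rw [Matrix.det_fin_two]; decide⟩
def m9_5 : S9 := ⟨!![⟨2, 1⟩, ⟨0, 1⟩; ⟨2, 1⟩, ⟨1, 2⟩], by rw [Matrix.det_fin_two]; decide⟩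
def m9_6 : S9 := ⟨!![⟨1, 2⟩, ⟨2, 2⟩; ⟨2, 0⟩, ⟨2, 0⟩], by rw [Matrix.det_fin_two]; decide⟩
def m9_7 : S9 := ⟨!![⟨2, 2⟩, ⟨1, 1⟩; ⟨2, 2⟩, ⟨2, 0⟩], by rw [Matrix.det_fin_two]; decide⟩
def m9_8 : S9 := ⟨!![⟨2, 2⟩, ⟨2, 0⟩; ⟨0, 2⟩, ⟨2, 0⟩], by rw [Matrix.det_fin_two]; decide⟩
def m9_9 : S9 := ⟨!![⟨2, 0⟩, ⟨2, 2⟩; ⟨1, 1⟩, ⟨2, 2⟩], by rw [Matrix.det_fin_two]; decide⟩
def m9_10 : S9 := ⟨!![⟨1, 2⟩, ⟨1, 0⟩; ⟨1, 1⟩, ⟨2, 0⟩], by rw [Matrix.det_fin_two]; decide⟩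
def m9_11 : S9 := ⟨!![⟨1, 0⟩, ⟨0, 2⟩; ⟨1, 2⟩, ⟨0, 2⟩], by rw [Matrix.det_fin_two]; decide⟩
def m9_12 : S9 := ⟨!![⟨2, 1⟩, ⟨1, 2⟩; ⟨0, 2⟩, ⟨1, 2⟩], by rw [Matrix.det_fin_two]; decide⟩
def m9_13 : S9 := ⟨!![⟨2, 1⟩, ⟨0, 2⟩; ⟨1, 1⟩, ⟨0, 1⟩], by rw [Matrix.det_fin_two]; decide⟩
def m9_14 : S9 := ⟨!![⟨0, 2⟩, ⟨1, 2⟩; ⟨0, 2⟩, ⟨1, 0⟩], by rw [Matrix.det_fin_two]; decide⟩
def m9_15 : S9 := ⟨!![⟨1, 1⟩, ⟨0, 1⟩; ⟨2, 1⟩, ⟨1, 1⟩], by rw [Matrix.det_fin_two]; decide⟩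
def m9_16 : S9 := ⟨!![⟨2, 1⟩, ⟨1, 0⟩; ⟨1, 2⟩, ⟨0, 1⟩], by rw [Matrix.det_fin_two]; decide⟩
def m9_17 : S9 := ⟨!![⟨0, 1⟩, ⟨1, 1⟩; ⟨0, 2⟩, ⟨2, 1⟩], by rw [Matrix.det_fin_two]; decide⟩
def m9_18 : S9 := ⟨!![⟨1, 0⟩, ⟨0, 1⟩; ⟨1, 0⟩, ⟨1, 1⟩], by rw [Matrix.det_fin_two]; decide⟩
def m9_19 : S9 := ⟨!![⟨2, 2⟩, ⟨2, 1⟩; ⟨2, 1⟩, ⟨2, 0⟩], by rw [Matrix.det_fin_two]; decide⟩
def m9_20 : S9 := ⟨!![⟨1, 1⟩, ⟨2, 0⟩; ⟨2, 2⟩, ⟨0, 1⟩], by rw [Matrix.det_fin_two]; decide⟩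
def m9_21 : S9 := ⟨!![⟨1, 0⟩, ⟨2, 2⟩; ⟨2, 0⟩, ⟨2, 1⟩], by rw [Matrix.det_fin_two]; decide⟩
def m9_22 : S9 := ⟨!![⟨2, 2⟩, ⟨0, 1⟩; ⟨1, 0⟩, ⟨2, 0⟩], by rw [Matrix.det_fin_two]; decide⟩
def m9_23 : S9 := ⟨!![⟨2, 0⟩, ⟨2, 1⟩; ⟨2, 1⟩, ⟨2, 2⟩], by rw [Matrix.det_fin_two]; decide⟩
def m9_24 : S9 := ⟨!![⟨0, 2⟩, ⟨0, 0⟩; ⟨2, 0⟩, ⟨0, 1⟩], by rw [Matrix.det_fin_two]; decide⟩
def m9_25 : S9 := ⟨!![⟨0, 1⟩, ⟨2, 2⟩; ⟨2, 0⟩, ⟨1, 1⟩], by rw [Matrix.det_fin_two]; decide⟩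
def m9_26 : S9 := ⟨!![⟨0, 2⟩, ⟨1, 2⟩; ⟨0, 0⟩, ⟨0, 1⟩], by rw [Matrix.det_fin_two]; decide⟩
def m9_27 : S9 := ⟨!![⟨0, 0⟩, ⟨1, 1⟩; ⟨1, 2⟩, ⟨0, 0⟩], by rw [Matrix.det_fin_two]; decide⟩
def m9_28 : S9 := ⟨!![⟨0, 1⟩, ⟨0, 2⟩; ⟨1, 2⟩, ⟨2, 0⟩], by rw [Matrix.det_fin_two]; decide⟩
def m9_29 : S9 := ⟨!![⟨2, 2⟩, ⟨1, 2⟩; ⟨0, 2⟩, ⟨2, 2⟩], by rw [Matrix.det_fin_two]; decide⟩
def m9_30 : S9 := ⟨!![⟨0, 2⟩, ⟨2, 0⟩; ⟨1, 0⟩, ⟨0, 0⟩], by rw [Matrix.det_fin_two]; decide⟩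
def m9_31 : S9 := ⟨!![⟨0, 2⟩, ⟨2, 1⟩; ⟨2, 0⟩, ⟨1, 2⟩], by rw [Matrix.det_fin_two]; decide⟩
def m9_32 : S9 := ⟨!![⟨0, 0⟩, ⟨2, 0⟩; ⟨1, 0⟩, ⟨1, 1⟩], by rw [Matrix.det_fin_two]; decide⟩
def m9_33 : S9 := ⟨!![⟨1, 1⟩, ⟨0, 0⟩; ⟨0, 0⟩, ⟨2, 1⟩], by rw [Matrix.det_fin_two]; decide⟩
def m9_34 : S9 := ⟨!![⟨2, 0⟩, ⟨1, 2⟩; ⟨0, 2⟩, ⟨0, 1⟩], by rw [Matrix.det_fin_two]; decide⟩
def m9_35 : S9 := ⟨!![⟨1, 0⟩, ⟨1, 1⟩; ⟨0, 2⟩, ⟨2, 2⟩], by rw [Matrix.det_fin_two]; decide⟩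
def m9_36 : S9 := ⟨!![⟨0, 0⟩, ⟨2, 1⟩; ⟨2, 2⟩, ⟨1, 1⟩], by rw [Matrix.det_fin_two]; decide⟩
def m9_37 : S9 := ⟨!![⟨0, 0⟩, ⟨1, 0⟩; ⟨2, 0⟩, ⟨0, 2⟩], by rw [Matrix.det_fin_two]; decide⟩
def m9_38 : S9 := ⟨!![⟨0, 2⟩, ⟨2, 1⟩; ⟨2, 2⟩, ⟨0, 0⟩], by rw [Matrix.det_fin_two]; decide⟩
def m9_39 : S9 := ⟨!![⟨1, 1⟩, ⟨1, 0⟩; ⟨2, 0⟩, ⟨0, 0⟩], by rw [Matrix.det_fin_two]; decide⟩
def m9_40 : S9 := ⟨!![⟨2, 2⟩, ⟨0, 1⟩; ⟨2, 1⟩, ⟨2, 2⟩], by rw [Matrix.det_fin_two]; decide⟩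
def m9_41 : S9 := ⟨!![⟨2, 1⟩, ⟨0, 0⟩; ⟨0, 0⟩, ⟨1, 1⟩], by rw [Matrix.det_fin_two]; decide⟩
def m9_42 : S9 := ⟨!![⟨0, 2⟩, ⟨1, 0⟩; ⟨1, 2⟩, ⟨1, 2⟩], by rw [Matrix.det_fin_two]; decide⟩
def m9_43 : S9 := ⟨!![⟨1, 0⟩, ⟨2, 0⟩; ⟨0, 2⟩, ⟨1, 1⟩], by rw [Matrix.det_fin_two]; decide⟩
def m9_44 : S9 := ⟨!![⟨1, 0⟩, ⟨1, 2⟩; ⟨0, 1⟩, ⟨2, 1⟩], by rw [Matrix.det_fin_two]; decide⟩
def m9_45 : S9 := ⟨!![⟨1, 2⟩, ⟨2, 1⟩; ⟨0, 0⟩, ⟨2, 2⟩], by rw [Matrix.det_fin_two]; decide⟩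
def m9_46 : S9 := ⟨!![⟨0, 2⟩, ⟨1, 0⟩; ⟨0, 0⟩, ⟨0, 1⟩], by rw [Matrix.det_fin_two]; decide⟩
def m9_47 : S9 := ⟨!![⟨1, 2⟩, ⟨0, 0⟩; ⟨1, 0⟩, ⟨2, 2⟩], by rw [Matrix.det_fin_two]; decide⟩
def m9_48 : S9 := ⟨!![⟨0, 2⟩, ⟨0, 0⟩; ⟨2, 1⟩, ⟨0, 1⟩], by rw [Matrix.det_fin_two]; decide⟩
def m9_49 : S9 := ⟨!![⟨2, 2⟩, ⟨1, 2⟩; ⟨1, 2⟩, ⟨2, 0⟩], by rw [Matrix.det_fin_two]; decide⟩
def m9_50 : S9 := ⟨!![⟨0, 0⟩, ⟨2, 1⟩; ⟨2, 2⟩, ⟨0, 0⟩], by rw [Matrix.det_fin_two]; decide⟩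
def m9_51 : S9 := ⟨!![⟨1, 1⟩, ⟨1, 1⟩; ⟨1, 0⟩, ⟨0, 1⟩], by rw [Matrix.det_fin_two]; decide⟩
def m9_52 : S9 := ⟨!![⟨2, 1⟩, ⟨0, 1⟩; ⟨1, 2⟩, ⟨1, 0⟩], by rw [Matrix.det_fin_two]; decide⟩
def m9_53 : S9 := ⟨!![⟨1, 2⟩, ⟨2, 0⟩; ⟨0, 0⟩, ⟨2, 2⟩], by rw [Matrix.det_fin_two]; decide⟩
def m9_54 : S9 := ⟨!![⟨2, 2⟩, ⟨0, 0⟩; ⟨2, 1⟩, ⟨1, 2⟩], by rw [Matrix.det_fin_two]; decide⟩
def m9_55 : S9 := ⟨!![⟨1, 0⟩, ⟨0, 1⟩; ⟨2, 1⟩, ⟨0, 2⟩], by rw [Matrix.det_fin_two]; decide⟩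
def m9_56 : S9 := ⟨!![⟨1, 1⟩, ⟨2, 1⟩; ⟨0, 2⟩, ⟨0, 1⟩], by rw [Matrix.det_fin_two]; decide⟩
def m9_57 : S9 := ⟨!![⟨2, 2⟩, ⟨1, 0⟩; ⟨0, 0⟩, ⟨1, 2⟩], by rw [Matrix.det_fin_two]; decide⟩
def m9_58 : S9 := ⟨!![⟨1, 2⟩, ⟨0, 0⟩; ⟨2, 2⟩, ⟨2, 2⟩], by rw [Matrix.det_fin_two]; decide⟩
def m9_59 : S9 := ⟨!![⟨2, 2⟩, ⟨0, 2⟩; ⟨2, 0⟩, ⟨2, 0⟩], by rw [Matrix.det_fin_two]; decide⟩
def m9_60 : S9 := ⟨!![⟨2, 0⟩, ⟨1, 2⟩; ⟨1, 2⟩, ⟨2, 2⟩], by rw [Matrix.det_fin_two]; decide⟩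
def m9_61 : S9 := ⟨!![⟨2, 1⟩, ⟨2, 1⟩; ⟨0, 2⟩, ⟨1, 0⟩], by rw [Matrix.det_fin_two]; decide⟩
def m9_62 : S9 := ⟨!![⟨0, 1⟩, ⟨1, 0⟩; ⟨1, 1⟩, ⟨1, 1⟩], by rw [Matrix.det_fin_two]; decide⟩
def m9_63 : S9 := ⟨!![⟨1, 1⟩, ⟨0, 1⟩; ⟨2, 2⟩, ⟨2, 0⟩], by rw [Matrix.det_fin_two]; decide⟩
def m9_64 : S9 := ⟨!![⟨0, 0⟩, ⟨1, 2⟩; ⟨1, 1⟩, ⟨0, 2⟩], by rw [Matrix.det_fin_two]; decide⟩
def m9_65 : S9 := ⟨!![⟨2, 2⟩, ⟨1, 1⟩; ⟨1, 2⟩, ⟨0, 0⟩], by rw [Matrix.det_fin_two]; decide⟩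
def m9_66 : S9 := ⟨!![⟨2, 2⟩, ⟨1, 0⟩; ⟨0, 1⟩, ⟨2, 0⟩], by rw [Matrix.det_fin_two]; decide⟩
def m9_67 : S9 := ⟨!![⟨1, 0⟩, ⟨2, 0⟩; ⟨2, 1⟩, ⟨2, 2⟩], by rw [Matrix.det_fin_two]; decide⟩
def m9_68 : S9 := ⟨!![⟨0, 0⟩, ⟨1, 1⟩; ⟨1, 2⟩, ⟨0, 1⟩], by rw [Matrix.det_fin_two]; decide⟩
def m9_69 : S9 := ⟨!![⟨1, 2⟩, ⟨1, 2⟩; ⟨1, 1⟩, ⟨0, 0⟩], by rw [Matrix.det_fin_two]; decide⟩
def m9_70 : S9 := ⟨!![⟨0, 2⟩, ⟨0, 2⟩; ⟨1, 2⟩, ⟨1, 0⟩], by rw [Matrix.det_fin_two]; decide⟩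
def m9_71 : S9 := ⟨!![⟨1, 1⟩, ⟨1, 2⟩; ⟨0, 2⟩, ⟨1, 1⟩], by rw [Matrix.det_fin_two]; decide⟩
def m9_72 : S9 := ⟨!![⟨1, 0⟩, ⟨0, 1⟩; ⟨2, 2⟩, ⟨2, 2⟩], by rw [Matrix.det_fin_two]; decide⟩
def m9_73 : S9 := ⟨!![⟨2, 1⟩, ⟨2, 1⟩; ⟨2, 0⟩, ⟨0, 1⟩], by rw [Matrix.det_fin_two]; decide⟩
def m9_74 : S9 := ⟨!![⟨1, 2⟩, ⟨1, 0⟩; ⟨2, 0⟩, ⟨0, 0⟩], by rw [Matrix.det_fin_two]; decide⟩
def m9_75 : S9 := ⟨!![⟨0, 2⟩, ⟨1, 1⟩; ⟨1, 2⟩, ⟨0, 0⟩], by rw [Matrix.det_fin_two]; decide⟩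
def m9_76 : S9 := ⟨!![⟨2, 2⟩, ⟨2, 2⟩; ⟨1, 1⟩, ⟨2, 0⟩], by rw [Matrix.det_fin_two]; decide⟩
def m9_77 : S9 := ⟨!![⟨2, 0⟩, ⟨0, 1⟩; ⟨1, 0⟩, ⟨2, 2⟩], by rw [Matrix.det_fin_two]; decide⟩
def m9_78 : S9 := ⟨!![⟨0, 1⟩, ⟨0, 2⟩; ⟨0, 0⟩, ⟨0, 2⟩], by rw [Matrix.det_fin_two]; decide⟩
def m9_79 : S9 := ⟨!![⟨2, 2⟩, ⟨2, 1⟩; ⟨2, 0⟩, ⟨1, 0⟩], by rw [Matrix.det_fin_two]; decide⟩
def m9_80 : S9 := ⟨!![⟨2, 1⟩, ⟨1, 2⟩; ⟨2, 0⟩, ⟨2, 1⟩], by rw [Matrix.det_fin_two]; decide⟩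
def m9_81 : S9 := ⟨!![⟨0, 0⟩, ⟨1, 1⟩; ⟨1, 2⟩, ⟨1, 2⟩], by rw [Matrix.det_fin_two]; decide⟩
def m9_82 : S9 := ⟨!![⟨1, 2⟩, ⟨1, 2⟩; ⟨2, 0⟩, ⟨1, 2⟩], by rw [Matrix.det_fin_two]; decide⟩
def m9_83 : S9 := ⟨!![⟨1, 0⟩, ⟨1, 2⟩; ⟨0, 2⟩, ⟨0, 2⟩], by rw [Matrix.det_fin_two]; decide⟩
def m9_84 : S9 := ⟨!![⟨1, 0⟩, ⟨2, 2⟩; ⟨1, 0⟩, ⟨0, 2⟩], by rw [Matrix.det_fin_two]; decide⟩
def m9_85 : S9 := ⟨!![⟨2, 2⟩, ⟨2, 2⟩; ⟨0, 1⟩, ⟨1, 0⟩], by rw [Matrix.det_fin_two]; decide⟩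
def m9_86 : S9 := ⟨!![⟨0, 1⟩, ⟨2, 2⟩; ⟨1, 0⟩, ⟨2, 0⟩], by rw [Matrix.det_fin_two]; decide⟩
def m9_87 : S9 := ⟨!![⟨1, 2⟩, ⟨2, 2⟩; ⟨1, 0⟩, ⟨2, 1⟩], by rw [Matrix.det_fin_two]; decide⟩
def m9_88 : S9 := ⟨!![⟨0, 2⟩, ⟨0, 0⟩; ⟨1, 1⟩, ⟨0, 1⟩], by rw [Matrix.det_fin_two]; decide⟩
def m9_89 : S9 := ⟨!![⟨1, 1⟩, ⟨0, 0⟩; ⟨1, 0⟩, ⟨2, 1⟩], by rw [Matrix.det_fin_two]; decide⟩
def m9_90 : S9 := ⟨!![⟨2, 1⟩, ⟨0, 2⟩; ⟨1, 2⟩, ⟨1, 2⟩], by rw [Matrix.det_fin_two]; decide⟩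
def m9_91 : S9 := ⟨!![⟨0, 1⟩, ⟨1, 2⟩; ⟨0, 2⟩, ⟨2, 0⟩], by rw [Matrix.det_fin_two]; decide⟩
def m9_92 : S9 := ⟨!![⟨0, 0⟩, ⟨1, 0⟩; ⟨2, 0⟩, ⟨1, 0⟩], by rw [Matrix.det_fin_two]; decide⟩
def m9_93 : S9 := ⟨!![⟨0, 2⟩, ⟨0, 1⟩; ⟨1, 2⟩, ⟨2, 2⟩], by rw [Matrix.det_fin_two]; decide⟩
def m9_94 : S9 := ⟨!![⟨0, 2⟩, ⟨2, 2⟩; ⟨2, 2⟩, ⟨1, 1⟩], by rw [Matrix.det_fin_two]; decide⟩
def m9_95 : S9 := ⟨!![⟨1, 1⟩, ⟨1, 1⟩; ⟨0, 0⟩, ⟨2, 1⟩], by rw [Matrix.det_fin_two]; decide⟩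
def m9_96 : S9 := ⟨!![⟨0, 2⟩, ⟨1, 1⟩; ⟨1, 1⟩, ⟨1, 1⟩], by rw [Matrix.det_fin_two]; decide⟩
def m9_97 : S9 := ⟨!![⟨1, 0⟩, ⟨1, 0⟩; ⟨0, 1⟩, ⟨1, 1⟩], by rw [Matrix.det_fin_two]; decide⟩
def m9_98 : S9 := ⟨!![⟨0, 1⟩, ⟨1, 0⟩; ⟨0, 1⟩, ⟨1, 2⟩], by rw [Matrix.det_fin_two]; decide⟩
def m9_99 : S9 := ⟨!![⟨2, 0⟩, ⟨0, 1⟩; ⟨1, 2⟩, ⟨1, 2⟩], by rw [Matrix.det_fin_two]; decide⟩
def m9_100 : S9 := ⟨!![⟨0, 1⟩, ⟨0, 2⟩; ⟨2, 0⟩, ⟨1, 2⟩], by rw [Matrix.det_fin_two]; decide⟩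
def m9_101 : S9 := ⟨!![⟨0, 1⟩, ⟨2, 2⟩; ⟨1, 1⟩, ⟨1, 2⟩], by rw [Matrix.det_fin_two]; decide⟩
def m9_102 : S9 := ⟨!![⟨0, 1⟩, ⟨1, 1⟩; ⟨0, 0⟩, ⟨0, 2⟩], by rw [Matrix.det_fin_two]; decide⟩
def m9_103 : S9 := ⟨!![⟨2, 0⟩, ⟨0, 0⟩; ⟨2, 0⟩, ⟨2, 0⟩], by rw [Matrix.det_fin_two]; decide⟩
def m9_104 : S9 := ⟨!![⟨0, 1⟩, ⟨1, 2⟩; ⟨1, 2⟩, ⟨1, 2⟩], by rw [Matrix.det_fin_two]; decide⟩
def m9_105 : S9 := ⟨!![⟨1, 2⟩, ⟨1, 2⟩; ⟨0, 2⟩, ⟨2, 1⟩], by rw [Matrix.det_fin_two]; decide⟩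
def m9_106 : S9 := ⟨!![⟨2, 0⟩, ⟨1, 2⟩; ⟨0, 0⟩, ⟨2, 0⟩], by rw [Matrix.det_fin_two]; decide⟩
def m9_107 : S9 := ⟨!![⟨1, 1⟩, ⟨1, 2⟩; ⟨1, 1⟩, ⟨0, 0⟩], by rw [Matrix.det_fin_two]; decide⟩
def m9_108 : S9 := ⟨!![⟨1, 0⟩, ⟨2, 0⟩; ⟨1, 0⟩, ⟨0, 0⟩], by rw [Matrix.det_fin_two]; decide⟩
def m9_109 : S9 := ⟨!![⟨0, 2⟩, ⟨2, 0⟩; ⟨0, 1⟩, ⟨1, 1⟩], by rw [Matrix.det_fin_two]; decide⟩
def m9_110 : S9 := ⟨!![⟨1, 1⟩, ⟨2, 2⟩; ⟨2, 2⟩, ⟨0, 2⟩], by rw [Matrix.det_fin_two]; decide⟩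
def m9_111 : S9 := ⟨!![⟨0, 2⟩, ⟨1, 0⟩; ⟨0, 2⟩, ⟨1, 1⟩], by rw [Matrix.det_fin_two]; decide⟩
def m9_112 : S9 := ⟨!![⟨1, 1⟩, ⟨1, 1⟩; ⟨1, 1⟩, ⟨0, 2⟩], by rw [Matrix.det_fin_two]; decide⟩
def m9_113 : S9 := ⟨!![⟨0, 0⟩, ⟨1, 2⟩; ⟨1, 1⟩, ⟨1, 0⟩], by rw [Matrix.det_fin_two]; decide⟩
def m9_114 : S9 := ⟨!![⟨1, 2⟩, ⟨0, 1⟩; ⟨1, 0⟩, ⟨0, 1⟩], by rw [Matrix.det_fin_two]; decide⟩
def m9_115 : S9 := ⟨!![⟨1, 1⟩, ⟨0, 0⟩; ⟨2, 2⟩, ⟨2, 1⟩], by rw [Matrix.det_fin_two]; decide⟩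
def m9_116 : S9 := ⟨!![⟨1, 2⟩, ⟨2, 0⟩; ⟨0, 2⟩, ⟨0, 1⟩], by rw [Matrix.det_fin_two]; decide⟩
def m9_117 : S9 := ⟨!![⟨0, 2⟩, ⟨2, 1⟩; ⟨0, 2⟩, ⟨2, 2⟩], by rw [Matrix.det_fin_two]; decide⟩
def m9_118 : S9 := ⟨!![⟨1, 2⟩, ⟨1, 1⟩; ⟨2, 2⟩, ⟨0, 1⟩], by rw [Matrix.det_fin_two]; decide⟩
def m9_119 : S9 := ⟨!![⟨0, 0⟩, ⟨1, 0⟩; ⟨2, 0⟩, ⟨2, 1⟩], by rw [Matrix.det_fin_two]; decide⟩
def m9_120 : S9 := ⟨!![⟨0, 2⟩, ⟨0, 2⟩; ⟨0, 2⟩, ⟨0, 0⟩], by rw [Matrix.det_fin_two]; decide⟩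
def m9_121 : S9 := ⟨!![⟨1, 1⟩, ⟨1, 1⟩; ⟨2, 0⟩, ⟨1, 1⟩], by rw [Matrix.det_fin_two]; decide⟩
def m9_122 : S9 := ⟨!![⟨1, 0⟩, ⟨2, 2⟩; ⟨1, 1⟩, ⟨1, 1⟩], by rw [Matrix.det_fin_two]; decide⟩
def m9_123 : S9 := ⟨!![⟨0, 0⟩, ⟨0, 2⟩; ⟨0, 2⟩, ⟨1, 1⟩], by rw [Matrix.det_fin_two]; decide⟩
def m9_124 : S9 := ⟨!![⟨2, 1⟩, ⟨0, 0⟩; ⟨2, 1⟩, ⟨1, 1⟩], by rw [Matrix.det_fin_two]; decide⟩
def m9_125 : S9 := ⟨!![⟨0, 1⟩, ⟨0, 0⟩; ⟨0, 1⟩, ⟨0, 2⟩], by rw [Matrix.det_fin_two]; decide⟩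
def m9_126 : S9 := ⟨!![⟨2, 0⟩, ⟨2, 1⟩; ⟨1, 0⟩, ⟨0, 2⟩], by rw [Matrix.det_fin_two]; decide⟩
def m9_127 : S9 := ⟨!![⟨1, 2⟩, ⟨1, 0⟩; ⟨2, 1⟩, ⟨1, 2⟩], by rw [Matrix.det_fin_two]; decide⟩
def m9_128 : S9 := ⟨!![⟨1, 0⟩, ⟨2, 1⟩; ⟨1, 0⟩, ⟨0, 1⟩], by rw [Matrix.det_fin_two]; decide⟩
def m9_129 : S9 := ⟨!![⟨2, 1⟩, ⟨1, 0⟩; ⟨2, 1⟩, ⟨2, 1⟩], by rw [Matrix.det_fin_two]; decide⟩
def m9_130 : S9 := ⟨!![⟨2, 1⟩, ⟨0, 1⟩; ⟨0, 0⟩, ⟨1, 1⟩], by rw [Matrix.det_fin_two]; decide⟩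
def m9_131 : S9 := ⟨!![⟨0, 1⟩, ⟨2, 0⟩; ⟨1, 1⟩, ⟨2, 0⟩], by rw [Matrix.det_fin_two]; decide⟩
def m9_132 : S9 := ⟨!![⟨1, 2⟩, ⟨2, 2⟩; ⟨2, 1⟩, ⟨0, 0⟩], by rw [Matrix.det_fin_two]; decide⟩
def m9_133 : S9 := ⟨!![⟨1, 0⟩, ⟨2, 0⟩; ⟨1, 1⟩, ⟨0, 2⟩], by rw [Matrix.det_fin_two]; decide⟩
def m9_134 : S9 := ⟨!![⟨1, 0⟩, ⟨1, 2⟩; ⟨1, 0⟩, ⟨2, 2⟩], by rw [Matrix.det_fin_two]; decide⟩
def m9_135 : S9 := ⟨!![⟨1, 2⟩, ⟨2, 0⟩; ⟨1, 1⟩, ⟨2, 1⟩], by rw [Matrix.det_fin_two]; decide⟩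
def m9_136 : S9 := ⟨!![⟨0, 0⟩, ⟨1, 1⟩; ⟨1, 2⟩, ⟨1, 1⟩], by rw [Matrix.det_fin_two]; decide⟩
def m9_137 : S9 := ⟨!![⟨0, 0⟩, ⟨0, 2⟩; ⟨0, 2⟩, ⟨0, 2⟩], by rw [Matrix.det_fin_two]; decide⟩
def m9_138 : S9 := ⟨!![⟨2, 0⟩, ⟨2, 0⟩; ⟨1, 2⟩, ⟨0, 2⟩], by rw [Matrix.det_fin_two]; decide⟩
def m9_139 : S9 := ⟨!![⟨1, 1⟩, ⟨2, 0⟩; ⟨1, 1⟩, ⟨1, 1⟩], by rw [Matrix.det_fin_two]; decide⟩
def m9_140 : S9 := ⟨!![⟨2, 1⟩, ⟨0, 0⟩; ⟨0, 2⟩, ⟨1, 1⟩], by rw [Matrix.det_fin_two]; decide⟩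
def m9_141 : S9 := ⟨!![⟨1, 1⟩, ⟨0, 2⟩; ⟨0, 2⟩, ⟨0, 0⟩], by rw [Matrix.det_fin_two]; decide⟩
def m9_142 : S9 := ⟨!![⟨1, 0⟩, ⟨2, 2⟩; ⟨2, 2⟩, ⟨1, 2⟩], by rw [Matrix.det_fin_two]; decide⟩
def m9_143 : S9 := ⟨!![⟨1, 1⟩, ⟨2, 1⟩; ⟨0, 0⟩, ⟨2, 1⟩], by rw [Matrix.det_fin_two]; decide⟩
def m9_144 : S9 := ⟨!![⟨0, 2⟩, ⟨2, 2⟩; ⟨1, 0⟩, ⟨1, 0⟩], by rw [Matrix.det_fin_two]; decide⟩
def m9_145 : S9 := ⟨!![⟨0, 2⟩, ⟨1, 0⟩; ⟨2, 1⟩, ⟨2, 0⟩], by rw [Matrix.det_fin_two]; decide⟩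
def m9_146 : S9 := ⟨!![⟨2, 1⟩, ⟨1, 1⟩; ⟨0, 0⟩, ⟨1, 1⟩], by rw [Matrix.det_fin_two]; decide⟩
def m9_147 : S9 := ⟨!![⟨1, 2⟩, ⟨0, 1⟩; ⟨0, 1⟩, ⟨0, 0⟩], by rw [Matrix.det_fin_two]; decide⟩
def m9_148 : S9 := ⟨!![⟨0, 1⟩, ⟨1, 0⟩; ⟨2, 1⟩, ⟨1, 0⟩], by rw [Matrix.det_fin_two]; decide⟩
def m9_149 : S9 := ⟨!![⟨1, 0⟩, ⟨2, 0⟩; ⟨0, 1⟩, ⟨1, 2⟩], by rw [Matrix.det_fin_two]; decide⟩
def m9_150 : S9 := ⟨!![⟨1, 0⟩, ⟨2, 1⟩; ⟨2, 0⟩, ⟨2, 2⟩], by rw [Matrix.det_fin_two]; decide⟩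
def m9_151 : S9 := ⟨!![⟨1, 1⟩, ⟨0, 0⟩; ⟨0, 1⟩, ⟨2, 1⟩], by rw [Matrix.det_fin_two]; decide⟩
def m9_152 : S9 := ⟨!![⟨2, 0⟩, ⟨0, 2⟩; ⟨2, 2⟩, ⟨0, 2⟩], by rw [Matrix.det_fin_two]; decide⟩
def m9_153 : S9 := ⟨!![⟨0, 0⟩, ⟨0, 1⟩; ⟨0, 1⟩, ⟨0, 2⟩], by rw [Matrix.det_fin_two]; decide⟩
def m9_154 : S9 := ⟨!![⟨0, 0⟩, ⟨2, 1⟩; ⟨2, 2⟩, ⟨1, 2⟩], by rw [Matrix.det_fin_two]; decide⟩
def m9_155 : S9 := ⟨!![⟨0, 1⟩, ⟨2, 1⟩; ⟨2, 0⟩, ⟨2, 1⟩], by rw [Matrix.det_fin_two]; decide⟩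
def m9_156 : S9 := ⟨!![⟨2, 2⟩, ⟨1, 0⟩; ⟨1, 2⟩, ⟨1, 0⟩], by rw [Matrix.det_fin_two]; decide⟩
def m9_157 : S9 := ⟨!![⟨1, 1⟩, ⟨2, 2⟩; ⟨1, 0⟩, ⟨1, 1⟩], by rw [Matrix.det_fin_two]; decide⟩
def m9_158 : S9 := ⟨!![⟨1, 0⟩, ⟨1, 0⟩; ⟨0, 0⟩, ⟨1, 0⟩], by rw [Matrix.det_fin_two]; decide⟩
def m9_159 : S9 := ⟨!![⟨1, 1⟩, ⟨1, 0⟩; ⟨0, 2⟩, ⟨0, 2⟩], by rw [Matrix.det_fin_two]; decide⟩
def m9_160 : S9 := ⟨!![⟨2, 1⟩, ⟨2, 1⟩; ⟨2, 1⟩, ⟨0, 2⟩], by rw [Matrix.det_fin_two]; decide⟩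
def m9_161 : S9 := ⟨!![⟨1, 0⟩, ⟨2, 1⟩; ⟨2, 2⟩, ⟨0, 0⟩], by rw [Matrix.det_fin_two]; decide⟩
def m9_162 : S9 := ⟨!![⟨1, 0⟩, ⟨0, 0⟩; ⟨2, 1⟩, ⟨1, 0⟩], by rw [Matrix.det_fin_two]; decide⟩
def m9_163 : S9 := ⟨!![⟨1, 2⟩, ⟨1, 1⟩; ⟨0, 1⟩, ⟨1, 2⟩], by rw [Matrix.det_fin_two]; decide⟩
def m9_164 : S9 := ⟨!![⟨0, 1⟩, ⟨0, 1⟩; ⟨1, 0⟩, ⟨1, 2⟩], by rw [Matrix.det_fin_two]; decide⟩
def m9_165 : S9 := ⟨!![⟨2, 2⟩, ⟨0, 2⟩; ⟨1, 0⟩, ⟨0, 1⟩], by rw [Matrix.det_fin_two]; decide⟩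
def m9_166 : S9 := ⟨!![⟨0, 0⟩, ⟨2, 1⟩; ⟨2, 2⟩, ⟨2, 1⟩], by rw [Matrix.det_fin_two]; decide⟩
def m9_167 : S9 := ⟨!![⟨2, 0⟩, ⟨0, 0⟩; ⟨1, 1⟩, ⟨2, 0⟩], by rw [Matrix.det_fin_two]; decide⟩
def m9_168 : S9 := ⟨!![⟨2, 2⟩, ⟨0, 1⟩; ⟨2, 0⟩, ⟨0, 1⟩], by rw [Matrix.det_fin_two]; decide⟩
def m9_169 : S9 := ⟨!![⟨2, 0⟩, ⟨1, 1⟩; ⟨0, 1⟩, ⟨0, 2⟩], by rw [Matrix.det_fin_two]; decide⟩
def m9_170 : S9 := ⟨!![⟨0, 2⟩, ⟨1, 2⟩; ⟨0, 1⟩, ⟨2, 2⟩], by rw [Matrix.det_fin_two]; decide⟩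
def m9_171 : S9 := ⟨!![⟨2, 0⟩, ⟨2, 2⟩; ⟨2, 1⟩, ⟨0, 0⟩], by rw [Matrix.det_fin_two]; decide⟩
def m9_172 : S9 := ⟨!![⟨1, 2⟩, ⟨1, 0⟩; ⟨0, 2⟩, ⟨1, 0⟩], by rw [Matrix.det_fin_two]; decide⟩
def m9_173 : S9 := ⟨!![⟨2, 0⟩, ⟨1, 0⟩; ⟨0, 0⟩, ⟨2, 0⟩], by rw [Matrix.det_fin_two]; decide⟩
def m9_174 : S9 := ⟨!![⟨1, 2⟩, ⟨1, 1⟩; ⟨0, 0⟩, ⟨2, 2⟩], by rw [Matrix.det_fin_two]; decide⟩
def m9_175 : S9 := ⟨!![⟨0, 2⟩, ⟨2, 2⟩; ⟨2, 0⟩, ⟨2, 2⟩], by rw [Matrix.det_fin_two]; decide⟩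
def m9_176 : S9 := ⟨!![⟨1, 1⟩, ⟨0, 1⟩; ⟨1, 2⟩, ⟨0, 1⟩], by rw [Matrix.det_fin_two]; decide⟩
def m9_177 : S9 := ⟨!![⟨0, 1⟩, ⟨2, 1⟩; ⟨2, 1⟩, ⟨1, 2⟩], by rw [Matrix.det_fin_two]; decide⟩
def m9_178 : S9 := ⟨!![⟨0, 2⟩, ⟨1, 0⟩; ⟨1, 1⟩, ⟨2, 2⟩], by rw [Matrix.det_fin_two]; decide⟩
def m9_179 : S9 := ⟨!![⟨1, 2⟩, ⟨1, 1⟩; ⟨1, 1⟩, ⟨1, 0⟩], by rw [Matrix.det_fin_two]; decide⟩
def m9_180 : S9 := ⟨!![⟨0, 2⟩, ⟨0, 2⟩; ⟨1, 0⟩, ⟨1, 1⟩], by rw [Matrix.det_fin_two]; decide⟩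
def m9_181 : S9 := ⟨!![⟨0, 0⟩, ⟨2, 0⟩; ⟨1, 0⟩, ⟨2, 1⟩], by rw [Matrix.det_fin_two]; decide⟩
def m9_182 : S9 := ⟨!![⟨0, 0⟩, ⟨2, 2⟩; ⟨2, 1⟩, ⟨1, 0⟩], by rw [Matrix.det_fin_two]; decide⟩
def m9_183 : S9 := ⟨!![⟨2, 0⟩, ⟨2, 2⟩; ⟨0, 2⟩, ⟨0, 2⟩], by rw [Matrix.det_fin_two]; decide⟩
def m9_184 : S9 := ⟨!![⟨1, 2⟩, ⟨0, 1⟩; ⟨1, 1⟩, ⟨1, 2⟩], by rw [Matrix.det_fin_two]; decide⟩
def m9_185 : S9 := ⟨!![⟨2, 1⟩, ⟨1, 2⟩; ⟨1, 0⟩, ⟨0, 1⟩], by rw [Matrix.det_fin_two]; decide⟩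
def m9_186 : S9 := ⟨!![⟨1, 2⟩, ⟨1, 0⟩; ⟨0, 1⟩, ⟨0, 1⟩], by rw [Matrix.det_fin_two]; decide⟩
def m9_187 : S9 := ⟨!![⟨0, 0⟩, ⟨2, 2⟩; ⟨2, 1⟩, ⟨0, 1⟩], by rw [Matrix.det_fin_two]; decide⟩
def m9_188 : S9 := ⟨!![⟨2, 1⟩, ⟨2, 2⟩; ⟨2, 1⟩, ⟨0, 0⟩], by rw [Matrix.det_fin_two]; decide⟩
def m9_189 : S9 := ⟨!![⟨2, 0⟩, ⟨0, 1⟩; ⟨0, 2⟩, ⟨1, 0⟩], by rw [Matrix.det_fin_two]; decide⟩
def m9_190 : S9 := ⟨!![⟨2, 0⟩, ⟨1, 1⟩; ⟨0, 0⟩, ⟨2, 0⟩], by rw [Matrix.det_fin_two]; decide⟩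
def m9_191 : S9 := ⟨!![⟨1, 2⟩, ⟨2, 2⟩; ⟨0, 2⟩, ⟨1, 2⟩], by rw [Matrix.det_fin_two]; decide⟩
def m9_192 : S9 := ⟨!![⟨0, 2⟩, ⟨0, 1⟩; ⟨1, 1⟩, ⟨2, 0⟩], by rw [Matrix.det_fin_two]; decide⟩
def m9_193 : S9 := ⟨!![⟨0, 2⟩, ⟨2, 2⟩; ⟨2, 1⟩, ⟨0, 0⟩], by rw [Matrix.det_fin_two]; decide⟩
def m9_194 : S9 := ⟨!![⟨2, 2⟩, ⟨0, 1⟩; ⟨1, 2⟩, ⟨0, 2⟩], by rw [Matrix.det_fin_two]; decide⟩
def m9_195 : S9 := ⟨!![⟨2, 0⟩, ⟨1, 1⟩; ⟨2, 1⟩, ⟨1, 0⟩], by rw [Matrix.det_fin_two]; decide⟩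
def m9_196 : S9 := ⟨!![⟨1, 0⟩, ⟨0, 2⟩; ⟨1, 0⟩, ⟨1, 2⟩], by rw [Matrix.det_fin_two]; decide⟩
def m9_197 : S9 := ⟨!![⟨0, 2⟩, ⟨0, 1⟩; ⟨0, 1⟩, ⟨0, 0⟩], by rw [Matrix.det_fin_two]; decide⟩
def m9_198 : S9 := ⟨!![⟨2, 0⟩, ⟨0, 0⟩; ⟨1, 0⟩, ⟨2, 0⟩], by rw [Matrix.det_fin_two]; decide⟩
def m9_199 : S9 := ⟨!![⟨2, 1⟩, ⟨2, 2⟩; ⟨1, 0⟩, ⟨1, 2⟩], by rw [Matrix.det_fin_two]; decide⟩
def m9_200 : S9 := ⟨!![⟨1, 0⟩, ⟨0, 1⟩; ⟨1, 2⟩, ⟨2, 1⟩], by rw [Matrix.det_fin_two]; decide⟩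
def m9_201 : S9 := ⟨!![⟨2, 2⟩, ⟨2, 0⟩; ⟨2, 2⟩, ⟨0, 2⟩], by rw [Matrix.det_fin_two]; decide⟩
def m9_202 : S9 := ⟨!![⟨1, 1⟩, ⟨0, 2⟩; ⟨0, 0⟩, ⟨2, 1⟩], by rw [Matrix.det_fin_two]; decide⟩
def m9_203 : S9 := ⟨!![⟨0, 0⟩, ⟨1, 0⟩; ⟨2, 0⟩, ⟨0, 0⟩], by rw [Matrix.det_fin_two]; decide⟩
def m9_204 : S9 := ⟨!![⟨1, 2⟩, ⟨2, 1⟩; ⟨2, 1⟩, ⟨0, 1⟩], by rw [Matrix.det_fin_two]; decide⟩
def m9_205 : S9 := ⟨!![⟨1, 2⟩, ⟨0, 1⟩; ⟨1, 2⟩, ⟨2, 0⟩], by rw [Matrix.det_fin_two]; decide⟩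
def m9_206 : S9 := ⟨!![⟨2, 1⟩, ⟨0, 1⟩; ⟨1, 1⟩, ⟨2, 1⟩], by rw [Matrix.det_fin_two]; decide⟩
def m9_207 : S9 := ⟨!![⟨0, 1⟩, ⟨2, 1⟩; ⟨1, 0⟩, ⟨1, 0⟩], by rw [Matrix.det_fin_two]; decide⟩
def m9_208 : S9 := ⟨!![⟨0, 1⟩, ⟨2, 2⟩; ⟨0, 0⟩, ⟨0, 2⟩], by rw [Matrix.det_fin_two]; decide⟩
def m9_209 : S9 := ⟨!![⟨1, 0⟩, ⟨1, 0⟩; ⟨0, 2⟩, ⟨1, 2⟩], by rw [Matrix.det_fin_two]; decide⟩
def m9_210 : S9 := ⟨!![⟨2, 1⟩, ⟨1, 1⟩; ⟨1, 1⟩, ⟨2, 0⟩], by rw [Matrix.det_fin_two]; decide⟩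
def m9_211 : S9 := ⟨!![⟨2, 0⟩, ⟨2, 0⟩; ⟨1, 1⟩, ⟨0, 1⟩], by rw [Matrix.det_fin_two]; decide⟩
def m9_212 : S9 := ⟨!![⟨2, 2⟩, ⟨2, 0⟩; ⟨0, 0⟩, ⟨1, 2⟩], by rw [Matrix.det_fin_two]; decide⟩
def m9_213 : S9 := ⟨!![⟨2, 2⟩, ⟨0, 0⟩; ⟨2, 2⟩, ⟨1, 2⟩], by rw [Matrix.det_fin_two]; decide⟩
def m9_214 : S9 := ⟨!![⟨1, 0⟩, ⟨0, 1⟩; ⟨0, 2⟩, ⟨2, 0⟩], by rw [Matrix.det_fin_two]; decide⟩
def m9_215 : S9 := ⟨!![⟨0, 0⟩, ⟨0, 2⟩; ⟨0, 2⟩, ⟨2, 1⟩], by rw [Matrix.det_fin_two]; decide⟩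
def m9_216 : S9 := ⟨!![⟨1, 0⟩, ⟨1, 1⟩; ⟨1, 1⟩, ⟨1, 2⟩], by rw [Matrix.det_fin_two]; decide⟩
def m9_217 : S9 := ⟨!![⟨2, 1⟩, ⟨0, 2⟩; ⟨1, 0⟩, ⟨2, 0⟩], by rw [Matrix.det_fin_two]; decide⟩
def m9_218 : S9 := ⟨!![⟨2, 2⟩, ⟨0, 0⟩; ⟨1, 0⟩, ⟨1, 2⟩], by rw [Matrix.det_fin_two]; decide⟩
def m9_219 : S9 := ⟨!![⟨1, 1⟩, ⟨1, 0⟩; ⟨1, 2⟩, ⟨2, 0⟩], by rw [Matrix.det_fin_two]; decide⟩
def m9_220 : S9 := ⟨!![⟨2, 2⟩, ⟨0, 1⟩; ⟨0, 2⟩, ⟨2, 1⟩], by rw [Matrix.det_fin_two]; decide⟩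
def m9_221 : S9 := ⟨!![⟨0, 1⟩, ⟨1, 1⟩; ⟨0, 1⟩, ⟨1, 0⟩], by rw [Matrix.det_fin_two]; decide⟩
def m9_222 : S9 := ⟨!![⟨0, 1⟩, ⟨1, 1⟩; ⟨2, 2⟩, ⟨1, 2⟩], by rw [Matrix.det_fin_two]; decide⟩
def m9_223 : S9 := ⟨!![⟨1, 1⟩, ⟨2, 2⟩; ⟨0, 1⟩, ⟨2, 0⟩], by rw [Matrix.det_fin_two]; decide⟩
def m9_224 : S9 := ⟨!![⟨1, 2⟩, ⟨1, 0⟩; ⟨1, 2⟩, ⟨0, 2⟩], by rw [Matrix.det_fin_two]; decide⟩
def m9_225 : S9 := ⟨!![⟨0, 2⟩, ⟨0, 0⟩; ⟨0, 0⟩, ⟨0, 1⟩], by rw [Matrix.det_fin_two]; decide⟩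
def m9_226 : S9 := ⟨!![⟨2, 2⟩, ⟨2, 0⟩; ⟨1, 1⟩, ⟨2, 2⟩], by rw [Matrix.det_fin_two]; decide⟩
def m9_227 : S9 := ⟨!![⟨1, 1⟩, ⟨0, 2⟩; ⟨1, 1⟩, ⟨2, 0⟩], by rw [Matrix.det_fin_two]; decide⟩
def m9_228 : S9 := ⟨!![⟨0, 1⟩, ⟨1, 0⟩; ⟨1, 2⟩, ⟨2, 1⟩], by rw [Matrix.det_fin_two]; decide⟩
def m9_229 : S9 := ⟨!![⟨1, 0⟩, ⟨2, 0⟩; ⟨1, 2⟩, ⟨0, 1⟩], by rw [Matrix.det_fin_two]; decide⟩
def m9_230 : S9 := ⟨!![⟨0, 2⟩, ⟨0, 0⟩; ⟨2, 2⟩, ⟨0, 1⟩], by rw [Matrix.det_fin_two]; decide⟩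
def m9_231 : S9 := ⟨!![⟨2, 2⟩, ⟨1, 2⟩; ⟨2, 0⟩, ⟨1, 1⟩], by rw [Matrix.det_fin_two]; decide⟩
def m9_232 : S9 := ⟨!![⟨0, 1⟩, ⟨2, 0⟩; ⟨0, 2⟩, ⟨1, 2⟩], by rw [Matrix.det_fin_two]; decide⟩
def m9_233 : S9 := ⟨!![⟨1, 2⟩, ⟨0, 2⟩; ⟨1, 0⟩, ⟨1, 0⟩], by rw [Matrix.det_fin_two]; decide⟩
def m9_234 : S9 := ⟨!![⟨2, 1⟩, ⟨1, 0⟩; ⟨1, 1⟩, ⟨1, 0⟩], by rw [Matrix.det_fin_two]; decide⟩
def m9_235 : S9 := ⟨!![⟨0, 0⟩, ⟨0, 1⟩; ⟨0, 1⟩, ⟨1, 0⟩], by rw [Matrix.det_fin_two]; decide⟩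
def m9_236 : S9 := ⟨!![⟨1, 1⟩, ⟨2, 2⟩; ⟨2, 0⟩, ⟨0, 1⟩], by rw [Matrix.det_fin_two]; decide⟩
def m9_237 : S9 := ⟨!![⟨1, 1⟩, ⟨2, 0⟩; ⟨0, 1⟩, ⟨0, 2⟩], by rw [Matrix.det_fin_two]; decide⟩
def m9_238 : S9 := ⟨!![⟨2, 0⟩, ⟨0, 0⟩; ⟨2, 2⟩, ⟨2, 0⟩], by rw [Matrix.det_fin_two]; decide⟩
def m9_239 : S9 := ⟨!![⟨1, 2⟩, ⟨0, 0⟩; ⟨2, 0⟩, ⟨2, 2⟩], by rw [Matrix.det_fin_two]; decide⟩
def m9_240 : S9 := ⟨!![⟨2, 2⟩, ⟨1, 1⟩; ⟨2, 1⟩, ⟨2, 1⟩], by rw [Matrix.det_fin_two]; decide⟩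
def m9_241 : S9 := ⟨!![⟨1, 0⟩, ⟨0, 2⟩; ⟨2, 2⟩, ⟨0, 1⟩], by rw [Matrix.det_fin_two]; decide⟩
def m9_242 : S9 := ⟨!![⟨2, 0⟩, ⟨2, 1⟩; ⟨0, 0⟩, ⟨2, 0⟩], by rw [Matrix.det_fin_two]; decide⟩
def m9_243 : S9 := ⟨!![⟨1, 2⟩, ⟨1, 0⟩; ⟨0, 0⟩, ⟨2, 2⟩], by rw [Matrix.det_fin_two]; decide⟩
def m9_244 : S9 := ⟨!![⟨1, 0⟩, ⟨1, 1⟩; ⟨2, 1⟩, ⟨2, 0⟩], by rw [Matrix.det_fin_two]; decide⟩
def m9_245 : S9 := ⟨!![⟨2, 1⟩, ⟨0, 2⟩; ⟨0, 1⟩, ⟨2, 2⟩], by rw [Matrix.det_fin_two]; decide⟩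
def m9_246 : S9 := ⟨!![⟨2, 2⟩, ⟨2, 1⟩; ⟨0, 0⟩, ⟨1, 2⟩], by rw [Matrix.det_fin_two]; decide⟩
def m9_247 : S9 := ⟨!![⟨1, 2⟩, ⟨2, 2⟩; ⟨1, 1⟩, ⟨0, 1⟩], by rw [Matrix.det_fin_two]; decide⟩
def m9_248 : S9 := ⟨!![⟨2, 2⟩, ⟨1, 1⟩; ⟨0, 0⟩, ⟨1, 2⟩], by rw [Matrix.det_fin_two]; decide⟩
def m9_249 : S9 := ⟨!![⟨2, 0⟩, ⟨0, 1⟩; ⟨2, 2⟩, ⟨1, 1⟩], by rw [Matrix.det_fin_two]; decide⟩
def m9_250 : S9 := ⟨!![⟨1, 1⟩, ⟨0, 1⟩; ⟨0, 1⟩, ⟨0, 0⟩], by rw [Matrix.det_fin_two]; decide⟩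
def m9_251 : S9 := ⟨!![⟨2, 0⟩, ⟨2, 2⟩; ⟨1, 0⟩, ⟨0, 1⟩], by rw [Matrix.det_fin_two]; decide⟩
def m9_252 : S9 := ⟨!![⟨1, 1⟩, ⟨2, 1⟩; ⟨2, 0⟩, ⟨2, 0⟩], by rw [Matrix.det_fin_two]; decide⟩
def m9_253 : S9 := ⟨!![⟨2, 0⟩, ⟨1, 1⟩; ⟨0, 2⟩, ⟨1, 1⟩], by rw [Matrix.det_fin_two]; decide⟩
def m9_254 : S9 := ⟨!![⟨0, 0⟩, ⟨0, 1⟩; ⟨0, 1⟩, ⟨2, 1⟩], by rw [Matrix.det_fin_two]; decide⟩
def m9_255 : S9 := ⟨!![⟨1, 2⟩, ⟨2, 0⟩; ⟨1, 0⟩, ⟨0, 0⟩], by rw [Matrix.det_fin_two]; decide⟩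
def m9_256 : S9 := ⟨!![⟨0, 2⟩, ⟨2, 1⟩; ⟨1, 2⟩, ⟨1, 1⟩], by rw [Matrix.det_fin_two]; decide⟩
def m9_257 : S9 := ⟨!![⟨0, 1⟩, ⟨0, 1⟩; ⟨1, 1⟩, ⟨1, 0⟩], by rw [Matrix.det_fin_two]; decide⟩
def m9_258 : S9 := ⟨!![⟨2, 1⟩, ⟨0, 1⟩; ⟨2, 2⟩, ⟨0, 1⟩], by rw [Matrix.det_fin_two]; decide⟩
def m9_259 : S9 := ⟨!![⟨2, 0⟩, ⟨0, 1⟩; ⟨0, 0⟩, ⟨2, 0⟩], by rw [Matrix.det_fin_two]; decide⟩
def m9_260 : S9 := ⟨!![⟨1, 2⟩, ⟨0, 2⟩; ⟨0, 2⟩, ⟨0, 0⟩], by rw [Matrix.det_fin_two]; decide⟩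
def m9_261 : S9 := ⟨!![⟨0, 2⟩, ⟨1, 2⟩; ⟨1, 1⟩, ⟨0, 0⟩], by rw [Matrix.det_fin_two]; decide⟩
def m9_262 : S9 := ⟨!![⟨2, 2⟩, ⟨2, 2⟩; ⟨1, 2⟩, ⟨2, 1⟩], by rw [Matrix.det_fin_two]; decide⟩
def m9_263 : S9 := ⟨!![⟨1, 2⟩, ⟨2, 0⟩; ⟨0, 1⟩, ⟨1, 0⟩], by rw [Matrix.det_fin_two]; decide⟩
def m9_264 : S9 := ⟨!![⟨0, 0⟩, ⟨0, 2⟩; ⟨0, 2⟩, ⟨2, 2⟩], by rw [Matrix.det_fin_two]; decide⟩
def m9_265 : S9 := ⟨!![⟨0, 0⟩, ⟨1, 2⟩; ⟨1, 1⟩, ⟨0, 1⟩], by rw [Matrix.det_fin_two]; decide⟩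
def m9_266 : S9 := ⟨!![⟨2, 2⟩, ⟨0, 2⟩; ⟨0, 1⟩, ⟨2, 1⟩], by rw [Matrix.det_fin_two]; decide⟩
def m9_267 : S9 := ⟨!![⟨2, 0⟩, ⟨1, 2⟩; ⟨2, 2⟩, ⟨1, 0⟩], by rw [Matrix.det_fin_two]; decide⟩
def m9_268 : S9 := ⟨!![⟨0, 0⟩, ⟨1, 1⟩; ⟨1, 2⟩, ⟨2, 2⟩], by rw [Matrix.det_fin_two]; decide⟩
def m9_269 : S9 := ⟨!![⟨2, 1⟩, ⟨2, 0⟩; ⟨1, 1⟩, ⟨1, 2⟩], by rw [Matrix.det_fin_two]; decide⟩
def m9_270 : S9 := ⟨!![⟨0, 0⟩, ⟨1, 1⟩; ⟨1, 2⟩, ⟨2, 1⟩], by rw [Matrix.det_fin_two]; decide⟩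
def m9_271 : S9 := ⟨!![⟨1, 2⟩, ⟨2, 1⟩; ⟨0, 2⟩, ⟨2, 0⟩], by rw [Matrix.det_fin_two]; decide⟩
def m9_272 : S9 := ⟨!![⟨2, 0⟩, ⟨0, 0⟩; ⟨2, 1⟩, ⟨2, 0⟩], by rw [Matrix.det_fin_two]; decide⟩
def m9_273 : S9 := ⟨!![⟨0, 2⟩, ⟨0, 2⟩; ⟨2, 1⟩, ⟨2, 2⟩], by rw [Matrix.det_fin_two]; decide⟩
def m9_274 : S9 := ⟨!![⟨1, 0⟩, ⟨2, 1⟩; ⟨0, 2⟩, ⟨2, 1⟩], by rw [Matrix.det_fin_two]; decide⟩
def m9_275 : S9 := ⟨!![⟨2, 0⟩, ⟨2, 2⟩; ⟨0, 0⟩, ⟨2, 0⟩], by rw [Matrix.det_fin_two]; decide⟩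
def m9_276 : S9 := ⟨!![⟨0, 2⟩, ⟨0, 1⟩; ⟨2, 0⟩, ⟨1, 1⟩], by rw [Matrix.det_fin_two]; decide⟩
def m9_277 : S9 := ⟨!![⟨1, 1⟩, ⟨1, 2⟩; ⟨2, 1⟩, ⟨0, 2⟩], by rw [Matrix.det_fin_two]; decide⟩
def m9_278 : S9 := ⟨!![⟨1, 2⟩, ⟨2, 1⟩; ⟨2, 2⟩, ⟨0, 0⟩], by rw [Matrix.det_fin_two]; decide⟩
def m9_279 : S9 := ⟨!![⟨0, 2⟩, ⟨2, 0⟩; ⟨1, 1⟩, ⟨1, 0⟩], by rw [Matrix.det_fin_two]; decide⟩
def m9_280 : S9 := ⟨!![⟨0, 1⟩, ⟨2, 2⟩; ⟨0, 1⟩, ⟨2, 1⟩], by rw [Matrix.det_fin_two]; decide⟩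
def m9_281 : S9 := ⟨!![⟨0, 2⟩, ⟨1, 2⟩; ⟨2, 2⟩, ⟨0, 2⟩], by rw [Matrix.det_fin_two]; decide⟩
def m9_282 : S9 := ⟨!![⟨2, 0⟩, ⟨0, 0⟩; ⟨0, 1⟩, ⟨2, 0⟩], by rw [Matrix.det_fin_two]; decide⟩
def m9_283 : S9 := ⟨!![⟨2, 1⟩, ⟨2, 2⟩; ⟨1, 2⟩, ⟨2, 2⟩], by rw [Matrix.det_fin_two]; decide⟩
def m9_284 : S9 := ⟨!![⟨0, 2⟩, ⟨2, 1⟩; ⟨1, 0⟩, ⟨2, 0⟩], by rw [Matrix.det_fin_two]; decide⟩
def m9_285 : S9 := ⟨!![⟨1, 2⟩, ⟨1, 2⟩; ⟨2, 1⟩, ⟨1, 0⟩], by rw [Matrix.det_fin_two]; decide⟩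
def m9_286 : S9 := ⟨!![⟨2, 1⟩, ⟨1, 2⟩; ⟨2, 2⟩, ⟨2, 2⟩], by rw [Matrix.det_fin_two]; decide⟩
def m9_287 : S9 := ⟨!![⟨1, 0⟩, ⟨0, 1⟩; ⟨2, 0⟩, ⟨1, 2⟩], by rw [Matrix.det_fin_two]; decide⟩
def m9_288 : S9 := ⟨!![⟨2, 2⟩, ⟨2, 1⟩; ⟨1, 0⟩, ⟨1, 1⟩], by rw [Matrix.det_fin_two]; decide⟩
def m9_289 : S9 := ⟨!![⟨2, 1⟩, ⟨0, 1⟩; ⟨0, 2⟩, ⟨2, 2⟩], by rw [Matrix.det_fin_two]; decide⟩
def m9_290 : S9 := ⟨!![⟨2, 2⟩, ⟨1, 2⟩; ⟨1, 1⟩, ⟨0, 0⟩], by rw [Matrix.det_fin_two]; decide⟩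
def m9_291 : S9 := ⟨!![⟨0, 2⟩, ⟨2, 0⟩; ⟨2, 0⟩, ⟨0, 2⟩], by rw [Matrix.det_fin_two]; decide⟩
def m9_292 : S9 := ⟨!![⟨1, 0⟩, ⟨0, 2⟩; ⟨0, 2⟩, ⟨0, 0⟩], by rw [Matrix.det_fin_two]; decide⟩
def m9_293 : S9 := ⟨!![⟨0, 2⟩, ⟨0, 0⟩; ⟨0, 1⟩, ⟨0, 1⟩], by rw [Matrix.det_fin_two]; decide⟩
def m9_294 : S9 := ⟨!![⟨1, 2⟩, ⟨0, 2⟩; ⟨2, 0⟩, ⟨0, 1⟩], by rw [Matrix.det_fin_two]; decide⟩
def m9_295 : S9 := ⟨!![⟨2, 2⟩, ⟨2, 1⟩; ⟨0, 2⟩, ⟨0, 2⟩], by rw [Matrix.det_fin_two]; decide⟩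
def m9_296 : S9 := ⟨!![⟨2, 2⟩, ⟨0, 0⟩; ⟨0, 1⟩, ⟨1, 2⟩], by rw [Matrix.det_fin_two]; decide⟩
def m9_297 : S9 := ⟨!![⟨2, 2⟩, ⟨1, 0⟩; ⟨2, 1⟩, ⟨1, 1⟩], by rw [Matrix.det_fin_two]; decide⟩
def m9_298 : S9 := ⟨!![⟨1, 2⟩, ⟨0, 0⟩; ⟨1, 1⟩, ⟨2, 2⟩], by rw [Matrix.det_fin_two]; decide⟩
def m9_299 : S9 := ⟨!![⟨2, 0⟩, ⟨2, 2⟩; ⟨2, 0⟩, ⟨1, 2⟩], by rw [Matrix.det_fin_two]; decide⟩
def m9_300 : S9 := ⟨!![⟨1, 2⟩, ⟨1, 0⟩; ⟨1, 0⟩, ⟨1, 1⟩], by rw [Matrix.det_fin_two]; decide⟩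
def m9_301 : S9 := ⟨!![⟨2, 0⟩, ⟨0, 2⟩; ⟨0, 2⟩, ⟨0, 0⟩], by rw [Matrix.det_fin_two]; decide⟩
def m9_302 : S9 := ⟨!![⟨1, 1⟩, ⟨1, 2⟩; ⟨2, 2⟩, ⟨1, 2⟩], by rw [Matrix.det_fin_two]; decide⟩
def m9_303 : S9 := ⟨!![⟨2, 2⟩, ⟨0, 1⟩; ⟨1, 1⟩, ⟨1, 1⟩], by rw [Matrix.det_fin_two]; decide⟩
def m9_304 : S9 := ⟨!![⟨1, 2⟩, ⟨1, 2⟩; ⟨2, 2⟩, ⟨1, 1⟩], by rw [Matrix.det_fin_two]; decide⟩
def m9_305 : S9 := ⟨!![⟨0, 2⟩, ⟨1, 1⟩; ⟨0, 1⟩, ⟨2, 0⟩], by rw [Matrix.det_fin_two]; decide⟩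
def m9_306 : S9 := ⟨!![⟨0, 1⟩, ⟨2, 1⟩; ⟨1, 2⟩, ⟨2, 2⟩], by rw [Matrix.det_fin_two]; decide⟩
def m9_307 : S9 := ⟨!![⟨1, 0⟩, ⟨1, 2⟩; ⟨2, 2⟩, ⟨2, 0⟩], by rw [Matrix.det_fin_two]; decide⟩
def m9_308 : S9 := ⟨!![⟨2, 1⟩, ⟨0, 0⟩; ⟨1, 2⟩, ⟨1, 1⟩], by rw [Matrix.det_fin_two]; decide⟩
def m9_309 : S9 := ⟨!![⟨0, 2⟩, ⟨1, 0⟩; ⟨1, 0⟩, ⟨0, 2⟩], by rw [Matrix.det_fin_two]; decide⟩
def m9_310 : S9 := ⟨!![⟨1, 0⟩, ⟨0, 0⟩; ⟨0, 1⟩, ⟨1, 0⟩], by rw [Matrix.det_fin_two]; decide⟩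
def m9_311 : S9 := ⟨!![⟨2, 0⟩, ⟨2, 0⟩; ⟨1, 0⟩, ⟨0, 0⟩], by rw [Matrix.det_fin_two]; decide⟩
def m9_312 : S9 := ⟨!![⟨1, 0⟩, ⟨1, 0⟩; ⟨1, 2⟩, ⟨2, 2⟩], by rw [Matrix.det_fin_two]; decide⟩
def m9_313 : S9 := ⟨!![⟨2, 0⟩, ⟨1, 1⟩; ⟨1, 2⟩, ⟨0, 0⟩], by rw [Matrix.det_fin_two]; decide⟩
def m9_314 : S9 := ⟨!![⟨2, 0⟩, ⟨2, 1⟩; ⟨2, 2⟩, ⟨0, 0⟩], by rw [Matrix.det_fin_two]; decide⟩
def m9_315 : S9 := ⟨!![⟨0, 1⟩, ⟨1, 0⟩; ⟨0, 0⟩, ⟨0, 2⟩], by rw [Matrix.det_fin_two]; decide⟩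
def m9_316 : S9 := ⟨!![⟨0, 2⟩, ⟨2, 1⟩; ⟨1, 1⟩, ⟨0, 2⟩], by rw [Matrix.det_fin_two]; decide⟩
def m9_317 : S9 := ⟨!![⟨1, 1⟩, ⟨1, 0⟩; ⟨1, 0⟩, ⟨1, 2⟩], by rw [Matrix.det_fin_two]; decide⟩
def m9_318 : S9 := ⟨!![⟨2, 0⟩, ⟨2, 0⟩; ⟨2, 0⟩, ⟨1, 0⟩], by rw [Matrix.det_fin_two]; decide⟩
def m9_319 : S9 := ⟨!![⟨1, 2⟩, ⟨2, 2⟩; ⟨1, 2⟩, ⟨1, 1⟩], by rw [Matrix.det_fin_two]; decide⟩
def m9_320 : S9 := ⟨!![⟨1, 2⟩, ⟨0, 0⟩; ⟨0, 2⟩, ⟨2, 2⟩], by rw [Matrix.det_fin_two]; decide⟩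
def m9_321 : S9 := ⟨!![⟨1, 1⟩, ⟨1, 1⟩; ⟨0, 1⟩, ⟨2, 2⟩], by rw [Matrix.det_fin_two]; decide⟩
def m9_322 : S9 := ⟨!![⟨1, 1⟩, ⟨2, 0⟩; ⟨2, 0⟩, ⟨1, 2⟩], by rw [Matrix.det_fin_two]; decide⟩
def m9_323 : S9 := ⟨!![⟨2, 2⟩, ⟨1, 2⟩; ⟨2, 1⟩, ⟨0, 1⟩], by rw [Matrix.det_fin_two]; decide⟩
def m9_324 : S9 := ⟨!![⟨2, 1⟩, ⟨1, 1⟩; ⟨0, 2⟩, ⟨0, 1⟩], by rw [Matrix.det_fin_two]; decide⟩
def m9_325 : S9 := ⟨!![⟨1, 0⟩, ⟨0, 1⟩; ⟨0, 0⟩, ⟨1, 0⟩], by rw [Matrix.det_fin_two]; decide⟩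
def m9_326 : S9 := ⟨!![⟨0, 0⟩, ⟨1, 0⟩; ⟨2, 0⟩, ⟨2, 0⟩], by rw [Matrix.det_fin_two]; decide⟩
def m9_327 : S9 := ⟨!![⟨0, 0⟩, ⟨1, 2⟩; ⟨1, 1⟩, ⟨2, 0⟩], by rw [Matrix.det_fin_two]; decide⟩
def m9_328 : S9 := ⟨!![⟨2, 2⟩, ⟨2, 2⟩; ⟨2, 1⟩, ⟨0, 0⟩], by rw [Matrix.det_fin_two]; decide⟩
def m9_329 : S9 := ⟨!![⟨0, 0⟩, ⟨1, 0⟩; ⟨2, 0⟩, ⟨0, 1⟩], by rw [Matrix.det_fin_two]; decide⟩
def m9_330 : S9 := ⟨!![⟨2, 1⟩, ⟨1, 0⟩; ⟨1, 0⟩, ⟨2, 2⟩], by rw [Matrix.det_fin_two]; decide⟩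
def m9_331 : S9 := ⟨!![⟨0, 1⟩, ⟨1, 1⟩; ⟨2, 1⟩, ⟨0, 1⟩], by rw [Matrix.det_fin_two]; decide⟩
def m9_332 : S9 := ⟨!![⟨0, 2⟩, ⟨0, 1⟩; ⟨0, 2⟩, ⟨0, 2⟩], by rw [Matrix.det_fin_two]; decide⟩
def m9_333 : S9 := ⟨!![⟨1, 1⟩, ⟨2, 1⟩; ⟨1, 1⟩, ⟨1, 2⟩], by rw [Matrix.det_fin_two]; decide⟩
def m9_334 : S9 := ⟨!![⟨2, 0⟩, ⟨1, 2⟩; ⟨2, 1⟩, ⟨2, 1⟩], by rw [Matrix.det_fin_two]; decide⟩
def m9_335 : S9 := ⟨!![⟨0, 2⟩, ⟨1, 1⟩; ⟨2, 1⟩, ⟨0, 2⟩], by rw [Matrix.det_fin_two]; decide⟩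
def m9_336 : S9 := ⟨!![⟨2, 2⟩, ⟨2, 0⟩; ⟨1, 2⟩, ⟨1, 1⟩], by rw [Matrix.det_fin_two]; decide⟩
def m9_337 : S9 := ⟨!![⟨1, 0⟩, ⟨2, 0⟩; ⟨2, 2⟩, ⟨2, 1⟩], by rw [Matrix.det_fin_two]; decide⟩
def m9_338 : S9 := ⟨!![⟨0, 0⟩, ⟨0, 1⟩; ⟨0, 1⟩, ⟨2, 0⟩], by rw [Matrix.det_fin_two]; decide⟩
def m9_339 : S9 := ⟨!![⟨0, 2⟩, ⟨0, 2⟩; ⟨0, 0⟩, ⟨0, 1⟩], by rw [Matrix.det_fin_two]; decide⟩
def m9_340 : S9 := ⟨!![⟨2, 1⟩, ⟨0, 2⟩; ⟨0, 0⟩, ⟨1, 1⟩], by rw [Matrix.det_fin_two]; decide⟩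
def m9_341 : S9 := ⟨!![⟨2, 2⟩, ⟨0, 0⟩; ⟨1, 2⟩, ⟨1, 2⟩], by rw [Matrix.det_fin_two]; decide⟩
def m9_342 : S9 := ⟨!![⟨2, 2⟩, ⟨0, 2⟩; ⟨0, 0⟩, ⟨1, 2⟩], by rw [Matrix.det_fin_two]; decide⟩
def m9_343 : S9 := ⟨!![⟨0, 0⟩, ⟨2, 1⟩; ⟨2, 2⟩, ⟨2, 2⟩], by rw [Matrix.det_fin_two]; decide⟩
def m9_344 : S9 := ⟨!![⟨0, 1⟩, ⟨2, 0⟩; ⟨1, 0⟩, ⟨0, 0⟩], by rw [Matrix.det_fin_two]; decide⟩
def m9_345 : S9 := ⟨!![⟨0, 2⟩, ⟨0, 2⟩; ⟨0, 1⟩, ⟨0, 2⟩], by rw [Matrix.det_fin_two]; decide⟩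
def m9_346 : S9 := ⟨!![⟨0, 0⟩, ⟨1, 1⟩; ⟨1, 2⟩, ⟨1, 0⟩], by rw [Matrix.det_fin_two]; decide⟩
def m9_347 : S9 := ⟨!![⟨1, 2⟩, ⟨1, 2⟩; ⟨0, 0⟩, ⟨2, 2⟩], by rw [Matrix.det_fin_two]; decide⟩
def m9_348 : S9 := ⟨!![⟨0, 0⟩, ⟨2, 0⟩; ⟨1, 0⟩, ⟨2, 2⟩], by rw [Matrix.det_fin_two]; decide⟩
def m9_349 : S9 := ⟨!![⟨1, 2⟩, ⟨2, 1⟩; ⟨1, 2⟩, ⟨1, 0⟩], by rw [Matrix.det_fin_two]; decide⟩
def m9_350 : S9 := ⟨!![⟨2, 1⟩, ⟨2, 2⟩; ⟨2, 0⟩, ⟨1, 0⟩], by rw [Matrix.det_fin_two]; decide⟩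
def m9_351 : S9 := ⟨!![⟨0, 1⟩, ⟨0, 2⟩; ⟨1, 1⟩, ⟨2, 1⟩], by rw [Matrix.det_fin_two]; decide⟩
def m9_352 : S9 := ⟨!![⟨0, 1⟩, ⟨0, 0⟩; ⟨2, 0⟩, ⟨0, 2⟩], by rw [Matrix.det_fin_two]; decide⟩
def m9_353 : S9 := ⟨!![⟨2, 0⟩, ⟨1, 0⟩; ⟨1, 0⟩, ⟨1, 0⟩], by rw [Matrix.det_fin_two]; decide⟩
def m9_354 : S9 := ⟨!![⟨0, 1⟩, ⟨1, 2⟩; ⟨0, 0⟩, ⟨0, 2⟩], by rw [Matrix.det_fin_two]; decide⟩
def m9_355 : S9 := ⟨!![⟨1, 1⟩, ⟨0, 1⟩; ⟨1, 1⟩, ⟨2, 2⟩], by rw [Matrix.det_fin_two]; decide⟩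
def m9_356 : S9 := ⟨!![⟨0, 2⟩, ⟨0, 0⟩; ⟨1, 2⟩, ⟨0, 1⟩], by rw [Matrix.det_fin_two]; decide⟩
def m9_357 : S9 := ⟨!![⟨2, 2⟩, ⟨1, 1⟩; ⟨0, 1⟩, ⟨1, 1⟩], by rw [Matrix.det_fin_two]; decide⟩
def m9_358 : S9 := ⟨!![⟨2, 2⟩, ⟨1, 0⟩; ⟨2, 0⟩, ⟨0, 0⟩], by rw [Matrix.det_fin_two]; decide⟩
def m9_359 : S9 := ⟨!![⟨1, 0⟩, ⟨1, 2⟩; ⟨2, 1⟩, ⟨1, 2⟩], by rw [Matrix.det_fin_two]; decide⟩
theorem m9_0_eq : m9_0 = 1 := by decide
theorem t9_0 : Φ f r0 = q f m9_0 := by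
  show Φ f 1 = q f m9_0
  rw [map_one, m9_0_eq, map_one]
theorem t9_1 : Φ f r1 = q f m9_1 := by
  show Φ f (r0 * x) = q f m9_1
  rw [map_mul, t9_0, Φ_x, ← map_mul]
  exact congrArg (q f) (by decide)
theorem t9_2 : Φ f r2 = q f m9_2 := by
  show Φ f (r0 * y) = q f m9_2
  rw [map_mul, t9_0, Φ_y, ← map_mul]
  exact congrArg (q f) (by decide)
theorem t9_3 : Φ f r3 = q f m9_3 := by
  show Φ f (r1 * y) = q f m9_3
  rw [map_mul, t9_1, Φ_y, ← map_mul]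
  exact congrArg (q f) (by decide)
theorem t9_4 : Φ f r4 = q f m9_4 := by
  show Φ f (r2 * x) = q f m9_4
  rw [map_mul, t9_2, Φ_x, ← map_mul]
  exact congrArg (q f) (by decide)
theorem t9_5 : Φ f r5 = q f m9_5 := by
  show Φ f (r2 * y) = q f m9_5
  rw [map_mul, t9_2, Φ_y, ← map_mul]
  exact congrArg (q f) (by decide)
theorem t9_6 : Φ f r6 = q f m9_6 := by
  show Φ f (r3 * x) = q f m9_6
  rw [map_mul, t9_3, Φ_x, ← map_mul]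
  exact congrArg (q f) (by decide)
theorem t9_7 : Φ f r7 = q f m9_7 := by
  show Φ f (r3 * y) = q f m9_7
  rw [map_mul, t9_3, Φ_y, ← map_mul]
  exact congrArg (q f) (by decide)
theorem t9_8 : Φ f r8 = q f m9_8 := by
  show Φ f (r4 * y) = q f m9_8
  rw [map_mul, t9_4, Φ_y, ← map_mul]
  exact congrArg (q f) (by decide)
theorem t9_9 : Φ f r9 = q f m9_9 := by
  show Φ f (r5 * x) = q f m9_9
  rw [map_mul, t9_5, Φ_x, ← map_mul]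
  exact congrArg (q f) (by decide)
theorem t9_10 : Φ f r10 = q f m9_10 := by
  show Φ f (r5 * y) = q f m9_10
  rw [map_mul, t9_5, Φ_y, ← map_mul]
  exact congrArg (q f) (by decide)
theorem t9_11 : Φ f r11 = q f m9_11 := by
  show Φ f (r6 * y) = q f m9_11
  rw [map_mul, t9_6, Φ_y, ← map_mul]
  exact congrArg (q f) (by decide)
theorem t9_12 : Φ f r12 = q f m9_12 := by
  show Φ f (r7 * x) = q f m9_12
  rw [map_mul, t9_7, Φ_x, ← map_mul]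
  exact congrArg (q f) (by decide)
theorem t9_13 : Φ f r13 = q f m9_13 := by
  show Φ f (r7 * y) = q f m9_13
  rw [map_mul, t9_7, Φ_y, ← map_mul]
  exact congrArg (q f) (by decide)
theorem t9_14 : Φ f r14 = q f m9_14 := by
  show Φ f (r8 * x) = q f m9_14
  rw [map_mul, t9_8, Φ_x, ← map_mul]
  exact congrArg (q f) (by decide)
theorem t9_15 : Φ f r15 = q f m9_15 := by
  show Φ f (r8 * y) = q f m9_15
  rw [map_mul, t9_8, Φ_y, ← map_mul]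
  exact congrArg (q f) (by decide)
theorem t9_16 : Φ f r16 = q f m9_16 := by
  show Φ f (r9 * y) = q f m9_16
  rw [map_mul, t9_9, Φ_y, ← map_mul]
  exact congrArg (q f) (by decide)
theorem t9_17 : Φ f r17 = q f m9_17 := by
  show Φ f (r10 * x) = q f m9_17
  rw [map_mul, t9_10, Φ_x, ← map_mul]
  exact congrArg (q f) (by decide)
theorem t9_18 : Φ f r18 = q f m9_18 := by
  show Φ f (r11 * x) = q f m9_18
  rw [map_mul, t9_11, Φ_x, ← map_mul]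
  exact congrArg (q f) (by decide)
theorem t9_19 : Φ f r19 = q f m9_19 := by
  show Φ f (r11 * y) = q f m9_19
  rw [map_mul, t9_11, Φ_y, ← map_mul]
  exact congrArg (q f) (by decide)
theorem t9_20 : Φ f r20 = q f m9_20 := by
  show Φ f (r12 * y) = q f m9_20
  rw [map_mul, t9_12, Φ_y, ← map_mul]
  exact congrArg (q f) (by decide)
theorem t9_21 : Φ f r21 = q f m9_21 := by
  show Φ f (r13 * x) = q f m9_21
  rw [map_mul, t9_13, Φ_x, ← map_mul]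
  exact congrArg (q f) (by decide)
theorem t9_22 : Φ f r22 = q f m9_22 := by
  show Φ f (r14 * y) = q f m9_22
  rw [map_mul, t9_14, Φ_y, ← map_mul]
  exact congrArg (q f) (by decide)
theorem t9_23 : Φ f r23 = q f m9_23 := by
  show Φ f (r15 * x) = q f m9_23
  rw [map_mul, t9_15, Φ_x, ← map_mul]
  exact congrArg (q f) (by decide)
theorem t9_24 : Φ f r24 = q f m9_24 := by
  show Φ f (r15 * y) = q f m9_24
  rw [map_mul, t9_15, Φ_y, ← map_mul]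
  exact congrArg (q f) (by decide)
theorem t9_25 : Φ f r25 = q f m9_25 := by
  show Φ f (r16 * x) = q f m9_25
  rw [map_mul, t9_16, Φ_x, ← map_mul]
  exact congrArg (q f) (by decide)
theorem t9_26 : Φ f r26 = q f m9_26 := by
  show Φ f (r16 * y) = q f m9_26
  rw [map_mul, t9_16, Φ_y, ← map_mul]
  exact congrArg (q f) (by decide)
theorem t9_27 : Φ f r27 = q f m9_27 := by
  show Φ f (r17 * y) = q f m9_27
  rw [map_mul, t9_17, Φ_y, ← map_mul]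
  exact congrArg (q f) (by decide)
theorem t9_28 : Φ f r28 = q f m9_28 := by
  show Φ f (r18 * y) = q f m9_28
  rw [map_mul, t9_18, Φ_y, ← map_mul]
  exact congrArg (q f) (by decide)
theorem t9_29 : Φ f r29 = q f m9_29 := by
  show Φ f (r19 * x) = q f m9_29
  rw [map_mul, t9_19, Φ_x, ← map_mul]
  exact congrArg (q f) (by decide)
theorem t9_30 : Φ f r30 = q f m9_30 := by
  show Φ f (r19 * y) = q f m9_30
  rw [map_mul, t9_19, Φ_y, ← map_mul]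
  exact congrArg (q f) (by decide)
theorem t9_31 : Φ f r31 = q f m9_31 := by
  show Φ f (r20 * x) = q f m9_31
  rw [map_mul, t9_20, Φ_x, ← map_mul]
  exact congrArg (q f) (by decide)
theorem t9_32 : Φ f r32 = q f m9_32 := by
  show Φ f (r20 * y) = q f m9_32
  rw [map_mul, t9_20, Φ_y, ← map_mul]
  exact congrArg (q f) (by decide)
theorem t9_33 : Φ f r33 = q f m9_33 := by
  show Φ f (r21 * y) = q f m9_33
  rw [map_mul, t9_21, Φ_y, ← map_mul]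
  exact congrArg (q f) (by decide)
theorem t9_34 : Φ f r34 = q f m9_34 := by
  show Φ f (r22 * x) = q f m9_34
  rw [map_mul, t9_22, Φ_x, ← map_mul]
  exact congrArg (q f) (by decide)
theorem t9_35 : Φ f r35 = q f m9_35 := by
  show Φ f (r22 * y) = q f m9_35
  rw [map_mul, t9_22, Φ_y, ← map_mul]
  exact congrArg (q f) (by decide)
theorem t9_36 : Φ f r36 = q f m9_36 := by
  show Φ f (r23 * y) = q f m9_36
  rw [map_mul, t9_23, Φ_y, ← map_mul]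
  exact congrArg (q f) (by decide)
theorem t9_37 : Φ f r37 = q f m9_37 := by
  show Φ f (r24 * x) = q f m9_37
  rw [map_mul, t9_24, Φ_x, ← map_mul]
  exact congrArg (q f) (by decide)
theorem t9_38 : Φ f r38 = q f m9_38 := by
  show Φ f (r25 * y) = q f m9_38
  rw [map_mul, t9_25, Φ_y, ← map_mul]
  exact congrArg (q f) (by decide)
theorem t9_39 : Φ f r39 = q f m9_39 := by
  show Φ f (r26 * x) = q f m9_39
  rw [map_mul, t9_26, Φ_x, ← map_mul]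
  exact congrArg (q f) (by decide)
theorem t9_40 : Φ f r40 = q f m9_40 := by
  show Φ f (r26 * y) = q f m9_40
  rw [map_mul, t9_26, Φ_y, ← map_mul]
  exact congrArg (q f) (by decide)
theorem t9_41 : Φ f r41 = q f m9_41 := by
  show Φ f (r27 * x) = q f m9_41
  rw [map_mul, t9_27, Φ_x, ← map_mul]
  exact congrArg (q f) (by decide)
theorem t9_42 : Φ f r42 = q f m9_42 := by
  show Φ f (r27 * y) = q f m9_42
  rw [map_mul, t9_27, Φ_y, ← map_mul]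
  exact congrArg (q f) (by decide)
theorem t9_43 : Φ f r43 = q f m9_43 := by
  show Φ f (r28 * x) = q f m9_43
  rw [map_mul, t9_28, Φ_x, ← map_mul]
  exact congrArg (q f) (by decide)
theorem t9_44 : Φ f r44 = q f m9_44 := by
  show Φ f (r28 * y) = q f m9_44
  rw [map_mul, t9_28, Φ_y, ← map_mul]
  exact congrArg (q f) (by decide)
theorem t9_45 : Φ f r45 = q f m9_45 := by
  show Φ f (r29 * y) = q f m9_45
  rw [map_mul, t9_29, Φ_y, ← map_mul]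
  exact congrArg (q f) (by decide)
theorem t9_46 : Φ f r46 = q f m9_46 := by
  show Φ f (r30 * x) = q f m9_46
  rw [map_mul, t9_30, Φ_x, ← map_mul]
  exact congrArg (q f) (by decide)
theorem t9_47 : Φ f r47 = q f m9_47 := by
  show Φ f (r31 * y) = q f m9_47
  rw [map_mul, t9_31, Φ_y, ← map_mul]
  exact congrArg (q f) (by decide)
theorem t9_48 : Φ f r48 = q f m9_48 := by
  show Φ f (r32 * x) = q f m9_48
  rw [map_mul, t9_32, Φ_x, ← map_mul]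
  exact congrArg (q f) (by decide)
theorem t9_49 : Φ f r49 = q f m9_49 := by
  show Φ f (r32 * y) = q f m9_49
  rw [map_mul, t9_32, Φ_y, ← map_mul]
  exact congrArg (q f) (by decide)
theorem t9_50 : Φ f r50 = q f m9_50 := by
  show Φ f (r33 * x) = q f m9_50
  rw [map_mul, t9_33, Φ_x, ← map_mul]
  exact congrArg (q f) (by decide)
theorem t9_51 : Φ f r51 = q f m9_51 := by
  show Φ f (r33 * y) = q f m9_51
  rw [map_mul, t9_33, Φ_y, ← map_mul]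
  exact congrArg (q f) (by decide)
theorem t9_52 : Φ f r52 = q f m9_52 := by
  show Φ f (r35 * x) = q f m9_52
  rw [map_mul, t9_35, Φ_x, ← map_mul]
  exact congrArg (q f) (by decide)
theorem t9_53 : Φ f r53 = q f m9_53 := by
  show Φ f (r35 * y) = q f m9_53
  rw [map_mul, t9_35, Φ_y, ← map_mul]
  exact congrArg (q f) (by decide)
theorem t9_54 : Φ f r54 = q f m9_54 := by
  show Φ f (r36 * x) = q f m9_54
  rw [map_mul, t9_36, Φ_x, ← map_mul]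
  exact congrArg (q f) (by decide)
theorem t9_55 : Φ f r55 = q f m9_55 := by
  show Φ f (r36 * y) = q f m9_55
  rw [map_mul, t9_36, Φ_y, ← map_mul]
  exact congrArg (q f) (by decide)
theorem t9_56 : Φ f r56 = q f m9_56 := by
  show Φ f (r37 * y) = q f m9_56
  rw [map_mul, t9_37, Φ_y, ← map_mul]
  exact congrArg (q f) (by decide)
theorem t9_57 : Φ f r57 = q f m9_57 := by
  show Φ f (r38 * x) = q f m9_57
  rw [map_mul, t9_38, Φ_x, ← map_mul]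
  exact congrArg (q f) (by decide)
theorem t9_58 : Φ f r58 = q f m9_58 := by
  show Φ f (r38 * y) = q f m9_58
  rw [map_mul, t9_38, Φ_y, ← map_mul]
  exact congrArg (q f) (by decide)
theorem t9_59 : Φ f r59 = q f m9_59 := by
  show Φ f (r39 * y) = q f m9_59
  rw [map_mul, t9_39, Φ_y, ← map_mul]
  exact congrArg (q f) (by decide)
theorem t9_60 : Φ f r60 = q f m9_60 := by
  show Φ f (r40 * x) = q f m9_60
  rw [map_mul, t9_40, Φ_x, ← map_mul]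
  exact congrArg (q f) (by decide)
theorem t9_61 : Φ f r61 = q f m9_61 := by
  show Φ f (r41 * y) = q f m9_61
  rw [map_mul, t9_41, Φ_y, ← map_mul]
  exact congrArg (q f) (by decide)
theorem t9_62 : Φ f r62 = q f m9_62 := by
  show Φ f (r42 * x) = q f m9_62
  rw [map_mul, t9_42, Φ_x, ← map_mul]
  exact congrArg (q f) (by decide)
theorem t9_63 : Φ f r63 = q f m9_63 := by
  show Φ f (r44 * x) = q f m9_63
  rw [map_mul, t9_44, Φ_x, ← map_mul]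
  exact congrArg (q f) (by decide)
theorem t9_64 : Φ f r64 = q f m9_64 := by
  show Φ f (r44 * y) = q f m9_64
  rw [map_mul, t9_44, Φ_y, ← map_mul]
  exact congrArg (q f) (by decide)
theorem t9_65 : Φ f r65 = q f m9_65 := by
  show Φ f (r45 * x) = q f m9_65
  rw [map_mul, t9_45, Φ_x, ← map_mul]
  exact congrArg (q f) (by decide)
theorem t9_66 : Φ f r66 = q f m9_66 := by
  show Φ f (r45 * y) = q f m9_66
  rw [map_mul, t9_45, Φ_y, ← map_mul]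
  exact congrArg (q f) (by decide)
theorem t9_67 : Φ f r67 = q f m9_67 := by
  show Φ f (r46 * y) = q f m9_67
  rw [map_mul, t9_46, Φ_y, ← map_mul]
  exact congrArg (q f) (by decide)
theorem t9_68 : Φ f r68 = q f m9_68 := by
  show Φ f (r47 * x) = q f m9_68
  rw [map_mul, t9_47, Φ_x, ← map_mul]
  exact congrArg (q f) (by decide)
theorem t9_69 : Φ f r69 = q f m9_69 := by
  show Φ f (r47 * y) = q f m9_69
  rw [map_mul, t9_47, Φ_y, ← map_mul]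
  exact congrArg (q f) (by decide)
theorem t9_70 : Φ f r70 = q f m9_70 := by
  show Φ f (r48 * y) = q f m9_70
  rw [map_mul, t9_48, Φ_y, ← map_mul]
  exact congrArg (q f) (by decide)
theorem t9_71 : Φ f r71 = q f m9_71 := by
  show Φ f (r49 * x) = q f m9_71
  rw [map_mul, t9_49, Φ_x, ← map_mul]
  exact congrArg (q f) (by decide)
theorem t9_72 : Φ f r72 = q f m9_72 := by
  show Φ f (r50 * y) = q f m9_72
  rw [map_mul, t9_50, Φ_y, ← map_mul]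
  exact congrArg (q f) (by decide)
theorem t9_73 : Φ f r73 = q f m9_73 := by
  show Φ f (r51 * x) = q f m9_73
  rw [map_mul, t9_51, Φ_x, ← map_mul]
  exact congrArg (q f) (by decide)
theorem t9_74 : Φ f r74 = q f m9_74 := by
  show Φ f (r52 * y) = q f m9_74
  rw [map_mul, t9_52, Φ_y, ← map_mul]
  exact congrArg (q f) (by decide)
theorem t9_75 : Φ f r75 = q f m9_75 := by
  show Φ f (r53 * x) = q f m9_75
  rw [map_mul, t9_53, Φ_x, ← map_mul]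
  exact congrArg (q f) (by decide)
theorem t9_76 : Φ f r76 = q f m9_76 := by
  show Φ f (r54 * y) = q f m9_76
  rw [map_mul, t9_54, Φ_y, ← map_mul]
  exact congrArg (q f) (by decide)
theorem t9_77 : Φ f r77 = q f m9_77 := by
  show Φ f (r55 * x) = q f m9_77
  rw [map_mul, t9_55, Φ_x, ← map_mul]
  exact congrArg (q f) (by decide)
theorem t9_78 : Φ f r78 = q f m9_78 := by
  show Φ f (r55 * y) = q f m9_78
  rw [map_mul, t9_55, Φ_y, ← map_mul]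
  exact congrArg (q f) (by decide)
theorem t9_79 : Φ f r79 = q f m9_79 := by
  show Φ f (r56 * x) = q f m9_79
  rw [map_mul, t9_56, Φ_x, ← map_mul]
  exact congrArg (q f) (by decide)
theorem t9_80 : Φ f r80 = q f m9_80 := by
  show Φ f (r56 * y) = q f m9_80
  rw [map_mul, t9_56, Φ_y, ← map_mul]
  exact congrArg (q f) (by decide)
theorem t9_81 : Φ f r81 = q f m9_81 := by
  show Φ f (r58 * x) = q f m9_81
  rw [map_mul, t9_58, Φ_x, ← map_mul]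
  exact congrArg (q f) (by decide)
theorem t9_82 : Φ f r82 = q f m9_82 := by
  show Φ f (r58 * y) = q f m9_82
  rw [map_mul, t9_58, Φ_y, ← map_mul]
  exact congrArg (q f) (by decide)
theorem t9_83 : Φ f r83 = q f m9_83 := by
  show Φ f (r59 * x) = q f m9_83
  rw [map_mul, t9_59, Φ_x, ← map_mul]
  exact congrArg (q f) (by decide)
theorem t9_84 : Φ f r84 = q f m9_84 := by
  show Φ f (r60 * y) = q f m9_84
  rw [map_mul, t9_60, Φ_y, ← map_mul]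
  exact congrArg (q f) (by decide)
theorem t9_85 : Φ f r85 = q f m9_85 := by
  show Φ f (r61 * x) = q f m9_85
  rw [map_mul, t9_61, Φ_x, ← map_mul]
  exact congrArg (q f) (by decide)
theorem t9_86 : Φ f r86 = q f m9_86 := by
  show Φ f (r61 * y) = q f m9_86
  rw [map_mul, t9_61, Φ_y, ← map_mul]
  exact congrArg (q f) (by decide)
theorem t9_87 : Φ f r87 = q f m9_87 := by
  show Φ f (r62 * y) = q f m9_87
  rw [map_mul, t9_62, Φ_y, ← map_mul]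
  exact congrArg (q f) (by decide)
theorem t9_88 : Φ f r88 = q f m9_88 := by
  show Φ f (r63 * y) = q f m9_88
  rw [map_mul, t9_63, Φ_y, ← map_mul]
  exact congrArg (q f) (by decide)
theorem t9_89 : Φ f r89 = q f m9_89 := by
  show Φ f (r64 * x) = q f m9_89
  rw [map_mul, t9_64, Φ_x, ← map_mul]
  exact congrArg (q f) (by decide)
theorem t9_90 : Φ f r90 = q f m9_90 := by
  show Φ f (r65 * y) = q f m9_90
  rw [map_mul, t9_65, Φ_y, ← map_mul]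
  exact congrArg (q f) (by decide)
theorem t9_91 : Φ f r91 = q f m9_91 := by
  show Φ f (r66 * x) = q f m9_91
  rw [map_mul, t9_66, Φ_x, ← map_mul]
  exact congrArg (q f) (by decide)
theorem t9_92 : Φ f r92 = q f m9_92 := by
  show Φ f (r66 * y) = q f m9_92
  rw [map_mul, t9_66, Φ_y, ← map_mul]
  exact congrArg (q f) (by decide)
theorem t9_93 : Φ f r93 = q f m9_93 := by
  show Φ f (r67 * x) = q f m9_93
  rw [map_mul, t9_67, Φ_x, ← map_mul]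
  exact congrArg (q f) (by decide)
theorem t9_94 : Φ f r94 = q f m9_94 := by
  show Φ f (r67 * y) = q f m9_94
  rw [map_mul, t9_67, Φ_y, ← map_mul]
  exact congrArg (q f) (by decide)
theorem t9_95 : Φ f r95 = q f m9_95 := by
  show Φ f (r69 * x) = q f m9_95
  rw [map_mul, t9_69, Φ_x, ← map_mul]
  exact congrArg (q f) (by decide)
theorem t9_96 : Φ f r96 = q f m9_96 := by
  show Φ f (r69 * y) = q f m9_96
  rw [map_mul, t9_69, Φ_y, ← map_mul]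
  exact congrArg (q f) (by decide)
theorem t9_97 : Φ f r97 = q f m9_97 := by
  show Φ f (r70 * x) = q f m9_97
  rw [map_mul, t9_70, Φ_x, ← map_mul]
  exact congrArg (q f) (by decide)
theorem t9_98 : Φ f r98 = q f m9_98 := by
  show Φ f (r71 * y) = q f m9_98
  rw [map_mul, t9_71, Φ_y, ← map_mul]
  exact congrArg (q f) (by decide)
theorem t9_99 : Φ f r99 = q f m9_99 := by
  show Φ f (r72 * x) = q f m9_99
  rw [map_mul, t9_72, Φ_x, ← map_mul]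
  exact congrArg (q f) (by decide)
theorem t9_100 : Φ f r100 = q f m9_100 := by
  show Φ f (r72 * y) = q f m9_100
  rw [map_mul, t9_72, Φ_y, ← map_mul]
  exact congrArg (q f) (by decide)
theorem t9_101 : Φ f r101 = q f m9_101 := by
  show Φ f (r73 * y) = q f m9_101
  rw [map_mul, t9_73, Φ_y, ← map_mul]
  exact congrArg (q f) (by decide)
theorem t9_102 : Φ f r102 = q f m9_102 := by
  show Φ f (r74 * x) = q f m9_102
  rw [map_mul, t9_74, Φ_x, ← map_mul]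
  exact congrArg (q f) (by decide)
theorem t9_103 : Φ f r103 = q f m9_103 := by
  show Φ f (r74 * y) = q f m9_103
  rw [map_mul, t9_74, Φ_y, ← map_mul]
  exact congrArg (q f) (by decide)
theorem t9_104 : Φ f r104 = q f m9_104 := by
  show Φ f (r75 * y) = q f m9_104
  rw [map_mul, t9_75, Φ_y, ← map_mul]
  exact congrArg (q f) (by decide)
theorem t9_105 : Φ f r105 = q f m9_105 := by
  show Φ f (r76 * x) = q f m9_105
  rw [map_mul, t9_76, Φ_x, ← map_mul]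
  exact congrArg (q f) (by decide)
theorem t9_106 : Φ f r106 = q f m9_106 := by
  show Φ f (r76 * y) = q f m9_106
  rw [map_mul, t9_76, Φ_y, ← map_mul]
  exact congrArg (q f) (by decide)
theorem t9_107 : Φ f r107 = q f m9_107 := by
  show Φ f (r77 * y) = q f m9_107
  rw [map_mul, t9_77, Φ_y, ← map_mul]
  exact congrArg (q f) (by decide)
theorem t9_108 : Φ f r108 = q f m9_108 := by
  show Φ f (r78 * x) = q f m9_108
  rw [map_mul, t9_78, Φ_x, ← map_mul]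
  exact congrArg (q f) (by decide)
theorem t9_109 : Φ f r109 = q f m9_109 := by
  show Φ f (r79 * y) = q f m9_109
  rw [map_mul, t9_79, Φ_y, ← map_mul]
  exact congrArg (q f) (by decide)
theorem t9_110 : Φ f r110 = q f m9_110 := by
  show Φ f (r80 * x) = q f m9_110
  rw [map_mul, t9_80, Φ_x, ← map_mul]
  exact congrArg (q f) (by decide)
theorem t9_111 : Φ f r111 = q f m9_111 := by
  show Φ f (r81 * y) = q f m9_111
  rw [map_mul, t9_81, Φ_y, ← map_mul]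
  exact congrArg (q f) (by decide)
theorem t9_112 : Φ f r112 = q f m9_112 := by
  show Φ f (r82 * x) = q f m9_112
  rw [map_mul, t9_82, Φ_x, ← map_mul]
  exact congrArg (q f) (by decide)
theorem t9_113 : Φ f r113 = q f m9_113 := by
  show Φ f (r83 * y) = q f m9_113
  rw [map_mul, t9_83, Φ_y, ← map_mul]
  exact congrArg (q f) (by decide)
theorem t9_114 : Φ f r114 = q f m9_114 := by
  show Φ f (r84 * x) = q f m9_114
  rw [map_mul, t9_84, Φ_x, ← map_mul]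
  exact congrArg (q f) (by decide)
theorem t9_115 : Φ f r115 = q f m9_115 := by
  show Φ f (r84 * y) = q f m9_115
  rw [map_mul, t9_84, Φ_y, ← map_mul]
  exact congrArg (q f) (by decide)
theorem t9_116 : Φ f r116 = q f m9_116 := by
  show Φ f (r86 * x) = q f m9_116
  rw [map_mul, t9_86, Φ_x, ← map_mul]
  exact congrArg (q f) (by decide)
theorem t9_117 : Φ f r117 = q f m9_117 := by
  show Φ f (r86 * y) = q f m9_117
  rw [map_mul, t9_86, Φ_y, ← map_mul]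
  exact congrArg (q f) (by decide)
theorem t9_118 : Φ f r118 = q f m9_118 := by
  show Φ f (r87 * x) = q f m9_118
  rw [map_mul, t9_87, Φ_x, ← map_mul]
  exact congrArg (q f) (by decide)
theorem t9_119 : Φ f r119 = q f m9_119 := by
  show Φ f (r88 * x) = q f m9_119
  rw [map_mul, t9_88, Φ_x, ← map_mul]
  exact congrArg (q f) (by decide)
theorem t9_120 : Φ f r120 = q f m9_120 := by
  show Φ f (r88 * y) = q f m9_120
  rw [map_mul, t9_88, Φ_y, ← map_mul]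
  exact congrArg (q f) (by decide)
theorem t9_121 : Φ f r121 = q f m9_121 := by
  show Φ f (r89 * y) = q f m9_121
  rw [map_mul, t9_89, Φ_y, ← map_mul]
  exact congrArg (q f) (by decide)
theorem t9_122 : Φ f r122 = q f m9_122 := by
  show Φ f (r90 * x) = q f m9_122
  rw [map_mul, t9_90, Φ_x, ← map_mul]
  exact congrArg (q f) (by decide)
theorem t9_123 : Φ f r123 = q f m9_123 := by
  show Φ f (r90 * y) = q f m9_123
  rw [map_mul, t9_90, Φ_y, ← map_mul]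
  exact congrArg (q f) (by decide)
theorem t9_124 : Φ f r124 = q f m9_124 := by
  show Φ f (r91 * y) = q f m9_124
  rw [map_mul, t9_91, Φ_y, ← map_mul]
  exact congrArg (q f) (by decide)
theorem t9_125 : Φ f r125 = q f m9_125 := by
  show Φ f (r92 * x) = q f m9_125
  rw [map_mul, t9_92, Φ_x, ← map_mul]
  exact congrArg (q f) (by decide)
theorem t9_126 : Φ f r126 = q f m9_126 := by
  show Φ f (r93 * y) = q f m9_126
  rw [map_mul, t9_93, Φ_y, ← map_mul]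
  exact congrArg (q f) (by decide)
theorem t9_127 : Φ f r127 = q f m9_127 := by
  show Φ f (r94 * x) = q f m9_127
  rw [map_mul, t9_94, Φ_x, ← map_mul]
  exact congrArg (q f) (by decide)
theorem t9_128 : Φ f r128 = q f m9_128 := by
  show Φ f (r95 * y) = q f m9_128
  rw [map_mul, t9_95, Φ_y, ← map_mul]
  exact congrArg (q f) (by decide)
theorem t9_129 : Φ f r129 = q f m9_129 := by
  show Φ f (r96 * x) = q f m9_129
  rw [map_mul, t9_96, Φ_x, ← map_mul]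
  exact congrArg (q f) (by decide)
theorem t9_130 : Φ f r130 = q f m9_130 := by
  show Φ f (r97 * y) = q f m9_130
  rw [map_mul, t9_97, Φ_y, ← map_mul]
  exact congrArg (q f) (by decide)
theorem t9_131 : Φ f r131 = q f m9_131 := by
  show Φ f (r98 * x) = q f m9_131
  rw [map_mul, t9_98, Φ_x, ← map_mul]
  exact congrArg (q f) (by decide)
theorem t9_132 : Φ f r132 = q f m9_132 := by
  show Φ f (r98 * y) = q f m9_132
  rw [map_mul, t9_98, Φ_y, ← map_mul]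
  exact congrArg (q f) (by decide)
theorem t9_133 : Φ f r133 = q f m9_133 := by
  show Φ f (r100 * x) = q f m9_133
  rw [map_mul, t9_100, Φ_x, ← map_mul]
  exact congrArg (q f) (by decide)
theorem t9_134 : Φ f r134 = q f m9_134 := by
  show Φ f (r100 * y) = q f m9_134
  rw [map_mul, t9_100, Φ_y, ← map_mul]
  exact congrArg (q f) (by decide)
theorem t9_135 : Φ f r135 = q f m9_135 := by
  show Φ f (r101 * x) = q f m9_135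
  rw [map_mul, t9_101, Φ_x, ← map_mul]
  exact congrArg (q f) (by decide)
theorem t9_136 : Φ f r136 = q f m9_136 := by
  show Φ f (r102 * y) = q f m9_136
  rw [map_mul, t9_102, Φ_y, ← map_mul]
  exact congrArg (q f) (by decide)
theorem t9_137 : Φ f r137 = q f m9_137 := by
  show Φ f (r103 * x) = q f m9_137
  rw [map_mul, t9_103, Φ_x, ← map_mul]
  exact congrArg (q f) (by decide)
theorem t9_138 : Φ f r138 = q f m9_138 := by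
  show Φ f (r103 * y) = q f m9_138
  rw [map_mul, t9_103, Φ_y, ← map_mul]
  exact congrArg (q f) (by decide)
theorem t9_139 : Φ f r139 = q f m9_139 := by
  show Φ f (r104 * x) = q f m9_139
  rw [map_mul, t9_104, Φ_x, ← map_mul]
  exact congrArg (q f) (by decide)
theorem t9_140 : Φ f r140 = q f m9_140 := by
  show Φ f (r104 * y) = q f m9_140
  rw [map_mul, t9_104, Φ_y, ← map_mul]
  exact congrArg (q f) (by decide)
theorem t9_141 : Φ f r141 = q f m9_141 := by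
  show Φ f (r106 * x) = q f m9_141
  rw [map_mul, t9_106, Φ_x, ← map_mul]
  exact congrArg (q f) (by decide)
theorem t9_142 : Φ f r142 = q f m9_142 := by
  show Φ f (r106 * y) = q f m9_142
  rw [map_mul, t9_106, Φ_y, ← map_mul]
  exact congrArg (q f) (by decide)
theorem t9_143 : Φ f r143 = q f m9_143 := by
  show Φ f (r107 * x) = q f m9_143
  rw [map_mul, t9_107, Φ_x, ← map_mul]
  exact congrArg (q f) (by decide)
theorem t9_144 : Φ f r144 = q f m9_144 := by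
  show Φ f (r108 * y) = q f m9_144
  rw [map_mul, t9_108, Φ_y, ← map_mul]
  exact congrArg (q f) (by decide)
theorem t9_145 : Φ f r145 = q f m9_145 := by
  show Φ f (r109 * x) = q f m9_145
  rw [map_mul, t9_109, Φ_x, ← map_mul]
  exact congrArg (q f) (by decide)
theorem t9_146 : Φ f r146 = q f m9_146 := by
  show Φ f (r109 * y) = q f m9_146
  rw [map_mul, t9_109, Φ_y, ← map_mul]
  exact congrArg (q f) (by decide)
theorem t9_147 : Φ f r147 = q f m9_147 := by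
  show Φ f (r110 * y) = q f m9_147
  rw [map_mul, t9_110, Φ_y, ← map_mul]
  exact congrArg (q f) (by decide)
theorem t9_148 : Φ f r148 = q f m9_148 := by
  show Φ f (r111 * x) = q f m9_148
  rw [map_mul, t9_111, Φ_x, ← map_mul]
  exact congrArg (q f) (by decide)
theorem t9_149 : Φ f r149 = q f m9_149 := by
  show Φ f (r111 * y) = q f m9_149
  rw [map_mul, t9_111, Φ_y, ← map_mul]
  exact congrArg (q f) (by decide)
theorem t9_150 : Φ f r150 = q f m9_150 := by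
  show Φ f (r112 * y) = q f m9_150
  rw [map_mul, t9_112, Φ_y, ← map_mul]
  exact congrArg (q f) (by decide)
theorem t9_151 : Φ f r151 = q f m9_151 := by
  show Φ f (r113 * x) = q f m9_151
  rw [map_mul, t9_113, Φ_x, ← map_mul]
  exact congrArg (q f) (by decide)
theorem t9_152 : Φ f r152 = q f m9_152 := by
  show Φ f (r113 * y) = q f m9_152
  rw [map_mul, t9_113, Φ_y, ← map_mul]
  exact congrArg (q f) (by decide)
theorem t9_153 : Φ f r153 = q f m9_153 := by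
  show Φ f (r114 * y) = q f m9_153
  rw [map_mul, t9_114, Φ_y, ← map_mul]
  exact congrArg (q f) (by decide)
theorem t9_154 : Φ f r154 = q f m9_154 := by
  show Φ f (r115 * x) = q f m9_154
  rw [map_mul, t9_115, Φ_x, ← map_mul]
  exact congrArg (q f) (by decide)
theorem t9_155 : Φ f r155 = q f m9_155 := by
  show Φ f (r116 * y) = q f m9_155
  rw [map_mul, t9_116, Φ_y, ← map_mul]
  exact congrArg (q f) (by decide)
theorem t9_156 : Φ f r156 = q f m9_156 := by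
  show Φ f (r117 * x) = q f m9_156
  rw [map_mul, t9_117, Φ_x, ← map_mul]
  exact congrArg (q f) (by decide)
theorem t9_157 : Φ f r157 = q f m9_157 := by
  show Φ f (r118 * y) = q f m9_157
  rw [map_mul, t9_118, Φ_y, ← map_mul]
  exact congrArg (q f) (by decide)
theorem t9_158 : Φ f r158 = q f m9_158 := by
  show Φ f (r120 * x) = q f m9_158
  rw [map_mul, t9_120, Φ_x, ← map_mul]
  exact congrArg (q f) (by decide)
theorem t9_159 : Φ f r159 = q f m9_159 := by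
  show Φ f (r120 * y) = q f m9_159
  rw [map_mul, t9_120, Φ_y, ← map_mul]
  exact congrArg (q f) (by decide)
theorem t9_160 : Φ f r160 = q f m9_160 := by
  show Φ f (r121 * x) = q f m9_160
  rw [map_mul, t9_121, Φ_x, ← map_mul]
  exact congrArg (q f) (by decide)
theorem t9_161 : Φ f r161 = q f m9_161 := by
  show Φ f (r121 * y) = q f m9_161
  rw [map_mul, t9_121, Φ_y, ← map_mul]
  exact congrArg (q f) (by decide)
theorem t9_162 : Φ f r162 = q f m9_162 := by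
  show Φ f (r123 * x) = q f m9_162
  rw [map_mul, t9_123, Φ_x, ← map_mul]
  exact congrArg (q f) (by decide)
theorem t9_163 : Φ f r163 = q f m9_163 := by
  show Φ f (r123 * y) = q f m9_163
  rw [map_mul, t9_123, Φ_y, ← map_mul]
  exact congrArg (q f) (by decide)
theorem t9_164 : Φ f r164 = q f m9_164 := by
  show Φ f (r125 * y) = q f m9_164
  rw [map_mul, t9_125, Φ_y, ← map_mul]
  exact congrArg (q f) (by decide)
theorem t9_165 : Φ f r165 = q f m9_165 := by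
  show Φ f (r126 * x) = q f m9_165
  rw [map_mul, t9_126, Φ_x, ← map_mul]
  exact congrArg (q f) (by decide)
theorem t9_166 : Φ f r166 = q f m9_166 := by
  show Φ f (r126 * y) = q f m9_166
  rw [map_mul, t9_126, Φ_y, ← map_mul]
  exact congrArg (q f) (by decide)
theorem t9_167 : Φ f r167 = q f m9_167 := by
  show Φ f (r127 * y) = q f m9_167
  rw [map_mul, t9_127, Φ_y, ← map_mul]
  exact congrArg (q f) (by decide)
theorem t9_168 : Φ f r168 = q f m9_168 := by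
  show Φ f (r128 * x) = q f m9_168
  rw [map_mul, t9_128, Φ_x, ← map_mul]
  exact congrArg (q f) (by decide)
theorem t9_169 : Φ f r169 = q f m9_169 := by
  show Φ f (r128 * y) = q f m9_169
  rw [map_mul, t9_128, Φ_y, ← map_mul]
  exact congrArg (q f) (by decide)
theorem t9_170 : Φ f r170 = q f m9_170 := by
  show Φ f (r129 * y) = q f m9_170
  rw [map_mul, t9_129, Φ_y, ← map_mul]
  exact congrArg (q f) (by decide)
theorem t9_171 : Φ f r171 = q f m9_171 := by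
  show Φ f (r130 * x) = q f m9_171
  rw [map_mul, t9_130, Φ_x, ← map_mul]
  exact congrArg (q f) (by decide)
theorem t9_172 : Φ f r172 = q f m9_172 := by
  show Φ f (r130 * y) = q f m9_172
  rw [map_mul, t9_130, Φ_y, ← map_mul]
  exact congrArg (q f) (by decide)
theorem t9_173 : Φ f r173 = q f m9_173 := by
  show Φ f (r131 * y) = q f m9_173
  rw [map_mul, t9_131, Φ_y, ← map_mul]
  exact congrArg (q f) (by decide)
theorem t9_174 : Φ f r174 = q f m9_174 := by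
  show Φ f (r132 * x) = q f m9_174
  rw [map_mul, t9_132, Φ_x, ← map_mul]
  exact congrArg (q f) (by decide)
theorem t9_175 : Φ f r175 = q f m9_175 := by
  show Φ f (r133 * y) = q f m9_175
  rw [map_mul, t9_133, Φ_y, ← map_mul]
  exact congrArg (q f) (by decide)
theorem t9_176 : Φ f r176 = q f m9_176 := by
  show Φ f (r134 * x) = q f m9_176
  rw [map_mul, t9_134, Φ_x, ← map_mul]
  exact congrArg (q f) (by decide)
theorem t9_177 : Φ f r177 = q f m9_177 := by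
  show Φ f (r135 * y) = q f m9_177
  rw [map_mul, t9_135, Φ_y, ← map_mul]
  exact congrArg (q f) (by decide)
theorem t9_178 : Φ f r178 = q f m9_178 := by
  show Φ f (r136 * y) = q f m9_178
  rw [map_mul, t9_136, Φ_y, ← map_mul]
  exact congrArg (q f) (by decide)
theorem t9_179 : Φ f r179 = q f m9_179 := by
  show Φ f (r137 * y) = q f m9_179
  rw [map_mul, t9_137, Φ_y, ← map_mul]
  exact congrArg (q f) (by decide)
theorem t9_180 : Φ f r180 = q f m9_180 := by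
  show Φ f (r138 * x) = q f m9_180
  rw [map_mul, t9_138, Φ_x, ← map_mul]
  exact congrArg (q f) (by decide)
theorem t9_181 : Φ f r181 = q f m9_181 := by
  show Φ f (r139 * y) = q f m9_181
  rw [map_mul, t9_139, Φ_y, ← map_mul]
  exact congrArg (q f) (by decide)
theorem t9_182 : Φ f r182 = q f m9_182 := by
  show Φ f (r140 * x) = q f m9_182
  rw [map_mul, t9_140, Φ_x, ← map_mul]
  exact congrArg (q f) (by decide)
theorem t9_183 : Φ f r183 = q f m9_183 := by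
  show Φ f (r141 * y) = q f m9_183
  rw [map_mul, t9_141, Φ_y, ← map_mul]
  exact congrArg (q f) (by decide)
theorem t9_184 : Φ f r184 = q f m9_184 := by
  show Φ f (r142 * x) = q f m9_184
  rw [map_mul, t9_142, Φ_x, ← map_mul]
  exact congrArg (q f) (by decide)
theorem t9_185 : Φ f r185 = q f m9_185 := by
  show Φ f (r143 * y) = q f m9_185
  rw [map_mul, t9_143, Φ_y, ← map_mul]
  exact congrArg (q f) (by decide)
theorem t9_186 : Φ f r186 = q f m9_186 := by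
  show Φ f (r144 * x) = q f m9_186
  rw [map_mul, t9_144, Φ_x, ← map_mul]
  exact congrArg (q f) (by decide)
theorem t9_187 : Φ f r187 = q f m9_187 := by
  show Φ f (r144 * y) = q f m9_187
  rw [map_mul, t9_144, Φ_y, ← map_mul]
  exact congrArg (q f) (by decide)
theorem t9_188 : Φ f r188 = q f m9_188 := by
  show Φ f (r146 * x) = q f m9_188
  rw [map_mul, t9_146, Φ_x, ← map_mul]
  exact congrArg (q f) (by decide)
theorem t9_189 : Φ f r189 = q f m9_189 := by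
  show Φ f (r146 * y) = q f m9_189
  rw [map_mul, t9_146, Φ_y, ← map_mul]
  exact congrArg (q f) (by decide)
theorem t9_190 : Φ f r190 = q f m9_190 := by
  show Φ f (r147 * x) = q f m9_190
  rw [map_mul, t9_147, Φ_x, ← map_mul]
  exact congrArg (q f) (by decide)
theorem t9_191 : Φ f r191 = q f m9_191 := by
  show Φ f (r148 * y) = q f m9_191
  rw [map_mul, t9_148, Φ_y, ← map_mul]
  exact congrArg (q f) (by decide)
theorem t9_192 : Φ f r192 = q f m9_192 := by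
  show Φ f (r149 * x) = q f m9_192
  rw [map_mul, t9_149, Φ_x, ← map_mul]
  exact congrArg (q f) (by decide)
theorem t9_193 : Φ f r193 = q f m9_193 := by
  show Φ f (r149 * y) = q f m9_193
  rw [map_mul, t9_149, Φ_y, ← map_mul]
  exact congrArg (q f) (by decide)
theorem t9_194 : Φ f r194 = q f m9_194 := by
  show Φ f (r150 * x) = q f m9_194
  rw [map_mul, t9_150, Φ_x, ← map_mul]
  exact congrArg (q f) (by decide)
theorem t9_195 : Φ f r195 = q f m9_195 := by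
  show Φ f (r150 * y) = q f m9_195
  rw [map_mul, t9_150, Φ_y, ← map_mul]
  exact congrArg (q f) (by decide)
theorem t9_196 : Φ f r196 = q f m9_196 := by
  show Φ f (r152 * x) = q f m9_196
  rw [map_mul, t9_152, Φ_x, ← map_mul]
  exact congrArg (q f) (by decide)
theorem t9_197 : Φ f r197 = q f m9_197 := by
  show Φ f (r152 * y) = q f m9_197
  rw [map_mul, t9_152, Φ_y, ← map_mul]
  exact congrArg (q f) (by decide)
theorem t9_198 : Φ f r198 = q f m9_198 := by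
  show Φ f (r153 * x) = q f m9_198
  rw [map_mul, t9_153, Φ_x, ← map_mul]
  exact congrArg (q f) (by decide)
theorem t9_199 : Φ f r199 = q f m9_199 := by
  show Φ f (r153 * y) = q f m9_199
  rw [map_mul, t9_153, Φ_y, ← map_mul]
  exact congrArg (q f) (by decide)
theorem t9_200 : Φ f r200 = q f m9_200 := by
  show Φ f (r154 * y) = q f m9_200
  rw [map_mul, t9_154, Φ_y, ← map_mul]
  exact congrArg (q f) (by decide)
theorem t9_201 : Φ f r201 = q f m9_201 := by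
  show Φ f (r155 * x) = q f m9_201
  rw [map_mul, t9_155, Φ_x, ← map_mul]
  exact congrArg (q f) (by decide)
theorem t9_202 : Φ f r202 = q f m9_202 := by
  show Φ f (r155 * y) = q f m9_202
  rw [map_mul, t9_155, Φ_y, ← map_mul]
  exact congrArg (q f) (by decide)
theorem t9_203 : Φ f r203 = q f m9_203 := by
  show Φ f (r156 * y) = q f m9_203
  rw [map_mul, t9_156, Φ_y, ← map_mul]
  exact congrArg (q f) (by decide)
theorem t9_204 : Φ f r204 = q f m9_204 := by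
  show Φ f (r157 * x) = q f m9_204
  rw [map_mul, t9_157, Φ_x, ← map_mul]
  exact congrArg (q f) (by decide)
theorem t9_205 : Φ f r205 = q f m9_205 := by
  show Φ f (r157 * y) = q f m9_205
  rw [map_mul, t9_157, Φ_y, ← map_mul]
  exact congrArg (q f) (by decide)
theorem t9_206 : Φ f r206 = q f m9_206 := by
  show Φ f (r158 * y) = q f m9_206
  rw [map_mul, t9_158, Φ_y, ← map_mul]
  exact congrArg (q f) (by decide)
theorem t9_207 : Φ f r207 = q f m9_207 := by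
  show Φ f (r159 * x) = q f m9_207
  rw [map_mul, t9_159, Φ_x, ← map_mul]
  exact congrArg (q f) (by decide)
theorem t9_208 : Φ f r208 = q f m9_208 := by
  show Φ f (r160 * y) = q f m9_208
  rw [map_mul, t9_160, Φ_y, ← map_mul]
  exact congrArg (q f) (by decide)
theorem t9_209 : Φ f r209 = q f m9_209 := by
  show Φ f (r162 * y) = q f m9_209
  rw [map_mul, t9_162, Φ_y, ← map_mul]
  exact congrArg (q f) (by decide)
theorem t9_210 : Φ f r210 = q f m9_210 := by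
  show Φ f (r163 * x) = q f m9_210
  rw [map_mul, t9_163, Φ_x, ← map_mul]
  exact congrArg (q f) (by decide)
theorem t9_211 : Φ f r211 = q f m9_211 := by
  show Φ f (r164 * x) = q f m9_211
  rw [map_mul, t9_164, Φ_x, ← map_mul]
  exact congrArg (q f) (by decide)
theorem t9_212 : Φ f r212 = q f m9_212 := by
  show Φ f (r164 * y) = q f m9_212
  rw [map_mul, t9_164, Φ_y, ← map_mul]
  exact congrArg (q f) (by decide)
theorem t9_213 : Φ f r213 = q f m9_213 := by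
  show Φ f (r166 * x) = q f m9_213
  rw [map_mul, t9_166, Φ_x, ← map_mul]
  exact congrArg (q f) (by decide)
theorem t9_214 : Φ f r214 = q f m9_214 := by
  show Φ f (r166 * y) = q f m9_214
  rw [map_mul, t9_166, Φ_y, ← map_mul]
  exact congrArg (q f) (by decide)
theorem t9_215 : Φ f r215 = q f m9_215 := by
  show Φ f (r167 * x) = q f m9_215
  rw [map_mul, t9_167, Φ_x, ← map_mul]
  exact congrArg (q f) (by decide)
theorem t9_216 : Φ f r216 = q f m9_216 := by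
  show Φ f (r168 * y) = q f m9_216
  rw [map_mul, t9_168, Φ_y, ← map_mul]
  exact congrArg (q f) (by decide)
theorem t9_217 : Φ f r217 = q f m9_217 := by
  show Φ f (r169 * x) = q f m9_217
  rw [map_mul, t9_169, Φ_x, ← map_mul]
  exact congrArg (q f) (by decide)
theorem t9_218 : Φ f r218 = q f m9_218 := by
  show Φ f (r169 * y) = q f m9_218
  rw [map_mul, t9_169, Φ_y, ← map_mul]
  exact congrArg (q f) (by decide)
theorem t9_219 : Φ f r219 = q f m9_219 := by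
  show Φ f (r170 * x) = q f m9_219
  rw [map_mul, t9_170, Φ_x, ← map_mul]
  exact congrArg (q f) (by decide)
theorem t9_220 : Φ f r220 = q f m9_220 := by
  show Φ f (r170 * y) = q f m9_220
  rw [map_mul, t9_170, Φ_y, ← map_mul]
  exact congrArg (q f) (by decide)
theorem t9_221 : Φ f r221 = q f m9_221 := by
  show Φ f (r172 * x) = q f m9_221
  rw [map_mul, t9_172, Φ_x, ← map_mul]
  exact congrArg (q f) (by decide)
theorem t9_222 : Φ f r222 = q f m9_222 := by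
  show Φ f (r173 * y) = q f m9_222
  rw [map_mul, t9_173, Φ_y, ← map_mul]
  exact congrArg (q f) (by decide)
theorem t9_223 : Φ f r223 = q f m9_223 := by
  show Φ f (r174 * y) = q f m9_223
  rw [map_mul, t9_174, Φ_y, ← map_mul]
  exact congrArg (q f) (by decide)
theorem t9_224 : Φ f r224 = q f m9_224 := by
  show Φ f (r175 * x) = q f m9_224
  rw [map_mul, t9_175, Φ_x, ← map_mul]
  exact congrArg (q f) (by decide)
theorem t9_225 : Φ f r225 = q f m9_225 := by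
  show Φ f (r176 * y) = q f m9_225
  rw [map_mul, t9_176, Φ_y, ← map_mul]
  exact congrArg (q f) (by decide)
theorem t9_226 : Φ f r226 = q f m9_226 := by
  show Φ f (r177 * x) = q f m9_226
  rw [map_mul, t9_177, Φ_x, ← map_mul]
  exact congrArg (q f) (by decide)
theorem t9_227 : Φ f r227 = q f m9_227 := by
  show Φ f (r177 * y) = q f m9_227
  rw [map_mul, t9_177, Φ_y, ← map_mul]
  exact congrArg (q f) (by decide)
theorem t9_228 : Φ f r228 = q f m9_228 := by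
  show Φ f (r178 * x) = q f m9_228
  rw [map_mul, t9_178, Φ_x, ← map_mul]
  exact congrArg (q f) (by decide)
theorem t9_229 : Φ f r229 = q f m9_229 := by
  show Φ f (r178 * y) = q f m9_229
  rw [map_mul, t9_178, Φ_y, ← map_mul]
  exact congrArg (q f) (by decide)
theorem t9_230 : Φ f r230 = q f m9_230 := by
  show Φ f (r181 * x) = q f m9_230
  rw [map_mul, t9_181, Φ_x, ← map_mul]
  exact congrArg (q f) (by decide)
theorem t9_231 : Φ f r231 = q f m9_231 := by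
  show Φ f (r181 * y) = q f m9_231
  rw [map_mul, t9_181, Φ_y, ← map_mul]
  exact congrArg (q f) (by decide)
theorem t9_232 : Φ f r232 = q f m9_232 := by
  show Φ f (r182 * y) = q f m9_232
  rw [map_mul, t9_182, Φ_y, ← map_mul]
  exact congrArg (q f) (by decide)
theorem t9_233 : Φ f r233 = q f m9_233 := by
  show Φ f (r183 * x) = q f m9_233
  rw [map_mul, t9_183, Φ_x, ← map_mul]
  exact congrArg (q f) (by decide)
theorem t9_234 : Φ f r234 = q f m9_234 := by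
  show Φ f (r183 * y) = q f m9_234
  rw [map_mul, t9_183, Φ_y, ← map_mul]
  exact congrArg (q f) (by decide)
theorem t9_235 : Φ f r235 = q f m9_235 := by
  show Φ f (r184 * y) = q f m9_235
  rw [map_mul, t9_184, Φ_y, ← map_mul]
  exact congrArg (q f) (by decide)
theorem t9_236 : Φ f r236 = q f m9_236 := by
  show Φ f (r185 * x) = q f m9_236
  rw [map_mul, t9_185, Φ_x, ← map_mul]
  exact congrArg (q f) (by decide)
theorem t9_237 : Φ f r237 = q f m9_237 := by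
  show Φ f (r185 * y) = q f m9_237
  rw [map_mul, t9_185, Φ_y, ← map_mul]
  exact congrArg (q f) (by decide)
theorem t9_238 : Φ f r238 = q f m9_238 := by
  show Φ f (r186 * y) = q f m9_238
  rw [map_mul, t9_186, Φ_y, ← map_mul]
  exact congrArg (q f) (by decide)
theorem t9_239 : Φ f r239 = q f m9_239 := by
  show Φ f (r187 * x) = q f m9_239
  rw [map_mul, t9_187, Φ_x, ← map_mul]
  exact congrArg (q f) (by decide)
theorem t9_240 : Φ f r240 = q f m9_240 := by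
  show Φ f (r188 * y) = q f m9_240
  rw [map_mul, t9_188, Φ_y, ← map_mul]
  exact congrArg (q f) (by decide)
theorem t9_241 : Φ f r241 = q f m9_241 := by
  show Φ f (r191 * y) = q f m9_241
  rw [map_mul, t9_191, Φ_y, ← map_mul]
  exact congrArg (q f) (by decide)
theorem t9_242 : Φ f r242 = q f m9_242 := by
  show Φ f (r192 * y) = q f m9_242
  rw [map_mul, t9_192, Φ_y, ← map_mul]
  exact congrArg (q f) (by decide)
theorem t9_243 : Φ f r243 = q f m9_243 := by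
  show Φ f (r193 * x) = q f m9_243
  rw [map_mul, t9_193, Φ_x, ← map_mul]
  exact congrArg (q f) (by decide)
theorem t9_244 : Φ f r244 = q f m9_244 := by
  show Φ f (r194 * y) = q f m9_244
  rw [map_mul, t9_194, Φ_y, ← map_mul]
  exact congrArg (q f) (by decide)
theorem t9_245 : Φ f r245 = q f m9_245 := by
  show Φ f (r195 * x) = q f m9_245
  rw [map_mul, t9_195, Φ_x, ← map_mul]
  exact congrArg (q f) (by decide)
theorem t9_246 : Φ f r246 = q f m9_246 := by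
  show Φ f (r196 * y) = q f m9_246
  rw [map_mul, t9_196, Φ_y, ← map_mul]
  exact congrArg (q f) (by decide)
theorem t9_247 : Φ f r247 = q f m9_247 := by
  show Φ f (r199 * x) = q f m9_247
  rw [map_mul, t9_199, Φ_x, ← map_mul]
  exact congrArg (q f) (by decide)
theorem t9_248 : Φ f r248 = q f m9_248 := by
  show Φ f (r199 * y) = q f m9_248
  rw [map_mul, t9_199, Φ_y, ← map_mul]
  exact congrArg (q f) (by decide)
theorem t9_249 : Φ f r249 = q f m9_249 := by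
  show Φ f (r200 * x) = q f m9_249
  rw [map_mul, t9_200, Φ_x, ← map_mul]
  exact congrArg (q f) (by decide)
theorem t9_250 : Φ f r250 = q f m9_250 := by
  show Φ f (r201 * y) = q f m9_250
  rw [map_mul, t9_201, Φ_y, ← map_mul]
  exact congrArg (q f) (by decide)
theorem t9_251 : Φ f r251 = q f m9_251 := by
  show Φ f (r202 * y) = q f m9_251
  rw [map_mul, t9_202, Φ_y, ← map_mul]
  exact congrArg (q f) (by decide)
theorem t9_252 : Φ f r252 = q f m9_252 := by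
  show Φ f (r203 * y) = q f m9_252
  rw [map_mul, t9_203, Φ_y, ← map_mul]
  exact congrArg (q f) (by decide)
theorem t9_253 : Φ f r253 = q f m9_253 := by
  show Φ f (r205 * x) = q f m9_253
  rw [map_mul, t9_205, Φ_x, ← map_mul]
  exact congrArg (q f) (by decide)
theorem t9_254 : Φ f r254 = q f m9_254 := by
  show Φ f (r205 * y) = q f m9_254
  rw [map_mul, t9_205, Φ_y, ← map_mul]
  exact congrArg (q f) (by decide)
theorem t9_255 : Φ f r255 = q f m9_255 := by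
  show Φ f (r208 * x) = q f m9_255
  rw [map_mul, t9_208, Φ_x, ← map_mul]
  exact congrArg (q f) (by decide)
theorem t9_256 : Φ f r256 = q f m9_256 := by
  show Φ f (r208 * y) = q f m9_256
  rw [map_mul, t9_208, Φ_y, ← map_mul]
  exact congrArg (q f) (by decide)
theorem t9_257 : Φ f r257 = q f m9_257 := by
  show Φ f (r209 * x) = q f m9_257
  rw [map_mul, t9_209, Φ_x, ← map_mul]
  exact congrArg (q f) (by decide)
theorem t9_258 : Φ f r258 = q f m9_258 := by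
  show Φ f (r209 * y) = q f m9_258
  rw [map_mul, t9_209, Φ_y, ← map_mul]
  exact congrArg (q f) (by decide)
theorem t9_259 : Φ f r259 = q f m9_259 := by
  show Φ f (r210 * y) = q f m9_259
  rw [map_mul, t9_210, Φ_y, ← map_mul]
  exact congrArg (q f) (by decide)
theorem t9_260 : Φ f r260 = q f m9_260 := by
  show Φ f (r211 * y) = q f m9_260
  rw [map_mul, t9_211, Φ_y, ← map_mul]
  exact congrArg (q f) (by decide)
theorem t9_261 : Φ f r261 = q f m9_261 := by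
  show Φ f (r212 * x) = q f m9_261
  rw [map_mul, t9_212, Φ_x, ← map_mul]
  exact congrArg (q f) (by decide)
theorem t9_262 : Φ f r262 = q f m9_262 := by
  show Φ f (r213 * y) = q f m9_262
  rw [map_mul, t9_213, Φ_y, ← map_mul]
  exact congrArg (q f) (by decide)
theorem t9_263 : Φ f r263 = q f m9_263 := by
  show Φ f (r216 * y) = q f m9_263
  rw [map_mul, t9_216, Φ_y, ← map_mul]
  exact congrArg (q f) (by decide)
theorem t9_264 : Φ f r264 = q f m9_264 := by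
  show Φ f (r217 * y) = q f m9_264
  rw [map_mul, t9_217, Φ_y, ← map_mul]
  exact congrArg (q f) (by decide)
theorem t9_265 : Φ f r265 = q f m9_265 := by
  show Φ f (r218 * x) = q f m9_265
  rw [map_mul, t9_218, Φ_x, ← map_mul]
  exact congrArg (q f) (by decide)
theorem t9_266 : Φ f r266 = q f m9_266 := by
  show Φ f (r219 * y) = q f m9_266
  rw [map_mul, t9_219, Φ_y, ← map_mul]
  exact congrArg (q f) (by decide)
theorem t9_267 : Φ f r267 = q f m9_267 := by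
  show Φ f (r220 * x) = q f m9_267
  rw [map_mul, t9_220, Φ_x, ← map_mul]
  exact congrArg (q f) (by decide)
theorem t9_268 : Φ f r268 = q f m9_268 := by
  show Φ f (r221 * y) = q f m9_268
  rw [map_mul, t9_221, Φ_y, ← map_mul]
  exact congrArg (q f) (by decide)
theorem t9_269 : Φ f r269 = q f m9_269 := by
  show Φ f (r222 * x) = q f m9_269
  rw [map_mul, t9_222, Φ_x, ← map_mul]
  exact congrArg (q f) (by decide)
theorem t9_270 : Φ f r270 = q f m9_270 := by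
  show Φ f (r222 * y) = q f m9_270
  rw [map_mul, t9_222, Φ_y, ← map_mul]
  exact congrArg (q f) (by decide)
theorem t9_271 : Φ f r271 = q f m9_271 := by
  show Φ f (r223 * x) = q f m9_271
  rw [map_mul, t9_223, Φ_x, ← map_mul]
  exact congrArg (q f) (by decide)
theorem t9_272 : Φ f r272 = q f m9_272 := by
  show Φ f (r224 * y) = q f m9_272
  rw [map_mul, t9_224, Φ_y, ← map_mul]
  exact congrArg (q f) (by decide)
theorem t9_273 : Φ f r273 = q f m9_273 := by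
  show Φ f (r225 * y) = q f m9_273
  rw [map_mul, t9_225, Φ_y, ← map_mul]
  exact congrArg (q f) (by decide)
theorem t9_274 : Φ f r274 = q f m9_274 := by
  show Φ f (r227 * x) = q f m9_274
  rw [map_mul, t9_227, Φ_x, ← map_mul]
  exact congrArg (q f) (by decide)
theorem t9_275 : Φ f r275 = q f m9_275 := by
  show Φ f (r227 * y) = q f m9_275
  rw [map_mul, t9_227, Φ_y, ← map_mul]
  exact congrArg (q f) (by decide)
theorem t9_276 : Φ f r276 = q f m9_276 := by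
  show Φ f (r229 * x) = q f m9_276
  rw [map_mul, t9_229, Φ_x, ← map_mul]
  exact congrArg (q f) (by decide)
theorem t9_277 : Φ f r277 = q f m9_277 := by
  show Φ f (r231 * x) = q f m9_277
  rw [map_mul, t9_231, Φ_x, ← map_mul]
  exact congrArg (q f) (by decide)
theorem t9_278 : Φ f r278 = q f m9_278 := by
  show Φ f (r231 * y) = q f m9_278
  rw [map_mul, t9_231, Φ_y, ← map_mul]
  exact congrArg (q f) (by decide)
theorem t9_279 : Φ f r279 = q f m9_279 := by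
  show Φ f (r232 * x) = q f m9_279
  rw [map_mul, t9_232, Φ_x, ← map_mul]
  exact congrArg (q f) (by decide)
theorem t9_280 : Φ f r280 = q f m9_280 := by
  show Φ f (r234 * x) = q f m9_280
  rw [map_mul, t9_234, Φ_x, ← map_mul]
  exact congrArg (q f) (by decide)
theorem t9_281 : Φ f r281 = q f m9_281 := by
  show Φ f (r234 * y) = q f m9_281
  rw [map_mul, t9_234, Φ_y, ← map_mul]
  exact congrArg (q f) (by decide)
theorem t9_282 : Φ f r282 = q f m9_282 := by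
  show Φ f (r235 * x) = q f m9_282
  rw [map_mul, t9_235, Φ_x, ← map_mul]
  exact congrArg (q f) (by decide)
theorem t9_283 : Φ f r283 = q f m9_283 := by
  show Φ f (r235 * y) = q f m9_283
  rw [map_mul, t9_235, Φ_y, ← map_mul]
  exact congrArg (q f) (by decide)
theorem t9_284 : Φ f r284 = q f m9_284 := by
  show Φ f (r237 * x) = q f m9_284
  rw [map_mul, t9_237, Φ_x, ← map_mul]
  exact congrArg (q f) (by decide)
theorem t9_285 : Φ f r285 = q f m9_285 := by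
  show Φ f (r239 * y) = q f m9_285
  rw [map_mul, t9_239, Φ_y, ← map_mul]
  exact congrArg (q f) (by decide)
theorem t9_286 : Φ f r286 = q f m9_286 := by
  show Φ f (r240 * x) = q f m9_286
  rw [map_mul, t9_240, Φ_x, ← map_mul]
  exact congrArg (q f) (by decide)
theorem t9_287 : Φ f r287 = q f m9_287 := by
  show Φ f (r241 * x) = q f m9_287
  rw [map_mul, t9_241, Φ_x, ← map_mul]
  exact congrArg (q f) (by decide)
theorem t9_288 : Φ f r288 = q f m9_288 := by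
  show Φ f (r241 * y) = q f m9_288
  rw [map_mul, t9_241, Φ_y, ← map_mul]
  exact congrArg (q f) (by decide)
theorem t9_289 : Φ f r289 = q f m9_289 := by
  show Φ f (r244 * x) = q f m9_289
  rw [map_mul, t9_244, Φ_x, ← map_mul]
  exact congrArg (q f) (by decide)
theorem t9_290 : Φ f r290 = q f m9_290 := by
  show Φ f (r246 * x) = q f m9_290
  rw [map_mul, t9_246, Φ_x, ← map_mul]
  exact congrArg (q f) (by decide)
theorem t9_291 : Φ f r291 = q f m9_291 := by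
  show Φ f (r246 * y) = q f m9_291
  rw [map_mul, t9_246, Φ_y, ← map_mul]
  exact congrArg (q f) (by decide)
theorem t9_292 : Φ f r292 = q f m9_292 := by
  show Φ f (r247 * y) = q f m9_292
  rw [map_mul, t9_247, Φ_y, ← map_mul]
  exact congrArg (q f) (by decide)
theorem t9_293 : Φ f r293 = q f m9_293 := by
  show Φ f (r250 * y) = q f m9_293
  rw [map_mul, t9_250, Φ_y, ← map_mul]
  exact congrArg (q f) (by decide)
theorem t9_294 : Φ f r294 = q f m9_294 := by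
  show Φ f (r251 * x) = q f m9_294
  rw [map_mul, t9_251, Φ_x, ← map_mul]
  exact congrArg (q f) (by decide)
theorem t9_295 : Φ f r295 = q f m9_295 := by
  show Φ f (r252 * x) = q f m9_295
  rw [map_mul, t9_252, Φ_x, ← map_mul]
  exact congrArg (q f) (by decide)
theorem t9_296 : Φ f r296 = q f m9_296 := by
  show Φ f (r253 * y) = q f m9_296
  rw [map_mul, t9_253, Φ_y, ← map_mul]
  exact congrArg (q f) (by decide)
theorem t9_297 : Φ f r297 = q f m9_297 := by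
  show Φ f (r256 * x) = q f m9_297
  rw [map_mul, t9_256, Φ_x, ← map_mul]
  exact congrArg (q f) (by decide)
theorem t9_298 : Φ f r298 = q f m9_298 := by
  show Φ f (r256 * y) = q f m9_298
  rw [map_mul, t9_256, Φ_y, ← map_mul]
  exact congrArg (q f) (by decide)
theorem t9_299 : Φ f r299 = q f m9_299 := by
  show Φ f (r258 * x) = q f m9_299
  rw [map_mul, t9_258, Φ_x, ← map_mul]
  exact congrArg (q f) (by decide)
theorem t9_300 : Φ f r300 = q f m9_300 := by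
  show Φ f (r258 * y) = q f m9_300
  rw [map_mul, t9_258, Φ_y, ← map_mul]
  exact congrArg (q f) (by decide)
theorem t9_301 : Φ f r301 = q f m9_301 := by
  show Φ f (r259 * x) = q f m9_301
  rw [map_mul, t9_259, Φ_x, ← map_mul]
  exact congrArg (q f) (by decide)
theorem t9_302 : Φ f r302 = q f m9_302 := by
  show Φ f (r259 * y) = q f m9_302
  rw [map_mul, t9_259, Φ_y, ← map_mul]
  exact congrArg (q f) (by decide)
theorem t9_303 : Φ f r303 = q f m9_303 := by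
  show Φ f (r261 * y) = q f m9_303
  rw [map_mul, t9_261, Φ_y, ← map_mul]
  exact congrArg (q f) (by decide)
theorem t9_304 : Φ f r304 = q f m9_304 := by
  show Φ f (r262 * x) = q f m9_304
  rw [map_mul, t9_262, Φ_x, ← map_mul]
  exact congrArg (q f) (by decide)
theorem t9_305 : Φ f r305 = q f m9_305 := by
  show Φ f (r263 * x) = q f m9_305
  rw [map_mul, t9_263, Φ_x, ← map_mul]
  exact congrArg (q f) (by decide)
theorem t9_306 : Φ f r306 = q f m9_306 := by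
  show Φ f (r263 * y) = q f m9_306
  rw [map_mul, t9_263, Φ_y, ← map_mul]
  exact congrArg (q f) (by decide)
theorem t9_307 : Φ f r307 = q f m9_307 := by
  show Φ f (r266 * x) = q f m9_307
  rw [map_mul, t9_266, Φ_x, ← map_mul]
  exact congrArg (q f) (by decide)
theorem t9_308 : Φ f r308 = q f m9_308 := by
  show Φ f (r268 * x) = q f m9_308
  rw [map_mul, t9_268, Φ_x, ← map_mul]
  exact congrArg (q f) (by decide)
theorem t9_309 : Φ f r309 = q f m9_309 := by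
  show Φ f (r268 * y) = q f m9_309
  rw [map_mul, t9_268, Φ_y, ← map_mul]
  exact congrArg (q f) (by decide)
theorem t9_310 : Φ f r310 = q f m9_310 := by
  show Φ f (r269 * y) = q f m9_310
  rw [map_mul, t9_269, Φ_y, ← map_mul]
  exact congrArg (q f) (by decide)
theorem t9_311 : Φ f r311 = q f m9_311 := by
  show Φ f (r272 * y) = q f m9_311
  rw [map_mul, t9_272, Φ_y, ← map_mul]
  exact congrArg (q f) (by decide)
theorem t9_312 : Φ f r312 = q f m9_312 := by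
  show Φ f (r273 * x) = q f m9_312
  rw [map_mul, t9_273, Φ_x, ← map_mul]
  exact congrArg (q f) (by decide)
theorem t9_313 : Φ f r313 = q f m9_313 := by
  show Φ f (r274 * y) = q f m9_313
  rw [map_mul, t9_274, Φ_y, ← map_mul]
  exact congrArg (q f) (by decide)
theorem t9_314 : Φ f r314 = q f m9_314 := by
  show Φ f (r276 * y) = q f m9_314
  rw [map_mul, t9_276, Φ_y, ← map_mul]
  exact congrArg (q f) (by decide)
theorem t9_315 : Φ f r315 = q f m9_315 := by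
  show Φ f (r277 * y) = q f m9_315
  rw [map_mul, t9_277, Φ_y, ← map_mul]
  exact congrArg (q f) (by decide)
theorem t9_316 : Φ f r316 = q f m9_316 := by
  show Φ f (r280 * y) = q f m9_316
  rw [map_mul, t9_280, Φ_y, ← map_mul]
  exact congrArg (q f) (by decide)
theorem t9_317 : Φ f r317 = q f m9_317 := by
  show Φ f (r281 * x) = q f m9_317
  rw [map_mul, t9_281, Φ_x, ← map_mul]
  exact congrArg (q f) (by decide)
theorem t9_318 : Φ f r318 = q f m9_318 := by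
  show Φ f (r282 * y) = q f m9_318
  rw [map_mul, t9_282, Φ_y, ← map_mul]
  exact congrArg (q f) (by decide)
theorem t9_319 : Φ f r319 = q f m9_319 := by
  show Φ f (r283 * x) = q f m9_319
  rw [map_mul, t9_283, Φ_x, ← map_mul]
  exact congrArg (q f) (by decide)
theorem t9_320 : Φ f r320 = q f m9_320 := by
  show Φ f (r284 * y) = q f m9_320
  rw [map_mul, t9_284, Φ_y, ← map_mul]
  exact congrArg (q f) (by decide)
theorem t9_321 : Φ f r321 = q f m9_321 := by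
  show Φ f (r285 * x) = q f m9_321
  rw [map_mul, t9_285, Φ_x, ← map_mul]
  exact congrArg (q f) (by decide)
theorem t9_322 : Φ f r322 = q f m9_322 := by
  show Φ f (r286 * y) = q f m9_322
  rw [map_mul, t9_286, Φ_y, ← map_mul]
  exact congrArg (q f) (by decide)
theorem t9_323 : Φ f r323 = q f m9_323 := by
  show Φ f (r288 * x) = q f m9_323
  rw [map_mul, t9_288, Φ_x, ← map_mul]
  exact congrArg (q f) (by decide)
theorem t9_324 : Φ f r324 = q f m9_324 := by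
  show Φ f (r291 * y) = q f m9_324
  rw [map_mul, t9_291, Φ_y, ← map_mul]
  exact congrArg (q f) (by decide)
theorem t9_325 : Φ f r325 = q f m9_325 := by
  show Φ f (r292 * x) = q f m9_325
  rw [map_mul, t9_292, Φ_x, ← map_mul]
  exact congrArg (q f) (by decide)
theorem t9_326 : Φ f r326 = q f m9_326 := by
  show Φ f (r293 * x) = q f m9_326
  rw [map_mul, t9_293, Φ_x, ← map_mul]
  exact congrArg (q f) (by decide)
theorem t9_327 : Φ f r327 = q f m9_327 := by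
  show Φ f (r296 * x) = q f m9_327
  rw [map_mul, t9_296, Φ_x, ← map_mul]
  exact congrArg (q f) (by decide)
theorem t9_328 : Φ f r328 = q f m9_328 := by
  show Φ f (r296 * y) = q f m9_328
  rw [map_mul, t9_296, Φ_y, ← map_mul]
  exact congrArg (q f) (by decide)
theorem t9_329 : Φ f r329 = q f m9_329 := by
  show Φ f (r297 * y) = q f m9_329
  rw [map_mul, t9_297, Φ_y, ← map_mul]
  exact congrArg (q f) (by decide)
theorem t9_330 : Φ f r330 = q f m9_330 := by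
  show Φ f (r299 * y) = q f m9_330
  rw [map_mul, t9_299, Φ_y, ← map_mul]
  exact congrArg (q f) (by decide)
theorem t9_331 : Φ f r331 = q f m9_331 := by
  show Φ f (r300 * x) = q f m9_331
  rw [map_mul, t9_300, Φ_x, ← map_mul]
  exact congrArg (q f) (by decide)
theorem t9_332 : Φ f r332 = q f m9_332 := by
  show Φ f (r301 * y) = q f m9_332
  rw [map_mul, t9_301, Φ_y, ← map_mul]
  exact congrArg (q f) (by decide)
theorem t9_333 : Φ f r333 = q f m9_333 := by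
  show Φ f (r302 * x) = q f m9_333
  rw [map_mul, t9_302, Φ_x, ← map_mul]
  exact congrArg (q f) (by decide)
theorem t9_334 : Φ f r334 = q f m9_334 := by
  show Φ f (r303 * x) = q f m9_334
  rw [map_mul, t9_303, Φ_x, ← map_mul]
  exact congrArg (q f) (by decide)
theorem t9_335 : Φ f r335 = q f m9_335 := by
  show Φ f (r304 * y) = q f m9_335
  rw [map_mul, t9_304, Φ_y, ← map_mul]
  exact congrArg (q f) (by decide)
theorem t9_336 : Φ f r336 = q f m9_336 := by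
  show Φ f (r306 * x) = q f m9_336
  rw [map_mul, t9_306, Φ_x, ← map_mul]
  exact congrArg (q f) (by decide)
theorem t9_337 : Φ f r337 = q f m9_337 := by
  show Φ f (r309 * y) = q f m9_337
  rw [map_mul, t9_309, Φ_y, ← map_mul]
  exact congrArg (q f) (by decide)
theorem t9_338 : Φ f r338 = q f m9_338 := by
  show Φ f (r310 * x) = q f m9_338
  rw [map_mul, t9_310, Φ_x, ← map_mul]
  exact congrArg (q f) (by decide)
theorem t9_339 : Φ f r339 = q f m9_339 := by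
  show Φ f (r311 * x) = q f m9_339
  rw [map_mul, t9_311, Φ_x, ← map_mul]
  exact congrArg (q f) (by decide)
theorem t9_340 : Φ f r340 = q f m9_340 := by
  show Φ f (r313 * x) = q f m9_340
  rw [map_mul, t9_313, Φ_x, ← map_mul]
  exact congrArg (q f) (by decide)
theorem t9_341 : Φ f r341 = q f m9_341 := by
  show Φ f (r313 * y) = q f m9_341
  rw [map_mul, t9_313, Φ_y, ← map_mul]
  exact congrArg (q f) (by decide)
theorem t9_342 : Φ f r342 = q f m9_342 := by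
  show Φ f (r314 * x) = q f m9_342
  rw [map_mul, t9_314, Φ_x, ← map_mul]
  exact congrArg (q f) (by decide)
theorem t9_343 : Φ f r343 = q f m9_343 := by
  show Φ f (r314 * y) = q f m9_343
  rw [map_mul, t9_314, Φ_y, ← map_mul]
  exact congrArg (q f) (by decide)
theorem t9_344 : Φ f r344 = q f m9_344 := by
  show Φ f (r315 * x) = q f m9_344
  rw [map_mul, t9_315, Φ_x, ← map_mul]
  exact congrArg (q f) (by decide)
theorem t9_345 : Φ f r345 = q f m9_345 := by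
  show Φ f (r318 * x) = q f m9_345
  rw [map_mul, t9_318, Φ_x, ← map_mul]
  exact congrArg (q f) (by decide)
theorem t9_346 : Φ f r346 = q f m9_346 := by
  show Φ f (r320 * x) = q f m9_346
  rw [map_mul, t9_320, Φ_x, ← map_mul]
  exact congrArg (q f) (by decide)
theorem t9_347 : Φ f r347 = q f m9_347 := by
  show Φ f (r320 * y) = q f m9_347
  rw [map_mul, t9_320, Φ_y, ← map_mul]
  exact congrArg (q f) (by decide)
theorem t9_348 : Φ f r348 = q f m9_348 := by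
  show Φ f (r322 * y) = q f m9_348
  rw [map_mul, t9_322, Φ_y, ← map_mul]
  exact congrArg (q f) (by decide)
theorem t9_349 : Φ f r349 = q f m9_349 := by
  show Φ f (r323 * y) = q f m9_349
  rw [map_mul, t9_323, Φ_y, ← map_mul]
  exact congrArg (q f) (by decide)
theorem t9_350 : Φ f r350 = q f m9_350 := by
  show Φ f (r324 * x) = q f m9_350
  rw [map_mul, t9_324, Φ_x, ← map_mul]
  exact congrArg (q f) (by decide)
theorem t9_351 : Φ f r351 = q f m9_351 := by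
  show Φ f (r325 * y) = q f m9_351
  rw [map_mul, t9_325, Φ_y, ← map_mul]
  exact congrArg (q f) (by decide)
theorem t9_352 : Φ f r352 = q f m9_352 := by
  show Φ f (r329 * x) = q f m9_352
  rw [map_mul, t9_329, Φ_x, ← map_mul]
  exact congrArg (q f) (by decide)
theorem t9_353 : Φ f r353 = q f m9_353 := by
  show Φ f (r332 * x) = q f m9_353
  rw [map_mul, t9_332, Φ_x, ← map_mul]
  exact congrArg (q f) (by decide)
theorem t9_354 : Φ f r354 = q f m9_354 := by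
  show Φ f (r335 * y) = q f m9_354
  rw [map_mul, t9_335, Φ_y, ← map_mul]
  exact congrArg (q f) (by decide)
theorem t9_355 : Φ f r355 = q f m9_355 := by
  show Φ f (r336 * y) = q f m9_355
  rw [map_mul, t9_336, Φ_y, ← map_mul]
  exact congrArg (q f) (by decide)
theorem t9_356 : Φ f r356 = q f m9_356 := by
  show Φ f (r348 * x) = q f m9_356
  rw [map_mul, t9_348, Φ_x, ← map_mul]
  exact congrArg (q f) (by decide)
theorem t9_357 : Φ f r357 = q f m9_357 := by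
  show Φ f (r349 * x) = q f m9_357
  rw [map_mul, t9_349, Φ_x, ← map_mul]
  exact congrArg (q f) (by decide)
theorem t9_358 : Φ f r358 = q f m9_358 := by
  show Φ f (r349 * y) = q f m9_358
  rw [map_mul, t9_349, Φ_y, ← map_mul]
  exact congrArg (q f) (by decide)
theorem t9_359 : Φ f r359 = q f m9_359 := by
  show Φ f (r351 * y) = q f m9_359
  rw [map_mul, t9_351, Φ_y, ← map_mul]
  exact congrArg (q f) (by decide)
def M9 : Fin 360 → S9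
  | ⟨0, _⟩ => m9_0
  | ⟨1, _⟩ => m9_1
  | ⟨2, _⟩ => m9_2
  | ⟨3, _⟩ => m9_3
  | ⟨4, _⟩ => m9_4
  | ⟨5, _⟩ => m9_5
  | ⟨6, _⟩ => m9_6
  | ⟨7, _⟩ => m9_7
  | ⟨8, _⟩ => m9_8
  | ⟨9, _⟩ => m9_9
  | ⟨10, _⟩ => m9_10
  | ⟨11, _⟩ => m9_11
  | ⟨12, _⟩ => m9_12
  | ⟨13, _⟩ => m9_13
  | ⟨14, _⟩ => m9_14
  | ⟨15, _⟩ => m9_15
  | ⟨16, _⟩ => m9_16
  | ⟨17, _⟩ => m9_17
  | ⟨18, _⟩ => m9_18
  | ⟨19, _⟩ => m9_19
  | ⟨20, _⟩ => m9_20
  | ⟨21, _⟩ => m9_21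
  | ⟨22, _⟩ => m9_22
  | ⟨23, _⟩ => m9_23
  | ⟨24, _⟩ => m9_24
  | ⟨25, _⟩ => m9_25
  | ⟨26, _⟩ => m9_26
  | ⟨27, _⟩ => m9_27
  | ⟨28, _⟩ => m9_28
  | ⟨29, _⟩ => m9_29
  | ⟨30, _⟩ => m9_30
  | ⟨31, _⟩ => m9_31
  | ⟨32, _⟩ => m9_32
  | ⟨33, _⟩ => m9_33
  | ⟨34, _⟩ => m9_34
  | ⟨35, _⟩ => m9_35
  | ⟨36, _⟩ => m9_36
  | ⟨37, _⟩ => m9_37
  | ⟨38, _⟩ => m9_38
  | ⟨39, _⟩ => m9_39
  | ⟨40, _⟩ => m9_40
  | ⟨41, _⟩ => m9_41
  | ⟨42, _⟩ => m9_42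
  | ⟨43, _⟩ => m9_43
  | ⟨44, _⟩ => m9_44
  | ⟨45, _⟩ => m9_45
  | ⟨46, _⟩ => m9_46
  | ⟨47, _⟩ => m9_47
  | ⟨48, _⟩ => m9_48
  | ⟨49, _⟩ => m9_49
  | ⟨50, _⟩ => m9_50
  | ⟨51, _⟩ => m9_51
  | ⟨52, _⟩ => m9_52
  | ⟨53, _⟩ => m9_53
  | ⟨54, _⟩ => m9_54
  | ⟨55, _⟩ => m9_55
  | ⟨56, _⟩ => m9_56
  | ⟨57, _⟩ => m9_57
  | ⟨58, _⟩ => m9_58
  | ⟨59, _⟩ => m9_59
  | ⟨60, _⟩ => m9_60
  | ⟨61, _⟩ => m9_61
  | ⟨62, _⟩ => m9_62
  | ⟨63, _⟩ => m9_63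
  | ⟨64, _⟩ => m9_64
  | ⟨65, _⟩ => m9_65
  | ⟨66, _⟩ => m9_66
  | ⟨67, _⟩ => m9_67
  | ⟨68, _⟩ => m9_68
  | ⟨69, _⟩ => m9_69
  | ⟨70, _⟩ => m9_70
  | ⟨71, _⟩ => m9_71
  | ⟨72, _⟩ => m9_72
  | ⟨73, _⟩ => m9_73
  | ⟨74, _⟩ => m9_74
  | ⟨75, _⟩ => m9_75
  | ⟨76, _⟩ => m9_76
  | ⟨77, _⟩ => m9_77
  | ⟨78, _⟩ => m9_78
  | ⟨79, _⟩ => m9_79
  | ⟨80, _⟩ => m9_80
  | ⟨81, _⟩ => m9_81
  | ⟨82, _⟩ => m9_82
  | ⟨83, _⟩ => m9_83
  | ⟨84, _⟩ => m9_84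
  | ⟨85, _⟩ => m9_85
  | ⟨86, _⟩ => m9_86
  | ⟨87, _⟩ => m9_87
  | ⟨88, _⟩ => m9_88
  | ⟨89, _⟩ => m9_89
  | ⟨90, _⟩ => m9_90
  | ⟨91, _⟩ => m9_91
  | ⟨92, _⟩ => m9_92
  | ⟨93, _⟩ => m9_93
  | ⟨94, _⟩ => m9_94
  | ⟨95, _⟩ => m9_95
  | ⟨96, _⟩ => m9_96
  | ⟨97, _⟩ => m9_97
  | ⟨98, _⟩ => m9_98
  | ⟨99, _⟩ => m9_99
  | ⟨100, _⟩ => m9_100
  | ⟨101, _⟩ => m9_101
  | ⟨102, _⟩ => m9_102
  | ⟨103, _⟩ => m9_103
  | ⟨104, _⟩ => m9_104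
  | ⟨105, _⟩ => m9_105
  | ⟨106, _⟩ => m9_106
  | ⟨107, _⟩ => m9_107
  | ⟨108, _⟩ => m9_108
  | ⟨109, _⟩ => m9_109
  | ⟨110, _⟩ => m9_110
  | ⟨111, _⟩ => m9_111
  | ⟨112, _⟩ => m9_112
  | ⟨113, _⟩ => m9_113
  | ⟨114, _⟩ => m9_114
  | ⟨115, _⟩ => m9_115
  | ⟨116, _⟩ => m9_116
  | ⟨117, _⟩ => m9_117
  | ⟨118, _⟩ => m9_118
  | ⟨119, _⟩ => m9_119
  | ⟨120, _⟩ => m9_120
  | ⟨121, _⟩ => m9_121
  | ⟨122, _⟩ => m9_122
  | ⟨123, _⟩ => m9_123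
  | ⟨124, _⟩ => m9_124
  | ⟨125, _⟩ => m9_125
  | ⟨126, _⟩ => m9_126
  | ⟨127, _⟩ => m9_127
  | ⟨128, _⟩ => m9_128
  | ⟨129, _⟩ => m9_129
  | ⟨130, _⟩ => m9_130
  | ⟨131, _⟩ => m9_131
  | ⟨132, _⟩ => m9_132
  | ⟨133, _⟩ => m9_133
  | ⟨134, _⟩ => m9_134
  | ⟨135, _⟩ => m9_135
  | ⟨136, _⟩ => m9_136
  | ⟨137, _⟩ => m9_137
  | ⟨138, _⟩ => m9_138
  | ⟨139, _⟩ => m9_139
  | ⟨140, _⟩ => m9_140
  | ⟨141, _⟩ => m9_141
  | ⟨142, _⟩ => m9_142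
  | ⟨143, _⟩ => m9_143
  | ⟨144, _⟩ => m9_144
  | ⟨145, _⟩ => m9_145
  | ⟨146, _⟩ => m9_146
  | ⟨147, _⟩ => m9_147
  | ⟨148, _⟩ => m9_148
  | ⟨149, _⟩ => m9_149
  | ⟨150, _⟩ => m9_150
  | ⟨151, _⟩ => m9_151
  | ⟨152, _⟩ => m9_152
  | ⟨153, _⟩ => m9_153
  | ⟨154, _⟩ => m9_154
  | ⟨155, _⟩ => m9_155
  | ⟨156, _⟩ => m9_156
  | ⟨157, _⟩ => m9_157
  | ⟨158, _⟩ => m9_158
  | ⟨159, _⟩ => m9_159
  | ⟨160, _⟩ => m9_160
  | ⟨161, _⟩ => m9_161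
  | ⟨162, _⟩ => m9_162
  | ⟨163, _⟩ => m9_163
  | ⟨164, _⟩ => m9_164
  | ⟨165, _⟩ => m9_165
  | ⟨166, _⟩ => m9_166
  | ⟨167, _⟩ => m9_167
  | ⟨168, _⟩ => m9_168
  | ⟨169, _⟩ => m9_169
  | ⟨170, _⟩ => m9_170
  | ⟨171, _⟩ => m9_171
  | ⟨172, _⟩ => m9_172
  | ⟨173, _⟩ => m9_173
  | ⟨174, _⟩ => m9_174
  | ⟨175, _⟩ => m9_175
  | ⟨176, _⟩ => m9_176
  | ⟨177, _⟩ => m9_177
  | ⟨178, _⟩ => m9_178
  | ⟨179, _⟩ => m9_179
  | ⟨180, _⟩ => m9_180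
  | ⟨181, _⟩ => m9_181
  | ⟨182, _⟩ => m9_182
  | ⟨183, _⟩ => m9_183
  | ⟨184, _⟩ => m9_184
  | ⟨185, _⟩ => m9_185
  | ⟨186, _⟩ => m9_186
  | ⟨187, _⟩ => m9_187
  | ⟨188, _⟩ => m9_188
  | ⟨189, _⟩ => m9_189
  | ⟨190, _⟩ => m9_190
  | ⟨191, _⟩ => m9_191
  | ⟨192, _⟩ => m9_192
  | ⟨193, _⟩ => m9_193
  | ⟨194, _⟩ => m9_194
  | ⟨195, _⟩ => m9_195
  | ⟨196, _⟩ => m9_196
  | ⟨197, _⟩ => m9_197
  | ⟨198, _⟩ => m9_198
  | ⟨199, _⟩ => m9_199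
  | ⟨200, _⟩ => m9_200
  | ⟨201, _⟩ => m9_201
  | ⟨202, _⟩ => m9_202
  | ⟨203, _⟩ => m9_203
  | ⟨204, _⟩ => m9_204
  | ⟨205, _⟩ => m9_205
  | ⟨206, _⟩ => m9_206
  | ⟨207, _⟩ => m9_207
  | ⟨208, _⟩ => m9_208
  | ⟨209, _⟩ => m9_209
  | ⟨210, _⟩ => m9_210
  | ⟨211, _⟩ => m9_211
  | ⟨212, _⟩ => m9_212
  | ⟨213, _⟩ => m9_213
  | ⟨214, _⟩ => m9_214
  | ⟨215, _⟩ => m9_215
  | ⟨216, _⟩ => m9_216
  | ⟨217, _⟩ => m9_217
  | ⟨218, _⟩ => m9_218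
  | ⟨219, _⟩ => m9_219
  | ⟨220, _⟩ => m9_220
  | ⟨221, _⟩ => m9_221
  | ⟨222, _⟩ => m9_222
  | ⟨223, _⟩ => m9_223
  | ⟨224, _⟩ => m9_224
  | ⟨225, _⟩ => m9_225
  | ⟨226, _⟩ => m9_226
  | ⟨227, _⟩ => m9_227
  | ⟨228, _⟩ => m9_228
  | ⟨229, _⟩ => m9_229
  | ⟨230, _⟩ => m9_230
  | ⟨231, _⟩ => m9_231
  | ⟨232, _⟩ => m9_232
  | ⟨233, _⟩ => m9_233
  | ⟨234, _⟩ => m9_234
  | ⟨235, _⟩ => m9_235
  | ⟨236, _⟩ => m9_236
  | ⟨237, _⟩ => m9_237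
  | ⟨238, _⟩ => m9_238
  | ⟨239, _⟩ => m9_239
  | ⟨240, _⟩ => m9_240
  | ⟨241, _⟩ => m9_241
  | ⟨242, _⟩ => m9_242
  | ⟨243, _⟩ => m9_243
  | ⟨244, _⟩ => m9_244
  | ⟨245, _⟩ => m9_245
  | ⟨246, _⟩ => m9_246
  | ⟨247, _⟩ => m9_247
  | ⟨248, _⟩ => m9_248
  | ⟨249, _⟩ => m9_249
  | ⟨250, _⟩ => m9_250
  | ⟨251, _⟩ => m9_251
  | ⟨252, _⟩ => m9_252
  | ⟨253, _⟩ => m9_253
  | ⟨254, _⟩ => m9_254
  | ⟨255, _⟩ => m9_255
  | ⟨256, _⟩ => m9_256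
  | ⟨257, _⟩ => m9_257
  | ⟨258, _⟩ => m9_258
  | ⟨259, _⟩ => m9_259
  | ⟨260, _⟩ => m9_260
  | ⟨261, _⟩ => m9_261
  | ⟨262, _⟩ => m9_262
  | ⟨263, _⟩ => m9_263
  | ⟨264, _⟩ => m9_264
  | ⟨265, _⟩ => m9_265
  | ⟨266, _⟩ => m9_266
  | ⟨267, _⟩ => m9_267
  | ⟨268, _⟩ => m9_268
  | ⟨269, _⟩ => m9_269
  | ⟨270, _⟩ => m9_270
  | ⟨271, _⟩ => m9_271
  | ⟨272, _⟩ => m9_272
  | ⟨273, _⟩ => m9_273
  | ⟨274, _⟩ => m9_274
  | ⟨275, _⟩ => m9_275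
  | ⟨276, _⟩ => m9_276
  | ⟨277, _⟩ => m9_277
  | ⟨278, _⟩ => m9_278
  | ⟨279, _⟩ => m9_279
  | ⟨280, _⟩ => m9_280
  | ⟨281, _⟩ => m9_281
  | ⟨282, _⟩ => m9_282
  | ⟨283, _⟩ => m9_283
  | ⟨284, _⟩ => m9_284
  | ⟨285, _⟩ => m9_285
  | ⟨286, _⟩ => m9_286
  | ⟨287, _⟩ => m9_287
  | ⟨288, _⟩ => m9_288
  | ⟨289, _⟩ => m9_289
  | ⟨290, _⟩ => m9_290
  | ⟨291, _⟩ => m9_291
  | ⟨292, _⟩ => m9_292
  | ⟨293, _⟩ => m9_293
  | ⟨294, _⟩ => m9_294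
  | ⟨295, _⟩ => m9_295
  | ⟨296, _⟩ => m9_296
  | ⟨297, _⟩ => m9_297
  | ⟨298, _⟩ => m9_298
  | ⟨299, _⟩ => m9_299
  | ⟨300, _⟩ => m9_300
  | ⟨301, _⟩ => m9_301
  | ⟨302, _⟩ => m9_302
  | ⟨303, _⟩ => m9_303
  | ⟨304, _⟩ => m9_304
  | ⟨305, _⟩ => m9_305
  | ⟨306, _⟩ => m9_306
  | ⟨307, _⟩ => m9_307
  | ⟨308, _⟩ => m9_308
  | ⟨309, _⟩ => m9_309
  | ⟨310, _⟩ => m9_310
  | ⟨311, _⟩ => m9_311
  | ⟨312, _⟩ => m9_312
  | ⟨313, _⟩ => m9_313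
  | ⟨314, _⟩ => m9_314
  | ⟨315, _⟩ => m9_315
  | ⟨316, _⟩ => m9_316
  | ⟨317, _⟩ => m9_317
  | ⟨318, _⟩ => m9_318
  | ⟨319, _⟩ => m9_319
  | ⟨320, _⟩ => m9_320
  | ⟨321, _⟩ => m9_321
  | ⟨322, _⟩ => m9_322
  | ⟨323, _⟩ => m9_323
  | ⟨324, _⟩ => m9_324
  | ⟨325, _⟩ => m9_325
  | ⟨326, _⟩ => m9_326
  | ⟨327, _⟩ => m9_327
  | ⟨328, _⟩ => m9_328
  | ⟨329, _⟩ => m9_329
  | ⟨330, _⟩ => m9_330
  | ⟨331, _⟩ => m9_331
  | ⟨332, _⟩ => m9_332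
  | ⟨333, _⟩ => m9_333
  | ⟨334, _⟩ => m9_334
  | ⟨335, _⟩ => m9_335
  | ⟨336, _⟩ => m9_336
  | ⟨337, _⟩ => m9_337
  | ⟨338, _⟩ => m9_338
  | ⟨339, _⟩ => m9_339
  | ⟨340, _⟩ => m9_340
  | ⟨341, _⟩ => m9_341
  | ⟨342, _⟩ => m9_342
  | ⟨343, _⟩ => m9_343
  | ⟨344, _⟩ => m9_344
  | ⟨345, _⟩ => m9_345
  | ⟨346, _⟩ => m9_346
  | ⟨347, _⟩ => m9_347
  | ⟨348, _⟩ => m9_348
  | ⟨349, _⟩ => m9_349
  | ⟨350, _⟩ => m9_350
  | ⟨351, _⟩ => m9_351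
  | ⟨352, _⟩ => m9_352
  | ⟨353, _⟩ => m9_353
  | ⟨354, _⟩ => m9_354
  | ⟨355, _⟩ => m9_355
  | ⟨356, _⟩ => m9_356
  | ⟨357, _⟩ => m9_357
  | ⟨358, _⟩ => m9_358
  | ⟨359, _⟩ => m9_359
  | ⟨n+360, h⟩ => absurd h (by omega)
theorem Φ_rep : ∀ i : Fin 360, Φ f (rep i) = q f (M9 i)
  | ⟨0, _⟩ => t9_0 f
  | ⟨1, _⟩ => t9_1 f
  | ⟨2, _⟩ => t9_2 f
  | ⟨3, _⟩ => t9_3 f
  | ⟨4, _⟩ => t9_4 f
  | ⟨5, _⟩ => t9_5 f
  | ⟨6, _⟩ => t9_6 f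
  | ⟨7, _⟩ => t9_7 f
  | ⟨8, _⟩ => t9_8 f
  | ⟨9, _⟩ => t9_9 f
  | ⟨10, _⟩ => t9_10 f
  | ⟨11, _⟩ => t9_11 f
  | ⟨12, _⟩ => t9_12 f
  | ⟨13, _⟩ => t9_13 f
  | ⟨14, _⟩ => t9_14 f
  | ⟨15, _⟩ => t9_15 f
  | ⟨16, _⟩ => t9_16 f
  | ⟨17, _⟩ => t9_17 f
  | ⟨18, _⟩ => t9_18 f
  | ⟨19, _⟩ => t9_19 f
  | ⟨20, _⟩ => t9_20 f
  | ⟨21, _⟩ => t9_21 f
  | ⟨22, _⟩ => t9_22 f
  | ⟨23, _⟩ => t9_23 f
  | ⟨24, _⟩ => t9_24 f
  | ⟨25, _⟩ => t9_25 f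
  | ⟨26, _⟩ => t9_26 f
  | ⟨27, _⟩ => t9_27 f
  | ⟨28, _⟩ => t9_28 f
  | ⟨29, _⟩ => t9_29 f
  | ⟨30, _⟩ => t9_30 f
  | ⟨31, _⟩ => t9_31 f
  | ⟨32, _⟩ => t9_32 f
  | ⟨33, _⟩ => t9_33 f
  | ⟨34, _⟩ => t9_34 f
  | ⟨35, _⟩ => t9_35 f
  | ⟨36, _⟩ => t9_36 f
  | ⟨37, _⟩ => t9_37 f
  | ⟨38, _⟩ => t9_38 f
  | ⟨39, _⟩ => t9_39 f
  | ⟨40, _⟩ => t9_40 f
  | ⟨41, _⟩ => t9_41 f
  | ⟨42, _⟩ => t9_42 f
  | ⟨43, _⟩ => t9_43 f
  | ⟨44, _⟩ => t9_44 f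
  | ⟨45, _⟩ => t9_45 f
  | ⟨46, _⟩ => t9_46 f
  | ⟨47, _⟩ => t9_47 f
  | ⟨48, _⟩ => t9_48 f
  | ⟨49, _⟩ => t9_49 f
  | ⟨50, _⟩ => t9_50 f
  | ⟨51, _⟩ => t9_51 f
  | ⟨52, _⟩ => t9_52 f
  | ⟨53, _⟩ => t9_53 f
  | ⟨54, _⟩ => t9_54 f
  | ⟨55, _⟩ => t9_55 f
  | ⟨56, _⟩ => t9_56 f
  | ⟨57, _⟩ => t9_57 f
  | ⟨58, _⟩ => t9_58 f
  | ⟨59, _⟩ => t9_59 f
  | ⟨60, _⟩ => t9_60 f
  | ⟨61, _⟩ => t9_61 f
  | ⟨62, _⟩ => t9_62 f
  | ⟨63, _⟩ => t9_63 f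
  | ⟨64, _⟩ => t9_64 f
  | ⟨65, _⟩ => t9_65 f
  | ⟨66, _⟩ => t9_66 f
  | ⟨67, _⟩ => t9_67 f
  | ⟨68, _⟩ => t9_68 f
  | ⟨69, _⟩ => t9_69 f
  | ⟨70, _⟩ => t9_70 f
  | ⟨71, _⟩ => t9_71 f
  | ⟨72, _⟩ => t9_72 f
  | ⟨73, _⟩ => t9_73 f
  | ⟨74, _⟩ => t9_74 f
  | ⟨75, _⟩ => t9_75 f
  | ⟨76, _⟩ => t9_76 f
  | ⟨77, _⟩ => t9_77 f
  | ⟨78, _⟩ => t9_78 f
  | ⟨79, _⟩ => t9_79 f
  | ⟨80, _⟩ => t9_80 f
  | ⟨81, _⟩ => t9_81 f
  | ⟨82, _⟩ => t9_82 f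
  | ⟨83, _⟩ => t9_83 f
  | ⟨84, _⟩ => t9_84 f
  | ⟨85, _⟩ => t9_85 f
  | ⟨86, _⟩ => t9_86 f
  | ⟨87, _⟩ => t9_87 f
  | ⟨88, _⟩ => t9_88 f
  | ⟨89, _⟩ => t9_89 f
  | ⟨90, _⟩ => t9_90 f
  | ⟨91, _⟩ => t9_91 f
  | ⟨92, _⟩ => t9_92 f
  | ⟨93, _⟩ => t9_93 f
  | ⟨94, _⟩ => t9_94 f
  | ⟨95, _⟩ => t9_95 f
  | ⟨96, _⟩ => t9_96 f
  | ⟨97, _⟩ => t9_97 f
  | ⟨98, _⟩ => t9_98 f
  | ⟨99, _⟩ => t9_99 f
  | ⟨100, _⟩ => t9_100 f
  | ⟨101, _⟩ => t9_101 f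
  | ⟨102, _⟩ => t9_102 f
  | ⟨103, _⟩ => t9_103 f
  | ⟨104, _⟩ => t9_104 f
  | ⟨105, _⟩ => t9_105 f
  | ⟨106, _⟩ => t9_106 f
  | ⟨107, _⟩ => t9_107 f
  | ⟨108, _⟩ => t9_108 f
  | ⟨109, _⟩ => t9_109 f
  | ⟨110, _⟩ => t9_110 f
  | ⟨111, _⟩ => t9_111 f
  | ⟨112, _⟩ => t9_112 f
  | ⟨113, _⟩ => t9_113 f
  | ⟨114, _⟩ => t9_114 f
  | ⟨115, _⟩ => t9_115 f
  | ⟨116, _⟩ => t9_116 f
  | ⟨117, _⟩ => t9_117 f
  | ⟨118, _⟩ => t9_118 f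
  | ⟨119, _⟩ => t9_119 f
  | ⟨120, _⟩ => t9_120 f
  | ⟨121, _⟩ => t9_121 f
  | ⟨122, _⟩ => t9_122 f
  | ⟨123, _⟩ => t9_123 f
  | ⟨124, _⟩ => t9_124 f
  | ⟨125, _⟩ => t9_125 f
  | ⟨126, _⟩ => t9_126 f
  | ⟨127, _⟩ => t9_127 f
  | ⟨128, _⟩ => t9_128 f
  | ⟨129, _⟩ => t9_129 f
  | ⟨130, _⟩ => t9_130 f
  | ⟨131, _⟩ => t9_131 f
  | ⟨132, _⟩ => t9_132 f
  | ⟨133, _⟩ => t9_133 f
  | ⟨134, _⟩ => t9_134 f
  | ⟨135, _⟩ => t9_135 f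
  | ⟨136, _⟩ => t9_136 f
  | ⟨137, _⟩ => t9_137 f
  | ⟨138, _⟩ => t9_138 f
  | ⟨139, _⟩ => t9_139 f
  | ⟨140, _⟩ => t9_140 f
  | ⟨141, _⟩ => t9_141 f
  | ⟨142, _⟩ => t9_142 f
  | ⟨143, _⟩ => t9_143 f
  | ⟨144, _⟩ => t9_144 f
  | ⟨145, _⟩ => t9_145 f
  | ⟨146, _⟩ => t9_146 f
  | ⟨147, _⟩ => t9_147 f
  | ⟨148, _⟩ => t9_148 f
  | ⟨149, _⟩ => t9_149 f
  | ⟨150, _⟩ => t9_150 f
  | ⟨151, _⟩ => t9_151 f
  | ⟨152, _⟩ => t9_152 f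
  | ⟨153, _⟩ => t9_153 f
  | ⟨154, _⟩ => t9_154 f
  | ⟨155, _⟩ => t9_155 f
  | ⟨156, _⟩ => t9_156 f
  | ⟨157, _⟩ => t9_157 f
  | ⟨158, _⟩ => t9_158 f
  | ⟨159, _⟩ => t9_159 f
  | ⟨160, _⟩ => t9_160 f
  | ⟨161, _⟩ => t9_161 f
  | ⟨162, _⟩ => t9_162 f
  | ⟨163, _⟩ => t9_163 f
  | ⟨164, _⟩ => t9_164 f
  | ⟨165, _⟩ => t9_165 f
  | ⟨166, _⟩ => t9_166 f
  | ⟨167, _⟩ => t9_167 f
  | ⟨168, _⟩ => t9_168 f
  | ⟨169, _⟩ => t9_169 f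
  | ⟨170, _⟩ => t9_170 f
  | ⟨171, _⟩ => t9_171 f
  | ⟨172, _⟩ => t9_172 f
  | ⟨173, _⟩ => t9_173 f
  | ⟨174, _⟩ => t9_174 f
  | ⟨175, _⟩ => t9_175 f
  | ⟨176, _⟩ => t9_176 f
  | ⟨177, _⟩ => t9_177 f
  | ⟨178, _⟩ => t9_178 f
  | ⟨179, _⟩ => t9_179 f
  | ⟨180, _⟩ => t9_180 f
  | ⟨181, _⟩ => t9_181 f
  | ⟨182, _⟩ => t9_182 f
  | ⟨183, _⟩ => t9_183 f
  | ⟨184, _⟩ => t9_184 f
  | ⟨185, _⟩ => t9_185 f
  | ⟨186, _⟩ => t9_186 f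
  | ⟨187, _⟩ => t9_187 f
  | ⟨188, _⟩ => t9_188 f
  | ⟨189, _⟩ => t9_189 f
  | ⟨190, _⟩ => t9_190 f
  | ⟨191, _⟩ => t9_191 f
  | ⟨192, _⟩ => t9_192 f
  | ⟨193, _⟩ => t9_193 f
  | ⟨194, _⟩ => t9_194 f
  | ⟨195, _⟩ => t9_195 f
  | ⟨196, _⟩ => t9_196 f
  | ⟨197, _⟩ => t9_197 f
  | ⟨198, _⟩ => t9_198 f
  | ⟨199, _⟩ => t9_199 f
  | ⟨200, _⟩ => t9_200 f
  | ⟨201, _⟩ => t9_201 f
  | ⟨202, _⟩ => t9_202 f
  | ⟨203, _⟩ => t9_203 f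
  | ⟨204, _⟩ => t9_204 f
  | ⟨205, _⟩ => t9_205 f
  | ⟨206, _⟩ => t9_206 f
  | ⟨207, _⟩ => t9_207 f
  | ⟨208, _⟩ => t9_208 f
  | ⟨209, _⟩ => t9_209 f
  | ⟨210, _⟩ => t9_210 f
  | ⟨211, _⟩ => t9_211 f
  | ⟨212, _⟩ => t9_212 f
  | ⟨213, _⟩ => t9_213 f
  | ⟨214, _⟩ => t9_214 f
  | ⟨215, _⟩ => t9_215 f
  | ⟨216, _⟩ => t9_216 f
  | ⟨217, _⟩ => t9_217 f
  | ⟨218, _⟩ => t9_218 f
  | ⟨219, _⟩ => t9_219 f
  | ⟨220, _⟩ => t9_220 f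
  | ⟨221, _⟩ => t9_221 f
  | ⟨222, _⟩ => t9_222 f
  | ⟨223, _⟩ => t9_223 f
  | ⟨224, _⟩ => t9_224 f
  | ⟨225, _⟩ => t9_225 f
  | ⟨226, _⟩ => t9_226 f
  | ⟨227, _⟩ => t9_227 f
  | ⟨228, _⟩ => t9_228 f
  | ⟨229, _⟩ => t9_229 f
  | ⟨230, _⟩ => t9_230 f
  | ⟨231, _⟩ => t9_231 f
  | ⟨232, _⟩ => t9_232 f
  | ⟨233, _⟩ => t9_233 f
  | ⟨234, _⟩ => t9_234 f
  | ⟨235, _⟩ => t9_235 f
  | ⟨236, _⟩ => t9_236 f
  | ⟨237, _⟩ => t9_237 f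
  | ⟨238, _⟩ => t9_238 f
  | ⟨239, _⟩ => t9_239 f
  | ⟨240, _⟩ => t9_240 f
  | ⟨241, _⟩ => t9_241 f
  | ⟨242, _⟩ => t9_242 f
  | ⟨243, _⟩ => t9_243 f
  | ⟨244, _⟩ => t9_244 f
  | ⟨245, _⟩ => t9_245 f
  | ⟨246, _⟩ => t9_246 f
  | ⟨247, _⟩ => t9_247 f
  | ⟨248, _⟩ => t9_248 f
  | ⟨249, _⟩ => t9_249 f
  | ⟨250, _⟩ => t9_250 f
  | ⟨251, _⟩ => t9_251 f
  | ⟨252, _⟩ => t9_252 f
  | ⟨253, _⟩ => t9_253 f
  | ⟨254, _⟩ => t9_254 f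
  | ⟨255, _⟩ => t9_255 f
  | ⟨256, _⟩ => t9_256 f
  | ⟨257, _⟩ => t9_257 f
  | ⟨258, _⟩ => t9_258 f
  | ⟨259, _⟩ => t9_259 f
  | ⟨260, _⟩ => t9_260 f
  | ⟨261, _⟩ => t9_261 f
  | ⟨262, _⟩ => t9_262 f
  | ⟨263, _⟩ => t9_263 f
  | ⟨264, _⟩ => t9_264 f
  | ⟨265, _⟩ => t9_265 f
  | ⟨266, _⟩ => t9_266 f
  | ⟨267, _⟩ => t9_267 f
  | ⟨268, _⟩ => t9_268 f
  | ⟨269, _⟩ => t9_269 f
  | ⟨270, _⟩ => t9_270 f
  | ⟨271, _⟩ => t9_271 f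
  | ⟨272, _⟩ => t9_272 f
  | ⟨273, _⟩ => t9_273 f
  | ⟨274, _⟩ => t9_274 f
  | ⟨275, _⟩ => t9_275 f
  | ⟨276, _⟩ => t9_276 f
  | ⟨277, _⟩ => t9_277 f
  | ⟨278, _⟩ => t9_278 f
  | ⟨279, _⟩ => t9_279 f
  | ⟨280, _⟩ => t9_280 f
  | ⟨281, _⟩ => t9_281 f
  | ⟨282, _⟩ => t9_282 f
  | ⟨283, _⟩ => t9_283 f
  | ⟨284, _⟩ => t9_284 f
  | ⟨285, _⟩ => t9_285 f
  | ⟨286, _⟩ => t9_286 f
  | ⟨287, _⟩ => t9_287 f
  | ⟨288, _⟩ => t9_288 f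
  | ⟨289, _⟩ => t9_289 f
  | ⟨290, _⟩ => t9_290 f
  | ⟨291, _⟩ => t9_291 f
  | ⟨292, _⟩ => t9_292 f
  | ⟨293, _⟩ => t9_293 f
  | ⟨294, _⟩ => t9_294 f
  | ⟨295, _⟩ => t9_295 f
  | ⟨296, _⟩ => t9_296 f
  | ⟨297, _⟩ => t9_297 f
  | ⟨298, _⟩ => t9_298 f
  | ⟨299, _⟩ => t9_299 f
  | ⟨300, _⟩ => t9_300 f
  | ⟨301, _⟩ => t9_301 f
  | ⟨302, _⟩ => t9_302 f
  | ⟨303, _⟩ => t9_303 f
  | ⟨304, _⟩ => t9_304 f
  | ⟨305, _⟩ => t9_305 f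
  | ⟨306, _⟩ => t9_306 f
  | ⟨307, _⟩ => t9_307 f
  | ⟨308, _⟩ => t9_308 f
  | ⟨309, _⟩ => t9_309 f
  | ⟨310, _⟩ => t9_310 f
  | ⟨311, _⟩ => t9_311 f
  | ⟨312, _⟩ => t9_312 f
  | ⟨313, _⟩ => t9_313 f
  | ⟨314, _⟩ => t9_314 f
  | ⟨315, _⟩ => t9_315 f
  | ⟨316, _⟩ => t9_316 f
  | ⟨317, _⟩ => t9_317 f
  | ⟨318, _⟩ => t9_318 f
  | ⟨319, _⟩ => t9_319 f
  | ⟨320, _⟩ => t9_320 f
  | ⟨321, _⟩ => t9_321 f
  | ⟨322, _⟩ => t9_322 f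
  | ⟨323, _⟩ => t9_323 f
  | ⟨324, _⟩ => t9_324 f
  | ⟨325, _⟩ => t9_325 f
  | ⟨326, _⟩ => t9_326 f
  | ⟨327, _⟩ => t9_327 f
  | ⟨328, _⟩ => t9_328 f
  | ⟨329, _⟩ => t9_329 f
  | ⟨330, _⟩ => t9_330 f
  | ⟨331, _⟩ => t9_331 f
  | ⟨332, _⟩ => t9_332 f
  | ⟨333, _⟩ => t9_333 f
  | ⟨334, _⟩ => t9_334 f
  | ⟨335, _⟩ => t9_335 f
  | ⟨336, _⟩ => t9_336 f
  | ⟨337, _⟩ => t9_337 f
  | ⟨338, _⟩ => t9_338 f
  | ⟨339, _⟩ => t9_339 f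
  | ⟨340, _⟩ => t9_340 f
  | ⟨341, _⟩ => t9_341 f
  | ⟨342, _⟩ => t9_342 f
  | ⟨343, _⟩ => t9_343 f
  | ⟨344, _⟩ => t9_344 f
  | ⟨345, _⟩ => t9_345 f
  | ⟨346, _⟩ => t9_346 f
  | ⟨347, _⟩ => t9_347 f
  | ⟨348, _⟩ => t9_348 f
  | ⟨349, _⟩ => t9_349 f
  | ⟨350, _⟩ => t9_350 f
  | ⟨351, _⟩ => t9_351 f
  | ⟨352, _⟩ => t9_352 f
  | ⟨353, _⟩ => t9_353 f
  | ⟨354, _⟩ => t9_354 f
  | ⟨355, _⟩ => t9_355 f
  | ⟨356, _⟩ => t9_356 f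
  | ⟨357, _⟩ => t9_357 f
  | ⟨358, _⟩ => t9_358 f
  | ⟨359, _⟩ => t9_359 f
  | ⟨n+360, h⟩ => absurd h (by omega)

set_option maxRecDepth 100000 in
theorem ker9 : ∀ i : Fin 360, (M9 i).1 0 1 = 0 → (M9 i).1 1 0 = 0 →
    (M9 i).1 0 0 = (M9 i).1 1 1 → i = 0 := by decide

theorem Φ_inj : Function.Injective (Φ f) := by
  rw [injective_iff_map_eq_one]
  intro p hp
  obtain ⟨i, rfl⟩ := rep_surj p
  rw [Φ_rep] at hp
  obtain ⟨h1, h2, h3⟩ := q_scalar f _ hp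
  rw [ker9 i h1 h2 h3]
  rfl

end target9

/-! ### Cardinalities and the isomorphism -/

theorem card_PSL29 {F : Type*} [Field F] [Fintype F] (hF : Fintype.card F = 9) :
    Nat.card (Matrix.ProjectiveSpecialLinearGroup (Fin 2) F) = 360 := by
  have h := Cfsg.Agent.Lib.Helper5.SL2Card.card_PSL_two hF
  norm_num at h
  omega

/-- PSL_2(9) is isomorphic to A_6. -/
theorem result {F : Type*} [Field F] [Fintype F] (hF : Fintype.card F = 9) : Nonempty (Matrix.ProjectiveSpecialLinearGroup (Fin 2) F ≃* alternatingGroup (Fin 6)) := by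
  classical
  let f9 : F9 →+* F := (FiniteField.ringEquivOfCardEq (card_F9.trans hF.symm)).toRingHom
  have hfinF : Finite (Matrix.ProjectiveSpecialLinearGroup (Fin 2) F) :=
    Nat.finite_of_card_ne_zero (by rw [card_PSL29 hF]; norm_num)
  have hb1 : Function.Bijective (Φ f9) :=
    (Φ_inj f9).bijective_of_nat_card_le (by rw [card_PSL29 hF, card_P])
  exact ⟨(MulEquiv.ofBijective (Φ f9) hb1).symm.trans
    ((MonoidHom.ofInjective ψ0_inj).trans (MulEquiv.subgroupCongr ψ0_range))⟩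

end Cfsg.Agent.S0254
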