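-- Statement S2117: SL₂(q), q ≠ 4, 9, has trivial Schur multiplier (stem extension form).
-- Proof: a central element of prime order l in the kernel of a finite stem extension lies in
-- the derived group of a Sylow l-subgroup (transfer).  For l different from the characteristic
-- the Sylow l-subgroups of SL₂ are cyclic or generalized quaternion, whose central extensions
-- have no such element; for l the characteristic the commutator pairing on the lifts of the
-- unitriangular group is biadditive and invariant under the squares, hence trivial.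
import Cfsg.Statements.S2117
import Mathlib
import Cfsg.Agent.Lib.Helper35.Stem
import Cfsg.Agent.Lib.Helper35.SL2

set_option autoImplicit false
open Cfsg

namespace Cfsg.Agent.S2117


open Subgroup Matrix
open scoped commutatorElement
open Cfsg.Agent.Lib.Helper35


section Bil

variable {F : Type*} [Field F] {A : Type*} [CommGroup A]

/-- A biadditive map on a field invariant under multiplication by squares is trivial as soon as
the field has an element `x ≠ 0, -1` avoiding a certain degree 8 equation. -/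
theorem bil_trivial (C : F → F → A)
    (hl : ∀ s s' r, C (s + s') r = C s r * C s' r)
    (hr : ∀ s r r', C s (r + r') = C s r * C s r')
    (hinv : ∀ a s r, a ≠ 0 → C (a ^ 2 * s) (a ^ 2 * r) = C s r)
    (x : F) (hx0 : x ≠ 0) (hx1 : x + 1 ≠ 0)
    (hx : (((x + 1)⁻¹) ^ 2 - (x⁻¹) ^ 2 - 1) ^ 2 ≠ 4 * (x⁻¹) ^ 2) : ∀ s r, C s r = 1 := by
  have C0r : ∀ s, C s 0 = 1 := by
    intro s
    have := hr s 0 0
    rw [add_zero] at this
    exact (mul_eq_left.mp this.symm)
  have Cnegr : ∀ s r, C s (-r) = (C s r)⁻¹ := by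
    intro s r
    have := hr s r (-r)
    rw [add_neg_cancel, C0r] at this
    exact eq_inv_of_mul_eq_one_right this.symm
  have Csubr : ∀ s r r', C s (r - r') = C s r * (C s r')⁻¹ := by
    intro s r r'
    rw [sub_eq_add_neg, hr, Cnegr]
  have h1 : ∀ a : F, a ≠ 0 → ∀ s r, C (a ^ 2 * s) r = C s ((a⁻¹) ^ 2 * r) := by
    intro a ha s r
    have := hinv a s ((a⁻¹) ^ 2 * r) ha
    rw [← this]
    congr 1
    field_simp
  set ψ : F := ((x + 1)⁻¹) ^ 2 - (x⁻¹) ^ 2 - 1 with hψ
  have h2 : ∀ s r, C (x * s) r ^ 2 = C s (ψ * r) := by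
    intro s r
    have e1 : (x + 1) ^ 2 * s = x ^ 2 * s + (x * s + (x * s + s)) := by ring
    have e2 := h1 (x + 1) hx1 s r
    rw [e1, hl, hl, hl, h1 x hx0] at e2
    have e3 : ψ * r = ((x + 1)⁻¹) ^ 2 * r - (x⁻¹) ^ 2 * r - r := by rw [hψ]; ring
    rw [e3, Csubr, Csubr, ← e2]
    rw [pow_two]
    have : C s ((x⁻¹) ^ 2 * r) * (C (x * s) r * (C (x * s) r * C s r)) *
        (C s ((x⁻¹) ^ 2 * r))⁻¹ * (C s r)⁻¹ = C (x * s) r * C (x * s) r := by
      rw [mul_comm (C s ((x⁻¹) ^ 2 * r)), mul_inv_cancel_right, ← mul_assoc, mul_inv_cancel_right]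
    rw [this]
  have h3 : ∀ s r, C (x ^ 2 * s) r ^ 4 = C s (ψ * (ψ * r)) := by
    intro s r
    have e : x ^ 2 * s = x * (x * s) := by ring
    rw [e, show (4 : ℕ) = 2 * 2 by norm_num, pow_mul, h2, h2]
  have h4 : ∀ s r, C s r ^ 4 = C s (4 * r) := by
    intro s r
    have e : 4 * r = r + (r + (r + r)) := by ring
    rw [e, hr, hr, hr]
    rw [show (4 : ℕ) = 1 + (1 + (1 + 1)) by norm_num, pow_add, pow_add, pow_add, pow_one]
  have h5 : ∀ s r, C s ((ψ ^ 2 - 4 * (x⁻¹) ^ 2) * r) = 1 := by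
    intro s r
    have e : (ψ ^ 2 - 4 * (x⁻¹) ^ 2) * r = ψ * (ψ * r) - 4 * ((x⁻¹) ^ 2 * r) := by ring
    rw [e, Csubr, ← h3, ← h4, h1 x hx0, mul_inv_cancel]
  intro s r
  have hδ : ψ ^ 2 - 4 * (x⁻¹) ^ 2 ≠ 0 := sub_ne_zero.mpr hx
  have := h5 s ((ψ ^ 2 - 4 * (x⁻¹) ^ 2)⁻¹ * r)
  rwa [mul_inv_cancel_left₀ hδ] at this

end Bil




section PartA

variable {F : Type*} [Field F] {Γ : Type*} [Group Γ] [Finite Γ]

theorem map_algClosure_injective (K : Type*) [Field K] [Algebra F K] :
    Function.Injective (Matrix.SpecialLinearGroup.map (n := Fin 2) (algebraMap F K)) := by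
  intro a b hab
  apply Subtype.ext
  have h := congrArg Subtype.val hab
  simp only [Matrix.SpecialLinearGroup.map_apply_coe] at h
  ext i j
  have h2 := congrFun (congrFun h i) j
  simp only [RingHom.mapMatrix_apply, Matrix.map_apply] at h2
  exact (algebraMap F K).injective h2

/-- Elements of prime order `l` different from the characteristic cannot lie in the kernel of a
finite stem extension of `SL₂(F)`. -/
theorem case_ne_char [Finite F]
    (σ : Γ →* Matrix.SpecialLinearGroup (Fin 2) F) (hc : σ.ker ≤ center Γ)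
    (z : Γ) (hzk : z ∈ σ.ker) (hz' : z ∈ commutator Γ) (l : ℕ) [Fact l.Prime]
    (hl : orderOf z = l) (hlF : (l : F) ≠ 0) : False := by
  have hz : z ∈ center Γ := hc hzk
  obtain ⟨S⟩ : Nonempty (Sylow l Γ) := inferInstance
  let K := AlgebraicClosure F
  let ρ : ((S : Subgroup Γ).map σ) →* Matrix.SpecialLinearGroup (Fin 2) K :=
    (Matrix.SpecialLinearGroup.map (algebraMap F K)).comp ((S : Subgroup Γ).map σ).subtype
  have hρ : Function.Injective ρ :=
    (map_algClosure_injective K).comp (Subgroup.subtype_injective _)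
  have hlK : (l : K) ≠ 0 := by
    intro h
    apply hlF
    apply (algebraMap F K).injective
    rw [map_natCast, map_zero, h]
  have hQ : IsPGroup l ((S : Subgroup Γ).map σ) := S.isPGroup'.map σ
  have hcyc_done : IsCyclic ((S : Subgroup Γ).map σ) → False := by
    intro hcyc
    exact Stem.not_prime_order_of_sylow_comm S (Stem.comm_of_map_isCyclic σ hc S hcyc) hz hz' hl
  by_cases hl2 : l = 2
  · subst hl2
    have h2 : (2 : K) ≠ 0 := by exact_mod_cast hlK
    rcases SL2.two_group_structure ρ hρ h2 hQ with hcyc | ⟨g, y, n, hgen, hinv, hy2, hord⟩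
    · exact hcyc_done hcyc
    · have hsurj : Function.Surjective (σ.subgroupMap (S : Subgroup Γ)) :=
        σ.subgroupMap_surjective _
      have hker : (σ.subgroupMap (S : Subgroup Γ)).ker ≤ center (S : Subgroup Γ) := by
        intro a ha
        rw [MonoidHom.mem_ker] at ha
        have ha' : σ (a : Γ) = 1 := congrArg Subtype.val ha
        have hcen := hc (MonoidHom.mem_ker.mpr ha')
        rw [Subgroup.mem_center_iff] at hcen ⊢
        intro b
        exact Subtype.ext (hcen b)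
      have hbot := Stem.commutator_inf_ker_eq_bot_of_quat (σ.subgroupMap (S : Subgroup Γ)) hsurj
        hker g y n hgen hinv hy2 hord
      have hzS := Stem.mem_commutator_sylow S hz hz' (k := 1) (by rw [hl, pow_one])
      rw [← Subgroup.map_subtype_commutator] at hzS
      obtain ⟨w, hw, hwz⟩ := hzS
      have hwk : w ∈ (σ.subgroupMap (S : Subgroup Γ)).ker := by
        rw [MonoidHom.mem_ker]
        apply Subtype.ext
        change σ (w : Γ) = 1
        have : (w : Γ) = z := hwz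
        rw [this]
        exact hzk
      have hw1 : w ∈ (⊥ : Subgroup (S : Subgroup Γ)) := by
        rw [← hbot]
        exact ⟨hw, hwk⟩
      rw [Subgroup.mem_bot] at hw1
      have hz1 : z = 1 := by
        rw [← hwz, hw1]
        rfl
      rw [hz1, orderOf_one] at hl
      exact absurd hl (by norm_num)
  · exact hcyc_done (SL2.isCyclic_of_odd_pgroup ρ hρ l hl2 hlK hQ)

end PartA




section Comm

variable {Γ : Type*} [Group Γ]

theorem commutatorElement_mul_left_of_central (a a' b : Γ) (h : ⁅a', b⁆ ∈ center Γ) :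
    ⁅a * a', b⁆ = ⁅a, b⁆ * ⁅a', b⁆ := by
  rw [Subgroup.mem_center_iff] at h
  have h1 : ⁅a * a', b⁆ = a * ⁅a', b⁆ * b * a⁻¹ * b⁻¹ := by
    simp only [commutatorElement_def]; group
  rw [h1, h a, h ⁅a, b⁆]
  simp only [commutatorElement_def]; group

theorem commutatorElement_mul_right_of_central (a b b' : Γ) (h : ⁅a, b'⁆ ∈ center Γ) :
    ⁅a, b * b'⁆ = ⁅a, b⁆ * ⁅a, b'⁆ := by
  rw [Subgroup.mem_center_iff] at h
  have h1 : ⁅a, b * b'⁆ = a * b * a⁻¹ * (⁅a, b'⁆ * b⁻¹) := by
    simp only [commutatorElement_def]; group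
  rw [h1, ← h b⁻¹]
  simp only [commutatorElement_def]; group

end Comm

section Elements

variable {F : Type*} [Field F]

/-- Upper unitriangular element. -/
def u (b : F) : Matrix.SpecialLinearGroup (Fin 2) F :=
  ⟨!![1, b; 0, 1], by simp [Matrix.det_fin_two]⟩

/-- Diagonal element. -/
def dg (a : F) (ha : a ≠ 0) : Matrix.SpecialLinearGroup (Fin 2) F :=
  ⟨!![a, 0; 0, a⁻¹], by simp [Matrix.det_fin_two, ha]⟩

theorem u_add (s r : F) : u (s + r) = u s * u r := by
  apply Subtype.ext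
  rw [Matrix.SpecialLinearGroup.coe_mul]
  ext i j
  fin_cases i <;> fin_cases j <;> simp [u, Matrix.mul_apply, Fin.sum_univ_two, add_comm]

theorem u_zero : u (0 : F) = 1 := by
  apply Subtype.ext
  ext i j
  fin_cases i <;> fin_cases j <;> simp [u]

theorem u_nsmul (k : ℕ) (s : F) : u (k • s) = u s ^ k := by
  induction k with
  | zero => simp [u_zero]
  | succ k ih => rw [succ_nsmul, u_add, ih, pow_succ]

theorem dg_mul_u (a : F) (ha : a ≠ 0) (s : F) : dg a ha * u s = u (a ^ 2 * s) * dg a ha := by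
  apply Subtype.ext
  rw [Matrix.SpecialLinearGroup.coe_mul, Matrix.SpecialLinearGroup.coe_mul]
  ext i j
  fin_cases i <;> fin_cases j <;> simp [u, dg, Matrix.mul_apply, Fin.sum_univ_two]
  field_simp

theorem upper_of_fix (m g : Matrix.SpecialLinearGroup (Fin 2) F) (v : Fin 2 → F)
    (hg : g.1 *ᵥ ![1, 0] = v) (hm : m.1 *ᵥ v = v) : ∃ b, g⁻¹ * m * g = u b := by
  set N := g⁻¹ * m * g with hN
  have hNe : N.1 *ᵥ ![1, 0] = ![1, 0] := by
    have h1 : N.1 = (g⁻¹).1 * m.1 * g.1 := by rw [hN]; rfl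
    have h2 : (g⁻¹).1 * g.1 = 1 := by
      rw [← Matrix.SpecialLinearGroup.coe_mul, inv_mul_cancel, Matrix.SpecialLinearGroup.coe_one]
    rw [h1, ← Matrix.mulVec_mulVec, ← Matrix.mulVec_mulVec, hg, hm, ← hg, Matrix.mulVec_mulVec, h2,
      Matrix.one_mulVec]
  have h00 : N.1 0 0 = 1 := by
    have := congrFun hNe 0
    simpa [Matrix.mulVec, dotProduct, Fin.sum_univ_two] using this
  have h10 : N.1 1 0 = 0 := by
    have := congrFun hNe 1
    simpa [Matrix.mulVec, dotProduct, Fin.sum_univ_two] using this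
  have hdet := N.2
  rw [Matrix.det_fin_two, h00, h10] at hdet
  have h11 : N.1 1 1 = 1 := by linear_combination hdet
  refine ⟨N.1 0 1, ?_⟩
  apply Subtype.ext
  ext i j
  fin_cases i <;> fin_cases j <;> simp [u, h00, h10, h11]

theorem exists_conj_upper [Fintype F] (p : ℕ) [Fact p.Prime] [CharP F p]
    (P : Subgroup (Matrix.SpecialLinearGroup (Fin 2) F)) (hP : IsPGroup p P) :
    ∃ g : Matrix.SpecialLinearGroup (Fin 2) F, ∀ m ∈ P, ∃ b : F, g⁻¹ * m * g = u b := by
  classical
  have hdvd : p ∣ Nat.card (Fin 2 → F) := by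
    rw [Nat.card_eq_fintype_card, Fintype.card_fun, Fintype.card_fin]
    obtain ⟨n, -, hn⟩ := FiniteField.card F p
    rw [hn]
    exact dvd_pow (dvd_pow_self p n.ne_zero) two_ne_zero
  have h0 : (0 : Fin 2 → F) ∈ MulAction.fixedPoints P (Fin 2 → F) := fun m => smul_zero m
  obtain ⟨v, hv, hv0⟩ := hP.exists_fixed_point_of_prime_dvd_card_of_fixed_point (Fin 2 → F) hdvd h0
  have hfix : ∀ m ∈ P, (m : Matrix (Fin 2) (Fin 2) F) *ᵥ v = v := fun m hm => hv ⟨m, hm⟩
  obtain ⟨g, hg⟩ : ∃ g : Matrix.SpecialLinearGroup (Fin 2) F, g.1 *ᵥ ![1, 0] = v := by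
    by_cases h : v 0 = 0
    · have h1 : v 1 ≠ 0 := by
        intro h1
        apply hv0
        ext i
        fin_cases i <;> simp [h, h1]
      refine ⟨⟨!![0, -(v 1)⁻¹; v 1, 0], by simp [Matrix.det_fin_two, h1]⟩, ?_⟩
      ext i
      fin_cases i <;> simp [Matrix.mulVec, dotProduct, Fin.sum_univ_two, h]
    · refine ⟨⟨!![v 0, 0; v 1, (v 0)⁻¹], by simp [Matrix.det_fin_two, h]⟩, ?_⟩
      ext i
      fin_cases i <;> simp [Matrix.mulVec, dotProduct, Fin.sum_univ_two]
  exact ⟨g, fun m hm => upper_of_fix m g v hg (hfix m hm)⟩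

end Elements




section Good

variable {F : Type*} [Field F] [Fintype F]

open Polynomial in
theorem exists_good_big (hq : 11 ≤ Fintype.card F) :
    ∃ x : F, x ≠ 0 ∧ x + 1 ≠ 0 ∧ (((x + 1)⁻¹) ^ 2 - (x⁻¹) ^ 2 - 1) ^ 2 ≠ 4 * (x⁻¹) ^ 2 := by
  classical
  let f : F[X] := X * (X + 1) * (X ^ 2 + X + 1) * (X ^ 2 + 3 * X + 1) * (X ^ 2 - X - 1) *
    (X ^ 2 + X - 1)
  have hdeg : f.natDegree ≤ 10 := by
    show (X * (X + 1) * (X ^ 2 + X + 1) * (X ^ 2 + 3 * X + 1) * (X ^ 2 - X - 1) *
      (X ^ 2 + X - 1) : F[X]).natDegree ≤ 10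
    compute_degree
  have hne : f ≠ 0 := by
    have hm : f.Monic := by
      show (X * (X + 1) * (X ^ 2 + X + 1) * (X ^ 2 + 3 * X + 1) * (X ^ 2 - X - 1) *
        (X ^ 2 + X - 1) : F[X]).Monic
      monicity!
    exact hm.ne_zero
  have hex : ∃ x : F, f.eval x ≠ 0 := by
    by_contra hcon
    push Not at hcon
    exact hne (Polynomial.eq_zero_of_natDegree_lt_card_of_eval_eq_zero f Function.injective_id hcon
      (by omega))
  obtain ⟨x, hx⟩ := hex
  have hx' : x * (x + 1) * (x ^ 2 + x + 1) * (x ^ 2 + 3 * x + 1) * (x ^ 2 - x - 1) *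
      (x ^ 2 + x - 1) ≠ 0 := by
    simpa [f] using hx
  have hx0 : x ≠ 0 := by
    rintro rfl
    simp at hx'
  have hx1 : x + 1 ≠ 0 := by
    intro h
    rw [h] at hx'
    simp at hx'
  refine ⟨x, hx0, hx1, ?_⟩
  intro h
  apply hx'
  have hQ : (x ^ 2 + x + 1) * (x ^ 2 + 3 * x + 1) * (x ^ 2 - x - 1) * (x ^ 2 + x - 1) =
      x ^ 4 * (x + 1) ^ 4 * ((((x + 1)⁻¹) ^ 2 - (x⁻¹) ^ 2 - 1) ^ 2 - 4 * (x⁻¹) ^ 2) := by
    field_simp
    ring
  have : x * (x + 1) * (x ^ 2 + x + 1) * (x ^ 2 + 3 * x + 1) * (x ^ 2 - x - 1) *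
      (x ^ 2 + x - 1) = x * (x + 1) * ((x ^ 2 + x + 1) * (x ^ 2 + 3 * x + 1) * (x ^ 2 - x - 1) *
      (x ^ 2 + x - 1)) := by ring
  rw [this, hQ, h]
  ring

open Polynomial in
theorem exists_good_eight (hq : Fintype.card F = 8) :
    ∃ x : F, x ≠ 0 ∧ x + 1 ≠ 0 ∧ (((x + 1)⁻¹) ^ 2 - (x⁻¹) ^ 2 - 1) ^ 2 ≠ 4 * (x⁻¹) ^ 2 := by
  classical
  have h2 : (2 : F) = 0 := by
    obtain ⟨p, hp⟩ := CharP.exists F
    obtain ⟨n, hpp, hn⟩ := FiniteField.card F p
    rw [hq] at hn
    have h2p : 2 ∣ p := by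
      have : 2 ∣ p ^ (n : ℕ) := by rw [← hn]; norm_num
      exact Nat.Prime.dvd_of_dvd_pow Nat.prime_two this
    have : p = 2 := ((Nat.prime_dvd_prime_iff_eq Nat.prime_two hpp).mp h2p).symm
    subst this
    exact_mod_cast CharP.cast_eq_zero F 2
  let f : F[X] := X * (X + 1) * (X ^ 2 + X + 1)
  have hdeg : f.natDegree ≤ 4 := by
    show (X * (X + 1) * (X ^ 2 + X + 1) : F[X]).natDegree ≤ 4
    compute_degree
  have hne : f ≠ 0 := by
    have hm : f.Monic := by
      show (X * (X + 1) * (X ^ 2 + X + 1) : F[X]).Monic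
      monicity!
    exact hm.ne_zero
  have hex : ∃ x : F, f.eval x ≠ 0 := by
    by_contra hcon
    push Not at hcon
    exact hne (Polynomial.eq_zero_of_natDegree_lt_card_of_eval_eq_zero f Function.injective_id hcon
      (by omega))
  obtain ⟨x, hx⟩ := hex
  have hx' : x * (x + 1) * (x ^ 2 + x + 1) ≠ 0 := by
    simpa [f] using hx
  have hx0 : x ≠ 0 := by
    rintro rfl
    simp at hx'
  have hx1 : x + 1 ≠ 0 := by
    intro h
    rw [h] at hx'
    simp at hx'
  refine ⟨x, hx0, hx1, ?_⟩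
  intro h
  apply hx'
  have h4 : (4 : F) = 0 := by linear_combination 2 * h2
  rw [h4, zero_mul] at h
  have hψ : ((x + 1)⁻¹) ^ 2 - (x⁻¹) ^ 2 - 1 = 0 := by
    exact pow_eq_zero_iff (two_ne_zero) |>.mp h
  have hQ : (x ^ 2 + x + 1) ^ 2 =
      - (x ^ 2 * (x + 1) ^ 2 * (((x + 1)⁻¹) ^ 2 - (x⁻¹) ^ 2 - 1)) + 2 * (x * (x + 1) - x) := by
    field_simp
    ring
  rw [hψ, h2] at hQ
  have : x ^ 2 + x + 1 = 0 := by
    have : (x ^ 2 + x + 1) ^ 2 = 0 := by rw [hQ]; ring
    exact pow_eq_zero_iff (two_ne_zero) |>.mp this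
  rw [this, mul_zero]

end Good


section Main

variable {F : Type*} [Field F] [Fintype F]

theorem card_cases (h4 : Fintype.card F ≠ 4) (h9 : Fintype.card F ≠ 9) :
    11 ≤ Fintype.card F ∨ Fintype.card F = 8 ∨ (Fintype.card F).Prime := by
  obtain ⟨p, hp⟩ := CharP.exists F
  obtain ⟨n, hpp, hn⟩ := FiniteField.card F p
  by_cases h11 : 11 ≤ Fintype.card F
  · exact Or.inl h11
  · right
    have hlt : Fintype.card F < 11 := by omega
    have h1 : 1 < Fintype.card F := Fintype.one_lt_card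
    have key : ∀ l : ℕ, l.Prime → l ∣ Fintype.card F → l = p := by
      intro l hl hdvd
      rw [hn] at hdvd
      exact (Nat.prime_dvd_prime_iff_eq hl hpp).mp (hl.dvd_of_dvd_pow hdvd)
    generalize Fintype.card F = q at *
    interval_cases q
    · exact Or.inr Nat.prime_two
    · exact Or.inr Nat.prime_three
    · exact absurd rfl h4
    · exact Or.inr Nat.prime_five
    · have e2 := key 2 Nat.prime_two (by norm_num)
      have e3 := key 3 Nat.prime_three (by norm_num)
      omega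
    · exact Or.inr (by norm_num)
    · exact Or.inl rfl
    · exact absurd rfl h9
    · have e2 := key 2 Nat.prime_two (by norm_num)
      have e5 := key 5 Nat.prime_five (by norm_num)
      omega

open scoped IsMulCommutative in
/-- In a central extension of `SL₂(F)` (`|F| ≠ 4, 9`), lifts of upper unitriangular elements
commute. -/
theorem comm_of_upper (h4 : Fintype.card F ≠ 4) (h9 : Fintype.card F ≠ 9)
    {Γ : Type*} [Group Γ] (σ : Γ →* Matrix.SpecialLinearGroup (Fin 2) F)
    (hsurj : Function.Surjective σ) (hc : σ.ker ≤ center Γ)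
    (a b : Γ) (s r : F) (ha : σ a = u s) (hb : σ b = u r) : a * b = b * a := by
  classical
  let L : Matrix.SpecialLinearGroup (Fin 2) F → Γ := Function.surjInv hsurj
  have hL : ∀ m, σ (L m) = m := Function.surjInv_eq hsurj
  have hcen : ∀ s r : F, ⁅L (u s), L (u r)⁆ ∈ center Γ := by
    intro s r
    apply hc
    rw [MonoidHom.mem_ker, map_commutatorElement, hL, hL, commutatorElement_eq_one_iff_commute]
    show u s * u r = u r * u s
    rw [← u_add, ← u_add, add_comm]
  let C : F → F → center Γ := fun s r => ⟨⁅L (u s), L (u r)⁆, hcen s r⟩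
  have hl : ∀ s s' r, C (s + s') r = C s r * C s' r := by
    intro s s' r
    apply Subtype.ext
    show ⁅L (u (s + s')), L (u r)⁆ = ⁅L (u s), L (u r)⁆ * ⁅L (u s'), L (u r)⁆
    rw [← commutatorElement_mul_left_of_central _ _ _ (hcen s' r)]
    exact Stem.commutator_eq_of_map_eq σ hc (by rw [hL, map_mul, hL, hL, u_add]) rfl
  have hr : ∀ s r r', C s (r + r') = C s r * C s r' := by
    intro s r r'
    apply Subtype.ext
    show ⁅L (u s), L (u (r + r'))⁆ = ⁅L (u s), L (u r)⁆ * ⁅L (u s), L (u r')⁆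
    rw [← commutatorElement_mul_right_of_central _ _ _ (hcen s r')]
    exact Stem.commutator_eq_of_map_eq σ hc rfl (by rw [hL, map_mul, hL, hL, u_add])
  have hinv : ∀ a s r, a ≠ 0 → C (a ^ 2 * s) (a ^ 2 * r) = C s r := by
    intro a s r ha0
    apply Subtype.ext
    show ⁅L (u (a ^ 2 * s)), L (u (a ^ 2 * r))⁆ = ⁅L (u s), L (u r)⁆
    obtain ⟨d, hd⟩ := hsurj (dg a ha0)
    have hconj : ∀ t : F, σ (L (u (a ^ 2 * t))) = σ (d * L (u t) * d⁻¹) := by
      intro t
      rw [map_mul, map_mul, map_inv, hL, hL, hd, dg_mul_u, mul_inv_cancel_right]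
    rw [Stem.commutator_eq_of_map_eq σ hc (hconj s) (hconj r), ← conjugate_commutatorElement]
    have := Subgroup.mem_center_iff.mp (hcen s r) d
    rw [this, mul_inv_cancel_right]
  have key : ∀ s r, C s r = 1 := by
    rcases card_cases h4 h9 with h11 | h8 | hprime
    · obtain ⟨x, hx0, hx1, hx⟩ := exists_good_big h11
      exact bil_trivial C hl hr hinv x hx0 hx1 hx
    · obtain ⟨x, hx0, hx1, hx⟩ := exists_good_eight h8
      exact bil_trivial C hl hr hinv x hx0 hx1 hx
    · intro s r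
      have : Fact (Fintype.card F).Prime := ⟨hprime⟩
      have hcard : Nat.card F = Fintype.card F := Nat.card_eq_fintype_card
      obtain ⟨k, hk⟩ := mem_multiples_of_prime_card hcard (one_ne_zero (α := F)) (g' := s)
      obtain ⟨m, hm⟩ := mem_multiples_of_prime_card hcard (one_ne_zero (α := F)) (g' := r)
      apply Subtype.ext
      show ⁅L (u s), L (u r)⁆ = 1
      have e1 : σ (L (u s)) = σ (L (u 1) ^ k) := by
        rw [hL, map_pow, hL, ← u_nsmul]
        exact congrArg u hk.symm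
      have e2 : σ (L (u r)) = σ (L (u 1) ^ m) := by
        rw [hL, map_pow, hL, ← u_nsmul]
        exact congrArg u hm.symm
      rw [Stem.commutator_eq_of_map_eq σ hc e1 e2, commutatorElement_eq_one_iff_commute]
      exact Commute.pow_pow_self _ k m
  have h1 : ⁅a, b⁆ = ⁅L (u s), L (u r)⁆ :=
    Stem.commutator_eq_of_map_eq σ hc (ha.trans (hL _).symm) (hb.trans (hL _).symm)
  have h2 : ⁅L (u s), L (u r)⁆ = 1 := congrArg Subtype.val (key s r)
  rw [h2, commutatorElement_eq_one_iff_commute] at h1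
  exact h1

/-- Elements of order the characteristic cannot lie in the kernel of a finite stem extension
of `SL₂(F)` (`|F| ≠ 4, 9`). -/
theorem case_eq_char (h4 : Fintype.card F ≠ 4) (h9 : Fintype.card F ≠ 9)
    {Γ : Type*} [Group Γ] [Finite Γ] (σ : Γ →* Matrix.SpecialLinearGroup (Fin 2) F)
    (hsurj : Function.Surjective σ) (hc : σ.ker ≤ center Γ)
    (z : Γ) (hzk : z ∈ σ.ker) (hz' : z ∈ commutator Γ) (p : ℕ) [Fact p.Prime] [CharP F p]
    (hl : orderOf z = p) : False := by
  have hz : z ∈ center Γ := hc hzk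
  obtain ⟨S⟩ : Nonempty (Sylow p Γ) := inferInstance
  have hQ : IsPGroup p ((S : Subgroup Γ).map σ) := S.isPGroup'.map σ
  obtain ⟨g, hg⟩ := exists_conj_upper p _ hQ
  obtain ⟨γ, hγ⟩ := hsurj g
  have hS : ∀ a ∈ (S : Subgroup Γ), ∀ b ∈ (S : Subgroup Γ), a * b = b * a := by
    intro a ha b hb
    obtain ⟨s, hs⟩ := hg (σ a) (Subgroup.mem_map_of_mem σ ha)
    obtain ⟨r, hr⟩ := hg (σ b) (Subgroup.mem_map_of_mem σ hb)
    have hcomm := comm_of_upper h4 h9 σ hsurj hc (γ⁻¹ * a * γ) (γ⁻¹ * b * γ) s r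
      (by rw [map_mul, map_mul, map_inv, hγ, hs]) (by rw [map_mul, map_mul, map_inv, hγ, hr])
    calc a * b = γ * ((γ⁻¹ * a * γ) * (γ⁻¹ * b * γ)) * γ⁻¹ := by group
      _ = γ * ((γ⁻¹ * b * γ) * (γ⁻¹ * a * γ)) * γ⁻¹ := by rw [hcomm]
      _ = b * a := by group
  exact Stem.not_prime_order_of_sylow_comm S hS hz hz' hl

end Main


/-- For a finite field with q elements, q ≠ 4 and q ≠ 9, the special linear group SL₂ has trivial Schur multiplier (here the Schur multiplier is described through stem extensions, as in the definitions). -/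
theorem result {F : Type*} [Field F] [Fintype F] (h4 : Fintype.card F ≠ 4) (h9 : Fintype.card F ≠ 9) : Cfsg.HasCyclicSchurMultiplier (Matrix.SpecialLinearGroup (Fin 2) F) 1 := by
  classical
  apply Stem.hasCyclicSchurMultiplier_one
  intro Γ _ _ σ hσ
  obtain ⟨hsurj, hc, hcomm⟩ := hσ
  apply Stem.eq_bot_of_no_prime_order
  intro z hz hprime
  obtain ⟨p, hp⟩ := CharP.exists F
  have hpp : p.Prime := CharP.char_is_prime F p
  have : Fact p.Prime := ⟨hpp⟩
  have : Fact (orderOf z).Prime := ⟨hprime⟩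
  by_cases hlp : orderOf z = p
  · exact case_eq_char h4 h9 σ hsurj hc z hz (hcomm hz) p hlp
  · apply case_ne_char σ hc z hz (hcomm hz) (orderOf z) rfl
    intro h0
    apply hlp
    have hdvd := (CharP.cast_eq_zero_iff F p (orderOf z)).mp h0
    exact ((Nat.prime_dvd_prime_iff_eq hpp hprime).mp hdvd).symm

end Cfsg.Agent.S2117
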