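-- Statement S5656: GU_2(2) wr S_t is not maximal in SU_n(2) (it lies in GU_1(2) wr S_2t).
import Cfsg.Statements.S5656
import Cfsg.Agent.Lib.Helper94.Herm2
import Cfsg.Agent.Lib.Helper94.GLAux

set_option autoImplicit false
open Cfsg

namespace Cfsg.Agent.S5656

open scoped Matrix
open Cfsg.Agent.Lib.Helper94.Basic Cfsg.Agent.Lib.Helper94.Herm2 Cfsg.Agent.Lib.Helper94.GLAux

section Aux

variable {F : Type*} [Field F] [Fintype F] {n : ℕ}

lemma char_two (hF : Fintype.card F = 4) : CharP F 2 := by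
  obtain ⟨p, hp⟩ := CharP.exists F
  obtain ⟨k, hprime, hcard⟩ := FiniteField.card F p
  have h1 : p ∣ 2 ^ 2 := by
    have h2 : p ∣ p ^ (k : ℕ) := dvd_pow_self p k.ne_zero
    rw [← hcard, hF] at h2
    exact h2
  have h3 : p = 2 := (Nat.prime_dvd_prime_iff_eq hprime Nat.prime_two).mp
    (hprime.dvd_of_dvd_pow h1)
  subst h3
  exact hp

lemma pow_four (hF : Fintype.card F = 4) (x : F) : x ^ 4 = x := by
  rw [← hF]; exact FiniteField.pow_card x

lemma pow_three (h4 : ∀ x : F, x ^ 4 = x) (x : F) (hx : x ≠ 0) : x ^ 3 = 1 := by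
  have h := h4 x
  have h' : x * (x ^ 3 - 1) = 0 := by linear_combination h
  rcases mul_eq_zero.mp h' with h1 | h1
  · exact absurd h1 hx
  · exact sub_eq_zero.mp h1

lemma exists_omega (hF : Fintype.card F = 4) : ∃ ω : F, ω ≠ 0 ∧ ω ≠ 1 := by
  classical
  by_contra hcon
  push_neg at hcon
  have h : (Finset.univ : Finset F) ⊆ {0, 1} := by
    intro x _
    by_cases hx : x = 0
    · simp [hx]
    · simp [hcon x hx]
  have h1 := Finset.card_le_card h
  rw [Finset.card_univ, hF] at h1
  have h2 : ({0, 1} : Finset F).card ≤ 2 := Finset.card_le_two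
  omega

/-- An orthonormal frame of a nondegenerate unitary plane over the field with four elements. -/
lemma exists_frame [CharP F 2] (h4 : ∀ x : F, x ^ 4 = x) (hω : ∃ ω : F, ω ≠ 0 ∧ ω ≠ 1)
    (W : Submodule F (Fin n → F)) (hW : Cfsg.Geo.IsNondegenerateOn (Cfsg.hermForm n F 2) W)
    (hdim : Module.finrank F W = 2) :
    ∃ p p' : Fin n → F, p ∈ W ∧ p' ∈ W ∧ hermForm n F 2 p p = 1 ∧ hermForm n F 2 p' p' = 1 ∧
      hermForm n F 2 p p' = 0 ∧ hermForm n F 2 p' p = 0 ∧
      (∀ v ∈ W, ∃ a b : F, v = a • p + b • p') := by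
  have h2 : (2 : F) = 0 := CharTwo.two_eq_zero
  -- Step 1: a nonisotropic vector
  have step1 : ∃ p ∈ W, hermForm n F 2 p p ≠ 0 := by
    by_contra hcon
    push_neg at hcon
    have hne : W ≠ ⊥ := by
      intro h
      rw [h] at hdim
      simp at hdim
    obtain ⟨u, hu, hu0⟩ := Submodule.exists_mem_ne_zero_of_ne_bot hne
    obtain ⟨w, hw, hwu⟩ := (hW u hu hu0).1
    obtain ⟨ω, hω0, hω1⟩ := hω
    have h5 := hcon ((ω * (hermForm n F 2 w u)⁻¹) • w + u)
      (W.add_mem (W.smul_mem _ hw) hu)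
    rw [herm_add_left, herm2_add_right, herm2_add_right, herm_smul_left, herm_smul_left,
      herm2_smul_right, herm2_smul_right, hcon w hw, hcon u hu, herm2_symm h4 w u] at h5
    have h6 : ω * (1 + ω) = 0 := by
      have h7 : (hermForm n F 2 w u)⁻¹ * hermForm n F 2 w u = 1 := inv_mul_cancel₀ hwu
      linear_combination h5 - (ω + ω ^ 2 + ω ^ 2 * (hermForm n F 2 w u)⁻¹ * hermForm n F 2 w u) * h7
    rcases mul_eq_zero.mp h6 with h8 | h8
    · exact hω0 h8
    · apply hω1
      linear_combination h8 - h2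
  obtain ⟨p, hp, hpp0⟩ := step1
  have hpp : hermForm n F 2 p p = 1 := (herm2_self_zero_or_one h4 p).resolve_left hpp0
  have hp0 : p ≠ 0 := by
    intro h
    rw [h] at hpp0
    simp at hpp0
  -- Step 3: a second vector
  have step3 : ∃ u ∈ W, u ∉ Submodule.span F {p} := by
    by_contra hcon
    push_neg at hcon
    have hle : W ≤ Submodule.span F {p} := fun u hu => hcon u hu
    have h5 := Submodule.finrank_mono hle
    rw [hdim, finrank_span_singleton hp0] at h5
    omega
  obtain ⟨u, hu, hup⟩ := step3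
  set p' := u + (hermForm n F 2 u p) • p with hp'def
  have hp' : p' ∈ W := W.add_mem hu (W.smul_mem _ hp)
  have hp'p : hermForm n F 2 p' p = 0 := by
    rw [hp'def, herm_add_left, herm_smul_left, hpp]
    linear_combination (hermForm n F 2 u p) * h2
  have hpp' : hermForm n F 2 p p' = 0 := by
    rw [herm2_symm h4 p' p, hp'p]; ring
  have hp'0 : p' ≠ 0 := by
    intro h
    apply hup
    have h5 : u = -((hermForm n F 2 u p) • p) := by
      rw [hp'def] at h
      exact eq_neg_of_add_eq_zero_left h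
    rw [h5]
    exact Submodule.neg_mem _ (Submodule.smul_mem _ _ (Submodule.mem_span_singleton_self p))
  have hli : LinearIndependent F ![p, p'] := by
    rw [LinearIndependent.pair_iff]
    intro a b hab
    have h5 : hermForm n F 2 (a • p + b • p') p = 0 := by rw [hab]; simp
    rw [herm_add_left, herm_smul_left, herm_smul_left, hpp, hp'p] at h5
    have ha : a = 0 := by simpa using h5
    rw [ha, zero_smul, zero_add] at hab
    exact ⟨ha, (smul_eq_zero.mp hab).resolve_right hp'0⟩
  have hspan : Submodule.span F {p, p'} = W := by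
    apply Submodule.eq_of_le_of_finrank_eq
    · rw [Submodule.span_le]
      intro x hx
      rcases hx with rfl | rfl
      · exact hp
      · exact hp'
    · have h5 := finrank_span_eq_card hli
      have h6 : Set.range ![p, p'] = {p, p'} := by
        ext x; simp [eq_comm, or_comm]
      rw [h6] at h5
      rw [h5, hdim]
      simp
  have hsp : ∀ v ∈ W, ∃ a b : F, v = a • p + b • p' := by
    intro v hv
    rw [← hspan, Submodule.mem_span_pair] at hv
    obtain ⟨a, b, rfl⟩ := hv
    exact ⟨a, b, rfl⟩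
  have hp'p'0 : hermForm n F 2 p' p' ≠ 0 := by
    intro h
    obtain ⟨x, hx, hxp'⟩ := (hW p' hp' hp'0).1
    obtain ⟨a, b, rfl⟩ := hsp x hx
    apply hxp'
    rw [herm_add_left, herm_smul_left, herm_smul_left, hpp', h]
    ring
  exact ⟨p, p', hp, hp', hpp, (herm2_self_zero_or_one h4 p').resolve_left hp'p'0, hpp', hp'p, hsp⟩

end Aux

theorem result {F : Type*} [Field F] [Fintype F] (n : ℕ) (hF : Fintype.card F = 4) (hn : 13 ≤ n) {t : ℕ} (D : Fin t → Submodule F (Fin n → F)) (hD : Cfsg.Geo.IsNondegenerateMDecomposition (Cfsg.hermForm n F 2) 2 D) : ∃ K : Subgroup (Matrix.GeneralLinearGroup (Fin n) F), Cfsg.Geo.decompositionStabilizer D ⊓ (Cfsg.GU n F 2 ⊓ Cfsg.Geo.specialLinear (Fin n) F) < K ∧ K < (Cfsg.GU n F 2 ⊓ Cfsg.Geo.specialLinear (Fin n) F) := by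
  have : CharP F 2 := char_two hF
  have h4 : ∀ x : F, x ^ 4 = x := pow_four hF
  have h2 : (2 : F) = 0 := CharTwo.two_eq_zero
  have hfr : ∀ i, ∃ p p' : Fin n → F, p ∈ D i ∧ p' ∈ D i ∧ hermForm n F 2 p p = 1 ∧
      hermForm n F 2 p' p' = 1 ∧ hermForm n F 2 p p' = 0 ∧ hermForm n F 2 p' p = 0 ∧
      (∀ v ∈ D i, ∃ a b : F, v = a • p + b • p') :=
    fun i => exists_frame h4 (exists_omega hF) (D i) (hD.nondegenerate i) (hD.decomp.finrank_eq i)
  choose p p' hp hp' hpp hp'p' hpp' hp'p hsp using hfr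
  have ht := hD.decomp.two_le
  let i0 : Fin t := ⟨0, by omega⟩
  let i1 : Fin t := ⟨1, by omega⟩
  have h01 : i0 ≠ i1 := by simp [i0, i1, Fin.ext_iff]
  have h10 : i1 ≠ i0 := Ne.symm h01
  have horth := hD.orthogonal
  have vec_add_self : ∀ x : Fin n → F, x + x = 0 := by
    intro x; rw [← two_smul F x, h2, zero_smul]
  -- the set of nonisotropic vectors lying in a member
  let S : Set (Fin n → F) := {v | (∃ i, v ∈ D i) ∧ hermForm n F 2 v v ≠ 0}
  -- a nonisotropic vector lies in at most one member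
  have uniq : ∀ j l, ∀ x, x ∈ D j → x ∈ D l → hermForm n F 2 x x ≠ 0 → j = l := by
    intro j l x hxj hxl hx
    by_contra hjl
    exact hx (horth j l hjl x hxj x hxl)
  -- description of S
  have hS : ∀ v ∈ S, ∃ i, ∃ c : F, c ≠ 0 ∧ (v = c • p i ∨ v = c • p' i) := by
    rintro v ⟨⟨i, hvi⟩, hv⟩
    obtain ⟨a, b, rfl⟩ := hsp i v hvi
    refine ⟨i, ?_⟩
    simp only [herm_add_left, herm2_add_right, herm_smul_left, herm2_smul_right, hpp, hp'p', hpp',
      hp'p] at hv
    by_cases ha : a = 0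
    · by_cases hb : b = 0
      · exfalso; apply hv; rw [ha, hb]; ring
      · exact ⟨b, hb, Or.inr (by rw [ha]; simp)⟩
    · by_cases hb : b = 0
      · exact ⟨a, ha, Or.inl (by rw [hb]; simp)⟩
      · exfalso; apply hv
        have h5 := pow_three h4 a ha
        have h6 := pow_three h4 b hb
        linear_combination h5 + h6 + h2
  have hSp : ∀ i, ∀ c : F, c ≠ 0 → c • p i ∈ S := by
    intro i c hc
    refine ⟨⟨i, (D i).smul_mem c (hp i)⟩, ?_⟩
    rw [herm_smul_left, herm2_smul_right, hpp, mul_one, ← pow_succ']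
    exact pow_ne_zero _ hc
  have hSp' : ∀ i, ∀ c : F, c ≠ 0 → c • p' i ∈ S := by
    intro i c hc
    refine ⟨⟨i, (D i).smul_mem c (hp' i)⟩, ?_⟩
    rw [herm_smul_left, herm2_smul_right, hp'p', mul_one, ← pow_succ']
    exact pow_ne_zero _ hc
  -- the first transvection
  have hu1 : hermForm n F 2 (p i0 + p i1) (p i0 + p i1) = 0 := by
    rw [herm_add_left, herm2_add_right, herm2_add_right, hpp, hpp,
      horth i0 i1 h01 _ (hp i0) _ (hp i1), horth i1 i0 h10 _ (hp i1) _ (hp i0)]
    linear_combination h2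
  have hg1S : ∀ v ∈ S, ((tv (p i0 + p i1) hu1 : Matrix.GeneralLinearGroup (Fin n) F) :
      Matrix _ _ F) *ᵥ v ∈ S := by
    intro v hv
    obtain ⟨i, c, hc, hvc | hvc⟩ := hS v hv
    · subst hvc
      rw [tv_mulVec, herm_smul_left, herm2_add_right]
      by_cases hi0 : i = i0
      · rw [hi0, hpp, horth i0 i1 h01 _ (hp i0) _ (hp i1)]
        have h5 : c • p i0 + (c * (1 + 0)) • (p i0 + p i1) = c • p i1 := by
          rw [add_zero, mul_one, smul_add, ← add_assoc, vec_add_self, zero_add]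
        rw [h5]
        exact hSp i1 c hc
      · by_cases hi1 : i = i1
        · rw [hi1, hpp, horth i1 i0 h10 _ (hp i1) _ (hp i0)]
          have h5 : c • p i1 + (c * (0 + 1)) • (p i0 + p i1) = c • p i0 := by
            rw [zero_add, mul_one, smul_add, add_comm (c • p i0), ← add_assoc, vec_add_self,
              zero_add]
          rw [h5]
          exact hSp i0 c hc
        · rw [horth i i0 hi0 _ (hp i) _ (hp i0), horth i i1 hi1 _ (hp i) _ (hp i1)]
          simp only [add_zero, mul_zero, zero_smul]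
          exact hSp i c hc
    · subst hvc
      rw [tv_mulVec, herm_smul_left, herm2_add_right]
      have h5 : hermForm n F 2 (p' i) (p i0) = 0 := by
        by_cases hi0 : i = i0
        · rw [hi0]; exact hp'p i0
        · exact horth i i0 hi0 _ (hp' i) _ (hp i0)
      have h6 : hermForm n F 2 (p' i) (p i1) = 0 := by
        by_cases hi1 : i = i1
        · rw [hi1]; exact hp'p i1
        · exact horth i i1 hi1 _ (hp' i) _ (hp i1)
      rw [h5, h6]
      simp only [add_zero, mul_zero, zero_smul]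
      exact hSp' i c hc
  -- the second transvection
  have c1 := horth i0 i1 h01 _ (hp i0) _ (hp i1)
  have c2 := horth i0 i1 h01 _ (hp i0) _ (hp' i1)
  have c3 := horth i0 i1 h01 _ (hp' i0) _ (hp i1)
  have c4 := horth i0 i1 h01 _ (hp' i0) _ (hp' i1)
  have c5 := horth i1 i0 h10 _ (hp i1) _ (hp i0)
  have c6 := horth i1 i0 h10 _ (hp i1) _ (hp' i0)
  have c7 := horth i1 i0 h10 _ (hp' i1) _ (hp i0)
  have c8 := horth i1 i0 h10 _ (hp' i1) _ (hp' i0)
  have hu2 : hermForm n F 2 (p i0 + p' i0 + (p i1 + p' i1)) (p i0 + p' i0 + (p i1 + p' i1)) = 0 := by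
    simp only [herm_add_left, herm2_add_right, hpp, hp'p', hpp', hp'p, c1, c2, c3, c4, c5, c6, c7, c8]
    linear_combination 2 * h2
  refine ⟨Cfsg.stabilizing (Cfsg.glToMat (Fin n) F) S ⊓
    (Cfsg.GU n F 2 ⊓ Cfsg.Geo.specialLinear (Fin n) F), ?_, ?_⟩
  · rw [SetLike.lt_iff_le_and_exists]
    refine ⟨?_, ?_⟩
    · intro g hg
      obtain ⟨⟨σ, hσ⟩, hGS⟩ := Subgroup.mem_inf.mp hg
      have hGU := (mem_GU_iff 2 g).mp (Subgroup.mem_inf.mp hGS).1
      refine Subgroup.mem_inf.mpr ⟨(mem_stabilizing_iff S g).mpr ?_, hGS⟩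
      intro v
      constructor
      · rintro ⟨⟨i, hvi⟩, hv⟩
        refine ⟨⟨σ i, ?_⟩, ?_⟩
        · rw [← hσ i, ← Matrix.toLin'_apply]
          exact Submodule.mem_map_of_mem hvi
        · rw [hGU]; exact hv
      · rintro ⟨⟨j, hvj⟩, hv⟩
        rw [hGU] at hv
        refine ⟨⟨σ.symm j, ?_⟩, hv⟩
        rw [← σ.apply_symm_apply j, ← hσ] at hvj
        obtain ⟨y, hy, hyv⟩ := hvj
        rw [Matrix.toLin'_apply] at hyv
        have := gl_mulVec_injective g hyv
        rw [← this]
        exact hy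
    · refine ⟨tv (p i0 + p i1) hu1, Subgroup.mem_inf.mpr ⟨(mem_stabilizing_iff S _).mpr ?_,
        Subgroup.mem_inf.mpr ⟨tv_mem_GU h4 _ hu1, tv_mem_SL _ hu1⟩⟩, ?_⟩
      · intro v
        refine ⟨hg1S v, fun hv => ?_⟩
        have h5 := hg1S _ hv
        rw [Matrix.mulVec_mulVec, ← Units.val_mul, tv_mul_self, Units.val_one,
          Matrix.one_mulVec] at h5
        exact h5
      · intro hmem
        obtain ⟨⟨τ, hτ⟩, -⟩ := Subgroup.mem_inf.mp hmem
        have h5 : ((tv (p i0 + p i1) hu1 : Matrix.GeneralLinearGroup (Fin n) F) :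
            Matrix _ _ F) *ᵥ (p i0) ∈ D (τ i0) := by
          rw [← hτ i0, ← Matrix.toLin'_apply]
          exact Submodule.mem_map_of_mem (hp i0)
        have h6 : ((tv (p i0 + p i1) hu1 : Matrix.GeneralLinearGroup (Fin n) F) :
            Matrix _ _ F) *ᵥ (p' i0) ∈ D (τ i0) := by
          rw [← hτ i0, ← Matrix.toLin'_apply]
          exact Submodule.mem_map_of_mem (hp' i0)
        rw [tv_mulVec, herm2_add_right, hpp, horth i0 i1 h01 _ (hp i0) _ (hp i1), add_zero,
          one_smul, ← add_assoc, vec_add_self, zero_add] at h5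
        rw [tv_mulVec, herm2_add_right, hp'p, horth i0 i1 h01 _ (hp' i0) _ (hp i1), add_zero,
          zero_smul, add_zero] at h6
        have h7 := uniq _ _ _ h5 (hp i1) (by rw [hpp]; exact one_ne_zero)
        have h8 := uniq _ _ _ h6 (hp' i0) (by rw [hp'p']; exact one_ne_zero)
        exact h01 (h8.symm.trans h7)
  · rw [SetLike.lt_iff_le_and_exists]
    refine ⟨inf_le_right, tv _ hu2, Subgroup.mem_inf.mpr ⟨tv_mem_GU h4 _ hu2, tv_mem_SL _ hu2⟩, ?_⟩
    intro hmem
    have hstab := (mem_stabilizing_iff S _).mp (Subgroup.mem_inf.mp hmem).1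
    have h5 := (hstab (p i0)).mp (by simpa using hSp i0 1 one_ne_zero)
    obtain ⟨⟨j, hj⟩, -⟩ := h5
    rw [tv_mulVec] at hj
    have h6 : hermForm n F 2 (p i0) (p i0 + p' i0 + (p i1 + p' i1)) = 1 := by
      simp only [herm2_add_right, hpp, hpp', c1, c2, add_zero]
    rw [h6, one_smul] at hj
    -- pair with p' i0 and with p i1
    have h7 : hermForm n F 2 (p i0 + (p i0 + p' i0 + (p i1 + p' i1))) (p' i0) = 1 := by
      simp only [herm_add_left, hpp', hp'p', c6, c8, add_zero, zero_add]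
    have h8 : hermForm n F 2 (p i0 + (p i0 + p' i0 + (p i1 + p' i1))) (p i1) = 1 := by
      simp only [herm_add_left, hpp, hp'p, c1, c3, add_zero, zero_add]
    have h9 : j = i0 := by
      by_contra hne
      rw [horth j i0 hne _ hj _ (hp' i0)] at h7
      exact zero_ne_one h7
    have h10' : j = i1 := by
      by_contra hne
      rw [horth j i1 hne _ hj _ (hp i1)] at h8
      exact zero_ne_one h8
    exact h01 (h9.symm.trans h10')

end Cfsg.Agent.S5656
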