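import Cfsg.Statements.S2380
import Cfsg.Agent.Lib.Helper40.CycloVal
import Cfsg.Agent.Lib.Helper40.TorusEmbed
import Mathlib

set_option autoImplicit false
open scoped MatrixGroups
open Cfsg

namespace Cfsg.Agent.S2380
open Cfsg.Agent.Lib.Helper40

theorem exists_torus {F : Type*} [Field F] [Fintype F] (d : ℕ) (hd : 0 < d) (m : ℕ)
    (hm : m ∣ Fintype.card F ^ d - 1) (a n : ℕ) (han : a * d ≤ n) :
    ∃ ψ : (Fin a → Multiplicative (ZMod m)) →* GL (Fin n) F, Function.Injective ψ := by
  obtain ⟨p, hp⟩ := CharP.exists F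
  haveI : Fact p.Prime := ⟨CharP.char_is_prime F p⟩
  haveI : NeZero d := ⟨hd.ne'⟩
  have hcardK : Nat.card (FiniteField.Extension F p d)ˣ = Fintype.card F ^ d - 1 := by
    rw [Nat.card_units, FiniteField.natCard_extension, Nat.card_eq_fintype_card]
  obtain ⟨f, hf⟩ := TorusEmbed.exists_injective_zmod (C := (FiniteField.Extension F p d)ˣ) m
    (by rw [hcardK]; exact hm)
  obtain ⟨ψ, hψ⟩ := TorusEmbed.exists_injective_GL F (FiniteField.Extension F p d) a (n - a * d) n
    (by rw [FiniteField.finrank_extension]; omega)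
  refine ⟨ψ.comp (MonoidHom.pi fun i => f.comp (Pi.evalMonoidHom _ i)), hψ.comp ?_⟩
  intro x y h
  funext i
  exact hf (congrFun h i)

/-- Sylow subgroups of `GL_n(q)` for large primes. Let `F` be a field with `q` elements and `r` a prime with `r > n` and `r ∤ q`. Let `d` be the multiplicative order of `q` modulo `r` and `m` the `r`-part of the value at `q` of the `d`-th cyclotomic polynomial. Then every Sylow `r`-subgroup of `GL_n(q)` is a direct product of `⌊n/d⌋` cyclic groups of order `m` (the degrees of the Weyl group being `1, …, n`). -/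
theorem result {F : Type*} [Field F] [Fintype F] {q : ℕ} (hq : Fintype.card F = q) (n : ℕ)
    (r : ℕ) [Fact r.Prime] (hrn : n < r) (hrq : ¬ r ∣ q) (P : Sylow r (GL (Fin n) F)) :
    Nonempty (↥(P : Subgroup (GL (Fin n) F)) ≃*
      (Fin (n / orderOf (q : ZMod r)) →
        Multiplicative (ZMod (r ^ padicValNat r ((Polynomial.cyclotomic (orderOf (q : ZMod r)) ℤ).eval (q : ℤ)).natAbs)))) := by
  subst hq
  classical
  have hq2 : 2 ≤ Fintype.card F := Fintype.one_lt_card
  have hdpos := CycloVal.order_pos (Fintype.card F) r hrq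
  have hval := CycloVal.padicValNat_card_GL (Fintype.card F) r hq2 hrq n hrn
  have hmdvd := CycloVal.padicValNat_pow_order_sub_one (Fintype.card F) r hq2 hrq
  obtain ⟨d, hd⟩ : ∃ d, d = orderOf ((Fintype.card F : ℕ) : ZMod r) := ⟨_, rfl⟩
  rw [← hd] at hdpos hval hmdvd ⊢
  obtain ⟨v, hv⟩ : ∃ v, v = padicValNat r
      ((Polynomial.cyclotomic d ℤ).eval ((Fintype.card F : ℕ) : ℤ)).natAbs := ⟨_, rfl⟩
  rw [← hv] at hval hmdvd ⊢
  have hmdvd' : r ^ v ∣ Fintype.card F ^ d - 1 := by
    rw [← hmdvd]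
    exact pow_padicValNat_dvd
  obtain ⟨ψ, hψ⟩ := exists_torus (F := F) d hdpos (r ^ v) hmdvd' (n / d) n (Nat.div_mul_le_self n d)
  have hcz : Nat.card (Multiplicative (ZMod (r ^ v))) = r ^ v :=
    (Nat.card_congr Multiplicative.toAdd).trans (Nat.card_zmod _)
  have hcard : Nat.card ψ.range = r ^ (Nat.card (GL (Fin n) F)).factorization r := by
    rw [← Nat.card_congr (MonoidHom.ofInjective hψ).toEquiv, Nat.card_fun, Nat.card_fin, hcz,
      Matrix.card_GL_field, Nat.factorization_def _ Fact.out, hval, ← pow_mul, mul_comm]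
  obtain ⟨g, hg⟩ := MulAction.exists_smul_eq (GL (Fin n) F) (Sylow.ofCard ψ.range hcard) P
  subst hg
  exact ⟨((Sylow.equivSMul (Sylow.ofCard ψ.range hcard) g).symm).trans
    (MonoidHom.ofInjective hψ).symm⟩

end Cfsg.Agent.S2380
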