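import Cfsg.Statements.S2379
import Cfsg.Agent.Lib.Helper40.CycloVal
import Cfsg.Agent.Lib.Helper40.TorusEmbed
import Cfsg.Agent.Lib.Helper38.SLCard
import Cfsg.Agent.S2380
import Mathlib

set_option autoImplicit false
open Cfsg

namespace Cfsg.Agent.S2379
open Cfsg.Agent.Lib.Helper40

theorem sylow_iso {G : Type*} [Group G] [Finite G] (r : ℕ) [Fact r.Prime] {A : Type*} [Group A]
    (ψ : A →* G) (hψ : Function.Injective ψ)
    (hcard : Nat.card A = r ^ (Nat.card G).factorization r) (P : Sylow r G) :
    Nonempty (↥(P : Subgroup G) ≃* A) := by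
  have hc : Nat.card ψ.range = r ^ (Nat.card G).factorization r := by
    rw [← Nat.card_congr (MonoidHom.ofInjective hψ).toEquiv, hcard]
  obtain ⟨g, hg⟩ := MulAction.exists_smul_eq G (Sylow.ofCard ψ.range hc) P
  subst hg
  exact ⟨((Sylow.equivSMul (Sylow.ofCard ψ.range hc) g).symm).trans
    (MonoidHom.ofInjective hψ).symm⟩

section
variable {F : Type*} [Field F]

/-- The diagonal vector `(x₁, …, x_k, (x₁ ⋯ x_k)⁻¹)`. -/
def dvec (k : ℕ) (x : Fin k → Fˣ) : Fin (k + 1) → F :=
  Fin.snoc (fun i => ((x i : Fˣ) : F)) (((∏ i, x i)⁻¹ : Fˣ) : F)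

theorem dvec_prod (k : ℕ) (x : Fin k → Fˣ) : ∏ i, dvec k x i = 1 := by
  rw [Fin.prod_univ_castSucc]
  unfold dvec
  simp only [Fin.snoc_castSucc, Fin.snoc_last]
  rw [← Units.coe_prod, ← Units.val_mul, mul_inv_cancel, Units.val_one]

theorem dvec_one (k : ℕ) : dvec (F := F) k 1 = 1 := by
  funext i
  unfold dvec
  refine Fin.lastCases ?_ (fun j => ?_) i
  · simp
  · simp

theorem dvec_mul (k : ℕ) (x y : Fin k → Fˣ) : dvec k (x * y) = dvec k x * dvec k y := by
  funext i
  unfold dvec
  refine Fin.lastCases ?_ (fun j => ?_) i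
  · simp [Finset.prod_mul_distrib, mul_comm]
  · simp

/-- The diagonal torus of `SL_{k+1}`. -/
def diagSL (k : ℕ) : (Fin k → Fˣ) →* Matrix.SpecialLinearGroup (Fin (k + 1)) F where
  toFun x := ⟨Matrix.diagonal (dvec k x), by rw [Matrix.det_diagonal, dvec_prod]⟩
  map_one' := by
    apply Subtype.ext
    show Matrix.diagonal (dvec k 1) = 1
    rw [dvec_one]
    exact Matrix.diagonal_one
  map_mul' x y := by
    apply Subtype.ext
    show Matrix.diagonal (dvec k (x * y)) = Matrix.diagonal (dvec k x) * Matrix.diagonal (dvec k y)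
    rw [dvec_mul, Matrix.diagonal_mul_diagonal]
    rfl

theorem diagSL_injective (k : ℕ) : Function.Injective (diagSL (F := F) k) := by
  intro x y h
  have h1 : Matrix.diagonal (dvec k x) = Matrix.diagonal (dvec k y) := congrArg Subtype.val h
  have h2 := Matrix.diagonal_injective h1
  funext i
  apply Units.ext
  have h3 := congrFun h2 i.castSucc
  unfold dvec at h3
  simpa using h3

/-- Lift a homomorphism to `GL` with determinant one to `SL`. -/
def toSL {n : ℕ} {A : Type*} [Group A] (ψ : A →* GL (Fin n) F)
    (h : ∀ x, ((ψ x : GL (Fin n) F) : Matrix (Fin n) (Fin n) F).det = 1) :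
    A →* Matrix.SpecialLinearGroup (Fin n) F where
  toFun x := ⟨(ψ x : Matrix (Fin n) (Fin n) F), h x⟩
  map_one' := by
    apply Subtype.ext
    show ((ψ 1 : GL (Fin n) F) : Matrix (Fin n) (Fin n) F) = 1
    rw [map_one]
    rfl
  map_mul' x y := by
    apply Subtype.ext
    show ((ψ (x * y) : GL (Fin n) F) : Matrix (Fin n) (Fin n) F) =
      ((ψ x : GL (Fin n) F) : Matrix (Fin n) (Fin n) F) * ((ψ y : GL (Fin n) F) : Matrix (Fin n) (Fin n) F)
    rw [map_mul]
    rfl

theorem toSL_injective {n : ℕ} {A : Type*} [Group A] (ψ : A →* GL (Fin n) F)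
    (h : ∀ x, ((ψ x : GL (Fin n) F) : Matrix (Fin n) (Fin n) F).det = 1)
    (hψ : Function.Injective ψ) : Function.Injective (toSL ψ h) := by
  intro x y hxy
  apply hψ
  apply Units.ext
  exact congrArg Subtype.val hxy

end

/-- Sylow subgroups of `SL_n(q)` for large primes. Let `F` be a field with `q` elements and `r` a prime with `r > n` and `r ∤ q` (so `r` does not divide the order `n!` of the Weyl group). Let `d` be the multiplicative order of `q` modulo `r`, `a` the number of integers `i` with `2 ≤ i ≤ n` divisible by `d` (the degrees of the Weyl group are `2, …, n`), and `m` the `r`-part of the value at `q` of the `d`-th cyclotomic polynomial. Then every Sylow `r`-subgroup of `SL_n(q)` is a direct product of `a` cyclic groups of order `m`. -/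
theorem result {F : Type*} [Field F] [Fintype F] {q : ℕ} (hq : Fintype.card F = q) (n : ℕ)
    (r : ℕ) [Fact r.Prime] (hrn : n < r) (hrq : ¬ r ∣ q) (P : Sylow r (Matrix.SpecialLinearGroup (Fin n) F)) :
    Nonempty (↥(P : Subgroup (Matrix.SpecialLinearGroup (Fin n) F)) ≃*
      (Fin ((Finset.Icc 2 n).filter (fun i => orderOf (q : ZMod r) ∣ i)).card →
        Multiplicative (ZMod (r ^ padicValNat r ((Polynomial.cyclotomic (orderOf (q : ZMod r)) ℤ).eval (q : ℤ)).natAbs)))) := by
  subst hq
  classical
  have hq2 : 2 ≤ Fintype.card F := Fintype.one_lt_card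
  have hdpos := CycloVal.order_pos (Fintype.card F) r hrq
  have hval := CycloVal.padicValNat_card_GL (Fintype.card F) r hq2 hrq n hrn
  have hmdvd := CycloVal.padicValNat_pow_order_sub_one (Fintype.card F) r hq2 hrq
  have hd1 := CycloVal.dvd_pow_sub_one_iff (Fintype.card F) r (by omega) 1
  obtain ⟨d, hd⟩ : ∃ d, d = orderOf ((Fintype.card F : ℕ) : ZMod r) := ⟨_, rfl⟩
  rw [← hd] at hdpos hval hmdvd hd1 ⊢
  obtain ⟨v, hv⟩ : ∃ v, v = padicValNat r
      ((Polynomial.cyclotomic d ℤ).eval ((Fintype.card F : ℕ) : ℤ)).natAbs := ⟨_, rfl⟩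
  rw [← hv] at hval hmdvd ⊢
  obtain ⟨a, ha⟩ : ∃ a, a = ((Finset.Icc 2 n).filter (fun i => d ∣ i)).card := ⟨_, rfl⟩
  rw [← ha]
  have hcz : Nat.card (Multiplicative (ZMod (r ^ v))) = r ^ v :=
    (Nat.card_congr Multiplicative.toAdd).trans (Nat.card_zmod _)
  have hcardA : Nat.card (Fin a → Multiplicative (ZMod (r ^ v))) = r ^ (a * v) := by
    rw [Nat.card_fun, Nat.card_fin, hcz, ← pow_mul, mul_comm]
  rcases Nat.eq_zero_or_pos n with hn0 | hnpos
  · subst hn0
    have ha0 : a = 0 := by rw [ha]; simp
    subst ha0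
    haveI : Subsingleton (Matrix.SpecialLinearGroup (Fin 0) F) :=
      ⟨fun x y => Subtype.ext (Subsingleton.elim _ _)⟩
    haveI : Unique ↥(P : Subgroup (Matrix.SpecialLinearGroup (Fin 0) F)) :=
      { default := 1
        uniq := fun x => Subtype.ext (Subsingleton.elim _ _) }
    exact ⟨MulEquiv.ofUnique⟩
  · have hSL := Cfsg.Agent.Lib.Helper38.SLCard.card_SL_mul (F := F) n hnpos
    have hfac : (Nat.card (Matrix.SpecialLinearGroup (Fin n) F)).factorization r +
        padicValNat r (Fintype.card F - 1) = (n / d) * v := by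
      rw [← hval, ← Matrix.card_GL_field, ← hSL, Nat.factorization_def _ Fact.out,
        padicValNat.mul (Nat.card_pos.ne') (by omega)]
    by_cases hd1' : d = 1
    · subst hd1'
      have hv1 : padicValNat r (Fintype.card F - 1) = v := by simpa using hmdvd
      obtain ⟨k, rfl⟩ : ∃ k, n = k + 1 := ⟨n - 1, by omega⟩
      have ha1 : a = k := by rw [ha]; simp
      subst ha1
      have hfac' : (Nat.card (Matrix.SpecialLinearGroup (Fin (a + 1)) F)).factorization r = a * v := by
        rw [hv1, Nat.div_one, add_mul, one_mul] at hfac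
        omega
      have hmdvd' : r ^ v ∣ Nat.card Fˣ := by
        rw [Nat.card_units, Nat.card_eq_fintype_card, ← hv1]
        exact pow_padicValNat_dvd
      obtain ⟨f, hf⟩ := TorusEmbed.exists_injective_zmod (C := Fˣ) (r ^ v) hmdvd'
      refine sylow_iso r ((diagSL a).comp (MonoidHom.pi fun i => f.comp (Pi.evalMonoidHom _ i)))
        ((diagSL_injective a).comp ?_) (by rw [hcardA, hfac']) P
      intro x y h
      funext i
      exact hf (congrFun h i)
    · have hnd : ¬ r ∣ Fintype.card F - 1 := by
        intro h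
        have h1 := hd1.mp (by simpa using h)
        exact hd1' (Nat.dvd_one.mp h1)
      have hfac' : (Nat.card (Matrix.SpecialLinearGroup (Fin n) F)).factorization r = (n / d) * v := by
        rw [padicValNat.eq_zero_of_not_dvd hnd, add_zero] at hfac
        exact hfac
      have haeq : a = n / d := by
        rw [ha, ← Nat.card_multiples n d]
        symm
        apply Finset.card_bij (fun e _ => e + 1)
        · intro e he
          simp only [Finset.mem_filter, Finset.mem_range] at he
          simp only [Finset.mem_filter, Finset.mem_Icc]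
          refine ⟨⟨?_, by omega⟩, he.2⟩
          by_contra h
          have h0 : e = 0 := by omega
          subst h0
          exact hd1' (Nat.dvd_one.mp (by simpa using he.2))
        · intro e _ e' _ h
          omega
        · intro i hi
          simp only [Finset.mem_filter, Finset.mem_Icc] at hi
          refine ⟨i - 1, ?_, by omega⟩
          simp only [Finset.mem_filter, Finset.mem_range]
          refine ⟨by omega, ?_⟩
          rw [Nat.sub_add_cancel (by omega)]
          exact hi.2
      subst haeq
      have hmdvd' : r ^ v ∣ Fintype.card F ^ d - 1 := by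
        rw [← hmdvd]
        exact pow_padicValNat_dvd
      obtain ⟨ψ, hψ⟩ := Cfsg.Agent.S2380.exists_torus (F := F) d hdpos (r ^ v) hmdvd' (n / d) n
        (Nat.div_mul_le_self n d)
      have hdet : ∀ x, ((ψ x : GL (Fin n) F) : Matrix (Fin n) (Fin n) F).det = 1 := by
        intro x
        have hx : x ^ (r ^ v) = 1 := by
          funext i
          show (x i) ^ (r ^ v) = 1
          apply Multiplicative.toAdd.injective
          simp
        have h1 : (Matrix.GeneralLinearGroup.det (ψ x)) ^ (r ^ v) = 1 := by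
          rw [← map_pow, ← map_pow, hx, map_one, map_one]
        have h2 : (Matrix.GeneralLinearGroup.det (ψ x)) ^ (Fintype.card F - 1) = 1 := by
          rw [← Fintype.card_units]
          exact pow_card_eq_one
        have h3 := pow_gcd_eq_one.mpr ⟨h1, h2⟩
        have hcop : Nat.gcd (r ^ v) (Fintype.card F - 1) = 1 :=
          Nat.Coprime.pow_left v ((Nat.Prime.coprime_iff_not_dvd Fact.out).mpr hnd)
        rw [hcop, pow_one] at h3
        have h4 := congrArg Units.val h3
        simpa using h4
      exact sylow_iso r (toSL ψ hdet) (toSL_injective ψ hdet hψ) (by rw [hcardA, hfac']) P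

end Cfsg.Agent.S2379
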