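import Cfsg.Statements.S2393
import Mathlib
import Cfsg.Agent.Lib.Helper40.CharIdem

set_option autoImplicit false
open scoped MatrixGroups
open Cfsg

namespace Cfsg.Agent.S2393

open Matrix

section blocks
variable {l : Type*} [DecidableEq l] [Fintype l] {R : Type*} [CommRing R]

/-- Upper unitriangular block matrix. -/
def U (S : Matrix l l R) : Matrix (l ⊕ l) (l ⊕ l) R := Matrix.fromBlocks 1 S 0 1

/-- Block diagonal matrix. -/
def D (g h : Matrix l l R) : Matrix (l ⊕ l) (l ⊕ l) R := Matrix.fromBlocks g 0 0 hᵀ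

theorem U_mem (S : Matrix l l R) (hS : Sᵀ = S) : U S ∈ Matrix.symplecticGroup l R := by
  rw [SymplecticGroup.mem_iff]
  unfold U
  rw [Matrix.J, Matrix.fromBlocks_transpose, Matrix.fromBlocks_multiply,
    Matrix.fromBlocks_multiply]
  simp [hS]

theorem D_mem (g h : Matrix l l R) (hgh : g * h = 1) : D g h ∈ Matrix.symplecticGroup l R := by
  rw [SymplecticGroup.mem_iff]
  unfold D
  rw [Matrix.J, Matrix.fromBlocks_transpose, Matrix.fromBlocks_multiply,
    Matrix.fromBlocks_multiply]
  have h1 : hᵀ * gᵀ = 1 := by rw [← Matrix.transpose_mul, hgh, Matrix.transpose_one]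
  simp [hgh, h1]

theorem U_add (S S' : Matrix l l R) : U (S + S') = U S * U S' := by
  unfold U
  rw [Matrix.fromBlocks_multiply]
  simp [add_comm]

omit [Fintype l] in
theorem U_zero : U (0 : Matrix l l R) = 1 := by
  unfold U
  exact Matrix.fromBlocks_one

theorem D_mul_U (g h : Matrix l l R) (hgh : g * h = 1) (S : Matrix l l R) :
    D g h * U S = U (g * S * gᵀ) * D g h := by
  unfold D U
  rw [Matrix.fromBlocks_multiply, Matrix.fromBlocks_multiply]
  have h1 : gᵀ * hᵀ = 1 := by
    rw [← Matrix.transpose_mul, mul_eq_one_comm.mp hgh, Matrix.transpose_one]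
  simp [Matrix.mul_assoc, h1]

theorem U_comm_J (S : Matrix l l R) (h : Matrix.J l R * U S = U S * Matrix.J l R) : S = 0 := by
  unfold U at h
  rw [Matrix.J, Matrix.fromBlocks_multiply, Matrix.fromBlocks_multiply] at h
  have h2 := (Matrix.fromBlocks_inj.mp h).1
  simpa using h2.symm

end blocks

section spec
variable {F : Type*} [Field F] {m : ℕ}

/-- The symmetric matrix `e₀ vᵀ + v e₀ᵀ`. -/
def Smat (v : Fin (m + 1) → F) : Matrix (Fin (m + 1)) (Fin (m + 1)) F :=
  Matrix.vecMulVec (Pi.single 0 1) v + Matrix.vecMulVec v (Pi.single 0 1)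

theorem Smat_transpose (v : Fin (m + 1) → F) : (Smat v)ᵀ = Smat v := by
  unfold Smat
  rw [Matrix.transpose_add, Matrix.transpose_vecMulVec, Matrix.transpose_vecMulVec]
  exact add_comm _ _

theorem Smat_add (v w : Fin (m + 1) → F) : Smat (v + w) = Smat v + Smat w := by
  unfold Smat
  rw [Matrix.vecMulVec_add, Matrix.add_vecMulVec]
  abel

theorem Smat_zero : Smat (0 : Fin (m + 1) → F) = 0 := by
  unfold Smat
  ext i j
  simp

theorem Smat_conj (g : Matrix (Fin (m + 1)) (Fin (m + 1)) F) (s : F)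
    (hg : g *ᵥ Pi.single 0 1 = s • Pi.single 0 1) (v : Fin (m + 1) → F) :
    g * Smat v * gᵀ = Smat (s • g *ᵥ v) := by
  unfold Smat
  rw [Matrix.mul_add, Matrix.add_mul, Matrix.mul_vecMulVec, Matrix.mul_vecMulVec,
    Matrix.vecMulVec_mul, Matrix.vecMulVec_mul, Matrix.vecMul_transpose, Matrix.vecMul_transpose,
    hg]
  ext i j
  simp only [Matrix.add_apply, Matrix.vecMulVec_apply, Pi.smul_apply, smul_eq_mul]
  ring

/-- The abelian subgroup of the Siegel unipotent radical attached to the first basis vector. -/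
def uSp (v : Fin (m + 1) → F) : Matrix.symplecticGroup (Fin (m + 1)) F :=
  ⟨U (Smat v), U_mem _ (Smat_transpose v)⟩

theorem uSp_add (v w : Fin (m + 1) → F) : uSp (v + w) = uSp v * uSp w := by
  apply Subtype.ext
  show U (Smat (v + w)) = U (Smat v) * U (Smat w)
  rw [Smat_add, U_add]

theorem uSp_zero : uSp (0 : Fin (m + 1) → F) = 1 := by
  apply Subtype.ext
  show U (Smat (0 : Fin (m + 1) → F)) = 1
  rw [Smat_zero, U_zero]

/-- Block diagonal elements of the symplectic group. -/
def dSp (g h : Matrix (Fin (m + 1)) (Fin (m + 1)) F) (hgh : g * h = 1) :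
    Matrix.symplecticGroup (Fin (m + 1)) F :=
  ⟨D g h, D_mem g h hgh⟩

theorem dSp_mul_uSp (g h : Matrix (Fin (m + 1)) (Fin (m + 1)) F) (hgh : g * h = 1) (s : F)
    (hg : g *ᵥ Pi.single 0 1 = s • Pi.single 0 1) (v : Fin (m + 1) → F) :
    dSp g h hgh * uSp v = uSp (s • g *ᵥ v) * dSp g h hgh := by
  apply Subtype.ext
  show D g h * U (Smat v) = U (Smat (s • g *ᵥ v)) * D g h
  rw [D_mul_U g h hgh, Smat_conj g s hg]

theorem uSp_not_mem_center (h2 : (2 : F) ≠ 0) :
    uSp (Pi.single (0 : Fin (m + 1)) (1 : F)) ∉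
      Subgroup.center (Matrix.symplecticGroup (Fin (m + 1)) F) := by
  intro h
  have h1 := Subgroup.mem_center_iff.mp h (SymplecticGroup.symJ (Fin (m + 1)) F)
  have h3 : Matrix.J (Fin (m + 1)) F * U (Smat (Pi.single (0 : Fin (m + 1)) (1 : F))) =
      U (Smat (Pi.single (0 : Fin (m + 1)) (1 : F))) * Matrix.J (Fin (m + 1)) F :=
    congrArg Subtype.val h1
  have h4 := U_comm_J _ h3
  have h5 := congrFun (congrFun h4 0) 0
  unfold Smat at h5
  simp only [Matrix.add_apply, Matrix.vecMulVec_apply, Pi.single_eq_same, mul_one,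
    Matrix.zero_apply] at h5
  apply h2
  rw [← h5]
  norm_num

theorem gt_mul (j : Fin m) (t : F) :
    Matrix.transvection (0 : Fin (m + 1)) j.succ (-t) * Matrix.transvection 0 j.succ t = 1 := by
  rw [Matrix.transvection_mul_transvection_same _ _ (Ne.symm (Fin.succ_ne_zero j)), neg_add_cancel,
    Matrix.transvection_zero]

theorem gt_mulVec (j : Fin m) (t : F) (v : Fin (m + 1) → F) :
    Matrix.transvection (0 : Fin (m + 1)) j.succ t *ᵥ v = v + Pi.single 0 (t * v j.succ) := by
  unfold Matrix.transvection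
  rw [Matrix.add_mulVec, Matrix.one_mulVec, Matrix.single_mulVec]
  rfl

theorem gd_mul (s : F) (hs : s ≠ 0) :
    Matrix.diagonal (Function.update (1 : Fin (m + 1) → F) 0 s) *
      Matrix.diagonal (Function.update (1 : Fin (m + 1) → F) 0 s⁻¹) = 1 := by
  rw [Matrix.diagonal_mul_diagonal, ← Matrix.diagonal_one]
  congr 1
  funext i
  by_cases hi : i = 0
  · subst hi
    rw [Function.update_self, Function.update_self, mul_inv_cancel₀ hs]
  · rw [Function.update_of_ne hi, Function.update_of_ne hi, Pi.one_apply, mul_one]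

end spec

open Cfsg.Agent.Lib.Helper40.CharIdem in
/-- Conjugation permutes the isotypic idempotents. -/
theorem E_conj {R : Type*} [CommRing R] [Fintype R] {L : Type*} [Field L] {m d : ℕ} (ψ : R → L)
    (T : (Fin m → R) → Matrix (Fin d) (Fin d) L) (P P' : Matrix (Fin d) (Fin d) L)
    (hPP : P' * P = 1) (φ : (Fin m → R) → (Fin m → R)) (hφ : Function.Bijective φ)
    (hPT : ∀ v, P * T v = T (φ v) * P) (k k' : Fin m → R) (hk : ∀ v, k ⬝ᵥ v = k' ⬝ᵥ φ v)
    (h : E ψ T k ≠ 0) : E ψ T k' ≠ 0 := by
  intro hzero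
  apply h
  have hPE : P * E ψ T k = E ψ T k' * P := by
    unfold E
    rw [Matrix.mul_smul, Matrix.smul_mul]
    congr 1
    rw [Matrix.mul_sum, Matrix.sum_mul]
    apply Fintype.sum_bijective _ hφ
    intro v
    rw [Matrix.mul_smul, Matrix.smul_mul, hPT v, hk v]
  rw [hzero, Matrix.zero_mul] at hPE
  calc E ψ T k = P' * P * E ψ T k := by rw [hPP, Matrix.one_mul]
    _ = 0 := by rw [Matrix.mul_assoc, hPE, Matrix.mul_zero]

section reach
variable {F : Type*} [Field F] {m : ℕ}

theorem reach_aux (S : (Fin (m + 1) → F) → Prop)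
    (hS : ∀ a, S a → ∀ k : Fin (m + 1), k ≠ 0 → ∀ t : F, S (a + Pi.single k (t * a 0)))
    (s : Finset (Fin (m + 1))) :
    (0 : Fin (m + 1)) ∉ s → ∀ a, S a → a 0 ≠ 0 → ∀ b : Fin (m + 1) → F,
      (∀ j, j ∉ s → b j = a j) → S b := by
  classical
  induction s using Finset.induction_on with
  | empty =>
    intro _ a ha _ b hb
    have h : b = a := funext fun j => hb j (Finset.notMem_empty j)
    rw [h]
    exact ha
  | insert k s hks ih =>
    intro hl a ha hal b hb
    have hkl : k ≠ 0 := fun h => hl (h ▸ Finset.mem_insert_self k s)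
    have hls : (0 : Fin (m + 1)) ∉ s := fun h => hl (Finset.mem_insert_of_mem h)
    have ha' := hS a ha k hkl ((b k - a k) / a 0)
    rw [div_mul_cancel₀ _ hal] at ha'
    apply ih hls _ ha' _ b
    · intro j hj
      by_cases hjk : j = k
      · subst hjk
        rw [Pi.add_apply, Pi.single_eq_same]
        ring
      · rw [Pi.add_apply, Pi.single_eq_of_ne hjk, add_zero]
        apply hb j
        intro h
        rcases Finset.mem_insert.mp h with h | h
        · exact hjk h
        · exact hj h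
    · rw [Pi.add_apply, Pi.single_eq_of_ne (Ne.symm hkl), add_zero]
      exact hal

theorem reach_same (S : (Fin (m + 1) → F) → Prop)
    (hS : ∀ a, S a → ∀ k : Fin (m + 1), k ≠ 0 → ∀ t : F, S (a + Pi.single k (t * a 0)))
    (a : Fin (m + 1) → F) (ha : S a) (hal : a 0 ≠ 0) (b : Fin (m + 1) → F) (hb : b 0 = a 0) :
    S b := by
  classical
  apply reach_aux S hS (Finset.univ.erase 0) (Finset.notMem_erase 0 _) a ha hal b
  intro j hj
  have h : j = 0 := by
    by_contra h
    exact hj (Finset.mem_erase.mpr ⟨h, Finset.mem_univ j⟩)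
  rw [h, hb]

end reach

open Cfsg.Agent.Lib.Helper40.CharIdem in
theorem main_aux {F : Type*} [Field F] [Fintype F] (h2 : (2 : F) ≠ 0) {m : ℕ}
    {K : Type*} [Field K] (hK : ringChar K ≠ ringChar F) {d : ℕ}
    (ρ : Matrix.symplecticGroup (Fin (m + 1)) F →* GL (Fin d) K)
    (hker : ρ.ker ≤ Subgroup.center (Matrix.symplecticGroup (Fin (m + 1)) F))
    {L : Type*} [Field L] [Algebra K L] (ψ : AddChar F L) (hψ : ψ.IsPrimitive) :
    Fintype.card F ^ m * (Fintype.card F - 1) ≤ 2 * d := by
  classical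
  obtain ⟨T, hT⟩ : ∃ T : (Fin (m + 1) → F) → Matrix (Fin d) (Fin d) L,
      T = fun v => (ρ (uSp v)).val.map (algebraMap K L) := ⟨_, rfl⟩
  have hinj : Function.Injective (algebraMap K L) := (algebraMap K L).injective
  have hTv : ∀ v : Fin (m + 1) → F, T v = (ρ (uSp v)).val.map (algebraMap K L) := by
    intro v
    rw [hT]
  have hψ0 : ψ 0 = 1 := AddChar.map_zero_eq_one ψ
  have hψadd : ∀ x y, ψ (x + y) = ψ x * ψ y := AddChar.map_add_eq_mul ψ
  have hψprim : ∀ r : F, r ≠ 0 → ∃ t : F, ψ (t * r) ≠ 1 := by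
    intro r hr
    obtain ⟨t, ht⟩ := AddChar.ne_one_iff.mp (hψ hr)
    refine ⟨t, ?_⟩
    rwa [AddChar.mulShift_apply, mul_comm] at ht
  have hcard : (Fintype.card (Fin (m + 1) → F) : L) ≠ 0 := by
    have hp : (ringChar F).Prime := CharP.char_is_prime F (ringChar F)
    have : Fact (ringChar F).Prime := ⟨hp⟩
    obtain ⟨e, -, he⟩ := FiniteField.card F (ringChar F)
    rw [Fintype.card_fun, Fintype.card_fin, he]
    push_cast
    apply pow_ne_zero
    apply pow_ne_zero
    intro h0
    have h1 : ((ringChar F : ℕ) : K) = 0 := by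
      apply hinj
      rw [map_natCast, h0, map_zero]
    have h2 := (ringChar.spec K (ringChar F)).mp h1
    rcases (Nat.dvd_prime hp).mp h2 with h3 | h3
    · exact CharP.ringChar_ne_one h3
    · exact hK h3
  have hT0 : T 0 = 1 := by
    rw [hTv, uSp_zero, map_one, Units.val_one, Matrix.map_one _ (map_zero _) (map_one _)]
  have hTadd : ∀ a b, T (a + b) = T a * T b := by
    intro a b
    rw [hTv, hTv, hTv, uSp_add, map_mul, Units.val_mul, Matrix.map_mul]
  -- conjugation by block diagonal elements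
  have hcl : ∀ (g h : Matrix (Fin (m + 1)) (Fin (m + 1)) F) (hgh : g * h = 1) (s : F)
      (_ : s ≠ 0) (_ : g *ᵥ Pi.single 0 1 = s • Pi.single 0 1) (k k' : Fin (m + 1) → F),
      (∀ v, k ⬝ᵥ v = k' ⬝ᵥ (s • g *ᵥ v)) → E ψ T k ≠ 0 → E ψ T k' ≠ 0 := by
    intro g h hgh s hs hg k k' hk hE
    obtain ⟨P, hP⟩ : ∃ P : Matrix (Fin d) (Fin d) L,
        P = (ρ (dSp g h hgh)).val.map (algebraMap K L) := ⟨_, rfl⟩
    obtain ⟨P', hP'⟩ : ∃ P' : Matrix (Fin d) (Fin d) L,
        P' = ((ρ (dSp g h hgh))⁻¹).val.map (algebraMap K L) := ⟨_, rfl⟩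
    have hPP : P' * P = 1 := by
      rw [hP, hP', ← Matrix.map_mul, ← Units.val_mul, inv_mul_cancel, Units.val_one,
        Matrix.map_one _ (map_zero _) (map_one _)]
    have hPT : ∀ v : Fin (m + 1) → F, P * T v = T (s • g *ᵥ v) * P := by
      intro v
      rw [hP, hTv, hTv]
      rw [← Matrix.map_mul, ← Matrix.map_mul, ← Units.val_mul, ← Units.val_mul, ← map_mul,
        ← map_mul, dSp_mul_uSp g h hgh s hg]
    have hφ : Function.Bijective (fun v : Fin (m + 1) → F => s • g *ᵥ v) := by
      apply Finite.injective_iff_bijective.mp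
      intro v w hvw
      have h1 : g *ᵥ v = g *ᵥ w := smul_right_injective _ hs hvw
      have h2 : h * g = 1 := mul_eq_one_comm.mp hgh
      calc v = (h * g) *ᵥ v := by rw [h2, Matrix.one_mulVec]
        _ = h *ᵥ (g *ᵥ v) := by rw [Matrix.mulVec_mulVec]
        _ = h *ᵥ (g *ᵥ w) := by rw [h1]
        _ = w := by rw [Matrix.mulVec_mulVec, h2, Matrix.one_mulVec]
    exact E_conj ψ T P P' hPP _ hφ hPT k k' hk hE
  -- closure under transvections
  have hS : ∀ a : Fin (m + 1) → F, E ψ T a ≠ 0 → ∀ k : Fin (m + 1), k ≠ 0 → ∀ t : F,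
      E ψ T (a + Pi.single k (t * a 0)) ≠ 0 := by
    intro a ha k hk t
    obtain ⟨j, rfl⟩ := Fin.exists_succ_eq.mpr hk
    apply hcl (Matrix.transvection 0 j.succ (-t)) (Matrix.transvection 0 j.succ t) (gt_mul j t) 1
      one_ne_zero ?_ a _ ?_ ha
    · rw [gt_mulVec, one_smul, Pi.single_eq_of_ne (Fin.succ_ne_zero j), mul_zero, Pi.single_zero,
        add_zero]
    · intro v
      rw [one_smul, gt_mulVec, add_dotProduct, dotProduct_add, dotProduct_add, dotProduct_single,
        single_dotProduct, single_dotProduct, Pi.single_eq_of_ne (Fin.succ_ne_zero j)]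
      ring
  -- closure under the torus
  have hS2 : ∀ a : Fin (m + 1) → F, E ψ T a ≠ 0 → ∀ s : F, s ≠ 0 →
      E ψ T (s⁻¹ • (Function.update (1 : Fin (m + 1) → F) 0 s⁻¹ * a)) ≠ 0 := by
    intro a ha s hs
    apply hcl (Matrix.diagonal (Function.update 1 0 s)) (Matrix.diagonal (Function.update 1 0 s⁻¹))
      (gd_mul s hs) s hs ?_ a _ ?_ ha
    · rw [Matrix.diagonal_mulVec_single, Function.update_self, mul_one]
      ext i
      by_cases hi : i = 0
      · subst hi
        simp
      · simp [Pi.single_eq_of_ne hi]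
    · intro v
      unfold dotProduct
      apply Finset.sum_congr rfl
      intro i _
      simp only [Pi.smul_apply, Pi.mul_apply, smul_eq_mul, Matrix.mulVec_diagonal]
      by_cases hi : i = 0
      · subst hi
        simp only [Function.update_self]
        field_simp
      · simp only [Function.update_of_ne hi, Pi.one_apply]
        field_simp
  -- some character nontrivial on the centre of the Heisenberg group occurs
  have hex : ∃ a : Fin (m + 1) → F, a 0 ≠ 0 ∧ E ψ T a ≠ 0 := by
    by_contra hcon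
    push Not at hcon
    have h1 := sum_smul_E ψ T hψ0 hψadd hψprim hcard (Pi.single (0 : Fin (m + 1)) (1 : F))
    have h2' := sum_E ψ T hψ0 hψadd hψprim hcard hT0
    have h3 : ∀ k : Fin (m + 1) → F,
        ψ (k ⬝ᵥ Pi.single (0 : Fin (m + 1)) (1 : F)) • E ψ T k = E ψ T k := by
      intro k
      by_cases hk : k 0 = 0
      · rw [dotProduct_single, hk, zero_mul, hψ0, one_smul]
      · rw [hcon k hk, smul_zero]
    rw [Finset.sum_congr rfl (fun k _ => h3 k), h2'] at h1
    have h4 : (ρ (uSp (Pi.single (0 : Fin (m + 1)) (1 : F)))).val.map (algebraMap K L) = 1 := by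
      rw [h1, hTv]
    have h5 : (ρ (uSp (Pi.single (0 : Fin (m + 1)) (1 : F)))).val = 1 := by
      apply Matrix.map_injective hinj
      show (ρ (uSp (Pi.single (0 : Fin (m + 1)) (1 : F)))).val.map (algebraMap K L) =
        (1 : Matrix (Fin d) (Fin d) K).map (algebraMap K L)
      rw [h4, Matrix.map_one _ (map_zero _) (map_one _)]
    have h6 : uSp (Pi.single (0 : Fin (m + 1)) (1 : F)) ∈ ρ.ker := by
      rw [MonoidHom.mem_ker]
      exact Units.ext h5
    exact uSp_not_mem_center h2 (hker h6)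
  obtain ⟨a, ha0, ha⟩ := hex
  have hall : ∀ u : F, u ≠ 0 → ∀ b : Fin (m + 1) → F, b 0 = u * (u * a 0) → E ψ T b ≠ 0 := by
    intro u hu b hb
    have h1 := hS2 a ha u⁻¹ (inv_ne_zero hu)
    rw [inv_inv] at h1
    apply reach_same (fun a => E ψ T a ≠ 0) hS _ h1 ?_ b ?_
    · simp only [Pi.smul_apply, Pi.mul_apply, Function.update_self, smul_eq_mul]
      exact mul_ne_zero hu (mul_ne_zero hu ha0)
    · simp only [Pi.smul_apply, Pi.mul_apply, Function.update_self, smul_eq_mul]
      exact hb
  -- counting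
  obtain ⟨Q, hQ⟩ : ∃ Q : Finset F,
      Q = (Finset.univ.filter (fun u : F => u ≠ 0)).image (fun u => u * (u * a 0)) := ⟨_, rfl⟩
  have hQcard : Fintype.card F - 1 ≤ 2 * Q.card := by
    have h1 := Finset.card_le_mul_card_image (Finset.univ.filter (fun u : F => u ≠ 0)) 2
      (f := fun u => u * (u * a 0)) ?_
    · have hcu : (Finset.univ.filter (fun u : F => u ≠ 0)).card = Fintype.card F - 1 := by
        rw [Finset.filter_ne', Finset.card_erase_of_mem (Finset.mem_univ _), Finset.card_univ]
      rw [hcu, ← hQ] at h1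
      exact h1
    · intro c hc
      obtain ⟨u, hu, rfl⟩ := Finset.mem_image.mp hc
      have hsub : (Finset.univ.filter (fun u : F => u ≠ 0)).filter
          (fun x => x * (x * a 0) = u * (u * a 0)) ⊆ {u, -u} := by
        intro x hx
        have hx2 := (Finset.mem_filter.mp hx).2
        have h3 : (x - u) * (x + u) = 0 := by
          have h4 : (x * x - u * u) * a 0 = 0 := by linear_combination hx2
          rcases mul_eq_zero.mp h4 with h | h
          · linear_combination h
          · exact absurd h ha0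
        rcases mul_eq_zero.mp h3 with h | h
        · rw [Finset.mem_insert]
          left
          exact sub_eq_zero.mp h
        · rw [Finset.mem_insert, Finset.mem_singleton]
          right
          linear_combination h
      exact le_trans (Finset.card_le_card hsub) Finset.card_le_two
  have hinjc : Function.Injective
      (fun p : F × (Fin m → F) => (Fin.cons p.1 p.2 : Fin (m + 1) → F)) := by
    intro p p' hpp
    have h1 := Fin.cons_inj.mp hpp
    exact Prod.ext h1.1 h1.2
  have hfin := card_support_le ψ T hψ0 hψadd hψprim hcard hTadd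
    ((Q ×ˢ (Finset.univ : Finset (Fin m → F))).image
      (fun p : F × (Fin m → F) => (Fin.cons p.1 p.2 : Fin (m + 1) → F))) ?_
  · rw [Finset.card_image_of_injective _ hinjc, Finset.card_product, Finset.card_univ,
      Fintype.card_fun, Fintype.card_fin] at hfin
    calc Fintype.card F ^ m * (Fintype.card F - 1)
        ≤ Fintype.card F ^ m * (2 * Q.card) := Nat.mul_le_mul_left _ hQcard
      _ = 2 * (Q.card * Fintype.card F ^ m) := by ring
      _ ≤ 2 * d := Nat.mul_le_mul_left _ hfin
  · intro b hb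
    obtain ⟨p, hp, rfl⟩ := Finset.mem_image.mp hb
    have hp1 := (Finset.mem_product.mp hp).1
    rw [hQ] at hp1
    obtain ⟨u, hu, hup⟩ := Finset.mem_image.mp hp1
    exact hall u (Finset.mem_filter.mp hu).2 _ (by rw [Fin.cons_zero]; exact hup.symm)

/-- A lower bound for representations in cross characteristic: for `n ≥ 2` and a field `F` with `q` elements, `q` odd, every homomorphism from the symplectic group `Sp_{2n}(F)` to `GL_d(K)`, `K` a field of characteristic different from that of `F`, whose kernel is central has `d ≥ q^(n-1)(q-1)/2`. -/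
theorem result {F : Type*} [Field F] [Fintype F] {q : ℕ} (hq : Fintype.card F = q) (hodd : Odd q) (n : ℕ) (hn : 2 ≤ n)
    {K : Type*} [Field K] (hK : ringChar K ≠ ringChar F) {d : ℕ}
    (ρ : ↥(Matrix.symplecticGroup (Fin n) F) →* GL (Fin d) K) (hker : ρ.ker ≤ Subgroup.center ↥(Matrix.symplecticGroup (Fin n) F)) :
    q ^ (n - 1) * (q - 1) / 2 ≤ d := by
  obtain ⟨m, rfl⟩ : ∃ m, n = m + 1 := ⟨n - 1, by omega⟩
  obtain ⟨N, ψ, hψ⟩ := AddChar.FiniteField.primitiveChar F K hK
  have h2 : (2 : F) ≠ 0 := by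
    apply Ring.two_ne_zero
    intro hc
    have h3 := FiniteField.even_card_iff_char_two.mp hc
    rw [hq] at h3
    exact absurd h3 (by rw [Nat.odd_iff.mp hodd]; norm_num)
  have h := main_aux h2 (m := m) hK ρ hker ψ hψ
  rw [hq] at h
  rw [Nat.add_sub_cancel]
  exact Nat.div_le_of_le_mul h

end Cfsg.Agent.S2393
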