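import Cfsg.Statements.S2381
import Mathlib
import Cfsg.Agent.Lib.Helper40.CycloVal2
import Cfsg.Agent.Lib.Helper5.SpCard
import Cfsg.Agent.S2379
import Cfsg.Agent.S2393

set_option autoImplicit false
open Cfsg

namespace Cfsg.Agent.S2381

open Matrix
open Cfsg.Agent.Lib.Helper40

section homs
variable (n : ℕ) (F : Type*) [Field F]

/-- The inclusion of the symplectic group in the general linear group. -/
def spToGL : Matrix.symplecticGroup (Fin n) F →* GL (Fin n ⊕ Fin n) F :=
  (Units.map (Matrix.symplecticGroup (Fin n) F).subtype).comp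
    (toUnits (G := Matrix.symplecticGroup (Fin n) F)).toMonoidHom

theorem spToGL_injective : Function.Injective (spToGL n F) := by
  intro x y h
  have h1 := congrArg Units.val h
  exact Subtype.ext h1

/-- The Levi embedding `g ↦ diag(g, g⁻ᵀ)`. -/
def glToSp : GL (Fin n) F →* Matrix.symplecticGroup (Fin n) F where
  toFun g := ⟨Cfsg.Agent.S2393.D g.val (g⁻¹).val,
    Cfsg.Agent.S2393.D_mem _ _ (by rw [← Units.val_mul, mul_inv_cancel, Units.val_one])⟩
  map_one' := by
    apply Subtype.ext
    show Cfsg.Agent.S2393.D (1 : GL (Fin n) F).val ((1 : GL (Fin n) F)⁻¹).val = 1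
    unfold Cfsg.Agent.S2393.D
    rw [inv_one, Units.val_one, Matrix.transpose_one]
    exact Matrix.fromBlocks_one
  map_mul' g h := by
    apply Subtype.ext
    show Cfsg.Agent.S2393.D (g * h).val ((g * h)⁻¹).val =
      Cfsg.Agent.S2393.D g.val (g⁻¹).val * Cfsg.Agent.S2393.D h.val (h⁻¹).val
    unfold Cfsg.Agent.S2393.D
    rw [Matrix.fromBlocks_multiply, _root_.mul_inv_rev, Units.val_mul, Units.val_mul,
      Matrix.transpose_mul]
    simp

theorem glToSp_injective : Function.Injective (glToSp n F) := by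
  intro g h hgh
  have h1 : Cfsg.Agent.S2393.D g.val (g⁻¹).val = Cfsg.Agent.S2393.D h.val (h⁻¹).val :=
    congrArg Subtype.val hgh
  unfold Cfsg.Agent.S2393.D at h1
  exact Units.ext (Matrix.fromBlocks_inj.mp h1).1

/-- Reindexing `GL_{n+n}` as `GL` on the sum type. -/
def glReindex : GL (Fin (n + n)) F ≃* GL (Fin n ⊕ Fin n) F :=
  Units.mapEquiv (Matrix.reindexAlgEquiv F F (finSumFinEquiv (m := n) (n := n)).symm).toMulEquiv

end homs

theorem sylow_iso_of_embedding {G H : Type*} [Group G] [Group H] [Finite G] [Finite H] (r : ℕ)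
    [Fact r.Prime] (ι : G →* H) (hι : Function.Injective ι)
    (hfac : (Nat.card G).factorization r = (Nat.card H).factorization r)
    {A : Type*} [Group A] (hH : ∀ Q : Sylow r H, Nonempty (↥(Q : Subgroup H) ≃* A))
    (P : Sylow r G) : Nonempty (↥(P : Subgroup G) ≃* A) := by
  have hc : Nat.card ((P : Subgroup G).map ι) = r ^ (Nat.card H).factorization r := by
    rw [← hfac, ← Sylow.card_eq_multiplicity P]
    exact (Nat.card_congr ((P : Subgroup G).equivMapOfInjective ι hι).toEquiv).symm
  obtain ⟨e⟩ := hH (Sylow.ofCard _ hc)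
  exact ⟨((P : Subgroup G).equivMapOfInjective ι hι).trans e⟩

/-- Sylow subgroups of `Sp_{2n}(q)` for large primes. Let `F` be a field with `q` elements and `r` an odd prime with `r > n` and `r ∤ q` (so `r` does not divide the order `2^n n!` of the Weyl group). Let `d` be the multiplicative order of `q` modulo `r`, `a` the number of `i` with `1 ≤ i ≤ n` and `d ∣ 2i` (the degrees being `2, 4, …, 2n`), and `m` the `r`-part of the value at `q` of the `d`-th cyclotomic polynomial. Then every Sylow `r`-subgroup of the symplectic group `Sp_{2n}(q)` is a direct product of `a` cyclic groups of order `m`. -/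
theorem result {F : Type*} [Field F] [Fintype F] {q : ℕ} (hq : Fintype.card F = q) (n : ℕ)
    (r : ℕ) [Fact r.Prime] (hr2 : r ≠ 2) (hrn : n < r) (hrq : ¬ r ∣ q) (P : Sylow r ↥(Matrix.symplecticGroup (Fin n) F)) :
    Nonempty (↥(P : Subgroup ↥(Matrix.symplecticGroup (Fin n) F)) ≃*
      (Fin ((Finset.Icc 1 n).filter (fun i => orderOf (q : ZMod r) ∣ 2 * i)).card →
        Multiplicative (ZMod (r ^ padicValNat r ((Polynomial.cyclotomic (orderOf (q : ZMod r)) ℤ).eval (q : ℤ)).natAbs)))) := by
  subst hq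
  classical
  have hr : r.Prime := Fact.out
  have hq2 : 2 ≤ Fintype.card F := Fintype.one_lt_card
  have hdpos := CycloVal.order_pos (Fintype.card F) r hrq
  have hvalSp := CycloVal2.padicValNat_card_Sp (Fintype.card F) r hq2 hrq hr2 n hrn
  have hmdvd := CycloVal.padicValNat_pow_order_sub_one (Fintype.card F) r hq2 hrq
  have hvalGL := CycloVal2.padicValNat_card_GL (Fintype.card F) r hq2 hrq (n + n)
  obtain ⟨d, hd⟩ : ∃ d, d = orderOf ((Fintype.card F : ℕ) : ZMod r) := ⟨_, rfl⟩
  rw [← hd] at hdpos hvalSp hmdvd hvalGL ⊢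
  obtain ⟨v, hv⟩ : ∃ v, v = padicValNat r
      ((Polynomial.cyclotomic d ℤ).eval ((Fintype.card F : ℕ) : ℤ)).natAbs := ⟨_, rfl⟩
  rw [← hv] at hvalSp hmdvd hvalGL ⊢
  obtain ⟨a, ha⟩ : ∃ a, a = ((Finset.Icc 1 n).filter (fun i => d ∣ 2 * i)).card := ⟨_, rfl⟩
  rw [← ha] at hvalSp ⊢
  have hcz : Nat.card (Multiplicative (ZMod (r ^ v))) = r ^ v :=
    (Nat.card_congr Multiplicative.toAdd).trans (Nat.card_zmod _)
  have hcardA : Nat.card (Fin a → Multiplicative (ZMod (r ^ v))) = r ^ (a * v) := by
    rw [Nat.card_fun, Nat.card_fin, hcz, ← pow_mul, mul_comm]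
  have hfacSp : (Nat.card (Matrix.symplecticGroup (Fin n) F)).factorization r = a * v := by
    rw [Cfsg.Agent.Lib.Helper5.SpCard.card_symplectic, Nat.factorization_def _ hr, hvalSp]
  have hmdvd' : r ^ v ∣ Fintype.card F ^ d - 1 := by
    rw [← hmdvd]
    exact pow_padicValNat_dvd
  have hIcc : Finset.Icc 1 n = Finset.Ioc 0 n := by
    ext i
    simp only [Finset.mem_Icc, Finset.mem_Ioc]
    omega
  rcases Nat.even_or_odd d with hev | hodd
  · obtain ⟨e, he⟩ := hev
    have he0 : 0 < e := by omega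
    have hae : a = (n + n) / d := by
      have h1 : ∀ i : ℕ, d ∣ 2 * i ↔ e ∣ i := by
        intro i
        rw [he, ← two_mul]
        exact Nat.mul_dvd_mul_iff_left (by norm_num)
      rw [ha, hIcc, Finset.filter_congr (fun i _ => h1 i), Nat.Ioc_filter_dvd_card_eq_div, he,
        ← two_mul, ← two_mul, Nat.mul_div_mul_left _ _ (by norm_num)]
    have hvalGL' := hvalGL (by
      intro k hk hkn hrk
      have h1 : r ≤ k := Nat.le_of_dvd hk hrk
      have h2 : e * k ≤ n := by
        rw [he] at hkn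
        nlinarith
      have h3 : k ≤ e * k := Nat.le_mul_of_pos_left k he0
      omega)
    obtain ⟨ψ, hψ⟩ := Cfsg.Agent.S2380.exists_torus (F := F) d hdpos (r ^ v) hmdvd' a (n + n)
      (by rw [hae]; exact Nat.div_mul_le_self _ _)
    have hfacGL : (Nat.card (GL (Fin n ⊕ Fin n) F)).factorization r = a * v := by
      rw [← Nat.card_congr (glReindex n F).toEquiv, Matrix.card_GL_field,
        Nat.factorization_def _ hr, hvalGL', hae]
    refine sylow_iso_of_embedding r (spToGL n F) (spToGL_injective n F)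
      (by rw [hfacSp, hfacGL]) (fun Q => ?_) P
    exact Cfsg.Agent.S2379.sylow_iso r ((glReindex n F).toMonoidHom.comp ψ)
      ((glReindex n F).injective.comp hψ) (by rw [hcardA, hfacGL]) Q
  · have hae : a = n / d := by
      have h1 : ∀ i : ℕ, d ∣ 2 * i ↔ d ∣ i := by
        intro i
        exact Nat.Coprime.dvd_mul_left (Nat.coprime_two_right.mpr hodd)
      rw [ha, hIcc, Finset.filter_congr (fun i _ => h1 i), Nat.Ioc_filter_dvd_card_eq_div]
    obtain ⟨ψ, hψ⟩ := Cfsg.Agent.S2380.exists_torus (F := F) d hdpos (r ^ v) hmdvd' a n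
      (by rw [hae]; exact Nat.div_mul_le_self _ _)
    exact Cfsg.Agent.S2379.sylow_iso r ((glToSp n F).comp ψ)
      ((glToSp_injective n F).comp hψ) (by rw [hcardA, hfacSp]) P

end Cfsg.Agent.S2381
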