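import Cfsg.Statements.S5964
import Cfsg.Agent.Lib.Helper37.InvConj
import Cfsg.Agent.Lib.Helper37.NonsqDet
import Cfsg.Agent.Lib.Helper37.NonsqPow
import Cfsg.Agent.Lib.Helper37.SignPerm
import Cfsg.Agent.Lib.Helper37.SubfieldIndex

set_option autoImplicit false
open scoped MatrixGroups
open Cfsg

namespace Cfsg.Agent.S5964

theorem two_ne_zero_of_odd {F : Type*} [Field F] [Fintype F] (hodd : Odd (Fintype.card F)) :
    (2 : F) ≠ 0 := by
  intro h2
  have hchar : ringChar F = 2 := by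
    have : CharP F 2 := by
      apply CharTwo.of_one_ne_zero_of_two_eq_zero one_ne_zero
      exact_mod_cast h2
    exact ringChar.eq F 2
  have heven := FiniteField.even_card_iff_char_two.mp hchar
  rw [Nat.odd_iff] at hodd
  omega

/-- Every element of the subfield of index 2 is a square. -/
theorem subfield_sq {F : Type*} [Field F] [Fintype F] (h2 : (2 : F) ≠ 0) (F₀ : Subfield F)
    (q₀ : ℕ) (hF₀ : Nat.card ↥F₀ = q₀) (hq : Fintype.card F = q₀ ^ 2) (a : F) (ha : a ∈ F₀) :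
    IsSquare a := by
  classical
  by_cases ha0 : a = 0
  · exact ⟨0, by rw [ha0, mul_zero]⟩
  have hchar := Cfsg.Agent.Lib.Helper37.NonsqPow.ringChar_ne_two h2
  have hodd := FiniteField.odd_card_of_char_ne_two hchar
  rw [FiniteField.isSquare_iff hchar ha0]
  let _ : Fintype ↥F₀ := Fintype.ofFinite _
  have hq₀ : Fintype.card ↥F₀ = q₀ := by rw [← Nat.card_eq_fintype_card, hF₀]
  have h1 : (⟨a, ha⟩ : F₀) ^ (Fintype.card ↥F₀ - 1) = 1 :=
    FiniteField.pow_card_sub_one_eq_one _ (fun h => ha0 (congrArg Subtype.val h))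
  have h3 : a ^ (q₀ - 1) = 1 := by
    have := congrArg Subtype.val h1
    rw [hq₀] at this
    simpa using this
  have hq₀odd : q₀ % 2 = 1 := by
    rw [hq, pow_two] at hodd
    rcases Nat.mod_two_eq_zero_or_one q₀ with h | h
    · rw [Nat.mul_mod, h] at hodd
      simp at hodd
    · exact h
  obtain ⟨t, ht⟩ : ∃ t, q₀ = 2 * t + 1 := ⟨q₀ / 2, by omega⟩
  have h4 : Fintype.card F / 2 = (q₀ - 1) * (t + 1) := by
    rw [hq, ht]
    have : (2 * t + 1) ^ 2 = 2 * (2 * t * (t + 1)) + 1 := by ring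
    rw [this]
    have h5 : 2 * t + 1 - 1 = 2 * t := by omega
    rw [h5]
    omega
  rw [h4, pow_mul, h3, one_pow]

theorem neg_one_sq {F : Type*} [Field F] [Fintype F] (q₀ : ℕ) (hq : Fintype.card F = q₀ ^ 2)
    (hodd : Odd (Fintype.card F)) : IsSquare (-1 : F) := by
  rw [FiniteField.isSquare_neg_one_iff]
  have hq₀odd : q₀ % 2 = 1 := by
    rw [hq, pow_two, Nat.odd_iff] at hodd
    rcases Nat.mod_two_eq_zero_or_one q₀ with h | h
    · rw [Nat.mul_mod, h] at hodd
      simp at hodd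
    · exact h
  obtain ⟨t, ht⟩ : ∃ t, q₀ = 2 * t + 1 := ⟨q₀ / 2, by omega⟩
  rw [hq, ht]
  have : (2 * t + 1) ^ 2 = 4 * (t * (t + 1)) + 1 := by ring
  rw [this]
  omega

/-- A scalar multiple of a matrix over the subfield lies in the subfield subgroup. -/
theorem mem_B {F : Type*} [Field F] {n : ℕ} (F₀ : Subfield F) (g : GL (Fin n) F)
    (g₀ : GL (Fin n) F₀) (c : F) (hc : c ≠ 0)
    (hg : (g : Matrix (Fin n) (Fin n) F) = c •
      ((Matrix.GeneralLinearGroup.map (F₀.subtype : F₀ →+* F) g₀ : GL (Fin n) F) :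
        Matrix (Fin n) (Fin n) F)) :
    g ∈ Cfsg.Geo.subfieldSubgroup F₀ (1 : GL (Fin n) F) := by
  obtain ⟨s, hs⟩ : ∃ s : GL (Fin n) F, (s : Matrix (Fin n) (Fin n) F) =
      c • (1 : Matrix (Fin n) (Fin n) F) := by
    refine ⟨⟨c • 1, c⁻¹ • 1, ?_, ?_⟩, rfl⟩
    · rw [Matrix.smul_mul, Matrix.mul_smul, Matrix.one_mul, smul_smul, mul_inv_cancel₀ hc,
        one_smul]
    · rw [Matrix.smul_mul, Matrix.mul_smul, Matrix.one_mul, smul_smul, inv_mul_cancel₀ hc,
        one_smul]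
  have hsmem : s ∈ Cfsg.Geo.scalars (Fin n) F :=
    (Cfsg.Geo.mem_scalars_iff s).mpr ⟨Units.mk0 c hc, hs⟩
  have hgeq : g = Matrix.GeneralLinearGroup.map (F₀.subtype : F₀ →+* F) g₀ * s := by
    apply Units.ext
    rw [Units.val_mul, hs, hg, Matrix.mul_smul, Matrix.mul_one]
  refine ⟨g, ?_, by simp⟩
  rw [hgeq]
  exact Subgroup.mul_mem_sup (MonoidHom.mem_range.mpr ⟨g₀, rfl⟩) hsmem

/-- Elements of the subfield subgroup are scalar multiples of matrices over the subfield. -/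
theorem of_mem_B {F : Type*} [Field F] {n : ℕ} (F₀ : Subfield F) (g : GL (Fin n) F)
    (hg : g ∈ Cfsg.Geo.subfieldSubgroup F₀ (1 : GL (Fin n) F)) :
    ∃ (A₀ : Matrix (Fin n) (Fin n) F) (c : F), c ≠ 0 ∧ (∀ i j, A₀ i j ∈ F₀) ∧
      (g : Matrix (Fin n) (Fin n) F) = c • A₀ := by
  obtain ⟨h, hh, rfl⟩ := hg
  have hh' : h ∈ ((↑((Matrix.GeneralLinearGroup.map (F₀.subtype : F₀ →+* F)).range ⊔
      Cfsg.Geo.scalars (Fin n) F) : Set (GL (Fin n) F))) := hh
  rw [Subgroup.mul_normal] at hh'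
  obtain ⟨a, ha, b, hb, rfl⟩ := Set.mem_mul.mp hh'
  obtain ⟨g₀, rfl⟩ := MonoidHom.mem_range.mp ha
  obtain ⟨c, hc⟩ := (Cfsg.Geo.mem_scalars_iff b).mp hb
  refine ⟨((Matrix.GeneralLinearGroup.map (F₀.subtype : F₀ →+* F) g₀ : GL (Fin n) F) :
    Matrix (Fin n) (Fin n) F), (c : F), c.ne_zero, ?_, ?_⟩
  · intro i j
    rw [Matrix.GeneralLinearGroup.map_apply]
    exact (g₀ i j).2
  · have : ((MulAut.conj (1 : GL (Fin n) F)).toMonoidHom
        (Matrix.GeneralLinearGroup.map (F₀.subtype : F₀ →+* F) g₀ * b)) =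
        Matrix.GeneralLinearGroup.map (F₀.subtype : F₀ →+* F) g₀ * b := by simp
    rw [this, Units.val_mul, hc, Matrix.mul_smul, Matrix.mul_one]

/-- Sufficiency. -/
theorem conj_of_hyp {F : Type*} [Field F] [Fintype F] (n : ℕ) (hn : 2 ≤ n) (F₀ : Subfield F)
    (k q₀ : ℕ) (hF₀ : Nat.card ↥F₀ = q₀) (hqk : Fintype.card F = q₀ ^ k)
    (hyp : Odd (Fintype.card F) →
      (k = 2 ∧ padicValNat 2 n ≤ padicValNat 2 (Fintype.card F - 1)))
    (x : Matrix.SpecialLinearGroup (Fin n) F) (z : F)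
    (hz : ((x ^ 2 : Matrix.SpecialLinearGroup (Fin n) F) : Matrix (Fin n) (Fin n) F) =
      z • (1 : Matrix (Fin n) (Fin n) F)) :
    ∃ P : Matrix.SpecialLinearGroup (Fin n) F, P⁻¹ * x * P ∈
      ((Cfsg.Geo.subfieldSubgroup F₀ 1).comap (Matrix.SpecialLinearGroup.toGL :
        Matrix.SpecialLinearGroup (Fin n) F →* GL (Fin n) F)) := by
  classical
  obtain ⟨A, hA⟩ : ∃ A : Matrix (Fin n) (Fin n) F, A = (x : Matrix (Fin n) (Fin n) F) :=
    ⟨_, rfl⟩
  have hAA : A * A = z • (1 : Matrix (Fin n) (Fin n) F) := by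
    rw [← hz, hA, pow_two]
    rfl
  have hdet : A.det = 1 := by rw [hA]; exact x.2
  have hz0 : z ≠ 0 := by
    intro h0
    rw [h0, zero_smul] at hAA
    have h1 := congrArg Matrix.det hAA
    have : Nonempty (Fin n) := ⟨⟨0, by omega⟩⟩
    rw [Matrix.det_mul, hdet, Matrix.det_zero] at h1
    simp at h1
  have hxx : ∀ v : Fin n → F, Matrix.toLin' A (Matrix.toLin' A v) = z • v := by
    intro v
    rw [Matrix.toLin'_apply, Matrix.toLin'_apply, Matrix.mulVec_mulVec, hAA, Matrix.smul_mulVec,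
      Matrix.one_mulVec]
  have hfr : Module.finrank F (Fin n → F) = n := by
    rw [Module.finrank_fintype_fun_eq_card, Fintype.card_fin]
  -- z is a square
  obtain ⟨c, hc⟩ : ∃ c : F, c * c = z := by
    by_contra hns
    push Not at hns
    obtain ⟨m, hm, hdm⟩ := Cfsg.Agent.Lib.Helper37.NonsqDet.det_of_nonsq hns n (Fin n → F)
      (Matrix.toLin' A) hxx hfr
    rw [LinearMap.det_toLin', hdet] at hdm
    by_cases hoddq : Odd (Fintype.card F)
    · obtain ⟨hk2, hle⟩ := hyp hoddq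
      subst hk2
      have h2 := two_ne_zero_of_odd hoddq
      obtain ⟨i, hi⟩ := neg_one_sq q₀ hqk hoddq
      have hw : ¬ IsSquare (-z) := by
        rintro ⟨r, hr⟩
        apply hns (i * r)
        linear_combination (-(r * r)) * hi + hr
      have hm0 : m ≠ 0 := by omega
      have h3 := Cfsg.Agent.Lib.Helper37.NonsqPow.padic_le_of_nonsq_pow h2 (-z) hw m hm0 hdm.symm
      have h4 : padicValNat 2 n = 1 + padicValNat 2 m := by
        rw [hm, padicValNat.mul (by norm_num) hm0, padicValNat_self]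
      omega
    · have hchar : ringChar F = 2 := by
        rw [FiniteField.even_card_iff_char_two]
        rw [Nat.not_odd_iff] at hoddq
        exact hoddq
      obtain ⟨r, hr⟩ := FiniteField.isSquare_of_char_two hchar z
      exact hns r hr.symm
  have hc0 : c ≠ 0 := by
    rintro rfl
    rw [mul_zero] at hc
    exact hz0 hc.symm
  have hyy : (c⁻¹ • A) * (c⁻¹ • A) = 1 := by
    rw [Matrix.smul_mul, Matrix.mul_smul, hAA, smul_smul, smul_smul, ← hc]
    have : c⁻¹ * c⁻¹ * (c * c) = 1 := by field_simp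
    rw [this, one_smul]
  obtain ⟨Q, M, hM1, hM2, hQM⟩ :=
    Cfsg.Agent.Lib.Helper37.SignPerm.exists_signed_perm (c⁻¹ • A) hyy
  have hMF : ∀ i j, M i j ∈ F₀ := by
    intro i j
    rcases hM1 i j with h | h | h
    · rw [h]; exact zero_mem _
    · rw [h]; exact one_mem _
    · rw [h]; exact neg_mem (one_mem _)
  obtain ⟨g₀, hg₀⟩ := Cfsg.Agent.Lib.Helper37.SignPerm.exists_gl_of_entries F₀ M hMF hM2
  apply Cfsg.Agent.Lib.Helper37.InvConj.exists_sl_conj (by omega) x (z := z)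
    (by rw [← hA]; exact hAA) (Cfsg.Geo.subfieldSubgroup F₀ 1) Q
  apply mem_B F₀ _ g₀ c hc0
  rw [hg₀, Units.val_mul, Units.val_mul]
  show (Q : Matrix (Fin n) (Fin n) F) * (x : Matrix (Fin n) (Fin n) F) *
    ((Q⁻¹ : GL (Fin n) F) : Matrix (Fin n) (Fin n) F) = c • M
  rw [← hA]
  have h1 : (Q : Matrix (Fin n) (Fin n) F) * A = c • (M * (Q : Matrix (Fin n) (Fin n) F)) := by
    rw [← hQM, Matrix.mul_smul, smul_smul, mul_inv_cancel₀ hc0, one_smul]
  rw [h1, Matrix.smul_mul, Matrix.mul_assoc, ← Units.val_mul, mul_inv_cancel, Units.val_one,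
    Matrix.mul_one]

/-- Necessity of the 2-part condition when `k = 2`. -/
theorem exists_bad {F : Type*} [Field F] [Fintype F] (n : ℕ) (hn : 2 ≤ n) (F₀ : Subfield F)
    (q₀ : ℕ) (hF₀ : Nat.card ↥F₀ = q₀) (hqk : Fintype.card F = q₀ ^ 2)
    (hodd : Odd (Fintype.card F))
    (hlt : padicValNat 2 (Fintype.card F - 1) < padicValNat 2 n) :
    ∃ x : Matrix.SpecialLinearGroup (Fin n) F,
      (∃ z : F, ((x ^ 2 : Matrix.SpecialLinearGroup (Fin n) F) : Matrix (Fin n) (Fin n) F) =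
        z • (1 : Matrix (Fin n) (Fin n) F)) ∧
      (∀ z : F, (x : Matrix (Fin n) (Fin n) F) ≠ z • (1 : Matrix (Fin n) (Fin n) F)) ∧
      ¬ ∃ P : Matrix.SpecialLinearGroup (Fin n) F, P⁻¹ * x * P ∈
        ((Cfsg.Geo.subfieldSubgroup F₀ 1).comap (Matrix.SpecialLinearGroup.toGL :
          Matrix.SpecialLinearGroup (Fin n) F →* GL (Fin n) F)) := by
  classical
  have h2 := two_ne_zero_of_odd hodd
  have hdvd : 2 ∣ n := dvd_of_one_le_padicValNat (by omega)
  obtain ⟨m, rfl⟩ : ∃ m, n = m + m := by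
    obtain ⟨m, hm⟩ := hdvd
    exact ⟨m, by omega⟩
  have hm0 : m ≠ 0 := by omega
  have h4 : padicValNat 2 (m + m) = 1 + padicValNat 2 m := by
    rw [← two_mul, padicValNat.mul (by norm_num) hm0, padicValNat_self]
  obtain ⟨w, hw, hwm⟩ := Cfsg.Agent.Lib.Helper37.NonsqPow.exists_nonsq_pow h2 m hm0 (by omega)
  obtain ⟨i, hi⟩ := neg_one_sq q₀ hqk hodd
  have hns : ∀ c : F, c * c ≠ -w := by
    intro c hc
    apply hw
    exact ⟨i * c, by linear_combination hc + (c * c) * hi⟩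
  obtain ⟨X, hX⟩ : ∃ X : Matrix (Fin (m + m)) (Fin (m + m)) F,
      X = Matrix.reindexAlgEquiv F F finSumFinEquiv
        (Matrix.fromBlocks 0 ((-w) • (1 : Matrix (Fin m) (Fin m) F)) 1 0) := ⟨_, rfl⟩
  have hXX : X * X = (-w) • (1 : Matrix (Fin (m + m)) (Fin (m + m)) F) := by
    rw [hX, ← map_mul, Matrix.fromBlocks_multiply]
    have : Matrix.fromBlocks
        ((0 : Matrix (Fin m) (Fin m) F) * 0 + (-w) • (1 : Matrix (Fin m) (Fin m) F) * 1)
        ((0 : Matrix (Fin m) (Fin m) F) * (-w) • (1 : Matrix (Fin m) (Fin m) F) +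
          (-w) • (1 : Matrix (Fin m) (Fin m) F) * 0)
        ((1 : Matrix (Fin m) (Fin m) F) * 0 + 0 * 1)
        ((1 : Matrix (Fin m) (Fin m) F) * (-w) • (1 : Matrix (Fin m) (Fin m) F) + 0 * 0) =
        (-w) • (1 : Matrix (Fin m ⊕ Fin m) (Fin m ⊕ Fin m) F) := by
      rw [← Matrix.fromBlocks_one, Matrix.fromBlocks_smul]
      simp
    rw [this, map_smul, map_one]
  have hxx : ∀ v : Fin (m + m) → F, Matrix.toLin' X (Matrix.toLin' X v) = (-w) • v := by
    intro v
    rw [Matrix.toLin'_apply, Matrix.toLin'_apply, Matrix.mulVec_mulVec, hXX, Matrix.smul_mulVec,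
      Matrix.one_mulVec]
  have hfr : Module.finrank F (Fin (m + m) → F) = m + m := by
    rw [Module.finrank_fintype_fun_eq_card, Fintype.card_fin]
  obtain ⟨m', hm', hdm⟩ := Cfsg.Agent.Lib.Helper37.NonsqDet.det_of_nonsq hns (m + m)
    (Fin (m + m) → F) (Matrix.toLin' X) hxx hfr
  have hmm : m' = m := by omega
  rw [LinearMap.det_toLin', hmm, neg_neg, hwm] at hdm
  obtain ⟨xs, hxs⟩ : ∃ xs : Matrix.SpecialLinearGroup (Fin (m + m)) F,
      (xs : Matrix (Fin (m + m)) (Fin (m + m)) F) = X := ⟨⟨X, hdm⟩, rfl⟩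
  have hi0 : Nonempty (Fin (m + m)) := ⟨⟨0, by omega⟩⟩
  obtain ⟨i₀⟩ := hi0
  refine ⟨xs, ⟨-w, ?_⟩, ?_, ?_⟩
  · rw [pow_two]
    show (xs : Matrix (Fin (m + m)) (Fin (m + m)) F) * (xs : Matrix (Fin (m + m)) (Fin (m + m)) F)
      = _
    rw [hxs, hXX]
  · intro s hs
    rw [hxs] at hs
    have h5 := hXX
    rw [hs, Matrix.smul_mul, Matrix.mul_smul, Matrix.one_mul, smul_smul] at h5
    have h6 := congrFun (congrFun h5 i₀) i₀
    rw [Matrix.smul_apply, Matrix.smul_apply, Matrix.one_apply_eq, smul_eq_mul, smul_eq_mul,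
      mul_one, mul_one] at h6
    exact hns s h6
  · rintro ⟨P, hP⟩
    rw [Subgroup.mem_comap] at hP
    obtain ⟨A₀, σ, hσ0, hA₀, hmat⟩ := of_mem_B F₀ _ hP
    have hT : ((Matrix.SpecialLinearGroup.toGL (P⁻¹ * xs * P) : GL (Fin (m + m)) F) :
        Matrix (Fin (m + m)) (Fin (m + m)) F) =
        ((P⁻¹ : Matrix.SpecialLinearGroup (Fin (m + m)) F) : Matrix _ _ F) * X *
          (P : Matrix _ _ F) := by
      rw [← hxs]
      rfl
    have hPP : (P : Matrix (Fin (m + m)) (Fin (m + m)) F) *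
        ((P⁻¹ : Matrix.SpecialLinearGroup (Fin (m + m)) F) : Matrix _ _ F) = 1 := by
      rw [← Matrix.SpecialLinearGroup.coe_mul, mul_inv_cancel]
      rfl
    have hPP' : ((P⁻¹ : Matrix.SpecialLinearGroup (Fin (m + m)) F) : Matrix _ _ F) *
        (P : Matrix (Fin (m + m)) (Fin (m + m)) F) = 1 := by
      rw [← Matrix.SpecialLinearGroup.coe_mul, inv_mul_cancel]
      rfl
    have hTT : (σ • A₀) * (σ • A₀) = (-w) • (1 : Matrix (Fin (m + m)) (Fin (m + m)) F) := by
      rw [← hmat, hT]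
      calc ((P⁻¹ : Matrix.SpecialLinearGroup (Fin (m + m)) F) : Matrix _ _ F) * X *
            (P : Matrix _ _ F) *
            (((P⁻¹ : Matrix.SpecialLinearGroup (Fin (m + m)) F) : Matrix _ _ F) * X *
              (P : Matrix _ _ F))
          = ((P⁻¹ : Matrix.SpecialLinearGroup (Fin (m + m)) F) : Matrix _ _ F) * X *
            ((P : Matrix _ _ F) *
              ((P⁻¹ : Matrix.SpecialLinearGroup (Fin (m + m)) F) : Matrix _ _ F)) * X *
              (P : Matrix _ _ F) := by simp only [Matrix.mul_assoc]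
        _ = (-w) • (1 : Matrix (Fin (m + m)) (Fin (m + m)) F) := by
            rw [hPP, Matrix.mul_one, Matrix.mul_assoc _ X X, hXX, Matrix.mul_smul,
              Matrix.mul_one, Matrix.smul_mul, hPP']
    rw [Matrix.smul_mul, Matrix.mul_smul, smul_smul] at hTT
    have h6 := congrFun (congrFun hTT i₀) i₀
    rw [Matrix.smul_apply, Matrix.smul_apply, Matrix.one_apply_eq, smul_eq_mul, smul_eq_mul,
      mul_one] at h6
    have h7 : (A₀ * A₀) i₀ i₀ ∈ F₀ := by
      rw [Matrix.mul_apply]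
      exact Subfield.sum_mem _ (fun j _ => mul_mem (hA₀ i₀ j) (hA₀ j i₀))
    obtain ⟨r, hr⟩ := subfield_sq h2 F₀ q₀ hF₀ hqk _ h7
    apply hns (σ * r)
    rw [← h6, hr]
    ring

/-- Involutions of PSL_n(q) and subfield subgroups. Here `T = PSL_n(F)` for a field `F` with `q = p^f` elements (`n ≥ 2`, `(n, q) ≠ (2, 2), (2, 3)`), `F₀` is the subfield with `q₀` elements where `q = q₀^k` for a prime `k`, and `H` is the subgroup of matrices of determinant 1 lying in the subfield group of `F₀` (invertible matrices over `F₀` times scalars) — a maximal subgroup of type GL_n(q₀) (the case `n = 2`, `q₀ = 2` is excluded); Ω is the set of `T`-conjugates of `H` (cosets of `H`), so an element of `T` of prime order `r` (a matrix `x` of determinant 1 with `x^r` scalar, `x` not scalar) fixes a point of Ω when some conjugate of `x` by a matrix of determinant 1 lies in `H`. Suppose the index of `H` is even. Then every involution of `T` is conjugate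 in `T` into `H` if and only if either `q` is even, or `k = 2` and `(n)_2 ≤ (q − 1)_2`. (For `q` odd and `k` odd the index of `H` is odd, so that case does not arise.) -/
theorem result {F : Type*} [Field F] [Fintype F] {p : ℕ} [Fact p.Prime] [CharP F p] {q : ℕ} (hq : Fintype.card F = q)
    (n : ℕ) (hn : 2 ≤ n) (hT : (n, q) ≠ (2, 2) ∧ (n, q) ≠ (2, 3))
    (F₀ : Subfield F) (k q₀ : ℕ) (hk : k.Prime) (hF₀ : Nat.card ↥F₀ = q₀) (hqk : q = q₀ ^ k) (hC5 : ¬ (n = 2 ∧ q₀ = 2)) (hΩ : 2 ∣ ((Cfsg.Geo.subfieldSubgroup F₀ 1).comap (Matrix.SpecialLinearGroup.toGL : Matrix.SpecialLinearGroup (Fin n) F →* GL (Fin n) F)).index) :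
    (∀ x : Matrix.SpecialLinearGroup (Fin n) F,
      (∃ z : F, ((x ^ 2 : Matrix.SpecialLinearGroup (Fin n) F) : Matrix (Fin n) (Fin n) F) = z • (1 : Matrix (Fin n) (Fin n) F)) →
      (∀ z : F, (x : Matrix (Fin n) (Fin n) F) ≠ z • (1 : Matrix (Fin n) (Fin n) F)) →
      ∃ P : Matrix.SpecialLinearGroup (Fin n) F, P⁻¹ * x * P ∈ ((Cfsg.Geo.subfieldSubgroup F₀ 1).comap (Matrix.SpecialLinearGroup.toGL : Matrix.SpecialLinearGroup (Fin n) F →* GL (Fin n) F))) ↔
    (Odd q → (k = 2 ∧ padicValNat 2 n ≤ padicValNat 2 (q - 1))) := by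
  subst hq
  constructor
  · intro hall hodd
    have hq₀odd : Odd q₀ := by
      rw [hqk] at hodd
      by_contra h
      rw [Nat.not_odd_iff_even] at h
      exact (Nat.not_odd_iff_even.mpr (Nat.even_pow.mpr ⟨h, hk.ne_zero⟩)) hodd
    have hk2 : k = 2 := by
      by_contra hk2
      have hkodd : Odd k := hk.odd_of_ne_two hk2
      exact Cfsg.Agent.Lib.Helper37.SubfieldIndex.index_odd n F₀ k q₀ hkodd hF₀ hqk hq₀odd hΩ
    refine ⟨hk2, ?_⟩
    by_contra hcon
    push Not at hcon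
    subst hk2
    obtain ⟨x, hx1, hx2, hx3⟩ := exists_bad n hn F₀ q₀ hF₀ hqk hodd hcon
    exact hx3 (hall x hx1 hx2)
  · intro hyp x hx1 hx2
    obtain ⟨z, hz⟩ := hx1
    exact conj_of_hyp n hn F₀ k q₀ hF₀ hqk hyp x z hz

end Cfsg.Agent.S5964
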