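import Cfsg.Statements.S0300
import Mathlib
import Cfsg.Agent.Lib.Helper5.OmegaIso
import Cfsg.Agent.Lib.Helper5.OmegaPlus
import Cfsg.Agent.Lib.Helper5.SL2Card
import Cfsg.Agent.Lib.Helper5.QuadExt
import Cfsg.Agent.Lib.Helper14.OrthIndex
import Cfsg.Agent.Lib.Helper45.OrthCard
import Cfsg.Agent.Lib.Helper45.OmegaCenter

set_option autoImplicit false
open Cfsg

namespace Cfsg.Agent.S0300

open Matrix
open Cfsg.Agent.Lib.Helper5.QuadExt
open Cfsg.Agent.Lib.Helper5.QuadExt.Ext (conj nrm tr θ)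

section rep

variable {F : Type*} [Field F] {a b : F}

/-- index type of the form -/
abbrev I4 : Type := (Fin 1 ⊕ Fin 1) ⊕ Fin 2

/-- relabelling -/
def e4 : Fin 4 ≃ I4 where
  toFun i := ![Sum.inl (Sum.inl 0), Sum.inl (Sum.inr 0), Sum.inr 0, Sum.inr 1] i
  invFun j := match j with
    | Sum.inl (Sum.inl _) => 0
    | Sum.inl (Sum.inr _) => 1
    | Sum.inr i => ![2, 3] i
  left_inv := by intro i; fin_cases i <;> rfl
  right_inv := by
    rintro ((i | i) | i)
    · fin_cases i; rfl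
    · fin_cases i; rfl
    · fin_cases i <;> rfl

/-- the action `X ↦ g X g^*` on hermitian matrices `[[-x, w], [conj w, y]]`, `w = z₁ + z₂ θ`,
in the coordinates `(x, y, z₁, z₂)` -/
def M (α β γ δ : Ext F a b) : Matrix (Fin 4) (Fin 4) F :=
  !![nrm α, -nrm β, -tr (α * conj β), -tr (α * conj β * θ);
     -nrm γ, nrm δ, tr (γ * conj δ), tr (γ * conj δ * θ);
     (-(α * conj γ)).re, (β * conj δ).re, (β * conj γ + α * conj δ).re,
       (β * conj γ * conj θ + α * conj δ * θ).re;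
     (-(α * conj γ)).im, (β * conj δ).im, (β * conj γ + α * conj δ).im,
       (β * conj γ * conj θ + α * conj δ * θ).im]

set_option maxHeartbeats 1600000 in
theorem M_mul (α β γ δ α' β' γ' δ' : Ext F a b) :
    M (α * α' + β * γ') (α * β' + β * δ') (γ * α' + δ * γ') (γ * β' + δ * δ') =
      M α β γ δ * M α' β' γ' δ' := by
  ext i j
  fin_cases i <;> fin_cases j <;>
    simp [M, Matrix.mul_apply, Fin.sum_univ_four, nrm, tr] <;> ring

theorem M_one : M (1 : Ext F a b) 0 0 1 = 1 := by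
  ext i j
  fin_cases i <;> fin_cases j <;> simp [M, nrm, tr]

/-- the form on `Fin 4` -/
def Q4 (a b : F) (u : Fin 4 → F) : F := u 0 * u 1 + (u 2 ^ 2 + a * u 2 * u 3 + b * u 3 ^ 2)

set_option maxHeartbeats 1600000 in
theorem M_iso (α β γ δ : Ext F a b) (h : α * δ - β * γ = 1) (u : Fin 4 → F) :
    Q4 a b (M α β γ δ *ᵥ u) = Q4 a b u := by
  have h1 : α.re * δ.re - b * α.im * δ.im - (β.re * γ.re - b * β.im * γ.im) = 1 :=
    congrArg Ext.re h
  have h2 : α.re * δ.im + α.im * δ.re + a * α.im * δ.im -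
      (β.re * γ.im + β.im * γ.re + a * β.im * γ.im) = 0 := congrArg Ext.im h
  simp [Q4, M, Matrix.mulVec, dotProduct, Fin.sum_univ_four, nrm, tr]
  linear_combination
    ((α.re * δ.re - b * α.im * δ.im - (β.re * γ.re - b * β.im * γ.im) + 1) *
      (u 0 * u 1 + (u 2 ^ 2 + a * u 2 * u 3 + b * u 3 ^ 2))) * h1 +
    ((a * (α.re * δ.re - b * α.im * δ.im - (β.re * γ.re - b * β.im * γ.im)) +
      b * (α.re * δ.im + α.im * δ.re + a * α.im * δ.im -
        (β.re * γ.im + β.im * γ.re + a * β.im * γ.im))) *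
      (u 0 * u 1 + (u 2 ^ 2 + a * u 2 * u 3 + b * u 3 ^ 2))) * h2

theorem quad_eq (v : I4 → F) : Cfsg.quadFormMinus 1 F a b v = Q4 a b (v ∘ e4) := by
  simp [Cfsg.quadFormMinus, Q4, e4]

theorem iso_of_fin4 (N : Matrix (Fin 4) (Fin 4) F) (hN : ∀ u, Q4 a b (N *ᵥ u) = Q4 a b u)
    (v : I4 → F) :
    Cfsg.quadFormMinus 1 F a b (N.submatrix e4.symm e4.symm *ᵥ v) =
      Cfsg.quadFormMinus 1 F a b v := by
  rw [quad_eq, quad_eq, Matrix.submatrix_mulVec_equiv]
  have : ((N *ᵥ (v ∘ ⇑e4.symm.symm)) ∘ ⇑e4.symm) ∘ ⇑e4 = N *ᵥ (v ∘ e4) := by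
    funext i
    simp
  rw [this, hN]

variable {K : Type*} [Field K]

/-- the matrix attached to `g` -/
def Mg (e : K ≃+* Ext F a b) (g : Matrix (Fin 2) (Fin 2) K) : Matrix (Fin 4) (Fin 4) F :=
  M (e (g 0 0)) (e (g 0 1)) (e (g 1 0)) (e (g 1 1))

theorem Mg_mul (e : K ≃+* Ext F a b) (g h : Matrix (Fin 2) (Fin 2) K) :
    Mg e (g * h) = Mg e g * Mg e h := by
  rw [Mg, Mg, Mg, ← M_mul]
  simp [Matrix.mul_apply, Fin.sum_univ_two]

theorem Mg_one (e : K ≃+* Ext F a b) : Mg e (1 : Matrix (Fin 2) (Fin 2) K) = 1 := by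
  rw [Mg]
  simp [M_one]

theorem Mg_iso (e : K ≃+* Ext F a b) (g : Matrix (Fin 2) (Fin 2) K) (hg : g.det = 1)
    (u : Fin 4 → F) : Q4 a b (Mg e g *ᵥ u) = Q4 a b u := by
  apply M_iso
  rw [Matrix.det_fin_two] at hg
  rw [← map_mul, ← map_mul, ← map_sub, hg, map_one]

/-- the representation, as matrices -/
def ρ₀ (e : K ≃+* Ext F a b) : Matrix.SpecialLinearGroup (Fin 2) K →* Matrix I4 I4 F where
  toFun g := (Mg e (g : Matrix (Fin 2) (Fin 2) K)).submatrix e4.symm e4.symm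
  map_one' := by
    rw [Matrix.SpecialLinearGroup.coe_one, Mg_one, Matrix.submatrix_one_equiv]
  map_mul' g h := by
    rw [Matrix.SpecialLinearGroup.coe_mul, Mg_mul, Matrix.submatrix_mul_equiv]

theorem ρ₀_mem (e : K ≃+* Ext F a b) (g : Matrix.SpecialLinearGroup (Fin 2) K) :
    (ρ₀ e).toHomUnits g ∈ Cfsg.isometryGroup F (Cfsg.quadFormMinus 1 F a b) := by
  intro u _
  exact iso_of_fin4 _ (Mg_iso e _ g.det_coe) u

/-- the representation into the isometry group -/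
def ρ (e : K ≃+* Ext F a b) :
    Matrix.SpecialLinearGroup (Fin 2) K →* Cfsg.isometryGroup F (Cfsg.quadFormMinus 1 F a b) :=
  (ρ₀ e).toHomUnits.codRestrict _ (ρ₀_mem e)

theorem ρ_coe (e : K ≃+* Ext F a b) (g : Matrix.SpecialLinearGroup (Fin 2) K) :
    (((ρ e g : Cfsg.isometryGroup F (Cfsg.quadFormMinus 1 F a b)) : GL I4 F) : Matrix I4 I4 F) =
      (Mg e (g : Matrix (Fin 2) (Fin 2) K)).submatrix e4.symm e4.symm := rfl

theorem M_ker (hab : ∀ z₁ z₂ : F, z₁ ^ 2 + a * z₁ * z₂ + b * z₂ ^ 2 = 0 → z₁ = 0 ∧ z₂ = 0)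
    (α β γ δ : Ext F a b) (h : α * δ - β * γ = 1) (hM : M α β γ δ = 1) :
    β = 0 ∧ γ = 0 ∧ α * α = 1 ∧ δ = α := by
  have h00 : nrm α = 1 := by
    have := congrFun (congrFun hM 0) 0
    simpa [M] using this
  have h01 : nrm β = 0 := by
    have := congrFun (congrFun hM 0) 1
    simpa [M] using this
  have h10 : nrm γ = 0 := by
    have := congrFun (congrFun hM 1) 0
    simpa [M] using this
  have hβ : β = 0 := Ext.eq_zero_of_nrm hab β h01
  have hγ : γ = 0 := Ext.eq_zero_of_nrm hab γ h10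
  have h22 : (β * conj γ + α * conj δ).re = 1 := by
    have := congrFun (congrFun hM 2) 2
    simpa [M] using this
  have h32 : (β * conj γ + α * conj δ).im = 0 := by
    have := congrFun (congrFun hM 3) 2
    simpa [M] using this
  have h1 : α * conj δ = 1 := by
    rw [hβ, zero_mul, zero_add] at h22 h32
    exact Ext.ext h22 h32
  have h2 : α * δ = 1 := by
    rw [hβ, zero_mul, sub_zero] at h
    exact h
  have h3 : conj δ = δ := by
    calc conj δ = (α * δ) * conj δ := by rw [h2, one_mul]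
      _ = (α * conj δ) * δ := by ring
      _ = δ := by rw [h1, one_mul]
  have h4 : conj α * δ = 1 := by
    have := congrArg conj h2
    rw [Ext.conj_mul, Ext.conj_one, h3] at this
    exact this
  have h5 : conj α = α := by
    calc conj α = conj α * (α * δ) := by rw [h2, mul_one]
      _ = α * (conj α * δ) := by ring
      _ = α := by rw [h4, mul_one]
  have h6 : α * α = 1 := by
    have := Ext.mul_conj α
    rw [h5, h00] at this
    rw [this]
    rfl
  refine ⟨hβ, hγ, h6, ?_⟩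
  calc δ = (α * α) * δ := by rw [h6, one_mul]
    _ = α * (α * δ) := by ring
    _ = α := by rw [h2, mul_one]

theorem ker_le (hab : ∀ z₁ z₂ : F, z₁ ^ 2 + a * z₁ * z₂ + b * z₂ ^ 2 = 0 → z₁ = 0 ∧ z₂ = 0)
    (e : K ≃+* Ext F a b) :
    (ρ e).ker ≤ Subgroup.center (Matrix.SpecialLinearGroup (Fin 2) K) := by
  intro g hg
  rw [MonoidHom.mem_ker] at hg
  have H : (Mg e (g : Matrix (Fin 2) (Fin 2) K)).submatrix e4.symm e4.symm = 1 := by
    have h1 := ρ_coe e g
    rw [hg] at h1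
    exact h1.symm
  have H' : Mg e (g : Matrix (Fin 2) (Fin 2) K) = 1 := by
    have := congrArg (fun N : Matrix I4 I4 F => N.submatrix e4 e4) H
    simpa using this
  have hdet := g.det_coe
  rw [Matrix.det_fin_two] at hdet
  have hdet' : e ((g : Matrix (Fin 2) (Fin 2) K) 0 0) * e ((g : Matrix (Fin 2) (Fin 2) K) 1 1) -
      e ((g : Matrix (Fin 2) (Fin 2) K) 0 1) * e ((g : Matrix (Fin 2) (Fin 2) K) 1 0) = 1 := by
    rw [← map_mul, ← map_mul, ← map_sub, hdet, map_one]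
  obtain ⟨hβ, hγ, hα, hδ⟩ := M_ker hab _ _ _ _ hdet' H'
  have h01 : (g : Matrix (Fin 2) (Fin 2) K) 0 1 = 0 := by
    apply e.injective
    rw [hβ, map_zero]
  have h10 : (g : Matrix (Fin 2) (Fin 2) K) 1 0 = 0 := by
    apply e.injective
    rw [hγ, map_zero]
  have h11 : (g : Matrix (Fin 2) (Fin 2) K) 1 1 = (g : Matrix (Fin 2) (Fin 2) K) 0 0 :=
    e.injective hδ
  have h00 : (g : Matrix (Fin 2) (Fin 2) K) 0 0 * (g : Matrix (Fin 2) (Fin 2) K) 0 0 = 1 := by
    apply e.injective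
    rw [map_mul, hα, map_one]
  rw [Matrix.SpecialLinearGroup.mem_center_iff]
  refine ⟨(g : Matrix (Fin 2) (Fin 2) K) 0 0, ?_, ?_⟩
  · simp only [Fintype.card_fin]
    rw [sq]
    exact h00
  · ext i j
    fin_cases i <;> fin_cases j <;> simp [h01, h10, h11]

end rep

section index

open Cfsg.Agent.Lib.Helper44.NegPairs Cfsg.Agent.Lib.Helper44.QSpace

variable {F : Type*} [Field F] {a b : F}

theorem noTS2 (hab : ∀ z₁ z₂ : F, z₁ ^ 2 + a * z₁ * z₂ + b * z₂ ^ 2 = 0 → z₁ = 0 ∧ z₂ = 0) :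
    Cfsg.Agent.Lib.Helper44.CD2a.NoTS2 (minusQ 1 F a b) := by
  intro u v hu hv huv hind
  rw [LinearIndependent.pair_iff] at hind
  have hu' : u (Sum.inl (Sum.inl 0)) * u (Sum.inl (Sum.inr 0)) + (u (Sum.inr 0) ^ 2 +
      a * u (Sum.inr 0) * u (Sum.inr 1) + b * u (Sum.inr 1) ^ 2) = 0 := by
    have : Cfsg.quadFormMinus 1 F a b u = 0 := hu
    simpa [Cfsg.quadFormMinus] using this
  have hv' : v (Sum.inl (Sum.inl 0)) * v (Sum.inl (Sum.inr 0)) + (v (Sum.inr 0) ^ 2 +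
      a * v (Sum.inr 0) * v (Sum.inr 1) + b * v (Sum.inr 1) ^ 2) = 0 := by
    have : Cfsg.quadFormMinus 1 F a b v = 0 := hv
    simpa [Cfsg.quadFormMinus] using this
  have huv' : u (Sum.inl (Sum.inl 0)) * v (Sum.inl (Sum.inr 0)) +
      v (Sum.inl (Sum.inl 0)) * u (Sum.inl (Sum.inr 0)) +
      (2 * u (Sum.inr 0) * v (Sum.inr 0) +
        a * (u (Sum.inr 0) * v (Sum.inr 1) + u (Sum.inr 1) * v (Sum.inr 0)) +
        2 * b * u (Sum.inr 1) * v (Sum.inr 1)) = 0 := by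
    have : Cfsg.quadFormMinus 1 F a b (u + v) - Cfsg.quadFormMinus 1 F a b u -
        Cfsg.quadFormMinus 1 F a b v = 0 := huv
    simp [Cfsg.quadFormMinus] at this
    linear_combination this
  obtain ⟨X, hX⟩ : ∃ X, X = u (Sum.inl (Sum.inl 0)) := ⟨_, rfl⟩
  obtain ⟨Y, hY⟩ : ∃ Y, Y = u (Sum.inl (Sum.inr 0)) := ⟨_, rfl⟩
  obtain ⟨Z1, hZ1⟩ : ∃ Z, Z = u (Sum.inr 0) := ⟨_, rfl⟩
  obtain ⟨Z2, hZ2⟩ : ∃ Z, Z = u (Sum.inr 1) := ⟨_, rfl⟩
  obtain ⟨X', hX'⟩ : ∃ X, X = v (Sum.inl (Sum.inl 0)) := ⟨_, rfl⟩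
  obtain ⟨Y', hY'⟩ : ∃ Y, Y = v (Sum.inl (Sum.inr 0)) := ⟨_, rfl⟩
  obtain ⟨Z1', hZ1'⟩ : ∃ Z, Z = v (Sum.inr 0) := ⟨_, rfl⟩
  obtain ⟨Z2', hZ2'⟩ : ∃ Z, Z = v (Sum.inr 1) := ⟨_, rfl⟩
  rw [← hX, ← hY, ← hZ1, ← hZ2] at hu'
  rw [← hX', ← hY', ← hZ1', ← hZ2'] at hv'
  rw [← hX, ← hY, ← hZ1, ← hZ2, ← hX', ← hY', ← hZ1', ← hZ2'] at huv'
  obtain ⟨hD1, hD2⟩ := hab (X' * Z1 - X * Z1') (X' * Z2 - X * Z2') (by
    linear_combination X' ^ 2 * hu' + X ^ 2 * hv' - X * X' * huv')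
  have hXW : X * (X' * Y - X * Y') = 0 := by
    linear_combination 2 * X' * hu' - X * huv' - (2 * Z1 + a * Z2) * hD1 -
      (a * Z1 + 2 * b * Z2) * hD2
  have hXW' : X' * (X' * Y - X * Y') = 0 := by
    linear_combination X' * huv' - 2 * X * hv' - (2 * Z1' + a * Z2') * hD1 -
      (a * Z1' + 2 * b * Z2') * hD2
  have hXX : X = 0 ∧ X' = 0 := by
    by_contra hne
    have hW : X' * Y - X * Y' = 0 := by
      by_cases h0 : X = 0
      · have h0' : X' ≠ 0 := fun h => hne ⟨h0, h⟩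
        exact (mul_eq_zero.mp hXW').resolve_left h0'
      · exact (mul_eq_zero.mp hXW).resolve_left h0
    have key : X' • u + (-X) • v = 0 := by
      funext i
      rcases i with (i | i) | i
      · fin_cases i
        simp only [Pi.add_apply, Pi.smul_apply, smul_eq_mul, Pi.zero_apply]
        show X' * u (Sum.inl (Sum.inl 0)) + -X * v (Sum.inl (Sum.inl 0)) = 0
        rw [← hX, ← hX']
        ring
      · fin_cases i
        simp only [Pi.add_apply, Pi.smul_apply, smul_eq_mul, Pi.zero_apply]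
        show X' * u (Sum.inl (Sum.inr 0)) + -X * v (Sum.inl (Sum.inr 0)) = 0
        rw [← hY, ← hY']
        linear_combination hW
      · fin_cases i
        · simp only [Pi.add_apply, Pi.smul_apply, smul_eq_mul, Pi.zero_apply]
          show X' * u (Sum.inr 0) + -X * v (Sum.inr 0) = 0
          rw [← hZ1, ← hZ1']
          linear_combination hD1
        · simp only [Pi.add_apply, Pi.smul_apply, smul_eq_mul, Pi.zero_apply]
          show X' * u (Sum.inr 1) + -X * v (Sum.inr 1) = 0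
          rw [← hZ2, ← hZ2']
          linear_combination hD2
    obtain ⟨k1, k2⟩ := hind _ _ key
    exact hne ⟨neg_eq_zero.mp k2, k1⟩
  obtain ⟨hX0, hX0'⟩ := hXX
  rw [hX0, zero_mul, zero_add] at hu'
  rw [hX0', zero_mul, zero_add] at hv'
  obtain ⟨hZ10, hZ20⟩ := hab _ _ hu'
  obtain ⟨hZ10', hZ20'⟩ := hab _ _ hv'
  have key : Y' • u + (-Y) • v = 0 := by
    funext i
    rcases i with (i | i) | i
    · fin_cases i
      simp only [Pi.add_apply, Pi.smul_apply, smul_eq_mul, Pi.zero_apply]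
      show Y' * u (Sum.inl (Sum.inl 0)) + -Y * v (Sum.inl (Sum.inl 0)) = 0
      rw [← hX, ← hX', hX0, hX0']
      ring
    · fin_cases i
      simp only [Pi.add_apply, Pi.smul_apply, smul_eq_mul, Pi.zero_apply]
      show Y' * u (Sum.inl (Sum.inr 0)) + -Y * v (Sum.inl (Sum.inr 0)) = 0
      rw [← hY, ← hY']
      ring
    · fin_cases i
      · simp only [Pi.add_apply, Pi.smul_apply, smul_eq_mul, Pi.zero_apply]
        show Y' * u (Sum.inr 0) + -Y * v (Sum.inr 0) = 0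
        rw [← hZ1, ← hZ1', hZ10, hZ10']
        ring
      · simp only [Pi.add_apply, Pi.smul_apply, smul_eq_mul, Pi.zero_apply]
        show Y' * u (Sum.inr 1) + -Y * v (Sum.inr 1) = 0
        rw [← hZ2, ← hZ2', hZ20, hZ20']
        ring
  obtain ⟨k1, k2⟩ := hind _ _ key
  have hY0 : Y = 0 := neg_eq_zero.mp k2
  have hu0 : (1 : F) • u + (0 : F) • v = 0 := by
    funext i
    rcases i with (i | i) | i
    · fin_cases i
      simp only [Pi.add_apply, Pi.smul_apply, smul_eq_mul, Pi.zero_apply]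
      show 1 * u (Sum.inl (Sum.inl 0)) + 0 * v (Sum.inl (Sum.inl 0)) = 0
      rw [← hX, hX0]
      ring
    · fin_cases i
      simp only [Pi.add_apply, Pi.smul_apply, smul_eq_mul, Pi.zero_apply]
      show 1 * u (Sum.inl (Sum.inr 0)) + 0 * v (Sum.inl (Sum.inr 0)) = 0
      rw [← hY, hY0]
      ring
    · fin_cases i
      · simp only [Pi.add_apply, Pi.smul_apply, smul_eq_mul, Pi.zero_apply]
        show 1 * u (Sum.inr 0) + 0 * v (Sum.inr 0) = 0
        rw [← hZ1, hZ10]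
        ring
      · simp only [Pi.add_apply, Pi.smul_apply, smul_eq_mul, Pi.zero_apply]
        show 1 * u (Sum.inr 1) + 0 * v (Sum.inr 1) = 0
        rw [← hZ2, hZ20]
        ring
  exact one_ne_zero (hind _ _ hu0).1

/-- index of `Ω⁻_4(q)` in `O⁻_4(q)` -/
theorem index_minus [Fintype F]
    (hab : ∀ z₁ z₂ : F, z₁ ^ 2 + a * z₁ * z₂ + b * z₂ ^ 2 = 0 → z₁ = 0 ∧ z₂ = 0) :
    (Cfsg.Omega F (Cfsg.quadFormMinus 1 F a b)).index = 2 * Nat.gcd 2 (Fintype.card F - 1) := by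
  classical
  have hS := Cfsg.Agent.Lib.Helper45.OmegaCenter.sep_minusQ' (F := F) 1 a b hab
  by_cases h2 : (2 : F) = 0
  · rw [Cfsg.Agent.Lib.Helper5.OmegaPlus.gcd_two_of_eq h2]
    have : CharP F 2 := CharTwo.of_one_ne_zero_of_two_eq_zero one_ne_zero h2
    have h1 := Cfsg.Agent.Lib.Helper44.OMat2.index_omega_eq (minusQ 1 F a b)
    rw [coe_minusQ] at h1
    rw [h1]
    exact Cfsg.Agent.Lib.Helper44.Omega2.index_commutator_two hS (Or.inr (Or.inr (noTS2 hab)))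
  · rw [Cfsg.Agent.Lib.Helper5.OmegaPlus.gcd_two_of_ne h2]
    exact Cfsg.Agent.Lib.Helper14.OrthIndex.index_omega h2 (minusQ 1 F a b) hS (by
      simp [Fintype.card_sum])

end index

theorem exists_sq_ne_one {K : Type*} [Field K] [Fintype K] (hK : 4 ≤ Fintype.card K) :
    ∃ x : K, x ≠ 0 ∧ x ^ 2 ≠ 1 := by
  classical
  obtain ⟨x, hx⟩ : IsCyclic Kˣ := inferInstance
  refine ⟨x, Units.ne_zero x, fun h => ?_⟩
  have h1 : orderOf x ≤ 2 := orderOf_le_of_pow_eq_one zero_lt_two (Units.ext (by simpa using h))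
  have h2 : orderOf x = Nat.card Kˣ := orderOf_eq_card_of_forall_mem_zpowers hx
  have h3 : Nat.card Kˣ = Fintype.card K - 1 := by
    rw [Nat.card_eq_fintype_card, Fintype.card_units]
  omega

theorem gcd_two_congr (n m : ℕ) (h : n % 2 = m % 2) : Nat.gcd 2 n = Nat.gcd 2 m := by
  rw [Nat.gcd_rec 2 n, Nat.gcd_rec 2 m, h]

/-- PΩ^-_4(q) is isomorphic to PSL_2(q^2). -/
theorem result {F K : Type*} [Field F] [Fintype F] [Field K] [Fintype K] {q : ℕ} (hF : Fintype.card F = q) (hK : Fintype.card K = q ^ 2) (a b : F) (hab : ∀ z₁ z₂ : F, z₁ ^ 2 + a * z₁ * z₂ + b * z₂ ^ 2 = 0 → z₁ = 0 ∧ z₂ = 0) : Nonempty (Cfsg.POmega F (Cfsg.quadFormMinus 1 F a b) ≃* Matrix.ProjectiveSpecialLinearGroup (Fin 2) K) := by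
  classical
  obtain ⟨e⟩ := exists_equiv (K := K) (F := F) (a := a) (b := b) (hK.trans (by rw [hF])) hab
  have hq : 2 ≤ q := hF ▸ Cfsg.Agent.Lib.Helper5.SL2Card.two_le_card
  have hK4 : 4 ≤ Fintype.card K := by
    rw [hK]
    nlinarith
  obtain ⟨x, hx0, hx2⟩ := exists_sq_ne_one hK4
  have hperf : commutator (Matrix.SpecialLinearGroup (Fin 2) K) = ⊤ :=
    Matrix.SL2.commutator_eq_top hx0 hx2
  have hle : (ρ e).range ≤ commutator (Cfsg.isometryGroup F (Cfsg.quadFormMinus 1 F a b)) := by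
    rintro _ ⟨g, rfl⟩
    have hg : g ∈ commutator (Matrix.SpecialLinearGroup (Fin 2) K) := by
      rw [hperf]
      exact Subgroup.mem_top _
    rw [commutator_def] at hg ⊢
    have h1 : (ρ e) g ∈ Subgroup.map (ρ e)
        ⁅(⊤ : Subgroup (Matrix.SpecialLinearGroup (Fin 2) K)),
          (⊤ : Subgroup (Matrix.SpecialLinearGroup (Fin 2) K))⁆ := Subgroup.mem_map_of_mem _ hg
    rw [Subgroup.map_commutator] at h1
    exact Subgroup.commutator_mono le_top le_top h1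
  obtain ⟨S, hS⟩ : ∃ S : ℕ, S = q ^ 2 * (q ^ 2 + 1) * (q ^ 2 - 1) := ⟨_, rfl⟩
  obtain ⟨c, hc⟩ : ∃ c : ℕ, c = Nat.gcd 2 (q - 1) := ⟨_, rfl⟩
  have hcpos : 0 < c := by
    rw [hc]
    exact Nat.gcd_pos_of_pos_left _ (by norm_num)
  have hO : Nat.card (Cfsg.isometryGroup F (Cfsg.quadFormMinus 1 F a b)) = 2 * S := by
    have h := Cfsg.Agent.Lib.Helper45.OrthCard.card_minus hF a b hab 1
    rw [h, hS]
    simp
    ring
  have hidx : (Cfsg.Omega F (Cfsg.quadFormMinus 1 F a b)).index = 2 * c := by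
    rw [index_minus hab, hF, hc]
  have hΩ : Nat.card (commutator (Cfsg.isometryGroup F (Cfsg.quadFormMinus 1 F a b))) * c = S := by
    have h := Subgroup.card_mul_index (Cfsg.Omega F (Cfsg.quadFormMinus 1 F a b))
    rw [hidx, hO] at h
    have h' : 2 * (Nat.card (commutator (Cfsg.isometryGroup F (Cfsg.quadFormMinus 1 F a b))) * c) =
        2 * S := by
      rw [← h]
      ring
    exact Nat.eq_of_mul_eq_mul_left (by norm_num) h'
  have hSL : Nat.card (Matrix.SpecialLinearGroup (Fin 2) K) = S := by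
    rw [Cfsg.Agent.Lib.Helper5.SL2Card.card_SL_two (F := K) hK, hS]
    have h1 : 1 ≤ q ^ 2 := Nat.one_le_pow _ _ (by omega)
    have h2 : (q ^ 2) ^ 2 - 1 = (q ^ 2 + 1) * (q ^ 2 - 1) := by
      obtain ⟨Q, hQ⟩ : ∃ Q, Q = q ^ 2 := ⟨_, rfl⟩
      rw [← hQ] at h1 ⊢
      obtain ⟨k, rfl⟩ : ∃ k, Q = k + 1 := ⟨Q - 1, by omega⟩
      simp only [Nat.add_sub_cancel]
      have : (k + 1) ^ 2 = (k + 1 + 1) * k + 1 := by ring
      rw [this, Nat.add_sub_cancel]
    rw [h2]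
    ring
  have hZ : Nat.card (Subgroup.center (Matrix.SpecialLinearGroup (Fin 2) K)) = c := by
    rw [Cfsg.Agent.Lib.Helper5.SL2Card.card_center_SL_two (F := K) hK, hc]
    apply gcd_two_congr
    have h1 : 1 ≤ q ^ 2 := Nat.one_le_pow _ _ (by omega)
    have h2 : q ^ 2 % 2 = q % 2 := by
      rcases Nat.mod_two_eq_zero_or_one q with h | h <;> simp [Nat.pow_mod, h]
    obtain ⟨Q, hQ⟩ : ∃ Q, Q = q ^ 2 := ⟨_, rfl⟩
    rw [← hQ] at h1 h2 ⊢
    omega
  have hker : Nat.card (ρ e).ker ≤ c :=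
    le_trans (Subgroup.card_le_of_le (ker_le hab e)) hZ.le
  have hrange : Nat.card (ρ e).range * Nat.card (ρ e).ker = S := by
    have h1 := Subgroup.card_eq_card_quotient_mul_card_subgroup (ρ e).ker
    rw [hSL, Nat.card_congr (QuotientGroup.quotientKerEquivRange (ρ e)).toEquiv] at h1
    exact h1.symm
  have heq : (ρ e).range = commutator (Cfsg.isometryGroup F (Cfsg.quadFormMinus 1 F a b)) := by
    apply Subgroup.eq_of_le_of_card_ge hle
    have h3 : Nat.card (commutator (Cfsg.isometryGroup F (Cfsg.quadFormMinus 1 F a b))) * c ≤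
        Nat.card (ρ e).range * c := by
      rw [hΩ, ← hrange]
      exact Nat.mul_le_mul_left _ hker
    exact Nat.le_of_mul_le_mul_right h3 hcpos
  let f : Matrix.SpecialLinearGroup (Fin 2) K →* ↥(Cfsg.Omega F (Cfsg.quadFormMinus 1 F a b)) :=
    (ρ e).codRestrict _ (fun p => hle ⟨p, rfl⟩)
  have hf : Function.Surjective f := by
    rintro ⟨y, hy⟩
    have hy' : y ∈ (ρ e).range := by
      rw [heq]
      exact hy
    obtain ⟨g, rfl⟩ := hy'
    exact ⟨g, rfl⟩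
  have hkerf : f.ker = (ρ e).ker := by
    ext g
    rw [MonoidHom.mem_ker, MonoidHom.mem_ker]
    constructor
    · intro h
      exact congrArg Subtype.val h
    · intro h
      exact Subtype.ext h
  exact Cfsg.Agent.Lib.Helper5.OmegaIso.quot_center_equiv f hf
    (fun g hg => Cfsg.Agent.Lib.Helper5.OmegaIso.mem_center_of_perfect hperf g
      (fun h => ker_le hab e (by rw [← hkerf]; exact hg h)))

end Cfsg.Agent.S0300
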