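import Cfsg.Statements.S0294
import Cfsg.Agent.Lib.Helper45.OmegaCenter
import Cfsg.Agent.Lib.Helper45.OrthCard
import Cfsg.Agent.Lib.Helper14.OrthIndex
import Cfsg.Agent.S0791

set_option autoImplicit false
open Cfsg

namespace Cfsg.Agent.S0294

theorem gcd_four_of_mod_three {n : ℕ} (h : n % 4 = 3) : Nat.gcd 4 (n + 1) = 4 := by
  have h4 : 4 ∣ n + 1 := by omega
  exact Nat.gcd_eq_left h4

theorem gcd_four_of_mod_one {n : ℕ} (h : n % 4 = 1) : Nat.gcd 4 (n + 1) = 2 := by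
  obtain ⟨k, hk⟩ : ∃ k, n + 1 = 4 * k + 2 := ⟨(n + 1) / 4, by omega⟩
  rw [hk, show 4 * k + 2 = 2 + k * 4 by ring, Nat.gcd_add_mul_right_right]
  rfl

theorem gcd_four_of_odd {n : ℕ} (h : n % 2 = 1) : Nat.gcd 4 n = 1 := by
  have h1 : Nat.Coprime 2 n :=
    (Nat.Prime.coprime_iff_not_dvd Nat.prime_two).mpr (by omega)
  have : Nat.Coprime (2 ^ 2) n := Nat.Coprime.pow_left 2 h1
  exact this

theorem odd_pow_mod_four {q : ℕ} (hq : q % 2 = 1) (m : ℕ) : q ^ m % 4 = 1 ∨ q ^ m % 4 = 3 := by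
  have h : q ^ m % 2 = 1 := by
    rw [Nat.pow_mod, hq]; simp
  omega


/-- gcd(4, q^m + 1) |PΩ^-_{2m}(q)| = q^(m(m-1)) (q^m + 1) prod_{i=1}^{m-1} (q^(2i) - 1), m at least 4 (type ²D_m). -/
theorem result {F : Type*} [Field F] [Fintype F] {q : ℕ} (hF : Fintype.card F = q) (m : ℕ) (hm : 4 ≤ m) (a b : F) (hab : ∀ z₁ z₂ : F, z₁ ^ 2 + a * z₁ * z₂ + b * z₂ ^ 2 = 0 → z₁ = 0 ∧ z₂ = 0) : Nat.gcd 4 (q ^ m + 1) * Nat.card (Cfsg.POmega F (Cfsg.quadFormMinus (m - 1) F a b)) = q ^ (m * (m - 1)) * (q ^ m + 1) * ∏ i ∈ Finset.range (m - 1), (q ^ (2 * (i + 1)) - 1) := by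
  obtain ⟨k, rfl⟩ : ∃ k, m = k + 1 := ⟨m - 1, by omega⟩
  have hiff0 := fun hodd : Odd q => Cfsg.Agent.S0791.result hF hodd (k + 1) (by omega) a b hab
  simp only [Nat.add_sub_cancel] at hiff0 ⊢
  have hS := Cfsg.Agent.Lib.Helper45.OmegaCenter.sep_minusQ' (F := F) k a b hab
  have hcardι : Fintype.card ((Fin k ⊕ Fin k) ⊕ Fin 2) = 2 * (k + 1) := by
    simp only [Fintype.card_sum, Fintype.card_fin]; omega
  have hcard := Cfsg.Agent.Lib.Helper45.OmegaCenter.card_center_mul (F := F)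
    (Cfsg.quadFormMinus k F a b)
  rw [Cfsg.Agent.Lib.Helper45.OrthCard.card_minus hF a b hab k] at hcard
  have hq1 : 1 ≤ q := by rw [← hF]; exact Fintype.card_pos
  by_cases hc : ringChar F = 2
  · have : CharP F 2 := ringChar.of_eq hc
    have heven : q % 2 = 0 := by
      rw [← hF]; exact FiniteField.even_card_of_char_two hc
    have hidx : (Cfsg.Omega F (Cfsg.quadFormMinus k F a b)).index = 2 := by
      have := Cfsg.Agent.Lib.Helper44.OMat2.index_omega_eq
        (Cfsg.Agent.Lib.Helper44.NegPairs.minusQ k F a b)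
      rw [Cfsg.Agent.Lib.Helper44.NegPairs.coe_minusQ] at this
      rw [this]
      exact Cfsg.Agent.Lib.Helper44.Omega2.index_commutator_two hS
        (Or.inr (Or.inl (by rw [Module.finrank_fintype_fun_eq_card, hcardι]; omega)))
    have hcen : Nat.card ↥(Subgroup.center ↥(Cfsg.Omega F (Cfsg.quadFormMinus k F a b))) = 1 :=
      Cfsg.Agent.Lib.Helper45.OmegaCenter.card_center_two
        (Cfsg.Agent.Lib.Helper44.NegPairs.minusQ k F a b) hS
        (Or.inr (Or.inl (by rw [Module.finrank_fintype_fun_eq_card, hcardι]; omega)))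
        (by rw [hcardι]; omega)
    rw [hcen, hidx] at hcard
    have hg : Nat.gcd 4 (q ^ (k + 1) + 1) = 1 := by
      apply gcd_four_of_odd
      have h1 : q ^ (k + 1) % 2 = 0 := by
        rw [Nat.pow_mod, heven]; simp
      omega
    rw [hg, one_mul]
    have h4 : 2 * Nat.card (Cfsg.POmega F (Cfsg.quadFormMinus k F a b))
        = 2 * (q ^ ((k + 1) * k) * (q ^ (k + 1) + 1)
          * ∏ i ∈ Finset.range k, (q ^ (2 * (i + 1)) - 1)) := by
      rw [← mul_assoc 2, ← mul_assoc 2, ← hcard]; ring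
    exact Nat.eq_of_mul_eq_mul_left (by norm_num) h4
  · have h2 : (2 : F) ≠ 0 := Ring.two_ne_zero hc
    have hoddq : q % 2 = 1 := by
      rw [← hF]; exact FiniteField.odd_card_of_char_ne_two hc
    have hidx : (Cfsg.Omega F (Cfsg.quadFormMinus k F a b)).index = 4 :=
      Cfsg.Agent.Lib.Helper14.OrthIndex.index_omega h2
        (Cfsg.Agent.Lib.Helper44.NegPairs.minusQ k F a b) hS (by rw [hcardι]; omega)
    have hiff := hiff0 (Nat.odd_iff.mpr hoddq)
    rw [hidx] at hcard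
    rcases odd_pow_mod_four hoddq (k + 1) with h1 | h3
    · have hcen : Nat.card ↥(Subgroup.center ↥(Cfsg.Omega F (Cfsg.quadFormMinus k F a b))) = 1 :=
        Cfsg.Agent.Lib.Helper45.OmegaCenter.card_center_odd_of_not h2
          (Cfsg.Agent.Lib.Helper44.NegPairs.minusQ k F a b) hS (by rw [hcardι]; omega)
          (fun hneg => by have := hiff.mp hneg; omega)
      rw [hcen] at hcard
      rw [gcd_four_of_mod_one h1]
      have h4 : 2 * (2 * Nat.card (Cfsg.POmega F (Cfsg.quadFormMinus k F a b)))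
          = 2 * (q ^ ((k + 1) * k) * (q ^ (k + 1) + 1)
            * ∏ i ∈ Finset.range k, (q ^ (2 * (i + 1)) - 1)) := by
        rw [← mul_assoc 2 (q ^ ((k + 1) * k) * (q ^ (k + 1) + 1)),
          ← mul_assoc 2 (q ^ ((k + 1) * k)), ← hcard]; ring
      exact Nat.eq_of_mul_eq_mul_left (by norm_num) h4
    · have hcen : Nat.card ↥(Subgroup.center ↥(Cfsg.Omega F (Cfsg.quadFormMinus k F a b))) = 2 :=
        Cfsg.Agent.Lib.Helper45.OmegaCenter.card_center_odd_of_mem h2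
          (Cfsg.Agent.Lib.Helper44.NegPairs.minusQ k F a b) hS (by rw [hcardι]; omega)
          (hiff.mpr h3)
      rw [hcen] at hcard
      rw [gcd_four_of_mod_three h3]
      have h4 : 2 * (4 * Nat.card (Cfsg.POmega F (Cfsg.quadFormMinus k F a b)))
          = 2 * (q ^ ((k + 1) * k) * (q ^ (k + 1) + 1)
            * ∏ i ∈ Finset.range k, (q ^ (2 * (i + 1)) - 1)) := by
        rw [← mul_assoc 2 (q ^ ((k + 1) * k) * (q ^ (k + 1) + 1)),
          ← mul_assoc 2 (q ^ ((k + 1) * k)), ← hcard]; ring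
      exact Nat.eq_of_mul_eq_mul_left (by norm_num) h4

end Cfsg.Agent.S0294
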