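import Cfsg.Statements.S2620
import Cfsg.Agent.Lib.Helper44.Gram

set_option autoImplicit false
open Cfsg

namespace Cfsg.Agent.S2620

open Cfsg.Agent.Lib.Helper44.Gram

theorem polar_plus {F : Type*} [Field F] (m : ℕ) (u v : Fin m ⊕ Fin m → F) :
    QuadraticMap.polar (Cfsg.quadFormPlus m F) u v
      = Matrix.toBilin' (Matrix.fromBlocks (0 : Matrix (Fin m) (Fin m) F) (1 : Matrix (Fin m) (Fin m) F)
      (1 : Matrix (Fin m) (Fin m) F) (0 : Matrix (Fin m) (Fin m) F)) u v := by
  rw [Matrix.toBilin'_apply']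
  simp only [QuadraticMap.polar, Cfsg.quadFormPlus, Pi.add_apply, dotProduct, Matrix.mulVec,
    Fintype.sum_sum_type, Matrix.fromBlocks_apply₁₁, Matrix.fromBlocks_apply₁₂,
    Matrix.fromBlocks_apply₂₁, Matrix.fromBlocks_apply₂₂, Matrix.zero_apply, zero_mul,
    Finset.sum_const_zero, zero_add, add_zero, Matrix.one_apply, ite_mul, one_mul,
    Finset.sum_ite_eq, Finset.mem_univ, if_true]
  rw [← Finset.sum_sub_distrib, ← Finset.sum_sub_distrib, ← Finset.sum_add_distrib]
  apply Finset.sum_congr rfl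
  intro i _
  ring

theorem parity_aux {q m : ℕ} (hq : Odd q) :
    Even (m * (q - 1) / 2) ↔ (Even m ∨ q % 4 ≠ 3) := by
  obtain ⟨k, rfl⟩ := hq
  have h1 : m * (2 * k + 1 - 1) / 2 = m * k := by
    rw [Nat.add_sub_cancel, ← mul_assoc, mul_comm m 2, mul_assoc, Nat.mul_div_cancel_left _ (by norm_num)]
  rw [h1, Nat.even_mul]
  have h2 : Even k ↔ (2 * k + 1) % 4 ≠ 3 := by
    rw [Nat.even_iff]; omega
  rw [h2]

theorem isSquare_neg_one_pow {F : Type*} [Field F] [Fintype F] (m : ℕ) :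
    IsSquare ((-1 : F) ^ m) ↔ (Even m ∨ Fintype.card F % 4 ≠ 3) := by
  rcases Nat.even_or_odd m with hm | hm
  · rw [hm.neg_one_pow]
    simp [hm]
  · rw [hm.neg_one_pow, FiniteField.isSquare_neg_one_iff]
    have : ¬ Even m := Nat.not_even_iff_odd.mpr hm
    simp [this]

/-- Discriminant of the hyperbolic quadratic form Σ_(i<m) x_i y_i over a field with q elements, q odd, m ≥ 1: the determinant of the Gram matrix of its polar form in any basis is a square if and only if m(q − 1)/2 is even (equivalently q^m ≡ 1 (mod 4)). -/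
theorem result {F : Type*} [Field F] [Fintype F] {q : ℕ} (hF : Fintype.card F = q) (hq : Odd q) {m : ℕ} (hm : 1 ≤ m) {ι : Type*} [Fintype ι] [DecidableEq ι] (b : Module.Basis ι F (Fin m ⊕ Fin m → F)) : IsSquare (Matrix.of (fun i j : ι => QuadraticMap.polar (Cfsg.quadFormPlus m F) (b i) (b j))).det ↔ Even (m * (q - 1) / 2) := by
  rw [gram_polar_eq b _ _ (polar_plus m)]
  obtain ⟨d, hd, hdet⟩ := gram_det_change b (Pi.basisFun F (Fin m ⊕ Fin m))
    (Matrix.toBilin' (Matrix.fromBlocks (0 : Matrix (Fin m) (Fin m) F) (1 : Matrix (Fin m) (Fin m) F)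
      (1 : Matrix (Fin m) (Fin m) F) (0 : Matrix (Fin m) (Fin m) F)))
  rw [hdet, LinearMap.BilinForm.toMatrix_basisFun, LinearMap.BilinForm.toMatrix'_toBilin',
    det_antidiag, isSquare_sq_mul_iff hd, isSquare_neg_one_pow, parity_aux hq, hF]

end Cfsg.Agent.S2620
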