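import Cfsg.Statements.S0304
import Mathlib
import Cfsg.Agent.Lib.Helper45.OrthCard

set_option autoImplicit false
open Cfsg

namespace Cfsg.Agent.S0304

open Matrix Cfsg.Agent.Lib.Helper45.OrthStep Cfsg.Agent.Lib.Helper45.OrthCard

variable {F : Type*} [Field F]

theorem QO_eq (m : ℕ) (v : Unit ⊕ (Fin m ⊕ Fin m) → F) :
    QO m v = v (Sum.inl ()) ^ 2 + QP m (v ∘ Sum.inr) := by
  rw [QO_apply, QP_apply]
  rfl

theorem mulVec_inl (m : ℕ) (M : Matrix (Unit ⊕ (Fin m ⊕ Fin m)) (Unit ⊕ (Fin m ⊕ Fin m)) F)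
    (v : Unit ⊕ (Fin m ⊕ Fin m) → F) :
    (M *ᵥ v) (Sum.inl ()) = M (Sum.inl ()) (Sum.inl ()) * v (Sum.inl ()) +
      ∑ j, M (Sum.inl ()) (Sum.inr j) * v (Sum.inr j) := by
  simp [Matrix.mulVec, dotProduct, Fintype.sum_sum_type]

theorem mulVec_inr (m : ℕ) (M : Matrix (Unit ⊕ (Fin m ⊕ Fin m)) (Unit ⊕ (Fin m ⊕ Fin m)) F)
    (h10 : ∀ i, M (Sum.inr i) (Sum.inl ()) = 0)
    (v : Unit ⊕ (Fin m ⊕ Fin m) → F) :
    (M *ᵥ v) ∘ Sum.inr = M.toBlocks₂₂ *ᵥ (v ∘ Sum.inr) := by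
  funext i
  simp [Matrix.mulVec, dotProduct, Fintype.sum_sum_type, h10, Matrix.toBlocks₂₂]

/-- block form of the isometry condition in characteristic 2 -/
theorem iso_iff [CharP F 2] (m : ℕ)
    (M : Matrix (Unit ⊕ (Fin m ⊕ Fin m)) (Unit ⊕ (Fin m ⊕ Fin m)) F)
    (h00 : M (Sum.inl ()) (Sum.inl ()) = 1) (h10 : ∀ i, M (Sum.inr i) (Sum.inl ()) = 0) :
    (∀ v, QO m (M *ᵥ v) = QO m v) ↔
      ∀ w : Fin m ⊕ Fin m → F, (∑ j, M (Sum.inl ()) (Sum.inr j) * w j) ^ 2 +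
        QP m (M.toBlocks₂₂ *ᵥ w) = QP m w := by
  constructor
  · intro h w
    have h1 := h (Sum.elim 0 w)
    rw [QO_eq, QO_eq, mulVec_inr m M h10, mulVec_inl, h00] at h1
    simpa using h1
  · intro h v
    rw [QO_eq, QO_eq, mulVec_inr m M h10, mulVec_inl, h00, one_mul, CharTwo.add_sq, add_assoc]
    congr 1
    exact h (v ∘ Sum.inr)

theorem polar_QP_eq_J [CharP F 2] (m : ℕ) (w w' : Fin m ⊕ Fin m → F) :
    QuadraticMap.polar (QP m) w w' = w ⬝ᵥ (Matrix.J (Fin m) F *ᵥ w') := by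
  rw [polar_QP]
  simp only [Matrix.J, dotProduct, Matrix.mulVec, Fintype.sum_sum_type, Matrix.fromBlocks_apply₁₁,
    Matrix.fromBlocks_apply₁₂, Matrix.fromBlocks_apply₂₁, Matrix.fromBlocks_apply₂₂,
    Matrix.zero_apply, zero_mul, Finset.sum_const_zero, zero_add, add_zero, Matrix.neg_apply,
    Matrix.one_apply, CharTwo.neg_eq, ite_mul, one_mul, Finset.sum_ite_eq, Finset.mem_univ, if_true,
    Finset.sum_add_distrib]
  congr 1
  apply Finset.sum_congr rfl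
  intro i _
  ring

theorem bil_eq (m : ℕ) (A N : Matrix (Fin m ⊕ Fin m) (Fin m ⊕ Fin m) F)
    (w w' : Fin m ⊕ Fin m → F) :
    (A *ᵥ w) ⬝ᵥ (N *ᵥ (A *ᵥ w')) = w ⬝ᵥ ((Aᵀ * N * A) *ᵥ w') := by
  rw [← Matrix.vecMul_transpose, ← Matrix.dotProduct_mulVec, Matrix.mulVec_mulVec,
    Matrix.mulVec_mulVec, Matrix.mul_assoc]

theorem mem_symp_iff [CharP F 2] (m : ℕ) (A : Matrix (Fin m ⊕ Fin m) (Fin m ⊕ Fin m) F) :
    A ∈ Matrix.symplecticGroup (Fin m) F ↔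
      ∀ w w', QuadraticMap.polar (QP m) (A *ᵥ w) (A *ᵥ w') = QuadraticMap.polar (QP m) w w' := by
  classical
  rw [SymplecticGroup.mem_iff']
  constructor
  · intro h w w'
    rw [polar_QP_eq_J, polar_QP_eq_J, bil_eq, h]
  · intro h
    ext i j
    have h1 := h (Pi.single i 1) (Pi.single j 1)
    rw [polar_QP_eq_J, polar_QP_eq_J, bil_eq] at h1
    simpa using h1

theorem symp_of_cond [CharP F 2] (m : ℕ) (A : Matrix (Fin m ⊕ Fin m) (Fin m ⊕ Fin m) F)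
    (r : Fin m ⊕ Fin m → F)
    (h : ∀ w, (∑ j, r j * w j) ^ 2 + QP m (A *ᵥ w) = QP m w) :
    A ∈ Matrix.symplecticGroup (Fin m) F := by
  rw [mem_symp_iff]
  intro w w'
  have h1 := h w
  have h2 := h w'
  have h3 := h (w + w')
  have hsum : ∑ j, r j * (w + w') j = ∑ j, r j * w j + ∑ j, r j * w' j := by
    rw [← Finset.sum_add_distrib]
    apply Finset.sum_congr rfl
    intro j _
    simp [mul_add]
  rw [hsum] at h3
  simp only [QuadraticMap.polar, ← Matrix.mulVec_add]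
  have h2' : (2 : F) = 0 := CharTwo.two_eq_zero
  linear_combination h3 - h1 - h2 - (∑ j, r j * w j) * (∑ j, r j * w' j) * h2'

theorem QP_single (m : ℕ) (j : Fin m ⊕ Fin m) (c : F) :
    QP m (Pi.single j c : Fin m ⊕ Fin m → F) = 0 := by
  classical
  rw [QP_apply, Cfsg.quadFormPlus]
  apply Finset.sum_eq_zero
  intro i _
  rcases j with j | j <;> simp [Pi.single_apply]

theorem r_sq [CharP F 2] (m : ℕ) (A : Matrix (Fin m ⊕ Fin m) (Fin m ⊕ Fin m) F)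
    (r : Fin m ⊕ Fin m → F)
    (h : ∀ w, (∑ j, r j * w j) ^ 2 + QP m (A *ᵥ w) = QP m w) (j : Fin m ⊕ Fin m) :
    r j ^ 2 = QP m (A *ᵥ Pi.single j 1) := by
  classical
  have h1 := h (Pi.single j 1)
  rw [QP_single] at h1
  simp only [Pi.single_apply, mul_ite, mul_one, mul_zero, Finset.sum_ite_eq', Finset.mem_univ,
    if_true] at h1
  have h2 := CharTwo.add_self_eq_zero (QP m (A *ᵥ Pi.single j 1))
  linear_combination h1 - h2

theorem cond_of_symp [CharP F 2] (m : ℕ) (A : Matrix (Fin m ⊕ Fin m) (Fin m ⊕ Fin m) F)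
    (hA : A ∈ Matrix.symplecticGroup (Fin m) F) (r : Fin m ⊕ Fin m → F)
    (hr : ∀ j, r j ^ 2 = QP m (A *ᵥ Pi.single j 1)) (w : Fin m ⊕ Fin m → F) :
    (∑ j, r j * w j) ^ 2 + QP m (A *ᵥ w) = QP m w := by
  classical
  rw [mem_symp_iff] at hA
  have hadd : ∀ u u' : Fin m ⊕ Fin m → F, QP m (A *ᵥ (u + u')) + QP m (u + u') =
      (QP m (A *ᵥ u) + QP m u) + (QP m (A *ᵥ u') + QP m u') := by
    intro u u'
    have h1 := hA u u'
    simp only [QuadraticMap.polar, ← Matrix.mulVec_add] at h1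
    have h2 := CharTwo.add_self_eq_zero (QP m (u + u') - QP m u - QP m u')
    linear_combination h1 + h2
  let T : (Fin m ⊕ Fin m → F) →+ F :=
    AddMonoidHom.mk' (fun u => QP m (A *ᵥ u) + QP m u) hadd
  have hT : ∀ u, T u = QP m (A *ᵥ u) + QP m u := fun u => rfl
  have hTs : ∀ j, T (Pi.single j (w j)) = (r j * w j) ^ 2 := by
    intro j
    have h1 : (Pi.single j (w j) : Fin m ⊕ Fin m → F) = w j • Pi.single j 1 := by
      funext k
      simp [Pi.single_apply]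
    rw [hT, QP_single, add_zero, h1, Matrix.mulVec_smul, QuadraticMap.map_smul, ← hr]
    simp only [smul_eq_mul]
    ring
  have hTw : T w = (∑ j, r j * w j) ^ 2 := by
    conv_lhs => rw [← Finset.univ_sum_single w]
    rw [map_sum, CharTwo.sum_sq]
    exact Finset.sum_congr rfl (fun j _ => hTs j)
  rw [← hTw, hT]
  have h2 := CharTwo.add_self_eq_zero (QP m (A *ᵥ w))
  linear_combination h2

theorem col_facts [CharP F 2] (m : ℕ) (g : ↥(Cfsg.isometryGroup F (⇑(QO (F := F) m)))) :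
    ((g : GL (Unit ⊕ (Fin m ⊕ Fin m)) F) : Matrix (Unit ⊕ (Fin m ⊕ Fin m)) (Unit ⊕ (Fin m ⊕ Fin m)) F) (Sum.inl ()) (Sum.inl ()) = 1 ∧
    ∀ i, ((g : GL (Unit ⊕ (Fin m ⊕ Fin m)) F) : Matrix (Unit ⊕ (Fin m ⊕ Fin m)) (Unit ⊕ (Fin m ⊕ Fin m)) F) (Sum.inr i) (Sum.inl ()) = 0 := by
  classical
  have hiso := iso_apply (QO m) g
  obtain ⟨M, hM⟩ : ∃ M : Matrix (Unit ⊕ (Fin m ⊕ Fin m)) (Unit ⊕ (Fin m ⊕ Fin m)) F,
      M = ((g : GL (Unit ⊕ (Fin m ⊕ Fin m)) F) : Matrix (Unit ⊕ (Fin m ⊕ Fin m)) (Unit ⊕ (Fin m ⊕ Fin m)) F) := ⟨_, rfl⟩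
  rw [← hM] at hiso ⊢
  have hc : ∀ j, (M *ᵥ Pi.single (Sum.inl ()) 1) j = M j (Sum.inl ()) := by
    intro j
    simp
  have hrad : ∀ v, QuadraticMap.polar (QO m) (M *ᵥ Pi.single (Sum.inl ()) 1) v = 0 := by
    intro v
    have hv : v = M *ᵥ ((((g : GL (Unit ⊕ (Fin m ⊕ Fin m)) F)⁻¹ :
        GL (Unit ⊕ (Fin m ⊕ Fin m)) F) : Matrix (Unit ⊕ (Fin m ⊕ Fin m)) (Unit ⊕ (Fin m ⊕ Fin m)) F) *ᵥ v) := by
      rw [hM, Matrix.mulVec_mulVec, Units.mul_inv, Matrix.one_mulVec]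
    rw [hv, polar_mulVec (QO m) M hiso, polar_QO]
    simp [CharTwo.two_eq_zero]
  have h1 : ∀ i, M (Sum.inr (Sum.inl i)) (Sum.inl ()) = 0 := by
    intro i
    have h := hrad (Pi.single (Sum.inr (Sum.inr i)) 1)
    rw [polar_QO] at h
    rw [← hc]
    simpa [Pi.single_apply] using h
  have h2 : ∀ i, M (Sum.inr (Sum.inr i)) (Sum.inl ()) = 0 := by
    intro i
    have h := hrad (Pi.single (Sum.inr (Sum.inl i)) 1)
    rw [polar_QO] at h
    rw [← hc]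
    simpa [Pi.single_apply] using h
  have h10 : ∀ i, M (Sum.inr i) (Sum.inl ()) = 0 := by
    rintro (i | i)
    · exact h1 i
    · exact h2 i
  refine ⟨?_, h10⟩
  have h3 := hiso (Pi.single (Sum.inl ()) 1)
  rw [QO_apply, QO_apply, Cfsg.quadFormOdd, Cfsg.quadFormOdd] at h3
  simp only [hc, h1, h2, mul_zero, Finset.sum_const_zero, add_zero, Pi.single_eq_same, one_pow]
    at h3
  have h4 : (M (Sum.inl ()) (Sum.inl ()) - 1) ^ 2 = 0 := by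
    have h2' : (2 : F) = 0 := CharTwo.two_eq_zero
    have h5 : ∑ x : Fin m, (Pi.single (Sum.inl ()) 1 : Unit ⊕ (Fin m ⊕ Fin m) → F)
        (Sum.inr (Sum.inl x)) * (Pi.single (Sum.inl ()) 1 : Unit ⊕ (Fin m ⊕ Fin m) → F)
        (Sum.inr (Sum.inr x)) = 0 := by
      apply Finset.sum_eq_zero
      intro i _
      simp
    rw [h5, add_zero] at h3
    linear_combination h3 - (M (Sum.inl ()) (Sum.inl ()) - 1) * h2'
  have h5 := pow_eq_zero_iff (two_ne_zero) |>.1 h4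
  linear_combination h5

/-- the symplectic part of an isometry of the odd-dimensional form in characteristic 2 -/
noncomputable def Φ [CharP F 2] (m : ℕ) :
    ↥(Cfsg.isometryGroup F (⇑(QO (F := F) m))) →* ↥(Matrix.symplecticGroup (Fin m) F) where
  toFun g := ⟨((g : GL (Unit ⊕ (Fin m ⊕ Fin m)) F) :
      Matrix (Unit ⊕ (Fin m ⊕ Fin m)) (Unit ⊕ (Fin m ⊕ Fin m)) F).toBlocks₂₂,
    symp_of_cond m _ (fun j => ((g : GL (Unit ⊕ (Fin m ⊕ Fin m)) F) :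
      Matrix (Unit ⊕ (Fin m ⊕ Fin m)) (Unit ⊕ (Fin m ⊕ Fin m)) F) (Sum.inl ()) (Sum.inr j))
      ((iso_iff m _ (col_facts m g).1 (col_facts m g).2).1 (iso_apply (QO m) g))⟩
  map_one' := by
    apply Subtype.ext
    show (1 : Matrix (Unit ⊕ (Fin m ⊕ Fin m)) (Unit ⊕ (Fin m ⊕ Fin m)) F).toBlocks₂₂ = 1
    ext i j
    simp [Matrix.toBlocks₂₂, Matrix.one_apply]
  map_mul' g g' := by
    apply Subtype.ext
    show (((g * g' : ↥(Cfsg.isometryGroup F (⇑(QO (F := F) m)))) :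
        GL (Unit ⊕ (Fin m ⊕ Fin m)) F) :
        Matrix (Unit ⊕ (Fin m ⊕ Fin m)) (Unit ⊕ (Fin m ⊕ Fin m)) F).toBlocks₂₂ =
      ((g : GL (Unit ⊕ (Fin m ⊕ Fin m)) F) :
        Matrix (Unit ⊕ (Fin m ⊕ Fin m)) (Unit ⊕ (Fin m ⊕ Fin m)) F).toBlocks₂₂ *
      ((g' : GL (Unit ⊕ (Fin m ⊕ Fin m)) F) :
        Matrix (Unit ⊕ (Fin m ⊕ Fin m)) (Unit ⊕ (Fin m ⊕ Fin m)) F).toBlocks₂₂
    ext i j
    rw [Subgroup.coe_mul, Units.val_mul]
    simp [Matrix.toBlocks₂₂, Matrix.mul_apply, Fintype.sum_sum_type, (col_facts m g).2]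

theorem Φ_coe [CharP F 2] (m : ℕ) (g : ↥(Cfsg.isometryGroup F (⇑(QO (F := F) m)))) :
    ((Φ m g : ↥(Matrix.symplecticGroup (Fin m) F)) : Matrix (Fin m ⊕ Fin m) (Fin m ⊕ Fin m) F) =
      ((g : GL (Unit ⊕ (Fin m ⊕ Fin m)) F) :
        Matrix (Unit ⊕ (Fin m ⊕ Fin m)) (Unit ⊕ (Fin m ⊕ Fin m)) F).toBlocks₂₂ := rfl

theorem Φ_injective [CharP F 2] (m : ℕ) : Function.Injective (Φ (F := F) m) := by
  intro g g' h
  have hA := congrArg Subtype.val h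
  rw [Φ_coe, Φ_coe] at hA
  obtain ⟨h00, h10⟩ := col_facts m g
  obtain ⟨h00', h10'⟩ := col_facts m g'
  have hr := r_sq m _ _ ((iso_iff m _ h00 h10).1 (iso_apply (QO m) g))
  have hr' := r_sq m _ _ ((iso_iff m _ h00' h10').1 (iso_apply (QO m) g'))
  apply Subtype.ext
  apply Units.ext
  ext i j
  rcases i with u | i <;> rcases j with u' | j
  · rw [h00, h00']
  · have h1 := hr j
    have h1' := hr' j
    rw [hA, ← h1'] at h1
    have h2' : (2 : F) = 0 := CharTwo.two_eq_zero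
    have h3 : (((g : GL (Unit ⊕ (Fin m ⊕ Fin m)) F) :
        Matrix (Unit ⊕ (Fin m ⊕ Fin m)) (Unit ⊕ (Fin m ⊕ Fin m)) F) (Sum.inl ()) (Sum.inr j) -
        ((g' : GL (Unit ⊕ (Fin m ⊕ Fin m)) F) :
        Matrix (Unit ⊕ (Fin m ⊕ Fin m)) (Unit ⊕ (Fin m ⊕ Fin m)) F) (Sum.inl ()) (Sum.inr j)) ^ 2
        = 0 := by
      linear_combination h1 + (((g' : GL (Unit ⊕ (Fin m ⊕ Fin m)) F) :
        Matrix (Unit ⊕ (Fin m ⊕ Fin m)) (Unit ⊕ (Fin m ⊕ Fin m)) F) (Sum.inl ()) (Sum.inr j) ^ 2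
        - ((g : GL (Unit ⊕ (Fin m ⊕ Fin m)) F) :
        Matrix (Unit ⊕ (Fin m ⊕ Fin m)) (Unit ⊕ (Fin m ⊕ Fin m)) F) (Sum.inl ()) (Sum.inr j) *
        ((g' : GL (Unit ⊕ (Fin m ⊕ Fin m)) F) :
        Matrix (Unit ⊕ (Fin m ⊕ Fin m)) (Unit ⊕ (Fin m ⊕ Fin m)) F) (Sum.inl ()) (Sum.inr j)) * h2'
    have h4 := (pow_eq_zero_iff two_ne_zero).1 h3
    exact sub_eq_zero.1 h4
  · rw [h10, h10']
  · exact congrFun (congrFun hA i) j

theorem Φ_surjective [Fintype F] [CharP F 2] (m : ℕ) : Function.Surjective (Φ (F := F) m) := by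
  classical
  rintro ⟨A, hA⟩
  have hsq : ∀ j, ∃ r : F, r ^ 2 = QP m (A *ᵥ Pi.single j 1) := by
    intro j
    have h1 : ringChar F = 2 := ringChar.eq F 2
    obtain ⟨s, hs⟩ := FiniteField.isSquare_of_char_two h1 (QP m (A *ᵥ Pi.single j 1))
    exact ⟨s, by rw [hs, sq]⟩
  choose r hr using hsq
  let M : Matrix (Unit ⊕ (Fin m ⊕ Fin m)) (Unit ⊕ (Fin m ⊕ Fin m)) F :=
    Matrix.fromBlocks 1 (Matrix.of fun _ j => r j) 0 A
  have h00 : M (Sum.inl ()) (Sum.inl ()) = 1 := by simp [M]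
  have h10 : ∀ i, M (Sum.inr i) (Sum.inl ()) = 0 := by
    intro i
    simp [M]
  have h22 : M.toBlocks₂₂ = A := Matrix.toBlocks_fromBlocks₂₂ _ _ _ _
  have hM : ∀ v, QO m (M *ᵥ v) = QO m v := by
    rw [iso_iff m M h00 h10]
    intro w
    rw [h22]
    exact cond_of_symp m A hA r hr w
  refine ⟨mkO (QO m) (nd_QO m) M hM, ?_⟩
  apply Subtype.ext
  rw [Φ_coe, mkO_coe, h22]

/-- In characteristic 2, O_{2m+1}(q) is isomorphic to Sp_{2m}(q). -/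
theorem result {F : Type*} [Field F] [Fintype F] [CharP F 2] (m : ℕ) : Nonempty (Cfsg.isometryGroup F (Cfsg.quadFormOdd m F) ≃* Matrix.symplecticGroup (Fin m) F) := by
  rw [← QO_coe]
  exact ⟨MulEquiv.ofBijective (Φ m) ⟨Φ_injective m, Φ_surjective m⟩⟩

end Cfsg.Agent.S0304
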