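import Cfsg.Statements.S0672
import Mathlib

set_option autoImplicit false
open Cfsg

namespace Cfsg.Agent.S0672

section
variable {G : Type*} [Group G] {K : Type*} [Field K] {Ω : Type*} [Fintype Ω] [DecidableEq Ω]
  [MulAction G Ω]

/-- The linear map to the pairs module attached to a coefficient function. -/
def Tc (c : Ω → Set.powersetCard Ω 2 → K) : (Ω → K) →ₗ[K] (Set.powersetCard Ω 2 → K) where
  toFun f := fun π => ∑ x, c x π * f x
  map_add' f₁ f₂ := by funext π; simp [mul_add, Finset.sum_add_distrib]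
  map_smul' r f := by funext π; simp [Finset.mul_sum, mul_left_comm]

omit [DecidableEq Ω] in
theorem Tc_apply (c : Ω → Set.powersetCard Ω 2 → K) (f : Ω → K) (π : Set.powersetCard Ω 2) :
    Tc c f π = ∑ x, c x π * f x := rfl

theorem Tc_equivariant (c : Ω → Set.powersetCard Ω 2 → K)
    (hc : ∀ (g : G) x π, c (g • x) (g • π) = c x π) (g : G) (f : Ω → K) :
    Tc c (Cfsg.permRep K G Ω g f) = Cfsg.permRep K G (Set.powersetCard Ω 2) g (Tc c f) := by
  funext π
  show ∑ x, c x π * f (g⁻¹ • x) = ∑ x, c x (g⁻¹ • π) * f x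
  refine Fintype.sum_equiv (MulAction.toPerm g⁻¹) _ _ (fun x => ?_)
  show c x π * f (g⁻¹ • x) = c (g⁻¹ • x) (g⁻¹ • π) * f (g⁻¹ • x)
  rw [hc]

theorem sum_inv [MulAction.IsPretransitive G (Set.powersetCard Ω 2)]
    (c : Ω → Set.powersetCard Ω 2 → K)
    (hc : ∀ (g : G) x π, c (g • x) (g • π) = c x π) (π π₀ : Set.powersetCard Ω 2) :
    ∑ x, c x π = ∑ x, c x π₀ := by
  obtain ⟨g, rfl⟩ := MulAction.exists_smul_eq G π₀ π
  refine (Fintype.sum_equiv (MulAction.toPerm g) _ _ (fun x => ?_)).symm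
  show c x π₀ = c (g • x) (g • π₀)
  rw [hc]

theorem L1
    (h : ∀ f : Representation.IntertwiningMap (Cfsg.permSumZero K G Ω).toRepresentation
      (Cfsg.permRep K G (Set.powersetCard Ω 2)),
      (∀ v : (Cfsg.permSumZero K G Ω).toSubmodule,
        (v : Ω → K) ∈ (Cfsg.permConstants K G Ω).toSubmodule → f v = 0) → f = 0)
    (c : Ω → Set.powersetCard Ω 2 → K)
    (hc : ∀ (g : G) x π, c (g • x) (g • π) = c x π) (h0 : ∀ π, ∑ x, c x π = 0)
    (v : Ω → K) (hv : ∑ x, v x = 0) (π : Set.powersetCard Ω 2) : ∑ x, c x π * v x = 0 := by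
  let F : Representation.IntertwiningMap (Cfsg.permSumZero K G Ω).toRepresentation
      (Cfsg.permRep K G (Set.powersetCard Ω 2)) :=
    { toLinearMap := (Tc c).comp (Cfsg.permSumZero K G Ω).toSubmodule.subtype
      isIntertwining' := by
        intro g
        apply LinearMap.ext
        intro w
        exact Tc_equivariant c hc g (w : Ω → K) }
  have hF : F = 0 := h F (by
    intro w hw
    change (w : Ω → K) ∈ Submodule.span K {fun _ => (1 : K)} at hw
    rw [Submodule.mem_span_singleton] at hw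
    obtain ⟨r, hr⟩ := hw
    show Tc c (w : Ω → K) = 0
    rw [← hr, map_smul]
    have h1 : Tc c (fun _ => (1 : K)) = 0 := by
      funext π
      show ∑ x, c x π * 1 = 0
      simp [h0]
    rw [h1, smul_zero])
  have h2 := congrArg (fun F' : Representation.IntertwiningMap
      (Cfsg.permSumZero K G Ω).toRepresentation
      (Cfsg.permRep K G (Set.powersetCard Ω 2)) => F' ⟨v, hv⟩) hF
  exact congrFun h2 π

theorem L2
    (h : ∀ f : Representation.IntertwiningMap (Cfsg.permSumZero K G Ω).toRepresentation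
      (Cfsg.permRep K G (Set.powersetCard Ω 2)),
      (∀ v : (Cfsg.permSumZero K G Ω).toSubmodule,
        (v : Ω → K) ∈ (Cfsg.permConstants K G Ω).toSubmodule → f v = 0) → f = 0)
    (c : Ω → Set.powersetCard Ω 2 → K)
    (hc : ∀ (g : G) x π, c (g • x) (g • π) = c x π) (h0 : ∀ π, ∑ x, c x π = 0)
    (x y : Ω) (π : Set.powersetCard Ω 2) : c x π = c y π := by
  have h1 := L1 h c hc h0 (Pi.single x 1 - Pi.single y 1) (by simp) π
  simp only [Pi.sub_apply, mul_sub, Finset.sum_sub_distrib, Pi.single_apply, mul_ite, mul_one,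
    mul_zero, Finset.sum_ite_eq', Finset.mem_univ, if_true] at h1
  exact sub_eq_zero.mp h1

/-- Indicator of the orbit of a point-pair flag. -/
noncomputable def orbInd (G : Type*) [Group G] [MulAction G Ω] (K : Type*) [Field K] (x₀ : Ω)
    (π₀ : Set.powersetCard Ω 2) : Ω → Set.powersetCard Ω 2 → K :=
  fun x π => by
    classical
    exact if ∃ g : G, g • x₀ = x ∧ g • π₀ = π then 1 else 0

omit [Fintype Ω] in
theorem orbInd_inv (x₀ : Ω) (π₀ : Set.powersetCard Ω 2) (g : G) (x : Ω)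
    (π : Set.powersetCard Ω 2) : orbInd G K x₀ π₀ (g • x) (g • π) = orbInd G K x₀ π₀ x π := by
  classical
  have hiff : (∃ k : G, k • x₀ = g • x ∧ k • π₀ = g • π) ↔ (∃ k : G, k • x₀ = x ∧ k • π₀ = π) := by
    constructor
    · rintro ⟨k, h1, h2⟩
      refine ⟨g⁻¹ * k, ?_, ?_⟩
      · rw [mul_smul, h1, inv_smul_smul]
      · rw [mul_smul, h2, inv_smul_smul]
    · rintro ⟨k, h1, h2⟩
      refine ⟨g * k, ?_, ?_⟩
      · rw [mul_smul, h1]
      · rw [mul_smul, h2]
  simp only [orbInd, hiff]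

omit [Fintype Ω] in
theorem orbInd_self (x₀ : Ω) (π₀ : Set.powersetCard Ω 2) : orbInd G K x₀ π₀ x₀ π₀ = 1 := by
  classical
  have : ∃ g : G, g • x₀ = x₀ ∧ g • π₀ = π₀ := ⟨1, one_smul _ _, one_smul _ _⟩
  simp only [orbInd, this, if_true]

omit [Fintype Ω] in
theorem orbInd_of_not (x₀ : Ω) (π₀ : Set.powersetCard Ω 2) (x : Ω) (π : Set.powersetCard Ω 2)
    (hno : ¬ ∃ g : G, g • x₀ = x ∧ g • π₀ = π) : orbInd G K x₀ π₀ x π = 0 := by
  classical
  simp only [orbInd, hno, if_false]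

omit [Fintype Ω] in
theorem smul_mem_pair (g : G) (π : Set.powersetCard Ω 2) (x : Ω) (hx : x ∈ (π : Finset Ω)) :
    g • x ∈ ((g • π : Set.powersetCard Ω 2) : Finset Ω) := by
  rw [Set.powersetCard.coe_smul]
  exact Finset.smul_mem_smul_finset hx

omit [Fintype Ω] in
theorem orbInd_mem (x₀ : Ω) (π₀ : Set.powersetCard Ω 2) (hx₀ : x₀ ∉ (π₀ : Finset Ω)) (y : Ω)
    (hy : y ∈ (π₀ : Finset Ω)) : orbInd G K x₀ π₀ y π₀ = 0 := by
  apply orbInd_of_not
  rintro ⟨g, h1, h2⟩
  apply hx₀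
  have h3 := smul_mem_pair g⁻¹ π₀ y hy
  rw [← h1, inv_smul_smul] at h3
  have h4 : g⁻¹ • π₀ = π₀ := by
    rw [inv_smul_eq_iff]; exact h2.symm
  rw [h4] at h3
  exact h3

theorem claim1 [MulAction.IsPretransitive G (Set.powersetCard Ω 2)]
    (h : ∀ f : Representation.IntertwiningMap (Cfsg.permSumZero K G Ω).toRepresentation
      (Cfsg.permRep K G (Set.powersetCard Ω 2)),
      (∀ v : (Cfsg.permSumZero K G Ω).toSubmodule,
        (v : Ω → K) ∈ (Cfsg.permConstants K G Ω).toSubmodule → f v = 0) → f = 0)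
    (π₀ : Set.powersetCard Ω 2) (x₀ x₁ : Ω) (hx₀ : x₀ ∉ (π₀ : Finset Ω))
    (hx₁ : x₁ ∉ (π₀ : Finset Ω)) : ∃ g : G, g • x₀ = x₁ ∧ g • π₀ = π₀ := by
  by_contra hcon
  have hcon' : ¬ ∃ g : G, g • x₁ = x₀ ∧ g • π₀ = π₀ := by
    rintro ⟨g, h1, h2⟩
    apply hcon
    refine ⟨g⁻¹, ?_, ?_⟩
    · rw [inv_smul_eq_iff]; exact h1.symm
    · rw [inv_smul_eq_iff]; exact h2.symm
  obtain ⟨y, hy⟩ : ∃ y, y ∈ (π₀ : Finset Ω) := by
    have : (π₀ : Finset Ω).Nonempty := by
      rw [← Finset.card_pos, π₀.2]; norm_num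
    exact this
  set c₀ : Ω → Set.powersetCard Ω 2 → K := orbInd G K x₀ π₀ with hc₀
  set c₁ : Ω → Set.powersetCard Ω 2 → K := orbInd G K x₁ π₀ with hc₁
  set n₀ : K := ∑ x, c₀ x π₀ with hn₀
  set n₁ : K := ∑ x, c₁ x π₀ with hn₁
  let c : Ω → Set.powersetCard Ω 2 → K := fun x π => n₁ * c₀ x π - n₀ * c₁ x π
  have hcinv : ∀ (g : G) x π, c (g • x) (g • π) = c x π := by
    intro g x π
    simp only [c, hc₀, hc₁, orbInd_inv]
  have hcsum : ∀ π, ∑ x, c x π = 0 := by
    intro π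
    simp only [c, Finset.sum_sub_distrib, ← Finset.mul_sum]
    rw [sum_inv c₀ (orbInd_inv x₀ π₀) π π₀, sum_inv c₁ (orbInd_inv x₁ π₀) π π₀]
    ring
  have e1 := L2 h c hcinv hcsum x₀ y π₀
  have e2 := L2 h c hcinv hcsum x₁ y π₀
  simp only [c, hc₀, hc₁, orbInd_self, orbInd_mem x₀ π₀ hx₀ y hy, orbInd_mem x₁ π₀ hx₁ y hy,
    orbInd_of_not x₁ π₀ x₀ π₀ hcon', orbInd_of_not x₀ π₀ x₁ π₀ hcon, mul_one, mul_zero,
    sub_zero, zero_sub, neg_eq_zero] at e1 e2
  have hc₀sum : ∀ π, ∑ x, c₀ x π = 0 := by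
    intro π
    rw [sum_inv c₀ (orbInd_inv x₀ π₀) π π₀]
    exact e2
  have e3 := L2 h c₀ (orbInd_inv x₀ π₀) hc₀sum x₀ y π₀
  rw [hc₀, orbInd_self, orbInd_mem x₀ π₀ hx₀ y hy] at e3
  exact one_ne_zero e3

end

/-- Let a finite group act faithfully and doubly transitively with point stabilisers of even order, and let `K` have characteristic `p` dividing the degree. If the heart of the permutation module admits no non-zero equivariant map to the permutation module on unordered pairs (phrased: every intertwining map from the sum-zero functions vanishing on the constants is zero), the action is triply transitive. -/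
theorem result {G : Type*} [Group G] [Finite G] {K : Type*} [Field K] {p : ℕ} [Fact p.Prime] [CharP K p] {Ω : Type*} [Fintype Ω] [DecidableEq Ω] [MulAction G Ω] [FaithfulSMul G Ω] (h2 : MulAction.IsMultiplyPretransitive G Ω 2) (hp : p ∣ Fintype.card Ω) (heven : ∀ a : Ω, Even (Nat.card (MulAction.stabilizer G a))) (h : ∀ f : Representation.IntertwiningMap (Cfsg.permSumZero K G Ω).toRepresentation (Cfsg.permRep K G (Set.powersetCard Ω 2)), (∀ v : (Cfsg.permSumZero K G Ω).toSubmodule, (v : Ω → K) ∈ (Cfsg.permConstants K G Ω).toSubmodule → f v = 0) → f = 0) : MulAction.IsMultiplyPretransitive G Ω 3 := by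
  classical
  have : MulAction.IsPretransitive G (Set.powersetCard Ω 2) :=
    Set.powersetCard.isPretransitive_of_isMultiplyPretransitive G h2
  have h2' : ∀ a b c d : Ω, a ≠ b → c ≠ d → ∃ g : G, g • a = c ∧ g • b = d :=
    fun a b c d hab hcd => MulAction.is_two_pretransitive_iff.mp h2 hab hcd
  -- setwise stabiliser of a pair is transitive on the complement
  have c1 : ∀ y z : Ω, y ≠ z → ∀ u w : Ω, u ≠ y → u ≠ z → w ≠ y → w ≠ z →
      ∃ g : G, g • u = w ∧ ((g • y = y ∧ g • z = z) ∨ (g • y = z ∧ g • z = y)) := by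
    intro y z hyz u w huy huz hwy hwz
    let π₀ : Set.powersetCard Ω 2 := ⟨{y, z}, Finset.card_pair hyz⟩
    have hπ₀ : ∀ a : Ω, a ∈ (π₀ : Finset Ω) ↔ a = y ∨ a = z := by
      intro a
      show a ∈ ({y, z} : Finset Ω) ↔ _
      simp
    obtain ⟨g, hg1, hg2⟩ := claim1 h π₀ u w (by rw [hπ₀]; tauto) (by rw [hπ₀]; tauto)
    refine ⟨g, hg1, ?_⟩
    have hy := smul_mem_pair g π₀ y ((hπ₀ y).mpr (Or.inl rfl))
    have hz := smul_mem_pair g π₀ z ((hπ₀ z).mpr (Or.inr rfl))
    rw [hg2, hπ₀] at hy hz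
    have hne : g • y ≠ g • z := fun hh => hyz (smul_left_cancel g hh)
    rcases hy with hy | hy <;> rcases hz with hz | hz
    · exact absurd (hy.trans hz.symm) hne
    · exact Or.inl ⟨hy, hz⟩
    · exact Or.inr ⟨hy, hz⟩
    · exact absurd (hy.trans hz.symm) hne
  -- an element swapping y and z and fixing w
  have hswap : ∀ y z : Ω, y ≠ z → ∀ w : Ω, w ≠ y → w ≠ z →
      ∃ k : G, k • y = z ∧ k • z = y ∧ k • w = w := by
    intro y z hyz w hwy hwz
    have hdvd : 2 ∣ Nat.card (MulAction.stabilizer G w) := (heven w).two_dvd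
    obtain ⟨s, hs⟩ := exists_prime_orderOf_dvd_card' 2 hdvd
    have hs1 : (s : G) ≠ 1 := by
      intro h1
      have : s = 1 := Subtype.ext h1
      rw [this, orderOf_one] at hs
      norm_num at hs
    have hs2 : (s : G) * (s : G) = 1 := by
      have := pow_orderOf_eq_one s
      rw [hs, pow_two] at this
      exact congrArg Subtype.val this
    have hsw : (s : G) • w = w := s.2
    obtain ⟨y', hy'⟩ : ∃ y' : Ω, (s : G) • y' ≠ y' := by
      by_contra hall
      push Not at hall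
      apply hs1
      apply FaithfulSMul.eq_of_smul_eq_smul (α := Ω)
      intro a
      rw [hall a, one_smul]
    set z' := (s : G) • y' with hz'
    have hsz' : (s : G) • z' = y' := by
      rw [hz', ← mul_smul, hs2, one_smul]
    have hy'w : y' ≠ w := by
      rintro rfl
      exact hy' hsw
    have hz'w : z' ≠ w := by
      intro hh
      apply hy'
      have : (s : G) • z' = z' := by rw [hh]; exact hsw
      rw [hsz'] at this
      exact this.symm
    obtain ⟨m, hm1, hm2⟩ := h2' _ _ _ _ (Ne.symm hy' : y' ≠ z') hyz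
    set w' := m • w with hw'
    have hw'y : w' ≠ y := by
      intro hh
      rw [hw', ← hm1] at hh
      exact hy'w (smul_left_cancel m hh).symm
    have hw'z : w' ≠ z := by
      intro hh
      rw [hw', ← hm2] at hh
      exact hz'w (smul_left_cancel m hh).symm
    set s' := m * (s : G) * m⁻¹ with hs'
    have hs'y : s' • y = z := by
      rw [hs', mul_smul, mul_smul, ← hm1, inv_smul_smul, ← hz', hm2]
    have hs'z : s' • z = y := by
      rw [hs', mul_smul, mul_smul, ← hm2, inv_smul_smul, hsz', hm1]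
    have hs'w : s' • w' = w' := by
      rw [hs', mul_smul, mul_smul, hw', inv_smul_smul, hsw]
    obtain ⟨g', hg'1, hg'2⟩ := c1 y z hyz w' w hw'y hw'z hwy hwz
    refine ⟨g' * s' * g'⁻¹, ?_, ?_, ?_⟩
    · rcases hg'2 with ⟨ha, hb⟩ | ⟨ha, hb⟩
      · have : g'⁻¹ • y = y := by rw [inv_smul_eq_iff]; exact ha.symm
        rw [mul_smul, mul_smul, this, hs'y, hb]
      · have : g'⁻¹ • y = z := by rw [inv_smul_eq_iff]; exact hb.symm
        rw [mul_smul, mul_smul, this, hs'z, ha]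
    · rcases hg'2 with ⟨ha, hb⟩ | ⟨ha, hb⟩
      · have : g'⁻¹ • z = z := by rw [inv_smul_eq_iff]; exact hb.symm
        rw [mul_smul, mul_smul, this, hs'z, ha]
      · have : g'⁻¹ • z = y := by rw [inv_smul_eq_iff]; exact ha.symm
        rw [mul_smul, mul_smul, this, hs'y, hb]
    · have : g'⁻¹ • w = w' := by rw [inv_smul_eq_iff]; exact hg'1.symm
      rw [mul_smul, mul_smul, this, hs'w, hg'1]
  -- pointwise stabiliser of two points is transitive on the rest
  have hstar : ∀ y z : Ω, y ≠ z → ∀ u w : Ω, u ≠ y → u ≠ z → w ≠ y → w ≠ z →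
      ∃ g : G, g • y = y ∧ g • z = z ∧ g • u = w := by
    intro y z hyz u w huy huz hwy hwz
    obtain ⟨g, hg1, hg2⟩ := c1 y z hyz u w huy huz hwy hwz
    rcases hg2 with ⟨ha, hb⟩ | ⟨ha, hb⟩
    · exact ⟨g, ha, hb, hg1⟩
    · obtain ⟨k, hk1, hk2, hk3⟩ := hswap y z hyz w hwy hwz
      refine ⟨k * g, ?_, ?_, ?_⟩
      · rw [mul_smul, ha, hk2]
      · rw [mul_smul, hb, hk1]
      · rw [mul_smul, hg1, hk3]
  refine ⟨fun x y => ?_⟩
  have hx01 : x 0 ≠ x 1 := fun hh => by simpa using x.injective hh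
  have hx02 : x 0 ≠ x 2 := fun hh => by simpa using x.injective hh
  have hx12 : x 1 ≠ x 2 := fun hh => by simpa using x.injective hh
  have hy01 : y 0 ≠ y 1 := fun hh => by simpa using y.injective hh
  have hy02 : y 0 ≠ y 2 := fun hh => by simpa using y.injective hh
  have hy12 : y 1 ≠ y 2 := fun hh => by simpa using y.injective hh
  obtain ⟨g₁, hg1, hg2⟩ := h2' _ _ _ _ hx01 hy01
  have hu0 : g₁ • x 2 ≠ y 0 := by
    rw [← hg1]; exact fun hh => hx02 (smul_left_cancel g₁ hh).symm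
  have hu1 : g₁ • x 2 ≠ y 1 := by
    rw [← hg2]; exact fun hh => hx12 (smul_left_cancel g₁ hh).symm
  obtain ⟨g₂, hg3, hg4, hg5⟩ := hstar (y 0) (y 1) hy01 (g₁ • x 2) (y 2) hu0 hu1
    (Ne.symm hy02) (Ne.symm hy12)
  refine ⟨g₂ * g₁, ?_⟩
  ext i
  fin_cases i
  · show (g₂ * g₁) • x 0 = y 0
    rw [mul_smul, hg1, hg3]
  · show (g₂ * g₁) • x 1 = y 1
    rw [mul_smul, hg2, hg4]
  · show (g₂ * g₁) • x 2 = y 2
    rw [mul_smul, hg5]

end Cfsg.Agent.S0672
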