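import Cfsg.Statements.S0673
import Mathlib

set_option autoImplicit false
open Cfsg

namespace Cfsg.Agent.S0673

section general
variable {K : Type*} [Field K] {V : Type*} [AddCommGroup V] [Module K V] [FiniteDimensional K V]

theorem finrank_ker_pow_le (D : Module.End K V) (h1 : Module.finrank K (LinearMap.ker D) ≤ 1)
    (k : ℕ) : Module.finrank K (LinearMap.ker (D ^ k)) ≤ k := by
  induction k with
  | zero =>
    have : LinearMap.ker (D ^ 0) = ⊥ := by
      rw [pow_zero]; exact LinearMap.ker_id
    rw [this]; simp
  | succ k ih =>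
    let g : LinearMap.ker (D ^ (k + 1)) →ₗ[K] LinearMap.ker (D ^ k) :=
      (D.comp (LinearMap.ker (D ^ (k + 1))).subtype).codRestrict (LinearMap.ker (D ^ k)) (by
        intro x
        have hx := x.2
        rw [LinearMap.mem_ker] at hx ⊢
        have hx' : (D ^ k * D) x.1 = 0 := by rw [← pow_succ]; exact hx
        exact hx')
    have hrn := LinearMap.finrank_range_add_finrank_ker g
    have h2 : Module.finrank K (LinearMap.range g) ≤ k := (Submodule.finrank_le _).trans ih
    have h3 : Module.finrank K (LinearMap.ker g) ≤ 1 := by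
      let ι : LinearMap.ker g →ₗ[K] LinearMap.ker D :=
        ((LinearMap.ker (D ^ (k + 1))).subtype.comp (LinearMap.ker g).subtype).codRestrict
          (LinearMap.ker D) (by
          intro x
          have hx := x.2
          rw [LinearMap.mem_ker] at hx ⊢
          have := congrArg Subtype.val hx
          exact this)
      have hι : Function.Injective ι := by
        intro x y hxy
        have := congrArg Subtype.val hxy
        exact Subtype.ext (Subtype.ext this)
      exact (LinearMap.finrank_le_finrank_of_injective hι).trans h1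
    omega

theorem le_ker_pow_of_invariant (D : Module.End K V) {n : ℕ} (hn : D ^ n = 0) :
    ∀ (r : ℕ) (W : Submodule K V), (∀ w ∈ W, D w ∈ W) → Module.finrank K W ≤ r →
      W ≤ LinearMap.ker (D ^ r) := by
  intro r
  induction r with
  | zero =>
    intro W hW hr
    have : W = ⊥ := by
      apply Submodule.finrank_eq_zero.mp; omega
    rw [this]; exact bot_le
  | succ r ih =>
    intro W hW hr
    by_cases hbot : W = ⊥
    · rw [hbot]; exact bot_le
    have hmap_le : W.map D ≤ W := by
      rintro _ ⟨w, hw, rfl⟩; exact hW w hw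
    have hne : W.map D ≠ W := by
      intro heq
      have hpow : ∀ m : ℕ, W.map (D ^ m) = W := by
        intro m
        induction m with
        | zero => rw [pow_zero]; exact Submodule.map_id W
        | succ m ihm => rw [pow_succ, Module.End.mul_eq_comp, Submodule.map_comp, heq, ihm]
      have := hpow n
      rw [hn, Submodule.map_zero] at this
      exact hbot this.symm
    have hlt : W.map D < W := lt_of_le_of_ne hmap_le hne
    have hfr : Module.finrank K (W.map D) ≤ r := by
      have := Submodule.finrank_lt_finrank_of_lt hlt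
      omega
    have hinv : ∀ w ∈ W.map D, D w ∈ W.map D := by
      rintro _ ⟨w, hw, rfl⟩
      exact ⟨D w, hW w hw, rfl⟩
    have := ih (W.map D) hinv hfr
    intro w hw
    rw [LinearMap.mem_ker, pow_succ]
    have h1 := this ⟨w, hw, rfl⟩
    rw [LinearMap.mem_ker] at h1
    exact h1

end general

section specific
variable {p : ℕ} [Fact p.Prime] {K : Type*} [Field K] [CharP K p]

/-- The shift operator on functions on `ZMod p`. -/
def shift : Module.End K (ZMod p → K) where
  toFun f := fun j => f (j - 1)
  map_add' _ _ := rfl
  map_smul' _ _ := rfl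

omit [CharP K p] in
theorem shift_apply (f : ZMod p → K) (j : ZMod p) : (shift f) j = f (j - 1) := rfl

omit [CharP K p] in
theorem shift_pow_apply (k : ℕ) (f : ZMod p → K) (j : ZMod p) :
    ((shift ^ k) f) j = f (j - k) := by
  induction k generalizing f j with
  | zero => simp
  | succ k ih =>
    rw [pow_succ, Module.End.mul_apply, ih, shift_apply]
    congr 1; push_cast; ring

theorem shift_pow_p : (shift : Module.End K (ZMod p → K)) ^ p = 1 := by
  apply LinearMap.ext; intro f; funext j
  rw [shift_pow_apply]; simp

theorem delta_pow_p : ((shift : Module.End K (ZMod p → K)) - 1) ^ p = 0 := by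
  have h1 : (Polynomial.X - 1 : Polynomial K) ^ p = Polynomial.X ^ p - 1 := by
    rw [sub_pow_char, one_pow]
  have h2 := congrArg (Polynomial.aeval (shift : Module.End K (ZMod p → K))) h1
  simpa [shift_pow_p] using h2

omit [CharP K p] in
theorem ker_delta_le : LinearMap.ker ((shift : Module.End K (ZMod p → K)) - 1) ≤
    Submodule.span K {fun _ => (1 : K)} := by
  intro f hf
  rw [LinearMap.mem_ker] at hf
  have h1 : ∀ j, f (j - 1) = f j := by
    intro j
    have := congrFun hf j
    simp only [LinearMap.sub_apply, Module.End.one_apply, Pi.sub_apply, Pi.zero_apply,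
      shift_apply] at this
    exact sub_eq_zero.mp this
  have h2 : ∀ n : ℕ, f (n : ZMod p) = f 0 := by
    intro n
    induction n with
    | zero => simp
    | succ n ih =>
      rw [← ih, ← h1]
      congr 1; push_cast; ring
  rw [Submodule.mem_span_singleton]
  refine ⟨f 0, ?_⟩
  funext j
  have := h2 j.val
  rw [ZMod.natCast_zmod_val] at this
  simp [this]

omit [CharP K p] in
theorem ker_delta_finrank :
    Module.finrank K (LinearMap.ker ((shift : Module.End K (ZMod p → K)) - 1)) ≤ 1 := by
  refine (Submodule.finrank_mono ker_delta_le).trans ?_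
  have := finrank_span_le_card (R := K) ({fun _ => (1 : K)} : Set (ZMod p → K))
  simpa using this

/-- Evaluation of polynomials at the points of the prime field. -/
noncomputable def ev : Polynomial K →ₗ[K] (ZMod p → K) where
  toFun P := fun j => P.eval (ZMod.cast j : K)
  map_add' P Q := by funext j; simp
  map_smul' c P := by funext j; simp

omit [Fact p.Prime] [CharP K p] in
theorem ev_apply (P : Polynomial K) (j : ZMod p) : (ev P) j = P.eval (ZMod.cast j : K) := rfl

omit [Fact p.Prime] in
theorem cast_injective : Function.Injective (fun j : ZMod p => (ZMod.cast j : K)) :=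
  ZMod.castHom_injective (n := p) K

theorem ev_eq_zero {P : Polynomial K} (hP : P.degree < (p : ℕ)) (h : ev (p := p) P = 0) :
    P = 0 := by
  classical
  apply Polynomial.eq_zero_of_degree_lt_of_eval_index_eq_zero (s := Finset.univ)
    (v := fun j : ZMod p => (ZMod.cast j : K)) (cast_injective.injOn)
  · rw [Finset.card_univ, ZMod.card]; exact hP
  · intro j _
    exact congrFun h j

theorem shift_ev (P : Polynomial K) :
    shift (ev (p := p) P) = ev (Polynomial.taylor (-1) P) := by
  funext j
  rw [shift_apply, ev_apply, ev_apply, Polynomial.taylor_eval, ZMod.cast_sub', ZMod.cast_one',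
    sub_eq_add_neg]

end specific

/-- In characteristic `p`, the translation-invariant subspaces of the space of functions on `ZMod p` are exactly the spaces of polynomial functions of degree less than `r`, one for each `r ≤ p`, of dimension `r`. -/
theorem result {p : ℕ} [Fact p.Prime] {K : Type*} [Field K] [CharP K p] (W : Submodule K (ZMod p → K)) (hW : ∀ f ∈ W, (fun j => f (j - 1)) ∈ W) : ∃ r : ℕ, r ≤ p ∧ Module.finrank K W = r ∧ ∀ f : ZMod p → K, f ∈ W ↔ ∃ P : Polynomial K, P.degree < r ∧ ∀ j : ZMod p, f j = P.eval (ZMod.cast j : K) := by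
  classical
  set D : Module.End K (ZMod p → K) := shift - 1 with hD
  have hDW : ∀ w ∈ W, D w ∈ W := fun w hw => W.sub_mem (hW w hw) hw
  set r := Module.finrank K W with hr
  have hrp : r ≤ p := by
    have := Submodule.finrank_le W
    rwa [Module.finrank_fintype_fun_eq_card, ZMod.card] at this
  have h1 : W ≤ LinearMap.ker (D ^ r) := le_ker_pow_of_invariant D delta_pow_p r W hDW le_rfl
  have h2 : Module.finrank K (LinearMap.ker (D ^ r)) ≤ r :=
    finrank_ker_pow_le D ker_delta_finrank r
  have hWeq : W = LinearMap.ker (D ^ r) := Submodule.eq_of_le_of_finrank_le h1 h2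
  let E : Polynomial.degreeLT K r →ₗ[K] (ZMod p → K) :=
    (ev (p := p)).comp (Polynomial.degreeLT K r).subtype
  have hEinj : Function.Injective E := by
    rw [← LinearMap.ker_eq_bot, LinearMap.ker_eq_bot']
    rintro ⟨P, hP⟩ h0
    have hdeg : P.degree < (p : ℕ) :=
      lt_of_lt_of_le (Polynomial.mem_degreeLT.mp hP) (by exact_mod_cast hrp)
    exact Subtype.ext (ev_eq_zero hdeg h0)
  have hfr : Module.finrank K (LinearMap.range E) = r := by
    rw [LinearMap.finrank_range_of_inj hEinj, (Polynomial.degreeLTEquiv K r).finrank_eq,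
      Module.finrank_fintype_fun_eq_card, Fintype.card_fin]
  have hEinv : ∀ w ∈ LinearMap.range E, D w ∈ LinearMap.range E := by
    rintro _ ⟨⟨P, hP⟩, rfl⟩
    refine Submodule.sub_mem _ ?_ ⟨⟨P, hP⟩, rfl⟩
    refine ⟨⟨Polynomial.taylor (-1) P, ?_⟩, ?_⟩
    · rw [Polynomial.mem_degreeLT, Polynomial.degree_taylor]
      exact Polynomial.mem_degreeLT.mp hP
    · exact (shift_ev P).symm
  have h3 : LinearMap.range E ≤ LinearMap.ker (D ^ r) :=
    le_ker_pow_of_invariant D delta_pow_p r _ hEinv hfr.le
  have hEeq : LinearMap.range E = LinearMap.ker (D ^ r) :=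
    Submodule.eq_of_le_of_finrank_le h3 (by rw [hfr]; exact h2)
  refine ⟨r, hrp, rfl, fun f => ?_⟩
  rw [hWeq, ← hEeq]
  constructor
  · rintro ⟨⟨P, hP⟩, rfl⟩
    exact ⟨P, Polynomial.mem_degreeLT.mp hP, fun j => rfl⟩
  · rintro ⟨P, hP, hf⟩
    exact ⟨⟨P, Polynomial.mem_degreeLT.mpr hP⟩, funext fun j => (hf j).symm⟩

end Cfsg.Agent.S0673
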