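import Cfsg.Statements.S0674
import Mathlib
import Cfsg.Agent.S0673

set_option autoImplicit false
open Cfsg

namespace Cfsg.Agent.S0674

open Polynomial

section coord

variable {α : Type*} [Fintype α] [DecidableEq α] {p : ℕ} [Fact p.Prime]

theorem exists_coord (hα : Fintype.card α = p) (G : Subgroup (Equiv.Perm α))
    [MulAction.IsPretransitive G α] :
    ∃ (e : ZMod p ≃ α) (t : G), ∀ j, (t : Equiv.Perm α) (e j) = e (j + 1) := by
  have hp : p.Prime := Fact.out
  obtain ⟨a₀⟩ : Nonempty α := Fintype.card_pos_iff.mp (by rw [hα]; exact hp.pos)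
  have hdvd : p ∣ Nat.card G := by
    have h1 := MulAction.index_stabilizer_of_transitive G a₀
    have h2 := Subgroup.index_dvd_card (MulAction.stabilizer G a₀)
    rw [h1, Nat.card_eq_fintype_card, hα] at h2
    exact h2
  obtain ⟨t, ht⟩ := exists_prime_orderOf_dvd_card' p hdvd
  have ht' : orderOf (t : Equiv.Perm α) = p := by rw [Subgroup.orderOf_coe]; exact ht
  have hcyc : (t : Equiv.Perm α).IsCycle :=
    Equiv.Perm.isCycle_of_prime_order'' (by rw [hα]; exact hp) (by rw [ht', hα])
  have hsupp : (t : Equiv.Perm α).support = Finset.univ := by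
    apply Finset.eq_univ_of_card
    rw [← hcyc.orderOf, ht', hα]
  have hmod : ∀ n : ℕ, (t : Equiv.Perm α) ^ (n % p) = (t : Equiv.Perm α) ^ n := by
    intro n
    have := pow_mod_orderOf (t : Equiv.Perm α) n
    rwa [ht'] at this
  let f : ZMod p → α := fun j => ((t : Equiv.Perm α) ^ j.val) a₀
  have hf_succ : ∀ j, (t : Equiv.Perm α) (f j) = f (j + 1) := by
    intro j
    show (t : Equiv.Perm α) (((t : Equiv.Perm α) ^ j.val) a₀) =
      ((t : Equiv.Perm α) ^ (j + 1).val) a₀
    rw [← Equiv.Perm.mul_apply, ← pow_succ']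
    congr 1
    rw [ZMod.val_add, ZMod.val_one_eq_one_mod, Nat.add_mod_mod, hmod]
  have hf_surj : Function.Surjective f := by
    intro x
    have hx : x ∈ (t : Equiv.Perm α).support := by rw [hsupp]; exact Finset.mem_univ _
    have ha : a₀ ∈ (t : Equiv.Perm α).support := by rw [hsupp]; exact Finset.mem_univ _
    obtain ⟨i, hi⟩ := hcyc.exists_pow_eq (Equiv.Perm.mem_support.mp ha)
      (Equiv.Perm.mem_support.mp hx)
    refine ⟨(i : ZMod p), ?_⟩
    show ((t : Equiv.Perm α) ^ (i : ZMod p).val) a₀ = x
    rw [ZMod.val_natCast, hmod]; exact hi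
  have hf_bij : Function.Bijective f := by
    rw [Fintype.bijective_iff_surjective_and_card]
    exact ⟨hf_surj, by rw [ZMod.card, hα]⟩
  exact ⟨Equiv.ofBijective f hf_bij, t, hf_succ⟩

variable {K : Type*} [Field K] [CharP K p]

/-- The coordinate function attached to an identification with `ZMod p`. -/
def coord (K : Type*) [Field K] (e : ZMod p ≃ α) : α → K := fun x => (ZMod.cast (e.symm x) : K)

omit [Fintype α] [DecidableEq α] [Fact p.Prime] in
theorem coord_injective (e : ZMod p ≃ α) : Function.Injective (coord K e) := by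
  intro x y hxy
  have := Cfsg.Agent.S0673.cast_injective (p := p) (K := K) hxy
  exact e.symm.injective this

omit [Fintype α] [DecidableEq α] [CharP K p] in
theorem coord_zero (e : ZMod p ≃ α) : coord K e (e 0) = 0 := by
  simp [coord]

omit [Fintype α] [DecidableEq α] in
theorem coord_one (e : ZMod p ≃ α) : coord K e (e 1) = 1 := by
  simp [coord]

omit [Fintype α] [DecidableEq α] in
theorem subrep_poly {G : Subgroup (Equiv.Perm α)} (e : ZMod p ≃ α) (t : G)
    (ht : ∀ j, (t : Equiv.Perm α) (e j) = e (j + 1))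
    (W : Subrepresentation (Cfsg.permRep K G α)) :
    ∃ r : ℕ, r ≤ p ∧ ∀ f : α → K, f ∈ W.toSubmodule ↔
      ∃ P : Polynomial K, P.degree < r ∧ ∀ x, f x = P.eval (coord K e x) := by
  let L : (α → K) ≃ₗ[K] (ZMod p → K) := LinearEquiv.funCongrLeft K K e
  have hL : ∀ (f : α → K) (j : ZMod p), L f j = f (e j) := fun f j => rfl
  let W₀ : Submodule K (ZMod p → K) := W.toSubmodule.map (L : (α → K) →ₗ[K] (ZMod p → K))
  have hW₀ : ∀ f ∈ W₀, (fun j => f (j - 1)) ∈ W₀ := by
    rintro _ ⟨f, hf, rfl⟩
    refine ⟨Cfsg.permRep K G α t f, W.apply_mem_toSubmodule t hf, ?_⟩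
    funext j
    show f (t⁻¹ • e j) = f (e (j - 1))
    congr 1
    have h1 := ht (j - 1)
    rw [sub_add_cancel] at h1
    rw [← h1]
    exact inv_smul_smul t (e (j - 1))
  obtain ⟨r, hr, _, hmem⟩ := Cfsg.Agent.S0673.result W₀ hW₀
  refine ⟨r, hr, fun f => ?_⟩
  have h1 : f ∈ W.toSubmodule ↔ L f ∈ W₀ := by
    constructor
    · intro hf; exact ⟨f, hf, rfl⟩
    · rintro ⟨f', hf', hff'⟩
      have := L.injective hff'
      rw [← this]; exact hf'
  rw [h1, hmem]
  constructor
  · rintro ⟨P, hP, hPf⟩
    refine ⟨P, hP, fun x => ?_⟩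
    have := hPf (e.symm x)
    rw [hL, Equiv.apply_symm_apply] at this
    exact this
  · rintro ⟨P, hP, hPf⟩
    refine ⟨P, hP, fun j => ?_⟩
    have := hPf (e j)
    rw [hL]
    simpa [coord] using this

omit [Fintype α] [DecidableEq α] in
theorem poly_unique (e : ZMod p ≃ α) {P : Polynomial K} (hP : P.degree < (p : ℕ))
    (h : ∀ x, P.eval (coord K e x) = 0) : P = 0 := by
  apply Cfsg.Agent.S0673.ev_eq_zero hP
  funext j
  have := h (e j)
  simpa [coord, Cfsg.Agent.S0673.ev_apply] using this

omit [DecidableEq α] in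
theorem sum_coord_pow (e : ZMod p ≃ α) {k : ℕ} (hk : k < p - 1) :
    ∑ x, (coord K e x) ^ k = 0 := by
  have h1 : ∑ x : α, (coord K e x) ^ k = ∑ j : ZMod p, ((ZMod.cast j : K)) ^ k :=
    Fintype.sum_equiv e.symm _ _ (fun x => rfl)
  rw [h1]
  have h2 : ∑ j : ZMod p, (j ^ k) = 0 :=
    FiniteField.sum_pow_lt_card_sub_one (ZMod p) k (by rw [ZMod.card]; exact hk)
  have h3 := congrArg (ZMod.castHom (dvd_refl p) K) h2
  simpa [map_sum] using h3

omit [DecidableEq α] in
theorem sum_coord_pow_top (e : ZMod p ≃ α) : ∑ x, (coord K e x) ^ (p - 1) = -1 := by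
  have hp : p.Prime := Fact.out
  have h1 : ∑ x : α, (coord K e x) ^ (p - 1) = ∑ j : ZMod p, ((ZMod.cast j : K)) ^ (p - 1) :=
    Fintype.sum_equiv e.symm _ _ (fun x => rfl)
  rw [h1]
  have h2 : ∑ j : ZMod p, (j ^ (p - 1)) = -1 := by
    have h3 : ∀ j : ZMod p, j ^ (p - 1) = 1 - if j = 0 then 1 else 0 := by
      intro j
      by_cases hj : j = 0
      · rw [hj, if_pos rfl, sub_self, zero_pow]
        have := hp.two_le
        omega
      · rw [if_neg hj, sub_zero, ZMod.pow_card_sub_one_eq_one hj]
    simp only [h3, Finset.sum_sub_distrib, Finset.sum_const, Finset.card_univ, ZMod.card,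
      Finset.sum_ite_eq', Finset.mem_univ, if_true, nsmul_eq_mul, mul_one]
    simp
  have h3 := congrArg (ZMod.castHom (dvd_refl p) K) h2
  simpa [map_sum] using h3

omit [DecidableEq α] in
theorem sum_poly (e : ZMod p ≃ α) {P : Polynomial K} (hP : P.natDegree < p - 1) :
    ∑ x, P.eval (coord K e x) = 0 := by
  simp only [Polynomial.eval_eq_sum_range]
  rw [Finset.sum_comm]
  apply Finset.sum_eq_zero
  intro i hi
  rw [← Finset.mul_sum, sum_coord_pow e (by have := Finset.mem_range.mp hi; omega), mul_zero]

omit [Fact p.Prime] [CharP K p] [DecidableEq α] in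
theorem natDeg_lt {Q : Polynomial K} {r : ℕ} (hr : 1 ≤ r) (h : Q.degree < r) :
    Q.natDegree < r := by
  by_cases hQ0 : Q = 0
  · rw [hQ0, Polynomial.natDegree_zero]; omega
  · exact (Polynomial.natDegree_lt_iff_degree_lt hQ0).mpr h

/-- The orthogonal complement of a subrepresentation of a permutation module. -/
noncomputable def perp {G : Type*} [Group G] [MulAction G α]
    (W : Subrepresentation (Cfsg.permRep K G α)) : Subrepresentation (Cfsg.permRep K G α) :=
  { toSubmodule :=
      { carrier := {f | ∀ u ∈ W.toSubmodule, ∑ x, f x * u x = 0}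
        add_mem' := by
          intro f₁ f₂ h₁ h₂ u hu
          simp only [Pi.add_apply, add_mul, Finset.sum_add_distrib, h₁ u hu, h₂ u hu, add_zero]
        zero_mem' := by intro u hu; simp
        smul_mem' := by
          intro c f hf u hu
          simp only [Pi.smul_apply, smul_eq_mul, mul_assoc, ← Finset.mul_sum, hf u hu, mul_zero] }
    apply_mem_toSubmodule := by
      intro g f hf u hu
      have h1 : ∑ x, (Cfsg.permRep K G α g f) x * u x =
          ∑ x, f x * (Cfsg.permRep K G α g⁻¹ u) x := by
        refine Fintype.sum_equiv (MulAction.toPerm g⁻¹) _ _ (fun x => ?_)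
        change f (g⁻¹ • x) * u x = f (g⁻¹ • x) * u (g⁻¹⁻¹ • g⁻¹ • x)
        rw [inv_inv, smul_inv_smul]
      change ∑ x, (Cfsg.permRep K G α g f) x * u x = 0
      rw [h1]
      exact hf _ (W.apply_mem_toSubmodule g⁻¹ hu) }

omit [Fact p.Prime] [CharP K p] [DecidableEq α] in
theorem mem_perp {G : Type*} [Group G] [MulAction G α]
    (W : Subrepresentation (Cfsg.permRep K G α)) (f : α → K) :
    f ∈ (perp W).toSubmodule ↔ ∀ u ∈ W.toSubmodule, ∑ x, f x * u x = 0 := Iff.rfl

theorem perp_poly {G : Subgroup (Equiv.Perm α)} (e : ZMod p ≃ α) (t : G)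
    (ht : ∀ j, (t : Equiv.Perm α) (e j) = e (j + 1))
    (W : Subrepresentation (Cfsg.permRep K G α)) {r : ℕ} (hr1 : 1 ≤ r) (hr2 : r ≤ p - 1)
    (hW : ∀ f : α → K, f ∈ W.toSubmodule ↔
      ∃ P : Polynomial K, P.degree < r ∧ ∀ x, f x = P.eval (coord K e x)) :
    ∀ f : α → K, f ∈ (perp W).toSubmodule ↔
      ∃ P : Polynomial K, P.degree < ((p - r : ℕ) : WithBot ℕ) ∧
        ∀ x, f x = P.eval (coord K e x) := by
  have hp : p.Prime := Fact.out
  obtain ⟨r', hr', hU⟩ := subrep_poly e t ht (perp W)
  have key : r' = p - r := by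
    apply le_antisymm
    · by_contra hcon
      push Not at hcon
      have h1 : (fun x => (coord K e x) ^ (p - r)) ∈ (perp W).toSubmodule := by
        rw [hU]
        refine ⟨X ^ (p - r), ?_, fun x => by simp⟩
        rw [Polynomial.degree_X_pow]; exact_mod_cast hcon
      have h2 : (fun x => (coord K e x) ^ (r - 1)) ∈ W.toSubmodule := by
        rw [hW]
        refine ⟨X ^ (r - 1), ?_, fun x => by simp⟩
        rw [Polynomial.degree_X_pow]; exact_mod_cast (by omega : r - 1 < r)
      have h3 := (mem_perp W _).mp h1 _ h2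
      simp only [← pow_add] at h3
      rw [show p - r + (r - 1) = p - 1 by omega, sum_coord_pow_top] at h3
      simp at h3
    · by_contra hcon
      push Not at hcon
      have h1 : (fun x => (coord K e x) ^ r') ∈ (perp W).toSubmodule := by
        rw [mem_perp]
        intro u hu
        rw [hW] at hu
        obtain ⟨Q, hQ, hQu⟩ := hu
        have h2 : ∑ x, (coord K e x) ^ r' * u x = ∑ x, (X ^ r' * Q).eval (coord K e x) := by
          apply Finset.sum_congr rfl
          intro x _
          rw [hQu]; simp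
        rw [h2]
        apply sum_poly
        have h3 := natDeg_lt hr1 hQ
        have h4 : (X ^ r' * Q).natDegree ≤ r' + Q.natDegree := by
          refine Polynomial.natDegree_mul_le.trans ?_
          rw [Polynomial.natDegree_X_pow]
        omega
      rw [hU] at h1
      obtain ⟨Q, hQ, hQf⟩ := h1
      have h4 : X ^ r' - Q = 0 := by
        apply poly_unique e (P := X ^ r' - Q)
        · refine lt_of_le_of_lt (Polynomial.degree_sub_le _ _) ?_
          rw [max_lt_iff]; constructor
          · rw [degree_X_pow]; exact_mod_cast (by omega : r' < p)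
          · exact lt_of_lt_of_le hQ (by exact_mod_cast hr')
        · intro x
          have := hQf x
          simp only [eval_sub, eval_pow, eval_X]
          rw [this, sub_self]
      have h5 : Q = X ^ r' := (sub_eq_zero.mp h4).symm
      rw [h5, degree_X_pow] at hQ
      exact lt_irrefl _ hQ
  rw [← key]; exact hU

omit [Fintype α] [DecidableEq α] in
theorem affine_of_poly {G : Subgroup (Equiv.Perm α)} (e : ZMod p ≃ α)
    (W : Subrepresentation (Cfsg.permRep K G α)) {r : ℕ} (hr2 : 2 ≤ r)
    (hr : r = 2 ∨ 2 * (r - 1) ≤ p - 1)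
    (hW : ∀ f : α → K, f ∈ W.toSubmodule ↔
      ∃ P : Polynomial K, P.degree < r ∧ ∀ x, f x = P.eval (coord K e x))
    (g : G) : ∃ a b : K, ∀ x, coord K e (g⁻¹ • x) = a * coord K e x + b := by
  have hp : p.Prime := Fact.out
  have hpow : ∀ k, k < r → (fun x => (coord K e x) ^ k) ∈ W.toSubmodule := by
    intro k hk
    rw [hW]
    exact ⟨X ^ k, by rw [degree_X_pow]; exact_mod_cast hk, fun x => by simp⟩
  have hgpow : ∀ k, k < r → (fun x => (coord K e (g⁻¹ • x)) ^ k) ∈ W.toSubmodule := by
    intro k hk
    exact W.apply_mem_toSubmodule g (hpow k hk)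
  obtain ⟨H, hH, hHf⟩ := (hW _).mp (hgpow 1 (by omega))
  simp only [pow_one] at hHf
  have hd : H.natDegree ≤ 1 := by
    by_contra hcon
    push Not at hcon
    have hdr : H.natDegree < r := natDeg_lt (by omega) hH
    rcases hr with hr | hr
    · omega
    set d := H.natDegree with hd_def
    set i := r - 1 with hi
    set k := i / d + 1 with hk
    have hk1 : k ≤ i := by
      have : i / d ≤ i / 2 := Nat.div_le_div_left hcon (by norm_num)
      omega
    have hk2 : i < d * k := by
      have := Nat.lt_mul_div_succ i (by omega : 0 < d)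
      rw [hk]; exact this
    have hk3 : d * k ≤ p - 1 := by
      have h1 : d * (i / d) ≤ i := Nat.mul_div_le i d
      have h2 : d * k = d * (i / d) + d := by rw [hk]; ring
      omega
    obtain ⟨Q, hQ, hQf⟩ := (hW _).mp (hgpow k (by omega))
    have h4 : H ^ k - Q = 0 := by
      apply poly_unique e
      · refine lt_of_le_of_lt (Polynomial.degree_sub_le _ _) ?_
        rw [max_lt_iff]; constructor
        · refine lt_of_le_of_lt (Polynomial.degree_le_natDegree) ?_
          rw [Polynomial.natDegree_pow]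
          have h1 : k * d = d * k := Nat.mul_comm _ _
          have h2 := hp.pos
          exact_mod_cast (by omega : k * d < p)
        · have h2 := hp.pos
          exact lt_of_lt_of_le hQ (by exact_mod_cast (by omega : r ≤ p))
      · intro x
        rw [Polynomial.eval_sub, Polynomial.eval_pow, ← hHf, ← hQf x]
        exact sub_self _
    have h5 : Q = H ^ k := (sub_eq_zero.mp h4).symm
    have h6 : (H ^ k).natDegree < r := by
      rw [← h5]
      exact natDeg_lt (by omega) hQ
    rw [Polynomial.natDegree_pow, ← hd_def] at h6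
    have h7 : d * k = k * d := Nat.mul_comm _ _
    omega
  refine ⟨H.coeff 1, H.coeff 0, fun x => ?_⟩
  rw [hHf x]
  conv_lhs => rw [Polynomial.eq_X_add_C_of_natDegree_le_one hd]
  simp

omit [Fintype α] [DecidableEq α] in
theorem solvable_of_affine {G : Subgroup (Equiv.Perm α)} (e : ZMod p ≃ α)
    (h : ∀ g : G, ∃ a b : K, ∀ x, coord K e (g • x) = a * coord K e x + b) :
    Group.IsSolvable G := by
  have hinj := coord_injective (K := K) e
  have h0 := coord_zero (K := K) e
  have h1 := coord_one (K := K) e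
  let φ₀ : G → K := fun g => coord K e (g • e 1) - coord K e (g • e 0)
  have hφ : ∀ (g : G) x, coord K e (g • x) = φ₀ g * coord K e x + coord K e (g • e 0) := by
    intro g x
    obtain ⟨a, b, hab⟩ := h g
    have e0 := hab (e 0)
    have e1 := hab (e 1)
    rw [h0] at e0; rw [h1] at e1
    simp only [φ₀]
    rw [hab x, e0, e1]; ring
  let φ : G →* K :=
    { toFun := φ₀
      map_one' := by simp [φ₀, h0, h1]
      map_mul' := by
        intro g g'
        simp only [φ₀]
        rw [mul_smul, mul_smul, hφ g (g' • e 1), hφ g (g' • e 0)]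
        ring }
  let ψ : G →* Kˣ := φ.toHomUnits
  have hψ : ∀ g, ((ψ g : Kˣ) : K) = φ₀ g := fun g => rfl
  have hker : ∀ a b : ψ.ker, a * b = b * a := by
    intro a b
    have ha : φ₀ a.1 = 1 := by
      have h2 := a.2
      rw [MonoidHom.mem_ker] at h2
      have h3 := congrArg Units.val h2
      rw [hψ] at h3
      exact h3
    have hb : φ₀ b.1 = 1 := by
      have h2 := b.2
      rw [MonoidHom.mem_ker] at h2
      have h3 := congrArg Units.val h2
      rw [hψ] at h3
      exact h3
    apply Subtype.ext
    apply Subtype.ext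
    apply Equiv.ext
    intro x
    apply hinj
    show coord K e ((a.1 * b.1) • x) = coord K e ((b.1 * a.1) • x)
    rw [mul_smul, mul_smul, hφ a.1 (b.1 • x), hφ b.1 (a.1 • x), hφ a.1 x, hφ b.1 x, ha, hb]
    ring
  have : Group.IsSolvable ψ.ker := Group.isSolvable_of_comm hker
  exact Group.isSolvable_of_ker_le_range ψ.ker.subtype ψ (by simp)

omit [Fintype α] [Fact p.Prime] [CharP K p] [DecidableEq α] in
theorem constants_poly (G : Subgroup (Equiv.Perm α)) (e : ZMod p ≃ α) (f : α → K) :
    f ∈ (Cfsg.permConstants K G α).toSubmodule ↔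
      ∃ P : Polynomial K, P.degree < ((1 : ℕ) : WithBot ℕ) ∧
        ∀ x, f x = P.eval (coord K e x) := by
  change f ∈ Submodule.span K {fun _ => (1 : K)} ↔ _
  rw [Submodule.mem_span_singleton]
  constructor
  · rintro ⟨c, rfl⟩
    refine ⟨C c, ?_, fun x => by simp⟩
    exact lt_of_le_of_lt Polynomial.degree_C_le (by norm_num)
  · rintro ⟨P, hP, hPf⟩
    have h1 : P.degree ≤ 0 := by
      rw [Nat.cast_one] at hP
      exact Nat.WithBot.lt_one_iff_le_zero.mp hP
    have h2 : P = C (P.coeff 0) := Polynomial.eq_C_of_degree_le_zero h1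
    refine ⟨P.coeff 0, ?_⟩
    funext x
    rw [hPf x, h2]; simp

theorem sumZero_poly {G : Subgroup (Equiv.Perm α)} (e : ZMod p ≃ α) (t : G)
    (ht : ∀ j, (t : Equiv.Perm α) (e j) = e (j + 1)) (f : α → K) :
    f ∈ (Cfsg.permSumZero K G α).toSubmodule ↔
      ∃ P : Polynomial K, P.degree < ((p - 1 : ℕ) : WithBot ℕ) ∧
        ∀ x, f x = P.eval (coord K e x) := by
  have hp : p.Prime := Fact.out
  have h2 := hp.two_le
  rw [← perp_poly e t ht (Cfsg.permConstants K G α) le_rfl (by omega)
    (constants_poly G e), mem_perp]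
  change ∑ x, f x = 0 ↔ _
  constructor
  · intro hf u hu
    change u ∈ Submodule.span K {fun _ => (1 : K)} at hu
    rw [Submodule.mem_span_singleton] at hu
    obtain ⟨c, rfl⟩ := hu
    simp only [Pi.smul_apply, smul_eq_mul, mul_one]
    rw [← Finset.sum_mul, hf, zero_mul]
  · intro hf
    have := hf (fun _ => 1) (Submodule.subset_span rfl)
    simpa using this

end coord

/-- Let `G` be a non-solvable transitive permutation group of prime degree `p` and `K` a field of characteristic `p`. Then the heart of the permutation module is irreducible: an invariant subspace containing the constants and contained in the sum-zero functions is one or the other. -/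
theorem result {α : Type*} [Fintype α] [DecidableEq α] {p : ℕ} [Fact p.Prime] (hα : Fintype.card α = p) (G : Subgroup (Equiv.Perm α)) [MulAction.IsPretransitive G α] (hG : ¬ Group.IsSolvable G) {K : Type*} [Field K] [CharP K p] (W : Subrepresentation (Cfsg.permRep K G α)) (h₁ : (Cfsg.permConstants K G α).toSubmodule ≤ W.toSubmodule) (h₂ : W.toSubmodule ≤ (Cfsg.permSumZero K G α).toSubmodule) : W = Cfsg.permConstants K G α ∨ W = Cfsg.permSumZero K G α := by
  classical
  have hp : p.Prime := Fact.out
  obtain ⟨e, t, ht⟩ := exists_coord hα G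
  obtain ⟨r, hrp, hW⟩ := subrep_poly (K := K) e t ht W
  have hr1 : 1 ≤ r := by
    by_contra hcon
    have hr0 : r = 0 := by omega
    have h1 : (fun _ => (1 : K)) ∈ W.toSubmodule := h₁ (Submodule.subset_span rfl)
    rw [hW] at h1
    obtain ⟨P, hP, hPf⟩ := h1
    rw [hr0] at hP
    have hP0 : P = 0 := by
      rw [Nat.cast_zero, Nat.WithBot.lt_zero_iff] at hP
      exact Polynomial.degree_eq_bot.mp hP
    rw [hP0] at hPf
    have := hPf (e 0)
    simp at this
  have hr2 : r ≤ p - 1 := by
    by_contra hcon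
    have h1 : (fun x => (coord K e x) ^ (p - 1)) ∈ W.toSubmodule := by
      rw [hW]
      exact ⟨X ^ (p - 1), by rw [degree_X_pow]; exact_mod_cast (by omega : p - 1 < r),
        fun x => by simp⟩
    have h2 := h₂ h1
    change ∑ x, (coord K e x) ^ (p - 1) = 0 at h2
    rw [sum_coord_pow_top] at h2
    simp at h2
  by_cases hc1 : r = 1
  · left
    apply Subrepresentation.toSubmodule_injective
    ext f
    rw [hW, hc1, constants_poly G e f]
  by_cases hc2 : r = p - 1
  · right
    apply Subrepresentation.toSubmodule_injective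
    ext f
    rw [hW, hc2, sumZero_poly e t ht f]
  exfalso
  apply hG
  have hU := perp_poly e t ht W hr1 hr2 hW
  have haff : ∀ g : G, ∃ a b : K, ∀ x, coord K e (g⁻¹ • x) = a * coord K e x + b := by
    by_cases h2r : 2 * r ≤ p
    · exact affine_of_poly e W (by omega) (Or.inr (by omega)) hW
    · exact affine_of_poly e (perp W) (by omega) (Or.inr (by omega)) hU
  apply solvable_of_affine (K := K) e
  intro g
  have := haff g⁻¹
  simpa using this

end Cfsg.Agent.S0674
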