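import Cfsg.Statements.S0668
import Mathlib

set_option autoImplicit false
open Cfsg

namespace Cfsg.Agent.S0668

section
variable (G : Type*) [Group G] (K : Type*) [Field K] (Ω₁ Ω₂ : Type*) [Fintype Ω₁] [Fintype Ω₂]
  [MulAction G Ω₁] [MulAction G Ω₂]

/-- The linear map attached to a function on orbits of pairs. -/
noncomputable def orbMap :
    (MulAction.orbitRel.Quotient G (Ω₁ × Ω₂) → K) →ₗ[K] ((Ω₁ → K) →ₗ[K] (Ω₂ → K)) where
  toFun c :=
    { toFun := fun f y => ∑ x, c (Quotient.mk'' (x, y)) * f x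
      map_add' := fun f₁ f₂ => by
        funext y
        simp [mul_add, Finset.sum_add_distrib]
      map_smul' := fun r f => by
        funext y
        simp [Finset.mul_sum, mul_left_comm] }
  map_add' := fun c₁ c₂ => by
    refine LinearMap.ext fun f => funext fun y => ?_
    simp [add_mul, Finset.sum_add_distrib]
  map_smul' := fun r c => by
    refine LinearMap.ext fun f => funext fun y => ?_
    simp [Finset.mul_sum, mul_assoc]

omit [Fintype Ω₂] in
theorem orbMap_apply (c : MulAction.orbitRel.Quotient G (Ω₁ × Ω₂) → K) (f : Ω₁ → K) (y : Ω₂) :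
    orbMap G K Ω₁ Ω₂ c f y = ∑ x, c (Quotient.mk'' (x, y)) * f x := rfl

theorem orbMap_single [DecidableEq Ω₁] (c : MulAction.orbitRel.Quotient G (Ω₁ × Ω₂) → K)
    (x : Ω₁) (y : Ω₂) :
    orbMap G K Ω₁ Ω₂ c (Pi.single x 1) y = c (Quotient.mk'' (x, y)) := by
  rw [orbMap_apply]
  rw [Finset.sum_eq_single x]
  · simp
  · intro b _ hb
    simp [hb]
  · intro h; exact absurd (Finset.mem_univ _) h

theorem orbMap_injective : Function.Injective (orbMap G K Ω₁ Ω₂) := by
  classical
  intro c₁ c₂ h
  funext q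
  induction q using Quotient.inductionOn' with | _ p => ?_
  obtain ⟨x, y⟩ := p
  have := congrArg (fun T : (Ω₁ → K) →ₗ[K] (Ω₂ → K) => T (Pi.single x 1) y) h
  simpa [orbMap_single] using this

theorem orbMap_range :
    LinearMap.range (orbMap G K Ω₁ Ω₂) =
      ((Cfsg.permRep K G Ω₁).linHom (Cfsg.permRep K G Ω₂)).invariants := by
  classical
  apply le_antisymm
  · rintro _ ⟨c, rfl⟩
    rw [Representation.mem_invariants]
    intro g
    refine LinearMap.ext fun f => funext fun y => ?_
    rw [Representation.linHom_apply]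
    change ∑ x, c (Quotient.mk'' (x, g⁻¹ • y)) * f (g⁻¹⁻¹ • x) = ∑ x, c (Quotient.mk'' (x, y)) * f x
    rw [inv_inv]
    refine Fintype.sum_equiv (MulAction.toPerm g) _ _ (fun x => ?_)
    have : (Quotient.mk'' (x, g⁻¹ • y) : MulAction.orbitRel.Quotient G (Ω₁ × Ω₂)) =
        Quotient.mk'' (g • x, y) := by
      rw [Quotient.eq'', MulAction.orbitRel_apply]
      exact ⟨g⁻¹, by simp [Prod.smul_mk]⟩
    rw [this]
    rfl
  · intro T hT
    rw [Representation.mem_invariants] at hT
    have hinv : ∀ (g : G) (x : Ω₁) (y : Ω₂),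
        T (Pi.single (g • x) 1) (g • y) = T (Pi.single x 1) y := by
      intro g x y
      have h1 := congrArg (fun S : (Ω₁ → K) →ₗ[K] (Ω₂ → K) => S (Pi.single (g • x) 1) (g • y)) (hT g)
      simp only [Representation.linHom_apply, LinearMap.comp_apply] at h1
      rw [← h1]
      change T (fun z => (Pi.single (g • x) (1 : K) : Ω₁ → K) (g⁻¹⁻¹ • z)) (g⁻¹ • g • y) = _
      rw [inv_inv, inv_smul_smul]
      have e : (fun z => (Pi.single (g • x) (1 : K) : Ω₁ → K) (g • z)) = Pi.single x 1 := by
        funext z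
        simp [Pi.single_apply]
      rw [e]
    let c : MulAction.orbitRel.Quotient G (Ω₁ × Ω₂) → K :=
      Quotient.lift (fun p : Ω₁ × Ω₂ => T (Pi.single p.1 1) p.2) (by
        rintro ⟨x, y⟩ ⟨x', y'⟩ h
        change MulAction.orbitRel G (Ω₁ × Ω₂) (x, y) (x', y') at h
        rw [MulAction.orbitRel_apply] at h
        obtain ⟨g, hg⟩ := h
        simp only [Prod.smul_mk, Prod.mk.injEq] at hg
        change T (Pi.single x 1) y = T (Pi.single x' 1) y'
        rw [← hg.1, ← hg.2, hinv])
    refine ⟨c, ?_⟩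
    apply LinearMap.pi_ext
    intro x r
    funext y
    have e : (Pi.single x r : Ω₁ → K) = r • Pi.single x 1 := by
      funext z
      simp [Pi.single_apply]
    rw [e, map_smul, map_smul, Pi.smul_apply, Pi.smul_apply, orbMap_single]
    rfl

end

/-- The equivariant linear maps between the permutation modules of two finite `G`-sets form a space whose dimension is the number of `G`-orbits on the product of the two sets. -/
theorem result {G : Type*} [Group G] {K : Type*} [Field K] {Ω₁ Ω₂ : Type*} [Fintype Ω₁] [Fintype Ω₂] [MulAction G Ω₁] [MulAction G Ω₂] : Module.finrank K ((Cfsg.permRep K G Ω₁).linHom (Cfsg.permRep K G Ω₂)).invariants = Nat.card (MulAction.orbitRel.Quotient G (Ω₁ × Ω₂)) := by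
  classical
  rw [← orbMap_range, LinearMap.finrank_range_of_inj (orbMap_injective G K Ω₁ Ω₂)]
  have : Fintype (MulAction.orbitRel.Quotient G (Ω₁ × Ω₂)) := Fintype.ofFinite _
  rw [Module.finrank_fintype_fun_eq_card, Nat.card_eq_fintype_card]

end Cfsg.Agent.S0668
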