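import Cfsg.Statements.S0671
import Mathlib
import Cfsg.Agent.S0668
import Cfsg.Agent.S0670

set_option autoImplicit false
open Cfsg

namespace Cfsg.Agent.S0671

section
variable {G : Type*} [Group G] {K : Type*} [Field K] {Ω : Type*} [Fintype Ω] [MulAction G Ω]

omit [Fintype Ω] in
theorem rho_apply (g : G) (f : Ω → K) (x : Ω) :
    (Cfsg.permRep K G Ω g f) x = f (g⁻¹ • x) := rfl

theorem sum_rho (g : G) (f : Ω → K) : ∑ x, (Cfsg.permRep K G Ω g f) x = ∑ x, f x :=
  Fintype.sum_equiv (MulAction.toPerm g⁻¹) _ _ (fun x => rfl)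

omit [Fintype Ω] in
theorem rho_single [DecidableEq Ω] (g : G) (x : Ω) :
    Cfsg.permRep K G Ω g (Pi.single x 1) = Pi.single (g • x) 1 := by
  funext z
  rw [rho_apply]
  simp only [Pi.single_apply, inv_smul_eq_iff]

theorem le_sumZero_of_ne_top [Finite G] {p f : ℕ} [Fact p.Prime] [CharP K p]
    [MulAction.IsPretransitive G Ω] (hf : 1 ≤ f) (hcard : Fintype.card Ω = p ^ f)
    (U : Subrepresentation (Cfsg.permRep K G Ω)) (hU : U.toSubmodule ≠ ⊤) :
    U.toSubmodule ≤ (Cfsg.permSumZero K G Ω).toSubmodule := by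
  classical
  let Up : Subrepresentation (Cfsg.permRep K G Ω) :=
    { toSubmodule :=
        { carrier := {f | ∀ u ∈ U.toSubmodule, ∑ x, f x * u x = 0}
          add_mem' := by
            intro f₁ f₂ h₁ h₂ u hu
            simp only [Pi.add_apply, add_mul, Finset.sum_add_distrib, h₁ u hu, h₂ u hu, add_zero]
          zero_mem' := by intro u hu; simp
          smul_mem' := by
            intro c f hf u hu
            simp only [Pi.smul_apply, smul_eq_mul, mul_assoc, ← Finset.mul_sum, hf u hu, mul_zero] }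
      apply_mem_toSubmodule := by
        intro g f hf u hu
        have h1 : ∑ x, (Cfsg.permRep K G Ω g f) x * u x =
            ∑ x, f x * (Cfsg.permRep K G Ω g⁻¹ u) x := by
          refine Fintype.sum_equiv (MulAction.toPerm g⁻¹) _ _ (fun x => ?_)
          simp [rho_apply]
        change ∑ x, (Cfsg.permRep K G Ω g f) x * u x = 0
        rw [h1]
        exact hf _ (U.apply_mem_toSubmodule g⁻¹ hu) }
  have hUp : Up.toSubmodule ≠ ⊥ := by
    obtain ⟨φ, hφ0, hφ⟩ :=
      Submodule.exists_le_ker_of_lt_top U.toSubmodule (lt_top_iff_ne_top.mpr hU)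
    intro hbot
    apply hφ0
    have hmem : (fun x => φ (Pi.single x 1)) ∈ Up.toSubmodule := by
      intro u hu
      have := hφ hu
      rw [LinearMap.mem_ker] at this
      rw [← this, LinearMap.pi_apply_eq_sum_univ φ u]
      apply Finset.sum_congr rfl
      intro x _
      have e2 : (fun j => if x = j then (1 : K) else 0) = Pi.single x 1 := by
        funext j
        simp [Pi.single_apply, eq_comm]
      rw [smul_eq_mul, mul_comm, e2]
    rw [hbot, Submodule.mem_bot] at hmem
    apply LinearMap.pi_ext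
    intro i x
    have e : (Pi.single i x : Ω → K) = x • Pi.single i 1 := by
      funext z
      simp [Pi.single_apply]
    rw [e, map_smul, LinearMap.zero_apply]
    have := congrFun hmem i
    simp only [Pi.zero_apply] at this
    rw [this, smul_zero]
  have hC := Cfsg.Agent.S0670.result hf hcard Up hUp
  have h1 : (fun _ => (1 : K)) ∈ Up.toSubmodule := hC (Submodule.subset_span rfl)
  intro u hu
  have := h1 u hu
  simp only [one_mul] at this
  exact this

theorem sum_intertwiner [MulAction.IsPretransitive G Ω] (T : (Ω → K) →ₗ[K] (Ω → K))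
    (hT : ∀ g f, T (Cfsg.permRep K G Ω g f) = Cfsg.permRep K G Ω g (T f)) :
    ∃ c : K, ∀ f, ∑ y, T f y = c * ∑ x, f x := by
  classical
  rcases isEmpty_or_nonempty Ω with hΩ | ⟨⟨x₀⟩⟩
  · exact ⟨0, fun f => by simp⟩
  refine ⟨∑ y, T (Pi.single x₀ 1) y, fun f => ?_⟩
  have hconst : ∀ x, ∑ y, T (Pi.single x 1) y = ∑ y, T (Pi.single x₀ 1) y := by
    intro x
    obtain ⟨g, rfl⟩ := MulAction.exists_smul_eq G x₀ x
    rw [← rho_single, hT, sum_rho]
  have hf : f = ∑ x, f x • (Pi.single x (1 : K) : Ω → K) := by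
    funext z
    simp [Finset.sum_apply, Pi.single_apply]
  conv_lhs => rw [hf]
  simp only [map_sum, map_smul, Finset.sum_apply, Pi.smul_apply, smul_eq_mul]
  rw [Finset.sum_comm]
  simp only [← Finset.mul_sum, hconst]
  rw [← Finset.sum_mul, mul_comm]

theorem exists_intertwiner [DecidableEq Ω] {a b c d : Ω}
    (hab : a ≠ b) (hcd : c ≠ d) (hno : ∀ g : G, ¬ (g • a = c ∧ g • b = d)) :
    ∃ T : (Ω → K) →ₗ[K] (Ω → K),
      (∀ g f, T (Cfsg.permRep K G Ω g f) = Cfsg.permRep K G Ω g (T f)) ∧
      ¬ ∃ l m : K, ∀ f, T f = l • f + m • (fun _ => ∑ x, f x) := by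
  classical
  let q₀ : MulAction.orbitRel.Quotient G (Ω × Ω) := Quotient.mk'' (a, b)
  let cf : MulAction.orbitRel.Quotient G (Ω × Ω) → K := fun q => if q = q₀ then 1 else 0
  refine ⟨Cfsg.Agent.S0668.orbMap G K Ω Ω cf, ?_, ?_⟩
  · intro g f
    have hmem : Cfsg.Agent.S0668.orbMap G K Ω Ω cf ∈
        ((Cfsg.permRep K G Ω).linHom (Cfsg.permRep K G Ω)).invariants := by
      rw [← Cfsg.Agent.S0668.orbMap_range]; exact ⟨cf, rfl⟩
    rw [Representation.mem_invariants] at hmem
    have h1 := hmem g
    have h2 := congrArg (fun S : (Ω → K) →ₗ[K] (Ω → K) => S (Cfsg.permRep K G Ω g f)) h1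
    simp only [Representation.linHom_apply, LinearMap.comp_apply] at h2
    rw [← h2]
    congr 2
    rw [← Module.End.mul_apply, ← map_mul, inv_mul_cancel, map_one]
    rfl
  · rintro ⟨l, m, hlm⟩
    have h1 := congrFun (hlm (Pi.single a 1)) b
    have h2 := congrFun (hlm (Pi.single c 1)) d
    rw [Cfsg.Agent.S0668.orbMap_single] at h1 h2
    have hq : (Quotient.mk'' (c, d) : MulAction.orbitRel.Quotient G (Ω × Ω)) ≠ q₀ := by
      intro h
      rw [Quotient.eq'', MulAction.orbitRel_apply] at h
      obtain ⟨g, hg⟩ := h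
      simp only [Prod.smul_mk, Prod.mk.injEq] at hg
      exact hno g hg
    simp only [cf, Pi.add_apply, Pi.smul_apply, smul_eq_mul, Pi.single_apply, Finset.sum_ite_eq',
      Finset.mem_univ, if_true] at h1 h2
    rw [if_neg hq, if_neg (Ne.symm hcd)] at h2
    rw [if_neg (Ne.symm hab)] at h1
    simp only [mul_zero, zero_add, mul_one, q₀] at h1 h2
    rw [← h2] at h1
    simp at h1

end

/-- If the heart of the permutation module in characteristic `p` of a transitive action of degree `p ^ f` has no trivial composition factor, the action is doubly transitive. The hypothesis is phrased without composition series: no invariant subspaces `W < W'` between the constants and the sum-zero functions with trivial action on the quotient. -/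
theorem result {G : Type*} [Group G] [Finite G] {K : Type*} [Field K] {p f : ℕ} [Fact p.Prime] [CharP K p] {Ω : Type*} [Fintype Ω] [MulAction G Ω] [MulAction.IsPretransitive G Ω] (hf : 1 ≤ f) (hcard : Fintype.card Ω = p ^ f) (h : ∀ W W' : Subrepresentation (Cfsg.permRep K G Ω), (Cfsg.permConstants K G Ω).toSubmodule ≤ W.toSubmodule → W.toSubmodule < W'.toSubmodule → W'.toSubmodule ≤ (Cfsg.permSumZero K G Ω).toSubmodule → ∃ g : G, ∃ v ∈ W'.toSubmodule, Cfsg.permRep K G Ω g v - v ∉ W.toSubmodule) : MulAction.IsMultiplyPretransitive G Ω 2 := by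
  classical
  by_contra h2
  rw [MulAction.is_two_pretransitive_iff] at h2
  push Not at h2
  obtain ⟨a, b, c, d, hab, hcd, hno⟩ := h2
  have hno' : ∀ g : G, ¬ (g • a = c ∧ g • b = d) := fun g hg => hno g hg.1 hg.2
  obtain ⟨T, hT, hTne⟩ := exists_intertwiner (K := K) hab hcd hno'
  obtain ⟨l, hl⟩ := sum_intertwiner T hT
  set S : (Ω → K) →ₗ[K] (Ω → K) := T - l • LinearMap.id with hS
  have hSapp : ∀ f, S f = T f - l • f := fun f => rfl
  have hScomm : ∀ g f, S (Cfsg.permRep K G Ω g f) = Cfsg.permRep K G Ω g (S f) := by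
    intro g f
    rw [hSapp, hSapp, hT, map_sub, map_smul]
  have hSsum : ∀ f, ∑ y, S f y = 0 := by
    intro f
    simp only [hSapp, Pi.sub_apply, Pi.smul_apply, smul_eq_mul, Finset.sum_sub_distrib,
      ← Finset.mul_sum, hl, sub_self]
  have hMmem : ∀ f : Ω → K, f ∈ (Cfsg.permSumZero K G Ω).toSubmodule ↔ ∑ x, f x = 0 :=
    fun f => Iff.rfl
  let kerS : Subrepresentation (Cfsg.permRep K G Ω) :=
    { toSubmodule := LinearMap.ker S
      apply_mem_toSubmodule := by
        intro g v hv
        rw [LinearMap.mem_ker] at hv ⊢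
        rw [hScomm, hv, map_zero] }
  let W' : Subrepresentation (Cfsg.permRep K G Ω) :=
    { toSubmodule := LinearMap.range S
      apply_mem_toSubmodule := by
        rintro g _ ⟨v, rfl⟩
        exact ⟨Cfsg.permRep K G Ω g v, hScomm g v⟩ }
  let W : Subrepresentation (Cfsg.permRep K G Ω) :=
    { toSubmodule := (Cfsg.permSumZero K G Ω).toSubmodule.map S
      apply_mem_toSubmodule := by
        rintro g _ ⟨v, hv, rfl⟩
        exact ⟨Cfsg.permRep K G Ω g v, (Cfsg.permSumZero K G Ω).apply_mem_toSubmodule g hv,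
          hScomm g v⟩ }
  obtain ⟨x₀⟩ : Nonempty Ω := (Fintype.card_pos_iff).mp (by
    rw [hcard]; exact pow_pos (Fact.out : p.Prime).pos f)
  have hS0 : S ≠ 0 := by
    intro h0
    apply hTne
    refine ⟨l, 0, fun f => ?_⟩
    have := hSapp f
    rw [h0, LinearMap.zero_apply] at this
    rw [zero_smul, add_zero]
    exact (sub_eq_zero.mp this.symm)
  have hker_ne : kerS.toSubmodule ≠ ⊤ := by
    intro h
    apply hS0
    exact LinearMap.ker_eq_top.mp h
  have hkerM := le_sumZero_of_ne_top hf hcard kerS hker_ne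
  have hMne : (Cfsg.permSumZero K G Ω).toSubmodule ≠ ⊤ := by
    intro h
    have : (Pi.single x₀ (1 : K) : Ω → K) ∈ (Cfsg.permSumZero K G Ω).toSubmodule := by
      rw [h]; trivial
    rw [hMmem] at this
    simp at this
  have hWW' : W.toSubmodule < W'.toSubmodule := by
    refine lt_of_le_of_ne ?_ ?_
    · rintro _ ⟨v, _, rfl⟩
      exact ⟨v, rfl⟩
    · intro heq
      apply hMne
      rw [eq_top_iff]
      intro v _
      have hv : S v ∈ W.toSubmodule := by
        rw [heq]; exact ⟨v, rfl⟩
      obtain ⟨m, hm, hmv⟩ := hv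
      have hk : v - m ∈ kerS.toSubmodule := by
        change v - m ∈ LinearMap.ker S
        rw [LinearMap.mem_ker, map_sub, hmv, sub_self]
      have := Submodule.add_mem _ (hkerM hk) hm
      rwa [sub_add_cancel] at this
  have hWne : W.toSubmodule ≠ ⊥ := by
    intro hbot
    have hMker : ∀ m ∈ (Cfsg.permSumZero K G Ω).toSubmodule, S m = 0 := by
      intro m hm
      have : S m ∈ W.toSubmodule := ⟨m, hm, rfl⟩
      rw [hbot, Submodule.mem_bot] at this
      exact this
    set u := S (Pi.single x₀ 1) with hu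
    have hSf : ∀ f, S f = (∑ x, f x) • u := by
      intro f
      have hm : f - (∑ x, f x) • (Pi.single x₀ (1 : K) : Ω → K) ∈
          (Cfsg.permSumZero K G Ω).toSubmodule := by
        rw [hMmem]
        simp [Finset.sum_sub_distrib, ← Finset.mul_sum]
      have := hMker _ hm
      rw [map_sub, map_smul, sub_eq_zero] at this
      exact this
    have hufix : ∀ g : G, Cfsg.permRep K G Ω g u = u := by
      intro g
      have h1 : Cfsg.permRep K G Ω g (S (Pi.single x₀ 1)) = S (Pi.single x₀ 1) := by
        rw [← hScomm, rho_single, hSf, hSf]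
        simp
      exact h1
    have huconst : ∀ x, u x = u x₀ := by
      intro x
      obtain ⟨g, rfl⟩ := MulAction.exists_smul_eq G x₀ x
      have := congrFun (hufix g) (g • x₀)
      rw [rho_apply, inv_smul_smul] at this
      exact this.symm
    apply hTne
    refine ⟨l, u x₀, fun f => ?_⟩
    have h1 := hSapp f
    rw [hSf] at h1
    have h2 : T f = l • f + (∑ x, f x) • u := by
      rw [h1]; abel
    rw [h2]
    congr 1
    funext x
    simp only [Pi.smul_apply, smul_eq_mul]
    rw [huconst x, mul_comm]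
  have hCW := Cfsg.Agent.S0670.result hf hcard W hWne
  have hW'M : W'.toSubmodule ≤ (Cfsg.permSumZero K G Ω).toSubmodule := by
    rintro _ ⟨v, rfl⟩
    exact hSsum v
  obtain ⟨g, v, hv, hnot⟩ := h W W' hCW hWW' hW'M
  apply hnot
  obtain ⟨v', rfl⟩ := hv
  refine ⟨Cfsg.permRep K G Ω g v' - v', ?_, ?_⟩
  · change ∑ x, (Cfsg.permRep K G Ω g v' - v') x = 0
    simp only [Pi.sub_apply, Finset.sum_sub_distrib, sum_rho, sub_self]
  · rw [map_sub, hScomm]

end Cfsg.Agent.S0671
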