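import Cfsg.Statements.S0675
import Mathlib
import Cfsg.Agent.S0671
import Cfsg.Agent.S0674

set_option autoImplicit false
open Cfsg

namespace Cfsg.Agent.S0675

/-- Burnside's Theorem on permutation groups of prime degree: a transitive permutation group of prime degree that is not solvable is doubly transitive. -/
theorem result {α : Type*} [Fintype α] [DecidableEq α] (hα : (Fintype.card α).Prime) (G : Subgroup (Equiv.Perm α)) [MulAction.IsPretransitive G α] : Group.IsSolvable G ∨ MulAction.IsMultiplyPretransitive G α 2 := by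
  classical
  by_cases hG : Group.IsSolvable G
  · exact Or.inl hG
  right
  obtain ⟨p, hp_def⟩ : ∃ p, Fintype.card α = p := ⟨_, rfl⟩
  rw [hp_def] at hα
  have : Fact p.Prime := ⟨hα⟩
  have hp := hα
  obtain ⟨e, t, ht⟩ := Cfsg.Agent.S0674.exists_coord (p := p) hp_def G
  have hp5 : 5 ≤ p := by
    by_contra hcon
    apply hG
    have h2 := hp.two_le
    have hcases : p = 2 ∨ p = 3 := by
      have h4 : p ≠ 4 := by
        rintro rfl
        exact absurd hp (by decide)
      omega
    apply Cfsg.Agent.S0674.solvable_of_affine (K := ZMod p) e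
    intro g
    rcases hcases with h | h
    · obtain ⟨r, hr, hW⟩ := Cfsg.Agent.S0674.subrep_poly (K := ZMod p) e t ht ⊤
      have hW2 : ∀ f : α → ZMod p,
          f ∈ (⊤ : Subrepresentation (Cfsg.permRep (ZMod p) G α)).toSubmodule ↔
          ∃ P : Polynomial (ZMod p), P.degree < ((2 : ℕ) : WithBot ℕ) ∧
            ∀ x, f x = P.eval (Cfsg.Agent.S0674.coord (ZMod p) e x) := by
        intro f
        constructor
        · intro hf
          obtain ⟨P, hP, hPf⟩ := (hW f).mp hf
          exact ⟨P, lt_of_lt_of_le hP (by exact_mod_cast (by omega : r ≤ 2)), hPf⟩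
        · intro _; trivial
      have := Cfsg.Agent.S0674.affine_of_poly e ⊤ (le_refl 2) (Or.inl rfl) hW2 g⁻¹
      simpa using this
    · have hW2 : ∀ f : α → ZMod p,
          f ∈ (Cfsg.permSumZero (ZMod p) G α).toSubmodule ↔
          ∃ P : Polynomial (ZMod p), P.degree < ((2 : ℕ) : WithBot ℕ) ∧
            ∀ x, f x = P.eval (Cfsg.Agent.S0674.coord (ZMod p) e x) := by
        intro f
        have h3 := Cfsg.Agent.S0674.sumZero_poly (K := ZMod p) e t ht f
        have h4 : p - 1 = 2 := by omega
        rw [h4] at h3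
        exact h3
      have := Cfsg.Agent.S0674.affine_of_poly e _ (le_refl 2) (Or.inl rfl) hW2 g⁻¹
      simpa using this
  apply Cfsg.Agent.S0671.result (K := ZMod p) (p := p) (f := 1) (le_refl 1)
    (by rw [pow_one]; exact hp_def)
  intro W W' hcW hWW' hW'M
  have hW : W = Cfsg.permConstants (ZMod p) G α ∨ W = Cfsg.permSumZero (ZMod p) G α :=
    Cfsg.Agent.S0674.result hp_def G hG W hcW (hWW'.le.trans hW'M)
  have hW' : W' = Cfsg.permConstants (ZMod p) G α ∨ W' = Cfsg.permSumZero (ZMod p) G α :=
    Cfsg.Agent.S0674.result hp_def G hG W' (hcW.trans hWW'.le) hW'M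
  have hWc : W = Cfsg.permConstants (ZMod p) G α := by
    rcases hW with h | h
    · exact h
    · exfalso
      rw [h] at hWW'
      exact absurd (lt_of_lt_of_le hWW' hW'M) (lt_irrefl _)
  have hW's : W' = Cfsg.permSumZero (ZMod p) G α := by
    rcases hW' with h | h
    · exfalso
      rw [h] at hWW'
      exact absurd (lt_of_le_of_lt hcW hWW') (lt_irrefl _)
    · exact h
  rw [hWc, hW's]
  refine ⟨t, fun x => (Cfsg.Agent.S0674.coord (ZMod p) e x) ^ 2, ?_, ?_⟩
  · change ∑ x, (Cfsg.Agent.S0674.coord (ZMod p) e x) ^ 2 = 0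
    exact Cfsg.Agent.S0674.sum_coord_pow e (by omega)
  · intro hmem
    change _ ∈ Submodule.span (ZMod p) {fun _ => (1 : ZMod p)} at hmem
    rw [Submodule.mem_span_singleton] at hmem
    obtain ⟨c, hc⟩ := hmem
    have key : ∀ j : ZMod p, c = (j - 1) ^ 2 - j ^ 2 := by
      intro j
      have h1 := congrFun hc (e j)
      have h2 : t⁻¹ • e j = e (j - 1) := by
        have h3 := ht (j - 1)
        rw [sub_add_cancel] at h3
        rw [← h3]
        exact inv_smul_smul t (e (j - 1))
      have h4 : (Cfsg.permRep (ZMod p) G α t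
          (fun x => (Cfsg.Agent.S0674.coord (ZMod p) e x) ^ 2)) (e j) =
          (Cfsg.Agent.S0674.coord (ZMod p) e (t⁻¹ • e j)) ^ 2 := rfl
      rw [Pi.sub_apply, h4, h2] at h1
      simpa [Cfsg.Agent.S0674.coord] using h1
    have k0 := key 0
    have k1 := key 1
    rw [k0] at k1
    have h2 : (2 : ZMod p) = 0 := by
      have : (2 : ZMod p) = ((0 - 1) ^ 2 - 0 ^ 2) - ((1 - 1) ^ 2 - 1 ^ 2) := by ring
      rw [this, k1, sub_self]
    have h3 : ((2 : ℕ) : ZMod p) = 0 := by exact_mod_cast h2
    rw [ZMod.natCast_eq_zero_iff] at h3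
    have := Nat.le_of_dvd (by norm_num) h3
    omega

end Cfsg.Agent.S0675
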