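import Cfsg.Statements.S0676
import Mathlib
import Cfsg.Agent.S0672
import Cfsg.Agent.S0674
import Cfsg.Agent.S0675

set_option autoImplicit false
open Cfsg

namespace Cfsg.Agent.S0676

section
variable {α : Type*} [Fintype α] [DecidableEq α] {p : ℕ} [Fact p.Prime]

theorem exists_coord_of (hα : Fintype.card α = p) (t : Equiv.Perm α) (ht' : orderOf t = p) :
    ∃ e : ZMod p ≃ α, ∀ j, t (e j) = e (j + 1) := by
  have hp : p.Prime := Fact.out
  obtain ⟨a₀⟩ : Nonempty α := Fintype.card_pos_iff.mp (by rw [hα]; exact hp.pos)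
  have hcyc : t.IsCycle :=
    Equiv.Perm.isCycle_of_prime_order'' (by rw [hα]; exact hp) (by rw [ht', hα])
  have hsupp : t.support = Finset.univ := by
    apply Finset.eq_univ_of_card
    rw [← hcyc.orderOf, ht', hα]
  have hmod : ∀ n : ℕ, t ^ (n % p) = t ^ n := by
    intro n
    have := pow_mod_orderOf t n
    rwa [ht'] at this
  let f : ZMod p → α := fun j => (t ^ j.val) a₀
  have hf_succ : ∀ j, t (f j) = f (j + 1) := by
    intro j
    show t ((t ^ j.val) a₀) = (t ^ (j + 1).val) a₀
    rw [← Equiv.Perm.mul_apply, ← pow_succ']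
    congr 1
    rw [ZMod.val_add, ZMod.val_one_eq_one_mod, Nat.add_mod_mod, hmod]
  have hf_surj : Function.Surjective f := by
    intro x
    have hx : x ∈ t.support := by rw [hsupp]; exact Finset.mem_univ _
    have ha : a₀ ∈ t.support := by rw [hsupp]; exact Finset.mem_univ _
    obtain ⟨i, hi⟩ := hcyc.exists_pow_eq (Equiv.Perm.mem_support.mp ha)
      (Equiv.Perm.mem_support.mp hx)
    refine ⟨(i : ZMod p), ?_⟩
    show (t ^ (i : ZMod p).val) a₀ = x
    rw [ZMod.val_natCast, hmod]; exact hi
  have hf_bij : Function.Bijective f := by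
    rw [Fintype.bijective_iff_surjective_and_card]
    exact ⟨hf_surj, by rw [ZMod.card, hα]⟩
  exact ⟨Equiv.ofBijective f hf_bij, hf_succ⟩

omit [Fintype α] [DecidableEq α] in
theorem pow_coord (e : ZMod p ≃ α) (t : Equiv.Perm α) (ht : ∀ j, t (e j) = e (j + 1)) (n : ℕ)
    (j : ZMod p) : (t ^ n) (e j) = e (j + n) := by
  induction n generalizing j with
  | zero => simp
  | succ n ih =>
    rw [pow_succ, Equiv.Perm.mul_apply, ht, ih]
    congr 1; push_cast; ring

omit [Fintype α] [DecidableEq α] in
theorem invol_coord (e : ZMod p ≃ α) (t s : Equiv.Perm α) (ht : ∀ j, t (e j) = e (j + 1))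
    (k : ℕ) (hst : s * t = t ^ k * s) (hs2 : s * s = 1) (hs1 : s ≠ 1) (hp2 : p ≠ 2) :
    ∃ b : ZMod p, ∀ j, s (e j) = e (b - j) := by
  have hp : p.Prime := Fact.out
  set b : ZMod p := e.symm (s (e 0)) with hb
  have h0 : s (e 0) = e b := by rw [hb, Equiv.apply_symm_apply]
  have hnat : ∀ n : ℕ, s (e (n : ZMod p)) = e (b + k * n) := by
    intro n
    induction n with
    | zero => simp [h0]
    | succ n ih =>
      have h1 : e ((n + 1 : ℕ) : ZMod p) = t (e (n : ZMod p)) := by
        rw [ht]; congr 1; push_cast; ring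
      rw [h1, ← Equiv.Perm.mul_apply, hst, Equiv.Perm.mul_apply, ih, pow_coord e t ht]
      congr 1; push_cast; ring
  have hall : ∀ j : ZMod p, s (e j) = e (b + k * j) := by
    intro j
    have := hnat j.val
    rwa [ZMod.natCast_zmod_val] at this
  have hsq : ∀ j : ZMod p, b + k * (b + k * j) = j := by
    intro j
    apply e.injective
    rw [← hall, ← hall, ← Equiv.Perm.mul_apply, hs2, Equiv.Perm.one_apply]
  have hk1 : (k : ZMod p) * k = 1 := by
    have e0 := hsq 0
    have e1 := hsq 1
    linear_combination e1 - e0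
  have h2ne : (2 : ZMod p) ≠ 0 := by
    intro h2
    have h3 : ((2 : ℕ) : ZMod p) = 0 := by exact_mod_cast h2
    rw [ZMod.natCast_eq_zero_iff] at h3
    have := (Nat.prime_dvd_prime_iff_eq hp Nat.prime_two).mp h3
    exact hp2 this
  rcases mul_self_eq_one_iff.mp hk1 with hk | hk
  · exfalso
    have e0 := hsq 0
    rw [hk] at e0
    have hb0 : b = 0 := by
      have : (2 : ZMod p) * b = 0 := by linear_combination e0
      rcases mul_eq_zero.mp this with h | h
      · exact absurd h h2ne
      · exact h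
    apply hs1
    apply Equiv.ext
    intro x
    obtain ⟨j, rfl⟩ := e.surjective x
    rw [hall, hk, hb0]
    simp
  · refine ⟨b, fun j => ?_⟩
    rw [hall, hk]
    congr 1; ring

end

section pairs

open scoped Pointwise in
theorem pairs_key {G : Type*} [Group G] {Ω : Type*} [DecidableEq Ω] [MulAction G Ω] {K : Type*}
    [Field K] (v : Set.powersetCard Ω 2 → K) (t s : G) (ht : ∀ π, v (t • π) = v π)
    (hs : ∀ π, v (s • π) = - v π)
    (hts : ∀ a b : Ω, ∃ n : ℕ, s • a = t ^ n • b ∧ s • b = t ^ n • a) (h2 : (2 : K) ≠ 0) :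
    v = 0 := by
  funext π
  have htn : ∀ (n : ℕ) π, v (t ^ n • π) = v π := by
    intro n
    induction n with
    | zero => intro π; simp
    | succ n ih => intro π; rw [pow_succ, mul_smul, ih, ht]
  obtain ⟨a, b, hab, hπ⟩ := Finset.card_eq_two.mp π.2
  obtain ⟨n, h1, h2'⟩ := hts a b
  have heq : s • π = t ^ n • π := by
    apply Subtype.ext
    rw [Set.powersetCard.coe_smul, Set.powersetCard.coe_smul]
    show s • (π : Finset Ω) = t ^ n • (π : Finset Ω)
    have hπ' : (π : Finset Ω) = {a, b} := hπ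
    rw [hπ']
    ext x
    simp only [Finset.mem_smul_finset, Finset.mem_insert, Finset.mem_singleton]
    constructor
    · rintro ⟨y, rfl | rfl, rfl⟩
      · exact ⟨_, Or.inr rfl, h1.symm⟩
      · exact ⟨_, Or.inl rfl, h2'.symm⟩
    · rintro ⟨y, rfl | rfl, rfl⟩
      · exact ⟨_, Or.inr rfl, h2'⟩
      · exact ⟨_, Or.inl rfl, h1⟩
  have h3 := hs π
  rw [heq, htn] at h3
  have h4 : (2 : K) * v π = 0 := by linear_combination h3
  rcases mul_eq_zero.mp h4 with h | h
  · exact absurd h h2
  · exact h

end pairs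

/-- A non-solvable transitive permutation group of prime degree `p` whose Sylow `p`-normaliser has even order is triply transitive. -/
theorem result {α : Type*} [Fintype α] [DecidableEq α] {p : ℕ} [Fact p.Prime] (hα : Fintype.card α = p) (G : Subgroup (Equiv.Perm α)) [MulAction.IsPretransitive G α] (hG : ¬ Group.IsSolvable G) (P : Sylow p G) (heven : Even (Nat.card (Subgroup.normalizer ((P : Subgroup G) : Set G)))) : MulAction.IsMultiplyPretransitive G α 3 := by
  classical
  have hp : p.Prime := Fact.out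
  have hαp : (Fintype.card α).Prime := by rw [hα]; exact hp
  have h2 : MulAction.IsMultiplyPretransitive G α 2 :=
    (Cfsg.Agent.S0675.result hαp G).resolve_left hG
  have hp2 : p ≠ 2 := by
    intro hp2
    apply hG
    obtain ⟨e, t, ht⟩ := Cfsg.Agent.S0674.exists_coord hα G
    apply Cfsg.Agent.S0674.solvable_of_affine (K := ZMod p) e
    intro g
    obtain ⟨r, hr, hW⟩ := Cfsg.Agent.S0674.subrep_poly (K := ZMod p) e t ht ⊤
    have hW2 : ∀ f : α → ZMod p,
        f ∈ (⊤ : Subrepresentation (Cfsg.permRep (ZMod p) G α)).toSubmodule ↔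
        ∃ P : Polynomial (ZMod p), P.degree < ((2 : ℕ) : WithBot ℕ) ∧
          ∀ x, f x = P.eval (Cfsg.Agent.S0674.coord (ZMod p) e x) := by
      intro f
      constructor
      · intro hf
        obtain ⟨P, hP, hPf⟩ := (hW f).mp hf
        exact ⟨P, lt_of_lt_of_le hP (by exact_mod_cast (by omega : r ≤ 2)), hPf⟩
      · intro _; trivial
    have := Cfsg.Agent.S0674.affine_of_poly e ⊤ (le_refl 2) (Or.inl rfl) hW2 g⁻¹
    simpa using this
  have hp3 : 3 ≤ p := by have := hp.two_le; omega
  have h2ne : (2 : ZMod p) ≠ 0 := by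
    intro h2
    have h3 : ((2 : ℕ) : ZMod p) = 0 := by exact_mod_cast h2
    rw [ZMod.natCast_eq_zero_iff] at h3
    have := (Nat.prime_dvd_prime_iff_eq hp Nat.prime_two).mp h3
    exact hp2 this
  obtain ⟨a₀⟩ : Nonempty α := Fintype.card_pos_iff.mp (by rw [hα]; exact hp.pos)
  have hidx : ∀ a : α, p * Nat.card (MulAction.stabilizer G a) = Nat.card G := by
    intro a
    have h1 := MulAction.index_stabilizer_of_transitive G a
    rw [Nat.card_eq_fintype_card, hα] at h1
    rw [← h1]; exact Subgroup.index_mul_card _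
  have hPcard : Nat.card (P : Subgroup G) = p := by
    have h1 := P.card_eq_multiplicity
    set n := (Nat.card G).factorization p with hn
    have hn1 : 1 ≤ n := by
      have : p ∣ Nat.card G := Dvd.intro _ (hidx a₀)
      exact hp.factorization_pos_of_dvd Nat.card_pos.ne' this
    have hn2 : n ≤ 1 := by
      by_contra hcon
      have h3 : p ^ 2 ∣ Nat.card G := by
        refine (pow_dvd_pow p (by omega : 2 ≤ n)).trans ?_
        rw [← h1]; exact Subgroup.card_subgroup_dvd_card _
      have h4 : Nat.card G ∣ p.factorial := by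
        have := Subgroup.card_subgroup_dvd_card G
        rwa [Nat.card_perm, Nat.card_eq_fintype_card (α := α), hα] at this
      have h5 : p ^ 2 ∣ p.factorial := h3.trans h4
      have h6 : p ∣ (p - 1).factorial := by
        have h7 : p.factorial = p * (p - 1).factorial := by
          conv_lhs => rw [show p = (p - 1) + 1 by omega, Nat.factorial_succ]
          congr 1; omega
        rw [h7, pow_two] at h5
        exact Nat.dvd_of_mul_dvd_mul_left hp.pos h5
      have := (hp.dvd_factorial).mp h6
      omega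
    have hn' : n = 1 := le_antisymm hn2 hn1
    rw [h1, hn', pow_one]
  obtain ⟨t₀, ht₀⟩ := exists_prime_orderOf_dvd_card' (G := (P : Subgroup G)) p (by rw [hPcard])
  set t : G := (t₀ : G) with ht_def
  have htP : t ∈ (P : Subgroup G) := t₀.2
  have htord : orderOf (t : Equiv.Perm α) = p := by
    rw [Subgroup.orderOf_coe, ht_def, Subgroup.orderOf_coe]; exact ht₀
  obtain ⟨e, he⟩ := exists_coord_of hα (t : Equiv.Perm α) htord
  obtain ⟨s₀, hs₀⟩ := exists_prime_orderOf_dvd_card'
    (G := Subgroup.normalizer ((P : Subgroup G) : Set G)) 2 heven.two_dvd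
  set s : G := (s₀ : G) with hs_def
  have hsN : s ∈ Subgroup.normalizer ((P : Subgroup G) : Set G) := s₀.2
  have hs1 : s ≠ 1 := by
    intro h1
    have : s₀ = 1 := Subtype.ext h1
    rw [this, orderOf_one] at hs₀
    norm_num at hs₀
  have hs2 : s * s = 1 := by
    have := pow_orderOf_eq_one s₀
    rw [hs₀, pow_two] at this
    exact congrArg Subtype.val this
  have hstP : s * t * s⁻¹ ∈ (P : Subgroup G) := (Subgroup.mem_normalizer_iff.mp hsN t).mp htP
  have ht₀1 : t₀ ≠ 1 := by
    intro h1
    rw [h1, orderOf_one] at ht₀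
    exact hp.one_lt.ne ht₀
  obtain ⟨k, hk⟩ := (Submonoid.mem_powers_iff _ _).mp (mem_powers_of_prime_card (G := (P : Subgroup G))
    hPcard (g := t₀) (g' := ⟨s * t * s⁻¹, hstP⟩) ht₀1)
  have hk' : s * t = t ^ k * s := by
    have h3 : t ^ k = s * t * s⁻¹ := by
      have := congrArg Subtype.val hk
      simpa using this
    rw [h3]; group
  have hk'' : (s : Equiv.Perm α) * (t : Equiv.Perm α) =
      (t : Equiv.Perm α) ^ k * (s : Equiv.Perm α) := by
    have := congrArg Subtype.val hk'
    simpa using this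
  have hs1' : (s : Equiv.Perm α) ≠ 1 := fun h => hs1 (Subtype.ext h)
  have hs2' : (s : Equiv.Perm α) * (s : Equiv.Perm α) = 1 := by
    have := congrArg Subtype.val hs2
    simpa using this
  obtain ⟨b, hb⟩ := invol_coord e (t : Equiv.Perm α) (s : Equiv.Perm α) he k hk'' hs2' hs1' hp2
  have heven' : ∀ a : α, Even (Nat.card (MulAction.stabilizer G a)) := by
    intro a
    have h1 : 2 ∣ Nat.card G := heven.two_dvd.trans (Subgroup.card_subgroup_dvd_card _)
    rw [← hidx a] at h1
    have h3 : Nat.Coprime 2 p := by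
      rw [Nat.coprime_primes Nat.prime_two hp]; exact fun h => hp2 h.symm
    exact even_iff_two_dvd.mpr (h3.dvd_of_dvd_mul_left h1)
  have ht_inv : ∀ j, t⁻¹ • e j = e (j - 1) := by
    intro j
    have h3 := he (j - 1)
    rw [sub_add_cancel] at h3
    rw [← h3]
    exact inv_smul_smul t (e (j - 1))
  have hs_inv : ∀ j, s⁻¹ • e j = e (b - j) := by
    intro j
    have h3 := hb (b - j)
    rw [sub_sub_cancel] at h3
    rw [← h3]
    exact inv_smul_smul s (e (b - j))
  have hts : ∀ x y : α, ∃ n : ℕ, s • x = t ^ n • y ∧ s • y = t ^ n • x := by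
    intro x y
    obtain ⟨i, rfl⟩ := e.surjective x
    obtain ⟨j, rfl⟩ := e.surjective y
    refine ⟨(b - i - j).val, ?_, ?_⟩
    · show (s : Equiv.Perm α) (e i) = ((t ^ (b - i - j).val : G) : Equiv.Perm α) (e j)
      rw [hb, Subgroup.coe_pow, pow_coord e _ he, ZMod.natCast_zmod_val]
      congr 1; ring
    · show (s : Equiv.Perm α) (e j) = ((t ^ (b - i - j).val : G) : Equiv.Perm α) (e i)
      rw [hb, Subgroup.coe_pow, pow_coord e _ he, ZMod.natCast_zmod_val]
      congr 1; ring
  apply Cfsg.Agent.S0672.result (K := ZMod p) (p := p) h2 (by rw [hα]) heven'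
  intro f hf
  let ξ : α → ZMod p := Cfsg.Agent.S0674.coord (ZMod p) e
  have hξe : ∀ j, ξ (e j) = j := by
    intro j
    simp [ξ, Cfsg.Agent.S0674.coord]
  have hξsum : ∑ x, ξ x = 0 := by
    have := Cfsg.Agent.S0674.sum_coord_pow (K := ZMod p) e (k := 1) (by omega)
    simpa using this
  have h1sum : ∑ _x : α, (1 : ZMod p) = 0 := by
    simp [hα]
  let ξ' : (Cfsg.permSumZero (ZMod p) G α).toSubmodule := ⟨ξ, hξsum⟩
  let one' : (Cfsg.permSumZero (ZMod p) G α).toSubmodule := ⟨fun _ => 1, h1sum⟩
  have hone : f one' = 0 := hf one' (Submodule.subset_span rfl)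
  have htξ : (Cfsg.permSumZero (ZMod p) G α).toRepresentation t ξ' = ξ' - one' := by
    apply Subtype.ext
    funext x
    obtain ⟨j, rfl⟩ := e.surjective x
    show ξ (t⁻¹ • e j) = ξ (e j) - 1
    rw [ht_inv j, hξe, hξe]
  have hsξ : (Cfsg.permSumZero (ZMod p) G α).toRepresentation s ξ' = b • one' - ξ' := by
    apply Subtype.ext
    funext x
    obtain ⟨j, rfl⟩ := e.surjective x
    show ξ (s⁻¹ • e j) = b * 1 - ξ (e j)
    rw [hs_inv j, hξe, hξe]; ring
  set v := f ξ' with hv
  have hvt : ∀ π, v (t • π) = v π := by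
    intro π
    have h1 := Representation.IntertwiningMap.isIntertwining _ _ f t ξ'
    rw [htξ, map_sub, hone, sub_zero] at h1
    have h3 := congrFun h1 (t • π)
    have h4 : (Cfsg.permRep (ZMod p) G (Set.powersetCard α 2) t (f ξ')) (t • π) = v π := by
      show v (t⁻¹ • t • π) = v π
      rw [inv_smul_smul]
    exact h3.trans h4
  have hvs : ∀ π, v (s • π) = - v π := by
    intro π
    have h1 := Representation.IntertwiningMap.isIntertwining _ _ f s ξ'
    rw [hsξ, map_sub, map_smul, hone, smul_zero, zero_sub] at h1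
    have h3 := congrFun h1 (s • π)
    have h4 : (Cfsg.permRep (ZMod p) G (Set.powersetCard α 2) s (f ξ')) (s • π) = v π := by
      show v (s⁻¹ • s • π) = v π
      rw [inv_smul_smul]
    have h5 : -(v (s • π)) = v π := h3.trans h4
    rw [← h5, neg_neg]
  have hv0 : v = 0 := pairs_key v t s hvt hvs hts h2ne
  let W : Subrepresentation (Cfsg.permRep (ZMod p) G α) :=
    { toSubmodule := (LinearMap.ker f.toLinearMap).map
        (Cfsg.permSumZero (ZMod p) G α).toSubmodule.subtype
      apply_mem_toSubmodule := by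
        rintro g _ ⟨u, hu, rfl⟩
        refine ⟨(Cfsg.permSumZero (ZMod p) G α).toRepresentation g u, ?_, rfl⟩
        rw [SetLike.mem_coe, LinearMap.mem_ker] at hu ⊢
        rw [Representation.IntertwiningMap.toLinearMap_apply] at hu ⊢
        rw [Representation.IntertwiningMap.isIntertwining _ _ f g u, hu, map_zero] }
  have hWc : (Cfsg.permConstants (ZMod p) G α).toSubmodule ≤ W.toSubmodule := by
    intro u hu
    have husum : ∑ x, u x = 0 := by
      have hu' : u ∈ Submodule.span (ZMod p) {fun _ => (1 : ZMod p)} := hu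
      rw [Submodule.mem_span_singleton] at hu'
      obtain ⟨c, rfl⟩ := hu'
      simp only [Pi.smul_apply, smul_eq_mul, ← Finset.mul_sum, h1sum, mul_zero]
    exact ⟨⟨u, husum⟩, hf ⟨u, husum⟩ hu, rfl⟩
  have hWs : W.toSubmodule ≤ (Cfsg.permSumZero (ZMod p) G α).toSubmodule := by
    rintro _ ⟨u, _, rfl⟩
    exact u.2
  have hξW : ξ ∈ W.toSubmodule := ⟨ξ', hv0, rfl⟩
  rcases Cfsg.Agent.S0674.result hα G hG W hWc hWs with hW | hW
  · exfalso
    rw [hW] at hξW
    have hξW' : ξ ∈ Submodule.span (ZMod p) {fun _ => (1 : ZMod p)} := hξW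
    rw [Submodule.mem_span_singleton] at hξW'
    obtain ⟨c, hc⟩ := hξW'
    have e0 := congrFun hc (e 0)
    have e1 := congrFun hc (e 1)
    rw [hξe] at e0 e1
    simp only [Pi.smul_apply, smul_eq_mul, mul_one] at e0 e1
    rw [e0] at e1
    exact zero_ne_one e1
  · apply Representation.IntertwiningMap.ext
    apply LinearMap.ext
    intro u
    have hu : (u : α → ZMod p) ∈ W.toSubmodule := by rw [hW]; exact u.2
    obtain ⟨u', hu', huu'⟩ := hu
    have hu'' : u' = u := Subtype.ext huu'
    rw [← hu'']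
    exact hu'

end Cfsg.Agent.S0676
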