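import Cfsg.Statements.S5017
-- import your own Cfsg.Agent.* helpers here
import Cfsg.Agent.Lib.Helper83.RankOne

set_option autoImplicit false
open Cfsg

namespace Cfsg.Agent.S5017

/-- Let X be a rank one group with unipotent subgroups A and B and N a normal subgroup of X. Then either X = N A or N lies in the centre of X. Consequently a perfect rank one group is quasisimple. -/
theorem result {X : Type*} [Group X] {A B : Subgroup X} (h : Cfsg.IsRankOneGroup X A B) :
    (∀ N : Subgroup X, N.Normal → N ⊔ A = ⊤ ∨ N ≤ Subgroup.center X) ∧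
    (Group.IsPerfect X → Cfsg.IsQuasisimple X) := by
  obtain ⟨htop, hp⟩ := h
  have part1 : ∀ N : Subgroup X, N.Normal → N ⊔ A = ⊤ ∨ N ≤ Subgroup.center X := by
    intro N hN
    by_cases hall : ∀ n ∈ N, conjBy A n = A
    · right
      have hallB : ∀ n ∈ N, conjBy B n = B := by
        intro n hn
        obtain ⟨x, hx, hBx⟩ := Cfsg.Agent.Lib.Helper83.RankOne.right_mem_unipotent hp
        have h1 : x⁻¹ * n * x ∈ N := by
          have := hN.conj_mem n hn x⁻¹
          simpa using this
        have h2 := hall _ h1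
        rw [hBx, Cfsg.Agent.Lib.Helper83.RankOne.conjBy_conjBy]
        have e : n * x = x * (x⁻¹ * n * x) := by group
        rw [e, ← Cfsg.Agent.Lib.Helper83.RankOne.conjBy_conjBy, h2]
      have comm : ∀ {A B : Subgroup X}, IsRankOnePair A B → (∀ n ∈ N, conjBy A n = A) →
          (∀ n ∈ N, conjBy B n = B) → ∀ n ∈ N, ∀ a ∈ A, a * n = n * a := by
        intro A B hp hall hallB n hn a ha
        have hcN : a * n * a⁻¹ * n⁻¹ ∈ N := N.mul_mem (hN.conj_mem n hn a) (N.inv_mem hn)
        have hcA : a * n * a⁻¹ * n⁻¹ ∈ A := by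
          have h3 : n * a⁻¹ * n⁻¹ ∈ conjBy A n :=
            Cfsg.Agent.Lib.Helper83.RankOne.conj_mem_conjBy (A.inv_mem ha) n
          rw [hall n hn] at h3
          have := A.mul_mem ha h3
          simpa [mul_assoc] using this
        have h4 := Cfsg.Agent.Lib.Helper83.RankOne.eq_one_of_conjBy_eq hp hcA (hallB _ hcN)
        have e : a * n = (a * n * a⁻¹ * n⁻¹) * (n * a) := by group
        rw [e, h4, one_mul]
      intro n hn
      rw [Subgroup.mem_center_iff]
      intro g
      have hg : g ∈ A ⊔ B := htop ▸ Subgroup.mem_top g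
      refine Cfsg.Agent.Lib.Helper83.RankOne.sup_induction_gen (P := fun g => g * n = n * g)
        ?_ ?_ ?_ ?_ hg
      · intro a ha
        exact comm hp hall hallB n hn a ha
      · intro b hb
        exact comm (RankOnePair_symm hp) hallB hall n hn b hb
      · simp
      · intro x y hx hy
        rw [mul_assoc, hy, ← mul_assoc, hx, mul_assoc]
    · left
      push Not at hall
      obtain ⟨n, hn, hne⟩ := hall
      have hmem : conjBy A n ∈ unipotentSubgroups A B := ⟨n, htop ▸ Subgroup.mem_top n, rfl⟩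
      obtain ⟨a, ha, hB⟩ := Cfsg.Agent.Lib.Helper83.RankOne.exists_conj_to_right hp hmem hne
      rw [Cfsg.Agent.Lib.Helper83.RankOne.conjBy_conjBy] at hB
      have hBle : B ≤ N ⊔ A := by
        rw [← hB]
        exact Cfsg.Agent.Lib.Helper83.RankOne.conjBy_le_of_mem le_sup_right
          (Subgroup.mul_mem _ (Subgroup.mem_sup_right ha) (Subgroup.mem_sup_left hn))
      rw [eq_top_iff, ← htop]
      exact sup_le le_sup_right hBle
  refine ⟨part1, fun hperf => ⟨hperf, ?_⟩⟩
  have hcne : ∃ x : X, x ∉ Subgroup.center X := by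
    by_contra hc
    push Not at hc
    obtain ⟨b, hb, hb1⟩ := Cfsg.Agent.Lib.Helper83.RankOne.exists_mem_ne_one
      (Cfsg.Agent.Lib.Helper83.RankOne.right_ne_bot hp)
    apply hb1
    apply Cfsg.Agent.Lib.Helper83.RankOne.eq_one_of_conjBy_eq (RankOnePair_symm hp) hb
    ext x
    rw [Cfsg.Agent.Lib.Helper83.RankOne.mem_conjBy]
    have hbc := hc b
    rw [Subgroup.mem_center_iff] at hbc
    have e : b⁻¹ * x * b = x := by
      rw [mul_assoc, hbc x, ← mul_assoc, inv_mul_cancel, one_mul]
    rw [e]
  obtain ⟨x₀, hx₀⟩ := hcne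
  have hnt : Nontrivial (X ⧸ Subgroup.center X) :=
    ⟨⟨(x₀ : X ⧸ Subgroup.center X), 1, fun hcon => hx₀ ((QuotientGroup.eq_one_iff x₀).mp hcon)⟩⟩
  refine @IsSimpleGroup.mk _ _ hnt ?_
  intro H hH
  have hNn : (H.comap (QuotientGroup.mk' (Subgroup.center X))).Normal := hH.comap _
  rcases part1 _ hNn with h1 | h1
  · right
    -- the quotient by the preimage is nilpotent and perfect, hence trivial
    set N := H.comap (QuotientGroup.mk' (Subgroup.center X)) with hNdef
    have hsurj : Function.Surjective ((QuotientGroup.mk' N).comp A.subtype) := by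
      intro q
      obtain ⟨x, rfl⟩ := QuotientGroup.mk'_surjective N q
      have hx : x ∈ N ⊔ A := h1 ▸ Subgroup.mem_top x
      obtain ⟨y, hy, z, hz, rfl⟩ := Subgroup.mem_sup_of_normal_left.mp hx
      refine ⟨⟨z, hz⟩, ?_⟩
      simp only [MonoidHom.coe_comp, Function.comp_apply, Subgroup.coe_subtype,
        QuotientGroup.mk'_apply, QuotientGroup.mk_mul]
      rw [(QuotientGroup.eq_one_iff y).mpr hy, one_mul]
    have hnil : Group.IsNilpotent (X ⧸ N) :=
      @Group.nilpotent_of_surjective _ _ _ _ hp.nilpotent_left _ hsurj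
    have hsub : Subsingleton (X ⧸ N) := by
      by_contra hns
      rw [not_subsingleton_iff_nontrivial] at hns
      exact Group.IsPerfect.not_isNilpotent (X ⧸ N) hnil
    have hNtop : N = ⊤ := by
      rw [eq_top_iff]
      intro x _
      exact (QuotientGroup.eq_one_iff x).mp (Subsingleton.elim _ _)
    rw [eq_top_iff]
    intro q _
    obtain ⟨x, rfl⟩ := QuotientGroup.mk'_surjective (Subgroup.center X) q
    have hx : x ∈ N := hNtop ▸ Subgroup.mem_top x
    exact hx
  · left
    rw [Subgroup.eq_bot_iff_forall]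
    intro q hq
    obtain ⟨x, rfl⟩ := QuotientGroup.mk'_surjective (Subgroup.center X) q
    have hx : x ∈ H.comap (QuotientGroup.mk' (Subgroup.center X)) := hq
    exact (QuotientGroup.eq_one_iff x).mpr (h1 hx)

end Cfsg.Agent.S5017
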