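import Cfsg.Statements.S5018
-- import your own Cfsg.Agent.* helpers here
import Cfsg.Agent.Lib.Helper83.RankOne
import Cfsg.Agent.S5017

set_option autoImplicit false
open Cfsg

namespace Cfsg.Agent.S5018

/-- A rank one group is not nilpotent, and its second centre equals its centre. -/
theorem result {X : Type*} [Group X] {A B : Subgroup X} (h : Cfsg.IsRankOneGroup X A B) :
    Subgroup.upperCentralSeries X 2 = Subgroup.center X ∧ ¬ Group.IsNilpotent X := by
  have part1 := (Cfsg.Agent.S5017.result h).1
  obtain ⟨htop, hp⟩ := h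
  -- a subgroup M is invariant under z as soon as z and z⁻¹ map M into M
  have conj_eq : ∀ (M : Subgroup X) (z : X), (∀ m ∈ M, z * m * z⁻¹ ∈ M) →
      (∀ m ∈ M, z⁻¹ * m * z ∈ M) → conjBy M z = M := by
    intro M z h1 h2
    ext x
    rw [Cfsg.Agent.Lib.Helper83.RankOne.mem_conjBy]
    constructor
    · intro hx
      have := h1 _ hx
      simpa [mul_assoc] using this
    · intro hx
      exact h2 x hx
  -- A is not normal
  have hnotnormal : ¬ (∀ x : X, conjBy A x = A) := by
    intro hn
    obtain ⟨b, hb, hb1⟩ := Cfsg.Agent.Lib.Helper83.RankOne.exists_mem_ne_one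
      (Cfsg.Agent.Lib.Helper83.RankOne.right_ne_bot hp)
    exact hb1 (Cfsg.Agent.Lib.Helper83.RankOne.eq_one_of_conjBy_eq (RankOnePair_symm hp) hb (hn b))
  have hcA : Subgroup.center X ⊔ A ≠ ⊤ := by
    intro hc
    apply hnotnormal
    intro x
    have hx : x ∈ Subgroup.center X ⊔ A := hc ▸ Subgroup.mem_top x
    refine Cfsg.Agent.Lib.Helper83.RankOne.sup_induction_gen (P := fun x => conjBy A x = A)
      ?_ ?_ ?_ ?_ hx
    · intro z hz
      rw [Subgroup.mem_center_iff] at hz
      apply conj_eq
      · intro m hm
        rw [← hz m, mul_assoc, mul_inv_cancel, mul_one]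
        exact hm
      · intro m hm
        rw [mul_assoc, hz m, ← mul_assoc, inv_mul_cancel, one_mul]
        exact hm
    · intro a ha
      exact Cfsg.Agent.Lib.Helper83.RankOne.conjBy_of_mem ha
    · exact Cfsg.Agent.Lib.Helper83.RankOne.conjBy_one A
    · intro x y hx hy
      rw [← Cfsg.Agent.Lib.Helper83.RankOne.conjBy_conjBy, hy, hx]
  have hZ2 : Subgroup.upperCentralSeries X 2 = Subgroup.center X := by
    have hle : Subgroup.center X ≤ Subgroup.upperCentralSeries X 2 := by
      rw [← Subgroup.upperCentralSeries_one]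
      exact Subgroup.upperCentralSeries_mono X (by norm_num)
    rcases part1 (Subgroup.upperCentralSeries X 2) inferInstance with h1 | h1
    · exfalso
      apply hcA
      -- M = Z(X) ⊔ A is invariant under Z₂ and A, hence normal
      have hMinv : ∀ x : X, conjBy (Subgroup.center X ⊔ A) x = Subgroup.center X ⊔ A := by
        intro x
        have hx : x ∈ Subgroup.upperCentralSeries X 2 ⊔ A := h1 ▸ Subgroup.mem_top x
        refine Cfsg.Agent.Lib.Helper83.RankOne.sup_induction_gen
          (P := fun x => conjBy (Subgroup.center X ⊔ A) x = Subgroup.center X ⊔ A) ?_ ?_ ?_ ?_ hx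
        · intro z hz
          have key : ∀ z ∈ Subgroup.upperCentralSeries X 2, ∀ m ∈ Subgroup.center X ⊔ A,
              z * m * z⁻¹ ∈ Subgroup.center X ⊔ A := by
            intro z hz m hm
            have hz' : z ∈ Subgroup.upperCentralSeries X (1 + 1) := hz
            rw [Subgroup.mem_upperCentralSeries_succ_iff] at hz'
            have h2 := hz' m
            rw [Subgroup.upperCentralSeries_one, commutatorElement_def] at h2
            have h3 := Subgroup.mul_mem _ (Subgroup.mem_sup_left (T := A) h2) hm
            simpa [mul_assoc] using h3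
          apply conj_eq
          · exact key z hz
          · intro m hm
            have := key z⁻¹ (Subgroup.inv_mem _ hz) m hm
            simpa using this
        · intro a ha
          exact Cfsg.Agent.Lib.Helper83.RankOne.conjBy_of_mem (Subgroup.mem_sup_right ha)
        · exact Cfsg.Agent.Lib.Helper83.RankOne.conjBy_one _
        · intro x y hx hy
          rw [← Cfsg.Agent.Lib.Helper83.RankOne.conjBy_conjBy, hy, hx]
      obtain ⟨a, ha, ha1⟩ := Cfsg.Agent.Lib.Helper83.RankOne.exists_mem_ne_one
        (Cfsg.Agent.Lib.Helper83.RankOne.left_ne_bot hp)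
      obtain ⟨b, hb, hb1, hab⟩ := hp.cond_left a ha ha1
      have hB : B ≤ Subgroup.center X ⊔ A := by
        have h2 : conjBy B a⁻¹ ≤ Subgroup.center X ⊔ A := by
          rw [← hab]
          calc conjBy A b⁻¹ ≤ conjBy (Subgroup.center X ⊔ A) b⁻¹ :=
                Cfsg.Agent.Lib.Helper83.RankOne.conjBy_mono le_sup_right _
            _ = Subgroup.center X ⊔ A := hMinv _
        calc B = conjBy (conjBy B a⁻¹) a :=
              (Cfsg.Agent.Lib.Helper83.RankOne.conjBy_inv_cancel' B a).symm
          _ ≤ conjBy (Subgroup.center X ⊔ A) a :=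
              Cfsg.Agent.Lib.Helper83.RankOne.conjBy_mono h2 _
          _ = Subgroup.center X ⊔ A := hMinv _
      rw [eq_top_iff, ← htop]
      exact sup_le le_sup_right hB
    · exact le_antisymm h1 hle
  refine ⟨hZ2, ?_⟩
  intro hnil
  obtain ⟨n, hn⟩ := hnil.nilpotent'
  have hall : ∀ n : ℕ, Subgroup.upperCentralSeries X (n + 1) = Subgroup.center X := by
    intro n
    induction n with
    | zero => exact Subgroup.upperCentralSeries_one X
    | succ n ih =>
      rw [← hZ2]
      ext x
      rw [Subgroup.mem_upperCentralSeries_succ_iff, ih,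
        show (2 : ℕ) = 1 + 1 from rfl, Subgroup.mem_upperCentralSeries_succ_iff,
        Subgroup.upperCentralSeries_one]
  apply hcA
  cases n with
  | zero =>
    rw [Subgroup.upperCentralSeries_zero] at hn
    rw [eq_top_iff, ← hn]
    exact bot_le
  | succ n =>
    rw [hall n] at hn
    rw [hn]
    exact top_sup_eq _

end Cfsg.Agent.S5018
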