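import Cfsg.Statements.S5025
-- import your own Cfsg.Agent.* helpers here
import Cfsg.Agent.Lib.Helper83.RootSub

set_option autoImplicit false
open Cfsg

namespace Cfsg.Agent.S5025

/-- Let S be a set of abstract root subgroups of G, A ∈ S and B a rank one partner of A in S. If z ≠ 1 centralizes ⟨A, B⟩, then no product z a with a a non-identity element of A is a non-identity element of a member of S. -/
theorem result {G : Type*} [Group G] {S : Set (Subgroup G)} (hS : Cfsg.IsRootSubgroupSet S)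
    {A B : Subgroup G} (hA : A ∈ S) (hB : B ∈ Cfsg.rankOnePartners S A) {z : G}
    (hz : z ∈ Subgroup.centralizer ((A ⊔ B : Subgroup G) : Set G)) (hz1 : z ≠ 1) :
    ∀ a ∈ A, a ≠ 1 → z * a ∉ Cfsg.rootElements S := by
  obtain ⟨hBS, hp⟩ := hB
  intro a ha ha1 hmem
  obtain ⟨he1, E, hE, heE⟩ := hmem
  rw [Subgroup.mem_centralizer_iff] at hz
  have hzA : ∀ x ∈ A, z * x = x * z := fun x hx => (hz x (Subgroup.mem_sup_left hx)).symm
  have hzB : ∀ x ∈ B, z * x = x * z := fun x hx => (hz x (Subgroup.mem_sup_right hx)).symm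
  have hcBz : conjBy B z = B := Cfsg.Agent.Lib.Helper83.RootSub.conjBy_eq_of_commute hzB
  have hcAz : conjBy A z = A := Cfsg.Agent.Lib.Helper83.RootSub.conjBy_eq_of_commute hzA
  have hcBzinv : conjBy B z⁻¹ = B := by
    conv_lhs => rw [← hcBz]
    exact Cfsg.Agent.Lib.Helper83.RankOne.conjBy_inv_cancel B z
  rcases hS.pair E hE B hBS with h1 | h1 | h1
  · apply ha1
    apply Cfsg.Agent.Lib.Helper83.RankOne.eq_one_of_conjBy_eq hp ha
    have e : a = z⁻¹ * (z * a) := by group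
    rw [e, ← Cfsg.Agent.Lib.Helper83.RankOne.conjBy_conjBy,
      Cfsg.Agent.Lib.Helper83.RootSub.conjBy_eq_of_commute
        (fun b hb => Cfsg.Agent.Lib.Helper83.RootSub.comm_of_commutator_eq_bot h1 heE hb), hcBzinv]
  · obtain ⟨b', hb', hb1', hEb'⟩ := h1.cond_left (z * a) heE he1
    obtain ⟨b, hb, hb1, hAb⟩ := hp.cond_left a ha ha1
    have e1 : conjBy B (z * a)⁻¹ = conjBy B a⁻¹ := by
      rw [mul_inv_rev, ← Cfsg.Agent.Lib.Helper83.RankOne.conjBy_conjBy, hcBzinv]
    rw [e1, ← hAb] at hEb'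
    have hEeq : E = conjBy A (b' * b⁻¹) := by
      rw [← Cfsg.Agent.Lib.Helper83.RankOne.conjBy_conjBy, ← hEb']
      exact (Cfsg.Agent.Lib.Helper83.RankOne.conjBy_inv_cancel' E b').symm
    have hEu : E ∈ unipotentSubgroups A B := by
      rw [hEeq]
      exact Cfsg.Agent.Lib.Helper83.RankOne.conjBy_mem_unipotent
        (Cfsg.Agent.Lib.Helper83.RankOne.left_mem_unipotent A B)
        (Subgroup.mem_sup_right (B.mul_mem hb' (B.inv_mem hb)))
    by_cases hEA : E = A
    · have hzA' : z ∈ A := by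
        have h2 : z * a ∈ A := hEA ▸ heE
        have := A.mul_mem h2 (A.inv_mem ha)
        simpa using this
      exact hz1 (Cfsg.Agent.Lib.Helper83.RankOne.eq_one_of_conjBy_eq hp hzA' hcBz)
    · obtain ⟨hpEA, -⟩ := Cfsg.Agent.Lib.Helper83.RankOne.isRankOnePair_of_mem_unipotent hp hEu
        (Cfsg.Agent.Lib.Helper83.RankOne.left_mem_unipotent A B) hEA
      apply he1
      apply Cfsg.Agent.Lib.Helper83.RankOne.eq_one_of_conjBy_eq hpEA heE
      rw [← Cfsg.Agent.Lib.Helper83.RankOne.conjBy_conjBy,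
        Cfsg.Agent.Lib.Helper83.RankOne.conjBy_of_mem ha, hcAz]
  · obtain ⟨hF, hcen, -, -⟩ := h1
    have hFB : ∀ f ∈ ⁅E, B⁆, ∀ b ∈ B, f * b = b * f :=
      fun f hf b hb => hcen f hf b (Subgroup.mem_sup_right hb)
    have h3 : conjBy B a = conjBy B (z * a) := by
      rw [← Cfsg.Agent.Lib.Helper83.RankOne.conjBy_conjBy]
      exact (Cfsg.Agent.Lib.Helper83.RootSub.conjBy_eq_of_commute (fun c hc =>
        (hz c (Cfsg.Agent.Lib.Helper83.RankOne.conjBy_le_of_mem le_sup_right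
          (Subgroup.mem_sup_left ha) hc)).symm)).symm
    have hle2 : conjBy B a ≤ ⁅E, B⁆ ⊔ B := by
      rw [h3]; exact Cfsg.Agent.Lib.Helper83.RootSub.conjBy_le_commutator_sup heE
    have hu : conjBy B a ∈ unipotentSubgroups B A :=
      Cfsg.Agent.Lib.Helper83.RootSub.unipotent_symm hp
        (Cfsg.Agent.Lib.Helper83.RankOne.conjBy_right_mem_unipotent hp ha)
    have hne : conjBy B a ≠ B :=
      fun hcon => ha1 (Cfsg.Agent.Lib.Helper83.RankOne.eq_one_of_conjBy_eq hp ha hcon)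
    exact Cfsg.Agent.Lib.Helper83.RootSub.absurd_of_unipotent_le (RankOnePair_symm hp) hFB hu hne hle2

end Cfsg.Agent.S5025
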