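import Cfsg.Statements.S5030
-- import your own Cfsg.Agent.* helpers here
import Cfsg.Agent.Lib.Helper83.Trip

set_option autoImplicit false
open Cfsg

namespace Cfsg.Agent.S5030

open Cfsg.Agent.Lib.Helper83.RankOne Cfsg.Agent.Lib.Helper83.RootSub Cfsg.Agent.Lib.Helper83.RootSub2
open Cfsg.Agent.Lib.Helper83.Triple Cfsg.Agent.Lib.Helper83.Trip

/-- Let S be a set of abstract root subgroups of G and A, B, C ∈ S with ⁅A, B⁆ ∈ S and ⁅B, C⁆ ∈ S, where A and C are different and commute. For a non-identity b ∈ B put X = ⟨A, b⁻¹ C b⟩ and Y = ⟨b⁻¹ A b, C⟩ and R = ⟨A, B, C⟩. Then X and Y are either both abelian or both nilpotent of class exactly two; X and Y commute elementwise; XY is normal in R with R = (XY) B; and R is nilpotent. -/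
theorem result {G : Type*} [Group G] {S : Set (Subgroup G)} (hS : Cfsg.IsRootSubgroupSet S)
    {A B C : Subgroup G} (hA : A ∈ S) (hB : B ∈ S) (hC : C ∈ S) (hAB : ⁅A, B⁆ ∈ S) (hBC : ⁅B, C⁆ ∈ S)
    (hAC : C ∈ Cfsg.commutingPartners S A)
    {b : G} (hb : b ∈ B) (hb1 : b ≠ 1) :
    ((IsMulCommutative ↥(A ⊔ Cfsg.conjBy C b⁻¹) ∧ IsMulCommutative ↥(Cfsg.conjBy A b⁻¹ ⊔ C)) ∨
      ((¬ IsMulCommutative ↥(A ⊔ Cfsg.conjBy C b⁻¹) ∧
          ⁅⁅A ⊔ Cfsg.conjBy C b⁻¹, A ⊔ Cfsg.conjBy C b⁻¹⁆, A ⊔ Cfsg.conjBy C b⁻¹⁆ = ⊥) ∧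
        (¬ IsMulCommutative ↥(Cfsg.conjBy A b⁻¹ ⊔ C) ∧
          ⁅⁅Cfsg.conjBy A b⁻¹ ⊔ C, Cfsg.conjBy A b⁻¹ ⊔ C⁆, Cfsg.conjBy A b⁻¹ ⊔ C⁆ = ⊥))) ∧
    ⁅A ⊔ Cfsg.conjBy C b⁻¹, Cfsg.conjBy A b⁻¹ ⊔ C⁆ = ⊥ ∧
    (∀ r ∈ A ⊔ B ⊔ C, Cfsg.conjBy ((A ⊔ Cfsg.conjBy C b⁻¹) ⊔ (Cfsg.conjBy A b⁻¹ ⊔ C)) r =
      (A ⊔ Cfsg.conjBy C b⁻¹) ⊔ (Cfsg.conjBy A b⁻¹ ⊔ C)) ∧
    ((A ⊔ Cfsg.conjBy C b⁻¹) ⊔ (Cfsg.conjBy A b⁻¹ ⊔ C)) ⊔ B = A ⊔ B ⊔ C ∧
    Group.IsNilpotent ↥(A ⊔ B ⊔ C) := by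
  classical
  have T : Tri S A B C :=
    ⟨hS, hA, hB, hC, commCase_of_mem hS hA hB hAB,
      commCase_of_mem hS hC hB (by rw [Subgroup.commutator_comm]; exact hBC),
      cm_iff_bot.mpr hAC.2.2, hAC.2.1.symm⟩
  have hbi : b⁻¹ ∈ B := B.inv_mem hb
  have hbi1 : b⁻¹ ≠ 1 := by simpa using hb1
  have hcases : (Cm A ⁅C, B⁆ ∧ Cm C ⁅A, B⁆) ∨
      (RootCommutatorCase S A ⁅C, B⁆ ∧ RootCommutatorCase S C ⁅A, B⁆) := by
    rcases T.dich with h | h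
    · exact Or.inl ⟨h, T.cm_rotate h⟩
    · right
      refine ⟨h, ?_⟩
      exact (T.symm.dich).resolve_left
        (fun hc => T.hS.ne_bot _ h.1 (cm_iff_bot.mp (T.symm.cm_rotate hc)))
  refine ⟨?_, ?_, ?_, ?_, ?_⟩
  · rcases hcases with ⟨h, h'⟩ | ⟨h, h2⟩
    · left
      refine ⟨comm_of_cm_self (T.cmX_of_cm h hbi), ?_⟩
      have h3 := T.symm.cmX_of_cm h' hbi
      rw [sup_comm] at h3
      exact comm_of_cm_self h3
    · right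
      refine ⟨⟨fun hc => T.not_cmX h hbi hbi1 (cm_self_of_comm hc), T.class2_X h hbi⟩, ?_⟩
      have e : Cfsg.conjBy A b⁻¹ ⊔ C = C ⊔ Cfsg.conjBy A b⁻¹ := sup_comm _ _
      rw [e]
      exact ⟨fun hc => T.symm.not_cmX h2 hbi hbi1 (cm_self_of_comm hc), T.symm.class2_X h2 hbi⟩
  · exact cm_iff_bot.mp (T.cmXY hbi)
  · intro r hr
    exact mem_normalizer_iff_conjBy.mp (T.normal_W hbi hbi1 hr)
  · apply le_antisymm
    · refine sup_le (sup_le (sup_le ?_ ?_) (sup_le ?_ ?_)) ?_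
      · exact le_sup_of_le_left le_sup_left
      · exact conjBy_le_of_mem le_sup_right (Subgroup.mem_sup_left (Subgroup.mem_sup_right hbi))
      · exact conjBy_le_of_mem (le_sup_of_le_left le_sup_left)
          (Subgroup.mem_sup_left (Subgroup.mem_sup_right hbi))
      · exact le_sup_right
      · exact le_sup_of_le_left le_sup_right
    · refine sup_le (sup_le ?_ ?_) ?_
      · exact le_sup_of_le_left (le_sup_of_le_left le_sup_left)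
      · exact le_sup_right
      · exact le_sup_of_le_left (le_sup_of_le_right le_sup_right)
  · rcases hcases with ⟨h, -⟩ | ⟨h, h2⟩
    · exact T.nilpotent_of_cm h
    · exact T.nilpotent_of_commCase h h2

end Cfsg.Agent.S5030
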