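import Cfsg.Statements.S0263
import Mathlib

set_option autoImplicit false
open Cfsg

namespace Cfsg.Agent.S0263

/-- A Sylow p-subgroup of GL_n(q), p the characteristic, has order q^(n(n-1)/2). -/
theorem result {F : Type*} [Field F] [Fintype F] {q : ℕ} (hF : Fintype.card F = q) (p : ℕ) [Fact p.Prime] [CharP F p] (n : ℕ) (P : Sylow p (Matrix.GeneralLinearGroup (Fin n) F)) : Nat.card P = q ^ (n * (n - 1) / 2) := by
  have hp : p.Prime := Fact.out
  obtain ⟨k, -, hk⟩ := FiniteField.card F p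
  rw [hF] at hk
  have hpq : p ∣ q := by
    rw [hk]
    exact dvd_pow_self p k.ne_zero
  have hq1 : 1 ≤ q := by
    rw [hk]
    exact Nat.one_le_pow _ _ hp.pos
  have hcard : Nat.card (Matrix.GeneralLinearGroup (Fin n) F) =
      q ^ (n * (n - 1) / 2) * ∏ i : Fin n, (q ^ (n - (i : ℕ)) - 1) := by
    rw [Matrix.card_GL_field, hF]
    have h1 : ∀ i : Fin n, q ^ n - q ^ (i : ℕ) = q ^ (i : ℕ) * (q ^ (n - (i : ℕ)) - 1) := by
      intro i
      have hi : (i : ℕ) ≤ n := i.2.le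
      rw [Nat.mul_sub, mul_one, ← pow_add, Nat.add_sub_cancel' hi]
    rw [Finset.prod_congr rfl (fun i _ => h1 i), Finset.prod_mul_distrib, Finset.prod_pow_eq_pow_sum]
    congr 2
    rw [Fin.sum_univ_eq_sum_range (fun i => i) n, Finset.sum_range_id]
  have hM : ¬ p ∣ ∏ i : Fin n, (q ^ (n - (i : ℕ)) - 1) := by
    intro hdvd
    rw [hp.prime.dvd_finsetProd_iff] at hdvd
    obtain ⟨i, -, hi⟩ := hdvd
    have hi' : 1 ≤ n - (i : ℕ) := by have := i.2; omega
    have h2 : p ∣ q ^ (n - (i : ℕ)) := dvd_pow hpq (by omega)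
    have h3 : 1 ≤ q ^ (n - (i : ℕ)) := Nat.one_le_pow _ _ hq1
    have h4 : q ^ (n - (i : ℕ)) = (q ^ (n - (i : ℕ)) - 1) + 1 := by omega
    rw [h4] at h2
    have h5 : p ∣ 1 := (Nat.dvd_add_right hi).mp h2
    exact hp.one_lt.ne' (Nat.dvd_one.mp h5)
  have hMpos : (∏ i : Fin n, (q ^ (n - (i : ℕ)) - 1)) ≠ 0 := by
    intro h0
    apply hM
    rw [h0]
    exact dvd_zero p
  rw [Sylow.card_eq_multiplicity, hcard, Nat.factorization_mul (pow_ne_zero _ (by omega)) hMpos,
    Finsupp.add_apply, Nat.factorization_eq_zero_of_not_dvd hM, add_zero, Nat.factorization_pow,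
    Finsupp.smul_apply, hk, Nat.factorization_pow, Finsupp.smul_apply,
    hp.factorization_self, smul_eq_mul, smul_eq_mul, mul_one, ← pow_mul, mul_comm]

end Cfsg.Agent.S0263
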