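import Cfsg.Statements.S0778
import Mathlib

set_option autoImplicit false
open Cfsg

namespace Cfsg.Agent.S0778

open Matrix

/-- The elements of Sp_2m(F) stabilising both W = ⟨e_1..e_m⟩ and U = ⟨f_1..f_m⟩ form a subgroup isomorphic to GL_m(F) (block-diagonal matrices diag(X, X^(−ᵀ)) up to the sign convention of J), for m ≥ 1 or m = 0 alike. -/
theorem result {F : Type*} [Field F] (m : ℕ) : Nonempty (↥(Cfsg.stabilizing (Cfsg.spToMat m F) {v : Fin m ⊕ Fin m → F | ∀ i : Fin m, v (Sum.inr i) = 0} ⊓ Cfsg.stabilizing (Cfsg.spToMat m F) {v : Fin m ⊕ Fin m → F | ∀ i : Fin m, v (Sum.inl i) = 0}) ≃* Matrix.GeneralLinearGroup (Fin m) F) := by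
  classical
  have hsymp : ∀ X : GL (Fin m) F, Matrix.fromBlocks (X : Matrix (Fin m) (Fin m) F) 0 0
      ((X⁻¹ : GL (Fin m) F) : Matrix (Fin m) (Fin m) F)ᵀ ∈ Matrix.symplecticGroup (Fin m) F := by
    intro X
    have hXY : (X : Matrix (Fin m) (Fin m) F) *
        ((X⁻¹ : GL (Fin m) F) : Matrix (Fin m) (Fin m) F)ᵀᵀ = 1 := by
      rw [Matrix.transpose_transpose, Units.mul_inv]
    have hYX : ((X⁻¹ : GL (Fin m) F) : Matrix (Fin m) (Fin m) F)ᵀ *
        (X : Matrix (Fin m) (Fin m) F)ᵀ = 1 := by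
      rw [← Matrix.transpose_mul, Units.mul_inv, Matrix.transpose_one]
    rw [SymplecticGroup.mem_iff, Matrix.J, Matrix.fromBlocks_transpose,
      Matrix.fromBlocks_multiply, Matrix.fromBlocks_multiply]
    simp only [Matrix.zero_mul, Matrix.mul_zero, Matrix.mul_one, Matrix.mul_neg, Matrix.neg_mul,
      Matrix.transpose_zero, zero_add, add_zero, neg_zero, hYX]
    rw [hXY]
  have hW : ∀ X : GL (Fin m) F, (⟨_, hsymp X⟩ : Matrix.symplecticGroup (Fin m) F) ∈
      Cfsg.stabilizing (Cfsg.spToMat m F) {v : Fin m ⊕ Fin m → F | ∀ i : Fin m, v (Sum.inr i) = 0} := by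
    intro X v
    show (∀ i : Fin m, v (Sum.inr i) = 0) ↔ ∀ i : Fin m,
      (Matrix.fromBlocks (X : Matrix (Fin m) (Fin m) F) 0 0
        ((X⁻¹ : GL (Fin m) F) : Matrix (Fin m) (Fin m) F)ᵀ *ᵥ v) (Sum.inr i) = 0
    rw [Matrix.fromBlocks_mulVec]
    simp only [Sum.elim_inr, Matrix.zero_mulVec, zero_add]
    constructor
    · intro h i
      have h0 : v ∘ Sum.inr = 0 := funext h
      rw [h0, Matrix.mulVec_zero]
      rfl
    · intro h i
      have h1 : ((X⁻¹ : GL (Fin m) F) : Matrix (Fin m) (Fin m) F)ᵀ *ᵥ (v ∘ Sum.inr) = 0 :=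
        funext h
      have h2 := congrArg (fun w => (X : Matrix (Fin m) (Fin m) F)ᵀ *ᵥ w) h1
      simp only [Matrix.mulVec_mulVec, ← Matrix.transpose_mul, Units.inv_mul,
        Matrix.transpose_one, Matrix.one_mulVec, Matrix.mulVec_zero] at h2
      exact congrFun h2 i
  have hU : ∀ X : GL (Fin m) F, (⟨_, hsymp X⟩ : Matrix.symplecticGroup (Fin m) F) ∈
      Cfsg.stabilizing (Cfsg.spToMat m F) {v : Fin m ⊕ Fin m → F | ∀ i : Fin m, v (Sum.inl i) = 0} := by
    intro X v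
    show (∀ i : Fin m, v (Sum.inl i) = 0) ↔ ∀ i : Fin m,
      (Matrix.fromBlocks (X : Matrix (Fin m) (Fin m) F) 0 0
        ((X⁻¹ : GL (Fin m) F) : Matrix (Fin m) (Fin m) F)ᵀ *ᵥ v) (Sum.inl i) = 0
    rw [Matrix.fromBlocks_mulVec]
    simp only [Sum.elim_inl, Matrix.zero_mulVec, add_zero]
    constructor
    · intro h i
      have h0 : v ∘ Sum.inl = 0 := funext h
      rw [h0, Matrix.mulVec_zero]
      rfl
    · intro h i
      have h1 : (X : Matrix (Fin m) (Fin m) F) *ᵥ (v ∘ Sum.inl) = 0 := funext h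
      have h2 := congrArg (fun w => ((X⁻¹ : GL (Fin m) F) : Matrix (Fin m) (Fin m) F) *ᵥ w) h1
      simp only [Matrix.mulVec_mulVec, Units.inv_mul, Matrix.one_mulVec,
        Matrix.mulVec_zero] at h2
      exact congrFun h2 i
  let f : GL (Fin m) F →* ↥(Cfsg.stabilizing (Cfsg.spToMat m F)
      {v : Fin m ⊕ Fin m → F | ∀ i : Fin m, v (Sum.inr i) = 0} ⊓
      Cfsg.stabilizing (Cfsg.spToMat m F) {v : Fin m ⊕ Fin m → F | ∀ i : Fin m, v (Sum.inl i) = 0}) :=
    { toFun := fun X => ⟨⟨_, hsymp X⟩, ⟨hW X, hU X⟩⟩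
      map_one' := by
        apply Subtype.ext
        apply Subtype.ext
        show Matrix.fromBlocks ((1 : GL (Fin m) F) : Matrix (Fin m) (Fin m) F) 0 0
          (((1 : GL (Fin m) F)⁻¹ : GL (Fin m) F) : Matrix (Fin m) (Fin m) F)ᵀ = 1
        simp [Matrix.fromBlocks_one]
      map_mul' := by
        intro X Y
        apply Subtype.ext
        apply Subtype.ext
        show Matrix.fromBlocks ((X * Y : GL (Fin m) F) : Matrix (Fin m) (Fin m) F) 0 0
          (((X * Y)⁻¹ : GL (Fin m) F) : Matrix (Fin m) (Fin m) F)ᵀ =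
          Matrix.fromBlocks (X : Matrix (Fin m) (Fin m) F) 0 0
            ((X⁻¹ : GL (Fin m) F) : Matrix (Fin m) (Fin m) F)ᵀ *
          Matrix.fromBlocks (Y : Matrix (Fin m) (Fin m) F) 0 0
            ((Y⁻¹ : GL (Fin m) F) : Matrix (Fin m) (Fin m) F)ᵀ
        rw [Matrix.fromBlocks_multiply]
        simp [_root_.mul_inv_rev, Matrix.transpose_mul] }
  have hf : ∀ X : GL (Fin m) F, (((f X : Matrix.symplecticGroup (Fin m) F)) :
      Matrix (Fin m ⊕ Fin m) (Fin m ⊕ Fin m) F) =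
      Matrix.fromBlocks (X : Matrix (Fin m) (Fin m) F) 0 0
        ((X⁻¹ : GL (Fin m) F) : Matrix (Fin m) (Fin m) F)ᵀ := fun X => rfl
  have hinj : Function.Injective f := by
    intro X Y hXY
    have h1 := congrArg (fun g : ↥(Cfsg.stabilizing (Cfsg.spToMat m F)
      {v : Fin m ⊕ Fin m → F | ∀ i : Fin m, v (Sum.inr i) = 0} ⊓
      Cfsg.stabilizing (Cfsg.spToMat m F) {v : Fin m ⊕ Fin m → F | ∀ i : Fin m, v (Sum.inl i) = 0}) =>
      (((g : Matrix.symplecticGroup (Fin m) F)) : Matrix (Fin m ⊕ Fin m) (Fin m ⊕ Fin m) F)) hXY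
    simp only [hf] at h1
    rw [Matrix.fromBlocks_inj] at h1
    exact Units.ext h1.1
  have hsurj : Function.Surjective f := by
    intro A
    obtain ⟨M, hM⟩ : ∃ M : Matrix (Fin m ⊕ Fin m) (Fin m ⊕ Fin m) F,
      M = ((A : Matrix.symplecticGroup (Fin m) F) : Matrix (Fin m ⊕ Fin m) (Fin m ⊕ Fin m) F) :=
      ⟨_, rfl⟩
    have h21 : M.toBlocks₂₁ = 0 := by
      ext i j
      have h1 := (A.2.1 (Pi.single (Sum.inl j) 1)).1 (by
        intro i
        simp) i
      have h2 : (Cfsg.spToMat m F) (A : Matrix.symplecticGroup (Fin m) F) = M := by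
        rw [hM]
        rfl
      rw [h2, Matrix.mulVec_single_one] at h1
      simpa [Matrix.toBlocks₂₁] using h1
    have h12 : M.toBlocks₁₂ = 0 := by
      ext i j
      have h1 := (A.2.2 (Pi.single (Sum.inr j) 1)).1 (by
        intro i
        simp) i
      have h2 : (Cfsg.spToMat m F) (A : Matrix.symplecticGroup (Fin m) F) = M := by
        rw [hM]
        rfl
      rw [h2, Matrix.mulVec_single_one] at h1
      simpa [Matrix.toBlocks₁₂] using h1
    have hMeq : M = Matrix.fromBlocks M.toBlocks₁₁ 0 0 M.toBlocks₂₂ := by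
      have h5 := Matrix.fromBlocks_toBlocks M
      rw [h12, h21] at h5
      exact h5.symm
    have hs : M * Matrix.J (Fin m) F * Mᵀ = Matrix.J (Fin m) F := by
      rw [hM]
      exact SymplecticGroup.mem_iff.1 (A : Matrix.symplecticGroup (Fin m) F).2
    rw [hMeq, Matrix.J, Matrix.fromBlocks_transpose, Matrix.fromBlocks_multiply,
      Matrix.fromBlocks_multiply] at hs
    simp only [Matrix.zero_mul, Matrix.mul_zero, Matrix.mul_one, Matrix.mul_neg, Matrix.neg_mul,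
      Matrix.transpose_zero, zero_add, add_zero, neg_zero] at hs
    rw [Matrix.fromBlocks_inj] at hs
    obtain ⟨-, h1, -, -⟩ := hs
    have h3 : M.toBlocks₁₁ * M.toBlocks₂₂ᵀ = 1 := neg_injective h1
    have h4 : M.toBlocks₂₂ᵀ * M.toBlocks₁₁ = 1 := _root_.mul_eq_one_comm.1 h3
    refine ⟨⟨M.toBlocks₁₁, M.toBlocks₂₂ᵀ, h3, h4⟩, ?_⟩
    apply Subtype.ext
    apply Subtype.ext
    rw [hf]
    show Matrix.fromBlocks M.toBlocks₁₁ 0 0 (M.toBlocks₂₂ᵀ)ᵀ = _
    rw [Matrix.transpose_transpose, ← hMeq, hM]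
  exact ⟨(MulEquiv.ofBijective f ⟨hinj, hsurj⟩).symm⟩

end Cfsg.Agent.S0778
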