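import Cfsg.Statements.S5963
import Mathlib
import Cfsg.Agent.S0775
import Cfsg.Agent.S0778
import Cfsg.Agent.Lib.Helper13.Symp
import Cfsg.Agent.Lib.Helper13.SympMat
import Cfsg.Agent.Lib.Helper5.SpCard

set_option autoImplicit false
open Cfsg

namespace Cfsg.Agent.S5963

open Matrix Cfsg.Agent.Lib.Helper13

section cnt
variable {F : Type*} [Field F] [Fintype F] {ι : Type*} [Fintype ι] [DecidableEq ι]

/-- counting fixed points of an element of prime order on an invariant subspace -/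
theorem cnt (r : ℕ) [Fact r.Prime] (hrq : ¬ r ∣ Fintype.card F)
    (X : Matrix ι ι F) (hXr : X ^ r = 1)
    (K M : Submodule F (ι → F)) (hK : ∀ v, v ∈ K ↔ X *ᵥ v = v)
    (hM : ∀ v ∈ M, X *ᵥ v ∈ M) :
    orderOf ((Fintype.card F : ℕ) : ZMod r) ∣
      Module.finrank F M - Module.finrank F (M ⊓ K : Submodule F (ι → F)) := by
  haveI : DecidableEq M := Classical.decEq M
  obtain ⟨f, hf⟩ : ∃ f : Function.End M, ∀ v : M, (f v).1 = X *ᵥ v.1 :=
    ⟨fun v => ⟨X *ᵥ v.1, hM v.1 v.2⟩, fun v => rfl⟩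
  have hfpow : ∀ k : ℕ, ∀ v : M, ((f ^ k) v).1 = (X ^ k) *ᵥ v.1 := by
    intro k
    induction k with
    | zero =>
      intro v
      rw [pow_zero, pow_zero, Matrix.one_mulVec]
      rfl
    | succ k ih =>
      intro v
      rw [pow_succ', pow_succ']
      show (f ((f ^ k) v)).1 = _
      rw [hf, ih, Matrix.mulVec_mulVec]
  have hfr : f ^ r ^ 1 = 1 := by
    funext v
    apply Subtype.ext
    rw [pow_one, hfpow, hXr, Matrix.one_mulVec]
    rfl
  have h1 : Nat.card M ≡ Nat.card (Function.fixedPoints f) [MOD r] := by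
    haveI := Fintype.ofFinite M
    haveI : Fintype (Function.fixedPoints f) := Fintype.ofFinite _
    rw [Nat.card_eq_fintype_card, Nat.card_eq_fintype_card]
    convert Equiv.Perm.card_fixedPoints_modEq (p := r) (n := 1) hfr
  have h2 : Nat.card (Function.fixedPoints f) = Nat.card (M ⊓ K : Submodule F (ι → F)) := by
    apply Nat.card_congr
    exact
      { toFun := fun v => ⟨v.1.1, ⟨v.1.2, (hK _).2 (by
          have := congrArg Subtype.val v.2
          rw [hf] at this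
          exact this)⟩⟩
        invFun := fun w => ⟨⟨w.1, w.2.1⟩, Subtype.ext (by
          rw [hf]
          exact (hK _).1 w.2.2)⟩
        left_inv := fun v => rfl
        right_inv := fun w => rfl }
  rw [h2, Module.natCard_eq_pow_finrank (K := F), Module.natCard_eq_pow_finrank (K := F) (V := (M ⊓ K : Submodule F (ι → F))),
    Nat.card_eq_fintype_card] at h1
  have hle : Module.finrank F (M ⊓ K : Submodule F (ι → F)) ≤ Module.finrank F M :=
    Submodule.finrank_mono inf_le_left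
  have hq0 : ((Fintype.card F : ℕ) : ZMod r) ≠ 0 := by
    intro h
    exact hrq ((ZMod.natCast_eq_zero_iff _ _).1 h)
  have h3 := (ZMod.natCast_eq_natCast_iff _ _ _).2 h1
  push_cast at h3
  apply orderOf_dvd_of_pow_eq_one
  have h4 : ((Fintype.card F : ℕ) : ZMod r) ^ Module.finrank F M =
      ((Fintype.card F : ℕ) : ZMod r) ^ Module.finrank F (M ⊓ K : Submodule F (ι → F)) *
      ((Fintype.card F : ℕ) : ZMod r) ^
        (Module.finrank F M - Module.finrank F (M ⊓ K : Submodule F (ι → F))) := by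
    rw [← pow_add, Nat.add_sub_cancel' hle]
  rw [h4] at h3
  have h5 := mul_left_cancel₀ (pow_ne_zero _ hq0) (h3.trans (mul_one _).symm)
  exact h5

end cnt

section nofix
variable {F : Type*} [Field F] [Fintype F]

theorem pow_of_sq_zero {ι : Type*} [Fintype ι] [DecidableEq ι] (N : Matrix ι ι F) (hN : N * N = 0) :
    ∀ k : ℕ, (1 + N) ^ k = 1 + k • N := by
  intro k
  induction k with
  | zero => simp
  | succ k ih =>
    rw [pow_succ, ih, mul_add, mul_one, add_mul, one_mul, smul_mul_assoc, hN, smul_zero, add_zero,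
      add_smul, one_smul, add_assoc]

theorem nofix_aux (d r : ℕ) (hrF : (r : F) ≠ 0)
    (X : Matrix (Fin d ⊕ Fin d) (Fin d ⊕ Fin d) F) (hX : X ∈ Matrix.symplecticGroup (Fin d) F)
    (hXr : X ^ r = 1) (hX1 : X ≠ 1)
    (K : Submodule F (Fin d ⊕ Fin d → F)) (hK : ∀ v, v ∈ K ↔ X *ᵥ v = v)
    (U W : Submodule F (Fin d ⊕ Fin d → F)) (hUW : IsCompl U W)
    (hU : ∀ u ∈ U, ∀ v ∈ U, Cfsg.sympForm d F u v = 0)
    (hW : ∀ u ∈ W, ∀ v ∈ W, Cfsg.sympForm d F u v = 0) (hUK : U ≤ K) : False := by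
  classical
  have hiso := (SympMat.mem_symp_iff d X).1 hX
  have h1 : ∀ v, X *ᵥ v - v ∈ U := by
    intro v
    obtain ⟨u, hu, w, hw, huw⟩ := Submodule.mem_sup.1
      (show X *ᵥ v - v ∈ U ⊔ W by rw [hUW.sup_eq_top]; trivial)
    have hw0 : w = 0 := by
      apply (SympMat.form_nondeg (F := F) d).1
      intro y
      obtain ⟨u', hu', w', hw', rfl⟩ := Submodule.mem_sup.1
        (show y ∈ U ⊔ W by rw [hUW.sup_eq_top]; trivial)
      have e1 : SympMat.form d F w w' = 0 := by rw [SympMat.form_apply]; exact hW w hw w' hw'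
      have e2 : SympMat.form d F u u' = 0 := by rw [SympMat.form_apply]; exact hU u hu u' hu'
      have e3 : SympMat.form d F (X *ᵥ v - v) u' = 0 := by
        have hfix : X *ᵥ u' = u' := (hK u').1 (hUK hu')
        have := hiso v u'
        rw [hfix] at this
        rw [map_sub, LinearMap.sub_apply, this, sub_self]
      have e4 : w = (X *ᵥ v - v) - u := by rw [← huw]; abel
      rw [map_add, e1, add_zero, e4, map_sub, LinearMap.sub_apply, e3, e2, sub_zero]
    rw [hw0, add_zero] at huw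
    rw [← huw]
    exact hu
  have hNN : (X - 1) * (X - 1) = 0 := by
    apply Matrix.toLin'.injective
    apply LinearMap.ext
    intro v
    rw [Matrix.toLin'_apply, ← Matrix.mulVec_mulVec, map_zero, LinearMap.zero_apply]
    have h2 : (X - 1) *ᵥ v = X *ᵥ v - v := by rw [Matrix.sub_mulVec, Matrix.one_mulVec]
    rw [h2, Matrix.sub_mulVec, Matrix.one_mulVec, (hK _).1 (hUK (h1 v)), sub_self]
  have h3 := pow_of_sq_zero (X - 1) hNN r
  rw [add_sub_cancel, hXr] at h3
  have h4 : (r : F) • (X - 1) = 0 := by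
    rw [Nat.cast_smul_eq_nsmul]
    have : (1 : Matrix (Fin d ⊕ Fin d) (Fin d ⊕ Fin d) F) + r • (X - 1) = 1 + 0 := by
      rw [add_zero]; exact h3.symm
    exact add_left_cancel this
  rcases smul_eq_zero.1 h4 with h | h
  · exact hrF h
  · exact hX1 (sub_eq_zero.1 h)

theorem nofix (d : ℕ) (r : ℕ) [Fact r.Prime] (hrq : ¬ r ∣ Fintype.card F) (hrF : (r : F) ≠ 0)
    (X : Matrix (Fin d ⊕ Fin d) (Fin d ⊕ Fin d) F) (hX : X ∈ Matrix.symplecticGroup (Fin d) F)
    (hXr : X ^ r = 1) (hX1 : X ≠ 1)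
    (K : Submodule F (Fin d ⊕ Fin d → F)) (hK : ∀ v, v ∈ K ↔ X *ᵥ v = v)
    (hKdim : Module.finrank F K + orderOf ((Fintype.card F : ℕ) : ZMod r) = 2 * d)
    (he0 : 0 < orderOf ((Fintype.card F : ℕ) : ZMod r))
    (U W : Submodule F (Fin d ⊕ Fin d → F)) (hUW : IsCompl U W)
    (hU : ∀ u ∈ U, ∀ v ∈ U, Cfsg.sympForm d F u v = 0)
    (hW : ∀ u ∈ W, ∀ v ∈ W, Cfsg.sympForm d F u v = 0)
    (hXU : U.map (Matrix.toLin' X) = U) (hXW : W.map (Matrix.toLin' X) = W) : False := by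
  classical
  have hU_inv : ∀ v ∈ U, X *ᵥ v ∈ U := by
    intro v hv
    rw [← hXU]
    exact ⟨v, hv, Matrix.toLin'_apply _ _⟩
  have hW_inv : ∀ v ∈ W, X *ᵥ v ∈ W := by
    intro v hv
    rw [← hXW]
    exact ⟨v, hv, Matrix.toLin'_apply _ _⟩
  obtain ⟨ka, hka⟩ := cnt r hrq X hXr K U hK hU_inv
  obtain ⟨kb, hkb⟩ := cnt r hrq X hXr K W hK hW_inv
  have hsum : Module.finrank F U + Module.finrank F W = 2 * d := by
    have := Submodule.finrank_add_eq_of_isCompl hUW
    rw [Module.finrank_fintype_fun_eq_card, Fintype.card_sum, Fintype.card_fin] at this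
    omega
  have hKsplit : K = (U ⊓ K) ⊔ (W ⊓ K) := by
    apply le_antisymm
    · intro v hv
      obtain ⟨u, hu, w, hw, rfl⟩ := Submodule.mem_sup.1
        (show v ∈ U ⊔ W by rw [hUW.sup_eq_top]; trivial)
      have hfix := (hK _).1 hv
      rw [Matrix.mulVec_add] at hfix
      have h1 : X *ᵥ u - u ∈ U := U.sub_mem (hU_inv u hu) hu
      have h2 : X *ᵥ u - u ∈ W := by
        have : X *ᵥ u - u = w - X *ᵥ w := by
          rw [sub_eq_sub_iff_add_eq_add, hfix]; abel
        rw [this]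
        exact W.sub_mem hw (hW_inv w hw)
      have h3 : X *ᵥ u - u = 0 := by
        have : X *ᵥ u - u ∈ U ⊓ W := ⟨h1, h2⟩
        rw [hUW.inf_eq_bot] at this
        exact (Submodule.mem_bot F).1 this
      have h4 : X *ᵥ w - w = 0 := by
        have : X *ᵥ w - w = -(X *ᵥ u - u) := by
          rw [neg_sub, sub_eq_sub_iff_add_eq_add, add_comm, hfix]
        rw [this, h3, neg_zero]
      exact Submodule.add_mem_sup ⟨hu, (hK u).2 (sub_eq_zero.1 h3)⟩
        ⟨hw, (hK w).2 (sub_eq_zero.1 h4)⟩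
    · exact sup_le inf_le_right inf_le_right
  have hdis : (U ⊓ K) ⊓ (W ⊓ K) = ⊥ := by
    apply le_bot_iff.1
    exact le_trans (inf_le_inf inf_le_left inf_le_left) hUW.inf_eq_bot.le
  have hKdim2 : Module.finrank F K = Module.finrank F (U ⊓ K : Submodule F (Fin d ⊕ Fin d → F)) +
      Module.finrank F (W ⊓ K : Submodule F (Fin d ⊕ Fin d → F)) := by
    have := Submodule.finrank_sup_add_finrank_inf_eq (U ⊓ K) (W ⊓ K)
    rw [hdis, finrank_bot, ← hKsplit] at this
    omega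
  have hle1 : Module.finrank F (U ⊓ K : Submodule F (Fin d ⊕ Fin d → F)) ≤ Module.finrank F U :=
    Submodule.finrank_mono inf_le_left
  have hle2 : Module.finrank F (W ⊓ K : Submodule F (Fin d ⊕ Fin d → F)) ≤ Module.finrank F W :=
    Submodule.finrank_mono inf_le_left
  obtain ⟨e, he⟩ : ∃ e, e = orderOf ((Fintype.card F : ℕ) : ZMod r) := ⟨_, rfl⟩
  rw [← he] at hka hkb hKdim he0
  have hk : ka + kb = 1 := by
    have : e * ka + e * kb = e := by omega
    have h2 : e * (ka + kb) = e * 1 := by rw [mul_add, mul_one]; exact this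
    exact Nat.eq_of_mul_eq_mul_left he0 h2
  have hcase : ka = 0 ∨ kb = 0 := by omega
  rcases hcase with h0 | h0
  · rw [h0, mul_zero] at hka
    have hUK : U ≤ K := by
      have : (U ⊓ K : Submodule F (Fin d ⊕ Fin d → F)) = U :=
        Submodule.eq_of_le_of_finrank_eq inf_le_left (by omega)
      rw [← this]
      exact inf_le_right
    exact nofix_aux d r hrF X hX hXr hX1 K hK U W hUW hU hW hUK
  · rw [h0, mul_zero] at hkb
    have hWK : W ≤ K := by
      have : (W ⊓ K : Submodule F (Fin d ⊕ Fin d → F)) = W :=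
        Submodule.eq_of_le_of_finrank_eq inf_le_left (by omega)
      rw [← this]
      exact inf_le_right
    exact nofix_aux d r hrF X hX hXr hX1 K hK W U hUW.symm hW hU hWK

end nofix

section emb
variable {F : Type*} [Field F]

def iota (d k : ℕ) (h : k ≤ d) : Fin k ⊕ Fin k → Fin d ⊕ Fin d :=
  Sum.map (Fin.castLE h) (Fin.castLE h)

theorem iota_inj (d k : ℕ) (h : k ≤ d) : Function.Injective (iota d k h) :=
  (Fin.castLE_injective h).sumMap (Fin.castLE_injective h)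

def Rm (F : Type*) [Field F] (d k : ℕ) (h : k ≤ d) : Matrix (Fin k ⊕ Fin k) (Fin d ⊕ Fin d) F :=
  Matrix.of fun a b => if iota d k h a = b then 1 else 0

theorem Rm_mul_transpose (d k : ℕ) (h : k ≤ d) : Rm F d k h * (Rm F d k h)ᵀ = 1 := by
  ext a a'
  simp [Rm, Matrix.mul_apply, Matrix.one_apply, (iota_inj d k h).eq_iff]

theorem Rm_J (d k : ℕ) (h : k ≤ d) :
    Rm F d k h * Matrix.J (Fin d) F = Matrix.J (Fin k) F * Rm F d k h := by
  ext a b
  rcases a with i | i <;> rcases b with j | j <;>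
    simp [Rm, iota, Matrix.mul_apply, Matrix.J, Matrix.one_apply, Fintype.sum_sum_type, eq_comm]
  all_goals
    rw [Finset.sum_eq_single i]
    · by_cases hj : j = Fin.castLE h i <;> simp [hj]
    · intro x _ hx
      simp [Ne.symm hx]
    · intro hi
      exact absurd (Finset.mem_univ i) hi

theorem adj1 (d k : ℕ) (h : k ≤ d) (a : Fin k ⊕ Fin k → F) (v : Fin d ⊕ Fin d → F) :
    SympMat.form d F ((Rm F d k h)ᵀ *ᵥ a) v = SympMat.form k F a (Rm F d k h *ᵥ v) := by
  rw [SympMat.form_apply, SympMat.form_apply, Cfsg.sympForm, Cfsg.sympForm,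
    Matrix.mulVec_transpose, ← Matrix.dotProduct_mulVec, Matrix.mulVec_mulVec, Rm_J,
    ← Matrix.mulVec_mulVec]

theorem adj2 (d k : ℕ) (h : k ≤ d) (a : Fin k ⊕ Fin k → F) (v : Fin d ⊕ Fin d → F) :
    SympMat.form d F v ((Rm F d k h)ᵀ *ᵥ a) = SympMat.form k F (Rm F d k h *ᵥ v) a := by
  rw [← (SympMat.form_alt (F := F) d).neg_eq, adj1, (SympMat.form_alt (F := F) k).neg_eq]

theorem RRt (d k : ℕ) (h : k ≤ d) (a : Fin k ⊕ Fin k → F) :
    Rm F d k h *ᵥ ((Rm F d k h)ᵀ *ᵥ a) = a := by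
  rw [Matrix.mulVec_mulVec, Rm_mul_transpose, Matrix.one_mulVec]

def emb (d k : ℕ) (h : k ≤ d) (Y : Matrix (Fin k ⊕ Fin k) (Fin k ⊕ Fin k) F) :
    Matrix (Fin d ⊕ Fin d) (Fin d ⊕ Fin d) F := 1 + (Rm F d k h)ᵀ * (Y - 1) * Rm F d k h

theorem emb_mulVec (d k : ℕ) (h : k ≤ d) (Y : Matrix (Fin k ⊕ Fin k) (Fin k ⊕ Fin k) F)
    (v : Fin d ⊕ Fin d → F) :
    emb d k h Y *ᵥ v = v + (Rm F d k h)ᵀ *ᵥ (Y *ᵥ (Rm F d k h *ᵥ v) - Rm F d k h *ᵥ v) := by
  rw [emb, Matrix.add_mulVec, Matrix.one_mulVec, ← Matrix.mulVec_mulVec, ← Matrix.mulVec_mulVec,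
    Matrix.sub_mulVec, Matrix.one_mulVec]

theorem R_emb (d k : ℕ) (h : k ≤ d) (Y : Matrix (Fin k ⊕ Fin k) (Fin k ⊕ Fin k) F)
    (v : Fin d ⊕ Fin d → F) :
    Rm F d k h *ᵥ (emb d k h Y *ᵥ v) = Y *ᵥ (Rm F d k h *ᵥ v) := by
  rw [emb_mulVec, Matrix.mulVec_add, RRt]
  abel

theorem emb_pow (d k : ℕ) (h : k ≤ d) (Y : Matrix (Fin k ⊕ Fin k) (Fin k ⊕ Fin k) F) :
    ∀ (n : ℕ) (v : Fin d ⊕ Fin d → F), (emb d k h Y) ^ n *ᵥ v =
      v + (Rm F d k h)ᵀ *ᵥ ((Y ^ n) *ᵥ (Rm F d k h *ᵥ v) - Rm F d k h *ᵥ v) := by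
  intro n
  induction n with
  | zero =>
    intro v
    rw [pow_zero, pow_zero, Matrix.one_mulVec, Matrix.one_mulVec, sub_self, Matrix.mulVec_zero,
      add_zero]
  | succ n ih =>
    intro v
    have hR : Rm F d k h *ᵥ ((emb d k h Y) ^ n *ᵥ v) = (Y ^ n) *ᵥ (Rm F d k h *ᵥ v) := by
      rw [ih, Matrix.mulVec_add, RRt]
      abel
    rw [pow_succ', ← Matrix.mulVec_mulVec, emb_mulVec, hR, ih, Matrix.mulVec_mulVec _ Y,
      ← pow_succ', add_assoc, ← Matrix.mulVec_add]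
    congr 2
    abel

theorem emb_symp (d k : ℕ) (h : k ≤ d) (Y : Matrix (Fin k ⊕ Fin k) (Fin k ⊕ Fin k) F)
    (hY : Y ∈ Matrix.symplecticGroup (Fin k) F) :
    emb d k h Y ∈ Matrix.symplecticGroup (Fin d) F := by
  rw [SympMat.mem_symp_iff]
  intro u v
  have hY' := (SympMat.mem_symp_iff k Y).1 hY (Rm F d k h *ᵥ u) (Rm F d k h *ᵥ v)
  rw [emb_mulVec, emb_mulVec]
  simp only [map_add, map_sub, LinearMap.add_apply, LinearMap.sub_apply, adj1, adj2, RRt,
    Matrix.mulVec_add, Matrix.mulVec_sub]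
  linear_combination hY'

theorem emb_fix (d k : ℕ) (h : k ≤ d) (Y : Matrix (Fin k ⊕ Fin k) (Fin k ⊕ Fin k) F)
    (hfix : ∀ a, Y *ᵥ a = a → a = 0) (v : Fin d ⊕ Fin d → F) :
    emb d k h Y *ᵥ v = v ↔ Rm F d k h *ᵥ v = 0 := by
  constructor
  · intro hv
    apply hfix
    rw [← R_emb, hv]
  · intro hv
    rw [emb_mulVec, hv, Matrix.mulVec_zero, sub_zero, Matrix.mulVec_zero, add_zero]

theorem ker_dim (d k : ℕ) (h : k ≤ d) :
    Module.finrank F (LinearMap.ker (Matrix.mulVecLin (Rm F d k h))) + 2 * k = 2 * d := by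
  have h1 := LinearMap.finrank_range_add_finrank_ker (Matrix.mulVecLin (Rm F d k h))
  have h2 : LinearMap.range (Matrix.mulVecLin (Rm F d k h)) = ⊤ := by
    rw [LinearMap.range_eq_top]
    intro a
    exact ⟨(Rm F d k h)ᵀ *ᵥ a, by rw [Matrix.mulVecLin_apply, RRt]⟩
  rw [h2, finrank_top, Module.finrank_fintype_fun_eq_card, Module.finrank_fintype_fun_eq_card,
    Fintype.card_sum, Fintype.card_sum, Fintype.card_fin, Fintype.card_fin] at h1
  omega

theorem emb_ne_one (d k : ℕ) (h : k ≤ d) (Y : Matrix (Fin k ⊕ Fin k) (Fin k ⊕ Fin k) F)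
    (hY1 : Y ≠ 1) : emb d k h Y ≠ 1 := by
  intro hE
  apply hY1
  apply Matrix.toLin'.injective
  apply LinearMap.ext
  intro a
  rw [Matrix.toLin'_apply, Matrix.toLin'_one, LinearMap.id_apply]
  have h2 := R_emb d k h Y ((Rm F d k h)ᵀ *ᵥ a)
  rw [hE, Matrix.one_mulVec, RRt] at h2
  exact h2.symm

theorem fix_zero [Fintype F] (k r : ℕ) [Fact r.Prime] (hrq : ¬ r ∣ Fintype.card F)
    (he : orderOf ((Fintype.card F : ℕ) : ZMod r) = 2 * k)
    (Y : Matrix (Fin k ⊕ Fin k) (Fin k ⊕ Fin k) F) (hYr : Y ^ r = 1) (hY1 : Y ≠ 1) :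
    ∀ a, Y *ᵥ a = a → a = 0 := by
  classical
  obtain ⟨K, hK⟩ : ∃ K : Submodule F (Fin k ⊕ Fin k → F), ∀ v, v ∈ K ↔ Y *ᵥ v = v := by
    refine ⟨LinearMap.ker (Matrix.mulVecLin (Y - 1)), fun v => ?_⟩
    rw [LinearMap.mem_ker, Matrix.mulVecLin_apply, Matrix.sub_mulVec, Matrix.one_mulVec,
      sub_eq_zero]
  have h1 := cnt r hrq Y hYr K ⊤ hK (fun v _ => Submodule.mem_top)
  rw [top_inf_eq, finrank_top, Module.finrank_fintype_fun_eq_card, Fintype.card_sum,
    Fintype.card_fin, he] at h1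
  have hle : Module.finrank F K ≤ k + k := by
    have := Submodule.finrank_le K
    rwa [Module.finrank_fintype_fun_eq_card, Fintype.card_sum, Fintype.card_fin] at this
  have hk0 : Module.finrank F K = 0 ∨ Module.finrank F K = k + k := by
    obtain ⟨c, hc⟩ := h1
    rcases Nat.eq_zero_or_pos c with h0 | h0
    · right
      rw [h0] at hc
      omega
    · left
      have : 2 * k ≤ 2 * k * c := Nat.le_mul_of_pos_right _ h0
      omega
  rcases hk0 with h0 | h0
  · intro a ha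
    have hbot : K = ⊥ := Submodule.finrank_eq_zero.1 h0
    have ha' : a ∈ K := (hK a).2 ha
    rw [hbot] at ha'
    exact (Submodule.mem_bot F).1 ha'
  · exfalso
    apply hY1
    have htop : K = ⊤ := Submodule.eq_top_of_finrank_eq (by
      rw [h0, Module.finrank_fintype_fun_eq_card, Fintype.card_sum, Fintype.card_fin])
    apply Matrix.toLin'.injective
    apply LinearMap.ext
    intro a
    rw [Matrix.toLin'_apply, Matrix.toLin'_one, LinearMap.id_apply]
    exact (hK a).1 (by rw [htop]; trivial)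

end emb

section count
variable {F : Type*} [Field F]

def E0 (d : ℕ) (F : Type*) [Field F] : Submodule F (Fin d ⊕ Fin d → F) where
  carrier := {v | ∀ i : Fin d, v (Sum.inr i) = 0}
  add_mem' := by
    intro a b ha hb i
    show a (Sum.inr i) + b (Sum.inr i) = 0
    rw [ha i, hb i, add_zero]
  zero_mem' := fun i => rfl
  smul_mem' := by
    intro c a ha i
    show c * a (Sum.inr i) = 0
    rw [ha i, mul_zero]

def E1 (d : ℕ) (F : Type*) [Field F] : Submodule F (Fin d ⊕ Fin d → F) where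
  carrier := {v | ∀ i : Fin d, v (Sum.inl i) = 0}
  add_mem' := by
    intro a b ha hb i
    show a (Sum.inl i) + b (Sum.inl i) = 0
    rw [ha i, hb i, add_zero]
  zero_mem' := fun i => rfl
  smul_mem' := by
    intro c a ha i
    show c * a (Sum.inl i) = 0
    rw [ha i, mul_zero]

theorem sp_mul_inv {d : ℕ} (A : ↥(Matrix.symplecticGroup (Fin d) F)) :
    (A : Matrix (Fin d ⊕ Fin d) (Fin d ⊕ Fin d) F) *
      ((A⁻¹ : ↥(Matrix.symplecticGroup (Fin d) F)) : Matrix (Fin d ⊕ Fin d) (Fin d ⊕ Fin d) F)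
      = 1 :=
  congrArg Subtype.val (mul_inv_cancel A)

theorem sp_inv_mul {d : ℕ} (A : ↥(Matrix.symplecticGroup (Fin d) F)) :
    ((A⁻¹ : ↥(Matrix.symplecticGroup (Fin d) F)) : Matrix (Fin d ⊕ Fin d) (Fin d ⊕ Fin d) F) *
      (A : Matrix (Fin d ⊕ Fin d) (Fin d ⊕ Fin d) F) = 1 :=
  congrArg Subtype.val (inv_mul_cancel A)

theorem map_eq_iff {ι : Type*} [Fintype ι] [DecidableEq ι] (E : Submodule F (ι → F))
    (A B Ai Bi : Matrix ι ι F) (h1 : A * Ai = 1) (h2 : Ai * A = 1) (h3 : B * Bi = 1)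
    (h4 : Bi * B = 1) :
    E.map (Matrix.toLin' A) = E.map (Matrix.toLin' B) ↔ ∀ v, v ∈ E ↔ (Ai * B) *ᵥ v ∈ E := by
  constructor
  · intro h v
    constructor
    · intro hv
      have : B *ᵥ v ∈ E.map (Matrix.toLin' A) := by
        rw [h]
        exact ⟨v, hv, Matrix.toLin'_apply _ _⟩
      obtain ⟨v', hv', hv'2⟩ := this
      rw [Matrix.toLin'_apply] at hv'2
      rw [← Matrix.mulVec_mulVec, ← hv'2, Matrix.mulVec_mulVec, h2, Matrix.one_mulVec]
      exact hv'
    · intro hv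
      have : B *ᵥ v ∈ E.map (Matrix.toLin' B) := by
        rw [← h]
        refine ⟨(Ai * B) *ᵥ v, hv, ?_⟩
        rw [Matrix.toLin'_apply, Matrix.mulVec_mulVec, ← Matrix.mul_assoc, h1, Matrix.one_mul]
      obtain ⟨v', hv', hv'2⟩ := this
      rw [Matrix.toLin'_apply] at hv'2
      have h5 : v' = v := by
        have := congrArg (fun x => Bi *ᵥ x) hv'2
        simp only [Matrix.mulVec_mulVec, h4, Matrix.one_mulVec] at this
        exact this
      rw [← h5]
      exact hv'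
  · intro h
    ext x
    constructor
    · rintro ⟨v, hv, rfl⟩
      rw [Matrix.toLin'_apply]
      refine ⟨Bi *ᵥ (A *ᵥ v), (h _).2 ?_, ?_⟩
      · simp only [Matrix.mulVec_mulVec, Matrix.mul_assoc]
        rw [← Matrix.mul_assoc B, h3, Matrix.one_mul, h2, Matrix.one_mulVec]
        exact hv
      · rw [Matrix.toLin'_apply]
        simp only [Matrix.mulVec_mulVec, Matrix.mul_assoc]
        rw [← Matrix.mul_assoc B, h3, Matrix.one_mul]
    · rintro ⟨v, hv, rfl⟩
      rw [Matrix.toLin'_apply]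
      refine ⟨(Ai * B) *ᵥ v, (h v).1 hv, ?_⟩
      rw [Matrix.toLin'_apply, Matrix.mulVec_mulVec, ← Matrix.mul_assoc, h1, Matrix.one_mul]

noncomputable def phi (d : ℕ) (g : Matrix.symplecticGroup (Fin d) F) :
    Submodule F (Fin d ⊕ Fin d → F) × Submodule F (Fin d ⊕ Fin d → F) :=
  ((E0 d F).map (Matrix.toLin' (g : Matrix (Fin d ⊕ Fin d) (Fin d ⊕ Fin d) F)),
   (E1 d F).map (Matrix.toLin' (g : Matrix (Fin d ⊕ Fin d) (Fin d ⊕ Fin d) F)))

theorem fib (d : ℕ) (g h : Matrix.symplecticGroup (Fin d) F) :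
    phi d g = phi d h ↔ g⁻¹ * h ∈ (Cfsg.stabilizing (Cfsg.spToMat d F)
      {v : Fin d ⊕ Fin d → F | ∀ i : Fin d, v (Sum.inr i) = 0} ⊓
      Cfsg.stabilizing (Cfsg.spToMat d F) {v : Fin d ⊕ Fin d → F | ∀ i : Fin d, v (Sum.inl i) = 0}) := by
  rw [phi, phi, Prod.mk.injEq, Subgroup.mem_inf]
  apply and_congr
  · exact map_eq_iff (E0 d F) g.1 h.1 (g⁻¹).1 (h⁻¹).1 (sp_mul_inv g) (sp_inv_mul g) (sp_mul_inv h)
      (sp_inv_mul h)
  · exact map_eq_iff (E1 d F) g.1 h.1 (g⁻¹).1 (h⁻¹).1 (sp_mul_inv g) (sp_inv_mul g) (sp_mul_inv h)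
      (sp_inv_mul h)

theorem form_sum (m : ℕ) (x y : Fin m ⊕ Fin m → F) :
    SympMat.form m F x y =
      ∑ i : Fin m, (x (Sum.inr i) * y (Sum.inl i) - x (Sum.inl i) * y (Sum.inr i)) := by
  rw [SympMat.form_apply, Cfsg.sympForm, Matrix.J, Matrix.fromBlocks_mulVec]
  simp only [dotProduct, Fintype.sum_sum_type, Sum.elim_inl, Sum.elim_inr, Matrix.zero_mulVec,
    Matrix.neg_mulVec, Matrix.one_mulVec, zero_add, add_zero, Pi.neg_apply, Function.comp_apply]
  rw [← Finset.sum_add_distrib]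
  apply Finset.sum_congr rfl
  intro i _
  ring

theorem isCompl_E (d : ℕ) : IsCompl (E0 d F) (E1 d F) := by
  rw [isCompl_iff]
  constructor
  · rw [Submodule.disjoint_def]
    intro x h0 h1
    funext s
    rcases s with i | i
    · exact h1 i
    · exact h0 i
  · rw [codisjoint_iff, Submodule.eq_top_iff']
    intro x
    rw [Submodule.mem_sup]
    refine ⟨Sum.elim (x ∘ Sum.inl) 0, fun i => rfl, Sum.elim 0 (x ∘ Sum.inr), fun i => rfl, ?_⟩
    funext s
    rcases s with i | i <;> simp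

def Tset (d : ℕ) (F : Type*) [Field F] :
    Set (Submodule F (Fin d ⊕ Fin d → F) × Submodule F (Fin d ⊕ Fin d → F)) :=
  {P | IsCompl P.1 P.2 ∧ (∀ u ∈ P.1, ∀ v ∈ P.1, Cfsg.sympForm d F u v = 0) ∧
    (∀ u ∈ P.2, ∀ v ∈ P.2, Cfsg.sympForm d F u v = 0)}

theorem phi_mem (d : ℕ) (g : Matrix.symplecticGroup (Fin d) F) : phi d g ∈ Tset d F := by
  have hbij : Function.Bijective (Matrix.toLin' (g : Matrix (Fin d ⊕ Fin d) (Fin d ⊕ Fin d) F)) := by
    rw [Function.bijective_iff_has_inverse]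
    refine ⟨Matrix.toLin' ((g⁻¹ : Matrix.symplecticGroup (Fin d) F) :
      Matrix (Fin d ⊕ Fin d) (Fin d ⊕ Fin d) F), fun v => ?_, fun v => ?_⟩
    · rw [Matrix.toLin'_apply, Matrix.toLin'_apply, Matrix.mulVec_mulVec, sp_inv_mul,
        Matrix.one_mulVec]
    · rw [Matrix.toLin'_apply, Matrix.toLin'_apply, Matrix.mulVec_mulVec, sp_mul_inv,
        Matrix.one_mulVec]
  have hiso := (SympMat.mem_symp_iff d _).1 g.2
  refine ⟨(Submodule.orderIsoMapComapOfBijective _ hbij).isCompl (isCompl_E d), ?_, ?_⟩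
  · rintro _ ⟨a, ha, rfl⟩ _ ⟨b, hb, rfl⟩
    rw [Matrix.toLin'_apply, Matrix.toLin'_apply, ← SympMat.form_apply, hiso, form_sum]
    apply Finset.sum_eq_zero
    intro i _
    rw [ha i, hb i, zero_mul, mul_zero, sub_zero]
  · rintro _ ⟨a, ha, rfl⟩ _ ⟨b, hb, rfl⟩
    rw [Matrix.toLin'_apply, Matrix.toLin'_apply, ← SympMat.form_apply, hiso, form_sum]
    apply Finset.sum_eq_zero
    intro i _
    rw [ha i, hb i, zero_mul, mul_zero, sub_zero]

end count

section surj
variable {F : Type*} [Field F]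

theorem form_single_ll (d : ℕ) (i j : Fin d) :
    SympMat.form d F (Pi.single (Sum.inl i) 1) (Pi.single (Sum.inl j) 1) = 0 := by
  rw [form_sum]
  simp [Pi.single_apply]

theorem form_single_rr (d : ℕ) (i j : Fin d) :
    SympMat.form d F (Pi.single (Sum.inr i) 1) (Pi.single (Sum.inr j) 1) = 0 := by
  rw [form_sum]
  simp [Pi.single_apply]

theorem form_single_lr (d : ℕ) (i j : Fin d) :
    SympMat.form d F (Pi.single (Sum.inl i) 1) (Pi.single (Sum.inr j) 1) =
      -(if i = j then 1 else 0) := by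
  rw [form_sum, Finset.sum_eq_single i]
  · by_cases h : i = j <;> simp [Pi.single_apply, h]
  · intro k _ hk
    simp [Pi.single_apply, hk]
  · intro hi
    exact absurd (Finset.mem_univ i) hi

theorem form_single_rl (d : ℕ) (i j : Fin d) :
    SympMat.form d F (Pi.single (Sum.inr i) 1) (Pi.single (Sum.inl j) 1) =
      (if j = i then 1 else 0) := by
  rw [form_sum, Finset.sum_eq_single i]
  · by_cases h : j = i
    · subst h
      simp
    · have h' : ¬ i = j := fun e => h e.symm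
      simp [h, h']
  · intro k _ hk
    simp [Pi.single_apply, hk]
  · intro hi
    exact absurd (Finset.mem_univ i) hi

theorem exists_g (d : ℕ) (U W : Submodule F (Fin d ⊕ Fin d → F)) (hUW : IsCompl U W)
    (hU : ∀ u ∈ U, ∀ v ∈ U, Cfsg.sympForm d F u v = 0)
    (hW : ∀ u ∈ W, ∀ v ∈ W, Cfsg.sympForm d F u v = 0) :
    ∃ g : Matrix.symplecticGroup (Fin d) F, phi d g = (U, W) := by
  classical
  obtain ⟨B, hB⟩ : ∃ B, B = SympMat.form d F := ⟨_, rfl⟩
  have hnd : B.Nondegenerate := hB ▸ SympMat.form_nondeg d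
  have halt : B.IsAlt := hB ▸ SympMat.form_alt d
  have hU' : ∀ u ∈ U, ∀ v ∈ U, B u v = 0 := by
    intro u hu v hv
    rw [hB, SympMat.form_apply]
    exact hU u hu v hv
  have hW' : ∀ u ∈ W, ∀ v ∈ W, B u v = 0 := by
    intro u hu v hv
    rw [hB, SympMat.form_apply]
    exact hW u hu v hv
  have hdim : ∀ M : Submodule F (Fin d ⊕ Fin d → F), (∀ u ∈ M, ∀ v ∈ M, B u v = 0) →
      Module.finrank F M ≤ d := by
    intro M hM
    have hMle : M ≤ B.orthogonal M := by
      intro x hx n hn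
      exact hM n hn x hx
    have h1 := LinearMap.BilinForm.finrank_orthogonal hnd M
    have h2 := Submodule.finrank_mono hMle
    have h3 := Submodule.finrank_le M
    rw [h1] at h2
    rw [Module.finrank_fintype_fun_eq_card, Fintype.card_sum, Fintype.card_fin] at h2 h3
    omega
  have hsum : Module.finrank F U + Module.finrank F W = 2 * d := by
    have := Submodule.finrank_add_eq_of_isCompl hUW
    rw [Module.finrank_fintype_fun_eq_card, Fintype.card_sum, Fintype.card_fin] at this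
    omega
  have hUd : Module.finrank F U = d := by
    have := hdim U hU'
    have := hdim W hW'
    omega
  have hWd : Module.finrank F W = d := by omega
  obtain ⟨bU⟩ : Nonempty (Module.Basis (Fin d) F U) := ⟨Module.finBasisOfFinrankEq F U hUd⟩
  obtain ⟨Ψ, hΨ⟩ : ∃ Ψ : W →ₗ[F] (Fin d → F), ∀ (w : W) (i : Fin d),
      Ψ w i = B w.1 (bU i).1 :=
    ⟨LinearMap.pi (fun i => (B.flip (bU i).1).comp W.subtype), fun w i => rfl⟩
  have hrepU : ∀ x : U, (x : Fin d ⊕ Fin d → F) =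
      ∑ i, (bU.repr x i) • ((bU i : U) : Fin d ⊕ Fin d → F) := by
    intro x
    have := congrArg Subtype.val (bU.sum_repr x)
    simp only [Submodule.coe_sum, Submodule.coe_smul] at this
    exact this.symm
  have hΨinj : Function.Injective Ψ := by
    rw [← LinearMap.ker_eq_bot, LinearMap.ker_eq_bot']
    intro w hw
    apply Subtype.ext
    apply hnd.1
    intro y
    obtain ⟨u', hu', w', hw', rfl⟩ := Submodule.mem_sup.1
      (show y ∈ U ⊔ W by rw [hUW.sup_eq_top]; trivial)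
    rw [map_add, hW' w.1 w.2 w' hw', add_zero,
      show B w.1 u' = B w.1 (∑ i, bU.repr ⟨u', hu'⟩ i • ((bU i : U) : Fin d ⊕ Fin d → F)) from
        congrArg (B w.1) (hrepU ⟨u', hu'⟩), map_sum]
    apply Finset.sum_eq_zero
    intro i _
    rw [map_smul, smul_eq_mul]
    have h0 := congrFun hw i
    rw [hΨ] at h0
    rw [h0]
    simp
  have hfr : Module.finrank F W = Module.finrank F (Fin d → F) := by
    rw [hWd, Module.finrank_fintype_fun_eq_card, Fintype.card_fin]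
  obtain ⟨Ψe, hΨe⟩ : ∃ Ψe : W ≃ₗ[F] (Fin d → F), ∀ w, Ψe w = Ψ w :=
    ⟨LinearMap.linearEquivOfInjective Ψ hΨinj hfr, fun w => rfl⟩
  obtain ⟨u, hu⟩ : ∃ u : Fin d → (Fin d ⊕ Fin d → F), ∀ i, u i = (bU i).1 := ⟨_, fun i => rfl⟩
  obtain ⟨w, hw⟩ : ∃ w : Fin d → (Fin d ⊕ Fin d → F), ∀ j, w j = (Ψe.symm (Pi.single j 1)).1 :=
    ⟨_, fun j => rfl⟩
  have huU : ∀ i, u i ∈ U := fun i => by rw [hu]; exact (bU i).2
  have hwW : ∀ j, w j ∈ W := fun j => by rw [hw]; exact (Ψe.symm _).2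
  have hwu : ∀ i j, B (w j) (u i) = if i = j then 1 else 0 := by
    intro i j
    have h1 := congrFun (Ψe.apply_symm_apply (Pi.single j 1)) i
    rw [hΨe, hΨ] at h1
    rw [hw, hu, h1, Pi.single_apply]
  obtain ⟨f₀, hf₀⟩ : ∃ f₀ : (Fin d ⊕ Fin d → F) →ₗ[F] (Fin d ⊕ Fin d → F),
      ∀ v, f₀ v = ∑ s, v s • Sum.elim u w s := by
    refine ⟨(Pi.basisFun F (Fin d ⊕ Fin d)).constr F (Sum.elim u w), fun v => ?_⟩
    rw [Module.Basis.constr_apply_fintype, Pi.basisFun_equivFun]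
    rfl
  have hf₀s : ∀ s, f₀ (Pi.single s 1) = Sum.elim u w s := by
    intro s
    rw [hf₀, Finset.sum_eq_single s]
    · rw [Pi.single_eq_same, one_smul]
    · intro t _ hts
      rw [Pi.single_eq_of_ne hts, zero_smul]
    · intro hs
      exact absurd (Finset.mem_univ s) hs
  have hcomp : B.comp f₀ f₀ = B := by
    apply LinearMap.BilinForm.ext_basis (Pi.basisFun F (Fin d ⊕ Fin d))
    intro s t
    rw [LinearMap.BilinForm.comp_apply, Pi.basisFun_apply, Pi.basisFun_apply, hf₀s, hf₀s]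
    rcases s with i | i <;> rcases t with j | j
    · rw [Sum.elim_inl, Sum.elim_inl, hU' _ (huU i) _ (huU j), hB, form_single_ll]
    · rw [Sum.elim_inl, Sum.elim_inr, ← halt.neg_eq, hwu, hB, form_single_lr]
    · rw [Sum.elim_inr, Sum.elim_inl, hwu, hB, form_single_rl]
    · rw [Sum.elim_inr, Sum.elim_inr, hW' _ (hwW i) _ (hwW j), hB, form_single_rr]
  have hiso : ∀ x y, B (f₀ x) (f₀ y) = B x y := by
    intro x y
    rw [← LinearMap.BilinForm.comp_apply, hcomp]
  have hA : LinearMap.toMatrix' f₀ ∈ Matrix.symplecticGroup (Fin d) F := by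
    rw [SympMat.mem_symp_iff]
    intro x y
    rw [← Matrix.toLin'_apply, ← Matrix.toLin'_apply, Matrix.toLin'_toMatrix', ← hB]
    exact hiso x y
  refine ⟨⟨_, hA⟩, ?_⟩
  rw [phi]
  simp only [Matrix.toLin'_toMatrix']
  have hsplit : ∀ v, f₀ v = ∑ i, v (Sum.inl i) • u i + ∑ i, v (Sum.inr i) • w i := by
    intro v
    rw [hf₀, Fintype.sum_sum_type]
    rfl
  refine Prod.ext ?_ ?_
  · apply le_antisymm
    · rintro _ ⟨v, hv, rfl⟩
      rw [hsplit]
      have h0 : ∑ i, v (Sum.inr i) • w i = 0 := by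
        apply Finset.sum_eq_zero
        intro i _
        rw [hv i, zero_smul]
      rw [h0, add_zero]
      exact U.sum_mem (fun i _ => U.smul_mem _ (huU i))
    · intro x hx
      refine ⟨Sum.elim (bU.repr ⟨x, hx⟩) 0, fun i => rfl, ?_⟩
      rw [hsplit]
      simp only [Sum.elim_inl, Sum.elim_inr, Pi.zero_apply, zero_smul, Finset.sum_const_zero,
        add_zero]
      refine Eq.trans ?_ (hrepU ⟨x, hx⟩).symm
      apply Finset.sum_congr rfl
      intro i _
      rw [hu]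
  · apply le_antisymm
    · rintro _ ⟨v, hv, rfl⟩
      rw [hsplit]
      have h0 : ∑ i, v (Sum.inl i) • u i = 0 := by
        apply Finset.sum_eq_zero
        intro i _
        rw [hv i, zero_smul]
      rw [h0, zero_add]
      exact W.sum_mem (fun i _ => W.smul_mem _ (hwW i))
    · intro x hx
      obtain ⟨c, hc⟩ : ∃ c : Fin d → F, c = Ψe ⟨x, hx⟩ := ⟨_, rfl⟩
      refine ⟨Sum.elim 0 c, fun i => rfl, ?_⟩
      rw [hsplit]
      simp only [Sum.elim_inl, Sum.elim_inr, Pi.zero_apply, zero_smul, Finset.sum_const_zero,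
        zero_add]
      have hcs : c = ∑ j, c j • (Pi.single j (1 : F) : Fin d → F) := by
        funext i
        simp [Finset.sum_apply, Pi.single_apply]
      have h1 : (⟨x, hx⟩ : W) = ∑ j, c j • Ψe.symm (Pi.single j 1) := by
        have h2 : (⟨x, hx⟩ : W) = Ψe.symm c := by rw [hc, Ψe.symm_apply_apply]
        rw [h2]
        conv_lhs => rw [hcs]
        rw [map_sum]
        apply Finset.sum_congr rfl
        intro j _
        rw [map_smul]
      have h3 := congrArg Subtype.val h1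
      simp only [Submodule.coe_sum, Submodule.coe_smul] at h3
      rw [h3]
      apply Finset.sum_congr rfl
      intro j _
      rw [hw]

theorem range_phi (d : ℕ) : Set.range (phi d (F := F)) = Tset d F := by
  apply Set.eq_of_subset_of_subset
  · rintro _ ⟨g, rfl⟩
    exact phi_mem d g
  · rintro ⟨U, W⟩ ⟨h1, h2, h3⟩
    exact exists_g d U W h1 h2 h3

theorem count_eq [Fintype F] (d : ℕ) :
    Nat.card (Matrix.symplecticGroup (Fin d) F) =
      Nat.card {P : Submodule F (Fin d ⊕ Fin d → F) × Submodule F (Fin d ⊕ Fin d → F) //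
        IsCompl P.1 P.2 ∧ (∀ u ∈ P.1, ∀ v ∈ P.1, Cfsg.sympForm d F u v = 0) ∧
        (∀ u ∈ P.2, ∀ v ∈ P.2, Cfsg.sympForm d F u v = 0)} *
      Nat.card (GL (Fin d) F) := by
  have h := Cfsg.Agent.S0775.card_fibers (phi d (F := F)) (Tset d F) (range_phi d) _ (fib d)
  obtain ⟨e⟩ := Cfsg.Agent.S0778.result (F := F) d
  rw [Nat.card_congr e.toEquiv] at h
  exact h

end surj

section arith

theorem prodGL (q d : ℕ) : ∏ i : Fin d, (q ^ d - q ^ (i : ℕ)) =
    (∏ i ∈ Finset.range d, q ^ i) * ∏ i ∈ Finset.range d, (q ^ (i + 1) - 1) := by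
  rw [Fin.prod_univ_eq_prod_range (fun i => q ^ d - q ^ i) d]
  have h1 : ∀ i ∈ Finset.range d, q ^ d - q ^ i = q ^ i * (q ^ (d - i) - 1) := by
    intro i hi
    rw [Finset.mem_range] at hi
    rw [Nat.mul_sub, mul_one, ← pow_add, Nat.add_sub_cancel' hi.le]
  rw [Finset.prod_congr rfl h1, Finset.prod_mul_distrib]
  congr 1
  rw [← Finset.prod_range_reflect]
  apply Finset.prod_congr rfl
  intro i hi
  rw [Finset.mem_range] at hi
  have : d - (d - 1 - i) = i + 1 := by omega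
  rw [this]

theorem prodSp (q d : ℕ) (hq : 1 ≤ q) : ∏ i ∈ Finset.range d, (q ^ (2 * (i + 1)) - 1) =
    (∏ i ∈ Finset.range d, (q ^ (i + 1) - 1)) * ∏ i ∈ Finset.range d, (q ^ (i + 1) + 1) := by
  rw [← Finset.prod_mul_distrib]
  apply Finset.prod_congr rfl
  intro i _
  have h1 : 1 ≤ q ^ (i + 1) := Nat.one_le_pow _ _ hq
  have h2 : q ^ (2 * (i + 1)) = q ^ (i + 1) * q ^ (i + 1) := by
    rw [← pow_add]
    congr 1
    omega
  rw [h2]
  obtain ⟨a, ha⟩ : ∃ a, q ^ (i + 1) = a + 1 := ⟨q ^ (i + 1) - 1, by omega⟩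
  rw [ha, Nat.add_sub_cancel]
  apply Nat.sub_eq_of_eq_add
  ring

theorem arith (q d r : ℕ) (hq : 2 ≤ q) (hqodd : Odd q) (hr : r.Prime) (hrq : ¬ r ∣ q)
    (N : ℕ) (hN : q ^ (d ^ 2) * ∏ i ∈ Finset.range d, (q ^ (2 * (i + 1)) - 1) =
      N * ∏ i : Fin d, (q ^ d - q ^ (i : ℕ)))
    (hd : 1 ≤ d) (hrN : r ∣ N / 2) : ∃ j, 1 ≤ j ∧ j ≤ d ∧ r ∣ q ^ j + 1 := by
  rw [prodGL, prodSp q d (by omega)] at hN
  obtain ⟨P, hP⟩ : ∃ P, P = ∏ i ∈ Finset.range d, (q ^ (i + 1) - 1) := ⟨_, rfl⟩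
  obtain ⟨Q, hQ⟩ : ∃ Q, Q = ∏ i ∈ Finset.range d, (q ^ (i + 1) + 1) := ⟨_, rfl⟩
  obtain ⟨A, hA⟩ : ∃ A, A = ∏ i ∈ Finset.range d, q ^ i := ⟨_, rfl⟩
  rw [← hP, ← hQ, ← hA] at hN
  have hPpos : 0 < P := by
    rw [hP]
    apply Finset.prod_pos
    intro i _
    have : 2 ≤ q ^ (i + 1) := le_trans hq (Nat.le_self_pow (by omega) q)
    omega
  have h1 : q ^ (d ^ 2) * Q = N * A := by
    apply Nat.eq_of_mul_eq_mul_right hPpos
    calc q ^ (d ^ 2) * Q * P = q ^ (d ^ 2) * (P * Q) := by ring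
      _ = N * (A * P) := hN
      _ = N * A * P := by ring
  have hQeven : 2 ∣ Q := by
    rw [hQ]
    apply Dvd.dvd.trans _ (Finset.dvd_prod_of_mem _ (Finset.mem_range.2 hd : 0 ∈ Finset.range d))
    obtain ⟨k, hk⟩ := hqodd
    rw [zero_add, pow_one, hk]
    exact ⟨k + 1, by ring⟩
  have hAodd : Odd A := by
    rw [hA]
    apply Finset.prod_induction _ Odd (fun a b => Odd.mul) odd_one
    intro i _
    exact hqodd.pow
  have h2N : 2 ∣ N := by
    have : 2 ∣ N * A := by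
      rw [← h1]
      exact Dvd.dvd.mul_left hQeven _
    exact (Nat.Coprime.dvd_mul_right (Nat.coprime_two_left.2 hAodd)).1 this
  have hrN' : r ∣ N := by
    obtain ⟨m, hm⟩ := h2N
    rw [hm, Nat.mul_div_cancel_left _ (by norm_num)] at hrN
    rw [hm]
    exact Dvd.dvd.mul_left hrN 2
  have hrQ : r ∣ q ^ (d ^ 2) * Q := by
    rw [h1]
    exact Dvd.dvd.mul_right hrN' A
  rcases (Nat.Prime.dvd_mul hr).1 hrQ with h | h
  · exact absurd (hr.dvd_of_dvd_pow h) hrq
  · rw [hQ] at h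
    obtain ⟨i, hi, hri⟩ := (Prime.dvd_finsetProd_iff hr.prime _).1 h
    have := Finset.mem_range.1 hi
    exact ⟨i + 1, by omega, by omega, hri⟩

theorem order_facts (q r j d : ℕ) [Fact r.Prime] (hr2 : r ≠ 2) (hj1 : 1 ≤ j) (hjd : j ≤ d)
    (hrj : r ∣ q ^ j + 1) :
    ∃ k, 1 ≤ k ∧ k ≤ d ∧ orderOf (q : ZMod r) = 2 * k := by
  have h1 : (q : ZMod r) ^ j = -1 := by
    have : ((q ^ j + 1 : ℕ) : ZMod r) = 0 := (ZMod.natCast_eq_zero_iff _ _).2 hrj
    push_cast at this
    exact eq_neg_of_add_eq_zero_left this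
  have h2 : (q : ZMod r) ^ (2 * j) = 1 := by
    rw [mul_comm, pow_mul, h1]
    norm_num
  have hdvd : orderOf (q : ZMod r) ∣ 2 * j := orderOf_dvd_of_pow_eq_one h2
  have hndvd : ¬ orderOf (q : ZMod r) ∣ j := by
    intro h
    have h3 : (q : ZMod r) ^ j = 1 := orderOf_dvd_iff_pow_eq_one.1 h
    rw [h1] at h3
    have h4 : ((2 : ℕ) : ZMod r) = 0 := by
      push_cast
      linear_combination -h3
    have h5 := (ZMod.natCast_eq_zero_iff _ _).1 h4
    exact hr2 ((Nat.prime_dvd_prime_iff_eq (Fact.out) Nat.prime_two).1 h5)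
  have hpos : 0 < orderOf (q : ZMod r) := Nat.pos_of_dvd_of_pos hdvd (by omega)
  have heven : 2 ∣ orderOf (q : ZMod r) := by
    by_contra hodd
    have hco : Nat.Coprime (orderOf (q : ZMod r)) 2 :=
      Nat.Coprime.symm ((Nat.Prime.coprime_iff_not_dvd Nat.prime_two).2 hodd)
    exact hndvd (hco.dvd_of_dvd_mul_left hdvd)
  obtain ⟨k, hk⟩ := heven
  have hle := Nat.le_of_dvd (by omega) hdvd
  exact ⟨k, by omega, by omega, hk⟩

end arith

/-- Derangements of odd prime order of PSp_n(q), q odd, on pairs of complementary totally isotropic subspaces. Here `T = PSp_n(q)`, `n = 2d ≥ 4`, `q` odd, realised through the symplectic matrices over the field `F` with `q` elements; Ω is the set of unordered pairs `{U, W}` of complementary totally isotropic `d`-spaces (`F^n = U ⊕ W`), whose stabilizers are the subgroups of type GL_d(q).2 (maximal except in some small cases; maximality is not assumed); an element of `T` of prime order `r` (a symplectic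 matrix `x` with `x^r` scalar, `x` not scalar) fixes such a pair when it fixes or interchanges `U` and `W`. For every odd prime `r ≠ p` dividing the number of such pairs, some element of `T` of order `r` fixes no such pair (the action is never `r`-elusive for odd `r ≠ p`). -/
theorem result {F : Type*} [Field F] [Fintype F] {p : ℕ} [Fact p.Prime] [CharP F p] {q : ℕ} (hq : Fintype.card F = q)
    (d : ℕ) (hd : 2 ≤ d) (hT : (d, q) ≠ (2, 2)) (hodd : Odd q)
    (r : ℕ) [Fact r.Prime] (hr2 : r ≠ 2) (hrp : r ≠ p) (hΩ : r ∣ Nat.card {P : Submodule F (Fin d ⊕ Fin d → F) × Submodule F (Fin d ⊕ Fin d → F) // IsCompl P.1 P.2 ∧ (∀ u ∈ P.1, ∀ v ∈ P.1, Cfsg.sympForm d F u v = 0) ∧ (∀ u ∈ P.2, ∀ v ∈ P.2, Cfsg.sympForm d F u v = 0)} / 2) :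
    ∃ x : ↥(Matrix.symplecticGroup (Fin d) F),
      (∃ z : F, ((x ^ r : ↥(Matrix.symplecticGroup (Fin d) F)) : Matrix (Fin d ⊕ Fin d) (Fin d ⊕ Fin d) F) = z • (1 : Matrix (Fin d ⊕ Fin d) (Fin d ⊕ Fin d) F)) ∧
      (∀ z : F, (x : Matrix (Fin d ⊕ Fin d) (Fin d ⊕ Fin d) F) ≠ z • (1 : Matrix (Fin d ⊕ Fin d) (Fin d ⊕ Fin d) F)) ∧
      ¬ (∃ U W : Submodule F (Fin d ⊕ Fin d → F), IsCompl U W ∧ (∀ u ∈ U, ∀ v ∈ U, Cfsg.sympForm d F u v = 0) ∧ (∀ u ∈ W, ∀ v ∈ W, Cfsg.sympForm d F u v = 0) ∧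
        ((U.map (Matrix.toLin' (x : Matrix (Fin d ⊕ Fin d) (Fin d ⊕ Fin d) F)) = U ∧ W.map (Matrix.toLin' (x : Matrix (Fin d ⊕ Fin d) (Fin d ⊕ Fin d) F)) = W) ∨
         (U.map (Matrix.toLin' (x : Matrix (Fin d ⊕ Fin d) (Fin d ⊕ Fin d) F)) = W ∧ W.map (Matrix.toLin' (x : Matrix (Fin d ⊕ Fin d) (Fin d ⊕ Fin d) F)) = U))) := by
  classical
  have hp : p.Prime := Fact.out
  have hr : r.Prime := Fact.out
  obtain ⟨n, -, hcard⟩ := FiniteField.card F p
  have hrq : ¬ r ∣ Fintype.card F := by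
    intro h
    rw [hcard] at h
    exact hrp ((Nat.prime_dvd_prime_iff_eq hr hp).1 (hr.dvd_of_dvd_pow h))
  have hrF : (r : F) ≠ 0 := by
    intro h
    have := (CharP.cast_eq_zero_iff F p r).1 h
    exact hrp ((Nat.prime_dvd_prime_iff_eq hp hr).1 this).symm
  have hq2 : 2 ≤ q := by
    rw [← hq]
    exact Fintype.one_lt_card
  have hcount := count_eq (F := F) d
  rw [Cfsg.Agent.Lib.Helper5.SpCard.card_symplectic, Matrix.card_GL_field, hq] at hcount
  obtain ⟨j, hj1, hjd, hrj⟩ := arith q d r hq2 hodd hr (hq ▸ hrq) _ hcount (by omega) hΩ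
  obtain ⟨k, hk1, hkd, hord⟩ := order_facts q r j d hr2 hj1 hjd hrj
  have hord' : orderOf ((Fintype.card F : ℕ) : ZMod r) = 2 * k := by
    rw [hq]
    exact hord
  have hdvd : r ∣ Nat.card (Matrix.symplecticGroup (Fin k) F) := by
    rw [Cfsg.Agent.Lib.Helper5.SpCard.card_symplectic, hq]
    apply Dvd.dvd.mul_left
    apply Dvd.dvd.trans _ (Finset.dvd_prod_of_mem _ (Finset.mem_range.2 (by omega : k - 1 < k)))
    have h0 : 2 * (k - 1 + 1) = 2 * k := by omega
    rw [h0, ← hord]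
    have h1 : ((q ^ orderOf (q : ZMod r) : ℕ) : ZMod r) = ((1 : ℕ) : ZMod r) := by
      push_cast
      exact pow_orderOf_eq_one _
    have h2 := (ZMod.natCast_eq_natCast_iff _ _ _).1 h1
    exact (Nat.modEq_iff_dvd' (Nat.one_le_pow _ _ (by omega))).1 h2.symm
  obtain ⟨y, hy⟩ := exists_prime_orderOf_dvd_card' r hdvd
  have hYr : (y : Matrix (Fin k ⊕ Fin k) (Fin k ⊕ Fin k) F) ^ r = 1 := by
    have h1 : y ^ r = 1 := hy ▸ pow_orderOf_eq_one y
    have h2 := congrArg Subtype.val h1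
    exact h2
  have hY1 : (y : Matrix (Fin k ⊕ Fin k) (Fin k ⊕ Fin k) F) ≠ 1 := by
    intro h
    have h1 : y = 1 := Subtype.ext h
    rw [h1, orderOf_one] at hy
    exact hr.one_lt.ne hy
  have hfix := fix_zero k r hrq hord' y.1 hYr hY1
  obtain ⟨X, hXdef⟩ : ∃ X, X = emb d k hkd (y : Matrix (Fin k ⊕ Fin k) (Fin k ⊕ Fin k) F) :=
    ⟨_, rfl⟩
  have hXmem : X ∈ Matrix.symplecticGroup (Fin d) F := hXdef ▸ emb_symp d k hkd y.1 y.2
  have hXr : X ^ r = 1 := by
    apply Matrix.toLin'.injective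
    apply LinearMap.ext
    intro v
    rw [Matrix.toLin'_apply, Matrix.toLin'_one, LinearMap.id_apply, hXdef, emb_pow, hYr,
      Matrix.one_mulVec, sub_self, Matrix.mulVec_zero, add_zero]
  have hX1 : X ≠ 1 := hXdef ▸ emb_ne_one d k hkd y.1 hY1
  obtain ⟨m, hm⟩ : Odd r := hr.eq_two_or_odd'.resolve_left hr2
  refine ⟨⟨X, hXmem⟩, ⟨1, ?_⟩, ?_, ?_⟩
  · rw [one_smul]
    exact hXr
  · intro z hz
    have hz' : X = z • (1 : Matrix (Fin d ⊕ Fin d) (Fin d ⊕ Fin d) F) := hz
    have hiso := (SympMat.mem_symp_iff d X).1 hXmem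
      (Pi.single (Sum.inl ⟨0, by omega⟩) 1) (Pi.single (Sum.inr ⟨0, by omega⟩) 1)
    rw [hz', Matrix.smul_mulVec, Matrix.smul_mulVec, Matrix.one_mulVec, Matrix.one_mulVec,
      map_smul, map_smul, LinearMap.smul_apply, form_single_lr, if_pos rfl, smul_eq_mul,
      smul_eq_mul] at hiso
    have hzz : z * z = 1 := by linear_combination -hiso
    have hzr : z ^ r = 1 := by
      have h1 := hXr
      rw [hz', smul_pow, one_pow] at h1
      have h2 := congrFun (congrFun h1 (Sum.inl ⟨0, by omega⟩)) (Sum.inl ⟨0, by omega⟩)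
      simpa [Matrix.smul_apply] using h2
    have hz1 : z = 1 := by
      rw [hm, pow_succ, pow_mul, pow_two, hzz, one_pow, one_mul] at hzr
      exact hzr
    rw [hz1, one_smul] at hz'
    exact hX1 hz'
  · rintro ⟨U, W, hUW, hU, hW, hcase⟩
    rcases hcase with ⟨h1, h2⟩ | ⟨h1, h2⟩
    · exact nofix d r hrq hrF X hXmem hXr hX1
        (LinearMap.ker (Matrix.mulVecLin (Rm F d k hkd)))
        (fun v => by
          rw [LinearMap.mem_ker, Matrix.mulVecLin_apply, hXdef]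
          exact (emb_fix d k hkd y.1 hfix v).symm)
        (by rw [hord']; exact ker_dim d k hkd) (by rw [hord']; omega) U W hUW hU hW h1 h2
    · have h1' : U.map (Matrix.toLin' X) = W := h1
      have h2' : W.map (Matrix.toLin' X) = U := h2
      have hpow : ∀ m : ℕ, U.map (Matrix.toLin' (X ^ (2 * m + 1))) = W := by
        intro m
        induction m with
        | zero => simpa using h1'
        | succ m ih =>
          have h3 : X ^ (2 * (m + 1) + 1) = X * (X * X ^ (2 * m + 1)) := by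
            have e : 2 * (m + 1) + 1 = (2 * m + 1) + 1 + 1 := by ring
            rw [e, pow_succ', pow_succ']
          rw [h3, Matrix.toLin'_mul, Matrix.toLin'_mul, Submodule.map_comp, Submodule.map_comp,
            ih, h2', h1']
      have h4 := hpow m
      rw [← hm, hXr, Matrix.toLin'_one, Submodule.map_id] at h4
      rw [← h4] at hUW
      have hbot : U = ⊥ := by
        have := hUW.inf_eq_bot
        rwa [inf_idem] at this
      have htop : U = ⊤ := by
        have := hUW.sup_eq_top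
        rwa [sup_idem] at this
      have h0 : (Pi.single (Sum.inl ⟨0, by omega⟩) 1 : Fin d ⊕ Fin d → F) ∈
          (⊤ : Submodule F (Fin d ⊕ Fin d → F)) := trivial
      rw [← htop, hbot, Submodule.mem_bot] at h0
      have h5 := congrFun h0 (Sum.inl ⟨0, by omega⟩)
      simp at h5

end Cfsg.Agent.S5963
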