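-- Statement S1453.
import Cfsg.Statements.S1453
import Cfsg.Agent.Lib.Helper24.PGroupBasic

set_option autoImplicit false
open Cfsg
open scoped commutatorElement

namespace Cfsg.Agent.S1453

open Cfsg.Agent.Lib.Helper24.Coprime Cfsg.Agent.Lib.Helper24.Alperin
  Cfsg.Agent.Lib.Helper24.PGroupBasic

/-- The exponent of `A ⊔ zpowers k` for commuting data. -/
theorem pow_eq_one_of_mem_sup_zpowers {G : Type*} [Group G] {A : Subgroup G} {k : G} {n : ℕ}
    (hA : ∀ a ∈ A, ∀ b ∈ A, a * b = b * a) (hk : ∀ a ∈ A, a * k = k * a)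
    (hAe : ∀ a ∈ A, a ^ n = 1) (hkn : k ^ n = 1) : ∀ x ∈ A ⊔ Subgroup.zpowers k, x ^ n = 1 := by
  have hcomm := comm_of_mem_sup_zpowers hA hk
  intro x hx
  have hx' : x ∈ Subgroup.closure ((A : Set G) ∪ (Subgroup.zpowers k : Set G)) := by
    rw [← Subgroup.sup_eq_closure]; exact hx
  induction hx' using Subgroup.closure_induction with
  | mem y hy =>
    rcases hy with hy | hy
    · exact hAe y hy
    · obtain ⟨i, rfl⟩ := Subgroup.mem_zpowers_iff.mp hy
      rw [← zpow_natCast, ← zpow_mul, mul_comm, zpow_mul, zpow_natCast, hkn, one_zpow]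
  | one => exact one_pow n
  | mul y z hy hz h1 h2 =>
    have hy' : y ∈ A ⊔ Subgroup.zpowers k := by rw [Subgroup.sup_eq_closure]; exact hy
    have hz' : z ∈ A ⊔ Subgroup.zpowers k := by rw [Subgroup.sup_eq_closure]; exact hz
    have hc : Commute y z := hcomm y hy' z hz'
    rw [hc.mul_pow, h1 (by rw [Subgroup.sup_eq_closure]; exact hy),
      h2 (by rw [Subgroup.sup_eq_closure]; exact hz), one_mul]
  | inv y hy h1 =>
    rw [inv_pow, h1 (by rw [Subgroup.sup_eq_closure]; exact hy), inv_one]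

/-- An element of order dividing `p` commuting with a maximal elementary abelian subgroup lies
in it. -/
theorem mem_of_comm_of_max {G : Type*} [Group G] (p : ℕ) (E : Subgroup G)
    (hE : Cfsg.IsElementaryAbelian p E)
    (hEmax : ∀ B : Subgroup G, Cfsg.IsElementaryAbelian p B → E ≤ B → B = E)
    (w : G) (hw : ∀ a ∈ E, a * w = w * a) (hwp : w ^ p = 1) : w ∈ E := by
  have hEc : ∀ a ∈ E, ∀ b ∈ E, a * b = b * a := fun a ha b hb =>
    congrArg Subtype.val (isMulCommutative_iff.mp hE.1 ⟨a, ha⟩ ⟨b, hb⟩)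
  have hcomm := comm_of_mem_sup_zpowers hEc hw
  have hexp := pow_eq_one_of_mem_sup_zpowers hEc hw hE.2 hwp
  have h := hEmax (E ⊔ Subgroup.zpowers w)
    ⟨isMulCommutative_iff.mpr (fun a b => Subtype.ext (hcomm a a.2 b b.2)), hexp⟩ le_sup_left
  rw [← h]
  exact (le_sup_right : Subgroup.zpowers w ≤ _) (Subgroup.mem_zpowers w)

/-- A subgroup of the centre is normal. -/
theorem normal_of_central {G : Type*} [Group G] (N : Subgroup G)
    (h : ∀ n ∈ N, ∀ g : G, n * g = g * n) : N.Normal := by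
  refine ⟨fun y hy g => ?_⟩
  have : g * y * g⁻¹ = y := by rw [← h y hy g, mul_inv_cancel_right]
  rw [this]; exact hy

theorem result {R : Type*} [Group R] [Finite R] (p : ℕ) [Fact p.Prime] (hp : p ≠ 2) (hR : IsPGroup p R) (hr : ¬ Cfsg.PRankLE p 2 R)
    (E : Subgroup R) (hE : Cfsg.IsElementaryAbelian p E) (hE2 : Nat.card E = p ^ 2)
    (hEmax : ∀ B : Subgroup R, Cfsg.IsElementaryAbelian p B → E ≤ B → B = E) :
    ¬ E ≤ Subgroup.centralizer ((Subgroup.closure {x : R | x ∈ Subgroup.upperCentralSeries R 2 ∧ x ^ p = 1} : Subgroup R) : Set R) ∧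
      Nat.card ↥(Subgroup.closure {x : R | x ∈ Subgroup.center R ∧ x ^ p = 1}) = p ∧
      (Cfsg.IsElementaryAbelian p (Subgroup.closure {x : R | x ∈ Subgroup.upperCentralSeries R 2 ∧ x ^ p = 1}) ∧
        Nat.card ↥(Subgroup.closure {x : R | x ∈ Subgroup.upperCentralSeries R 2 ∧ x ^ p = 1}) = p ^ 2) ∧
      (Subgroup.centralizer ((Subgroup.closure {x : R | x ∈ Subgroup.upperCentralSeries R 2 ∧ x ^ p = 1} : Subgroup R) : Set R)).Characteristic ∧
      (Subgroup.centralizer ((Subgroup.closure {x : R | x ∈ Subgroup.upperCentralSeries R 2 ∧ x ^ p = 1} : Subgroup R) : Set R)).index = p := by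
  have hpr : p.Prime := Fact.out
  have hRnil : Group.IsNilpotent R := hR.isNilpotent
  have hnil : Group.IsNilpotent (⊤ : Subgroup R) := inferInstance
  have hEc : ∀ a ∈ E, ∀ b ∈ E, a * b = b * a := fun a ha b hb =>
    congrArg Subtype.val (isMulCommutative_iff.mp hE.1 ⟨a, ha⟩ ⟨b, hb⟩)
  set Zc : Subgroup R := Subgroup.closure {x : R | x ∈ Subgroup.center R ∧ x ^ p = 1} with hZcdef
  set W : Subgroup R :=
    Subgroup.closure {x : R | x ∈ Subgroup.upperCentralSeries R 2 ∧ x ^ p = 1} with hWdef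
  -- elements of `Zc`
  have hZc : ∀ z ∈ Zc, z ∈ Subgroup.center R ∧ z ^ p = 1 := by
    intro z hz
    induction hz using Subgroup.closure_induction with
    | mem y hy => exact hy
    | one => exact ⟨Subgroup.one_mem _, one_pow p⟩
    | mul y z _ _ h1 h2 =>
      refine ⟨Subgroup.mul_mem _ h1.1 h2.1, ?_⟩
      have hc : Commute y z := (Subgroup.mem_center_iff.mp h1.1 z).symm
      rw [hc.mul_pow, h1.2, h2.2, one_mul]
    | inv y _ h1 => exact ⟨Subgroup.inv_mem _ h1.1, by rw [inv_pow, h1.2, inv_one]⟩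
  have hZcc : ∀ z ∈ Zc, ∀ g : R, z * g = g * z :=
    fun z hz g => (Subgroup.mem_center_iff.mp (hZc z hz).1 g).symm
  have hZcn : Zc.Normal := normal_of_central Zc hZcc
  have hZcE : Zc ≤ E := fun z hz =>
    mem_of_comm_of_max p E hE hEmax z (fun a _ => (hZcc z hz a).symm) (hZc z hz).2
  -- elements of `W`
  have hZ2 : ∀ x y : R, x ∈ Subgroup.upperCentralSeries R 2 → ⁅x, y⁆ ∈ Subgroup.center R := by
    intro x y hx
    have := Subgroup.mem_upperCentralSeries_succ_iff.mp hx y
    rwa [Subgroup.upperCentralSeries_one] at this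
  have hW : ∀ w ∈ W, w ∈ Subgroup.upperCentralSeries R 2 ∧ w ^ p = 1 := by
    intro w hw
    induction hw using Subgroup.closure_induction with
    | mem y hy => exact hy
    | one => exact ⟨Subgroup.one_mem _, one_pow p⟩
    | mul x y _ _ h1 h2 =>
      refine ⟨Subgroup.mul_mem _ h1.1 h2.1, ?_⟩
      have hc : y⁻¹ * x⁻¹ * y * x ∈ Subgroup.center R := by
        have := hZ2 y⁻¹ x⁻¹ (Subgroup.inv_mem _ h2.1)
        simpa [commutatorElement_def] using this
      have hcc : ∀ g : R, (y⁻¹ * x⁻¹ * y * x) * g = g * (y⁻¹ * x⁻¹ * y * x) :=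
        fun g => (Subgroup.mem_center_iff.mp hc g).symm
      rw [mul_pow_prime_of_central p hp (hcc x) (hcc y) (by rw [h2.2, one_mul, mul_one]),
        h1.2, h2.2, one_mul]
    | inv y _ h1 => exact ⟨Subgroup.inv_mem _ h1.1, by rw [inv_pow, h1.2, inv_one]⟩
  have hWchar : W.Characteristic := by
    rw [Subgroup.characteristic_iff_map_le]
    intro φ
    rw [hWdef, MonoidHom.map_closure, Subgroup.closure_le]
    rintro _ ⟨x, ⟨hx2, hxp⟩, rfl⟩
    apply Subgroup.subset_closure
    refine ⟨?_, ?_⟩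
    · have hchar : (Subgroup.upperCentralSeries R 2).Characteristic := inferInstance
      have := (Subgroup.characteristic_iff_map_le.mp hchar φ)
      exact this ⟨x, hx2, rfl⟩
    · show (φ x) ^ p = 1
      rw [← map_pow, hxp, map_one]
  have hWn : W.Normal := inferInstance
  have hZcW : Zc ≤ W := by
    rw [hZcdef, Subgroup.closure_le]
    rintro x ⟨hxc, hxp⟩
    apply Subgroup.subset_closure
    refine ⟨?_, hxp⟩
    have := Subgroup.upperCentralSeries_mono R (show 1 ≤ 2 by norm_num)
    rw [Subgroup.upperCentralSeries_one] at this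
    exact this hxc
  -- commutators with `W` lie in `Zc`
  have hWcomm : ∀ w ∈ W, ∀ r : R, ⁅w, r⁆ ∈ Zc := by
    intro w hw r
    apply Subgroup.subset_closure
    refine ⟨hZ2 w r (hW w hw).1, ?_⟩
    have hmem : ⁅w, r⁆ ∈ W := by
      have e : ⁅w, r⁆ = w * (r * w⁻¹ * r⁻¹) := by
        simp [commutatorElement_def, mul_assoc]
      rw [e]
      exact W.mul_mem hw (hWn.conj_mem _ (W.inv_mem hw) r)
    exact (hW _ hmem).2
  -- `Zc ≠ E`
  have hZcneE : Zc ≠ E := by
    intro h
    apply hr
    intro X hXc hXe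
    have hXE : X ≤ E := by
      intro x hx
      refine mem_of_comm_of_max p E hE hEmax x (fun a ha => ?_) (hXe x hx)
      exact hZcc a (h ▸ ha) x
    exact (Subgroup.card_le_of_le hXE).trans hE2.le
  -- `Zc ≠ ⊥`
  have hZcne : Zc ≠ ⊥ := by
    have hRnt : Nontrivial R := by
      rw [← Finite.one_lt_card_iff_nontrivial]
      have h1 := Subgroup.card_le_card_group E
      have h2 : 1 < p ^ 2 := Nat.one_lt_pow (by norm_num) hpr.one_lt
      omega
    have hcnt : Nontrivial (Subgroup.center R) := hR.center_nontrivial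
    have hcp : IsPGroup p (Subgroup.center R) := hR.to_subgroup _
    obtain ⟨k, hk⟩ := hcp.exists_card_eq
    have hk0 : k ≠ 0 := by
      rintro rfl
      rw [pow_zero] at hk
      have := Finite.one_lt_card_iff_nontrivial.mpr hcnt
      omega
    have hdvd : p ∣ Nat.card (Subgroup.center R) := by
      rw [hk]; exact dvd_pow_self p hk0
    obtain ⟨x, hx⟩ := exists_prime_orderOf_dvd_card' p hdvd
    intro hbot
    have hxZ : (x : R) ∈ Zc := by
      apply Subgroup.subset_closure
      refine ⟨x.2, ?_⟩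
      have := pow_orderOf_eq_one x
      rw [hx] at this
      exact congrArg Subtype.val this
    rw [hbot, Subgroup.mem_bot] at hxZ
    have hx1 : x = 1 := Subtype.ext hxZ
    rw [hx1, orderOf_one] at hx
    exact hpr.one_lt.ne hx
  -- `card Zc = p`
  have hZccard : Nat.card Zc = p := by
    have hdvd : Nat.card Zc ∣ p ^ 2 := hE2 ▸ Subgroup.card_dvd_of_le hZcE
    obtain ⟨j, hj2, hj⟩ := (Nat.dvd_prime_pow hpr).mp hdvd
    have hj0 : j ≠ 0 := by
      rintro rfl
      rw [pow_zero] at hj
      exact hZcne (Subgroup.eq_bot_of_card_eq Zc hj)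
    have hj2' : j ≠ 2 := by
      rintro rfl
      exact hZcneE (Subgroup.eq_of_le_of_card_ge hZcE (by rw [hj, hE2]))
    have hj1 : j = 1 := by omega
    rw [hj, hj1, pow_one]
  -- `E ⊄ W`
  have hEW : ¬ E ≤ W := by
    intro hEW
    have hEn : E.Normal := by
      refine ⟨fun e he r => ?_⟩
      have h1 : ⁅e, r⁆ ∈ Zc := hWcomm e (hEW he) r
      have e1 : r * e * r⁻¹ = ⁅e, r⁆⁻¹ * e := by
        simp only [commutatorElement_def]; group
      rw [e1]
      exact E.mul_mem (hZcE (Zc.inv_mem h1)) he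
    apply hr
    intro X hXc hXe
    refine card_le_of_max_normal_elementary hp hR E hEc hE.2 ?_ hE2.le X ?_ hXe
    · intro B _ hBc hBe hEB
      exact hEmax B ⟨isMulCommutative_iff.mpr (fun a b => Subtype.ext (hBc a a.2 b b.2)), hBe⟩ hEB
    · intro a ha b hb
      exact congrArg Subtype.val (isMulCommutative_iff.mp hXc ⟨a, ha⟩ ⟨b, hb⟩)
  -- an element `x ∈ E ∖ Zc`, and `E = Zc ⊔ ⟨x⟩`
  have hEZc : ¬ E ≤ Zc := fun h => hZcneE (le_antisymm hZcE h)
  obtain ⟨x, hxE, hxZ⟩ := SetLike.not_le_iff_exists.mp hEZc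
  have hEeq : Zc ⊔ Subgroup.zpowers x = E := by
    apply Subgroup.eq_of_le_of_card_ge (sup_le hZcE (Subgroup.zpowers_le.mpr hxE))
    rw [card_sup_zpowers hxZ (hE.2 x hxE), hZccard, hE2, sq]
  -- `card W ≤ p ^ 2`
  have hWle : Nat.card W ≤ p ^ 2 := by
    let f : W →* R :=
      { toFun := fun w => ⁅(w : R), x⁆
        map_one' := by simp
        map_mul' := by
          intro u v
          have e1 : ⁅(u : R) * (v : R), x⁆ = (u : R) * ⁅(v : R), x⁆ * (u : R)⁻¹ * ⁅(u : R), x⁆ := by
            simp only [commutatorElement_def]; group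
          show ⁅(u : R) * (v : R), x⁆ = ⁅(u : R), x⁆ * ⁅(v : R), x⁆
          have hv := hZcc _ (hWcomm v v.2 x)
          rw [e1, ← hv (u : R), mul_inv_cancel_right, hv] }
    have hrange : f.range ≤ Zc := by
      rintro _ ⟨w, rfl⟩
      exact hWcomm w w.2 x
    have hrc : Nat.card f.range ≤ p := hZccard ▸ Subgroup.card_le_of_le hrange
    have hker : f.ker.map W.subtype ≤ W ⊓ E := by
      rintro _ ⟨w, hw, rfl⟩
      refine ⟨w.2, ?_⟩
      have hw1 : ⁅(w : R), x⁆ = 1 := hw
      rw [commutatorElement_eq_one_iff_mul_comm] at hw1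
      refine mem_of_comm_of_max p E hE hEmax w ?_ (hW w w.2).2
      have hle : Zc ⊔ Subgroup.zpowers x ≤ Subgroup.centralizer ({(w : R)} : Set R) := by
        apply sup_le
        · intro z hz
          refine Subgroup.mem_centralizer_iff.mpr (fun y hy => ?_)
          rw [Set.mem_singleton_iff] at hy; subst hy
          exact (hZcc z hz _).symm
        · rw [Subgroup.zpowers_le]
          refine Subgroup.mem_centralizer_iff.mpr (fun y hy => ?_)
          rw [Set.mem_singleton_iff] at hy; subst hy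
          exact hw1
      intro a ha
      rw [← hEeq] at ha
      exact (Subgroup.mem_centralizer_iff.mp (hle ha) (w : R) rfl).symm
    have hWE : Nat.card ↥(W ⊓ E) ≤ p := by
      have hdvd : Nat.card ↥(W ⊓ E) ∣ p ^ 2 := hE2 ▸ Subgroup.card_dvd_of_le inf_le_right
      obtain ⟨j, hj2, hj⟩ := (Nat.dvd_prime_pow hpr).mp hdvd
      have hj2' : j ≠ 2 := by
        rintro rfl
        apply hEW
        have : W ⊓ E = E := Subgroup.eq_of_le_of_card_ge inf_le_right (by rw [hj, hE2])
        rw [← this]; exact inf_le_left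
      rw [hj]
      calc p ^ j ≤ p ^ 1 := Nat.pow_le_pow_right hpr.pos (by omega)
        _ = p := pow_one p
    have hcardW : Nat.card W = Nat.card f.ker * Nat.card f.range := by
      rw [← Subgroup.index_ker, Subgroup.card_mul_index]
    have hkercard : Nat.card f.ker = Nat.card (f.ker.map W.subtype) :=
      (Subgroup.card_map_of_injective W.subtype_injective).symm
    rw [hcardW, sq]
    exact Nat.mul_le_mul (hkercard ▸ (Subgroup.card_le_of_le hker).trans hWE) hrc
  -- `card W ≥ p ^ 2`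
  have hWge : p ^ 2 ≤ Nat.card W := by
    obtain ⟨A₀, ⟨hA₀n, hA₀c, hA₀e⟩, -, hA₀max⟩ := exists_maximal_subgroup
      (fun A : Subgroup R => A.Normal ∧ (∀ a ∈ A, ∀ b ∈ A, a * b = b * a) ∧ ∀ a ∈ A, a ^ p = 1) ⊥
      ⟨inferInstance, by simp, by simp⟩
    have hcard : ¬ Nat.card A₀ ≤ p ^ 2 := by
      intro hcard
      apply hr
      intro X hXc hXe
      refine card_le_of_max_normal_elementary hp hR A₀ hA₀c hA₀e ?_ hcard X ?_ hXe
      · intro B hBn hBc hBe hAB
        exact hA₀max B ⟨hBn, hBc, hBe⟩ hAB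
      · intro a ha b hb
        exact congrArg Subtype.val (isMulCommutative_iff.mp hXc ⟨a, ha⟩ ⟨b, hb⟩)
    have hA₀Z : ¬ A₀ ≤ Zc := by
      intro h
      apply hcard
      have := Subgroup.card_le_of_le h
      rw [hZccard] at this
      calc Nat.card A₀ ≤ p := this
        _ = p ^ 1 := (pow_one p).symm
        _ ≤ p ^ 2 := Nat.pow_le_pow_right hpr.pos (by norm_num)
    obtain ⟨b, hbA, hbZ, hbt⟩ := exists_commutator_mem hnil (le_top : A₀ ≤ ⊤)
      (by rw [Subgroup.normalizer_eq_top]) hA₀Z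
    have hbW : b ∈ W := by
      apply Subgroup.subset_closure
      refine ⟨?_, hA₀e b hbA⟩
      rw [Subgroup.mem_upperCentralSeries_succ_iff]
      intro y
      rw [Subgroup.upperCentralSeries_one]
      exact (hZc _ (hbt y (Subgroup.mem_top y))).1
    have hle : Zc ⊔ Subgroup.zpowers b ≤ W := sup_le hZcW (Subgroup.zpowers_le.mpr hbW)
    have := Subgroup.card_le_of_le hle
    rwa [card_sup_zpowers hbZ (hA₀e b hbA), hZccard, ← sq] at this
  have hWcard : Nat.card W = p ^ 2 := le_antisymm hWle hWge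
  have hWcommutative : IsMulCommutative W := IsPGroup.isMulCommutative_of_card_eq_prime_sq hWcard
  -- an element `w₂ ∈ W ∖ Zc` and `W = Zc ⊔ ⟨w₂⟩`
  have hWZc : ¬ W ≤ Zc := by
    intro h
    have := Subgroup.card_le_of_le h
    rw [hWcard, hZccard] at this
    have h2 : p < p ^ 2 := by
      calc p = p ^ 1 := (pow_one p).symm
        _ < p ^ 2 := Nat.pow_lt_pow_right hpr.one_lt (by norm_num)
    omega
  obtain ⟨w₂, hw₂W, hw₂Z⟩ := SetLike.not_le_iff_exists.mp hWZc
  have hWeq : Zc ⊔ Subgroup.zpowers w₂ = W := by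
    apply Subgroup.eq_of_le_of_card_ge (sup_le hZcW (Subgroup.zpowers_le.mpr hw₂W))
    rw [card_sup_zpowers hw₂Z (hW w₂ hw₂W).2, hZccard, hWcard, sq]
  -- the centralizer of `W` is the centralizer of `w₂`
  have hTmem : ∀ r : R, r ∈ Subgroup.centralizer (W : Set R) ↔ w₂ * r = r * w₂ := by
    intro r
    constructor
    · intro h
      exact Subgroup.mem_centralizer_iff.mp h w₂ hw₂W
    · intro h
      have hle : Zc ⊔ Subgroup.zpowers w₂ ≤ Subgroup.centralizer ({r} : Set R) := by
        apply sup_le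
        · intro z hz
          refine Subgroup.mem_centralizer_iff.mpr (fun y hy => ?_)
          rw [Set.mem_singleton_iff] at hy; subst hy
          exact (hZcc z hz _).symm
        · rw [Subgroup.zpowers_le]
          refine Subgroup.mem_centralizer_iff.mpr (fun y hy => ?_)
          rw [Set.mem_singleton_iff] at hy; subst hy
          exact h.symm
      refine Subgroup.mem_centralizer_iff.mpr (fun a ha => ?_)
      rw [← hWeq] at ha
      exact (Subgroup.mem_centralizer_iff.mp (hle ha) r rfl).symm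
  refine ⟨?_, hZccard, ⟨⟨hWcommutative, fun w hw => (hW w hw).2⟩, hWcard⟩, ?_, ?_⟩
  · -- `E ⊄ C(W)`
    intro hET
    apply hEW
    have hWE : W ≤ E := by
      intro w hw
      refine mem_of_comm_of_max p E hE hEmax w (fun a ha => ?_) (hW w hw).2
      exact (Subgroup.mem_centralizer_iff.mp (hET ha) w hw).symm
    have : W = E := Subgroup.eq_of_le_of_card_ge hWE (by rw [hWcard, hE2])
    rw [this]
  · exact Subgroup.characteristic_centralizer
  · -- the index
    let g : R →* R :=
      { toFun := fun r => ⁅w₂, r⁆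
        map_one' := by simp
        map_mul' := by
          intro u v
          have e1 : ⁅w₂, u * v⁆ = ⁅w₂, u⁆ * (u * ⁅w₂, v⁆ * u⁻¹) := by
            simp only [commutatorElement_def]; group
          show ⁅w₂, u * v⁆ = ⁅w₂, u⁆ * ⁅w₂, v⁆
          have hv := hZcc _ (hWcomm w₂ hw₂W v)
          rw [e1, ← hv u, mul_inv_cancel_right] }
    have hker : g.ker = Subgroup.centralizer (W : Set R) := by
      ext r
      rw [hTmem, MonoidHom.mem_ker]
      show ⁅w₂, r⁆ = 1 ↔ _
      rw [commutatorElement_eq_one_iff_mul_comm]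
    have hrange : g.range ≤ Zc := by
      rintro _ ⟨r, rfl⟩
      exact hWcomm w₂ hw₂W r
    rw [← hker, Subgroup.index_ker]
    have hdvd : Nat.card g.range ∣ p := hZccard ▸ Subgroup.card_dvd_of_le hrange
    rcases (Nat.dvd_prime hpr).mp hdvd with h1 | h1
    · exfalso
      apply hw₂Z
      have hbot : g.range = ⊥ := Subgroup.eq_bot_of_card_eq _ h1
      apply Subgroup.subset_closure
      refine ⟨?_, (hW w₂ hw₂W).2⟩
      rw [Subgroup.mem_center_iff]
      intro r
      have : g r ∈ g.range := ⟨r, rfl⟩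
      rw [hbot, Subgroup.mem_bot] at this
      have h2 : ⁅w₂, r⁆ = 1 := this
      rw [commutatorElement_eq_one_iff_mul_comm] at h2
      exact h2.symm
    · exact h1

end Cfsg.Agent.S1453
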