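import Cfsg.Statements.S0790
import Cfsg.Agent.Lib.Helper44.NegPairs

set_option autoImplicit false
open Cfsg

namespace Cfsg.Agent.S0790

open Cfsg.Agent.Lib.Helper44.NegPairs

/-- −1 ∈ Ω⁺_2m(q) iff q^m ≡ 1 (mod 4), for q odd and m ≥ 1 (so that in the other case SO⁺_2m(q) = 2 × Ω⁺_2m(q)). -/
theorem result {F : Type*} [Field F] [Fintype F] {q : ℕ} (hF : Fintype.card F = q) (hodd : Odd q) (m : ℕ) (hm : 1 ≤ m) : (∃ g : ↥(Cfsg.isometryGroup F (Cfsg.quadFormPlus m F)), g ∈ Cfsg.Omega F (Cfsg.quadFormPlus m F) ∧ ((g : Matrix.GeneralLinearGroup (Fin m ⊕ Fin m) F) : Matrix (Fin m ⊕ Fin m) (Fin m ⊕ Fin m) F) = -1) ↔ q ^ m % 4 = 1 := by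
  subst hF
  have hd : (-1 : Matrix (Fin m ⊕ Fin m) (Fin m ⊕ Fin m) F)
      = Matrix.diagonal (fun k : Fin m ⊕ Fin m =>
          if (Sum.elim (fun j : Fin m => (j : ℕ)) (fun j : Fin m => (j : ℕ)) k) < m
            then (-1 : F) else 1) := by
    have : (fun k : Fin m ⊕ Fin m =>
          if (Sum.elim (fun j : Fin m => (j : ℕ)) (fun j : Fin m => (j : ℕ)) k) < m
            then (-1 : F) else 1) = fun _ => -1 := by
      funext k
      rcases k with j | j <;> simp
    rw [this, ← Matrix.diagonal_one, ← Matrix.diagonal_neg]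
  rw [hd]
  exact exists_negPairs_iff (plusQ m F) id hodd (sep_plusQ m)
    (by simp only [Fintype.card_sum, Fintype.card_fin]; omega) Function.injective_id (plus_H1 m)
    m le_rfl _ (fun c => rfl) (fun k hk => absurd ⟨k, rfl⟩ hk)

end Cfsg.Agent.S0790
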