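import Cfsg.Statements.S0292
import Cfsg.Agent.Lib.Helper45.OmegaCenter
import Cfsg.Agent.Lib.Helper45.OrthCard
import Cfsg.Agent.Lib.Helper14.OrthIndex

set_option autoImplicit false
open Cfsg

namespace Cfsg.Agent.S0292

/-- 2 |PΩ_{2m+1}(q)| = q^(m^2) prod_{i=1}^{m} (q^(2i) - 1), for q odd and m at least 3 (type B_m). -/
theorem result {F : Type*} [Field F] [Fintype F] {q : ℕ} (hF : Fintype.card F = q) (hodd : Odd q) (m : ℕ) (hm : 3 ≤ m) : 2 * Nat.card (Cfsg.POmega F (Cfsg.quadFormOdd m F)) = q ^ (m ^ 2) * ∏ i ∈ Finset.range m, (q ^ (2 * (i + 1)) - 1) := by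
  have h2 : (2 : F) ≠ 0 :=
    Cfsg.Agent.Lib.Helper44.FinSq.two_ne_zero_of_odd_card (hF ▸ hodd)
  have hS := Cfsg.Agent.Lib.Helper44.NegPairs.sep_oddQ h2 m
  have hcardι : Fintype.card (Unit ⊕ (Fin m ⊕ Fin m)) = 2 * m + 1 := by
    simp only [Fintype.card_sum, Fintype.card_fin, Fintype.card_unit]; omega
  have hidx : (Cfsg.Omega F (Cfsg.quadFormOdd m F)).index = 4 :=
    Cfsg.Agent.Lib.Helper14.OrthIndex.index_omega h2
      (Cfsg.Agent.Lib.Helper44.NegPairs.oddQ m F) hS (by rw [hcardι]; omega)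
  have hc : Nat.card ↥(Subgroup.center ↥(Cfsg.Omega F (Cfsg.quadFormOdd m F))) = 1 := by
    apply Cfsg.Agent.Lib.Helper45.OmegaCenter.card_center_odd_of_not h2
      (Cfsg.Agent.Lib.Helper44.NegPairs.oddQ m F) hS (by rw [hcardι]; omega)
    rintro ⟨g, hg, hgm⟩
    have hdet := Cfsg.Agent.Lib.Helper45.OmegaCenter.det_of_mem_omega _ g hg
    rw [hgm, Matrix.det_neg, Matrix.det_one, mul_one, hcardι, pow_succ, pow_mul] at hdet
    apply h2
    have h3 : ((-1 : F) ^ 2) ^ m = 1 := by norm_num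
    rw [h3] at hdet
    linear_combination -hdet
  have hcard := Cfsg.Agent.Lib.Helper45.OmegaCenter.card_center_mul (F := F)
    (Cfsg.quadFormOdd m F)
  rw [hc, hidx, Cfsg.Agent.Lib.Helper45.OrthCard.card_odd hF hodd m] at hcard
  have h4 : 2 * (q ^ (m ^ 2) * ∏ i ∈ Finset.range m, (q ^ (2 * (i + 1)) - 1))
      = 2 * (2 * Nat.card (Cfsg.POmega F (Cfsg.quadFormOdd m F))) := by
    rw [← mul_assoc 2 (q ^ (m ^ 2)), ← hcard]; ring
  exact (Nat.eq_of_mul_eq_mul_left (by norm_num) h4).symm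

end Cfsg.Agent.S0292
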