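import Cfsg.Statements.S1013
import Mathlib
-- import your own Cfsg.Agent.* helpers here

set_option autoImplicit false
open Cfsg

namespace Cfsg.Agent.S1013

open MulAction

/-- a nontrivial normal subgroup of a faithful transitive group of prime degree is transitive -/
theorem trans_of_normal {α : Type*} {H : Type*} [Group H] [MulAction H α] [FaithfulSMul H α]
    [IsPretransitive H α] (hp : (Nat.card α).Prime)
    (N : Subgroup H) [N.Normal] (hN : N ≠ ⊥) : IsPretransitive N α := by
  have : IsPreprimitive H α := IsPreprimitive.of_prime_card hp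
  apply IsQuasiPreprimitive.isPretransitive_of_normal
  intro hfix
  apply hN
  rw [Subgroup.eq_bot_iff_forall]
  intro n hn
  apply FaithfulSMul.eq_of_smul_eq_smul (α := α)
  intro a
  have : a ∈ fixedPoints N α := by rw [hfix]; trivial
  rw [one_smul]
  exact this ⟨n, hn⟩

theorem dvd_card_of_trans {α : Type*} {H : Type*} [Group H] [MulAction H α] [Finite H]
    [Nonempty α] [IsPretransitive H α] : Nat.card α ∣ Nat.card H := by
  obtain ⟨a⟩ := ‹Nonempty α›
  rw [← index_stabilizer_of_transitive H a]
  exact Subgroup.index_dvd_card _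

theorem not_sq_dvd {α : Type*} {H : Type*} [Group H] [MulAction H α] [FaithfulSMul H α]
    [Finite H] [Finite α] {p : ℕ} (hp : p.Prime) (hα : Nat.card α = p) :
    ¬ p ^ 2 ∣ Nat.card H := by
  intro h
  have h1 : Nat.card H ∣ Nat.card (Equiv.Perm α) :=
    Subgroup.card_dvd_of_injective (MulAction.toPermHom H α) MulAction.toPerm_injective
  have h2 : Nat.card (Equiv.Perm α) = p.factorial := by
    classical
    have := Fintype.ofFinite α
    rw [Nat.card_eq_fintype_card, Fintype.card_perm, ← Nat.card_eq_fintype_card, hα]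
  rw [h2] at h1
  have h3 : p ^ 2 ∣ p.factorial := h.trans h1
  obtain ⟨q, rfl⟩ : ∃ q, p = q + 1 := ⟨p - 1, by have := hp.pos; omega⟩
  rw [Nat.factorial_succ, pow_two] at h3
  have h4 : (q + 1) ∣ q.factorial := Nat.dvd_of_mul_dvd_mul_left (Nat.succ_pos q) h3
  have := (hp.dvd_factorial).1 h4
  omega

theorem main {α : Type*} {H : Type*} [Group H] [Finite H] [Finite α] [MulAction H α]
    [FaithfulSMul H α] [IsPretransitive H α] {p : ℕ} [Fact p.Prime] (hα : Nat.card α = p)
    (P : Sylow p H) (hn : 1 < Nat.card (Sylow p H))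
    (ht : ((P : Subgroup H).relIndex (Subgroup.normalizer ((P : Subgroup H) : Set H))).Prime)
    (N : Subgroup H) [N.Normal] (hN : N ≠ ⊥) : N = ⊤ := by
  have hp := (Fact.out : p.Prime)
  have hαp : (Nat.card α).Prime := hα ▸ hp
  have : Nonempty α := by
    apply Nat.card_pos_iff.1 (hα ▸ hp.pos) |>.1
  have hsq : ¬ p ^ 2 ∣ Nat.card H := not_sq_dvd (α := α) hp hα
  have := trans_of_normal hαp N hN
  have hpN : p ∣ Nat.card N := hα ▸ dvd_card_of_trans (α := α) (H := N)
  have hidx : ¬ p ∣ N.index := by
    intro h
    apply hsq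
    rw [← Subgroup.card_mul_index N, pow_two]
    exact Nat.mul_dvd_mul hpN h
  obtain ⟨k, hk⟩ := P.2.exists_card_eq
  have hPN : (P : Subgroup H) ≤ N := by
    rw [← Subgroup.relIndex_eq_one]
    have h1 : N.relIndex P ∣ N.index := Subgroup.relIndex_dvd_index_of_normal N P
    have h2 : N.relIndex P ∣ Nat.card (P : Subgroup H) := Subgroup.relIndex_dvd_card N P
    rw [hk] at h2
    obtain ⟨j, hj, hj'⟩ := (Nat.dvd_prime_pow hp).1 h2
    rcases Nat.eq_zero_or_pos j with rfl | hjpos
    · simpa using hj'
    · exfalso; apply hidx; rw [hj'] at h1; exact (dvd_pow_self p hjpos.ne').trans h1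
  have hcardP : Nat.card (P : Subgroup H) = p := by
    have hpH : p ∣ Nat.card H := hα ▸ dvd_card_of_trans (α := α) (H := H)
    have h1 : p ∣ Nat.card (P : Subgroup H) := P.dvd_card_of_dvd_card hpH
    have h2 : Nat.card (P : Subgroup H) ∣ Nat.card H := Subgroup.card_subgroup_dvd_card _
    rw [hk] at h1 h2 ⊢
    have hk1 : k ≠ 0 := by
      rintro rfl
      simp at h1
      exact hp.one_lt.ne' h1
    have hk2 : k < 2 := by
      by_contra hcon
      exact hsq ((pow_dvd_pow p (by omega)).trans h2)
    have : k = 1 := by omega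
    rw [this, pow_one]
  have hfr : Subgroup.normalizer ((P : Subgroup H) : Set H) ⊔ N = ⊤ :=
    Sylow.normalizer_sup_eq_top' P hPN
  have hPNP : (P : Subgroup H) ≤ Subgroup.normalizer ((P : Subgroup H) : Set H) :=
    Subgroup.le_normalizer
  have hmul := Subgroup.relIndex_mul_relIndex (P : Subgroup H)
    (N ⊓ Subgroup.normalizer ((P : Subgroup H) : Set H))
    (Subgroup.normalizer ((P : Subgroup H) : Set H)) (le_inf hPN hPNP) inf_le_right
  rw [← hmul, Nat.prime_mul_iff] at ht
  rcases ht with ⟨-, h1⟩ | ⟨-, h1⟩
  · rw [Subgroup.relIndex_eq_one] at h1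
    rw [← hfr]
    exact (sup_eq_right.2 (h1.trans inf_le_left)).symm
  · exfalso
    rw [Subgroup.relIndex_eq_one] at h1
    -- the Sylow subgroup of N
    set P' : Sylow p N := P.subtype hPN with hP'
    have hP'mem : ∀ x : N, x ∈ (P' : Subgroup N) ↔ (x : H) ∈ (P : Subgroup H) := by
      intro x
      rw [hP', Sylow.coe_subtype, Subgroup.mem_subgroupOf]
    have hnorm : Subgroup.normalizer ((P' : Subgroup N) : Set N) ≤ (P' : Subgroup N) := by
      intro x hx
      rw [hP'mem]
      apply h1
      refine ⟨x.2, ?_⟩
      show (x : H) ∈ Subgroup.normalizer ((P : Subgroup H) : Set H)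
      rw [Subgroup.mem_normalizer_iff]
      rw [Subgroup.mem_normalizer_iff] at hx
      intro h
      constructor
      · intro hh
        have := (hx ⟨h, hPN hh⟩).1 ((hP'mem _).2 hh)
        rw [hP'mem] at this
        simpa using this
      · intro hh
        have hhN : h ∈ N := by
          have h3 : (x : H) * h * (x : H)⁻¹ ∈ N := hPN hh
          have h4 := N.mul_mem (N.mul_mem (N.inv_mem x.2) h3) x.2
          simpa [mul_assoc] using h4
        have := (hx ⟨h, hhN⟩).2 ((hP'mem _).2 (by simpa using hh))
        rw [hP'mem] at this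
        exact this
    have hcardP' : Nat.card (P' : Subgroup N) = p := by
      have h5 : Nat.card (P' : Subgroup N) = Nat.card (P : Subgroup H) := by
        rw [hP', Sylow.coe_subtype]
        exact Nat.card_congr (Subgroup.subgroupOfEquivOfLe hPN).toEquiv
      rw [h5, hcardP]
    have : IsCyclic (P' : Subgroup N) := isCyclic_of_prime_card hcardP'
    have hcent : Subgroup.normalizer ((P' : Subgroup N) : Set N)
        ≤ Subgroup.centralizer ((P' : Subgroup N) : Set N) := by
      refine hnorm.trans ?_
      rw [Subgroup.le_centralizer_iff_isMulCommutative]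
      let _ := IsCyclic.commGroup (α := (P' : Subgroup N))
      exact ⟨⟨mul_comm⟩⟩
    have hcomp := MonoidHom.ker_transferSylow_isComplement' P' hcent
    have hnd := MonoidHom.not_dvd_card_ker_transferSylow P' hcent
    have hKbot : (MonoidHom.transferSylow P' hcent).ker = ⊥ := by
      by_contra hK
      have := trans_of_normal (H := N) hαp _ hK
      apply hnd
      exact hα ▸ dvd_card_of_trans (α := α) (H := (MonoidHom.transferSylow P' hcent).ker)
    rw [hKbot, Subgroup.isComplement'_bot_left] at hcomp
    -- so N = P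
    have hNP : N = (P : Subgroup H) := by
      apply le_antisymm _ hPN
      intro x hx
      have : (⟨x, hx⟩ : N) ∈ (P' : Subgroup N) := by rw [hcomp]; trivial
      exact (hP'mem _).1 this
    have : (P : Subgroup H).Normal := hNP ▸ ‹N.Normal›
    have := Sylow.unique_of_normal P ‹_›
    rw [Nat.card_unique] at hn
    exact lt_irrefl _ hn

/-- Let G be a transitive permutation group of prime degree p having more than one Sylow p-subgroup, and suppose a Sylow p-subgroup P has prime index in its normalizer. Then G is simple. -/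
theorem result {α : Type*} [Fintype α] [DecidableEq α] {p : ℕ} [Fact p.Prime] (hα : Fintype.card α = p) (G : Subgroup (Equiv.Perm α)) [MulAction.IsPretransitive ↥G α] (P : Sylow p ↥G) (hn : 1 < Nat.card (Sylow p ↥G)) (ht : (((P : Subgroup ↥G).subgroupOf (Subgroup.normalizer ((P : Subgroup ↥G) : Set ↥G))).index).Prime) : IsSimpleGroup ↥G := by
  have hα' : Nat.card α = p := by rw [Nat.card_eq_fintype_card, hα]
  have : Nontrivial ↥G := by
    by_contra hnt
    rw [not_nontrivial_iff_subsingleton] at hnt
    have : Subsingleton (Sylow p ↥G) := by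
      constructor
      intro A B
      apply Sylow.ext
      apply Subsingleton.elim
    have := Finite.card_le_one_iff_subsingleton.2 this
    omega
  refine ⟨fun N hN => ?_⟩
  by_cases hb : N = ⊥
  · exact Or.inl hb
  · exact Or.inr (main hα' P hn ht N hb)

end Cfsg.Agent.S1013
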