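-- Statement S4495 (row 4495).
import Cfsg.Statements.S4495
import Cfsg.Agent.Lib.Helper75.SelfCentMain

set_option autoImplicit false
open Cfsg

namespace Cfsg.Agent.S4495

open Cfsg.Agent.Lib.Helper75 in
/-- Let the finite group G contain an element x of prime order p with C_G(x) = ⟨x⟩, and let t be the number of conjugacy classes of elements of order p. If t ≠ p − 1 then the commutator subgroup has index at most (p − 1)/t; if t = p − 1 it has index exactly p. -/
theorem result {G : Type*} [Group G] [Finite G] (p : ℕ) (hp : p.Prime) (x : G) (hx : orderOf x = p) (hC : Subgroup.centralizer ({x} : Set G) = Subgroup.zpowers x) (t : ℕ) (ht : Nat.card {C : ConjClasses G // ∃ g ∈ C.carrier, orderOf g = p} = t) : (t ≠ p - 1 → (commutator G).index * t ≤ p - 1) ∧ (t = p - 1 → (commutator G).index = p) := by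
  have hcount := SelfCentCount.card_classes_mul hp hx hC
  rw [ht] at hcount
  have hp1 : 0 < p - 1 := Nat.sub_pos_of_lt hp.one_lt
  constructor
  · intro hne
    have hN : Nat.card (Subgroup.normalizer (Subgroup.zpowers x : Set G)) ≠ p := by
      intro h
      rw [h] at hcount
      exact hne (Nat.eq_of_mul_eq_mul_right hp.pos hcount)
    have hxD := SelfCentMain.mem_commutator_of_ne hp hx hC hN
    have hdvd := SelfCentMain.index_commutator_mul_dvd hp hx hC hxD
    have h1 : (commutator G).index * t * p ∣ (p - 1) * p := by
      rw [← hcount]
      have : (commutator G).index * t * p = t * ((commutator G).index * p) := by ring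
      rw [this]
      exact Nat.mul_dvd_mul_left t hdvd
    have h2 := Nat.dvd_of_mul_dvd_mul_right hp.pos h1
    exact Nat.le_of_dvd hp1 h2
  · intro heq
    have hN : Nat.card (Subgroup.normalizer (Subgroup.zpowers x : Set G)) = p := by
      rw [heq] at hcount
      exact Nat.eq_of_mul_eq_mul_left hp1 hcount
    exact SelfCentMain.index_commutator_eq hp hx hC hN

end Cfsg.Agent.S4495
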