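import Cfsg.Statements.S0857
-- import your own Cfsg.Agent.* helpers here
import Mathlib
import Cfsg.Agent.Lib.CT.Clifford
import Cfsg.Agent.Lib.CT.NormOne
import Cfsg.Agent.Lib.CT.LinChar
import Cfsg.Agent.Lib.Helper78.CliffordCorr
import Cfsg.Agent.Lib.Helper67.ClassSize
import Cfsg.Agent.Lib.Helper15.CliffTools

set_option autoImplicit false
open Cfsg

namespace Cfsg.Agent.S0857

open scoped ComplexConjugate
open Cfsg.Agent.Lib.CT Cfsg.Agent.Lib.CT.Wedderburn Cfsg.Agent.Lib.CT.Clifford
  Cfsg.Agent.Lib.Helper78.CliffordCorr Cfsg.Agent.Lib.Helper15.CliffTools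

/-- Orthogonality for the characters of a finite abelian group. -/
theorem sum_hom_apply {Q : Type*} [CommGroup Q] [Finite Q] [DecidableEq Q] [Fintype (Q →* ℂˣ)] (q : Q) :
    ∑ lam : Q →* ℂˣ, ((lam q : ℂˣ) : ℂ) = if q = 1 then (Nat.card Q : ℂ) else 0 := by
  classical
  split_ifs with hq
  · rw [hq]
    simp only [map_one, Units.val_one, Finset.sum_const, Finset.card_univ, nsmul_eq_mul, mul_one]
    rw [← Nat.card_eq_fintype_card, CommGroup.card_monoidHom_of_hasEnoughRootsOfUnity Q ℂ]
  · obtain ⟨μ, hμ⟩ := CommGroup.exists_apply_ne_one_of_hasEnoughRootsOfUnity Q ℂ hq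
    have h1 : ∑ lam : Q →* ℂˣ, ((lam q : ℂˣ) : ℂ) =
        ((μ q : ℂˣ) : ℂ) * ∑ lam : Q →* ℂˣ, ((lam q : ℂˣ) : ℂ) := by
      rw [Finset.mul_sum]
      exact (Fintype.sum_equiv (Equiv.mulLeft μ) (fun lam => ((μ q : ℂˣ) : ℂ) * ((lam q : ℂˣ) : ℂ))
        (fun lam => ((lam q : ℂˣ) : ℂ)) (fun lam => by simp [MonoidHom.mul_apply])).symm
    have h2 : ((μ q : ℂˣ) : ℂ) ≠ 1 := fun h => hμ (Units.ext h)
    have h3 : (1 - ((μ q : ℂˣ) : ℂ)) * ∑ lam : Q →* ℂˣ, ((lam q : ℂˣ) : ℂ) = 0 := by
      linear_combination h1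
    rcases mul_eq_zero.mp h3 with h | h
    · exact absurd (sub_eq_zero.mp h).symm h2
    · exact h

/-- Let L < K be normal subgroups of the finite group G with no normal subgroup of G strictly between them and with K / L abelian (the commutator subgroup of K lies in L). Let ϑ be an irreducible character of K invariant under conjugation by G. Then the restriction of ϑ to L is irreducible; or it equals e times an irreducible character of L with e ^ 2 equal to the index of L in K; or it is the sum of a family of pairwise distinct irreducible characters of L indexed by a set whose size is the index of L in K. -/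
theorem result {G : Type*} [Group G] [Fintype G] (K L : Subgroup G) [hK : K.Normal] [L.Normal] (hLK : L < K) (hchief : ∀ M : Subgroup G, M.Normal → L ≤ M → M ≤ K → M = L ∨ M = K) (hab : ⁅K, K⁆ ≤ L) (ϑ : K → ℂ) (hϑ : Cfsg.IsIrrCharacter K ϑ) (hinv : ∀ (g : G) (n : K), ϑ ⟨g * n * g⁻¹, hK.conj_mem (n : G) n.2 g⟩ = ϑ n) : Cfsg.IsIrrCharacter L (fun x : L => ϑ ⟨(x : G), hLK.le x.2⟩) ∨ (∃ (φ : L → ℂ) (e : ℕ), Cfsg.IsIrrCharacter L φ ∧ (fun x : L => ϑ ⟨(x : G), hLK.le x.2⟩) = (e : ℂ) • φ ∧ e ^ 2 = L.relIndex K) ∨ (∃ F : Finset (L → ℂ), (∀ φ ∈ F, Cfsg.IsIrrCharacter L φ) ∧ F.card = L.relIndex K ∧ (fun x : L => ϑ ⟨(x : G), hLK.le x.2⟩) = ∑ φ ∈ F, φ) := by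
  classical
  have hL : L.Normal := inferInstance
  have : Fintype K := Fintype.ofFinite K
  have : Fintype L := Fintype.ofFinite L
  have hfinI := finite_irrCharacter L
  have : Fintype (IrrCharacter L) := Fintype.ofFinite _
  set ϑL : L → ℂ := fun x : L => ϑ ⟨(x : G), hLK.le x.2⟩ with hϑL
  have hϑc : IsCharacter K ϑ := isCharacter_of_irr hϑ
  let L₀ : Subgroup K := L.subgroupOf K
  have hL₀n : L₀.Normal := inferInstance
  have : Fintype L₀ := Fintype.ofFinite L₀
  let e₀ : L₀ ≃* L := Subgroup.subgroupOfEquivOfLe hLK.le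
  have hres₀ : (fun n : L₀ => ϑ n) = fun n : L₀ => ϑL (e₀ n) := by
    funext n
    rfl
  have hϑLc : IsCharacter L ϑL := Ops.isCharacter_comp_hom (Subgroup.inclusion hLK.le) hϑc
  have hcf : IsClassFunction G (extendByZero K ϑ) := by
    intro g h
    by_cases hg : g ∈ K
    · have hg' : h * g * h⁻¹ ∈ K := hK.conj_mem g hg h
      rw [FrobRec.extendByZero_apply_of_mem K ϑ hg', FrobRec.extendByZero_apply_of_mem K ϑ hg]
      exact hinv h ⟨g, hg⟩
    · have hg' : h * g * h⁻¹ ∉ K := by
        intro hc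
        apply hg
        have := hK.conj_mem _ hc h⁻¹
        simpa [mul_assoc] using this
      rw [FrobRec.extendByZero_apply_of_not_mem K ϑ hg',
        FrobRec.extendByZero_apply_of_not_mem K ϑ hg]
  have hresE : (fun n : L => extendByZero K ϑ n) = ϑL := by
    funext n
    exact FrobRec.extendByZero_apply_of_mem K ϑ (hLK.le n.2)
  have hB : ∀ (ψ : L → ℂ) (g : G), classInner ϑL (conjFun L hL ψ g) = classInner ϑL ψ := by
    intro ψ g
    have := classInner_restrict_conjFun L hL hcf ψ g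
    rwa [hresE] at this
  have hC : ∀ (φ ψ : L → ℂ), IsIrrCharacter L φ → IsIrrCharacter L ψ → classInner ϑL φ ≠ 0 →
      classInner ϑL ψ ≠ 0 → ∃ k ∈ K, ψ = conjFun L hL φ k := by
    intro φ ψ hφ hψ h1 h2
    have h1' : classInner (fun n : L₀ => ϑ n) (fun x : L₀ => φ (e₀ x)) ≠ 0 := by
      rw [hres₀, classInner_comp_mulEquiv e₀ ϑL φ]; exact h1
    have h2' : classInner (fun n : L₀ => ϑ n) (fun x : L₀ => ψ (e₀ x)) ≠ 0 := by
      rw [hres₀, classInner_comp_mulEquiv e₀ ϑL ψ]; exact h2
    obtain ⟨k, hk⟩ := exists_conj_of_constituent L₀ hL₀n hϑ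
      (Ops.isIrrCharacter_comp_mulEquiv e₀ hφ) (Ops.isIrrCharacter_comp_mulEquiv e₀ hψ) h1' h2'
    refine ⟨k, k.2, ?_⟩
    funext x
    have h3 := congrFun hk (e₀.symm x)
    simp only [MulEquiv.apply_symm_apply] at h3
    rw [h3, conjFun_apply, conjFun_apply]
    congr 1
  obtain ⟨m, hm, hexp⟩ := NormOne.exists_mult_sum hϑLc
  obtain ⟨φ, hφm⟩ : ∃ φ : IrrCharacter L, m φ ≠ 0 := by
    by_contra hcon
    push Not at hcon
    have h0 : ϑL = 0 := by
      rw [hexp]
      apply Finset.sum_eq_zero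
      intro ψ _
      rw [hcon ψ, Nat.cast_zero, zero_smul]
    have h1 : ϑL 1 = ϑ 1 := rfl
    exact irr_apply_one_ne_zero hϑ (by rw [← h1, h0]; rfl)
  set e := m φ with he
  have hφc : classInner ϑL (φ : L → ℂ) ≠ 0 := by rw [hm φ]; exact_mod_cast hφm
  have hconj : ∀ ψ : IrrCharacter L, m ψ ≠ 0 →
      ∃ k ∈ K, (ψ : L → ℂ) = conjFun L hL (φ : L → ℂ) k := by
    intro ψ hψ
    exact hC φ.1 ψ.1 φ.2 ψ.2 hφc (by rw [hm ψ]; exact_mod_cast hψ)
  have hmult : ∀ ψ : IrrCharacter L, m ψ ≠ 0 → m ψ = e := by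
    intro ψ hψ
    obtain ⟨k, -, hk⟩ := hconj ψ hψ
    have h1 : (m ψ : ℂ) = (m φ : ℂ) := by
      rw [← hm ψ, ← hm φ, hk, hB]
    exact_mod_cast h1
  let O : Finset (IrrCharacter L) := Finset.univ.filter (fun ψ => m ψ ≠ 0)
  have hexpO : ϑL = ∑ ψ ∈ O, (e : ℂ) • (ψ : L → ℂ) := by
    rw [hexp, Finset.sum_filter]
    apply Finset.sum_congr rfl
    intro ψ _
    by_cases hψ : m ψ = 0
    · rw [if_neg (not_not.mpr hψ), hψ, Nat.cast_zero, zero_smul]
    · rw [if_pos hψ, hmult ψ hψ]
  have hnorm : classInner ϑL ϑL = ((O.card * e ^ 2 : ℕ) : ℂ) := by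
    rw [NormOne.classInner_self_eq_sum m hm hexp]
    congr 1
    rw [← Finset.sum_filter_add_sum_filter_not Finset.univ (fun ψ => m ψ ≠ 0)]
    have h1 : ∑ ψ ∈ Finset.univ.filter (fun ψ => m ψ ≠ 0), m ψ * m ψ = O.card * e ^ 2 := by
      rw [Finset.sum_congr rfl (fun ψ hψ => by rw [hmult ψ (Finset.mem_filter.mp hψ).2] :
        ∀ ψ ∈ Finset.univ.filter (fun ψ => m ψ ≠ 0), m ψ * m ψ = e * e)]
      rw [Finset.sum_const, smul_eq_mul, sq]
    have h2 : ∑ ψ ∈ Finset.univ.filter (fun ψ => ¬ m ψ ≠ 0), m ψ * m ψ = 0 := by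
      apply Finset.sum_eq_zero
      intro ψ hψ
      have := not_not.mp (Finset.mem_filter.mp hψ).2
      rw [this, mul_zero]
    rw [h1, h2, add_zero]
  -- the inertia subgroup in K
  let T := inertia L hL (φ : L → ℂ)
  have hφcf : IsClassFunction L (φ : L → ℂ) := char_isClassFunction (isCharacter_of_irr φ.2)
  have hLT : L ≤ T := le_inertia L hL hφcf
  let I : Subgroup G := K ⊓ T
  have hIn : I.Normal := by
    constructor
    intro k hk g
    obtain ⟨hkK, hkT⟩ := hk
    refine ⟨hK.conj_mem k hkK g, ?_⟩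
    change conjFun L hL (φ : L → ℂ) (g * k * g⁻¹) = φ
    have hkT' : conjFun L hL (φ : L → ℂ) k = φ := hkT
    have hφ'irr : IsIrrCharacter L (conjFun L hL (φ : L → ℂ) g) :=
      isIrrCharacter_conjFun L hL φ.2 g
    have hφ'c : classInner ϑL (conjFun L hL (φ : L → ℂ) g) ≠ 0 := by rw [hB]; exact hφc
    obtain ⟨k₀, hk₀K, hk₀⟩ := hC φ.1 _ φ.2 hφ'irr hφc hφ'c
    have h1 : conjFun L hL (conjFun L hL (φ : L → ℂ) g) k = conjFun L hL (φ : L → ℂ) g := by
      rw [hk₀, conjFun_conjFun]
      have h2 : k₀ * k = k * k₀ * (k₀⁻¹ * k⁻¹ * k₀ * k) := by group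
      have hl : k₀⁻¹ * k⁻¹ * k₀ * k ∈ L := hab (by
        have := Subgroup.commutator_mem_commutator (Subgroup.inv_mem K hk₀K)
          (Subgroup.inv_mem K hkK)
        simpa [commutatorElement_def] using this)
      have h3 : conjFun L hL (φ : L → ℂ) (k * k₀ * (k₀⁻¹ * k⁻¹ * k₀ * k)) =
          conjFun L hL (conjFun L hL (conjFun L hL (φ : L → ℂ) k) k₀) (k₀⁻¹ * k⁻¹ * k₀ * k) := by
        rw [conjFun_conjFun, conjFun_conjFun, mul_assoc]
      rw [h2, h3, hkT']
      exact le_inertia L hL (char_isClassFunction (isCharacter_of_irr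
        (isIrrCharacter_conjFun L hL φ.2 k₀))) hl
    rw [← conjFun_conjFun, ← conjFun_conjFun, h1, conjFun_conjFun, mul_inv_cancel, conjFun_one]
  have hI : I = L ∨ I = K := hchief I hIn (le_inf hLK.le hLT) inf_le_left
  -- the subgroup generated by the support of ϑ and L
  let W : Set G := {x | extendByZero K ϑ x ≠ 0}
  have hWK : W ⊆ K := fun x hx => FrobRec.extendByZero_ne_zero_mem K ϑ hx
  have hWconj : ∀ x ∈ W, ∀ g : G, g * x * g⁻¹ ∈ W := by
    intro x hx g
    change extendByZero K ϑ (g * x * g⁻¹) ≠ 0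
    rw [hcf x g]
    exact hx
  have hcl : Subgroup.normalClosure W = Subgroup.closure W := by
    unfold Subgroup.normalClosure
    congr 1
    ext a
    rw [Group.mem_conjugatesOfSet_iff]
    constructor
    · rintro ⟨x, hx, hxa⟩
      obtain ⟨c, hc⟩ := isConj_iff.mp hxa
      rw [← hc]
      exact hWconj x hx c
    · intro ha
      exact ⟨a, ha, IsConj.refl a⟩
  let M : Subgroup G := Subgroup.closure W ⊔ L
  have hMn : M.Normal := by
    have h1 : (Subgroup.closure W).Normal := by
      rw [← hcl]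
      exact Subgroup.normalClosure_normal
    exact Subgroup.sup_normal _ _
  have hMK : M ≤ K := sup_le ((Subgroup.closure_le K).mpr hWK) hLK.le
  have hM : M = L ∨ M = K := hchief M hMn le_sup_right hMK
  set idx := L.relIndex K with hidx
  have hcard : Nat.card L * idx = Nat.card K :=
    Cfsg.Agent.Lib.Helper67.ClassSize.card_eq_card_mul_relIndex hLK.le
  have hLne : (Nat.card L : ℂ) ≠ 0 := Nat.cast_ne_zero.mpr Nat.card_pos.ne'
  have hsumL : ∀ F : K → ℂ, ∑ x : K, (if x ∈ L₀ then F x else 0) =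
      ∑ x : L, F ⟨(x : G), hLK.le x.2⟩ := by
    intro F
    rw [← Finset.sum_filter, Finset.sum_subtype (Finset.univ.filter (· ∈ L₀)) (p := (· ∈ L₀))
      (by simp) F]
    exact Fintype.sum_equiv e₀.toEquiv _ _ (fun x => rfl)
  have hidxpos : 0 < idx := Nat.pos_of_ne_zero (Subgroup.index_ne_zero_of_finite (H := L₀))
  have hidxne : (idx : ℂ) ≠ 0 := Nat.cast_ne_zero.mpr hidxpos.ne'
  rcases hM with hML | hMKeq
  · -- ϑ vanishes off L
    have hvan : ∀ x : K, x ∉ L₀ → ϑ x = 0 := by
      intro x hx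
      by_contra hne
      apply hx
      have h1 : (x : G) ∈ W := by
        change extendByZero K ϑ (x : G) ≠ 0
        rw [FrobRec.extendByZero_apply_coe]
        exact hne
      have h2 : (x : G) ∈ M := Subgroup.mem_sup_left (Subgroup.subset_closure h1)
      rw [hML] at h2
      exact h2
    have hnormL : classInner ϑL ϑL = (idx : ℂ) := by
      have h1 := sum_mul_conj_irr hϑ
      have h2 : ∑ x : K, ϑ x * conj (ϑ x) =
          ∑ x : K, (if x ∈ L₀ then ϑ x * conj (ϑ x) else 0) := by
        apply Finset.sum_congr rfl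
        intro x _
        by_cases hx : x ∈ L₀
        · rw [if_pos hx]
        · rw [if_neg hx, hvan x hx, zero_mul]
      rw [h2, hsumL (fun x => ϑ x * conj (ϑ x))] at h1
      unfold classInner
      rw [h1, ← hcard]
      push_cast
      field_simp
    have hte : O.card * e ^ 2 = idx := by
      have := hnorm.symm.trans hnormL
      exact_mod_cast this
    rcases hI with hIL | hIK
    · right; right
      have hidxle : idx ≤ O.card := by
        have h1 : Nat.card (K ⧸ L₀) = idx := rfl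
        rw [← h1, ← Nat.card_eq_finsetCard O]
        let f : K ⧸ L₀ → O := fun q =>
          ⟨⟨conjFun L hL (φ : L → ℂ) ((q.out : K) : G), isIrrCharacter_conjFun L hL φ.2 _⟩, by
            rw [Finset.mem_filter]
            refine ⟨Finset.mem_univ _, ?_⟩
            have h2 : classInner ϑL (conjFun L hL (φ : L → ℂ) ((q.out : K) : G)) ≠ 0 := by
              rw [hB]; exact hφc
            intro h0
            apply h2
            have h3 := hm ⟨conjFun L hL (φ : L → ℂ) ((q.out : K) : G),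
              isIrrCharacter_conjFun L hL φ.2 _⟩
            rw [h3, h0, Nat.cast_zero]⟩
        apply Nat.card_le_card_of_injective f
        intro q q' hqq
        have h2 : conjFun L hL (φ : L → ℂ) ((q.out : K) : G) =
            conjFun L hL (φ : L → ℂ) ((q'.out : K) : G) :=
          congrArg (fun z : O => ((z : IrrCharacter L) : L → ℂ)) hqq
        have h3 : ((q.out : K) : G) * ((q'.out : K) : G)⁻¹ ∈ T := by
          change conjFun L hL (φ : L → ℂ) (_ * _) = φ
          rw [← conjFun_conjFun, h2, conjFun_conjFun, mul_inv_cancel, conjFun_one]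
        have h4 : ((q.out : K) : G) * ((q'.out : K) : G)⁻¹ ∈ I :=
          ⟨K.mul_mem q.out.2 (K.inv_mem q'.out.2), h3⟩
        rw [hIL] at h4
        rw [← QuotientGroup.out_eq' q, ← QuotientGroup.out_eq' q', QuotientGroup.eq]
        change ((q.out : K) : G)⁻¹ * ((q'.out : K) : G) ∈ L
        have h5 := hL.conj_mem _ (L.inv_mem h4) ((q.out : K) : G)⁻¹
        have h6 : ((q.out : K) : G)⁻¹ * (((q.out : K) : G) * ((q'.out : K) : G)⁻¹)⁻¹ *
            (((q.out : K) : G)⁻¹)⁻¹ = ((q.out : K) : G)⁻¹ * ((q'.out : K) : G) := by group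
        rw [h6] at h5
        exact h5
      have hOpos : 0 < O.card := lt_of_lt_of_le hidxpos hidxle
      have he1 : e = 1 := by
        have h1 : O.card * e ^ 2 ≤ O.card * 1 := by rw [hte, mul_one]; exact hidxle
        have h2 : e ^ 2 ≤ 1 := Nat.le_of_mul_le_mul_left h1 hOpos
        have h3 : e ≠ 0 := hφm
        nlinarith [Nat.pos_of_ne_zero h3]
      refine ⟨O.image (Subtype.val : IrrCharacter L → L → ℂ), ?_, ?_, ?_⟩
      · intro ψ hψ
        obtain ⟨ψ', -, rfl⟩ := Finset.mem_image.mp hψ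
        exact ψ'.2
      · rw [Finset.card_image_of_injective _ Subtype.val_injective, ← hte, he1]
        ring
      · rw [Finset.sum_image (fun a _ b _ h => Subtype.ext h), hexpO, he1]
        simp
    · right; left
      have hO : ∀ ψ ∈ O, ψ = φ := by
        intro ψ hψ
        obtain ⟨k, hkK, hk⟩ := hconj ψ (Finset.mem_filter.mp hψ).2
        have hkT : k ∈ T := by
          have hkI : k ∈ I := by rw [hIK]; exact hkK
          exact hkI.2
        apply Subtype.ext
        rw [hk]
        exact hkT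
      have hOeq : O = {φ} := by
        apply Finset.eq_singleton_iff_unique_mem.mpr
        exact ⟨Finset.mem_filter.mpr ⟨Finset.mem_univ _, hφm⟩, hO⟩
      refine ⟨φ, e, φ.2, ?_, ?_⟩
      · rw [hexpO, hOeq, Finset.sum_singleton]
      · rw [← hte, hOeq, Finset.card_singleton, one_mul]
  · -- the support of ϑ together with L generates K: the restriction is irreducible
    left
    have hcommQ : ∀ a b : K ⧸ L₀, a * b = b * a := by
      intro a b
      induction a using QuotientGroup.induction_on with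
      | _ a =>
      induction b using QuotientGroup.induction_on with
      | _ b =>
      rw [← QuotientGroup.mk_mul, ← QuotientGroup.mk_mul, QuotientGroup.eq]
      change (((a * b)⁻¹ * (b * a) : K) : G) ∈ L
      apply hab
      have h1 := Subgroup.commutator_mem_commutator (Subgroup.inv_mem K b.2)
        (Subgroup.inv_mem K a.2)
      have h2 : (((a * b)⁻¹ * (b * a) : K) : G) =
          ((b : K) : G)⁻¹ * ((a : K) : G)⁻¹ * (((b : K) : G)⁻¹)⁻¹ * (((a : K) : G)⁻¹)⁻¹ := by
        push_cast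
        group
      rw [h2]
      simpa [commutatorElement_def] using h1
    let _ : CommGroup (K ⧸ L₀) := { (inferInstance : Group (K ⧸ L₀)) with mul_comm := hcommQ }
    have : Fintype ((K ⧸ L₀) →* ℂˣ) := Fintype.ofFinite _
    have hcardQ : Nat.card (K ⧸ L₀) = idx := rfl
    let π : K →* K ⧸ L₀ := QuotientGroup.mk' L₀
    let tw : ((K ⧸ L₀) →* ℂˣ) → K → ℂ := fun lam x => ((lam (π x) : ℂˣ) : ℂ) * ϑ x
    have htwirr : ∀ lam, IsIrrCharacter K (tw lam) := by
      intro lam
      exact LinChar.isIrrCharacter_linear_mul (LinChar.isCharacter_of_hom (lam.comp π))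
        (by simp) hϑ
    have hF : ∑ lam : (K ⧸ L₀) →* ℂˣ, classInner (tw lam) ϑ = classInner ϑL ϑL := by
      unfold classInner
      rw [← Finset.mul_sum, Finset.sum_comm]
      have h1 : ∀ x : K, ∑ lam : (K ⧸ L₀) →* ℂˣ, tw lam x * conj (ϑ x) =
          if x ∈ L₀ then (idx : ℂ) * (ϑ x * conj (ϑ x)) else 0 := by
        intro x
        simp only [tw, mul_assoc]
        rw [← Finset.sum_mul, sum_hom_apply (π x)]
        by_cases hx : x ∈ L₀
        · have hπ : π x = 1 := (QuotientGroup.eq_one_iff x).mpr hx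
          rw [if_pos hx, if_pos hπ, hcardQ]
        · have hπ : ¬ π x = 1 := fun h => hx ((QuotientGroup.eq_one_iff x).mp h)
          rw [if_neg hx, if_neg hπ, zero_mul]
      rw [Finset.sum_congr rfl (fun x _ => h1 x),
        hsumL (fun x => (idx : ℂ) * (ϑ x * conj (ϑ x))), ← Finset.mul_sum, ← hcard]
      push_cast
      field_simp
      rfl
    have hterm : ∀ lam : (K ⧸ L₀) →* ℂˣ, classInner (tw lam) ϑ = if lam = 1 then 1 else 0 := by
      intro lam
      have h1 := irr_orthonormal (⟨tw lam, htwirr lam⟩ : IrrCharacter K) ⟨ϑ, hϑ⟩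
      change classInner (tw lam) ϑ = _ at h1
      rw [h1]
      by_cases hlam : lam = 1
      · rw [if_pos hlam, if_pos]
        apply Subtype.ext
        funext x
        simp [tw, hlam]
      · rw [if_neg hlam, if_neg]
        intro heq
        apply hlam
        have heq' : tw lam = ϑ := congrArg Subtype.val heq
        let N' : Subgroup G := ((lam.comp π).ker).map K.subtype
        have hW : W ⊆ N' := by
          intro x hx
          have hxK := hWK hx
          refine ⟨⟨x, hxK⟩, ?_, rfl⟩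
          have h2 := congrFun heq' ⟨x, hxK⟩
          have h3 : ϑ ⟨x, hxK⟩ ≠ 0 := by
            have h3' : extendByZero K ϑ x ≠ 0 := hx
            rwa [FrobRec.extendByZero_apply_of_mem K ϑ hxK] at h3'
          have h4 : ((lam (π ⟨x, hxK⟩) : ℂˣ) : ℂ) = 1 := by
            have h5 : ((lam (π ⟨x, hxK⟩) : ℂˣ) : ℂ) * ϑ ⟨x, hxK⟩ = 1 * ϑ ⟨x, hxK⟩ := by
              rw [one_mul]
              exact h2
            exact mul_right_cancel₀ h3 h5
          exact Units.ext h4
        have hLN : L ≤ N' := by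
          intro x hx
          refine ⟨⟨x, hLK.le hx⟩, ?_, rfl⟩
          have h2 : π ⟨x, hLK.le hx⟩ = 1 := (QuotientGroup.eq_one_iff _).mpr hx
          change lam (π ⟨x, hLK.le hx⟩) = 1
          rw [h2, map_one]
        have hMN : M ≤ N' := sup_le ((Subgroup.closure_le N').mpr hW) hLN
        rw [hMKeq] at hMN
        refine MonoidHom.ext fun q => ?_
        induction q using QuotientGroup.induction_on with
        | _ x =>
        obtain ⟨y, hy, hyx⟩ := hMN x.2
        have hyx' : y = x := Subtype.ext hyx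
        rw [hyx'] at hy
        have hy' : lam (π x) = 1 := hy
        rw [MonoidHom.one_apply]
        exact hy'
    have hone : classInner ϑL ϑL = 1 := by
      rw [← hF, Finset.sum_congr rfl (fun lam _ => hterm lam),
        Finset.sum_ite_eq' Finset.univ (1 : (K ⧸ L₀) →* ℂˣ)]
      simp
    exact NormOne.irr_of_inner_self_eq_one hϑLc hone

end Cfsg.Agent.S0857
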