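import Cfsg.Statements.S0858
-- import your own Cfsg.Agent.* helpers here
import Mathlib
import Cfsg.Agent.S0857
import Cfsg.Agent.S0863
import Cfsg.Agent.Lib.Helper3.MGroup
import Cfsg.Agent.Lib.Helper78.CliffordCorr
import Cfsg.Agent.Lib.CT.Clifford
import Cfsg.Agent.Lib.CT.Ops
import Cfsg.Agent.Lib.CT.Orth

set_option autoImplicit false
open Cfsg

namespace Cfsg.Agent.S0858

open Cfsg.Agent.Lib.CT Cfsg.Agent.Lib.CT.Wedderburn Cfsg.Agent.Lib.CT.Clifford
  Cfsg.Agent.Lib.Helper78.CliffordCorr

universe u

theorem main : ∀ (n : ℕ) (G : Type u) [Group G] [Fintype G] (N : Subgroup G) [N.Normal],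
    Nat.card G ≤ n → Group.IsSolvable (G ⧸ N) →
    (∀ (H K L : Subgroup G), N ≤ L → L < K → K ≤ H → (∀ h ∈ H, ∀ k ∈ K, h * k * h⁻¹ ∈ K) →
      (∀ h ∈ H, ∀ l ∈ L, h * l * h⁻¹ ∈ L) →
      (∀ M : Subgroup G, L ≤ M → M ≤ K → (∀ h ∈ H, ∀ m ∈ M, h * m * h⁻¹ ∈ M) → M = L ∨ M = K) →
      ¬ IsSquare (L.relIndex K)) →
    ∀ (χ : G → ℂ), Cfsg.IsIrrCharacter G χ →
    ∃ (H : Subgroup G) (hNH : N ≤ H) (ψ : H → ℂ), Cfsg.IsIrrCharacter H ψ ∧
      Cfsg.indFun H ψ = χ ∧ Cfsg.IsIrrCharacter N (fun n : N => ψ ⟨(n : G), hNH n.2⟩) := by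
  intro n
  induction n with
  | zero =>
    intro G _ _ N _ hcard
    have := Nat.card_pos (α := G)
    omega
  | succ n ih =>
    intro G _ _ N hN hcard hsolv hchief χ hχ
    classical
    have hχc := isCharacter_of_irr hχ
    have hcf := char_isClassFunction hχc
    have htop : IsIrrCharacter (⊤ : Subgroup G) (fun k : (⊤ : Subgroup G) => χ k) :=
      Ops.isIrrCharacter_comp_mulEquiv Subgroup.topEquiv hχ
    by_cases hirrN : IsIrrCharacter N (fun n : N => χ n)
    · exact ⟨⊤, le_top, fun t => χ t, htop, Cfsg.Agent.Lib.Helper3.MGroup.indFun_top hcf, hirrN⟩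
    · -- minimal K
      let S : Set (Subgroup G) := {K | K.Normal ∧ N ≤ K ∧ IsIrrCharacter K (fun k : K => χ k)}
      have hS : (⊤ : Subgroup G) ∈ S := ⟨inferInstance, le_top, htop⟩
      obtain ⟨K, hKS, hKmin⟩ := WellFounded.has_min
        (measure (fun K : Subgroup G => Nat.card K)).wf S ⟨⊤, hS⟩
      obtain ⟨hKn, hNK, hKirr⟩ := hKS
      have hNltK : N < K := by
        refine lt_of_le_of_ne hNK ?_
        rintro rfl
        exact hirrN hKirr
      let D : Subgroup G := ⁅K, K⁆ ⊔ N
      have hDn : D.Normal := Subgroup.sup_normal _ _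
      have hDK : D ≤ K := sup_le (Subgroup.commutator_le_right K K) hNK
      have hDne : D ≠ K := by
        intro hDK'
        have hNbot : N.map (QuotientGroup.mk' N) = ⊥ := by
          rw [Subgroup.map_eq_bot_iff, QuotientGroup.ker_mk']
        have h1 : ⁅K.map (QuotientGroup.mk' N), K.map (QuotientGroup.mk' N)⁆ =
            K.map (QuotientGroup.mk' N) := by
          rw [← Subgroup.map_commutator]
          conv_rhs => rw [← hDK']
          rw [Subgroup.map_sup, hNbot, sup_bot_eq]
        have h2 : K.map (QuotientGroup.mk' N) = ⊥ := by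
          by_contra hne
          exact (Group.IsSolvable.commutator_lt_of_ne_bot hne).ne h1
        have h3 : K ≤ N := by
          have := (Subgroup.map_eq_bot_iff _).mp h2
          rwa [QuotientGroup.ker_mk'] at this
        exact absurd h3 (not_le_of_gt hNltK)
      let S2 : Set (Subgroup G) := {L | L.Normal ∧ D ≤ L ∧ L < K}
      have hD2 : D ∈ S2 := ⟨hDn, le_rfl, lt_of_le_of_ne hDK hDne⟩
      obtain ⟨L, hLS, hLmax⟩ := WellFounded.has_min
        (measure (fun L : Subgroup G => Nat.card G - Nat.card L)).wf S2 ⟨D, hD2⟩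
      obtain ⟨hLn, hDL, hLK⟩ := hLS
      have hNL : N ≤ L := le_sup_right.trans hDL
      have hab : ⁅K, K⁆ ≤ L := le_sup_left.trans hDL
      have hchief' : ∀ M : Subgroup G, M.Normal → L ≤ M → M ≤ K → M = L ∨ M = K := by
        intro M hMn hLM hMK
        by_cases hMK' : M = K
        · exact Or.inr hMK'
        · left
          have hM2 : M ∈ S2 := ⟨hMn, hDL.trans hLM, lt_of_le_of_ne hMK hMK'⟩
          have h1 := hLmax M hM2
          have h2 : Nat.card M ≤ Nat.card L := by
            have h3 : Nat.card M ≤ Nat.card G := Subgroup.card_le_card_group M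
            have h4 : Nat.card L ≤ Nat.card G := Subgroup.card_le_card_group L
            by_contra hlt
            push Not at hlt
            apply h1
            show Nat.card G - Nat.card M < Nat.card G - Nat.card L
            omega
          exact (Subgroup.eq_of_le_of_card_ge hLM h2).symm
      have := hKn
      have := hLn
      have hinv : ∀ (g : G) (k : K),
          (fun k : K => χ k) ⟨g * k * g⁻¹, hKn.conj_mem (k : G) k.2 g⟩ = (fun k : K => χ k) k :=
        fun g k => hcf k g
      rcases Cfsg.Agent.S0857.result K L hLK hchief' hab (fun k : K => χ k) hKirr hinv with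
        h | ⟨φ, e, hφ, hres, he⟩ | ⟨F, hF, hFcard, hres⟩
      · exfalso
        have hLS : L ∈ S := ⟨hLn, hNL, h⟩
        have h1 := hKmin L hLS
        have h2 : Nat.card K ≤ Nat.card L := by
          by_contra hlt
          push Not at hlt
          exact h1 hlt
        exact hLK.ne (Subgroup.eq_of_le_of_card_ge hLK.le h2)
      · exfalso
        exact hchief ⊤ K L hNL hLK le_top (fun h _ k hk => hKn.conj_mem k hk h)
          (fun h _ l hl => hLn.conj_mem l hl h)
          (fun M hLM hMK hM => hchief' M ⟨fun m hm g => hM g (Subgroup.mem_top g) m hm⟩ hLM hMK)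
          ⟨e, by rw [← he, sq]⟩
      · have hidx : 2 ≤ L.relIndex K := by
          have h0 : L.relIndex K ≠ 0 := Subgroup.index_ne_zero_of_finite
          have h1 : L.relIndex K ≠ 1 := fun h => (not_le_of_gt hLK) (Subgroup.relIndex_eq_one.mp h)
          omega
        obtain ⟨φ, hφF, φ', hφ'F, hne⟩ := Finset.one_lt_card.mp (by rw [hFcard]; exact hidx)
        have : Fintype L := Fintype.ofFinite L
        have hresL : (fun x : L => χ x) = ∑ φ ∈ F, φ := hres
        have hcon : ∀ ψ ∈ F, classInner (fun x : L => χ x) ψ ≠ 0 := by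
          intro ψ hψ
          rw [hresL, Orth.classInner_sum_left, Finset.sum_eq_single_of_mem ψ hψ]
          · have := irr_orthonormal (⟨ψ, hF ψ hψ⟩ : IrrCharacter L) ⟨ψ, hF ψ hψ⟩
            rw [if_pos rfl] at this
            change classInner ψ ψ = 1 at this
            rw [this]
            exact one_ne_zero
          · intro ψ' hψ' hne'
            have := irr_orthonormal (⟨ψ', hF ψ' hψ'⟩ : IrrCharacter L) ⟨ψ, hF ψ hψ⟩
            rw [if_neg (fun h => hne' (congrArg Subtype.val h))] at this
            exact this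
        let T := inertia L hLn φ
        have hφcf : IsClassFunction L φ := char_isClassFunction (isCharacter_of_irr (hF φ hφF))
        have hLT : L ≤ T := le_inertia L hLn hφcf
        have hTne : T ≠ ⊤ := by
          intro hT
          obtain ⟨g, hg⟩ := exists_conj_of_constituent L hLn hχ (hF φ hφF) (hF φ' hφ'F)
            (hcon φ hφF) (hcon φ' hφ'F)
          have hgT : g ∈ T := by rw [hT]; exact Subgroup.mem_top g
          have h1 : conjFun L hLn φ g = φ := hgT
          exact hne (by rw [hg, h1])
        have hTcard : Nat.card T ≤ n := by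
          have h1 : Nat.card T ≤ Nat.card G := Subgroup.card_le_card_group T
          have h2 : Nat.card T ≠ Nat.card G := fun h => hTne (Subgroup.eq_top_of_card_eq T h)
          omega
        have : Fintype T := Fintype.ofFinite T
        obtain ⟨ψ, e, hψ, hind, -⟩ := clifford_corr L hLn φ (hF φ hφF) T (mem_inertia L hLn φ) hLT
          χ hχ (hcon φ hφF)
        have hNT : N ≤ T := hNL.trans hLT
        have hchiefT : ∀ (H K' L' : Subgroup T), N.subgroupOf T ≤ L' → L' < K' → K' ≤ H →
            (∀ h ∈ H, ∀ k ∈ K', h * k * h⁻¹ ∈ K') → (∀ h ∈ H, ∀ l ∈ L', h * l * h⁻¹ ∈ L') →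
            (∀ M : Subgroup T, L' ≤ M → M ≤ K' → (∀ h ∈ H, ∀ m ∈ M, h * m * h⁻¹ ∈ M) →
              M = L' ∨ M = K') → ¬ IsSquare (L'.relIndex K') := by
          intro H K' L' hNL' hLK' hKH hKn' hLn' hch
          have hsq := hchief (H.map T.subtype) (K'.map T.subtype) (L'.map T.subtype) ?_ ?_ ?_ ?_
            ?_ ?_
          · rwa [Subgroup.relIndex_map_map_of_injective _ _ T.subtype_injective] at hsq
          · intro x hx
            exact ⟨⟨x, hNT hx⟩, hNL' (show (⟨x, hNT hx⟩ : T) ∈ N.subgroupOf T from hx), rfl⟩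
          · exact (Subgroup.map_lt_map_iff_of_injective T.subtype_injective).mpr hLK'
          · exact Subgroup.map_mono hKH
          · rintro _ ⟨h, hh, rfl⟩ _ ⟨k, hk, rfl⟩
            exact ⟨h * k * h⁻¹, hKn' h hh k hk, by simp⟩
          · rintro _ ⟨h, hh, rfl⟩ _ ⟨k, hk, rfl⟩
            exact ⟨h * k * h⁻¹, hLn' h hh k hk, by simp⟩
          · intro M hLM hMK hMinv
            have hMT : M ≤ T := hMK.trans (Subgroup.map_subtype_le K')
            have hch' : M.subgroupOf T = L' ∨ M.subgroupOf T = K' := by
              apply hch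
              · intro x hx
                exact hLM ⟨x, hx, rfl⟩
              · intro x hx
                obtain ⟨y, hy, hyx⟩ := hMK hx
                have : y = x := Subtype.ext hyx
                exact this ▸ hy
              · intro h hh m hm
                exact hMinv h ⟨h, hh, rfl⟩ m hm
            rcases hch' with h | h
            · left
              rw [← h, Subgroup.map_subgroupOf_eq_of_le hMT]
            · right
              rw [← h, Subgroup.map_subgroupOf_eq_of_le hMT]
        obtain ⟨H', hNH', η, hη, hηind, hηN⟩ := ih T (N.subgroupOf T) hTcard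
          (Cfsg.Agent.S0863.solvable_subgroupOf N T hsolv) hchiefT ψ hψ
        have hNH : N ≤ H'.map T.subtype := by
          intro x hx
          exact ⟨⟨x, hNT hx⟩, hNH' (show (⟨x, hNT hx⟩ : T) ∈ N.subgroupOf T from hx), rfl⟩
        refine ⟨H'.map T.subtype, hNH,
          fun t => η ((H'.equivMapOfInjective T.subtype T.subtype_injective).symm t), ?_, ?_, ?_⟩
        · exact Ops.isIrrCharacter_comp_mulEquiv _ hη
        · rw [← Cfsg.Agent.Lib.Helper3.MGroup.indFun_trans T H' η, hηind, hind]
        · have h1 : (fun n : N => η ((H'.equivMapOfInjective T.subtype T.subtype_injective).symm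
              ⟨(n : G), hNH n.2⟩)) = fun n : N => (fun n' : N.subgroupOf T => η ⟨n', hNH' n'.2⟩)
                ((Subgroup.subgroupOfEquivOfLe hNT).symm n) := by
            funext n
            congr 1
            rw [MulEquiv.symm_apply_eq]
            exact Subtype.ext rfl
          rw [h1]
          exact Ops.isIrrCharacter_comp_mulEquiv (Subgroup.subgroupOfEquivOfLe hNT).symm hηN

/-- Let N be a normal subgroup of the finite group G with G / N solvable, and suppose that for every subgroup H containing N and all subgroups L < K between N and H that are normal in H with no subgroup normal in H strictly between them, the index of L in K is not a perfect square. Then every irreducible character χ of G is induced from an irreducible character ψ of some subgroup H containing N such that the restriction of ψ to N is irreducible. -/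
theorem result {G : Type*} [Group G] [Fintype G] (N : Subgroup G) [N.Normal] (hsolv : Group.IsSolvable (G ⧸ N)) (hchief : ∀ (H K L : Subgroup G), N ≤ L → L < K → K ≤ H → (∀ h ∈ H, ∀ k ∈ K, h * k * h⁻¹ ∈ K) → (∀ h ∈ H, ∀ l ∈ L, h * l * h⁻¹ ∈ L) → (∀ M : Subgroup G, L ≤ M → M ≤ K → (∀ h ∈ H, ∀ m ∈ M, h * m * h⁻¹ ∈ M) → M = L ∨ M = K) → ¬ IsSquare (L.relIndex K)) (χ : G → ℂ) (hχ : Cfsg.IsIrrCharacter G χ) : ∃ (H : Subgroup G) (hNH : N ≤ H) (ψ : H → ℂ), Cfsg.IsIrrCharacter H ψ ∧ Cfsg.indFun H ψ = χ ∧ Cfsg.IsIrrCharacter N (fun n : N => ψ ⟨(n : G), hNH n.2⟩) := by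
  exact main (Nat.card G) G N le_rfl hsolv hchief χ hχ

end Cfsg.Agent.S0858
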