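import Cfsg.Statements.S0859
import Mathlib
import Cfsg.Agent.Lib.Helper3.RelM

set_option autoImplicit false
open Cfsg

namespace Cfsg.Agent.S0859

open Cfsg.Agent.Lib.Helper3.Irr Cfsg.Agent.Lib.Helper3.MGroup Cfsg.Agent.Lib.Helper3.RelM

/-- If G is solvable, N ⊴ G has abelian Sylow subgroups, and every irreducible character of G is induced from a character of a subgroup containing N that restricts irreducibly to N, then G is an M-group: every irreducible character is induced from a linear one. -/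
theorem result {G : Type*} [Group G] [Fintype G] [Group.IsSolvable G] (N : Subgroup G) [N.Normal] (hab : ∀ (p : ℕ) [Fact p.Prime] (P : Sylow p N), ∀ a ∈ P, ∀ b ∈ P, a * b = b * a) (hrel : ∀ χ : G → ℂ, Cfsg.IsIrrCharacter G χ → ∃ (H : Subgroup G) (hNH : N ≤ H) (ψ : H → ℂ), Cfsg.IsIrrCharacter H ψ ∧ Cfsg.indFun H ψ = χ ∧ Cfsg.IsIrrCharacter N (fun n : N => ψ ⟨(n : G), hNH n.2⟩)) (χ : G → ℂ) (hχ : Cfsg.IsIrrCharacter G χ) : ∃ (U : Subgroup G) (lam : U → ℂ), Cfsg.IsCharacter U lam ∧ lam 1 = 1 ∧ Cfsg.indFun U lam = χ := by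
  classical
  obtain ⟨H, hNH, ψ, hψ, hind, hθ⟩ := hrel χ hχ
  have hpab : PAb (N.subgroupOf H) := by
    intro p _ Q hQ hQp a ha b hb
    let Q' : Subgroup N := (Q.map H.subtype).subgroupOf N
    have hQ'p : IsPGroup p Q' := (hQp.map H.subtype).comap_subtype
    obtain ⟨P, hP⟩ := hQ'p.exists_le_sylow
    have ha' : (⟨(a : G), hQ ha⟩ : N) ∈ Q' := ⟨a, ha, rfl⟩
    have hb' : (⟨(b : G), hQ hb⟩ : N) ∈ Q' := ⟨b, hb, rfl⟩
    have h1 := hab p P _ (hP ha') _ (hP hb')
    have h2 : ((a : H) : G) * ((b : H) : G) = ((b : H) : G) * ((a : H) : G) :=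
      congrArg Subtype.val h1
    exact Subtype.ext h2
  have hres : classInner (fun x : N.subgroupOf H => ψ x) (fun x : N.subgroupOf H => ψ x) = 1 := by
    have hirr := Cfsg.Agent.Lib.CT.Ops.isIrrCharacter_comp_mulEquiv
      (Subgroup.subgroupOfEquivOfLe hNH) hθ
    exact Cfsg.Agent.Lib.CT.NormOne.inner_self_eq_one_of_irr hirr
  obtain ⟨U', lam, hlam, hlam1, hlamind⟩ :=
    monomial_aux _ H (N.subgroupOf H) rfl hpab ψ hψ hres
  refine ⟨U'.map H.subtype,
    fun t => lam ((U'.equivMapOfInjective H.subtype H.subtype_injective).symm t), ?_, ?_, ?_⟩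
  · exact Cfsg.Agent.Lib.CT.Ops.isCharacter_comp_hom
      ((U'.equivMapOfInjective H.subtype H.subtype_injective).symm.toMonoidHom) hlam
  · show lam ((U'.equivMapOfInjective H.subtype H.subtype_injective).symm 1) = 1
    rw [map_one]
    exact hlam1
  · rw [← indFun_trans, hlamind, hind]

end Cfsg.Agent.S0859
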