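import Mathlib
import Cfsg.Statements.S4446
import Cfsg.Agent.Lib.Helper4.GlauCyc
import Cfsg.Agent.Lib.Helper81.SemiInv
-- import your own Cfsg.Agent.* helpers here

set_option autoImplicit false
open Cfsg

namespace Cfsg.Agent.S4446

open Cfsg.Agent.Lib.Helper4.GlauCyc Cfsg.Agent.Lib.Helper3.Irr

theorem exists_pow_of_zpowers_eq {Γ : Type*} [Group Γ] [Finite Γ] (x s : Γ)
    (h : Subgroup.zpowers s = Subgroup.zpowers x) :
    ∃ k : ℕ, k.Coprime (orderOf x) ∧ s = x ^ k := by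
  have hs : s ∈ Subgroup.zpowers x := h ▸ Subgroup.mem_zpowers s
  obtain ⟨k, hk⟩ := (isOfFinOrder_of_finite x).mem_powers_iff_mem_zpowers.mpr hs
  have hk' : x ^ k = s := hk
  refine ⟨k, ?_, hk'.symm⟩
  have ho : orderOf s = orderOf x := by rw [← Nat.card_zpowers, ← Nat.card_zpowers, h]
  rw [← hk', orderOf_pow] at ho
  have hpos := orderOf_pos x
  rcases Nat.div_eq_self.mp ho with h0 | h1
  · omega
  · exact Nat.coprime_comm.mp h1

theorem centralizer_eq {Γ : Type*} [Group Γ] (S : Subgroup Γ) (s : Γ)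
    (hs : Subgroup.zpowers s = S) :
    Subgroup.centralizer (S : Set Γ) = Subgroup.centralizer {s} := by
  ext y
  rw [Subgroup.mem_centralizer_iff, Subgroup.mem_centralizer_iff]
  constructor
  · intro h z hz
    rw [Set.mem_singleton_iff] at hz
    subst hz
    exact h z (by rw [← hs]; exact Subgroup.mem_zpowers z)
  · intro h z hz
    rw [← hs] at hz
    obtain ⟨j, rfl⟩ := Subgroup.mem_zpowers_iff.mp hz
    have h1 : Commute s y := h s (Set.mem_singleton s)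
    exact h1.zpow_left j


/-- Let the finite group Γ be generated by a normal subgroup G and a cyclic subgroup S of coprime orders, C = G ⊓ C(S), and let χ be an S-invariant irreducible character of G with canonical extension χ̂ to Γ (the extension whose determinantal order is coprime to the order of S). Then there are exactly one irreducible character β of C and one sign ε such that χ̂(c s) = ε β(c) for every c ∈ C and every generator s of S; this β is a constituent of the restriction of χ to C; distinct S-invariant χ give distinct β; and every irreducible character of C arises in this way. -/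
theorem result {Γ : Type*} [Group Γ] [Fintype Γ] (G S : Subgroup Γ) [Fintype G] (hnorm : ∀ s ∈ S, ∀ g ∈ G, s * g * s⁻¹ ∈ G) (hcop : (Nat.card G).Coprime (Nat.card S)) (htop : G ⊔ S = ⊤) (hcyc : IsCyclic S) (C : Subgroup Γ) [Fintype C] (hC : C = G ⊓ Subgroup.centralizer (S : Set Γ)) (hCG : C ≤ G) : (∀ (χ : Cfsg.IrrCharacter G) (χh : Cfsg.IrrCharacter Γ), (∀ s ∈ S, ∀ g g' : G, (g' : Γ) = s * g * s⁻¹ → (χ : G → ℂ) g' = (χ : G → ℂ) g) → (∀ g : G, (χh : Γ → ℂ) g = (χ : G → ℂ) g) → (Cfsg.detOrder (χh : Γ → ℂ)).Coprime (Nat.card S) → (∃! βε : Cfsg.IrrCharacter C × ℤ, (βε.2 = 1 ∨ βε.2 = -1) ∧ ∀ c : C, ∀ s : Γ, Subgroup.zpowers s = S → (χh : Γ → ℂ) ((c : Γ) * s) = (βε.2 : ℂ) * (βε.1 : C → ℂ) c) ∧ ∀ β : Cfsg.IrrCharacter C, ∀ ε : ℤ, (ε = 1 ∨ ε = -1) → (∀ c : C, ∀ s : Γ, Subgroup.zpowers s = S → (χh : Γ → ℂ) ((c : Γ) * s) = (ε : ℂ) * (β : C → ℂ) c) → Cfsg.classInner (fun c : C => (χ : G → ℂ) ⟨c, hCG c.2⟩) (β : C → ℂ) ≠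 0) ∧ (∀ (χ χ' : Cfsg.IrrCharacter G) (χh χh' : Cfsg.IrrCharacter Γ), (∀ s ∈ S, ∀ g g' : G, (g' : Γ) = s * g * s⁻¹ → (χ : G → ℂ) g' = (χ : G → ℂ) g) → (∀ s ∈ S, ∀ g g' : G, (g' : Γ) = s * g * s⁻¹ → (χ' : G → ℂ) g' = (χ' : G → ℂ) g) → (∀ g : G, (χh : Γ → ℂ) g = (χ : G → ℂ) g) → (∀ g : G, (χh' : Γ → ℂ) g = (χ' : G → ℂ) g) → (Cfsg.detOrder (χh : Γ → ℂ)).Coprime (Nat.card S) → (Cfsg.detOrder (χh' : Γ → ℂ)).Coprime (Nat.card S) → ∀ β : Cfsg.IrrCharacter C, ∀ ε ε' : ℤ, (ε = 1 ∨ ε = -1) → (ε' = 1 ∨ ε' = -1) → (∀ c : C, ∀ s : Γ, Subgroup.zpowers s = S → (χh : Γ → ℂ) ((c : Γ) * s) = (ε : ℂ) * (β : C → ℂ) c) → (∀ c : C, ∀ s : Γ, Subgroup.zpowers s = S → (χh' : Γ → ℂ) ((c : Γ) * s) = (ε' : ℂ) * (β : C → ℂ) c) → χ = χ') ∧ (∀ β : Cfsg.IrrCharacter C, ∃ (χ : Cfsg.IrrCharacter G) (χh : Cfsg.IrrCharacter Γ) (ε : ℤ), (∀ s ∈ S, ∀ g g' : G, (g' : Γ) = s * g * s⁻¹ → (χ : G → ℂ) g' = (χ : G → ℂ) g) ∧ (∀ g : G, (χh : Γ → ℂ) g = (χ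 : G → ℂ) g) ∧ (Cfsg.detOrder (χh : Γ → ℂ)).Coprime (Nat.card S) ∧ (ε = 1 ∨ ε = -1) ∧ ∀ c : C, ∀ s : Γ, Subgroup.zpowers s = S → (χh : Γ → ℂ) ((c : Γ) * s) = (ε : ℂ) * (β : C → ℂ) c) := by
  classical
  obtain ⟨x, hzx⟩ : ∃ x : Γ, Subgroup.zpowers x = S := by
    obtain ⟨s₀, hs₀⟩ := hcyc.exists_generator
    refine ⟨(s₀ : Γ), ?_⟩
    ext y
    constructor
    · intro hy
      obtain ⟨j, rfl⟩ := Subgroup.mem_zpowers_iff.mp hy
      exact S.zpow_mem s₀.2 j
    · intro hy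
      obtain ⟨j, hj⟩ := Subgroup.mem_zpowers_iff.mp (hs₀ ⟨y, hy⟩)
      rw [Subgroup.mem_zpowers_iff]
      refine ⟨j, ?_⟩
      have h1 := congrArg Subtype.val hj
      simpa using h1
  haveI hGn : G.Normal := Cfsg.Agent.Lib.Helper81.SemiInv.normal_of_sup_top htop
    (fun a ha c hc => G.mul_mem (G.mul_mem ha hc) (G.inv_mem ha)) hnorm
  have hox : orderOf x = Nat.card S := by rw [← Nat.card_zpowers, hzx]
  have hcopx : (orderOf x).Coprime (Nat.card G) := by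
    rw [hox]
    exact hcop.symm
  have htopx : G ⊔ Subgroup.zpowers x = ⊤ := by
    rw [hzx]
    exact htop
  have hι : Function.Injective C.subtype := Subgroup.subtype_injective C
  have hrange : C.subtype.range = G ⊓ Subgroup.centralizer {x} := by
    rw [Subgroup.range_subtype, hC, centralizer_eq S x hzx]
  have hgen : ∀ s : Γ, Subgroup.zpowers s = S →
      ∃ k : ℕ, k.Coprime (orderOf x) ∧ s = x ^ k :=
    fun s hs => exists_pow_of_zpowers_eq x s (hs.trans hzx.symm)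
  have keyA : ∀ (χ : Cfsg.IrrCharacter G) (χh : Cfsg.IrrCharacter Γ),
      (∀ g : G, χh.1 g = χ.1 g) → (Cfsg.detOrder χh.1).Coprime (Nat.card S) →
      ∃ β : Cfsg.IrrCharacter C, ∃ ε : ℤ, (ε = 1 ∨ ε = -1) ∧
        (∀ c : C, ∀ s : Γ, Subgroup.zpowers s = S → χh.1 ((c : Γ) * s) = (ε : ℂ) * β.1 c) ∧
        Cfsg.classInner (fun c : C => χ.1 ⟨c, hCG c.2⟩) β.1 ≠ 0 := by
    intro χ χh hext hdet
    have hres : Cfsg.IsIrrCharacter G (fun k : G => χh.1 k) := by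
      have h1 : (fun k : G => χh.1 k) = χ.1 := funext hext
      rw [h1]
      exact χ.2
    obtain ⟨β, ε, hε, h1, h2⟩ := exists_beta G x C.subtype hcopx htopx hι hrange χh.2 hres
      (by rw [hox]; exact hdet)
    refine ⟨β, ε, hε, ?_, ?_⟩
    · intro c s hs
      obtain ⟨k, hk, rfl⟩ := hgen s hs
      exact h1 k hk c
    · have h3 : (fun c : C => χ.1 ⟨c, hCG c.2⟩) = (fun c : C => χh.1 (C.subtype c)) := by
        funext c
        exact (hext ⟨c, hCG c.2⟩).symm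
      rw [h3]
      exact h2
  refine ⟨?_, ?_, ?_⟩
  · intro χ χh hinv hext hdet
    obtain ⟨β, ε, hε, h1, h2⟩ := keyA χ χh hext hdet
    constructor
    · refine ⟨(β, ε), ⟨hε, h1⟩, ?_⟩
      rintro ⟨β', ε'⟩ ⟨hε', h1'⟩
      have h3 := eps_beta_unique β' β ε' ε hε
        (fun c => (h1' c x hzx).symm.trans (h1 c x hzx))
      exact Prod.ext h3.1 h3.2
    · intro β' ε' hε' h1'
      have h3 := eps_beta_unique β' β ε' ε hε
        (fun c => (h1' c x hzx).symm.trans (h1 c x hzx))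
      rw [h3.1]
      exact h2
  · intro χ χ' χh χh' hinv hinv' hext hext' hdet hdet' β ε ε' hε hε' h1 h1'
    have hres : Cfsg.IsIrrCharacter G (fun k : G => χh.1 k) := by
      have h2 : (fun k : G => χh.1 k) = χ.1 := funext hext
      rw [h2]
      exact χ.2
    have hres' : Cfsg.IsIrrCharacter G (fun k : G => χh'.1 k) := by
      have h2 : (fun k : G => χh'.1 k) = χ'.1 := funext hext'
      rw [h2]
      exact χ'.2
    have h := restrict_eq G x C.subtype hcopx hι hrange (IsIrrCharacter.isCharacter χh.2)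
      (IsIrrCharacter.isCharacter χh'.2) hres hres' β ε ε' hε hε'
      (fun c => h1 c x hzx) (fun c => h1' c x hzx)
    apply Subtype.ext
    funext g
    rw [← hext g, ← hext' g]
    exact congrFun h g
  · intro β
    obtain ⟨χh, hirr, hres, hdet, ε, hε, h1⟩ := exists_chi G x C.subtype hcopx htopx hι hrange β
    refine ⟨⟨fun k : G => χh k, hres⟩, ⟨χh, hirr⟩, ε, ?_, fun g => rfl,
      by rw [← hox]; exact hdet, hε, ?_⟩
    · intro s hs g g' hg'
      show χh (g' : Γ) = χh (g : Γ)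
      rw [hg']
      exact IsIrrCharacter.isClassFunction hirr g s
    · intro c s hs
      obtain ⟨k, hk, rfl⟩ := hgen s hs
      exact h1 k hk c

end Cfsg.Agent.S4446
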