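import Mathlib
import Cfsg.Statements.S4451
import Cfsg.Agent.Lib.Helper4.GlauFpf
import Cfsg.Agent.Lib.Helper81.SemiInv
import Cfsg.Agent.Lib.Helper80.Integrality
-- import your own Cfsg.Agent.* helpers here

set_option autoImplicit false
open Cfsg

namespace Cfsg.Agent.S4451


/-- Let the finite group Γ be generated by a normal subgroup G and a cyclic subgroup S of coprime orders such that every non-identity element of S has the same centraliser C = G ⊓ C(S) in G. Let χ be an S-invariant irreducible character of G, χ̂ its canonical extension to Γ (determinantal order coprime to the order of S), and β the irreducible character of C with χ̂(c s) = ε₀ β(c) for c ∈ C and generators s of S (ε₀ = ±1). Then there are a sign ε = ±1, which may differ from ε₀, and a linear character μ of S with μ² = 1, such that: (a) χ̂(c x) = ε β(c) μ(x) for all c ∈ C and all x ∈ S other than 1; (b) the restriction of χ to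 C equals |S|·ϑ + ε β for some character ϑ of C or ϑ = 0; (c) |S| divides χ(1) − ε β(1). -/
theorem result {Γ : Type*} [Group Γ] [Fintype Γ] (G S : Subgroup Γ) [Fintype G] (hnorm : ∀ s ∈ S, ∀ g ∈ G, s * g * s⁻¹ ∈ G) (hcop : (Nat.card G).Coprime (Nat.card S)) (htop : G ⊔ S = ⊤) (hcyc : IsCyclic S) (C : Subgroup Γ) [Fintype C] (hC : C = G ⊓ Subgroup.centralizer (S : Set Γ)) (hCG : C ≤ G) (hfpf : ∀ x ∈ S, x ≠ 1 → G ⊓ Subgroup.centralizer ({x} : Set Γ) = C) (χ : Cfsg.IrrCharacter G) (hinv : (∀ s ∈ S, ∀ g g' : G, (g' : Γ) = s * g * s⁻¹ → (χ : G → ℂ) g' = (χ : G → ℂ) g)) (χh : Cfsg.IrrCharacter Γ) (hext : (∀ g : G, (χh : Γ → ℂ) g = (χ : G → ℂ) g)) (hdet : (Cfsg.detOrder (χh : Γ → ℂ)).Coprime (Nat.card S)) (β : Cfsg.IrrCharacter C) (ε₀ : ℤ) (hε₀ : ε₀ = 1 ∨ ε₀ = -1) (hβ : ∀ c : C, ∀ s : Γ, Subgroup.zpowers s = S → (χh : Γ → ℂ) ((c : Γ) * s) = (ε₀ : ℂ) * (β : C → ℂ) c) : ∃ ε : ℤ, (ε = 1 ∨ ε = -1) ∧ (∃ μ : S →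 ℂ, Cfsg.IsCharacter S μ ∧ μ 1 = 1 ∧ (∀ x : S, μ x * μ x = 1) ∧ ∀ c : C, ∀ x : S, x ≠ 1 → (χh : Γ → ℂ) ((c : Γ) * x) = (ε : ℂ) * (β : C → ℂ) c * μ x) ∧ (∃ ϑ : C → ℂ, Cfsg.IsCharacter C ϑ ∧ (fun c : C => (χ : G → ℂ) ⟨c, hCG c.2⟩) = fun c => (Nat.card S : ℂ) * ϑ c + (ε : ℂ) * (β : C → ℂ) c) ∧ (Nat.card S : ℤ) ∣ (Cfsg.charDegree (χ : G → ℂ) : ℤ) - ε * (Cfsg.charDegree (β : C → ℂ) : ℤ) := by
  classical
  obtain ⟨x, hzx⟩ : ∃ x : Γ, Subgroup.zpowers x = S := by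
    obtain ⟨s₀, hs₀⟩ := hcyc.exists_generator
    refine ⟨(s₀ : Γ), ?_⟩
    ext y
    constructor
    · intro hy
      obtain ⟨j, rfl⟩ := Subgroup.mem_zpowers_iff.mp hy
      exact S.zpow_mem s₀.2 j
    · intro hy
      obtain ⟨j, hj⟩ := Subgroup.mem_zpowers_iff.mp (hs₀ ⟨y, hy⟩)
      rw [Subgroup.mem_zpowers_iff]
      refine ⟨j, ?_⟩
      have h1 := congrArg Subtype.val hj
      simpa using h1
  haveI hGn : G.Normal := Cfsg.Agent.Lib.Helper81.SemiInv.normal_of_sup_top htop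
    (fun a ha c hc => G.mul_mem (G.mul_mem ha hc) (G.inv_mem ha)) hnorm
  have hres : Cfsg.IsIrrCharacter G (fun k : G => χh.1 k) := by
    have h1 : (fun k : G => χh.1 k) = χ.1 := funext hext
    rw [h1]
    exact χ.2
  have hχc : Cfsg.IsCharacter Γ χh.1 :=
    Cfsg.Agent.Lib.Helper3.Irr.IsIrrCharacter.isCharacter χh.2
  have hxS : x ∈ S := by
    rw [← hzx]
    exact Subgroup.mem_zpowers x
  have hSab : ∀ s t : S, s * t = t * s := by
    intro s t
    apply Subtype.ext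
    have hs : (s : Γ) ∈ Subgroup.zpowers x := by
      rw [hzx]
      exact s.2
    have ht : (t : Γ) ∈ Subgroup.zpowers x := by
      rw [hzx]
      exact t.2
    obtain ⟨i, hi⟩ := Subgroup.mem_zpowers_iff.mp hs
    obtain ⟨j, hj⟩ := Subgroup.mem_zpowers_iff.mp ht
    show (s : Γ) * (t : Γ) = (t : Γ) * (s : Γ)
    rw [← hi, ← hj, ← zpow_add, ← zpow_add, add_comm]
  by_cases hn : 2 ≤ Nat.card S
  · obtain ⟨β₁, ε, μ, ϑ, hε, hϑ, ha, hb⟩ :=
      Cfsg.Agent.Lib.Helper4.GlauFpf.fpf_core G S C hSab hcop hfpf hn hχc hres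
    have hx1 : (⟨x, hxS⟩ : S) ≠ 1 := by
      intro e
      have h1 : x = 1 := congrArg Subtype.val e
      have h2 : Nat.card S = 1 := by
        rw [← hzx, h1, Nat.card_zpowers, orderOf_one]
      omega
    have hkey : ∀ c : C, (ε₀ : ℂ) * β.1 c =
        ((ε : ℂ) * ((μ ⟨x, hxS⟩ : ℂˣ) : ℂ)) * β₁.1 c := by
      intro c
      rw [← hβ c x hzx, ha c ⟨x, hxS⟩ hx1]
      ring
    have h1 : Cfsg.Agent.Lib.Helper81.Mult.multC ((ε₀ : ℂ) • β.1) β₁ =
        Cfsg.Agent.Lib.Helper81.Mult.multC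
          (((ε : ℂ) * ((μ ⟨x, hxS⟩ : ℂˣ) : ℂ)) • β₁.1) β₁ := by
      congr 1
      funext c
      exact hkey c
    rw [Cfsg.Agent.Lib.Helper81.Mult.multC_smul, Cfsg.Agent.Lib.Helper81.Mult.multC_smul,
      Cfsg.Agent.Lib.Helper81.Mult.multC_irr, Cfsg.Agent.Lib.Helper81.Mult.multC_irr,
      if_pos rfl, mul_one] at h1
    have hμne : ((μ ⟨x, hxS⟩ : ℂˣ) : ℂ) ≠ 0 := Units.ne_zero _
    have hεne : (ε : ℂ) ≠ 0 := by
      rcases hε with rfl | rfl <;> simp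
    have hββ : β = β₁ := by
      by_contra hne
      rw [if_neg hne, mul_zero] at h1
      exact mul_ne_zero hεne hμne h1.symm
    rw [if_pos hββ, mul_one] at h1
    have hμx : ((μ ⟨x, hxS⟩ : ℂˣ) : ℂ) * ((μ ⟨x, hxS⟩ : ℂˣ) : ℂ) = 1 := by
      have h2 : ((μ ⟨x, hxS⟩ : ℂˣ) : ℂ) = (ε₀ : ℂ) * (ε : ℂ) := by
        rw [h1]
        rcases hε with rfl | rfl <;> push_cast <;> ring
      rw [h2]
      rcases hε with rfl | rfl <;> rcases hε₀ with rfl | rfl <;> push_cast <;> ring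
    have hμu : μ ⟨x, hxS⟩ * μ ⟨x, hxS⟩ = 1 := Units.ext (by
      rw [Units.val_mul, Units.val_one]
      exact hμx)
    have hμall : ∀ y : S, ((μ y : ℂˣ) : ℂ) * ((μ y : ℂˣ) : ℂ) = 1 := by
      intro y
      have hy : (y : Γ) ∈ Subgroup.zpowers x := by
        rw [hzx]
        exact y.2
      obtain ⟨j, hj⟩ := Subgroup.mem_zpowers_iff.mp hy
      have hy' : y = (⟨x, hxS⟩ : S) ^ j := Subtype.ext (by
        rw [Subgroup.coe_zpow]
        exact hj.symm)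
      rw [hy', map_zpow, ← Units.val_mul, ← mul_zpow, hμu, one_zpow, Units.val_one]
    refine ⟨ε, hε, ⟨fun y => ((μ y : ℂˣ) : ℂ), Cfsg.Agent.Lib.CT.LinChar.isCharacter_of_hom μ,
      by simp, hμall, ?_⟩, ⟨ϑ, hϑ, ?_⟩, ?_⟩
    · intro c y hy
      rw [hββ]
      exact ha c y hy
    · funext c
      rw [hββ, ← hb c]
      exact (hext ⟨c, hCG c.2⟩).symm
    · have h2 := hb 1
      rw [Subgroup.coe_one] at h2
      have h3 : χh.1 1 = (Cfsg.charDegree χ.1 : ℂ) := by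
        have h0 := hext 1
        rw [Subgroup.coe_one] at h0
        rw [h0]
        exact Cfsg.Agent.Lib.Helper80.Integrality.apply_one_eq_charDegree
          (Cfsg.Agent.Lib.Helper3.Irr.IsIrrCharacter.isCharacter χ.2)
      have h4 : β₁.1 1 = (Cfsg.charDegree β.1 : ℂ) := by
        rw [← hββ]
        exact Cfsg.Agent.Lib.Helper80.Integrality.apply_one_eq_charDegree
          (Cfsg.Agent.Lib.Helper3.Irr.IsIrrCharacter.isCharacter β.2)
      have h5 : ϑ 1 = (Cfsg.charDegree ϑ : ℂ) :=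
        Cfsg.Agent.Lib.Helper80.Integrality.apply_one_eq_charDegree hϑ
      rw [h3, h4, h5] at h2
      refine ⟨(Cfsg.charDegree ϑ : ℤ), ?_⟩
      have h6 : ((Cfsg.charDegree χ.1 : ℤ) : ℂ) = (((Nat.card S : ℤ) * (Cfsg.charDegree ϑ : ℤ) +
          ε * (Cfsg.charDegree β.1 : ℤ) : ℤ) : ℂ) := by
        push_cast
        exact h2
      have h7 : (Cfsg.charDegree χ.1 : ℤ) = (Nat.card S : ℤ) * (Cfsg.charDegree ϑ : ℤ) +
          ε * (Cfsg.charDegree β.1 : ℤ) := by exact_mod_cast h6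
      rw [h7]
      ring
  · have hS1 : Nat.card S = 1 := by
      have := Nat.card_pos (α := S)
      omega
    have hSbot : ∀ y : S, y = 1 := by
      intro y
      haveI : Subsingleton S := (Nat.card_eq_one_iff_unique.1 hS1).1
      exact Subsingleton.elim _ _
    have hx1 : x = 1 := congrArg Subtype.val (hSbot ⟨x, hxS⟩)
    refine ⟨ε₀, hε₀, ⟨fun _ => 1, Cfsg.Agent.Lib.CT.LinChar.isLinear_one.1, rfl,
      fun _ => by simp, ?_⟩, ⟨0, Cfsg.Agent.Lib.CT.Ops.isCharacter_zero, ?_⟩, ?_⟩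
    · intro c y hy
      exact absurd (hSbot y) hy
    · funext c
      have h1 := hβ c x hzx
      rw [hx1, mul_one] at h1
      rw [← hext ⟨c, hCG c.2⟩]
      show χh.1 (c : Γ) = (Nat.card S : ℂ) * (0 : C → ℂ) c + (ε₀ : ℂ) * β.1 c
      rw [h1]
      simp
    · rw [hS1]
      exact one_dvd _

end Cfsg.Agent.S4451
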