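import Cfsg.Statements.S5029
-- import your own Cfsg.Agent.* helpers here
import Cfsg.Agent.Lib.Helper83.RootSub2
import Cfsg.Agent.S5025

set_option autoImplicit false
open Cfsg

namespace Cfsg.Agent.S5029

/-- Let S be a set of abstract root subgroups of G, A ∈ S having a rank one partner in S, and B ∈ S with C = ⁅A, B⁆ ∈ S. Then the members of S contained in AC are the conjugates of A by elements of B together with C, they partition AC, the members of S inside AC partition AC so that A is a line partner of C, and for every non-identity a ∈ A the map b ↦ a⁻¹ b⁻¹ a b is an isomorphism from B onto C. -/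
theorem result {G : Type*} [Group G] {S : Set (Subgroup G)} (hS : Cfsg.IsRootSubgroupSet S)
    {A B : Subgroup G} (hA : ¬ Cfsg.IsIsolatedIn (Cfsg.FAdj S) S A) (hAS : A ∈ S) (hB : B ∈ S) (hC : ⁅A, B⁆ ∈ S) :
    Cfsg.membersIn S (A ⊔ ⁅A, B⁆) = (fun b : G => Cfsg.conjBy A b) '' (B : Set G) ∪ {⁅A, B⁆} ∧
    Cfsg.IsSubgroupPartition (A ⊔ ⁅A, B⁆) (Cfsg.membersIn S (A ⊔ ⁅A, B⁆)) ∧
    A ∈ Cfsg.linePartners S ⁅A, B⁆ ∧
    ∀ a ∈ A, a ≠ 1 → ∃ φ : ↥B ≃* ↥⁅A, B⁆, ∀ b : ↥B, (φ b : G) = a⁻¹ * (b : G)⁻¹ * a * b := by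
  obtain ⟨D, hD, hpAD⟩ := Cfsg.Agent.Lib.Helper83.RootSub.exists_partner hAS hA
  have hcase := Cfsg.Agent.Lib.Helper83.RootSub2.commCase_of_mem hS hAS hB hC
  have hcen := hcase.2.1
  have hAneC : A ≠ ⁅A, B⁆ := Cfsg.Agent.Lib.Helper83.RootSub2.ne_commutator_of_commCase hS hcase
  have hCA : ∀ c ∈ ⁅A, B⁆, ∀ a ∈ A, c * a = a * c :=
    fun c hc a ha => hcen c hc a (Subgroup.mem_sup_left ha)
  have hACbot : A ⊓ ⁅A, B⁆ = ⊥ :=
    (Cfsg.Agent.Lib.Helper83.RootSub.inf_eq_bot_or_eq hS hAS hD hpAD hC).resolve_right hAneC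
  have hconj_le : ∀ b ∈ B, conjBy A b ≤ A ⊔ ⁅A, B⁆ := by
    intro b hb
    have h1 : conjBy A b ≤ ⁅B, A⁆ ⊔ A :=
      Cfsg.Agent.Lib.Helper83.RootSub.conjBy_le_commutator_sup hb
    rw [Subgroup.commutator_comm, sup_comm] at h1
    exact h1
  have hconj_partner : ∀ b : G, IsRankOnePair (conjBy A b) (conjBy D b) :=
    fun b => Cfsg.Agent.Lib.Helper83.RankOne.isRankOnePair_conjBy hpAD b
  have hdecomp : ∀ x ∈ A ⊔ ⁅A, B⁆, ∃ a ∈ A, ∃ c ∈ ⁅A, B⁆, x = a * c := by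
    intro x hx
    refine Cfsg.Agent.Lib.Helper83.RankOne.sup_induction_gen
      (P := fun x => ∃ a ∈ A, ∃ c ∈ ⁅A, B⁆, x = a * c) ?_ ?_ ?_ ?_ hx
    · intro a ha; exact ⟨a, ha, 1, Subgroup.one_mem _, by simp⟩
    · intro c hc; exact ⟨1, A.one_mem, c, hc, by simp⟩
    · exact ⟨1, A.one_mem, 1, Subgroup.one_mem _, by simp⟩
    · rintro x y ⟨a, ha, c, hc, rfl⟩ ⟨a', ha', c', hc', rfl⟩
      refine ⟨a * a', A.mul_mem ha ha', c * c', Subgroup.mul_mem _ hc hc', ?_⟩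
      calc a * c * (a' * c') = a * (c * a') * c' := by group
        _ = a * (a' * c) * c' := by rw [hCA c hc a' ha']
        _ = a * a' * (c * c') := by group
  have hcover : ∀ x ∈ A ⊔ ⁅A, B⁆, x ≠ 1 → x ∈ ⁅A, B⁆ ∨ ∃ b ∈ B, x ∈ conjBy A b := by
    intro x hx hx1
    obtain ⟨a, ha, c, hc, rfl⟩ := hdecomp x hx
    by_cases ha1 : a = 1
    · left; subst ha1; simpa using hc
    · right
      obtain ⟨φ, hφ⟩ := Cfsg.Agent.Lib.Helper83.RootSub2.commIso hS hAS hD hpAD hB hcase ha ha1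
      obtain ⟨b₀, hb₀⟩ := φ.surjective ⟨c, hc⟩
      have h1 : a⁻¹ * (b₀ : G)⁻¹ * a * b₀ = c := by rw [← hφ b₀, hb₀]
      refine ⟨(b₀ : G)⁻¹, B.inv_mem b₀.2, ?_⟩
      rw [Cfsg.Agent.Lib.Helper83.RankOne.mem_conjBy, ← h1]
      simp only [inv_inv]
      have e : (b₀ : G) * (a * (a⁻¹ * (b₀ : G)⁻¹ * a * b₀)) * (b₀ : G)⁻¹ = a := by group
      rw [e]; exact ha
  have hmemC : ⁅A, B⁆ ∈ membersIn S (A ⊔ ⁅A, B⁆) := ⟨hC, le_sup_right⟩
  have hmemconj : ∀ b ∈ B, conjBy A b ∈ membersIn S (A ⊔ ⁅A, B⁆) :=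
    fun b hb => ⟨hS.conj_mem A hAS b, hconj_le b hb⟩
  have hkey : ∀ E ∈ S, E ≤ ⁅A, B⁆ → E = ⁅A, B⁆ := by
    intro E hE hEC
    have hnc : ∀ E' ∈ S, E' ≤ ⁅A, B⁆ → ⁅D, E'⁆ ≠ ⊥ := by
      intro E' hE' hE'C hbot
      obtain ⟨e, he, he1⟩ := Cfsg.Agent.Lib.Helper83.RankOne.exists_mem_ne_one (hS.ne_bot E' hE')
      obtain ⟨a, ha, ha1⟩ := Cfsg.Agent.Lib.Helper83.RankOne.exists_mem_ne_one
        (Cfsg.Agent.Lib.Helper83.RankOne.left_ne_bot hpAD)
      have hec : e ∈ Subgroup.centralizer ((A ⊔ D : Subgroup G) : Set G) := by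
        rw [Subgroup.mem_centralizer_iff]
        intro x hx
        refine Cfsg.Agent.Lib.Helper83.RankOne.sup_induction_gen (P := fun x => x * e = e * x)
          ?_ ?_ ?_ ?_ hx
        · intro a' ha'; exact (hCA e (hE'C he) a' ha').symm
        · intro d hd
          exact Cfsg.Agent.Lib.Helper83.RootSub.comm_of_commutator_eq_bot hbot hd he
        · simp
        · intro x y hx hy; rw [mul_assoc, hy, ← mul_assoc, hx, mul_assoc]
      have h5 := Cfsg.Agent.S5025.result hS hAS ⟨hD, hpAD⟩ hec he1 a ha ha1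
      apply h5
      have hea_mem : e * a ∈ A ⊔ ⁅A, B⁆ :=
        Subgroup.mul_mem _ (Subgroup.mem_sup_right (hE'C he)) (Subgroup.mem_sup_left ha)
      have hea1 : e * a ≠ 1 := by
        intro hcon
        apply ha1
        have h6 : a ∈ A ⊓ ⁅A, B⁆ := by
          refine ⟨ha, ?_⟩
          have h7 : a = e⁻¹ := eq_inv_of_mul_eq_one_right hcon
          rw [h7]
          exact Subgroup.inv_mem _ (hE'C he)
        rw [hACbot, Subgroup.mem_bot] at h6
        exact h6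
      refine ⟨hea1, ?_⟩
      rcases hcover _ hea_mem hea1 with h7 | ⟨b, hb, h7⟩
      · exact ⟨_, hC, h7⟩
      · exact ⟨_, hS.conj_mem A hAS b, h7⟩
    rcases hS.pair D hD E hE with h1 | h1 | h1
    · exact absurd h1 (hnc E hE hEC)
    · rcases Cfsg.Agent.Lib.Helper83.RootSub.inf_eq_bot_or_eq hS hE hD (RankOnePair_symm h1) hC
        with h2 | h2
      · rw [inf_eq_left.mpr hEC] at h2; exact absurd h2 (hS.ne_bot E hE)
      · exact h2
    · rcases hS.pair D hD _ hC with h2 | h2 | h2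
      · exact absurd h2 (hnc _ hC le_rfl)
      · rcases Cfsg.Agent.Lib.Helper83.RootSub.inf_eq_bot_or_eq hS hC hD (RankOnePair_symm h2) hE
          with h3 | h3
        · rw [inf_eq_right.mpr hEC] at h3; exact absurd h3 (hS.ne_bot E hE)
        · exact h3.symm
      · obtain ⟨e, he, he1⟩ := Cfsg.Agent.Lib.Helper83.RankOne.exists_mem_ne_one (hS.ne_bot E hE)
        have hFeq : ⁅D, E⁆ = ⁅D, ⁅A, B⁆⁆ := by
          rw [← h1.2.2.2 e he he1, ← h2.2.2.2 e (hEC he) he1]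
        obtain ⟨d, hd, hd1⟩ := Cfsg.Agent.Lib.Helper83.RankOne.exists_mem_ne_one
          (Cfsg.Agent.Lib.Helper83.RankOne.right_ne_bot hpAD)
        obtain ⟨φE, hφE⟩ := Cfsg.Agent.Lib.Helper83.RootSub2.commIso hS hD hAS
          (RankOnePair_symm hpAD) hE h1 hd hd1
        obtain ⟨φC, hφC⟩ := Cfsg.Agent.Lib.Helper83.RootSub2.commIso hS hD hAS
          (RankOnePair_symm hpAD) hC h2 hd hd1
        apply le_antisymm hEC
        intro c hc
        have h3 : (φC ⟨c, hc⟩ : G) ∈ ⁅D, E⁆ := by rw [hFeq]; exact (φC ⟨c, hc⟩).2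
        obtain ⟨e', he'⟩ := φE.surjective ⟨_, h3⟩
        have h4 : φC ⟨(e' : G), hEC e'.2⟩ = φC ⟨c, hc⟩ := by
          apply Subtype.ext
          calc (φC ⟨(e' : G), hEC e'.2⟩ : G) = d⁻¹ * (e' : G)⁻¹ * d * e' := hφC _
            _ = (φE e' : G) := (hφE e').symm
            _ = (φC ⟨c, hc⟩ : G) := by rw [he']
        have h5 := φC.injective h4
        have h6 : (e' : G) = c := congrArg Subtype.val h5
        rw [← h6]; exact e'.2
  have hmembers : membersIn S (A ⊔ ⁅A, B⁆) =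
      (fun b : G => conjBy A b) '' (B : Set G) ∪ {⁅A, B⁆} := by
    ext E
    constructor
    · rintro ⟨hE, hEle⟩
      by_cases hEC : E ≤ ⁅A, B⁆
      · right; exact hkey E hE hEC
      · left
        obtain ⟨x, hx, hxC⟩ := SetLike.not_le_iff_exists.mp hEC
        have hx1 : x ≠ 1 := by rintro rfl; exact hxC (Subgroup.one_mem _)
        rcases hcover x (hEle hx) hx1 with h1 | ⟨b, hb, h1⟩
        · exact absurd h1 hxC
        · refine ⟨b, hb, ?_⟩
          rcases Cfsg.Agent.Lib.Helper83.RootSub.inf_eq_bot_or_eq hS (hS.conj_mem A hAS b)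
            (hS.conj_mem D hD b) (hconj_partner b) hE with h2 | h2
          · have h3 : x ∈ conjBy A b ⊓ E := ⟨h1, hx⟩
            rw [h2, Subgroup.mem_bot] at h3
            exact absurd h3 hx1
          · exact h2
    · rintro (⟨b, hb, rfl⟩ | h)
      · exact hmemconj b hb
      · rw [Set.mem_singleton_iff] at h; rw [h]; exact hmemC
  have hpart : IsSubgroupPartition (A ⊔ ⁅A, B⁆) (membersIn S (A ⊔ ⁅A, B⁆)) := by
    refine ⟨fun M hM => hM.2, ?_, ?_⟩
    · intro x hx hx1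
      rcases hcover x hx hx1 with h1 | ⟨b, hb, h1⟩
      · exact ⟨_, hmemC, h1⟩
      · exact ⟨_, hmemconj b hb, h1⟩
    · intro M hM M' hM' hne
      have hMS := hM.1
      have hM'S := hM'.1
      rw [hmembers] at hM hM'
      rcases hM with ⟨b, hb, rfl⟩ | hM
      · exact (Cfsg.Agent.Lib.Helper83.RootSub.inf_eq_bot_or_eq hS (hS.conj_mem A hAS b)
          (hS.conj_mem D hD b) (hconj_partner b) hM'S).resolve_right hne
      · rcases hM' with ⟨b, hb, rfl⟩ | hM'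
        · rw [inf_comm]
          exact (Cfsg.Agent.Lib.Helper83.RootSub.inf_eq_bot_or_eq hS (hS.conj_mem A hAS b)
            (hS.conj_mem D hD b) (hconj_partner b) hMS).resolve_right (Ne.symm hne)
        · rw [Set.mem_singleton_iff] at hM hM'
          exact absurd (hM.trans hM'.symm) hne
  refine ⟨hmembers, hpart, ?_, ?_⟩
  · refine ⟨⟨hAS, hAneC, Cfsg.Agent.Lib.Helper83.RootSub.commutator_eq_bot_of_comm hCA⟩, ?_⟩
    rw [sup_comm]; exact hpart
  · intro a ha ha1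
    exact Cfsg.Agent.Lib.Helper83.RootSub2.commIso hS hAS hD hpAD hB hcase ha ha1

end Cfsg.Agent.S5029
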