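import Cfsg.Statements.S5031
-- import your own Cfsg.Agent.* helpers here
import Cfsg.Agent.Lib.Helper83.Comp

set_option autoImplicit false
open Cfsg

namespace Cfsg.Agent.S5031

open Cfsg.Agent.Lib.Helper83.RankOne Cfsg.Agent.Lib.Helper83.RootSub Cfsg.Agent.Lib.Helper83.RootSub2
open Cfsg.Agent.Lib.Helper83.Triple Cfsg.Agent.Lib.Helper83.Comp

/-- Let S be a set of abstract root subgroups of G and let A, B ∈ S lie in different connected components of the graph of rank one pairs on S, each component having more than one member. Then B is not a line partner of A. -/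
theorem result {G : Type*} [Group G] {S : Set (Subgroup G)} (hS : Cfsg.IsRootSubgroupSet S)
    {A B : Subgroup G} (hA : A ∈ S) (hB : B ∈ S)
    (hne : Cfsg.componentOf (Cfsg.FAdj S) S A ≠ Cfsg.componentOf (Cfsg.FAdj S) S B)
    (hA2 : ∃ A' ∈ Cfsg.componentOf (Cfsg.FAdj S) S A, A' ≠ A) (hB2 : ∃ B' ∈ Cfsg.componentOf (Cfsg.FAdj S) S B, B' ≠ B) :
    B ∉ Cfsg.linePartners S A := by
  classical
  intro hBL
  obtain ⟨⟨-, hBA, hcomm⟩, -, hcover, -⟩ := hBL
  have hcm : Cm A B := cm_iff_bot.mpr hcomm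
  have hroot : ∀ x ∈ A ⊔ B, x ≠ 1 → x ∈ Cfsg.rootElements S := by
    intro x hx hx1
    obtain ⟨C, hC, hxC⟩ := hcover x hx hx1
    exact ⟨hx1, C, hC.1, hxC⟩
  have hroot' : ∀ x ∈ B ⊔ A, x ≠ 1 → x ∈ Cfsg.rootElements S := by
    intro x hx hx1
    rw [sup_comm] at hx
    exact hroot x hx hx1
  obtain ⟨D, hD, hp⟩ := exists_partner_of_component hA2
  obtain ⟨D', hD', hp'⟩ := exists_partner_of_component hB2
  -- `D` is not a rank one partner of `B`, nor `D'` of `A`
  have hnDB : ¬ Cfsg.IsRankOnePair D B := by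
    intro h
    apply hne
    apply component_eq
    exact Relation.ReflTransGen.head ⟨hA, hD, hp⟩ (Relation.ReflTransGen.single ⟨hD, hB, h⟩)
  have hnD'A : ¬ Cfsg.IsRankOnePair D' A := by
    intro h
    apply hne
    apply (component_eq _).symm
    exact Relation.ReflTransGen.head ⟨hB, hD', hp'⟩ (Relation.ReflTransGen.single ⟨hD', hA, h⟩)
  -- a third member of `S` inside `AB`
  obtain ⟨a, ha, ha1⟩ := exists_mem_ne_one (hS.ne_bot A hA)
  obtain ⟨b, hb, hb1⟩ := exists_mem_ne_one (hS.ne_bot B hB)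
  have hinf : A ⊓ B = ⊥ := (inf_eq_bot_or_eq hS hA hD hp hB).resolve_right (fun h => hBA h.symm)
  have hab1 : a * b ≠ 1 := by
    intro h
    have : a = b⁻¹ := eq_inv_of_mul_eq_one_left h
    have h2 : a ∈ A ⊓ B := ⟨ha, this ▸ B.inv_mem hb⟩
    rw [hinf, Subgroup.mem_bot] at h2
    exact ha1 h2
  have habm : a * b ∈ A ⊔ B := Subgroup.mul_mem _ (Subgroup.mem_sup_left ha) (Subgroup.mem_sup_right hb)
  obtain ⟨E, ⟨hE, hEle⟩, habE⟩ := hcover (a * b) habm hab1
  have hEA : E ≠ A := by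
    intro h
    rw [h] at habE
    have h2 : b ∈ A := by
      have := A.mul_mem (A.inv_mem ha) habE
      simpa using this
    have h3 : b ∈ A ⊓ B := ⟨h2, hb⟩
    rw [hinf, Subgroup.mem_bot] at h3
    exact hb1 h3
  have hEB : E ≠ B := by
    intro h
    rw [h] at habE
    have h2 : a ∈ B := by
      have := B.mul_mem habE (B.inv_mem hb)
      simpa using this
    have h3 : a ∈ A ⊓ B := ⟨ha, h2⟩
    rw [hinf, Subgroup.mem_bot] at h3
    exact ha1 h3
  have h1 := rankOne_of_line hS hA hB hcm hroot hD hp hD' hp' hnDB hE hEle hEA hEB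
  have hEle' : E ≤ B ⊔ A := by rw [sup_comm]; exact hEle
  have h2 := rankOne_of_line hS hB hA hcm.symm hroot' hD' hp' hD hp hnD'A hE hEle' hEB hEA
  apply hne
  have e1 : Cfsg.componentOf (Cfsg.FAdj S) S A = Cfsg.componentOf (Cfsg.FAdj S) S E :=
    component_eq (Relation.ReflTransGen.head ⟨hA, hD, hp⟩ (Relation.ReflTransGen.single ⟨hD, hE, h1⟩))
  have e2 : Cfsg.componentOf (Cfsg.FAdj S) S B = Cfsg.componentOf (Cfsg.FAdj S) S E :=
    component_eq (Relation.ReflTransGen.head ⟨hB, hD', hp'⟩ (Relation.ReflTransGen.single ⟨hD', hE, h2⟩))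
  rw [e1, e2]

end Cfsg.Agent.S5031
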