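import Cfsg.Statements.S5032
-- import your own Cfsg.Agent.* helpers here
import Cfsg.Agent.Lib.Helper83.Comp
import Cfsg.Agent.S5029
import Cfsg.Agent.S5031

set_option autoImplicit false
open Cfsg

namespace Cfsg.Agent.S5032

open Cfsg.Agent.Lib.Helper83.RankOne Cfsg.Agent.Lib.Helper83.RootSub Cfsg.Agent.Lib.Helper83.RootSub2
open Cfsg.Agent.Lib.Helper83.Triple Cfsg.Agent.Lib.Helper83.Comp

theorem fadj_conj {G : Type*} [Group G] {S : Set (Subgroup G)} (hS : Cfsg.IsRootSubgroupSet S)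
    {X Y : Subgroup G} (h : Cfsg.FAdj S X Y) (g : G) :
    Cfsg.FAdj S (Cfsg.conjBy X g) (Cfsg.conjBy Y g) :=
  ⟨hS.conj_mem X h.1 g, hS.conj_mem Y h.2.1 g, isRankOnePair_conjBy h.2.2 g⟩

theorem rtg_conj {G : Type*} [Group G] {S : Set (Subgroup G)} (hS : Cfsg.IsRootSubgroupSet S)
    {X Y : Subgroup G} (h : Relation.ReflTransGen (Cfsg.FAdj S) X Y) (g : G) :
    Relation.ReflTransGen (Cfsg.FAdj S) (Cfsg.conjBy X g) (Cfsg.conjBy Y g) := by
  induction h with
  | refl => exact Relation.ReflTransGen.refl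
  | tail _ hbc ih => exact Relation.ReflTransGen.tail ih (fadj_conj hS hbc g)

theorem conj_of_rtg {G : Type*} [Group G] {S : Set (Subgroup G)}
    {X Y : Subgroup G} (h : Relation.ReflTransGen (Cfsg.FAdj S) X Y) :
    ∃ g : G, Y = Cfsg.conjBy X g := by
  induction h with
  | refl => exact ⟨1, (conjBy_one X).symm⟩
  | tail _ hbc ih =>
    obtain ⟨g, rfl⟩ := ih
    obtain ⟨x, -, hx⟩ := right_mem_unipotent hbc.2.2
    exact ⟨x * g, by rw [hx, conjBy_conjBy]⟩

theorem not_isolated {G : Type*} [Group G] {S : Set (Subgroup G)} {X D : Subgroup G}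
    (hX : X ∈ S) (hD : D ∈ S) (hp : Cfsg.IsRankOnePair X D) :
    ¬ Cfsg.IsIsolatedIn (Cfsg.FAdj S) S X :=
  fun h => (h.2 D).1 ⟨hX, hD, hp⟩

/-- A component invariant under all members not in it and with all outside members commuting
with its members is invariant under the whole group. -/
theorem comp_invariant {G : Type*} [Group G] {S : Set (Subgroup G)} (hS : Cfsg.IsRootSubgroupSet S)
    {A : Subgroup G}
    (hall : ∀ A' ∈ Cfsg.componentOf (Cfsg.FAdj S) S A, ∀ C ∈ S,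
      C ∉ Cfsg.componentOf (Cfsg.FAdj S) S A → Cm A' C) (g : G) :
    ∀ X ∈ Cfsg.componentOf (Cfsg.FAdj S) S A, Cfsg.conjBy X g ∈ Cfsg.componentOf (Cfsg.FAdj S) S A := by
  let H : Subgroup G :=
    { carrier := {g | ∀ X ∈ Cfsg.componentOf (Cfsg.FAdj S) S A,
        Cfsg.conjBy X g ∈ Cfsg.componentOf (Cfsg.FAdj S) S A ∧
        Cfsg.conjBy X g⁻¹ ∈ Cfsg.componentOf (Cfsg.FAdj S) S A}
      one_mem' := by
        intro X hX
        simp only [inv_one, conjBy_one]
        exact ⟨hX, hX⟩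
      mul_mem' := by
        intro x y hx hy X hX
        refine ⟨?_, ?_⟩
        · rw [← conjBy_conjBy]
          exact (hx _ (hy X hX).1).1
        · rw [mul_inv_rev, ← conjBy_conjBy]
          exact (hy _ (hx X hX).2).2
      inv_mem' := by
        intro x hx X hX
        rw [inv_inv]
        exact ⟨(hx X hX).2, (hx X hX).1⟩ }
  have hle : ∀ C ∈ S, C ≤ H := by
    intro C hC c hc
    have key : ∀ c ∈ C, ∀ X ∈ Cfsg.componentOf (Cfsg.FAdj S) S A,
        Cfsg.conjBy X c ∈ Cfsg.componentOf (Cfsg.FAdj S) S A := by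
      intro c hc X hX
      by_cases hCΔ : C ∈ Cfsg.componentOf (Cfsg.FAdj S) S A
      · have h1 : Relation.ReflTransGen (Cfsg.FAdj S) C X := (rtg_symm hCΔ.2).trans hX.2
        have h2 := rtg_conj hS h1 c
        rw [conjBy_of_mem hc] at h2
        exact ⟨hS.conj_mem X hX.1 c, hCΔ.2.trans h2⟩
      · have h1 : Cm C X := (hall X hX C hC hCΔ).symm
        rw [h1.conjBy_eq hc]
        exact hX
    intro X hX
    exact ⟨key c hc X hX, key c⁻¹ (C.inv_mem hc) X hX⟩
  have htop : H = ⊤ := by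
    rw [eq_top_iff, ← hS.generates]
    exact iSup₂_le hle
  have hg : g ∈ H := by rw [htop]; trivial
  intro X hX
  exact (hg X hX).1

/-- Let S be a set of abstract root subgroups of G with more than one member. Then the graph of rank one pairs on S is connected if and only if S is a single conjugacy class of G and some member of S has a rank one partner in S. -/
theorem result {G : Type*} [Group G] {S : Set (Subgroup G)} (hS : Cfsg.IsRootSubgroupSet S) (h2 : ∃ A ∈ S, ∃ B ∈ S, A ≠ B) :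
    Cfsg.IsConnectedFamily (Cfsg.FAdj S) S ↔
      (Cfsg.IsConjClassOfSubgroups S ∧ ∃ A ∈ S, ¬ Cfsg.IsIsolatedIn (Cfsg.FAdj S) S A) := by
  classical
  constructor
  · intro hconn
    refine ⟨⟨?_, ?_⟩, ?_⟩
    · obtain ⟨A, hA, -⟩ := h2
      exact ⟨A, hA⟩
    · intro A hA B hB
      exact conj_of_rtg (hconn A hA B hB)
    · obtain ⟨A, hA, B, hB, hAB⟩ := h2
      refine ⟨A, hA, ?_⟩
      rcases Relation.ReflTransGen.cases_head (hconn A hA B hB) with h | ⟨C, hC, -⟩
      · exact absurd h hAB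
      · exact fun h => (h.2 C).1 hC
  · rintro ⟨⟨-, hconj⟩, A₀, hA₀, hA₀iso⟩
    obtain ⟨D₀, hD₀, hp₀⟩ := exists_partner hA₀ hA₀iso
    -- every member has a rank one partner
    have hpart : ∀ X ∈ S, ∃ D ∈ S, Cfsg.IsRankOnePair X D := by
      intro X hX
      obtain ⟨g, rfl⟩ := hconj A₀ hA₀ X hX
      exact ⟨Cfsg.conjBy D₀ g, hS.conj_mem D₀ hD₀ g, isRankOnePair_conjBy hp₀ g⟩
    have hcomp2 : ∀ X ∈ S, ∃ X' ∈ Cfsg.componentOf (Cfsg.FAdj S) S X, X' ≠ X := by
      intro X hX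
      obtain ⟨D, hD, hp⟩ := hpart X hX
      exact ⟨D, ⟨hD, Relation.ReflTransGen.single ⟨hX, hD, hp⟩⟩, hp.ne.symm⟩
    intro A hA B hB
    by_contra hAB
    -- some member outside the component of `A` does not commute with a member of it
    have hex : ∃ A' ∈ Cfsg.componentOf (Cfsg.FAdj S) S A, ∃ C ∈ S,
        C ∉ Cfsg.componentOf (Cfsg.FAdj S) S A ∧ ¬ Cm A' C := by
      by_contra hcon
      push Not at hcon
      obtain ⟨g, rfl⟩ := hconj A hA B hB
      have hAΔ : A ∈ Cfsg.componentOf (Cfsg.FAdj S) S A := ⟨hA, Relation.ReflTransGen.refl⟩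
      exact hAB (comp_invariant hS hcon g A hAΔ).2
    obtain ⟨A', hA', C, hC, hCΔ, hnc⟩ := hex
    have hcc : Cfsg.RootCommutatorCase S A' C := by
      rcases hS.pair A' hA'.1 C hC with h | h | h
      · exact absurd (cm_iff_bot.mpr h) hnc
      · exact absurd ⟨hC, hA'.2.tail ⟨hA'.1, hC, h⟩⟩ hCΔ
      · exact h
    obtain ⟨D, hD, hpD⟩ := hpart A' hA'.1
    obtain ⟨D', hD', hpD'⟩ := hpart C hC
    have hF : ⁅A', C⁆ ∈ S := hcc.1
    have hF' : ⁅C, A'⁆ ∈ S := by rw [Subgroup.commutator_comm]; exact hF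
    have hl1 : A' ∈ Cfsg.linePartners S ⁅A', C⁆ :=
      (Cfsg.Agent.S5029.result hS (not_isolated hA'.1 hD hpD) hA'.1 hC hF).2.2.1
    have hl2 : C ∈ Cfsg.linePartners S ⁅A', C⁆ := by
      have := (Cfsg.Agent.S5029.result hS (not_isolated hC hD' hpD') hC hA'.1 hF').2.2.1
      rwa [Subgroup.commutator_comm] at this
    have e1 : Cfsg.componentOf (Cfsg.FAdj S) S ⁅A', C⁆ = Cfsg.componentOf (Cfsg.FAdj S) S A' := by
      by_contra hne
      exact Cfsg.Agent.S5031.result hS hF hA'.1 hne (hcomp2 _ hF) (hcomp2 _ hA'.1) hl1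
    have e2 : Cfsg.componentOf (Cfsg.FAdj S) S ⁅A', C⁆ = Cfsg.componentOf (Cfsg.FAdj S) S C := by
      by_contra hne
      exact Cfsg.Agent.S5031.result hS hF hC hne (hcomp2 _ hF) (hcomp2 _ hC) hl2
    have hCC : C ∈ Cfsg.componentOf (Cfsg.FAdj S) S C := ⟨hC, Relation.ReflTransGen.refl⟩
    rw [← e2, e1] at hCC
    exact hCΔ ⟨hC, hA'.2.trans hCC.2⟩

end Cfsg.Agent.S5032
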