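import Cfsg.Statements.S5034
-- import your own Cfsg.Agent.* helpers here
import Cfsg.Agent.Lib.Helper83.Line
import Cfsg.Agent.Lib.Helper83.Special

set_option autoImplicit false
open Cfsg

namespace Cfsg.Agent.S5034

open Cfsg.Agent.Lib.Helper83.RankOne Cfsg.Agent.Lib.Helper83.RootSub Cfsg.Agent.Lib.Helper83.RootSub2
open Cfsg.Agent.Lib.Helper83.Triple Cfsg.Agent.Lib.Helper83.Comp Cfsg.Agent.Lib.Helper83.Line
open Cfsg.Agent.Lib.Helper83.Special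
open scoped commutatorElement

theorem linePartners_symm {G : Type*} [Group G] {S : Set (Subgroup G)} {A C : Subgroup G}
    (hC : C ∈ S) (h : A ∈ Cfsg.linePartners S C) : C ∈ Cfsg.linePartners S A := by
  obtain ⟨⟨-, hAC, hcomm⟩, hpart⟩ := h
  refine ⟨⟨hC, hAC.symm, ?_⟩, ?_⟩
  · rw [Subgroup.commutator_comm]; exact hcomm
  · rw [sup_comm]; exact hpart

/-- Let S be a non-degenerate class of abstract root subgroups of G, A ∈ S and B a rank one partner of A. Then some line partner C of A has ⁅B, C⁆ ∈ S, and the rank one pair A, B is special. -/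
theorem result {G : Type*} [Group G] {S : Set (Subgroup G)} (hS : Cfsg.IsRootSubgroupClass S) (hnd : Cfsg.IsNondegenerateRootSet S)
    {A B : Subgroup G} (hA : A ∈ S) (hB : B ∈ Cfsg.rankOnePartners S A) :
    (∃ C ∈ Cfsg.linePartners S A, C ∈ Cfsg.commutatorPartners S B) ∧ Cfsg.IsSpecialRankOnePair A B := by
  obtain ⟨hS, -, hconj⟩ := hS
  obtain ⟨-, ⟨A₀, hA₀, D₀, hD₀, hp₀⟩, ⟨A₁, hA₁, B₁, hB₁, hc₁⟩⟩ := hnd
  have hni : ∀ X ∈ S, ∃ D ∈ S, Cfsg.IsRankOnePair X D := by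
    intro X hX
    obtain ⟨g, rfl⟩ := hconj A₀ hA₀ X hX
    exact ⟨Cfsg.conjBy D₀ g, hS.conj_mem D₀ hD₀ g, isRankOnePair_conjBy hp₀ g⟩
  obtain ⟨hBS, hp⟩ := hB
  -- a line partner of `A`
  obtain ⟨g, hg⟩ := hconj A₁ hA₁ A hA
  have hF₀S : ⁅A, Cfsg.conjBy B₁ g⁆ ∈ S := by
    have e : ⁅Cfsg.conjBy A₁ g, Cfsg.conjBy B₁ g⁆ = Cfsg.conjBy ⁅A₁, B₁⁆ g :=
      (Subgroup.map_commutator A₁ B₁ _).symm
    rw [hg, e]
    exact hS.conj_mem _ hc₁.1 g
  have h29 := Cfsg.Agent.S5029.result hS (not_isolated_of_partner hA hBS hp) hA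
    (hS.conj_mem B₁ hB₁ g) hF₀S
  have hF₀ : ⁅A, Cfsg.conjBy B₁ g⁆ ∈ Cfsg.linePartners S A := linePartners_symm hF₀S h29.2.2.1
  obtain ⟨E, hE, hEA, hc, hcAF, hEq, hsup, -⟩ := line_structure hS hni hA hF₀ hBS hp
  have cAA : Cm A A := cm_self_of_comm (hS.commutative A hA)
  have cAF₀ : Cm A ⁅A, Cfsg.conjBy B₁ g⁆ := cm_iff_bot.mpr hF₀.1.2.2
  have cAE : Cm A E := (cAA.sup_right cAF₀).mono le_rfl hE.2
  refine ⟨⟨E, ⟨⟨hE.1, hEA, cm_iff_bot.mp cAE⟩, ?_⟩, hE.1, hc.1⟩, ?_⟩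
  · rw [hsup]; exact hF₀.2
  -- the pair is special
  have cFB : Cm ⁅B, E⁆ B := (commCase_cm hc).mono le_rfl le_sup_left
  have cFE : Cm ⁅B, E⁆ E := (commCase_cm hc).mono le_rfl le_sup_right
  have cEE : Cm E E := cm_self_of_comm (hS.commutative E hE.1)
  have cFF : Cm ⁅B, E⁆ ⁅B, E⁆ := cm_self_of_comm (hS.commutative _ hc.1)
  have hV : Cm (E ⊔ ⁅B, E⁆) (E ⊔ ⁅B, E⁆) :=
    (cEE.sup_right cFE.symm).sup_left (cFE.sup_right cFF)
  have hnA : A ≤ Subgroup.normalizer ((E ⊔ ⁅B, E⁆ : Subgroup G) : Set G) := by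
    apply le_normalizer_of_conj_le
    intro a ha
    rw [conjBy_sup, cAE.conjBy_eq ha]
    have h1 : Cfsg.conjBy ⁅B, E⁆ a ≤ ⁅A, ⁅B, E⁆⁆ ⊔ ⁅B, E⁆ := conjBy_le_commutator_sup ha
    rw [hEq] at h1
    exact sup_le le_sup_left h1
  have hnB : B ≤ Subgroup.normalizer ((E ⊔ ⁅B, E⁆ : Subgroup G) : Set G) := by
    apply le_normalizer_of_conj_le
    intro b hb
    rw [conjBy_sup, cFB.symm.conjBy_eq hb]
    have h1 : Cfsg.conjBy E b ≤ ⁅B, E⁆ ⊔ E := conjBy_le_commutator_sup hb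
    exact sup_le (h1.trans (sup_le le_sup_right le_sup_left)) le_sup_right
  have hAV : ⁅A, E ⊔ ⁅B, E⁆⁆ ≤ E := by
    apply commutator_le_of_sup cEE.le_normalizer cFE.le_normalizer
    · rw [cm_iff_bot.mp cAE]; exact bot_le
    · rw [hEq]
  apply special_of_module hp hV hnA hnB
  · intro a ha a' ha' v hv
    have h1 : a * v * a⁻¹ * v⁻¹ ∈ E := hAV (Subgroup.commutator_mem_commutator ha hv)
    exact cAE a' ha' _ h1
  · obtain ⟨a, ha, ha1⟩ := exists_mem_ne_one (hS.ne_bot A hA)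
    obtain ⟨f, hf, hfa⟩ := exists_noncomm_right hS hcAF ha ha1
    have he : a * f * a⁻¹ * f⁻¹ ∈ E := by
      have := Subgroup.commutator_mem_commutator ha hf
      rwa [hEq] at this
    have he1 : a * f * a⁻¹ * f⁻¹ ≠ 1 := by
      intro h
      apply hfa
      have : a * f = (a * f * a⁻¹ * f⁻¹) * (f * a) := by group
      rw [this, h, one_mul]
    obtain ⟨b, hb, hbe⟩ := exists_noncomm_left hS hc he he1
    exact ⟨a, Subgroup.mem_sup_left ha, b, Subgroup.mem_sup_right hb, f,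
      Subgroup.mem_sup_right hf, hbe⟩

end Cfsg.Agent.S5034
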