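import Cfsg.Statements.S4457
import Cfsg.Agent.Lib.Helper3.TDPow
import Cfsg.Agent.Lib.Helper3.TDUniq

set_option autoImplicit false
open Cfsg

namespace Cfsg.Agent.S4457

open Cfsg.Agent.Lib.Helper3.TDBasic Cfsg.Agent.Lib.Helper3.TDFrob Cfsg.Agent.Lib.Helper3.TDPow
open Cfsg.Agent.Lib.Helper3.TDUniq
open scoped commutatorElement

/-- Let G be a finite group whose irreducible character degrees are exactly 1 and m (m ≠ 1). Then either G has an abelian normal subgroup of index m, or m is a power of a prime p and G is the direct product of a p-group and an abelian group: there are normal subgroups P and A with P a p-group, A abelian, P ⊓ A = 1 and P ⊔ A = G. -/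
theorem result {G : Type*} [Group G] [Finite G] (m : ℕ) (hcd : ∀ χ : Cfsg.IrrCharacter G, Cfsg.charDegree (χ : G → ℂ) = 1 ∨ Cfsg.charDegree (χ : G → ℂ) = m) (hm : ∃ χ : Cfsg.IrrCharacter G, Cfsg.charDegree (χ : G → ℂ) = m) (hm1 : m ≠ 1) : (∃ A : Subgroup G, A.Normal ∧ (∀ a ∈ A, ∀ b ∈ A, a * b = b * a) ∧ A.index = m) ∨ ∃ p e : ℕ, p.Prime ∧ m = p ^ e ∧ ∃ P A : Subgroup G, P.Normal ∧ A.Normal ∧ IsPGroup p P ∧ (∀ a ∈ A, ∀ b ∈ A, a * b = b * a) ∧ P ⊓ A = ⊥ ∧ P ⊔ A = ⊤ := by
  classical
  have hne : commutator G ≠ ⊥ := by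
    intro hbot
    obtain ⟨χ, hχ⟩ := hm
    apply hm1
    rw [← hχ]
    apply charDegree_of_apply_one
    apply Cfsg.Agent.Lib.Helper3.MGroup.apply_one_eq_one_of_comm χ.2
    intro a b
    have h1 : ⁅a, b⁆ ∈ commutator G := by
      rw [commutator_def]
      exact Subgroup.commutator_mem_commutator (Subgroup.mem_top a) (Subgroup.mem_top b)
    rw [hbot, Subgroup.mem_bot] at h1
    rw [h1]
  have hsolv := solvable_of_two_degrees m hcd
  obtain ⟨K, p, hKn, hKc, hp, hcase⟩ := exists_section hsolv hne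
  haveI := hKn
  rcases hcase with ⟨j, hj⟩ | ⟨N, hNn, hKN, hcN, hNtop, hpN, hrel, hlt, hab, hfree⟩
  · have hβ : ∃ β : IrrCharacter (G ⧸ K), charDegree (β : G ⧸ K → ℂ) ≠ 1 := by
      by_contra h
      push Not at h
      apply hKc
      have hcomm := comm_of_forall_degree_one h
      rw [commutator_def, Subgroup.commutator_le]
      intro a _ b _
      apply (QuotientGroup.eq_one_iff _).1
      rw [commutatorElement_def, QuotientGroup.mk_mul, QuotientGroup.mk_mul, QuotientGroup.mk_mul,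
        QuotientGroup.mk_inv, QuotientGroup.mk_inv, hcomm (a : G ⧸ K) b]
      group
    obtain ⟨β, hβ⟩ := hβ
    have hβm : charDegree (β : G ⧸ K → ℂ) = m := by
      rcases hcd (infl K β) with h | h
      · exact absurd h hβ
      · exact h
    have hdvd : m ∣ p ^ j := by
      rw [← hβm, ← hj, Subgroup.index_eq_card]
      exact Cfsg.Agent.Lib.Helper80.Integrality.charDegree_dvd_card β
    obtain ⟨e, -, he⟩ := (Nat.dvd_prime_pow hp).1 hdvd
    rcases prime_power_case m hm1 hcd p hp e he with h | h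
    · exact Or.inl h
    · exact Or.inr ⟨p, e, hp, he, h⟩
  · left
    obtain ⟨h1, h2⟩ := frobenius_section m hcd K N hKn hNn hKN hNtop p hp hpN hrel hlt hab hfree
    exact ⟨N, hNn, h2, h1.symm⟩

end Cfsg.Agent.S4457
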