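import Cfsg.Statements.S4458
import Cfsg.Agent.S4457
import Cfsg.Agent.S0176
import Cfsg.Agent.Lib.Helper3.TDTak

set_option autoImplicit false
open Cfsg

namespace Cfsg.Agent.S4458

open Cfsg.Agent.Lib.Helper3.TDBasic Cfsg.Agent.Lib.Helper3.TDTak
open scoped commutatorElement

/-- If a finite group has exactly two irreducible character degrees, 1 and m with m ≠ 1, then its commutator subgroup is abelian. -/
theorem result {G : Type*} [Group G] [Finite G] (m : ℕ) (hcd : ∀ χ : Cfsg.IrrCharacter G, Cfsg.charDegree (χ : G → ℂ) = 1 ∨ Cfsg.charDegree (χ : G → ℂ) = m) (hm : ∃ χ : Cfsg.IrrCharacter G, Cfsg.charDegree (χ : G → ℂ) = m) (hm1 : m ≠ 1) : ∀ a ∈ commutator G, ∀ b ∈ commutator G, a * b = b * a := by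
  classical
  rcases Cfsg.Agent.S4457.result m hcd hm hm1 with
    ⟨A, hAn, hAab, hAidx⟩ | ⟨p, e, hp, hme, P, A, hPn, hAn, hPp, hAab, hinf, hsup⟩
  · have hle := commutator_le_of_index m hm1 hcd A hAidx
    intro a ha b hb
    exact hAab a (hle ha) b (hle hb)
  · haveI := hPn
    haveI := hAn
    haveI : Fact p.Prime := ⟨hp⟩
    have hdec : ∀ g : G, ∃ x ∈ P, ∃ y ∈ A, g = x * y := by
      intro g
      have hg : g ∈ ((P ⊔ A : Subgroup G) : Set G) := by
        rw [hsup]
        trivial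
      rw [Subgroup.normal_mul] at hg
      obtain ⟨x, hx, y, hy, rfl⟩ := Set.mem_mul.1 hg
      exact ⟨x, hx, y, hy, rfl⟩
    have hGP : commutator G ≤ P := by
      rw [commutator_def, Subgroup.commutator_le]
      intro g₁ _ g₂ _
      obtain ⟨x₁, hx₁, y₁, hy₁, rfl⟩ := hdec g₁
      obtain ⟨x₂, hx₂, y₂, hy₂, rfl⟩ := hdec g₂
      apply (QuotientGroup.eq_one_iff _).1
      rw [commutatorElement_def]
      have e1 : ((x₁ * y₁ : G) : G ⧸ P) = (y₁ : G ⧸ P) := by
        rw [QuotientGroup.mk_mul, (QuotientGroup.eq_one_iff x₁).2 hx₁, one_mul]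
      have e2 : ((x₂ * y₂ : G) : G ⧸ P) = (y₂ : G ⧸ P) := by
        rw [QuotientGroup.mk_mul, (QuotientGroup.eq_one_iff x₂).2 hx₂, one_mul]
      have e3 : (y₁ : G ⧸ P) * (y₂ : G ⧸ P) = (y₂ : G ⧸ P) * (y₁ : G ⧸ P) := by
        rw [← QuotientGroup.mk_mul, hAab y₁ hy₁ y₂ hy₂, QuotientGroup.mk_mul]
      rw [QuotientGroup.mk_mul, QuotientGroup.mk_mul, QuotientGroup.mk_mul, QuotientGroup.mk_inv,
        QuotientGroup.mk_inv, e1, e2, e3]
      group
    have hQp : IsPGroup p (G ⧸ A) := by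
      intro q
      obtain ⟨g, rfl⟩ := QuotientGroup.mk_surjective q
      obtain ⟨x, hx, y, hy, rfl⟩ := hdec g
      obtain ⟨k, hk⟩ := hPp ⟨x, hx⟩
      refine ⟨k, ?_⟩
      have h1 : ((x * y : G) : G ⧸ A) = (x : G ⧸ A) := by
        rw [QuotientGroup.mk_mul, (QuotientGroup.eq_one_iff y).2 hy, mul_one]
      have h2 : x ^ p ^ k = 1 := congrArg Subtype.val hk
      rw [h1, ← QuotientGroup.mk_pow, h2]
      rfl
    haveI : Fintype (G ⧸ A) := Fintype.ofFinite _
    haveI : Group.IsNilpotent (G ⧸ A) := hQp.isNilpotent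
    have hQ := mgroup_two_degrees (G := G ⧸ A) m hm1 (fun β => hcd (infl A β))
      (fun χ hχ => Cfsg.Agent.S0176.result χ hχ)
    intro a ha b hb
    have hmap : ∀ g ∈ commutator G, (g : G ⧸ A) ∈ commutator (G ⧸ A) := by
      intro g hg
      have h1 : commutator G ≤ (commutator (G ⧸ A)).comap (QuotientGroup.mk' A) := by
        rw [commutator_def, Subgroup.commutator_le]
        intro g₁ _ g₂ _
        rw [Subgroup.mem_comap, map_commutatorElement, commutator_def]
        exact Subgroup.commutator_mem_commutator (Subgroup.mem_top _) (Subgroup.mem_top _)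
      exact h1 hg
    have h1 := hQ (a : G ⧸ A) (hmap a ha) (b : G ⧸ A) (hmap b hb)
    have h2 : (b * a)⁻¹ * (a * b) ∈ A := by
      apply QuotientGroup.eq.1
      rw [QuotientGroup.mk_mul, QuotientGroup.mk_mul]
      exact h1.symm
    have h3 : (b * a)⁻¹ * (a * b) ∈ P :=
      P.mul_mem (P.inv_mem (P.mul_mem (hGP hb) (hGP ha))) (P.mul_mem (hGP ha) (hGP hb))
    have h4 : (b * a)⁻¹ * (a * b) ∈ P ⊓ A := ⟨h3, h2⟩
    rw [hinf, Subgroup.mem_bot] at h4
    exact (inv_mul_eq_one.1 h4).symm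

end Cfsg.Agent.S4458
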