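import Mathlib
import Cfsg.Statements.S5366

set_option autoImplicit false
open Cfsg

namespace Cfsg.Agent.S5366

open Cfsg.LineSystem

variable {X : Type*}

/-- `z` is the third point of the line through the different points `x`, `y` -/
def Third (L : Set (Set X)) (x y z : X) : Prop :=
  z ≠ x ∧ z ≠ y ∧ x ≠ y ∧ ({x, y, z} : Set X) ∈ L

/-- the graph of the map `t(x)` -/
def TRel (L : Set (Set X)) (x y z : X) : Prop :=
  Third L x y z ∨ (z = y ∧ ∀ w, ¬ Third L x y w)

theorem tRel_lineMap (L : Set (Set X)) (x y : X) : TRel L x y (lineMap L x y) := by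
  by_cases h : ∃ z : X, z ≠ x ∧ z ≠ y ∧ x ≠ y ∧ ({x, y, z} : Set X) ∈ L
  · have e : lineMap L x y = h.choose := dif_pos h
    rw [e]
    exact Or.inl h.choose_spec
  · have e : lineMap L x y = y := dif_neg h
    rw [e]
    exact Or.inr ⟨rfl, fun w hw => h ⟨w, hw⟩⟩

theorem third_unique {L : Set (Set X)} (hpl : IsPartialLinear L) {x y z z' : X}
    (h : Third L x y z) (h' : Third L x y z') : z = z' := by
  obtain ⟨hzx, hzy, hxy, hl⟩ := h
  obtain ⟨hzx', hzy', -, hl'⟩ := h'
  have e := hpl _ hl _ hl' x y hxy (by simp) (by simp) (by simp) (by simp)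
  have h1 : z' ∈ ({x, y, z} : Set X) := by rw [e]; simp
  simp only [Set.mem_insert_iff, Set.mem_singleton_iff] at h1
  rcases h1 with h | h | h
  · exact absurd h hzx'
  · exact absurd h hzy'
  · exact h.symm

theorem tRel_unique {L : Set (Set X)} (hpl : IsPartialLinear L) {x y z z' : X}
    (h : TRel L x y z) (h' : TRel L x y z') : z = z' := by
  rcases h with h | ⟨rfl, hn⟩
  · rcases h' with h' | ⟨rfl, hn'⟩
    · exact third_unique hpl h h'
    · exact absurd h (hn' _)
  · rcases h' with h' | ⟨rfl, hn'⟩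
    · exact absurd h' (hn _)
    · rfl

theorem lineMap_eq_iff {L : Set (Set X)} (hpl : IsPartialLinear L) {x y z : X} :
    lineMap L x y = z ↔ TRel L x y z :=
  ⟨fun h => h ▸ tRel_lineMap L x y, fun h => tRel_unique hpl (tRel_lineMap L x y) h⟩

theorem Third.swap_right {L : Set (Set X)} {x y z : X} (h : Third L x y z) : Third L x z y := by
  obtain ⟨hzx, hzy, hxy, hl⟩ := h
  refine ⟨hxy.symm, hzy.symm, hzx.symm, ?_⟩
  rw [Set.pair_comm z y]
  exact hl

theorem Third.swap_left {L : Set (Set X)} {x y z : X} (h : Third L x y z) : Third L y x z := by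
  obtain ⟨hzx, hzy, hxy, hl⟩ := h
  refine ⟨hzy, hzx, hxy.symm, ?_⟩
  rw [Set.insert_comm y x]
  exact hl

theorem tRel_symm {L : Set (Set X)} {x y z : X} (h : TRel L x y z) : TRel L x z y := by
  rcases h with h | ⟨rfl, hn⟩
  · exact Or.inl h.swap_right
  · exact Or.inr ⟨rfl, hn⟩

theorem tRel_self (L : Set (Set X)) (x : X) : TRel L x x x :=
  Or.inr ⟨rfl, fun _ hw => hw.2.2.1 rfl⟩

theorem lineMap_involutive {L : Set (Set X)} (hpl : IsPartialLinear L) (x : X) :
    Function.Involutive (lineMap L x) := fun y =>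
  (lineMap_eq_iff hpl).mpr (tRel_symm (tRel_lineMap L x y))

/-- the permutation `t(x)` -/
noncomputable def tPerm (L : Set (Set X)) (hpl : IsPartialLinear L) (x : X) : Equiv.Perm X :=
  (lineMap_involutive hpl x).toPerm (lineMap L x)

theorem tPerm_apply (L : Set (Set X)) (hpl : IsPartialLinear L) (x y : X) :
    tPerm L hpl x y = lineMap L x y := rfl

theorem exists_third_of_mem {L : Set (Set X)} (h3 : ∀ l ∈ L, l.ncard = 3) {l : Set X}
    (hl : l ∈ L) {x y : X} (hx : x ∈ l) (hy : y ∈ l) (hxy : x ≠ y) :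
    ∃ z, Third L x y z ∧ l = {x, y, z} := by
  obtain ⟨a, b, c, hab, hac, hbc, hl3⟩ := Set.ncard_eq_three.mp (h3 l hl)
  rw [hl3] at hx hy
  simp only [Set.mem_insert_iff, Set.mem_singleton_iff] at hx hy
  have key : ∀ z, z ≠ x → z ≠ y → ({x, y, z} : Set X) = {a, b, c} →
      ∃ z, Third L x y z ∧ l = {x, y, z} :=
    fun z h1 h2 e => ⟨z, ⟨h1, h2, hxy, by rw [e, ← hl3]; exact hl⟩, by rw [e, hl3]⟩
  have hset : ∀ u v w : X, ({u, v, w} : Set X) = {a, b, c} ↔
      ∀ t, (t = u ∨ t = v ∨ t = w) ↔ (t = a ∨ t = b ∨ t = c) := by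
    intro u v w
    rw [Set.ext_iff]
    simp only [Set.mem_insert_iff, Set.mem_singleton_iff]
  rcases hx with hx | hx | hx <;> rcases hy with hy | hy | hy
  · exact absurd (hx.trans hy.symm) hxy
  · exact key c (by rw [hx]; exact hac.symm) (by rw [hy]; exact hbc.symm) (by rw [hx, hy])
  · exact key b (by rw [hx]; exact hab.symm) (by rw [hy]; exact hbc)
      (by rw [hx, hy, hset]; intro t; tauto)
  · exact key c (by rw [hx]; exact hbc.symm) (by rw [hy]; exact hac.symm)
      (by rw [hx, hy, hset]; intro t; tauto)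
  · exact absurd (hx.trans hy.symm) hxy
  · exact key a (by rw [hx]; exact hab) (by rw [hy]; exact hac)
      (by rw [hx, hy, hset]; intro t; tauto)
  · exact key b (by rw [hx]; exact hbc) (by rw [hy]; exact hab.symm)
      (by rw [hx, hy, hset]; intro t; tauto)
  · exact key a (by rw [hx]; exact hac) (by rw [hy]; exact hab)
      (by rw [hx, hy, hset]; intro t; tauto)
  · exact absurd (hx.trans hy.symm) hxy

/-! ### Transfer along subspaces and isomorphisms -/

theorem third_mem_subspace {L : Set (Set X)} {P : Set X} (hP : IsSubspace L P) {x y w : X}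
    (hx : x ∈ P) (hy : y ∈ P) (h : Third L x y w) : w ∈ P :=
  hP _ h.2.2.2 x hx y hy h.2.2.1 (by simp) (by simp) (by simp)

theorem third_restrict_iff {L : Set (Set X)} {P : Set X} (x y z : P) :
    Third (restrict L P) x y z ↔ Third L (x : X) (y : X) (z : X) := by
  constructor
  · rintro ⟨hzx, hzy, hxy, l, hl, hlP, heq⟩
    refine ⟨fun h => hzx (Subtype.ext h), fun h => hzy (Subtype.ext h),
      fun h => hxy (Subtype.ext h), ?_⟩
    have e : l = {(x : X), (y : X), (z : X)} := by
      ext q
      simp only [Set.mem_insert_iff, Set.mem_singleton_iff]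
      constructor
      · intro hq
        have h1 : (⟨q, hlP hq⟩ : P) ∈ ({x, y, z} : Set P) := by
          rw [heq]
          exact hq
        simp only [Set.mem_insert_iff, Set.mem_singleton_iff] at h1
        rcases h1 with h | h | h
        · exact Or.inl (congrArg Subtype.val h)
        · exact Or.inr (Or.inl (congrArg Subtype.val h))
        · exact Or.inr (Or.inr (congrArg Subtype.val h))
      · intro hq
        have hx : x ∈ ({x, y, z} : Set P) := by simp
        have hy : y ∈ ({x, y, z} : Set P) := by simp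
        have hz : z ∈ ({x, y, z} : Set P) := by simp
        rw [heq] at hx hy hz
        rcases hq with h | h | h
        · rw [h]; exact hx
        · rw [h]; exact hy
        · rw [h]; exact hz
    rw [← e]
    exact hl
  · rintro ⟨hzx, hzy, hxy, hl⟩
    refine ⟨fun h => hzx (congrArg Subtype.val h), fun h => hzy (congrArg Subtype.val h),
      fun h => hxy (congrArg Subtype.val h), {(x : X), (y : X), (z : X)}, hl, ?_, ?_⟩
    · intro q hq
      simp only [Set.mem_insert_iff, Set.mem_singleton_iff] at hq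
      rcases hq with h | h | h
      · rw [h]; exact x.2
      · rw [h]; exact y.2
      · rw [h]; exact z.2
    · ext q
      simp only [Set.mem_insert_iff, Set.mem_singleton_iff, Set.mem_ofPred_eq, Subtype.ext_iff]

theorem tRel_restrict_iff {L : Set (Set X)} {P : Set X} (hP : IsSubspace L P) (x y z : P) :
    TRel (restrict L P) x y z ↔ TRel L (x : X) (y : X) (z : X) := by
  unfold TRel
  rw [third_restrict_iff]
  have h1 : (∀ w : P, ¬ Third (restrict L P) x y w) ↔ ∀ w : X, ¬ Third L (x : X) (y : X) w := by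
    constructor
    · intro h w hw
      exact h ⟨w, third_mem_subspace hP x.2 y.2 hw⟩ ((third_restrict_iff x y _).mpr hw)
    · intro h w hw
      exact h w ((third_restrict_iff x y w).mp hw)
  rw [h1, Subtype.ext_iff]

theorem third_iso_iff {Y : Type*} {L : Set (Set X)} {N : Set (Set Y)} (e : X ≃ Y)
    (he : IsIso L N e) (x y z : X) : Third L x y z ↔ Third N (e x) (e y) (e z) := by
  unfold Third
  rw [he {x, y, z}, Set.image_insert_eq, Set.image_pair, e.injective.ne_iff, e.injective.ne_iff,
    e.injective.ne_iff]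

theorem tRel_iso_iff {Y : Type*} {L : Set (Set X)} {N : Set (Set Y)} (e : X ≃ Y)
    (he : IsIso L N e) (x y z : X) : TRel L x y z ↔ TRel N (e x) (e y) (e z) := by
  unfold TRel
  rw [third_iso_iff e he]
  have h1 : (∀ w : X, ¬ Third L x y w) ↔ ∀ w : Y, ¬ Third N (e x) (e y) w := by
    constructor
    · intro h w hw
      apply h (e.symm w)
      rw [third_iso_iff e he, e.apply_symm_apply]
      exact hw
    · intro h w hw
      exact h (e w) ((third_iso_iff e he x y w).mp hw)
  rw [h1, e.injective.eq_iff]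

/-- the property of a model plane that is transported: `t(x)` maps lines into lines -/
def ModelProp {Y : Type*} (N : Set (Set Y)) : Prop :=
  ∀ x' : Y, ∀ l' ∈ N, ∃ l'' ∈ N, ∀ y' ∈ l', ∀ z', TRel N x' y' z' → z' ∈ l''

theorem pres_of_model {Y : Type*} {L : Set (Set X)} (hpl : IsPartialLinear L)
    (h3 : ∀ l ∈ L, l.ncard = 3) {P : Set X} (hP : IsSubspace L P) {N : Set (Set Y)} (e : P ≃ Y)
    (he : IsIso (restrict L P) N e) (hN : ModelProp N) {x : X} (hx : x ∈ P) {l : Set X}
    (hl : l ∈ L) (hlP : l ⊆ P) : lineMap L x '' l ∈ L := by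
  have hl₀ : {p : P | (p : X) ∈ l} ∈ restrict L P := ⟨l, hl, hlP, rfl⟩
  have hl' := (he _).mp hl₀
  obtain ⟨l'', hl'', hmap⟩ := hN (e ⟨x, hx⟩) _ hl'
  have hk : e.symm '' l'' ∈ restrict L P := by
    rw [he, Equiv.image_symm_image]
    exact hl''
  obtain ⟨k, hkL, hkP, hkeq⟩ := hk
  have hsub : lineMap L x '' l ⊆ k := by
    rintro _ ⟨y, hy, rfl⟩
    have hz := tRel_lineMap L x y
    have hzP : lineMap L x y ∈ P := by
      rcases hz with h | ⟨h, -⟩
      · exact third_mem_subspace hP hx (hlP hy) h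
      · rw [h]; exact hlP hy
    have h1 : TRel (restrict L P) ⟨x, hx⟩ ⟨y, hlP hy⟩ ⟨lineMap L x y, hzP⟩ :=
      (tRel_restrict_iff hP _ _ _).mpr hz
    have h2 := (tRel_iso_iff e he _ _ _).mp h1
    have h3' : e ⟨lineMap L x y, hzP⟩ ∈ l'' := hmap _ ⟨⟨y, hlP hy⟩, hy, rfl⟩ _ h2
    have h4 : (⟨lineMap L x y, hzP⟩ : P) ∈ e.symm '' l'' := ⟨_, h3', e.symm_apply_apply _⟩
    rw [hkeq] at h4
    exact h4
  have hcard : k.ncard ≤ (lineMap L x '' l).ncard := by
    rw [Set.ncard_image_of_injective _ (lineMap_involutive hpl x).injective, h3 l hl, h3 k hkL]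
  have hfin : k.Finite := Set.finite_of_ncard_ne_zero (by rw [h3 k hkL]; norm_num)
  rw [Set.eq_of_subset_of_ncard_le hsub hcard hfin]
  exact hkL

/-! ### The two model planes -/

theorem zmod3_sum : ∀ a b c : ZMod 3, a ≠ b → a ≠ c → b ≠ c → a + b + c = 0 := by decide

theorem zmod3_cases : ∀ c : ZMod 3, c = 0 ∨ c = 1 ∨ c = 2 := by decide

theorem affine_line_mem (x y : Fin 2 → ZMod 3) (hxy : x ≠ y) :
    ({x, y, -x - y} : Set (Fin 2 → ZMod 3)) ∈ affinePlaneThree := by
  have h3 : (3 : ZMod 3) = 0 := by decide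
  have e2 : -x - y = x + (2 : ZMod 3) • (y - x) := by
    funext i
    simp only [Pi.add_apply, Pi.sub_apply, Pi.neg_apply, Pi.smul_apply, smul_eq_mul]
    linear_combination (-(y i)) * h3
  refine ⟨x, y - x, sub_ne_zero.mpr hxy.symm, ?_⟩
  ext p
  simp only [Set.mem_insert_iff, Set.mem_singleton_iff, Set.mem_ofPred_eq]
  constructor
  · rintro (h | h | h)
    · exact ⟨0, by rw [h]; simp⟩
    · exact ⟨1, by rw [h]; simp⟩
    · exact ⟨2, by rw [h, e2]⟩
  · rintro ⟨c, rfl⟩
    rcases zmod3_cases c with rfl | rfl | rfl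
    · left; simp
    · right; left; simp
    · right; right; rw [e2]

theorem affine_tRel {x y z : Fin 2 → ZMod 3} (h : TRel affinePlaneThree x y z) :
    z = -x - y := by
  have h3 : (3 : ZMod 3) = 0 := by decide
  rcases h with ⟨hzx, hzy, hxy, v, w, hw, heq⟩ | ⟨rfl, hn⟩
  · have hx : x ∈ ({x, y, z} : Set (Fin 2 → ZMod 3)) := by simp
    have hy : y ∈ ({x, y, z} : Set (Fin 2 → ZMod 3)) := by simp
    have hz : z ∈ ({x, y, z} : Set (Fin 2 → ZMod 3)) := by simp
    rw [heq] at hx hy hz
    obtain ⟨a, rfl⟩ := hx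
    obtain ⟨b, rfl⟩ := hy
    obtain ⟨c, rfl⟩ := hz
    have hab : a ≠ b := fun h => hxy (by rw [h])
    have hac : a ≠ c := fun h => hzx (by rw [h])
    have hbc : b ≠ c := fun h => hzy (by rw [h])
    have hsum := zmod3_sum a b c hab hac hbc
    funext i
    simp only [Pi.add_apply, Pi.sub_apply, Pi.neg_apply, Pi.smul_apply, smul_eq_mul]
    linear_combination (w i) * hsum + (v i) * h3
  · by_contra hne
    have hxy : x ≠ z := by
      intro h
      apply hne
      rw [h]
      funext i
      simp only [Pi.sub_apply, Pi.neg_apply]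
      linear_combination (z i) * h3
    refine hn (-x - z) ⟨?_, ?_, hxy, affine_line_mem x z hxy⟩
    · intro h
      apply hxy
      funext i
      have hi := congrFun h i
      simp only [Pi.sub_apply, Pi.neg_apply] at hi
      linear_combination hi + (x i) * h3
    · intro h
      apply hxy
      funext i
      have hi := congrFun h i
      simp only [Pi.sub_apply, Pi.neg_apply] at hi
      linear_combination (-1 : ZMod 3) * hi - (z i) * h3

theorem affine_model : ModelProp affinePlaneThree := by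
  rintro x l' ⟨v, w, hw, rfl⟩
  refine ⟨{p | ∃ c : ZMod 3, p = (-x - v) + c • (-w)}, ⟨-x - v, -w, neg_ne_zero.mpr hw, rfl⟩, ?_⟩
  rintro _ ⟨c, rfl⟩ z hz
  rw [affine_tRel hz]
  exact ⟨c, by rw [smul_neg]; abel⟩

/-- a decidable form of `Third` in the dual affine plane -/
def dThird (x y z : DualAffinePoint) : Prop :=
  z ≠ x ∧ z ≠ y ∧ x ≠ y ∧ ∃ i : Fin 4, i ∉ x.val ∧ i ∉ y.val ∧ i ∉ z.val

instance dThirdDecidable (x y z : DualAffinePoint) : Decidable (dThird x y z) := by
  unfold dThird; infer_instance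

set_option maxRecDepth 100000 in
set_option synthInstance.maxHeartbeats 400000 in
set_option synthInstance.maxSize 4096 in
theorem dual_line_three : ∀ (i : Fin 4) (x y z s : DualAffinePoint), (z ≠ x ∧ z ≠ y ∧ x ≠ y ∧
    i ∉ x.val ∧ i ∉ y.val ∧ i ∉ z.val ∧ i ∉ s.val) → s = x ∨ s = y ∨ s = z := by
  decide +kernel

set_option maxRecDepth 100000 in
set_option synthInstance.maxHeartbeats 400000 in
set_option synthInstance.maxSize 4096 in
theorem dual_model_dec : ∀ (x : DualAffinePoint) (i : Fin 4), ∃ j : Fin 4,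
    ∀ y : DualAffinePoint, i ∉ y.val → ∀ z, (dThird x y z ∨ (z = y ∧ ∀ w, ¬ dThird x y w)) →
      j ∉ z.val := by
  decide +kernel

theorem third_dual_iff (x y z : DualAffinePoint) :
    Third dualAffinePlaneTwo x y z ↔ dThird x y z := by
  constructor
  · rintro ⟨hzx, hzy, hxy, i, heq⟩
    have hx : x ∈ ({x, y, z} : Set DualAffinePoint) := by simp
    have hy : y ∈ ({x, y, z} : Set DualAffinePoint) := by simp
    have hz : z ∈ ({x, y, z} : Set DualAffinePoint) := by simp
    rw [heq] at hx hy hz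
    exact ⟨hzx, hzy, hxy, i, hx, hy, hz⟩
  · rintro ⟨hzx, hzy, hxy, i, hx, hy, hz⟩
    refine ⟨hzx, hzy, hxy, i, ?_⟩
    ext s
    simp only [Set.mem_insert_iff, Set.mem_singleton_iff, Set.mem_ofPred_eq]
    constructor
    · rintro (h | h | h)
      · rw [h]; exact hx
      · rw [h]; exact hy
      · rw [h]; exact hz
    · intro hs
      exact dual_line_three i x y z s ⟨hzx, hzy, hxy, hx, hy, hz, hs⟩

theorem dual_model : ModelProp dualAffinePlaneTwo := by
  rintro x l' ⟨i, rfl⟩
  obtain ⟨j, hj⟩ := dual_model_dec x i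
  refine ⟨{s | j ∉ s.val}, ⟨j, rfl⟩, ?_⟩
  intro y hy z hz
  apply hj y hy z
  rcases hz with h | ⟨h, hn⟩
  · exact Or.inl ((third_dual_iff x y z).mp h)
  · exact Or.inr ⟨h, fun w hw => hn w ((third_dual_iff x y w).mpr hw)⟩

/-! ### The maps `t(x)` preserve lines -/

theorem span_isSubspace (L : Set (Set X)) (S : Set X) : IsSubspace L (span L S) := by
  intro l hl x hx y hy hxy hxl hyl q hq
  rintro T ⟨hST, hT⟩
  exact hT l hl x (hx T ⟨hST, hT⟩) y (hy T ⟨hST, hT⟩) hxy hxl hyl hq

theorem subset_span (L : Set (Set X)) (S : Set X) : S ⊆ span L S :=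
  fun _ hq _ hT => hT.1 hq

theorem exists_ne_of_mem {L : Set (Set X)} (h3 : ∀ l ∈ L, l.ncard = 3) {l : Set X}
    (hl : l ∈ L) (x : X) : ∃ y ∈ l, y ≠ x := by
  obtain ⟨a, b, c, hab, hac, hbc, rfl⟩ := Set.ncard_eq_three.mp (h3 l hl)
  by_cases h : a = x
  · exact ⟨b, by simp, fun hb => hab (h.trans hb.symm)⟩
  · exact ⟨a, by simp, h⟩

theorem lineMap_pres {L : Set (Set X)} (hL : IsFischerSpace L) (x : X) {l : Set X}
    (hl : l ∈ L) : lineMap L x '' l ∈ L := by
  obtain ⟨hpl, h3, hplane⟩ := hL
  by_cases hxl : x ∈ l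
  · obtain ⟨y, hyl, hyx⟩ := exists_ne_of_mem h3 hl x
    obtain ⟨z, hz, rfl⟩ := exists_third_of_mem h3 hl hxl hyl (Ne.symm hyx)
    rw [Set.image_insert_eq, Set.image_pair, (lineMap_eq_iff hpl).mpr (tRel_self L x),
      (lineMap_eq_iff hpl).mpr (Or.inl hz), (lineMap_eq_iff hpl).mpr (Or.inl hz.swap_right),
      Set.pair_comm z y]
    exact hl
  · by_cases hcol : ∃ a ∈ l, ∃ w, Third L x a w
    · obtain ⟨a, hal, w, hw⟩ := hcol
      have hm : ({x, a, w} : Set X) ∈ L := hw.2.2.2
      have hne : l ≠ {x, a, w} := fun h => hxl (by rw [h]; simp)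
      have hP := span_isSubspace L (l ∪ {x, a, w})
      have hxP : x ∈ span L (l ∪ {x, a, w}) := subset_span L _ (Or.inr (by simp))
      have hlP : l ⊆ span L (l ∪ {x, a, w}) := fun q hq => subset_span L _ (Or.inl hq)
      rcases hplane l hl _ hm hne ⟨a, hal, by simp⟩ with ⟨e, he⟩ | ⟨e, he⟩
      · exact pres_of_model hpl h3 hP e he dual_model hxP hl hlP
      · exact pres_of_model hpl h3 hP e he affine_model hxP hl hlP
    · push Not at hcol
      have hfix : ∀ a ∈ l, lineMap L x a = a := fun a ha =>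
        (lineMap_eq_iff hpl).mpr (Or.inr ⟨rfl, hcol a ha⟩)
      rw [Set.image_congr hfix, Set.image_id']
      exact hl

/-- Let L be a nondegenerate Fischer space on the point type X (every point on a line). Then for every point x the map t(x) — sending a point collinear with x to the third point of their common line and fixing every other point — is a permutation of X of order 2 and an automorphism of the line system; and the set of all t(x) satisfies the 3-transposition order conditions in the permutation group of X (any two have product of order at most 3). -/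
theorem result {X : Type*} (L : Set (Set X)) (hL : Cfsg.IsFischerSpace L) (hnd : Cfsg.LineSystem.IsNondegenerate L) : (∀ x : X, ∃ σ : Equiv.Perm X, ⇑σ = Cfsg.LineSystem.lineMap L x ∧ orderOf σ = 2 ∧ Cfsg.LineSystem.IsIso L L σ) ∧ Cfsg.IsThreeTranspositionSet {σ : Equiv.Perm X | ∃ x : X, ⇑σ = Cfsg.LineSystem.lineMap L x} := by
  have hpl := hL.1
  have h3 := hL.2.1
  have hiso : ∀ x, IsIso L L (tPerm L hpl x) := by
    intro x l
    constructor
    · intro hl
      exact lineMap_pres hL x hl
    · intro h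
      have h2 := lineMap_pres hL x h
      have e : lineMap L x '' (tPerm L hpl x '' l) = l := by
        show lineMap L x '' (lineMap L x '' l) = l
        rw [Set.image_image]
        have hfix : ∀ a ∈ l, lineMap L x (lineMap L x a) = a :=
          fun a _ => lineMap_involutive hpl x a
        rw [Set.image_congr hfix, Set.image_id']
      rwa [e] at h2
  have hsq : ∀ z, tPerm L hpl z * tPerm L hpl z = 1 := by
    intro z
    ext w
    exact lineMap_involutive hpl z w
  have hord : ∀ x, orderOf (tPerm L hpl x) = 2 := by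
    intro x
    apply orderOf_eq_prime
    · rw [pow_two]
      exact hsq x
    · intro h1
      obtain ⟨l, hl, hxl⟩ := hnd x
      obtain ⟨y, hyl, hyx⟩ := exists_ne_of_mem h3 hl x
      obtain ⟨z, hz, -⟩ := exists_third_of_mem h3 hl hxl hyl (Ne.symm hyx)
      have h2 : tPerm L hpl x y = z := (lineMap_eq_iff hpl).mpr (Or.inl hz)
      rw [h1] at h2
      exact hz.2.1 h2.symm
  have hmem : ∀ σ : Equiv.Perm X, (∃ x, ⇑σ = lineMap L x) → ∃ x, σ = tPerm L hpl x := by
    rintro σ ⟨x, hx⟩
    exact ⟨x, Equiv.ext (fun y => congrFun hx y)⟩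
  have hconj : ∀ x y, tPerm L hpl x * tPerm L hpl y * tPerm L hpl x =
      tPerm L hpl (lineMap L x y) := by
    intro x y
    ext w
    show lineMap L x (lineMap L y (lineMap L x w)) = lineMap L (lineMap L x y) w
    symm
    rw [lineMap_eq_iff hpl]
    have h1 := tRel_lineMap L y (lineMap L x w)
    have h2 := (tRel_iso_iff (tPerm L hpl x) (hiso x) _ _ _).mp h1
    have e : tPerm L hpl x (lineMap L x w) = w := lineMap_involutive hpl x w
    rw [e] at h2
    exact h2
  refine ⟨fun x => ⟨tPerm L hpl x, rfl, hord x, hiso x⟩, ?_, ?_⟩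
  · intro d hd
    obtain ⟨x, rfl⟩ := hmem d hd
    exact hord x
  · intro d hd e he
    obtain ⟨x, rfl⟩ := hmem d hd
    obtain ⟨y, rfl⟩ := hmem e he
    rcases tRel_lineMap L x y with h | ⟨h, -⟩
    · right
      have hyx : lineMap L y x = lineMap L x y :=
        (lineMap_eq_iff hpl).mpr (Or.inl h.swap_left)
      have c1 := hconj x y
      have c2 := hconj y x
      rw [hyx] at c2
      have e3 : (tPerm L hpl x * tPerm L hpl y) ^ 3 =
          (tPerm L hpl x * tPerm L hpl y * tPerm L hpl x) *
            (tPerm L hpl y * tPerm L hpl x * tPerm L hpl y) := by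
        simp only [pow_succ, pow_zero, one_mul, mul_assoc]
      rw [e3, c1, c2, hsq]
    · left
      have c1 := hconj x y
      rw [h] at c1
      have e2 : (tPerm L hpl x * tPerm L hpl y) ^ 2 =
          (tPerm L hpl x * tPerm L hpl y * tPerm L hpl x) * tPerm L hpl y := by
        simp only [pow_succ, pow_zero, one_mul, mul_assoc]
      rw [e2, c1, hsq]

end Cfsg.Agent.S5366
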