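-- Statement S0011.
import Cfsg.Statements.S0011

set_option autoImplicit false
open Cfsg

namespace Cfsg.Agent.S0011

/-- If the Frattini quotient of a finite group is nilpotent then the group is nilpotent. -/
theorem result {G : Type*} [Group G] [Finite G]
    (h : Group.IsNilpotent (G ⧸ frattini G)) : Group.IsNilpotent G := by
  refine ((Group.isNilpotent_of_finite_tfae (G := G)).out 0 3).mpr ?_
  intro p hp P
  have hsurj : Function.Surjective (QuotientGroup.mk' (frattini G)) := QuotientGroup.mk'_surjective _
  have hall : ∀ (p : ℕ) (_hp : Fact p.Prime) (P : Sylow p (G ⧸ frattini G)),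
      (↑P : Subgroup (G ⧸ frattini G)).Normal :=
    ((Group.isNilpotent_of_finite_tfae (G := G ⧸ frattini G)).out 0 3).mp h
  have hQn : ((P.mapSurjective hsurj : Sylow p (G ⧸ frattini G)) : Subgroup (G ⧸ frattini G)).Normal :=
    hall p hp _
  rw [Sylow.coe_mapSurjective] at hQn
  have hKn : (((P : Subgroup G).map (QuotientGroup.mk' (frattini G))).comap
      (QuotientGroup.mk' (frattini G))).Normal := hQn.comap _
  have hPK : (P : Subgroup G) ≤ ((P : Subgroup G).map (QuotientGroup.mk' (frattini G))).comap
      (QuotientGroup.mk' (frattini G)) := Subgroup.le_comap_map _ _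
  have h1 := Sylow.normalizer_sup_eq_top' P hPK
  rw [QuotientGroup.comap_map_mk', ← sup_assoc] at h1
  have h2 : Subgroup.normalizer ((P : Subgroup G) : Set G) ⊔ frattini G = ⊤ := by
    rw [eq_top_iff, ← h1]
    refine sup_le (sup_le le_sup_left le_sup_right) ?_
    exact Subgroup.le_normalizer.trans le_sup_left
  have h3 := frattini_nongenerating h2
  exact Subgroup.normalizer_eq_top_iff.mp h3

end Cfsg.Agent.S0011
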