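import Cfsg.Statements.S1467
import Mathlib

set_option autoImplicit false
open Cfsg

namespace Cfsg.Agent.S1467

theorem step_anti {G : Type*} [Group G] {X Y : Subgroup G} (h : X ≤ Y) :
    Cfsg.puigStep Y ≤ Cfsg.puigStep X := by
  unfold Cfsg.puigStep
  apply sSup_le_sSup
  rintro A ⟨hA, hY⟩
  exact ⟨hA, h.trans hY⟩

theorem step_bot {G : Type*} [Group G] : Cfsg.puigStep (⊥ : Subgroup G) = ⊤ := by
  rw [eq_top_iff]
  intro g _
  have h : Subgroup.zpowers g ≤ Cfsg.puigStep (⊥ : Subgroup G) := by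
    unfold Cfsg.puigStep
    apply le_sSup
    exact ⟨inferInstance, bot_le⟩
  exact h (Subgroup.mem_zpowers g)

theorem seq_succ {G : Type*} [Group G] (n : ℕ) :
    Cfsg.puigSeq G (n + 1) = Cfsg.puigStep (Cfsg.puigSeq G n) := rfl

theorem seq_zero {G : Type*} [Group G] : Cfsg.puigSeq G 0 = ⊥ := rfl

theorem even_mono_step {G : Type*} [Group G] (n : ℕ) :
    Cfsg.puigSeq G (2 * n) ≤ Cfsg.puigSeq G (2 * n + 2) := by
  induction n with
  | zero => rw [seq_zero]; exact bot_le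
  | succ n ih =>
    have h1 : Cfsg.puigSeq G (2 * n + 3) ≤ Cfsg.puigSeq G (2 * n + 1) := by
      rw [seq_succ (2 * n + 2), seq_succ (2 * n)]
      exact step_anti ih
    have e1 : 2 * (n + 1) = (2 * n + 1) + 1 := by ring
    have e2 : 2 * (n + 1) + 2 = (2 * n + 3) + 1 := by ring
    rw [e2, e1, seq_succ (2 * n + 1), seq_succ (2 * n + 3)]
    exact step_anti h1

theorem odd_anti_step {G : Type*} [Group G] (m : ℕ) :
    Cfsg.puigSeq G (2 * m + 3) ≤ Cfsg.puigSeq G (2 * m + 1) := by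
  rw [seq_succ (2 * m + 2), seq_succ (2 * m)]
  exact step_anti (even_mono_step m)

theorem even_mono {G : Type*} [Group G] : Monotone (fun n => Cfsg.puigSeq G (2 * n)) :=
  monotone_nat_of_le_succ (fun n => even_mono_step n)

theorem odd_anti {G : Type*} [Group G] : Antitone (fun n => Cfsg.puigSeq G (2 * n + 1)) :=
  antitone_nat_of_succ_le (fun n => odd_anti_step n)

theorem even_le_odd_same {G : Type*} [Group G] (n : ℕ) :
    Cfsg.puigSeq G (2 * n) ≤ Cfsg.puigSeq G (2 * n + 1) := by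
  induction n with
  | zero => rw [seq_zero]; exact bot_le
  | succ n ih =>
    have h1 : Cfsg.puigSeq G (2 * n + 2) ≤ Cfsg.puigSeq G (2 * n + 1) := by
      rw [seq_succ (2 * n + 1)]
      nth_rewrite 2 [seq_succ (2 * n)]
      exact step_anti ih
    have e1 : 2 * (n + 1) = (2 * n + 1) + 1 := by ring
    have e2 : 2 * (n + 1) + 1 = (2 * n + 2) + 1 := by ring
    rw [e2, e1, seq_succ (2 * n + 1), seq_succ (2 * n + 2)]
    exact step_anti h1

theorem even_le_odd {G : Type*} [Group G] (n m : ℕ) :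
    Cfsg.puigSeq G (2 * n) ≤ Cfsg.puigSeq G (2 * m + 1) :=
  calc Cfsg.puigSeq G (2 * n) ≤ Cfsg.puigSeq G (2 * (max n m)) := even_mono (le_max_left n m)
    _ ≤ Cfsg.puigSeq G (2 * (max n m) + 1) := even_le_odd_same _
    _ ≤ Cfsg.puigSeq G (2 * m + 1) := odd_anti (le_max_right n m)

theorem stab {G : Type*} [Group G] [Finite G] :
    ∃ k : ℕ, ∀ n : ℕ, k ≤ n → Cfsg.puigSeq G (2 * n) = Cfsg.puigLower G ∧
      Cfsg.puigSeq G (2 * n + 1) = Cfsg.puigSubgroup G := by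
  obtain ⟨k₁, hk₁⟩ := WellFoundedGT.monotone_chain_condition
    (⟨fun n => Cfsg.puigSeq G (2 * n), even_mono⟩ : ℕ →o Subgroup G)
  obtain ⟨k₂, hk₂⟩ := WellFoundedGT.monotone_chain_condition
    (⟨fun n => OrderDual.toDual (Cfsg.puigSeq G (2 * n + 1)), fun a b h => odd_anti h⟩ :
      ℕ →o (Subgroup G)ᵒᵈ)
  have hk₁' : ∀ m, k₁ ≤ m → Cfsg.puigSeq G (2 * k₁) = Cfsg.puigSeq G (2 * m) := hk₁
  have hk₂' : ∀ m, k₂ ≤ m → Cfsg.puigSeq G (2 * k₂ + 1) = Cfsg.puigSeq G (2 * m + 1) := by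
    intro m hm
    exact congrArg OrderDual.ofDual (hk₂ m hm)
  have hL : Cfsg.puigLower G = Cfsg.puigSeq G (2 * k₁) := by
    unfold Cfsg.puigLower
    apply le_antisymm
    · apply iSup_le
      intro n
      calc Cfsg.puigSeq G (2 * n) ≤ Cfsg.puigSeq G (2 * (max n k₁)) := even_mono (le_max_left _ _)
        _ = Cfsg.puigSeq G (2 * k₁) := (hk₁' _ (le_max_right _ _)).symm
    · exact le_iSup (fun n => Cfsg.puigSeq G (2 * n)) k₁
  have hS : Cfsg.puigSubgroup G = Cfsg.puigSeq G (2 * k₂ + 1) := by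
    unfold Cfsg.puigSubgroup
    apply le_antisymm
    · exact iInf_le (fun n => Cfsg.puigSeq G (2 * n + 1)) k₂
    · apply le_iInf
      intro n
      calc Cfsg.puigSeq G (2 * k₂ + 1) = Cfsg.puigSeq G (2 * (max n k₂) + 1) :=
            hk₂' _ (le_max_right _ _)
        _ ≤ Cfsg.puigSeq G (2 * n + 1) := odd_anti (le_max_left _ _)
  refine ⟨max k₁ k₂, fun n hn => ⟨?_, ?_⟩⟩
  · rw [hL]; exact (hk₁' n ((le_max_left _ _).trans hn)).symm
  · rw [hS]; exact (hk₂' n ((le_max_right _ _).trans hn)).symm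

/-- Let G be a finite group with Puig series L_n(G). Then L_0 = 1, L_1 = G; L_{2n} ≤ L_{2n+2} ≤ L_{2m+3} ≤ L_{2m+1} for all n, m; there is k with L_{2n}(G) = L_*(G) and L_{2n+1}(G) = L(G) for all n ≥ k; L_*(G) ≤ L(G); and applying one Puig step to L_*(G) gives L(G) and to L(G) gives L_*(G). -/
theorem result {G : Type*} [Group G] [Finite G] :
    Cfsg.puigSeq G 0 = ⊥ ∧ Cfsg.puigSeq G 1 = ⊤ ∧
      (∀ n m : ℕ, Cfsg.puigSeq G (2 * n) ≤ Cfsg.puigSeq G (2 * n + 2) ∧ Cfsg.puigSeq G (2 * n) ≤ Cfsg.puigSeq G (2 * m + 1) ∧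
        Cfsg.puigSeq G (2 * m + 3) ≤ Cfsg.puigSeq G (2 * m + 1)) ∧
      (∃ k : ℕ, ∀ n : ℕ, k ≤ n → Cfsg.puigSeq G (2 * n) = Cfsg.puigLower G ∧ Cfsg.puigSeq G (2 * n + 1) = Cfsg.puigSubgroup G) ∧
      Cfsg.puigLower G ≤ Cfsg.puigSubgroup G ∧
      Cfsg.puigStep (Cfsg.puigLower G) = Cfsg.puigSubgroup G ∧ Cfsg.puigStep (Cfsg.puigSubgroup G) = Cfsg.puigLower G := by
  obtain ⟨k, hk⟩ := stab (G := G)
  refine ⟨rfl, ?_, fun n m => ⟨even_mono_step n, even_le_odd n m, odd_anti_step m⟩, ⟨k, hk⟩, ?_, ?_, ?_⟩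
  · rw [seq_succ 0, seq_zero]; exact step_bot
  · rw [← (hk k le_rfl).1, ← (hk k le_rfl).2]; exact even_le_odd_same k
  · rw [← (hk k le_rfl).1, ← (hk k le_rfl).2]; rfl
  · rw [← (hk k le_rfl).2, ← (hk (k + 1) (Nat.le_succ k)).1]; rfl

end Cfsg.Agent.S1467
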