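import Cfsg.Statements.S0920
import Cfsg.Agent.Lib.Helper16.FirstMain

set_option autoImplicit false
open Cfsg

namespace Cfsg.Agent.S0920

/-- Brauer's First Main Theorem. Let D be a p-subgroup of the finite group G with normalizer N, and fix a maximal ideal M of the algebraic integers containing p. Then (i) every block b of N having D as a defect group induces some block B of G having D as a defect group; (ii) every block of G with defect group D is induced by exactly one block of N with defect group D. -/
theorem result {G : Type*} [Group G] [Finite G] (p : ℕ) [Fact p.Prime] (M : Ideal Cfsg.AlgInt) (hM : Cfsg.IsPModular p M) (D : Subgroup G) (hD : IsPGroup p D) : (∀ b : Set (Cfsg.IrrCharacter (Subgroup.normalizer (D : Set G))), Cfsg.IsPBlock M b → Cfsg.IsDefectGroup p M b (D.subgroupOf (Subgroup.normalizer (D : Set G))) → ∃ B : Set (Cfsg.IrrCharacter G), Cfsg.IsPBlock M B ∧ Cfsg.IsDefectGroup p M B D ∧ Cfsg.IsInducedBlock M (Subgroup.normalizer (D : Set G)) b B) ∧ (∀ B : Set (Cfsg.IrrCharacter G), Cfsg.IsPBlock M B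 → Cfsg.IsDefectGroup p M B D → ∃! b : Set (Cfsg.IrrCharacter (Subgroup.normalizer (D : Set G))), Cfsg.IsPBlock M b ∧ Cfsg.IsDefectGroup p M b (D.subgroupOf (Subgroup.normalizer (D : Set G))) ∧ Cfsg.IsInducedBlock M (Subgroup.normalizer (D : Set G)) b B) := by
  have hDH : D ≤ Subgroup.normalizer (D : Set G) := Subgroup.le_normalizer
  have hCH : Subgroup.centralizer (D : Set G) ≤ Subgroup.normalizer (D : Set G) :=
    Subgroup.centralizer_le_normalizer _
  refine ⟨?_, ?_⟩
  · intro b hb hDb
    obtain ⟨B, hind⟩ := Cfsg.Agent.Lib.Helper16.Brauer.inducedBlockDefined_of_local hM D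
      (Subgroup.normalizer (D : Set G)) hD hDH hCH le_rfl b hb
    exact ⟨B, hind.2.1, Cfsg.Agent.Lib.Helper16.FirstMain.isDefectGroup_induced p hM D b hDb B hind,
      hind⟩
  · intro B hB hDB
    obtain ⟨b, hDb, hind⟩ := Cfsg.Agent.Lib.Helper16.FirstMain.exists_block_normalizer p hM D B hB hDB
    refine ⟨b, ⟨hind.1, hDb, hind⟩, ?_⟩
    rintro b' ⟨-, hDb', hind'⟩
    exact Cfsg.Agent.Lib.Helper16.FirstMain.block_normalizer_unique p hM D B b' b
      hDb' hind' hind

end Cfsg.Agent.S0920
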