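import Cfsg.Statements.S0955
import Cfsg.Agent.Lib.Helper16.Idem

set_option autoImplicit false
open Cfsg

namespace Cfsg.Agent.S0955

open Cfsg Cfsg.Agent.Lib.Helper77.LocalRing Cfsg.Agent.Lib.Helper16.Idem Cfsg.Agent.Lib.Helper16.MinMax Cfsg.Agent.Lib.Helper16.IndBlock Cfsg.Agent.Lib.Helper78.Fitting Cfsg.Agent.Lib.Helper33.Conj

/-- Let D be a defect group of a block of the finite group G relative to a maximal ideal M of the algebraic integers containing the prime p. Then D is the largest normal p-subgroup of its own normalizer: O_p(N_G(D)) = D. -/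
theorem result {G : Type*} [Group G] [Finite G] (p : ℕ) [Fact p.Prime] (M : Ideal Cfsg.AlgInt) (hM : Cfsg.IsPModular p M) (B : Set (Cfsg.IrrCharacter G)) (hB : Cfsg.IsPBlock M B) (D : Subgroup G) (hD : Cfsg.IsDefectGroup p M B D) : (Cfsg.pCore p (Subgroup.normalizer (D : Set G))).map (Subgroup.normalizer (D : Set G)).subtype = D := by
  classical
  have hMp := isPrime_of_isPModular hM
  obtain ⟨g, hg, hsyl⟩ := isDefectGroup_iff.mp hD
  have hDp : IsPGroup p D := hsyl.2.1
  have hDH : D ≤ Subgroup.normalizer (D : Set G) := Subgroup.le_normalizer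
  have hCH : Subgroup.centralizer (D : Set G) ≤ Subgroup.normalizer (D : Set G) :=
    Subgroup.centralizer_le_normalizer _
  have hn : (D.subgroupOf (Subgroup.normalizer (D : Set G))).Normal :=
    (Subgroup.normal_subgroupOf_iff_le_normalizer hDH).mpr le_rfl
  have h2 : D.subgroupOf (Subgroup.normalizer (D : Set G))
      ≤ Cfsg.pCore p (Subgroup.normalizer (D : Set G)) := le_pCore hn hDp.comap_subtype
  have hge : D ≤ (Cfsg.pCore p (Subgroup.normalizer (D : Set G))).map
      (Subgroup.normalizer (D : Set G)).subtype := by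
    intro y hy
    exact ⟨⟨y, hDH hy⟩, h2 hy, rfl⟩
  obtain ⟨b, hind⟩ := exists_induced_of_le_defect p hM D (Subgroup.normalizer (D : Set G)) hDp hDH
    hCH le_rfl B hB D hD 1 (by rw [cj_one])
  obtain ⟨Db, hDb⟩ := exists_defectGroup hM b hind.1
  have h1 : Cfsg.pCore p (Subgroup.normalizer (D : Set G)) ≤ Db :=
    Cfsg.Agent.S0912.result p M hM b hind.1 Db hDb
  obtain ⟨E, hE, hle⟩ := defectGroup_le_of_induced hM _ b B hind Db hDb
  have hQE : (Cfsg.pCore p (Subgroup.normalizer (D : Set G))).map
      (Subgroup.normalizer (D : Set G)).subtype ≤ E := (Subgroup.map_mono h1).trans hle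
  obtain ⟨x, hx⟩ := defectGroup_conj hM B hB hD hE
  have hcard : Nat.card E = Nat.card D := by rw [hx, card_cj]
  have hDE : D = E := by
    apply Subgroup.eq_of_le_of_card_ge (hge.trans hQE)
    rw [hcard]
  exact le_antisymm (hQE.trans hDE.ge) hge

end Cfsg.Agent.S0955
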