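import Cfsg.Statements.S0498
import Cfsg.Agent.Lib.Helper99.PSL2pH

set_option autoImplicit false
open Cfsg

namespace Cfsg.Agent.S0498

/-- A simple group of order 660, respectively 1092, is isomorphic to the projective special linear group of dimension 2
over the field with 11, respectively 13, elements. -/
theorem result {G : Type*} [Group G] [Finite G] [IsSimpleGroup G] (p : ℕ)
    (hp : p = 11 ∨ p = 13) (h : 2 * Nat.card G = p * (p ^ 2 - 1)) {F : Type*} [Field F] [Fintype F]
    (hF : Fintype.card F = p) : Nonempty (G ≃* Matrix.ProjectiveSpecialLinearGroup (Fin 2) F) := by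
  rcases hp with rfl | rfl
  · have : Fact (Nat.Prime 11) := ⟨by norm_num⟩
    have hc : Nat.card G = 11 * ((11 + 1) * 5) := by norm_num at h ⊢; omega
    refine Cfsg.Agent.Lib.Helper99.PSL2p.nonempty_mulEquiv_PSL' (p := 11) 5 (by norm_num)
      (by norm_num) ?_ hc hF
    intro n hn hm
    have hle : n ≤ 60 := Nat.le_of_dvd (by norm_num) hn
    interval_cases n <;> omega
  · have : Fact (Nat.Prime 13) := ⟨by norm_num⟩
    have hc : Nat.card G = 13 * ((13 + 1) * 6) := by norm_num at h ⊢; omega
    refine Cfsg.Agent.Lib.Helper99.PSL2p.nonempty_mulEquiv_PSL' (p := 13) 6 (by norm_num)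
      (by norm_num) ?_ hc hF
    intro n hn hm
    have hle : n ≤ 84 := Nat.le_of_dvd (by norm_num) hn
    interval_cases n <;> omega

end Cfsg.Agent.S0498
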