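-- Statement S0713: Jordan's theorem on primitive groups containing a cycle of prime length.
import Cfsg.Statements.S0713
import Mathlib

set_option autoImplicit false
open Cfsg

namespace Cfsg.Agent.S0713

open scoped Pointwise
open MulAction Equiv

variable {α : Type*} [Fintype α] [DecidableEq α]

/-- the group is `(n - p)`-transitive -/
theorem multTrans (G : Subgroup (Perm α)) (hG : IsPreprimitive G α) {p : ℕ} (hp : p.Prime)
    (hpn : p + 3 ≤ Fintype.card α) {g : Perm α} (hgc : g.IsCycle) (hgp : g.support.card = p)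
    (hg : g ∈ G) : IsMultiplyPretransitive G α (Fintype.card α - p) := by
  obtain ⟨n, hn⟩ : ∃ n, Fintype.card α - p = n + 1 := ⟨Fintype.card α - p - 1, by omega⟩
  have hsc : Set.ncard ((g.support : Set α)ᶜ) = n + 1 := by
    apply Nat.add_left_cancel
    rw [Set.ncard_add_ncard_compl, Set.ncard_coe_finset, hgp, Nat.card_eq_fintype_card]
    omega
  have hlt : n + 2 < Nat.card α := by
    rw [Nat.card_eq_fintype_card]
    have := hp.two_le
    omega
  have hprim : IsPreprimitive (fixingSubgroup G ((g.support : Set α)ᶜ))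
      (SubMulAction.ofFixingSubgroup G ((g.support : Set α)ᶜ)) := by
    classical
    have := Equiv.Perm.isPretransitive_of_isCycle_mem hgc hg
    apply IsPreprimitive.of_prime_card
    convert! hp
    rw [Nat.card_eq_fintype_card, Fintype.card_subtype, ← hgp]
    apply congr_arg
    ext x
    simp [SubMulAction.mem_ofFixingSubgroup_iff]
  have h := hG.isMultiplyPreprimitive hsc hlt hprim
  have h' : IsMultiplyPretransitive G α (n + 2) :=
    IsMultiplyPreprimitive.isMultiplyPretransitive ..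
  rw [hn]
  exact isMultiplyPretransitive_of_le (n := n + 2) (Nat.le_succ _) hlt.le

/-- a multiply transitive group induces every map on a small set -/
theorem exists_agree (G : Subgroup (Perm α)) (Φ : Finset α)
    (hk : IsMultiplyPretransitive G α Φ.card) (σ : Perm α) :
    ∃ x ∈ G, ∀ z ∈ Φ, x z = σ z := by
  let eq : ↥Φ ≃ Fin Φ.card := Fintype.equivFinOfCardEq (Fintype.card_coe Φ)
  let e : Fin Φ.card ↪ α := eq.symm.toEmbedding.trans (Function.Embedding.subtype _)
  let e' : Fin Φ.card ↪ α := e.trans σ.toEmbedding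
  obtain ⟨x, hx⟩ := hk.exists_smul_eq e e'
  refine ⟨x, x.2, ?_⟩
  intro z hz
  have := DFunLike.congr_fun hx (eq ⟨z, hz⟩)
  have h2 : x • z = σ z := by simpa [e, e'] using this
  exact h2

/-- a group of permutations moving only the points of `s` has order dividing `|s|!` -/
theorem card_dvd (K : Subgroup (Perm α)) (s : Finset α) (hK : ∀ x ∈ K, ∀ z ∉ s, x z = z) :
    Nat.card K ∣ (s.card).factorial := by
  have hle : K ≤ (Perm.ofSubtype : Perm {x // x ∈ s} →* Perm α).range := by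
    intro x hx
    have h₂ : ∀ z, x z ≠ z → z ∈ s := fun z hz => by
      by_contra h
      exact hz (hK x hx z h)
    have h₁ : ∀ z, x z ∈ s ↔ z ∈ s := by
      intro z
      constructor
      · intro h
        by_contra hz
        rw [hK x hx z hz] at h
        exact hz h
      · intro h
        by_contra hz
        have h3 := hK x hx (x z) hz
        have h4 : x z = z := x.injective h3
        rw [h4] at hz
        exact hz h
    exact ⟨Perm.subtypePerm x h₁, Perm.ofSubtype_subtypePerm h₁ h₂⟩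
  have h1 := Subgroup.card_dvd_of_le hle
  have h2 : Nat.card (Perm.ofSubtype : Perm {x // x ∈ s} →* Perm α).range
      = Nat.card (Perm {x // x ∈ s}) := Nat.card_range_of_injective Perm.ofSubtype_injective
  rw [h2, Nat.card_perm, Nat.card_eq_fintype_card (α := {x // x ∈ s}), Fintype.card_coe] at h1
  exact h1

/-- an element of `G` inducing a prescribed map on the fixed points of the cycle `g` and
normalizing the group generated by `g` (Witt's lemma, through Sylow's theorem) -/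
theorem exists_normalizing (G : Subgroup (Perm α)) {p : ℕ} (hp : p.Prime) {g : Perm α}
    (hgc : g.IsCycle) (hgp : g.support.card = p) (hg : g ∈ G)
    (hk : IsMultiplyPretransitive G α (g.supportᶜ).card) (σ : Perm α)
    (hσ : ∀ z, z ∈ g.support ↔ σ z ∈ g.support) :
    ∃ x ∈ G, (∀ z ∉ g.support, x z = σ z) ∧ x * g * x⁻¹ ∈ Subgroup.zpowers g := by
  have : Fact p.Prime := ⟨hp⟩
  obtain ⟨x₀, hx₀G, hx₀⟩ := exists_agree G (g.supportᶜ) hk σ
  have hx₀' : ∀ z ∉ g.support, x₀ z = σ z := fun z hz => hx₀ z (Finset.mem_compl.mpr hz)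
  let K : Subgroup (Perm α) := G ⊓ fixingSubgroup (Perm α) ((g.support : Set α)ᶜ)
  have hKmem : ∀ x, x ∈ K ↔ x ∈ G ∧ ∀ z ∉ g.support, x z = z := by
    intro x
    simp only [K, Subgroup.mem_inf, mem_fixingSubgroup_iff]
    constructor
    · rintro ⟨h1, h2⟩
      exact ⟨h1, fun z hz => h2 z (by simpa using hz)⟩
    · rintro ⟨h1, h2⟩
      exact ⟨h1, fun z hz => h2 z (by simpa using hz)⟩
  have hgK : g ∈ K := (hKmem g).mpr ⟨hg, fun z hz => Perm.notMem_support.mp hz⟩
  have hg₁K : x₀ * g * x₀⁻¹ ∈ K := by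
    rw [hKmem]
    refine ⟨G.mul_mem (G.mul_mem hx₀G hg) (G.inv_mem hx₀G), ?_⟩
    intro z hz
    have h1 : σ⁻¹ z ∉ g.support := by
      rw [hσ]
      simpa using hz
    have h2 : x₀⁻¹ z = σ⁻¹ z := by
      rw [Perm.inv_eq_iff_eq, hx₀' _ h1]
      simp
    simp only [Perm.mul_apply]
    rw [h2, Perm.notMem_support.mp h1, ← h2]
    simp
  have hKdvd : Nat.card K ∣ p.factorial := by
    rw [← hgp]
    exact card_dvd K g.support (fun x hx => ((hKmem x).mp hx).2)
  have hnot : ¬ p * p ∣ Nat.card K := by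
    intro h
    have h1 : p * p ∣ p.factorial := h.trans hKdvd
    rw [← Nat.mul_factorial_pred hp.ne_zero] at h1
    have h2 : p ∣ (p - 1).factorial := Nat.dvd_of_mul_dvd_mul_left hp.pos h1
    have h3 := (hp.dvd_factorial).mp h2
    have := hp.pos
    omega
  have key : ∀ (t : Perm α) (ht : t ∈ K), orderOf t = p →
      ∃ P : Sylow p K, (P : Subgroup K) = Subgroup.zpowers (⟨t, ht⟩ : K) := by
    intro t ht hord
    have hcard : Nat.card (Subgroup.zpowers (⟨t, ht⟩ : K)) = p := by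
      rw [Nat.card_zpowers, Subgroup.orderOf_mk, hord]
    have hP : IsPGroup p (Subgroup.zpowers (⟨t, ht⟩ : K)) :=
      IsPGroup.of_card (n := 1) (by rw [hcard, pow_one])
    have hidx : ¬ p ∣ (Subgroup.zpowers (⟨t, ht⟩ : K)).index := by
      intro h
      apply hnot
      rw [← Subgroup.index_mul_card (Subgroup.zpowers (⟨t, ht⟩ : K)), hcard]
      exact Nat.mul_dvd_mul_right h p
    exact ⟨hP.toSylow hidx, hP.toSylow_coe hidx⟩
  have hord : orderOf g = p := by rw [hgc.orderOf, hgp]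
  have hord₁ : orderOf (x₀ * g * x₀⁻¹) = p := by
    rw [← hord]
    exact (MulAut.conj x₀).orderOf_eq g
  obtain ⟨P, hP⟩ := key g hgK hord
  obtain ⟨P₁, hP₁⟩ := key _ hg₁K hord₁
  obtain ⟨u, hu⟩ := exists_smul_eq K P₁ P
  have h1 : (⟨x₀ * g * x₀⁻¹, hg₁K⟩ : K) ∈ (P₁ : Subgroup K) := by
    rw [hP₁]
    exact Subgroup.mem_zpowers _
  have h2 : MulAut.conj u • (⟨x₀ * g * x₀⁻¹, hg₁K⟩ : K) ∈ MulAut.conj u • (P₁ : Subgroup K) :=
    Subgroup.smul_mem_pointwise_smul _ _ _ h1
  have h3 : MulAut.conj u • (⟨x₀ * g * x₀⁻¹, hg₁K⟩ : K) ∈ ((u • P₁ : Sylow p K) : Subgroup K) :=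
    h2
  rw [hu, hP, Subgroup.mem_zpowers_iff] at h3
  obtain ⟨i, hi⟩ := h3
  have hi' : g ^ i = (u : Perm α) * (x₀ * g * x₀⁻¹) * (u : Perm α)⁻¹ := by
    have := congrArg (Subtype.val) hi
    simpa [MulAut.smul_def] using this
  have huK := (hKmem u).mp u.2
  refine ⟨(u : Perm α) * x₀, G.mul_mem huK.1 hx₀G, ?_, ?_⟩
  · intro z hz
    rw [Perm.mul_apply, hx₀' z hz]
    exact huK.2 _ (fun h => hz ((hσ z).mpr h))
  · rw [Subgroup.mem_zpowers_iff]
    refine ⟨i, ?_⟩
    rw [hi']
    group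

/-- Jordan's Theorem: a primitive permutation group of degree `n ≥ 5` containing a `p`-cycle for a prime `p ≤ n - 3` contains the alternating group. -/
theorem result {α : Type*} [Fintype α] [DecidableEq α] (G : Subgroup (Equiv.Perm α)) (hG : MulAction.IsPreprimitive G α) {p : ℕ} (hp : p.Prime) (hn : 5 ≤ Fintype.card α) (hpn : p + 3 ≤ Fintype.card α) {g : Equiv.Perm α} (hgc : g.IsCycle) (hgp : g.support.card = p) (hg : g ∈ G) : alternatingGroup α ≤ G := by
  have hk := multTrans G hG hp hpn hgc hgp hg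
  have hcard : (g.supportᶜ).card = Fintype.card α - p := by rw [Finset.card_compl, hgp]
  rw [← hcard] at hk
  have h3 : 2 < (g.supportᶜ).card := by
    rw [hcard]
    omega
  obtain ⟨a, b, c, ha, hb, hc, hab, hac, hbc⟩ := Finset.two_lt_card_iff.mp h3
  rw [Finset.mem_compl] at ha hb hc
  have hswap : ∀ u v : α, u ∉ g.support → v ∉ g.support →
      ∀ z, z ∈ g.support ↔ swap u v z ∈ g.support := by
    intro u v hu hv z
    rw [swap_apply_def]
    split_ifs with h1 h2
    · subst h1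
      exact ⟨fun h => absurd h hu, fun h => absurd h hv⟩
    · subst h2
      exact ⟨fun h => absurd h hv, fun h => absurd h hu⟩
    · rfl
  have hσ₁ := hswap a b ha hb
  have hσ₂ := hswap a c ha hc
  obtain ⟨x, hxG, hxΦ, hxg⟩ := exists_normalizing G hp hgc hgp hg hk (swap a b) hσ₁
  obtain ⟨y, hyG, hyΦ, hyg⟩ := exists_normalizing G hp hgc hgp hg hk (swap a c) hσ₂
  obtain ⟨i, hi⟩ := Subgroup.mem_zpowers_iff.mp hxg
  obtain ⟨j, hj⟩ := Subgroup.mem_zpowers_iff.mp hyg
  have hE : x * y * g * y⁻¹ * x⁻¹ = y * x * g * x⁻¹ * y⁻¹ := by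
    have e1 : x * y * g * y⁻¹ * x⁻¹ = x * (y * g * y⁻¹) * x⁻¹ := by group
    have e2 : y * x * g * x⁻¹ * y⁻¹ = y * (x * g * x⁻¹) * y⁻¹ := by group
    rw [e1, e2, ← hi, ← hj, ← conj_zpow, ← conj_zpow, ← hi, ← hj, ← zpow_mul, ← zpow_mul,
      mul_comm i j]
  -- the action on the fixed points of `g`
  have hxinv : ∀ z ∉ g.support, x⁻¹ z = swap a b z := by
    intro z hz
    rw [Perm.inv_eq_iff_eq, hxΦ _ (fun h => hz ((hσ₁ z).mpr h)), swap_apply_self]
  have hyinv : ∀ z ∉ g.support, y⁻¹ z = swap a c z := by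
    intro z hz
    rw [Perm.inv_eq_iff_eq, hyΦ _ (fun h => hz ((hσ₂ z).mpr h)), swap_apply_self]
  obtain ⟨c₂, hc₂G, hcomm, hc₂Φ⟩ : ∃ c₂ : Perm α, c₂ ∈ G ∧ c₂ * g = g * c₂ ∧
      ∀ z ∉ g.support, c₂ z = (swap a b * swap a c * (swap a b * swap a c)) z := by
    refine ⟨x⁻¹ * y⁻¹ * x * y,
      G.mul_mem (G.mul_mem (G.mul_mem (G.inv_mem hxG) (G.inv_mem hyG)) hxG) hyG, ?_, ?_⟩
    · calc x⁻¹ * y⁻¹ * x * y * g = x⁻¹ * y⁻¹ * (x * y * g * y⁻¹ * x⁻¹) * (x * y) := by group
        _ = x⁻¹ * y⁻¹ * (y * x * g * x⁻¹ * y⁻¹) * (x * y) := by rw [hE]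
        _ = g * (x⁻¹ * y⁻¹ * x * y) := by group
    · intro z hz
      have h1 : swap a c z ∉ g.support := fun h => hz ((hσ₂ z).mpr h)
      have h2 : swap a b (swap a c z) ∉ g.support := fun h => h1 ((hσ₁ _).mpr h)
      have h3 : swap a c (swap a b (swap a c z)) ∉ g.support := fun h => h2 ((hσ₂ _).mpr h)
      simp only [Perm.mul_apply]
      rw [hyΦ z hz, hxΦ _ h1, hyinv _ h2, hxinv _ h3]
  -- the action on the support of `g`
  obtain ⟨a₀, ha₀⟩ := hgc.nonempty_support
  have ha₀' : g a₀ ≠ a₀ := Perm.mem_support.mp ha₀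
  have hcomm' : Commute c₂ g := hcomm
  have hca₀ : g (c₂ a₀) ≠ c₂ a₀ := by
    intro h
    apply ha₀'
    apply c₂.injective
    rw [← Perm.mul_apply, hcomm, Perm.mul_apply]
    exact h
  obtain ⟨m, hm⟩ := hgc.sameCycle ha₀' hca₀
  have hc₂Δ : ∀ z ∈ g.support, c₂ z = (g ^ m) z := by
    intro z hz
    obtain ⟨l, hl⟩ := hgc.sameCycle ha₀' (Perm.mem_support.mp hz)
    calc c₂ z = (c₂ * g ^ l) a₀ := by rw [Perm.mul_apply, hl]
      _ = (g ^ l * c₂) a₀ := by rw [(hcomm'.zpow_right l).eq]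
      _ = (g ^ l * g ^ m) a₀ := by rw [Perm.mul_apply, ← hm, Perm.mul_apply]
      _ = (g ^ m * g ^ l) a₀ := by rw [← zpow_add, ← zpow_add, add_comm]
      _ = (g ^ m) z := by rw [Perm.mul_apply, hl]
  have hτ : (g ^ m)⁻¹ * c₂ = swap a b * swap a c * (swap a b * swap a c) := by
    ext z
    by_cases hz : z ∈ g.support
    · rw [Perm.mul_apply, hc₂Δ z hz, Perm.inv_eq_iff_eq]
      have hza : z ≠ a := fun h => ha (h ▸ hz)
      have hzb : z ≠ b := fun h => hb (h ▸ hz)
      have hzc : z ≠ c := fun h => hc (h ▸ hz)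
      simp [Perm.mul_apply, swap_apply_of_ne_of_ne, hza, hzb, hzc]
    · rw [Perm.mul_apply, hc₂Φ z hz]
      have hw : (swap a b * swap a c * (swap a b * swap a c)) z ∉ g.support := by
        simp only [Perm.mul_apply]
        intro h
        exact hz ((hσ₂ z).mpr ((hσ₁ _).mpr ((hσ₂ _).mpr ((hσ₁ _).mpr h))))
      rw [Perm.inv_eq_iff_eq]
      exact (Perm.zpow_apply_eq_self_of_apply_eq_self (Perm.notMem_support.mp hw) m).symm
  have hmem : swap a b * swap a c * (swap a b * swap a c) ∈ G := by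
    rw [← hτ]
    exact G.mul_mem (G.inv_mem (G.zpow_mem hg m)) hc₂G
  exact Equiv.Perm.alternatingGroup_le_of_isPreprimitive_of_isThreeCycle_mem hG
    (Perm.isThreeCycle_swap_mul_swap_same hab hac hbc).isThreeCycle_sq hmem

end Cfsg.Agent.S0713
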