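import Cfsg.Statements.S5411
import Cfsg.Agent.Lib.Helper92.MonLat

set_option autoImplicit false
open Cfsg

namespace Cfsg.Agent.S5411

open Cfsg.Agent.Lib.Helper92.MonQ Cfsg.Agent.Lib.Helper92.MonLat

/-- Let G be a finite group of Monster type at the involution z with Q the extraspecial normal subgroup of order 2^25 of C = C_G(z) (so C/Q is identified with the first Conway group with Q modulo its centre the Leech lattice modulo 2, and z is not weakly closed in Q). Then C acts transitively by conjugation on the involutions of Q that are not conjugate to z in G. -/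
theorem result {G : Type*} [Group G] [Finite G] (z : G) (Q : Subgroup (Subgroup.centralizer ({z} : Set G))) [Q.Normal] (hM : Cfsg.IsOfMonsterType z Q) (s t : G) (hsQ : ∃ hsc : s ∈ Subgroup.centralizer ({z} : Set G), (⟨s, hsc⟩ : Subgroup.centralizer ({z} : Set G)) ∈ Q) (htQ : ∃ htc : t ∈ Subgroup.centralizer ({z} : Set G), (⟨t, htc⟩ : Subgroup.centralizer ({z} : Set G)) ∈ Q) (hs2 : orderOf s = 2) (ht2 : orderOf t = 2) (hs : ¬ IsConj z s) (ht : ¬ IsConj z t) : ∃ h ∈ Subgroup.centralizer ({z} : Set G), h * s * h⁻¹ = t := by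
  obtain ⟨ψ, hL⟩ := LIso.of_monster hM
  have hc := hL.c_eq hM
  obtain ⟨hsc, hsQ'⟩ := hsQ
  obtain ⟨htc, htQ'⟩ := htQ
  obtain ⟨g, ⟨hgc, hgQ⟩, hgne⟩ := hM.1.2.2.2.2
  -- elements of `Q` other than `1` and `z` are non-central
  have hnc : ∀ y : Q, ((y : Subgroup.centralizer ({z} : Set G)) : G) ≠ 1 →
      ((y : Subgroup.centralizer ({z} : Set G)) : G) ≠ z → y ∉ Subgroup.center ↥Q := by
    intro y h1 hz hy
    rcases hL.cases hy with h | h
    · apply h1
      rw [h]
      rfl
    · apply hz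
      rw [h, hc]
      rfl
  have hs1 : s ≠ 1 := by
    intro h
    rw [h, orderOf_one] at hs2
    omega
  have ht1 : t ≠ 1 := by
    intro h
    rw [h, orderOf_one] at ht2
    omega
  have hss : s * s = 1 := by
    rw [← pow_two, ← hs2]
    exact pow_orderOf_eq_one s
  have htt : t * t = 1 := by
    rw [← pow_two, ← ht2]
    exact pow_orderOf_eq_one t
  have hsz : s ≠ z := fun h => hs (h ▸ IsConj.refl z)
  have htz : t ≠ z := fun h => ht (h ▸ IsConj.refl z)
  have hw1 : g * z * g⁻¹ ≠ 1 := by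
    intro h
    apply z_ne_one hM
    have := congrArg (fun x => g⁻¹ * x * g) h
    simpa [mul_assoc] using this
  have hww : (g * z * g⁻¹) * (g * z * g⁻¹) = 1 := by
    have e : (g * z * g⁻¹) * (g * z * g⁻¹) = g * (z * z) * g⁻¹ := by group
    rw [e, z_sq hM]
    group
  have hsn := hnc ⟨⟨s, hsc⟩, hsQ'⟩ hs1 hsz
  have htn := hnc ⟨⟨t, htc⟩, htQ'⟩ ht1 htz
  have hwn := hnc ⟨⟨g * z * g⁻¹, hgc⟩, hgQ⟩ hw1 hgne
  obtain ⟨vs, hvs, hns⟩ := exists_rep hL hsn
  obtain ⟨vt, hvt, hnt⟩ := exists_rep hL htn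
  obtain ⟨vw, hvw, hnw⟩ := exists_rep hL hwn
  by_cases h1 : sqNorm (vs : GolayPt → ℤ) = sqNorm (vt : GolayPt → ℤ)
  · obtain ⟨h, hh⟩ := conj_of_norm hL htn hvs hvt hnt h1 rfl
    exact ⟨h.1, h.2, congrArg Subtype.val hh⟩
  by_cases h2 : sqNorm (vw : GolayPt → ℤ) = sqNorm (vs : GolayPt → ℤ)
  · exfalso
    obtain ⟨h, hh⟩ := conj_of_norm hL hsn hvw hvs hns h2 rfl
    apply hs
    rw [isConj_iff]
    have hh' : (h : G) * (g * z * g⁻¹) * (h : G)⁻¹ = s := congrArg Subtype.val hh
    refine ⟨(h : G) * g, ?_⟩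
    rw [← hh']
    group
  by_cases h3 : sqNorm (vw : GolayPt → ℤ) = sqNorm (vt : GolayPt → ℤ)
  · exfalso
    obtain ⟨h, hh⟩ := conj_of_norm hL htn hvw hvt hnt h3 rfl
    apply ht
    rw [isConj_iff]
    have hh' : (h : G) * (g * z * g⁻¹) * (h : G)⁻¹ = t := congrArg Subtype.val hh
    refine ⟨(h : G) * g, ?_⟩
    rw [← hh']
    group
  exfalso
  -- every element of `Q` squares to the identity
  have hconj : ∀ (x : Q) (a : G) (h : Subgroup.centralizer ({z} : Set G)), a * a = 1 →
      (h : G) * a * (h : G)⁻¹ = ((x : Subgroup.centralizer ({z} : Set G)) : G) → x * x = 1 := by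
    intro x a h ha hh
    apply Subtype.ext
    apply Subtype.ext
    show ((x : Subgroup.centralizer ({z} : Set G)) : G) * ((x : Subgroup.centralizer ({z} : Set G)) : G) = 1
    rw [← hh]
    have e : (h : G) * a * (h : G)⁻¹ * ((h : G) * a * (h : G)⁻¹) = (h : G) * (a * a) * (h : G)⁻¹ := by
      group
    rw [e, ha]
    group
  have hall : ∀ x : Q, x * x = 1 := by
    intro x
    by_cases hx : x ∈ Subgroup.center ↥Q
    · exact hL.sq_of_mem hx
    · obtain ⟨vx, hvx, hnx⟩ := exists_rep hL hx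
      have h4 : sqNorm (vs : GolayPt → ℤ) = sqNorm (vx : GolayPt → ℤ) ∨
          sqNorm (vt : GolayPt → ℤ) = sqNorm (vx : GolayPt → ℤ) ∨
          sqNorm (vw : GolayPt → ℤ) = sqNorm (vx : GolayPt → ℤ) := by omega
      rcases h4 with e | e | e
      · obtain ⟨h, hh⟩ := conj_of_norm hL hx hvs hvx hnx e rfl
        exact hconj x s h hss (congrArg Subtype.val hh)
      · obtain ⟨h, hh⟩ := conj_of_norm hL hx hvt hvx hnx e rfl
        exact hconj x t h htt (congrArg Subtype.val hh)
      · obtain ⟨h, hh⟩ := conj_of_norm hL hx hvw hvx hnx e rfl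
        exact hconj x (g * z * g⁻¹) h hww (congrArg Subtype.val hh)
  have hcomm : ∀ x y : Q, x * y = y * x := by
    intro x y
    calc x * y = (x * y)⁻¹ := (inv_eq_of_mul_eq_one_left (hall (x * y))).symm
      _ = y⁻¹ * x⁻¹ := mul_inv_rev x y
      _ = y * x := by rw [inv_eq_of_mul_eq_one_left (hall y), inv_eq_of_mul_eq_one_left (hall x)]
  have htop : Subgroup.center ↥Q = ⊤ := by
    rw [eq_top_iff]
    intro x _
    rw [Subgroup.mem_center_iff]
    intro y
    exact hcomm y x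
  have hcard := hL.card
  rw [htop, Subgroup.card_top] at hcard
  have h5 := hM.1.2.2.2.1
  rw [hcard] at h5
  norm_num at h5

end Cfsg.Agent.S5411
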