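import Cfsg.Statements.S5420
import Cfsg.Agent.Lib.Helper90.Basic

set_option autoImplicit false
open Cfsg

namespace Cfsg.Agent.S5420

/-- Let Q be an extraspecial 2-subgroup of the finite group G whose centralizer in G is its centre Z and which is normal in the centralizer of Z. If Z lies in the largest normal 2-subgroup of G, then Q is a large extraspecial 2-subgroup of G: it normalizes no non-trivial subgroup of G of odd order. -/
theorem result {G : Type*} [Group G] [Finite G] (Q : Subgroup G) (hL1 : Cfsg.IsExtraspecial 2 ↥Q) (hL2 : Subgroup.centralizer (Q : Set G) = ((Subgroup.center ↥Q).map Q.subtype)) (hL3 : Subgroup.centralizer (((Subgroup.center ↥Q).map Q.subtype) : Set G) ≤ Subgroup.normalizer (Q : Set G)) (hZ : ((Subgroup.center ↥Q).map Q.subtype) ≤ Cfsg.pCore 2 G) : Cfsg.IsLargeExtraspecial Q := by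
  have hQ2 : IsPGroup 2 ↥Q := hL1.1.1
  refine ⟨hL1, hL2, hL3, ?_⟩
  intro K hKodd hQK
  haveI : (Cfsg.pCore 2 G).Normal := Lib.Helper90.Basic.pCore_normal 2
  -- Step 1: K centralizes Z
  have hKZ : K ≤ Subgroup.centralizer (((Subgroup.center ↥Q).map Q.subtype) : Set G) := by
    intro k hk
    rw [Subgroup.mem_centralizer_iff]
    intro z hz
    have hzQ : z ∈ Q := by
      obtain ⟨y, _, rfl⟩ := hz
      exact y.2
    have hzO : z ∈ Cfsg.pCore 2 G := hZ hz
    -- z * k * z⁻¹ * k⁻¹ ∈ K ∩ O_2(G)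
    have h1 : z * k * z⁻¹ * k⁻¹ ∈ K := by
      have := (Subgroup.mem_normalizer_iff.mp (hQK hzQ) k).mp hk
      exact K.mul_mem this (K.inv_mem hk)
    have h2 : z * k * z⁻¹ * k⁻¹ ∈ Cfsg.pCore 2 G := by
      have h3 : k * z⁻¹ * k⁻¹ ∈ Cfsg.pCore 2 G :=
        (inferInstance : (Cfsg.pCore 2 G).Normal).conj_mem _ ((Cfsg.pCore 2 G).inv_mem hzO) k
      have := (Cfsg.pCore 2 G).mul_mem hzO h3
      simpa [mul_assoc] using this
    have h4 : z * k * z⁻¹ * k⁻¹ = 1 :=
      Lib.Helper90.Basic.eq_one_of_mem_odd_of_mem_two K (Cfsg.pCore 2 G) hKodd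
        (Lib.Helper90.Basic.pCore_isPGroup 2) _ h1 h2
    have h5 : z * k = k * z := by
      have := congrArg (fun t => t * k * z) h4
      simpa [mul_assoc] using this
    exact h5
  -- Step 2: K normalizes Q, so K centralizes Q
  have hKN : K ≤ Subgroup.normalizer (Q : Set G) := hKZ.trans hL3
  have hKC : K ≤ Subgroup.centralizer (Q : Set G) := by
    intro k hk
    rw [Subgroup.mem_centralizer_iff]
    intro q hq
    have h1 : k * q * k⁻¹ * q⁻¹ ∈ Q := by
      have := (Subgroup.mem_normalizer_iff.mp (hKN hk) q).mp hq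
      exact Q.mul_mem this (Q.inv_mem hq)
    have h2 : k * q * k⁻¹ * q⁻¹ ∈ K := by
      have h3 : q * k⁻¹ * q⁻¹ ∈ K :=
        (Subgroup.mem_normalizer_iff.mp (hQK hq) k⁻¹).mp (K.inv_mem hk)
      have := K.mul_mem hk h3
      simpa [mul_assoc] using this
    have hQ2' : IsPGroup 2 ↥Q := hQ2
    have h4 : k * q * k⁻¹ * q⁻¹ = 1 :=
      Lib.Helper90.Basic.eq_one_of_mem_odd_of_mem_two K Q hKodd hQ2' _ h2 h1
    have h5 : k * q = q * k := by
      have := congrArg (fun t => t * q * k) h4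
      simpa [mul_assoc] using this
    exact h5.symm
  -- Step 3: K ≤ Z ≤ Q, so K is trivial
  rw [eq_bot_iff]
  intro k hk
  have hkZ : k ∈ (Subgroup.center ↥Q).map Q.subtype := hL2 ▸ hKC hk
  have hkQ : k ∈ Q := by
    obtain ⟨y, _, rfl⟩ := hkZ
    exact y.2
  exact Lib.Helper90.Basic.eq_one_of_mem_odd_of_mem_two K Q hKodd hQ2 _ hk hkQ

end Cfsg.Agent.S5420
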