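import Cfsg.Statements.S2420
import Mathlib

set_option autoImplicit false
open scoped MatrixGroups
open Cfsg

namespace Cfsg.Agent.S2420
open Module

section flag
variable {K V : Type*} [Field K] [AddCommGroup V] [Module K V] [Finite K] [Finite V]

/-- Tuples of independent vectors adapted to a chain of subspaces. -/
abbrev FlagTuples (K : Type*) {V : Type*} [Field K] [AddCommGroup V] [Module K V]
    (W : ℕ → Submodule K V) (k : ℕ) : Type _ :=
  {s : Fin k → V // LinearIndependent K s ∧ ∀ j : Fin k, s j ∈ W j.val}

/-- Peeling off the last vector. -/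
def flagEquiv (W : ℕ → Submodule K V) (k : ℕ) :
    FlagTuples K W (k + 1) ≃
      {p : FlagTuples K W k × V // p.2 ∈ W k ∧ p.2 ∉ Submodule.span K (Set.range p.1.1)} where
  toFun s := ⟨⟨⟨Fin.init s.1, (linearIndependent_finSucc'.mp s.2.1).1, fun j => s.2.2 j.castSucc⟩,
    s.1 (Fin.last k)⟩, s.2.2 (Fin.last k), (linearIndependent_finSucc'.mp s.2.1).2⟩
  invFun x := ⟨Fin.snoc x.1.1.1 x.1.2, linearIndependent_finSnoc.mpr ⟨x.1.1.2.1, x.2.2⟩, by
    intro j
    refine Fin.lastCases ?_ (fun i => ?_) j
    · simpa using x.2.1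
    · simpa using x.1.1.2.2 i⟩
  left_inv s := by
    apply Subtype.ext
    simp [Fin.snoc_init_self]
  right_inv x := by
    apply Subtype.ext
    apply Prod.ext
    · apply Subtype.ext
      simp [Fin.init_snoc]
    · simp

theorem card_fiber (U W : Submodule K V) (hUW : U ≤ W) :
    Nat.card {v : V // v ∈ W ∧ v ∉ U} = Nat.card W - Nat.card U := by
  have h1 : Nat.card {v : V // v ∈ W ∧ v ∉ U} = ((W : Set V) \ (U : Set V)).ncard := by
    rw [← Nat.card_coe_set_eq]
    rfl
  have h2 : Nat.card W = (W : Set V).ncard := (Nat.card_coe_set_eq _)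
  have h3 : Nat.card U = (U : Set V).ncard := (Nat.card_coe_set_eq _)
  rw [h1, h2, h3, Set.ncard_sdiff (by exact_mod_cast hUW)]

theorem card_flagTuples (W : ℕ → Submodule K V) (hW : Monotone W) (k : ℕ) :
    Nat.card (FlagTuples K W k) = ∏ j ∈ Finset.range k, (Nat.card (W j) - Nat.card K ^ j) := by
  induction k with
  | zero =>
    rw [Finset.prod_range_zero]
    have : Unique (FlagTuples K W 0) :=
      { default := ⟨Fin.elim0, linearIndependent_empty_type, fun j => j.elim0⟩
        uniq := fun s => Subtype.ext (funext fun j => j.elim0) }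
    exact Nat.card_unique
  | succ k ih =>
    have hfib : ∀ s : FlagTuples K W k,
        Nat.card {v : V // v ∈ W k ∧ v ∉ Submodule.span K (Set.range s.1)} =
          Nat.card (W k) - Nat.card K ^ k := by
      intro s
      have hle : Submodule.span K (Set.range s.1) ≤ W k := by
        rw [Submodule.span_le]
        rintro _ ⟨j, rfl⟩
        exact hW (le_of_lt j.isLt) (s.2.2 j)
      rw [card_fiber _ _ hle]
      congr 1
      rw [Module.natCard_eq_pow_finrank (K := K), finrank_span_eq_card s.2.1, Fintype.card_fin]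
    haveI : Fintype (FlagTuples K W k) := Fintype.ofFinite _
    rw [Nat.card_congr (flagEquiv W k),
      Nat.card_congr (Equiv.subtypeProdEquivSigmaSubtype
        (fun (s : FlagTuples K W k) (v : V) => v ∈ W k ∧ v ∉ Submodule.span K (Set.range s.1))),
      Nat.card_sigma, Finset.prod_range_succ, ← ih,
      Finset.sum_congr rfl (fun s _ => hfib s), Finset.sum_const, Finset.card_univ,
      smul_eq_mul, ← Nat.card_eq_fintype_card]

end flag

section label
variable {n : ℕ} (μ : Fin n → ℕ)

/-- Partial sums up to and including `a`. -/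
def S (a : Fin n) : ℕ := ∑ k ∈ Finset.univ.filter (fun k : Fin n => k ≤ a), μ k

/-- Partial sums strictly before `a`. -/
def Sm (a : Fin n) : ℕ := ∑ k ∈ Finset.univ.filter (fun k : Fin n => k < a), μ k

theorem compLabel_eq (i : Fin n) :
    Cfsg.compLabel μ i = (Finset.univ.filter fun j : Fin n => S μ j ≤ i.val).card := rfl

theorem S_mono : Monotone (S μ) := by
  intro a a' h
  apply Finset.sum_le_sum_of_subset
  intro k hk
  simp only [Finset.mem_filter, Finset.mem_univ, true_and] at hk ⊢
  exact le_trans hk h

theorem S_eq (a : Fin n) : S μ a = Sm μ a + μ a := by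
  unfold S Sm
  have : Finset.univ.filter (fun k : Fin n => k ≤ a) =
      insert a (Finset.univ.filter (fun k : Fin n => k < a)) := by
    ext k
    simp only [Finset.mem_filter, Finset.mem_univ, true_and, Finset.mem_insert]
    constructor
    · intro h
      rcases lt_or_eq_of_le h with h | h
      · exact Or.inr h
      · exact Or.inl h
    · rintro (h | h)
      · exact le_of_eq h
      · exact le_of_lt h
  rw [this, Finset.sum_insert (by simp), add_comm]

theorem S_le_total (a : Fin n) : S μ a ≤ ∑ i, μ i := by
  apply Finset.sum_le_sum_of_subset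
  exact Finset.filter_subset _ _

theorem S_pred {a a₁ : Fin n} (h : a₁.val + 1 = a.val) : S μ a₁ = Sm μ a := by
  unfold S Sm
  congr 1
  ext k
  simp only [Finset.mem_filter, Finset.mem_univ, true_and, Fin.le_def, Fin.lt_def]
  omega

theorem label_le_iff (i a : Fin n) : Cfsg.compLabel μ i ≤ a.val ↔ i.val < S μ a := by
  rw [compLabel_eq]
  constructor
  · intro h
    by_contra hle
    have hle' : S μ a ≤ i.val := by omega
    have hsub : Finset.Iic a ⊆ Finset.univ.filter (fun j : Fin n => S μ j ≤ i.val) := by
      intro k hk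
      simp only [Finset.mem_Iic] at hk
      simp only [Finset.mem_filter, Finset.mem_univ, true_and]
      exact le_trans (S_mono μ hk) hle'
    have := Finset.card_le_card hsub
    rw [Fin.card_Iic] at this
    omega
  · intro h
    have hsub : Finset.univ.filter (fun j : Fin n => S μ j ≤ i.val) ⊆ Finset.Iio a := by
      intro k hk
      simp only [Finset.mem_filter, Finset.mem_univ, true_and] at hk
      simp only [Finset.mem_Iio]
      by_contra hka
      have : S μ a ≤ S μ k := S_mono μ (not_lt.mp hka)
      omega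
    have := Finset.card_le_card hsub
    rw [Fin.card_Iio] at this
    exact this

theorem label_lt_iff (i a : Fin n) : Cfsg.compLabel μ i < a.val ↔ i.val < Sm μ a := by
  rcases Nat.eq_zero_or_pos a.val with h0 | hpos
  · have : Sm μ a = 0 := by
      unfold Sm
      apply Finset.sum_eq_zero
      intro k hk
      simp only [Finset.mem_filter, Finset.mem_univ, true_and, Fin.lt_def] at hk
      omega
    rw [h0, this]
    constructor <;> intro h <;> omega
  · have ha := a.isLt
    let a₁ : Fin n := ⟨a.val - 1, by omega⟩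
    have h1 : a₁.val + 1 = a.val := by simp only [a₁]; omega
    rw [← S_pred μ h1, ← label_le_iff]
    omega

theorem label_mono : Monotone (Cfsg.compLabel μ) := by
  intro i i' h
  rw [compLabel_eq, compLabel_eq]
  apply Finset.card_le_card
  intro k hk
  simp only [Finset.mem_filter, Finset.mem_univ, true_and] at hk ⊢
  exact le_trans hk h

theorem label_lt_n (hμ : ∑ i, μ i = n) (i : Fin n) : Cfsg.compLabel μ i < n := by
  have hi := i.isLt
  let a : Fin n := ⟨n - 1, by omega⟩
  have hS : S μ a = n := by
    have hS' : S μ a = ∑ i, μ i := by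
      unfold S
      congr 1
      ext k
      simp only [Finset.mem_filter, Finset.mem_univ, true_and, iff_true, Fin.le_def, a]
      have := k.isLt
      omega
    exact hS'.trans hμ
  have := (label_le_iff μ i a).mpr (by rw [hS]; exact hi)
  simp only [a] at this
  omega

theorem card_filter_val_lt (m : ℕ) (hm : m ≤ n) :
    (Finset.univ.filter (fun i : Fin n => i.val < m)).card = m := by
  rw [← Finset.card_range m]
  apply Finset.card_bij (fun i _ => i.val)
  · intro i hi
    simp only [Finset.mem_filter, Finset.mem_univ, true_and] at hi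
    simpa using hi
  · intro i _ j _ h
    exact Fin.ext h
  · intro x hx
    simp only [Finset.mem_range] at hx
    exact ⟨⟨x, by omega⟩, by simp [hx], rfl⟩

end label

section parabolic
variable {F : Type*} [Field F] {n : ℕ} (μ : Fin n → ℕ)

/-- Vectors supported on the rows of label at most `c`. -/
def Wb (F : Type*) [Field F] {n : ℕ} (μ : Fin n → ℕ) (c : ℕ) : Submodule F (Fin n → F) where
  carrier := {v | ∀ i, c < Cfsg.compLabel μ i → v i = 0}
  zero_mem' := fun _ _ => rfl
  add_mem' := fun {v w} hv hw i hi => by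
    show v i + w i = 0
    rw [hv i hi, hw i hi, add_zero]
  smul_mem' := fun c v hv i hi => by
    show c * v i = 0
    rw [hv i hi, mul_zero]

theorem Wb_mono : Monotone (Wb F μ) := by
  intro c c' h v hv i hi
  exact hv i (lt_of_le_of_lt h hi)

/-- The label of a natural number (a junk value beyond the range). -/
def bb (j : ℕ) : ℕ := if h : j < n then Cfsg.compLabel μ ⟨j, h⟩ else n

theorem bb_mono (hμ : ∑ i, μ i = n) : Monotone (bb μ) := by
  intro j j' h
  unfold bb
  by_cases h1 : j' < n
  · have h2 : j < n := lt_of_le_of_lt h h1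
    rw [dif_pos h1, dif_pos h2]
    exact label_mono μ h
  · rw [dif_neg h1]
    by_cases h2 : j < n
    · rw [dif_pos h2]
      exact le_of_lt (label_lt_n μ hμ _)
    · rw [dif_neg h2]

/-- Functions on the rows of small label. -/
def WbEquiv (c : ℕ) : Wb F μ c ≃ ({i : Fin n // Cfsg.compLabel μ i ≤ c} → F) where
  toFun v := fun i => v.1 i.1
  invFun f := ⟨fun i => if h : Cfsg.compLabel μ i ≤ c then f ⟨i, h⟩ else 0, by
    intro i hi
    show (if h : Cfsg.compLabel μ i ≤ c then f ⟨i, h⟩ else 0) = 0
    rw [dif_neg (not_le.mpr hi)]⟩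
  left_inv v := by
    apply Subtype.ext
    funext i
    by_cases h : Cfsg.compLabel μ i ≤ c
    · simp [h]
    · simp only [h, dif_neg, not_false_iff]
      exact (v.2 i (not_le.mp h)).symm
  right_inv f := by
    funext ⟨i, hi⟩
    simp [hi]

theorem card_Wb [Fintype F] (c : ℕ) :
    Nat.card (Wb F μ c) =
      Nat.card F ^ (Finset.univ.filter (fun i : Fin n => Cfsg.compLabel μ i ≤ c)).card := by
  rw [Nat.card_congr (WbEquiv μ c), Nat.card_fun, Nat.card_eq_fintype_card (α := {i : Fin n // _}),
    Fintype.card_subtype]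

/-- The parabolic subgroup as a set of adapted tuples of columns. -/
noncomputable def parabolicEquiv [Fintype F] :
    ↥(Cfsg.parabolicGL n F μ) ≃ FlagTuples F (fun j => Wb F μ (bb μ j)) n :=
  ((Matrix.equiv_GL_linearindependent n).subtypeEquiv (p := fun g => g ∈ Cfsg.parabolicGL n F μ)
    (q := fun s => ∀ j : Fin n, s.1 j ∈ Wb F μ (bb μ j.val)) (by
      intro g
      show (g : Matrix (Fin n) (Fin n) F).BlockTriangular (Cfsg.compLabel μ) ↔
        ∀ j : Fin n, (fun i => (g : Matrix (Fin n) (Fin n) F) i j) ∈ Wb F μ (bb μ j.val)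
      constructor
      · intro h j i hi
        have hbb : bb μ j.val = Cfsg.compLabel μ j := by
          unfold bb
          rw [dif_pos j.isLt]
        rw [hbb] at hi
        exact h hi
      · intro h i j hij
        have hbb : bb μ j.val = Cfsg.compLabel μ j := by
          unfold bb
          rw [dif_pos j.isLt]
        exact h j i (by rw [hbb]; exact hij))).trans
    (Equiv.subtypeSubtypeEquivSubtypeInter (fun s : Fin n → Fin n → F => LinearIndependent F s)
      (fun s : Fin n → Fin n → F => ∀ j : Fin n, s j ∈ Wb F μ (bb μ j.val)))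

end parabolic

section arith

/-- The `q`-integer. -/
def Q (q m : ℕ) : ℕ := ∑ l ∈ Finset.range m, q ^ l

theorem geom (q : ℕ) (hq : 1 ≤ q) (m : ℕ) : (q - 1) * Q q m + 1 = q ^ m := by
  induction m with
  | zero => simp [Q]
  | succ m ih =>
    unfold Q at ih ⊢
    rw [Finset.sum_range_succ, mul_add, pow_succ]
    obtain ⟨r, rfl⟩ : ∃ r, q = r + 1 := ⟨q - 1, by omega⟩
    simp only [Nat.add_sub_cancel] at ih ⊢
    nlinarith

theorem pow_sub_pow (q : ℕ) (hq : 1 ≤ q) (D j : ℕ) (h : j ≤ D) :
    q ^ D - q ^ j = q ^ j * (q - 1) * Q q (D - j) := by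
  have h1 := geom q hq (D - j)
  have h2 : q ^ D = q ^ j * q ^ (D - j) := by rw [← pow_add]; congr 1; omega
  rw [h2, ← h1, mul_add, mul_one, Nat.add_sub_cancel, mul_assoc]

end arith

section main
variable {F : Type*} [Field F] [Fintype F] {n : ℕ} (μ : Fin n → ℕ)

/-- The label as an element of `Fin n`. -/
def lab (hμ : ∑ i, μ i = n) (j : Fin n) : Fin n := ⟨Cfsg.compLabel μ j, label_lt_n μ hμ j⟩

theorem card_parabolic (hμ : ∑ i, μ i = n) :
    Nat.card ↥(Cfsg.parabolicGL n F μ) =
      ∏ j : Fin n, (Fintype.card F ^ S μ (lab μ hμ j) - Fintype.card F ^ j.val) := by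
  rw [Nat.card_congr (parabolicEquiv μ),
    card_flagTuples _ (fun a b h => Wb_mono μ (bb_mono μ hμ h)), Finset.prod_range]
  apply Finset.prod_congr rfl
  intro j _
  have hbb : bb μ j.val = Cfsg.compLabel μ j := by
    unfold bb
    rw [dif_pos j.isLt]
  rw [hbb, card_Wb, Nat.card_eq_fintype_card]
  congr 2
  have : Finset.univ.filter (fun i : Fin n => Cfsg.compLabel μ i ≤ Cfsg.compLabel μ j) =
      Finset.univ.filter (fun i : Fin n => i.val < S μ (lab μ hμ j)) := by
    ext i
    simp only [Finset.mem_filter, Finset.mem_univ, true_and]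
    exact label_le_iff μ i (lab μ hμ j)
  rw [this, card_filter_val_lt]
  exact le_of_le_of_eq (S_le_total μ _) hμ

theorem block_prod (hμ : ∑ i, μ i = n) (q : ℕ) :
    ∏ j : Fin n, Q q (S μ (lab μ hμ j) - j.val) =
      ∏ a : Fin n, ∏ t ∈ Finset.range (μ a), Q q (t + 1) := by
  rw [← Finset.prod_fiberwise Finset.univ (lab μ hμ)]
  apply Finset.prod_congr rfl
  intro a _
  have hSa : S μ a = Sm μ a + μ a := S_eq μ a
  have hSn : S μ a ≤ n := le_of_le_of_eq (S_le_total μ a) hμ
  apply Finset.prod_bij (fun j _ => S μ a - 1 - j.val)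
  · intro j hj
    simp only [Finset.mem_filter, Finset.mem_univ, true_and] at hj
    have h1 : j.val < S μ a := (label_le_iff μ j a).mp (by rw [← hj]; exact le_refl _)
    have h2 : ¬ (j.val < Sm μ a) := by
      rw [← label_lt_iff, ← hj]
      exact lt_irrefl _
    simp only [Finset.mem_range]
    omega
  · intro j hj j' hj' h
    simp only [Finset.mem_filter, Finset.mem_univ, true_and] at hj hj'
    have h1 : j.val < S μ a := (label_le_iff μ j a).mp (by rw [← hj]; exact le_refl _)
    have h1' : j'.val < S μ a := (label_le_iff μ j' a).mp (by rw [← hj']; exact le_refl _)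
    apply Fin.ext
    omega
  · intro t ht
    simp only [Finset.mem_range] at ht
    refine ⟨⟨S μ a - 1 - t, by omega⟩, ?_, ?_⟩
    · simp only [Finset.mem_filter, Finset.mem_univ, true_and]
      apply Fin.ext
      show Cfsg.compLabel μ ⟨S μ a - 1 - t, _⟩ = a.val
      have h1 : Cfsg.compLabel μ ⟨S μ a - 1 - t, by omega⟩ ≤ a.val :=
        (label_le_iff μ _ a).mpr (by show S μ a - 1 - t < S μ a; omega)
      have h2 : ¬ (Cfsg.compLabel μ ⟨S μ a - 1 - t, by omega⟩ < a.val) := by
        rw [label_lt_iff]
        show ¬ (S μ a - 1 - t < Sm μ a)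
        omega
      omega
    · show S μ a - 1 - (S μ a - 1 - t) = t
      omega
  · intro j hj
    simp only [Finset.mem_filter, Finset.mem_univ, true_and] at hj
    have h1 : j.val < S μ a := (label_le_iff μ j a).mp (by rw [← hj]; exact le_refl _)
    rw [hj]
    congr 1
    omega

end main

/-- The number of partial flags of a given type: for a composition `μ` of `n` (with `n` parts, zeros allowed) and a field with `q` elements, the index of the standard parabolic subgroup `P_μ` in `GL_n(q)` times `∏_i {μ_i}` equals `{n}`, where `{r}` denotes the product over `k = 1, …, r` of the q-integers `1 + q + ⋯ + q^(k−1)`. -/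
theorem result {F : Type*} [Field F] [Fintype F] {q : ℕ} (hq : Fintype.card F = q) {n : ℕ} (μ : Fin n → ℕ) (hμ : ∑ i, μ i = n) :
    Nat.card (GL (Fin n) F ⧸ Cfsg.parabolicGL n F μ) * ∏ i : Fin n, ∏ j ∈ Finset.range (μ i), ∑ l ∈ Finset.range (j + 1), q ^ l =
      ∏ j ∈ Finset.range n, ∑ l ∈ Finset.range (j + 1), q ^ l := by
  subst hq
  have hq1 : 1 ≤ Fintype.card F := Fintype.card_pos
  have hq2 : 2 ≤ Fintype.card F := Fintype.one_lt_card
  have hLag : Nat.card (GL (Fin n) F) =
      Nat.card (GL (Fin n) F ⧸ Cfsg.parabolicGL n F μ) * Nat.card ↥(Cfsg.parabolicGL n F μ) :=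
    Subgroup.card_eq_card_quotient_mul_card_subgroup _
  rw [Matrix.card_GL_field, card_parabolic μ hμ] at hLag
  have hP : ∏ j : Fin n, (Fintype.card F ^ S μ (lab μ hμ j) - Fintype.card F ^ j.val) =
      (∏ j : Fin n, Fintype.card F ^ j.val * (Fintype.card F - 1)) *
        ∏ a : Fin n, ∏ t ∈ Finset.range (μ a), Q (Fintype.card F) (t + 1) := by
    rw [← block_prod μ hμ, ← Finset.prod_mul_distrib]
    apply Finset.prod_congr rfl
    intro j _
    apply pow_sub_pow _ hq1
    exact le_of_lt ((label_le_iff μ j (lab μ hμ j)).mp (le_refl _))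
  have hG : ∏ j : Fin n, (Fintype.card F ^ n - Fintype.card F ^ j.val) =
      (∏ j : Fin n, Fintype.card F ^ j.val * (Fintype.card F - 1)) *
        ∏ j ∈ Finset.range n, Q (Fintype.card F) (j + 1) := by
    have h1 : ∏ j ∈ Finset.range n, Q (Fintype.card F) (j + 1) =
        ∏ j : Fin n, Q (Fintype.card F) (n - j.val) := by
      rw [← Finset.prod_range (fun j => Q (Fintype.card F) (n - j)),
        ← Finset.prod_range_reflect]
      apply Finset.prod_congr rfl
      intro j hj
      simp only [Finset.mem_range] at hj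
      congr 1
      omega
    rw [h1, ← Finset.prod_mul_distrib]
    apply Finset.prod_congr rfl
    intro j _
    exact pow_sub_pow _ hq1 _ _ (le_of_lt j.isLt)
  rw [hP, hG] at hLag
  have hC : (∏ j : Fin n, Fintype.card F ^ j.val * (Fintype.card F - 1)) ≠ 0 := by
    apply Finset.prod_ne_zero_iff.mpr
    intro j _
    have : 0 < Fintype.card F ^ j.val := pow_pos (by omega) _
    have : 0 < Fintype.card F - 1 := by omega
    positivity
  have key := hLag
  rw [← mul_assoc, mul_comm (Nat.card _) _, mul_assoc] at key
  have := Nat.eq_of_mul_eq_mul_left (Nat.pos_of_ne_zero hC) key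
  unfold Q at this
  exact this.symm

end Cfsg.Agent.S2420
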