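import Cfsg.Statements.S2424
import Cfsg.Agent.S2420
import Mathlib

set_option autoImplicit false
open scoped MatrixGroups
open Cfsg

namespace Cfsg.Agent.S2424

/-- The `q`-integer. -/
def Qn (q r : ℕ) : ℕ := ∑ l ∈ Finset.range r, q ^ l

theorem Qn_add (q a b : ℕ) : Qn q (a + b) = Qn q a + q ^ a * Qn q b := by
  unfold Qn
  rw [Finset.sum_range_add, Finset.mul_sum]
  congr 1
  apply Finset.sum_congr rfl
  intro l _
  rw [pow_add]

theorem Qn_zero (q : ℕ) : Qn q 0 = 0 := by
  unfold Qn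
  simp

/-- The complex `q`-integer. -/
noncomputable def Qc (q r : ℕ) : ℂ := ((Qn q r : ℕ) : ℂ)

theorem Qc_sub (q t lam : ℕ) (h : t ≤ lam) :
    (q : ℂ) ^ t * Qc q (lam - t) = Qc q lam - Qc q t := by
  have h1 := Qn_add q t (lam - t)
  rw [Nat.add_sub_cancel' h] at h1
  unfold Qc
  rw [h1]
  push_cast
  ring

theorem prod_Qc (q k lam : ℕ) :
    ∏ t ∈ Finset.range k, ((q : ℂ) ^ t * Qc q (lam - t)) =
      ∏ t ∈ Finset.range k, (Qc q lam - Qc q t) := by
  by_cases h : k ≤ lam
  · apply Finset.prod_congr rfl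
    intro t ht
    exact Qc_sub q t lam (by simp only [Finset.mem_range] at ht; omega)
  · have hmem : lam ∈ Finset.range k := by simp only [Finset.mem_range]; omega
    have e1 : (q : ℂ) ^ lam * Qc q (lam - lam) = 0 := by
      rw [Nat.sub_self]
      unfold Qc
      rw [Qn_zero]
      simp
    have e2 : Qc q lam - Qc q lam = 0 := sub_self _
    rw [Finset.prod_eq_zero hmem e1, Finset.prod_eq_zero hmem e2]

/-- The `q`-factorial. -/
def QF (q r : ℕ) : ℕ := ∏ j ∈ Finset.range r, Qn q (j + 1)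

theorem QF_succ (q m : ℕ) : QF q (m + 1) = QF q m * Qn q (m + 1) := by
  unfold QF
  rw [Finset.prod_range_succ]

theorem QF_split (q k lam : ℕ) (h : k ≤ lam) :
    QF q lam = QF q (lam - k) * ∏ t ∈ Finset.range k, Qn q (lam - t) := by
  induction k with
  | zero => simp
  | succ k ih =>
    have h1 : lam - k = (lam - (k + 1)) + 1 := by omega
    rw [ih (by omega), Finset.prod_range_succ, h1, QF_succ]
    ring

theorem fixedPointCharacter_one {G : Type*} [Group G] (H : Subgroup G) :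
    Cfsg.fixedPointCharacter H 1 = (Nat.card (G ⧸ H) : ℂ) := by
  unfold Cfsg.fixedPointCharacter
  have h1 : MulAction.fixedBy (G ⧸ H) (1 : G) = Set.univ := by
    ext x
    simp
  rw [h1, Nat.card_coe_set_eq, Set.ncard_univ]

theorem sum_comp (n : ℕ) (ν : Fin n → ℕ) (hsum : ∑ i, ν i = n) (κ : Equiv.Perm (Fin n))
    (hκ : ∀ i : Fin n, (κ i).val ≤ ν i + i.val) :
    ∑ i, (ν i + i.val - (κ i).val) = n := by
  have h1 : ∑ i, (ν i + i.val - (κ i).val) + ∑ i : Fin n, (κ i).val = ∑ i : Fin n, (ν i + i.val) := by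
    rw [← Finset.sum_add_distrib]
    apply Finset.sum_congr rfl
    intro i _
    exact Nat.sub_add_cancel (hκ i)
  have h2 : ∑ i : Fin n, (κ i).val = ∑ i : Fin n, i.val := Equiv.sum_comp κ (fun i => i.val)
  rw [Finset.sum_add_distrib, hsum, h2] at h1
  omega

theorem sum_choose (n : ℕ) : ∑ k ∈ Finset.range n, k * (k - 1) / 2 = n * (n - 1) * (n - 2) / 6 := by
  have key : ∀ n : ℕ, 6 * ∑ k ∈ Finset.range n, k * (k - 1) / 2 = n * (n - 1) * (n - 2) := by
    intro n
    induction n with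
    | zero => simp
    | succ n ih =>
      rw [Finset.sum_range_succ, mul_add, ih]
      have h2 : 2 * (n * (n - 1) / 2) = n * (n - 1) :=
        Nat.mul_div_cancel' (Nat.even_mul_pred_self n).two_dvd
      rcases n with _ | _ | m
      · simp
      · simp
      · simp only [Nat.add_sub_cancel] at h2 ⊢
        have e : m + 1 + 1 - 2 = m := by omega
        have e' : m + 1 + 1 + 1 - 2 = m + 1 := by omega
        rw [e, e']
        nlinarith
  rw [← key n, Nat.mul_div_cancel_left _ (by norm_num)]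

/-- The matrix of falling `q`-factorials. -/
noncomputable def Mf (q n : ℕ) (ν : Fin n → ℕ) : Matrix (Fin n) (Fin n) ℂ :=
  Matrix.of fun k i => ∏ t ∈ Finset.range k.val, Qc q (ν i + i.val - t)

/-- The monic polynomials. -/
noncomputable def pp (q n : ℕ) (k : Fin n) : Polynomial ℂ :=
  ∏ t ∈ Finset.range k.val, (Polynomial.X - Polynomial.C (Qc q t))

theorem det_Mf (q n : ℕ) (ν : Fin n → ℕ) :
    (q : ℂ) ^ (n * (n - 1) * (n - 2) / 6) * (Mf q n ν).det =
      ∏ i : Fin n, ∏ j ∈ Finset.univ.filter (fun j : Fin n => i < j),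
        (Qc q (ν j + j.val) - Qc q (ν i + i.val)) := by
  have hfilter : ∀ i : Fin n, Finset.univ.filter (fun j : Fin n => i < j) = Finset.Ioi i := by
    intro i
    ext j
    simp
  have hV := Matrix.det_eval_matrixOfPolynomials_eq_det_vandermonde
    (fun i : Fin n => Qc q (ν i + i.val)) (pp q n)
    (fun i => by
      unfold pp
      rw [Polynomial.natDegree_finsetProd_X_sub_C_eq_card, Finset.card_range])
    (fun i => by
      unfold pp
      exact Polynomial.monic_prod_of_monic _ _ (fun t _ => Polynomial.monic_X_sub_C _))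
  rw [Matrix.det_vandermonde] at hV
  simp only [hfilter]
  rw [hV, ← Matrix.det_transpose (Matrix.of fun i j => Polynomial.eval (Qc q (ν i + i.val)) (pp q n j))]
  have hD : Matrix.transpose (Matrix.of fun i j => Polynomial.eval (Qc q (ν i + i.val)) (pp q n j)) =
      Matrix.diagonal (fun k : Fin n => (q : ℂ) ^ (k.val * (k.val - 1) / 2)) * Mf q n ν := by
    ext k i
    rw [Matrix.diagonal_mul, Matrix.transpose_apply, Matrix.of_apply]
    unfold pp Mf
    rw [Matrix.of_apply, Polynomial.eval_prod]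
    simp only [Polynomial.eval_sub, Polynomial.eval_X, Polynomial.eval_C]
    rw [← prod_Qc, Finset.prod_mul_distrib, Finset.prod_pow_eq_pow_sum, Finset.sum_range_id]
  rw [hD, Matrix.det_mul, Matrix.det_diagonal, Finset.prod_pow_eq_pow_sum]
  congr 2
  rw [← sum_choose, Finset.sum_range]

theorem term_eq {F : Type*} [Field F] [Fintype F] {q : ℕ} (hq : Fintype.card F = q) {n : ℕ}
    (ν : Fin n → ℕ) (hsum : ∑ i, ν i = n) (κ : Equiv.Perm (Fin n)) :
    (if ∀ i : Fin n, (κ i).val ≤ ν i + i.val then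
      ((Equiv.Perm.sign κ : ℤ) : ℂ) *
        Cfsg.fixedPointCharacter (Cfsg.parabolicGL n F fun i => ν i + i.val - (κ i).val) 1
    else 0) * ∏ i : Fin n, ((QF q (ν i + i.val) : ℕ) : ℂ) =
      ((QF q n : ℕ) : ℂ) * (((Equiv.Perm.sign κ : ℤ) : ℂ) * ∏ i : Fin n, Mf q n ν (κ i) i) := by
  by_cases hκ : ∀ i : Fin n, (κ i).val ≤ ν i + i.val
  · rw [if_pos hκ, fixedPointCharacter_one]
    have h1 := Cfsg.Agent.S2420.result hq (fun i => ν i + i.val - (κ i).val)
      (sum_comp n ν hsum κ hκ)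
    have h1' : Nat.card (GL (Fin n) F ⧸ Cfsg.parabolicGL n F fun i => ν i + i.val - (κ i).val) *
        ∏ i : Fin n, QF q (ν i + i.val - (κ i).val) = QF q n := h1
    have h2 : ∏ i : Fin n, QF q (ν i + i.val) =
        (∏ i : Fin n, QF q (ν i + i.val - (κ i).val)) *
          ∏ i : Fin n, ∏ t ∈ Finset.range (κ i).val, Qn q (ν i + i.val - t) := by
      rw [← Finset.prod_mul_distrib]
      apply Finset.prod_congr rfl
      intro i _
      exact QF_split q _ _ (hκ i)
    have h3 : ∏ i : Fin n, Mf q n ν (κ i) i =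
        ((∏ i : Fin n, ∏ t ∈ Finset.range (κ i).val, Qn q (ν i + i.val - t) : ℕ) : ℂ) := by
      push_cast
      rfl
    rw [h3, ← h1', ← Nat.cast_prod, h2]
    push_cast
    ring
  · rw [if_neg hκ, zero_mul]
    push Not at hκ
    obtain ⟨i, hi⟩ := hκ
    have h0 : Mf q n ν (κ i) i = 0 := by
      unfold Mf
      rw [Matrix.of_apply]
      apply Finset.prod_eq_zero (i := ν i + i.val) (by simp only [Finset.mem_range]; exact hi)
      rw [Nat.sub_self]
      unfold Qc
      rw [Qn_zero]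
      simp
    have hz : ∏ j : Fin n, Mf q n ν (κ j) j = 0 := Finset.prod_eq_zero (Finset.mem_univ i) h0
    rw [hz]
    simp

/-- Degrees of the partition-indexed irreducible characters of `GL_n(q)`: for `ν` a partition of `n` with `n` non-decreasing parts `ν_0 ≤ ⋯ ≤ ν_{n−1}` (zeros allowed; positions counted from 0) and `λ_i = ν_i + i`, write `Q(r)` for the q-integer `1 + q + ⋯ + q^(r−1)` and `Q!(r)` for `Q(1)Q(2)⋯Q(r)`; then the degree `γ(ν)` of the character satisfies `γ(ν) · q^(n(n−1)(n−2)/6) · ∏_i Q!(λ_i) = Q!(n) · ∏_{i<j} (Q(λ_j) − Q(λ_i))`. For `ν = (1,…,1)` this gives the Steinberg degree `q^(n(n−1)/2)`, for `ν = (0,…,0,n)` degree 1. -/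
theorem result {F : Type*} [Field F] [Fintype F] {q : ℕ} (hq : Fintype.card F = q) {n : ℕ} (ν : Fin n → ℕ) (hmono : Monotone ν) (hsum : ∑ i, ν i = n) :
    Cfsg.unipotentCharacterGL n F ν 1 * (q : ℂ) ^ (n * (n - 1) * (n - 2) / 6) *
        ∏ i : Fin n, ∏ j ∈ Finset.range (ν i + i.val), ((∑ l ∈ Finset.range (j + 1), q ^ l : ℕ) : ℂ) =
      (∏ j ∈ Finset.range n, ((∑ l ∈ Finset.range (j + 1), q ^ l : ℕ) : ℂ)) *
        ∏ i : Fin n, ∏ j ∈ Finset.univ.filter (fun j : Fin n => i < j),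
          (((∑ l ∈ Finset.range (ν j + j.val), q ^ l : ℕ) : ℂ) - ((∑ l ∈ Finset.range (ν i + i.val), q ^ l : ℕ) : ℂ)) := by
  have _ := hmono
  have hcast : ∀ r : ℕ, ∏ j ∈ Finset.range r, ((∑ l ∈ Finset.range (j + 1), q ^ l : ℕ) : ℂ) =
      ((QF q r : ℕ) : ℂ) := by
    intro r
    unfold QF Qn
    push_cast
    rfl
  simp only [hcast]
  have hQc : ∀ r : ℕ, ((∑ l ∈ Finset.range r, q ^ l : ℕ) : ℂ) = Qc q r := fun r => rfl
  simp only [hQc]
  rw [← det_Mf, Matrix.det_apply']
  have key : Cfsg.unipotentCharacterGL n F ν 1 * ∏ i : Fin n, ((QF q (ν i + i.val) : ℕ) : ℂ) =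
      ((QF q n : ℕ) : ℂ) *
        ∑ κ : Equiv.Perm (Fin n), ((Equiv.Perm.sign κ : ℤ) : ℂ) * ∏ i : Fin n, Mf q n ν (κ i) i := by
    unfold Cfsg.unipotentCharacterGL
    rw [Finset.sum_mul, Finset.mul_sum]
    exact Finset.sum_congr rfl (fun κ _ => term_eq hq ν hsum κ)
  linear_combination ((q : ℂ) ^ (n * (n - 1) * (n - 2) / 6)) * key

end Cfsg.Agent.S2424
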