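import Mathlib
import Cfsg.Statements.S0243
import Cfsg.Agent.S0242
-- import your own Cfsg.Agent.* helpers here

set_option autoImplicit false
open Cfsg

namespace Cfsg.Agent.S0243


/-- Order of PSL_n(q): gcd(n, q-1) (q-1) |PSL_n(q)| = prod_{i<n} (q^n - q^i). -/
theorem result {F : Type*} [Field F] [Fintype F] {q : ℕ} (hF : Fintype.card F = q) (n : ℕ) (hn : 2 ≤ n) : Nat.gcd n (q - 1) * ((q - 1) * Nat.card (Matrix.ProjectiveSpecialLinearGroup (Fin n) F)) = ∏ i : Fin n, (q ^ n - q ^ (i : ℕ)) := by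
  classical
  have hn1 : 1 ≤ n := by omega
  rw [← Cfsg.Agent.S0242.result hF n hn1]
  subst hF
  have hc : Nat.card (Subgroup.center (Matrix.SpecialLinearGroup (Fin n) F))
      = Nat.gcd n (Fintype.card F - 1) := by
    have e := Matrix.SpecialLinearGroup.center_equiv_rootsOfUnity' (R := F) (⟨0, by omega⟩ : Fin n)
    rw [Nat.card_congr e.toEquiv, Fintype.card_fin]
    have h1 : rootsOfUnity n F = (powMonoidHom n : Fˣ →* Fˣ).ker := by
      ext ζ
      rw [mem_rootsOfUnity, MonoidHom.mem_ker, powMonoidHom_apply]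
    rw [h1, IsCyclic.card_powMonoidHom_ker, Nat.card_eq_fintype_card, Fintype.card_units,
      Nat.gcd_comm]
  have h2 := Subgroup.card_mul_index (Subgroup.center (Matrix.SpecialLinearGroup (Fin n) F))
  rw [hc] at h2
  have h3 : (Subgroup.center (Matrix.SpecialLinearGroup (Fin n) F)).index
      = Nat.card (Matrix.ProjectiveSpecialLinearGroup (Fin n) F) := rfl
  rw [h3] at h2
  rw [← h2]
  ring

end Cfsg.Agent.S0243
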