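import Mathlib
import Cfsg.Statements.S0006
import Cfsg.Agent.S0001
import Cfsg.Agent.S0043
import Cfsg.Agent.S0144

set_option autoImplicit false
open Cfsg

namespace Cfsg.Agent.S0006

universe u

/-- `G` has a `p`-complement for every prime `p` -/
def HasComps (G : Type*) [Group G] : Prop :=
  ∀ p : ℕ, p.Prime → ∃ H : Subgroup G, ¬ p ∣ Nat.card H ∧ ∃ k : ℕ, H.index = p ^ k

theorem index_inf_of_coprime {G : Type*} [Group G] [Finite G] (H K : Subgroup G)
    (hcop : H.index.Coprime K.index) : (H ⊓ K).index = H.index * K.index := by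
  apply Nat.le_antisymm (Subgroup.index_inf_le)
  apply Nat.le_of_dvd (Nat.pos_of_ne_zero Subgroup.index_ne_zero_of_finite)
  exact Nat.Coprime.mul_dvd_of_dvd_of_dvd hcop (Subgroup.index_dvd_of_le inf_le_left)
    (Subgroup.index_dvd_of_le inf_le_right)

theorem relIndex_of_coprime {G : Type*} [Group G] [Finite G] (H K : Subgroup G)
    (hcop : H.index.Coprime K.index) : K.relIndex H = K.index := by
  have h1 := Subgroup.relIndex_mul_index (inf_le_left : H ⊓ K ≤ H)
  rw [index_inf_of_coprime H K hcop, Subgroup.inf_relIndex_left] at h1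
  have hpos : 0 < H.index := Nat.pos_of_ne_zero Subgroup.index_ne_zero_of_finite
  rw [mul_comm] at h1
  exact Nat.eq_of_mul_eq_mul_left hpos h1

/-- subgroups of coprime index: `G = H K` -/
theorem exists_mul_of_coprime_index {G : Type*} [Group G] [Finite G] (H K : Subgroup G)
    (hcop : H.index.Coprime K.index) (g : G) : ∃ h ∈ H, ∃ k ∈ K, g = h * k := by
  let φ : H ⧸ K.subgroupOf H → G ⧸ K :=
    Quotient.map' (fun h : H => (h : G)) (by
      intro a b hab
      rw [QuotientGroup.leftRel_apply] at hab ⊢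
      exact hab)
  have hinj : Function.Injective φ := by
    intro x y
    induction x using Quotient.inductionOn' with | _ a =>
    induction y using Quotient.inductionOn' with | _ b =>
    intro hab
    have h1 : (QuotientGroup.mk (a : G) : G ⧸ K) = QuotientGroup.mk (b : G) := hab
    rw [QuotientGroup.eq] at h1
    exact Quotient.sound' (QuotientGroup.leftRel_apply.mpr h1)
  have hcard : Nat.card (G ⧸ K) ≤ Nat.card (H ⧸ K.subgroupOf H) := by
    have := relIndex_of_coprime H K hcop
    rw [← Subgroup.index_eq_card, ← Subgroup.index_eq_card]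
    exact this.symm.le
  obtain ⟨x, hx⟩ := (hinj.bijective_of_nat_card_le hcard).2 (QuotientGroup.mk g)
  induction x using Quotient.inductionOn' with | _ a =>
  have h1 : (QuotientGroup.mk (a : G) : G ⧸ K) = QuotientGroup.mk g := hx
  rw [QuotientGroup.eq] at h1
  exact ⟨a, a.2, (a : G)⁻¹ * g, h1, by group⟩

/-- a normal subgroup of order coprime to the index of `L` lies in `L` -/
theorem le_of_normal_coprime {Q : Type*} [Group Q] [Finite Q] (N L : Subgroup Q) [N.Normal]
    (h : (Nat.card N).Coprime L.index) : N ≤ L := by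
  have cm : ∀ {H K : Subgroup Q}, H ≤ K → Nat.card H * H.relIndex K = Nat.card K := by
    intro H K hHK
    have := Subgroup.card_mul_index (H.subgroupOf K)
    rwa [Cfsg.Agent.S0001.card_subgroupOf_of_le hHK] at this
  have hLD : L ≤ N ⊔ L := le_sup_right
  have h1 : L.relIndex (N ⊔ L) ∣ L.index := Subgroup.relIndex_dvd_index_of_le hLD
  have h2 : L.relIndex (N ⊔ L) ∣ Nat.card N := by
    have e1 : Nat.card N * N.relIndex L = Nat.card (N ⊔ L : Subgroup Q) := by
      have := cm (le_sup_left : N ≤ N ⊔ L)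
      rwa [Subgroup.relIndex_sup_left] at this
    have e2 : Nat.card L * L.relIndex (N ⊔ L) = Nat.card (N ⊔ L : Subgroup Q) := cm hLD
    have e3 : Nat.card (N ⊓ L : Subgroup Q) * N.relIndex L = Nat.card L := by
      have := cm (inf_le_right : N ⊓ L ≤ L)
      rwa [Subgroup.inf_relIndex_right] at this
    have hpos : 0 < N.relIndex L :=
      Nat.pos_of_dvd_of_pos (Subgroup.relIndex_dvd_card N L) Nat.card_pos
    have e4 : Nat.card N * N.relIndex L
        = (Nat.card (N ⊓ L : Subgroup Q) * L.relIndex (N ⊔ L)) * N.relIndex L := by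
      rw [e1, ← e2, ← e3]; ring
    have e5 := Nat.eq_of_mul_eq_mul_right hpos e4
    exact Dvd.intro_left _ e5.symm
  have h3 : L.relIndex (N ⊔ L) = 1 := Nat.Coprime.eq_one_of_dvd (h.symm.coprime_dvd_left h1) h2
  exact le_sup_left.trans (Subgroup.relIndex_eq_one.mp h3)

theorem exists_min_normal (Q : Type*) [Group Q] [Finite Q] [Nontrivial Q] :
    ∃ N : Subgroup Q, N.Normal ∧ N ≠ ⊥ ∧
      ∀ M : Subgroup Q, M.Normal → M ≤ N → M = ⊥ ∨ M = N := by
  classical
  have hex : ∃ n, ∃ M : Subgroup Q, M.Normal ∧ M ≠ ⊥ ∧ Nat.card M = n :=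
    ⟨_, ⊤, inferInstance, top_ne_bot, rfl⟩
  obtain ⟨N, hNn, hN0, hNc⟩ := Nat.find_spec hex
  refine ⟨N, hNn, hN0, ?_⟩
  intro M hMn hMN
  by_contra hcon
  rw [not_or] at hcon
  have hlt : M < N := lt_of_le_of_ne hMN hcon.2
  have : Nat.card M < Nat.find hex := by
    rw [← hNc]; exact Set.ncard_lt_ncard hlt (Set.toFinite _)
  exact Nat.find_min hex this ⟨M, hMn, hcon.1, rfl⟩

theorem two_primes_case {G : Type*} [Group G] [Finite G]
    (h : ¬ ∃ p1 p2 p3 : ℕ, p1.Prime ∧ p2.Prime ∧ p3.Prime ∧ p1 ≠ p2 ∧ p1 ≠ p3 ∧ p2 ≠ p3 ∧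
      p1 ∣ Nat.card G ∧ p2 ∣ Nat.card G ∧ p3 ∣ Nat.card G) :
    Group.IsSolvable G := by
  have hn : Nat.card G ≠ 0 := Nat.card_pos.ne'
  have hprod : ∏ p ∈ (Nat.card G).primeFactors, p ^ (Nat.card G).factorization p = Nat.card G := by
    have := Nat.prod_factorization_pow_eq_self hn
    rwa [Nat.prod_factorization_eq_prod_primeFactors] at this
  have hle : (Nat.card G).primeFactors.card ≤ 2 := by
    by_contra hlt
    rw [not_le, Finset.two_lt_card] at hlt
    obtain ⟨a, ha, b, hb, c, hc, hab, hac, hbc⟩ := hlt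
    exact h ⟨a, b, c, Nat.prime_of_mem_primeFactors ha, Nat.prime_of_mem_primeFactors hb,
      Nat.prime_of_mem_primeFactors hc, hab, hac, hbc, Nat.dvd_of_mem_primeFactors ha,
      Nat.dvd_of_mem_primeFactors hb, Nat.dvd_of_mem_primeFactors hc⟩
  rcases Nat.lt_or_ge (Nat.card G).primeFactors.card 1 with h0 | h1
  · have he : (Nat.card G).primeFactors = ∅ := Finset.card_eq_zero.mp (by omega)
    rw [he, Finset.prod_empty] at hprod
    exact Cfsg.Agent.S0144.result 2 2 0 0 Nat.prime_two Nat.prime_two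
      (hprod.symm.trans (by norm_num))
  rcases Nat.lt_or_ge (Nat.card G).primeFactors.card 2 with h1' | h2
  · obtain ⟨p, hp⟩ := Finset.card_eq_one.mp (by omega : (Nat.card G).primeFactors.card = 1)
    have hpp : p.Prime := Nat.prime_of_mem_primeFactors (hp ▸ Finset.mem_singleton_self p)
    rw [hp, Finset.prod_singleton] at hprod
    exact Cfsg.Agent.S0144.result p p ((Nat.card G).factorization p) 0 hpp hpp
      (by rw [pow_zero, mul_one]; exact hprod.symm)
  · obtain ⟨p, q, hpq, hs⟩ := Finset.card_eq_two.mp (by omega : (Nat.card G).primeFactors.card = 2)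
    have hpp : p.Prime := Nat.prime_of_mem_primeFactors (hs ▸ Finset.mem_insert_self p _)
    have hqp : q.Prime := Nat.prime_of_mem_primeFactors
      (hs ▸ Finset.mem_insert_of_mem (Finset.mem_singleton_self q))
    rw [hs, Finset.prod_pair hpq] at hprod
    exact Cfsg.Agent.S0144.result p q _ _ hpp hqp hprod.symm

theorem main : ∀ (n : ℕ) (G : Type u) [Group G] [Finite G], Nat.card G = n → HasComps G →
    Group.IsSolvable G := by
  intro n
  induction n using Nat.strong_induction_on with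
  | _ n ih =>
    intro G _ _ hn hcomp
    by_cases h3 : ∃ p1 p2 p3 : ℕ, p1.Prime ∧ p2.Prime ∧ p3.Prime ∧ p1 ≠ p2 ∧ p1 ≠ p3 ∧ p2 ≠ p3 ∧
        p1 ∣ Nat.card G ∧ p2 ∣ Nat.card G ∧ p3 ∣ Nat.card G
    swap
    · exact two_primes_case h3
    obtain ⟨p1, p2, p3, hp1, hp2, hp3, h12, h13, h23, hd1, hd2, hd3⟩ := h3
    choose Hc hHc1 hHc2 using hcomp
    have hcopidx : ∀ p q (hp : p.Prime) (hq : q.Prime), p ≠ q →
        (Hc p hp).index.Coprime (Hc q hq).index := by
      intro p q hp hq hpq
      obtain ⟨k, hk⟩ := hHc2 p hp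
      obtain ⟨l, hl⟩ := hHc2 q hq
      rw [hk, hl]
      exact Nat.Coprime.pow _ _ ((Nat.coprime_primes hp hq).mpr hpq)
    have hsolv : ∀ p (hp : p.Prime), p ∣ Nat.card G → Group.IsSolvable (Hc p hp) := by
      intro p hp hpd
      have hne : Hc p hp ≠ ⊤ := by
        intro htop
        apply hHc1 p hp
        rw [htop, Subgroup.card_top]
        exact hpd
      apply ih (Nat.card (Hc p hp)) (hn ▸ Cfsg.Agent.S0001.card_lt_of_ne_top hne) (Hc p hp) rfl
      intro q hq
      by_cases hqp : q = p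
      · subst hqp
        refine ⟨⊤, ?_, 0, ?_⟩
        · rw [Subgroup.card_top]; exact hHc1 q hp
        · rw [Subgroup.index_top, pow_zero]
      · refine ⟨(Hc q hq).subgroupOf (Hc p hp), ?_, ?_⟩
        · intro hdvd
          exact hHc1 q hq (hdvd.trans (Cfsg.Agent.S0001.card_subgroupOf_dvd _ _))
        · obtain ⟨l, hl⟩ := hHc2 q hq
          refine ⟨l, ?_⟩
          have := relIndex_of_coprime (Hc p hp) (Hc q hq) (hcopidx p q hp hq (Ne.symm hqp))
          rw [← hl]; exact this
    have hsolv1 : Group.IsSolvable (Hc p1 hp1) := hsolv p1 hp1 hd1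
    have hH1card : Nat.card (Hc p1 hp1) * (Hc p1 hp1).index = Nat.card G :=
      Subgroup.card_mul_index _
    obtain ⟨k1, hk1⟩ := hHc2 p1 hp1
    have hp2H1 : p2 ∣ Nat.card (Hc p1 hp1) := by
      have : p2 ∣ Nat.card (Hc p1 hp1) * (Hc p1 hp1).index := hH1card ▸ hd2
      rcases (Nat.Prime.dvd_mul hp2).mp this with h | h
      · exact h
      · rw [hk1] at h
        exact absurd ((Nat.prime_dvd_prime_iff_eq hp2 hp1).mp (hp2.dvd_of_dvd_pow h)) (Ne.symm h12)
    have hnt : Nontrivial (Hc p1 hp1) := by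
      rw [← Finite.one_lt_card_iff_nontrivial]
      exact lt_of_lt_of_le hp2.one_lt (Nat.le_of_dvd Nat.card_pos hp2H1)
    obtain ⟨N, hNn, hN0, hNmin⟩ := exists_min_normal (Hc p1 hp1)
    obtain ⟨-, q, hq, hNq⟩ := Cfsg.Agent.S0043.result N hN0 hNmin
    have hNpg : IsPGroup q N := fun x => ⟨1, by
      rw [pow_one]; exact Subtype.ext (hNq x.1 x.2)⟩
    have hqf := Fact.mk hq
    obtain ⟨m, hm⟩ := IsPGroup.iff_card.mp hNpg
    obtain ⟨pi, hpi, hpi1, hpiq, hpid⟩ : ∃ pi : ℕ, pi.Prime ∧ pi ≠ p1 ∧ pi ≠ q ∧ pi ∣ Nat.card G := by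
      by_cases h : p2 = q
      · exact ⟨p3, hp3, Ne.symm h13, fun h' => h23 (h.trans h'.symm), hd3⟩
      · exact ⟨p2, hp2, Ne.symm h12, h, hd2⟩
    have hsolv2 : Group.IsSolvable (Hc pi hpi) := hsolv pi hpi hpid
    obtain ⟨k2, hk2⟩ := hHc2 pi hpi
    have hcop12 : (Hc p1 hp1).index.Coprime (Hc pi hpi).index :=
      hcopidx p1 pi hp1 hpi (Ne.symm hpi1)
    have hNL : N ≤ (Hc pi hpi).subgroupOf (Hc p1 hp1) := by
      apply le_of_normal_coprime
      have : ((Hc pi hpi).subgroupOf (Hc p1 hp1)).index = (Hc pi hpi).index :=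
        relIndex_of_coprime (Hc p1 hp1) (Hc pi hpi) hcop12
      rw [this, hk2, hm]
      exact Nat.Coprime.pow _ _ ((Nat.coprime_primes hq hpi).mpr (Ne.symm hpiq))
    have hcore : N.map (Hc p1 hp1).subtype ≤ (Hc pi hpi).normalCore := by
      rintro _ ⟨x, hx, rfl⟩
      intro b
      obtain ⟨h2, hh2, h1, hh1, rfl⟩ :=
        exists_mul_of_coprime_index (Hc pi hpi) (Hc p1 hp1) hcop12.symm b
      have hconj : (⟨h1, hh1⟩ : Hc p1 hp1) * x * (⟨h1, hh1⟩ : Hc p1 hp1)⁻¹ ∈ N :=
        hNn.conj_mem x hx _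
      have hin : h1 * (x : G) * h1⁻¹ ∈ Hc pi hpi := Subgroup.mem_subgroupOf.mp (hNL hconj)
      have e : h2 * h1 * ((Hc p1 hp1).subtype x) * (h2 * h1)⁻¹
          = h2 * (h1 * (x : G) * h1⁻¹) * h2⁻¹ := by
        simp only [Subgroup.coe_subtype]; group
      rw [e]
      exact Subgroup.mul_mem _ (Subgroup.mul_mem _ hh2 hin) (Subgroup.inv_mem _ hh2)
    have hKne : (Hc pi hpi).normalCore ≠ ⊥ := by
      intro hbot
      apply hN0
      rw [hbot, le_bot_iff] at hcore
      exact (Subgroup.map_eq_bot_iff_of_injective N (Subgroup.subtype_injective _)).mp hcore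
    have hKsolv : Group.IsSolvable (Hc pi hpi).normalCore :=
      Cfsg.Agent.S0001.solv_of_le (Subgroup.normalCore_le (Hc pi hpi))
    have hKcard : Nat.card (G ⧸ (Hc pi hpi).normalCore) < n := by
      have h1 : (Hc pi hpi).normalCore.index * Nat.card (Hc pi hpi).normalCore = Nat.card G :=
        Subgroup.index_mul_card _
      have h2 : 1 < Nat.card (Hc pi hpi).normalCore := (Subgroup.one_lt_card_iff_ne_bot _).mpr hKne
      rw [← Subgroup.index_eq_card, ← hn, ← h1]
      have h3 : 0 < (Hc pi hpi).normalCore.index :=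
        Nat.pos_of_ne_zero Subgroup.index_ne_zero_of_finite
      nlinarith
    have hQsolv : Group.IsSolvable (G ⧸ (Hc pi hpi).normalCore) := by
      apply ih _ hKcard (G ⧸ (Hc pi hpi).normalCore) rfl
      intro p hp
      refine ⟨(Hc p hp).map (QuotientGroup.mk' (Hc pi hpi).normalCore), ?_, ?_⟩
      · intro hdvd
        exact hHc1 p hp (hdvd.trans (Subgroup.card_map_dvd _ _))
      · obtain ⟨k, hk⟩ := hHc2 p hp
        have hd : ((Hc p hp).map (QuotientGroup.mk' (Hc pi hpi).normalCore)).index ∣ p ^ k :=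
          hk ▸ Subgroup.index_map_dvd (Hc p hp) (QuotientGroup.mk'_surjective _)
        obtain ⟨j, -, hj⟩ := (Nat.dvd_prime_pow hp).mp hd
        exact ⟨j, hj⟩
    exact Group.isSolvable_of_ker_le_range (Hc pi hpi).normalCore.subtype
      (QuotientGroup.mk' (Hc pi hpi).normalCore) (by simp)

/-- Converse of Hall's Theorem: if for every prime p a finite group has a subgroup of index equal to the p-part of the group order (a Hall p-complement), then the group is solvable. -/
theorem result {G : Type*} [Group G] [Finite G]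
    (h : ∀ p : ℕ, p.Prime → ∃ H : Subgroup G, H.index = p ^ (Nat.card G).factorization p) :
    Group.IsSolvable G := by
  apply main (Nat.card G) G rfl
  intro p hp
  obtain ⟨H, hH⟩ := h p hp
  refine ⟨H, ?_, _, hH⟩
  have h1 : Nat.card H * H.index = Nat.card G := Subgroup.card_mul_index H
  have h2 : Nat.card H = Nat.card G / p ^ (Nat.card G).factorization p := by
    rw [← hH]
    exact (Nat.div_eq_of_eq_mul_left (Nat.pos_of_ne_zero Subgroup.index_ne_zero_of_finite)
      h1.symm).symm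
  rw [h2]
  exact Nat.not_dvd_ordCompl hp Nat.card_pos.ne'

end Cfsg.Agent.S0006
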