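import Cfsg.Statements.S0007
import Mathlib
-- import your own Cfsg.Agent.* helpers here

set_option autoImplicit false
open Cfsg

namespace Cfsg.Agent.S0007

/-- If `H.relIndex K = H.index` (finite group), then every element is in `K * H`. -/
theorem mul_of_relIndex {G : Type*} [Group G] [Finite G] (H K : Subgroup G)
    (h : H.relIndex K = H.index) : ∀ g : G, ∃ k ∈ K, ∃ x ∈ H, g = k * x := by
  let f : (K ⧸ H.subgroupOf K) → G ⧸ H :=
    Quotient.map' (fun k : K => (k : G)) (by
      intro a b hab
      rw [QuotientGroup.leftRel_apply] at hab ⊢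
      rw [Subgroup.mem_subgroupOf] at hab
      simpa using hab)
  have hf : Function.Injective f := by
    intro a b
    induction a using Quotient.inductionOn' with
    | _ a =>
      induction b using Quotient.inductionOn' with
      | _ b =>
        intro hab
        have h1 : ((a : G) : G ⧸ H) = ((b : G) : G ⧸ H) := hab
        rw [QuotientGroup.eq] at h1
        apply Quotient.sound'
        rw [QuotientGroup.leftRel_apply, Subgroup.mem_subgroupOf]
        simpa using h1
  have hcard : Nat.card (K ⧸ H.subgroupOf K) = Nat.card (G ⧸ H) := h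
  have hsurj : Function.Surjective f :=
    ((Nat.bijective_iff_injective_and_card f).mpr ⟨hf, hcard⟩).2
  intro g
  obtain ⟨q, hq⟩ := hsurj (g : G ⧸ H)
  induction q using Quotient.inductionOn' with
  | _ k =>
    have h1 : ((k : G) : G ⧸ H) = (g : G ⧸ H) := hq
    rw [QuotientGroup.eq] at h1
    refine ⟨k, k.2, (k : G)⁻¹ * g, h1, ?_⟩
    group

theorem result {G : Type*} [Group G] [Finite G] (H K : Subgroup G)
    (h : H.index.Coprime K.index) :
    (H ⊓ K).index = H.index * K.index ∧ ∀ g : G, ∃ x ∈ H, ∃ y ∈ K, g = x * y := by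
  have h1 : (H ⊓ K).index = H.index * K.index := by
    apply le_antisymm (Subgroup.index_inf_le)
    apply Nat.le_of_dvd (Nat.pos_of_ne_zero (Subgroup.index_ne_zero_of_finite))
    exact Nat.Coprime.mul_dvd_of_dvd_of_dvd h (Subgroup.index_dvd_of_le inf_le_left)
      (Subgroup.index_dvd_of_le inf_le_right)
  refine ⟨h1, ?_⟩
  have h2 : H.relIndex K = H.index := by
    have h3 := Subgroup.relIndex_mul_index (inf_le_right : H ⊓ K ≤ K)
    rw [Subgroup.inf_relIndex_right, h1] at h3
    exact Nat.eq_of_mul_eq_mul_right (Nat.pos_of_ne_zero (Subgroup.index_ne_zero_of_finite)) h3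
  intro g
  obtain ⟨k, hk, x, hx, hg⟩ := mul_of_relIndex H K h2 g⁻¹
  refine ⟨x⁻¹, H.inv_mem hx, k⁻¹, K.inv_mem hk, ?_⟩
  rw [← mul_inv_rev, ← hg, inv_inv]

end Cfsg.Agent.S0007
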