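-- Statement S0015.
import Cfsg.Statements.S0015
import Cfsg.Agent.Lib.Helper24.PGroupBasic

set_option autoImplicit false
open Cfsg

namespace Cfsg.Agent.S0015

open Cfsg.Agent.Lib.Helper24.PGroupBasic in
/-- In a finite nilpotent group, an abelian normal subgroup that is maximal among abelian normal subgroups equals its own centralizer. -/
theorem result {G : Type*} [Group G] [Finite G] [Group.IsNilpotent G]
    (N : Subgroup G) [N.Normal] [IsMulCommutative N]
    (hmax : ∀ M : Subgroup G, M.Normal → IsMulCommutative M → N ≤ M → M = N) :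
    Subgroup.centralizer (N : Set G) = N := by
  refine centralizer_eq_of_max_normal_abelian N ?_ ?_
  · intro a ha b hb
    exact congrArg Subtype.val (mul_comm' (⟨a, ha⟩ : N) ⟨b, hb⟩)
  · intro M hMn hMc hNM
    exact hmax M hMn (isMulCommutative_iff.mpr (fun a b => Subtype.ext (hMc a a.2 b b.2))) hNM

end Cfsg.Agent.S0015
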