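import Cfsg.Statements.S0018
import Mathlib.Order.SupClosed
import Cfsg.Agent.S0010
import Cfsg.Agent.S0017
-- import your own Cfsg.Agent.* helpers here

set_option autoImplicit false
open Cfsg

namespace Cfsg.Agent.S0018

/-- The join of two subgroups of order prime to `p`, one of them normal, has order prime to `p`. -/
theorem sup_coprime {G : Type*} [Group G] [Finite G] (p : ℕ) (M N : Subgroup G) [N.Normal]
    (hM : (Nat.card M).Coprime p) (hN : (Nat.card N).Coprime p) :
    (Nat.card (M ⊔ N : Subgroup G)).Coprime p := by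
  have h1 : Nat.card (M ⊔ N : Subgroup G) = Nat.card N * N.relIndex M := by
    rw [← Subgroup.relIndex_bot_left, ← Subgroup.relIndex_bot_left,
      ← Subgroup.relIndex_mul_relIndex ⊥ N (M ⊔ N) bot_le le_sup_right, Subgroup.relIndex_sup_right]
  rw [h1]
  exact Nat.Coprime.mul_left hN (Nat.Coprime.coprime_dvd_left (Subgroup.relIndex_dvd_card N M) hM)

/-- In a finite group the `p'`-core is normal of order prime to `p`. -/
theorem pPrimeCore_mem (G : Type*) [Group G] [Finite G] (p : ℕ) :
    (Cfsg.pPrimeCore p G).Normal ∧ (Nat.card (Cfsg.pPrimeCore p G)).Coprime p := by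
  have hs : SupClosed {N : Subgroup G | N.Normal ∧ (Nat.card N).Coprime p} := by
    intro M hM N hN
    have := hN.1
    have := hM.1
    exact ⟨inferInstance, sup_coprime p M N hM.2 hN.2⟩
  have hbot : (⊥ : Subgroup G) ∈ {N : Subgroup G | N.Normal ∧ (Nat.card N).Coprime p} := by
    refine ⟨inferInstance, ?_⟩
    simp
  exact hs.sSup_mem (Set.toFinite _) hbot subset_rfl

/-- The `p'`-core of the quotient by the `p'`-core is trivial. -/
theorem pPrimeCore_quotient (G : Type*) [Group G] [Finite G] (p : ℕ)
    [hK : (Cfsg.pPrimeCore p G).Normal] :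
    Cfsg.pPrimeCore p (G ⧸ Cfsg.pPrimeCore p G) = ⊥ := by
  set K := Cfsg.pPrimeCore p G with hKdef
  have hKc : (Nat.card K).Coprime p := (pPrimeCore_mem G p).2
  rw [eq_bot_iff]
  apply sSup_le
  rintro Mbar ⟨hMn, hMc⟩
  have hsurj : Function.Surjective (QuotientGroup.mk' K) := QuotientGroup.mk'_surjective K
  set M := Mbar.comap (QuotientGroup.mk' K) with hMdef
  have hMnormal : M.Normal := hMn.comap _
  have hKM : K ≤ M := by
    intro x hx
    rw [hMdef, Subgroup.mem_comap]
    have : (QuotientGroup.mk' K) x = 1 := by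
      rw [QuotientGroup.mk'_apply, QuotientGroup.eq_one_iff]; exact hx
    rw [this]; exact Mbar.one_mem
  have h1 : K.relIndex M * M.index = K.index := Subgroup.relIndex_mul_index hKM
  have h2 : Nat.card Mbar * Mbar.index = Nat.card (G ⧸ K) := Subgroup.card_mul_index Mbar
  have h3 : M.index = Mbar.index := Subgroup.index_comap_of_surjective Mbar hsurj
  have h4 : K.index = Nat.card (G ⧸ K) := rfl
  have h5 : K.relIndex M = Nat.card Mbar := by
    have hpos : 0 < M.index := Nat.pos_of_ne_zero (Subgroup.index_ne_zero_of_finite)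
    apply Nat.eq_of_mul_eq_mul_right hpos
    rw [h1, h4, ← h2, h3]
  have h6 : Nat.card M = Nat.card K * Nat.card Mbar := by
    rw [← h5, ← Subgroup.relIndex_bot_left, ← Subgroup.relIndex_bot_left,
      Subgroup.relIndex_mul_relIndex ⊥ K M bot_le hKM]
  have hMc' : (Nat.card M).Coprime p := by
    rw [h6]; exact Nat.Coprime.mul_left hKc hMc
  have hMK : M ≤ K := Cfsg.Agent.S0017.le_pPrimeCore M hMnormal hMc'
  have h7 : Mbar = M.map (QuotientGroup.mk' K) :=
    (Subgroup.map_comap_eq_self_of_surjective hsurj Mbar).symm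
  rw [h7]
  calc M.map (QuotientGroup.mk' K) ≤ K.map (QuotientGroup.mk' K) := Subgroup.map_mono hMK
    _ = ⊥ := QuotientGroup.map_mk'_self K

/-- A finite solvable group whose Sylow p-subgroups are abelian has p-length one: a Sylow p-subgroup together with the largest normal subgroup of order prime to p generates a normal subgroup. -/
theorem result {G : Type*} [Group G] [Finite G] [Group.IsSolvable G]
    (p : ℕ) [Fact p.Prime] (P : Sylow p G) (hP : IsMulCommutative P) :
    ((P : Subgroup G) ⊔ Cfsg.pPrimeCore p G).Normal := by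
  have hK : (Cfsg.pPrimeCore p G).Normal := (pPrimeCore_mem G p).1
  set K := Cfsg.pPrimeCore p G with hKdef
  have hsurj : Function.Surjective (QuotientGroup.mk' K) := QuotientGroup.mk'_surjective K
  have hq : Cfsg.pPrimeCore p (G ⧸ K) = ⊥ := pPrimeCore_quotient G p
  have hcent := Cfsg.Agent.S0017.result (G := G ⧸ K) p hq
  -- the image of `P` is an abelian Sylow subgroup of the quotient
  have hPbar : Cfsg.pCore p (G ⧸ K) ≤ (P : Subgroup G).map (QuotientGroup.mk' K) := by
    have := Cfsg.Agent.S0010.pCore_le_sylow (P.mapSurjective hsurj)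
    rwa [Sylow.coe_mapSurjective] at this
  have hcomm : IsMulCommutative ((P : Subgroup G).map (QuotientGroup.mk' K)) :=
    Subgroup.map_isMulCommutative _ _
  have hle : (P : Subgroup G).map (QuotientGroup.mk' K) ≤ Cfsg.pCore p (G ⧸ K) := by
    refine le_trans ?_ hcent
    intro x hx
    rw [Subgroup.mem_centralizer_iff]
    intro y hy
    exact setLike_mul_comm (hPbar hy) hx
  have heq : (P : Subgroup G).map (QuotientGroup.mk' K) = Cfsg.pCore p (G ⧸ K) :=
    le_antisymm hle hPbar
  have hnorm : ((P : Subgroup G).map (QuotientGroup.mk' K)).Normal := by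
    rw [heq]; exact Cfsg.Agent.S0010.pCore_normal p
  have h8 : ((P : Subgroup G) ⊔ K) = ((P : Subgroup G).map (QuotientGroup.mk' K)).comap
      (QuotientGroup.mk' K) := by
    rw [QuotientGroup.comap_map_mk', sup_comm]
  rw [h8]
  exact hnorm.comap _

end Cfsg.Agent.S0018
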