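import Cfsg.Statements.S0020
import Cfsg.Agent.Lib.Helper91.Hall

set_option autoImplicit false
open Pointwise
open Cfsg

namespace Cfsg.Agent.S0020

theorem index_inf_of_coprime {G : Type*} [Group G] [Finite G] (H K : Subgroup G)
    (h : Nat.Coprime H.index K.index) : (H ⊓ K).index = H.index * K.index := by
  apply Nat.le_antisymm Subgroup.index_inf_le
  apply Nat.le_of_dvd (Nat.pos_of_ne_zero Subgroup.index_ne_zero_of_finite)
  exact Nat.Coprime.mul_dvd_of_dvd_of_dvd h (Subgroup.index_dvd_of_le inf_le_left)
    (Subgroup.index_dvd_of_le inf_le_right)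

theorem mul_eq_of_card {G : Type*} [Group G] [Finite G] (A B T : Subgroup G) (hA : A ≤ T)
    (hB : B ≤ T) (hcard : Nat.card A * Nat.card B = Nat.card T) (hd : Disjoint A B) :
    (A : Set G) * (B : Set G) = (T : Set G) := by
  refine Set.eq_of_subset_of_ncard_le ?_ ?_ (Set.toFinite _)
  · rintro _ ⟨a, ha, b, hb, rfl⟩
    exact T.mul_mem (hA ha) (hB hb)
  · have h1 : (A : Set G) * (B : Set G) = Set.range (fun x : A × B => (x.1 : G) * x.2) := by
      ext x
      constructor
      · rintro ⟨a, ha, b, hb, rfl⟩
        exact ⟨(⟨a, ha⟩, ⟨b, hb⟩), rfl⟩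
      · rintro ⟨⟨a, b⟩, rfl⟩
        exact ⟨a, a.2, b, b.2, rfl⟩
    rw [h1, ← Nat.card_coe_set_eq, ← Nat.card_coe_set_eq,
      Nat.card_range_of_injective (Subgroup.mul_injective_of_disjoint hd), Nat.card_prod, hcard]
    exact le_rfl

/-- A finite solvable group admits a Sylow system: Sylow subgroups, one for each prime, that pairwise permute as sets. -/
theorem result {G : Type*} [Group G] [Finite G] [Group.IsSolvable G] :
    ∃ S : (p : Nat.Primes) → Sylow (p : ℕ) G,
      ∀ p q : Nat.Primes, (S p : Set G) * (S q : Set G) = (S q : Set G) * (S p : Set G) := by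
  classical
  have hn0 : Nat.card G ≠ 0 := Nat.card_pos.ne'
  have hQ : ∀ q : ℕ, ∃ H : Subgroup G, q ∈ (Nat.card G).primeFactors →
      H.index = q ^ (Nat.card G).factorization q := by
    intro q
    by_cases hq : q ∈ (Nat.card G).primeFactors
    · have hqp : q.Prime := Nat.prime_of_mem_primeFactors hq
      have hdvd : q ^ (Nat.card G).factorization q ∣ Nat.card G := Nat.ordProj_dvd (Nat.card G) q
      have hcop : (Nat.card G / q ^ (Nat.card G).factorization q).Coprime
          (q ^ (Nat.card G).factorization q) :=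
        (Nat.Coprime.pow_left _ (Nat.coprime_ordCompl hqp hn0)).symm
      obtain ⟨H, hH⟩ := Cfsg.Agent.Lib.Helper91.Hall.hall_exists (G := G)
        (Nat.card G / q ^ (Nat.card G).factorization q) (q ^ (Nat.card G).factorization q)
        (Nat.div_mul_cancel hdvd).symm hcop
      refine ⟨H, fun _ => ?_⟩
      have h1 := Subgroup.card_mul_index H
      rw [hH] at h1
      have hpos : 0 < Nat.card G / q ^ (Nat.card G).factorization q :=
        Nat.div_pos (Nat.le_of_dvd (Nat.pos_of_ne_zero hn0) hdvd) (Nat.pow_pos hqp.pos)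
      apply Nat.eq_of_mul_eq_mul_left hpos
      rw [h1]
      exact (Nat.div_mul_cancel hdvd).symm
    · exact ⟨⊤, fun h => absurd h hq⟩
  choose Q hQ using hQ
  have hidx : ∀ s : Finset ℕ, s ⊆ (Nat.card G).primeFactors →
      (s.inf Q).index = ∏ q ∈ s, q ^ (Nat.card G).factorization q := by
    intro s
    induction s using Finset.induction_on with
    | empty => intro _; simp
    | insert a s ha ih =>
      intro hs
      have has : a ∈ (Nat.card G).primeFactors := hs (Finset.mem_insert_self a s)
      have hss : s ⊆ (Nat.card G).primeFactors := fun x hx => hs (Finset.mem_insert_of_mem hx)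
      rw [Finset.inf_insert, Finset.prod_insert ha, ← ih hss, ← hQ a has]
      apply index_inf_of_coprime
      rw [hQ a has, ih hss]
      apply Nat.Coprime.prod_right
      intro q hq
      have hqp := Nat.prime_of_mem_primeFactors (hss hq)
      have hap := Nat.prime_of_mem_primeFactors has
      have hne : a ≠ q := fun h => ha (h ▸ hq)
      exact Nat.Coprime.pow _ _ ((Nat.coprime_primes hap hqp).mpr hne)
  have hprod : ∏ q ∈ (Nat.card G).primeFactors, q ^ (Nat.card G).factorization q = Nat.card G := by
    rw [← Nat.prod_factorization_eq_prod_primeFactors]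
    exact Nat.prod_factorization_pow_eq_self hn0
  have hout : ∀ q, q ∉ (Nat.card G).primeFactors → q ^ (Nat.card G).factorization q = 1 := by
    intro q hq
    have h0 : (Nat.card G).factorization q = 0 := by
      rw [← Nat.support_factorization] at hq
      exact Finsupp.notMem_support_iff.mp hq
    rw [h0, pow_zero]
  have herase : ∀ (s : Finset ℕ) (a : ℕ), (a ∉ s → a ∉ (Nat.card G).primeFactors) →
      (∏ q ∈ s.erase a, q ^ (Nat.card G).factorization q) * a ^ (Nat.card G).factorization a
        = ∏ q ∈ s, q ^ (Nat.card G).factorization q := by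
    intro s a h
    by_cases ha : a ∈ s
    · rw [mul_comm]
      exact Finset.mul_prod_erase s (fun q => q ^ (Nat.card G).factorization q) ha
    · rw [Finset.erase_eq_of_notMem ha, hout a (h ha), mul_one]
  have hcardS : ∀ p : ℕ, Nat.card ↥(((Nat.card G).primeFactors.erase p).inf Q)
      = p ^ (Nat.card G).factorization p := by
    intro p
    have h1 := Subgroup.card_mul_index (((Nat.card G).primeFactors.erase p).inf Q)
    rw [hidx _ (Finset.erase_subset p _)] at h1
    have h2 := herase (Nat.card G).primeFactors p (fun h => h)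
    rw [hprod] at h2
    have hIpos : 0 < ∏ q ∈ (Nat.card G).primeFactors.erase p, q ^ (Nat.card G).factorization q := by
      rw [← hidx _ (Finset.erase_subset p _)]
      exact Nat.pos_of_ne_zero Subgroup.index_ne_zero_of_finite
    apply Nat.eq_of_mul_eq_mul_right hIpos
    exact h1.trans (h2.symm.trans (mul_comm _ _))
  refine ⟨fun p => haveI : Fact (p : ℕ).Prime := ⟨p.2⟩
    Sylow.ofCard (((Nat.card G).primeFactors.erase (p : ℕ)).inf Q) (hcardS p), ?_⟩
  intro p q
  by_cases hpq : p = q
  · rw [hpq]
  have hne : (p : ℕ) ≠ (q : ℕ) := fun h => hpq (Subtype.ext h)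
  have hcardT : Nat.card ↥((((Nat.card G).primeFactors.erase (p : ℕ)).erase (q : ℕ)).inf Q)
      = (p : ℕ) ^ (Nat.card G).factorization p * (q : ℕ) ^ (Nat.card G).factorization q := by
    have h1 := Subgroup.card_mul_index ((((Nat.card G).primeFactors.erase (p : ℕ)).erase (q : ℕ)).inf Q)
    rw [hidx _ ((Finset.erase_subset _ _).trans (Finset.erase_subset _ _))] at h1
    have h2 := herase ((Nat.card G).primeFactors.erase (p : ℕ)) q (by
      intro h hmem
      exact h (Finset.mem_erase.mpr ⟨fun e => hne e.symm, hmem⟩))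
    have h3 := herase (Nat.card G).primeFactors p (fun h => h)
    rw [hprod] at h3
    have hIpos : 0 < ∏ x ∈ ((Nat.card G).primeFactors.erase (p : ℕ)).erase (q : ℕ),
        x ^ (Nat.card G).factorization x := by
      rw [← hidx _ ((Finset.erase_subset _ _).trans (Finset.erase_subset _ _))]
      exact Nat.pos_of_ne_zero Subgroup.index_ne_zero_of_finite
    apply Nat.eq_of_mul_eq_mul_right hIpos
    refine h1.trans (h3.symm.trans ?_)
    rw [← h2]
    ring
  have hpp : (p : ℕ).Prime := p.2
  have hqp : (q : ℕ).Prime := q.2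
  have hcop : ((p : ℕ) ^ (Nat.card G).factorization p).Coprime ((q : ℕ) ^ (Nat.card G).factorization q) :=
    Nat.Coprime.pow _ _ ((Nat.coprime_primes hpp hqp).mpr hne)
  have hSpT : ((Nat.card G).primeFactors.erase (p : ℕ)).inf Q
      ≤ (((Nat.card G).primeFactors.erase (p : ℕ)).erase (q : ℕ)).inf Q :=
    Finset.inf_mono (Finset.erase_subset _ _)
  have hSqT : ((Nat.card G).primeFactors.erase (q : ℕ)).inf Q
      ≤ (((Nat.card G).primeFactors.erase (p : ℕ)).erase (q : ℕ)).inf Q :=
    Finset.inf_mono (Finset.erase_subset_erase _ (Finset.erase_subset _ _))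
  have hd : Disjoint (((Nat.card G).primeFactors.erase (p : ℕ)).inf Q)
      (((Nat.card G).primeFactors.erase (q : ℕ)).inf Q) :=
    Subgroup.disjoint_of_coprime_natCard (by rw [hcardS, hcardS]; exact hcop)
  have e1 := mul_eq_of_card _ _ _ hSpT hSqT (by rw [hcardS, hcardS, hcardT]) hd
  have e2 := mul_eq_of_card _ _ _ hSqT hSpT (by rw [hcardS, hcardS, hcardT, mul_comm]) hd.symm
  show ((((Nat.card G).primeFactors.erase (p : ℕ)).inf Q : Subgroup G) : Set G)
      * ((((Nat.card G).primeFactors.erase (q : ℕ)).inf Q : Subgroup G) : Set G)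
    = ((((Nat.card G).primeFactors.erase (q : ℕ)).inf Q : Subgroup G) : Set G)
      * ((((Nat.card G).primeFactors.erase (p : ℕ)).inf Q : Subgroup G) : Set G)
  rw [e1, e2]

end Cfsg.Agent.S0020
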