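import Cfsg.Statements.S0021
import Mathlib
import Cfsg.Agent.S0006

set_option autoImplicit false
open Pointwise
open Cfsg

namespace Cfsg.Agent.S0021

/-- permuting subgroups: the join is the product set -/
theorem coe_sup_of_permute {G : Type*} [Group G] (H K : Subgroup G)
    (h : (H : Set G) * (K : Set G) = (K : Set G) * (H : Set G)) :
    ((H ⊔ K : Subgroup G) : Set G) = (H : Set G) * (K : Set G) := by
  let T : Subgroup G :=
    { carrier := (H : Set G) * (K : Set G)
      mul_mem' := by
        rintro _ _ ⟨a, ha, b, hb, rfl⟩ ⟨c, hc, d, hd, rfl⟩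
        have hbc : b * c ∈ (H : Set G) * (K : Set G) := by
          rw [h]; exact Set.mul_mem_mul hb hc
        obtain ⟨c', hc', b', hb', e0⟩ := hbc
        have e : c' * b' = b * c := e0
        refine ⟨a * c', H.mul_mem ha hc', b' * d, K.mul_mem hb' hd, ?_⟩
        calc (a * c') * (b' * d) = a * (c' * b') * d := by group
          _ = a * (b * c) * d := by rw [e]
          _ = a * b * (c * d) := by group
      one_mem' := ⟨1, H.one_mem, 1, K.one_mem, mul_one 1⟩
      inv_mem' := by
        rintro _ ⟨a, ha, b, hb, rfl⟩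
        show (a * b)⁻¹ ∈ (H : Set G) * (K : Set G)
        rw [mul_inv_rev, h]
        exact Set.mul_mem_mul (K.inv_mem hb) (H.inv_mem ha) }
  apply le_antisymm
  · have hle : H ⊔ K ≤ T :=
      sup_le (fun x hx => ⟨x, hx, 1, K.one_mem, mul_one x⟩)
        (fun x hx => ⟨1, H.one_mem, x, hx, one_mul x⟩)
    exact hle
  · rintro _ ⟨a, ha, b, hb, rfl⟩
    exact Subgroup.mul_mem _ (Subgroup.mem_sup_left ha) (Subgroup.mem_sup_right hb)

/-- the join of a finite subfamily of a family of pairwise permuting Sylow subgroups permutes with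
everything the members permute with, and has the product of the orders as its order -/
theorem key {G : Type*} [Group G] [Finite G] (S : (p : Nat.Primes) → Sylow (p : ℕ) G)
    (hS : ∀ p q : Nat.Primes, ((S p : Subgroup G) : Set G) * ((S q : Subgroup G) : Set G)
      = ((S q : Subgroup G) : Set G) * ((S p : Subgroup G) : Set G))
    (T : Finset Nat.Primes) :
    (∀ H : Subgroup G, (∀ q ∈ T, (H : Set G) * ((S q : Subgroup G) : Set G)
        = ((S q : Subgroup G) : Set G) * (H : Set G)) →
        (H : Set G) * ((⨆ q ∈ T, (S q : Subgroup G) : Subgroup G) : Set G)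
          = ((⨆ q ∈ T, (S q : Subgroup G) : Subgroup G) : Set G) * (H : Set G)) ∧
    Nat.card (⨆ q ∈ T, (S q : Subgroup G) : Subgroup G) = ∏ q ∈ T, Nat.card (S q) := by
  classical
  induction T using Finset.induction_on with
  | empty =>
    constructor
    · intro H _
      simp
    · simp
  | insert q T hqT ih =>
    obtain ⟨iha, ihb⟩ := ih
    have hperm := iha (S q) (fun q' _ => hS q q')
    have hsup : (⨆ q' ∈ insert q T, (S q' : Subgroup G))
        = (S q : Subgroup G) ⊔ ⨆ q' ∈ T, (S q' : Subgroup G) := Finset.iSup_insert _ _ _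
    rw [hsup]
    have hcoe := coe_sup_of_permute _ _ hperm
    constructor
    · intro H hH
      rw [hcoe, ← mul_assoc, hH q (Finset.mem_insert_self q T), mul_assoc,
        iha H (fun q' hq' => hH q' (Finset.mem_insert_of_mem hq')), ← mul_assoc]
    · rw [Finset.prod_insert hqT, ← ihb]
      apply Nat.le_antisymm
      · have h1 : Nat.card ((S q : Subgroup G) ⊔ ⨆ q' ∈ T, (S q' : Subgroup G) : Subgroup G)
            = Nat.card ((((S q : Subgroup G) : Set G)
                * ((⨆ q' ∈ T, (S q' : Subgroup G) : Subgroup G) : Set G) : Set G)) := by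
          rw [← hcoe]; rfl
        rw [h1]
        exact Set.natCard_mul_le
      · apply Nat.le_of_dvd Nat.card_pos
        apply Nat.Coprime.mul_dvd_of_dvd_of_dvd ?_ (Subgroup.card_dvd_of_le le_sup_left)
          (Subgroup.card_dvd_of_le le_sup_right)
        rw [ihb]
        apply Nat.Coprime.prod_right
        intro q' hq'
        have hq1 : Fact (Nat.Prime (q : ℕ)) := ⟨q.2⟩
        have hq2 : Fact (Nat.Prime (q' : ℕ)) := ⟨q'.2⟩
        rw [Sylow.card_eq_multiplicity, Sylow.card_eq_multiplicity]
        apply Nat.Coprime.pow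
        rw [Nat.coprime_primes q.2 q'.2]
        intro h
        apply hqT
        rw [Subtype.ext h]
        exact hq'

/-- A finite group with a family of pairwise permuting Sylow subgroups, one for each prime, is solvable (this direction rests on Burnside's two-prime Theorem). -/
theorem result {G : Type*} [Group G] [Finite G]
    (S : (p : Nat.Primes) → Sylow (p : ℕ) G)
    (hS : ∀ p q : Nat.Primes, (S p : Set G) * (S q : Set G) = (S q : Set G) * (S p : Set G)) :
    Group.IsSolvable G := by
  classical
  apply Cfsg.Agent.S0006.main (Nat.card G) G rfl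
  intro p hp
  set T : Finset Nat.Primes := ((Nat.card G).primeFactors.subtype Nat.Prime).erase ⟨p, hp⟩ with hT
  obtain ⟨-, hcard⟩ := key S (fun p q => hS p q) T
  refine ⟨⨆ q ∈ T, (S q : Subgroup G), ?_, ?_⟩
  · rw [hcard]
    intro hdvd
    obtain ⟨q, hqT, hq⟩ := (Nat.Prime.prime hp).exists_mem_finset_dvd hdvd
    have hq1 : Fact (Nat.Prime (q : ℕ)) := ⟨q.2⟩
    rw [Sylow.card_eq_multiplicity] at hq
    have := (Nat.prime_dvd_prime_iff_eq hp q.2).mp (hp.dvd_of_dvd_pow hq)
    exact (Finset.mem_erase.mp hqT).1 (Subtype.ext this.symm)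
  · refine ⟨_, Nat.eq_prime_pow_of_unique_prime_dvd Subgroup.index_ne_zero_of_finite ?_⟩
    intro d hd hdd
    by_contra hne
    have hdn : d ∣ Nat.card G := hdd.trans (Subgroup.index_dvd_card _)
    have hmem : (⟨d, hd⟩ : Nat.Primes) ∈ T := by
      exact Finset.mem_erase.mpr ⟨fun h => hne (congrArg Subtype.val h),
        Finset.mem_subtype.mpr (Nat.mem_primeFactors.mpr ⟨hd, hdn, Nat.card_pos.ne'⟩)⟩
    have hle : (S ⟨d, hd⟩ : Subgroup G) ≤ ⨆ q ∈ T, (S q : Subgroup G) :=
      le_biSup (fun q => (S q : Subgroup G)) hmem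
    have hd1 : Fact (Nat.Prime ((⟨d, hd⟩ : Nat.Primes) : ℕ)) := ⟨hd⟩
    exact (S ⟨d, hd⟩).not_dvd_index (hdd.trans (Subgroup.index_dvd_of_le hle))

end Cfsg.Agent.S0021
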