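-- Statement S0028.
import Cfsg.Statements.S0028
import Cfsg.Agent.Lib.Helper24.Coprime

set_option autoImplicit false
open Cfsg

namespace Cfsg.Agent.S0028

open Cfsg.Agent.Lib.Helper24.Coprime in
/-- Thompson's P × Q Lemma: let a p-subgroup P and a subgroup Q of order prime to p centralise each other and normalise a p-subgroup U; if every element of U fixed by P is fixed by Q, then Q centralises U. -/
theorem result {G : Type*} [Group G] [Finite G] (p : ℕ) [Fact p.Prime]
    (P Q U : Subgroup G) (hP : IsPGroup p P) (hQ : (Nat.card Q).Coprime p) (hU : IsPGroup p U)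
    (hPQ : P ≤ Subgroup.centralizer (Q : Set G))
    (hPU : P ≤ Subgroup.normalizer (U : Set G)) (hQU : Q ≤ Subgroup.normalizer (U : Set G))
    (hC : U ⊓ Subgroup.centralizer (P : Set G) ≤ Subgroup.centralizer (Q : Set G)) :
    Q ≤ Subgroup.centralizer (U : Set G) := by
  intro a ha
  have ho : (orderOf a).Coprime p := by
    have h1 : orderOf a ∣ Nat.card Q := by
      have := orderOf_dvd_natCard (⟨a, ha⟩ : Q)
      rwa [Subgroup.orderOf_mk] at this
    exact Nat.Coprime.coprime_dvd_left h1 hQ
  have hH : IsPGroup p (P ⊔ U : Subgroup G) := IsPGroup.to_sup_of_normal_right' hP hU hPU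
  have haP : ∀ b ∈ P, b * a = a * b := by
    intro b hb
    have := Subgroup.mem_centralizer_iff.mp (hPQ hb) a ha
    exact this.symm
  have hfin : ∀ x ∈ U, x * a = a * x := by
    refine thompson_AxB p (P ⊔ U) hH P le_sup_left a ho haP U le_sup_right (hQU ha) hPU ?_
    intro x hx hxP
    have hxc : x ∈ Subgroup.centralizer (P : Set G) := by
      refine Subgroup.mem_centralizer_iff.mpr ?_
      intro b hb
      exact hxP b hb
    have := Subgroup.mem_centralizer_iff.mp (hC ⟨hx, hxc⟩) a ha
    exact this.symm
  refine Subgroup.mem_centralizer_iff.mpr ?_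
  intro h hh
  exact hfin h hh

end Cfsg.Agent.S0028
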