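import Cfsg.Statements.S0030
import Mathlib
import Cfsg.Agent.S0022

set_option autoImplicit false
open Cfsg

namespace Cfsg.Agent.S0030

/-- Under coprime action fixed points of a product of two invariant subgroups factor: if K = X Y with X and Y normalised by A then every A-fixed element of K is a product of an A-fixed element of X and an A-fixed element of Y. -/
theorem result {G : Type*} [Group G] [Finite G] (A K : Subgroup G) (hAK : A ≤ Subgroup.normalizer (K : Set G))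
    (hcop : (Nat.card A).Coprime (Nat.card K)) (hsolv : Group.IsSolvable A ∨ Group.IsSolvable K)
    (X Y : Subgroup G) (hX : X ≤ K) (hY : Y ≤ K) (hXA : A ≤ Subgroup.normalizer (X : Set G)) (hYA : A ≤ Subgroup.normalizer (Y : Set G))
    (hXY : ∀ k ∈ K, ∃ x ∈ X, ∃ y ∈ Y, k = x * y) (k : G) (hk : k ∈ K ⊓ Subgroup.centralizer (A : Set G)) :
    ∃ x ∈ X ⊓ Subgroup.centralizer (A : Set G), ∃ y ∈ Y ⊓ Subgroup.centralizer (A : Set G), k = x * y := by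
  obtain ⟨x₀, hx₀, y₀, hy₀, hk₀⟩ := hXY k hk.1
  have hkA : ∀ a ∈ A, a * k = k * a := Subgroup.mem_centralizer_iff.mp hk.2
  set D : Subgroup G := X ⊓ Y with hD
  have hDK : D ≤ K := inf_le_left.trans hX
  have hDA : A ≤ Subgroup.normalizer (D : Set G) := by
    intro a ha
    rw [Subgroup.mem_normalizer_iff]
    intro x
    simp only [hD, Subgroup.mem_inf, Subgroup.mem_normalizer_iff.mp (hXA ha) x,
      Subgroup.mem_normalizer_iff.mp (hYA ha) x]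
  have hcopD : (Nat.card A).Coprime (Nat.card D) :=
    hcop.coprime_dvd_right (Subgroup.card_dvd_of_le hDK)
  have hsolvD : Group.IsSolvable A ∨ Group.IsSolvable D := by
    rcases hsolv with h | h
    · exact Or.inl h
    · right; exact Cfsg.Agent.S0001.solv_of_le hDK
  have hfix : ∀ a ∈ A, a * x₀⁻¹ * a⁻¹ * x₀⁻¹⁻¹ ∈ D := by
    intro a ha
    have h1 : a * x₀⁻¹ * a⁻¹ ∈ X :=
      (Subgroup.mem_normalizer_iff.mp (hXA ha) x₀⁻¹).mp (X.inv_mem hx₀)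
    have h2 : a * y₀ * a⁻¹ ∈ Y := (Subgroup.mem_normalizer_iff.mp (hYA ha) y₀).mp hy₀
    refine ⟨?_, ?_⟩
    · rw [inv_inv]; exact X.mul_mem h1 hx₀
    · have e : a * x₀⁻¹ * a⁻¹ * x₀⁻¹⁻¹ = a * y₀ * a⁻¹ * y₀⁻¹ := by
        have h3 : a * (x₀ * y₀) = (x₀ * y₀) * a := by rw [← hk₀]; exact hkA a ha
        have h9 : x₀ * y₀ = a * (x₀ * y₀) * a⁻¹ := by rw [h3]; group
        calc a * x₀⁻¹ * a⁻¹ * x₀⁻¹⁻¹ = a * x₀⁻¹ * a⁻¹ * (x₀ * y₀) * y₀⁻¹ := by group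
          _ = a * x₀⁻¹ * a⁻¹ * (a * (x₀ * y₀) * a⁻¹) * y₀⁻¹ := by rw [← h9]
          _ = a * y₀ * a⁻¹ * y₀⁻¹ := by group
      rw [e]; exact Y.mul_mem h2 (Y.inv_mem hy₀)
  obtain ⟨n, hn, hc⟩ := Cfsg.Agent.S0022.coset_fixed A D hDA hcopD hsolvD x₀⁻¹ hfix
  have hxc : x₀ * n ∈ Subgroup.centralizer (A : Set G) := by
    have := Subgroup.inv_mem _ hc
    have e : (n⁻¹ * x₀⁻¹)⁻¹ = x₀ * n := by group
    rwa [e] at this
  refine ⟨x₀ * n, ⟨X.mul_mem hx₀ hn.1, hxc⟩, n⁻¹ * y₀, ⟨Y.mul_mem (Y.inv_mem hn.2) hy₀, ?_⟩, ?_⟩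
  · have e : n⁻¹ * y₀ = (x₀ * n)⁻¹ * k := by rw [hk₀]; group
    rw [e]
    exact Subgroup.mul_mem _ (Subgroup.inv_mem _ hxc) hk.2
  · rw [hk₀]; group

end Cfsg.Agent.S0030
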