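import Cfsg.Statements.S0031
import Mathlib
-- import your own Cfsg.Agent.* helpers here

set_option autoImplicit false
open Cfsg

namespace Cfsg.Agent.S0031

open scoped Pointwise

/-- A fixed-point-free automorphism of a finite group maps some Sylow p-subgroup to itself. -/
theorem result {G : Type*} [Group G] [Finite G] (φ : G ≃* G)
    (hφ : MonoidHom.FixedPointFree (φ : G →* G)) (p : ℕ) [Fact p.Prime] :
    ∃ P : Sylow p G, (P : Subgroup G).map (φ : G →* G) = P := by
  obtain ⟨P⟩ : Nonempty (Sylow p G) := inferInstance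
  have hmap : ∀ S : Subgroup G, S.map (φ : G →* G) = (φ : MulAut G) • S := fun S => rfl
  obtain ⟨g, hg⟩ := MulAction.exists_smul_eq G P ((φ : MulAut G) • P)
  have hg' : MulAut.conj g • (P : Subgroup G) = (φ : MulAut G) • (P : Subgroup G) := by
    have := congrArg (fun Q : Sylow p G => (Q : Subgroup G)) hg
    have e : ((φ : MulAut G) • P : Sylow p G).toSubgroup = (φ : MulAut G) • (P : Subgroup G) := rfl
    rw [← e]
    simpa [Sylow.coe_subgroup_smul] using this
  obtain ⟨y, hy⟩ := hφ.commutatorMap_surjective g⁻¹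
  rw [MonoidHom.commutatorMap_apply] at hy
  have hy' : φ y⁻¹ * g = y⁻¹ := by
    have h1 : (φ : G →* G) y = φ y := rfl
    rw [h1] at hy
    have h2 : g = (y / φ y)⁻¹ := by rw [hy, inv_inv]
    rw [h2, map_inv, div_eq_mul_inv, mul_inv_rev, inv_inv, ← mul_assoc, inv_mul_cancel, one_mul]
  refine ⟨y⁻¹ • P, ?_⟩
  rw [hmap, Sylow.coe_subgroup_smul, ← mul_smul]
  have h3 : (φ : MulAut G) * MulAut.conj y⁻¹ = MulAut.conj (φ y⁻¹) * φ := by
    ext z
    simp
  rw [h3, mul_smul, ← hg', ← mul_smul, ← map_mul, hy']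

end Cfsg.Agent.S0031
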