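import Cfsg.Statements.S0032
import Mathlib

set_option autoImplicit false
open Cfsg

namespace Cfsg.Agent.S0032

/-- If an automorphism of a finite group fixes only the identity and maps a normal subgroup N into itself, then the only cosets of N it fixes are those in N: a fixed coset xN forces x ∈ N. -/
theorem result {G : Type*} [Group G] [Finite G] (φ : G ≃* G)
    (hφ : MonoidHom.FixedPointFree (φ : G →* G)) (N : Subgroup G) [N.Normal] (hN : ∀ n ∈ N, φ n ∈ N)
    (x : G) (hx : (φ x)⁻¹ * x ∈ N) : x ∈ N := by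
  -- the map n ↦ n⁻¹ φ n on N is injective hence surjective
  let f : N → N := fun n => ⟨(n : G)⁻¹ * φ n, N.mul_mem (N.inv_mem n.2) (hN n n.2)⟩
  have hinj : Function.Injective f := by
    intro a b hab
    have h1 : (a : G)⁻¹ * φ a = (b : G)⁻¹ * φ b := congrArg Subtype.val hab
    have h2 : φ ((a : G) * (b : G)⁻¹) = (a : G) * (b : G)⁻¹ := by
      rw [map_mul, map_inv]
      have : φ (a : G) = (a : G) * ((b : G)⁻¹ * φ b) := by rw [← h1]; group
      rw [this]; group
    have h3 := hφ _ h2
    exact Subtype.ext (by rw [mul_inv_eq_one] at h3; exact h3)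
  have hsurj : Function.Surjective f := Finite.surjective_of_injective hinj
  have hx' : x⁻¹ * φ x ∈ N := by
    have := N.inv_mem hx
    simpa [mul_inv_rev] using this
  obtain ⟨n, hn⟩ := hsurj ⟨x⁻¹ * φ x, hx'⟩
  have h1 : (n : G)⁻¹ * φ n = x⁻¹ * φ x := congrArg Subtype.val hn
  have h2 : φ (x * (n : G)⁻¹) = x * (n : G)⁻¹ := by
    rw [map_mul, map_inv]
    have : φ x = x * ((n : G)⁻¹ * φ n) := by rw [h1]; group
    rw [this]; group
  have h3 := hφ _ h2
  rw [mul_inv_eq_one] at h3
  rw [h3]; exact n.2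


end Cfsg.Agent.S0032
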