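import Cfsg.Statements.S0036
import Cfsg.Agent.Lib.Helper71.Frobenius

set_option autoImplicit false
open Cfsg

namespace Cfsg.Agent.S0036

open Cfsg.Agent.Lib.Helper71.Frobenius

variable {G : Type*} [Group G]

/-- product of two involutions with distinct unique fixed cosets lies in the kernel -/
theorem mul_mem_kernel {H : Subgroup G} (hH : Cfsg.IsFrobeniusComplement H)
    {s u : G} (hs1 : s ≠ 1) (hu1 : u ≠ 1) (hs2 : s * s = 1) (hu2 : u * u = 1)
    {β γ : G ⧸ H} (hsβ : s • β = β) (huγ : u • γ = γ) (hβγ : β ≠ γ) :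
    s * u ∈ Cfsg.frobeniusKernel H := by
  by_contra hk
  obtain ⟨δ, hδ⟩ := exists_smul_eq_of_not_mem_kernel H hk
  have hsu1 : s * u ≠ 1 := fun h => hk (h ▸ one_mem_kernel H)
  have h1 : u • δ = s • δ := by
    have : s • ((s * u) • δ) = s • δ := by rw [hδ]
    rw [mul_smul, ← mul_smul s s, hs2, one_smul] at this
    exact this
  have h2 : (s * u) • (u • δ) = u • δ := by
    rw [mul_smul, ← mul_smul u u, hu2, one_smul, ← h1]
  have h3 : u • δ = δ := fixed_coset_unique hH hsu1 h2 hδ
  have h4 : s • δ = δ := by rw [← h1, h3]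
  exact hβγ ((fixed_coset_unique hH hs1 hsβ h4).trans (fixed_coset_unique hH hu1 h3 huγ))

/-- the chosen conjugate of `t` fixing the coset `β` -/
noncomputable def tau (H : Subgroup G) (t : G) (β : G ⧸ H) : G :=
  (Quotient.out β) * t * (Quotient.out β)⁻¹

theorem tau_ne_one (H : Subgroup G) {t : G} (ht1 : t ≠ 1) (β : G ⧸ H) : tau H t β ≠ 1 := by
  intro h
  apply ht1
  unfold tau at h
  have : t = (Quotient.out β)⁻¹ * ((Quotient.out β) * t * (Quotient.out β)⁻¹) * (Quotient.out β) := by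
    group
  rw [this, h]; group

theorem tau_sq (H : Subgroup G) {t : G} (ht2 : t * t = 1) (β : G ⧸ H) :
    tau H t β * tau H t β = 1 := by
  unfold tau
  have : (Quotient.out β) * t * (Quotient.out β)⁻¹ * ((Quotient.out β) * t * (Quotient.out β)⁻¹)
      = (Quotient.out β) * (t * t) * (Quotient.out β)⁻¹ := by group
  rw [this, ht2]; group

theorem tau_smul (H : Subgroup G) {t : G} (ht : t ∈ H) (β : G ⧸ H) :
    tau H t β • β = β := by
  have hβ : ((Quotient.out β : G) : G ⧸ H) = β := QuotientGroup.out_eq' β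
  have key : tau H t β • ((Quotient.out β : G) : G ⧸ H) = ((Quotient.out β : G) : G ⧸ H) := by
    rw [smul_mk_eq_iff]
    unfold tau
    have : (Quotient.out β)⁻¹ * ((Quotient.out β) * t * (Quotient.out β)⁻¹) * (Quotient.out β) = t := by
      group
    rw [this]; exact ht
  rwa [hβ] at key

theorem tau_mul_mem {H : Subgroup G} (hH : Cfsg.IsFrobeniusComplement H)
    {t : G} (ht : t ∈ H) (ht1 : t ≠ 1) (ht2 : t * t = 1) (β γ : G ⧸ H) :
    tau H t β * tau H t γ ∈ Cfsg.frobeniusKernel H := by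
  by_cases h : β = γ
  · subst h; rw [tau_sq H ht2]; exact one_mem_kernel H
  · exact mul_mem_kernel hH (tau_ne_one H ht1 β) (tau_ne_one H ht1 γ) (tau_sq H ht2 β)
      (tau_sq H ht2 γ) (tau_smul H ht β) (tau_smul H ht γ) h

theorem tau_injective {H : Subgroup G} (hH : Cfsg.IsFrobeniusComplement H)
    {t : G} (ht : t ∈ H) (ht1 : t ≠ 1) : Function.Injective (tau H t) := by
  intro β γ h
  have h1 := tau_smul H ht β
  have h2 := tau_smul H ht γ
  rw [← h] at h2
  exact fixed_coset_unique hH (tau_ne_one H ht1 β) h1 h2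

theorem exists_tau [Finite G] {H : Subgroup G} (hH : Cfsg.IsFrobeniusComplement H)
    {t : G} (ht : t ∈ H) (ht1 : t ≠ 1) (ht2 : t * t = 1) (α : G ⧸ H)
    {x : G} (hx : x ∈ Cfsg.frobeniusKernel H) : ∃ β : G ⧸ H, x = tau H t α * tau H t β := by
  let f : G ⧸ H → Cfsg.frobeniusKernel H := fun β => ⟨tau H t α * tau H t β, tau_mul_mem hH ht ht1 ht2 α β⟩
  have hf : Function.Injective f := by
    intro β γ h
    have h' : tau H t α * tau H t β = tau H t α * tau H t γ := congrArg Subtype.val h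
    exact tau_injective hH ht ht1 (mul_left_cancel h')
  have hfin : Finite (Cfsg.frobeniusKernel H) := Finite.of_injective (fun x => (x : G)) Subtype.val_injective
  have hc : Nat.card (Cfsg.frobeniusKernel H) ≤ Nat.card (G ⧸ H) := by
    rw [card_kernel H hH]; exact le_of_eq rfl
  have hb := Function.Injective.bijective_of_nat_card_le hf hc
  obtain ⟨β, hβ⟩ := hb.2 ⟨x, hx⟩
  exact ⟨β, (congrArg Subtype.val hβ).symm⟩

theorem main [Finite G] (H : Subgroup G) (hH : Cfsg.IsFrobeniusComplement H)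
    (t : G) (ht : t ∈ H) (ht1 : t ≠ 1) (ht2 : t * t = 1) :
    ∀ x ∈ Cfsg.frobeniusKernel H, ∀ y ∈ Cfsg.frobeniusKernel H, x * y ∈ Cfsg.frobeniusKernel H := by
  intro x hx y hy
  obtain ⟨β, rfl⟩ := exists_tau hH ht ht1 ht2 ((1 : G) : G ⧸ H) hx
  obtain ⟨γ, rfl⟩ := exists_tau hH ht ht1 ht2 β hy
  have : tau H t ((1 : G) : G ⧸ H) * tau H t β * (tau H t β * tau H t γ)
      = tau H t ((1 : G) : G ⧸ H) * (tau H t β * tau H t β) * tau H t γ := by group
  rw [this, tau_sq H ht2, mul_one]
  exact tau_mul_mem hH ht ht1 ht2 _ _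

/-- When a Frobenius complement contains an involution, an elementary argument shows the Frobenius kernel is closed under multiplication (hence a subgroup). -/
theorem result {G : Type*} [Group G] [Finite G] (H : Subgroup G) (hH : Cfsg.IsFrobeniusComplement H)
    (t : G) (ht : t ∈ H) (ht1 : t ≠ 1) (ht2 : t * t = 1) :
    ∀ x ∈ Cfsg.frobeniusKernel H, ∀ y ∈ Cfsg.frobeniusKernel H, x * y ∈ Cfsg.frobeniusKernel H := by
  exact main H hH t ht ht1 ht2

end Cfsg.Agent.S0036
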