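import Mathlib
import Cfsg.Statements.S0038
import Cfsg.Agent.S0001
import Cfsg.Agent.S0023
import Cfsg.Agent.S0026
import Cfsg.Agent.S0029
import Cfsg.Agent.S0035
import Cfsg.Agent.Lib.Helper1.FrobTrace
import Cfsg.Agent.Lib.Helper71.Frobenius

set_option autoImplicit false
open Pointwise
open Cfsg

namespace Cfsg.Agent.S0038

open Cfsg.Agent.Lib.Helper71

universe u

section

variable {G : Type u} [Group G]

/-- a solvable group normalising a solvable group: the join is solvable -/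
theorem sup_solvable (M A : Subgroup G) (hA : A ≤ Subgroup.normalizer (M : Set G))
    [hM : Group.IsSolvable M] [hAs : Group.IsSolvable A] :
    Group.IsSolvable (M ⊔ A : Subgroup G) := by
  have hML : M ≤ M ⊔ A := le_sup_left
  have hAL : A ≤ M ⊔ A := le_sup_right
  have hLn : M ⊔ A ≤ Subgroup.normalizer (M : Set G) := sup_le Subgroup.le_normalizer hA
  have hn : (M.subgroupOf (M ⊔ A)).Normal :=
    (Subgroup.normal_subgroupOf_iff_le_normalizer hML).mpr hLn
  have hs1 : Group.IsSolvable (M.subgroupOf (M ⊔ A)) := Cfsg.Agent.S0001.solv_subgroupOf M (M ⊔ A)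
  have h1 : (M.subgroupOf (M ⊔ A)) ⊔ (A.subgroupOf (M ⊔ A)) = ⊤ := by
    rw [← Subgroup.subgroupOf_sup hML hAL, Subgroup.subgroupOf_self]
  have hsurj : Function.Surjective
      ((QuotientGroup.mk' (M.subgroupOf (M ⊔ A))).comp (Subgroup.inclusion hAL)) := by
    intro y
    obtain ⟨l, rfl⟩ := QuotientGroup.mk'_surjective (M.subgroupOf (M ⊔ A)) y
    have hl : l ∈ ((M.subgroupOf (M ⊔ A)) ⊔ (A.subgroupOf (M ⊔ A)) : Subgroup ↥(M ⊔ A)) := by
      rw [h1]; exact Subgroup.mem_top l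
    rw [← SetLike.mem_coe, Subgroup.normal_mul] at hl
    obtain ⟨m, hm, a, ha, rfl⟩ := hl
    refine ⟨⟨(a : G), Subgroup.mem_subgroupOf.mp ha⟩, ?_⟩
    show (QuotientGroup.mk' (M.subgroupOf (M ⊔ A))) _ = QuotientGroup.mk' _ (m * a)
    rw [QuotientGroup.mk'_apply, QuotientGroup.mk'_apply, QuotientGroup.eq]
    have e : (Subgroup.inclusion hAL ⟨(a : G), Subgroup.mem_subgroupOf.mp ha⟩)⁻¹ * (m * a)
        = a⁻¹ * m * a⁻¹⁻¹ := by
      have : Subgroup.inclusion hAL ⟨(a : G), Subgroup.mem_subgroupOf.mp ha⟩ = a :=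
        Subtype.ext rfl
      rw [this]; group
    rw [e]
    exact hn.conj_mem m hm a⁻¹
  have hs2 : Group.IsSolvable (↥(M ⊔ A) ⧸ M.subgroupOf (M ⊔ A)) :=
    Group.isSolvable_of_surjective hsurj
  exact Group.isSolvable_of_ker_le_range (M.subgroupOf (M ⊔ A)).subtype
    (QuotientGroup.mk' (M.subgroupOf (M ⊔ A))) (by simp)

/-- A Frobenius group `Q ⋊ ⟨x⟩` with `Q` solvable, inside a group `H` acting coprimely and
fixed-point-freely on `N ≠ 1`: impossible. -/
theorem frob_fpf_false [Finite G] (H N Q : Subgroup G) (x : G)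
    (hHN : H ≤ Subgroup.normalizer (N : Set G)) (hcop : (Nat.card H).Coprime (Nat.card N))
    (hN : N ≠ ⊥) (hfpf : ∀ h ∈ H, h ≠ 1 → ∀ n ∈ N, h * n = n * h → n = 1)
    (hQH : Q ≤ H) (hxH : x ∈ H) (hx1 : x ≠ 1) (hQ : Q ≠ ⊥) (hQsolv : Group.IsSolvable Q)
    (hxQ : x ∈ Subgroup.normalizer (Q : Set G))
    (hCQ : ∀ h ∈ Subgroup.zpowers x, h ≠ 1 → ∀ u ∈ Q, u * h = h * u → u = 1) : False := by
  have hzs : Group.IsSolvable (Subgroup.zpowers x) :=
    Group.isSolvable_of_comm (fun u v => Subtype.ext (setLike_mul_comm u.2 v.2))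
  have hzQ : Subgroup.zpowers x ≤ Subgroup.normalizer (Q : Set G) := Subgroup.zpowers_le.mpr hxQ
  have hAsolv : Group.IsSolvable (Q ⊔ Subgroup.zpowers x : Subgroup G) :=
    sup_solvable Q (Subgroup.zpowers x) hzQ
  have hAH : Q ⊔ Subgroup.zpowers x ≤ H := sup_le hQH (Subgroup.zpowers_le.mpr hxH)
  have hAN : Q ⊔ Subgroup.zpowers x ≤ Subgroup.normalizer (N : Set G) := hAH.trans hHN
  have hcop' : (Nat.card (Q ⊔ Subgroup.zpowers x : Subgroup G)).Coprime (Nat.card N) :=
    Nat.Coprime.coprime_dvd_left (Subgroup.card_dvd_of_le hAH) hcop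
  have hNcard : Nat.card N ≠ 1 := fun h => hN (Subgroup.card_eq_one.mp h)
  obtain ⟨r, hr, hrN⟩ := Nat.exists_prime_and_dvd hNcard
  have hrf : Fact r.Prime := ⟨hr⟩
  obtain ⟨R, hR⟩ := Cfsg.Agent.S0023.result (Q ⊔ Subgroup.zpowers x) N hAN hcop' (Or.inl hAsolv) r
  have hR1N : (R : Subgroup N).map N.subtype ≤ N := Subgroup.map_subtype_le _
  have hR1ne : (R : Subgroup N).map N.subtype ≠ ⊥ := by
    intro h
    exact R.ne_bot_of_dvd_card hrN
      ((Subgroup.map_eq_bot_iff_of_injective _ (Subgroup.subtype_injective _)).mp h)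
  have hR1p : IsPGroup r ((R : Subgroup N).map N.subtype) := R.isPGroup'.map _
  have hnt : Nontrivial ((R : Subgroup N).map N.subtype) :=
    (Subgroup.nontrivial_iff_ne_bot _).mpr hR1ne
  have hcnt := hR1p.center_nontrivial
  -- `V = Z(R)`
  have hVN : (Subgroup.center ((R : Subgroup N).map N.subtype)).map
      ((R : Subgroup N).map N.subtype).subtype ≤ N :=
    (Subgroup.map_subtype_le _).trans hR1N
  have hVne : (Subgroup.center ((R : Subgroup N).map N.subtype)).map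
      ((R : Subgroup N).map N.subtype).subtype ≠ ⊥ := by
    intro h
    have h2 := (Subgroup.map_eq_bot_iff_of_injective _ (Subgroup.subtype_injective _)).mp h
    exact (Subgroup.nontrivial_iff_ne_bot _).mp hcnt h2
  have hVab : ∀ a ∈ (Subgroup.center ((R : Subgroup N).map N.subtype)).map
      ((R : Subgroup N).map N.subtype).subtype, ∀ b ∈ (Subgroup.center
        ((R : Subgroup N).map N.subtype)).map ((R : Subgroup N).map N.subtype).subtype,
      a * b = b * a := by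
    rintro _ ⟨z, hz, rfl⟩ _ ⟨w, hw, rfl⟩
    have := Subgroup.mem_center_iff.mp hz w
    exact (congrArg Subtype.val this).symm
  have hAV : Q ⊔ Subgroup.zpowers x ≤ Subgroup.normalizer
      (((Subgroup.center ((R : Subgroup N).map N.subtype)).map
        ((R : Subgroup N).map N.subtype).subtype : Subgroup G) : Set G) :=
    hR.trans (Cfsg.Agent.S0029.normalizer_le_normalizer_char _ _)
  obtain ⟨u0, hu0⟩ := (Subgroup.ne_bot_iff_exists_ne_one).mp hQ
  have hpow := Cfsg.Agent.Lib.Helper1.FrobTrace.pow_card_eq_one_of_fpf _ Q (Subgroup.zpowers x)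
    hVab (le_sup_left.trans hAV) (le_sup_right.trans hAV) hzQ hCQ
    (fun v hv hc => hfpf x hxH hx1 v (hVN hv) (hc x (Subgroup.mem_zpowers x)))
    (fun v hv hc => hfpf (u0 : G) (hQH u0.2) (fun h => hu0 (Subtype.ext h)) v (hVN hv)
      (hc (u0 : G) u0.2))
  apply hVne
  rw [eq_bot_iff]
  intro v hv
  rw [Subgroup.mem_bot]
  have h1 : orderOf v ∣ Nat.card Q := orderOf_dvd_of_pow_eq_one (hpow v hv)
  have h2 : orderOf v ∣ Nat.card N := Subgroup.orderOf_dvd_natCard N (hVN hv)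
  have h3 : orderOf v ∣ Nat.card H := h1.trans (Subgroup.card_dvd_of_le hQH)
  have h4 : orderOf v = 1 := Nat.Coprime.eq_one_of_dvd
    (Nat.Coprime.coprime_dvd_left h3 hcop) h2
  exact orderOf_eq_one_iff.mp h4

/-- A Frobenius complement does not contain a Frobenius group: no subgroup `D` of a Frobenius
complement `H` is a Frobenius complement of `H`. -/
theorem no_frob_in_frob [Finite G] (H D : Subgroup G) (hH : IsFrobeniusComplement H)
    (hDH : D ≤ H) (hD1 : D ≠ ⊥) (hDH' : D ≠ H)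
    (hTI : ∀ h ∈ H, h ∉ D → D ⊓ MulAut.conj h • D = ⊥) : False := by
  obtain ⟨N, hNset, hNn, hNc⟩ := Cfsg.Agent.S0035.result H hH
  have hNcard : Nat.card N = H.index := (hNc.index_eq_card).symm
  have hN : N ≠ ⊥ := by
    intro h
    rw [h, Subgroup.card_bot] at hNcard
    exact hH.2.1 (Subgroup.index_eq_one.mp hNcard.symm)
  have hcop : (Nat.card H).Coprime (Nat.card N) := by
    rw [hNcard]; exact Frobenius.coprime_card_index H hH
  have hfpf : ∀ h ∈ H, h ≠ 1 → ∀ n ∈ N, h * n = n * h → n = 1 := by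
    intro h hh hh1 n hn hc
    have h1 : n ∈ H := Frobenius.mem_of_commute hH hh hh1 hc.symm
    exact Subgroup.disjoint_def.mp hNc.disjoint hn h1
  have hHN : H ≤ Subgroup.normalizer (N : Set G) := by
    rw [Subgroup.normalizer_eq_top]; exact le_top
  -- `D` as a Frobenius complement of the group `H`
  have hD' : IsFrobeniusComplement (D.subgroupOf H) := by
    refine ⟨?_, ?_, ?_⟩
    · intro h
      obtain ⟨d, hd⟩ := (Subgroup.ne_bot_iff_exists_ne_one).mp hD1
      have h1 : (⟨(d : G), hDH d.2⟩ : H) ∈ D.subgroupOf H := Subgroup.mem_subgroupOf.mpr d.2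
      rw [h, Subgroup.mem_bot] at h1
      have h2 : (d : G) = 1 := congrArg (Subtype.val : H → G) h1
      exact hd (Subtype.ext h2)
    · intro h
      exact hDH' (le_antisymm hDH (Subgroup.subgroupOf_eq_top.mp h))
    · intro g hg
      rw [eq_bot_iff]
      rintro y ⟨hy1, hy2⟩
      rw [Subgroup.mem_bot]
      have hy2' : g⁻¹ * y * g ∈ D.subgroupOf H := (Frobenius.mem_conj_iff g y _).mp hy2
      have h1 : (y : G) ∈ D ⊓ MulAut.conj (g : G) • D :=
        ⟨Subgroup.mem_subgroupOf.mp hy1,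
          (Frobenius.mem_conj_iff (g : G) (y : G) D).mpr (Subgroup.mem_subgroupOf.mp hy2')⟩
      rw [hTI (g : G) g.2 (fun h => hg (Subgroup.mem_subgroupOf.mpr h)), Subgroup.mem_bot] at h1
      exact Subtype.ext h1
  obtain ⟨K', hK'set, hK'n, hK'c⟩ := Cfsg.Agent.S0035.result (D.subgroupOf H) hD'
  have hK'card : Nat.card K' = (D.subgroupOf H).index := (hK'c.index_eq_card).symm
  have hK' : K' ≠ ⊥ := by
    intro h
    rw [h, Subgroup.card_bot] at hK'card
    exact hD'.2.1 (Subgroup.index_eq_one.mp hK'card.symm)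
  -- an element of prime order in `D`
  have hD'card : Nat.card (D.subgroupOf H) ≠ 1 := fun h => hD'.1 (Subgroup.card_eq_one.mp h)
  obtain ⟨p, hp, hpD⟩ := Nat.exists_prime_and_dvd hD'card
  have hpf : Fact p.Prime := ⟨hp⟩
  obtain ⟨x', hx'⟩ := exists_prime_orderOf_dvd_card' (G := D.subgroupOf H) p hpD
  have hx'1 : x' ≠ 1 := by
    rintro rfl
    rw [orderOf_one] at hx'
    exact hp.one_lt.ne hx'
  have hxH1 : (x' : H) ≠ 1 := fun h => hx'1 (Subtype.ext h)
  have hxG1 : ((x' : H) : G) ≠ 1 := fun h => hxH1 (Subtype.ext h)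
  have hzD : Subgroup.zpowers (x' : H) ≤ D.subgroupOf H := Subgroup.zpowers_le.mpr x'.2
  have hcop2 : (Nat.card (Subgroup.zpowers (x' : H))).Coprime (Nat.card K') := by
    rw [hK'card]
    exact Nat.Coprime.coprime_dvd_left (Subgroup.card_dvd_of_le hzD)
      (Frobenius.coprime_card_index _ hD')
  have hzK : Subgroup.zpowers (x' : H) ≤ Subgroup.normalizer (K' : Set H) := by
    rw [Subgroup.normalizer_eq_top]; exact le_top
  have hK'c1 : Nat.card K' ≠ 1 := fun h => hK' (Subgroup.card_eq_one.mp h)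
  obtain ⟨q, hq, hqK⟩ := Nat.exists_prime_and_dvd hK'c1
  have hqf : Fact q.Prime := ⟨hq⟩
  have hzs : Group.IsSolvable (Subgroup.zpowers (x' : H)) :=
    Group.isSolvable_of_comm (fun u v => Subtype.ext (setLike_mul_comm u.2 v.2))
  obtain ⟨Q', hQ'⟩ := Cfsg.Agent.S0023.result (Subgroup.zpowers (x' : H)) K' hzK hcop2
    (Or.inl hzs) q
  have hQ'ne : ((Q' : Subgroup K').map K'.subtype).map H.subtype ≠ ⊥ := by
    intro h
    have h2 := (Subgroup.map_eq_bot_iff_of_injective _ (Subgroup.subtype_injective _)).mp h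
    have h3 := (Subgroup.map_eq_bot_iff_of_injective _ (Subgroup.subtype_injective _)).mp h2
    exact Q'.ne_bot_of_dvd_card hqK h3
  have hQp : IsPGroup q (((Q' : Subgroup K').map K'.subtype).map H.subtype) :=
    (Q'.isPGroup'.map _).map _
  have hQnil : Group.IsNilpotent (((Q' : Subgroup K').map K'.subtype).map H.subtype) :=
    hQp.isNilpotent
  have hQsolv : Group.IsSolvable (((Q' : Subgroup K').map K'.subtype).map H.subtype) :=
    inferInstance
  have hxnorm : (x' : H) ∈ Subgroup.normalizer (((Q' : Subgroup K').map K'.subtype : Subgroup H) : Set H) :=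
    hQ' (Subgroup.mem_zpowers _)
  have hxQ : ((x' : H) : G) ∈ Subgroup.normalizer
      ((((Q' : Subgroup K').map K'.subtype).map H.subtype : Subgroup G) : Set G) := by
    apply Cfsg.Agent.S0026.mem_normalizer_of_conj_mem
    · rintro _ ⟨y, hy, rfl⟩
      exact ⟨(x' : H) * y * (x' : H)⁻¹, (Subgroup.mem_normalizer_iff.mp hxnorm y).mp hy, rfl⟩
    · rintro _ ⟨y, hy, rfl⟩
      refine ⟨(x' : H)⁻¹ * y * (x' : H), ?_, rfl⟩
      have := (Subgroup.mem_normalizer_iff.mp (Subgroup.inv_mem _ hxnorm) y).mp hy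
      rwa [inv_inv] at this
  apply frob_fpf_false H N (((Q' : Subgroup K').map K'.subtype).map H.subtype) ((x' : H) : G)
    hHN hcop hN hfpf (Subgroup.map_subtype_le _) (x' : H).2 hxG1 hQ'ne hQsolv hxQ
  -- the centraliser condition
  intro h hh hh1 u hu huh
  obtain ⟨uH, huH, rfl⟩ := hu
  obtain ⟨uK, huK, rfl⟩ := huH
  -- `h` as an element of `D.subgroupOf H`
  have hhH : h ∈ H := (Subgroup.zpowers_le.mpr (x' : H).2) hh
  have hhD : (⟨h, hhH⟩ : H) ∈ D.subgroupOf H := by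
    rw [Subgroup.mem_subgroupOf]
    exact (Subgroup.zpowers_le.mpr (Subgroup.mem_subgroupOf.mp x'.2)) hh
  have hh1' : (⟨h, hhH⟩ : H) ≠ 1 := fun e => hh1 (congrArg Subtype.val e)
  have hcomm : (uK : H) * (⟨h, hhH⟩ : H) = (⟨h, hhH⟩ : H) * (uK : H) := Subtype.ext huh
  have h5 : (uK : H) ∈ D.subgroupOf H := Frobenius.mem_of_commute hD' hhD hh1' hcomm
  have h6 : (uK : H) = 1 := Subgroup.disjoint_def.mp hK'c.disjoint uK.2 h5
  show ((uK : H) : G) = 1
  rw [h6]; rfl

/-- a conjugate of a Frobenius complement is a Frobenius complement -/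
theorem conj_frob (H : Subgroup G) (hH : IsFrobeniusComplement H) (g : G) :
    IsFrobeniusComplement (MulAut.conj g • H) := by
  refine ⟨?_, ?_, ?_⟩
  · intro h
    obtain ⟨d, hd⟩ := (Subgroup.ne_bot_iff_exists_ne_one).mp hH.1
    have h1 : g * (d : G) * g⁻¹ ∈ MulAut.conj g • H := by
      rw [Frobenius.mem_conj_iff]
      have e : g⁻¹ * (g * (d : G) * g⁻¹) * g = d := by group
      rw [e]; exact d.2
    rw [h, Subgroup.mem_bot] at h1
    apply hd
    apply Subtype.ext
    have e : (d : G) = g⁻¹ * (g * (d : G) * g⁻¹) * g := by group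
    rw [e, h1]; simp
  · intro h
    apply hH.2.1
    rw [eq_top_iff]
    intro y _
    have h1 : g * y * g⁻¹ ∈ MulAut.conj g • H := by rw [h]; exact Subgroup.mem_top _
    rw [Frobenius.mem_conj_iff] at h1
    have e : g⁻¹ * (g * y * g⁻¹) * g = y := by group
    rwa [e] at h1
  · intro a ha
    rw [eq_bot_iff]
    rintro y ⟨hy1, hy2⟩
    rw [Subgroup.mem_bot]
    have h1 : g⁻¹ * y * g ∈ H := (Frobenius.mem_conj_iff g y H).mp hy1
    have h2 : g⁻¹ * (a⁻¹ * y * a) * g ∈ H :=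
      (Frobenius.mem_conj_iff g _ H).mp ((Frobenius.mem_conj_iff a y _).mp hy2)
    have hb : g⁻¹ * a * g ∉ H := fun h => ha ((Frobenius.mem_conj_iff g a H).mpr h)
    have e : (g⁻¹ * a * g)⁻¹ * (g⁻¹ * y * g) * (g⁻¹ * a * g) = g⁻¹ * (a⁻¹ * y * a) * g := by
      group
    have h3 := Frobenius.eq_one_of_mem_of_conj_mem hH h1 (by rw [e]; exact h2) hb
    have e2 : y = g * (g⁻¹ * y * g) * g⁻¹ := by group
    rw [e2, h3]; group

/-- two Frobenius complements have conjugates meeting nontrivially -/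
theorem exists_conj_inf_ne_bot [Finite G] (H H₀ : Subgroup G) (hH : IsFrobeniusComplement H)
    (hH₀ : IsFrobeniusComplement H₀) : ∃ g : G, H ⊓ MulAut.conj g • H₀ ≠ ⊥ := by
  by_contra hcon
  have hall : ∀ g : G, H ⊓ MulAut.conj g • H₀ = ⊥ := by
    intro g
    by_contra h
    exact hcon ⟨g, h⟩
  obtain ⟨N, hNset, hNn, hNc⟩ := Cfsg.Agent.S0035.result H hH
  obtain ⟨N₀, hN₀set, hN₀n, hN₀c⟩ := Cfsg.Agent.S0035.result H₀ hH₀
  have hcover : ∀ y : G, y ∈ N ∨ y ∈ N₀ := by
    intro y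
    by_contra hy
    rw [not_or] at hy
    have h1 : y ∉ Cfsg.frobeniusKernel H := fun h => hy.1 (by rw [← SetLike.mem_coe, hNset]; exact h)
    have h2 : y ∉ Cfsg.frobeniusKernel H₀ :=
      fun h => hy.2 (by rw [← SetLike.mem_coe, hN₀set]; exact h)
    rw [Frobenius.mem_kernel_iff, not_or, not_forall] at h1 h2
    obtain ⟨hy1, b, hb⟩ := h1
    obtain ⟨-, a, ha⟩ := h2
    rw [not_not] at hb ha
    have h3 : b⁻¹ * y * b ∈ H ⊓ MulAut.conj (b⁻¹ * a) • H₀ := by
      refine Subgroup.mem_inf.mpr ⟨hb, ?_⟩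
      rw [Frobenius.mem_conj_iff]
      have e : (b⁻¹ * a)⁻¹ * (b⁻¹ * y * b) * (b⁻¹ * a) = a⁻¹ * y * a := by group
      rw [e]; exact ha
    rw [hall, Subgroup.mem_bot] at h3
    apply hy1
    have e : y = b * (b⁻¹ * y * b) * b⁻¹ := by group
    rw [e, h3]; group
  have hNtop : N ≠ ⊤ := by
    intro h
    apply hH.1
    rw [eq_bot_iff]
    intro z hz
    exact (Subgroup.mem_bot).mpr (Subgroup.disjoint_def.mp hNc.disjoint (h ▸ Subgroup.mem_top z) hz)
  have hN₀top : N₀ ≠ ⊤ := by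
    intro h
    apply hH₀.1
    rw [eq_bot_iff]
    intro z hz
    exact (Subgroup.mem_bot).mpr
      (Subgroup.disjoint_def.mp hN₀c.disjoint (h ▸ Subgroup.mem_top z) hz)
  obtain ⟨n, hn⟩ : ∃ n, n ∉ N := by
    by_contra h
    exact hNtop ((Subgroup.eq_top_iff' N).mpr (fun z => by
      by_contra hz; exact h ⟨z, hz⟩))
  obtain ⟨n₀, hn₀⟩ : ∃ n, n ∉ N₀ := by
    by_contra h
    exact hN₀top ((Subgroup.eq_top_iff' N₀).mpr (fun z => by
      by_contra hz; exact h ⟨z, hz⟩))
  have hnN₀ : n ∈ N₀ := (hcover n).resolve_left hn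
  have hn₀N : n₀ ∈ N := (hcover n₀).resolve_right hn₀
  rcases hcover (n * n₀) with h | h
  · apply hn
    have e : n = n * n₀ * n₀⁻¹ := by group
    rw [e]; exact N.mul_mem h (N.inv_mem hn₀N)
  · apply hn₀
    have e : n₀ = n⁻¹ * (n * n₀) := by group
    rw [e]; exact N₀.mul_mem (N₀.inv_mem hnN₀) h

/-- Frobenius complements meeting nontrivially: one contains the other -/
theorem le_of_inf_ne_bot [Finite G] (H H₁ : Subgroup G) (hH : IsFrobeniusComplement H)
    (hH₁ : IsFrobeniusComplement H₁) (hne : H ⊓ H₁ ≠ ⊥) : H ≤ H₁ := by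
  by_contra hnle
  have hDH : H ⊓ H₁ ≠ H := fun h => hnle (h ▸ inf_le_right)
  apply no_frob_in_frob H (H ⊓ H₁) hH inf_le_left hne hDH
  intro h hh hhD
  have hh1 : h ∉ H₁ := fun h1 => hhD ⟨hh, h1⟩
  rw [eq_bot_iff]
  intro y hy
  obtain ⟨hy1, hy2⟩ := Subgroup.mem_inf.mp hy
  rw [← hH₁.2.2 h hh1]
  refine Subgroup.mem_inf.mpr ⟨(Subgroup.mem_inf.mp hy1).2, ?_⟩
  rw [Frobenius.mem_conj_iff] at hy2 ⊢
  exact (Subgroup.mem_inf.mp hy2).2

end

/-- All Frobenius complements of a finite group are conjugate to one another. -/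
theorem result {G : Type*} [Group G] [Finite G] (H H₀ : Subgroup G)
    (hH : Cfsg.IsFrobeniusComplement H) (hH₀ : Cfsg.IsFrobeniusComplement H₀) :
    ∃ g : G, MulAut.conj g • H₀ = H := by
  obtain ⟨g, hg⟩ := exists_conj_inf_ne_bot H H₀ hH hH₀
  have hH₁ := conj_frob H₀ hH₀ g
  refine ⟨g, le_antisymm ?_ ?_⟩
  · exact le_of_inf_ne_bot _ H hH₁ hH (by rwa [inf_comm])
  · exact le_of_inf_ne_bot H _ hH hH₁ hg

end Cfsg.Agent.S0038
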