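import Cfsg.Statements.S0040
import Cfsg.Agent.Lib.Helper54.Quaternion
import Cfsg.Agent.Lib.Helper54.FpfNorm

set_option autoImplicit false
open Cfsg

namespace Cfsg.Agent.S0040

/-- Sylow subgroups of Frobenius complements: if H complements a nontrivial normal subgroup K and every nonidentity element of H has trivial centraliser in K, then each Sylow subgroup of H is cyclic or isomorphic to a generalized quaternion group. -/
theorem result {G : Type*} [Group G] [Finite G] (K H : Subgroup G) [K.Normal]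
    (hc : Subgroup.IsComplement' K H) (hK : K ≠ ⊥) (hfpf : ∀ h ∈ H, h ≠ 1 → K ⊓ Subgroup.centralizer {h} = ⊥)
    (p : ℕ) [Fact p.Prime] (P : Sylow p H) :
    IsCyclic P ∨ ∃ n : ℕ, Nonempty (P ≃* QuaternionGroup (2 ^ n)) := by
  have hUI : Cfsg.Agent.Lib.Helper54.UniqueSubgroup.UI p ↥P := by
    apply Cfsg.Agent.Lib.Helper54.FpfNorm.ui_of_fpf K hK P.isPGroup'
      (H.subtype.comp (P : Subgroup ↥H).subtype)
    intro s hs x hx hcomm
    have hsH : ((s : ↥H) : G) ∈ H := (s : ↥H).2
    have hs1 : ((s : ↥H) : G) ≠ 1 := fun h => hs (Subtype.ext (Subtype.ext h))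
    have h1 := hfpf _ hsH hs1
    have hx' : x ∈ K ⊓ Subgroup.centralizer {((s : ↥H) : G)} :=
      ⟨hx, Subgroup.mem_centralizer_singleton_iff.2 hcomm.symm⟩
    rw [h1] at hx'
    exact hx'
  rcases Cfsg.Agent.Lib.Helper54.Quaternion.isCyclic_or_quaternion_of_ui P.isPGroup' hUI with
    h | ⟨-, h⟩
  · left; exact h
  · right; exact h

end Cfsg.Agent.S0040
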