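import Mathlib
import Cfsg.Statements.S0045
import Cfsg.Agent.S0001
import Cfsg.Agent.S0006
import Cfsg.Agent.S0023
import Cfsg.Agent.S0026
import Cfsg.Agent.S0043

set_option autoImplicit false
open Pointwise
open Cfsg

namespace Cfsg.Agent.S0045

universe u

/-- Carter subgroup: nilpotent and self-normalising -/
def IsCarter {G : Type*} [Group G] (C : Subgroup G) : Prop :=
  Group.IsNilpotent C ∧ Subgroup.normalizer (C : Set G) = C

/-- all Carter subgroups are conjugate -/
def ConjProp (H : Type*) [Group H] : Prop :=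
  ∀ C D : Subgroup H, IsCarter C → IsCarter D → ∃ g : H, MulAut.conj g • C = D

theorem smul_eq_of_mem_normalizer {G : Type*} [Group G] {H : Subgroup G} {g : G}
    (hg : g ∈ Subgroup.normalizer (H : Set G)) : MulAut.conj g • H = H := by
  ext x
  rw [Subgroup.mem_pointwise_smul_iff_inv_smul_mem]
  simp only [MulAut.smul_def, MulAut.conj_inv_apply]
  exact (Subgroup.mem_normalizer_iff''.mp hg x).symm

theorem mem_normalizer_of_smul_eq {G : Type*} [Group G] {H : Subgroup G} {g : G}
    (h : MulAut.conj g • H = H) : g ∈ Subgroup.normalizer (H : Set G) := by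
  rw [Subgroup.mem_normalizer_iff'']
  intro x
  conv_lhs => rw [← h]
  rw [Subgroup.mem_pointwise_smul_iff_inv_smul_mem]
  simp only [MulAut.smul_def, MulAut.conj_inv_apply]

theorem conj_mul_smul {G : Type*} [Group G] (a b : G) (H : Subgroup G) :
    MulAut.conj (a * b) • H = MulAut.conj a • MulAut.conj b • H := by
  rw [map_mul, mul_smul]

theorem conj_inv_smul_conj_smul {G : Type*} [Group G] (a : G) (H : Subgroup G) :
    MulAut.conj a⁻¹ • MulAut.conj a • H = H := by
  rw [← conj_mul_smul, inv_mul_cancel, map_one, one_smul]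

theorem conj_smul_conj_inv_smul {G : Type*} [Group G] (a : G) (H : Subgroup G) :
    MulAut.conj a • MulAut.conj a⁻¹ • H = H := by
  rw [← conj_mul_smul, mul_inv_cancel, map_one, one_smul]

theorem carter_conj {G : Type*} [Group G] {C : Subgroup G} (h : IsCarter C) (g : G) :
    IsCarter (MulAut.conj g • C) := by
  refine ⟨?_, ?_⟩
  · have := h.1
    exact Group.nilpotent_of_mulEquiv (Subgroup.equivSMul (MulAut.conj g) C)
  · apply le_antisymm _ Subgroup.le_normalizer
    intro x hx
    have h1 := smul_eq_of_mem_normalizer hx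
    have h2 : MulAut.conj (g⁻¹ * x * g) • C = C := by
      rw [conj_mul_smul, conj_mul_smul, h1, conj_inv_smul_conj_smul]
    have h3 := mem_normalizer_of_smul_eq h2
    rw [h.2] at h3
    rw [Subgroup.mem_pointwise_smul_iff_inv_smul_mem]
    simpa using h3

theorem carter_subgroupOf {G : Type*} [Group G] {C M : Subgroup G} (h : IsCarter C) (hCM : C ≤ M) :
    IsCarter (C.subgroupOf M) := by
  refine ⟨?_, ?_⟩
  · have := h.1
    exact Group.nilpotent_of_mulEquiv (Subgroup.subgroupOfEquivOfLe hCM).symm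
  · rw [← Subgroup.subgroupOf_normalizer_eq hCM, h.2]

theorem carter_eq_top {G : Type*} [Group G] [Group.IsNilpotent G] {C : Subgroup G}
    (h : IsCarter C) : C = ⊤ :=
  normalizerCondition_iff_only_full_group_self_normalizing.mp
    Group.normalizerCondition_of_isNilpotent C h.2

theorem carter_top {G : Type*} [Group G] [Group.IsNilpotent G] : IsCarter (⊤ : Subgroup G) := by
  refine ⟨Group.nilpotent_of_mulEquiv Subgroup.topEquiv.symm, ?_⟩
  exact top_le_iff.mp Subgroup.le_normalizer

theorem nilpotent_of_top {G : Type*} [Group G] (h : Group.IsNilpotent (⊤ : Subgroup G)) :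
    Group.IsNilpotent G := by
  have := h
  exact Group.nilpotent_of_mulEquiv Subgroup.topEquiv

/-- Lemma 1: `N_G(CN) = CN` for a Carter subgroup `C` and `N` normal (given conjugacy in
smaller groups). -/
theorem normalizer_sup {G : Type u} [Group G] [Finite G] [Group.IsSolvable G]
    (IH : ∀ (H : Type u) [Group H] [Finite H] [Group.IsSolvable H],
      Nat.card H < Nat.card G → ConjProp H)
    {C : Subgroup G} (hC : IsCarter C) (N : Subgroup G) [N.Normal] :
    Subgroup.normalizer ((C ⊔ N : Subgroup G) : Set G) = C ⊔ N := by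
  apply le_antisymm _ Subgroup.le_normalizer
  intro g hg
  by_cases htop : C ⊔ N = ⊤
  · rw [htop]; exact Subgroup.mem_top g
  have hCM : C ≤ C ⊔ N := le_sup_left
  have hgM := smul_eq_of_mem_normalizer hg
  have hC'M : MulAut.conj g • C ≤ C ⊔ N := by
    calc MulAut.conj g • C ≤ MulAut.conj g • (C ⊔ N) :=
          Subgroup.pointwise_smul_le_pointwise_smul_iff.mpr hCM
      _ = C ⊔ N := hgM
  have hlt := Cfsg.Agent.S0001.card_lt_of_ne_top htop
  obtain ⟨m, hm⟩ := IH (C ⊔ N : Subgroup G) hlt _ _ (carter_subgroupOf hC hCM)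
    (carter_subgroupOf (carter_conj hC g) hC'M)
  have h1 := Cfsg.Agent.S0001.conj_of_subgroupOf m hCM hC'M hm
  have h2 : MulAut.conj ((m : G)⁻¹ * g) • C = C := by
    rw [conj_mul_smul, ← h1, conj_inv_smul_conj_smul]
  have h3 := mem_normalizer_of_smul_eq h2
  rw [hC.2] at h3
  have : g = (m : G) * ((m : G)⁻¹ * g) := by group
  rw [this]
  exact (C ⊔ N).mul_mem m.2 (hCM h3)

theorem carter_map {G : Type*} [Group G] {C : Subgroup G} (hC : IsCarter C) (N : Subgroup G)
    [N.Normal] (hn : Subgroup.normalizer ((C ⊔ N : Subgroup G) : Set G) = C ⊔ N) :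
    IsCarter (C.map (QuotientGroup.mk' N)) := by
  refine ⟨?_, ?_⟩
  · have := hC.1
    exact Group.nilpotent_of_surjective ((QuotientGroup.mk' N).subgroupMap C)
      ((QuotientGroup.mk' N).subgroupMap_surjective C)
  · have hsur : Function.Surjective (QuotientGroup.mk' N) := QuotientGroup.mk'_surjective N
    apply Subgroup.comap_injective hsur
    rw [Subgroup.comap_normalizer_eq_of_surjective _ hsur, Subgroup.comap_map_eq,
      QuotientGroup.ker_mk', hn]

theorem index_conj {G : Type*} [Group G] [Finite G] (g : G) (H : Subgroup G) :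
    (MulAut.conj g • H : Subgroup G).index = H.index := by
  have h1 := (MulAut.conj g • H : Subgroup G).card_mul_index
  have h2 := H.card_mul_index
  rw [Cfsg.Agent.S0001.card_conj] at h1
  exact Nat.eq_of_mul_eq_mul_left Nat.card_pos (h1.trans h2.symm)

/-- the normaliser of a Hall subgroup is self-normalising -/
theorem hall_normalizer_self {G : Type*} [Group G] [Finite G] (Q : Subgroup G)
    (hQ : (Nat.card Q).Coprime Q.index) :
    Subgroup.normalizer ((Subgroup.normalizer (Q : Set G) : Subgroup G) : Set G)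
      = Subgroup.normalizer (Q : Set G) := by
  apply le_antisymm _ Subgroup.le_normalizer
  intro g hg
  have hQC : Q ≤ Subgroup.normalizer (Q : Set G) := Subgroup.le_normalizer
  have hgC := smul_eq_of_mem_normalizer hg
  have hQ'C : MulAut.conj g • Q ≤ Subgroup.normalizer (Q : Set G) := by
    calc MulAut.conj g • Q ≤ MulAut.conj g • Subgroup.normalizer (Q : Set G) :=
          Subgroup.pointwise_smul_le_pointwise_smul_iff.mpr hQC
      _ = Subgroup.normalizer (Q : Set G) := hgC
  haveI : (Q.subgroupOf (Subgroup.normalizer (Q : Set G))).Normal :=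
    (Subgroup.normal_subgroupOf_iff_le_normalizer hQC).mpr le_rfl
  have hcop : (Nat.card (Q.subgroupOf (Subgroup.normalizer (Q : Set G)))).Coprime
      ((MulAut.conj g • Q).subgroupOf (Subgroup.normalizer (Q : Set G))).index := by
    rw [Cfsg.Agent.S0001.card_subgroupOf_of_le hQC]
    have : ((MulAut.conj g • Q).subgroupOf (Subgroup.normalizer (Q : Set G))).index ∣ Q.index := by
      rw [← index_conj g Q]
      exact Subgroup.relIndex_dvd_index_of_le hQ'C
    exact Nat.Coprime.coprime_dvd_right this hQ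
  have hle := Cfsg.Agent.S0006.le_of_normal_coprime _ _ hcop
  have hle' : Q ≤ MulAut.conj g • Q := by
    intro x hx
    have : (⟨x, hQC hx⟩ : Subgroup.normalizer (Q : Set G)) ∈
        Q.subgroupOf (Subgroup.normalizer (Q : Set G)) := Subgroup.mem_subgroupOf.mpr hx
    exact Subgroup.mem_subgroupOf.mp (hle this)
  have heq : Q = MulAut.conj g • Q :=
    Subgroup.eq_of_le_of_card_ge hle' (by rw [Cfsg.Agent.S0001.card_conj])
  exact mem_normalizer_of_smul_eq heq.symm

theorem exists_normal_sylow {G : Type*} [Group G] [Finite G] (p : ℕ) [Fact p.Prime]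
    (A : Subgroup G) [A.Normal] (hA : IsPGroup p A) [Group.IsNilpotent (G ⧸ A)] :
    ∃ S : Subgroup G, S.Normal ∧ A ≤ S ∧ IsPGroup p S ∧ ¬ p ∣ S.index := by
  obtain ⟨P⟩ : Nonempty (Sylow p (G ⧸ A)) := inferInstance
  have hPn : (P : Subgroup (G ⧸ A)).Normal := inferInstance
  refine ⟨(P : Subgroup (G ⧸ A)).comap (QuotientGroup.mk' A), hPn.comap _, ?_, ?_, ?_⟩
  · intro a ha
    rw [Subgroup.mem_comap]
    have : QuotientGroup.mk' A a = 1 := (QuotientGroup.eq_one_iff a).mpr ha
    rw [this]; exact Subgroup.one_mem _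
  · apply P.isPGroup'.comap_of_ker_isPGroup
    rw [QuotientGroup.ker_mk']; exact hA
  · rw [Subgroup.index_comap_of_surjective _ (QuotientGroup.mk'_surjective A)]
    exact P.not_dvd_index

theorem nilpotent_of_injective {H K : Type*} [Group H] [Group K] [Group.IsNilpotent K]
    (f : H →* K) (hf : Function.Injective f) : Group.IsNilpotent H := by
  have : Group.IsNilpotent f.range := inferInstance
  exact Group.nilpotent_of_mulEquiv (MonoidHom.ofInjective hf).symm

/-- a normal `p`-subgroup `S` of `p'`-index has coprime order and index -/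
theorem coprime_of_pgroup {G : Type*} [Group G] [Finite G] (p : ℕ) [Fact p.Prime]
    {S : Subgroup G} (hSp : IsPGroup p S) (hSi : ¬ p ∣ S.index) :
    (Nat.card S).Coprime S.index := by
  obtain ⟨k, hk⟩ := IsPGroup.iff_card.mp hSp
  rw [hk]
  exact Nat.Coprime.pow_left k ((Nat.Prime.coprime_iff_not_dvd Fact.out).mpr hSi)

/-- if `S` is a normal `p`-subgroup of `p'`-index with complement `Q`, and `Q` is nilpotent,
then `N_G(Q)` is nilpotent. -/
theorem normalizer_nilpotent {G : Type*} [Group G] [Finite G] (p : ℕ) [Fact p.Prime]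
    (S Q : Subgroup G) [hSn : S.Normal] (hSp : IsPGroup p S) (hQ : Subgroup.IsComplement' S Q)
    (hQnil : Group.IsNilpotent Q) : Group.IsNilpotent (Subgroup.normalizer (Q : Set G)) := by
  have hdisj : S ⊓ Q = ⊥ := hQ.disjoint.eq_bot
  have hQC : Q ≤ Subgroup.normalizer (Q : Set G) := Subgroup.le_normalizer
  have hTnil : Group.IsNilpotent (S ⊓ Subgroup.normalizer (Q : Set G) : Subgroup G) :=
    (hSp.to_le inf_le_left).isNilpotent
  have hcomm : ∀ (q : Q) (t : (S ⊓ Subgroup.normalizer (Q : Set G) : Subgroup G)),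
      Commute (q : G) (t : G) := by
    intro q t
    have ht := Subgroup.mem_inf.mp t.2
    have h1 : (t : G) * q * (t : G)⁻¹ * (q : G)⁻¹ ∈ S ⊓ Q := by
      refine Subgroup.mem_inf.mpr ⟨?_, ?_⟩
      · have : (q : G) * (t : G)⁻¹ * (q : G)⁻¹ ∈ S := hSn.conj_mem _ (S.inv_mem ht.1) q
        have h2 := S.mul_mem ht.1 this
        have e : (t : G) * q * (t : G)⁻¹ * (q : G)⁻¹
            = (t : G) * ((q : G) * (t : G)⁻¹ * (q : G)⁻¹) := by group
        rw [e]; exact h2
      · have : (t : G) * q * (t : G)⁻¹ ∈ Q := (Subgroup.mem_normalizer_iff.mp ht.2 q).mp q.2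
        exact Q.mul_mem this (Q.inv_mem q.2)
    rw [hdisj, Subgroup.mem_bot] at h1
    show (q : G) * t = t * q
    have e : (t : G) * q = (t : G) * q * (t : G)⁻¹ * (q : G)⁻¹ * (q * t) := by group
    rw [e, h1, one_mul]
  let φ : Q × (S ⊓ Subgroup.normalizer (Q : Set G) : Subgroup G) →* G :=
    MonoidHom.noncommCoprod Q.subtype (S ⊓ Subgroup.normalizer (Q : Set G) : Subgroup G).subtype
      hcomm
  have hφC : ∀ x, φ x ∈ Subgroup.normalizer (Q : Set G) := fun x =>
    Subgroup.mul_mem _ (hQC x.1.2) (Subgroup.mem_inf.mp x.2.2).2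
  have hsurj : Function.Surjective (φ.codRestrict (Subgroup.normalizer (Q : Set G)) hφC) := by
    rintro ⟨c, hc⟩
    obtain ⟨⟨⟨s, hs⟩, ⟨q, hq⟩⟩, hsq⟩ := hQ.2 c
    simp only at hsq
    have hsC : s ∈ Subgroup.normalizer (Q : Set G) := by
      have : s = c * q⁻¹ := by rw [← hsq]; group
      rw [this]; exact Subgroup.mul_mem _ hc (Subgroup.inv_mem _ (hQC hq))
    refine ⟨(⟨q, hq⟩, ⟨s, Subgroup.mem_inf.mpr ⟨hs, hsC⟩⟩), ?_⟩
    apply Subtype.ext
    show q * s = c
    rw [← hsq]
    exact (hcomm ⟨q, hq⟩ ⟨s, Subgroup.mem_inf.mpr ⟨hs, hsC⟩⟩)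
  exact Group.nilpotent_of_surjective _ hsurj

theorem exists_carter_of_nilpotent_quot {G : Type*} [Group G] [Finite G] (p : ℕ) [Fact p.Prime]
    (A : Subgroup G) [A.Normal] (hA : IsPGroup p A) [Group.IsNilpotent (G ⧸ A)] :
    ∃ C : Subgroup G, IsCarter C := by
  obtain ⟨S, hSn, hAS, hSp, hSi⟩ := exists_normal_sylow p A hA
  haveI := hSn
  have hcop : (Nat.card S).Coprime S.index := coprime_of_pgroup p hSp hSi
  obtain ⟨Q, hQ⟩ := Subgroup.exists_right_complement'_of_coprime hcop
  have hdisj : S ⊓ Q = ⊥ := hQ.disjoint.eq_bot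
  have hQidx : Q.index = Nat.card S := hQ.index_eq_card
  have hQhall : (Nat.card Q).Coprime Q.index := by
    rw [hQidx, ← hQ.symm.index_eq_card]; exact hcop.symm
  have hQnil : Group.IsNilpotent Q := by
    apply nilpotent_of_injective ((QuotientGroup.mk' A).comp Q.subtype)
    rw [injective_iff_map_eq_one]
    intro q hq
    have h1 : (q : G) ∈ A := (QuotientGroup.eq_one_iff (q : G)).mp hq
    have h2 : (q : G) ∈ S ⊓ Q := Subgroup.mem_inf.mpr ⟨hAS h1, q.2⟩
    rw [hdisj, Subgroup.mem_bot] at h2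
    exact Subtype.ext h2
  exact ⟨Subgroup.normalizer (Q : Set G), normalizer_nilpotent p S Q hSp hQ hQnil,
    hall_normalizer_self Q hQhall⟩

theorem exists_carter_of_proper {G : Type u} [Group G] [Finite G] [Group.IsSolvable G]
    (IH : ∀ (H : Type u) [Group H] [Finite H] [Group.IsSolvable H],
      Nat.card H < Nat.card G → (∃ C : Subgroup H, IsCarter C) ∧ ConjProp H)
    (A : Subgroup G) [A.Normal] (K' : Subgroup (G ⧸ A)) (hK' : IsCarter K') (hne : K' ≠ ⊤) :
    ∃ C : Subgroup G, IsCarter C := by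
  have hsur : Function.Surjective (QuotientGroup.mk' A) := QuotientGroup.mk'_surjective A
  obtain ⟨K, hKdef⟩ : ∃ K : Subgroup G, K = K'.comap (QuotientGroup.mk' A) := ⟨_, rfl⟩
  have hKmap : K.map (QuotientGroup.mk' A) = K' := by
    rw [hKdef]; exact Subgroup.map_comap_eq_self_of_surjective hsur K'
  have hKne : K ≠ ⊤ := by
    intro h
    apply hne
    rw [← hKmap, h, Subgroup.map_top_of_surjective _ hsur]
  have hAK : A ≤ K := by
    intro a ha
    rw [hKdef, Subgroup.mem_comap]
    have : QuotientGroup.mk' A a = 1 := (QuotientGroup.eq_one_iff a).mpr ha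
    rw [this]; exact Subgroup.one_mem _
  have hlt := Cfsg.Agent.S0001.card_lt_of_ne_top hKne
  obtain ⟨C₀, hC₀⟩ := (IH K hlt).1
  have IHK : ∀ (H : Type u) [Group H] [Finite H] [Group.IsSolvable H],
      Nat.card H < Nat.card K → ConjProp H :=
    fun H _ _ _ h => (IH H (h.trans hlt)).2
  haveI : (A.subgroupOf K).Normal := inferInstance
  have hn := normalizer_sup IHK hC₀ (A.subgroupOf K)
  have hcm := carter_map hC₀ (A.subgroupOf K) hn
  have hnilK' : Group.IsNilpotent K' := hK'.1
  have hmemK' : ∀ k : K, QuotientGroup.mk' A (k : G) ∈ K' := by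
    intro k
    have h := k.2
    have h2 : (k : G) ∈ K'.comap (QuotientGroup.mk' A) := by rw [← hKdef]; exact h
    exact h2
  have hnil : Group.IsNilpotent (K ⧸ A.subgroupOf K) := by
    let f0 : K →* K' := ((QuotientGroup.mk' A).comp K.subtype).codRestrict K' hmemK'
    let f : K ⧸ A.subgroupOf K →* K' := QuotientGroup.lift (A.subgroupOf K) f0 (by
      intro k hk
      apply Subtype.ext
      exact (QuotientGroup.eq_one_iff (k : G)).mpr (Subgroup.mem_subgroupOf.mp hk))
    apply nilpotent_of_injective f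
    rw [injective_iff_map_eq_one]
    intro x
    induction x using QuotientGroup.induction_on with
    | _ k =>
      intro hx
      have h1 : f0 k = 1 := hx
      have h2 : (QuotientGroup.mk' A) (k : G) = 1 := congrArg Subtype.val h1
      exact (QuotientGroup.eq_one_iff k).mpr
        (Subgroup.mem_subgroupOf.mpr ((QuotientGroup.eq_one_iff (k : G)).mp h2))
  have htop := carter_eq_top hcm
  have hsupK : C₀ ⊔ A.subgroupOf K = ⊤ := by
    have := congrArg (Subgroup.comap (QuotientGroup.mk' (A.subgroupOf K))) htop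
    rwa [Subgroup.comap_map_eq, QuotientGroup.ker_mk', Subgroup.comap_top] at this
  have hCK : C₀.map K.subtype ≤ K := Subgroup.map_subtype_le C₀
  have hCsub : (C₀.map K.subtype).subgroupOf K = C₀ :=
    Subgroup.comap_map_eq_self_of_injective K.subtype_injective C₀
  have hsup : C₀.map K.subtype ⊔ A = K := by
    have := congrArg (Subgroup.map K.subtype) hsupK
    rw [Subgroup.map_sup, Subgroup.subgroupOf_map_subtype, ← MonoidHom.range_eq_map,
      Subgroup.range_subtype, inf_of_le_left hAK] at this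
    exact this
  refine ⟨C₀.map K.subtype, ?_, ?_⟩
  · have := hC₀.1
    exact Group.nilpotent_of_mulEquiv (C₀.equivMapOfInjective K.subtype K.subtype_injective)
  · apply le_antisymm _ Subgroup.le_normalizer
    intro g hg
    have hgC := smul_eq_of_mem_normalizer hg
    have hgK : MulAut.conj g • K = K := by
      conv_lhs => rw [← hsup]
      rw [Subgroup.smul_sup, hgC, Subgroup.Normal.conj_smul_eq_self, hsup]
    have hgK' : QuotientGroup.mk' A g ∈ Subgroup.normalizer (K' : Set (G ⧸ A)) := by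
      have h1 := mem_normalizer_of_smul_eq hgK
      have h2 := Subgroup.le_normalizer_map (QuotientGroup.mk' A) (Subgroup.mem_map_of_mem _ h1)
      rwa [hKmap] at h2
    rw [hK'.2] at hgK'
    have hgKmem : g ∈ K := by rw [hKdef, Subgroup.mem_comap]; exact hgK'
    have h3 : (⟨g, hgKmem⟩ : K) ∈ (Subgroup.normalizer ((C₀.map K.subtype : Subgroup G) : Set G)).subgroupOf K :=
      Subgroup.mem_subgroupOf.mpr hg
    rw [Subgroup.subgroupOf_normalizer_eq hCK, hCsub, hC₀.2] at h3
    exact ⟨⟨g, hgKmem⟩, h3, rfl⟩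

/-- a nontrivial normal subgroup of a `p`-group meets its centre -/
theorem exists_central {G : Type*} [Group G] [Finite G] (p : ℕ) [Fact p.Prime]
    (S A : Subgroup G) [A.Normal] (hSp : IsPGroup p S) (hAS : A ≤ S) (hA : A ≠ ⊥) :
    ∃ a ∈ A, a ≠ 1 ∧ ∀ s ∈ S, s * a = a * s := by
  have hSn : S ≤ Subgroup.normalizer (A : Set G) := by
    rw [Subgroup.normalizer_eq_top_iff.mpr inferInstance]; exact le_top
  letI := Cfsg.Agent.S0023.conjAction A S hSn
  have hpA : p ∣ Nat.card A := by
    obtain ⟨k, hk⟩ := IsPGroup.iff_card.mp (hSp.to_le hAS)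
    have hk0 : k ≠ 0 := by
      rintro rfl
      rw [pow_zero] at hk
      exact hA (Subgroup.eq_bot_of_card_eq A hk)
    rw [hk]; exact dvd_pow_self p hk0
  have h1 : (1 : A) ∈ MulAction.fixedPoints S A := by
    intro s
    apply Subtype.ext
    rw [Cfsg.Agent.S0023.coe_conjAction_smul]
    simp
  obtain ⟨b, hb, hne⟩ := hSp.exists_fixed_point_of_prime_dvd_card_of_fixed_point A hpA h1
  refine ⟨b, b.2, ?_, ?_⟩
  · intro h; exact hne (Subtype.ext h.symm)
  · intro s hs
    have := congrArg Subtype.val (hb ⟨s, hs⟩)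
    rw [Cfsg.Agent.S0023.coe_conjAction_smul] at this
    calc s * b = s * b * s⁻¹ * s := by group
      _ = b * s := by rw [this]

/-- Hall subgroups of a nilpotent group are normal -/
theorem hall_normal_of_nilpotent {C : Type*} [Group C] [Finite C] [Group.IsNilpotent C]
    (Q : Subgroup C) (hQ : (Nat.card Q).Coprime Q.index) : Q.Normal := by
  have h1 := hall_normalizer_self Q hQ
  have h2 := normalizerCondition_iff_only_full_group_self_normalizing.mp
    Group.normalizerCondition_of_isNilpotent _ h1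
  exact Subgroup.normalizer_eq_top_iff.mp h2

theorem exists_hall_in_carter {G : Type*} [Group G] [Finite G] (p : ℕ) [Fact p.Prime]
    (S : Subgroup G) [hSn : S.Normal] (hSp : IsPGroup p S) (hSi : ¬ p ∣ S.index)
    (C : Subgroup G) (hCnil : Group.IsNilpotent C) (hSC : S ⊔ C = ⊤) :
    ∃ Q : Subgroup G, Q ≤ C ∧ Subgroup.IsComplement' S Q ∧ C ≤ Subgroup.normalizer (Q : Set G) := by
  haveI : (S.subgroupOf C).Normal := inferInstance
  have hS₁p : IsPGroup p (S.subgroupOf C) := hSp.comap_subtype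
  have hrel : S.relIndex C = S.index := by
    rw [← Subgroup.relIndex_sup_left, hSC, Subgroup.relIndex_top_right]
  have hS₁i : ¬ p ∣ (S.subgroupOf C).index := by
    intro h
    apply hSi
    rw [← hrel]; exact h
  have hcop₁ := coprime_of_pgroup p hS₁p hS₁i
  obtain ⟨Q₀, hQ₀⟩ := Subgroup.exists_right_complement'_of_coprime hcop₁
  have hQ₀hall : (Nat.card Q₀).Coprime Q₀.index := by
    rw [hQ₀.index_eq_card, ← hQ₀.symm.index_eq_card]; exact hcop₁.symm
  have hQ₀n : Q₀.Normal := hall_normal_of_nilpotent Q₀ hQ₀hall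
  have hQC : Q₀.map C.subtype ≤ C := Subgroup.map_subtype_le Q₀
  have hQsub : (Q₀.map C.subtype).subgroupOf C = Q₀ :=
    Subgroup.comap_map_eq_self_of_injective C.subtype_injective Q₀
  refine ⟨Q₀.map C.subtype, hQC, ?_, ?_⟩
  · have hcard : Nat.card (Q₀.map C.subtype) = S.index := by
      rw [← hrel]
      have e1 : Nat.card (Q₀.map C.subtype) = Nat.card Q₀ :=
        (Nat.card_congr (Q₀.equivMapOfInjective C.subtype C.subtype_injective).toEquiv).symm
      rw [e1]
      exact hQ₀.symm.index_eq_card.symm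
    apply Subgroup.isComplement'_of_coprime
    · rw [hcard]; exact S.card_mul_index
    · rw [hcard]; exact coprime_of_pgroup p hSp hSi
  · rw [← Subgroup.normal_subgroupOf_iff_le_normalizer hQC, hQsub]
    exact hQ₀n

theorem conj_le_normalizer {G : Type*} [Group G] {C Q : Subgroup G}
    (h : C ≤ Subgroup.normalizer (Q : Set G)) (g : G) :
    MulAut.conj g • C ≤ Subgroup.normalizer ((MulAut.conj g • Q : Subgroup G) : Set G) := by
  intro x hx
  rw [Subgroup.mem_pointwise_smul_iff_inv_smul_mem] at hx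
  simp only [MulAut.smul_def, MulAut.conj_inv_apply] at hx
  have h1 := smul_eq_of_mem_normalizer (h hx)
  apply mem_normalizer_of_smul_eq
  have e : x * g = g * (g⁻¹ * x * g) := by group
  rw [← conj_mul_smul, e, conj_mul_smul, h1]

theorem conj_of_sup_top {G : Type u} [Group G] [Finite G] [Group.IsSolvable G]
    (IH : ∀ (H : Type u) [Group H] [Finite H] [Group.IsSolvable H],
      Nat.card H < Nat.card G → ConjProp H)
    (p : ℕ) [Fact p.Prime] (A : Subgroup G) [A.Normal] (hA0 : A ≠ ⊥) (hAp : IsPGroup p A)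
    (hAcomm : ∀ x ∈ A, ∀ y ∈ A, x * y = y * x)
    (hmin : ∀ M : Subgroup G, M.Normal → M ≤ A → M = ⊥ ∨ M = A)
    (C D : Subgroup G) (hC : IsCarter C) (hD : IsCarter D) (hCA : C ⊔ A = ⊤) (hDA : D ⊔ A = ⊤) :
    ∃ g : G, MulAut.conj g • C = D := by
  have hnorm : ∀ X : Subgroup G, X ⊔ A = ⊤ → (A ⊓ X).Normal := by
    intro X hX
    constructor
    intro n hn g
    have hg : g ∈ ((X ⊔ A : Subgroup G) : Set G) := by rw [hX]; trivial
    rw [Subgroup.mul_normal] at hg
    obtain ⟨x, hx, a, ha, rfl⟩ := hg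
    have hn' := Subgroup.mem_inf.mp hn
    have e : x * a * n * (x * a)⁻¹ = x * n * x⁻¹ := by
      have := hAcomm a ha n hn'.1
      calc x * a * n * (x * a)⁻¹ = x * (a * n) * a⁻¹ * x⁻¹ := by group
        _ = x * (n * a) * a⁻¹ * x⁻¹ := by rw [this]
        _ = x * n * x⁻¹ := by group
    rw [e]
    exact Subgroup.mem_inf.mpr ⟨Subgroup.Normal.conj_mem inferInstance n hn'.1 x,
      X.mul_mem (X.mul_mem hx hn'.2) (X.inv_mem hx)⟩
  have htopcase : ∀ X Y : Subgroup G, IsCarter X → IsCarter Y → X ⊔ A = ⊤ → A ⊓ X = A →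
      X = Y := by
    intro X Y hX hY hXA h
    have hAX : A ≤ X := inf_eq_left.mp h
    have hXtop : X = ⊤ := by rw [← hXA]; exact (sup_eq_left.mpr hAX).symm
    subst hXtop
    haveI := nilpotent_of_top hX.1
    exact (carter_eq_top hY).symm
  rcases hmin (A ⊓ C) (hnorm C hCA) inf_le_left with hAC | hAC
  swap
  · exact ⟨1, by rw [map_one, one_smul]; exact htopcase C D hC hD hCA hAC⟩
  rcases hmin (A ⊓ D) (hnorm D hDA) inf_le_left with hAD | hAD
  swap
  · exact ⟨1, by rw [map_one, one_smul]; exact (htopcase D C hD hC hDA hAD).symm⟩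
  haveI hGA : Group.IsNilpotent (G ⧸ A) := by
    have := hC.1
    apply Group.nilpotent_of_surjective ((QuotientGroup.mk' A).comp C.subtype)
    intro x
    obtain ⟨g, rfl⟩ := QuotientGroup.mk'_surjective A x
    have hg : g ∈ ((C ⊔ A : Subgroup G) : Set G) := by rw [hCA]; trivial
    rw [Subgroup.mul_normal] at hg
    obtain ⟨c, hc, a, ha, rfl⟩ := hg
    refine ⟨⟨c, hc⟩, ?_⟩
    show QuotientGroup.mk' A c = QuotientGroup.mk' A (c * a)
    have ha1 : QuotientGroup.mk' A a = 1 := (QuotientGroup.eq_one_iff a).mpr ha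
    rw [map_mul, ha1, mul_one]
  obtain ⟨S, hSn, hAS, hSp, hSi⟩ := exists_normal_sylow p A hAp
  haveI := hSn
  have hSC : S ⊔ C = ⊤ := by
    rw [eq_top_iff, ← hCA]; exact sup_le le_sup_right (hAS.trans le_sup_left)
  have hSD : S ⊔ D = ⊤ := by
    rw [eq_top_iff, ← hDA]; exact sup_le le_sup_right (hAS.trans le_sup_left)
  obtain ⟨Q₁, hQ₁C, hQ₁, hCQ₁⟩ := exists_hall_in_carter p S hSp hSi C hC.1 hSC
  obtain ⟨Q, hQD, hQ, hDQ⟩ := exists_hall_in_carter p S hSp hSi D hD.1 hSD
  have hcop : (Nat.card S).Coprime (Nat.card Q₁) := by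
    rw [← hQ₁.symm.index_eq_card]; exact coprime_of_pgroup p hSp hSi
  have hSsolv : Group.IsSolvable S := inferInstance
  obtain ⟨h, hh⟩ := Cfsg.Agent.S0001.sz_conj S Q₁ Q hQ₁ hQ hcop (Or.inl hSsolv)
  have hC₂ := carter_conj hC h
  have hC₂Q : MulAut.conj h • C ≤ Subgroup.normalizer (Q : Set G) := by
    rw [← hh]; exact conj_le_normalizer hCQ₁ h
  by_cases hN : Subgroup.normalizer (Q : Set G) = ⊤
  · exfalso
    have hQn : Q.Normal := Subgroup.normalizer_eq_top_iff.mp hN
    obtain ⟨a, haA, ha1, hacomm⟩ := exists_central p S A hSp hAS hA0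
    have hdisj : S ⊓ Q = ⊥ := hQ.disjoint.eq_bot
    have haQ : ∀ q ∈ Q, q * a = a * q := by
      intro q hq
      have h1 : q * a * q⁻¹ * a⁻¹ ∈ S ⊓ Q := by
        refine Subgroup.mem_inf.mpr ⟨?_, ?_⟩
        · exact S.mul_mem (hSn.conj_mem a (hAS haA) q) (S.inv_mem (hAS haA))
        · have : a * q⁻¹ * a⁻¹ ∈ Q := hQn.conj_mem _ (Q.inv_mem hq) a
          have e : q * a * q⁻¹ * a⁻¹ = q * (a * q⁻¹ * a⁻¹) := by group
          rw [e]; exact Q.mul_mem hq this
      rw [hdisj, Subgroup.mem_bot] at h1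
      have e : q * a = q * a * q⁻¹ * a⁻¹ * (a * q) := by group
      rw [e, h1, one_mul]
    have haD : ∀ d ∈ D, d * a = a * d := by
      intro d hd
      obtain ⟨⟨⟨s, hs⟩, ⟨q, hq⟩⟩, hsq⟩ := hQ.2 d
      simp only at hsq
      rw [← hsq, mul_assoc, haQ q hq, ← mul_assoc, hacomm s hs, mul_assoc]
    have haN : a ∈ Subgroup.normalizer (D : Set G) := by
      apply Cfsg.Agent.S0026.mem_normalizer_of_conj_mem
      · intro d hd
        rw [← haD d hd, mul_inv_cancel_right]; exact hd
      · intro d hd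
        rw [mul_assoc, haD d hd, inv_mul_cancel_left]; exact hd
    rw [hD.2] at haN
    have : a ∈ A ⊓ D := Subgroup.mem_inf.mpr ⟨haA, haN⟩
    rw [hAD, Subgroup.mem_bot] at this
    exact ha1 this
  · have hlt := Cfsg.Agent.S0001.card_lt_of_ne_top hN
    obtain ⟨m, hm⟩ := IH (Subgroup.normalizer (Q : Set G)) hlt _ _
      (carter_subgroupOf hC₂ hC₂Q) (carter_subgroupOf hD hDQ)
    have := Cfsg.Agent.S0001.conj_of_subgroupOf m hC₂Q hDQ hm
    exact ⟨(m : G) * h, by rw [conj_mul_smul]; exact this⟩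

theorem main (n : ℕ) : ∀ (G : Type u) [Group G] [Finite G] [Group.IsSolvable G],
    Nat.card G = n → (∃ C : Subgroup G, IsCarter C) ∧ ConjProp G := by
  induction n using Nat.strong_induction_on with
  | _ n ih =>
  intro G _ _ _ hn
  have IH : ∀ (H : Type u) [Group H] [Finite H] [Group.IsSolvable H],
      Nat.card H < Nat.card G → (∃ C : Subgroup H, IsCarter C) ∧ ConjProp H := by
    intro H _ _ _ h
    exact ih (Nat.card H) (hn ▸ h) H rfl
  have IHc : ∀ (H : Type u) [Group H] [Finite H] [Group.IsSolvable H],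
      Nat.card H < Nat.card G → ConjProp H := fun H _ _ _ h => (IH H h).2
  by_cases hnil : Group.IsNilpotent G
  · haveI := hnil
    refine ⟨⟨⊤, carter_top⟩, ?_⟩
    intro C D hC hD
    exact ⟨1, by rw [map_one, one_smul, carter_eq_top hC, carter_eq_top hD]⟩
  have hnt : Nontrivial G := by
    by_contra h
    rw [not_nontrivial_iff_subsingleton] at h
    exact hnil inferInstance
  obtain ⟨A, hAn, hA0, hmin⟩ := Cfsg.Agent.S0006.exists_min_normal G
  haveI := hAn
  obtain ⟨hAc, p, hp, hexp⟩ := Cfsg.Agent.S0043.result A hA0 hmin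
  haveI : Fact p.Prime := ⟨hp⟩
  have hAp : IsPGroup p A := by
    intro a
    refine ⟨1, ?_⟩
    rw [pow_one]
    exact Subtype.ext (hexp a a.2)
  have hAcomm : ∀ x ∈ A, ∀ y ∈ A, x * y = y * x := by
    intro x hx y hy
    exact setLike_mul_comm hx hy
  have hltq : Nat.card (G ⧸ A) < Nat.card G := by
    rw [← Subgroup.index_eq_card, ← A.index_mul_card]
    exact lt_mul_of_one_lt_right (Nat.pos_of_ne_zero Subgroup.index_ne_zero_of_finite)
      ((Subgroup.one_lt_card_iff_ne_bot _).mpr hA0)
  constructor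
  · obtain ⟨K', hK'⟩ := (IH (G ⧸ A) hltq).1
    by_cases hK'top : K' = ⊤
    · subst hK'top
      haveI := nilpotent_of_top hK'.1
      exact exists_carter_of_nilpotent_quot p A hAp
    · exact exists_carter_of_proper IH A K' hK' hK'top
  · intro C D hC hD
    have hCm := carter_map hC A (normalizer_sup IHc hC A)
    have hDm := carter_map hD A (normalizer_sup IHc hD A)
    obtain ⟨x, hx⟩ := (IH (G ⧸ A) hltq).2 _ _ hCm hDm
    obtain ⟨g, rfl⟩ := QuotientGroup.mk'_surjective A x
    rw [← Cfsg.Agent.S0001.map_conj_smul] at hx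
    have hsup : MulAut.conj g • C ⊔ A = D ⊔ A := by
      have := congrArg (Subgroup.comap (QuotientGroup.mk' A)) hx
      rwa [Subgroup.comap_map_eq, Subgroup.comap_map_eq, QuotientGroup.ker_mk'] at this
    have hC' := carter_conj hC g
    by_cases htop : D ⊔ A = ⊤
    · obtain ⟨m, hm⟩ := conj_of_sup_top IHc p A hA0 hAp hAcomm hmin _ D hC' hD
        (hsup.trans htop) htop
      exact ⟨m * g, by rw [conj_mul_smul]; exact hm⟩
    · have hlt := Cfsg.Agent.S0001.card_lt_of_ne_top htop
      have h1 : MulAut.conj g • C ≤ D ⊔ A := hsup ▸ le_sup_left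
      have h2 : D ≤ D ⊔ A := le_sup_left
      obtain ⟨m, hm⟩ := IHc (D ⊔ A : Subgroup G) hlt _ _ (carter_subgroupOf hC' h1)
        (carter_subgroupOf hD h2)
      have := Cfsg.Agent.S0001.conj_of_subgroupOf m h1 h2 hm
      exact ⟨(m : G) * g, by rw [conj_mul_smul]; exact this⟩

/-- Carter subgroups: a finite solvable group contains a nilpotent subgroup equal to its own normaliser, and all such subgroups are conjugate. -/
theorem result {G : Type*} [Group G] [Finite G] [Group.IsSolvable G] :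
    (∃ C : Subgroup G, Group.IsNilpotent C ∧ Subgroup.normalizer (C : Set G) = C) ∧
    ∀ C D : Subgroup G, Group.IsNilpotent C → Subgroup.normalizer (C : Set G) = C →
      Group.IsNilpotent D → Subgroup.normalizer (D : Set G) = D → ∃ g : G, MulAut.conj g • C = D := by
  obtain ⟨hex, hconj⟩ := main (Nat.card G) G rfl
  exact ⟨hex, fun C D h1 h2 h3 h4 => hconj C D ⟨h1, h2⟩ ⟨h3, h4⟩⟩

end Cfsg.Agent.S0045
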