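import Mathlib
import Cfsg.Statements.S0047
-- import your own Cfsg.Agent.* helpers here

set_option autoImplicit false
open Cfsg

namespace Cfsg.Agent.S0047

/-- plain commutator of two elements -/
def cm {G : Type*} [Group G] (x y : G) : G := x * y * x⁻¹ * y⁻¹

theorem conj_cm {G : Type*} [Group G] (g x y : G) :
    g * cm x y * g⁻¹ = cm (g * x * g⁻¹) (g * y * g⁻¹) := by
  unfold cm; group

theorem cm_mul_left {G : Type*} [Group G] (x y z : G) :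
    cm (x * y) z = x * cm y z * x⁻¹ * cm x z := by
  unfold cm; group

theorem cm_mul_right {G : Type*} [Group G] (x y z : G) :
    cm x (y * z) = cm x y * (y * cm x z * y⁻¹) := by
  unfold cm; group

theorem cm_eq_one {G : Type*} [Group G] (x y : G) (h : x * y = y * x) : cm x y = 1 := by
  unfold cm; rw [h]; group

theorem cm_inv {G : Type*} [Group G] (x y : G) : (cm x y)⁻¹ = cm y x := by
  unfold cm; group

theorem conj_eq_of_comm {G : Type*} [Group G] (x y : G) (h : x * y = y * x) : x * y * x⁻¹ = y := by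
  rw [h]; group

theorem key {G : Type*} [Group G] (A B : Subgroup G)
    (hA : ∀ x ∈ A, ∀ y ∈ A, x * y = y * x) (hB : ∀ x ∈ B, ∀ y ∈ B, x * y = y * x)
    (hAB : ∀ g : G, ∃ a ∈ A, ∃ b ∈ B, g = a * b)
    (a a₁ b b₁ : G) (ha : a ∈ A) (ha₁ : a₁ ∈ A) (hb : b ∈ B) (hb₁ : b₁ ∈ B) :
    (a₁ * b₁) * cm a b * (a₁ * b₁)⁻¹ = (b₁ * a₁) * cm a b * (b₁ * a₁)⁻¹ := by
  obtain ⟨a₃, ha₃, b₃, hb₃, h1⟩ := hAB (b₁ * a * b₁⁻¹)
  obtain ⟨a₂', ha₂', b₂', hb₂', h2'⟩ := hAB (a₁ * b * a₁⁻¹)⁻¹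
  have h2 : a₁ * b * a₁⁻¹ = b₂'⁻¹ * a₂'⁻¹ := by
    rw [← mul_inv_rev, ← h2', inv_inv]
  have hb₂ : b₂'⁻¹ ∈ B := B.inv_mem hb₂'
  have ha₂ : a₂'⁻¹ ∈ A := A.inv_mem ha₂'
  have e1 : b₁ * cm a b * b₁⁻¹ = cm a₃ b := by
    rw [conj_cm, h1, conj_eq_of_comm b₁ b (hB _ hb₁ _ hb), cm_mul_left,
      cm_eq_one b₃ b (hB _ hb₃ _ hb)]
    group
  have e2 : a₁ * cm a₃ b * a₁⁻¹ = cm a₃ b₂'⁻¹ := by
    rw [conj_cm, h2, conj_eq_of_comm a₁ a₃ (hA _ ha₁ _ ha₃), cm_mul_right,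
      cm_eq_one a₃ a₂'⁻¹ (hA _ ha₃ _ ha₂)]
    group
  have e3 : a₁ * cm a b * a₁⁻¹ = cm a b₂'⁻¹ := by
    rw [conj_cm, h2, conj_eq_of_comm a₁ a (hA _ ha₁ _ ha), cm_mul_right,
      cm_eq_one a a₂'⁻¹ (hA _ ha _ ha₂)]
    group
  have e4 : b₁ * cm a b₂'⁻¹ * b₁⁻¹ = cm a₃ b₂'⁻¹ := by
    rw [conj_cm, h1, conj_eq_of_comm b₁ b₂'⁻¹ (hB _ hb₁ _ hb₂), cm_mul_left,
      cm_eq_one b₃ b₂'⁻¹ (hB _ hb₃ _ hb₂)]
    group
  calc (a₁ * b₁) * cm a b * (a₁ * b₁)⁻¹ = a₁ * (b₁ * cm a b * b₁⁻¹) * a₁⁻¹ := by group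
    _ = cm a₃ b₂'⁻¹ := by rw [e1, e2]
    _ = b₁ * (a₁ * cm a b * a₁⁻¹) * b₁⁻¹ := by rw [e3, e4]
    _ = (b₁ * a₁) * cm a b * (b₁ * a₁)⁻¹ := by group

theorem cm_comm {G : Type*} [Group G] (A B : Subgroup G)
    (hA : ∀ x ∈ A, ∀ y ∈ A, x * y = y * x) (hB : ∀ x ∈ B, ∀ y ∈ B, x * y = y * x)
    (hAB : ∀ g : G, ∃ a ∈ A, ∃ b ∈ B, g = a * b)
    (a a₁ b b₁ : G) (ha : a ∈ A) (ha₁ : a₁ ∈ A) (hb : b ∈ B) (hb₁ : b₁ ∈ B) :
    cm a₁ b₁ * cm a b = cm a b * cm a₁ b₁ := by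
  have h := key A B hA hB hAB a a₁⁻¹ b b₁⁻¹ ha (A.inv_mem ha₁) hb (B.inv_mem hb₁)
  have h' : cm a₁ b₁ * cm a b * (cm a₁ b₁)⁻¹ = cm a b := by
    calc cm a₁ b₁ * cm a b * (cm a₁ b₁)⁻¹
        = (b₁⁻¹ * a₁⁻¹)⁻¹ * ((a₁⁻¹ * b₁⁻¹) * cm a b * (a₁⁻¹ * b₁⁻¹)⁻¹) * (b₁⁻¹ * a₁⁻¹) := by
          unfold cm; group
      _ = (b₁⁻¹ * a₁⁻¹)⁻¹ * ((b₁⁻¹ * a₁⁻¹) * cm a b * (b₁⁻¹ * a₁⁻¹)⁻¹) * (b₁⁻¹ * a₁⁻¹) := by rw [h]
      _ = cm a b := by group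
  calc cm a₁ b₁ * cm a b = (cm a₁ b₁ * cm a b * (cm a₁ b₁)⁻¹) * cm a₁ b₁ := by group
    _ = cm a b * cm a₁ b₁ := by rw [h']

/-- A finite group which is the product AB of two abelian subgroups A and B is solvable. -/
theorem result {G : Type*} [Group G] [Finite G] (A B : Subgroup G)
    [IsMulCommutative A] [IsMulCommutative B] (hAB : ∀ g : G, ∃ a ∈ A, ∃ b ∈ B, g = a * b) :
    Group.IsSolvable G := by
  have hA : ∀ x ∈ A, ∀ y ∈ A, x * y = y * x := by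
    intro x hx y hy
    have := mul_comm' (⟨x, hx⟩ : A) ⟨y, hy⟩
    exact congrArg Subtype.val this
  have hB : ∀ x ∈ B, ∀ y ∈ B, x * y = y * x := by
    intro x hx y hy
    have := mul_comm' (⟨x, hx⟩ : B) ⟨y, hy⟩
    exact congrArg Subtype.val this
  set S : Set G := {g | ∃ a ∈ A, ∃ b ∈ B, g = cm a b} with hS
  set C : Subgroup G := Subgroup.closure S with hC
  have hgen : ∀ a ∈ A, ∀ b ∈ B, cm a b ∈ C := fun a ha b hb =>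
    Subgroup.subset_closure ⟨a, ha, b, hb, rfl⟩
  -- C is abelian
  have hCcent : C ≤ Subgroup.centralizer (C : Set G) := by
    rw [hC, Subgroup.centralizer_closure, Subgroup.closure_le]
    rintro x ⟨a₁, ha₁, b₁, hb₁, rfl⟩
    rw [SetLike.mem_coe, Subgroup.mem_centralizer_iff]
    rintro y ⟨a, ha, b, hb, rfl⟩
    exact (cm_comm A B hA hB hAB a a₁ b b₁ ha ha₁ hb hb₁).symm
  -- C is normalised by A and by B
  have hCA : ∀ a₁ ∈ A, ∀ x ∈ C, a₁ * x * a₁⁻¹ ∈ C := by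
    intro a₁ ha₁ x hx
    induction hx using Subgroup.closure_induction with
    | mem x hx =>
      obtain ⟨a, ha, b, hb, rfl⟩ := hx
      have e : a₁ * cm a b * a₁⁻¹ = cm (a₁ * a) b * (cm a₁ b)⁻¹ := by
        rw [cm_mul_left]; group
      rw [e]
      exact C.mul_mem (hgen _ (A.mul_mem ha₁ ha) _ hb) (C.inv_mem (hgen _ ha₁ _ hb))
    | one => simp
    | mul x y _ _ hx hy =>
      have e : a₁ * (x * y) * a₁⁻¹ = (a₁ * x * a₁⁻¹) * (a₁ * y * a₁⁻¹) := by group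
      rw [e]; exact C.mul_mem hx hy
    | inv x _ hx =>
      have e : a₁ * x⁻¹ * a₁⁻¹ = (a₁ * x * a₁⁻¹)⁻¹ := by group
      rw [e]; exact C.inv_mem hx
  have hCB : ∀ b₁ ∈ B, ∀ x ∈ C, b₁ * x * b₁⁻¹ ∈ C := by
    intro b₁ hb₁ x hx
    induction hx using Subgroup.closure_induction with
    | mem x hx =>
      obtain ⟨a, ha, b, hb, rfl⟩ := hx
      have e : b₁ * cm a b * b₁⁻¹ = (cm a b₁)⁻¹ * cm a (b₁ * b) := by
        rw [cm_mul_right]; group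
      rw [e]
      exact C.mul_mem (C.inv_mem (hgen _ ha _ hb₁)) (hgen _ ha _ (B.mul_mem hb₁ hb))
    | one => simp
    | mul x y _ _ hx hy =>
      have e : b₁ * (x * y) * b₁⁻¹ = (b₁ * x * b₁⁻¹) * (b₁ * y * b₁⁻¹) := by group
      rw [e]; exact C.mul_mem hx hy
    | inv x _ hx =>
      have e : b₁ * x⁻¹ * b₁⁻¹ = (b₁ * x * b₁⁻¹)⁻¹ := by group
      rw [e]; exact C.inv_mem hx
  -- every commutator lies in C
  have hcomm : ∀ g₁ g₂ : G, cm g₁ g₂ ∈ C := by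
    intro g₁ g₂
    obtain ⟨a₁, ha₁, b₁, hb₁, rfl⟩ := hAB g₁
    obtain ⟨a₂, ha₂, b₂, hb₂, rfl⟩ := hAB g₂
    rw [cm_mul_left]
    have e1 : cm b₁ (a₂ * b₂) = (cm a₂ b₁)⁻¹ := by
      rw [cm_mul_right, cm_eq_one b₁ b₂ (hB _ hb₁ _ hb₂), cm_inv]; group
    have e2 : cm a₁ (a₂ * b₂) = a₂ * cm a₁ b₂ * a₂⁻¹ := by
      rw [cm_mul_right, cm_eq_one a₁ a₂ (hA _ ha₁ _ ha₂)]; group
    rw [e1, e2]
    exact C.mul_mem (hCA _ ha₁ _ (C.inv_mem (hgen _ ha₂ _ hb₁))) (hCA _ ha₂ _ (hgen _ ha₁ _ hb₂))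
  have hder : commutator G ≤ C := by
    rw [commutator_def, Subgroup.commutator_le]
    intro g₁ _ g₂ _
    exact hcomm g₁ g₂
  refine ⟨⟨2, ?_⟩⟩
  rw [derivedSeries_succ, derivedSeries_one, eq_bot_iff]
  calc ⁅commutator G, commutator G⁆ ≤ ⁅C, C⁆ := Subgroup.commutator_mono hder hder
    _ = ⊥ := Subgroup.commutator_eq_bot_iff_le_centralizer.mpr hCcent

end Cfsg.Agent.S0047
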