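import Mathlib
import Cfsg.Statements.S0048
import Cfsg.Agent.S0001
import Cfsg.Agent.S0006
import Cfsg.Agent.S0043

set_option autoImplicit false
open Cfsg

namespace Cfsg.Agent.S0048

universe u

/-- `|N L : L|` divides `|N|` for `N` normal -/
theorem relIndex_sup_dvd_card {Q : Type*} [Group Q] [Finite Q] (N L : Subgroup Q) [N.Normal] :
    L.relIndex (N ⊔ L) ∣ Nat.card N := by
  have cm : ∀ {H K : Subgroup Q}, H ≤ K → Nat.card H * H.relIndex K = Nat.card K := by
    intro H K hHK
    have := Subgroup.card_mul_index (H.subgroupOf K)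
    rwa [Cfsg.Agent.S0001.card_subgroupOf_of_le hHK] at this
  have hLD : L ≤ N ⊔ L := le_sup_right
  have e1 : Nat.card N * N.relIndex L = Nat.card (N ⊔ L : Subgroup Q) := by
    have := cm (le_sup_left : N ≤ N ⊔ L)
    rwa [Subgroup.relIndex_sup_left] at this
  have e2 : Nat.card L * L.relIndex (N ⊔ L) = Nat.card (N ⊔ L : Subgroup Q) := cm hLD
  have e3 : Nat.card (N ⊓ L : Subgroup Q) * N.relIndex L = Nat.card L := by
    have := cm (inf_le_right : N ⊓ L ≤ L)
    rwa [Subgroup.inf_relIndex_right] at this
  have hpos : 0 < N.relIndex L :=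
    Nat.pos_of_dvd_of_pos (Subgroup.relIndex_dvd_card N L) Nat.card_pos
  have e4 : Nat.card N * N.relIndex L
      = (Nat.card (N ⊓ L : Subgroup Q) * L.relIndex (N ⊔ L)) * N.relIndex L := by
    rw [e1, ← e2, ← e3]; ring
  have e5 := Nat.eq_of_mul_eq_mul_right hpos e4
  exact Dvd.intro_left _ e5.symm

theorem main : ∀ (n : ℕ) (G : Type u) [Group G] [Finite G] [Group.IsSolvable G], Nat.card G = n →
    ∀ M : Subgroup G, IsCoatom M → IsPrimePow M.index := by
  intro n
  induction n using Nat.strong_induction_on with
  | _ n ih =>
    intro G _ _ _ hn M hM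
    have hnt : Nontrivial G := by
      by_contra h
      rw [not_nontrivial_iff_subsingleton] at h
      exact hM.1 (Subsingleton.elim _ _)
    obtain ⟨N, hNn, hN0, hNmin⟩ := Cfsg.Agent.S0006.exists_min_normal G
    obtain ⟨-, p, hp, hNp⟩ := Cfsg.Agent.S0043.result N hN0 hNmin
    by_cases hNM : N ≤ M
    · have hcard : Nat.card (G ⧸ N) < n := by
        have h1 : N.index * Nat.card N = Nat.card G := Subgroup.index_mul_card _
        have h2 : 1 < Nat.card N := (Subgroup.one_lt_card_iff_ne_bot _).mpr hN0
        rw [← Subgroup.index_eq_card, ← hn, ← h1]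
        have h3 : 0 < N.index := Nat.pos_of_ne_zero Subgroup.index_ne_zero_of_finite
        nlinarith
      have hco : IsCoatom (M.map (QuotientGroup.mk' N)) := by
        constructor
        · intro htop
          apply hM.1
          have := congrArg (Subgroup.comap (QuotientGroup.mk' N)) htop
          rw [Subgroup.comap_map_eq, QuotientGroup.ker_mk', Subgroup.comap_top,
            sup_of_le_left hNM] at this
          exact this
        · intro L hL
          have h1 : M ≤ L.comap (QuotientGroup.mk' N) := by
            rw [← Subgroup.map_le_iff_le_comap]; exact hL.le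
          have h2 : M ≠ L.comap (QuotientGroup.mk' N) := by
            intro h
            apply hL.ne
            rw [h, Subgroup.map_comap_eq_self_of_surjective (QuotientGroup.mk'_surjective N)]
          have h3 := hM.2 _ (lt_of_le_of_ne h1 h2)
          rw [← Subgroup.map_comap_eq_self_of_surjective (QuotientGroup.mk'_surjective N) L, h3,
            Subgroup.map_top_of_surjective _ (QuotientGroup.mk'_surjective N)]
      have := ih _ hcard (G ⧸ N) rfl _ hco
      rwa [Subgroup.index_map_eq _ (QuotientGroup.mk'_surjective N)
        (by rw [QuotientGroup.ker_mk']; exact hNM)] at this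
    · have hsup : N ⊔ M = ⊤ := by
        apply hM.2
        exact lt_of_le_of_ne le_sup_right (fun h => hNM (h ▸ le_sup_left))
      have hd : M.index ∣ Nat.card N := by
        have := relIndex_sup_dvd_card N M
        rwa [hsup, Subgroup.relIndex_top_right] at this
      have hpg : IsPGroup p N := fun y => ⟨1, by rw [pow_one]; exact Subtype.ext (hNp y.1 y.2)⟩
      have hpf := Fact.mk hp
      obtain ⟨m, hm⟩ := IsPGroup.iff_card.mp hpg
      rw [hm] at hd
      obtain ⟨j, -, hj⟩ := (Nat.dvd_prime_pow hp).mp hd
      rw [hj]
      have hj0 : j ≠ 0 := by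
        rintro rfl
        rw [pow_zero] at hj
        exact hM.1 (Subgroup.index_eq_one.mp hj)
      exact (Nat.Prime.prime hp).isPrimePow.pow hj0

/-- In a finite solvable group every maximal subgroup has index a prime power. -/
theorem result {G : Type*} [Group G] [Finite G] [Group.IsSolvable G]
    (M : Subgroup G) (hM : IsCoatom M) : IsPrimePow M.index :=
  main (Nat.card G) G rfl M hM

end Cfsg.Agent.S0048
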