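import Cfsg.Statements.S0049
import Mathlib
-- import your own Cfsg.Agent.* helpers here

set_option autoImplicit false
open Cfsg

namespace Cfsg.Agent.S0049

/-- A prime divisor of the order of a finite group also divides the index of the Frattini subgroup. -/
theorem result {G : Type*} [Group G] [Finite G] (p : ℕ) (hp : p.Prime) (hdvd : p ∣ Nat.card G) :
    p ∣ (frattini G).index := by
  have : Fact p.Prime := ⟨hp⟩
  by_contra hnd
  obtain ⟨P'⟩ : Nonempty (Sylow p (frattini G)) := inferInstance
  set Q : Subgroup G := (P' : Subgroup (frattini G)).map (frattini G).subtype with hQ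
  have h1 : Subgroup.normalizer (Q : Set G) ⊔ frattini G = ⊤ := Sylow.normalizer_sup_eq_top P'
  have h2 : Subgroup.normalizer (Q : Set G) = ⊤ := frattini_nongenerating h1
  have hQn : Q.Normal := Subgroup.normalizer_eq_top_iff.mp h2
  have hQidx : Q.index = (P' : Subgroup (frattini G)).index * (frattini G).index :=
    Subgroup.index_map_subtype _
  have hpnd : ¬ p ∣ Q.index := by
    rw [hQidx, hp.dvd_mul]
    push Not
    exact ⟨P'.not_dvd_index, hnd⟩
  have hQp : IsPGroup p Q := P'.isPGroup'.map _
  have hcop : Nat.Coprime (Nat.card Q) Q.index := by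
    obtain ⟨n, hn⟩ := IsPGroup.iff_card.mp hQp
    rw [hn]
    exact Nat.Coprime.pow_left n ((Nat.Prime.coprime_iff_not_dvd hp).mpr hpnd)
  obtain ⟨H, hH⟩ := Subgroup.exists_right_complement'_of_coprime hcop
  have h3 : H ⊔ frattini G = ⊤ := by
    rw [eq_top_iff, ← hH.sup_eq_top]
    exact sup_le (le_sup_of_le_right (Subgroup.map_subtype_le _)) le_sup_left
  have h4 : H = ⊤ := frattini_nongenerating h3
  have h5 := hH.disjoint
  rw [h4, disjoint_top] at h5
  rw [h5, Subgroup.index_bot] at hpnd
  exact hpnd hdvd

end Cfsg.Agent.S0049
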