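import Cfsg.Statements.S0050
import Cfsg.Agent.Lib.Helper91.Hall

set_option autoImplicit false
open Cfsg

namespace Cfsg.Agent.S0050

open scoped Pointwise

/-- Frattini argument for Hall subgroups: if L is a solvable normal subgroup and H a subgroup of L of order coprime to its index in L, then L together with the normaliser of H generates the whole group. -/
theorem result {G : Type*} [Group G] [Finite G] (L : Subgroup G) [L.Normal] (hL : Group.IsSolvable L)
    (H : Subgroup G) (hHL : H ≤ L) (hHall : (Nat.card H).Coprime (H.relIndex L)) :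
    L ⊔ Subgroup.normalizer (H : Set G) = ⊤ := by
  rw [eq_top_iff]
  intro g _
  have hgL : MulAut.conj g • H ≤ L := by
    intro x hx
    rw [Cfsg.Agent.Lib.Helper91.Hall.mem_conj_smul] at hx
    have h1 := ‹L.Normal›.conj_mem _ (hHL hx) g
    have e : g * (g⁻¹ * x * g) * g⁻¹ = x := by group
    rw [e] at h1
    exact h1
  have hcard : Nat.card ↥L = Nat.card H * H.relIndex L := by
    have h1 := Subgroup.card_mul_index (H.subgroupOf L)
    rw [Cfsg.Agent.Lib.Helper91.Hall.card_subgroupOf_of_le H L hHL] at h1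
    exact h1.symm
  obtain ⟨l, hl⟩ := Cfsg.Agent.Lib.Helper91.Hall.hall_conj (G := ↥L) (Nat.card H) (H.relIndex L)
    hcard hHall ((MulAut.conj g • H).subgroupOf L) (H.subgroupOf L)
    (by rw [Cfsg.Agent.Lib.Helper91.Hall.card_subgroupOf_of_le _ L hgL,
      Cfsg.Agent.Lib.Helper91.Hall.card_conj_smul])
    (Cfsg.Agent.Lib.Helper91.Hall.card_subgroupOf_of_le H L hHL)
  have h2 := Cfsg.Agent.Lib.Helper91.Hall.conj_of_subgroupOf L (MulAut.conj g • H) H hgL hHL l hl
  have hnorm : (l : G) * g ∈ Subgroup.normalizer (H : Set G) := by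
    rw [Subgroup.mem_normalizer_iff]
    intro h
    have key : ∀ y : G, y ∈ H ↔ g⁻¹ * ((l : G)⁻¹ * y * (l : G)) * g ∈ H := by
      intro y
      rw [← Cfsg.Agent.Lib.Helper91.Hall.mem_conj_smul g, ← Cfsg.Agent.Lib.Helper91.Hall.mem_conj_smul (l : G), h2]
    rw [key ((l : G) * g * h * ((l : G) * g)⁻¹)]
    have e : g⁻¹ * ((l : G)⁻¹ * ((l : G) * g * h * ((l : G) * g)⁻¹) * (l : G)) * g = h := by group
    rw [e]
  have e : g = (l : G)⁻¹ * ((l : G) * g) := by group
  rw [e]
  exact Subgroup.mul_mem_sup (L.inv_mem l.2) hnorm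

end Cfsg.Agent.S0050
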