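import Mathlib
import Cfsg.Statements.S0052
import Cfsg.Agent.S0001
import Cfsg.Agent.S0051

set_option autoImplicit false
open Pointwise
open Cfsg

namespace Cfsg.Agent.S0052

open scoped IsMulCommutative
open Cfsg.Agent.S0051 (rep mk_rep)

section

variable {G : Type*} [Group G] (K H : Subgroup G) [hKn : K.Normal]

theorem exists_kpart (h : Subgroup.IsComplement' K H) (g : G) : ∃ κ : K, (κ : G)⁻¹ * g ∈ H := by
  obtain ⟨s, hs, -⟩ := Subgroup.isComplement_iff_existsUnique_inv_mul_mem.mp h g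
  exact ⟨s, hs⟩

/-- the `K`-part of `g` with respect to the complement `H` -/
noncomputable def kpart (h : Subgroup.IsComplement' K H) (g : G) : K :=
  Classical.choose (exists_kpart K H h g)

theorem kpart_spec (h : Subgroup.IsComplement' K H) (g : G) : (kpart K H h g : G)⁻¹ * g ∈ H :=
  Classical.choose_spec (exists_kpart K H h g)

theorem kpart_eq (h : Subgroup.IsComplement' K H) (g : G) (κ : K) (hκ : (κ : G)⁻¹ * g ∈ H) :
    kpart K H h g = κ := by
  have h0 := kpart_spec K H h g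
  have h1 : (kpart K H h g : G)⁻¹ * (κ : G) ∈ H := by
    have := H.mul_mem h0 (H.inv_mem hκ)
    have e : (kpart K H h g : G)⁻¹ * g * ((κ : G)⁻¹ * g)⁻¹ = (kpart K H h g : G)⁻¹ * (κ : G) := by
      group
    rwa [e] at this
  have h2 : (kpart K H h g : G)⁻¹ * (κ : G) ∈ K := K.mul_mem (K.inv_mem (kpart K H h g).2) κ.2
  have h3 : (kpart K H h g : G)⁻¹ * (κ : G) = 1 := Subgroup.disjoint_def.mp h.disjoint h2 h1
  exact Subtype.ext (inv_mul_eq_one.mp h3)

theorem kpart_coe (h : Subgroup.IsComplement' K H) (κ : K) : kpart K H h (κ : G) = κ :=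
  kpart_eq K H h _ κ (by rw [inv_mul_cancel]; exact H.one_mem)

theorem kpart_eq_one_iff (h : Subgroup.IsComplement' K H) (g : G) : kpart K H h g = 1 ↔ g ∈ H := by
  constructor
  · intro hg
    have := kpart_spec K H h g
    rw [hg, Subgroup.coe_one, inv_one, one_mul] at this
    exact this
  · intro hg
    apply kpart_eq
    rw [Subgroup.coe_one, inv_one, one_mul]; exact hg

variable [IsMulCommutative K]

theorem kpart_mul (h : Subgroup.IsComplement' K H) (g g' : G) :
    kpart K H h (g * g') = kpart K H h g * MulAut.conjNormal g (kpart K H h g') := by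
  apply kpart_eq
  have h1 := kpart_spec K H h g
  have h2 := kpart_spec K H h g'
  have e : ((kpart K H h g * MulAut.conjNormal g (kpart K H h g') : K) : G)⁻¹ * (g * g')
      = ((kpart K H h g : G)⁻¹ * g) * ((kpart K H h g' : G)⁻¹ * g') := by
    rw [mul_comm (kpart K H h g), Subgroup.coe_mul, MulAut.conjNormal_apply]
    group
  rw [e]; exact H.mul_mem h1 h2

/-- a crossed homomorphism `G → K` vanishing on `U` is a coboundary when `[G : U]` is coprime to
`|K|` -/
theorem coboundary [Finite G] (U : Subgroup G) [Fintype (G ⧸ U)] (d : G → K)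
    (hd : ∀ g g' : G, d (g * g') = d g * MulAut.conjNormal g (d g'))
    (hdU : ∀ u ∈ U, d u = 1) (hn : (Nat.card K).Coprime U.index) :
    ∃ c : K, ∀ g : G, d g = c * (MulAut.conjNormal g c)⁻¹ := by
  have hdr : ∀ g u : G, u ∈ U → d (g * u) = d g := by
    intro g u hu
    rw [hd, hdU u hu, map_one, mul_one]
  set ct : K := ∏ q : G ⧸ U, d (rep U q) with hct
  have h1 : ∀ g : G, ∏ q : G ⧸ U, d (g * rep U q) = ct := by
    intro g
    rw [hct, ← Equiv.prod_comp (MulAction.toPerm g : Equiv.Perm (G ⧸ U)) (fun q => d (rep U q))]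
    apply Finset.prod_congr rfl
    intro q _
    have hmem : (rep U (g • q))⁻¹ * (g * rep U q) ∈ U := by
      rw [← QuotientGroup.eq, mk_rep]
      conv_lhs => rw [← mk_rep U q]
      rfl
    have e : g * rep U q = rep U (g • q) * ((rep U (g • q))⁻¹ * (g * rep U q)) := by group
    rw [MulAction.toPerm_apply]
    conv_lhs => rw [e]
    exact hdr _ _ hmem
  have h2 : ∀ g : G, ct = d g ^ U.index * MulAut.conjNormal g ct := by
    intro g
    conv_lhs => rw [← h1 g]
    simp only [hd]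
    rw [Finset.prod_mul_distrib, Finset.prod_const, Finset.card_univ, ← map_prod,
      ← Nat.card_eq_fintype_card, ← Subgroup.index_eq_card]
  obtain ⟨c, hc⟩ := (powCoprime hn).surjective ct
  have hc' : c ^ U.index = ct := hc
  refine ⟨c, fun g => ?_⟩
  apply (powCoprime hn).injective
  show d g ^ U.index = (c * (MulAut.conjNormal g c)⁻¹) ^ U.index
  rw [mul_pow, inv_pow, ← map_pow, hc']
  exact eq_mul_inv_of_mul_eq (h2 g).symm

end

/-- Gaschütz's Theorem, conjugacy: for an abelian normal subgroup K ≤ U with the order of K coprime to the index of U, two complements of K in G having the same intersection with U are conjugate. -/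
theorem result {G : Type*} [Group G] [Finite G] (K U : Subgroup G) [K.Normal] [IsMulCommutative K]
    (hKU : K ≤ U) (hcop : (Nat.card K).Coprime U.index)
    (H₀ H₁ : Subgroup G) (h₀ : Subgroup.IsComplement' K H₀) (h₁ : Subgroup.IsComplement' K H₁) (hU : H₀ ⊓ U = H₁ ⊓ U) :
    ∃ g : G, MulAut.conj g • H₀ = H₁ := by
  classical
  letI := Fintype.ofFinite (G ⧸ U)
  have hagree : ∀ u ∈ U, kpart K H₀ h₀ u = kpart K H₁ h₁ u := by
    intro u hu
    symm
    apply kpart_eq
    have h1 := kpart_spec K H₀ h₀ u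
    have h2 : (kpart K H₀ h₀ u : G)⁻¹ * u ∈ U :=
      U.mul_mem (U.inv_mem (hKU (kpart K H₀ h₀ u).2)) hu
    have h3 : (kpart K H₀ h₀ u : G)⁻¹ * u ∈ H₀ ⊓ U := ⟨h1, h2⟩
    rw [hU] at h3
    exact h3.1
  obtain ⟨c, hc⟩ := coboundary K U (fun g => kpart K H₀ h₀ g * (kpart K H₁ h₁ g)⁻¹) (by
      intro g g'
      show kpart K H₀ h₀ (g * g') * (kpart K H₁ h₁ (g * g'))⁻¹
        = kpart K H₀ h₀ g * (kpart K H₁ h₁ g)⁻¹
          * MulAut.conjNormal g (kpart K H₀ h₀ g' * (kpart K H₁ h₁ g')⁻¹)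
      rw [kpart_mul, kpart_mul, map_mul, map_inv, mul_inv, mul_mul_mul_comm])
    (by
      intro u hu
      show kpart K H₀ h₀ u * (kpart K H₁ h₁ u)⁻¹ = 1
      rw [hagree u hu, mul_inv_cancel]) hcop
  refine ⟨(c : G), ?_⟩
  have hle : MulAut.conj (c : G)⁻¹ • H₁ ≤ H₀ := by
    intro x hx
    obtain ⟨h, hh, rfl⟩ := (Subgroup.mem_smul_pointwise_iff_exists _ _ _).mp hx
    rw [MulAut.smul_def, MulAut.conj_apply, ← kpart_eq_one_iff K H₀ h₀]
    set g := (c : G)⁻¹ * h * (c : G)⁻¹⁻¹ with hg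
    have hcg : kpart K H₀ h₀ g * (kpart K H₁ h₁ g)⁻¹ = c * (MulAut.conjNormal g c)⁻¹ := hc g
    have e1 : kpart K H₁ h₁ g = c⁻¹ * MulAut.conjNormal h c := by
      apply kpart_eq
      have e : ((c⁻¹ * MulAut.conjNormal h c : K) : G)⁻¹ * g = h := by
        rw [Subgroup.coe_mul, MulAut.conjNormal_apply, Subgroup.coe_inv, hg]; group
      rw [e]; exact hh
    have e2 : MulAut.conjNormal g c = MulAut.conjNormal h c := by
      apply Subtype.ext
      rw [MulAut.conjNormal_apply, MulAut.conjNormal_apply, hg]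
      have hcomm : (c : G) * (h * (c : G) * h⁻¹) = (h * (c : G) * h⁻¹) * (c : G) := by
        have h5 := congrArg Subtype.val (mul_comm c (MulAut.conjNormal h c))
        rw [Subgroup.coe_mul, Subgroup.coe_mul, MulAut.conjNormal_apply] at h5
        exact h5
      calc (c : G)⁻¹ * h * (c : G)⁻¹⁻¹ * (c : G) * ((c : G)⁻¹ * h * (c : G)⁻¹⁻¹)⁻¹
          = (c : G)⁻¹ * ((h * (c : G) * h⁻¹) * (c : G)) := by group
        _ = (c : G)⁻¹ * ((c : G) * (h * (c : G) * h⁻¹)) := by rw [hcomm]
        _ = h * (c : G) * h⁻¹ := by group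
    have h6 : kpart K H₀ h₀ g = c * (MulAut.conjNormal g c)⁻¹ * kpart K H₁ h₁ g := by
      rw [← hcg, inv_mul_cancel_right]
    rw [h6, e2, e1, mul_comm c⁻¹, ← mul_assoc, inv_mul_cancel_right, mul_inv_cancel]
  have hcard : Nat.card H₀ ≤ Nat.card (MulAut.conj (c : G)⁻¹ • H₁ : Subgroup G) := by
    rw [Cfsg.Agent.S0001.card_conj, ← h₀.symm.index_eq_card, ← h₁.symm.index_eq_card]
  have heq : MulAut.conj (c : G)⁻¹ • H₁ = H₀ := Subgroup.eq_of_le_of_card_ge hle hcard
  rw [← heq, smul_smul, ← map_mul, mul_inv_cancel, map_one, one_smul]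

end Cfsg.Agent.S0052
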