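import Cfsg.Statements.S0053
import Mathlib
-- import your own Cfsg.Agent.* helpers here

set_option autoImplicit false
open Cfsg

namespace Cfsg.Agent.S0053

/-- An abelian minimal normal subgroup N of a finite group is complemented exactly when N is not inside the Frattini subgroup. -/
theorem result {G : Type*} [Group G] [Finite G]
    (N : Subgroup G) [N.Normal] [IsMulCommutative N] (hN : N ≠ ⊥)
    (hmin : ∀ M : Subgroup G, M.Normal → M ≤ N → M = ⊥ ∨ M = N) :
    (∃ H : Subgroup G, Subgroup.IsComplement' N H) ↔ ¬ N ≤ frattini G := by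
  constructor
  · rintro ⟨H, hH⟩ hle
    have h1 : H ⊔ frattini G = ⊤ := by
      rw [eq_top_iff, ← hH.sup_eq_top]
      exact sup_le (le_sup_of_le_right hle) le_sup_left
    have h2 : H = ⊤ := frattini_nongenerating h1
    have h3 := hH.disjoint
    rw [h2, disjoint_top] at h3
    exact hN h3
  · intro hle
    have hex : ∃ M : Subgroup G, IsCoatom M ∧ ¬ N ≤ M := by
      by_contra hcon
      push Not at hcon
      apply hle
      unfold frattini
      rw [Order.radical]
      exact le_iInf₂ hcon
    obtain ⟨M, hM, hNM⟩ := hex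
    have hsup : N ⊔ M = ⊤ := by
      apply hM.2
      exact lt_of_le_of_ne le_sup_right (fun h => hNM (by rw [h]; exact le_sup_left))
    have hcomm : ∀ x ∈ N, ∀ y ∈ N, x * y = y * x := by
      intro x hx y hy
      have h0 : (⟨x, hx⟩ : N) * ⟨y, hy⟩ = ⟨y, hy⟩ * ⟨x, hx⟩ :=
        (IsMulCommutative.is_comm (M := N)).comm _ _
      exact congrArg Subtype.val h0
    have hnorm : (N ⊓ M).Normal := by
      constructor
      intro x hx g
      have hg : g ∈ N ⊔ M := by rw [hsup]; trivial
      rw [← SetLike.mem_coe, Subgroup.normal_mul] at hg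
      obtain ⟨n, hn, m, hm, rfl⟩ := hg
      have hx1 : x ∈ N := hx.1
      have hx2 : x ∈ M := hx.2
      have hmx : m * x * m⁻¹ ∈ N := Subgroup.Normal.conj_mem inferInstance x hx1 m
      have e : n * m * x * (n * m)⁻¹ = m * x * m⁻¹ := by
        have := hcomm n hn (m * x * m⁻¹) hmx
        calc n * m * x * (n * m)⁻¹ = (n * (m * x * m⁻¹)) * n⁻¹ := by group
          _ = (m * x * m⁻¹ * n) * n⁻¹ := by rw [this]
          _ = m * x * m⁻¹ := by group
      rw [e]
      exact ⟨hmx, M.mul_mem (M.mul_mem hm hx2) (M.inv_mem hm)⟩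
    have hdisj : N ⊓ M = ⊥ := by
      rcases hmin (N ⊓ M) hnorm inf_le_left with h | h
      · exact h
      · exact absurd (h ▸ inf_le_right : N ≤ M) hNM
    refine ⟨M, Subgroup.isComplement'_of_disjoint_and_mul_eq_univ (disjoint_iff.mpr hdisj) ?_⟩
    rw [← Subgroup.normal_mul, hsup]
    rfl

end Cfsg.Agent.S0053
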