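import Mathlib
import Cfsg.Statements.S0054

set_option autoImplicit false
open Cfsg

namespace Cfsg.Agent.S0054

/-- A regular normal subgroup of a finite 2-transitive group is elementary abelian: it is commutative and all its elements have order dividing one prime. -/
theorem result {G : Type*} [Group G] [Finite G]
    {X : Type*} [Nonempty X] [MulAction G X] (h2 : MulAction.IsMultiplyPretransitive G X 2)
    (N : Subgroup G) [N.Normal] (htrans : MulAction.IsPretransitive N X) (hreg : ∀ x : X, MulAction.stabilizer N x = ⊥) :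
    IsMulCommutative N ∧ ∃ p : ℕ, p.Prime ∧ ∀ n ∈ N, n ^ p = 1 := by
  obtain ⟨x⟩ := ‹Nonempty X›
  have hNn : N.Normal := inferInstance
  have hfree : ∀ n ∈ N, n • x = x → n = 1 := by
    intro n hn hx
    have hmem : (⟨n, hn⟩ : N) ∈ MulAction.stabilizer N x := hx
    rw [hreg x, Subgroup.mem_bot] at hmem
    exact congrArg Subtype.val hmem
  have hconj : ∀ n0 ∈ N, n0 ≠ 1 → ∀ n ∈ N, n ≠ 1 → ∃ g : G, g * n0 * g⁻¹ = n := by
    intro n0 hn0 hn01 n hn hn1
    have h1 : x ≠ n0 • x := fun h => hn01 (hfree n0 hn0 h.symm)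
    have h2' : x ≠ n • x := fun h => hn1 (hfree n hn h.symm)
    obtain ⟨g, hg1, hg2⟩ := MulAction.is_two_pretransitive_iff.mp h2 h1 h2'
    refine ⟨g, ?_⟩
    have hmem : n⁻¹ * (g * n0 * g⁻¹) ∈ N :=
      N.mul_mem (N.inv_mem hn) (hNn.conj_mem n0 hn0 g)
    have hfix : (n⁻¹ * (g * n0 * g⁻¹)) • x = x := by
      have hg1' : g⁻¹ • x = x := by rw [inv_smul_eq_iff, hg1]
      rw [mul_smul, mul_smul, mul_smul, hg1', hg2, inv_smul_smul]
    have h3 := hfree _ hmem hfix
    exact (inv_mul_eq_one.mp h3).symm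
  by_cases hN : N = ⊥
  · subst hN
    refine ⟨⟨⟨fun a b => Subsingleton.elim _ _⟩⟩, 2, Nat.prime_two, ?_⟩
    intro n hn
    rw [Subgroup.mem_bot.mp hn, one_pow]
  have hnt : Nontrivial N := (Subgroup.nontrivial_iff_ne_bot N).mpr hN
  have hcard : Nat.card N ≠ 1 := by
    intro h
    exact hN ((Subgroup.card_eq_one).mp h)
  obtain ⟨p, hp, hpd⟩ := Nat.exists_prime_and_dvd hcard
  have hpf := Fact.mk hp
  obtain ⟨n1, hn1⟩ := exists_prime_orderOf_dvd_card' p hpd
  have hn1ne : (n1 : G) ≠ 1 := by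
    intro h
    have h' : n1 = 1 := Subtype.ext h
    rw [h', orderOf_one] at hn1
    exact hp.one_lt.ne hn1
  have hn1p : (n1 : G) ^ p = 1 := by
    have h' : n1 ^ p = 1 := by rw [← hn1]; exact pow_orderOf_eq_one n1
    exact congrArg Subtype.val h'
  have hexp : ∀ n ∈ N, n ^ p = 1 := by
    intro n hn
    by_cases h : n = 1
    · rw [h, one_pow]
    · obtain ⟨g, rfl⟩ := hconj n1 n1.2 hn1ne n hn h
      rw [conj_pow, hn1p]; group
  have hpg : IsPGroup p N := fun y => ⟨1, by rw [pow_one]; exact Subtype.ext (hexp y.1 y.2)⟩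
  have hcnt := hpg.center_nontrivial
  obtain ⟨z, hz⟩ := exists_ne (1 : Subgroup.center N)
  have hz1 : ((z : N) : G) ≠ 1 := by
    intro h
    exact hz (Subtype.ext (Subtype.ext h))
  have hzc : ∀ m ∈ N, m * ((z : N) : G) = ((z : N) : G) * m := by
    intro m hm
    have h' := Subgroup.mem_center_iff.mp z.2 ⟨m, hm⟩
    exact congrArg Subtype.val h'
  refine ⟨⟨⟨fun a b => ?_⟩⟩, p, hp, hexp⟩
  by_cases ha : (a : G) = 1
  · have ha' : a = 1 := Subtype.ext ha
    rw [ha', one_mul, mul_one]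
  · obtain ⟨g, hg⟩ := hconj _ (z : N).2 hz1 a a.2 ha
    have hc := hzc (g⁻¹ * (b : G) * g) (by
      have := hNn.conj_mem b b.2 g⁻¹
      rwa [inv_inv] at this)
    apply Subtype.ext
    show (a : G) * (b : G) = (b : G) * (a : G)
    rw [← hg]
    calc g * ((z : N) : G) * g⁻¹ * (b : G) = g * (((z : N) : G) * (g⁻¹ * (b : G) * g)) * g⁻¹ := by
          group
      _ = g * ((g⁻¹ * (b : G) * g) * ((z : N) : G)) * g⁻¹ := by rw [hc]
      _ = (b : G) * (g * ((z : N) : G) * g⁻¹) := by group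

end Cfsg.Agent.S0054
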