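import Cfsg.Statements.S0056
import Mathlib
import Cfsg.Agent.S0055

set_option autoImplicit false
open Cfsg

namespace Cfsg.Agent.S0056

/-- A coprime action on an abelian group that fixes all elements of prime order is trivial. -/
theorem result {G : Type*} [Group G] [Finite G] (A V : Subgroup G) [IsMulCommutative V]
    (hAV : A ≤ Subgroup.normalizer (V : Set G)) (hcop : (Nat.card A).Coprime (Nat.card V))
    (hΩ : ∀ v ∈ V, (orderOf v).Prime → ∀ a ∈ A, a * v = v * a) : A ≤ Subgroup.centralizer (V : Set G) := by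
  obtain ⟨h1, h2⟩ := Cfsg.Agent.S0055.result A V hAV hcop
  rw [Subgroup.le_centralizer_iff, ← Subgroup.commutator_eq_bot_iff_le_centralizer]
  by_contra hne
  have hWV : ⁅V, A⁆ ≤ V := Cfsg.Agent.S0026.commutator_le_of_le_normalizer hAV
  haveI : Nontrivial (⁅V, A⁆ : Subgroup G) := (Subgroup.nontrivial_iff_ne_bot _).mpr hne
  have hcard : Nat.card (⁅V, A⁆ : Subgroup G) ≠ 1 := by
    intro h
    exact hne (Subgroup.card_eq_one.mp h)
  have hp := Nat.minFac_prime hcard
  haveI : Fact (Nat.card (⁅V, A⁆ : Subgroup G)).minFac.Prime := ⟨hp⟩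
  obtain ⟨w, hw⟩ := exists_prime_orderOf_dvd_card' (G := (⁅V, A⁆ : Subgroup G))
    (Nat.card (⁅V, A⁆ : Subgroup G)).minFac (Nat.minFac_dvd _)
  have hw' : orderOf (w : G) = (Nat.card (⁅V, A⁆ : Subgroup G)).minFac := by
    rw [Subgroup.orderOf_coe]; exact hw
  have hwC : (w : G) ∈ Subgroup.centralizer (A : Set G) := by
    rw [Subgroup.mem_centralizer_iff]
    intro a ha
    exact hΩ w (hWV w.2) (hw' ▸ hp) a ha
  have hmem : (w : G) ∈ (V ⊓ Subgroup.centralizer (A : Set G)) ⊓ ⁅V, A⁆ := ⟨⟨hWV w.2, hwC⟩, w.2⟩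
  rw [h1, Subgroup.mem_bot] at hmem
  rw [hmem, orderOf_one] at hw'
  exact hp.one_lt.ne hw'

end Cfsg.Agent.S0056
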