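import Cfsg.Statements.S0057
import Mathlib
import Cfsg.Agent.S0023
import Cfsg.Agent.S0027
import Cfsg.Agent.S0055

set_option autoImplicit false
open Cfsg

namespace Cfsg.Agent.S0057

open scoped commutatorElement

/-- an `A`-invariant `p`-subgroup not centralised by `A` contains an `A`-invariant subgroup of
order `p` meeting the centraliser of `A` trivially, when `C_K(A)` has index `p` in `K` -/
theorem crux {G : Type*} [Group G] [Finite G] (A K : Subgroup G)
    (hcop : (Nat.card A).Coprime (Nat.card K)) (hsolv : Group.IsSolvable A ∨ Group.IsSolvable K)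
    (p : ℕ) [Fact p.Prime] (hidx : (K ⊓ Subgroup.centralizer (A : Set G)).relIndex K = p) (n : ℕ) :
    ∀ P : Subgroup G, P ≤ K → IsPGroup p P → A ≤ Subgroup.normalizer (P : Set G) →
    ¬ P ≤ Subgroup.centralizer (A : Set G) → Nat.card P = n →
    ∃ Z : Subgroup G, Z ≤ K ∧ A ≤ Subgroup.normalizer (Z : Set G) ∧ Nat.card Z = p ∧
      Z ⊓ Subgroup.centralizer (A : Set G) = ⊥ := by
  induction n using Nat.strongRecOn with
  | ind n ih =>
  intro P hPK hP hAP hPC hn
  have hp : p.Prime := Fact.out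
  have hcopP : (Nat.card A).Coprime (Nat.card P) :=
    hcop.coprime_dvd_right (Subgroup.card_dvd_of_le hPK)
  have hsolvP : Group.IsSolvable A ∨ Group.IsSolvable P := by
    rcases hsolv with h | h
    · exact Or.inl h
    · right; exact Cfsg.Agent.S0001.solv_of_le hPK
  set W : Subgroup G := ⁅P, A⁆ with hW
  have hWP : W ≤ P := Cfsg.Agent.S0026.commutator_le_of_le_normalizer hAP
  have hAW : A ≤ Subgroup.normalizer (W : Set G) :=
    Cfsg.Agent.S0026.le_normalizer_commutator_right P A
  have hWC : ¬ W ≤ Subgroup.centralizer (A : Set G) := by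
    intro h
    have h1 : ⁅W, A⁆ = ⊥ := Subgroup.commutator_eq_bot_iff_le_centralizer.mpr h
    have h2 := Cfsg.Agent.S0027.result A P hAP hcopP hsolvP
    rw [← hW, h1] at h2
    apply hPC
    rw [← Subgroup.commutator_eq_bot_iff_le_centralizer, ← hW, ← h2]
  by_cases hWeq : W = P
  · set CA := Subgroup.centralizer (A : Set G) with hCA
    have hrel : CA.relIndex P = p := by
      have h1 : CA.relIndex P ≤ p := by
        have h2 : (K ⊓ CA).relIndex P ≤ (K ⊓ CA).relIndex K :=
          Subgroup.relIndex_le_of_le_right hPK (by rw [hidx]; exact hp.ne_zero)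
        rw [hidx] at h2
        have h3 : (K ⊓ CA).subgroupOf P = CA.subgroupOf P := by
          ext x
          simp only [Subgroup.mem_subgroupOf, Subgroup.mem_inf]
          exact ⟨fun h => h.2, fun h => ⟨hPK x.2, h⟩⟩
        have h4 : (K ⊓ CA).relIndex P = CA.relIndex P := by
          show ((K ⊓ CA).subgroupOf P).index = (CA.subgroupOf P).index
          rw [h3]
        rwa [h4] at h2
      have h4 : CA.relIndex P ≠ 1 := fun h => hPC (Subgroup.relIndex_eq_one.mp h)
      have h5 : CA.relIndex P ∣ Nat.card P := Subgroup.relIndex_dvd_card CA P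
      obtain ⟨m, hm⟩ := IsPGroup.iff_card.mp hP
      rw [hm] at h5
      obtain ⟨j, -, hj'⟩ := (Nat.dvd_prime_pow hp).mp h5
      rw [hj'] at h1 h4 ⊢
      have hj1 : j = 1 := by
        by_contra hne
        rcases Nat.lt_or_gt_of_ne hne with h | h
        · have : j = 0 := by omega
          rw [this] at h4; simp at h4
        · have h6 : p ^ 2 ≤ p ^ j := Nat.pow_le_pow_right hp.pos h
          have h7 := hp.two_le
          nlinarith
      rw [hj1, pow_one]
    have hidxD : (CA.subgroupOf P).index = p := hrel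
    have hD'top : CA.subgroupOf P ≠ ⊤ := by
      intro h
      rw [Subgroup.subgroupOf_eq_top] at h
      exact hPC h
    haveI : Group.IsNilpotent P := hP.isNilpotent
    have hnc := Group.normalizerCondition_of_isNilpotent (G := P) (CA.subgroupOf P)
      (lt_top_iff_ne_top.mpr hD'top)
    have hnormal : (CA.subgroupOf P).Normal := by
      rw [← Subgroup.normalizer_eq_top_iff]
      have h1 := Subgroup.relIndex_mul_index hnc.le
      have h2 : (CA.subgroupOf P).relIndex
          (Subgroup.normalizer ((CA.subgroupOf P : Subgroup P) : Set P)) ≠ 1 :=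
        fun h => (not_le_of_gt hnc) (Subgroup.relIndex_eq_one.mp h)
      rw [hidxD] at h1
      have h3 : (CA.subgroupOf P).relIndex
          (Subgroup.normalizer ((CA.subgroupOf P : Subgroup P) : Set P)) ∣ p := Dvd.intro _ h1
      rcases (Nat.dvd_prime hp).mp h3 with h | h
      · exact absurd h h2
      · rw [h] at h1
        have h4 : (Subgroup.normalizer ((CA.subgroupOf P : Subgroup P) : Set P)).index = 1 := by
          have := hp.pos
          nlinarith
        exact Subgroup.index_eq_one.mp h4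
    have hPD : P ≤ Subgroup.normalizer ((P ⊓ CA : Subgroup G) : Set G) :=
      (Subgroup.normal_subgroupOf_iff_le_normalizer inf_le_left).mp
        (by rw [Subgroup.inf_subgroupOf_left]; exact hnormal)
    have h2 : ⁅⁅P ⊓ CA, P⁆, A⁆ = ⊥ :=
      Subgroup.commutator_eq_bot_iff_le_centralizer.mpr
        ((Cfsg.Agent.S0026.commutator_le_of_le_normalizer hPD).trans inf_le_right)
    have h1 : ⁅⁅A, P ⊓ CA⁆, P⁆ = ⊥ := by
      have : ⁅A, P ⊓ CA⁆ = ⊥ := by
        rw [Subgroup.commutator_comm]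
        exact Subgroup.commutator_eq_bot_iff_le_centralizer.mpr inf_le_right
      rw [this, Subgroup.commutator_bot_left]
    have h3 : ⁅⁅P, A⁆, P ⊓ CA⁆ = ⊥ := Subgroup.commutator_commutator_eq_bot_of_rotate h1 h2
    rw [← hW, hWeq] at h3
    have hPcentD : P ≤ Subgroup.centralizer ((P ⊓ CA : Subgroup G) : Set G) :=
      Subgroup.commutator_eq_bot_iff_le_centralizer.mp h3
    haveI : IsCyclic (P ⧸ CA.subgroupOf P) :=
      isCyclic_of_prime_card (p := p) (by rw [← Subgroup.index_eq_card]; exact hidxD)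
    have hker : (QuotientGroup.mk' (CA.subgroupOf P)).ker ≤ Subgroup.center P := by
      rw [QuotientGroup.ker_mk']
      intro d hd
      rw [Subgroup.mem_center_iff]
      intro g
      have hdD : (d : G) ∈ P ⊓ CA := ⟨d.2, Subgroup.mem_subgroupOf.mp hd⟩
      have := Subgroup.mem_centralizer_iff.mp (hPcentD g.2) d hdD
      exact Subtype.ext this.symm
    haveI : IsMulCommutative P :=
      MonoidHom.isMulCommutative_of_isCyclic_of_ker_le_center
        (QuotientGroup.mk' (CA.subgroupOf P)) hker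
    obtain ⟨h5, -⟩ := Cfsg.Agent.S0055.result A P hAP hcopP
    rw [← hW, hWeq] at h5
    have hD : P ⊓ CA = ⊥ := by
      rw [← h5]; exact (inf_eq_left.mpr inf_le_left).symm
    refine ⟨P, hPK, hAP, ?_, hD⟩
    rw [← hrel, ← Subgroup.inf_relIndex_left, hD, Subgroup.relIndex_bot_left]
  · have hlt : Nat.card W < Nat.card P := by
      by_contra hcon
      rw [not_lt] at hcon
      exact hWeq (Subgroup.eq_of_le_of_card_ge hWP hcon)
    exact ih (Nat.card W) (hn ▸ hlt) W (hWP.trans hPK) (hP.to_le hWP) hAW hWC rfl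

/-- Under coprime action, if the centraliser of A in K has prime index p in K then the commutator subgroup [K, A] has order exactly p. -/
theorem result {G : Type*} [Group G] [Finite G] (A K : Subgroup G) (hAK : A ≤ Subgroup.normalizer (K : Set G))
    (hcop : (Nat.card A).Coprime (Nat.card K)) (hsolv : Group.IsSolvable A ∨ Group.IsSolvable K)
    (p : ℕ) (hp : p.Prime) (hidx : (K ⊓ Subgroup.centralizer (A : Set G)).relIndex K = p) :
    Nat.card (⁅K, A⁆ : Subgroup G) = p := by
  haveI : Fact p.Prime := ⟨hp⟩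
  set CA := Subgroup.centralizer (A : Set G) with hCA
  obtain ⟨P, hPA⟩ := Cfsg.Agent.S0023.result A K hAK hcop hsolv p
  set P₀ : Subgroup G := (P : Subgroup K).map K.subtype with hP₀
  have hP₀K : P₀ ≤ K := by
    rintro x ⟨y, _, rfl⟩; exact y.2
  have hP₀p : IsPGroup p P₀ := P.isPGroup'.map _
  have hP₀C : ¬ P₀ ≤ CA := by
    intro h
    have h1 : P₀ ≤ K ⊓ CA := le_inf hP₀K h
    have h2 : (K ⊓ CA).relIndex K ∣ P₀.relIndex K := Subgroup.relIndex_dvd_of_le_left K h1
    rw [hidx] at h2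
    have h3 : P₀.subgroupOf K = (P : Subgroup K) := by
      ext x
      rw [Subgroup.mem_subgroupOf]
      exact Cfsg.Agent.S0023.coe_mem_map_subtype K _ x
    have h4 : P₀.relIndex K = (P : Subgroup K).index := by
      show (P₀.subgroupOf K).index = _
      rw [h3]
    rw [h4] at h2
    exact P.not_dvd_index h2
  obtain ⟨Z, hZK, hAZ, hZcard, hZC⟩ := crux A K hcop hsolv p hidx _ P₀ hP₀K hP₀p hPA hP₀C rfl
  have hdecomp : ∀ k ∈ K, ∃ z ∈ Z, z⁻¹ * k ∈ CA := by
    let f : Z → K ⧸ (K ⊓ CA).subgroupOf K := fun z => QuotientGroup.mk (⟨z, hZK z.2⟩ : K)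
    have hf : Function.Injective f := by
      intro z₁ z₂ h
      have h1 : (⟨z₁, hZK z₁.2⟩ : K)⁻¹ * ⟨z₂, hZK z₂.2⟩ ∈ (K ⊓ CA).subgroupOf K :=
        QuotientGroup.eq.mp h
      have h2 : (z₁ : G)⁻¹ * z₂ ∈ Z ⊓ CA :=
        ⟨Z.mul_mem (Z.inv_mem z₁.2) z₂.2, (Subgroup.mem_subgroupOf.mp h1).2⟩
      rw [hZC, Subgroup.mem_bot] at h2
      exact Subtype.ext (inv_mul_eq_one.mp h2)
    have hcard : Nat.card (K ⧸ (K ⊓ CA).subgroupOf K) ≤ Nat.card Z := by
      rw [hZcard, ← Subgroup.index_eq_card]; exact hidx.le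
    have hsurj := (hf.bijective_of_nat_card_le hcard).2
    intro k hk
    obtain ⟨z, hz⟩ := hsurj (QuotientGroup.mk (⟨k, hk⟩ : K))
    refine ⟨z, z.2, ?_⟩
    have h1 : (⟨z, hZK z.2⟩ : K)⁻¹ * ⟨k, hk⟩ ∈ (K ⊓ CA).subgroupOf K := QuotientGroup.eq.mp hz
    exact (Subgroup.mem_subgroupOf.mp h1).2
  have hle : ⁅K, A⁆ ≤ Z := by
    rw [Subgroup.commutator_le]
    intro k hk a ha
    obtain ⟨z, hz, hzk⟩ := hdecomp k hk
    have hca : a * (z⁻¹ * k) = (z⁻¹ * k) * a := (Subgroup.mem_centralizer_iff.mp hzk) a ha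
    have e : ⁅k, a⁆ = z * (a * z⁻¹ * a⁻¹) := by
      rw [commutatorElement_def]
      have h2 : (z⁻¹ * k) * a * (z⁻¹ * k)⁻¹ = a := by rw [← hca]; group
      calc k * a * k⁻¹ * a⁻¹ = z * ((z⁻¹ * k) * a * (z⁻¹ * k)⁻¹) * z⁻¹ * a⁻¹ := by group
        _ = z * (a * z⁻¹ * a⁻¹) := by rw [h2]; group
    rw [e]
    exact Z.mul_mem hz ((Subgroup.mem_normalizer_iff.mp (hAZ ha) z⁻¹).mp (Z.inv_mem hz))
  have hne : (⁅K, A⁆ : Subgroup G) ≠ ⊥ := by
    intro h
    have h1 : K ≤ CA := Subgroup.commutator_eq_bot_iff_le_centralizer.mp h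
    have h2 : (K ⊓ CA).relIndex K = 1 := Subgroup.relIndex_eq_one.mpr (le_inf le_rfl h1)
    rw [hidx] at h2
    exact hp.one_lt.ne' h2
  have hdvd : Nat.card (⁅K, A⁆ : Subgroup G) ∣ p := hZcard ▸ Subgroup.card_dvd_of_le hle
  rcases (Nat.dvd_prime hp).mp hdvd with h | h
  · exact absurd (Subgroup.card_eq_one.mp h) hne
  · exact h

end Cfsg.Agent.S0057
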