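import Mathlib
import Cfsg.Statements.S0060
-- import your own Cfsg.Agent.* helpers here

set_option autoImplicit false
open Pointwise
open Cfsg

namespace Cfsg.Agent.S0060

theorem exists_conj_le {G : Type*} [Group G] [Finite G] (p : ℕ) [Fact p.Prime] (N : Subgroup G)
    (S : Sylow p G) (hSN : (S : Subgroup G) ≤ N) (Q : Subgroup G) (hQ : IsPGroup p Q) (hQN : Q ≤ N) :
    ∃ n ∈ N, ∀ x ∈ Q, n * x * n⁻¹ ∈ (S : Subgroup G) := by
  have hQ' : IsPGroup p (Q.subgroupOf N) := hQ.comap_subtype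
  obtain ⟨P', hP'⟩ := hQ'.exists_le_sylow
  obtain ⟨n, hn⟩ := MulAction.exists_smul_eq N P' (S.subtype hSN)
  refine ⟨n, n.2, ?_⟩
  intro x hx
  have hx' : (⟨x, hQN hx⟩ : N) ∈ (P' : Subgroup N) := hP' (Subgroup.mem_subgroupOf.mpr hx)
  have h1 : MulAut.conj n • (⟨x, hQN hx⟩ : N) ∈ MulAut.conj n • (P' : Subgroup N) :=
    Subgroup.smul_mem_pointwise_smul _ _ _ hx'
  have h2 : MulAut.conj n • (P' : Subgroup N) = ((n • P' : Sylow p N) : Subgroup N) := rfl
  rw [h2, hn, Sylow.coe_subtype, Subgroup.mem_subgroupOf] at h1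
  simpa [MulAut.smul_def] using h1

/-- Brodkey's Theorem: in a finite group with abelian Sylow p-subgroups and no nontrivial normal p-subgroup, some conjugate of a Sylow p-subgroup meets it trivially. -/
theorem result {G : Type*} [Group G] [Finite G] (p : ℕ) [Fact p.Prime]
    (S : Sylow p G) (hS : IsMulCommutative S) (hOp : Cfsg.pCore p G = ⊥) :
    ∃ g : G, (S : Subgroup G) ⊓ MulAut.conj g • (S : Subgroup G) = ⊥ := by
  classical
  have hab : ∀ P : Sylow p G, ∀ x ∈ (P : Subgroup G), ∀ y ∈ (P : Subgroup G), x * y = y * x := by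
    intro P x hx y hy
    obtain ⟨g, rfl⟩ := MulAction.exists_smul_eq G S P
    rw [Sylow.coe_subgroup_smul] at hx hy
    obtain ⟨s, hs, rfl⟩ := (Subgroup.mem_smul_pointwise_iff_exists _ _ _).mp hx
    obtain ⟨t, ht, rfl⟩ := (Subgroup.mem_smul_pointwise_iff_exists _ _ _).mp hy
    have hst : s * t = t * s := congrArg Subtype.val (mul_comm' (⟨s, hs⟩ : S) ⟨t, ht⟩)
    simp only [MulAut.smul_def, MulAut.conj_apply]
    calc g * s * g⁻¹ * (g * t * g⁻¹) = g * (s * t) * g⁻¹ := by group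
      _ = g * (t * s) * g⁻¹ := by rw [hst]
      _ = _ := by group
  obtain ⟨⟨P₀, Q₀⟩, hmin⟩ := Finite.exists_min
    (fun PQ : Sylow p G × Sylow p G => Nat.card ↥((PQ.1 : Subgroup G) ⊓ (PQ.2 : Subgroup G)))
  set D : Subgroup G := (P₀ : Subgroup G) ⊓ (Q₀ : Subgroup G) with hD
  set N : Subgroup G := Subgroup.normalizer (D : Set G) with hN
  have hPN : (P₀ : Subgroup G) ≤ N := by
    refine le_trans ?_ (Subgroup.centralizer_le_normalizer (D : Set G))
    intro s hs
    rw [Subgroup.mem_centralizer_iff]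
    intro d hd
    exact hab P₀ d hd.1 s hs
  have hQN : (Q₀ : Subgroup G) ≤ N := by
    refine le_trans ?_ (Subgroup.centralizer_le_normalizer (D : Set G))
    intro s hs
    rw [Subgroup.mem_centralizer_iff]
    intro d hd
    exact hab Q₀ d hd.2 s hs
  have hDR : ∀ R : Sylow p G, D ≤ (R : Subgroup G) := by
    intro R
    obtain ⟨n, hnN, hn⟩ := exists_conj_le p N P₀ hPN ((R : Subgroup G) ⊓ N)
      (R.isPGroup'.to_le inf_le_left) inf_le_right
    have hle : ((n • R : Sylow p G) : Subgroup G) ⊓ (Q₀ : Subgroup G) ≤ D := by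
      intro y hy
      obtain ⟨hy1, hy2⟩ := hy
      rw [Sylow.coe_subgroup_smul] at hy1
      obtain ⟨x, hx, rfl⟩ := (Subgroup.mem_smul_pointwise_iff_exists _ _ _).mp hy1
      simp only [MulAut.smul_def, MulAut.conj_apply] at hy2 ⊢
      have hxN : x ∈ N := by
        have h1 : n * x * n⁻¹ ∈ N := hQN hy2
        have h2 : x = n⁻¹ * (n * x * n⁻¹) * n := by group
        rw [h2]
        exact N.mul_mem (N.mul_mem (N.inv_mem hnN) h1) hnN
      exact ⟨hn x ⟨hx, hxN⟩, hy2⟩
    have hcard := hmin (n • R, Q₀)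
    have heq : ((n • R : Sylow p G) : Subgroup G) ⊓ (Q₀ : Subgroup G) = D :=
      Subgroup.eq_of_le_of_card_ge hle hcard
    intro d hd
    have h1 : n * d * n⁻¹ ∈ D := (Subgroup.mem_normalizer_iff.mp hnN d).mp hd
    rw [← heq] at h1
    have h2 := h1.1
    rw [Sylow.coe_subgroup_smul] at h2
    obtain ⟨x, hx, hxe⟩ := (Subgroup.mem_smul_pointwise_iff_exists _ _ _).mp h2
    simp only [MulAut.smul_def, MulAut.conj_apply] at hxe
    have h3 : x = d := by
      have h4 := congrArg (fun t => n⁻¹ * t * n) hxe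
      simpa [mul_assoc] using h4
    rw [← h3]
    exact hx
  have hDbot : D = ⊥ := by
    let K : Subgroup G := ⨅ R : Sylow p G, (R : Subgroup G)
    have hDK : D ≤ K := le_iInf hDR
    have hKn : K.Normal := by
      constructor
      intro k hk g
      rw [Subgroup.mem_iInf] at hk ⊢
      intro R
      have h1 := hk (g⁻¹ • R)
      rw [Sylow.coe_subgroup_smul] at h1
      obtain ⟨x, hx, hxe⟩ := (Subgroup.mem_smul_pointwise_iff_exists _ _ _).mp h1
      simp only [MulAut.smul_def, MulAut.conj_apply] at hxe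
      have h2 : g * k * g⁻¹ = x := by rw [← hxe]; group
      rw [h2]
      exact hx
    have hKp : IsPGroup p K := S.isPGroup'.to_le (iInf_le _ S)
    have hK : K ≤ Cfsg.pCore p G := le_sSup ⟨hKn, hKp⟩
    rw [hOp] at hK
    exact le_bot_iff.mp (hDK.trans hK)
  obtain ⟨h, hh⟩ := MulAction.exists_smul_eq G S P₀
  obtain ⟨k, hk⟩ := MulAction.exists_smul_eq G S Q₀
  refine ⟨h⁻¹ * k, ?_⟩
  rw [eq_bot_iff]
  intro x hx
  obtain ⟨hx1, hx2⟩ := hx
  obtain ⟨s, hs, hse⟩ := (Subgroup.mem_smul_pointwise_iff_exists _ _ _).mp hx2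
  simp only [MulAut.smul_def, MulAut.conj_apply] at hse
  have h1 : h * x * h⁻¹ ∈ D := by
    constructor
    · rw [← hh, Sylow.coe_subgroup_smul]
      refine (Subgroup.mem_smul_pointwise_iff_exists _ _ _).mpr ⟨x, hx1, ?_⟩
      simp only [MulAut.smul_def, MulAut.conj_apply]
    · rw [← hk, Sylow.coe_subgroup_smul]
      refine (Subgroup.mem_smul_pointwise_iff_exists _ _ _).mpr ⟨s, hs, ?_⟩
      simp only [MulAut.smul_def, MulAut.conj_apply]
      rw [← hse]
      group
  rw [hDbot, Subgroup.mem_bot] at h1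
  rw [Subgroup.mem_bot]
  have h2 : x = h⁻¹ * (h * x * h⁻¹) * h := by group
  rw [h2, h1]
  group

end Cfsg.Agent.S0060
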