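import Cfsg.Statements.S0061
import Mathlib
-- import your own Cfsg.Agent.* helpers here

set_option autoImplicit false
open Cfsg

namespace Cfsg.Agent.S0061

theorem pgroup_solvable {G : Type*} [Group G] [Finite G] (p : ℕ) [Fact p.Prime] (k : ℕ)
    (h : Nat.card G = p ^ k) : Group.IsSolvable G := by
  have : Group.IsNilpotent G := (IsPGroup.of_card h).isNilpotent
  infer_instance

theorem cyclic_solvable {G : Type*} [Group G] (q : ℕ) [Fact q.Prime]
    (h : Nat.card G = q) : Group.IsSolvable G := by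
  have : IsCyclic G := isCyclic_of_prime_card h
  exact Group.isSolvable_of_comm (fun a b => (IsCyclic.commGroup (α := G)).mul_comm a b)

theorem prod_surj {G : Type*} [Group G] [Finite G] (H K : Subgroup G) (hHK : H ⊓ K = ⊥)
    (hc : Nat.card G ≤ Nat.card H * Nat.card K) : ∀ g : G, ∃ a ∈ H, ∃ b ∈ K, g = a * b := by
  have hinj : Function.Injective (fun x : H × K => (x.1 * x.2 : G)) :=
    Subgroup.mul_injective_of_disjoint (disjoint_iff.mpr hHK)
  have hbij := hinj.bijective_of_nat_card_le (by rw [Nat.card_prod]; exact hc)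
  intro g
  obtain ⟨⟨a, b⟩, hab⟩ := hbij.2 g
  exact ⟨a, a.2, b, b.2, hab.symm⟩

theorem card_sylow_p {G : Type*} [Group G] [Finite G] (p q m : ℕ) [hp : Fact p.Prime]
    (hq : q.Prime) (hpq : p ≠ q) (hG : Nat.card G = p ^ m * q) (P : Sylow p G) :
    Nat.card P = p ^ m := by
  obtain ⟨k, hk⟩ := IsPGroup.iff_card.mp P.2
  have h1 : p ^ m ∣ Nat.card P := P.pow_dvd_card_of_pow_dvd_card (hG ▸ Dvd.intro _ rfl)
  have h2 : Nat.card P ∣ p ^ m * q := hG ▸ Subgroup.card_subgroup_dvd_card _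
  rw [hk] at h1 h2 ⊢
  have h3 : p ^ k ∣ p ^ m :=
    (Nat.Coprime.pow_left k ((Nat.coprime_primes hp.1 hq).2 hpq)).dvd_of_dvd_mul_right h2
  exact Nat.dvd_antisymm h3 h1

theorem card_sylow_q {G : Type*} [Group G] [Finite G] (p q m : ℕ) (hp : p.Prime)
    [hq : Fact q.Prime] (hpq : p ≠ q) (hG : Nat.card G = p ^ m * q) (Q : Sylow q G) :
    Nat.card Q = q := by
  obtain ⟨k, hk⟩ := IsPGroup.iff_card.mp Q.2
  have h1 : q ∣ Nat.card Q := Q.dvd_card_of_dvd_card (hG ▸ Dvd.intro_left _ rfl)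
  have h2 : Nat.card Q ∣ p ^ m * q := hG ▸ Subgroup.card_subgroup_dvd_card _
  rw [hk] at h1 h2 ⊢
  have hk1 : k ≠ 0 := by
    rintro rfl
    rw [pow_zero] at h1
    exact hq.1.one_lt.ne' (Nat.dvd_one.mp h1)
  -- q^k ∣ p^m * q with q coprime to p^m
  have h3 : q ^ k ∣ q := by
    have hcop : Nat.Coprime (q ^ k) (p ^ m) :=
      Nat.Coprime.pow k m ((Nat.coprime_primes hq.1 hp).2 (Ne.symm hpq))
    exact hcop.dvd_of_dvd_mul_left h2
  have h4 : k ≤ 1 := by
    by_contra hcon
    have : q ^ 2 ∣ q := (pow_dvd_pow q (by omega)).trans h3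
    have h5 := Nat.le_of_dvd hq.1.pos this
    have h6 := hq.1.one_lt
    nlinarith
  have : k = 1 := by omega
  rw [this, pow_one]

theorem main.{u} (p q : ℕ) (hp : p.Prime) (hq : q.Prime) :
    ∀ (n : ℕ) (G : Type u) [Group G] [Finite G] (m : ℕ), Nat.card G = n → n = p ^ m * q →
    Group.IsSolvable G := by
  intro n
  induction n using Nat.strong_induction_on with
  | _ n ih =>
  intro G _ _ m hcard hn
  have hG : Nat.card G = p ^ m * q := hcard.trans hn
  have : Fact p.Prime := ⟨hp⟩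
  have : Fact q.Prime := ⟨hq⟩
  by_cases hpq : p = q
  · subst hpq
    exact pgroup_solvable p (m + 1) (by rw [hG, pow_succ])
  have hPcard : ∀ P : Sylow p G, Nat.card P = p ^ m := card_sylow_p p q m hq hpq hG
  -- Case 1: a normal Sylow `p`-subgroup
  by_cases hnorm : ∃ P : Sylow p G, (P : Subgroup G).Normal
  · obtain ⟨P, hPn⟩ := hnorm
    have hPs : Group.IsSolvable P := pgroup_solvable p m (hPcard P)
    have hqc : Nat.card (G ⧸ (P : Subgroup G)) = q := by
      have h1 := Subgroup.card_eq_card_quotient_mul_card_subgroup (P : Subgroup G)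
      rw [hG, hPcard P, mul_comm] at h1
      exact (Nat.eq_of_mul_eq_mul_right (pow_pos hp.pos m) h1).symm
    exact (Group.isSolvable_iff_subgroup_quotient (P : Subgroup G)).2 ⟨hPs, cyclic_solvable q hqc⟩
  push Not at hnorm
  -- Case 2: two Sylow `p`-subgroups with trivial intersection
  by_cases htriv : ∃ P₁ P₂ : Sylow p G, P₁ ≠ P₂ ∧ (P₁ : Subgroup G) ⊓ (P₂ : Subgroup G) = ⊥
  · obtain ⟨P₁, P₂, hne, hinf⟩ := htriv
    have hle : p ^ m * p ^ m ≤ p ^ m * q := by
      have hinj : Function.Injective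
          (fun x : ↥(P₁ : Subgroup G) × ↥(P₂ : Subgroup G) => (x.1 * x.2 : G)) :=
        Subgroup.mul_injective_of_disjoint (disjoint_iff.mpr hinf)
      have := Nat.card_le_card_of_injective _ hinj
      rwa [Nat.card_prod, hPcard, hPcard, hG] at this
    have hle' : p ^ m ≤ q := Nat.le_of_mul_le_mul_left hle (pow_pos hp.pos m)
    have hlt : p ^ m < q := by
      refine lt_of_le_of_ne hle' ?_
      intro heq
      rcases Nat.eq_zero_or_pos m with hm | hm
      · apply hne
        have h1 : (P₁ : Subgroup G) = ⊥ :=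
          Subgroup.card_eq_one.mp (by rw [hPcard, hm, pow_zero])
        have h2 : (P₂ : Subgroup G) = ⊥ :=
          Subgroup.card_eq_one.mp (by rw [hPcard, hm, pow_zero])
        exact Sylow.ext (h1.trans h2.symm)
      · have : p ∣ q := heq ▸ dvd_pow_self p hm.ne'
        exact hpq ((Nat.prime_dvd_prime_iff_eq hp hq).1 this)
    obtain ⟨Q⟩ : Nonempty (Sylow q G) := inferInstance
    have hQcard : Nat.card Q = q := card_sylow_q p q m hp hpq hG Q
    have hQidx : (Q : Subgroup G).index = p ^ m := by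
      have h1 := (Q : Subgroup G).card_mul_index
      rw [hQcard, hG, mul_comm] at h1
      exact Nat.eq_of_mul_eq_mul_right hq.pos h1
    have hnq : Nat.card (Sylow q G) = 1 := by
      have h1 : Nat.card (Sylow q G) ≡ 1 [MOD q] := card_sylow_modEq_one q G
      have h2 : Nat.card (Sylow q G) ∣ p ^ m := hQidx ▸ Q.card_dvd_index
      have h3 : Nat.card (Sylow q G) ≤ p ^ m := Nat.le_of_dvd (pow_pos hp.pos m) h2
      have h4 : Nat.card (Sylow q G) < q := lt_of_le_of_lt h3 hlt
      unfold Nat.ModEq at h1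
      rw [Nat.mod_eq_of_lt h4, Nat.mod_eq_of_lt hq.one_lt] at h1
      exact h1
    have : Subsingleton (Sylow q G) := (Nat.card_eq_one_iff_unique.mp hnq).1
    have hQn : (Q : Subgroup G).Normal := Q.normal_of_subsingleton
    have hQs : Group.IsSolvable Q := cyclic_solvable q hQcard
    have hquot : Nat.card (G ⧸ (Q : Subgroup G)) = p ^ m := hQidx
    exact (Group.isSolvable_iff_subgroup_quotient (Q : Subgroup G)).2
      ⟨hQs, pgroup_solvable p m hquot⟩
  push Not at htriv
  -- Case 3: all pairs of distinct Sylow `p`-subgroups meet non-trivially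
  obtain ⟨P₀⟩ : Nonempty (Sylow p G) := inferInstance
  have hex : ∃ g : G, g • P₀ ≠ P₀ := by
    by_contra hcon
    push Not at hcon
    apply hnorm P₀
    rw [← Subgroup.normalizer_eq_top_iff, eq_top_iff]
    intro g _
    exact Sylow.smul_eq_iff_mem_normalizer.mp (hcon g)
  obtain ⟨g₀, hg₀⟩ := hex
  have : Nonempty {x : Sylow p G × Sylow p G // x.1 ≠ x.2} := ⟨⟨(g₀ • P₀, P₀), hg₀⟩⟩
  obtain ⟨⟨⟨P₁, P₂⟩, hne⟩, hmax⟩ := Finite.exists_max
    (fun x : {x : Sylow p G × Sylow p G // x.1 ≠ x.2} =>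
      Nat.card ((x.1.1 : Subgroup G) ⊓ (x.1.2 : Subgroup G) : Subgroup G))
  simp only at hne
  have hmax' : ∀ Q₁ Q₂ : Sylow p G, Q₁ ≠ Q₂ →
      Nat.card ((Q₁ : Subgroup G) ⊓ (Q₂ : Subgroup G) : Subgroup G)
        ≤ Nat.card ((P₁ : Subgroup G) ⊓ (P₂ : Subgroup G) : Subgroup G) :=
    fun Q₁ Q₂ h => hmax ⟨(Q₁, Q₂), h⟩
  set D : Subgroup G := (P₁ : Subgroup G) ⊓ (P₂ : Subgroup G) with hD
  have hDne : D ≠ ⊥ := htriv P₁ P₂ hne
  have grow : ∀ P : Sylow p G, D ≤ P → D ≠ (P : Subgroup G) →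
      ∃ x ∈ (P : Subgroup G), x ∈ Subgroup.normalizer (D : Set G) ∧ x ∉ D := by
    intro P hDP hDneP
    have hnil : Group.IsNilpotent P := P.2.isNilpotent
    have hlt : D.subgroupOf P < ⊤ := by
      rw [lt_top_iff_ne_top]
      intro h
      exact hDneP (le_antisymm hDP (Subgroup.subgroupOf_eq_top.mp h))
    have hlt2 := Group.normalizerCondition_of_isNilpotent (G := P) _ hlt
    rw [← Subgroup.subgroupOf_normalizer_eq hDP] at hlt2
    obtain ⟨x, hx1, hx2⟩ := SetLike.exists_of_lt hlt2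
    exact ⟨x, x.2, hx1, hx2⟩
  have hD1 : D ≠ (P₁ : Subgroup G) := by
    intro h
    apply hne
    have hle : (P₁ : Subgroup G) ≤ P₂ := h ▸ inf_le_right
    exact Sylow.ext (Subgroup.eq_of_le_of_card_ge hle (by rw [hPcard, hPcard]))
  have hD2 : D ≠ (P₂ : Subgroup G) := by
    intro h
    apply hne
    have hle : (P₂ : Subgroup G) ≤ P₁ := h ▸ inf_le_left
    exact (Sylow.ext (Subgroup.eq_of_le_of_card_ge hle (by rw [hPcard, hPcard]))).symm
  obtain ⟨x₁, hx₁P, hx₁N, hx₁D⟩ := grow P₁ inf_le_left hD1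
  obtain ⟨x₂, hx₂P, hx₂N, hx₂D⟩ := grow P₂ inf_le_right hD2
  have hNnot : ¬ IsPGroup p (Subgroup.normalizer (D : Set G)) := by
    intro hN
    obtain ⟨P₃, hP₃⟩ := hN.exists_le_sylow
    have hDP₃ : D ≤ P₃ := Subgroup.le_normalizer.trans hP₃
    have key : ∀ (P : Sylow p G) (x : G), D ≤ P → x ∈ (P : Subgroup G) →
        x ∈ Subgroup.normalizer (D : Set G) → x ∉ D → P₃ = P := by
      intro P x hDP hxP hxN hxD
      by_contra hneq
      have h1 := hmax' P₃ P hneq
      have h2 : D < (P₃ : Subgroup G) ⊓ (P : Subgroup G) := by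
        refine lt_of_le_of_ne (le_inf hDP₃ hDP) ?_
        intro heq
        apply hxD
        rw [heq]
        exact ⟨hP₃ hxN, hxP⟩
      exact h2.ne (Subgroup.eq_of_le_of_card_ge h2.le h1)
    exact hne ((key P₁ x₁ inf_le_left hx₁P hx₁N hx₁D).symm.trans
      (key P₂ x₂ inf_le_right hx₂P hx₂N hx₂D))
  have hqN : q ∣ Nat.card (Subgroup.normalizer (D : Set G)) := by
    by_contra hcon
    apply hNnot
    have h1 : Nat.card (Subgroup.normalizer (D : Set G)) ∣ p ^ m * q :=
      hG ▸ Subgroup.card_subgroup_dvd_card _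
    have h2 : Nat.card (Subgroup.normalizer (D : Set G)) ∣ p ^ m := by
      have hcop : Nat.Coprime (Nat.card (Subgroup.normalizer (D : Set G))) q :=
        (Nat.Coprime.symm ((Nat.Prime.coprime_iff_not_dvd hq).2 hcon))
      exact hcop.dvd_of_dvd_mul_right h1
    obtain ⟨k, _, hk⟩ := (Nat.dvd_prime_pow hp).1 h2
    exact IsPGroup.of_card hk
  obtain ⟨y, hy⟩ := exists_prime_orderOf_dvd_card' q hqN
  set Q : Subgroup G := Subgroup.zpowers (y : G) with hQ
  have hQcard : Nat.card Q = q := by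
    rw [hQ, Nat.card_zpowers, Subgroup.orderOf_coe, hy]
  have hQN : Q ≤ Subgroup.normalizer (D : Set G) := by
    rw [hQ, Subgroup.zpowers_le]; exact y.2
  have hfac : ∀ g : G, ∃ a ∈ (P₁ : Subgroup G), ∃ b ∈ Q, g = a * b := by
    apply prod_surj
    · apply disjoint_iff.mp
      apply Subgroup.disjoint_of_coprime_natCard
      rw [hPcard, hQcard]
      exact Nat.Coprime.pow_left m ((Nat.coprime_primes hp hq).2 hpq)
    · rw [hPcard, hQcard, hG]
  set K : Subgroup G := Subgroup.normalClosure (D : Set G) with hK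
  have hKP : K ≤ P₁ := by
    rw [hK, Subgroup.normalClosure, Subgroup.closure_le]
    intro a ha
    rw [Group.mem_conjugatesOfSet_iff] at ha
    obtain ⟨d, hd, hconj⟩ := ha
    rw [isConj_iff] at hconj
    obtain ⟨c, rfl⟩ := hconj
    obtain ⟨a, ha, b, hb, rfl⟩ := hfac c
    have h1 : b * d * b⁻¹ ∈ D := (Subgroup.mem_normalizer_iff.mp (hQN hb) d).mp hd
    have h2 : a * b * d * (a * b)⁻¹ = a * (b * d * b⁻¹) * a⁻¹ := by group
    rw [SetLike.mem_coe, h2]
    exact (P₁ : Subgroup G).mul_mem ((P₁ : Subgroup G).mul_mem ha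
      (inf_le_left (a := (P₁ : Subgroup G)) h1)) ((P₁ : Subgroup G).inv_mem ha)
  have hKn : K.Normal := Subgroup.normalClosure_normal
  have hKne : K ≠ ⊥ := by
    intro h
    apply hDne
    rw [eq_bot_iff, ← h]
    exact Subgroup.le_normalClosure
  obtain ⟨a, ha⟩ := IsPGroup.iff_card.mp (P₁.2.to_le hKP)
  have ha1 : 1 ≤ a := by
    by_contra h
    have h0 : a = 0 := by omega
    rw [h0, pow_zero] at ha
    exact hKne (Subgroup.card_eq_one.mp ha)
  have ham : a ≤ m := by
    have h1 : Nat.card K ∣ Nat.card (P₁ : Subgroup G) := Subgroup.card_dvd_of_le hKP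
    rw [ha, hPcard] at h1
    exact (Nat.pow_dvd_pow_iff_le_right hp.one_lt).mp h1
  have hKs : Group.IsSolvable K := pgroup_solvable p a ha
  have hquot : Nat.card (G ⧸ K) = p ^ (m - a) * q := by
    have h1 := Subgroup.card_eq_card_quotient_mul_card_subgroup K
    rw [hG, ha] at h1
    have h2 : p ^ m = p ^ (m - a) * p ^ a := by rw [← pow_add]; congr 1; omega
    rw [h2] at h1
    have hpos : 0 < p ^ a := pow_pos hp.pos a
    have h3 : (p ^ (m - a) * q) * p ^ a = Nat.card (G ⧸ K) * p ^ a := by rw [← h1]; ring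
    exact (Nat.eq_of_mul_eq_mul_right hpos h3).symm
  have hlt : Nat.card (G ⧸ K) < n := by
    rw [hquot, hn]
    apply Nat.mul_lt_mul_of_pos_right _ hq.pos
    exact Nat.pow_lt_pow_right hp.one_lt (by omega)
  have hqs : Group.IsSolvable (G ⧸ K) := ih _ hlt (G ⧸ K) (m - a) rfl hquot
  exact (Group.isSolvable_iff_subgroup_quotient K).2 ⟨hKs, hqs⟩

/-- A finite group whose order is a prime power times a prime is solvable. -/
theorem result {G : Type*} [Group G] [Finite G] (p q m : ℕ) (hp : p.Prime) (hq : q.Prime)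
    (hG : Nat.card G = p ^ m * q) : Group.IsSolvable G :=
  main p q hp hq (Nat.card G) G m rfl hG

end Cfsg.Agent.S0061
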