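import Cfsg.Statements.S0062
import Cfsg.Agent.Lib.Helper2.PComp

set_option autoImplicit false
open Cfsg

namespace Cfsg.Agent.S0062

theorem solvable_of_card_prime_pow {G : Type*} [Group G] [Finite G] (p n : ℕ) (hp : p.Prime)
    (hG : Nat.card G = p ^ n) : Group.IsSolvable G := by
  haveI : Fact p.Prime := ⟨hp⟩
  haveI : Group.IsNilpotent G := (IsPGroup.of_card hG).isNilpotent
  infer_instance

theorem solvable_of_normal {G : Type*} [Group G] (N : Subgroup G) [N.Normal]
    (h1 : Group.IsSolvable N) (h2 : Group.IsSolvable (G ⧸ N)) : Group.IsSolvable G :=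
  Group.isSolvable_of_ker_le_range N.subtype (QuotientGroup.mk' N) (by simp)

theorem asym {G : Type*} [Group G] [Finite G] (p q : ℕ) (hp : p.Prime) (hq : q.Prime)
    (hqp : q < p) (hG : Nat.card G = p ^ 2 * q ^ 2) : Group.IsSolvable G := by
  haveI : Fact p.Prime := ⟨hp⟩
  obtain P : Sylow p G := default
  have hcop : Nat.Coprime p q := (Nat.coprime_primes hp hq).mpr (by omega)
  have hPcard : Nat.card P = p ^ 2 := by
    have hnd : ¬ p ∣ q := fun h => by
      have := (Nat.prime_dvd_prime_iff_eq hp hq).mp h
      omega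
    have hfac : (p ^ 2 * q ^ 2).factorization p = 2 := by
      rw [Nat.factorization_mul (pow_ne_zero 2 hp.ne_zero) (pow_ne_zero 2 hq.ne_zero),
        Nat.factorization_pow, Nat.factorization_pow]
      simp [hp.factorization_self, Nat.factorization_eq_zero_of_not_dvd hnd]
    rw [Sylow.card_eq_multiplicity, hG, hfac]
  have hPidx : (P : Subgroup G).index = q ^ 2 := by
    have h1 := (P : Subgroup G).card_mul_index
    rw [hPcard, hG] at h1
    exact Nat.eq_of_mul_eq_mul_left (pow_pos hp.pos 2) h1
  have hcomm : IsMulCommutative P := IsPGroup.isMulCommutative_of_card_eq_prime_sq hPcard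
  have hnp_dvd : Nat.card (Sylow p G) ∣ q ^ 2 := hPidx ▸ P.card_dvd_index
  have hnp_mod : Nat.card (Sylow p G) ≡ 1 [MOD p] := card_sylow_modEq_one p G
  have hnp_idx : Nat.card (Sylow p G) = (Subgroup.normalizer (P : Set G)).index :=
    P.card_eq_index_normalizer
  obtain ⟨k, hk2, hk⟩ := (Nat.dvd_prime_pow hq).mp hnp_dvd
  interval_cases k
  · -- normal Sylow
    rw [pow_zero] at hk
    rw [hk] at hnp_idx
    have hnorm : (P : Subgroup G).Normal := by
      rw [← Subgroup.normalizer_eq_top_iff, ← Subgroup.index_eq_one]
      exact hnp_idx.symm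
    have h1 : Group.IsSolvable (P : Subgroup G) := solvable_of_card_prime_pow p 2 hp hPcard
    have h2 : Group.IsSolvable (G ⧸ (P : Subgroup G)) := by
      apply solvable_of_card_prime_pow q 2 hq
      rw [← Subgroup.index_eq_card]; exact hPidx
    exact solvable_of_normal (P : Subgroup G) h1 h2
  · exfalso
    rw [pow_one] at hk
    rw [hk] at hnp_mod
    have h1 : q % p = 1 % p := hnp_mod
    rw [Nat.mod_eq_of_lt hqp, Nat.mod_eq_of_lt hp.one_lt] at h1
    exact hq.ne_one h1
  · -- self-normalizing Sylow
    rw [hk] at hnp_idx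
    have hNP : Subgroup.normalizer (P : Set G) = (P : Subgroup G) := by
      symm
      apply Subgroup.eq_of_le_of_card_ge Subgroup.le_normalizer
      have h1 := (Subgroup.normalizer (P : Set G)).card_mul_index
      rw [← hnp_idx, hG] at h1
      have h2 : Nat.card (Subgroup.normalizer (P : Set G)) = p ^ 2 :=
        Nat.eq_of_mul_eq_mul_right (pow_pos hq.pos 2) h1
      have h3 : Nat.card (Subgroup.normalizer ((P : Subgroup G) : Set G)) = p ^ 2 := h2
      rw [h3, hPcard]
    have hNC : Subgroup.normalizer (P : Set G) ≤ Subgroup.centralizer (P : Set G) := by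
      rw [hNP]; exact Subgroup.le_centralizer (P : Subgroup G)
    have hcompl := MonoidHom.ker_transferSylow_isComplement' P hNC
    set K := (MonoidHom.transferSylow P hNC).ker with hK
    have hKcard : Nat.card K = q ^ 2 := by
      rw [← hcompl.index_eq_card]; exact hPidx
    have h1 : Group.IsSolvable K := solvable_of_card_prime_pow q 2 hq hKcard
    have h2 : Group.IsSolvable (G ⧸ K) := by
      apply solvable_of_card_prime_pow p 2 hp
      rw [← Subgroup.index_eq_card, hcompl.symm.index_eq_card]; exact hPcard
    exact solvable_of_normal K h1 h2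

/-- A finite group of order p^2 * q^2 with p and q prime is solvable. -/
theorem result {G : Type*} [Group G] [Finite G] (p q : ℕ) (hp : p.Prime) (hq : q.Prime)
    (hG : Nat.card G = p ^ 2 * q ^ 2) : Group.IsSolvable G := by
  rcases lt_trichotomy p q with h | h | h
  · exact asym q p hq hp h (by rw [hG, mul_comm])
  · subst h
    apply solvable_of_card_prime_pow p 4 hp
    rw [hG]; ring
  · exact asym p q hp hq h hG

end Cfsg.Agent.S0062
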