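import Cfsg.Statements.S0063
import Mathlib

set_option autoImplicit false
open Cfsg

namespace Cfsg.Agent.S0063

universe u

theorem aux (p : ℕ) [Fact p.Prime] : ∀ (m : ℕ) (G : Type u) [Group G] [Finite G],
    Nat.card G = p ^ m → Group.nilpotencyClass G ≤ max (m - 1) 1 := by
  intro m
  induction m using Nat.strong_induction_on with
  | _ m ih =>
    intro G _ _ hG
    have hp : p.Prime := Fact.out
    have hPG : IsPGroup p G := IsPGroup.of_card hG
    haveI : Group.IsNilpotent G := hPG.isNilpotent
    by_cases hcyc : IsCyclic (G ⧸ Subgroup.center G)
    · have hcomm : IsMulCommutative G := by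
        have h := commutative_of_cyclic_center_quotient (QuotientGroup.mk' (Subgroup.center G))
          (by rw [QuotientGroup.ker_mk'])
        exact ⟨⟨h⟩⟩
      have := (Group.IsNilpotent.nilpotencyClass_le_one_iff (G := G)).mpr hcomm
      exact this.trans (le_max_right _ _)
    · -- quotient not cyclic
      have hcard := Subgroup.card_eq_card_quotient_mul_card_subgroup (Subgroup.center G)
      have hdvd : Nat.card (G ⧸ Subgroup.center G) ∣ p ^ m := by
        rw [← hG, hcard]; exact dvd_mul_right _ _
      obtain ⟨k, hkm, hk⟩ := (Nat.dvd_prime_pow hp).mp hdvd
      have hk2 : 2 ≤ k := by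
        by_contra hlt
        apply hcyc
        interval_cases k
        · rw [pow_zero] at hk
          haveI : Subsingleton (G ⧸ Subgroup.center G) := (Nat.card_eq_one_iff_unique.mp hk).1
          infer_instance
        · rw [pow_one] at hk
          exact isCyclic_of_prime_card hk
      have hm1 : 1 ≤ m := by omega
      haveI : Nontrivial G := by
        rw [← Finite.one_lt_card_iff_nontrivial, hG]
        exact Nat.one_lt_pow (by omega) hp.one_lt
      have hklt : k < m := by
        rcases lt_or_eq_of_le hkm with h | h
        · exact h
        · exfalso
          subst h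
          rw [hG, hk] at hcard
          have h1 : Nat.card (Subgroup.center G) = 1 := by
            have hpos : 0 < p ^ k := pow_pos hp.pos k
            nlinarith [hcard]
          have h2 : Subgroup.center G = ⊥ := (Subgroup.card_eq_one).mp h1
          exact (ne_of_gt hPG.bot_lt_center) h2
      have hih := ih k hklt (G ⧸ Subgroup.center G) hk
      rw [Group.nilpotencyClass_quotient_center] at hih
      have : max (k - 1) 1 = k - 1 := max_eq_left (by omega)
      rw [this] at hih
      have : Group.nilpotencyClass G ≤ m - 1 := by omega
      exact this.trans (le_max_left _ _)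

/-- A finite group of prime-power order p ^ m with m > 1 is nilpotent of class at most m - 1. -/
theorem result {G : Type*} [Group G] [Finite G] (p m : ℕ) [Fact p.Prime]
    (hG : Nat.card G = p ^ m) (hm : 1 < m) : Group.nilpotencyClass G ≤ m - 1 := by
  have := aux p m G hG
  rwa [max_eq_left (by omega)] at this

end Cfsg.Agent.S0063
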