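import Cfsg.Statements.S0068
import Mathlib
-- import your own Cfsg.Agent.* helpers here

set_option autoImplicit false
open Cfsg

namespace Cfsg.Agent.S0068

/-- An involution acting fixed-point-freely on a finite normal subgroup inverts it. -/
theorem inverts {G : Type*} [Group G] [Finite G] (K : Subgroup G) [K.Normal] (s : G)
    (hs : orderOf s = 2) (hfpf : K ⊓ Subgroup.centralizer {s} = ⊥) :
    ∀ k ∈ K, s * k * s⁻¹ = k⁻¹ := by
  have hss : s * s = 1 := by
    have := pow_orderOf_eq_one s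
    rwa [hs, pow_two] at this
  have sinv : s⁻¹ = s := inv_eq_of_mul_eq_one_left hss
  let f : K → K := fun k => ⟨(k : G)⁻¹ * (s * k * s⁻¹),
    K.mul_mem (K.inv_mem k.2) (Subgroup.Normal.conj_mem inferInstance _ k.2 s)⟩
  have hf : Function.Injective f := by
    intro k l hkl
    have h1 : (k : G)⁻¹ * (s * k * s⁻¹) = (l : G)⁻¹ * (s * l * s⁻¹) := congrArg Subtype.val hkl
    have h2 : (l : G) * (k : G)⁻¹ ∈ K ⊓ Subgroup.centralizer {s} := by
      refine Subgroup.mem_inf.mpr ⟨K.mul_mem l.2 (K.inv_mem k.2), ?_⟩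
      rw [Subgroup.mem_centralizer_iff]
      intro x hx
      rw [Set.mem_singleton_iff] at hx
      subst hx
      have h3 : (l : G) * ((k : G)⁻¹ * (x * k * x⁻¹)) * x * (k : G)⁻¹ =
          (l : G) * ((l : G)⁻¹ * (x * l * x⁻¹)) * x * (k : G)⁻¹ := by rw [h1]
      have h4 : (l : G) * ((k : G)⁻¹ * (x * k * x⁻¹)) * x * (k : G)⁻¹ = (l : G) * (k : G)⁻¹ * x := by
        group
      have h5 : (l : G) * ((l : G)⁻¹ * (x * l * x⁻¹)) * x * (k : G)⁻¹ = x * ((l : G) * (k : G)⁻¹) := by
        group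
      rw [h4, h5] at h3
      exact h3.symm
    rw [hfpf, Subgroup.mem_bot] at h2
    have h6 : (l : G) = k := by
      have := mul_inv_eq_one.mp h2
      exact this
    exact Subtype.ext h6.symm
  have hsurj : Function.Surjective f := Finite.surjective_of_injective hf
  intro k hk
  obtain ⟨l, hl⟩ := hsurj ⟨k, hk⟩
  have hl' : (l : G)⁻¹ * (s * l * s⁻¹) = k := congrArg Subtype.val hl
  rw [← hl', sinv]
  have e1 : s * ((l : G)⁻¹ * (s * l * s)) * s = s * (l : G)⁻¹ * s * l * (s * s) := by group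
  have e2 : ((l : G)⁻¹ * (s * l * s))⁻¹ = s⁻¹ * (l : G)⁻¹ * s⁻¹ * l := by group
  rw [e1, e2, hss, sinv, mul_one]

/-- Frobenius complements of even order: if H complements a nontrivial normal subgroup K, each nonidentity element of H has trivial centraliser in K, and H has even order, then H contains a unique involution s, K is abelian, and s inverts every element of K. -/
theorem result {G : Type*} [Group G] [Finite G] (K H : Subgroup G) [K.Normal]
    (hc : Subgroup.IsComplement' K H) (hK : K ≠ ⊥) (hfpf : ∀ h ∈ H, h ≠ 1 → K ⊓ Subgroup.centralizer {h} = ⊥)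
    (heven : 2 ∣ Nat.card H) :
    (∃ s ∈ H, orderOf s = 2 ∧ (∀ t ∈ H, orderOf t = 2 → t = s) ∧ ∀ k ∈ K, s * k * s⁻¹ = k⁻¹) ∧ IsMulCommutative K := by
  have : Fact (Nat.Prime 2) := ⟨Nat.prime_two⟩
  obtain ⟨s0, hs0⟩ := exists_prime_orderOf_dvd_card' (G := H) 2 heven
  have hs : orderOf (s0 : G) = 2 := by rw [Subgroup.orderOf_coe]; exact hs0
  have ne1 : ∀ t : G, orderOf t = 2 → t ≠ 1 := by
    rintro t ht rfl
    rw [orderOf_one] at ht
    exact absurd ht (by norm_num)
  have inv : ∀ t ∈ H, orderOf t = 2 → ∀ k ∈ K, t * k * t⁻¹ = k⁻¹ := fun t htH ht =>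
    inverts K t ht (hfpf t htH (ne1 t ht))
  have hsinv := inv s0 s0.2 hs
  refine ⟨⟨s0, s0.2, hs, ?_, hsinv⟩, ?_⟩
  · intro t htH ht
    have htinv := inv t htH ht
    by_contra hne
    have hst : (s0 : G) * t ≠ 1 := by
      intro h1
      have hss : (s0 : G) * s0 = 1 := by
        have := pow_orderOf_eq_one (s0 : G)
        rwa [hs, pow_two] at this
      have : t = (s0 : G) := by
        calc t = ((s0 : G) * s0) * t := by rw [hss, one_mul]
          _ = s0 * ((s0 : G) * t) := by group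
          _ = s0 := by rw [h1, mul_one]
      exact hne this
    have hcent := hfpf ((s0 : G) * t) (H.mul_mem s0.2 htH) hst
    have hmem : ∀ k ∈ K, k ∈ K ⊓ Subgroup.centralizer {(s0 : G) * t} := by
      intro k hk
      refine Subgroup.mem_inf.mpr ⟨hk, ?_⟩
      rw [Subgroup.mem_centralizer_iff]
      intro x hx
      rw [Set.mem_singleton_iff] at hx
      subst hx
      have e1 : (s0 : G) * (t * k * t⁻¹) * (s0 : G)⁻¹ = k := by
        rw [htinv k hk, hsinv _ (K.inv_mem hk), inv_inv]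
      calc (s0 : G) * t * k = ((s0 : G) * (t * k * t⁻¹) * (s0 : G)⁻¹) * ((s0 : G) * t) := by group
        _ = k * ((s0 : G) * t) := by rw [e1]
    apply hK
    rw [eq_bot_iff]
    intro k hk
    have := hmem k hk
    rwa [hcent] at this
  · refine ⟨⟨fun a b => ?_⟩⟩
    apply Subtype.ext
    have h1 := hsinv (a * b : K) (a * b : K).2
    have h2 := hsinv a a.2
    have h3 := hsinv b b.2
    have h4 : (s0 : G) * ((a : G) * b) * (s0 : G)⁻¹ = ((s0 : G) * a * (s0 : G)⁻¹) * ((s0 : G) * b * (s0 : G)⁻¹) := by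
      group
    have h5 : ((a : G) * b)⁻¹ = (a : G)⁻¹ * (b : G)⁻¹ := by
      rw [← h2, ← h3, ← h4]
      exact h1.symm
    have h6 : ((a : G) * b)⁻¹ = ((b : G) * a)⁻¹ := by rw [h5, mul_inv_rev]
    exact inv_injective h6

end Cfsg.Agent.S0068
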