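import Cfsg.Statements.S0069
import Cfsg.Agent.S0040
import Cfsg.Agent.S0023
import Cfsg.Agent.Lib.Helper54.FpfCyclic
import Cfsg.Agent.Lib.Helper24.Coprime
-- import your own Cfsg.Agent.* helpers here

set_option autoImplicit false
open Cfsg

namespace Cfsg.Agent.S0069

open scoped commutatorElement

/-- A fixed-point-free involution inverts. -/
theorem inv_of_involution {G : Type*} [Group G] [Finite G] (K : Subgroup G) [K.Normal] (t : G)
    (ht2 : t * t = 1) (hfix : ∀ x ∈ K, t * x = x * t → x = 1) :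
    ∀ k ∈ K, t * k * t⁻¹ = k⁻¹ := by
  classical
  have htinv : t⁻¹ = t := inv_eq_of_mul_eq_one_left ht2
  let φ : K → K := fun x => ⟨(x : G)⁻¹ * (t * x * t⁻¹),
    K.mul_mem (K.inv_mem x.2) (Subgroup.Normal.conj_mem inferInstance _ x.2 t)⟩
  have hinj : Function.Injective φ := by
    intro x y hxy
    have h1 : (x : G)⁻¹ * (t * x * t⁻¹) = (y : G)⁻¹ * (t * y * t⁻¹) := congrArg Subtype.val hxy
    have hw : (y : G) * (x : G)⁻¹ ∈ K := K.mul_mem y.2 (K.inv_mem x.2)
    have h2 : t * ((y : G) * (x : G)⁻¹) = (y : G) * (x : G)⁻¹ * t := by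
      have e1 : t * ((y : G) * (x : G)⁻¹) = (y : G) * ((y : G)⁻¹ * (t * y * t⁻¹)) * t * (x : G)⁻¹ := by
        group
      rw [e1, ← h1]; group
    have h3 := hfix _ hw h2
    apply Subtype.ext
    have : (y : G) = (y : G) * (x : G)⁻¹ * x := by group
    rw [this, h3, one_mul]
  have hsurj : Function.Surjective φ := Finite.surjective_of_injective hinj
  intro k hk
  obtain ⟨x, hx⟩ := hsurj ⟨k, hk⟩
  have hk' : k = (x : G)⁻¹ * (t * x * t⁻¹) := (congrArg Subtype.val hx).symm
  rw [hk', htinv]
  have e1 : t * ((x : G)⁻¹ * (t * x * t)) * t = t * (x : G)⁻¹ * t * x * (t * t) := by group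
  have e2 : ((x : G)⁻¹ * (t * x * t))⁻¹ = t⁻¹ * (x : G)⁻¹ * t⁻¹ * x := by group
  rw [e1, e2, ht2, htinv, mul_one]

theorem center_ne_bot_of_even {G : Type*} [Group G] [Finite G] (K H : Subgroup G) [K.Normal]
    (hK : K ≠ ⊥)
    (hfpf : ∀ h ∈ H, h ≠ 1 → ∀ x ∈ K, h * x = x * h → x = 1)
    (heven : 2 ∣ Nat.card H) : Subgroup.center H ≠ ⊥ := by
  classical
  obtain ⟨t, ht⟩ := exists_prime_orderOf_dvd_card' (G := H) 2 heven
  have ht1 : t ≠ 1 := by
    intro h1; rw [h1, orderOf_one] at ht; omega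
  have ht2 : t * t = 1 := by
    have := pow_orderOf_eq_one t
    rwa [ht, pow_two] at this
  have ht2' : (t : G) * (t : G) = 1 := congrArg Subtype.val ht2
  have ht1' : (t : G) ≠ 1 := fun h => ht1 (Subtype.ext h)
  have hinvt := inv_of_involution K (t : G) ht2' (hfpf t t.2 ht1')
  have hcentral : t ∈ Subgroup.center H := by
    rw [Subgroup.mem_center_iff]
    intro h
    -- s = h t h⁻¹ is an involution
    set s : G := (h : G) * t * (h : G)⁻¹ with hs
    have hsH : s ∈ H := H.mul_mem (H.mul_mem h.2 t.2) (H.inv_mem h.2)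
    have hs2 : s * s = 1 := by
      rw [hs]
      have : (h : G) * t * (h : G)⁻¹ * ((h : G) * t * (h : G)⁻¹) = (h : G) * (t * t) * (h : G)⁻¹ := by
        group
      rw [this, ht2']; group
    have hs1 : s ≠ 1 := by
      intro h1
      apply ht1'
      have : (t : G) = (h : G)⁻¹ * s * h := by rw [hs]; group
      rw [this, h1]; group
    have hinvs := inv_of_involution K s hs2 (hfpf s hsH hs1)
    have hst : s * t = 1 := by
      by_contra hne
      obtain ⟨k, hk, hk1⟩ := K.bot_or_exists_ne_one.resolve_left hK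
      apply hk1
      apply hfpf (s * t) (H.mul_mem hsH t.2) hne k hk
      have h1 := hinvt k hk
      have h2 := hinvs k⁻¹ (K.inv_mem hk)
      rw [inv_inv] at h2
      have e : s * t * k = s * (t * k * (t : G)⁻¹) * s⁻¹ * (s * t) := by group
      rw [e, h1, h2]
    have hst' : s = t := by
      have : s = (t : G)⁻¹ := eq_inv_of_mul_eq_one_left hst
      rw [this]; exact inv_eq_of_mul_eq_one_left ht2'
    apply Subtype.ext
    show (h : G) * t = t * h
    have : (h : G) * t = s * h := by rw [hs]; group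
    rw [this, hst']
  intro hbot
  rw [hbot, Subgroup.mem_bot] at hcentral
  exact ht1 hcentral

theorem center_ne_bot_of_odd {G : Type*} [Group G] [Finite G] (K H : Subgroup G) [K.Normal]
    (hc : Subgroup.IsComplement' K H) (hK : K ≠ ⊥) (hH : H ≠ ⊥)
    (hfpf0 : ∀ h ∈ H, h ≠ 1 → K ⊓ Subgroup.centralizer {h} = ⊥)
    (hfpf : ∀ h ∈ H, h ≠ 1 → ∀ x ∈ K, h * x = x * h → x = 1)
    (hodd : ¬ 2 ∣ Nat.card H) : Subgroup.center H ≠ ⊥ := by
  classical
  -- coprimality
  have hcop : (Nat.card H).Coprime (Nat.card K) := by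
    apply Nat.coprime_of_dvd
    intro p hp hpH hpK
    haveI : Fact p.Prime := ⟨hp⟩
    obtain ⟨u, hu⟩ := exists_prime_orderOf_dvd_card' (G := H) p hpH
    have hu1 : (u : G) ≠ 1 := by
      intro h1
      have : u = 1 := Subtype.ext h1
      rw [this, orderOf_one] at hu
      exact hp.one_lt.ne hu
    have hup : (u : G) ^ p = 1 := by
      rw [← hu, ← Subgroup.orderOf_coe]; exact pow_orderOf_eq_one _
    have := Cfsg.Agent.Lib.Helper54.FpfNorm.coprime_card_of_fpf K hup (hfpf u u.2 hu1)
    exact (Nat.Prime.coprime_iff_not_dvd hp).mp this.symm hpK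
  -- H is a Z-group
  haveI hZ : IsZGroup H := ⟨fun p hp P => by
    haveI : Fact p.Prime := ⟨hp⟩
    rcases Cfsg.Agent.S0040.result K H hc hK hfpf0 p P with h | ⟨n, ⟨e⟩⟩
    · exact h
    · exfalso
      apply hodd
      have h1 : Nat.card P = 4 * 2 ^ n := by
        rw [Nat.card_congr e.toEquiv, Nat.card_eq_fintype_card, QuaternionGroup.card]
      have h2 : Nat.card P ∣ Nat.card H := Subgroup.card_subgroup_dvd_card _
      rw [h1] at h2
      exact (Dvd.intro (2 * 2 ^ n) (by ring)).trans h2⟩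
  haveI : Nontrivial H := (Subgroup.nontrivial_iff_ne_bot H).mpr hH
  -- an H-invariant nontrivial abelian subgroup V of K
  have hKcard : Nat.card K ≠ 1 := by
    intro h1
    exact hK (Subgroup.eq_bot_of_card_eq K h1)
  obtain ⟨s, hs, hsK⟩ := Nat.exists_prime_and_dvd hKcard
  haveI : Fact s.Prime := ⟨hs⟩
  have hHK : H ≤ Subgroup.normalizer (K : Set G) := by
    rw [Subgroup.normalizer_eq_top]; exact le_top
  obtain ⟨P, hP⟩ := Cfsg.Agent.S0023.result H K hHK hcop (Or.inl inferInstance) s
  set S := (P : Subgroup K).map K.subtype with hS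
  set V := S ⊓ Subgroup.centralizer (S : Set G) with hV
  have hHV : H ≤ Subgroup.normalizer (V : Set G) :=
    hP.trans (Cfsg.Agent.Lib.Helper54.FpfNorm.normalizer_le_normalizer_inf_centralizer S)
  have hVab : ∀ x ∈ V, ∀ y ∈ V, x * y = y * x := by
    intro x hx y hy
    exact (Subgroup.mem_centralizer_iff.mp (Subgroup.mem_inf.mp hy).2) x (Subgroup.mem_inf.mp hx).1
  have hSK : S ≤ K := Subgroup.map_subtype_le _
  have hVK : V ≤ K := inf_le_left.trans hSK
  have hVne : V ≠ ⊥ := by
    have hPne : (P : Subgroup K) ≠ ⊥ := P.ne_bot_of_dvd_card hsK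
    have hSne : S ≠ ⊥ := by
      intro h0
      apply hPne
      rw [hS, Subgroup.map_eq_bot_iff_of_injective _ K.subtype_injective] at h0
      exact h0
    have hSp : IsPGroup s S := P.2.map K.subtype
    haveI : Nontrivial S := (Subgroup.nontrivial_iff_ne_bot S).mpr hSne
    have hcn := hSp.center_nontrivial
    obtain ⟨z, hz⟩ := exists_ne (1 : Subgroup.center S)
    intro hbot
    apply hz
    have hzV : ((z : S) : G) ∈ V := by
      refine Subgroup.mem_inf.mpr ⟨(z : S).2, ?_⟩
      rw [Subgroup.mem_centralizer_iff]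
      intro g hg
      have := (Subgroup.mem_center_iff.mp z.2) ⟨g, hg⟩
      exact congrArg Subtype.val this
    rw [hbot, Subgroup.mem_bot] at hzV
    apply Subtype.ext
    apply Subtype.ext
    exact hzV
  have hfpfV : ∀ a ∈ H, a ≠ 1 → ∀ x ∈ V, a * x = x * a → x = 1 :=
    fun a ha ha1 x hx => hfpf a ha ha1 x (hVK hx)
  -- structure of H
  set A := commutator H with hA
  have hAlt : A < ⊤ := IsZGroup.commutator_lt H
  haveI hAcyc : IsCyclic A := IsZGroup.isCyclic_commutator H
  have hAab : ∀ x ∈ A, ∀ y ∈ A, x * y = y * x := by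
    intro x hx y hy
    have := (IsCyclic.isMulCommutative (α := A)).is_comm.comm ⟨x, hx⟩ ⟨y, hy⟩
    exact congrArg Subtype.val this
  obtain ⟨B, hB⟩ := Subgroup.exists_right_complement'_of_coprime (IsZGroup.coprime_commutator_index H)
  have hBcard : Nat.card B = A.index := (hB.symm.index_eq_card).symm
  have hBne : Nat.card B ≠ 1 := by
    intro h1
    rw [hBcard] at h1
    exact hAlt.ne (Subgroup.index_eq_one.mp h1)
  obtain ⟨q, hq, hqB⟩ := Nat.exists_prime_and_dvd hBne
  haveI : Fact q.Prime := ⟨hq⟩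
  obtain ⟨b', hb'⟩ := exists_prime_orderOf_dvd_card' (G := B) q hqB
  set b : H := (b' : H) with hb
  have hbB : b ∈ B := b'.2
  have hbord : orderOf b = q := by rw [hb, Subgroup.orderOf_coe]; exact hb'
  have hb1 : b ≠ 1 := by
    intro h1; rw [h1, orderOf_one] at hbord; exact hq.one_lt.ne hbord
  have hqA : q.Coprime (Nat.card A) := by
    have := IsZGroup.coprime_commutator_index H
    rw [← hBcard] at this
    exact (Nat.Coprime.coprime_dvd_right hqB this).symm
  have hbG1 : (b : G) ≠ 1 := fun h => hb1 (Subtype.ext h)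
  have hbGord : orderOf (b : G) = q := by rw [Subgroup.orderOf_coe]; exact hbord
  -- conjugation by b on A is a power map
  obtain ⟨m, hm⟩ := MonoidHom.map_cyclic ((MulAut.conjNormal b : MulAut A).toMonoidHom)
  obtain ⟨m', hm'⟩ := MonoidHom.map_cyclic ((MulAut.conjNormal b⁻¹ : MulAut A).toMonoidHom)
  have hconj : ∀ a ∈ A, b * a * b⁻¹ = a ^ m := by
    intro a ha
    have := hm ⟨a, ha⟩
    have h2 := congrArg Subtype.val this
    simpa [MulAut.conjNormal_apply] using h2
  have hconj' : ∀ a ∈ A, b⁻¹ * a * b = a ^ m' := by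
    intro a ha
    have := hm' ⟨a, ha⟩
    have h2 := congrArg Subtype.val this
    simpa [MulAut.conjNormal_apply] using h2
  -- b commutes with elements of prime order in A
  have hprime : ∀ a ∈ A, (orderOf a).Prime → a * b = b * a := by
    intro a ha hr
    set r := orderOf a with hrdef
    have haG : orderOf (a : G) = r := by rw [Subgroup.orderOf_coe]
    have hrq : r.Coprime q := by
      have h1 : r ∣ Nat.card A := by
        have := orderOf_dvd_natCard (⟨a, ha⟩ : A)
        rwa [Subgroup.orderOf_mk] at this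
      exact (Nat.Coprime.coprime_dvd_right h1 hqA).symm
    have hnorm : Subgroup.zpowers (b : G) ≤ Subgroup.normalizer ((Subgroup.zpowers (a : G) : Subgroup G) : Set G) := by
      rw [Subgroup.zpowers_le]
      apply Cfsg.Agent.S0026.mem_normalizer_of_conj_mem
      · intro h hh
        obtain ⟨i, rfl⟩ := Subgroup.mem_zpowers_iff.mp hh
        have e : (b : G) * (a : G) ^ i * (b : G)⁻¹ = ((b : G) * a * (b : G)⁻¹) ^ i := by
          rw [conj_zpow]
        rw [e]
        have : (b : G) * a * (b : G)⁻¹ = (a : G) ^ m := by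
          have := congrArg Subtype.val (hconj a ha)
          simpa using this
        rw [this]
        exact Subgroup.zpow_mem _ (Subgroup.zpow_mem _ (Subgroup.mem_zpowers _) _) _
      · intro h hh
        obtain ⟨i, rfl⟩ := Subgroup.mem_zpowers_iff.mp hh
        have e : (b : G)⁻¹ * (a : G) ^ i * (b : G) = ((b : G)⁻¹ * a * (b : G)) ^ i := by
          have := conj_zpow (a := (b : G)⁻¹) (b := (a : G)) (i := i)
          rw [inv_inv] at this
          exact this.symm
        rw [e]
        have : (b : G)⁻¹ * a * (b : G) = (a : G) ^ m' := by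
          have := congrArg Subtype.val (hconj' a ha)
          simpa using this
        rw [this]
        exact Subgroup.zpow_mem _ (Subgroup.zpow_mem _ (Subgroup.mem_zpowers _) _) _
    have hdisj : Disjoint (Subgroup.zpowers (a : G)) (Subgroup.zpowers (b : G)) := by
      apply Subgroup.disjoint_of_coprime_natCard
      rw [Nat.card_zpowers, Nat.card_zpowers, haG, hbGord]
      exact hrq
    set A₀ := Subgroup.zpowers (a : G) ⊔ Subgroup.zpowers (b : G) with hA₀
    have hcompl := Cfsg.Agent.S0023.compl_in_sup (Subgroup.zpowers (a : G)) (Subgroup.zpowers (b : G))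
      hnorm hdisj
    have hcard : Nat.card A₀ = r * q := by
      rw [← hcompl.card_mul_card, Cfsg.Agent.S0001.card_subgroupOf_of_le le_sup_left,
        Cfsg.Agent.S0001.card_subgroupOf_of_le le_sup_right, Nat.card_zpowers, Nat.card_zpowers,
        haG, hbGord]
    have hA₀H : A₀ ≤ H := by
      apply sup_le
      · rw [Subgroup.zpowers_le]; exact a.2
      · rw [Subgroup.zpowers_le]; exact b.2
    haveI hcyc : IsCyclic A₀ := Cfsg.Agent.Lib.Helper54.FpfCyclic.isCyclic_of_fpf A₀ V hVab hVne
      (hA₀H.trans hHV) (fun x hx hx1 y hy => hfpfV x (hA₀H hx) hx1 y hy)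
      (Or.inr ⟨r, q, hr, hq, hcard⟩)
    have haA₀ : (a : G) ∈ A₀ := Subgroup.mem_sup_left (Subgroup.mem_zpowers _)
    have hbA₀ : (b : G) ∈ A₀ := Subgroup.mem_sup_right (Subgroup.mem_zpowers _)
    have := (IsCyclic.isMulCommutative (α := A₀)).is_comm.comm ⟨(a : G), haA₀⟩ ⟨(b : G), hbA₀⟩
    apply Subtype.ext
    exact congrArg (fun t : A₀ => (t : G)) this
  -- b commutes with A
  have hbnorm : b ∈ Subgroup.normalizer (A : Set H) := by
    rw [Subgroup.normalizer_eq_top]; exact Subgroup.mem_top _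
  have hbcop : (orderOf b).Coprime (Nat.card A) := by rw [hbord]; exact hqA
  have hcommA : ∀ x ∈ A, x * b = b * x := by
    intro x hx
    by_contra hne
    have hc1 : ⁅x, b⁆ ≠ 1 := by
      intro h1
      rw [commutatorElement_eq_one_iff_mul_comm] at h1
      exact hne h1
    have hcA : ⁅x, b⁆ ∈ A := by
      rw [commutatorElement_def]
      have h1 : b * x⁻¹ * b⁻¹ ∈ A := Subgroup.Normal.conj_mem inferInstance _ (A.inv_mem hx) b
      have h2 := A.mul_mem hx h1
      have e : x * (b * x⁻¹ * b⁻¹) = x * b * x⁻¹ * b⁻¹ := by group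
      rwa [e] at h2
    set n := orderOf ⁅x, b⁆ with hn
    have hn0 : n ≠ 0 := (orderOf_pos _).ne'
    have hn1 : n ≠ 1 := by
      intro h1; exact hc1 (orderOf_eq_one_iff.mp h1)
    set r := n.minFac with hr
    have hrp : r.Prime := Nat.minFac_prime hn1
    have hrn : r ∣ n := Nat.minFac_dvd n
    set j := n / r with hj
    have hj0 : j ≠ 0 := by
      intro h0
      have := Nat.div_mul_cancel hrn
      rw [← hj, h0, zero_mul] at this
      exact hn0 this.symm
    have hjn : j ∣ n := Nat.div_dvd_of_dvd hrn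
    have hord : orderOf (⁅x, b⁆ ^ j) = r := by
      rw [orderOf_pow_of_dvd hj0 hjn, hj, ← hn, Nat.div_div_self hrn hn0]
    -- ⁅x,b⁆^j = ⁅x^j, b⁆
    have hpow : ⁅x, b⁆ ^ j = ⁅x ^ j, b⁆ := by
      have h1 : b * x⁻¹ * b⁻¹ ∈ A := Subgroup.Normal.conj_mem inferInstance _ (A.inv_mem hx) b
      have hcomm : Commute x (b * x⁻¹ * b⁻¹) := hAab x hx _ h1
      have e1 : ⁅x, b⁆ = x * (b * x⁻¹ * b⁻¹) := by rw [commutatorElement_def]; group
      have e2 : ⁅x ^ j, b⁆ = x ^ j * (b * x⁻¹ * b⁻¹) ^ j := by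
        rw [commutatorElement_def, conj_pow, inv_pow]; group
      rw [e1, e2, hcomm.mul_pow]
    have hcj : ⁅x, b⁆ ^ j ∈ A := A.pow_mem hcA j
    have h3 := hprime _ hcj (hord ▸ hrp)
    rw [hpow] at h3
    have h4 := Cfsg.Agent.Lib.Helper24.Coprime.commute_of_commutator_commute hbnorm hbcop
      (A.pow_mem hx j) h3
    have h5 : ⁅x ^ j, b⁆ = 1 := by
      rw [commutatorElement_eq_one_iff_mul_comm]; exact h4
    rw [← hpow] at h5
    rw [h5, orderOf_one] at hord
    exact hrp.one_lt.ne hord
  -- b is central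
  have hcentral : b ∈ Subgroup.center H := by
    rw [Subgroup.mem_center_iff]
    intro h
    have hmem : h ∈ A ⊔ B := by rw [hB.sup_eq_top]; exact Subgroup.mem_top _
    obtain ⟨a₁, ha₁, b₁, hb₁, rfl⟩ := Subgroup.mem_sup_of_normal_left.mp hmem
    have h1 : a₁ * b = b * a₁ := hcommA a₁ ha₁
    have h2 : b₁ * b = b * b₁ := by
      have hcB : ⁅b₁, b⁆ ∈ A ⊓ B := by
        refine Subgroup.mem_inf.mpr ⟨?_, ?_⟩
        · rw [hA, commutator_def]
          exact Subgroup.commutator_mem_commutator (Subgroup.mem_top _) (Subgroup.mem_top _)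
        · rw [commutatorElement_def]
          exact B.mul_mem (B.mul_mem (B.mul_mem hb₁ hbB) (B.inv_mem hb₁)) (B.inv_mem hbB)
      rw [hB.disjoint.eq_bot, Subgroup.mem_bot, commutatorElement_eq_one_iff_mul_comm] at hcB
      exact hcB
    rw [mul_assoc, h2, ← mul_assoc, h1, mul_assoc]
  intro hbot
  rw [hbot, Subgroup.mem_bot] at hcentral
  exact hb1 hcentral

/-- A Frobenius complement has nontrivial centre: if H ≠ 1 complements a nontrivial normal subgroup K and every nonidentity element of H has trivial centraliser in K, then the centre of H is nontrivial. -/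
theorem result {G : Type*} [Group G] [Finite G] (K H : Subgroup G) [K.Normal]
    (hc : Subgroup.IsComplement' K H) (hK : K ≠ ⊥) (hH : H ≠ ⊥) (hfpf : ∀ h ∈ H, h ≠ 1 → K ⊓ Subgroup.centralizer {h} = ⊥) :
    Subgroup.center H ≠ ⊥ := by
  classical
  have hfpf' : ∀ h ∈ H, h ≠ 1 → ∀ x ∈ K, h * x = x * h → x = 1 := by
    intro h hh h1 x hx hcomm
    have : x ∈ K ⊓ Subgroup.centralizer {h} := by
      refine Subgroup.mem_inf.mpr ⟨hx, ?_⟩
      rw [Subgroup.mem_centralizer_singleton_iff]
      exact hcomm.symm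
    rw [hfpf h hh h1, Subgroup.mem_bot] at this
    exact this
  by_cases heven : 2 ∣ Nat.card H
  · exact center_ne_bot_of_even K H hK hfpf' heven
  · exact center_ne_bot_of_odd K H hc hK hH hfpf hfpf' heven

end Cfsg.Agent.S0069
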