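import Cfsg.Statements.S0073
import Cfsg.Agent.Lib.Helper2.NC

set_option autoImplicit false
open Cfsg

namespace Cfsg.Agent.S0073

open Cfsg.Agent.Lib.Helper2

/-- For a finite non-abelian simple group, either the cube of the least prime divisor of the order divides the order, or 12 does. -/
theorem result {G : Type*} [Group G] [Finite G] [IsSimpleGroup G] (hG : ∃ x y : G, x * y ≠ y * x) : (Nat.card G).minFac ^ 3 ∣ Nat.card G ∨ 12 ∣ Nat.card G := by
  by_contra hcon
  push Not at hcon
  obtain ⟨hc3, hc12⟩ := hcon
  have hcard1 : Nat.card G ≠ 1 := by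
    intro h
    have := (Nat.card_eq_one_iff_unique.mp h).1
    obtain ⟨x, y, hxy⟩ := hG
    exact hxy (Subsingleton.elim _ _)
  set p := (Nat.card G).minFac with hp_def
  have hp : p.Prime := Nat.minFac_prime hcard1
  haveI : Fact p.Prime := ⟨hp⟩
  have hpG : p ∣ Nat.card G := Nat.minFac_dvd _
  obtain P : Sylow p G := default
  obtain ⟨n, hn⟩ := P.2.exists_card_eq
  have hPdvd : p ^ n ∣ Nat.card G := hn ▸ Subgroup.card_subgroup_dvd_card (P : Subgroup G)
  have hn2 : n ≤ 2 := by
    by_contra hlt
    apply hc3
    exact (pow_dvd_pow p (by omega)).trans hPdvd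
  have hn1 : 1 ≤ n := by
    by_contra hlt
    have hn0 : n = 0 := by omega
    subst hn0
    rw [pow_zero] at hn
    have hbot : (P : Subgroup G) = ⊥ := Subgroup.card_eq_one.mp hn
    exact P.ne_bot_of_dvd_card hpG hbot
  have hcomm : IsMulCommutative P := by
    interval_cases n
    · rw [pow_one] at hn
      have := isCyclic_of_prime_card hn
      exact IsCyclic.isMulCommutative
    · exact IsPGroup.isMulCommutative_of_card_eq_prime_sq hn
  by_cases hNC : Subgroup.normalizer (P : Set G) ≤ Subgroup.centralizer (P : Set G)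
  · have hcompl := MonoidHom.ker_transferSylow_isComplement' P hNC
    rcases (inferInstance : (MonoidHom.transferSylow P hNC).ker.Normal).eq_bot_or_eq_top with h | h
    · rw [h, Subgroup.isComplement'_bot_left] at hcompl
      obtain ⟨x, y, hxy⟩ := hG
      apply hxy
      have hx : x ∈ (P : Subgroup G) := by rw [hcompl]; trivial
      have hy : y ∈ (P : Subgroup G) := by rw [hcompl]; trivial
      have := hcomm.is_comm.comm ⟨x, hx⟩ ⟨y, hy⟩
      exact congrArg Subtype.val this
    · rw [h, Subgroup.isComplement'_top_left] at hcompl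
      exact P.ne_bot_of_dvd_card hpG hcompl
  · obtain ⟨q, d, hq, hqp, hqG, hd1, hd2, hdvd⟩ :=
      NC.exists_prime_dvd_of_not_le P hcomm n hn hNC
    have hpq : p ≤ q := Nat.minFac_le_of_dvd hq.two_le hqG
    have hp2 : 2 ≤ p := hp.two_le
    have hnot1 : ¬ q ∣ p - 1 := by
      intro h
      have := Nat.le_of_dvd (by omega) h
      omega
    have hd : d = 2 := by
      by_contra hd
      have : d = 1 := by omega
      subst this
      rw [pow_one] at hdvd
      exact hnot1 hdvd
    subst hd
    have hn' : n = 2 := by omega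
    subst hn'
    have h1 : p ^ 2 - 1 = (p - 1) * (p + 1) := by
      have h0 := Nat.sq_sub_sq p 1
      rw [one_pow] at h0
      rw [h0, mul_comm]
    rw [h1] at hdvd
    have h2 : q ∣ p + 1 := (hq.dvd_mul.mp hdvd).resolve_left hnot1
    have h3 : q ≤ p + 1 := Nat.le_of_dvd (by omega) h2
    have h4 : q = p + 1 := by omega
    have hp2' : p = 2 := by
      rcases hp.eq_two_or_odd with h | h
      · exact h
      · exfalso
        have h5 : 2 ∣ q := by omega
        have h6 : q = 2 := ((Nat.prime_dvd_prime_iff_eq Nat.prime_two hq).mp h5).symm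
        omega
    have hq3 : q = 3 := by omega
    apply hc12
    have h4G : 4 ∣ Nat.card G := by
      have := hPdvd
      rw [hp2'] at this
      simpa using this
    have h3G : 3 ∣ Nat.card G := hq3 ▸ hqG
    have : (4 * 3) ∣ Nat.card G := Nat.Coprime.mul_dvd_of_dvd_of_dvd (by norm_num) h4G h3G
    simpa using this

end Cfsg.Agent.S0073
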