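import Cfsg.Statements.S0074
import Mathlib

set_option autoImplicit false
open Cfsg

namespace Cfsg.Agent.S0074

open scoped commutatorElement

/-- For an abelian Sylow subgroup, every generator of the focal subgroup is a commutator `⁅x, n⁆`
with `x ∈ P` and `n` in the normalizer of `P`. -/
theorem focal_gen {G : Type*} [Group G] [Finite G] {p : ℕ} [Fact p.Prime] (P : Sylow p G)
    (hP : IsMulCommutative P) (x u : G) (hx : x ∈ P) (hg : ⁅x, u⁆ ∈ P) :
    ∃ n ∈ Subgroup.normalizer (P : Set G), ⁅x, u⁆ = ⁅x, n⁆ := by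
  have h1 : (u⁻¹)⁻¹ * x⁻¹ * u⁻¹ ∈ P := by
    have : (u⁻¹)⁻¹ * x⁻¹ * u⁻¹ = x⁻¹ * ⁅x, u⁆ := by
      rw [commutatorElement_def]; group
    rw [this]
    exact mul_mem (inv_mem hx) hg
  obtain ⟨n, hn, hn'⟩ := P.conj_eq_normalizer_conj_of_mem x⁻¹ u⁻¹ (inv_mem hx) h1
  refine ⟨n⁻¹, inv_mem hn, ?_⟩
  rw [commutatorElement_def, commutatorElement_def]
  have h2 : u * x⁻¹ * u⁻¹ = n⁻¹ * x⁻¹ * n := by simpa using hn'
  calc x * u * x⁻¹ * u⁻¹ = x * (u * x⁻¹ * u⁻¹) := by group
    _ = x * (n⁻¹ * x⁻¹ * n) := by rw [h2]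
    _ = x * n⁻¹ * x⁻¹ * n⁻¹⁻¹ := by group

/-- For an abelian Sylow p-subgroup P, the intersection of P with the derived subgroup of G equals its intersection with the derived subgroup of the normalizer of P. -/
theorem result {G : Type*} [Group G] [Finite G] {p : ℕ} [Fact p.Prime] (P : Sylow p G) (hP : IsMulCommutative P) : commutator G ⊓ (P : Subgroup G) = ⁅Subgroup.normalizer (P : Set G), Subgroup.normalizer (P : Set G)⁆ ⊓ (P : Subgroup G) := by
  apply le_antisymm
  · rw [Subgroup.commutator_inf_eq_focalSubgroup]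
    refine le_inf ?_ (Subgroup.focalSubgroup_le _)
    rw [Subgroup.focalSubgroup_def, Subgroup.closure_le]
    rintro g ⟨hgP, x, hx, u, rfl⟩
    obtain ⟨n, hn, hn'⟩ := focal_gen P hP x u hx hgP
    rw [hn']
    exact Subgroup.commutator_mem_commutator (Subgroup.le_normalizer hx) hn
  · refine inf_le_inf_right _ ?_
    rw [commutator_def]
    exact Subgroup.commutator_mono le_top le_top

end Cfsg.Agent.S0074
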