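import Cfsg.Statements.S0075
import Cfsg.Agent.Lib.Helper2.Focal

set_option autoImplicit false
open Cfsg

namespace Cfsg.Agent.S0075

open Cfsg.Agent.Lib.Helper2

/-- For an abelian Sylow p-subgroup T, its intersection with the subgroup generated by the elements of order prime to p is the commutator of T with its normalizer. -/
theorem result {G : Type*} [Group G] [Finite G] {p : ℕ} [Fact p.Prime] (T : Sylow p G) (hT : IsMulCommutative T) : (T : Subgroup G) ⊓ Cfsg.pResidual p G = ⁅(T : Subgroup G), Subgroup.normalizer (T : Set G)⁆ := by
  rw [← Focal.focal_eq_commutator_normalizer T hT]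
  apply le_antisymm
  · exact Focal.inf_pResidual_le_focal T
  · exact le_inf (Subgroup.focalSubgroup_le _)
      ((Subgroup.focalSubgroup_le_commutator _).trans (Focal.commutator_le_pResidual T hT))

end Cfsg.Agent.S0075
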