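import Cfsg.Statements.S0076
import Mathlib
-- import your own Cfsg.Agent.* helpers here

set_option autoImplicit false
open Cfsg

namespace Cfsg.Agent.S0076

open scoped Pointwise

/-- The setwise stabiliser of a set under conjugation. -/
def stab {G : Type*} [Group G] (X : Set G) : Subgroup G :=
  (MulAction.stabilizer (MulAut G) X).comap MulAut.conj

theorem mem_stab {G : Type*} [Group G] (X : Set G) (a : G) :
    a ∈ stab X ↔ (fun y => a * y * a⁻¹) '' X = X := by
  unfold stab
  rw [Subgroup.mem_comap, MulAction.mem_stabilizer_iff]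
  rfl

/-- Two P-invariant subsets of a Sylow p-subgroup P that are conjugate in G are conjugate under the normalizer of P. -/
theorem result {G : Type*} [Group G] [Finite G] {p : ℕ} [Fact p.Prime] (P : Sylow p G) (X Y : Set G) (hXP : X ⊆ P) (hYP : Y ⊆ P) (hX : ∀ x ∈ P, (fun y => x * y * x⁻¹) '' X = X) (hY : ∀ x ∈ P, (fun y => x * y * x⁻¹) '' Y = Y) (g : G) (hg : (fun y => g * y * g⁻¹) '' X = Y) : ∃ n ∈ Subgroup.normalizer (P : Set G), (fun y => n * y * n⁻¹) '' X = Y := by
  have h1 : (P : Subgroup G) ≤ stab X := fun x hx => (mem_stab X x).mpr (hX x hx)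
  have hcomp : ∀ (a b : G) (Z : Set G), (fun y => (a * b) * y * (a * b)⁻¹) '' Z =
      (fun y => a * y * a⁻¹) '' ((fun y => b * y * b⁻¹) '' Z) := by
    intro a b Z
    rw [Set.image_image]
    congr 1
    funext y
    group
  have hginv : (fun y => g⁻¹ * y * g⁻¹⁻¹) '' Y = X := by
    rw [← hg, ← hcomp]
    simp
  have h2 : ((g⁻¹ • P : Sylow p G) : Subgroup G) ≤ stab X := by
    intro x hx
    rw [Sylow.coe_subgroup_smul, Subgroup.mem_pointwise_smul_iff_inv_smul_mem] at hx
    rw [mem_stab]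
    have hx' : g * x * g⁻¹ ∈ P := by
      have hx2 : g * x * g⁻¹ ∈ (P : Subgroup G) := by simpa using hx
      exact hx2
    have e : x = g⁻¹ * ((g * x * g⁻¹) * g) := by group
    rw [e, hcomp, hcomp, hg, hY _ hx', hginv]
  obtain ⟨h, hh⟩ :=
    MulAction.exists_smul_eq (stab X) ((g⁻¹ • P).subtype h2) (P.subtype h1)
  simp_rw [Sylow.smul_subtype, Subgroup.smul_def, smul_smul] at hh
  have hn : (h : G) * g⁻¹ ∈ Subgroup.normalizer (P : Set G) :=
    Sylow.smul_eq_iff_mem_normalizer.mp (Sylow.subtype_injective hh)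
  refine ⟨((h : G) * g⁻¹)⁻¹, Subgroup.inv_mem _ hn, ?_⟩
  have e : ((h : G) * g⁻¹)⁻¹ = g * (h : G)⁻¹ := by group
  rw [e, hcomp]
  have hh' : (h : G)⁻¹ ∈ stab X := Subgroup.inv_mem _ h.2
  rw [(mem_stab X _).mp hh', hg]

end Cfsg.Agent.S0076
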