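import Cfsg.Statements.S0104
import Mathlib
-- import your own Cfsg.Agent.* helpers here

set_option autoImplicit false
open Cfsg

namespace Cfsg.Agent.S0104

open scoped Pointwise

theorem mem_norm_iff {G : Type*} [Group G] (Z : Subgroup G) (g : G) :
    g ∈ Subgroup.normalizer (Z : Set G) ↔ Z.map (MulAut.conj g).toMonoidHom = Z :=
  Subgroup.mem_normalizer_iff_map_conj_eq

theorem map_conj_mul {G : Type*} [Group G] (Z : Subgroup G) (a b : G) :
    Z.map (MulAut.conj (a * b)).toMonoidHom =
      (Z.map (MulAut.conj b).toMonoidHom).map (MulAut.conj a).toMonoidHom := by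
  rw [Subgroup.map_map]
  congr 1
  ext x
  simp

/-- A subgroup Z of a Sylow p-subgroup P that is normalized by N_G(P) is weakly closed in P exactly when it is normal in every Sylow p-subgroup containing it. -/
theorem result {G : Type*} [Group G] [Finite G] {p : ℕ} [Fact p.Prime] (P : Sylow p G) (Z : Subgroup G) (hZP : Z ≤ (P : Subgroup G)) (hZN : Subgroup.normalizer (P : Set G) ≤ Subgroup.normalizer (Z : Set G)) : Cfsg.IsWeaklyClosed Z P ↔ ∀ R : Sylow p G, Z ≤ (R : Subgroup G) → (R : Subgroup G) ≤ Subgroup.normalizer (Z : Set G) := by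
  have hPN : (P : Subgroup G) ≤ Subgroup.normalizer (Z : Set G) :=
    le_trans Subgroup.le_normalizer hZN
  constructor
  · rintro ⟨-, hwc⟩ R hZR
    obtain ⟨g, rfl⟩ := MulAction.exists_smul_eq G P R
    -- Z ≤ g P g⁻¹, so g⁻¹ Z g ≤ P
    have h1 : Z.map (MulAut.conj g⁻¹).toMonoidHom ≤ P := by
      rintro _ ⟨z, hz, rfl⟩
      have hz' := hZR hz
      rw [Sylow.coe_subgroup_smul, Subgroup.mem_pointwise_smul_iff_inv_smul_mem] at hz'
      simpa [MulAut.smul_def] using hz'
    have h2 := hwc g⁻¹ h1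
    have hg : g⁻¹ ∈ Subgroup.normalizer (Z : Set G) := (mem_norm_iff Z _).mpr h2
    have hg' : g ∈ Subgroup.normalizer (Z : Set G) := by
      have := Subgroup.inv_mem _ hg
      rwa [inv_inv] at this
    intro r hr
    rw [Sylow.coe_subgroup_smul, Subgroup.mem_pointwise_smul_iff_inv_smul_mem] at hr
    have hr' : g⁻¹ * r * g ∈ (P : Subgroup G) := by simpa [MulAut.smul_def] using hr
    have e : r = g * (g⁻¹ * r * g) * g⁻¹ := by group
    rw [e]
    exact Subgroup.mul_mem _ (Subgroup.mul_mem _ hg' (hPN hr')) hg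
  · intro hall
    refine ⟨hZP, ?_⟩
    intro g hg
    rw [← mem_norm_iff]
    have h2 : ((g⁻¹ • P : Sylow p G) : Subgroup G) ≤ Subgroup.normalizer (Z : Set G) := by
      apply hall
      intro z hz
      rw [Sylow.coe_subgroup_smul, Subgroup.mem_pointwise_smul_iff_inv_smul_mem]
      have : g * z * g⁻¹ ∈ (P : Subgroup G) := hg ⟨z, hz, by simp⟩
      simpa [MulAut.smul_def] using this
    obtain ⟨h, hh⟩ :=
      MulAction.exists_smul_eq (Subgroup.normalizer (Z : Set G)) ((g⁻¹ • P).subtype h2) (P.subtype hPN)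
    simp_rw [Sylow.smul_subtype, Subgroup.smul_def, smul_smul] at hh
    have hn : (h : G) * g⁻¹ ∈ Subgroup.normalizer (P : Set G) :=
      Sylow.smul_eq_iff_mem_normalizer.mp (Sylow.subtype_injective hh)
    have hn' := hZN hn
    have e : g = ((h : G)⁻¹ * ((h : G) * g⁻¹))⁻¹ := by group
    rw [e]
    exact Subgroup.inv_mem _ (Subgroup.mul_mem _ (Subgroup.inv_mem _ h.2) hn')

end Cfsg.Agent.S0104
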