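import Cfsg.Statements.S0077
import Mathlib
import Cfsg.Agent.S0104
-- import your own Cfsg.Agent.* helpers here

set_option autoImplicit false
open Cfsg

namespace Cfsg.Agent.S0077

open scoped Pointwise commutatorElement

theorem mem_conj_smul {G : Type*} [Group G] (H : Subgroup G) (g x : G) :
    x ∈ MulAut.conj g • H ↔ g⁻¹ * x * g ∈ H := by
  rw [Subgroup.mem_pointwise_smul_iff_inv_smul_mem]
  simp [MulAut.smul_def]

/-- Fusion of elements of `P` is controlled by the normalizer of a weakly closed central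
subgroup. -/
theorem fusion {G : Type*} [Group G] [Finite G] {p : ℕ} [Fact p.Prime] (P : Sylow p G)
    (Z : Subgroup G) (hZ : Z ≤ Subgroup.centralizer (P : Set G)) (hW : Cfsg.IsWeaklyClosed Z P)
    (w u : G) (hw : w ∈ (P : Subgroup G)) (hv : u * w * u⁻¹ ∈ (P : Subgroup G)) :
    ∃ m ∈ Subgroup.normalizer (Z : Set G), m * w * m⁻¹ = u * w * u⁻¹ := by
  obtain ⟨hZP, hwc⟩ := hW
  have hZp : IsPGroup p Z := P.isPGroup'.to_le hZP
  have memD : ∀ c : G, c ∈ Subgroup.centralizer ({u * w * u⁻¹} : Set G) ↔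
      (u * w * u⁻¹) * c = c * (u * w * u⁻¹) := by
    intro c
    rw [Subgroup.mem_centralizer_iff]
    constructor
    · intro h; exact h _ rfl
    · intro h y hy
      rw [Set.mem_singleton_iff] at hy
      subst hy
      exact h
  have hZD : Z ≤ Subgroup.centralizer ({u * w * u⁻¹} : Set G) := by
    intro z hz
    rw [memD]
    exact (Subgroup.mem_centralizer_iff.mp (hZ hz)) _ hv
  have hZuD : Z.map (MulAut.conj u).toMonoidHom ≤ Subgroup.centralizer ({u * w * u⁻¹} : Set G) := by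
    rintro _ ⟨z, hz, rfl⟩
    rw [memD]
    have h1 : w * z = z * w := (Subgroup.mem_centralizer_iff.mp (hZ hz)) w hw
    show (u * w * u⁻¹) * (u * z * u⁻¹) = (u * z * u⁻¹) * (u * w * u⁻¹)
    calc (u * w * u⁻¹) * (u * z * u⁻¹) = u * (w * z) * u⁻¹ := by group
      _ = u * (z * w) * u⁻¹ := by rw [h1]
      _ = (u * z * u⁻¹) * (u * w * u⁻¹) := by group
  have hp1 : IsPGroup p (Z.subgroupOf (Subgroup.centralizer ({u * w * u⁻¹} : Set G))) :=
    hZp.comap_subtype
  have hp2 : IsPGroup p ((Z.map (MulAut.conj u).toMonoidHom).subgroupOf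
      (Subgroup.centralizer ({u * w * u⁻¹} : Set G))) :=
    (hZp.map (MulAut.conj u).toMonoidHom).comap_subtype
  obtain ⟨T₁, hT₁⟩ := hp1.exists_le_sylow
  obtain ⟨T₂, hT₂⟩ := hp2.exists_le_sylow
  obtain ⟨c, hc⟩ := MulAction.exists_smul_eq (Subgroup.centralizer ({u * w * u⁻¹} : Set G)) T₂ T₁
  obtain ⟨P', hP'⟩ := (T₁.isPGroup'.map
    (Subgroup.centralizer ({u * w * u⁻¹} : Set G)).subtype).exists_le_sylow
  obtain ⟨k, rfl⟩ := MulAction.exists_smul_eq G P P'
  have hk : Z.map (MulAut.conj k⁻¹).toMonoidHom ≤ P := by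
    rintro _ ⟨z, hz, rfl⟩
    have h1 : z ∈ ((k • P : Sylow p G) : Subgroup G) :=
      hP' ⟨⟨z, hZD hz⟩, hT₁ (by rw [Subgroup.mem_subgroupOf]; exact hz), rfl⟩
    rw [Sylow.coe_subgroup_smul, mem_conj_smul] at h1
    simpa using h1
  have hk' := (Cfsg.Agent.S0104.mem_norm_iff Z k⁻¹).mpr (hwc k⁻¹ hk)
  have hkcu : Z.map (MulAut.conj (k⁻¹ * (c : G) * u)).toMonoidHom ≤ P := by
    rintro _ ⟨z, hz, rfl⟩
    have hmem : u * z * u⁻¹ ∈ Z.map (MulAut.conj u).toMonoidHom := ⟨z, hz, by simp⟩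
    have h0 : (⟨u * z * u⁻¹, hZuD hmem⟩ : Subgroup.centralizer ({u * w * u⁻¹} : Set G)) ∈
        (T₂ : Subgroup (Subgroup.centralizer ({u * w * u⁻¹} : Set G))) :=
      hT₂ (by rw [Subgroup.mem_subgroupOf]; exact hmem)
    have h1 : c * ⟨u * z * u⁻¹, hZuD hmem⟩ * c⁻¹ ∈
        (T₁ : Subgroup (Subgroup.centralizer ({u * w * u⁻¹} : Set G))) := by
      rw [← hc, Sylow.coe_subgroup_smul, mem_conj_smul]
      have e : c⁻¹ * (c * ⟨u * z * u⁻¹, hZuD hmem⟩ * c⁻¹) * c = ⟨u * z * u⁻¹, hZuD hmem⟩ := by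
        group
      rw [e]
      exact h0
    have h2 : (c : G) * (u * z * u⁻¹) * (c : G)⁻¹ ∈ ((k • P : Sylow p G) : Subgroup G) :=
      hP' ⟨_, h1, rfl⟩
    rw [Sylow.coe_subgroup_smul, mem_conj_smul] at h2
    have e : (MulAut.conj (k⁻¹ * (c : G) * u)).toMonoidHom z =
        k⁻¹ * ((c : G) * (u * z * u⁻¹) * (c : G)⁻¹) * k := by
      simp [mul_assoc]
    rw [e]
    exact h2
  have hkcu' := (Cfsg.Agent.S0104.mem_norm_iff Z _).mpr (hwc _ hkcu)
  refine ⟨(c : G) * u, ?_, ?_⟩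
  · have e : (c : G) * u = (k⁻¹)⁻¹ * (k⁻¹ * (c : G) * u) := by group
    rw [e]
    exact Subgroup.mul_mem _ (Subgroup.inv_mem _ hk') hkcu'
  · have hcD := (memD _).mp c.2
    calc (c : G) * u * w * ((c : G) * u)⁻¹ = (c : G) * (u * w * u⁻¹) * (c : G)⁻¹ := by group
      _ = (u * w * u⁻¹) * (c : G) * (c : G)⁻¹ := by rw [hcD]
      _ = u * w * u⁻¹ := by group

/-- If a subgroup Z of the centre of a Sylow p-subgroup P is weakly closed in P, then P meets the derived subgroup of G exactly where it meets the derived subgroup of the normalizer of Z. -/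
theorem result {G : Type*} [Group G] [Finite G] {p : ℕ} [Fact p.Prime] (P : Sylow p G) (Z : Subgroup G) (hZ : Z ≤ Subgroup.centralizer (P : Set G)) (hW : Cfsg.IsWeaklyClosed Z P) : commutator G ⊓ (P : Subgroup G) = ⁅Subgroup.normalizer (Z : Set G), Subgroup.normalizer (Z : Set G)⁆ ⊓ (P : Subgroup G) := by
  have hPN : (P : Subgroup G) ≤ Subgroup.normalizer (Z : Set G) := by
    refine le_trans ?_ (Subgroup.centralizer_le_normalizer _)
    intro x hx
    rw [Subgroup.mem_centralizer_iff]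
    intro z hz
    exact ((Subgroup.mem_centralizer_iff.mp (hZ hz)) x hx).symm
  apply le_antisymm
  · rw [Subgroup.commutator_inf_eq_focalSubgroup]
    apply le_inf _ (Subgroup.focalSubgroup_le _)
    rw [Subgroup.focalSubgroup_def, Subgroup.closure_le]
    rintro g ⟨hgP, x, hxP, u, rfl⟩
    have hw : x⁻¹ ∈ (P : Subgroup G) := Subgroup.inv_mem _ hxP
    have hv : u * x⁻¹ * u⁻¹ ∈ (P : Subgroup G) := by
      have e : u * x⁻¹ * u⁻¹ = x⁻¹ * ⁅x, u⁆ := by
        rw [commutatorElement_def]; group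
      rw [e]
      exact Subgroup.mul_mem _ hw hgP
    obtain ⟨m, hm, hmw⟩ := fusion P Z hZ hW x⁻¹ u hw hv
    have e : ⁅x, u⁆ = ⁅x, m⁆ := by
      rw [commutatorElement_def, commutatorElement_def]
      calc x * u * x⁻¹ * u⁻¹ = x * (u * x⁻¹ * u⁻¹) := by group
        _ = x * (m * x⁻¹ * m⁻¹) := by rw [hmw]
        _ = x * m * x⁻¹ * m⁻¹ := by group
    rw [SetLike.mem_coe, e]
    exact Subgroup.commutator_mem_commutator (hPN hxP) hm
  · apply inf_le_inf_right
    rw [commutator_def]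
    exact Subgroup.commutator_mono le_top le_top

end Cfsg.Agent.S0077
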