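import Mathlib
import Cfsg.Statements.S0078
import Cfsg.Agent.Lib.Helper4.Tate
import Cfsg.Agent.S0077
-- import your own Cfsg.Agent.* helpers here

set_option autoImplicit false
open Cfsg

namespace Cfsg.Agent.S0078

open scoped Pointwise

/-- `O^p` of a subgroup lies in `O^p` of the group. -/
theorem map_pResidual_le {G : Type*} [Group G] (p : ℕ) (V : Subgroup G) :
    (Cfsg.pResidual p V).map V.subtype ≤ Cfsg.pResidual p G := by
  unfold Cfsg.pResidual
  rw [MonoidHom.map_closure, Subgroup.closure_le]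
  rintro _ ⟨g, hg, rfl⟩
  apply Subgroup.subset_closure
  show Nat.Coprime (orderOf (g : G)) p
  rw [Subgroup.orderOf_coe]
  exact hg

/-- `O^p(V)` lies in every normal subgroup of index `p`. -/
theorem pResidual_le_of_index {V : Type*} [Group V] [Finite V] {p : ℕ} (hp : p.Prime)
    (M : Subgroup V) [M.Normal] (hM : M.index = p) : Cfsg.pResidual p V ≤ M := by
  unfold Cfsg.pResidual
  rw [Subgroup.closure_le]
  intro g hg
  have hg' : Nat.Coprime (orderOf g) p := hg
  have h1 : orderOf (QuotientGroup.mk' M g) ∣ orderOf g := orderOf_map_dvd _ g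
  have h2 : orderOf (QuotientGroup.mk' M g) ∣ p := by
    rw [← hM, Subgroup.index_eq_card]; exact orderOf_dvd_natCard _
  have h3 : orderOf (QuotientGroup.mk' M g) = 1 := Nat.eq_one_of_dvd_coprimes hg' h1 h2
  exact (QuotientGroup.eq_one_iff g).mp (orderOf_eq_one_iff.mp h3)

/-- The commutator subgroup lies in every normal subgroup of prime index. -/
theorem commutator_le_of_index {V : Type*} [Group V] [Finite V] {p : ℕ} (hp : p.Prime)
    (M : Subgroup V) [M.Normal] (hM : M.index = p) : commutator V ≤ M := by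
  haveI : Fact p.Prime := ⟨hp⟩
  have hcard : Nat.card (V ⧸ M) = p := by rw [← Subgroup.index_eq_card]; exact hM
  haveI hcyc : IsCyclic (V ⧸ M) := isCyclic_of_prime_card hcard
  letI : CommGroup (V ⧸ M) := IsCyclic.commGroup
  have := Abelianization.commutator_subset_ker (QuotientGroup.mk' M)
  rwa [QuotientGroup.ker_mk'] at this

/-- `p`-normality makes the centre of `P` weakly closed in `P`. -/
theorem weaklyClosed_center {G : Type*} [Group G] [Finite G] {p : ℕ} [Fact p.Prime]
    (P : Sylow p G)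
    (hn : ∀ Q : Sylow p G, (P : Subgroup G) ⊓ Subgroup.centralizer (P : Set G) ≤ (Q : Subgroup G) →
      (Q : Subgroup G) ⊓ Subgroup.centralizer (Q : Set G)
        = (P : Subgroup G) ⊓ Subgroup.centralizer (P : Set G)) :
    Cfsg.IsWeaklyClosed ((P : Subgroup G) ⊓ Subgroup.centralizer (P : Set G)) (P : Subgroup G) := by
  refine ⟨inf_le_left, ?_⟩
  intro g hg
  have hQmem : ∀ x : G, x ∈ ((g⁻¹ • P : Sylow p G) : Subgroup G) ↔ g * x * g⁻¹ ∈ (P : Subgroup G) := by
    intro x
    rw [Sylow.coe_subgroup_smul, Cfsg.Agent.S0077.mem_conj_smul]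
    simp
  have hZQ : (P : Subgroup G) ⊓ Subgroup.centralizer (P : Set G) ≤ ((g⁻¹ • P : Sylow p G) : Subgroup G) := by
    intro z hz
    rw [hQmem]
    exact hg ⟨z, hz, by simp [MulAut.conj_apply]⟩
  have hQ := hn (g⁻¹ • P) hZQ
  have hle : ((P : Subgroup G) ⊓ Subgroup.centralizer (P : Set G)).map (MulAut.conj g).toMonoidHom
      ≤ (P : Subgroup G) ⊓ Subgroup.centralizer (P : Set G) := by
    rintro _ ⟨z, hz, rfl⟩
    have hz' : z ∈ ((g⁻¹ • P : Sylow p G) : Subgroup G) ⊓
        Subgroup.centralizer (((g⁻¹ • P : Sylow p G) : Subgroup G) : Set G) := hQ.ge hz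
    obtain ⟨hz1, hz2⟩ := Subgroup.mem_inf.mp hz'
    rw [Subgroup.mem_inf]
    constructor
    · show g * z * g⁻¹ ∈ (P : Subgroup G)
      exact (hQmem z).mp hz1
    · rw [Subgroup.mem_centralizer_iff]
      intro u hu
      have hu' : g⁻¹ * u * g ∈ ((g⁻¹ • P : Sylow p G) : Subgroup G) := by
        rw [hQmem]
        have : g * (g⁻¹ * u * g) * g⁻¹ = u := by group
        rw [this]; exact hu
      have hc := Subgroup.mem_centralizer_iff.mp hz2 (g⁻¹ * u * g) hu'
      show u * (g * z * g⁻¹) = (g * z * g⁻¹) * u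
      calc u * (g * z * g⁻¹) = g * ((g⁻¹ * u * g) * z) * g⁻¹ := by group
        _ = g * (z * (g⁻¹ * u * g)) * g⁻¹ := by rw [hc]
        _ = g * z * g⁻¹ * u := by group
  apply Subgroup.eq_of_le_of_card_ge hle
  rw [Subgroup.card_map_of_injective (MulAut.conj g).injective]

/-- In a p-normal group, a Sylow p-subgroup P meets O^p(G) exactly where it meets O^p(V), for any subgroup V containing the normalizer of the centre of P. -/
theorem result {G : Type*} [Group G] [Finite G] {p : ℕ} [Fact p.Prime] (P : Sylow p G) (hn : ∀ Q : Sylow p G, (P : Subgroup G) ⊓ Subgroup.centralizer (P : Set G) ≤ (Q : Subgroup G) → (Q : Subgroup G) ⊓ Subgroup.centralizer (Q : Set G) = (P : Subgroup G) ⊓ Subgroup.centralizer (P : Set G)) (V : Subgroup G) (hV : Subgroup.normalizer (((P : Subgroup G) ⊓ Subgroup.centralizer (P : Set G) : Subgroup G) : Set G) ≤ V) : (P : Subgroup G) ⊓ Cfsg.pResidual p G = (P : Subgroup G) ⊓ (Cfsg.pResidual p V).map V.subtype := by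
  classical
  have hp : p.Prime := Fact.out
  set Z : Subgroup G := (P : Subgroup G) ⊓ Subgroup.centralizer (P : Set G) with hZdef
  have hZc : Z ≤ Subgroup.centralizer (P : Set G) := inf_le_right
  have hW : Cfsg.IsWeaklyClosed Z (P : Subgroup G) := weaklyClosed_center P hn
  have hgrun := Cfsg.Agent.S0077.result P Z hZc hW
  have hPN : (P : Subgroup G) ≤ Subgroup.normalizer (Z : Set G) := by
    refine le_trans ?_ (Subgroup.centralizer_le_normalizer _)
    intro x hx
    rw [Subgroup.mem_centralizer_iff]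
    intro z hz
    exact ((Subgroup.mem_centralizer_iff.mp (hZc hz)) x hx).symm
  have hPV : (P : Subgroup G) ≤ V := le_trans hPN hV
  have hVidx : ¬ p ∣ V.index := fun h =>
    P.not_dvd_index (dvd_trans h (Subgroup.index_dvd_of_le hPV))
  -- the subgroup of elements whose image in the abelianization has order prime to `p`
  let T : Subgroup (Abelianization G) :=
    { carrier := {a | Nat.Coprime (orderOf a) p}
      mul_mem' := by
        intro a b ha hb
        have h1 : orderOf (a * b) ∣ Nat.lcm (orderOf a) (orderOf b) :=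
          (Commute.all a b).orderOf_mul_dvd_lcm
        exact Nat.Coprime.coprime_dvd_left (dvd_trans h1 (Nat.lcm_dvd_mul _ _)) (Nat.Coprime.mul_left ha hb)
      one_mem' := by simp
      inv_mem' := by
        intro a ha
        simpa [orderOf_inv] using ha }
  let N : Subgroup G := T.comap Abelianization.of
  haveI hNn : N.Normal := Subgroup.Normal.comap inferInstance _
  have hNmem : ∀ g : G, g ∈ N ↔ Nat.Coprime (orderOf (Abelianization.of g)) p := fun g => Iff.rfl
  have hres : Cfsg.pResidual p G ≤ N := by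
    unfold Cfsg.pResidual
    rw [Subgroup.closure_le]
    intro g hg
    have hg' : Nat.Coprime (orderOf g) p := hg
    show g ∈ N
    rw [hNmem]
    exact Nat.Coprime.coprime_dvd_left (orderOf_map_dvd _ g) hg'
  have hNP : N ⊓ (P : Subgroup G) ≤ commutator G := by
    rintro u ⟨hu0, hu2⟩
    have hu1 : Nat.Coprime (orderOf (Abelianization.of u)) p := hu0
    obtain ⟨k, hk⟩ := P.2 ⟨u, hu2⟩
    have hk' : u ^ p ^ k = 1 := congrArg Subtype.val hk
    have h1 : orderOf (Abelianization.of u) ∣ p ^ k := by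
      apply orderOf_dvd_of_pow_eq_one
      rw [← map_pow, hk', map_one]
    have h2 : orderOf (Abelianization.of u) = 1 :=
      Nat.eq_one_of_dvd_coprimes (Nat.Coprime.pow_right k hu1) dvd_rfl h1
    have h3 : Abelianization.of u = 1 := orderOf_eq_one_iff.mp h2
    rw [← Abelianization.ker_of]
    exact h3
  have hM : ∀ M : Subgroup V, M.Normal → M.index = p → N.subgroupOf V ≤ M := by
    intro M hMn hMi y hy
    haveI := hMn
    have hyN : (y : G) ∈ N := hy
    have hPVidx : ¬ p ∣ ((P : Subgroup G).subgroupOf V).index := fun h =>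
      P.not_dvd_index (dvd_trans h (Subgroup.relIndex_dvd_index_of_le hPV))
    obtain ⟨s, hs, m, hm, hy2⟩ :=
      Cfsg.Agent.Lib.Helper34.PResidual.exists_mul_of_not_dvd_index hp
        ((P : Subgroup G).subgroupOf V) hPVidx y
    have hmM : m ∈ M := pResidual_le_of_index hp M hMi hm
    have hmN : (m : G) ∈ N := hres (map_pResidual_le p V ⟨m, hm, rfl⟩)
    have hsP : (s : G) ∈ (P : Subgroup G) := hs
    have hsN : (s : G) ∈ N := by
      have : (s : G) = (y : G) * (m : G)⁻¹ := by rw [hy2]; simp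
      rw [this]
      exact N.mul_mem hyN (N.inv_mem hmN)
    have hsc : (s : G) ∈ commutator G ⊓ (P : Subgroup G) := ⟨hNP ⟨hsN, hsP⟩, hsP⟩
    rw [hgrun] at hsc
    have hsV : (s : G) ∈ ⁅V, V⁆ := Subgroup.commutator_mono hV hV hsc.1
    rw [← Subgroup.map_subtype_commutator] at hsV
    obtain ⟨c, hc, hcs⟩ := hsV
    have hcs' : c = s := Subtype.ext hcs
    have hsM : s ∈ M := commutator_le_of_index hp M hMi (hcs' ▸ hc)
    rw [hy2]
    exact M.mul_mem hsM hmM
  have htate := Cfsg.Agent.Lib.Helper4.Tate.tate hp V hVidx N hres hM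
  apply le_antisymm
  · rintro x ⟨hxP, hxO⟩
    refine ⟨hxP, ?_⟩
    have hxV : x ∈ V := hPV hxP
    exact ⟨⟨x, hxV⟩, htate hxO, rfl⟩
  · rintro x ⟨hxP, hxO⟩
    exact ⟨hxP, map_pResidual_le p V hxO⟩

end Cfsg.Agent.S0078
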