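import Cfsg.Statements.S0079
import Cfsg.Agent.Lib.Helper2.Hall
import Cfsg.Agent.Lib.Helper2.Nilp

set_option autoImplicit false
open Cfsg

namespace Cfsg.Agent.S0079

open Cfsg.Agent.Lib.Helper2

/-- a subgroup with a normal complement controls its own fusion -/
theorem control_of_complement {G : Type*} [Group G] (H N : Subgroup G) [N.Normal]
    (hc : N.IsComplement' H) :
    ∀ x ∈ H, ∀ y ∈ H, (∃ g : G, g * x * g⁻¹ = y) → ∃ h ∈ H, h * x * h⁻¹ = y := by
  rintro x hx y hy ⟨g, rfl⟩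
  have htop : N ⊔ H = ⊤ := hc.sup_eq_top
  have hg : g ∈ N ⊔ H := by rw [htop]; trivial
  rw [Subgroup.mem_sup_of_normal_left] at hg
  obtain ⟨n, hn, h', hh', rfl⟩ := hg
  refine ⟨h', hh', ?_⟩
  set x' := h' * x * h'⁻¹ with hx'
  have hx'H : x' ∈ H := H.mul_mem (H.mul_mem hh' hx) (H.inv_mem hh')
  have e1 : n * h' * x * (n * h')⁻¹ = n * x' * n⁻¹ := by rw [hx']; group
  rw [e1] at hy ⊢
  have h1 : n * x' * n⁻¹ * x'⁻¹ ∈ N := by
    have : n * x' * n⁻¹ * x'⁻¹ = n * (x' * n⁻¹ * x'⁻¹) := by group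
    rw [this]
    exact N.mul_mem hn ((inferInstance : N.Normal).conj_mem _ (N.inv_mem hn) x')
  have h2 : n * x' * n⁻¹ * x'⁻¹ ∈ H := H.mul_mem hy (H.inv_mem hx'H)
  have h3 : n * x' * n⁻¹ * x'⁻¹ ∈ N ⊓ H := ⟨h1, h2⟩
  rw [disjoint_iff.mp hc.disjoint, Subgroup.mem_bot] at h3
  have : n * x' * n⁻¹ = n * x' * n⁻¹ * x'⁻¹ * x' := by group
  rw [this, h3, one_mul]

/-- A nilpotent Hall subgroup has a normal complement exactly when elements of it that are conjugate in the whole group are already conjugate inside it. -/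
theorem result {G : Type*} [Group G] [Finite G] (H : Subgroup G) (hH : Group.IsNilpotent H) (hHall : Nat.Coprime (Nat.card H) H.index) : (∃ N : Subgroup G, N.Normal ∧ N.IsComplement' H) ↔ ∀ x ∈ H, ∀ y ∈ H, (∃ g : G, g * x * g⁻¹ = y) → ∃ h ∈ H, h * x * h⁻¹ = y := by
  constructor
  · rintro ⟨N, hN, hc⟩
    exact control_of_complement H N hc
  · intro hctl
    apply Hall.exists_normal_complement_of_forall H hHall
    intro p hp hpH
    haveI : Fact p.Prime := ⟨hp⟩
    obtain S : Sylow p H := default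
    have hSp : IsPGroup p ((S : Subgroup H).map H.subtype) := S.2.map _
    have hSi : ¬ p ∣ ((S : Subgroup H).map H.subtype).index := by
      rw [Subgroup.index_map_subtype]
      intro hdvd
      rcases (Nat.Prime.dvd_mul hp).mp hdvd with h | h
      · exact S.not_dvd_index h
      · have := Nat.Coprime.eq_one_of_dvd (Nat.Coprime.coprime_dvd_left hpH hHall) h
        exact hp.ne_one this
    let P : Sylow p G := hSp.toSylow hSi
    have hP : ∀ x : G, x ∈ P ↔ ∃ s ∈ S, (s : G) = x := by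
      intro x
      show x ∈ (S : Subgroup H).map H.subtype ↔ _
      rw [Subgroup.mem_map]
      rfl
    have hctlP : ∀ x ∈ P, ∀ y ∈ P, (∃ g : G, g * x * g⁻¹ = y) → ∃ z ∈ P, z * x * z⁻¹ = y := by
      intro x hx y hy hg
      obtain ⟨x', hx'S, rfl⟩ := (hP x).mp hx
      obtain ⟨y', hy'S, rfl⟩ := (hP y).mp hy
      obtain ⟨h, hhH, hh⟩ := hctl x' x'.2 y' y'.2 hg
      obtain ⟨a, ha, c, hc, hac⟩ := Nilp.exists_mul_centralizer S ⟨h, hhH⟩
      refine ⟨a, (hP a).mpr ⟨a, ha, rfl⟩, ?_⟩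
      have hcx : c * x' = x' * c := (Subgroup.mem_centralizer_iff.mp hc x' hx'S).symm
      have hh' : (⟨h, hhH⟩ : H) * x' * (⟨h, hhH⟩ : H)⁻¹ = y' := Subtype.ext hh
      rw [hac] at hh'
      have : a * x' * a⁻¹ = y' := by
        rw [← hh']
        calc a * x' * a⁻¹ = a * (x' * c) * c⁻¹ * a⁻¹ := by group
          _ = a * (c * x') * c⁻¹ * a⁻¹ := by rw [hcx]
          _ = a * c * x' * (a * c)⁻¹ := by group
      exact congrArg Subtype.val this
    obtain ⟨K, hKn, hKc⟩ := FusCtl.exists_normal_complement P hctlP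
    exact ⟨P, K, hKn, hKc⟩

end Cfsg.Agent.S0079
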