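import Cfsg.Statements.S0080
-- import your own Cfsg.Agent.* helpers here

set_option autoImplicit false
open Cfsg

namespace Cfsg.Agent.S0080

open scoped IsMulCommutative in
/-- When the index of H is prime to the order of H/H', the focal subgroup of H is G' ∩ H, and H/(G' ∩ H) has a normal complement. -/
theorem result {G : Type*} [Group G] [Finite G] (H : Subgroup G) (h : Nat.Coprime H.index (⁅H, H⁆.relIndex H)) : Subgroup.focalSubgroup H = commutator G ⊓ H ∧ ∃ N : Subgroup G, N.Normal ∧ N ⊓ H = commutator G ⊓ H ∧ N ⊔ H = ⊤ := by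
  classical
  -- the quotient H / H* has order prime to the index
  have hcard : Nat.card (H ⧸ H.focalSubgroupOf) = (Subgroup.focalSubgroup H).relIndex H := rfl
  have hdvd : (Subgroup.focalSubgroup H).relIndex H ∣ ⁅H, H⁆.relIndex H := by
    have := Subgroup.relIndex_mul_relIndex ⁅H, H⁆ (Subgroup.focalSubgroup H) H
      H.commutator_le_focalSubgroup H.focalSubgroup_le
    exact Dvd.intro_left _ this
  have hcop : (Nat.card (H ⧸ H.focalSubgroupOf)).Coprime H.index := by
    rw [hcard]
    exact (Nat.Coprime.coprime_dvd_right hdvd h).symm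
  have hbij := Nat.Coprime.pow_left_bijective hcop
  obtain ⟨V, hVpow⟩ : ∃ V : G →* H ⧸ H.focalSubgroupOf,
      ∀ x : H, V (x : G) = (x : H ⧸ H.focalSubgroupOf) ^ H.index :=
    ⟨H.transferFocal, H.transferFocal_eq_pow⟩
  -- kernel of V meets H in the focal subgroup
  have hker : V.ker ⊓ H = Subgroup.focalSubgroup H := by
    ext x
    rw [Subgroup.mem_inf, MonoidHom.mem_ker]
    constructor
    · rintro ⟨hx1, hxH⟩
      have h1 := hVpow ⟨x, hxH⟩
      have h1' : V x = V ((⟨x, hxH⟩ : H) : G) := rfl
      rw [h1', h1] at hx1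
      have h2 : ((⟨x, hxH⟩ : H) : H ⧸ H.focalSubgroupOf) = 1 := by
        apply hbij.1
        show _ ^ H.index = (1 : H ⧸ H.focalSubgroupOf) ^ H.index
        rw [hx1, one_pow]
      rw [QuotientGroup.eq_one_iff, Subgroup.focalSubgroupOf_def, Subgroup.mem_subgroupOf] at h2
      exact h2
    · intro hx
      have hxH : x ∈ H := H.focalSubgroup_le hx
      refine ⟨?_, hxH⟩
      have h1 := hVpow ⟨x, hxH⟩
      have h1' : V x = V ((⟨x, hxH⟩ : H) : G) := rfl
      rw [h1', h1]
      have h2 : ((⟨x, hxH⟩ : H) : H ⧸ H.focalSubgroupOf) = 1 := by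
        rw [QuotientGroup.eq_one_iff, Subgroup.focalSubgroupOf_def, Subgroup.mem_subgroupOf]
        exact hx
      rw [h2, one_pow]
  have hfoc : Subgroup.focalSubgroup H = commutator G ⊓ H := by
    apply le_antisymm
    · exact le_inf H.focalSubgroup_le_commutator H.focalSubgroup_le
    · rw [← hker]
      exact inf_le_inf_right _ (Abelianization.commutator_subset_ker V)
  refine ⟨hfoc, V.ker, MonoidHom.normal_ker V, ?_, ?_⟩
  · rw [hker, hfoc]
  · rw [eq_top_iff]
    intro g _
    obtain ⟨y, hy⟩ := hbij.2 (V g)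
    obtain ⟨x, rfl⟩ := QuotientGroup.mk_surjective y
    have h1 := hVpow x
    have h2 : V (x : G) = V g := by rw [h1]; exact hy
    have h3 : g * (x : G)⁻¹ ∈ V.ker := by
      rw [MonoidHom.mem_ker, map_mul, map_inv, h2, mul_inv_cancel]
    have h4 : g = g * (x : G)⁻¹ * (x : G) := by group
    rw [h4]
    exact Subgroup.mul_mem _ (Subgroup.mem_sup_left h3) (Subgroup.mem_sup_right x.2)

end Cfsg.Agent.S0080
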