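import Cfsg.Statements.S0082
import Cfsg.Agent.Lib.Helper2.PComp
import Cfsg.Agent.Lib.Helper34.PResidual
-- import your own Cfsg.Agent.* helpers here

set_option autoImplicit false
open Cfsg

namespace Cfsg.Agent.S0082

open scoped commutatorElement

/-- With a cyclic Sylow p-subgroup, either there is a normal p-complement or the elements of order prime to p generate the whole group. -/
theorem result {G : Type*} [Group G] [Finite G] {p : ℕ} [Fact p.Prime] (P : Sylow p G) (hP : IsCyclic P) : Cfsg.HasNormalPComplement p G ∨ Cfsg.pResidual p G = ⊤ := by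
  classical
  have hp : p.Prime := Fact.out
  haveI := hP
  rcases Sylow.normalizer_le_centralizer_or_le_commutator P with h | h
  · left
    exact Cfsg.Agent.Lib.Helper2.PComp.hasNormalPComplement_of_normalizer_le_centralizer P h
  · right
    haveI hRn := Cfsg.Agent.Lib.Helper34.PResidual.pResidual_normal p G
    obtain ⟨n, hn⟩ := Cfsg.Agent.Lib.Helper34.PResidual.exists_index_pResidual_eq hp G
    set R := Cfsg.pResidual p G with hR
    by_contra hne
    have hQ : IsPGroup p (G ⧸ R) := by
      apply IsPGroup.of_card (n := n)
      rw [← Subgroup.index_eq_card]; exact hn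
    haveI : Nontrivial (G ⧸ R) := by
      rw [QuotientGroup.nontrivial_iff]
      exact hne
    haveI : Group.IsNilpotent (G ⧸ R) := hQ.isNilpotent
    have hlt : commutator (G ⧸ R) < ⊤ := Group.IsSolvable.commutator_lt_top_of_nontrivial (G ⧸ R)
    set M := (commutator (G ⧸ R)).comap (QuotientGroup.mk' R) with hM
    have hcM : commutator G ≤ M := by
      rw [commutator_eq_closure, Subgroup.closure_le]
      rintro _ ⟨a, b, rfl⟩
      show ⁅a, b⁆ ∈ M
      rw [hM, Subgroup.mem_comap, map_commutatorElement, commutator_def]
      exact Subgroup.commutator_mem_commutator (Subgroup.mem_top _) (Subgroup.mem_top _)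
    have hRM : R ≤ M := by
      intro x hx
      rw [hM, Subgroup.mem_comap]
      have : QuotientGroup.mk' R x = 1 := by
        rw [QuotientGroup.mk'_apply, QuotientGroup.eq_one_iff]; exact hx
      rw [this]; exact Subgroup.one_mem _
    have hMne : M ≠ ⊤ := by
      intro hMt
      apply hlt.ne
      rw [eq_top_iff]
      intro q _
      obtain ⟨x, rfl⟩ := QuotientGroup.mk'_surjective R q
      have : x ∈ M := by rw [hMt]; exact Subgroup.mem_top _
      exact this
    have h1 : M.index ∣ p ^ n := hn ▸ Subgroup.index_dvd_of_le hRM
    have h2 : M.index ∣ (P : Subgroup G).index := Subgroup.index_dvd_of_le (h.trans hcM)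
    obtain ⟨k, _, hk⟩ := (Nat.dvd_prime_pow hp).mp h1
    have hk0 : k ≠ 0 := by
      intro h0
      rw [h0, pow_zero] at hk
      exact hMne (Subgroup.index_eq_one.mp hk)
    have h3 : p ∣ M.index := by
      rw [hk]; exact dvd_pow_self p hk0
    exact P.not_dvd_index (h3.trans h2)

end Cfsg.Agent.S0082
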