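import Cfsg.Statements.S0083
import Cfsg.Agent.Lib.Helper2.PComp

set_option autoImplicit false
open Cfsg

namespace Cfsg.Agent.S0083

open Cfsg.Agent.Lib.Helper2.PComp

/-- For an abelian Sylow p-subgroup P, a normal p-complement exists exactly when the normalizer of P is an internal direct product of P with some subgroup. -/
theorem result {G : Type*} [Group G] [Finite G] {p : ℕ} [Fact p.Prime] (P : Sylow p G) (hP : IsMulCommutative P) : Cfsg.HasNormalPComplement p G ↔ ∃ Q : Subgroup G, Q ≤ Subgroup.centralizer (P : Set G) ∧ Q ⊓ (P : Subgroup G) = ⊥ ∧ Q ⊔ (P : Subgroup G) = Subgroup.normalizer (P : Set G) := by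
  constructor
  · intro h
    obtain ⟨N, hN, hc⟩ := (hasNormalPComplement_iff P).mp h
    have hdisj : N ⊓ (P : Subgroup G) = ⊥ := disjoint_iff.mp hc.disjoint
    refine ⟨N ⊓ Subgroup.normalizer (P : Set G), ?_, ?_, ?_⟩
    · intro q hq
      rw [Subgroup.mem_centralizer_iff]
      intro x hx
      have hx' : x ∈ (P : Subgroup G) := hx
      have h1 : q * x * q⁻¹ * x⁻¹ ∈ N := by
        have : q * x * q⁻¹ * x⁻¹ = q * (x * q⁻¹ * x⁻¹) := by group
        rw [this]
        exact N.mul_mem hq.1 (hN.conj_mem _ (N.inv_mem hq.1) x)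
      have h2 : q * x * q⁻¹ * x⁻¹ ∈ (P : Subgroup G) := by
        refine (P : Subgroup G).mul_mem ?_ ((P : Subgroup G).inv_mem hx')
        exact (Subgroup.mem_normalizer_iff.mp hq.2 x).mp hx'
      have h3 : q * x * q⁻¹ * x⁻¹ ∈ N ⊓ (P : Subgroup G) := ⟨h1, h2⟩
      rw [hdisj, Subgroup.mem_bot] at h3
      have : q * x = x * q := by
        have h4 : q * x * q⁻¹ * x⁻¹ * x * q = 1 * x * q := by rw [h3]
        simpa [mul_assoc] using h4
      exact this.symm
    · apply le_bot_iff.mp
      rw [← hdisj]
      exact inf_le_inf_right _ inf_le_left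
    · apply le_antisymm
      · exact sup_le inf_le_right Subgroup.le_normalizer
      · intro g hg
        have htop : N ⊔ (P : Subgroup G) = ⊤ := hc.sup_eq_top
        have hg' : g ∈ N ⊔ (P : Subgroup G) := by rw [htop]; trivial
        rw [Subgroup.mem_sup_of_normal_left] at hg'
        obtain ⟨n, hn, x, hx, rfl⟩ := hg'
        have hnN : n ∈ Subgroup.normalizer (P : Set G) := by
          have : n = n * x * x⁻¹ := by group
          rw [this]
          exact Subgroup.mul_mem _ hg (Subgroup.inv_mem _ (Subgroup.le_normalizer hx))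
        exact Subgroup.mul_mem_sup ⟨hn, hnN⟩ hx
  · rintro ⟨Q, hQ1, hQ2, hQ3⟩
    apply hasNormalPComplement_of_normalizer_le_centralizer P
    rw [← hQ3]
    exact sup_le hQ1 (Subgroup.le_centralizer (P : Subgroup G))

end Cfsg.Agent.S0083
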