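import Cfsg.Statements.S0084
import Cfsg.Agent.Lib.Helper2.NC

set_option autoImplicit false
open Cfsg

namespace Cfsg.Agent.S0084

open Cfsg.Agent.Lib.Helper2

/-- A group whose Sylow 2-subgroups are Klein four-groups and whose order is prime to 3 has a normal 2-complement. -/
theorem result {G : Type*} [Group G] [Finite G] (T : Sylow 2 G) (hT : IsKleinFour T) (h3 : ¬ 3 ∣ Nat.card G) : Cfsg.HasNormalPComplement 2 G := by
  apply PComp.hasNormalPComplement_of_normalizer_le_centralizer T
  by_contra hcon
  have hcomm : IsMulCommutative T := IsKleinFour.isMulCommutative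
  have hcard : Nat.card T = 2 ^ 2 := by
    have := hT.card_four
    simpa using this
  obtain ⟨q, d, hq, hq2, hqG, hd1, hd2, hdvd⟩ :=
    NC.exists_prime_dvd_of_not_le T hcomm 2 hcard hcon
  interval_cases d
  · simp at hdvd
    exact hq.ne_one hdvd
  · have h1 : q ∣ 3 := by simpa using hdvd
    have h2 : q = 3 := (Nat.prime_dvd_prime_iff_eq hq Nat.prime_three).mp h1
    subst h2
    exact h3 hqG

end Cfsg.Agent.S0084
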