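import Cfsg.Statements.S0085
import Cfsg.Agent.Lib.Helper2.NC

set_option autoImplicit false
open Cfsg

namespace Cfsg.Agent.S0085

open Cfsg.Agent.Lib.Helper2

/-- A group whose Sylow 2-subgroups are elementary abelian of order 8 and whose order is prime to 3 and to 7 has a normal 2-complement. -/
theorem result {G : Type*} [Group G] [Finite G] (T : Sylow 2 G) (h8 : Nat.card T = 8) (he : ∀ x : T, x * x = 1) (h3 : ¬ 3 ∣ Nat.card G) (h7 : ¬ 7 ∣ Nat.card G) : Cfsg.HasNormalPComplement 2 G := by
  apply PComp.hasNormalPComplement_of_normalizer_le_centralizer T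
  by_contra hcon
  have hcomm : IsMulCommutative T := by
    refine ⟨⟨fun a b => ?_⟩⟩
    have h1 := he (a * b)
    have ha := he a
    have hb := he b
    have h2 : a * b = b⁻¹ * a⁻¹ := by
      rw [← mul_inv_rev]; exact eq_inv_of_mul_eq_one_left h1
    have ha' : a⁻¹ = a := inv_eq_of_mul_eq_one_left ha
    have hb' : b⁻¹ = b := inv_eq_of_mul_eq_one_left hb
    rw [h2, ha', hb']
  have hcard : Nat.card T = 2 ^ 3 := by
    rw [h8]; norm_num
  obtain ⟨q, d, hq, hq2, hqG, hd1, hd2, hdvd⟩ :=
    NC.exists_prime_dvd_of_not_le T hcomm 3 hcard hcon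
  interval_cases d
  · simp at hdvd
    exact hq.ne_one hdvd
  · have h1 : q ∣ 3 := by simpa using hdvd
    have h2 : q = 3 := (Nat.prime_dvd_prime_iff_eq hq Nat.prime_three).mp h1
    subst h2
    exact h3 hqG
  · have h1 : q ∣ 7 := by simpa using hdvd
    have h2 : q = 7 := (Nat.prime_dvd_prime_iff_eq hq (by norm_num)).mp h1
    subst h2
    exact h7 hqG

end Cfsg.Agent.S0085
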