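import Cfsg.Statements.S0087
import Cfsg.Agent.Lib.Helper2.Hall
import Cfsg.Agent.Lib.Helper2.Hall2

set_option autoImplicit false
open Cfsg

namespace Cfsg.Agent.S0087

open Cfsg.Agent.Lib.Helper2

/-- A Hall subgroup that is central in its normalizer has a normal complement. -/
theorem result {G : Type*} [Group G] [Finite G] (H : Subgroup G) (hHall : Nat.Coprime (Nat.card H) H.index) (h : Subgroup.normalizer (H : Set G) ≤ Subgroup.centralizer (H : Set G)) : ∃ N : Subgroup G, N.Normal ∧ N.IsComplement' H := by
  classical
  have hcommH : ∀ a ∈ H, ∀ b ∈ H, a * b = b * a := fun a ha b hb =>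
    (Subgroup.mem_centralizer_iff.mp (h (Subgroup.le_normalizer ha)) b hb).symm
  apply Hall.exists_normal_complement_of_forall H hHall
  intro p hp hpH
  haveI : Fact p.Prime := ⟨hp⟩
  let B : ℕ → Subgroup G := fun r =>
    ((Classical.arbitrary (Sylow r H) : Sylow r H) : Subgroup H).map H.subtype
  have hBH : ∀ r, B r ≤ H := fun r => by
    rintro _ ⟨x, -, rfl⟩
    exact x.2
  have hBp : ∀ r, IsPGroup r (B r) := fun r => (Classical.arbitrary (Sylow r H)).2.map _
  have hBi : ∀ r, r.Prime → r ∣ Nat.card H → ¬ r ∣ (B r).index := by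
    intro r hr hrH
    haveI : Fact r.Prime := ⟨hr⟩
    show ¬ r ∣ (((Classical.arbitrary (Sylow r H) : Sylow r H) : Subgroup H).map H.subtype).index
    rw [Subgroup.index_map_subtype]
    intro hdvd
    rcases (Nat.Prime.dvd_mul hr).mp hdvd with h1 | h1
    · exact (Classical.arbitrary (Sylow r H)).not_dvd_index h1
    · have := Nat.Coprime.eq_one_of_dvd (Nat.Coprime.coprime_dvd_left hrH hHall) h1
      exact hr.ne_one this
  let P : Sylow p G := (hBp p).toSylow (hBi p hp hpH)
  have hPH : (P : Subgroup G) ≤ H := hBH p
  apply PComp.hasNormalPComplement_of_normalizer_le_centralizer P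
  intro g hg
  have hHC : H ≤ Subgroup.centralizer ((P : Subgroup G) : Set G) := fun a ha =>
    Subgroup.mem_centralizer_iff.mpr (fun x hx => hcommH x (hPH hx) a ha)
  have hHN : ∀ r, H ≤ Subgroup.normalizer (B r : Set G) := by
    intro r a ha
    rw [Subgroup.mem_normalizer_iff]
    intro y
    constructor
    · intro hy
      have : a * y * a⁻¹ = y := by rw [hcommH a ha y (hBH r hy)]; group
      rw [this]; exact hy
    · intro hy
      have hyH : y ∈ H := by
        have := H.mul_mem (H.mul_mem (H.inv_mem ha) (hBH r hy)) ha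
        have e : a⁻¹ * (a * y * a⁻¹) * a = y := by group
        rwa [e] at this
      have : a * y * a⁻¹ = y := by rw [hcommH a ha y hyH]; group
      rwa [this] at hy
  obtain ⟨c, hcC, hc⟩ := Hall2.exists_mul_mem_normalizer
    (Subgroup.centralizer ((P : Subgroup G) : Set G)) g
    (Hall2.normalizer_le_normalizer_centralizer (P : Subgroup G) hg) B (Nat.card H).primeFactors
    (fun r hr => Nat.prime_of_mem_primeFactors hr) (fun r hr => (hBH r).trans hHC)
    (fun r hr => hBp r)
    (fun r hr => hBi r (Nat.prime_of_mem_primeFactors hr) (Nat.dvd_of_mem_primeFactors hr))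
    (fun r hr r' hr' => (hBH r).trans (hHN r'))
  have key : ∀ y : G, (∀ r ∈ (Nat.card H).primeFactors, y ∈ Subgroup.normalizer (B r : Set G)) →
      ∀ a ∈ H, y * a * y⁻¹ ∈ H := by
    intro y hy
    have hle : H ≤ H.comap (MulAut.conj y).toMonoidHom := by
      apply NC.mem_of_forall_prime_pow_mem
      rintro a ha ⟨q, k, hq, hao⟩
      show y * a * y⁻¹ ∈ H
      by_cases hk : k = 0
      · subst hk
        rw [pow_zero, orderOf_eq_one_iff] at hao
        subst hao
        simp
      · have hqH : q ∣ Nat.card H :=
          (dvd_pow_self q hk).trans (hao ▸ Subgroup.orderOf_dvd_natCard H ha)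
        have hqs : q ∈ (Nat.card H).primeFactors :=
          Nat.mem_primeFactors.mpr ⟨hq, hqH, Nat.card_pos.ne'⟩
        haveI : Fact q.Prime := ⟨hq⟩
        have haB : a ∈ B q := by
          have hpg : IsPGroup q (Subgroup.zpowers (⟨a, ha⟩ : H)) := by
            apply IsPGroup.of_card (n := k)
            rw [Nat.card_zpowers, Subgroup.orderOf_mk, hao]
          have h1 := hpg.inf_normalizer_sylow (Classical.arbitrary (Sylow q H))
          have h2 : Subgroup.normalizer
              (((Classical.arbitrary (Sylow q H) : Sylow q H) : Subgroup H) : Set H) = ⊤ := by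
            rw [eq_top_iff]
            intro b _
            rw [Subgroup.mem_normalizer_iff]
            intro z
            have : b * z * b⁻¹ = z := by
              have hbz := hcommH b b.2 z z.2
              apply Subtype.ext
              show (b : G) * z * (b : G)⁻¹ = z
              rw [hbz]; group
            rw [this]
          have h3 : (⟨a, ha⟩ : H) ∈ Subgroup.zpowers (⟨a, ha⟩ : H) ⊓
              ((Classical.arbitrary (Sylow q H) : Sylow q H) : Subgroup H) := by
            have h2' : Subgroup.normalizer
                ((Classical.arbitrary (Sylow q H) : Sylow q H) : Set H) = ⊤ := h2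
            rw [← h1, h2']
            exact ⟨Subgroup.mem_zpowers _, Subgroup.mem_top _⟩
          exact ⟨⟨a, ha⟩, h3.2, rfl⟩
        exact hBH q ((Subgroup.mem_normalizer_iff.mp (hy q hqs) a).mp haB)
    exact fun a ha => hle ha
  have hxN : c * g ∈ Subgroup.normalizer (H : Set G) := by
    rw [Subgroup.mem_normalizer_iff]
    intro a
    constructor
    · exact key (c * g) hc a
    · intro ha
      have := key (c * g)⁻¹ (fun r hr => Subgroup.inv_mem _ (hc r hr)) _ ha
      have e : (c * g)⁻¹ * (c * g * a * (c * g)⁻¹) * (c * g)⁻¹⁻¹ = a := by group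
      rwa [e] at this
  have hxC : c * g ∈ Subgroup.centralizer ((P : Subgroup G) : Set G) :=
    Subgroup.centralizer_le hPH (h hxN)
  have e : g = c⁻¹ * (c * g) := by group
  rw [e]
  exact Subgroup.mul_mem _ (Subgroup.inv_mem _ hcC) hxC

end Cfsg.Agent.S0087
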