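import Cfsg.Statements.S0089
import Cfsg.Agent.S0088

set_option autoImplicit false
open Cfsg

namespace Cfsg.Agent.S0089

/-- When all Sylow subgroups are abelian, the derived subgroup meets the centre trivially. -/
theorem result {G : Type*} [Group G] [Finite G] (h : ∀ p : ℕ, p.Prime → ∀ P : Sylow p G, IsMulCommutative P) : commutator G ⊓ Subgroup.center G = ⊥ := by
  rw [eq_bot_iff]
  rintro z ⟨hzG', hzZ⟩
  rw [Subgroup.mem_bot]
  have h3 : orderOf z = 1 := by
    rw [Nat.eq_one_iff_not_exists_prime_dvd]
    intro p hp hdvd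
    haveI : Fact p.Prime := ⟨hp⟩
    obtain P : Sylow p G := default
    have h1 : orderOf z ∣ (P : Subgroup G).index :=
      orderOf_dvd_of_pow_eq_one (Cfsg.Agent.S0088.pow_index_eq_one (P : Subgroup G) (h p hp P) z hzZ hzG')
    exact P.not_dvd_index (hdvd.trans h1)
  exact orderOf_eq_one_iff.mp h3

end Cfsg.Agent.S0089
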