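import Cfsg.Statements.S0090
import Cfsg.Agent.S0026
-- import your own Cfsg.Agent.* helpers here

set_option autoImplicit false
open Cfsg

namespace Cfsg.Agent.S0090

open scoped commutatorElement

open scoped IsMulCommutative in
/-- A central element of an abelian subgroup `A` of index `n` lying in the derived subgroup
satisfies `z ^ n = 1` (transfer). -/
theorem pow_index_eq_one_of_mem_commutator {G : Type*} [Group G] [Finite G] (A : Subgroup G)
    (hc : IsMulCommutative A) (z : G) (hzZ : z ∈ Subgroup.center G)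
    (hzG : z ∈ commutator G) : z ^ A.index = 1 := by
  classical
  have key : ∀ (k : ℕ) (g₀ : G), g₀⁻¹ * z ^ k * g₀ ∈ A → g₀⁻¹ * z ^ k * g₀ = z ^ k := by
    intro k g₀ _
    have hzk : z ^ k ∈ Subgroup.center G := Subgroup.pow_mem _ hzZ k
    have := (Subgroup.mem_center_iff.mp hzk) g₀
    rw [mul_assoc, ← this, ← mul_assoc, inv_mul_cancel, one_mul]
  have h1 := MonoidHom.transfer_eq_pow (MonoidHom.id A) z key
  have h2 : MonoidHom.transfer (MonoidHom.id A) z = 1 := by
    have := Abelianization.commutator_subset_ker (MonoidHom.transfer (MonoidHom.id A)) hzG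
    exact MonoidHom.mem_ker.mp this
  rw [h2] at h1
  have h3 := congrArg Subtype.val h1
  simpa using h3.symm

/-- An abelian normal Hall subgroup A splits as the internal direct product of G' ∩ A and Z(G) ∩ A, and [A, G] = G' ∩ A. -/
theorem result {G : Type*} [Group G] [Finite G] (A : Subgroup G) [A.Normal] (hc : IsMulCommutative A) (hHall : Nat.Coprime (Nat.card A) A.index) : ⁅A, (⊤ : Subgroup G)⁆ = commutator G ⊓ A ∧ (commutator G ⊓ A) ⊓ (Subgroup.center G ⊓ A) = ⊥ ∧ (commutator G ⊓ A) ⊔ (Subgroup.center G ⊓ A) = A := by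
  classical
  have hAab : ∀ x ∈ A, ∀ y ∈ A, x * y = y * x := by
    intro x hx y hy
    have := hc.is_comm.comm (⟨x, hx⟩ : A) ⟨y, hy⟩
    exact congrArg Subtype.val this
  -- complement
  obtain ⟨L, hL⟩ := Subgroup.exists_right_complement'_of_coprime hHall
  have hLcard : Nat.card L = A.index := by
    have := hL.symm.index_eq_card
    exact this.symm
  have hsup : A ⊔ L = ⊤ := hL.sup_eq_top
  have hLA : L ≤ Subgroup.normalizer (A : Set G) := by
    rw [Subgroup.normalizer_eq_top]; exact le_top
  have hcop : (Nat.card L).Coprime (Nat.card A) := by rw [hLcard]; exact hHall.symm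
  haveI : IsMulCommutative A := hc
  have hsolv : Group.IsSolvable L ∨ Group.IsSolvable A :=
    Or.inr (isSolvable_of_comm (fun a b => hc.is_comm.comm a b))
  -- elements of A centralizing L are central
  have hcent : A ⊓ Subgroup.centralizer (L : Set G) ≤ Subgroup.center G ⊓ A := by
    intro x hx
    obtain ⟨hxA, hxL⟩ := Subgroup.mem_inf.mp hx
    refine Subgroup.mem_inf.mpr ⟨?_, hxA⟩
    have hle : A ⊔ L ≤ Subgroup.centralizer {x} := by
      apply sup_le
      · intro a ha
        rw [Subgroup.mem_centralizer_singleton_iff]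
        exact hAab a ha x hxA
      · intro l hl
        rw [Subgroup.mem_centralizer_singleton_iff]
        exact ((Subgroup.mem_centralizer_iff.mp hxL) l hl)
    rw [hsup] at hle
    rw [Subgroup.mem_center_iff]
    intro g
    exact Subgroup.mem_centralizer_singleton_iff.mp (hle (Subgroup.mem_top g))
  have hcomm1 : ⁅A, (⊤ : Subgroup G)⁆ ≤ commutator G ⊓ A := by
    apply le_inf
    · rw [commutator_def]; exact Subgroup.commutator_mono le_top le_rfl
    · exact Subgroup.commutator_le_left A ⊤
  have hcomm2 : ⁅A, L⁆ ≤ ⁅A, (⊤ : Subgroup G)⁆ := Subgroup.commutator_mono le_rfl le_top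
  -- intersection is trivial
  have hint : (commutator G ⊓ A) ⊓ (Subgroup.center G ⊓ A) = ⊥ := by
    rw [eq_bot_iff]
    intro z hz
    obtain ⟨hz1, hz2⟩ := Subgroup.mem_inf.mp hz
    obtain ⟨hzG, hzA⟩ := Subgroup.mem_inf.mp hz1
    obtain ⟨hzZ, _⟩ := Subgroup.mem_inf.mp hz2
    have h1 := pow_index_eq_one_of_mem_commutator A hc z hzZ hzG
    have h2 : z ^ Nat.card A = 1 := by
      have := pow_card_eq_one' (G := A) (x := ⟨z, hzA⟩)
      exact congrArg Subtype.val this
    have h3 : orderOf z ∣ Nat.gcd (Nat.card A) A.index :=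
      Nat.dvd_gcd (orderOf_dvd_of_pow_eq_one h2) (orderOf_dvd_of_pow_eq_one h1)
    rw [hHall.gcd_eq_one, Nat.dvd_one, orderOf_eq_one_iff] at h3
    rw [Subgroup.mem_bot]; exact h3
  refine ⟨?_, hint, ?_⟩
  · apply le_antisymm hcomm1
    intro x hx
    obtain ⟨hxG, hxA⟩ := Subgroup.mem_inf.mp hx
    obtain ⟨c, hc', w, hw, hxcw⟩ := Cfsg.Agent.S0026.exists_decomp L A hLA hcop hsolv x hxA
    have hwGA : w ∈ commutator G ⊓ A := hcomm1 (hcomm2 hw)
    have hcZ : c ∈ Subgroup.center G ⊓ A := hcent hc'
    have hc1 : c ∈ (commutator G ⊓ A) ⊓ (Subgroup.center G ⊓ A) := by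
      refine Subgroup.mem_inf.mpr ⟨?_, hcZ⟩
      have : c = x * w⁻¹ := by rw [hxcw]; group
      rw [this]
      exact Subgroup.mul_mem _ hx (Subgroup.inv_mem _ hwGA)
    rw [hint, Subgroup.mem_bot] at hc1
    rw [hxcw, hc1, one_mul]
    exact hcomm2 hw
  · apply le_antisymm
    · exact sup_le inf_le_right inf_le_right
    · intro x hxA
      obtain ⟨c, hc', w, hw, hxcw⟩ := Cfsg.Agent.S0026.exists_decomp L A hLA hcop hsolv x hxA
      rw [hxcw]
      exact Subgroup.mul_mem _ (Subgroup.mem_sup_right (hcent hc'))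
        (Subgroup.mem_sup_left (hcomm1 (hcomm2 hw)))

end Cfsg.Agent.S0090
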