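import Cfsg.Statements.S0092
import Cfsg.Agent.Lib.Helper2.Split
import Cfsg.Agent.Lib.Helper34.PResidual
-- import your own Cfsg.Agent.* helpers here

set_option autoImplicit false
open Cfsg

namespace Cfsg.Agent.S0092

open scoped IsMulCommutative in
/-- In `N = O^p(G)` with abelian Sylow `p`-subgroup `Q₀`, no nontrivial element of `Q₀` is
central in `N_N(Q₀)` (transfer + Burnside fusion). -/
theorem eq_one_of_central_normalizer {G : Type*} [Group G] [Finite G] {p : ℕ} [Fact p.Prime]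
    (Q₀ : Sylow p (Cfsg.pResidual p G)) (hQ : IsMulCommutative Q₀)
    (z : Cfsg.pResidual p G) (hz : z ∈ Q₀)
    (hzn : ∀ n ∈ Subgroup.normalizer ((Q₀ : Subgroup (Cfsg.pResidual p G)) : Set _), n * z = z * n) :
    z = 1 := by
  classical
  have hp : p.Prime := Fact.out
  have hQab : ∀ x ∈ Q₀, ∀ y ∈ Q₀, x * y = y * x := by
    intro x hx y hy
    have := hQ.is_comm.comm (⟨x, hx⟩ : Q₀) ⟨y, hy⟩
    exact congrArg Subtype.val this
  have hQcent : (Q₀ : Subgroup (Cfsg.pResidual p G)) ≤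
      Subgroup.centralizer ((Q₀ : Subgroup (Cfsg.pResidual p G)) : Set _) := by
    intro x hx
    rw [Subgroup.mem_centralizer_iff]
    intro y hy
    exact hQab y hy x hx
  have key : ∀ (k : ℕ) (g₀ : Cfsg.pResidual p G),
      g₀⁻¹ * z ^ k * g₀ ∈ (Q₀ : Subgroup (Cfsg.pResidual p G)) → g₀⁻¹ * z ^ k * g₀ = z ^ k := by
    intro k g₀ hk
    have hzk : z ^ k ∈ (Q₀ : Subgroup (Cfsg.pResidual p G)) := Subgroup.pow_mem _ hz k
    obtain ⟨n, hn, hnz⟩ := Sylow.conj_eq_normalizer_conj_of_mem_centralizer Q₀ (z ^ k) g₀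
      (hQcent hzk) (hQcent hk)
    rw [hnz]
    have h1 : n * z ^ k = z ^ k * n := by
      have := hzn n hn
      exact (Commute.pow_right this k)
    rw [mul_assoc, ← h1, ← mul_assoc, inv_mul_cancel, one_mul]
  set V := MonoidHom.transfer (MonoidHom.id (Q₀ : Subgroup (Cfsg.pResidual p G))) with hV
  have h1 := MonoidHom.transfer_eq_pow (MonoidHom.id (Q₀ : Subgroup (Cfsg.pResidual p G))) z key
  -- the kernel of V is everything
  have hker : ∀ x : Cfsg.pResidual p G, V x = 1 := by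
    have hle : Cfsg.pResidual p G ≤ V.ker.map (Cfsg.pResidual p G).subtype := by
      conv_lhs => rw [Cfsg.pResidual]
      rw [Subgroup.closure_le]
      intro g hg
      have hg' : Nat.Coprime (orderOf g) p := hg
      have hgN : g ∈ Cfsg.pResidual p G := Subgroup.subset_closure hg
      refine ⟨⟨g, hgN⟩, ?_, rfl⟩
      show (⟨g, hgN⟩ : Cfsg.pResidual p G) ∈ V.ker
      rw [MonoidHom.mem_ker]
      have h2 : orderOf (V ⟨g, hgN⟩) ∣ orderOf g := by
        have := orderOf_map_dvd V (⟨g, hgN⟩ : Cfsg.pResidual p G)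
        have e : orderOf (⟨g, hgN⟩ : Cfsg.pResidual p G) = orderOf g := Subgroup.orderOf_mk g hgN
        rwa [e] at this
      obtain ⟨j, hj⟩ := (IsPGroup.iff_orderOf.mp Q₀.2) (V ⟨g, hgN⟩)
      have h3 : orderOf (V ⟨g, hgN⟩) ∣ Nat.gcd (orderOf g) (p ^ j) :=
        Nat.dvd_gcd h2 (hj ▸ dvd_rfl)
      rw [Nat.Coprime.gcd_eq_one (Nat.Coprime.pow_right _ hg'), Nat.dvd_one, orderOf_eq_one_iff] at h3
      exact h3
    intro x
    obtain ⟨w, hw, hwx⟩ := Subgroup.mem_map.mp (hle x.2)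
    have : w = x := Subtype.ext hwx
    rw [← this]
    exact MonoidHom.mem_ker.mp hw
  rw [← hV, hker z] at h1
  have h2 : z ^ (Q₀ : Subgroup (Cfsg.pResidual p G)).index = 1 := by
    have := congrArg Subtype.val h1
    simpa using this.symm
  obtain ⟨j, hj⟩ := (IsPGroup.iff_orderOf.mp Q₀.2) ⟨z, hz⟩
  rw [Subgroup.orderOf_mk] at hj
  have h3 : orderOf z ∣ Nat.gcd ((Q₀ : Subgroup (Cfsg.pResidual p G)).index) (p ^ j) :=
    Nat.dvd_gcd (orderOf_dvd_of_pow_eq_one h2) (hj ▸ dvd_rfl)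
  have h4 : Nat.Coprime ((Q₀ : Subgroup (Cfsg.pResidual p G)).index) (p ^ j) :=
    Nat.Coprime.pow_right _ ((Nat.Prime.coprime_iff_not_dvd hp).mpr Q₀.not_dvd_index).symm
  rw [h4.gcd_eq_one, Nat.dvd_one, orderOf_eq_one_iff] at h3
  exact h3

/-- If the Sylow p-subgroups of O^p(G) are abelian then G splits over O^p(G). -/
theorem result {G : Type*} [Group G] [Finite G] {p : ℕ} [Fact p.Prime] (h : ∀ Q : Sylow p (Cfsg.pResidual p G), IsMulCommutative Q) : ∃ K : Subgroup G, K.IsComplement' (Cfsg.pResidual p G) := by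
  classical
  have hp : p.Prime := Fact.out
  haveI hNn := Cfsg.Agent.Lib.Helper34.PResidual.pResidual_normal p G
  set N := Cfsg.pResidual p G with hN
  obtain ⟨Q₀⟩ : Nonempty (Sylow p N) := inferInstance
  have hQ₀ := h Q₀
  have hQ₀ab : ∀ x ∈ Q₀, ∀ y ∈ Q₀, x * y = y * x := by
    intro x hx y hy
    have := hQ₀.is_comm.comm (⟨x, hx⟩ : Q₀) ⟨y, hy⟩
    exact congrArg Subtype.val this
  set Q := (Q₀ : Subgroup N).map N.subtype with hQ
  have hQN : Q ≤ N := Subgroup.map_subtype_le _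
  have hQmem : ∀ x : G, x ∈ Q ↔ ∃ hx : x ∈ N, (⟨x, hx⟩ : N) ∈ Q₀ := by
    intro x
    constructor
    · intro hx
      obtain ⟨y, hy, rfl⟩ := Subgroup.mem_map.mp hx
      exact ⟨y.2, hy⟩
    · rintro ⟨hx, hx'⟩
      exact Subgroup.mem_map.mpr ⟨⟨x, hx⟩, hx', rfl⟩
  set L := Subgroup.normalizer (Q : Set G) with hL
  have hfrat : L ⊔ N = ⊤ := Sylow.normalizer_sup_eq_top Q₀
  have hQL : Q ≤ L := Subgroup.le_normalizer
  -- data in the group L
  set Q' := Q.subgroupOf L with hQ'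
  set M' := N.subgroupOf L with hM'
  haveI hQ'n : Q'.Normal := Subgroup.normal_in_normalizer
  haveI hM'n : M'.Normal := by rw [hM']; infer_instance
  have hQM' : Q' ≤ M' := by
    intro x hx
    exact Subgroup.mem_subgroupOf.mpr (hQN (Subgroup.mem_subgroupOf.mp hx))
  have hQ'ab : ∀ a ∈ Q', ∀ b ∈ Q', a * b = b * a := by
    intro a ha b hb
    obtain ⟨ha1, ha2⟩ := (hQmem _).mp (Subgroup.mem_subgroupOf.mp ha)
    obtain ⟨hb1, hb2⟩ := (hQmem _).mp (Subgroup.mem_subgroupOf.mp hb)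
    have := hQ₀ab _ ha2 _ hb2
    apply Subtype.ext
    exact congrArg (fun t : N => (t : G)) this
  have hQ'p : IsPGroup p Q' := by
    have h1 : IsPGroup p Q := Q₀.2.map N.subtype
    intro g
    obtain ⟨k, hk⟩ := h1 ⟨(g : G), Subgroup.mem_subgroupOf.mp g.2⟩
    refine ⟨k, ?_⟩
    apply Subtype.ext
    apply Subtype.ext
    have := congrArg Subtype.val hk
    simpa using this
  have hMQ' : ¬ p ∣ Q'.relIndex M' := by
    have e1 : M' = (N ⊓ L).subgroupOf L := (Subgroup.inf_subgroupOf_right N L).symm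
    rw [e1, hQ', Subgroup.relIndex_subgroupOf inf_le_right]
    intro hdvd
    have e2 := Subgroup.relIndex_mul_relIndex Q (N ⊓ L) N (le_inf hQN hQL) inf_le_left
    have e3 : Q.relIndex N = (Q₀ : Subgroup N).index := by
      rw [Subgroup.relIndex, hQ]
      congr 1
      ext x
      rw [Subgroup.mem_subgroupOf]
      constructor
      · intro hx
        obtain ⟨y, hy, hyx⟩ := Subgroup.mem_map.mp hx
        have : y = x := Subtype.ext hyx
        rw [← this]; exact hy
      · intro hx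
        exact Subgroup.mem_map.mpr ⟨x, hx, rfl⟩
    exact Q₀.not_dvd_index (e3 ▸ e2 ▸ Dvd.dvd.mul_right hdvd _)
  have hXM' : ∃ k, M'.index = p ^ k := by
    obtain ⟨k, hk⟩ := Cfsg.Agent.Lib.Helper34.PResidual.exists_index_pResidual_eq hp G
    refine ⟨k, ?_⟩
    have e1 : M'.index = N.relIndex L := rfl
    have e2 : N.relIndex L = N.index := by
      rw [← Subgroup.relIndex_sup_right (H := L) (K := N), hfrat, Subgroup.relIndex_top_right]
    rw [e1, e2]; exact hk
  have hfix : ∀ z ∈ Q', (∀ m ∈ M', m * z = z * m) → z = 1 := by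
    intro z hz hzm
    obtain ⟨hz1, hz2⟩ := (hQmem _).mp (Subgroup.mem_subgroupOf.mp hz)
    have := eq_one_of_central_normalizer Q₀ hQ₀ ⟨(z : G), hz1⟩ hz2 (by
      intro n hn
      -- (n : G) normalizes Q and lies in N
      have hnL : (n : G) ∈ L := by
        rw [hL, Subgroup.mem_normalizer_iff]
        intro x
        rw [hQmem, hQmem]
        constructor
        · rintro ⟨hx, hx'⟩
          refine ⟨N.mul_mem (N.mul_mem n.2 hx) (N.inv_mem n.2), ?_⟩
          have := (Subgroup.mem_normalizer_iff.mp hn ⟨x, hx⟩).mp hx'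
          exact this
        · rintro ⟨hx, hx'⟩
          have hxN : x ∈ N := by
            have := N.mul_mem (N.mul_mem (N.inv_mem n.2) hx) n.2
            have e : (n : G)⁻¹ * ((n : G) * x * (n : G)⁻¹) * (n : G) = x := by group
            rwa [e] at this
          refine ⟨hxN, ?_⟩
          exact (Subgroup.mem_normalizer_iff.mp hn ⟨x, hxN⟩).mpr hx'
      have := hzm ⟨(n : G), hnL⟩ (Subgroup.mem_subgroupOf.mpr n.2)
      apply Subtype.ext
      have h2 := congrArg Subtype.val this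
      exact h2)
    apply Subtype.ext
    exact congrArg (fun t : N => (t : G)) this
  obtain ⟨K', hK1, hK2⟩ := Cfsg.Agent.Lib.Helper2.Split.exists_compl_of_fixedPointFree Q' M' hQM'
    hQ'ab hQ'p hMQ' hXM' hfix
  refine ⟨K'.map L.subtype, ?_⟩
  apply Subgroup.isComplement'_of_disjoint_and_mul_eq_univ
  · rw [disjoint_iff, eq_bot_iff]
    intro y hy
    obtain ⟨hyK, hyN⟩ := Subgroup.mem_inf.mp hy
    obtain ⟨k, hk, rfl⟩ := Subgroup.mem_map.mp hyK
    have : k ∈ K' ⊓ M' := Subgroup.mem_inf.mpr ⟨hk, Subgroup.mem_subgroupOf.mpr hyN⟩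
    rw [hK1, Subgroup.mem_bot] at this
    rw [Subgroup.mem_bot, this]; rfl
  · rw [← Subgroup.mul_normal, ← Subgroup.coe_top]
    congr 1
    rw [eq_top_iff, ← hfrat]
    apply sup_le _ le_sup_right
    intro l hl
    have h1 : (⟨l, hl⟩ : L) ∈ K' ⊔ M' := by rw [hK2]; exact Subgroup.mem_top _
    obtain ⟨k, hk, m, hm, hkm⟩ := Subgroup.mem_sup_of_normal_right.mp h1
    have h2 : l = (k : G) * (m : G) := by
      have := congrArg Subtype.val hkm
      simpa using this.symm
    rw [h2]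
    exact Subgroup.mul_mem _ (Subgroup.mem_sup_left (Subgroup.mem_map_of_mem _ hk))
      (Subgroup.mem_sup_right (Subgroup.mem_subgroupOf.mp hm))

end Cfsg.Agent.S0092
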