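-- Statement S0094.
import Cfsg.Statements.S0094
import Cfsg.Agent.Lib.Helper63.PFrattini

set_option autoImplicit false
open Cfsg

namespace Cfsg.Agent.S0094

open scoped commutatorElement

theorem commutator_pow_of_commute {P : Type*} [Group P] (x y : P)
    (hc : ⁅x, y⁆ * x = x * ⁅x, y⁆) (n : ℕ) : ⁅x ^ n, y⁆ = ⁅x, y⁆ ^ n := by
  induction n with
  | zero => simp
  | succ n ih =>
    have h1 : ⁅x ^ (n + 1), y⁆ = x * ⁅x ^ n, y⁆ * x⁻¹ * ⁅x, y⁆ := by
      simp only [commutatorElement_def, pow_succ]
      group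
    have h2 : ⁅x, y⁆ ^ n * x = x * ⁅x, y⁆ ^ n := by
      have : Commute (⁅x, y⁆) x := hc
      exact (this.pow_left n).eq
    rw [h1, ih, ← h2, mul_inv_cancel_right, pow_succ]

/-- In a special p-group every central element has order dividing p. -/
theorem result {P : Type*} [Group P] [Finite P] {p : ℕ} [Fact p.Prime] (h : Cfsg.IsSpecial p P) (z : P) (hz : z ∈ Subgroup.center P) : z ^ p = 1 := by
  obtain ⟨hP, hfr, hcomm⟩ := h
  let K : Subgroup P :=
    { carrier := {z | z ∈ Subgroup.center P ∧ z ^ p = 1}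
      one_mem' := ⟨Subgroup.one_mem _, one_pow p⟩
      mul_mem' := by
        rintro a b ⟨ha, hap⟩ ⟨hb, hbp⟩
        refine ⟨Subgroup.mul_mem _ ha hb, ?_⟩
        have hab : Commute a b := (Subgroup.mem_center_iff.mp ha b).symm
        rw [hab.mul_pow, hap, hbp, one_mul]
      inv_mem' := by
        rintro a ⟨ha, hap⟩
        exact ⟨Subgroup.inv_mem _ ha, by rw [inv_pow, hap, inv_one]⟩ }
  have hK : commutator P ≤ K := by
    rw [commutator_def, Subgroup.commutator_le]
    intro x _ y _
    have hxy : ⁅x, y⁆ ∈ Subgroup.center P := by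
      rw [← hcomm, commutator_def]
      exact Subgroup.commutator_mem_commutator (Subgroup.mem_top x) (Subgroup.mem_top y)
    refine ⟨hxy, ?_⟩
    have hxp : x ^ p ∈ Subgroup.center P := by
      rw [← hfr]
      exact Cfsg.Agent.Lib.Helper63.PFrattini.pow_mem_frattini hP x
    rw [← commutator_pow_of_commute x y (Subgroup.mem_center_iff.mp hxy x).symm p,
      commutatorElement_eq_one_iff_mul_comm]
    exact (Subgroup.mem_center_iff.mp hxp y).symm
  rw [← hcomm] at hz
  exact (hK hz).2

end Cfsg.Agent.S0094
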