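-- Statement S0096.
import Cfsg.Statements.S0096
import Cfsg.Agent.Lib.Helper24.Coprime

set_option autoImplicit false
open Cfsg

namespace Cfsg.Agent.S0096

open Cfsg.Agent.Lib.Helper24.Coprime in
/-- For odd p, in a p-group of class at most two the elements of order dividing p generate a subgroup of exponent dividing p. -/
theorem result {P : Type*} [Group P] [Finite P] {p : ℕ} [Fact p.Prime] (hp : p ≠ 2) (hP : IsPGroup p P) (h2 : ⁅commutator P, (⊤ : Subgroup P)⁆ = ⊥) (g : P) (hg : g ∈ Subgroup.closure {x : P | x ^ p = 1}) : g ^ p = 1 := by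
  have hcen : ∀ c ∈ commutator P, ∀ x : P, c * x = x * c := by
    intro c hc x
    have h3 := Subgroup.commutator_eq_bot_iff_le_centralizer.mp h2 hc
    exact (Subgroup.mem_centralizer_iff.mp h3 x (Subgroup.mem_top x)).symm
  have hmul : ∀ x y : P, x ^ p = 1 → y ^ p = 1 → (x * y) ^ p = 1 := by
    intro x y hx hy
    have hc : y⁻¹ * x⁻¹ * y * x ∈ commutator P := by
      rw [commutator_def]
      have := Subgroup.commutator_mem_commutator (Subgroup.mem_top y⁻¹) (Subgroup.mem_top x⁻¹)
      simpa [commutatorElement_def] using this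
    have := mul_pow_prime_of_central p hp (hcen _ hc x) (hcen _ hc y) (by rw [hy, one_mul, mul_one])
    rw [this, hx, hy, one_mul]
  induction hg using Subgroup.closure_induction with
  | mem x hx => exact hx
  | one => exact one_pow p
  | mul x y _ _ hx hy => exact hmul x y hx hy
  | inv x _ hx => rw [inv_pow, hx, inv_one]

end Cfsg.Agent.S0096
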