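-- Statement S0097.
import Cfsg.Statements.S0097
import Cfsg.Agent.Lib.Helper24.Coprime

set_option autoImplicit false
open Cfsg

namespace Cfsg.Agent.S0097

open Cfsg.Agent.Lib.Helper24.Coprime in
/-- For odd p and E extraspecial, the subgroup generated by the elements of order dividing p has exponent dividing p and index at most p. -/
theorem result {E : Type*} [Group E] [Finite E] {p : ℕ} [Fact p.Prime] (hp : p ≠ 2) (h : Cfsg.IsExtraspecial p E) : (Subgroup.closure {x : E | x ^ p = 1}).index ≤ p ∧ ∀ g ∈ Subgroup.closure {x : E | x ^ p = 1}, g ^ p = 1 := by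
  obtain ⟨⟨_, _, hcomm⟩, hcard⟩ := h
  have hcen : ∀ c ∈ commutator E, ∀ x : E, c * x = x * c := by
    intro c hc x
    rw [hcomm] at hc
    exact (Subgroup.mem_center_iff.mp hc x).symm
  have hcp : ∀ c ∈ commutator E, c ^ p = 1 := by
    intro c hc
    rw [hcomm] at hc
    have := pow_card_eq_one' (G := Subgroup.center E) (x := ⟨c, hc⟩)
    rw [hcard] at this
    exact congrArg Subtype.val this
  have hc : ∀ x y : E, y⁻¹ * x⁻¹ * y * x ∈ commutator E := by
    intro x y
    rw [commutator_def]
    have := Subgroup.commutator_mem_commutator (Subgroup.mem_top y⁻¹) (Subgroup.mem_top x⁻¹)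
    simpa [commutatorElement_def] using this
  have hpc : ∀ x y : E, y ^ p * x = x * y ^ p := by
    intro x y
    have h1 : y * x = x * y * (y⁻¹ * x⁻¹ * y * x) := by group
    have h2 := pow_mul_comm_of_central h1 (hcen _ (hc x y) y) p
    rw [hcp _ (hc x y), mul_one] at h2
    exact h2
  have hmul : ∀ x y : E, (x * y) ^ p = x ^ p * y ^ p := fun x y =>
    mul_pow_prime_of_central p hp (hcen _ (hc x y) x) (hcen _ (hc x y) y) (hpc x y)
  let f : E →* E := { toFun := fun x => x ^ p, map_one' := one_pow p, map_mul' := hmul }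
  have hker : Subgroup.closure {x : E | x ^ p = 1} = f.ker := by
    have : {x : E | x ^ p = 1} = (f.ker : Set E) := by
      ext x
      simp [MonoidHom.mem_ker, f]
    rw [this, Subgroup.closure_eq]
  have hrange : f.range ≤ Subgroup.center E := by
    rintro _ ⟨y, rfl⟩
    rw [Subgroup.mem_center_iff]
    intro x
    exact (hpc x y).symm
  refine ⟨?_, ?_⟩
  · rw [hker, Subgroup.index_ker, ← hcard]
    exact Subgroup.card_le_of_le hrange
  · intro g hg
    rw [hker] at hg
    exact hg

end Cfsg.Agent.S0097
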