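import Cfsg.Statements.S0099
import Cfsg.Agent.Lib.Helper30.XSIso

set_option autoImplicit false
open Cfsg

namespace Cfsg.Agent.S0099

open Cfsg.Agent.Lib.Helper30.XSIso

/-- Among three extraspecial 2-groups of equal order, some two are isomorphic. -/
theorem result {E₁ : Type*} {E₂ : Type*} {E₃ : Type*} [Group E₁] [Group E₂] [Group E₃] [Finite E₁] [Finite E₂] [Finite E₃] (h₁ : Cfsg.IsExtraspecial 2 E₁) (h₂ : Cfsg.IsExtraspecial 2 E₂) (h₃ : Cfsg.IsExtraspecial 2 E₃) (h12 : Nat.card E₁ = Nat.card E₂) (h23 : Nat.card E₂ = Nat.card E₃) : Nonempty (E₁ ≃* E₂) ∨ Nonempty (E₂ ≃* E₃) ∨ Nonempty (E₁ ≃* E₃) := by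
  obtain ⟨z1, m1, -, -, hc1, hS1, -, -⟩ := struct h₁
  obtain ⟨z2, m2, -, -, hc2, hS2, -, -⟩ := struct h₂
  obtain ⟨z3, m3, -, -, hc3, hS3, -, -⟩ := struct h₃
  have hm12 : m1 = m2 := by
    have h : 2 ^ (2 * m1 + 1) = 2 ^ (2 * m2 + 1) := by rw [← hc1, ← hc2, h12]
    have := Nat.pow_right_injective (le_refl 2) h
    omega
  have hm23 : m2 = m3 := by
    have h : 2 ^ (2 * m2 + 1) = 2 ^ (2 * m3 + 1) := by rw [← hc2, ← hc3, h23]
    have := Nat.pow_right_injective (le_refl 2) h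
    omega
  subst hm12; subst hm23
  by_cases h12' : Ssum E₁ = Ssum E₂
  · exact Or.inl (iso_of_ssum_eq h₁ h₂ h12.symm h12')
  by_cases h23' : Ssum E₂ = Ssum E₃
  · exact Or.inr (Or.inl (iso_of_ssum_eq h₂ h₃ h23.symm h23'))
  right; right
  apply iso_of_ssum_eq h₁ h₃ (h12.trans h23).symm
  rcases hS1 with a | a <;> rcases hS2 with b | b <;> rcases hS3 with c | c <;>
    first
    | exact (h12' (a.trans b.symm)).elim
    | exact (h23' (b.trans c.symm)).elim
    | exact a.trans c.symm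

end Cfsg.Agent.S0099
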