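import Cfsg.Statements.S0102
-- import your own Cfsg.Agent.* helpers here
import Mathlib

set_option autoImplicit false
open Cfsg

namespace Cfsg.Agent.S0102

open scoped IsMulCommutative in
/-- A central element of order `p` in a Sylow-abelian situation survives the transfer. -/
theorem central_pow_index_eq_one {H : Type*} [Group H] [Finite H] {p : ℕ} [Fact p.Prime]
    (hH : commutator H = ⊤) (P : Sylow p H) (hP : IsMulCommutative (P : Subgroup H))
    (z : H) (hz : z ∈ Subgroup.center H) : z ^ (P : Subgroup H).index = 1 := by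
  have key : ∀ (k : ℕ) (g₀ : H), g₀⁻¹ * z ^ k * g₀ ∈ (P : Subgroup H) →
      g₀⁻¹ * z ^ k * g₀ = z ^ k := by
    intro k g₀ _
    have hzk : z ^ k ∈ Subgroup.center H := Subgroup.pow_mem _ hz k
    have := Subgroup.mem_center_iff.mp hzk g₀
    rw [mul_assoc, ← this, ← mul_assoc, inv_mul_cancel, one_mul]
  have h1 := MonoidHom.transfer_eq_pow (MonoidHom.id (P : Subgroup H)) z key
  have h2 : MonoidHom.transfer (MonoidHom.id (P : Subgroup H)) z = 1 := by
    have hk : z ∈ (MonoidHom.transfer (MonoidHom.id (P : Subgroup H))).ker := by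
      apply Abelianization.commutator_subset_ker
      rw [hH]; exact Subgroup.mem_top z
    exact hk
  rw [h2] at h1
  have := congrArg Subtype.val h1
  simpa using this.symm

/-- A finite perfect group with cyclic Sylow p-subgroups has no perfect central extension whose kernel has order divisible by p. -/
theorem result {G : Type*} {H : Type*} [Group G] [Group H] [Finite G] [Finite H] (hG : commutator G = ⊤) {p : ℕ} [Fact p.Prime] (hcyc : ∀ P : Sylow p G, IsCyclic P) (σ : H →* G) (hσ : Function.Surjective σ) (hz : σ.ker ≤ Subgroup.center H) (hH : commutator H = ⊤) : ¬ p ∣ Nat.card σ.ker := by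
  intro hdvd
  obtain ⟨z, hzord⟩ := exists_prime_orderOf_dvd_card' (G := ↥σ.ker) p hdvd
  have hzo : orderOf (z : H) = p := by rw [Subgroup.orderOf_coe]; exact hzord
  have hzc : (z : H) ∈ Subgroup.center H := hz z.2
  obtain ⟨P⟩ : Nonempty (Sylow p H) := inferInstance
  -- P is abelian
  have hcyc' : IsCyclic ↥((P : Subgroup H).map σ) := hcyc (P.mapSurjective hσ)
  have hker : (σ.subgroupMap (P : Subgroup H)).ker ≤ Subgroup.center ↥(P : Subgroup H) := by
    intro x hx
    rw [Subgroup.mem_center_iff]
    intro y
    have hx1 : σ (x : H) = 1 := by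
      have := congrArg Subtype.val (MonoidHom.mem_ker.mp hx)
      simpa using this
    have hxc : (x : H) ∈ Subgroup.center H := hz (MonoidHom.mem_ker.mpr hx1)
    apply Subtype.ext
    exact Subgroup.mem_center_iff.mp hxc (y : H)
  have hP : IsMulCommutative (P : Subgroup H) :=
    MonoidHom.isMulCommutative_of_isCyclic_of_ker_le_center (σ.subgroupMap (P : Subgroup H)) hker
  have h1 := central_pow_index_eq_one hH P hP (z : H) hzc
  have h2 : p ∣ (P : Subgroup H).index := by
    have h3 := orderOf_dvd_of_pow_eq_one h1
    rwa [hzo] at h3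
  exact P.not_dvd_index h2

end Cfsg.Agent.S0102
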