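import Cfsg.Statements.S0103
import Mathlib

set_option autoImplicit false
open Cfsg

namespace Cfsg.Agent.S0103

/-- If a Sylow p-subgroup P intersects every distinct conjugate trivially, then its normalizer controls fusion in P. -/
theorem result {G : Type*} [Group G] [Finite G] {p : ℕ} [Fact p.Prime] (P : Sylow p G) (hTI : ∀ g : G, (P : Subgroup G).map (MulAut.conj g).toMonoidHom ≠ (P : Subgroup G) → (P : Subgroup G) ⊓ (P : Subgroup G).map (MulAut.conj g).toMonoidHom = ⊥) (x y : G) (hx : x ∈ P) (hy : y ∈ P) (hc : ∃ g : G, g * x * g⁻¹ = y) : ∃ n ∈ Subgroup.normalizer (P : Set G), n * x * n⁻¹ = y := by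
  obtain ⟨g, hg⟩ := hc
  by_cases h : (P : Subgroup G).map (MulAut.conj g).toMonoidHom = (P : Subgroup G)
  · refine ⟨g, ?_, hg⟩
    exact (Subgroup.mem_normalizer_iff_map_conj_eq (H := (P : Subgroup G))).mpr h
  · have h1 := hTI g h
    have h2 : y ∈ (P : Subgroup G) ⊓ (P : Subgroup G).map (MulAut.conj g).toMonoidHom := by
      refine Subgroup.mem_inf.mpr ⟨hy, ?_⟩
      exact Subgroup.mem_map.mpr ⟨x, hx, by simpa using hg⟩
    rw [h1, Subgroup.mem_bot] at h2
    subst h2
    have hx1 : x = 1 := by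
      have : g * x * g⁻¹ = g * 1 * g⁻¹ := by rw [hg]; simp
      simpa using this
    subst hx1
    exact ⟨1, one_mem _, by simp⟩

end Cfsg.Agent.S0103
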