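import Cfsg.Statements.S0105
import Cfsg.Agent.Lib.Helper52.AbSylow

set_option autoImplicit false
open Cfsg

namespace Cfsg.Agent.S0105

open scoped IsMulCommutative
open Cfsg.Agent.Lib.Helper52.AbSylow

/-- With an abelian Sylow p-subgroup P, some quotient of G is isomorphic to the part of P central in N_G(P). -/
theorem result {G : Type*} [Group G] [Finite G] {p : ℕ} [Fact p.Prime] (P : Sylow p G) (hP : IsMulCommutative P) : ∃ (N : Subgroup G) (hN : N.Normal), Nonempty (G ⧸ N ≃* ((P : Subgroup G) ⊓ Subgroup.centralizer (Subgroup.normalizer (P : Set G) : Set G) : Subgroup G)) := by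
  have hP' : IsMulCommutative (P : Subgroup G) := hP
  have hmemZ : ∀ x : G, (P : Subgroup G).subtype
      (nu P (MonoidHom.transfer (MonoidHom.id ↥(P : Subgroup G)) x)) ∈
      (P : Subgroup G) ⊓ Subgroup.centralizer (Subgroup.normalizer (P : Set G) : Set G) := by
    intro x
    refine ⟨(nu P _).2, ?_⟩
    show (P : Subgroup G).subtype
      (nu P (MonoidHom.transfer (MonoidHom.id ↥(P : Subgroup G)) x)) ∈
      Subgroup.centralizer (Subgroup.normalizer (P : Set G) : Set G)
    rw [Subgroup.mem_centralizer_iff]
    intro n hn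
    have h := congrArg Subtype.val
      (nu_fixed P ⟨n, hn⟩ (MonoidHom.transfer (MonoidHom.id ↥(P : Subgroup G)) x))
    have h' : n * ((nu P (MonoidHom.transfer (MonoidHom.id ↥(P : Subgroup G)) x) :
        ↥(P : Subgroup G)) : G) * n⁻¹ =
        ((nu P (MonoidHom.transfer (MonoidHom.id ↥(P : Subgroup G)) x) :
        ↥(P : Subgroup G)) : G) := h
    show n * ((nu P (MonoidHom.transfer (MonoidHom.id ↥(P : Subgroup G)) x) :
        ↥(P : Subgroup G)) : G) =
        ((nu P (MonoidHom.transfer (MonoidHom.id ↥(P : Subgroup G)) x) :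
        ↥(P : Subgroup G)) : G) * n
    calc n * ((nu P (MonoidHom.transfer (MonoidHom.id ↥(P : Subgroup G)) x) :
          ↥(P : Subgroup G)) : G)
        = (n * ((nu P (MonoidHom.transfer (MonoidHom.id ↥(P : Subgroup G)) x) :
          ↥(P : Subgroup G)) : G) * n⁻¹) * n := by group
      _ = ((nu P (MonoidHom.transfer (MonoidHom.id ↥(P : Subgroup G)) x) :
          ↥(P : Subgroup G)) : G) * n := by rw [h']
  have hval : ∀ z : G, z ∈ (P : Subgroup G) ⊓
      Subgroup.centralizer (Subgroup.normalizer (P : Set G) : Set G) →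
      (P : Subgroup G).subtype
        (nu P (MonoidHom.transfer (MonoidHom.id ↥(P : Subgroup G)) z)) =
      z ^ ((P : Subgroup G).index *
        (P : Subgroup G).relIndex (Subgroup.normalizer (P : Set G))) := by
    intro z hz
    obtain ⟨hzP, hzC⟩ := hz
    have hcen : ∀ n ∈ Subgroup.normalizer (P : Set G), n * z * n⁻¹ = z := by
      intro n hn
      have := Subgroup.mem_centralizer_iff.1 hzC n hn
      rw [this, mul_assoc, mul_inv_cancel, mul_one]
    have htr := transfer_central P z hzP hcen
    have htr' : MonoidHom.transfer (MonoidHom.id ↥(P : Subgroup G)) z =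
        (⟨z, hzP⟩ : ↥(P : Subgroup G)) ^ (P : Subgroup G).index := by
      apply Subtype.ext
      rw [htr]; rfl
    have hfix : ∀ n : Subgroup.normalizer (P : Set G),
        conjP P n (⟨z, hzP⟩ : ↥(P : Subgroup G)) = ⟨z, hzP⟩ := by
      intro n
      apply Subtype.ext
      exact hcen n n.2
    rw [htr', map_pow, nu_of_fixed P _ hfix, ← pow_mul, mul_comm]
    rfl
  have hZp : IsPGroup p ↥((P : Subgroup G) ⊓
      Subgroup.centralizer (Subgroup.normalizer (P : Set G) : Set G)) :=
    P.isPGroup'.to_le inf_le_left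
  have hnd : ¬ p ∣ (P : Subgroup G).index *
      (P : Subgroup G).relIndex (Subgroup.normalizer (P : Set G)) := by
    have h1 : ¬ p ∣ (P : Subgroup G).index := P.not_dvd_index
    have h2 : (P : Subgroup G).relIndex (Subgroup.normalizer (P : Set G)) ∣
        (P : Subgroup G).index := Subgroup.relIndex_dvd_index_of_le Subgroup.le_normalizer
    intro h
    rcases (Nat.Prime.dvd_mul (Fact.out : p.Prime)).1 h with h3 | h3
    · exact h1 h3
    · exact h1 (h3.trans h2)
  have hsurj : Function.Surjective
      ((((P : Subgroup G).subtype.comp (nu P)).comp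
        (MonoidHom.transfer (MonoidHom.id ↥(P : Subgroup G)))).codRestrict
        ((P : Subgroup G) ⊓
          Subgroup.centralizer (Subgroup.normalizer (P : Set G) : Set G)) hmemZ) := by
    intro z
    obtain ⟨y, hy⟩ := (hZp.powEquiv' hnd).surjective z
    refine ⟨(y : G), ?_⟩
    apply Subtype.ext
    have h1 := hval (y : G) y.2
    have h2 : (y : G) ^ ((P : Subgroup G).index *
        (P : Subgroup G).relIndex (Subgroup.normalizer (P : Set G))) = (z : G) := by
      have := congrArg Subtype.val hy
      simpa using this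
    rw [← h2, ← h1]
    rfl
  exact ⟨_, inferInstance, ⟨QuotientGroup.quotientKerEquivOfSurjective _ hsurj⟩⟩

end Cfsg.Agent.S0105
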