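import Cfsg.Statements.S0107
import Cfsg.Agent.S0111
import Cfsg.Agent.Lib.Helper2.FusCtl
-- import your own Cfsg.Agent.* helpers here

set_option autoImplicit false
open Cfsg

namespace Cfsg.Agent.S0107

theorem eq_of_orderOf_two_of_isCyclic {C : Type*} [Group C] [Finite C] [IsCyclic C] (a b : C)
    (ha : orderOf a = 2) (hb : orderOf b = 2) : a = b := by
  classical
  haveI := Fintype.ofFinite C
  by_contra hab
  have h := IsCyclic.card_pow_eq_one_le (α := C) (n := 2) (by norm_num)
  have ha1 : a ≠ 1 := by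
    intro h1; rw [h1, orderOf_one] at ha; omega
  have hb1 : b ≠ 1 := by
    intro h1; rw [h1, orderOf_one] at hb; omega
  have hsub : ({1, a, b} : Finset C) ⊆ Finset.univ.filter (fun x => x ^ 2 = 1) := by
    intro x hx
    simp only [Finset.mem_insert, Finset.mem_singleton] at hx
    rw [Finset.mem_filter]
    refine ⟨Finset.mem_univ _, ?_⟩
    rcases hx with rfl | rfl | rfl
    · simp
    · rw [← ha]; exact pow_orderOf_eq_one _
    · rw [← hb]; exact pow_orderOf_eq_one _
  have hcard : ({1, a, b} : Finset C).card = 3 := by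
    rw [Finset.card_insert_of_notMem, Finset.card_insert_of_notMem, Finset.card_singleton]
    · simpa using hab
    · simp only [Finset.mem_insert, Finset.mem_singleton, not_or]
      exact ⟨ha1.symm, hb1.symm⟩
  have := Finset.card_le_card hsub
  omega

/-- A finite group with no nontrivial 2-group quotient and dihedral Sylow 2-subgroups of order at least 8 has a single class of involutions. -/
theorem result {G : Type*} [Group G] [Finite G] (T : Sylow 2 G) (n : ℕ) (hn : 2 ≤ n) (hT : Nonempty ((T : Subgroup G) ≃* DihedralGroup (2 ^ n))) (hO : Cfsg.pResidual 2 G = ⊤) (x y : G) (hx : orderOf x = 2) (hy : orderOf y = 2) : ∃ g : G, g * x * g⁻¹ = y := by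
  classical
  obtain ⟨e⟩ := hT
  set c : G := ((e.symm (DihedralGroup.r 1) : (T : Subgroup G)) : G) with hc
  set Q := Subgroup.zpowers c with hQ
  have hcT : c ∈ (T : Subgroup G) := (e.symm (DihedralGroup.r 1)).2
  have hQT : Q ≤ (T : Subgroup G) := by
    rw [hQ, Subgroup.zpowers_le]; exact hcT
  have hordc : orderOf c = 2 ^ n := by
    rw [hc, Subgroup.orderOf_coe, MulEquiv.orderOf_eq, DihedralGroup.orderOf_r_one]
  have hQcard : Nat.card Q = 2 ^ n := by rw [hQ, Nat.card_zpowers, hordc]
  have hTcard : Nat.card (T : Subgroup G) = 2 * 2 ^ n := by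
    rw [Nat.card_congr e.toEquiv, DihedralGroup.nat_card]
  have hrel : Q.relIndex (T : Subgroup G) = 2 := by
    have h1 := Cfsg.Agent.Lib.Helper2.FusCtl.card_mul_relIndex hQT
    rw [hQcard, hTcard] at h1
    have : 2 ^ n * Q.relIndex (T : Subgroup G) = 2 ^ n * 2 := by rw [h1]; ring
    exact Nat.eq_of_mul_eq_mul_left (by positivity) this
  have hno : ∀ M : Subgroup G, M.Normal → M.index = 2 → False := by
    intro M hM hMi
    have hle : Cfsg.pResidual 2 G ≤ M := by
      rw [Cfsg.pResidual, Subgroup.closure_le]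
      intro g hg
      have hg' : Nat.Coprime (orderOf g) 2 := hg
      have h2 : g ^ 2 ∈ M := by
        have := Subgroup.pow_index_mem M g
        rwa [hMi] at this
      obtain ⟨j, hj⟩ := hg'.odd_of_right
      have e1 : g = (g ^ 2) ^ (j + 1) := by
        rw [← pow_mul]
        have : 2 * (j + 1) = orderOf g + 1 := by omega
        rw [this, pow_succ, pow_orderOf_eq_one, one_mul]
      show g ∈ M
      rw [e1]
      exact Subgroup.pow_mem _ h2 _
    rw [hO, top_le_iff] at hle
    rw [hle, Subgroup.index_top] at hMi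
    omega
  have hconj : ∀ (g z : G), orderOf (g * z * g⁻¹) = orderOf z := by
    intro g z
    have := MulEquiv.orderOf_eq (MulAut.conj g) z
    rwa [MulAut.conj_apply] at this
  have key : ∀ z : G, orderOf z = 2 → ∃ g : G, g * z * g⁻¹ ∈ Q := by
    intro z hz
    obtain ⟨g, hg⟩ : ∃ g : G, g * z * g⁻¹ ∈ (T : Subgroup G) := by
      have hpg : IsPGroup 2 (Subgroup.zpowers z) := by
        apply IsPGroup.of_card (n := 1)
        rw [Nat.card_zpowers, hz, pow_one]
      obtain ⟨S, hS⟩ := hpg.exists_le_sylow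
      obtain ⟨g, hg⟩ := MulAction.exists_smul_eq G S T
      refine ⟨g, ?_⟩
      have hzS : z ∈ S := hS (Subgroup.mem_zpowers z)
      have : g * z * g⁻¹ ∈ g • S := by
        rw [Cfsg.Agent.Lib.Helper2.FusCtl.mem_smul_sylow]
        have e1 : g⁻¹ * (g * z * g⁻¹) * g = z := by group
        rw [e1]; exact hzS
      rw [hg] at this
      exact this
    by_cases hQ' : g * z * g⁻¹ ∈ Q
    · exact ⟨g, hQ'⟩
    · have hord : orderOf (g * z * g⁻¹) = 2 := by rw [hconj, hz]
      rcases Cfsg.Agent.S0111.result T Q hQT hrel _ hord hg hQ' with ⟨M, hMn, hMi, _⟩ | ⟨h, hh⟩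
      · exact (hno M hMn hMi).elim
      · refine ⟨h * g, ?_⟩
        have : h * g * z * (h * g)⁻¹ = h * (g * z * g⁻¹) * h⁻¹ := by group
        rw [this]; exact hh
  obtain ⟨g, hg⟩ := key x hx
  obtain ⟨h, hh⟩ := key y hy
  haveI : IsCyclic Q := by rw [hQ]; infer_instance
  have heq : (⟨g * x * g⁻¹, hg⟩ : Q) = ⟨h * y * h⁻¹, hh⟩ :=
    eq_of_orderOf_two_of_isCyclic _ _ (by rw [Subgroup.orderOf_mk, hconj, hx])
      (by rw [Subgroup.orderOf_mk, hconj, hy])
  have heq' : g * x * g⁻¹ = h * y * h⁻¹ := congrArg Subtype.val heq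
  refine ⟨h⁻¹ * g, ?_⟩
  calc h⁻¹ * g * x * (h⁻¹ * g)⁻¹ = h⁻¹ * (g * x * g⁻¹) * h := by group
    _ = h⁻¹ * (h * y * h⁻¹) * h := by rw [heq']
    _ = y := by group

end Cfsg.Agent.S0107
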