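import Cfsg.Statements.S0110
import Cfsg.Agent.Lib.Helper53.PGroupBasics
-- import your own Cfsg.Agent.* helpers here

set_option autoImplicit false
open Cfsg

namespace Cfsg.Agent.S0110

open scoped commutatorElement

/-- If the commutators `⁅b, y⁆`, `b ∈ L`, lie in a central subgroup `Z`, then the index of
`C_L(y)` in `L` divides the order of `Z`. -/
theorem relIndex_centralizer_dvd {P : Type*} [Group P] [Finite P]
    (Z : Subgroup P) (hZ : Z ≤ Subgroup.center P)
    (L : Subgroup P) (y : P) (hc : ∀ b ∈ L, ⁅b, y⁆ ∈ Z) :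
    (L ⊓ Subgroup.centralizer {y}).relIndex L ∣ Nat.card Z := by
  classical
  let f : L →* Z := MonoidHom.mk' (fun a => ⟨⁅(a : P), y⁆, hc _ a.2⟩) (by
    intro a b
    apply Subtype.ext
    show ⁅(a : P) * (b : P), y⁆ = ⁅(a : P), y⁆ * ⁅(b : P), y⁆
    have h1 : ⁅(b : P), y⁆ ∈ Subgroup.center P := hZ (hc _ b.2)
    have h2 := (Subgroup.mem_center_iff.mp h1) ((a : P))
    simp only [commutatorElement_def] at h2 ⊢
    calc (a : P) * b * y * ((a : P) * b)⁻¹ * y⁻¹
        = (a : P) * ((b : P) * y * (b : P)⁻¹ * y⁻¹) * y * (a : P)⁻¹ * y⁻¹ := by group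
      _ = ((b : P) * y * (b : P)⁻¹ * y⁻¹) * (a : P) * y * (a : P)⁻¹ * y⁻¹ := by rw [h2]
      _ = ((b : P) * y * (b : P)⁻¹ * y⁻¹) * ((a : P) * y * (a : P)⁻¹ * y⁻¹) := by group
      _ = (a : P) * y * (a : P)⁻¹ * y⁻¹ * ((b : P) * y * (b : P)⁻¹ * y⁻¹) := by
          have h3 := (Subgroup.mem_center_iff.mp h1) ((a : P) * y * (a : P)⁻¹ * y⁻¹)
          simp only [commutatorElement_def] at h3
          exact h3.symm)
  have hker : f.ker = (L ⊓ Subgroup.centralizer {y}).subgroupOf L := by
    ext a
    rw [MonoidHom.mem_ker, Subgroup.mem_subgroupOf, Subgroup.mem_inf,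
      Subgroup.mem_centralizer_singleton_iff]
    constructor
    · intro h
      have h' : ⁅(a : P), y⁆ = 1 := congrArg Subtype.val h
      rw [commutatorElement_eq_one_iff_mul_comm] at h'
      exact ⟨a.2, h'⟩
    · rintro ⟨_, h⟩
      apply Subtype.ext
      show ⁅(a : P), y⁆ = 1
      rw [commutatorElement_eq_one_iff_mul_comm]
      exact h
  have h1 : (L ⊓ Subgroup.centralizer {y}).relIndex L = Nat.card f.range := by
    rw [Subgroup.relIndex, ← hker, Subgroup.index_ker]
  rw [h1]
  exact Subgroup.card_subgroup_dvd_card _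

theorem index_centralizer_dvd {G : Type*} [Group G] [Finite G] {p : ℕ} [Fact p.Prime]
    (hG : IsPGroup p G) (E Z : Subgroup G) (hZc : Z ≤ Subgroup.center G) (hZcard : Nat.card Z = p)
    (h : ∀ g : G, ∀ e ∈ E, ⁅g, e⁆ ∈ Z) :
    ∀ m : ℕ, ∀ M : Subgroup G, Nat.card M = m → Z ≤ M → M ≤ E →
      (Subgroup.centralizer (M : Set G)).index ∣ Z.relIndex M := by
  classical
  have hp : p.Prime := Fact.out
  intro m
  induction m using Nat.strong_induction_on with
  | _ m ih =>
    intro M hM hZM hME
    by_cases hMZ : M ≤ Z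
    · have : Subgroup.centralizer (M : Set G) = ⊤ := by
        rw [eq_top_iff]
        intro x _
        rw [Subgroup.mem_centralizer_iff]
        intro y hy
        exact (Subgroup.mem_center_iff.mp (hZc (hMZ hy))) x |>.symm
      rw [this, Subgroup.index_top]
      exact one_dvd _
    · -- a maximal subgroup M₀ with Z ≤ M₀ < M
      have hfin : ({K : Subgroup G | Z ≤ K ∧ K < M} : Set (Subgroup G)).Finite := Set.toFinite _
      obtain ⟨M₀, hM₀⟩ := hfin.exists_maximal
        ⟨Z, le_rfl, lt_of_le_of_ne hZM (fun hh => hMZ (hh ▸ le_rfl))⟩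
      obtain ⟨⟨hZM₀, hM₀M⟩, hmax⟩ := hM₀
      obtain ⟨e, heM, heM₀⟩ := SetLike.exists_of_lt hM₀M
      have hsup : M₀ ⊔ Subgroup.zpowers e = M := by
        by_contra hne
        have hle : M₀ ⊔ Subgroup.zpowers e ≤ M :=
          sup_le hM₀M.le (by rw [Subgroup.zpowers_le]; exact heM)
        have hlt : M₀ ⊔ Subgroup.zpowers e < M := lt_of_le_of_ne hle hne
        have := hmax ⟨hZM₀.trans le_sup_left, hlt⟩ le_sup_left
        exact heM₀ (this (Subgroup.mem_sup_right (Subgroup.mem_zpowers e)))
      set C₀ := Subgroup.centralizer (M₀ : Set G) with hC₀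
      have hcent : Subgroup.centralizer (M : Set G) = C₀ ⊓ Subgroup.centralizer {e} := by
        apply le_antisymm
        · apply le_inf
          · exact Subgroup.centralizer_le hM₀M.le
          · exact Subgroup.centralizer_le (by
              intro x hx
              rw [Set.mem_singleton_iff] at hx
              rw [hx]; exact heM)
        · intro x hx
          obtain ⟨hx1, hx2⟩ := Subgroup.mem_inf.mp hx
          have hle : M₀ ⊔ Subgroup.zpowers e ≤ Subgroup.centralizer {x} := by
            apply sup_le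
            · intro a ha
              rw [Subgroup.mem_centralizer_singleton_iff]
              exact ((Subgroup.mem_centralizer_iff.mp hx1) a ha)
            · rw [Subgroup.zpowers_le, Subgroup.mem_centralizer_singleton_iff]
              exact (Subgroup.mem_centralizer_singleton_iff.mp hx2).symm
          rw [hsup] at hle
          rw [Subgroup.mem_centralizer_iff]
          intro a ha
          exact Subgroup.mem_centralizer_singleton_iff.mp (hle ha)
      have hlt : Nat.card M₀ < m := by
        by_contra hcon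
        push Not at hcon
        rw [← hM] at hcon
        exact hM₀M.ne (Subgroup.eq_of_le_of_card_ge hM₀M.le hcon)
      have ih' := ih _ hlt M₀ rfl hZM₀ (hM₀M.le.trans hME)
      have h1 : (C₀ ⊓ Subgroup.centralizer {e}).relIndex C₀ ∣ p := by
        rw [← hZcard]
        exact relIndex_centralizer_dvd Z hZc C₀ e (fun b _ => h b e (hME heM))
      have h2 : p ∣ M₀.relIndex M := by
        have hd : M₀.relIndex M ∣ Nat.card M := Subgroup.relIndex_dvd_card M₀ M
        obtain ⟨k, hk⟩ := (hG.to_subgroup M).exists_card_eq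
        rw [hk] at hd
        obtain ⟨j, _, hj⟩ := (Nat.dvd_prime_pow hp).mp hd
        have hj0 : j ≠ 0 := by
          intro h0
          rw [h0, pow_zero] at hj
          exact (not_le_of_gt hM₀M) (Subgroup.relIndex_eq_one.mp hj)
        rw [hj]; exact dvd_pow_self p hj0
      rw [hcent, ← Subgroup.relIndex_mul_index (inf_le_left : C₀ ⊓ Subgroup.centralizer {e} ≤ C₀),
        ← Subgroup.relIndex_mul_relIndex Z M₀ M hZM₀ hM₀M.le, mul_comm (Z.relIndex M₀)]
      exact Nat.mul_dvd_mul (h1.trans h2) ih'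

/-- In a p-group G, an extraspecial subgroup E with [G, E] ≤ Z(E) satisfies G = E C_G(E). -/
theorem result {G : Type*} [Group G] [Finite G] {p : ℕ} [Fact p.Prime] (hG : IsPGroup p G) (E : Subgroup G) (hE : Cfsg.IsExtraspecial p E) (h : ⁅(⊤ : Subgroup G), E⁆ ≤ E ⊓ Subgroup.centralizer (E : Set G)) : E ⊔ Subgroup.centralizer (E : Set G) = ⊤ := by
  classical
  have hp : p.Prime := Fact.out
  set Z := E ⊓ Subgroup.centralizer (E : Set G) with hZ
  have hcomm : ∀ g : G, ∀ e ∈ E, ⁅g, e⁆ ∈ Z := fun g e he =>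
    h (Subgroup.commutator_mem_commutator (Subgroup.mem_top g) he)
  -- E is normal
  haveI hEn : E.Normal := by
    constructor
    intro e he g
    have h1 : ⁅g, e⁆ ∈ E := (Subgroup.mem_inf.mp (hcomm g e he)).1
    have h2 : g * e * g⁻¹ = ⁅g, e⁆ * e := by rw [commutatorElement_def]; group
    rw [h2]; exact Subgroup.mul_mem _ h1 he
  haveI hCn : (Subgroup.centralizer (E : Set G)).Normal := Subgroup.normal_centralizer
  haveI hZn : Z.Normal := by rw [hZ]; infer_instance
  -- |Z| = p
  have hZmap : Z = (Subgroup.center E).map E.subtype := by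
    ext x
    rw [Subgroup.mem_map]
    constructor
    · intro hx
      obtain ⟨hxE, hxC⟩ := Subgroup.mem_inf.mp hx
      refine ⟨⟨x, hxE⟩, ?_, rfl⟩
      rw [Subgroup.mem_center_iff]
      intro g
      apply Subtype.ext
      exact (Subgroup.mem_centralizer_iff.mp hxC) g g.2
    · rintro ⟨y, hy, rfl⟩
      refine Subgroup.mem_inf.mpr ⟨y.2, ?_⟩
      rw [Subgroup.mem_centralizer_iff]
      intro g hg
      have := (Subgroup.mem_center_iff.mp hy) ⟨g, hg⟩
      exact congrArg Subtype.val this
  have hZcard : Nat.card Z = p := by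
    rw [hZmap, Subgroup.card_map_of_injective E.subtype_injective]
    exact hE.2
  -- Z is central
  have hZc : Z ≤ Subgroup.center G := by
    have hne : Z ≠ ⊥ := by
      intro hbot
      rw [hbot, Subgroup.card_bot] at hZcard
      exact hp.one_lt.ne hZcard
    obtain ⟨x, hxZ, hx1, hxc⟩ :=
      Cfsg.Agent.Lib.Helper53.PGroupBasics.exists_center_mem_normal hG Z hne
    intro z hz
    have hx1' : (⟨x, hxZ⟩ : Z) ≠ 1 := fun hh => hx1 (congrArg Subtype.val hh)
    have hmem : (⟨z, hz⟩ : Z) ∈ Subgroup.zpowers (⟨x, hxZ⟩ : Z) :=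
      mem_zpowers_of_prime_card hZcard hx1'
    obtain ⟨k, hk⟩ := Subgroup.mem_zpowers_iff.mp hmem
    have hk' : x ^ k = z := by
      have := congrArg Subtype.val hk
      simpa using this
    rw [← hk']
    exact Subgroup.zpow_mem _ hxc k
  have hdvd := index_centralizer_dvd hG E Z hZc hZcard hcomm _ E rfl inf_le_left le_rfl
  set C := Subgroup.centralizer (E : Set G) with hC
  have h1 : C.relIndex (E ⊔ C) = Z.relIndex E := by
    rw [Subgroup.relIndex_sup_right, hZ, inf_comm, Subgroup.inf_relIndex_right]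
  have h2 := Subgroup.relIndex_mul_index (le_sup_right : C ≤ E ⊔ C)
  rw [h1] at h2
  rw [← h2] at hdvd
  have h3 : Z.relIndex E ≠ 0 := by
    intro h0
    have := Subgroup.relIndex_dvd_card Z E
    rw [h0, zero_dvd_iff] at this
    exact Nat.card_pos.ne' this
  have h4 : (E ⊔ C).index = 1 := by
    have h5 : Z.relIndex E * (E ⊔ C).index ∣ Z.relIndex E * 1 := by rwa [mul_one]
    exact Nat.dvd_one.mp (Nat.dvd_of_mul_dvd_mul_left (Nat.pos_of_ne_zero h3) h5)
  exact Subgroup.index_eq_one.mp h4

end Cfsg.Agent.S0110
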