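import Cfsg.Statements.S0123
import Cfsg.Agent.Lib.Helper70.OmegaClass

set_option autoImplicit false
open Cfsg

namespace Cfsg.Agent.S0123

/-- For a p-group of small class relative to p (class ≤ 2 with p odd, or class ≤ 3 with p > 3) whose derived subgroup is generated by elements of order dividing p, the p-th power map is multiplicative. -/
theorem result {R : Type*} [Group R] [Finite R] {p : ℕ} [Fact p.Prime] (hR : IsPGroup p R) (hcl : (p ≠ 2 ∧ ⁅commutator R, (⊤ : Subgroup R)⁆ = ⊥) ∨ (3 < p ∧ ⁅⁅commutator R, (⊤ : Subgroup R)⁆, (⊤ : Subgroup R)⁆ = ⊥)) (hder : commutator R ≤ Subgroup.closure {x : R | x ^ p = 1}) (x y : R) : (x * y) ^ p = x ^ p * y ^ p := by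
  have hp : p.Prime := Fact.out
  have hcl' : (⊤ : Subgroup R).lowerCentralSeries (p - 1) = ⊥ := by
    rcases hcl with ⟨hp2, h⟩ | ⟨hp3, h⟩
    · have h2 : (⊤ : Subgroup R).lowerCentralSeries 2 = ⊥ := h
      have hp3 : 3 ≤ p := by
        have := hp.two_le
        omega
      have := Subgroup.lowerCentralSeries_antitone (⊤ : Subgroup R) (show 2 ≤ p - 1 by omega)
      rw [h2] at this
      exact le_bot_iff.1 this
    · have h3 : (⊤ : Subgroup R).lowerCentralSeries 3 = ⊥ := h
      have := Subgroup.lowerCentralSeries_antitone (⊤ : Subgroup R) (show 3 ≤ p - 1 by omega)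
      rw [h3] at this
      exact le_bot_iff.1 this
  exact Cfsg.Agent.Lib.Helper70.OmegaClass.mul_pow_of_commutator_le hR hcl' hder x y

end Cfsg.Agent.S0123
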