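import Cfsg.Statements.S0125
import Mathlib
-- import your own Cfsg.Agent.* helpers here

set_option autoImplicit false
open Cfsg

namespace Cfsg.Agent.S0125

open scoped Pointwise

/-- The centralizer of a self-centralizing normal subgroup A of a Sylow p-subgroup is the direct product of A with a normal p'-subgroup. -/
theorem result {G : Type*} [Group G] [Finite G] {p : ℕ} [Fact p.Prime] (R : Sylow p G) (A : Subgroup G) (hAR : A ≤ (R : Subgroup G)) (hAn : (R : Subgroup G) ≤ Subgroup.normalizer (A : Set G)) (hC : (R : Subgroup G) ⊓ Subgroup.centralizer (A : Set G) = A) : ∃ H : Subgroup G, H ≤ Subgroup.centralizer (A : Set G) ∧ Nat.Coprime (Nat.card H) p ∧ Subgroup.centralizer (A : Set G) ≤ Subgroup.normalizer (H : Set G) ∧ H ⊓ A = ⊥ ∧ H ⊔ A = Subgroup.centralizer (A : Set G) := by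
  have hp : p.Prime := Fact.out
  set C := Subgroup.centralizer (A : Set G) with hCdef
  set N := Subgroup.normalizer (A : Set G) with hNdef
  have hAC : A ≤ C := by rw [← hC]; exact inf_le_right
  have hCN : C ≤ N := Subgroup.centralizer_le_normalizer _
  have memC : ∀ c : G, c ∈ C ↔ ∀ a ∈ A, a * c = c * a := fun c => Subgroup.mem_centralizer_iff
  have memN : ∀ n : G, n ∈ N ↔ ∀ a, a ∈ A ↔ n * a * n⁻¹ ∈ A := fun n => Subgroup.mem_normalizer_iff
  -- a Sylow `p`-subgroup `Q` of `C` containing `A`
  have hA'p : IsPGroup p (A.subgroupOf C) := (R.isPGroup'.to_le hAR).comap_subtype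
  obtain ⟨Q, hQ⟩ := hA'p.exists_le_sylow
  have hQ1 : (Q : Subgroup C).map C.subtype ≤ A := by
    have hQ1p : IsPGroup p ((Q : Subgroup C).map C.subtype) := Q.isPGroup'.map _
    have hQ1C : (Q : Subgroup C).map C.subtype ≤ C := Subgroup.map_subtype_le _
    have hQN : IsPGroup p (((Q : Subgroup C).map C.subtype).subgroupOf N) := hQ1p.comap_subtype
    obtain ⟨T, hT⟩ := hQN.exists_le_sylow
    obtain ⟨n, rfl⟩ := MulAction.exists_smul_eq N (R.subtype hAn) T
    intro q hq
    have hqN : q ∈ N := hCN (hQ1C hq)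
    have h1 : (⟨q, hqN⟩ : N) ∈ ((n • R.subtype hAn : Sylow p N) : Subgroup N) :=
      hT (by rw [Subgroup.mem_subgroupOf]; exact hq)
    rw [Sylow.coe_subgroup_smul, Subgroup.mem_pointwise_smul_iff_inv_smul_mem] at h1
    have h2 : (n : G)⁻¹ * q * n ∈ (R : Subgroup G) := by
      have h3 : (MulAut.conj n)⁻¹ • (⟨q, hqN⟩ : N) ∈ (R : Subgroup G).subgroupOf N := h1
      rw [Subgroup.mem_subgroupOf] at h3
      simpa [MulAut.smul_def] using h3
    have h4 : (n : G)⁻¹ * q * n ∈ C := by
      rw [memC]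
      intro a ha
      have hn := (memN _).mp n.2
      have hna : (n : G) * a * (n : G)⁻¹ ∈ A := (hn a).mp ha
      have hqc := (memC _).mp (hQ1C hq)
      have h5 := hqc _ hna
      calc a * ((n : G)⁻¹ * q * n) = (n : G)⁻¹ * (((n : G) * a * (n : G)⁻¹) * q) * n := by group
        _ = (n : G)⁻¹ * (q * ((n : G) * a * (n : G)⁻¹)) * n := by rw [h5]
        _ = (n : G)⁻¹ * q * n * a := by group
    have h6 : (n : G)⁻¹ * q * n ∈ A := by
      rw [← hC]; exact ⟨h2, h4⟩
    have hn := (memN _).mp n.2
    have h7 := (hn _).mp h6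
    have e : (n : G) * ((n : G)⁻¹ * q * n) * (n : G)⁻¹ = q := by group
    rwa [e] at h7
  have hQeq : (Q : Subgroup C) = A.subgroupOf C := by
    apply le_antisymm _ hQ
    intro x hx
    rw [Subgroup.mem_subgroupOf]
    exact hQ1 ⟨x, hx, rfl⟩
  have hQmap : (Q : Subgroup C).map C.subtype = A := by
    rw [hQeq]
    exact Subgroup.map_subgroupOf_eq_of_le hAC
  -- `Q` is central in `C`
  have hQcent : Subgroup.normalizer ((Q : Subgroup C) : Set C) ≤ Subgroup.centralizer ((Q : Subgroup C) : Set C) := by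
    intro c _
    rw [Subgroup.mem_centralizer_iff]
    intro x hx
    have hxA : (x : G) ∈ A := by
      have hx' : x ∈ (Q : Subgroup C) := hx
      rw [hQeq, Subgroup.mem_subgroupOf] at hx'
      exact hx'
    have hc := (memC _).mp c.2
    exact Subtype.ext (hc _ hxA)
  have hcompl := MonoidHom.ker_transferSylow_isComplement' Q hQcent
  have hndvd := MonoidHom.not_dvd_card_ker_transferSylow Q hQcent
  set K := (MonoidHom.transferSylow Q hQcent).ker with hK
  refine ⟨K.map C.subtype, Subgroup.map_subtype_le _, ?_, ?_, ?_, ?_⟩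
  · rw [Subgroup.card_subtype]
    exact ((Nat.Prime.coprime_iff_not_dvd hp).mpr hndvd).symm
  · have h1 := Subgroup.le_normalizer_map (H := K) C.subtype
    have h2 : Subgroup.normalizer (K : Set C) = ⊤ := Subgroup.normalizer_eq_top K
    rw [h2, ← MonoidHom.range_eq_map, Subgroup.range_subtype] at h1
    exact h1
  · rw [← hQmap, ← Subgroup.map_inf _ _ _ C.subtype_injective]
    have := hcompl.disjoint
    rw [disjoint_iff] at this
    rw [this, Subgroup.map_bot]
  · rw [← hQmap, ← Subgroup.map_sup, hcompl.sup_eq_top, ← MonoidHom.range_eq_map,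
      Subgroup.range_subtype]

end Cfsg.Agent.S0125
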