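import Cfsg.Statements.S0129
import Cfsg.Agent.Lib.Helper23.StabBound

set_option autoImplicit false
open Cfsg

namespace Cfsg.Agent.S0129

open Cfsg.Agent.Lib.Helper23.StabBound Cfsg.Agent.Lib.Helper24.PGroupBasic

/-- The order of a p-group is bounded by p^(a(a+1)/2) when it has a maximal normal abelian subgroup of order p^a. -/
theorem result {G : Type*} [Group G] [Finite G] {p : ℕ} [Fact p.Prime] (hG : IsPGroup p G) (A : Subgroup G) [A.Normal] (hA : IsMulCommutative A) (hmax : ∀ B : Subgroup G, B.Normal → IsMulCommutative B → A ≤ B → B = A) (a : ℕ) (ha : Nat.card A = p ^ a) : Nat.card G ≤ p ^ (a * (a + 1) / 2) := by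
  have hnil : Group.IsNilpotent G := hG.isNilpotent
  have hAab : ∀ x ∈ A, ∀ y ∈ A, x * y = y * x := by
    intro x hx y hy
    exact congrArg Subtype.val (hA.is_comm.comm ⟨x, hx⟩ ⟨y, hy⟩)
  have hcent : Subgroup.centralizer (A : Set G) = A := by
    apply centralizer_eq_of_max_normal_abelian A hAab
    intro M hMn hMab hle
    exact hmax M hMn ⟨⟨fun x y => Subtype.ext (hMab x x.2 y y.2)⟩⟩ hle
  have h1 := card_le_pow_mul_card_centralizer hG a A inferInstance hAab ha
  rw [hcent, ha, ← pow_add, arith a] at h1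
  have e : (a + 1) * (a + 1 - 1) = a * (a + 1) := by
    rw [Nat.add_sub_cancel, mul_comm]
  rwa [e] at h1

end Cfsg.Agent.S0129
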