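import Cfsg.Statements.S0131
import Mathlib
-- import your own Cfsg.Agent.* helpers here

set_option autoImplicit false
open Cfsg

namespace Cfsg.Agent.S0131

open scoped commutatorElement

/-- P/P' has a normal complement in G exactly when the focal subgroup G' ∩ P is as small as possible, namely P'. -/
theorem result {G : Type*} [Group G] [Finite G] {p : ℕ} [Fact p.Prime] (P : Sylow p G) : (∃ N : Subgroup G, N.Normal ∧ N ⊓ (P : Subgroup G) = ⁅(P : Subgroup G), (P : Subgroup G)⁆ ∧ N ⊔ (P : Subgroup G) = ⊤) ↔ commutator G ⊓ (P : Subgroup G) = ⁅(P : Subgroup G), (P : Subgroup G)⁆ := by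
  have hp : p.Prime := Fact.out
  have hPP : ⁅(P : Subgroup G), (P : Subgroup G)⁆ ≤ commutator G ⊓ (P : Subgroup G) := by
    apply le_inf
    · rw [commutator_def]
      exact Subgroup.commutator_mono le_top le_top
    · rw [Subgroup.commutator_le]
      intro g₁ h₁ g₂ h₂
      rw [commutatorElement_def]
      exact Subgroup.mul_mem _ (Subgroup.mul_mem _ (Subgroup.mul_mem _ h₁ h₂) (Subgroup.inv_mem _ h₁))
        (Subgroup.inv_mem _ h₂)
  constructor
  · rintro ⟨N, hN, hNP, hsup⟩
    apply le_antisymm _ hPP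
    rw [← hNP]
    apply inf_le_inf_right
    have key : ∀ n₁ ∈ N, ∀ p₁ ∈ (P : Subgroup G), ∀ n₂ ∈ N, ∀ p₂ ∈ (P : Subgroup G),
        ⁅n₁ * p₁, n₂ * p₂⁆ ∈ N := by
      intro n₁ hn₁ p₁ hp₁ n₂ hn₂ p₂ hp₂
      have hπ : ∀ x, x ∈ N ↔ QuotientGroup.mk' N x = 1 := fun x =>
        (QuotientGroup.eq_one_iff x).symm
      rw [hπ, map_commutatorElement, map_mul, map_mul, (hπ n₁).mp hn₁, (hπ n₂).mp hn₂, one_mul,
        one_mul, ← map_commutatorElement, ← hπ]
      have : ⁅p₁, p₂⁆ ∈ ⁅(P : Subgroup G), (P : Subgroup G)⁆ :=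
        Subgroup.commutator_mem_commutator hp₁ hp₂
      rw [← hNP] at this
      exact this.1
    rw [commutator_def, Subgroup.commutator_le]
    intro g₁ _ g₂ _
    have hg₁ : g₁ ∈ N ⊔ (P : Subgroup G) := by rw [hsup]; trivial
    have hg₂ : g₂ ∈ N ⊔ (P : Subgroup G) := by rw [hsup]; trivial
    rw [← SetLike.mem_coe, Subgroup.normal_mul] at hg₁ hg₂
    obtain ⟨n₁, hn₁, p₁, hp₁, rfl⟩ := hg₁
    obtain ⟨n₂, hn₂, p₂, hp₂, rfl⟩ := hg₂
    exact key n₁ hn₁ p₁ hp₁ n₂ hn₂ p₂ hp₂
  · intro hfoc
    set k := (commutator G).index with hk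
    have hk0 : k ≠ 0 := Subgroup.index_ne_zero_of_finite
    set m := ordCompl[p] k with hm
    have hmcop : Nat.Coprime p m := Nat.coprime_ordCompl hp hk0
    have hkm : p ^ k.factorization p * m = k := Nat.ordProj_mul_ordCompl_eq_self k p
    let f : G →* Abelianization G := (powMonoidHom m).comp Abelianization.of
    have hmem : ∀ g : G, g ∈ f.ker ↔ g ^ m ∈ commutator G := by
      intro g
      rw [MonoidHom.mem_ker, ← Abelianization.ker_of, MonoidHom.mem_ker]
      simp [f]
    refine ⟨f.ker, inferInstance, ?_, ?_⟩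
    · apply le_antisymm
      · intro g hg
        have hgN : g ∈ f.ker := hg.1
        have hgP : g ∈ (P : Subgroup G) := hg.2
        rw [hmem] at hgN
        rw [← hfoc]
        refine Subgroup.mem_inf.mpr ⟨?_, hgP⟩
        have hcop : m.Coprime (orderOf g) := by
          obtain ⟨j, hj⟩ := (IsPGroup.iff_orderOf.mp P.isPGroup') ⟨g, hgP⟩
          have hj' : orderOf g = p ^ j := by
            rw [← hj, Subgroup.orderOf_mk]
          rw [hj']
          exact Nat.Coprime.pow_right j hmcop.symm
        obtain ⟨r, hr⟩ := exists_pow_eq_self_of_coprime hcop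
        rw [← hr]
        exact Subgroup.pow_mem _ hgN r
      · rw [← hfoc]
        apply le_inf _ inf_le_right
        intro g hg
        rw [hmem]
        exact Subgroup.pow_mem _ hg.1 m
    · have hPG : IsPGroup p (G ⧸ f.ker) := by
        intro x
        induction x using QuotientGroup.induction_on with
        | _ g =>
          refine ⟨k.factorization p, ?_⟩
          rw [← QuotientGroup.mk_pow, QuotientGroup.eq_one_iff, hmem, ← pow_mul, hkm]
          exact Subgroup.pow_index_mem _ g
      obtain ⟨n, hn⟩ := IsPGroup.iff_card.mp hPG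
      have hidx : f.ker.index = p ^ n := hn
      have h1 : (f.ker ⊔ (P : Subgroup G)).index ∣ p ^ n := by
        rw [← hidx]
        exact Subgroup.index_dvd_of_le le_sup_left
      have h2 : (f.ker ⊔ (P : Subgroup G)).index ∣ (P : Subgroup G).index :=
        Subgroup.index_dvd_of_le le_sup_right
      have h3 : Nat.Coprime (p ^ n) (P : Subgroup G).index :=
        Nat.Coprime.pow_left n ((Nat.Prime.coprime_iff_not_dvd hp).mpr P.not_dvd_index)
      have h4 : (f.ker ⊔ (P : Subgroup G)).index = 1 :=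
        Nat.eq_one_of_dvd_coprimes h3 h1 h2
      exact Subgroup.index_eq_one.mp h4

end Cfsg.Agent.S0131
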