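import Cfsg.Statements.S0140
import Cfsg.Agent.Lib.Helper3.Spectral

set_option autoImplicit false
open Cfsg

namespace Cfsg.Agent.S0140

open Cfsg.Agent.Lib.Helper3.Spectral

/-- Every value of the character of a complex representation of a finite group is an algebraic integer. -/
theorem result {G : Type*} [Group G] [Finite G] {V : Type*} [AddCommGroup V] [Module ℂ V] [FiniteDimensional ℂ V] (ρ : Representation ℂ G V) (g : G) : IsIntegral ℤ (ρ.character g) := by
  obtain ⟨b, μ, hb, hμ⟩ := exists_eigenbasis ρ g
  unfold Representation.character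
  rw [trace_eq_sum_of_eigenbasis b (ρ g) μ hb]
  refine IsIntegral.sum _ ?_
  intro i _
  refine IsIntegral.of_pow (orderOf_pos g) ?_
  rw [hμ i]
  exact isIntegral_one

end Cfsg.Agent.S0140
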