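import Cfsg.Statements.S0147
import Cfsg.Agent.Lib.CT.FrobRec

set_option autoImplicit false
open Cfsg

namespace Cfsg.Agent.S0147

open Cfsg.Agent.Lib.CT.FrobRec


/-- Transitivity of induction: inducing from H to K and then from K to G is the same as inducing from H to G. -/
theorem result {G : Type*} [Group G] [Fintype G] (H K : Subgroup G) [Fintype K] (hHK : H ≤ K) (θ : H → ℂ) : Cfsg.indFun K (Cfsg.indFun (H.subgroupOf K) (fun x => θ ⟨(x : K), Subgroup.mem_subgroupOf.mp x.2⟩)) = Cfsg.indFun H θ := by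
  classical
  set θ' : H.subgroupOf K → ℂ := fun x => θ ⟨(x : K), Subgroup.mem_subgroupOf.mp x.2⟩ with hθ'
  have hcardH : Nat.card (H.subgroupOf K) = Nat.card H :=
    Nat.card_congr (Subgroup.subgroupOfEquivOfLe hHK).toEquiv
  have hcardK : (Nat.card K : ℂ) ≠ 0 := by exact_mod_cast Nat.card_pos.ne'
  have step1 : ∀ k : K, Cfsg.extendByZero (H.subgroupOf K) θ' k = Cfsg.extendByZero H θ (k : G) := by
    intro k
    by_cases hk : (k : G) ∈ H
    · have hk' : k ∈ H.subgroupOf K := Subgroup.mem_subgroupOf.mpr hk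
      rw [extendByZero_apply_of_mem _ _ hk', extendByZero_apply_of_mem _ _ hk]
    · have hk' : k ∉ H.subgroupOf K := fun h => hk (Subgroup.mem_subgroupOf.mp h)
      rw [extendByZero_apply_of_not_mem _ _ hk', extendByZero_apply_of_not_mem _ _ hk]
  have step2 : ∀ z : G, Cfsg.extendByZero K (Cfsg.indFun (H.subgroupOf K) θ') z
      = (Nat.card H : ℂ)⁻¹ * ∑ y : K, Cfsg.extendByZero H θ ((y : G)⁻¹ * z * (y : G)) := by
    intro z
    by_cases hz : z ∈ K
    · rw [extendByZero_apply_of_mem _ _ hz, indFun_apply, hcardH]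
      congr 1
      refine Finset.sum_congr rfl (fun y _ => ?_)
      rw [step1]
      rfl
    · rw [extendByZero_apply_of_not_mem _ _ hz]
      have : ∀ y : K, Cfsg.extendByZero H θ ((y : G)⁻¹ * z * (y : G)) = 0 := by
        intro y
        apply extendByZero_apply_of_not_mem
        intro h
        apply hz
        have h1 : (y : G)⁻¹ * z * (y : G) ∈ K := hHK h
        have h2 := K.mul_mem (K.mul_mem y.2 h1) (K.inv_mem y.2)
        have h3 : (y : G) * ((y : G)⁻¹ * z * (y : G)) * (y : G)⁻¹ = z := by group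
        rwa [h3] at h2
      simp [this]
  funext g
  rw [indFun_apply, indFun_apply]
  simp only [step2]
  rw [← Finset.mul_sum, Finset.sum_comm]
  have h4 : ∀ y : K, ∑ x : G, Cfsg.extendByZero H θ ((y : G)⁻¹ * (x⁻¹ * g * x) * (y : G))
      = ∑ x : G, Cfsg.extendByZero H θ (x⁻¹ * g * x) := by
    intro y
    refine Fintype.sum_bijective (fun x => x * (y : G)) (Group.mulRight_bijective _) _ _ ?_
    intro x
    congr 1
    group
  simp only [h4, Finset.sum_const, Finset.card_univ, nsmul_eq_mul]
  rw [← Nat.card_eq_fintype_card]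
  field_simp

end Cfsg.Agent.S0147
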