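import Cfsg.Statements.S0162
import Cfsg.Agent.S0161
import Cfsg.Agent.S0133
import Cfsg.Agent.Lib.CT.Orth
import Cfsg.Agent.Lib.Helper80.Integrality
import Cfsg.Agent.Lib.Helper81.Irr
import Cfsg.Agent.Lib.Helper3.Irr

set_option autoImplicit false
open Cfsg

namespace Cfsg.Agent.S0162


/-- If a finite group has odd order, its order is congruent to its number of conjugacy classes modulo 16. -/
theorem result {G : Type*} [Group G] [Finite G] (hodd : Odd (Nat.card G)) : Nat.card G ≡ Nat.card (ConjClasses G) [MOD 16] := by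
  classical
  have : Fintype G := Fintype.ofFinite G
  have := Cfsg.Agent.Lib.Helper3.Irr.finite_irrCharacter (G := G)
  have : Fintype (IrrCharacter G) := Fintype.ofFinite _
  have hsq := Cfsg.Agent.Lib.CT.Orth.sum_charDegree_sq_sum (G := G)
  have hk : Nat.card (ConjClasses G) = ∑ _χ : IrrCharacter G, 1 := by
    rw [← Cfsg.Agent.S0133.result, Nat.card_eq_fintype_card]
    simp
  -- work in ZMod 16
  have key : ∀ x : ZMod 16, x.val % 2 = 1 → 2 * (x ^ 2 - 1) = 0 := by decide
  let f : IrrCharacter G → ZMod 16 := fun χ => (Cfsg.charDegree (χ : G → ℂ) : ZMod 16) ^ 2 - 1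
  have hdeg_inv : ∀ χ : IrrCharacter G,
      Cfsg.charDegree ((Cfsg.Agent.Lib.Helper81.Irr.invChar χ : IrrCharacter G) : G → ℂ)
        = Cfsg.charDegree (χ : G → ℂ) := by
    intro χ
    unfold Cfsg.charDegree
    rw [show ((Cfsg.Agent.Lib.Helper81.Irr.invChar χ : IrrCharacter G) : G → ℂ) 1
      = (χ : G → ℂ) 1⁻¹ from rfl, inv_one]
  have hodd' : ∀ χ : IrrCharacter G, Cfsg.charDegree (χ : G → ℂ) % 2 = 1 := by
    intro χ
    have h1 := Cfsg.Agent.Lib.Helper80.Integrality.charDegree_dvd_card χ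
    exact Nat.odd_iff.1 (Odd.of_dvd_nat hodd h1)
  have htwo : ∀ χ : IrrCharacter G, 2 * f χ = 0 := by
    intro χ
    apply key
    rw [ZMod.val_natCast]
    have := hodd' χ
    omega
  have hsum : ∑ χ : IrrCharacter G, f χ = 0 := by
    refine Finset.sum_involution (fun χ _ => Cfsg.Agent.Lib.Helper81.Irr.invChar χ) ?_ ?_ ?_ ?_
    · intro χ _
      show f χ + f (Cfsg.Agent.Lib.Helper81.Irr.invChar χ) = 0
      have : f (Cfsg.Agent.Lib.Helper81.Irr.invChar χ) = f χ := by
        show (Cfsg.charDegree _ : ZMod 16) ^ 2 - 1 = (Cfsg.charDegree _ : ZMod 16) ^ 2 - 1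
        rw [hdeg_inv]
      rw [this, ← two_mul]
      exact htwo χ
    · intro χ _ hne hfix
      apply hne
      have hreal : ∀ g : G, ((χ : G → ℂ) g).im = 0 := by
        intro g
        have h2 : (χ : G → ℂ) g⁻¹ = (χ : G → ℂ) g := by
          have := congrArg (fun ψ : IrrCharacter G => (ψ : G → ℂ) g) hfix
          exact this
        rw [Cfsg.Agent.Lib.Helper3.Irr.IsCharacter.apply_inv
          (Cfsg.Agent.Lib.Helper3.Irr.IsIrrCharacter.isCharacter χ.2)] at h2
        exact Complex.conj_eq_iff_im.1 h2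
      have htriv := Cfsg.Agent.S0161.result hodd χ hreal
      show (Cfsg.charDegree (χ : G → ℂ) : ZMod 16) ^ 2 - 1 = 0
      have hd : Cfsg.charDegree (χ : G → ℂ) = 1 := by
        unfold Cfsg.charDegree
        rw [htriv]
        simp
      rw [hd]
      simp
    · intro χ _
      exact Finset.mem_univ _
    · intro χ _
      exact Cfsg.Agent.Lib.Helper81.Irr.invChar_invChar χ
  have hfinal : ((Nat.card G : ℕ) : ZMod 16) = ((Nat.card (ConjClasses G) : ℕ) : ZMod 16) := by
    rw [← hsq, hk]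
    push_cast
    have : ∑ χ : IrrCharacter G, f χ
        = ∑ χ : IrrCharacter G, (Cfsg.charDegree (χ : G → ℂ) : ZMod 16) ^ 2
          - ∑ _χ : IrrCharacter G, (1 : ZMod 16) := by
      rw [← Finset.sum_sub_distrib]
    rw [hsum] at this
    exact (sub_eq_zero.1 this.symm)
  exact (ZMod.natCast_eq_natCast_iff _ _ _).1 hfinal

end Cfsg.Agent.S0162
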