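import Cfsg.Statements.S0163
import Mathlib
import Cfsg.Agent.Lib.Helper3.BrauerGlobal

set_option autoImplicit false
open Cfsg

namespace Cfsg.Agent.S0163

open Cfsg.Agent.Lib.Helper3.BrauerGlobal

universe u

theorem neg_list_sum {G : Type u} [Group G] [Fintype G]
    (l : List ((E : Subgroup G) × ((E →* ℂˣ) × ℤ))) :
    -(l.map fun t => (t.2.2 : ℂ) • Cfsg.indFun t.1 (fun e => (t.2.1 e : ℂ))).sum
      = (l.map ((fun t : ((E : Subgroup G) × ((E →* ℂˣ) × ℤ)) =>
          (t.2.2 : ℂ) • Cfsg.indFun t.1 (fun e => (t.2.1 e : ℂ))) ∘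
        (fun t : ((E : Subgroup G) × ((E →* ℂˣ) × ℤ)) =>
          (⟨t.1, (t.2.1, -t.2.2)⟩ : (E : Subgroup G) × ((E →* ℂˣ) × ℤ))))).sum := by
  induction l with
  | nil => simp
  | cons a l ih =>
    rw [List.map_cons, List.sum_cons, List.map_cons, List.sum_cons, neg_add, ih]
    congr 1
    simp

theorem exists_list_of_mem_brauerSpan {G : Type u} [Group G] [Fintype G] {f : G → ℂ}
    (hf : f ∈ brauerSpan G) :
    ∃ l : List ((E : Subgroup G) × ((E →* ℂˣ) × ℤ)),
      (∀ t ∈ l, ∃ p : ℕ, p.Prime ∧ Cfsg.IsElementary p t.1) ∧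
      f = (l.map fun t => (t.2.2 : ℂ) • Cfsg.indFun t.1 (fun e => (t.2.1 e : ℂ))).sum := by
  unfold brauerSpan at hf
  induction hf using AddSubgroup.closure_induction with
  | mem x hx =>
    obtain ⟨E, lam, hE, rfl⟩ := hx
    refine ⟨[⟨E, (lam, 1)⟩], ?_, ?_⟩
    · intro t ht
      rw [List.mem_singleton] at ht
      subst ht
      exact hE
    · simp
  | zero => exact ⟨[], by simp, by simp⟩
  | add x y _ _ hx hy =>
    obtain ⟨l₁, h₁, rfl⟩ := hx
    obtain ⟨l₂, h₂, rfl⟩ := hy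
    refine ⟨l₁ ++ l₂, ?_, ?_⟩
    · intro t ht
      rcases List.mem_append.1 ht with h | h
      · exact h₁ t h
      · exact h₂ t h
    · rw [List.map_append, List.sum_append]
  | neg x _ hx =>
    obtain ⟨l, h₁, rfl⟩ := hx
    refine ⟨l.map (fun t : ((E : Subgroup G) × ((E →* ℂˣ) × ℤ)) =>
      (⟨t.1, (t.2.1, -t.2.2)⟩ : (E : Subgroup G) × ((E →* ℂˣ) × ℤ))), ?_, ?_⟩
    · intro t ht
      obtain ⟨s, hs, rfl⟩ := List.mem_map.1 ht
      exact h₁ s hs
    · rw [List.map_map]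
      exact neg_list_sum l

/-- Brauer's induction Theorem: every character of a finite group is a ℤ-linear combination of functions induced from linear characters (homomorphisms to ℂˣ) of elementary subgroups. -/
theorem result {G : Type*} [Group G] [Fintype G] (χ : G → ℂ) (hχ : Cfsg.IsCharacter G χ) : ∃ l : List ((E : Subgroup G) × ((E →* ℂˣ) × ℤ)), (∀ t ∈ l, ∃ p : ℕ, p.Prime ∧ Cfsg.IsElementary p t.1) ∧ χ = (l.map fun t => (t.2.2 : ℂ) • Cfsg.indFun t.1 (fun e => (t.2.1 e : ℂ))).sum :=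
  exists_list_of_mem_brauerSpan (char_mem_brauerSpan hχ)

end Cfsg.Agent.S0163
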