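import Cfsg.Statements.S0165
import Mathlib
import Cfsg.Agent.Lib.CT.Ops
import Cfsg.Agent.Lib.Helper80.Integrality
import Cfsg.Agent.Lib.Helper74.DefectZero

set_option autoImplicit false
open Cfsg

namespace Cfsg.Agent.S0165

open Cfsg.Agent.Lib.Helper74.DefectZero

/-- If p ^ n is the exact power of the prime p dividing the order of a finite group and p ^ n divides the degree of an irreducible complex representation, then its character vanishes at every element of order divisible by p. -/
theorem result {G : Type*} [Group G] [Finite G] {V : Type*} [AddCommGroup V] [Module ℂ V] [FiniteDimensional ℂ V] (ρ : Representation ℂ G V) [ρ.IsIrreducible] (p n : ℕ) (hp : p.Prime) (hn : p ^ n ∣ Nat.card G) (hn' : ¬ p ^ (n + 1) ∣ Nat.card G) (hdeg : p ^ n ∣ Module.finrank ℂ V) (x : G) (hx : p ∣ orderOf x) : ρ.character x = 0 := by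
  have hirr : IsIrrCharacter G ρ.character := Cfsg.Agent.Lib.CT.Ops.isIrrCharacter_of_rep ρ
  have hdvd := Cfsg.Agent.Lib.Helper80.Integrality.finrank_dvd_card ρ
  obtain ⟨m, hm⟩ := hdvd
  have hcd : charDegree ρ.character = Module.finrank ℂ V :=
    Cfsg.Agent.Lib.Helper80.Integrality.charDegree_eq_finrank ρ
  have hpm : ¬ p ∣ m := by
    intro hpm
    apply hn'
    obtain ⟨a, ha⟩ := hdeg
    obtain ⟨b, hb⟩ := hpm
    rw [hm, ha, hb, pow_succ]
    exact ⟨a * b, by ring⟩
  exact irr_eq_zero_of_defect_zero hp ⟨ρ.character, hirr⟩ m (by rw [hcd]; exact hm) hpm x hx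

end Cfsg.Agent.S0165
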