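import Cfsg.Statements.S0166
import Mathlib
import Cfsg.Agent.Lib.Helper3.Splitting

set_option autoImplicit false
open Cfsg

namespace Cfsg.Agent.S0166

open IntermediateField

/-- Brauer's splitting field Theorem: a complex representation of a finite group of exponent m is equivalent to a representation by matrices with entries in ℚ adjoined exp(2πi/m). -/
theorem result {G : Type*} [Group G] [Finite G] (n : ℕ) (ρ : Representation ℂ G (Fin n → ℂ)) : ∃ σ : Representation ℂ G (Fin n → ℂ), Nonempty (ρ.Equiv σ) ∧ ∀ g : G, ∀ i j : Fin n, LinearMap.toMatrix' (σ g) i j ∈ Algebra.adjoin ℚ ({Complex.exp (2 * Real.pi * Complex.I / (Monoid.exponent G : ℂ))} : Set ℂ) := by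
  have hm : Monoid.exponent G ≠ 0 := Monoid.exponent_ne_zero_of_finite
  haveI : NeZero (Monoid.exponent G) := ⟨hm⟩
  set ζ : ℂ := Complex.exp (2 * Real.pi * Complex.I / (Monoid.exponent G : ℂ)) with hζ
  have hprim : IsPrimitiveRoot ζ (Monoid.exponent G) := Complex.isPrimitiveRoot_exp _ hm
  have halg : IsAlgebraic ℚ ζ :=
    ((hprim.isIntegral (Nat.pos_of_ne_zero hm)).tower_top (A := ℚ)).isAlgebraic
  have hF : ∀ z : ℂ, z ^ Monoid.exponent G = 1 → z ∈ Set.range (algebraMap ℚ⟮ζ⟯ ℂ) := by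
    intro z hz
    obtain ⟨i, -, rfl⟩ := hprim.eq_pow_of_pow_eq_one hz
    exact ⟨⟨ζ, mem_adjoin_simple_self ℚ ζ⟩ ^ i, rfl⟩
  obtain ⟨σ, hσ, hent⟩ := Cfsg.Agent.Lib.Helper3.Splitting.realizable (F := ℚ⟮ζ⟯) hF n ρ
  refine ⟨σ, hσ, fun g i j => ?_⟩
  obtain ⟨x, hx⟩ := hent g i j
  rw [← hx, ← adjoin_simple_toSubalgebra_of_isAlgebraic halg]
  exact x.2

end Cfsg.Agent.S0166
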