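import Cfsg.Statements.S0167
import Cfsg.Agent.Lib.Helper81.Expand

set_option autoImplicit false
open Cfsg

namespace Cfsg.Agent.S0167


/-- An element g of a finite group is a commutator if and only if the sum over the irreducible characters χ of χ g / χ 1 is nonzero. -/
theorem result {G : Type*} [Group G] [Finite G] (g : G) : (∃ a b : G, g = a * b * a⁻¹ * b⁻¹) ↔ ∑ᶠ χ : Cfsg.IrrCharacter G, (χ : G → ℂ) g / (χ : G → ℂ) 1 ≠ 0 := by
  have h := Cfsg.Agent.Lib.Helper81.Expand.comm_count_finsum g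
  have hcard : (Nat.card G : ℂ) ≠ 0 := by exact_mod_cast Nat.card_pos.ne'
  constructor
  · rintro ⟨a, b, hab⟩
    intro h0
    rw [h0, mul_zero] at h
    have h1 : Nat.card {xy : G × G // xy.1 * xy.2 * xy.1⁻¹ * xy.2⁻¹ = g} = 0 := by
      exact_mod_cast h
    have : Nonempty {xy : G × G // xy.1 * xy.2 * xy.1⁻¹ * xy.2⁻¹ = g} := ⟨⟨(a, b), hab.symm⟩⟩
    exact Nat.card_pos.ne' h1
  · intro hne
    have h1 : Nat.card {xy : G × G // xy.1 * xy.2 * xy.1⁻¹ * xy.2⁻¹ = g} ≠ 0 := by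
      intro h0
      rw [h0] at h
      simp only [Nat.cast_zero] at h
      rcases mul_eq_zero.1 h.symm with h2 | h2
      · exact hcard h2
      · exact hne h2
    have hpos : 0 < Nat.card {xy : G × G // xy.1 * xy.2 * xy.1⁻¹ * xy.2⁻¹ = g} :=
      Nat.pos_of_ne_zero h1
    obtain ⟨⟨⟨a, b⟩, hab⟩⟩ := (Nat.card_pos_iff.1 hpos).1
    exact ⟨a, b, hab.symm⟩

end Cfsg.Agent.S0167
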