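import Cfsg.Statements.S0168
import Cfsg.Agent.Lib.Helper3.Irr
import Cfsg.Agent.S0139

set_option autoImplicit false
open Cfsg

namespace Cfsg.Agent.S0168

open Cfsg.Agent.Lib.Helper3.Irr


/-- The Burnside–Brauer Theorem. Let χ be the character of a faithful complex representation of a finite group, taking m distinct values. Then every irreducible character has nonzero inner product with χ ^ i for some i < m. -/
theorem result {G : Type*} [Group G] [Fintype G] {V : Type*} [AddCommGroup V] [Module ℂ V] [FiniteDimensional ℂ V] (ρ : Representation ℂ G V) (hfaithful : Function.Injective ρ) (ψ : G → ℂ) (hψ : Cfsg.IsIrrCharacter G ψ) : ∃ i : ℕ, i < Nat.card (Set.range ρ.character) ∧ Cfsg.classInner (fun g => ρ.character g ^ i) ψ ≠ 0 := by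
  classical
  by_contra hcon
  have hall : ∀ i : ℕ, i < Nat.card (Set.range ρ.character) →
      Cfsg.classInner (fun g => ρ.character g ^ i) ψ = 0 := by
    intro i hi
    by_contra h
    exact hcon ⟨i, hi, h⟩
  have hcard : (Nat.card G : ℂ) ≠ 0 := by exact_mod_cast Nat.card_pos.ne'
  set m := Nat.card (Set.range ρ.character) with hm
  have hfin : Finite (Set.range ρ.character) := Set.finite_range _
  let e : Set.range ρ.character ≃ Fin m := Finite.equivFin _
  let v : Fin m → ℂ := fun j => ((e.symm j : Set.range ρ.character) : ℂ)
  have hv : Function.Injective v := by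
    intro a b hab
    have : e.symm a = e.symm b := Subtype.ext hab
    exact e.symm.injective this
  let β : Fin m → ℂ := fun j => ∑ g : G, if ρ.character g = v j then (starRingEnd ℂ) (ψ g) else 0
  have hβ : Matrix.vecMul β (Matrix.vandermonde v) = 0 := by
    funext i
    simp only [Matrix.vecMul, dotProduct, Matrix.vandermonde_apply, Pi.zero_apply]
    have h1 : ∑ j : Fin m, β j * v j ^ (i : ℕ)
        = ∑ g : G, ρ.character g ^ (i : ℕ) * (starRingEnd ℂ) (ψ g) := by
      simp only [β, Finset.sum_mul]
      rw [Finset.sum_comm]
      refine Finset.sum_congr rfl (fun g _ => ?_)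
      rw [Finset.sum_eq_single (e ⟨ρ.character g, ⟨g, rfl⟩⟩)]
      · have : v (e ⟨ρ.character g, ⟨g, rfl⟩⟩) = ρ.character g := by simp [v]
        rw [this, if_pos rfl, mul_comm]
      · intro j _ hj
        have : ¬ ρ.character g = v j := by
          intro h
          apply hj
          apply e.symm.injective
          apply Subtype.ext
          simp only [Equiv.symm_apply_apply]
          exact h.symm
        rw [if_neg this, zero_mul]
      · intro h
        exact absurd (Finset.mem_univ _) h
    rw [h1]
    have h2 := hall i i.2
    unfold Cfsg.classInner at h2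
    rcases mul_eq_zero.1 h2 with h3 | h3
    · exact absurd (inv_eq_zero.1 h3) hcard
    · exact h3
  have hdet : (Matrix.vandermonde v).det ≠ 0 := Matrix.det_vandermonde_ne_zero_iff.2 hv
  have hβ0 : β = 0 := Matrix.eq_zero_of_vecMul_eq_zero hdet hβ
  have h3 := congrFun hβ0 (e ⟨ρ.character 1, ⟨1, rfl⟩⟩)
  have hv1 : v (e ⟨ρ.character 1, ⟨1, rfl⟩⟩) = ρ.character 1 := by simp [v]
  simp only [β, hv1, Pi.zero_apply] at h3
  rw [Finset.sum_eq_single (1 : G)] at h3
  · rw [if_pos rfl] at h3
    have h4 : ψ 1 = 0 := by
      have := congrArg (starRingEnd ℂ) h3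
      simpa using this
    exact IsIrrCharacter.apply_one_ne_zero hψ h4
  · intro g _ hg
    have : ¬ ρ.character g = ρ.character 1 := by
      intro h
      rw [Representation.char_one] at h
      have h5 := (Cfsg.Agent.S0139.result ρ g).1 h
      apply hg
      apply hfaithful
      rw [h5, map_one]
      rfl
    rw [if_neg this]
  · intro h
    exact absurd (Finset.mem_univ _) h

end Cfsg.Agent.S0168
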