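import Cfsg.Statements.S0172
import Mathlib
import Cfsg.Agent.Lib.Helper3.Frob

set_option autoImplicit false
open Cfsg

namespace Cfsg.Agent.S0172

open Cfsg.Agent.Lib.Helper3.Frob

/-- The number of elements commuting with `x`. -/
noncomputable def cc {X : Type*} [Group X] (x : X) : ℕ := Nat.card {y : X // y * x = x * y}

theorem sum_cc {X : Type*} [Group X] [Fintype X] :
    ∑ x : X, cc x = Nat.card (ConjClasses X) * Nat.card X := by
  rw [← card_comm_eq_card_conjClasses_mul_card,
    Nat.card_congr (Equiv.subtypeProdEquivSigmaSubtype (fun (x y : X) => Commute x y)),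
    Nat.card_sigma]
  refine Finset.sum_congr rfl (fun x _ => ?_)
  unfold cc
  refine Nat.card_congr (Equiv.subtypeEquivRight fun y => ?_)
  exact ⟨fun h => h.symm, fun h => h.symm⟩

theorem cc_one {X : Type*} [Group X] : cc (1 : X) = Nat.card X := by
  unfold cc
  exact Nat.card_congr (Equiv.subtypeUnivEquiv (fun y => by simp))

theorem cc_conj {X : Type*} [Group X] (v x : X) : cc (v * x * v⁻¹) = cc x := by
  unfold cc
  refine Nat.card_congr
    { toFun := fun y => ⟨v⁻¹ * y * v, ?_⟩
      invFun := fun z => ⟨v * z * v⁻¹, ?_⟩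
      left_inv := fun y => Subtype.ext (by simp [mul_assoc])
      right_inv := fun z => Subtype.ext (by simp [mul_assoc]) }
  · have h := y.2
    calc v⁻¹ * y * v * x = v⁻¹ * ((y : X) * (v * x * v⁻¹)) * v := by group
      _ = v⁻¹ * ((v * x * v⁻¹) * y) * v := by rw [h]
      _ = x * (v⁻¹ * y * v) := by group
  · have h := z.2
    calc v * z * v⁻¹ * (v * x * v⁻¹) = v * ((z : X) * x) * v⁻¹ := by group
      _ = v * (x * z) * v⁻¹ := by rw [h]
      _ = v * x * v⁻¹ * (v * z * v⁻¹) := by group

theorem cc_subgroup {X : Type*} [Group X] (L : Subgroup X) (x : L)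
    (h : ∀ y : X, y * (x : X) = x * y → y ∈ L) : cc (x : X) = cc x := by
  unfold cc
  refine Nat.card_congr
    { toFun := fun y => ⟨⟨y, h y y.2⟩, Subtype.ext y.2⟩
      invFun := fun z => ⟨z.1, congrArg Subtype.val z.2⟩
      left_inv := fun y => rfl
      right_inv := fun z => rfl }

/-- Class number of a Frobenius group: if G = K H with K normal, K ⊓ H trivial and no non-identity element of H commuting with a non-identity element of K, then |H| * k(G) + 1 = |H| * k(H) + k(K), where k denotes the number of conjugacy classes. -/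
theorem result {G : Type*} [Group G] [Finite G] (K H : Subgroup G) [K.Normal] (hKH : K ⊓ H = ⊥) (hKH' : K ⊔ H = ⊤) (hfpf : ∀ h ∈ H, h ≠ 1 → ∀ k ∈ K, h * k = k * h → k = 1) : Nat.card H * Nat.card (ConjClasses G) + 1 = Nat.card H * Nat.card (ConjClasses H) + Nat.card (ConjClasses K) := by
  classical
  have : Fintype G := Fintype.ofFinite G
  have hbij : Function.Bijective (fun p : K × H => (p.1 : G) * (p.2 : G)) := by
    constructor
    · intro p q hpq
      obtain ⟨h1, h2⟩ := mul_unique hKH p.1.2 q.1.2 p.2.2 q.2.2 hpq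
      exact Prod.ext (Subtype.ext h1) (Subtype.ext h2)
    · intro g
      obtain ⟨k, hk, h, hh, rfl⟩ := exists_mul hKH' g
      exact ⟨(⟨k, hk⟩, ⟨h, hh⟩), rfl⟩
  let e : K × H ≃ G := Equiv.ofBijective _ hbij
  have hG : Nat.card G = Nat.card K * Nat.card H := by
    rw [← Nat.card_prod]
    exact (Nat.card_congr e).symm
  have hSG : ∑ x : G, cc x = ∑ u : K, ∑ h : H, cc ((u : G) * (h : G)) := by
    rw [← Fintype.sum_prod_type']
    exact (Equiv.sum_comp e (fun x => cc x)).symm
  have hH : ∑ h : H, cc h = Nat.card H + ∑ h ∈ Finset.univ.erase (1 : H), cc h := by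
    rw [← Finset.add_sum_erase _ _ (Finset.mem_univ (1 : H)), cc_one]
  have hK : ∑ u : K, cc u = Nat.card K + ∑ u ∈ Finset.univ.erase (1 : K), cc u := by
    rw [← Finset.add_sum_erase _ _ (Finset.mem_univ (1 : K)), cc_one]
  have hinner : ∀ u : K, ∑ h : H, cc ((u : G) * (h : G))
      = cc (u : G) + ∑ h ∈ Finset.univ.erase (1 : H), cc h := by
    intro u
    rw [← Finset.add_sum_erase _ _ (Finset.mem_univ (1 : H))]
    congr 1
    · simp
    · refine Finset.sum_congr rfl (fun h hh => ?_)
      have h1 : (h : G) ≠ 1 := by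
        intro h1
        exact Finset.ne_of_mem_erase hh (Subtype.ext h1)
      obtain ⟨v, -, hv⟩ := exists_conj_eq hfpf h.2 h1 u.2
      rw [← hv, cc_conj]
      exact cc_subgroup H h (fun y hy => mem_H_of_commute hKH hKH' hfpf h.2 h1 hy)
  have hKG : ∑ u : K, cc (u : G) = Nat.card G + ∑ u ∈ Finset.univ.erase (1 : K), cc u := by
    rw [← Finset.add_sum_erase _ _ (Finset.mem_univ (1 : K))]
    congr 1
    · rw [Subgroup.coe_one, cc_one]
    · refine Finset.sum_congr rfl (fun u hu => ?_)
      have u1 : (u : G) ≠ 1 := by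
        intro h1
        exact Finset.ne_of_mem_erase hu (Subtype.ext h1)
      exact cc_subgroup K u (fun y hy => mem_K_of_commute hKH' hfpf u.2 u1 hy)
  have key : Nat.card (ConjClasses G) * Nat.card G + Nat.card K
      = Nat.card (ConjClasses K) * Nat.card K
        + Nat.card K * (Nat.card (ConjClasses H) * Nat.card H) := by
    rw [← sum_cc, ← sum_cc, ← sum_cc, hSG]
    simp only [hinner]
    rw [Finset.sum_add_distrib, hKG, hH, hK, Finset.sum_const, Finset.card_univ, smul_eq_mul, hG,
      ← Nat.card_eq_fintype_card]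
    ring
  have hKpos : 0 < Nat.card K := Nat.card_pos
  rw [hG] at key
  have h3 : Nat.card K * (Nat.card H * Nat.card (ConjClasses G) + 1)
      = Nat.card K * (Nat.card H * Nat.card (ConjClasses H) + Nat.card (ConjClasses K)) := by
    zify at key ⊢
    linear_combination key
  exact Nat.eq_of_mul_eq_mul_left hKpos h3

end Cfsg.Agent.S0172
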