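import Cfsg.Statements.S0173
import Cfsg.Agent.Lib.Helper3.Orth
import Cfsg.Agent.Lib.CT.Ops

set_option autoImplicit false
open Cfsg

namespace Cfsg.Agent.S0173

open Cfsg.Agent.Lib.Helper3.Irr Cfsg.Agent.Lib.Helper3.Orth


/-- Brauer's permutation lemma for a single automorphism: the number of conjugacy classes mapped to themselves equals the number of irreducible complex characters χ with χ ∘ α = χ. -/
theorem result {G : Type*} [Group G] [Finite G] (α : G ≃* G) : Nat.card {C : ConjClasses G // ConjClasses.map α.toMonoidHom C = C} = Nat.card {χ : Cfsg.IrrCharacter G // (χ : G → ℂ) ∘ α = (χ : G → ℂ)} := by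
  classical
  have : Fintype G := Fintype.ofFinite G
  have := finite_irrCharacter (G := G)
  have : Fintype (IrrCharacter G) := Fintype.ofFinite _
  have : Fintype (ConjClasses G) := Fintype.ofFinite _
  have hcard : (Nat.card G : ℂ) ≠ 0 := by exact_mod_cast Nat.card_pos.ne'
  -- the number of fixed characters, as a sum of inner products
  have hχ : ((Nat.card {χ : Cfsg.IrrCharacter G // (χ : G → ℂ) ∘ α = (χ : G → ℂ)} : ℕ) : ℂ)
      = ∑ χ : IrrCharacter G, classInner (χ : G → ℂ) ((χ : G → ℂ) ∘ α) := by
    rw [Nat.card_eq_fintype_card, Fintype.card_subtype, Finset.card_filter, Nat.cast_sum]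
    refine Finset.sum_congr rfl (fun χ _ => ?_)
    have hirr : IsIrrCharacter G ((χ : G → ℂ) ∘ α) :=
      Cfsg.Agent.Lib.CT.Ops.isIrrCharacter_comp_mulEquiv α χ.2
    have h1 := irr_orthonormal χ ⟨(χ : G → ℂ) ∘ α, hirr⟩
    rw [show classInner (χ : G → ℂ) ((χ : G → ℂ) ∘ α) = classInner (χ : G → ℂ)
      ((⟨(χ : G → ℂ) ∘ α, hirr⟩ : IrrCharacter G) : G → ℂ) from rfl, h1]
    by_cases h : (χ : G → ℂ) ∘ α = (χ : G → ℂ)
    · rw [if_pos h, if_pos (Subtype.ext h.symm)]
      simp
    · rw [if_neg h, if_neg (fun h' => h (congrArg Subtype.val h').symm)]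
      simp
  -- second orthogonality
  have hsum : ∑ χ : IrrCharacter G, classInner (χ : G → ℂ) ((χ : G → ℂ) ∘ α)
      = (Nat.card G : ℂ)⁻¹ * ∑ g : G, (if ConjClasses.map α.toMonoidHom (ConjClasses.mk g)
          = ConjClasses.mk g then (Nat.card (Subgroup.centralizer ({g} : Set G)) : ℂ) else 0) := by
    unfold classInner
    rw [← Finset.mul_sum, Finset.sum_comm]
    congr 1
    refine Finset.sum_congr rfl (fun g _ => ?_)
    have h2 := second_orthogonality_sum g (α g)
    rw [show (∑ χ : IrrCharacter G, (χ : G → ℂ) g * (starRingEnd ℂ) (((χ : G → ℂ) ∘ α) g))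
      = ∑ χ : IrrCharacter G, (χ : G → ℂ) g * (starRingEnd ℂ) ((χ : G → ℂ) (α g)) from rfl, h2]
    have h3 : IsConj g (α g) ↔ ConjClasses.map α.toMonoidHom (ConjClasses.mk g)
        = ConjClasses.mk g := by
      rw [← ConjClasses.mk_eq_mk_iff_isConj]
      exact eq_comm
    by_cases h : IsConj g (α g)
    · rw [if_pos h, if_pos (h3.1 h)]
    · rw [if_neg h, if_neg (fun h' => h (h3.2 h'))]
  -- each class contributes |G|
  have hclass : ∀ C : ConjClasses G, ∑ g : G, (if ConjClasses.mk g = C then
      (Nat.card (Subgroup.centralizer ({g} : Set G)) : ℂ) else 0) = (Nat.card G : ℂ) := by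
    intro C
    obtain ⟨g0, rfl⟩ := ConjClasses.mk_surjective C
    have h1 : ∀ g : G, (if ConjClasses.mk g = ConjClasses.mk g0 then
        (Nat.card (Subgroup.centralizer ({g} : Set G)) : ℂ) else 0)
        = ((Finset.univ.filter (fun y : G => y * g0 * y⁻¹ = g)).card : ℂ) := by
      intro g
      by_cases h : IsConj g g0
      · rw [if_pos (ConjClasses.mk_eq_mk_iff_isConj.2 h), card_conj_eq h]
      · rw [if_neg (fun h' => h (ConjClasses.mk_eq_mk_iff_isConj.1 h')), filter_conj_eq_empty h]
        simp
    simp only [h1]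
    rw [← Nat.cast_sum, Nat.card_eq_fintype_card, ← Finset.card_univ (α := G)]
    congr 1
    exact (Finset.card_eq_sum_card_fiberwise (f := fun y : G => y * g0 * y⁻¹)
      (s := Finset.univ) (t := Finset.univ) (fun _ _ => Finset.mem_univ _)).symm
  have hC : ((Nat.card {C : ConjClasses G // ConjClasses.map α.toMonoidHom C = C} : ℕ) : ℂ)
      = (Nat.card G : ℂ)⁻¹ * ∑ g : G, (if ConjClasses.map α.toMonoidHom (ConjClasses.mk g)
          = ConjClasses.mk g then (Nat.card (Subgroup.centralizer ({g} : Set G)) : ℂ) else 0) := by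
    have h1 : ∀ g : G, (if ConjClasses.map α.toMonoidHom (ConjClasses.mk g)
          = ConjClasses.mk g then (Nat.card (Subgroup.centralizer ({g} : Set G)) : ℂ) else 0)
        = ∑ C : ConjClasses G, (if ConjClasses.map α.toMonoidHom C = C then
            (if ConjClasses.mk g = C then
              (Nat.card (Subgroup.centralizer ({g} : Set G)) : ℂ) else 0) else 0) := by
      intro g
      rw [Finset.sum_eq_single (ConjClasses.mk g)]
      · simp
      · intro C _ hC
        have hne : ¬ ConjClasses.mk g = C := fun h => hC h.symm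
        simp [hne]
      · intro h
        exact absurd (Finset.mem_univ _) h
    simp only [h1]
    rw [Finset.sum_comm]
    have h2 : ∀ C : ConjClasses G, ∑ g : G, (if ConjClasses.map α.toMonoidHom C = C then
            (if ConjClasses.mk g = C then
              (Nat.card (Subgroup.centralizer ({g} : Set G)) : ℂ) else 0) else 0)
        = if ConjClasses.map α.toMonoidHom C = C then (Nat.card G : ℂ) else 0 := by
      intro C
      by_cases h : ConjClasses.map α.toMonoidHom C = C
      · simp only [if_pos h]
        exact hclass C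
      · simp only [if_neg h]
        simp
    simp only [h2]
    rw [Nat.card_eq_fintype_card, Fintype.card_subtype, Finset.card_filter, Nat.cast_sum,
      Finset.mul_sum]
    refine Finset.sum_congr rfl (fun C _ => ?_)
    by_cases h : ConjClasses.map α.toMonoidHom C = C
    · rw [if_pos h, if_pos h, inv_mul_cancel₀ hcard]
      simp
    · rw [if_neg h, if_neg h]
      simp
  have key : ((Nat.card {C : ConjClasses G // ConjClasses.map α.toMonoidHom C = C} : ℕ) : ℂ)
      = ((Nat.card {χ : Cfsg.IrrCharacter G // (χ : G → ℂ) ∘ α = (χ : G → ℂ)} : ℕ) : ℂ) := by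
    rw [hC, hχ, hsum]
  exact_mod_cast key

end Cfsg.Agent.S0173
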