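import Cfsg.Statements.S0181
import Mathlib

set_option autoImplicit false
open Cfsg

namespace Cfsg.Agent.S0181

/-- Let H be a normal subgroup of a finite group G and ρ an irreducible complex representation whose kernel does not contain H. If g commutes with no non-identity element of H, then the character of ρ vanishes at g. -/
theorem result {G : Type*} [Group G] [Finite G] {V : Type*} [AddCommGroup V] [Module ℂ V] [FiniteDimensional ℂ V] (ρ : Representation ℂ G V) [ρ.IsIrreducible] (H : Subgroup G) [H.Normal] (hker : ∃ h ∈ H, ρ h ≠ LinearMap.id) (g : G) (hg : ∀ h ∈ H, h * g = g * h → h = 1) : ρ.character g = 0 := by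
  classical
  have : Fintype H := Fintype.ofFinite H
  -- the subrepresentation of H-invariants
  let W : Subrepresentation ρ :=
    { toSubmodule :=
        { carrier := {v | ∀ h ∈ H, ρ h v = v}
          add_mem' := by
            intro a b ha hb h hh
            simp [ha h hh, hb h hh]
          zero_mem' := by
            intro h hh
            simp
          smul_mem' := by
            intro c v hv h hh
            simp [hv h hh] }
      apply_mem_toSubmodule := by
        intro x v hv h hh
        have h1 : x⁻¹ * h * x ∈ H := by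
          have := ‹H.Normal›.conj_mem h hh x⁻¹
          simpa using this
        have h2 := hv _ h1
        have h3 : ρ h (ρ x v) = ρ x (ρ (x⁻¹ * h * x) v) := by
          rw [← Module.End.mul_apply, ← Module.End.mul_apply, ← map_mul, ← map_mul]
          congr 2
          group
        rw [h3, h2] }
  have hWmem : ∀ v, v ∈ W ↔ ∀ h ∈ H, ρ h v = v := fun v => Iff.rfl
  have hW : W = ⊥ := by
    rcases eq_bot_or_eq_top W with h | h
    · exact h
    · exfalso
      obtain ⟨h0, hh0, hne⟩ := hker
      apply hne
      ext v
      have hv : v ∈ W := by rw [h]; trivial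
      exact (hWmem v).1 hv h0 hh0
  -- the sum of ρ h over H vanishes
  have hS : ∑ h : H, ρ (h : G) = 0 := by
    ext v
    have hv : (∑ h : H, ρ (h : G)) v ∈ W := by
      rw [hWmem]
      intro h' hh'
      rw [LinearMap.sum_apply, map_sum]
      refine Fintype.sum_bijective (fun h : H => (⟨h', hh'⟩ : H) * h)
        (Group.mulLeft_bijective _) _ _ ?_
      intro h
      simp [map_mul]
    rw [hW] at hv
    have hv' : (∑ h : H, ρ (h : G)) v ∈ (⊥ : Submodule ℂ V) := hv
    simpa using hv'
  -- the map h ↦ h g h⁻¹ g⁻¹ is a bijection of H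
  let φ : H → H := fun h => ⟨(h : G) * g * (h : G)⁻¹ * g⁻¹, by
    have h1 : g * (h : G)⁻¹ * g⁻¹ ∈ H := ‹H.Normal›.conj_mem _ (H.inv_mem h.2) g
    have := H.mul_mem h.2 h1
    simpa [mul_assoc] using this⟩
  have hφinj : Function.Injective φ := by
    intro a b hab
    have h1 : (a : G) * g * (a : G)⁻¹ * g⁻¹ = (b : G) * g * (b : G)⁻¹ * g⁻¹ :=
      congrArg Subtype.val hab
    have h2 : (a : G) * g * (a : G)⁻¹ = (b : G) * g * (b : G)⁻¹ := by
      simpa using h1
    have h3 : ((b : G)⁻¹ * (a : G)) * g = g * ((b : G)⁻¹ * (a : G)) := by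
      calc ((b : G)⁻¹ * (a : G)) * g = (b : G)⁻¹ * ((a : G) * g * (a : G)⁻¹) * (a : G) := by group
        _ = (b : G)⁻¹ * ((b : G) * g * (b : G)⁻¹) * (a : G) := by rw [h2]
        _ = g * ((b : G)⁻¹ * (a : G)) := by group
    have h4 := hg _ (H.mul_mem (H.inv_mem b.2) a.2) h3
    apply Subtype.ext
    have : (a : G) = (b : G) := by
      calc (a : G) = (b : G) * ((b : G)⁻¹ * (a : G)) := by group
        _ = (b : G) := by rw [h4, mul_one]
    exact this
  have hφ : Function.Bijective φ := Finite.injective_iff_bijective.1 hφinj
  have h1 : ∑ h : H, ρ.character ((φ h : G) * g) = ∑ h : H, ρ.character ((h : G) * g) :=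
    Fintype.sum_bijective φ hφ _ _ (fun _ => rfl)
  have h2 : ∑ h : H, ρ.character ((h : G) * g) = 0 := by
    have : ∑ h : H, ρ.character ((h : G) * g)
        = LinearMap.trace ℂ V ((∑ h : H, ρ (h : G)) * ρ g) := by
      rw [Finset.sum_mul, map_sum]
      refine Finset.sum_congr rfl ?_
      intro h _
      simp [Representation.character, map_mul]
    rw [this, hS, zero_mul, map_zero]
  have h3 : ∑ h : H, ρ.character ((φ h : G) * g) = (Fintype.card H : ℂ) * ρ.character g := by
    have : ∀ h : H, ρ.character ((φ h : G) * g) = ρ.character g := by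
      intro h
      have : (φ h : G) * g = (h : G) * g * (h : G)⁻¹ := by
        simp [φ]
      rw [this, Representation.char_conj]
    simp [this]
  rw [h1, h2] at h3
  have hcard : (Fintype.card H : ℂ) ≠ 0 := by
    exact_mod_cast Fintype.card_ne_zero
  rcases mul_eq_zero.1 h3.symm with h | h
  · exact absurd h hcard
  · exact h

end Cfsg.Agent.S0181
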