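import Mathlib
import Cfsg.Statements.S0184
import Cfsg.Agent.Lib.CT.Kernel
import Cfsg.Agent.Lib.Helper3.Orth
import Cfsg.Agent.Lib.Helper80.Core
import Cfsg.Agent.Lib.CT.Ops
import Cfsg.Agent.H32.PGroup
-- import your own Cfsg.Agent.* helpers here

set_option autoImplicit false
open Cfsg

namespace Cfsg.Agent.S0184

open Cfsg.Agent.Lib.CT Cfsg.Agent.Lib.Helper3 Cfsg.Agent.Lib.Helper80

theorem mem_zpowers_of_orderOf_eq {α : Type*} [Group α] [Finite α] [IsCyclic α] {p : ℕ}
    (hp : 0 < p) (a b : α) (ha : orderOf a = p) (hb : orderOf b = p) :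
    a ∈ Subgroup.zpowers b := by
  classical
  have := Fintype.ofFinite α
  have h1 : (Finset.univ.filter (fun y : α => y ^ p = 1)).card ≤ p :=
    IsCyclic.card_pow_eq_one_le hp
  have hsub : (Finset.univ.filter (fun y : α => y ∈ Subgroup.zpowers b)) ⊆
      Finset.univ.filter (fun y : α => y ^ p = 1) := by
    intro y hy
    simp only [Finset.mem_filter, Finset.mem_univ, true_and] at hy ⊢
    obtain ⟨k, rfl⟩ := Subgroup.mem_zpowers_iff.mp hy
    rw [← zpow_natCast, ← zpow_mul, mul_comm, zpow_mul, zpow_natCast, ← hb, pow_orderOf_eq_one,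
      one_zpow]
  have hcard : (Finset.univ.filter (fun y : α => y ∈ Subgroup.zpowers b)).card = p := by
    rw [← Fintype.card_subtype, ← Nat.card_eq_fintype_card]
    have : Nat.card (Subgroup.zpowers b) = p := by rw [Nat.card_zpowers, hb]
    exact this
  have heq := Finset.eq_of_subset_of_card_le hsub (by rw [hcard]; exact h1)
  have hmem : a ∈ Finset.univ.filter (fun y : α => y ^ p = 1) := by
    simp only [Finset.mem_filter, Finset.mem_univ, true_and]
    rw [← ha, pow_orderOf_eq_one]
  rw [← heq] at hmem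
  simpa using hmem

theorem cyclic_center_of_faithful {G : Type*} [Group G] [Finite G] {n : ℕ}
    (ρ : Representation ℂ G (Fin n → ℂ)) (hirr : ρ.IsIrreducible)
    (hinj : Function.Injective ρ) : IsCyclic (Subgroup.center G) := by
  haveI := hirr
  have hnt : Nontrivial (Fin n → ℂ) := Integrality.nontrivial_of_isIrreducible ρ
  have hone : (1 : Module.End ℂ (Fin n → ℂ)) ≠ 0 := one_ne_zero
  have hex : ∀ z : Subgroup.center G, ∃ c : ℂ,
      ρ (z : G) = c • (1 : Module.End ℂ (Fin n → ℂ)) := fun z => by
    obtain ⟨c, _, hc, _⟩ := Core.exists_scalar_of_mem_center ρ (z : G) z.2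
    exact ⟨c, hc⟩
  choose f hf using hex
  have hsinj : Function.Injective (fun c : ℂ => c • (1 : Module.End ℂ (Fin n → ℂ))) :=
    smul_left_injective ℂ hone
  let F : Subgroup.center G →* ℂ :=
    { toFun := f
      map_one' := by
        apply hsinj
        show f 1 • (1 : Module.End ℂ (Fin n → ℂ)) = (1 : ℂ) • 1
        rw [← hf, one_smul]
        simp
      map_mul' := by
        intro a b
        apply hsinj
        show f (a * b) • (1 : Module.End ℂ (Fin n → ℂ)) = (f a * f b) • 1
        rw [← hf, Subgroup.coe_mul, map_mul, hf a, hf b]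
        simp [smul_smul, mul_comm] }
  have hF : Function.Injective F := by
    intro a b hab
    apply Subtype.ext
    apply hinj
    rw [hf a, hf b]
    have : f a = f b := hab
    rw [this]
  exact isCyclic_of_injective_ringHom F hF

theorem exists_faithful {G : Type*} [Group G] [Finite G] (p : ℕ) [Fact p.Prime]
    (hG : IsPGroup p G) (hc : IsCyclic (Subgroup.center G)) :
    ∃ (n : ℕ) (ρ : Representation ℂ G (Fin n → ℂ)), ρ.IsIrreducible ∧ Function.Injective ρ := by
  classical
  have hpp : p.Prime := Fact.out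
  by_cases htriv : Subsingleton G
  · refine ⟨1, Representation.trivial ℂ G (Fin 1 → ℂ), ?_, Function.injective_of_subsingleton _⟩
    exact Ops.isIrreducible_of_finrank_eq_one _ (by simp)
  · rw [not_subsingleton_iff_nontrivial] at htriv
    haveI := htriv
    have hZnt : Nontrivial (Subgroup.center G) := hG.center_nontrivial
    have hZp : IsPGroup p (Subgroup.center G) := hG.to_subgroup _
    have hpdvd : p ∣ Nat.card (Subgroup.center G) := by
      rcases hZp.card_eq_or_dvd with h | h
      · exfalso
        have := Finite.one_lt_card (α := Subgroup.center G)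
        omega
      · exact h
    obtain ⟨x, hx⟩ := exists_prime_orderOf_dvd_card' (G := Subgroup.center G) p hpdvd
    have hx1 : (x : G) ≠ 1 := by
      intro h
      have : x = 1 := Subtype.ext h
      rw [this, orderOf_one] at hx
      exact hpp.one_lt.ne hx
    have hex : ∃ χ : IrrCharacter G, (χ : G → ℂ) (x : G) ≠ (χ : G → ℂ) 1 := by
      by_contra hcon
      push Not at hcon
      have h1 := Orth.sum_apply_one_mul (G := G) (x : G)
      rw [if_neg hx1] at h1
      have h2 := Orth.sum_apply_one_sq (G := G)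
      have h3 : (∑ᶠ χ : IrrCharacter G, (χ : G → ℂ) 1 * (χ : G → ℂ) (x : G)) =
          ∑ᶠ χ : IrrCharacter G, (χ : G → ℂ) 1 ^ 2 := by
        congr 1
        funext χ
        rw [hcon χ, sq]
      rw [h3, h2] at h1
      have : (Nat.card G : ℂ) ≠ 0 := Nat.cast_ne_zero.mpr Nat.card_pos.ne'
      exact this h1
    obtain ⟨⟨χ, n, ρ, hρ, rfl⟩, hχ⟩ := hex
    refine ⟨n, ρ, hρ, ?_⟩
    have hker : MonoidHom.ker ρ = ⊥ := by
      by_contra hne
      obtain ⟨y, hyN, hy1, hyZ⟩ :=
        Cfsg.Agent.H32.exists_mem_center_of_normal hG (MonoidHom.ker ρ) hne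
      obtain ⟨k, hk⟩ := (IsPGroup.iff_orderOf.mp hG) y
      have hk0 : k ≠ 0 := by
        rintro rfl
        rw [pow_zero, orderOf_eq_one_iff] at hk
        exact hy1 hk
      obtain ⟨j, rfl⟩ := Nat.exists_eq_succ_of_ne_zero hk0
      have hy'ord : orderOf (y ^ (p ^ j)) = p := by
        rw [orderOf_pow_of_dvd (pow_ne_zero j hpp.ne_zero) (by rw [hk]; exact pow_dvd_pow p (Nat.le_succ j)),
          hk, pow_succ, Nat.mul_div_cancel_left _ (pow_pos hpp.pos j)]
      have hy'N : y ^ (p ^ j) ∈ MonoidHom.ker ρ := Subgroup.pow_mem _ hyN _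
      have hy'Z : y ^ (p ^ j) ∈ Subgroup.center G := Subgroup.pow_mem _ hyZ _
      have hmem := mem_zpowers_of_orderOf_eq hpp.pos x
        (⟨y ^ (p ^ j), hy'Z⟩ : Subgroup.center G) hx
        ((Subgroup.orderOf_mk _ hy'Z).trans hy'ord)
      obtain ⟨m, hm⟩ := Subgroup.mem_zpowers_iff.mp hmem
      have hxN : (x : G) ∈ MonoidHom.ker ρ := by
        have : (x : G) = (y ^ (p ^ j)) ^ m := by
          rw [← hm]
          simp
        rw [this]
        exact Subgroup.zpow_mem _ hy'N m
      apply hχ
      have h5 : ρ (x : G) = 1 := MonoidHom.mem_ker.mp hxN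
      show ρ.character x = ρ.character 1
      rw [Kernel.rep_char_eq_iff]
      exact h5
    exact (MonoidHom.ker_eq_bot_iff ρ).mp hker


/-- A finite p-group admits a faithful irreducible complex representation if and only if its centre is cyclic. -/
theorem result {G : Type*} [Group G] [Finite G] (p : ℕ) [Fact p.Prime] (hG : IsPGroup p G) : (∃ (n : ℕ) (ρ : Representation ℂ G (Fin n → ℂ)), ρ.IsIrreducible ∧ Function.Injective ρ) ↔ IsCyclic (Subgroup.center G) := by
  constructor
  · rintro ⟨n, ρ, hirr, hinj⟩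
    exact cyclic_center_of_faithful ρ hirr hinj
  · intro hc
    exact exists_faithful p hG hc

end Cfsg.Agent.S0184
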