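import Cfsg.Statements.S0185
import Cfsg.Agent.Lib.CT.NormOne
import Cfsg.Agent.Lib.CT.Kernel
import Cfsg.Agent.Lib.CT.LinChar
import Cfsg.Agent.Lib.Helper80.Integrality

set_option autoImplicit false
open Cfsg

namespace Cfsg.Agent.S0185

open Cfsg.Agent.Lib.Helper80.Integrality

/-- A character of degree less than every prime divisor of the group order takes the same value
at every commutator as at the identity (all its irreducible constituents are linear). -/
theorem char_comm_of_small {G : Type*} [Group G] [Finite G] {χ : G → ℂ} (hχ : IsCharacter G χ)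
    (hdeg : ∀ p : ℕ, p.Prime → p ∣ Nat.card G → charDegree χ < p) (a b : G) :
    χ (a * b * a⁻¹ * b⁻¹) = χ 1 := by
  classical
  have : Fintype G := Fintype.ofFinite G
  have := Cfsg.Agent.Lib.CT.Wedderburn.finite_irrCharacter G
  have : Fintype (IrrCharacter G) := Fintype.ofFinite _
  obtain ⟨m, -, hexp⟩ := Cfsg.Agent.Lib.CT.NormOne.exists_mult hχ
  have hexp' : ∀ g, χ g = ∑ ψ : IrrCharacter G, (m ψ : ℂ) * (ψ : G → ℂ) g := by
    intro g
    rw [hexp g, finsum_eq_sum_of_fintype]
  -- degrees
  have hd : ∀ ψ : IrrCharacter G, (ψ : G → ℂ) 1 = (charDegree (ψ : G → ℂ) : ℂ) := fun ψ =>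
    apply_one_eq_charDegree (isCharacter_of_isIrrCharacter ψ.2)
  have hχ1 : charDegree χ = ∑ ψ : IrrCharacter G, m ψ * charDegree (ψ : G → ℂ) := by
    have h1 := hexp' 1
    rw [apply_one_eq_charDegree hχ] at h1
    simp only [hd] at h1
    exact_mod_cast h1
  have hlin : ∀ ψ : IrrCharacter G, m ψ ≠ 0 → (ψ : G → ℂ) 1 = 1 := by
    intro ψ hm
    have hle : charDegree (ψ : G → ℂ) ≤ charDegree χ := by
      rw [hχ1]
      calc charDegree (ψ : G → ℂ) ≤ m ψ * charDegree (ψ : G → ℂ) :=
            Nat.le_mul_of_pos_left _ (Nat.pos_of_ne_zero hm)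
        _ ≤ ∑ ψ : IrrCharacter G, m ψ * charDegree (ψ : G → ℂ) :=
            Finset.single_le_sum (f := fun ψ : IrrCharacter G => m ψ * charDegree (ψ : G → ℂ))
              (fun _ _ => Nat.zero_le _) (Finset.mem_univ ψ)
    have hone : charDegree (ψ : G → ℂ) = 1 := by
      by_contra hne
      obtain ⟨p, hp, hpd⟩ := Nat.exists_prime_and_dvd hne
      have h1 := hdeg p hp (hpd.trans (charDegree_dvd_card ψ))
      have h2 := Nat.le_of_dvd (charDegree_pos ψ) hpd
      omega
    rw [hd ψ, hone]
    simp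
  rw [hexp', hexp']
  refine Finset.sum_congr rfl (fun ψ _ => ?_)
  by_cases hm : m ψ = 0
  · rw [hm]; simp
  · have h1 := hlin ψ hm
    have hc := isCharacter_of_isIrrCharacter ψ.2
    have hmul := Cfsg.Agent.Lib.CT.LinChar.linear_mul hc h1
    have hinv := Cfsg.Agent.Lib.CT.LinChar.linear_inv hc h1
    have hne := Cfsg.Agent.Lib.CT.LinChar.linear_ne_zero hc h1
    rw [hmul, hmul, hmul, hinv, hinv, h1]
    congr 1
    field_simp [hne a, hne b]

/-- If a finite group has a faithful complex representation of degree less than the smallest prime dividing its order, the group is abelian. -/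
theorem result {G : Type*} [Group G] [Finite G] {V : Type*} [AddCommGroup V] [Module ℂ V] [FiniteDimensional ℂ V] (ρ : Representation ℂ G V) (hfaithful : Function.Injective ρ) (hdeg : ∀ p : ℕ, p.Prime → p ∣ Nat.card G → Module.finrank ℂ V < p) (a b : G) : a * b = b * a := by
  have hχ : IsCharacter G ρ.character := Cfsg.Agent.Lib.CT.Ops.isCharacter_of_rep ρ
  have h1 := char_comm_of_small hχ (by
    intro p hp hpd
    rw [charDegree_eq_finrank]
    exact hdeg p hp hpd) a b
  have h2 := (Cfsg.Agent.Lib.CT.Kernel.rep_char_eq_iff ρ _).1 h1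
  have h3 : a * b * a⁻¹ * b⁻¹ = 1 := hfaithful (by rw [h2, map_one])
  calc a * b = (a * b * a⁻¹ * b⁻¹) * (b * a) := by group
    _ = b * a := by rw [h3, one_mul]

end Cfsg.Agent.S0185
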