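import Cfsg.Statements.S0186
import Cfsg.Agent.S0185
import Cfsg.Agent.Lib.CT.Orth
import Cfsg.Agent.Lib.Helper3.Irr

set_option autoImplicit false
open Cfsg

namespace Cfsg.Agent.S0186

open Cfsg.Agent.Lib.Helper80.Integrality
open scoped ComplexConjugate

/-- The principal character as an element of `IrrCharacter G`. -/
noncomputable def triv (G : Type*) [Group G] : IrrCharacter G :=
  ⟨fun _ => (1 : ℂ), Cfsg.Agent.Lib.CT.Ops.isIrrCharacter_one⟩

/-- In a simple group with a non-commuting pair `a, b` in a Sylow `p`-subgroup, every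
non-principal irreducible character has degree at least `p`. -/
theorem le_charDegree {G : Type*} [Group G] [Finite G] [IsSimpleGroup G] (p : ℕ) [Fact p.Prime]
    (P : Sylow p G) (a b : G) (ha : a ∈ P) (hb : b ∈ P) (hab : a * b ≠ b * a)
    (χ : IrrCharacter G) (hχ : χ ≠ triv G) : p ≤ charDegree (χ : G → ℂ) := by
  classical
  have : Fintype G := Fintype.ofFinite G
  by_contra hlt
  rw [not_le] at hlt
  have hc : IsCharacter G (χ : G → ℂ) := isCharacter_of_isIrrCharacter χ.2
  obtain ⟨N, hN, hmem⟩ := Cfsg.Agent.Lib.CT.Kernel.exists_normal_ker hc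
  rcases hN.eq_bot_or_eq_top with hbot | htop
  · -- faithful: restrict to the Sylow subgroup
    have hcP : IsCharacter ↥(P : Subgroup G) (fun k : ↥(P : Subgroup G) => (χ : G → ℂ) k) :=
      Cfsg.Agent.Lib.CT.Ops.isCharacter_restrict (P : Subgroup G) hc
    have hdegP : charDegree (fun k : ↥(P : Subgroup G) => (χ : G → ℂ) k)
        = charDegree (χ : G → ℂ) := by
      simp [charDegree]
    obtain ⟨n, hn⟩ := IsPGroup.iff_card.1 P.2
    have h1 := Cfsg.Agent.S0185.char_comm_of_small hcP (by
      intro q hq hqd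
      rw [hdegP]
      have hqd' : q ∣ p ^ n := by rw [← hn]; exact hqd
      have : q = p := (Nat.prime_dvd_prime_iff_eq hq (Fact.out : p.Prime)).1
        (hq.dvd_of_dvd_pow hqd')
      rw [this]; exact hlt) ⟨a, ha⟩ ⟨b, hb⟩
    have h2 : (χ : G → ℂ) (a * b * a⁻¹ * b⁻¹) = (χ : G → ℂ) 1 := by
      simpa using h1
    have h3 : a * b * a⁻¹ * b⁻¹ ∈ N := (hmem _).2 h2
    rw [hbot, Subgroup.mem_bot] at h3
    apply hab
    calc a * b = (a * b * a⁻¹ * b⁻¹) * (b * a) := by group
      _ = b * a := by rw [h3, one_mul]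
  · -- trivial kernel impossible: then χ would be the principal character
    have hall : ∀ g : G, (χ : G → ℂ) g = (χ : G → ℂ) 1 := fun g =>
      (hmem g).1 (by rw [htop]; exact Subgroup.mem_top g)
    have horth := Cfsg.Agent.Lib.Helper3.Irr.irr_orthonormal χ (triv G)
    rw [if_neg hχ] at horth
    unfold classInner at horth
    have hcard : (Nat.card G : ℂ) ≠ 0 := by exact_mod_cast Nat.card_pos.ne'
    have hsum : ∑ g : G, (χ : G → ℂ) g * conj (((triv G : IrrCharacter G) : G → ℂ) g)
        = (Nat.card G : ℂ) * (χ : G → ℂ) 1 := by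
      have h2 : ∀ g : G, (χ : G → ℂ) g * conj (((triv G : IrrCharacter G) : G → ℂ) g)
          = (χ : G → ℂ) 1 := by
        intro g
        show (χ : G → ℂ) g * conj (1 : ℂ) = _
        rw [hall g]; simp
      simp only [h2]
      simp [Nat.card_eq_fintype_card]
    rw [hsum, ← mul_assoc, inv_mul_cancel₀ hcard, one_mul] at horth
    exact Cfsg.Agent.Lib.Helper3.Irr.IsIrrCharacter.apply_one_ne_zero χ.2 horth

/-- Let G be a finite simple group of order n and p a prime dividing n. If G has more than n / p^2 conjugacy classes, then every Sylow p-subgroup of G is abelian. -/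
theorem result {G : Type*} [Group G] [Finite G] [IsSimpleGroup G] (p : ℕ) [Fact p.Prime] (hp : p ∣ Nat.card G) (hmany : Nat.card G < p ^ 2 * Nat.card (ConjClasses G)) (P : Sylow p G) (a b : G) (ha : a ∈ P) (hb : b ∈ P) : a * b = b * a := by
  classical
  by_contra hab
  have hpp : p.Prime := Fact.out
  have : Fintype G := Fintype.ofFinite G
  have := Cfsg.Agent.Lib.CT.Wedderburn.finite_irrCharacter G
  have : Fintype (IrrCharacter G) := Fintype.ofFinite _
  -- p ^ 2 divides the order
  obtain ⟨n, hn⟩ := IsPGroup.iff_card.1 P.2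
  have hn2 : 2 ≤ n := by
    by_contra hlt
    have hn1 : n = 0 ∨ n = 1 := by omega
    rcases hn1 with rfl | rfl
    · rw [pow_zero] at hn
      have hsub : Subsingleton ↥(P : Subgroup G) := (Nat.card_eq_one_iff_unique.1 hn).1
      have h1 : (⟨a, ha⟩ : ↥(P : Subgroup G)) = ⟨b, hb⟩ := Subsingleton.elim _ _
      have h2 : a = b := congrArg Subtype.val h1
      exact hab (by rw [h2])
    · rw [pow_one] at hn
      have hcyc : IsCyclic ↥(P : Subgroup G) := isCyclic_of_prime_card hn
      have h1 := hcyc.isMulCommutative.is_comm.comm (⟨a, ha⟩ : ↥(P : Subgroup G)) ⟨b, hb⟩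
      exact hab (congrArg Subtype.val h1)
  have hdvd : p ^ 2 ∣ Nat.card G := by
    have h1 : p ^ 2 ∣ p ^ n := pow_dvd_pow p hn2
    rw [← hn] at h1
    exact h1.trans (Subgroup.card_subgroup_dvd_card _)
  -- sum of squares of degrees
  have hsq : ∑ χ : IrrCharacter G, charDegree (χ : G → ℂ) ^ 2 = Nat.card G :=
    Cfsg.Agent.Lib.CT.Orth.sum_charDegree_sq_sum
  have hk : Fintype.card (IrrCharacter G) = Nat.card (ConjClasses G) := by
    rw [← Nat.card_eq_fintype_card]
    exact Cfsg.Agent.Lib.CT.Orth.card_irrCharacter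
  have hlow : 1 + (Fintype.card (IrrCharacter G) - 1) * p ^ 2 ≤ Nat.card G := by
    rw [← hsq, ← Finset.add_sum_erase Finset.univ _ (Finset.mem_univ (triv G))]
    have h1 : 1 ≤ charDegree ((triv G : IrrCharacter G) : G → ℂ) ^ 2 :=
      Nat.one_le_pow _ _ (charDegree_pos (triv G))
    have h2 : (Fintype.card (IrrCharacter G) - 1) * p ^ 2
        ≤ ∑ χ ∈ Finset.univ.erase (triv G), charDegree (χ : G → ℂ) ^ 2 := by
      have h3 : ∑ χ ∈ Finset.univ.erase (triv G), p ^ 2
          = (Fintype.card (IrrCharacter G) - 1) * p ^ 2 := by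
        rw [Finset.sum_const, Finset.card_erase_of_mem (Finset.mem_univ _), Finset.card_univ,
          smul_eq_mul]
      rw [← h3]
      refine Finset.sum_le_sum (fun χ hχ => ?_)
      exact Nat.pow_le_pow_left
        (le_charDegree p P a b ha hb hab χ (Finset.ne_of_mem_erase hχ)) 2
    exact Nat.add_le_add h1 h2
  obtain ⟨t, ht⟩ := hdvd
  rw [← hk] at hmany
  rw [ht] at hmany hlow
  have hpos : 0 < p ^ 2 := pow_pos hpp.pos 2
  have htk : t < Fintype.card (IrrCharacter G) := lt_of_mul_lt_mul_left hmany (Nat.zero_le _)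
  have h5 : p ^ 2 * t ≤ (Fintype.card (IrrCharacter G) - 1) * p ^ 2 := by
    rw [mul_comm]
    exact Nat.mul_le_mul_right _ (by omega)
  omega

end Cfsg.Agent.S0186
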