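import Mathlib
import Cfsg.Statements.S0189
-- import your own Cfsg.Agent.* helpers here

set_option autoImplicit false
open Cfsg

namespace Cfsg.Agent.S0189


/-- If a complex character of a finite group vanishes at every non-identity element of a Sylow p-subgroup P, then |P| divides its degree. -/
theorem result {G : Type*} [Group G] [Finite G] (p : ℕ) [Fact p.Prime] (P : Sylow p G) (χ : G → ℂ) (hχ : Cfsg.IsCharacter G χ) (hvan : ∀ g : G, g ∈ P → g ≠ 1 → χ g = 0) : ∃ k : ℕ, χ 1 = (Nat.card P : ℂ) * k := by
  classical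
  obtain ⟨n, ρ, rfl⟩ := hχ
  have := Fintype.ofFinite (P : Subgroup G)
  have hne : (Nat.card (P : Subgroup G) : ℂ) ≠ 0 := by
    exact_mod_cast Nat.card_pos.ne'
  haveI : Invertible (Nat.card (P : Subgroup G) : ℂ) := invertibleOfNonzero hne
  have h := Representation.card_inv_mul_sum_char_eq_finrank
    (ρ.comp (P : Subgroup G).subtype)
  refine ⟨Module.finrank ℂ (Representation.invariants (ρ.comp (P : Subgroup G).subtype)), ?_⟩
  change ρ.character 1 = (Nat.card (P : Subgroup G) : ℂ) * _
  rw [← h, ← mul_assoc, mul_inv_cancel₀ hne, one_mul]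
  rw [Finset.sum_eq_single (1 : (P : Subgroup G))]
  · rfl
  · intro g _ hg
    have h1 : Representation.character (ρ.comp (P : Subgroup G).subtype) g = ρ.character g.1 :=
      rfl
    rw [h1]
    exact hvan g.1 g.2 (fun h => hg (Subtype.ext h))
  · intro h; exact absurd (Finset.mem_univ _) h

end Cfsg.Agent.S0189
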