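import Mathlib
import Cfsg.Statements.S0192
import Cfsg.Agent.Lib.Helper3.Irr
import Cfsg.Agent.Lib.CT.Ops
-- import your own Cfsg.Agent.* helpers here

set_option autoImplicit false
open Cfsg

namespace Cfsg.Agent.S0192

theorem inner_one_eq_finrank {G : Type*} [Group G] {n : ℕ} (ρ : Representation ℂ G (Fin n → ℂ))
    (H : Subgroup G) [Fintype H] :
    Cfsg.classInner (fun x : H => ρ.character x) (fun _ => 1)
      = (Module.finrank ℂ (Representation.invariants (ρ.comp H.subtype)) : ℂ) := by
  have hne : (Nat.card H : ℂ) ≠ 0 := by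
    exact_mod_cast Nat.card_pos.ne'
  haveI : Invertible (Nat.card H : ℂ) := invertibleOfNonzero hne
  have h := Representation.card_inv_mul_sum_char_eq_finrank (ρ.comp H.subtype)
  rw [← h]
  unfold Cfsg.classInner
  simp only [map_one, mul_one]
  rfl


/-- Brauer's generation criterion. Let G be a finite simple group, H₁ and H₂ subgroups, and χ a non-principal irreducible character. If the multiplicity of the principal character in χ restricted to H₁ ⊓ H₂ is less than the sum of the corresponding multiplicities for H₁ and H₂, then H₁ and H₂ do not generate G. -/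
theorem result {G : Type*} [Group G] [Fintype G] [IsSimpleGroup G] (H₁ H₂ : Subgroup G) [Fintype H₁] [Fintype H₂] [Fintype ↥(H₁ ⊓ H₂)] (χ : G → ℂ) (hχ : Cfsg.IsIrrCharacter G χ) (hχ1 : χ ≠ fun _ => 1) (hlt : (Cfsg.classInner (fun x : ↥(H₁ ⊓ H₂) => χ x) (fun _ => 1)).re < (Cfsg.classInner (fun x : H₁ => χ x) (fun _ => 1)).re + (Cfsg.classInner (fun x : H₂ => χ x) (fun _ => 1)).re) : H₁ ⊔ H₂ ≠ ⊤ := by
  classical
  obtain ⟨n, ρ, hirr, rfl⟩ := hχ
  intro htop
  rw [inner_one_eq_finrank ρ H₁, inner_one_eq_finrank ρ H₂, inner_one_eq_finrank ρ (H₁ ⊓ H₂)] at hlt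
  simp only [Complex.natCast_re] at hlt
  -- invariants of G vanish
  have hG0 : Representation.invariants ρ = ⊥ := by
    have horth := Cfsg.Agent.Lib.Helper3.Irr.irr_orthonormal
      (⟨ρ.character, n, ρ, hirr, rfl⟩ : Cfsg.IrrCharacter G)
      ⟨fun _ => 1, Cfsg.Agent.Lib.CT.Ops.isIrrCharacter_one⟩
    have hneq : ¬ ((⟨ρ.character, n, ρ, hirr, rfl⟩ : Cfsg.IrrCharacter G)
        = ⟨fun _ => 1, Cfsg.Agent.Lib.CT.Ops.isIrrCharacter_one⟩) := by
      intro h
      exact hχ1 (congrArg Subtype.val h)
    rw [if_neg hneq] at horth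
    have hne : (Nat.card G : ℂ) ≠ 0 := by
      exact_mod_cast Nat.card_pos.ne'
    haveI : Invertible (Nat.card G : ℂ) := invertibleOfNonzero hne
    have h := Representation.card_inv_mul_sum_char_eq_finrank ρ
    have h0 : (Module.finrank ℂ (Representation.invariants ρ) : ℂ) = 0 := by
      rw [← h, ← horth]
      unfold Cfsg.classInner
      simp only [map_one, mul_one]
    have h1 : Module.finrank ℂ (Representation.invariants ρ) = 0 := by exact_mod_cast h0
    exact Submodule.finrank_eq_zero.mp h1
  have hsup : Representation.invariants (ρ.comp H₁.subtype)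
      ⊔ Representation.invariants (ρ.comp H₂.subtype)
      ≤ Representation.invariants (ρ.comp (H₁ ⊓ H₂).subtype) := by
    apply sup_le
    · intro v hv g
      exact hv ⟨g.1, g.2.1⟩
    · intro v hv g
      exact hv ⟨g.1, g.2.2⟩
  have hinf : Representation.invariants (ρ.comp H₁.subtype)
      ⊓ Representation.invariants (ρ.comp H₂.subtype) ≤ Representation.invariants ρ := by
    rintro v ⟨hv1, hv2⟩
    let S : Subgroup G :=
      { carrier := {g | ρ g v = v}
        mul_mem' := by
          intro a b ha hb
          show ρ (a * b) v = v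
          rw [map_mul, Module.End.mul_apply, hb, ha]
        one_mem' := by
          show ρ 1 v = v
          rw [map_one, Module.End.one_apply]
        inv_mem' := by
          intro a ha
          show ρ a⁻¹ v = v
          have h2 : ρ a⁻¹ (ρ a v) = v := by
            rw [← Module.End.mul_apply, ← map_mul, inv_mul_cancel, map_one, Module.End.one_apply]
          rw [ha] at h2
          exact h2 }
    have h1 : H₁ ≤ S := fun g hg => hv1 ⟨g, hg⟩
    have h2 : H₂ ≤ S := fun g hg => hv2 ⟨g, hg⟩
    have h3 : (⊤ : Subgroup G) ≤ S := htop ▸ sup_le h1 h2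
    intro g
    exact h3 (Subgroup.mem_top g)
  have h1 := Submodule.finrank_sup_add_finrank_inf_eq
    (Representation.invariants (ρ.comp H₁.subtype)) (Representation.invariants (ρ.comp H₂.subtype))
  have h2 := Submodule.finrank_mono hsup
  have h3 := Submodule.finrank_mono hinf
  rw [hG0, finrank_bot] at h3
  have h4 : (Module.finrank ℂ (Representation.invariants (ρ.comp (H₁ ⊓ H₂).subtype)) : ℝ)
      < (Module.finrank ℂ (Representation.invariants (ρ.comp H₁.subtype)) : ℝ)
        + (Module.finrank ℂ (Representation.invariants (ρ.comp H₂.subtype)) : ℝ) := hlt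
  have h5 : Module.finrank ℂ (Representation.invariants (ρ.comp (H₁ ⊓ H₂).subtype))
      < Module.finrank ℂ (Representation.invariants (ρ.comp H₁.subtype))
        + Module.finrank ℂ (Representation.invariants (ρ.comp H₂.subtype)) := by
    exact_mod_cast h4
  omega

end Cfsg.Agent.S0192
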