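import Mathlib
import Cfsg.Statements.S0193
import Cfsg.Agent.Lib.CT.Clifford
import Cfsg.Agent.Lib.Helper3.Irr
import Cfsg.Agent.Lib.CT.FrobRec
-- import your own Cfsg.Agent.* helpers here

set_option autoImplicit false
open Cfsg

namespace Cfsg.Agent.S0193

open Cfsg.Agent.Lib.CT Cfsg.Agent.Lib.CT.Clifford Cfsg.Agent.Lib.Helper3
open scoped ComplexConjugate


/-- Let H be a normal subgroup of a finite group G and θ an irreducible character of H. Then |H| times the inner product of the induced function of θ with itself equals the number of g in G with θ(g h g⁻¹) = θ(h) for all h in H; in particular the induced character is irreducible when only elements of H stabilise θ. -/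
theorem result {G : Type*} [Group G] [Fintype G] (H : Subgroup G) [hN : H.Normal] (θ : H → ℂ) (hθ : Cfsg.IsIrrCharacter H θ) : (Nat.card H : ℂ) * Cfsg.classInner (Cfsg.indFun H θ) (Cfsg.indFun H θ) = (Nat.card {g : G // ∀ h : H, θ ⟨g * h * g⁻¹, hN.conj_mem h h.2 g⟩ = θ h} : ℂ) := by
  classical
  haveI : Fintype H := Fintype.ofFinite H
  rw [FrobRec.frobenius_reciprocity H θ (indFun H θ) (FrobRec.indFun_isClassFunction H θ)]
  have h1 : (fun h : H => indFun H θ h) =
      fun n => (Nat.card H : ℂ)⁻¹ * ∑ x : G, conjFun H hN θ x⁻¹ n :=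
    funext (Clifford.indFun_restrict H hN θ)
  rw [h1]
  have h2 : classInner θ (fun n => (Nat.card H : ℂ)⁻¹ * ∑ x : G, conjFun H hN θ x⁻¹ n) =
      (Nat.card H : ℂ)⁻¹ * ∑ x : G, classInner θ (conjFun H hN θ x⁻¹) := by
    unfold classInner
    simp only [map_mul, map_sum, map_inv₀, Complex.conj_natCast]
    simp only [Finset.mul_sum]
    rw [Finset.sum_comm]
    refine Finset.sum_congr rfl (fun x _ => Finset.sum_congr rfl (fun n _ => ?_))
    ring
  rw [h2]
  have hH : (Nat.card H : ℂ) ≠ 0 := Nat.cast_ne_zero.mpr Nat.card_pos.ne'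
  rw [← mul_assoc, mul_inv_cancel₀ hH, one_mul]
  have h3 : ∀ x : G, classInner θ (conjFun H hN θ x⁻¹) =
      if conjFun H hN θ x⁻¹ = θ then 1 else 0 := by
    intro x
    have := Irr.irr_orthonormal (⟨θ, hθ⟩ : IrrCharacter H)
      ⟨conjFun H hN θ x⁻¹, isIrrCharacter_conjFun H hN hθ x⁻¹⟩
    simp only [Subtype.mk.injEq] at this
    rw [this]
    by_cases h : θ = conjFun H hN θ x⁻¹
    · rw [if_pos h, if_pos h.symm]
    · rw [if_neg h, if_neg (fun h' => h h'.symm)]
  rw [Finset.sum_congr rfl (fun x _ => h3 x)]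
  rw [Finset.sum_boole]
  rw [Nat.card_eq_fintype_card, Fintype.card_subtype]
  congr 1
  apply Finset.card_bij (fun x _ => x⁻¹)
  · intro x hx
    simp only [Finset.mem_filter, Finset.mem_univ, true_and] at hx ⊢
    intro h
    exact congrFun hx h
  · intro a _ b _ hab
    exact inv_injective hab
  · intro g hg
    simp only [Finset.mem_filter, Finset.mem_univ, true_and] at hg
    refine ⟨g⁻¹, ?_, inv_inv g⟩
    simp only [Finset.mem_filter, Finset.mem_univ, true_and]
    funext h
    rw [inv_inv]
    exact hg h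

end Cfsg.Agent.S0193
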