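import Mathlib
import Cfsg.Statements.S0194
import Cfsg.Agent.Lib.CT.Clifford
import Cfsg.Agent.Lib.Helper3.Irr
import Cfsg.Agent.Lib.CT.FrobRec
import Cfsg.Agent.Lib.Helper81.OddIndex
-- import your own Cfsg.Agent.* helpers here

set_option autoImplicit false
open scoped ComplexConjugate
open Cfsg

namespace Cfsg.Agent.S0194

open Cfsg.Agent.Lib.CT Cfsg.Agent.Lib.CT.Clifford Cfsg.Agent.Lib.Helper3

theorem stab_pow {G : Type*} [Group G] (H : Subgroup G) (hN : H.Normal) (θ : H → ℂ) (z : G)
    (hz : conjFun H hN θ z = θ) (k : ℕ) : conjFun H hN θ (z ^ k) = θ := by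
  induction k with
  | zero => rw [pow_zero]; exact conjFun_one H hN θ
  | succ k ih => rw [pow_succ, ← conjFun_conjFun, ih, hz]


/-- Let G have odd order, H be a normal subgroup and θ a non-principal irreducible character of H. Then the function induced from θ is orthogonal to its complex conjugate. -/
theorem result {G : Type*} [Group G] [Fintype G] (hodd : Odd (Nat.card G)) (H : Subgroup G) [H.Normal] (θ : H → ℂ) (hθ : Cfsg.IsIrrCharacter H θ) (hθ1 : θ ≠ fun _ => 1) : Cfsg.classInner (fun g => conj (Cfsg.indFun H θ g)) (Cfsg.indFun H θ) = 0 := by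
  classical
  haveI : Fintype H := Fintype.ofFinite H
  have hN : H.Normal := inferInstance
  set θ' : H → ℂ := fun h => conj (θ h) with hθ'
  have hθ'irr : IsIrrCharacter H θ' := by
    have h1 := Cfsg.Agent.Lib.Helper81.Irr.isIrrCharacter_inv hθ
    have h2 : (fun g : H => θ g⁻¹) = θ' := by
      funext g
      exact Irr.IsCharacter.apply_inv (Irr.IsIrrCharacter.isCharacter hθ) g
    rwa [h2] at h1
  rw [← FrobRec.indFun_conj H θ]
  rw [FrobRec.frobenius_reciprocity H θ' (indFun H θ) (FrobRec.indFun_isClassFunction H θ)]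
  have h1 : (fun h : H => indFun H θ h) =
      fun n => (Nat.card H : ℂ)⁻¹ * ∑ x : G, conjFun H hN θ x⁻¹ n :=
    funext (Clifford.indFun_restrict H hN θ)
  rw [h1]
  have h2 : classInner θ' (fun n => (Nat.card H : ℂ)⁻¹ * ∑ x : G, conjFun H hN θ x⁻¹ n) =
      (Nat.card H : ℂ)⁻¹ * ∑ x : G, classInner θ' (conjFun H hN θ x⁻¹) := by
    unfold classInner
    simp only [map_mul, map_sum, map_inv₀, Complex.conj_natCast]
    simp only [Finset.mul_sum]
    rw [Finset.sum_comm]
    refine Finset.sum_congr rfl (fun x _ => Finset.sum_congr rfl (fun n _ => ?_))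
    ring
  rw [h2]
  have hoddH : Odd (Nat.card H) := by
    have hdvd : Nat.card H ∣ Nat.card G := Subgroup.card_subgroup_dvd_card H
    exact Odd.of_dvd_nat hodd hdvd
  have hne : ∀ y : G, θ' ≠ conjFun H hN θ y := by
    intro y hy
    -- y*y stabilizes θ
    have hyy : conjFun H hN θ (y * y) = θ := by
      rw [← conjFun_conjFun, ← hy]
      funext n
      rw [conjFun_apply]
      have := congrFun hy n
      rw [conjFun_apply] at this
      show conj (θ ⟨y * n * y⁻¹, _⟩) = θ n
      rw [← this]
      simp [hθ']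
    -- y has odd order
    have hyodd : Odd (orderOf y) := Odd.of_dvd_nat hodd (orderOf_dvd_natCard y)
    obtain ⟨k, hk⟩ := hyodd
    have hy1 : (y * y) ^ (k + 1) = y := by
      rw [← pow_two, ← pow_mul]
      have : 2 * (k + 1) = orderOf y + 1 := by omega
      rw [this, pow_succ, pow_orderOf_eq_one, one_mul]
    have hstab : conjFun H hN θ y = θ := by
      have := stab_pow H hN θ (y * y) hyy (k + 1)
      rwa [hy1] at this
    rw [hstab] at hy
    -- θ is real
    have hreal : ∀ g : H, θ g⁻¹ = θ g := by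
      intro g
      rw [Irr.IsCharacter.apply_inv (Irr.IsIrrCharacter.isCharacter hθ) g]
      exact congrFun hy g
    have := Cfsg.Agent.Lib.Helper81.OddIndex.real_irr_eq_triv hoddH (⟨θ, hθ⟩ : IrrCharacter H) hreal
    apply hθ1
    have h3 : (⟨θ, hθ⟩ : IrrCharacter H).1 = (Cfsg.Agent.Lib.Helper81.Irr.trivChar H).1 := by rw [this]
    exact h3
  have h3 : ∀ x : G, classInner θ' (conjFun H hN θ x⁻¹) = 0 := by
    intro x
    have := Irr.irr_orthonormal (⟨θ', hθ'irr⟩ : IrrCharacter H)
      ⟨conjFun H hN θ x⁻¹, isIrrCharacter_conjFun H hN hθ x⁻¹⟩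
    simp only [Subtype.mk.injEq] at this
    rw [this, if_neg (hne x⁻¹)]
  rw [Finset.sum_congr rfl (fun x _ => h3 x)]
  simp

end Cfsg.Agent.S0194
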