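import Mathlib
import Cfsg.Statements.S0196
-- import your own Cfsg.Agent.* helpers here

set_option autoImplicit false
open Cfsg

namespace Cfsg.Agent.S0196


/-- Let A be a subgroup of a finite group G that equals the centralizer of each of its non-identity elements, and let N be its normalizer. Then the index of A in N divides |A| − 1 (N/A permutes the non-identity elements of A in orbits of full length). -/
theorem result {G : Type*} [Group G] [Finite G] (A : Subgroup G) (hA : ∀ x ∈ A, x ≠ 1 → Subgroup.centralizer ({x} : Set G) = A) : (A.subgroupOf (Subgroup.normalizer (A : Set G))).index ∣ Nat.card A - 1 := by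
  classical
  set N := Subgroup.normalizer (A : Set G) with hN
  let X := {x : G // x ∈ A ∧ x ≠ 1}
  letI : MulAction N X :=
    { smul := fun n x => ⟨n.1 * x.1 * n.1⁻¹, by
          have := (Subgroup.mem_set_normalizer_iff.mp n.2) x.1
          exact this.mp x.2.1, by
          intro h
          apply x.2.2
          have h' : x.1 = n.1⁻¹ * (n.1 * x.1 * n.1⁻¹) * n.1 := by group
          rw [h', h]; group⟩
      one_smul := by
        intro x; apply Subtype.ext
        show (1 : N).1 * x.1 * (1 : N).1⁻¹ = x.1
        simp
      mul_smul := by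
        intro a b x; apply Subtype.ext
        show (a * b).1 * x.1 * (a * b).1⁻¹ = a.1 * (b.1 * x.1 * b.1⁻¹) * a.1⁻¹
        simp [mul_assoc] }
  have hsmul : ∀ (n : N) (x : X), (n • x).1 = n.1 * x.1 * n.1⁻¹ := fun _ _ => rfl
  have hst : ∀ x : X, MulAction.stabilizer N x = A.subgroupOf N := by
    intro x
    ext n
    rw [MulAction.mem_stabilizer_iff, Subgroup.mem_subgroupOf, ← hA x.1 x.2.1 x.2.2,
      Subgroup.mem_centralizer_singleton_iff]
    constructor
    · intro h
      have := congrArg Subtype.val h
      rw [hsmul] at this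
      exact mul_inv_eq_iff_eq_mul.mp this
    · intro h
      apply Subtype.ext
      rw [hsmul]
      exact mul_inv_eq_iff_eq_mul.mpr h
  have e := MulAction.selfEquivSigmaOrbitsQuotientStabilizer N X
  have e2 : X ≃ (Quotient (MulAction.orbitRel N X)) × (N ⧸ A.subgroupOf N) :=
    e.trans ((Equiv.sigmaCongrRight fun ω => Subgroup.quotientEquivOfEq (hst _)).trans
      (Equiv.sigmaEquivProd _ _))
  have hX : Nat.card X = Nat.card A - 1 := by
    have e3 : X ≃ {a : A // ¬ (a = 1)} :=
      { toFun := fun x => ⟨⟨x.1, x.2.1⟩, fun h => x.2.2 (congrArg Subtype.val h)⟩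
        invFun := fun a => ⟨a.1.1, a.1.2, fun h => a.2 (Subtype.ext h)⟩
        left_inv := fun x => rfl
        right_inv := fun a => rfl }
    have := Fintype.ofFinite A
    rw [Nat.card_congr e3, Nat.card_eq_fintype_card, Fintype.card_subtype_compl,
      Fintype.card_subtype_eq, Nat.card_eq_fintype_card]
  rw [← hX, Nat.card_congr e2, Nat.card_prod, Subgroup.index_eq_card]
  exact dvd_mul_left _ _

end Cfsg.Agent.S0196
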