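import Mathlib
import Cfsg.Statements.S0198
import Cfsg.Agent.Lib.Helper26.GenChar
import Cfsg.Agent.Lib.Helper3.Irr
import Cfsg.Agent.Lib.CT.Ops
-- import your own Cfsg.Agent.* helpers here

set_option autoImplicit false
open Cfsg

namespace Cfsg.Agent.S0198

open Cfsg.Agent.Lib.CT Cfsg.Agent.Lib.CT.Wedderburn Cfsg.Agent.Lib.Helper26 Cfsg.Agent.Lib.Helper3
open scoped ComplexConjugate

theorem int_sq_one {x : ℤ} (h : x * x = 1) : x = 1 ∨ x = -1 := by
  have : (x - 1) * (x + 1) = 0 := by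
    have h' : (x - 1) * (x + 1) = x * x - 1 := by ring
    rw [h', h, sub_self]
  rcases mul_eq_zero.mp this with h | h
  · left; omega
  · right; omega

theorem int_sq_ne_two (x : ℤ) : x * x ≠ 2 := by
  intro h
  have h1 : x ≤ 1 := by nlinarith
  have h2 : -1 ≤ x := by nlinarith
  have : x = -1 ∨ x = 0 ∨ x = 1 := by omega
  rcases this with h' | h' | h' <;> rw [h'] at h <;> norm_num at h

/-- A generalized character of norm two vanishing at the identity is a difference of two
distinct irreducible characters. -/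
theorem diff_of_norm_two {G : Type*} [Group G] [Fintype G] {θ : G → ℂ}
    (hθ : IsGeneralizedCharacter G θ) (h2 : classInner θ θ = 2) (h1 : θ 1 = 0) :
    ∃ a b : IrrCharacter G, a ≠ b ∧ θ = (a : G → ℂ) - (b : G → ℂ) := by
  classical
  haveI := finite_irrCharacter G
  haveI := Fintype.ofFinite (IrrCharacter G)
  obtain ⟨c, hc, he⟩ := GenChar.exists_int_mult hθ
  have hsq := GenChar.classInner_self_eq_sum_sq c hc he
  rw [h2] at hsq
  have hsq' : ∑ ψ : IrrCharacter G, c ψ * c ψ = 2 := by exact_mod_cast hsq.symm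
  obtain ⟨a, ha⟩ : ∃ a, c a ≠ 0 := by
    by_contra hcon
    push Not at hcon
    rw [Finset.sum_eq_zero (fun η _ => by rw [hcon η, mul_zero])] at hsq'
    omega
  have hsplit : c a * c a + ∑ ψ ∈ Finset.univ.erase a, c ψ * c ψ =
      ∑ ψ : IrrCharacter G, c ψ * c ψ :=
    Finset.add_sum_erase Finset.univ (fun ψ => c ψ * c ψ) (Finset.mem_univ a)
  have hnn : ∀ ψ ∈ Finset.univ.erase a, 0 ≤ c ψ * c ψ := fun ψ _ => mul_self_nonneg _
  have hrest_nn := Finset.sum_nonneg hnn
  have ha1 : c a * c a = 1 := by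
    have h1 : 0 < c a * c a := mul_self_pos.mpr ha
    have h3 := int_sq_ne_two (c a)
    omega
  have hrest : ∑ ψ ∈ Finset.univ.erase a, c ψ * c ψ = 1 := by omega
  obtain ⟨b, hb_mem, hb⟩ : ∃ b ∈ Finset.univ.erase a, c b ≠ 0 := by
    by_contra hcon
    push Not at hcon
    rw [Finset.sum_eq_zero (fun η hη => by rw [hcon η hη, mul_zero])] at hrest
    omega
  have hba : b ≠ a := (Finset.mem_erase.mp hb_mem).1
  have hsplit2 : c b * c b + ∑ ψ ∈ (Finset.univ.erase a).erase b, c ψ * c ψ =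
      ∑ ψ ∈ Finset.univ.erase a, c ψ * c ψ :=
    Finset.add_sum_erase (Finset.univ.erase a) (fun ψ => c ψ * c ψ) hb_mem
  have hnn2 : ∀ ψ ∈ (Finset.univ.erase a).erase b, 0 ≤ c ψ * c ψ :=
    fun ψ _ => mul_self_nonneg _
  have hrest2_nn := Finset.sum_nonneg hnn2
  have hb1 : c b * c b = 1 := by
    have h1 : 0 < c b * c b := mul_self_pos.mpr hb
    omega
  have hrest2 : ∑ ψ ∈ (Finset.univ.erase a).erase b, c ψ * c ψ = 0 := by omega
  have hzero : ∀ ψ : IrrCharacter G, ψ ≠ a → ψ ≠ b → c ψ = 0 := by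
    intro ψ h1 h2
    have := (Finset.sum_eq_zero_iff_of_nonneg hnn2).mp hrest2 ψ
      (Finset.mem_erase.mpr ⟨h2, Finset.mem_erase.mpr ⟨h1, Finset.mem_univ ψ⟩⟩)
    exact mul_self_eq_zero.mp this
  have hθ' : θ = (c a : ℂ) • (a : G → ℂ) + (c b : ℂ) • (b : G → ℂ) := by
    conv_lhs => rw [he]
    rw [← Finset.add_sum_erase _ _ (Finset.mem_univ a), ← Finset.add_sum_erase _ _ hb_mem]
    rw [Finset.sum_eq_zero, add_zero]
    intro ψ hψ
    rw [hzero ψ (Finset.mem_erase.mp (Finset.mem_erase.mp hψ).2).1 (Finset.mem_erase.mp hψ).1]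
    simp
  obtain ⟨da, hda_pos, hda⟩ := Irr.IsIrrCharacter.exists_apply_one_pos a.2
  obtain ⟨db, hdb_pos, hdb⟩ := Irr.IsIrrCharacter.exists_apply_one_pos b.2
  have hdeg : (c a : ℂ) * (da : ℂ) + (c b : ℂ) * (db : ℂ) = 0 := by
    have := congrFun hθ' 1
    rw [h1] at this
    simp only [Pi.add_apply, Pi.smul_apply, smul_eq_mul] at this
    rw [hda, hdb] at this
    exact this.symm
  have hdeg' : c a * (da : ℤ) + c b * (db : ℤ) = 0 := by exact_mod_cast hdeg
  rcases int_sq_one ha1 with hca | hca <;> rcases int_sq_one hb1 with hcb | hcb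
  · exfalso; rw [hca, hcb] at hdeg'; omega
  · refine ⟨a, b, fun h => hba h.symm, ?_⟩
    rw [hθ', hca, hcb]
    funext g
    simp [sub_eq_add_neg]
  · refine ⟨b, a, hba, ?_⟩
    rw [hθ', hca, hcb]
    funext g
    simp [sub_eq_add_neg, add_comm]
  · exfalso; rw [hca, hcb] at hdeg'; omega

theorem pair_type {G : Type*} [Group G] [Fintype G] (a b c d : IrrCharacter G) (hab : a ≠ b)
    (hcd : c ≠ d)
    (h : classInner ((a : G → ℂ) - (b : G → ℂ)) ((c : G → ℂ) - (d : G → ℂ)) = 1) :
    (a = c ∧ b ≠ d) ∨ (b = d ∧ a ≠ c) := by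
  classical
  rw [Orth.classInner_sub_left, GenChar.classInner_sub_right, GenChar.classInner_sub_right,
    Irr.irr_orthonormal, Irr.irr_orthonormal, Irr.irr_orthonormal, Irr.irr_orthonormal] at h
  by_cases h1 : a = c
  · left
    refine ⟨h1, fun h4 => ?_⟩
    have h2 : a ≠ d := fun h2 => hcd (h1.symm.trans h2)
    have h3 : b ≠ c := fun h3 => hab (h1.trans h3.symm)
    rw [if_pos h1, if_neg h2, if_neg h3, if_pos h4] at h
    norm_num at h
  · right
    rw [if_neg h1] at h
    by_cases h4 : b = d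
    · exact ⟨h4, h1⟩
    · exfalso
      rw [if_neg h4] at h
      by_cases h2 : a = d <;> by_cases h3 : b = c
      · rw [if_pos h2, if_pos h3] at h; norm_num at h
      · rw [if_pos h2, if_neg h3] at h; norm_num at h
      · rw [if_neg h2, if_pos h3] at h; norm_num at h
      · rw [if_neg h2, if_neg h3] at h; norm_num at h


/-- The isometry lemma behind exceptional characters. Let τ be a family of generalized characters of a finite group G indexed by Fin n, with τ i₀ = 0, every τ i vanishing at the identity, and inner products ⟨τ i, τ j⟩ = 2 if i = j and 1 otherwise for i, j ≠ i₀. Then there are a sign ε and pairwise distinct irreducible characters μ i with τ i = ε (μ i − μ i₀) for all i. -/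
theorem result {G : Type*} [Group G] [Fintype G] (n : ℕ) (i₀ : Fin n) (τ : Fin n → (G → ℂ)) (h0 : τ i₀ = 0) (hgen : ∀ i, Cfsg.IsGeneralizedCharacter G (τ i)) (hone : ∀ i, τ i 1 = 0) (hgram : ∀ i j, i ≠ i₀ → j ≠ i₀ → Cfsg.classInner (τ i) (τ j) = if i = j then 2 else 1) : ∃ ε : ℂ, (ε = 1 ∨ ε = -1) ∧ ∃ μ : Fin n → (G → ℂ), (∀ i, Cfsg.IsIrrCharacter G (μ i)) ∧ Function.Injective μ ∧ ∀ i, τ i = ε • (μ i - μ i₀) := by
  classical
  have hex : ∀ i : Fin n, i ≠ i₀ →
      ∃ a b : IrrCharacter G, a ≠ b ∧ τ i = (a : G → ℂ) - (b : G → ℂ) := by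
    intro i hi
    exact diff_of_norm_two (hgen i) (by rw [hgram i i hi hi, if_pos rfl]) (hone i)
  let t : IrrCharacter G := ⟨fun _ => (1 : ℂ), Ops.isIrrCharacter_one⟩
  have hex' : ∀ i : Fin n, ∃ p : IrrCharacter G × IrrCharacter G,
      i ≠ i₀ → (p.1 ≠ p.2 ∧ τ i = (p.1 : G → ℂ) - (p.2 : G → ℂ)) := by
    intro i
    by_cases hi : i = i₀
    · exact ⟨(t, t), fun h => absurd hi h⟩
    · obtain ⟨a, b, hab, h⟩ := hex i hi
      exact ⟨(a, b), fun _ => ⟨hab, h⟩⟩
  choose p hp using hex'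
  have htype : ∀ i j, i ≠ i₀ → j ≠ i₀ → i ≠ j →
      ((p i).1 = (p j).1 ∧ (p i).2 ≠ (p j).2) ∨ ((p i).2 = (p j).2 ∧ (p i).1 ≠ (p j).1) := by
    intro i j hi hj hij
    apply pair_type _ _ _ _ (hp i hi).1 (hp j hj).1
    rw [← (hp i hi).2, ← (hp j hj).2, hgram i j hi hj, if_neg hij]
  by_cases hA : ∀ i j, i ≠ i₀ → j ≠ i₀ → (p i).1 = (p j).1
  · obtain ⟨a, ha⟩ : ∃ a : IrrCharacter G, ∀ i, i ≠ i₀ → (p i).1 = a := by
      by_cases hne : ∃ i, i ≠ i₀
      · obtain ⟨i₁, hi₁⟩ := hne
        exact ⟨(p i₁).1, fun i hi => hA i i₁ hi hi₁⟩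
      · push Not at hne
        exact ⟨t, fun i hi => absurd (hne i) hi⟩
    refine ⟨-1, Or.inr rfl,
      fun i => if i = i₀ then (a : G → ℂ) else ((p i).2 : G → ℂ), ?_, ?_, ?_⟩
    · intro i
      beta_reduce
      by_cases hi : i = i₀
      · rw [if_pos hi]; exact a.2
      · rw [if_neg hi]; exact (p i).2.2
    · intro i j hij
      simp only at hij
      by_cases hi : i = i₀ <;> by_cases hj : j = i₀
      · rw [hi, hj]
      · exfalso
        rw [if_pos hi, if_neg hj] at hij
        have : a = (p j).2 := Subtype.ext hij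
        exact (hp j hj).1 ((ha j hj).trans this)
      · exfalso
        rw [if_neg hi, if_pos hj] at hij
        have : (p i).2 = a := Subtype.ext hij
        exact (hp i hi).1 ((ha i hi).trans this.symm)
      · rw [if_neg hi, if_neg hj] at hij
        by_contra hne
        rcases htype i j hi hj hne with ⟨_, h2⟩ | ⟨_, h2⟩
        · exact h2 (Subtype.ext hij)
        · exact h2 (hA i j hi hj)
    · intro i
      by_cases hi : i = i₀
      · rw [hi, h0]
        simp
      · beta_reduce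
        rw [if_neg hi, if_pos rfl, (hp i hi).2, ha i hi]
        funext g
        simp
  · push Not at hA
    obtain ⟨i₁, j₁, hi₁, hj₁, hne₁⟩ := hA
    have hij₁ : i₁ ≠ j₁ := fun h => hne₁ (by rw [h])
    have hb₁ : (p i₁).2 = (p j₁).2 := by
      rcases htype i₁ j₁ hi₁ hj₁ hij₁ with ⟨h, _⟩ | ⟨h, _⟩
      · exact absurd h hne₁
      · exact h
    have hb : ∀ k, k ≠ i₀ → (p k).2 = (p i₁).2 := by
      intro k hk
      by_cases hki : k = i₁
      · rw [hki]
      by_cases hkj : k = j₁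
      · rw [hkj, hb₁]
      rcases htype i₁ k hi₁ hk (Ne.symm hki) with ⟨h1, h2⟩ | ⟨h1, _⟩
      · rcases htype j₁ k hj₁ hk (Ne.symm hkj) with ⟨h3, _⟩ | ⟨h3, _⟩
        · exact absurd (h1.trans h3.symm) hne₁
        · exact absurd (hb₁.trans h3) h2
      · exact h1.symm
    refine ⟨1, Or.inl rfl,
      fun i => if i = i₀ then ((p i₁).2 : G → ℂ) else ((p i).1 : G → ℂ), ?_, ?_, ?_⟩
    · intro i
      beta_reduce
      by_cases hi : i = i₀
      · rw [if_pos hi]; exact (p i₁).2.2
      · rw [if_neg hi]; exact (p i).1.2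
    · intro i j hij
      simp only at hij
      by_cases hi : i = i₀ <;> by_cases hj : j = i₀
      · rw [hi, hj]
      · exfalso
        rw [if_pos hi, if_neg hj] at hij
        have : (p i₁).2 = (p j).1 := Subtype.ext hij
        exact (hp j hj).1 (this.symm.trans (hb j hj).symm)
      · exfalso
        rw [if_neg hi, if_pos hj] at hij
        have : (p i).1 = (p i₁).2 := Subtype.ext hij
        exact (hp i hi).1 (this.trans (hb i hi).symm)
      · rw [if_neg hi, if_neg hj] at hij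
        by_contra hne
        rcases htype i j hi hj hne with ⟨_, h2⟩ | ⟨_, h2⟩
        · exact h2 ((hb i hi).trans (hb j hj).symm)
        · exact h2 (Subtype.ext hij)
    · intro i
      by_cases hi : i = i₀
      · rw [hi, h0]
        simp
      · beta_reduce
        rw [if_neg hi, if_pos rfl, (hp i hi).2, hb i hi]
        simp

end Cfsg.Agent.S0198
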