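import Cfsg.Statements.S0203
import Cfsg.Agent.Lib.Helper52.KleinFusion

set_option autoImplicit false
open Cfsg

namespace Cfsg.Agent.S0203

/-- If a Sylow 2-subgroup P of a finite group G is a Klein four-group, then G has three classes of involutions if and only if P has a normal complement in G. -/
theorem result {G : Type*} [Group G] [Finite G] (P : Sylow 2 G) (hP : IsKleinFour (P : Subgroup G)) : Nat.card {C : ConjClasses G // ∃ t : G, orderOf t = 2 ∧ ConjClasses.mk t = C} = 3 ↔ ∃ N : Subgroup G, N.Normal ∧ Subgroup.IsComplement' N (P : Subgroup G) := by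
  obtain ⟨a, b, c, h⟩ := Cfsg.Agent.Lib.Helper52.KleinFusion.omega_of_kleinFour P hP
  constructor
  · intro h3
    rcases Cfsg.Agent.Lib.Helper52.KleinFusion.card_classes h with h1 | h1
    · rw [h1.1] at h3
      exact absurd h3 (by norm_num)
    · apply Cfsg.Agent.Lib.Helper52.KleinFusion.exists_normal_complement P
      apply Cfsg.Agent.Lib.Helper52.KleinFusion.normalizer_le_centralizer h
      intro n hn
      by_contra hmove
      exact h1.2.1 (Cfsg.Agent.Lib.Helper52.KleinFusion.conj_of_move h n hn a h.ha h.oa hmove).1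
  · rintro ⟨N, hN, hNP⟩
    rcases Cfsg.Agent.Lib.Helper52.KleinFusion.card_classes h with h1 | h1
    · exact absurd (Cfsg.Agent.Lib.Helper52.KleinFusion.eq_of_conj_of_complement P h.comm N hN hNP
        a b h.ha h.hb h1.2.1) h.hab
    · exact h1.1

end Cfsg.Agent.S0203
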