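import Mathlib
import Cfsg.Statements.S0210
import Cfsg.Agent.Lib.Helper4.Dihedral
-- import your own Cfsg.Agent.* helpers here

set_option autoImplicit false
open Cfsg Cfsg.Agent.Lib.Helper4

namespace Cfsg.Agent.S0210


/-- If x, y are involutions whose product has even order, no element of the subgroup generated by x and y conjugates x to y. -/
theorem result {G : Type*} [Group G] [Finite G] (x y : G) (hx : orderOf x = 2) (hy : orderOf y = 2) (heven : Even (orderOf (x * y))) (d : G) (hd : d ∈ Subgroup.closure ({x, y} : Set G)) : d * x * d⁻¹ ≠ y := by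
  intro h
  obtain ⟨m, hm⟩ := Dihedral.conj_x_of_mem_closure hx hy hd
  rw [hm] at h
  have h1 : (x * y) ^ (2 * m) = (x * y)⁻¹ := by
    have h2 : (x * y) ^ (2 * m) * x = (x * y)⁻¹ * x := by rw [h]; exact Dihedral.y_eq hx hy
    exact mul_right_cancel h2
  have h3 : (x * y) ^ (2 * m + 1) = 1 := by rw [zpow_add, zpow_one, h1, inv_mul_cancel]
  have h4 : (orderOf (x * y) : ℤ) ∣ 2 * m + 1 := orderOf_dvd_iff_zpow_eq_one.mpr h3
  obtain ⟨j, hj⟩ := heven
  rw [hj] at h4
  have h5 : (2 : ℤ) ∣ 2 * m + 1 := Dvd.dvd.trans ⟨j, by push_cast; ring⟩ h4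
  omega

end Cfsg.Agent.S0210
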