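import Mathlib
import Cfsg.Statements.S0233
import Cfsg.Agent.Lib.Helper4.Dihedral
import Cfsg.Agent.Lib.Helper4.Invol
import Cfsg.Agent.Lib.Helper4.SE
import Cfsg.Agent.Lib.Helper4.BF
-- import your own Cfsg.Agent.* helpers here

set_option autoImplicit false
open Cfsg Cfsg.Agent.Lib.Helper4

namespace Cfsg.Agent.S0233


/-- Let G be a finite group of even order with exactly n involutions whose centre has odd order, and put a = |G|/n. Then G has a proper subgroup H with |G : H| = 2 or |G : H| < a(a+1)/2; over ℕ the latter reads 2·|G:H|·n² < |G|·(|G| + n). -/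
theorem result {G : Type*} [Group G] [Finite G] (heven : Even (Nat.card G)) (hZ : Odd (Nat.card (Subgroup.center G))) : ∃ H : Subgroup G, H ≠ ⊤ ∧ (H.index = 2 ∨ 2 * H.index * (Nat.card {t : G // orderOf t = 2}) ^ 2 < Nat.card G * (Nat.card G + Nat.card {t : G // orderOf t = 2})) := by
  classical
  by_cases h2 : ∃ H : Subgroup G, H.index = 2
  · obtain ⟨H, hH⟩ := h2
    refine ⟨H, ?_, Or.inl hH⟩
    intro h; rw [h, Subgroup.index_top] at hH; omega
  · rw [not_exists] at h2
    have hN2 : 2 ≤ Nat.card G := by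
      obtain ⟨m, hm⟩ := heven
      have := Nat.card_pos (α := G)
      omega
    have hbot : (⊥ : Subgroup G) ≠ ⊤ := by
      intro h
      have h1 : Nat.card (⊥ : Subgroup G) = Nat.card (⊤ : Subgroup G) := by rw [h]
      rw [Subgroup.card_bot, Subgroup.card_top] at h1
      omega
    have hex : ∃ k, ∃ H : Subgroup G, H ≠ ⊤ ∧ H.index = k := ⟨_, ⊥, hbot, rfl⟩
    obtain ⟨H₀, hH₀, hk⟩ := Nat.find_spec hex
    have hmin : ∀ H : Subgroup G, H ≠ ⊤ → Nat.find hex ≤ H.index :=
      fun H hH => Nat.find_min' hex ⟨H, hH, rfl⟩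
    have hcent : ∀ x : G, orderOf x = 2 → Subgroup.centralizer ({x} : Set G) ≠ ⊤ := by
      intro x hx htop
      have hxc : x ∈ Subgroup.center G := by
        rw [Subgroup.mem_center_iff]
        intro g
        have hg : g ∈ Subgroup.centralizer ({x} : Set G) := by rw [htop]; exact Subgroup.mem_top g
        exact Subgroup.mem_centralizer_singleton_iff.mp hg
      exact SE.no_involution_of_odd _ hZ hxc hx
    have hineq := BF.bf_ineq (Nat.find hex) hmin h2 hcent
    refine ⟨H₀, hH₀, Or.inr ?_⟩
    rw [hk]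
    show 2 * Nat.find hex * BF.ninv G ^ 2 < Nat.card G * (Nat.card G + BF.ninv G)
    nlinarith

end Cfsg.Agent.S0233
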