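import Mathlib
import Cfsg.Statements.S0212
import Cfsg.Agent.S0233
import Cfsg.Agent.Lib.Helper4.Dihedral
import Cfsg.Agent.Lib.Helper4.Invol
import Cfsg.Agent.Lib.Helper4.SE
import Cfsg.Agent.Lib.Helper4.BF
import Cfsg.Agent.Lib.Helper4.Simple
-- import your own Cfsg.Agent.* helpers here

set_option autoImplicit false
open Cfsg Cfsg.Agent.Lib.Helper4

namespace Cfsg.Agent.S0212


/-- The Brauer–Fowler bound: if G is a finite simple group and t an involution of G whose centralizer has order n, then |G| ≤ (2n^2)!. -/
theorem result {G : Type*} [Group G] [Finite G] [IsSimpleGroup G] (t : G) (ht : orderOf t = 2) : Nat.card G ≤ Nat.factorial (2 * (Nat.card (Subgroup.centralizer ({t} : Set G))) ^ 2) := by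
  classical
  have hcpos : 0 < Nat.card (Subgroup.centralizer ({t} : Set G)) := Nat.card_pos
  by_cases htop : Subgroup.centralizer ({t} : Set G) = ⊤
  · have hcN : Nat.card (Subgroup.centralizer ({t} : Set G)) = Nat.card G := by
      rw [htop, Subgroup.card_top]
    rw [hcN]
    have hNpos : 0 < Nat.card G := Nat.card_pos
    have h0 : Nat.card G ≤ 2 * Nat.card G ^ 2 := by nlinarith
    exact h0.trans (Nat.self_le_factorial _)
  · have hcenter : Subgroup.center G = ⊥ := by
      rcases (inferInstance : (Subgroup.center G).Normal).eq_bot_or_eq_top with h | h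
      · exact h
      · exfalso; apply htop
        rw [eq_top_iff]
        intro g _
        rw [Subgroup.mem_centralizer_singleton_iff]
        have ht' : t ∈ Subgroup.center G := by rw [h]; exact Subgroup.mem_top t
        exact (Subgroup.mem_center_iff.mp ht' g)
    have heven : Even (Nat.card G) := by
      rw [even_iff_two_dvd, ← ht]; exact orderOf_dvd_natCard t
    have hZ : Odd (Nat.card (Subgroup.center G)) := by
      rw [hcenter, Subgroup.card_bot]; exact odd_one
    obtain ⟨H, hH, hcase⟩ := Cfsg.Agent.S0233.result heven hZ
    have h1 := Simple.card_le_factorial_index H hH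
    have h2c : 2 ≤ 2 * Nat.card (Subgroup.centralizer ({t} : Set G)) ^ 2 := by nlinarith
    rcases hcase with h2 | hlt
    · rw [h2] at h1
      exact h1.trans (Nat.factorial_le h2c)
    · have h3 := Simple.card_le_ninv_mul t ht
      have hnpos := Simple.ninv_pos t ht
      have h4 : H.index ≤ 2 * Nat.card (Subgroup.centralizer ({t} : Set G)) ^ 2 := by
        have hlt' : 2 * H.index * BF.ninv G ^ 2 < Nat.card G * (Nat.card G + BF.ninv G) := hlt
        have a1 : Nat.card G * (Nat.card G + BF.ninv G)
            ≤ (BF.ninv G * Nat.card (Subgroup.centralizer ({t} : Set G)))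
              * (BF.ninv G * Nat.card (Subgroup.centralizer ({t} : Set G)) + BF.ninv G) :=
          Nat.mul_le_mul h3 (Nat.add_le_add_right h3 _)
        have a2 : (BF.ninv G * Nat.card (Subgroup.centralizer ({t} : Set G)))
              * (BF.ninv G * Nat.card (Subgroup.centralizer ({t} : Set G)) + BF.ninv G)
            = (Nat.card (Subgroup.centralizer ({t} : Set G))
              * (Nat.card (Subgroup.centralizer ({t} : Set G)) + 1)) * BF.ninv G ^ 2 := by ring
        have a3 : Nat.card (Subgroup.centralizer ({t} : Set G))
              * (Nat.card (Subgroup.centralizer ({t} : Set G)) + 1)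
            ≤ 2 * Nat.card (Subgroup.centralizer ({t} : Set G)) ^ 2 := by nlinarith
        have a4 : 2 * H.index * BF.ninv G ^ 2
            < (2 * Nat.card (Subgroup.centralizer ({t} : Set G)) ^ 2) * BF.ninv G ^ 2 := by
          calc 2 * H.index * BF.ninv G ^ 2 < Nat.card G * (Nat.card G + BF.ninv G) := hlt'
            _ ≤ _ := a1
            _ = _ := a2
            _ ≤ _ := Nat.mul_le_mul_right _ a3
        have a5 := Nat.lt_of_mul_lt_mul_right a4
        omega
      exact h1.trans (Nat.factorial_le h4)

end Cfsg.Agent.S0212
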