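import Cfsg.Statements.S0213
import Mathlib
-- import your own Cfsg.Agent.* helpers here

set_option autoImplicit false
open Cfsg

namespace Cfsg.Agent.S0213

variable {G : Type*} [Group G]

theorem sq_one {t : G} (ht : orderOf t = 2) : t * t = 1 := by
  rw [← pow_two, ← ht]; exact pow_orderOf_eq_one t

theorem pow_mul_pow {u v : G} (hu : u * u = 1) (hv : v * v = 1) (j : ℕ) :
    (u * v) ^ j * u * (u * v) ^ j = u := by
  induction j with
  | zero => simp
  | succ j ih =>
    have h0 : (u * v) * u * (u * v) = u := by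
      calc (u * v) * u * (u * v) = u * v * (u * u) * v := by group
        _ = u := by rw [hu, mul_one, mul_assoc, hv, mul_one]
    have e1 : (u * v) ^ (j + 1) = (u * v) * (u * v) ^ j := pow_succ' _ _
    have e2 : (u * v) ^ (j + 1) = (u * v) ^ j * (u * v) := pow_succ _ _
    calc (u * v) ^ (j + 1) * u * (u * v) ^ (j + 1)
        = ((u * v) * (u * v) ^ j) * u * ((u * v) ^ j * (u * v)) := by rw [← e1, ← e2]
      _ = (u * v) * ((u * v) ^ j * u * (u * v) ^ j) * (u * v) := by simp only [mul_assoc]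
      _ = u := by rw [ih, h0]

theorem even_orderOf [Finite G] {u v : G} (hu : u * u = 1) (hv : v * v = 1)
    (hnc : ¬ IsConj u v) : Even (orderOf (u * v)) := by
  by_contra hodd
  rw [Nat.not_even_iff_odd] at hodd
  obtain ⟨k, hk⟩ := hodd
  apply hnc
  rw [isConj_iff]
  refine ⟨((u * v) ^ (k + 1))⁻¹, ?_⟩
  rw [inv_inv]
  have h1 := pow_mul_pow hu hv (k + 1)
  have h2 : ((u * v) ^ (k + 1))⁻¹ * u = u * (u * v) ^ (k + 1) := by
    rw [inv_mul_eq_iff_eq_mul, ← mul_assoc, h1]
  rw [h2, mul_assoc, ← pow_add]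
  have h3 : k + 1 + (k + 1) = orderOf (u * v) + 1 := by omega
  rw [h3, pow_succ, pow_orderOf_eq_one, one_mul, ← mul_assoc, hu, one_mul]

/-- the unique involution in a cyclic group of even order -/
theorem exists_unique_invol [Finite G] {w : G} (hw : Even (orderOf w)) :
    ∃ z : G, (orderOf z = 2 ∧ z ∈ Subgroup.zpowers w) ∧
      ∀ t : G, orderOf t = 2 → t ∈ Subgroup.zpowers w → t = z := by
  obtain ⟨m, hm⟩ := hw
  have hpos : 0 < orderOf w := orderOf_pos w
  have hm0 : m ≠ 0 := by rintro rfl; omega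
  have hz : orderOf (w ^ m) = 2 := by
    rw [orderOf_pow' w hm0, hm]
    have : Nat.gcd (m + m) m = m := by simp
    rw [this]
    have : m + m = 2 * m := by ring
    rw [this]
    exact Nat.mul_div_cancel _ (Nat.pos_of_ne_zero hm0)
  refine ⟨w ^ m, ⟨hz, Subgroup.pow_mem _ (Subgroup.mem_zpowers w) m⟩, ?_⟩
  intro t ht htw
  rw [← (isOfFinOrder_of_finite w).mem_powers_iff_mem_zpowers, Submonoid.mem_powers_iff] at htw
  obtain ⟨j, rfl⟩ := htw
  have h1 : (w ^ j) ^ 2 = 1 := by rw [← ht]; exact pow_orderOf_eq_one _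
  rw [← pow_mul] at h1
  have h2 : orderOf w ∣ j * 2 := orderOf_dvd_of_pow_eq_one h1
  rw [hm] at h2
  have h3 : m ∣ j := by
    have : m * 2 ∣ j * 2 := by
      have e : m + m = m * 2 := by ring
      rwa [e] at h2
    exact Nat.dvd_of_mul_dvd_mul_right (by norm_num) this
  obtain ⟨i, rfl⟩ := h3
  rw [pow_mul]
  have hz2 : (w ^ m) ^ 2 = 1 := by rw [← hz]; exact pow_orderOf_eq_one _
  rcases Nat.even_or_odd i with ⟨c, hc⟩ | ⟨c, hc⟩
  · exfalso
    have : (w ^ m) ^ i = 1 := by
      rw [hc, ← two_mul, pow_mul, hz2, one_pow]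
    rw [pow_mul, this, orderOf_one] at ht
    omega
  · rw [hc, pow_succ, pow_mul, hz2, one_pow, one_mul]

theorem card_class_mul [Finite G] (t : G) :
    Nat.card {v : G // IsConj t v} * Nat.card (Subgroup.centralizer ({t} : Set G))
      = Nat.card G := by
  have h1 := Subgroup.card_mul_index (MulAction.stabilizer (ConjAct G) t)
  rw [MulAction.index_stabilizer, ← Subgroup.nat_card_centralizer_nat_card_stabilizer] at h1
  have h2 : (MulAction.orbit (ConjAct G) t).ncard = Nat.card {v : G // IsConj t v} := by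
    rw [← Nat.card_coe_set_eq]
    apply Nat.card_congr
    exact Equiv.subtypeEquivRight (fun g => by
      rw [ConjAct.mem_orbit_conjAct, isConj_comm])
  rw [h2, mul_comm] at h1
  exact h1

theorem conj_count (x₁ x₂ : G) (t g : G) :
    Nat.card {p : G × G // IsConj x₁ p.1 ∧ IsConj x₂ p.2 ∧
        g * t * g⁻¹ ∈ Subgroup.zpowers (p.1 * p.2)} =
    Nat.card {p : G × G // IsConj x₁ p.1 ∧ IsConj x₂ p.2 ∧
        t ∈ Subgroup.zpowers (p.1 * p.2)} := by
  symm
  apply Nat.card_congr
  refine Equiv.subtypeEquiv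
    (Equiv.prodCongr (MulAut.conj g).toEquiv (MulAut.conj g).toEquiv) ?_
  rintro ⟨a, b⟩
  simp only [Equiv.prodCongr_apply, Prod.map_apply, MulEquiv.toEquiv_eq_coe,
    MulEquiv.coe_toEquiv, MulAut.conj_apply]
  have ha : ∀ (x a : G), IsConj x a ↔ IsConj x (g * a * g⁻¹) := by
    intro x a
    have : IsConj a (g * a * g⁻¹) := isConj_iff.2 ⟨g, rfl⟩
    exact ⟨fun h => h.trans this, fun h => h.trans this.symm⟩
  have hz : t ∈ Subgroup.zpowers (a * b) ↔
      g * t * g⁻¹ ∈ Subgroup.zpowers (g * a * g⁻¹ * (g * b * g⁻¹)) := by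
    have e : g * a * g⁻¹ * (g * b * g⁻¹) = (MulAut.conj g).toMonoidHom (a * b) := by
      simp [MulAut.conj_apply]
    have e' : g * t * g⁻¹ = (MulAut.conj g).toMonoidHom t := by
      simp [MulAut.conj_apply]
    rw [e, e', ← MonoidHom.map_zpowers,
      Subgroup.mem_map_iff_mem (MulAut.conj g).injective]
  rw [← ha x₁ a, ← ha x₂ b, ← hz]

open Classical in
theorem count [Finite G] (x₁ x₂ : G) (h₁ : orderOf x₁ = 2) (h₂ : orderOf x₂ = 2)
    (hnc : ¬ IsConj x₁ x₂)
    (hall : ∀ t : G, orderOf t = 2 → IsConj x₁ t ∨ IsConj x₂ t) :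
    Nat.card {g : G // IsConj x₁ g} * Nat.card {g : G // IsConj x₂ g}
      = Nat.card {g : G // IsConj x₁ g} *
          Nat.card {p : G × G // IsConj x₁ p.1 ∧ IsConj x₂ p.2 ∧
            x₁ ∈ Subgroup.zpowers (p.1 * p.2)}
      + Nat.card {g : G // IsConj x₂ g} *
          Nat.card {p : G × G // IsConj x₁ p.1 ∧ IsConj x₂ p.2 ∧
            x₂ ∈ Subgroup.zpowers (p.1 * p.2)} := by
  have := Fintype.ofFinite G
  have hsub : ∀ {α : Type _} [Fintype α] (q : α → Prop) [DecidablePred q],
      Nat.card {x // q x} = (Finset.univ.filter q).card := by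
    intro α _ q _
    rw [Nat.card_eq_fintype_card, Fintype.card_subtype]
  have hord : ∀ {a b : G}, IsConj a b → orderOf b = orderOf a := by
    intro a b hab
    obtain ⟨c, rfl⟩ := isConj_iff.1 hab
    exact orderOf_injective (MulAut.conj c).toMonoidHom (MulAut.conj c).injective a
  set C₁ : Finset G := Finset.univ.filter (fun g => IsConj x₁ g) with hC₁
  set C₂ : Finset G := Finset.univ.filter (fun g => IsConj x₂ g) with hC₂
  set I : Finset G := Finset.univ.filter (fun t => orderOf t = 2) with hI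
  set S : Finset (G × G) :=
    Finset.univ.filter (fun p : G × G => IsConj x₁ p.1 ∧ IsConj x₂ p.2) with hS
  set A : G → Finset (G × G) := fun t =>
    Finset.univ.filter (fun p : G × G => IsConj x₁ p.1 ∧ IsConj x₂ p.2 ∧
      t ∈ Subgroup.zpowers (p.1 * p.2)) with hA
  have hScard : S.card = C₁.card * C₂.card := by
    have : S = C₁ ×ˢ C₂ := by
      ext ⟨a, b⟩
      simp [hS, hC₁, hC₂]
    rw [this, Finset.card_product]
  -- each pair has exactly one involution
  have hone : ∀ p ∈ S, (Finset.bipartiteAbove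
      (fun (p : G × G) (t : G) => t ∈ Subgroup.zpowers (p.1 * p.2)) I p).card = 1 := by
    intro p hp
    rw [hS, Finset.mem_filter] at hp
    obtain ⟨-, hp1, hp2⟩ := hp
    have hu : p.1 * p.1 = 1 := sq_one ((hord hp1).trans h₁)
    have hv : p.2 * p.2 = 1 := sq_one ((hord hp2).trans h₂)
    have hncp : ¬ IsConj p.1 p.2 := fun h => hnc ((hp1.trans h).trans hp2.symm)
    obtain ⟨z, ⟨hz1, hz2⟩, hz3⟩ := exists_unique_invol (even_orderOf hu hv hncp)
    rw [Finset.card_eq_one]
    refine ⟨z, ?_⟩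
    ext t
    simp only [Finset.bipartiteAbove, Finset.mem_filter, Finset.mem_singleton, hI,
      Finset.mem_univ, true_and]
    constructor
    · rintro ⟨ht1, ht2⟩
      exact hz3 t ht1 ht2
    · rintro rfl
      exact ⟨hz1, hz2⟩
  have hbelow : ∀ t : G, Finset.bipartiteBelow
      (fun (p : G × G) (t : G) => t ∈ Subgroup.zpowers (p.1 * p.2)) S t = A t := by
    intro t
    ext p
    simp only [Finset.bipartiteBelow, Finset.mem_filter, hS, hA, Finset.mem_univ, true_and,
      and_assoc]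
  have hdouble : S.card = ∑ t ∈ I, (A t).card := by
    have h := Finset.sum_card_bipartiteAbove_eq_sum_card_bipartiteBelow
      (s := S) (t := I) (r := fun (p : G × G) (t : G) => t ∈ Subgroup.zpowers (p.1 * p.2))
    rw [Finset.sum_congr rfl hone] at h
    simp only [Finset.sum_const, smul_eq_mul, mul_one] at h
    rw [h]
    exact Finset.sum_congr rfl (fun t _ => by rw [hbelow t])
  have hIunion : I = C₁ ∪ C₂ := by
    ext t
    simp only [hI, hC₁, hC₂, Finset.mem_filter, Finset.mem_univ, true_and, Finset.mem_union]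
    constructor
    · exact hall t
    · rintro (h | h)
      · exact (hord h).trans h₁
      · exact (hord h).trans h₂
  have hdisj : Disjoint C₁ C₂ := by
    rw [Finset.disjoint_left]
    intro t ht1 ht2
    simp only [hC₁, hC₂, Finset.mem_filter, Finset.mem_univ, true_and] at ht1 ht2
    exact hnc (ht1.trans ht2.symm)
  have hA1 : ∀ t ∈ C₁, (A t).card = (A x₁).card := by
    intro t ht
    simp only [hC₁, Finset.mem_filter, Finset.mem_univ, true_and] at ht
    obtain ⟨g, rfl⟩ := isConj_iff.1 ht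
    have := conj_count x₁ x₂ x₁ g
    exact (hsub _).symm.trans (this.trans (hsub _))
  have hA2 : ∀ t ∈ C₂, (A t).card = (A x₂).card := by
    intro t ht
    simp only [hC₂, Finset.mem_filter, Finset.mem_univ, true_and] at ht
    obtain ⟨g, rfl⟩ := isConj_iff.1 ht
    have := conj_count x₁ x₂ x₂ g
    exact (hsub _).symm.trans (this.trans (hsub _))
  have e1 : Nat.card {g : G // IsConj x₁ g} = C₁.card := hsub _
  have e2 : Nat.card {g : G // IsConj x₂ g} = C₂.card := hsub _
  have e3 : Nat.card {p : G × G // IsConj x₁ p.1 ∧ IsConj x₂ p.2 ∧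
            x₁ ∈ Subgroup.zpowers (p.1 * p.2)} = (A x₁).card := hsub _
  have e4 : Nat.card {p : G × G // IsConj x₁ p.1 ∧ IsConj x₂ p.2 ∧
            x₂ ∈ Subgroup.zpowers (p.1 * p.2)} = (A x₂).card := hsub _
  rw [e1, e2, e3, e4]
  rw [← hScard, hdouble, hIunion, Finset.sum_union hdisj, Finset.sum_congr rfl hA1,
    Finset.sum_congr rfl hA2]
  simp only [Finset.sum_const, smul_eq_mul]

/-- Thompson Order Formula, two-class case: if every involution of the finite group G is conjugate to exactly one of the non-conjugate involutions x₁, x₂, and nᵢ is the number of pairs (u, v) with u conjugate to x₁, v conjugate to x₂ and xᵢ in the cyclic group generated by uv, then |G| = |C(x₂)| n₁ + |C(x₁)| n₂. -/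
theorem result {G : Type*} [Group G] [Finite G] (x₁ x₂ : G) (h₁ : orderOf x₁ = 2) (h₂ : orderOf x₂ = 2) (hnc : ¬ IsConj x₁ x₂) (hall : ∀ t : G, orderOf t = 2 → IsConj x₁ t ∨ IsConj x₂ t) : Nat.card G = Nat.card (Subgroup.centralizer ({x₂} : Set G)) * Nat.card {p : G × G // IsConj x₁ p.1 ∧ IsConj x₂ p.2 ∧ x₁ ∈ Subgroup.zpowers (p.1 * p.2)} + Nat.card (Subgroup.centralizer ({x₁} : Set G)) * Nat.card {p : G × G // IsConj x₁ p.1 ∧ IsConj x₂ p.2 ∧ x₂ ∈ Subgroup.zpowers (p.1 * p.2)} := by
  have hcount := count x₁ x₂ h₁ h₂ hnc hall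
  have hc1 := card_class_mul x₁
  have hc2 := card_class_mul x₂
  set N := Nat.card G with hN
  set cl₁ := Nat.card {g : G // IsConj x₁ g} with hcl₁
  set cl₂ := Nat.card {g : G // IsConj x₂ g} with hcl₂
  set c₁ := Nat.card (Subgroup.centralizer ({x₁} : Set G)) with hc₁
  set c₂ := Nat.card (Subgroup.centralizer ({x₂} : Set G)) with hc₂
  set n₁ := Nat.card {p : G × G // IsConj x₁ p.1 ∧ IsConj x₂ p.2 ∧ x₁ ∈ Subgroup.zpowers (p.1 * p.2)} with hn₁
  set n₂ := Nat.card {p : G × G // IsConj x₁ p.1 ∧ IsConj x₂ p.2 ∧ x₂ ∈ Subgroup.zpowers (p.1 * p.2)} with hn₂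
  have hNpos : 0 < N := Nat.card_pos
  have e : N * N = N * (c₂ * n₁ + c₁ * n₂) := by
    calc N * N = (cl₁ * c₁) * (cl₂ * c₂) := by rw [hc1, hc2]
      _ = (cl₁ * cl₂) * (c₁ * c₂) := by ring
      _ = (cl₁ * n₁ + cl₂ * n₂) * (c₁ * c₂) := by rw [hcount]
      _ = (cl₁ * c₁) * (c₂ * n₁) + (cl₂ * c₂) * (c₁ * n₂) := by ring
      _ = N * (c₂ * n₁ + c₁ * n₂) := by rw [hc1, hc2]; ring
  exact Nat.eq_of_mul_eq_mul_left hNpos e

end Cfsg.Agent.S0213
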