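import Mathlib
import Cfsg.Statements.S0219
-- import your own Cfsg.Agent.* helpers here

set_option autoImplicit false
open Cfsg

namespace Cfsg.Agent.S0219


/-- If a finite group has even order and a cyclic Sylow 2-subgroup, then it has a subgroup of index 2 (consider the parity of permutations in the regular representation). -/
theorem result {G : Type*} [Group G] [Finite G] (heven : Even (Nat.card G)) (T : Sylow 2 G) (hT : IsCyclic (T : Subgroup G)) : ∃ H : Subgroup G, H.index = 2 := by
  have hp : (Nat.card G).minFac = 2 := (Nat.minFac_eq_two_iff _).mpr heven.two_dvd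
  have hNC := IsCyclic.normalizer_le_centralizer hp hT
  have hcompl := IsCyclic.isComplement' hp hT
  have hidx : (MonoidHom.transferSylow T hNC).ker.index = Nat.card (T : Subgroup G) :=
    hcompl.symm.index_eq_card
  have hsurj : Function.Surjective (MonoidHom.transferSylow T hNC) := by
    rw [← MonoidHom.range_eq_top]
    apply Subgroup.eq_top_of_card_eq
    rw [← Subgroup.index_ker, hidx]
  obtain ⟨k, hk⟩ := T.2.exists_card_eq
  have hk1 : 1 ≤ k := by
    have h2 : 2 ∣ Nat.card (T : Subgroup G) := T.dvd_card_of_dvd_card heven.two_dvd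
    rw [hk] at h2
    rcases k with _ | k
    · simp at h2
    · omega
  obtain ⟨H', hH'⟩ := Sylow.exists_subgroup_card_pow_prime (G := (T : Subgroup G)) 2 (n := k - 1)
    (by rw [hk]; exact pow_dvd_pow 2 (by omega))
  refine ⟨H'.comap (MonoidHom.transferSylow T hNC), ?_⟩
  rw [Subgroup.index_comap_of_surjective _ hsurj]
  have h3 := H'.card_mul_index
  rw [hH', hk] at h3
  have h4 : 2 ^ k = 2 ^ (k - 1) * 2 := by
    rw [← pow_succ]; congr 1; omega
  rw [h4] at h3
  exact Nat.eq_of_mul_eq_mul_left (by positivity) h3

end Cfsg.Agent.S0219
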