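import Mathlib
import Cfsg.Statements.S0220
import Cfsg.Agent.S0219
import Cfsg.Agent.Lib.Helper4.Dihedral
import Cfsg.Agent.Lib.Helper4.Invol
-- import your own Cfsg.Agent.* helpers here

set_option autoImplicit false
open Cfsg Cfsg.Agent.Lib.Helper4

namespace Cfsg.Agent.S0220

theorem aux {G : Type*} [Group G] [Finite G] (x : G) (hx : orderOf x = 2) (C : Subgroup G)
    (hC : C = Subgroup.centralizer ({x} : Set G)) (S : Sylow 2 ↥C)
    (hS : IsCyclic (S : Subgroup ↥C)) : ∃ H : Subgroup G, H.index = 2 := by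
  classical
  have heven : Even (Nat.card G) := by
    rw [even_iff_two_dvd, ← hx]; exact orderOf_dvd_natCard x
  have hx1 : x ≠ 1 := by intro h; rw [h, orderOf_one] at hx; omega
  have hzp : IsPGroup 2 (Subgroup.zpowers x) :=
    IsPGroup.of_card (n := 1) (by rw [Nat.card_zpowers, hx, pow_one])
  obtain ⟨T, hT⟩ := hzp.exists_le_sylow
  have hxT : x ∈ T := hT (Subgroup.mem_zpowers x)
  set Q : Subgroup C := (T : Subgroup G).subgroupOf C with hQ
  have hQp : IsPGroup 2 Q := T.2.comap_subtype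
  obtain ⟨S₂, hS₂⟩ := hQp.exists_le_sylow
  obtain ⟨c, hc⟩ := MulAction.exists_smul_eq C S S₂
  have hS₂cyc : IsCyclic (S₂ : Subgroup C) := by
    rw [← hc]
    exact (Sylow.equivSMul S c).isCyclic.mp hS
  have hxC : x ∈ C := by rw [hC]; exact Subgroup.mem_centralizer_singleton_iff.mpr rfl
  have hxQ : (⟨x, hxC⟩ : C) ∈ Q := Subgroup.mem_subgroupOf.mpr hxT
  haveI : Nontrivial (T : Subgroup G) :=
    ⟨⟨⟨x, hxT⟩, 1, fun h => hx1 (congrArg Subtype.val h)⟩⟩
  have hcen : Nontrivial (Subgroup.center (T : Subgroup G)) := T.2.center_nontrivial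
  have h2dvd : 2 ∣ Nat.card (Subgroup.center (T : Subgroup G)) := by
    have hp : IsPGroup 2 (Subgroup.center (T : Subgroup G)) := T.2.to_subgroup _
    obtain ⟨k, hk⟩ := hp.exists_card_eq
    rw [hk]
    rcases k with _ | k
    · exfalso
      rw [pow_zero] at hk
      have := Finite.one_lt_card (α := Subgroup.center (T : Subgroup G))
      omega
    · exact dvd_pow_self 2 (by omega)
  obtain ⟨z, hz⟩ := exists_prime_orderOf_dvd_card' (G := Subgroup.center (T : Subgroup G)) 2 h2dvd
  have hz2 : orderOf (z.1.1 : G) = 2 := by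
    rw [Subgroup.orderOf_coe, Subgroup.orderOf_coe]; exact hz
  have hzcomm : ∀ t : (T : Subgroup G), t * z.1 = z.1 * t := fun t =>
    (Subgroup.mem_center_iff.mp z.2 t)
  have hzx : (z.1.1 : G) * x = x * z.1.1 := by
    have := hzcomm ⟨x, hxT⟩
    exact (congrArg Subtype.val this).symm
  have hzC : (z.1.1 : G) ∈ C := by rw [hC]; exact Subgroup.mem_centralizer_singleton_iff.mpr hzx
  have hzQ : (⟨z.1.1, hzC⟩ : C) ∈ Q := Subgroup.mem_subgroupOf.mpr z.1.2
  haveI := hS₂cyc
  have heq : (⟨⟨x, hxC⟩, hS₂ hxQ⟩ : (S₂ : Subgroup C)) = ⟨⟨z.1.1, hzC⟩, hS₂ hzQ⟩ := by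
    apply Invol.unique_involution_of_isCyclic
    · rw [Subgroup.orderOf_mk, Subgroup.orderOf_mk]; exact hx
    · rw [Subgroup.orderOf_mk, Subgroup.orderOf_mk]; exact hz2
  have hxz : x = z.1.1 := congrArg (fun a : (S₂ : Subgroup C) => (a.1.1 : G)) heq
  have hTC : (T : Subgroup G) ≤ C := by
    intro t ht
    rw [hC, Subgroup.mem_centralizer_singleton_iff, hxz]
    exact congrArg Subtype.val (hzcomm ⟨t, ht⟩)
  have e1 : Q ≃* (T : Subgroup G) := Subgroup.subgroupOfEquivOfLe hTC
  have e2 : Q.subgroupOf (S₂ : Subgroup C) ≃* Q := Subgroup.subgroupOfEquivOfLe hS₂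
  have hQcyc : IsCyclic (Q.subgroupOf (S₂ : Subgroup C)) := inferInstance
  have hTcyc : IsCyclic (T : Subgroup G) := (e2.trans e1).isCyclic.mp hQcyc
  exact Cfsg.Agent.S0219.result heven T hTcyc


/-- If x is an involution of a finite group G and a Sylow 2-subgroup of the centralizer of x is cyclic, then G has a subgroup of index 2; in particular G is not simple unless it has order 2. -/
theorem result {G : Type*} [Group G] [Finite G] (x : G) (hx : orderOf x = 2) (S : Sylow 2 ↥(Subgroup.centralizer ({x} : Set G))) (hS : IsCyclic (S : Subgroup ↥(Subgroup.centralizer ({x} : Set G)))) : ∃ H : Subgroup G, H.index = 2 := by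
  exact aux x hx _ rfl S hS

end Cfsg.Agent.S0220
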