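import Cfsg.Statements.S0221
import Cfsg.Agent.S0111
import Cfsg.Agent.Lib.Helper23.RankTwo

set_option autoImplicit false
open Cfsg

namespace Cfsg.Agent.S0221

open Cfsg.Agent.Lib.Helper53.ElemAb Cfsg.Agent.Lib.Helper23.RankTwo
open scoped Pointwise

theorem comm_of_sq {G : Type*} [Group G] {a b : G} (ha : a ^ 2 = 1) (hb : b ^ 2 = 1)
    (hab : (a * b) ^ 2 = 1) : a * b = b * a := by
  have ha' : a⁻¹ = a := by rw [inv_eq_iff_mul_eq_one, ← sq]; exact ha
  have hb' : b⁻¹ = b := by rw [inv_eq_iff_mul_eq_one, ← sq]; exact hb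
  have h : (a * b)⁻¹ = a * b := by rw [inv_eq_iff_mul_eq_one, ← sq]; exact hab
  rw [← h, mul_inv_rev, ha', hb']

theorem elemAb_of_sq {G : Type*} [Group G] (E : Subgroup G) (h : ∀ e ∈ E, e ^ 2 = 1) :
    Cfsg.IsElementaryAbelian 2 E := by
  rw [elemAb_iff]
  exact ⟨fun x hx y hy => comm_of_sq (h x hx) (h y hy) (h _ (E.mul_mem hx hy)), h⟩

theorem elemAb_zpowers {G : Type*} [Group G] (d : G) (hd : d ^ 2 = 1) :
    Cfsg.IsElementaryAbelian 2 (Subgroup.zpowers d) := by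
  apply elemAb_of_sq
  intro e he
  obtain ⟨k, rfl⟩ := Subgroup.mem_zpowers_iff.mp he
  rw [← zpow_natCast, ← zpow_mul, mul_comm, zpow_mul, zpow_natCast, hd, one_zpow]

theorem sup_zpowers {G : Type*} [Group G] [Finite G] (U : Subgroup G)
    (hU : Cfsg.IsElementaryAbelian 2 U) (hUc : Nat.card U = 4) (d : G) (hd : d ^ 2 = 1)
    (hdU : d ∉ U) (hdc : ∀ u ∈ U, u * d = d * u) :
    Cfsg.IsElementaryAbelian 2 (U ⊔ Subgroup.zpowers d) ∧
      4 < Nat.card ↥(U ⊔ Subgroup.zpowers d) := by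
  constructor
  · apply elemAb_sup hU (elemAb_zpowers d hd)
    intro a ha b hb
    obtain ⟨k, rfl⟩ := Subgroup.mem_zpowers_iff.mp hb
    exact (Commute.zpow_right (show Commute a d from hdc a ha) k).eq
  · by_contra hle
    push Not at hle
    have h1 : U = U ⊔ Subgroup.zpowers d :=
      Subgroup.eq_of_le_of_card_ge le_sup_left (by rw [hUc]; exact hle)
    apply hdU
    rw [h1]
    exact (le_sup_right : Subgroup.zpowers d ≤ U ⊔ Subgroup.zpowers d) (Subgroup.mem_zpowers d)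

theorem key {S : Type*} [Group S] [Finite S] (hS : IsPGroup 2 S) (E₁ : Subgroup S)
    (hE₁c : Nat.card E₁ = 8) (hE₁ : ∀ e ∈ E₁, e ^ 2 = 1)
    (U : Subgroup S) [U.Normal] (hU : Cfsg.IsElementaryAbelian 2 U) (hUc : Nat.card U = 4)
    (y : S) (hy : y ^ 2 = 1) (hyc : y ∈ Subgroup.centralizer (U : Set S)) :
    ∃ W : Subgroup S, Cfsg.IsElementaryAbelian 2 W ∧ 4 < Nat.card W ∧ y ∈ W := by
  haveI : Fact (Nat.Prime 2) := ⟨Nat.prime_two⟩
  by_cases hyU : y ∈ U
  · have hD := card_le_mul_card_inf_centralizer hS U hU (hUc.trans (by norm_num)) E₁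
    rw [hE₁c] at hD
    by_cases hex : ∃ d ∈ E₁ ⊓ Subgroup.centralizer (U : Set S), d ∉ U
    · obtain ⟨d, hd, hdU⟩ := hex
      have hdc : ∀ u ∈ U, u * d = d * u :=
        fun u hu => (Subgroup.mem_centralizer_iff.mp hd.2 u hu)
      obtain ⟨h1, h2⟩ := sup_zpowers U hU hUc d (hE₁ d hd.1) hdU hdc
      exact ⟨_, h1, h2, (le_sup_left : U ≤ _) hyU⟩
    · push Not at hex
      have hDU : E₁ ⊓ Subgroup.centralizer (U : Set S) ≤ U := hex
      have hEq : E₁ ⊓ Subgroup.centralizer (U : Set S) = U :=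
        Subgroup.eq_of_le_of_card_ge hDU (by rw [hUc]; omega)
      have hUE : U ≤ E₁ := by rw [← hEq]; exact inf_le_left
      exact ⟨E₁, elemAb_of_sq E₁ hE₁, by rw [hE₁c]; norm_num, hUE hyU⟩
  · have hdc : ∀ u ∈ U, u * y = y * u :=
      fun u hu => (Subgroup.mem_centralizer_iff.mp hyc u hu)
    obtain ⟨h1, h2⟩ := sup_zpowers U hU hUc y hy hyU hdc
    exact ⟨_, h1, h2, (le_sup_right : Subgroup.zpowers y ≤ _) (Subgroup.mem_zpowers y)⟩

theorem exists_of_elemAb {G : Type*} [Group G] [Finite G] (W : Subgroup G)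
    (hW : Cfsg.IsElementaryAbelian 2 W) (hWc : 4 < Nat.card W) (z : G) (hz : z ∈ W) :
    ∃ E : Subgroup G, E ≤ Subgroup.centralizer ({z} : Set G) ∧ Nat.card E = 8 ∧
      ∀ e ∈ E, e ^ 2 = 1 := by
  haveI : Fact (Nat.Prime 2) := ⟨Nat.prime_two⟩
  rw [elemAb_iff] at hW
  have hWp : IsPGroup 2 W := by
    intro w
    refine ⟨1, ?_⟩
    have := hW.2 w.1 w.2
    apply Subtype.ext
    simpa using this
  obtain ⟨k, hk⟩ := IsPGroup.iff_card.mp hWp
  have hk3 : 3 ≤ k := by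
    by_contra hlt
    push Not at hlt
    have : 2 ^ k ≤ 2 ^ 2 := Nat.pow_le_pow_right (by norm_num) (by omega)
    omega
  have hdvd : 2 ^ 3 ∣ Nat.card W := by rw [hk]; exact pow_dvd_pow 2 hk3
  obtain ⟨K, hK⟩ := Sylow.exists_subgroup_card_pow_prime 2 hdvd
  refine ⟨K.map W.subtype, ?_, ?_, ?_⟩
  · rintro e ⟨k', hk', rfl⟩
    rw [Subgroup.mem_centralizer_iff]
    intro h hh
    rw [Set.mem_singleton_iff] at hh
    rw [hh]
    exact hW.1 _ hz _ k'.2
  · rw [Subgroup.card_map_of_injective (Subgroup.subtype_injective _), hK]; norm_num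
  · rintro e ⟨k', hk', rfl⟩
    exact hW.2 _ k'.2

theorem conj_back {G : Type*} [Group G] (x g : G)
    (h : ∃ E : Subgroup G, E ≤ Subgroup.centralizer ({g * x * g⁻¹} : Set G) ∧ Nat.card E = 8 ∧
      ∀ e ∈ E, e ^ 2 = 1) :
    ∃ E : Subgroup G, E ≤ Subgroup.centralizer ({x} : Set G) ∧ Nat.card E = 8 ∧
      ∀ e ∈ E, e ^ 2 = 1 := by
  obtain ⟨E, hEc, hE8, hE2⟩ := h
  refine ⟨E.map (MulAut.conj g⁻¹).toMonoidHom, ?_, ?_, ?_⟩
  · rintro e ⟨e', he', rfl⟩
    rw [Subgroup.mem_centralizer_iff]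
    intro h hh
    rw [Set.mem_singleton_iff] at hh
    rw [hh]
    have h1 := Subgroup.mem_centralizer_iff.mp (hEc he') (g * x * g⁻¹) rfl
    show x * (g⁻¹ * e' * g⁻¹⁻¹) = g⁻¹ * e' * g⁻¹⁻¹ * x
    rw [inv_inv]
    have h2 : x * (g⁻¹ * e' * g) = g⁻¹ * (g * x * g⁻¹ * e') * g := by group
    rw [h2, h1]; group
  · rw [Subgroup.card_map_of_injective (MulAut.conj g⁻¹).injective]; exact hE8
  · rintro e ⟨e', he', rfl⟩
    rw [← map_pow, hE2 e' he', map_one]

theorem main {G : Type*} [Group G] [Finite G] (hno : ∀ H : Subgroup G, H.index ≠ 2)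
    (P : Sylow 2 G) (E₁ : Subgroup G) (hE₁P : E₁ ≤ (P : Subgroup G)) (hE₁c : Nat.card E₁ = 8)
    (hE₁ : ∀ e ∈ E₁, e ^ 2 = 1) (y : G) (hy : orderOf y = 2) (hyP : y ∈ (P : Subgroup G)) :
    ∃ E : Subgroup G, E ≤ Subgroup.centralizer ({y} : Set G) ∧ Nat.card E = 8 ∧
      ∀ e ∈ E, e ^ 2 = 1 := by
  haveI : Fact (Nat.Prime 2) := ⟨Nat.prime_two⟩
  have hS : IsPGroup 2 (P : Subgroup G) := P.isPGroup'
  set E' : Subgroup (P : Subgroup G) := E₁.subgroupOf (P : Subgroup G) with hE'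
  have hE'c : Nat.card E' = 8 := by
    rw [hE', ← hE₁c]
    exact Nat.card_congr (Subgroup.subgroupOfEquivOfLe hE₁P).toEquiv
  have hE'2 : ∀ e ∈ E', e ^ 2 = 1 := by
    intro e he
    have := hE₁ (e : G) (Subgroup.mem_subgroupOf.mp he)
    apply Subtype.ext
    simpa using this
  obtain ⟨V, hVn, hV, hVc⟩ := exists_normal_four hS E' hE'2 (by rw [hE'c]; norm_num)
  haveI := hVn
  have transport : ∀ z : (P : Subgroup G), z ^ 2 = 1 →
      z ∈ Subgroup.centralizer (V : Set (P : Subgroup G)) →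
      ∃ E : Subgroup G, E ≤ Subgroup.centralizer ({(z : G)} : Set G) ∧ Nat.card E = 8 ∧
        ∀ e ∈ E, e ^ 2 = 1 := by
    intro z hz2 hzc
    obtain ⟨W, hW, hWc, hzW⟩ := key hS E' hE'c hE'2 V hV hVc z hz2 hzc
    apply exists_of_elemAb (W.map (P : Subgroup G).subtype) (elemAb_map _ hW) ?_ (z : G)
      ⟨z, hzW, rfl⟩
    rw [Subgroup.card_map_of_injective (Subgroup.subtype_injective _)]; exact hWc
  have hy2 : y ^ 2 = 1 := by rw [← hy]; exact pow_orderOf_eq_one y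
  by_cases hyc : (⟨y, hyP⟩ : (P : Subgroup G)) ∈
      Subgroup.centralizer (V : Set (P : Subgroup G))
  · exact transport ⟨y, hyP⟩ (by apply Subtype.ext; simpa using hy2) hyc
  · set Q' : Subgroup (P : Subgroup G) := Subgroup.centralizer (V : Set (P : Subgroup G))
      with hQ'
    set Q : Subgroup G := Q'.map (P : Subgroup G).subtype with hQ
    have hQP : Q ≤ (P : Subgroup G) := by
      rintro q ⟨q', -, rfl⟩; exact q'.2
    have hQsub : Q.subgroupOf (P : Subgroup G) = Q' := by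
      rw [hQ]
      exact Subgroup.comap_map_eq_self_of_injective (Subgroup.subtype_injective _) Q'
    have hQ'top : Q' ≠ ⊤ := by
      intro h
      apply hyc
      rw [h]; exact Subgroup.mem_top _
    have hQi : Q.relIndex (P : Subgroup G) = 2 := by
      rw [Subgroup.relIndex, hQsub]
      have h1 := card_le_mul_card_inf_centralizer hS V hV (hVc.trans (by norm_num)) ⊤
      rw [top_inf_eq, Subgroup.card_top] at h1
      have h2 := Subgroup.card_mul_index Q'
      have h3 : Q'.index ≠ 1 := fun h => hQ'top (Subgroup.index_eq_one.mp h)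
      have h4 : Q'.index ≠ 0 := Subgroup.index_ne_zero_of_finite
      have h5 : 0 < Nat.card Q' := Nat.card_pos
      have h6 : Nat.card Q' * Q'.index ≤ Nat.card Q' * 2 := by
        rw [h2, mul_comm]; exact h1
      have h7 : Q'.index ≤ 2 := Nat.le_of_mul_le_mul_left h6 h5
      omega
    have hyQ : y ∉ Q := by
      rintro ⟨q', hq', hq⟩
      apply hyc
      have : q' = ⟨y, hyP⟩ := Subtype.ext hq
      rw [← this]; exact hq'
    rcases Cfsg.Agent.S0111.result P Q hQP hQi y hy hyP hyQ with ⟨M, -, hM, -⟩ | ⟨g, hg⟩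
    · exact absurd hM (hno M)
    · obtain ⟨q', hq', hq⟩ := hg
      apply conj_back y g
      have hq2 : (q' : G) = g * y * g⁻¹ := hq
      rw [← hq2]
      apply transport q' ?_ hq'
      apply Subtype.ext
      simp only [Subgroup.coe_pow, Subgroup.coe_one]
      rw [hq2, conj_pow, hy2]; simp

/-- Let G be a finite group with no subgroup of index 2 whose 2-rank is at least 3 (it contains an elementary abelian subgroup of order 8). Then the centralizer of every involution of G also contains an elementary abelian subgroup of order 8. -/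
theorem result {G : Type*} [Group G] [Finite G] (hno : ∀ H : Subgroup G, H.index ≠ 2) (hrank : ∃ E : Subgroup G, Nat.card E = 8 ∧ ∀ e ∈ E, e ^ 2 = 1) (x : G) (hx : orderOf x = 2) : ∃ E : Subgroup G, E ≤ Subgroup.centralizer ({x} : Set G) ∧ Nat.card E = 8 ∧ ∀ e ∈ E, e ^ 2 = 1 := by
  haveI : Fact (Nat.Prime 2) := ⟨Nat.prime_two⟩
  obtain ⟨E₀, hE₀c, hE₀⟩ := hrank
  have hE₀p : IsPGroup 2 E₀ := IsPGroup.of_card (n := 3) (by rw [hE₀c]; norm_num)
  obtain ⟨P, hP⟩ := hE₀p.exists_le_sylow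
  have hxp : IsPGroup 2 (Subgroup.zpowers x) := by
    apply IsPGroup.of_card (n := 1)
    rw [Nat.card_zpowers, hx]; norm_num
  obtain ⟨R, hR⟩ := hxp.exists_le_sylow
  obtain ⟨g, hg⟩ := MulAction.exists_smul_eq G R P
  have hgx : g * x * g⁻¹ ∈ (P : Subgroup G) := by
    have h1 : x ∈ (R : Subgroup G) := hR (Subgroup.mem_zpowers x)
    have h2 : MulAut.conj g • x ∈ MulAut.conj g • (R : Subgroup G) :=
      Subgroup.smul_mem_pointwise_smul _ _ _ h1
    rw [← hg]
    exact h2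
  apply conj_back x g
  have hord : orderOf (g * x * g⁻¹) = orderOf x := (MulAut.conj g).orderOf_eq x
  exact main hno P E₀ hP hE₀c hE₀ (g * x * g⁻¹) (hord.trans hx) hgx

end Cfsg.Agent.S0221
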