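import Mathlib
import Cfsg.Statements.S0226
-- import your own Cfsg.Agent.* helpers here

set_option autoImplicit false
open Cfsg

namespace Cfsg.Agent.S0226


/-- A finite group of even order has an odd number of involutions. -/
theorem result {G : Type*} [Group G] [Finite G] (heven : Even (Nat.card G)) : Odd (Nat.card {t : G // orderOf t = 2}) := by
  classical
  have := Fintype.ofFinite G
  -- fixed points of inversion
  let f : Function.End G := fun g => g⁻¹
  have hf : f ^ 2 ^ 1 = 1 := by
    rw [pow_one, sq]
    funext g
    exact inv_inv g
  have h1 : Fintype.card G ≡ Fintype.card (Function.fixedPoints (fun g : G => g⁻¹)) [MOD 2] :=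
    Equiv.Perm.card_fixedPoints_modEq (p := 2) (n := 1) hf
  have h2 : Fintype.card (Function.fixedPoints (fun g : G => g⁻¹)) = Nat.card {t : G // orderOf t = 2} + 1 := by
    rw [← Nat.card_eq_fintype_card]
    have e : Function.fixedPoints (fun g : G => g⁻¹) ≃ Option {t : G // orderOf t = 2} :=
      { toFun := fun g => if h : g.1 = 1 then none else some ⟨g.1, by
            apply orderOf_eq_prime
            · have := g.2
              simp only [Function.mem_fixedPoints, Function.IsFixedPt] at this
              rw [sq]; nth_rewrite 1 [← this]; simp
            · exact h⟩
        invFun := fun o => match o with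
          | none => ⟨1, by simp [Function.mem_fixedPoints, Function.IsFixedPt]⟩
          | some t => ⟨t.1, by
              simp only [Function.mem_fixedPoints, Function.IsFixedPt]
              exact inv_eq_self_of_orderOf_eq_two t.2⟩
        left_inv := by
          intro g
          by_cases h : g.1 = 1
          · simp [h]; ext; simp [h]
          · simp [h]
        right_inv := by
          intro o
          cases o with
          | none => simp
          | some t =>
            have : t.1 ≠ 1 := by
              intro h
              have := t.2
              rw [h, orderOf_one] at this
              omega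
            simp [this] }
    rw [Nat.card_congr e, Nat.card_eq_fintype_card, Fintype.card_option, Nat.card_eq_fintype_card]
  rw [Nat.card_eq_fintype_card] at heven
  rw [h2] at h1
  have h3 : (Nat.card {t : G // orderOf t = 2} + 1) % 2 = 0 := by
    rw [← h1]; exact Nat.even_iff.mp heven
  rw [Nat.odd_iff]; omega

end Cfsg.Agent.S0226
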