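import Mathlib
import Cfsg.Statements.S0228
import Cfsg.Agent.Lib.Helper4.Invol
-- import your own Cfsg.Agent.* helpers here

set_option autoImplicit false
open Cfsg

namespace Cfsg.Agent.S0228

open Cfsg.Agent.Lib.Helper4 Cfsg.Agent.Lib.Helper4.Invol

theorem fact12_3 : (12 : ℕ).factorization 3 = 1 := by
  have h : (12 : ℕ) = 3 ^ 1 * 4 := by norm_num
  rw [h, Nat.factorization_mul (by norm_num) (by norm_num)]
  have h1 : (3 ^ 1 : ℕ).factorization 3 = 1 := by
    rw [Nat.Prime.factorization_pow (by norm_num : Nat.Prime 3)]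
    simp
  have h2 : (4 : ℕ).factorization 3 = 0 := by
    apply Nat.factorization_eq_zero_of_not_dvd
    norm_num
  rw [Finsupp.add_apply, h1, h2]

theorem fact12_2 : (12 : ℕ).factorization 2 = 2 := by
  have h : (12 : ℕ) = 2 ^ 2 * 3 := by norm_num
  rw [h, Nat.factorization_mul (by norm_num) (by norm_num)]
  have h1 : (2 ^ 2 : ℕ).factorization 2 = 2 := by
    rw [Nat.Prime.factorization_pow (by norm_num : Nat.Prime 2)]
    simp
  have h2 : (3 : ℕ).factorization 2 = 0 := by
    apply Nat.factorization_eq_zero_of_not_dvd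
    norm_num
  rw [Finsupp.add_apply, h1, h2]

/-- Normal Sylow 3-subgroup in a group of order 12 forces a central involution. -/
theorem central_involution {G : Type*} [Group G] [Finite G] (hG : Nat.card G = 12)
    (P : Sylow 3 G) (hPn : (P : Subgroup G).Normal) (hP3 : Nat.card P = 3)
    (hQ4 : ∀ Q : Sylow 2 G, Nat.card Q = 4) :
    ∃ z : G, orderOf z = 2 ∧ z ∈ Subgroup.center G := by
  classical
  haveI : Fact (Nat.Prime 3) := ⟨by norm_num⟩
  haveI : Fact (Nat.Prime 2) := ⟨by norm_num⟩
  obtain ⟨x', hx'⟩ := exists_prime_orderOf_dvd_card' (G := P) 3 (by rw [hP3])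
  set x : G := (x' : G) with hxdef
  have hx : orderOf x = 3 := by rw [hxdef, Subgroup.orderOf_coe]; exact hx'
  have hxP : x ∈ (P : Subgroup G) := x'.2
  have hx1 : x ≠ 1 := by
    intro h
    rw [h, orderOf_one] at hx
    omega
  -- conjugates of x lie in P \ {1}
  have hsub : {v : G | IsConj x v} ⊆ ((P : Subgroup G) : Set G) \ {1} := by
    intro v hv
    obtain ⟨g, hg⟩ := isConj_iff.mp hv
    refine ⟨?_, ?_⟩
    · rw [← hg]; exact hPn.conj_mem x hxP g
    · intro h1
      rw [Set.mem_singleton_iff] at h1
      rw [h1] at hg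
      apply hx1
      have : x = g⁻¹ * 1 * g := by rw [← hg]; group
      rw [this]; group
  have hcard_le : Nat.card {v : G // IsConj x v} ≤ 2 := by
    have h1 : Nat.card {v : G // IsConj x v} = Set.ncard {v : G | IsConj x v} :=
      Nat.card_coe_set_eq _
    have h2 : Set.ncard (((P : Subgroup G) : Set G) \ {1}) = 2 := by
      rw [Set.ncard_sdiff_singleton_of_mem (Subgroup.one_mem _)]
      have : Set.ncard ((P : Subgroup G) : Set G) = 3 :=
        (Nat.card_coe_set_eq _).symm.trans hP3
      rw [this]
    rw [h1, ← h2]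
    exact Set.ncard_le_ncard hsub (Set.toFinite _)
  have hmul := card_conj_mul_card_centralizer x
  rw [hG] at hmul
  have hpos : 0 < Nat.card {v : G // IsConj x v} := by
    rcases Nat.eq_zero_or_pos (Nat.card {v : G // IsConj x v}) with h | h
    · rw [h] at hmul; omega
    · exact h
  have heven : 2 ∣ Nat.card (Subgroup.centralizer ({x} : Set G)) := by
    have h12 : Nat.card {v : G // IsConj x v} = 1 ∨ Nat.card {v : G // IsConj x v} = 2 := by
      omega
    rcases h12 with h | h
    · rw [h] at hmul; omega
    · rw [h] at hmul; omega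
  obtain ⟨z', hz'⟩ := exists_prime_orderOf_dvd_card' (G := Subgroup.centralizer ({x} : Set G)) 2 heven
  set z : G := (z' : G) with hzdef
  have hz : orderOf z = 2 := by rw [hzdef, Subgroup.orderOf_coe]; exact hz'
  have hzx : x * z = z * x := by
    have := z'.2
    rw [Subgroup.mem_centralizer_iff] at this
    exact this x (Set.mem_singleton x)
  -- z lies in a Sylow 2-subgroup
  have hpg : IsPGroup 2 (Subgroup.zpowers z) := by
    apply IsPGroup.of_card (n := 1)
    rw [Nat.card_zpowers, hz, pow_one]
  obtain ⟨Q, hQ⟩ := hpg.exists_le_sylow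
  have hzQ : z ∈ (Q : Subgroup G) := hQ (Subgroup.mem_zpowers z)
  have hcomm : ∀ a b : (Q : Subgroup G), a * b = b * a :=
    IsPGroup.commutative_of_card_eq_prime_sq (p := 2) ((hQ4 Q).trans (by norm_num))
  -- centralizer of z is everything
  have hQle : (Q : Subgroup G) ≤ Subgroup.centralizer ({z} : Set G) := by
    intro q hq
    rw [Subgroup.mem_centralizer_iff]
    intro y hy
    rw [Set.mem_singleton_iff] at hy
    rw [hy]
    have := hcomm ⟨z, hzQ⟩ ⟨q, hq⟩
    have h2 : ((⟨z, hzQ⟩ * ⟨q, hq⟩ : Q) : G) = ((⟨q, hq⟩ * ⟨z, hzQ⟩ : Q) : G) := by rw [this]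
    exact h2
  have hxmem : x ∈ Subgroup.centralizer ({z} : Set G) := by
    rw [Subgroup.mem_centralizer_iff]
    intro y hy
    rw [Set.mem_singleton_iff] at hy
    rw [hy]
    exact hzx.symm
  have h4 : 4 ∣ Nat.card (Subgroup.centralizer ({z} : Set G)) := by
    rw [← hQ4 Q]
    exact Subgroup.card_dvd_of_le hQle
  have h3 : 3 ∣ Nat.card (Subgroup.centralizer ({z} : Set G)) := by
    rw [← hx]
    exact Subgroup.orderOf_dvd_natCard _ hxmem
  have h12 : Nat.card (Subgroup.centralizer ({z} : Set G)) = 12 := by
    have hd : Nat.card (Subgroup.centralizer ({z} : Set G)) ∣ 12 := by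
      rw [← hG]; exact Subgroup.card_subgroup_dvd_card _
    have hle := Nat.le_of_dvd (by norm_num) hd
    have hpos' : 0 < Nat.card (Subgroup.centralizer ({z} : Set G)) := Nat.card_pos
    omega
  have htop : Subgroup.centralizer ({z} : Set G) = ⊤ :=
    Subgroup.eq_top_of_card_eq _ (by rw [h12, hG])
  refine ⟨z, hz, ?_⟩
  rw [Subgroup.mem_center_iff]
  intro g
  have hg : g ∈ Subgroup.centralizer ({z} : Set G) := by rw [htop]; trivial
  rw [Subgroup.mem_centralizer_iff] at hg
  exact (hg z (Set.mem_singleton z)).symm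


/-- A group of order 12 in which no involution is central is isomorphic to the alternating group on four letters. -/
theorem result {G : Type*} [Group G] [Finite G] (hG : Nat.card G = 12) (hz : ∀ z : G, orderOf z = 2 → z ∉ Subgroup.center G) : Nonempty (G ≃* alternatingGroup (Fin 4)) := by
  classical
  haveI : Fact (Nat.Prime 3) := ⟨by norm_num⟩
  haveI : Fact (Nat.Prime 2) := ⟨by norm_num⟩
  have hP3 : ∀ P : Sylow 3 G, Nat.card P = 3 := by
    intro P
    rw [Sylow.card_eq_multiplicity, hG, fact12_3, pow_one]
  have hQ4 : ∀ Q : Sylow 2 G, Nat.card Q = 4 := by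
    intro Q
    rw [Sylow.card_eq_multiplicity, hG, fact12_2]
    norm_num
  have hn3 : Nat.card (Sylow 3 G) = 1 ∨ Nat.card (Sylow 3 G) = 4 := by
    have h1 : Nat.card (Sylow 3 G) ≡ 1 [MOD 3] := card_sylow_modEq_one 3 G
    have P : Sylow 3 G := default
    have h2 := Sylow.card_dvd_index P
    have h3 : (P : Subgroup G).index = 4 := by
      have := Subgroup.card_mul_index (P : Subgroup G)
      rw [hP3 P, hG] at this
      omega
    rw [h3] at h2
    have h4 : Nat.card (Sylow 3 G) ≤ 4 := Nat.le_of_dvd (by norm_num) h2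
    unfold Nat.ModEq at h1
    have h5 : Nat.card (Sylow 3 G) ≠ 0 := fun h => by rw [h] at h2; omega
    have h6 : Nat.card (Sylow 3 G) ≠ 2 := fun h => by rw [h] at h1; omega
    have h7 : Nat.card (Sylow 3 G) ≠ 3 := fun h => by rw [h] at h1; omega
    omega
  rcases hn3 with hn3 | hn3
  · exfalso
    have P : Sylow 3 G := default
    haveI : Subsingleton (Sylow 3 G) := (Nat.card_eq_one_iff_unique.mp hn3).1
    have hPn : (P : Subgroup G).Normal := Sylow.normal_of_subsingleton P
    obtain ⟨z, hz2, hzc⟩ := central_involution hG P hPn (hP3 P) hQ4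
    exact hz z hz2 hzc
  · have e : Sylow 3 G ≃ Fin 4 := by
      haveI := Fintype.ofFinite (Sylow 3 G)
      exact Fintype.equivFinOfCardEq (by rw [← Nat.card_eq_fintype_card]; exact hn3)
    let φ : G →* Equiv.Perm (Fin 4) :=
      (e.permCongrHom.toMonoidHom).comp (MulAction.toPermHom G (Sylow 3 G))
    have hinj : Function.Injective φ := by
      rw [injective_iff_map_eq_one]
      intro g hg
      have h1 : MulAction.toPermHom G (Sylow 3 G) g = 1 := by
        apply e.permCongrHom.injective
        rw [map_one]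
        exact hg
      have hg' : ∀ P : Sylow 3 G, g • P = P := by
        intro P
        have h2 : (MulAction.toPermHom G (Sylow 3 G) g) P = (1 : Equiv.Perm (Sylow 3 G)) P := by
          rw [h1]
        exact h2
      have hNP : ∀ P : Sylow 3 G, g ∈ (P : Subgroup G) := by
        intro P
        have h1 : g ∈ MulAction.stabilizer G P := hg' P
        rw [Sylow.stabilizer_eq_normalizer] at h1
        have h2 : Nat.card (Subgroup.normalizer ((P : Subgroup G) : Set G)) = 3 := by
          have h5 : Nat.card (Sylow 3 G) =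
              (Subgroup.normalizer ((P : Subgroup G) : Set G)).index :=
            Sylow.card_eq_index_normalizer P
          have h3 := Subgroup.card_mul_index (Subgroup.normalizer ((P : Subgroup G) : Set G))
          rw [← h5, hn3, hG] at h3
          omega
        have h4 : (P : Subgroup G) = Subgroup.normalizer ((P : Subgroup G) : Set G) :=
          Subgroup.eq_of_le_of_card_ge Subgroup.le_normalizer (by rw [h2, hP3 P])
        rw [h4]
        exact h1
      obtain ⟨P₁, P₂, hne⟩ : ∃ P₁ P₂ : Sylow 3 G, P₁ ≠ P₂ := by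
        haveI : Nontrivial (Sylow 3 G) :=
          (Finite.one_lt_card_iff_nontrivial).mp (by rw [hn3]; norm_num)
        exact exists_pair_ne _
      by_contra hg1
      have hord : orderOf g = 3 := by
        have h1 : orderOf g ∣ 3 := by
          have := Subgroup.orderOf_dvd_natCard (P₁ : Subgroup G) (hNP P₁)
          rwa [hP3 P₁] at this
        rcases (Nat.dvd_prime (by norm_num : Nat.Prime 3)).mp h1 with h | h
        · exact absurd (orderOf_eq_one_iff.mp h) hg1
        · exact h
      have hzp : ∀ P : Sylow 3 G, Subgroup.zpowers g = (P : Subgroup G) := by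
        intro P
        apply Subgroup.eq_of_le_of_card_ge
        · rw [Subgroup.zpowers_le]; exact hNP P
        · rw [Nat.card_zpowers, hord, hP3 P]
      exact hne (Sylow.ext ((hzp P₁).symm.trans (hzp P₂)))
    have hidx : φ.range.index = 2 := by
      have h1 : Nat.card φ.range = 12 := by
        rw [← hG]
        exact (Nat.card_congr (MonoidHom.ofInjective hinj).toEquiv).symm
      have h2 := Subgroup.card_mul_index φ.range
      rw [h1, Nat.card_perm, Nat.card_fin] at h2
      have h3 : Nat.factorial 4 = 24 := by decide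
      rw [h3] at h2
      omega
    have hrange : φ.range = alternatingGroup (Fin 4) :=
      Equiv.Perm.eq_alternatingGroup_of_index_eq_two hidx
    exact ⟨(MonoidHom.ofInjective hinj).trans (MulEquiv.subgroupCongr hrange)⟩

end Cfsg.Agent.S0228
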