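import Mathlib
import Cfsg.Statements.S0229
import Cfsg.Agent.S0208
import Cfsg.Agent.S0209
import Cfsg.Agent.S0211
import Cfsg.Agent.Lib.Helper4.Dihedral
import Cfsg.Agent.Lib.Helper4.Invol
-- import your own Cfsg.Agent.* helpers here

set_option autoImplicit false
open Cfsg Cfsg.Agent.Lib.Helper4

namespace Cfsg.Agent.S0229


/-- Let t be an involution of a Sylow 2-subgroup S of a finite group G, conjugate in G to no other element of S, and let s be an involution of G not conjugate to t. Then the order of st is twice an odd number. -/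
theorem result {G : Type*} [Group G] [Finite G] (S : Sylow 2 G) (t : G) (ht : orderOf t = 2) (htS : t ∈ S) (hiso : ∀ g : G, g * t * g⁻¹ ∈ S → g * t * g⁻¹ = t) (s : G) (hs : orderOf s = 2) (hns : ¬ IsConj s t) : orderOf (s * t) % 4 = 2 := by
  have hodd : ¬ Odd (orderOf (s * t)) := by
    intro h
    obtain ⟨d, _, hd⟩ := Cfsg.Agent.S0208.result s t hs ht h
    exact hns (isConj_iff.mpr ⟨d, hd⟩)
  rw [Nat.not_odd_iff_even] at hodd
  have h4 : ¬ 4 ∣ orderOf (s * t) := by
    intro h4
    rw [Invol.orderOf_mul_comm] at h4 hodd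
    obtain ⟨hz2, hzt, hzs⟩ := Cfsg.Agent.S0209.result t s ht hs hodd
    obtain ⟨d, hd, hd'⟩ := (Cfsg.Agent.S0211.result t s ht hs hodd).mpr h4
    have hzz := Dihedral.mul_self_of_orderOf_two hz2
    exact Dihedral.ne_one_of_orderOf_two hz2 (Invol.isolated_aux S ht hiso hzz hzt.eq.symm hd')
  obtain ⟨m, hm⟩ := hodd
  omega

end Cfsg.Agent.S0229
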