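import Mathlib
import Cfsg.Statements.S0230
import Cfsg.Agent.S0208
import Cfsg.Agent.S0209
import Cfsg.Agent.Lib.Helper4.Dihedral
import Cfsg.Agent.Lib.Helper4.Invol
-- import your own Cfsg.Agent.* helpers here

set_option autoImplicit false
open Cfsg Cfsg.Agent.Lib.Helper4

namespace Cfsg.Agent.S0230


/-- Let G be a finite group with two non-conjugate involutions, and let t be an involution whose centralizer has maximal order among centralizers of involutions. Then |G| < |C_G(t)|^3. -/
theorem result {G : Type*} [Group G] [Finite G] (s t : G) (hs : orderOf s = 2) (ht : orderOf t = 2) (hnc : ¬ IsConj s t) (hmax : ∀ u : G, orderOf u = 2 → Nat.card (Subgroup.centralizer ({u} : Set G)) ≤ Nat.card (Subgroup.centralizer ({t} : Set G))) : Nat.card G < Nat.card (Subgroup.centralizer ({t} : Set G)) ^ 3 := by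
  classical
  have hmpos : 0 < Nat.card (Subgroup.centralizer ({t} : Set G)) := Nat.card_pos
  have hcl := Invol.card_conj_mul_card_centralizer t
  have hv : ∀ v : {v : G // IsConj t v}, orderOf v.1 = 2 ∧ Even (orderOf (s * v.1)) := by
    intro v
    obtain ⟨g, hg⟩ := isConj_iff.mp v.2
    have hv2 : orderOf v.1 = 2 := by rw [← hg, Invol.orderOf_conj]; exact ht
    refine ⟨hv2, ?_⟩
    by_contra hodd
    rw [Nat.not_even_iff_odd] at hodd
    obtain ⟨d, _, hd⟩ := Cfsg.Agent.S0208.result s v.1 hs hv2 hodd
    apply hnc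
    rw [isConj_iff]
    refine ⟨g⁻¹ * d, ?_⟩
    calc g⁻¹ * d * s * (g⁻¹ * d)⁻¹ = g⁻¹ * (d * s * d⁻¹) * g := by group
      _ = g⁻¹ * (g * t * g⁻¹) * g := by rw [hd, hg]
      _ = t := by group
  let φ : {v : G // IsConj t v} →
      Σ z : {z : G // orderOf z = 2 ∧ Commute z s}, Subgroup.centralizer ({z.1} : Set G) :=
    fun v =>
    ⟨⟨(s * v.1) ^ (orderOf (s * v.1) / 2),
        (Cfsg.Agent.S0209.result s v.1 hs (hv v).1 (hv v).2).1,
        (Cfsg.Agent.S0209.result s v.1 hs (hv v).1 (hv v).2).2.1⟩,
     ⟨v.1, Subgroup.mem_centralizer_singleton_iff.mpr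
        (Cfsg.Agent.S0209.result s v.1 hs (hv v).1 (hv v).2).2.2.eq.symm⟩⟩
  let ψ : (Σ z : {z : G // orderOf z = 2 ∧ Commute z s},
      Subgroup.centralizer ({z.1} : Set G)) → G := fun p => p.2.1
  have hφ : Function.Injective φ := by
    intro v v' h
    have h1 : ψ (φ v) = ψ (φ v') := by rw [h]
    exact Subtype.ext h1
  have h1 := Nat.card_le_card_of_injective φ hφ
  have := Fintype.ofFinite {z : G // orderOf z = 2 ∧ Commute z s}
  rw [Nat.card_sigma] at h1
  have h2 : ∑ z : {z : G // orderOf z = 2 ∧ Commute z s},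
      Nat.card (Subgroup.centralizer ({z.1} : Set G))
      ≤ ∑ _z : {z : G // orderOf z = 2 ∧ Commute z s},
        Nat.card (Subgroup.centralizer ({t} : Set G)) :=
    Finset.sum_le_sum (fun z _ => hmax z.1 z.2.1)
  rw [Finset.sum_const, Finset.card_univ, smul_eq_mul, ← Nat.card_eq_fintype_card] at h2
  have hne : ∀ u : G, orderOf u = 2 → u ≠ 1 := fun u hu => Dihedral.ne_one_of_orderOf_two hu
  let k : Option {z : G // orderOf z = 2 ∧ Commute z s} → Subgroup.centralizer ({s} : Set G) :=
    fun o => match o with
      | none => 1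
      | some z => ⟨z.1, Subgroup.mem_centralizer_singleton_iff.mpr z.2.2.eq⟩
  have hk : Function.Injective k := by
    intro a b hab
    cases a with
    | none =>
      cases b with
      | none => rfl
      | some z => exact absurd (congrArg Subtype.val hab).symm (hne z.1 z.2.1)
    | some z =>
      cases b with
      | none => exact absurd (congrArg Subtype.val hab) (hne z.1 z.2.1)
      | some z' =>
        have h3 : (k (some z)).1 = (k (some z')).1 := by rw [hab]
        exact congrArg some (Subtype.ext h3)
  have h3 := Nat.card_le_card_of_injective k hk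
  rw [Finite.card_option] at h3
  have h4 := hmax s hs
  have h5 : Nat.card {z : G // orderOf z = 2 ∧ Commute z s}
      < Nat.card (Subgroup.centralizer ({t} : Set G)) := by omega
  have h6 := h1.trans h2
  calc Nat.card G
      = Nat.card {v : G // IsConj t v} * Nat.card (Subgroup.centralizer ({t} : Set G)) :=
        hcl.symm
    _ ≤ (Nat.card {z : G // orderOf z = 2 ∧ Commute z s}
          * Nat.card (Subgroup.centralizer ({t} : Set G)))
          * Nat.card (Subgroup.centralizer ({t} : Set G)) := Nat.mul_le_mul_right _ h6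
    _ < (Nat.card (Subgroup.centralizer ({t} : Set G))
          * Nat.card (Subgroup.centralizer ({t} : Set G)))
          * Nat.card (Subgroup.centralizer ({t} : Set G)) :=
        Nat.mul_lt_mul_of_pos_right (Nat.mul_lt_mul_of_pos_right h5 hmpos) hmpos
    _ = Nat.card (Subgroup.centralizer ({t} : Set G)) ^ 3 := by ring

end Cfsg.Agent.S0230
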