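import Mathlib
import Cfsg.Statements.S0231
import Cfsg.Agent.S0208
import Cfsg.Agent.S0209
import Cfsg.Agent.Lib.Helper4.Dihedral
import Cfsg.Agent.Lib.Helper4.Invol
-- import your own Cfsg.Agent.* helpers here

set_option autoImplicit false
open scoped Pointwise
open Cfsg Cfsg.Agent.Lib.Helper4

namespace Cfsg.Agent.S0231

open scoped Pointwise in
theorem mem_conj_smul {G : Type*} [Group G] (g y : G) (T : Subgroup G) :
    y ∈ MulAut.conj g • T ↔ g⁻¹ * y * g ∈ T := by
  rw [Subgroup.mem_pointwise_smul_iff_inv_smul_mem, MulAut.smul_def, MulAut.conj_inv_apply]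


/-- Let T be a Sylow 2-subgroup of the finite group G which is not normal and which intersects every other Sylow 2-subgroup trivially. Then G has a single conjugacy class of involutions. -/
theorem result {G : Type*} [Group G] [Finite G] (T : Sylow 2 G) (hnn : ¬ (T : Subgroup G).Normal) (hTI : ∀ g : G, MulAut.conj g • (T : Subgroup G) ≠ T → MulAut.conj g • (T : Subgroup G) ⊓ T = ⊥) (s t : G) (hs : orderOf s = 2) (ht : orderOf t = 2) : IsConj s t := by
  classical
  have key1 : ∀ a b x : G, a⁻¹ * x * a ∈ T → b⁻¹ * x * b ∈ T → x ≠ 1 →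
      ∀ y, a⁻¹ * y * a ∈ T → b⁻¹ * y * b ∈ T := by
    intro a b x hxa hxb hx1 y hya
    by_cases h : MulAut.conj (a⁻¹ * b) • (T : Subgroup G) = T
    · have h1 : a⁻¹ * y * a ∈ MulAut.conj (a⁻¹ * b) • (T : Subgroup G) := by rw [h]; exact hya
      rw [mem_conj_smul] at h1
      have e : (a⁻¹ * b)⁻¹ * (a⁻¹ * y * a) * (a⁻¹ * b) = b⁻¹ * y * b := by group
      rw [e] at h1; exact h1
    · exfalso
      have h0 := hTI _ h
      have h1 : a⁻¹ * x * a ∈ MulAut.conj (a⁻¹ * b) • (T : Subgroup G) ⊓ T := by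
        rw [Subgroup.mem_inf, mem_conj_smul]
        refine ⟨?_, hxa⟩
        have e : (a⁻¹ * b)⁻¹ * (a⁻¹ * x * a) * (a⁻¹ * b) = b⁻¹ * x * b := by group
        rw [e]; exact hxb
      rw [h0, Subgroup.mem_bot] at h1
      apply hx1
      have e2 : x = a * (a⁻¹ * x * a) * a⁻¹ := by group
      rw [e2, h1]; group
  have key2 : ∀ u z : G, orderOf u = 2 → orderOf z = 2 → Commute z u →
      ∃ a : G, a⁻¹ * u * a ∈ T ∧ a⁻¹ * z * a ∈ T := by
    intro u z hu hz hc
    obtain ⟨a, ha⟩ := Invol.exists_conj_mem_sylow T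
      (Invol.isPGroup_closure_pair (Dihedral.mul_self_of_orderOf_two hu)
        (Dihedral.mul_self_of_orderOf_two hz) hc.eq.symm)
    exact ⟨a, ha u (Subgroup.subset_closure (by simp)), ha z (Subgroup.subset_closure (by simp))⟩
  have key3 : ∀ s t : G, orderOf s = 2 → orderOf t = 2 → ¬ IsConj s t →
      ∃ a : G, a⁻¹ * s * a ∈ T ∧ a⁻¹ * t * a ∈ T := by
    intro s t hs ht hnc
    have heven : Even (orderOf (s * t)) := by
      by_contra hodd
      rw [Nat.not_even_iff_odd] at hodd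
      obtain ⟨d, _, hd⟩ := Cfsg.Agent.S0208.result s t hs ht hodd
      exact hnc (isConj_iff.mpr ⟨d, hd⟩)
    obtain ⟨hz2, hzs, hzt⟩ := Cfsg.Agent.S0209.result s t hs ht heven
    obtain ⟨a, has, haz⟩ := key2 s _ hs hz2 hzs
    obtain ⟨b, hbt, hbz⟩ := key2 t _ ht hz2 hzt
    exact ⟨b, key1 a b _ haz hbz (Dihedral.ne_one_of_orderOf_two hz2) s has, hbt⟩
  by_contra hnc
  obtain ⟨a, has, hat⟩ := key3 s t hs ht hnc
  have hs'1 : a⁻¹ * s * a ≠ 1 := by
    intro h
    have h' : s = 1 := by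
      have e : s = a * (a⁻¹ * s * a) * a⁻¹ := by group
      rw [e, h]; group
    exact Dihedral.ne_one_of_orderOf_two hs h'
  have hex : ∃ g : G, g * (a⁻¹ * s * a) * g⁻¹ ∉ T := by
    by_contra hall
    rw [not_exists] at hall
    apply hnn
    constructor
    intro n hn g
    have hg : g * (a⁻¹ * s * a) * g⁻¹ ∈ T := not_not.mp (hall g)
    have hn' : n ∈ T := hn
    have h1 := key1 1 g⁻¹ (a⁻¹ * s * a) (by simpa using has) (by simpa using hg) hs'1 n
      (by simpa using hn')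
    have h2 : g * n * g⁻¹ ∈ T := by simpa using h1
    exact h2
  obtain ⟨g, hg⟩ := hex
  have hr2 : orderOf ((a * g * a⁻¹) * s * (a * g * a⁻¹)⁻¹) = 2 := by
    rw [Invol.orderOf_conj]; exact hs
  have hsr : IsConj s ((a * g * a⁻¹) * s * (a * g * a⁻¹)⁻¹) := isConj_iff.mpr ⟨_, rfl⟩
  have har : a⁻¹ * ((a * g * a⁻¹) * s * (a * g * a⁻¹)⁻¹) * a = g * (a⁻¹ * s * a) * g⁻¹ := by
    group
  have hrt : IsConj ((a * g * a⁻¹) * s * (a * g * a⁻¹)⁻¹) t := by
    by_contra hnrt
    obtain ⟨b, hbr, hbt⟩ := key3 _ t hr2 ht hnrt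
    have h2 := key1 b a t hbt hat (Dihedral.ne_one_of_orderOf_two ht) _ hbr
    rw [har] at h2
    exact hg h2
  exact hnc (hsr.trans hrt)

end Cfsg.Agent.S0231
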