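import Mathlib
import Cfsg.Statements.S0232
import Cfsg.Agent.S0233
import Cfsg.Agent.S0219
import Cfsg.Agent.Lib.Helper4.Dihedral
import Cfsg.Agent.Lib.Helper4.Invol
import Cfsg.Agent.Lib.Helper4.SE
import Cfsg.Agent.Lib.Helper4.BF
import Cfsg.Agent.Lib.Helper4.Simple
-- import your own Cfsg.Agent.* helpers here

set_option autoImplicit false
open Cfsg Cfsg.Agent.Lib.Helper4

namespace Cfsg.Agent.S0232

universe u

theorem aux : ∀ (N : ℕ) (G : Type u) [Group G] [Finite G], Nat.card G = N → Even N → 2 < N →
    ∃ H : Subgroup G, H ≠ ⊤ ∧ Nat.card G < (Nat.card H) ^ 3 := by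
  intro N
  induction N using Nat.strong_induction_on with
  | _ N ih =>
  intro G _ _ hN heven hgt
  classical
  have heven' : Even (Nat.card G) := hN ▸ heven
  by_cases h2 : ∃ H : Subgroup G, H.index = 2
  · obtain ⟨H, hH⟩ := h2
    refine ⟨H, ?_, ?_⟩
    · intro h; rw [h, Subgroup.index_top] at hH; omega
    · have h1 := H.card_mul_index
      rw [hH, hN] at h1
      rw [hN]
      have h3 : 2 ≤ Nat.card H := by omega
      have h4 : Nat.card H * 4 ≤ Nat.card H ^ 3 := by
        have : Nat.card H * 4 ≤ Nat.card H * (Nat.card H * Nat.card H) :=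
          Nat.mul_le_mul_left _ (by nlinarith)
        calc Nat.card H * 4 ≤ Nat.card H * (Nat.card H * Nat.card H) := this
          _ = Nat.card H ^ 3 := by ring
      omega
  · rw [not_exists] at h2
    by_cases hcz : ∃ t : G, orderOf t = 2 ∧ Subgroup.centralizer ({t} : Set G) = ⊤
    · obtain ⟨t, ht, htop⟩ := hcz
      have htcomm : ∀ g : G, Commute g t := by
        intro g
        have hg : g ∈ Subgroup.centralizer ({t} : Set G) := by rw [htop]; exact Subgroup.mem_top g
        exact Subgroup.mem_centralizer_singleton_iff.mp hg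
      haveI hZn : (Subgroup.zpowers t).Normal := by
        constructor
        intro n hn g
        obtain ⟨k, rfl⟩ := hn
        have h1 : g * t ^ k * g⁻¹ = t ^ k :=
          mul_inv_eq_iff_eq_mul.mpr ((htcomm g).zpow_right k).eq
        rw [h1]; exact Subgroup.zpow_mem_zpowers t k
      have hZcard : Nat.card (Subgroup.zpowers t) = 2 := by rw [Nat.card_zpowers, ht]
      have hQ : 2 * Nat.card (G ⧸ Subgroup.zpowers t) = N := by
        have h1 := (Subgroup.zpowers t).card_mul_index
        rw [hZcard, hN] at h1
        exact h1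
      rcases Nat.even_or_odd (Nat.card (G ⧸ Subgroup.zpowers t)) with hMe | hMo
      · by_cases hM2 : Nat.card (G ⧸ Subgroup.zpowers t) = 2
        · refine ⟨Subgroup.zpowers t, ?_, ?_⟩
          · intro h
            have h1 : Nat.card (Subgroup.zpowers t) = Nat.card (⊤ : Subgroup G) := by rw [h]
            rw [hZcard, Subgroup.card_top, hN] at h1
            omega
          · rw [hZcard, hN]; omega
        · have hMgt : 2 < Nat.card (G ⧸ Subgroup.zpowers t) := by
            obtain ⟨j, hj⟩ := hMe
            omega
          obtain ⟨Hb, hHb, hlt⟩ := ih (Nat.card (G ⧸ Subgroup.zpowers t)) (by omega)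
            (G ⧸ Subgroup.zpowers t) rfl hMe hMgt
          refine ⟨Hb.comap (QuotientGroup.mk' (Subgroup.zpowers t)), ?_, ?_⟩
          · intro h
            apply hHb
            rw [eq_top_iff]
            intro q _
            obtain ⟨g, rfl⟩ := QuotientGroup.mk'_surjective (Subgroup.zpowers t) q
            have hg : g ∈ Hb.comap (QuotientGroup.mk' (Subgroup.zpowers t)) := by
              rw [h]; exact Subgroup.mem_top g
            exact hg
          · have hidx := Subgroup.index_comap_of_surjective Hb
              (QuotientGroup.mk'_surjective (Subgroup.zpowers t))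
            have h1 := (Hb.comap (QuotientGroup.mk' (Subgroup.zpowers t))).card_mul_index
            have h3 := Hb.card_mul_index
            rw [hidx, hN] at h1
            have hipos : 0 < Hb.index := Nat.pos_of_ne_zero Subgroup.index_ne_zero_of_finite
            have h4 : Nat.card (Hb.comap (QuotientGroup.mk' (Subgroup.zpowers t)))
                = 2 * Nat.card Hb := by
              apply Nat.eq_of_mul_eq_mul_right hipos
              rw [h1, mul_assoc, h3, hQ]
            rw [h4, hN]
            have h5 : 2 * Nat.card Hb ^ 3 ≤ (2 * Nat.card Hb) ^ 3 := by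
              have : (2 * Nat.card Hb) ^ 3 = 8 * Nat.card Hb ^ 3 := by ring
              omega
            omega
      · exfalso
        have T : Sylow 2 G := default
        have hTcard : Nat.card (T : Subgroup G) = 2 := by
          obtain ⟨k, hk⟩ := T.2.exists_card_eq
          have hdvd : 2 ∣ Nat.card (T : Subgroup G) := T.dvd_card_of_dvd_card heven'.two_dvd
          have hdvd2 : Nat.card (T : Subgroup G) ∣ Nat.card G := Subgroup.card_subgroup_dvd_card _
          rw [hk] at hdvd hdvd2 ⊢
          rcases k with _ | _ | k
          · simp at hdvd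
          · rfl
          · exfalso
            have h4 : 4 ∣ Nat.card G :=
              Dvd.dvd.trans ⟨2 ^ k, by ring⟩ hdvd2
            rw [hN, ← hQ] at h4
            obtain ⟨j, hj⟩ := hMo
            omega
        have hcyc : IsCyclic (T : Subgroup G) := isCyclic_of_prime_card (p := 2) hTcard
        obtain ⟨H, hH⟩ := Cfsg.Agent.S0219.result heven' T hcyc
        exact h2 H hH
    · rw [not_exists] at hcz
      have hcent : ∀ x : G, orderOf x = 2 → Subgroup.centralizer ({x} : Set G) ≠ ⊤ :=
        fun x hx htop => hcz x ⟨hx, htop⟩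
      have hZodd : Odd (Nat.card (Subgroup.center G)) := by
        by_contra hno
        obtain ⟨z, hz, hz2⟩ := SE.exists_involution_of_not_odd _ hno
        apply hcent z hz2
        rw [eq_top_iff]
        intro g _
        rw [Subgroup.mem_centralizer_singleton_iff]
        exact Subgroup.mem_center_iff.mp hz g
      obtain ⟨t, ht⟩ := exists_prime_orderOf_dvd_card' (G := G) 2 heven'.two_dvd
      obtain ⟨H, hH, hcase⟩ := Cfsg.Agent.S0233.result heven' hZodd
      rcases hcase with h | hlt
      · exact absurd h (h2 H)
      by_cases hc3 : Nat.card G < Nat.card (Subgroup.centralizer ({t} : Set G)) ^ 3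
      · exact ⟨_, hcent t ht, hc3⟩
      refine ⟨H, hH, ?_⟩
      by_contra hh
      rw [not_lt] at hh hc3
      have h3 := Simple.card_le_ninv_mul t ht
      have hnpos := Simple.ninv_pos t ht
      have hcpos : 0 < Nat.card (Subgroup.centralizer ({t} : Set G)) := Nat.card_pos
      have hhpos : 0 < Nat.card H := Nat.card_pos
      have hlt' : 2 * H.index * BF.ninv G ^ 2 < Nat.card G * (Nat.card G + BF.ninv G) := hlt
      have hidx := H.card_mul_index
      generalize Nat.card (Subgroup.centralizer ({t} : Set G)) = c at *
      generalize BF.ninv G = n at *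
      generalize Nat.card H = h at *
      generalize H.index = i at *
      generalize Nat.card G = M at *
      -- c^2 ≤ n
      have a1 : c ^ 2 ≤ n := by
        have : c ^ 2 * c ≤ n * c := by
          calc c ^ 2 * c = c ^ 3 := by ring
            _ ≤ M := hc3
            _ ≤ n * c := h3
        exact Nat.le_of_mul_le_mul_right this hcpos
      -- (c h)^3 ≤ n^3
      have a2 : (c * h) ^ 3 ≤ n ^ 3 := by
        calc (c * h) ^ 3 = c ^ 3 * h ^ 3 := by ring
          _ ≤ c ^ 3 * M := Nat.mul_le_mul_left _ hh
          _ ≤ c ^ 3 * (n * c) := Nat.mul_le_mul_left _ h3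
          _ = n * (c ^ 2) ^ 2 := by ring
          _ ≤ n * n ^ 2 := Nat.mul_le_mul_left _ (Nat.pow_le_pow_left a1 2)
          _ = n ^ 3 := by ring
      have a3 : c * h ≤ n := (Nat.pow_le_pow_iff_left (by norm_num)).mp a2
      have a4 : h ≤ n := le_trans (Nat.le_mul_of_pos_left h hcpos) a3
      have a5 : M * h ≤ n * n := by
        calc M * h ≤ (n * c) * h := Nat.mul_le_mul_right _ h3
          _ = n * (c * h) := by ring
          _ ≤ n * n := Nat.mul_le_mul_left _ a3
      have a6 : n * h ≤ n * n := Nat.mul_le_mul_left _ a4
      have a7 : 2 * (h * i) * n ^ 2 < M * ((M + n) * h) := by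
        calc 2 * (h * i) * n ^ 2 = (2 * i * n ^ 2) * h := by ring
          _ < (M * (M + n)) * h := Nat.mul_lt_mul_of_pos_right hlt' hhpos
          _ = M * ((M + n) * h) := by ring
      rw [hidx] at a7
      have a8 : (M + n) * h ≤ 2 * n ^ 2 := by
        calc (M + n) * h = M * h + n * h := by ring
          _ ≤ n * n + n * n := Nat.add_le_add a5 a6
          _ = 2 * n ^ 2 := by ring
      have a9 : M * ((M + n) * h) ≤ M * (2 * n ^ 2) := Nat.mul_le_mul_left _ a8
      have a10 : 2 * M * n ^ 2 = M * (2 * n ^ 2) := by ring
      omega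


/-- A finite group G of even order greater than 2 has a proper subgroup H with |G| < |H|^3. -/
theorem result {G : Type*} [Group G] [Finite G] (heven : Even (Nat.card G)) (hgt : 2 < Nat.card G) : ∃ H : Subgroup G, H ≠ ⊤ ∧ Nat.card G < (Nat.card H) ^ 3 := by
  exact aux (Nat.card G) G rfl heven hgt

end Cfsg.Agent.S0232
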