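import Mathlib
import Cfsg.Statements.S0234
import Cfsg.Agent.S0219
import Cfsg.Agent.Lib.Helper4.Dihedral
import Cfsg.Agent.Lib.Helper4.Invol
import Cfsg.Agent.Lib.Helper4.SE
import Cfsg.Agent.Lib.Helper4.BF
import Cfsg.Agent.Lib.Helper4.Simple
-- import your own Cfsg.Agent.* helpers here

set_option autoImplicit false
open Cfsg Cfsg.Agent.Lib.Helper4

namespace Cfsg.Agent.S0234

set_option maxRecDepth 100000 in
theorem card_even_inv_five : Fintype.card {σ : Equiv.Perm (Fin 5) //
    Equiv.Perm.sign σ = 1 ∧ σ ≠ 1 ∧ σ * σ = 1} = 15 := by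
  decide +kernel

theorem sixty (N : ℕ) (hdvd : N ∣ 60) (heven : Even N) (hgt : 2 < N) (h4 : N ≠ 4)
    (hmod : N % 4 ≠ 2) (h12 : N ≠ 12) (h20 : N ≠ 20) : N = 60 := by
  have hle := Nat.le_of_dvd (by norm_num) hdvd
  rw [Nat.even_iff] at heven
  interval_cases N <;> omega


/-- In a finite simple group G of even order greater than 2, the number n of involutions satisfies 3n < |G|. -/
theorem result {G : Type*} [Group G] [Finite G] [IsSimpleGroup G] (heven : Even (Nat.card G)) (hgt : 2 < Nat.card G) : 3 * Nat.card {t : G // orderOf t = 2} < Nat.card G := by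
  classical
  have hNpos : 0 < Nat.card G := Nat.card_pos
  obtain ⟨t, ht⟩ := exists_prime_orderOf_dvd_card' (G := G) 2 heven.two_dvd
  have hcenter : Subgroup.center G = ⊥ := by
    rcases (inferInstance : (Subgroup.center G).Normal).eq_bot_or_eq_top with h | h
    · exact h
    · exfalso
      have hn : (Subgroup.zpowers t).Normal := by
        constructor
        intro n hn g
        have hnc : n ∈ Subgroup.center G := by rw [h]; exact Subgroup.mem_top n
        have h0 : g * n * g⁻¹ = n := by
          rw [Subgroup.mem_center_iff] at hnc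
          rw [hnc g, mul_inv_cancel_right]
        rw [h0]; exact hn
      rcases hn.eq_bot_or_eq_top with h1 | h1
      · have h3 : t ∈ (⊥ : Subgroup G) := h1 ▸ Subgroup.mem_zpowers t
        rw [Subgroup.mem_bot] at h3
        rw [h3, orderOf_one] at ht; omega
      · have h3 : Nat.card (Subgroup.zpowers t) = Nat.card (⊤ : Subgroup G) := by rw [h1]
        rw [Nat.card_zpowers, ht, Subgroup.card_top] at h3
        omega
  have hcent : ∀ x : G, orderOf x = 2 → Subgroup.centralizer ({x} : Set G) ≠ ⊤ := by
    intro x hx htop
    have hxc : x ∈ Subgroup.center G := by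
      rw [Subgroup.mem_center_iff]
      intro g
      have hg : g ∈ Subgroup.centralizer ({x} : Set G) := by rw [htop]; exact Subgroup.mem_top g
      exact Subgroup.mem_centralizer_singleton_iff.mp hg
    rw [hcenter, Subgroup.mem_bot] at hxc
    rw [hxc, orderOf_one] at hx; omega
  have h2 : ∀ H : Subgroup G, H.index ≠ 2 := by
    intro H hH
    have hn : H.Normal := Subgroup.normal_of_index_eq_two hH
    rcases hn.eq_bot_or_eq_top with h1 | h1
    · have h3 := H.card_mul_index
      rw [hH, h1, Subgroup.card_bot] at h3
      omega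
    · rw [h1, Subgroup.index_top] at hH; omega
  by_cases h5 : ∃ H : Subgroup G, H ≠ ⊤ ∧ H.index ≤ 5
  · obtain ⟨H, hH, hidx⟩ := h5
    have := Fintype.ofFinite (G ⧸ H)
    have hcardQ : Fintype.card (G ⧸ H) ≤ Fintype.card (Fin 5) := by
      rw [Fintype.card_fin, ← Nat.card_eq_fintype_card]; exact hidx
    obtain ⟨ι⟩ := Function.Embedding.nonempty_of_card_le hcardQ
    let φ : G →* Equiv.Perm (Fin 5) :=
      (Equiv.Perm.viaEmbeddingHom ι).comp (MulAction.toPermHom G (G ⧸ H))
    have hφ : Function.Injective φ :=
      (Equiv.Perm.viaEmbeddingHom_injective ι).comp (Simple.toPermHom_injective H hH)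
    have hsign : ∀ g : G, Equiv.Perm.sign (φ g) = 1 := by
      rcases (MonoidHom.normal_ker (Equiv.Perm.sign.comp φ)).eq_bot_or_eq_top with h | h
      · exfalso
        have hinj : Function.Injective (Equiv.Perm.sign.comp φ) :=
          (MonoidHom.ker_eq_bot_iff _).mp h
        have hle := Nat.card_le_card_of_injective _ hinj
        have h3 : Nat.card ℤˣ = 2 := by rw [Nat.card_eq_fintype_card]; exact Fintype.card_units_int
        omega
      · intro g
        have hg : g ∈ (Equiv.Perm.sign.comp φ).ker := by rw [h]; exact Subgroup.mem_top g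
        exact hg
    have hdvd : Nat.card G ∣ 60 := by
      let φ' : G →* alternatingGroup (Fin 5) :=
        φ.codRestrict _ (fun g => Equiv.Perm.mem_alternatingGroup.mpr (hsign g))
      have hφ' : Function.Injective φ' := by
        intro a b hab
        apply hφ
        have h3 : (φ' a).1 = (φ' b).1 := by rw [hab]
        exact h3
      have h1 := Subgroup.card_dvd_of_injective φ' hφ'
      have h3 : Nat.card (alternatingGroup (Fin 5)) = 60 := by
        rw [nat_card_alternatingGroup, Nat.card_fin]; rfl
      rwa [h3] at h1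
    have h4 : Nat.card G ≠ 4 := by
      intro h
      have hp : IsPGroup 2 G := IsPGroup.of_card (n := 2) (by rw [h]; norm_num)
      haveI : Nontrivial G := by
        rw [← Finite.one_lt_card_iff_nontrivial]; omega
      have h3 := hp.center_nontrivial
      rw [hcenter] at h3
      exact not_nontrivial _ h3
    have hmod : Nat.card G % 4 ≠ 2 := by
      intro h
      have T : Sylow 2 G := default
      have hTcard : Nat.card (T : Subgroup G) = 2 := by
        obtain ⟨k, hk⟩ := T.2.exists_card_eq
        have hdvd1 : 2 ∣ Nat.card (T : Subgroup G) := T.dvd_card_of_dvd_card heven.two_dvd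
        have hdvd2 : Nat.card (T : Subgroup G) ∣ Nat.card G := Subgroup.card_subgroup_dvd_card _
        rw [hk] at hdvd1 hdvd2 ⊢
        rcases k with _ | _ | k
        · simp at hdvd1
        · rfl
        · exfalso
          have h4' : 4 ∣ Nat.card G := Dvd.dvd.trans ⟨2 ^ k, by ring⟩ hdvd2
          omega
      have hcyc : IsCyclic (T : Subgroup G) := isCyclic_of_prime_card (p := 2) hTcard
      obtain ⟨K, hK⟩ := Cfsg.Agent.S0219.result heven T hcyc
      exact h2 K hK
    have h12 : Nat.card G ≠ 12 := by
      intro h
      obtain ⟨K, hK⟩ := Sylow.exists_subgroup_card_pow_prime (G := G) 2 (n := 2)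
        (by rw [h]; norm_num)
      have hKi := K.card_mul_index
      rw [hK, h] at hKi
      have hKidx : K.index = 3 := by omega
      have hKtop : K ≠ ⊤ := by
        intro h'; rw [h', Subgroup.index_top] at hKidx; omega
      have h3 := Simple.card_le_factorial_index K hKtop
      rw [hKidx, h] at h3
      norm_num [Nat.factorial] at h3
    have h20 : Nat.card G ≠ 20 := by
      intro h
      haveI : Fact (Nat.Prime 5) := ⟨by norm_num⟩
      obtain ⟨K, hK⟩ := Sylow.exists_subgroup_card_pow_prime (G := G) 5 (n := 1)
        (by rw [h]; norm_num)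
      have hKi := K.card_mul_index
      rw [hK, h] at hKi
      have hKidx : K.index = 4 := by omega
      have hKtop : K ≠ ⊤ := by
        intro h'; rw [h', Subgroup.index_top] at hKidx; omega
      have h3 := Simple.card_dvd_factorial_index K hKtop
      rw [hKidx, h] at h3
      norm_num [Nat.factorial] at h3
    have h60 := sixty (Nat.card G) hdvd heven hgt h4 hmod h12 h20
    have hφ1 : ∀ s : G, orderOf s = 2 → φ s ≠ 1 := by
      intro s hs h
      exact Dihedral.ne_one_of_orderOf_two hs (hφ (h.trans (map_one φ).symm))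
    have hφ2 : ∀ s : G, orderOf s = 2 → φ s * φ s = 1 := by
      intro s hs
      rw [← map_mul, Dihedral.mul_self_of_orderOf_two hs, map_one]
    let f : {s : G // orderOf s = 2} → {σ : Equiv.Perm (Fin 5) //
        Equiv.Perm.sign σ = 1 ∧ σ ≠ 1 ∧ σ * σ = 1} :=
      fun s => ⟨φ s.1, hsign s.1, hφ1 s.1 s.2, hφ2 s.1 s.2⟩
    have hf : Function.Injective f := by
      intro a b h
      have h3 : (f a).1 = (f b).1 := by rw [h]
      exact Subtype.ext (hφ h3)
    have hn15 : Nat.card {s : G // orderOf s = 2} ≤ 15 := by
      rw [← card_even_inv_five, ← Nat.card_eq_fintype_card]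
      exact Nat.card_le_card_of_injective f hf
    omega
  · have hk : ∀ H : Subgroup G, H ≠ ⊤ → 6 ≤ H.index := by
      intro H hH
      by_contra hlt
      exact h5 ⟨H, hH, by omega⟩
    have hineq := BF.bf_ineq 6 hk h2 hcent
    show 3 * BF.ninv G < Nat.card G
    nlinarith

end Cfsg.Agent.S0234
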