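import Mathlib
import Cfsg.Statements.S0235
-- import your own Cfsg.Agent.* helpers here

set_option autoImplicit false
open Cfsg

namespace Cfsg.Agent.S0235


/-- If x² ≠ 1, the ordered pairs (u, v) of involutions with uv = x correspond bijectively to the involutions t with t x t⁻¹ = x⁻¹ (via (u, v) ↦ u), so the two counts agree. -/
theorem result {G : Type*} [Group G] [Finite G] (x : G) (hx : x ^ 2 ≠ 1) : Nat.card {p : G × G // orderOf p.1 = 2 ∧ orderOf p.2 = 2 ∧ p.1 * p.2 = x} = Nat.card {t : G // orderOf t = 2 ∧ t * x * t⁻¹ = x⁻¹} := by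
  apply Nat.card_congr
  refine ⟨fun p => ⟨p.1.1, p.2.1, ?_⟩, fun t => ⟨(t.1, t.1⁻¹ * x), t.2.1, ?_, ?_⟩, ?_, ?_⟩
  · obtain ⟨⟨u, v⟩, hu, hv, huv⟩ := p
    simp only at hu hv huv ⊢
    have hu' := inv_eq_self_of_orderOf_eq_two hu
    have hv' := inv_eq_self_of_orderOf_eq_two hv
    rw [← huv, mul_inv_rev, hu', hv']
    have huu : u * u = 1 := by rw [← sq, ← hu]; exact pow_orderOf_eq_one u
    calc u * (u * v) * u = (u * u) * v * u := by simp [mul_assoc]
      _ = v * u := by rw [huu, one_mul]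
  · obtain ⟨t, ht, htx⟩ := t
    simp only
    have ht' := inv_eq_self_of_orderOf_eq_two ht
    apply orderOf_eq_prime
    · rw [ht']
      calc (t * x) ^ 2 = (t * x * t⁻¹) * x := by rw [ht']; simp [sq, mul_assoc]
        _ = 1 := by rw [htx]; simp
    · intro h
      apply hx
      have hxt : x = t := by
        calc x = t * (t⁻¹ * x) := by group
          _ = t := by rw [h, mul_one]
      rw [hxt, ← ht]
      exact pow_orderOf_eq_one t
  · simp
  · rintro ⟨⟨u, v⟩, hu, hv, huv⟩
    simp only at hu hv huv ⊢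
    ext
    · rfl
    · simp [← huv]
  · rintro ⟨t, ht, htx⟩
    rfl

end Cfsg.Agent.S0235
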