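import Mathlib
import Cfsg.Statements.S0239
-- import your own Cfsg.Agent.* helpers here

set_option autoImplicit false
open Cfsg

namespace Cfsg.Agent.S0239


/-- If some nontrivial element x of a finite group G is conjugate to x⁻¹, then |G| is even. -/
theorem result {G : Type*} [Group G] [Finite G] (x : G) (hx : x ≠ 1) (hreal : IsConj x x⁻¹) : Even (Nat.card G) := by
  rw [isConj_iff] at hreal
  obtain ⟨g, hg⟩ := hreal
  by_contra hodd
  rw [Nat.not_even_iff_odd] at hodd
  have hgodd : Odd (orderOf g) := hodd.of_dvd_nat (orderOf_dvd_natCard g)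
  obtain ⟨k, hk⟩ := hgodd
  have h2 : Commute (g^2) x := by
    have : g^2 * x * (g^2)⁻¹ = x := by
      calc g^2 * x * (g^2)⁻¹ = g * (g * x * g⁻¹) * g⁻¹ := by simp [pow_two, mul_assoc]
        _ = g * x⁻¹ * g⁻¹ := by rw [hg]
        _ = (g * x * g⁻¹)⁻¹ := by group
        _ = x := by rw [hg, inv_inv]
    exact mul_inv_eq_iff_eq_mul.mp this
  have h3 : Commute (g⁻¹) x := by
    have : g⁻¹ = (g^2)^k := by
      have h1 : g ^ (2*k+1) = 1 := by rw [← hk]; exact pow_orderOf_eq_one g
      rw [← pow_mul]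
      exact inv_eq_of_mul_eq_one_left (by rw [← pow_succ]; exact h1)
    rw [this]; exact h2.pow_left k
  have h4 : Commute g x := by simpa using h3.inv_left
  have hxx : x = x⁻¹ := by
    rw [← hg, h4.eq]; group
  have hx2 : orderOf x = 2 := orderOf_eq_prime (by rw [sq]; nth_rewrite 2 [hxx]; simp) hx
  have : 2 ∣ Nat.card G := hx2 ▸ orderOf_dvd_natCard x
  exact (Nat.not_even_iff_odd.mpr hodd) (even_iff_two_dvd.mpr this)

end Cfsg.Agent.S0239
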