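import Mathlib
import Cfsg.Statements.S0240
-- import your own Cfsg.Agent.* helpers here

set_option autoImplicit false
open Cfsg

namespace Cfsg.Agent.S0240


/-- Let G be a finite group with n involutions and H a subgroup with |H|·(n+1) > |G|. Then some nontrivial h ∈ H is strongly real in G: an involution t of G satisfies t h t⁻¹ = h⁻¹. -/
theorem result {G : Type*} [Group G] [Finite G] (H : Subgroup G) (hH : Nat.card G < Nat.card H * (Nat.card {t : G // orderOf t = 2} + 1)) : ∃ h : G, h ∈ H ∧ h ≠ 1 ∧ ∃ t : G, orderOf t = 2 ∧ t * h * t⁻¹ = h⁻¹ := by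
  classical
  have hsq : ∀ t : G, orderOf t = 2 → t * t = 1 := by
    intro t ht
    rw [← sq, ← ht]; exact pow_orderOf_eq_one t
  have hne : ∀ t : G, orderOf t = 2 → t ≠ 1 := by
    intro t ht h
    rw [h, orderOf_one] at ht
    omega
  let e : Option {t : G // orderOf t = 2} → G := fun o => match o with
    | none => 1
    | some t => t.1
  have he_inj : Function.Injective e := by
    intro a b hab
    cases a with
    | none =>
      cases b with
      | none => rfl
      | some t => exact absurd hab.symm (hne t.1 t.2)
    | some s =>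
      cases b with
      | none => exact absurd hab (hne s.1 s.2)
      | some t => exact congrArg some (Subtype.ext hab)
  have he_sq : ∀ a, e a * e a = 1 := by
    intro a
    cases a with
    | none => simp [e]
    | some s => exact hsq s.1 s.2
  have he_inv : ∀ a, (e a)⁻¹ = e a := fun a => inv_eq_of_mul_eq_one_left (he_sq a)
  have := Fintype.ofFinite (G ⧸ H)
  have := Fintype.ofFinite (Option {t : G // orderOf t = 2})
  have hcard : Fintype.card (G ⧸ H) < Fintype.card (Option {t : G // orderOf t = 2}) := by
    rw [← Nat.card_eq_fintype_card, ← Nat.card_eq_fintype_card, Finite.card_option]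
    have h1 := Subgroup.card_eq_card_quotient_mul_card_subgroup H
    rw [h1] at hH
    by_contra hcon
    rw [not_lt] at hcon
    have : Nat.card ↥H * (Nat.card { t : G // orderOf t = 2 } + 1) ≤ Nat.card (G ⧸ H) * Nat.card ↥H := by
      rw [mul_comm]
      exact Nat.mul_le_mul_right _ hcon
    omega
  obtain ⟨a, b, hab, hf⟩ := Fintype.exists_ne_map_eq_of_card_lt (fun o => (QuotientGroup.mk (e o) : G ⧸ H)) hcard
  have hmem : (e a)⁻¹ * e b ∈ H := QuotientGroup.eq.mp hf
  rw [he_inv a] at hmem
  refine ⟨e a * e b, hmem, ?_, ?_⟩
  · intro h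
    apply hab
    apply he_inj
    have : e a = (e b)⁻¹ := eq_inv_of_mul_eq_one_left h
    rw [this, he_inv b]
  · have hinv : (e a * e b)⁻¹ = e b * e a := by rw [mul_inv_rev, he_inv a, he_inv b]
    cases a with
    | none =>
      cases b with
      | none => exact absurd rfl hab
      | some t =>
        refine ⟨t.1, t.2, ?_⟩
        rw [hinv]
        show t.1 * (1 * t.1) * t.1⁻¹ = t.1 * 1
        simp
    | some s =>
      refine ⟨s.1, s.2, ?_⟩
      rw [hinv]
      have hs : s.1⁻¹ = s.1 := he_inv (some s)
      rw [hs]
      show s.1 * (s.1 * e b) * s.1 = e b * s.1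
      rw [← mul_assoc, hsq s.1 s.2, one_mul]

end Cfsg.Agent.S0240
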