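import Mathlib
import Cfsg.Statements.S0241
-- import your own Cfsg.Agent.* helpers here

set_option autoImplicit false
open Cfsg

namespace Cfsg.Agent.S0241


/-- If x ≠ 1 is conjugate to x⁻¹ in a finite group G and |C_G(x)| is odd, then some involution t satisfies t x t⁻¹ = x⁻¹. -/
theorem result {G : Type*} [Group G] [Finite G] (x : G) (hx : x ≠ 1) (hreal : IsConj x x⁻¹) (hodd : Odd (Nat.card (Subgroup.centralizer ({x} : Set G)))) : ∃ t : G, orderOf t = 2 ∧ t * x * t⁻¹ = x⁻¹ := by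
  rw [isConj_iff] at hreal
  obtain ⟨g, hg⟩ := hreal
  have h2 : Commute (g^2) x := by
    have : g^2 * x * (g^2)⁻¹ = x := by
      calc g^2 * x * (g^2)⁻¹ = g * (g * x * g⁻¹) * g⁻¹ := by simp [pow_two, mul_assoc]
        _ = g * x⁻¹ * g⁻¹ := by rw [hg]
        _ = (g * x * g⁻¹)⁻¹ := by group
        _ = x := by rw [hg, inv_inv]
    exact mul_inv_eq_iff_eq_mul.mp this
  have hN : Nat.card G ≠ 0 := Nat.card_pos.ne'
  obtain ⟨a, m, hm, hNam⟩ := Nat.exists_eq_two_pow_mul_odd hN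
  obtain ⟨j, hj⟩ := hm
  -- t = g^m inverts x
  have hcj : Commute ((g^2)^j) x := h2.pow_left j
  have ht : g^m * x * (g^m)⁻¹ = x⁻¹ := by
    have e1 : g ^ m = (g^2)^j * g := by rw [hj, pow_succ, pow_mul]
    rw [e1]
    calc (g ^ 2) ^ j * g * x * ((g ^ 2) ^ j * g)⁻¹ = (g ^ 2) ^ j * (g * x * g⁻¹) * ((g ^ 2) ^ j)⁻¹ := by group
      _ = (g ^ 2) ^ j * x⁻¹ * ((g ^ 2) ^ j)⁻¹ := by rw [hg]
      _ = x⁻¹ := by rw [hcj.inv_right.eq]; group
  have ht2c : Commute ((g^m)^2) x := by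
    rw [← pow_mul, mul_comm, pow_mul]; exact h2.pow_left m
  have ht2mem : (g^m)^2 ∈ Subgroup.centralizer ({x} : Set G) :=
    Subgroup.mem_centralizer_singleton_iff.mpr ht2c.eq
  have hp1 : ((g^m)^2) ^ Nat.card (Subgroup.centralizer ({x} : Set G)) = 1 := by
    have := pow_card_eq_one' (G := Subgroup.centralizer ({x} : Set G)) (x := ⟨(g^m)^2, ht2mem⟩)
    exact congrArg Subtype.val this
  have hp2 : ((g^m)^2) ^ (2 ^ a) = 1 := by
    have e1 : ((g^m)^2)^(2^a) = (g^(2^a*m))^2 := by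
      rw [← pow_mul, ← pow_mul, ← pow_mul]; congr 1; ring
    rw [e1, ← hNam, pow_card_eq_one', one_pow]
  have hcop : Nat.gcd (Nat.card (Subgroup.centralizer ({x} : Set G))) (2 ^ a) = 1 := by
    apply Nat.Coprime.pow_right
    exact Nat.coprime_two_right.mpr hodd
  have ht2 : (g^m)^2 = 1 := by
    have := pow_gcd_eq_one.mpr ⟨hp1, hp2⟩
    rwa [hcop, pow_one] at this
  have ht1 : g^m ≠ 1 := by
    intro h
    rw [h] at ht
    have hxx : x = x⁻¹ := by simpa using ht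
    have hx2 : orderOf x = 2 := orderOf_eq_prime (by rw [sq]; nth_rewrite 2 [hxx]; simp) hx
    have hxmem : x ∈ Subgroup.centralizer ({x} : Set G) := Subgroup.mem_centralizer_singleton_iff.mpr rfl
    have hd : orderOf (⟨x, hxmem⟩ : Subgroup.centralizer ({x} : Set G)) ∣ Nat.card (Subgroup.centralizer ({x} : Set G)) := orderOf_dvd_natCard _
    rw [Subgroup.orderOf_mk, hx2] at hd
    exact (Nat.not_even_iff_odd.mpr hodd) (even_iff_two_dvd.mpr hd)
  exact ⟨g^m, orderOf_eq_prime ht2 ht1, ht⟩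

end Cfsg.Agent.S0241
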