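import Cfsg.Statements.S0250
import Mathlib
import Cfsg.Agent.Lib.Helper5.PSL2Perm

set_option autoImplicit false
open Cfsg

namespace Cfsg.Agent.S0250

/-- SL_2(2) is isomorphic to S_3. -/
theorem result {F : Type*} [Field F] [Fintype F] (hF : Fintype.card F = 2) : Nonempty (Matrix.SpecialLinearGroup (Fin 2) F ≃* Equiv.Perm (Fin 3)) := by
  have hc := Cfsg.Agent.Lib.Helper5.SL2Card.card_center_SL_two hF
  have e1 : Nat.gcd 2 (2 - 1) = 1 := by decide
  rw [e1] at hc
  have hbot : Subgroup.center (Matrix.SpecialLinearGroup (Fin 2) F) = ⊥ :=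
    Subgroup.eq_bot_of_card_eq _ hc
  let φ : Matrix.SpecialLinearGroup (Fin 2) F →* Equiv.Perm (Fin (2 + 1)) :=
    (Cfsg.Agent.Lib.Helper5.PSL2Perm.toPerm hF).comp
      (QuotientGroup.mk' (Subgroup.center (Matrix.SpecialLinearGroup (Fin 2) F)))
  have hinj : Function.Injective φ := by
    apply (Cfsg.Agent.Lib.Helper5.PSL2Perm.toPerm_injective hF).comp
    rw [← MonoidHom.ker_eq_bot_iff, QuotientGroup.ker_mk', hbot]
  have hcard : Nat.card (Equiv.Perm (Fin (2 + 1))) ≤ Nat.card (Matrix.SpecialLinearGroup (Fin 2) F) := by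
    rw [Cfsg.Agent.Lib.Helper5.SL2Card.card_SL_two hF, Nat.card_eq_fintype_card, Fintype.card_perm,
      Fintype.card_fin]
    decide
  exact ⟨MulEquiv.ofBijective φ (hinj.bijective_of_nat_card_le hcard)⟩

end Cfsg.Agent.S0250
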