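import Cfsg.Statements.S0251
import Mathlib
import Cfsg.Agent.Lib.Helper5.PSL2Perm

set_option autoImplicit false
open Cfsg

namespace Cfsg.Agent.S0251

/-- PSL_2(3) is isomorphic to A_4. -/
theorem result {F : Type*} [Field F] [Fintype F] (hF : Fintype.card F = 3) : Nonempty (Matrix.ProjectiveSpecialLinearGroup (Fin 2) F ≃* alternatingGroup (Fin 4)) := by
  apply Cfsg.Agent.Lib.Helper5.PSL2Perm.equiv_alternating hF
  have h := Cfsg.Agent.Lib.Helper5.PSL2Perm.card_range_mul hF
  have e1 : Nat.gcd 2 (3 - 1) = 2 := by decide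
  have e2 : 3 * (3 ^ 2 - 1) = 24 := by norm_num
  rw [e1, e2] at h
  have hfac : (3 + 1).factorial = 24 := by decide
  rw [hfac]
  omega

end Cfsg.Agent.S0251
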