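import Cfsg.Statements.S0258
import Mathlib
import Cfsg.Agent.Lib.Helper5.GL2Sylow
import Cfsg.Agent.Lib.Helper5.SL2Card

set_option autoImplicit false
open Cfsg

namespace Cfsg.Agent.S0258

open Cfsg.Agent.Lib.Helper5.GL2Sylow

/-- GL_2(q), q a power of the prime p, has exactly q + 1 Sylow p-subgroups. -/
theorem result {F : Type*} [Field F] [Fintype F] {q : ℕ} (hF : Fintype.card F = q) (p : ℕ) [Fact p.Prime] [CharP F p] : Nat.card (Sylow p (Matrix.GeneralLinearGroup (Fin 2) F)) = q + 1 := by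
  classical
  have hq : 2 ≤ q := hF ▸ Cfsg.Agent.Lib.Helper5.SL2Card.two_le_card
  have h2 : Nat.card (Sylow p (Matrix.GeneralLinearGroup (Fin 2) F)) = (Subgroup.normalizer
    ((U₀ (F := F) p : Subgroup (Matrix.GeneralLinearGroup (Fin 2) F)) : Set (Matrix.GeneralLinearGroup (Fin 2) F))).index :=
    Sylow.card_eq_index_normalizer (U₀ (F := F) p)
  rw [coe_U₀, normalizer_U] at h2
  have h4 := Subgroup.card_mul_index (B F)
  rw [card_B hF, ← h2, Cfsg.Agent.Lib.Helper5.SL2Card.card_GL_two hF] at h4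
  have e1 : (q ^ 2 - 1) * (q ^ 2 - q) = q * (q - 1) ^ 2 * (q + 1) := by
    obtain ⟨k, rfl⟩ : ∃ k, q = k + 1 := ⟨q - 1, by omega⟩
    have a1 : (k + 1) ^ 2 - 1 = k * (k + 2) := by
      have : (k + 1) ^ 2 = k * (k + 2) + 1 := by ring
      omega
    have a2 : (k + 1) ^ 2 - (k + 1) = k * (k + 1) := by
      have : (k + 1) ^ 2 = k * (k + 1) + (k + 1) := by ring
      omega
    rw [a1, a2, Nat.add_sub_cancel]
    ring
  rw [e1] at h4
  have hpos : 0 < q * (q - 1) ^ 2 := by
    have : 0 < q - 1 := by omega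
    positivity
  exact Nat.eq_of_mul_eq_mul_left hpos h4

end Cfsg.Agent.S0258
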