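import Cfsg.Statements.S0259
import Mathlib
import Cfsg.Agent.Lib.Helper5.GL2Sylow

set_option autoImplicit false
open Cfsg

namespace Cfsg.Agent.S0259

open Cfsg.Agent.Lib.Helper5.GL2Sylow

/-- Distinct Sylow p-subgroups of GL_2(q), p the characteristic, intersect trivially. -/
theorem result {F : Type*} [Field F] [Fintype F] (p : ℕ) [Fact p.Prime] [CharP F p] (P Q : Sylow p (Matrix.GeneralLinearGroup (Fin 2) F)) (h : P ≠ Q) : (P : Subgroup (Matrix.GeneralLinearGroup (Fin 2) F)) ⊓ (Q : Subgroup (Matrix.GeneralLinearGroup (Fin 2) F)) = ⊥ := by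
  classical
  obtain ⟨g, hg⟩ := exists_conj p P
  obtain ⟨k, hk⟩ := exists_conj p Q
  rw [eq_bot_iff]
  intro x hx
  rw [Subgroup.mem_bot]
  by_contra hx1
  obtain ⟨hxP, hxQ⟩ := Subgroup.mem_inf.mp hx
  have h1 := (hg x).mp hxP
  have h2 := (hk x).mp hxQ
  obtain ⟨c, hc⟩ := (mem_U_iff _).mp h1
  have hc0 : c ≠ 0 := by
    rintro rfl
    rw [tri_one] at hc
    apply hx1
    have : x = g * (g⁻¹ * x * g) * g⁻¹ := by group
    rw [this, hc]; group
  have h3 : (g⁻¹ * k)⁻¹ * tri 1 1 c * (g⁻¹ * k) ∈ U F := by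
    rw [← hc]
    have : (g⁻¹ * k)⁻¹ * (g⁻¹ * x * g) * (g⁻¹ * k) = k⁻¹ * x * k := by group
    rw [this]
    exact h2
  have hB := fusion c hc0 _ h3
  have hN : g⁻¹ * k ∈ Subgroup.normalizer ((U F : Subgroup (Matrix.GeneralLinearGroup (Fin 2) F))
      : Set (Matrix.GeneralLinearGroup (Fin 2) F)) := by
    rw [normalizer_U]; exact hB
  rw [Subgroup.mem_normalizer_iff] at hN
  apply h
  apply Sylow.ext
  ext y
  have e1 : y ∈ (P : Subgroup (Matrix.GeneralLinearGroup (Fin 2) F)) ↔ g⁻¹ * y * g ∈ U F := hg y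
  have e2 : y ∈ (Q : Subgroup (Matrix.GeneralLinearGroup (Fin 2) F)) ↔ k⁻¹ * y * k ∈ U F := hk y
  rw [e1, e2, hN (k⁻¹ * y * k)]
  have : g⁻¹ * k * (k⁻¹ * y * k) * (g⁻¹ * k)⁻¹ = g⁻¹ * y * g := by group
  rw [this]

end Cfsg.Agent.S0259
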