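import Cfsg.Statements.S0264
import Mathlib
import Cfsg.Agent.Lib.Helper5.SLGen

set_option autoImplicit false
open Cfsg

namespace Cfsg.Agent.S0264

section aux

open Matrix Matrix.SpecialLinearGroup
open scoped MatrixGroups commutatorElement

variable {F : Type*} [Field F]

lemma transvection_two_mem (a : F) (ha0 : a ≠ 0) (ha1 : a ≠ 1) {i j : Fin 2} (hij : i ≠ j) (c : F) :
    toGL (SpecialLinearGroup.transvection hij c) ∈ commutator (GL (Fin 2) F) := by
  have ha1' : a - 1 ≠ 0 := sub_ne_zero_of_ne ha1
  set b : F := c / (a - 1) with hb
  have hbc : a * b = c + b := by rw [hb]; field_simp; ring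
  let d : GL (Fin 2) F := GeneralLinearGroup.mkOfDetNeZero
    (Matrix.diagonal (fun k => if k = i then a else 1)) (by
      rw [Matrix.det_diagonal, Fin.prod_univ_two]
      fin_cases i <;> simp [ha0])
  have key : toGL (SpecialLinearGroup.transvection hij c) =
      ⁅d, toGL (SpecialLinearGroup.transvection hij b)⁆ := by
    rw [commutatorElement_def, eq_mul_inv_iff_mul_eq, eq_mul_inv_iff_mul_eq]
    apply Units.ext
    show ((1 : Matrix (Fin 2) (Fin 2) F) + single i j c) * (1 + single i j b) *
      Matrix.diagonal (fun k => if k = i then a else 1) =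
      Matrix.diagonal (fun k => if k = i then a else 1) * (1 + single i j b)
    ext k l
    fin_cases i <;> fin_cases j <;> first | exact absurd rfl hij | skip
    · fin_cases k <;> fin_cases l <;>
        simp [Matrix.mul_apply, Fin.sum_univ_two, Matrix.single_apply, Matrix.one_apply]
      linear_combination (-1 : F) * hbc
    · fin_cases k <;> fin_cases l <;>
        simp [Matrix.mul_apply, Fin.sum_univ_two, Matrix.single_apply, Matrix.one_apply]
      linear_combination (-1 : F) * hbc
  rw [key]
  exact Subgroup.commutator_mem_commutator (Subgroup.mem_top _) (Subgroup.mem_top _)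

end aux

/-- GL_n(F)' = SL_n(F) (as the kernel of det), for every field F and every n, except n = 2 over the field of two elements. -/
theorem result {F : Type*} [Field F] (n : ℕ) (h : n = 2 → ∃ a : F, a ≠ 0 ∧ a ≠ 1) : commutator (Matrix.GeneralLinearGroup (Fin n) F) = (Matrix.GeneralLinearGroup.det : Matrix.GeneralLinearGroup (Fin n) F →* Fˣ).ker := by
  apply le_antisymm (Abelianization.commutator_subset_ker _)
  intro g hg
  rw [MonoidHom.mem_ker] at hg
  have hdet : (g : Matrix (Fin n) (Fin n) F).det = 1 := by
    have := congrArg Units.val hg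
    simpa using this
  obtain ⟨s, rfl⟩ : ∃ s : Matrix.SpecialLinearGroup (Fin n) F,
      g = Matrix.SpecialLinearGroup.toGL s :=
    ⟨⟨(g : Matrix (Fin n) (Fin n) F), hdet⟩, Units.ext rfl⟩
  rcases Nat.lt_or_ge n 2 with hn | hn
  · have : Subsingleton (Fin n) := by
      rw [Fin.subsingleton_iff_le_one]
      omega
    have hs : s = 1 := by
      ext i j
      have hij : i = j := Subsingleton.elim i j
      subst hij
      have h1 := s.det_coe
      rw [Matrix.det_eq_elem_of_subsingleton _ i] at h1
      simp [h1]
    rw [hs, map_one]
    exact one_mem _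
  · have hnt : Nontrivial (Fin n) := Fin.nontrivial_iff_two_le.mpr hn
    refine Cfsg.Agent.Lib.Helper5.SLGen.transvection_induction
      (fun A => Matrix.SpecialLinearGroup.toGL A ∈ commutator (Matrix.GeneralLinearGroup (Fin n) F))
      (fun i j hij c => ?_) (fun A B hA hB => by simpa [map_mul] using mul_mem hA hB) s
    rcases Nat.eq_or_lt_of_le hn with hn2 | hn3
    · subst hn2
      obtain ⟨a, ha0, ha1⟩ := h rfl
      exact transvection_two_mem a ha0 ha1 hij c
    · obtain ⟨k, hk⟩ : ∃ k, k ≠ i ∧ k ≠ j := by
        by_contra hcon
        push Not at hcon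
        have hsub : (Finset.univ : Finset (Fin n)) ⊆ {i, j} := by
          intro k _
          by_cases hki : k = i
          · simp [hki]
          · simp [hcon k hki]
        have h1 := Finset.card_le_card hsub
        have h2 : ({i, j} : Finset (Fin n)).card ≤ 2 := Finset.card_le_two
        rw [Finset.card_univ, Fintype.card_fin] at h1
        omega
      rw [Cfsg.Agent.Lib.Helper5.SLGen.transvection_eq_commutator hij (Ne.symm hk.1) hk.2 c,
        map_commutatorElement]
      exact Subgroup.commutator_mem_commutator (Subgroup.mem_top _) (Subgroup.mem_top _)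

end Cfsg.Agent.S0264
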