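import Cfsg.Statements.S0266
import Mathlib
import Cfsg.Agent.Lib.Helper5.ProjLine

set_option autoImplicit false
open Cfsg

namespace Cfsg.Agent.S0266

open Cfsg.Agent.Lib.Helper5.ProjLine

variable {F : Type*} [Field F]

theorem pgl_frame (a b c : Projectivization F (Fin 2 → F)) (hab : a ≠ b) (hac : a ≠ c)
    (hbc : b ≠ c) :
    ∃ g : Matrix.ProjGenLinGroup (Fin 2) F, g • P0 F = a ∧ g • P1 F = b ∧ g • P2 F = c := by
  obtain ⟨u, v, hu, hv, huv, hD, rfl, rfl, rfl⟩ := exists_frame a b c hab hac hbc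
  let m : Matrix.GeneralLinearGroup (Fin 2) F :=
    Matrix.GeneralLinearGroup.mkOfDetNeZero (colMat u v) (by rw [colMat_det]; exact hD)
  have hm : ∀ w : Fin 2 → F, m • w = Matrix.mulVec (colMat u v) w := fun w => rfl
  refine ⟨Matrix.ProjGenLinGroup.mk m, ?_, ?_, ?_⟩
  · show Matrix.ProjGenLinGroup.mk m • Projectivization.mk F ![1, 0] e0_ne = _
    rw [Projectivization.PGL.mk_smul_mk]
    congr 1
    rw [hm, colMat_e0]
  · show Matrix.ProjGenLinGroup.mk m • Projectivization.mk F ![0, 1] e1_ne = _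
    rw [Projectivization.PGL.mk_smul_mk]
    congr 1
    rw [hm, colMat_e1]
  · show Matrix.ProjGenLinGroup.mk m • Projectivization.mk F ![1, 1] e2_ne = _
    rw [Projectivization.PGL.mk_smul_mk]
    congr 1
    rw [hm, colMat_e2]

theorem pgl_stab_std (g : Matrix.ProjGenLinGroup (Fin 2) F) (h0 : g • P0 F = P0 F)
    (h1 : g • P1 F = P1 F) (h2 : g • P2 F = P2 F) : g = 1 := by
  induction g using Matrix.ProjGenLinGroup.induction_on with | mk m =>
  have hm : ∀ w : Fin 2 → F, m • w = Matrix.mulVec (m : Matrix (Fin 2) (Fin 2) F) w := fun w => rfl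
  have hne : ∀ w : Fin 2 → F, w ≠ 0 → Matrix.mulVec (m : Matrix (Fin 2) (Fin 2) F) w ≠ 0 :=
    fun w hw => by rw [← hm]; exact (smul_ne_zero_iff_ne m).mpr hw
  obtain ⟨e10, e01, e00⟩ := scalar_of_fix (m : Matrix (Fin 2) (Fin 2) F)
    (fun _ => h0) (fun _ => h1) (fun _ => h2) (hne _ e0_ne) (hne _ e1_ne) (hne _ e2_ne)
  rw [Matrix.ProjGenLinGroup.mk_eq_one, Matrix.GeneralLinearGroup.mem_center_iff_val_mem_range_scalar]
  refine ⟨(m : Matrix (Fin 2) (Fin 2) F) 0 0, ?_⟩
  ext i j
  fin_cases i <;> fin_cases j <;> simp [e10, e01, e00]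

/-- PGL_2(F) is sharply 3-transitive on the projective line: it is 3-transitive and the stabiliser of three distinct points is trivial. -/
theorem result {F : Type*} [Field F] : MulAction.IsMultiplyPretransitive (Matrix.ProjGenLinGroup (Fin 2) F) (Projectivization F (Fin 2 → F)) 3 ∧ ∀ (g : Matrix.ProjGenLinGroup (Fin 2) F) (a b c : Projectivization F (Fin 2 → F)), a ≠ b → a ≠ c → b ≠ c → g • a = a → g • b = b → g • c = c → g = 1 := by
  constructor
  · rw [MulAction.isMultiplyPretransitive_iff]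
    intro x y
    obtain ⟨g₁, h0, h1, h2⟩ := pgl_frame (x 0) (x 1) (x 2) (x.injective.ne (by decide))
      (x.injective.ne (by decide)) (x.injective.ne (by decide))
    obtain ⟨g₂, k0, k1, k2⟩ := pgl_frame (y 0) (y 1) (y 2) (y.injective.ne (by decide))
      (y.injective.ne (by decide)) (y.injective.ne (by decide))
    refine ⟨g₂ * g₁⁻¹, ?_⟩
    ext i
    rw [Function.Embedding.smul_apply]
    fin_cases i
    · show (g₂ * g₁⁻¹) • x 0 = y 0
      rw [← h0, mul_smul, inv_smul_smul, k0]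
    · show (g₂ * g₁⁻¹) • x 1 = y 1
      rw [← h1, mul_smul, inv_smul_smul, k1]
    · show (g₂ * g₁⁻¹) • x 2 = y 2
      rw [← h2, mul_smul, inv_smul_smul, k2]
  · intro g a b c hab hac hbc ha hb hc
    obtain ⟨h, h0, h1, h2⟩ := pgl_frame a b c hab hac hbc
    have key : h⁻¹ * g * h = 1 := by
      apply pgl_stab_std
      · rw [mul_smul, mul_smul, h0, ha, ← h0, inv_smul_smul]
      · rw [mul_smul, mul_smul, h1, hb, ← h1, inv_smul_smul]
      · rw [mul_smul, mul_smul, h2, hc, ← h2, inv_smul_smul]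
    have e : g = h * (h⁻¹ * g * h) * h⁻¹ := by group
    rw [e, key]
    group

end Cfsg.Agent.S0266
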