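import Cfsg.Statements.S0267
import Mathlib
import Cfsg.Agent.Lib.Helper5.ProjLine

set_option autoImplicit false
open Cfsg

namespace Cfsg.Agent.S0267

open Cfsg.Agent.Lib.Helper5.ProjLine

variable {F : Type*} [Field F]

theorem sl_smul (g : Matrix.SpecialLinearGroup (Fin 2) F) (w : Fin 2 → F) (hw : w ≠ 0) :
    ∃ h, g • Projectivization.mk F w hw
      = Projectivization.mk F (Matrix.mulVec (g : Matrix (Fin 2) (Fin 2) F) w) h :=
  ⟨(smul_ne_zero_iff_ne g).mpr hw, rfl⟩

theorem sl_frame [Fintype F] (h2 : ringChar F = 2) (a b c : Projectivization F (Fin 2 → F))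
    (hab : a ≠ b) (hac : a ≠ c) (hbc : b ≠ c) :
    ∃ g : Matrix.SpecialLinearGroup (Fin 2) F, g • P0 F = a ∧ g • P1 F = b ∧ g • P2 F = c := by
  obtain ⟨u, v, hu, hv, huv, hD, rfl, rfl, rfl⟩ := exists_frame a b c hab hac hbc
  obtain ⟨s, hs⟩ := FiniteField.isSquare_of_char_two h2 (u 0 * v 1 - u 1 * v 0)
  have hs0 : s ≠ 0 := by
    rintro rfl
    rw [mul_zero] at hs
    exact hD hs
  have hdet : (s⁻¹ • colMat u v).det = 1 := by
    rw [Matrix.det_smul, colMat_det, hs, Fintype.card_fin]
    field_simp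
  let g : Matrix.SpecialLinearGroup (Fin 2) F := ⟨s⁻¹ • colMat u v, hdet⟩
  have hg : ∀ (w : Fin 2 → F) (hw : w ≠ 0) (w' : Fin 2 → F) (hw' : w' ≠ 0),
      Matrix.mulVec (colMat u v) w = w' →
      g • Projectivization.mk F w hw = Projectivization.mk F w' hw' := by
    intro w hw w' hw' hww
    obtain ⟨h, e⟩ := sl_smul g w hw
    rw [e, Projectivization.mk_eq_mk_iff]
    refine ⟨Units.mk0 s⁻¹ (inv_ne_zero hs0), ?_⟩
    show s⁻¹ • w' = Matrix.mulVec (s⁻¹ • colMat u v) w
    rw [Matrix.smul_mulVec, hww]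
  exact ⟨g, hg _ _ _ _ (colMat_e0 u v), hg _ _ _ _ (colMat_e1 u v), hg _ _ _ _ (colMat_e2 u v)⟩

theorem P0_ne_P1 : P0 F ≠ P1 F := by
  intro h
  have := (mk_eq_mk_iff_det _ _ e0_ne e1_ne).mp h
  simp at this

theorem P0_ne_P2 : P0 F ≠ P2 F := by
  intro h
  have := (mk_eq_mk_iff_det _ _ e0_ne e2_ne).mp h
  simp at this

theorem P1_ne_P2 : P1 F ≠ P2 F := by
  intro h
  have := (mk_eq_mk_iff_det _ _ e1_ne e2_ne).mp h
  simp at this

/-- SL_2(q) is 3-transitive on the q+1 points of the projective line if and only if q is even. -/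
theorem result {F : Type*} [Field F] [Fintype F] : MulAction.IsMultiplyPretransitive (Matrix.SpecialLinearGroup (Fin 2) F) (Projectivization F (Fin 2 → F)) 3 ↔ ringChar F = 2 := by
  constructor
  · intro h3
    by_contra hchar
    obtain ⟨d, hd⟩ := FiniteField.exists_nonsquare hchar
    have hd0 : d ≠ 0 := by
      rintro rfl
      exact hd ⟨0, by simp⟩
    have e3_ne : (![1, d] : Fin 2 → F) ≠ 0 := by
      intro h
      have := congrFun h 0
      simp at this
    let P3 : Projectivization F (Fin 2 → F) := Projectivization.mk F ![1, d] e3_ne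
    have h03 : P0 F ≠ P3 := by
      intro h
      have := (mk_eq_mk_iff_det _ _ e0_ne e3_ne).mp h
      simp at this
      exact hd0 this
    have h13 : P1 F ≠ P3 := by
      intro h
      have := (mk_eq_mk_iff_det _ _ e1_ne e3_ne).mp h
      simp at this
    have h01 := P0_ne_P1 (F := F)
    have h02 := P0_ne_P2 (F := F)
    have h12 := P1_ne_P2 (F := F)
    have h10 := h01.symm
    have h20 := h02.symm
    have h21 := h12.symm
    have h30 := h03.symm
    have h31 := h13.symm
    let x : Fin 3 ↪ Projectivization F (Fin 2 → F) := ⟨![P0 F, P1 F, P2 F], by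
      intro i j h
      fin_cases i <;> fin_cases j <;> simp_all⟩
    let y : Fin 3 ↪ Projectivization F (Fin 2 → F) := ⟨![P0 F, P1 F, P3], by
      intro i j h
      fin_cases i <;> fin_cases j <;> simp_all⟩
    rw [MulAction.isMultiplyPretransitive_iff] at h3
    obtain ⟨g, hg⟩ := h3 x y
    have g0 : g • P0 F = P0 F := by
      have := congrArg (fun f : Fin 3 ↪ Projectivization F (Fin 2 → F) => f 0) hg
      simp only [Function.Embedding.smul_apply] at this
      exact this
    have g1 : g • P1 F = P1 F := by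
      have := congrArg (fun f : Fin 3 ↪ Projectivization F (Fin 2 → F) => f 1) hg
      simp only [Function.Embedding.smul_apply] at this
      exact this
    have g2 : g • P2 F = P3 := by
      have := congrArg (fun f : Fin 3 ↪ Projectivization F (Fin 2 → F) => f 2) hg
      simp only [Function.Embedding.smul_apply] at this
      exact this
    obtain ⟨k0, f0⟩ := sl_smul g ![1, 0] e0_ne
    obtain ⟨k1, f1⟩ := sl_smul g ![0, 1] e1_ne
    obtain ⟨k2, f2⟩ := sl_smul g ![1, 1] e2_ne
    have q0 := (mk_eq_mk_iff_det _ _ k0 e0_ne).mp (f0.symm.trans g0)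
    have q1 := (mk_eq_mk_iff_det _ _ k1 e1_ne).mp (f1.symm.trans g1)
    have q2 := (mk_eq_mk_iff_det _ _ k2 e3_ne).mp (f2.symm.trans g2)
    simp [Matrix.mulVec, dotProduct, Fin.sum_univ_two] at q0 q1 q2
    have hdet := g.det_coe
    rw [Matrix.det_fin_two, q0, q1] at hdet
    rw [q0, q1] at q2
    simp at hdet q2
    apply hd
    set a := (g : Matrix (Fin 2) (Fin 2) F) 0 0 with ha
    set e := (g : Matrix (Fin 2) (Fin 2) F) 1 1 with he
    have ha0 : a ≠ 0 := by
      rintro h
      rw [h, zero_mul] at hdet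
      exact zero_ne_one hdet
    refine ⟨a⁻¹, ?_⟩
    field_simp
    linear_combination a * q2 + hdet
  · intro h2
    rw [MulAction.isMultiplyPretransitive_iff]
    intro x y
    obtain ⟨g₁, h0, h1, h2'⟩ := sl_frame h2 (x 0) (x 1) (x 2) (x.injective.ne (by decide))
      (x.injective.ne (by decide)) (x.injective.ne (by decide))
    obtain ⟨g₂, k0, k1, k2⟩ := sl_frame h2 (y 0) (y 1) (y 2) (y.injective.ne (by decide))
      (y.injective.ne (by decide)) (y.injective.ne (by decide))
    refine ⟨g₂ * g₁⁻¹, ?_⟩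
    ext i
    rw [Function.Embedding.smul_apply]
    fin_cases i
    · show (g₂ * g₁⁻¹) • x 0 = y 0
      rw [← h0, mul_smul, inv_smul_smul, k0]
    · show (g₂ * g₁⁻¹) • x 1 = y 1
      rw [← h1, mul_smul, inv_smul_smul, k1]
    · show (g₂ * g₁⁻¹) • x 2 = y 2
      rw [← h2', mul_smul, inv_smul_smul, k2]

end Cfsg.Agent.S0267
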