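import Cfsg.Statements.S0268
import Mathlib

set_option autoImplicit false
open Cfsg

namespace Cfsg.Agent.S0268

/-- For q odd, -1 is the unique involution of SL_2(q). -/
theorem result {F : Type*} [Field F] [Fintype F] (hF : Odd (Fintype.card F)) (g : Matrix.SpecialLinearGroup (Fin 2) F) (h1 : g ≠ 1) (h2 : g * g = 1) : (g : Matrix (Fin 2) (Fin 2) F) = -1 := by
  have h2ne : (2 : F) ≠ 0 := by
    apply Ring.two_ne_zero
    intro hc
    rw [FiniteField.even_card_iff_char_two] at hc
    rcases hF with ⟨k, hk⟩
    omega
  have hdet := g.det_coe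
  rw [Matrix.det_fin_two] at hdet
  have hm : (g : Matrix (Fin 2) (Fin 2) F) * (g : Matrix (Fin 2) (Fin 2) F) = 1 := by
    rw [← Matrix.SpecialLinearGroup.coe_mul, h2]; rfl
  have e00 := congrFun (congrFun hm 0) 0
  have e01 := congrFun (congrFun hm 0) 1
  have e10 := congrFun (congrFun hm 1) 0
  have e11 := congrFun (congrFun hm 1) 1
  simp [Matrix.mul_apply, Fin.sum_univ_two] at e00 e01 e10 e11
  set a := (g : Matrix (Fin 2) (Fin 2) F) 0 0 with ha
  set b := (g : Matrix (Fin 2) (Fin 2) F) 0 1 with hb
  set c := (g : Matrix (Fin 2) (Fin 2) F) 1 0 with hc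
  set d := (g : Matrix (Fin 2) (Fin 2) F) 1 1 with hd
  have hs : a + d ≠ 0 := by
    intro hs
    have hd' : d = -a := by linear_combination hs
    rw [hd'] at hdet e11
    apply h2ne
    linear_combination (-1 : F) * e00 - hdet
  have hb0 : b = 0 := by
    have : b * (a + d) = 0 := by linear_combination e01
    rcases mul_eq_zero.mp this with h | h
    · exact h
    · exact absurd h hs
  have hc0 : c = 0 := by
    have : c * (a + d) = 0 := by linear_combination e10
    rcases mul_eq_zero.mp this with h | h
    · exact h
    · exact absurd h hs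
  rw [hb0, hc0] at hdet e00 e11
  simp at hdet e00 e11
  have had : a = d := by
    have : a * (a - d) = 0 := by linear_combination e00 - hdet
    rcases mul_eq_zero.mp this with h | h
    · rw [h] at hdet; simp at hdet
    · linear_combination h
  have ha2 : (a - 1) * (a + 1) = 0 := by linear_combination e00
  rcases mul_eq_zero.mp ha2 with h | h
  · exfalso
    apply h1
    ext i j
    fin_cases i <;> fin_cases j <;> simp
    · rw [← ha]; linear_combination h
    · rw [← hb]; exact hb0
    · rw [← hc]; exact hc0
    · rw [← hd, ← had]; linear_combination h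
  · ext i j
    fin_cases i <;> fin_cases j <;> simp
    · rw [← ha]; linear_combination h
    · rw [← hb]; exact hb0
    · rw [← hc]; exact hc0
    · rw [← hd, ← had]; linear_combination h

end Cfsg.Agent.S0268
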