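import Cfsg.Statements.S0272
import Mathlib
import Cfsg.Agent.Lib.Helper5.GL2Sylow

set_option autoImplicit false
open Cfsg

namespace Cfsg.Agent.S0272

open Cfsg.Agent.Lib.Helper5.GL2Sylow

/-- The normaliser in GL_2(q) of a Sylow p-subgroup, p the characteristic, has order q (q-1)^2. -/
theorem result {F : Type*} [Field F] [Fintype F] {q : ℕ} (hF : Fintype.card F = q) (p : ℕ) [Fact p.Prime] [CharP F p] (P : Sylow p (Matrix.GeneralLinearGroup (Fin 2) F)) : Nat.card (Subgroup.normalizer ((P : Subgroup (Matrix.GeneralLinearGroup (Fin 2) F)) : Set (Matrix.GeneralLinearGroup (Fin 2) F))) = q * (q - 1) ^ 2 := by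
  classical
  have h1 : Nat.card (Sylow p (Matrix.GeneralLinearGroup (Fin 2) F)) = (Subgroup.normalizer
    ((P : Subgroup (Matrix.GeneralLinearGroup (Fin 2) F)) : Set (Matrix.GeneralLinearGroup (Fin 2) F))).index :=
    Sylow.card_eq_index_normalizer P
  have h2 : Nat.card (Sylow p (Matrix.GeneralLinearGroup (Fin 2) F)) = (Subgroup.normalizer
    ((U₀ (F := F) p : Subgroup (Matrix.GeneralLinearGroup (Fin 2) F)) : Set (Matrix.GeneralLinearGroup (Fin 2) F))).index :=
    Sylow.card_eq_index_normalizer (U₀ (F := F) p)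
  have h3 := Subgroup.card_mul_index (Subgroup.normalizer
    ((P : Subgroup (Matrix.GeneralLinearGroup (Fin 2) F)) : Set (Matrix.GeneralLinearGroup (Fin 2) F)))
  have h4 := Subgroup.card_mul_index (Subgroup.normalizer
    ((U₀ (F := F) p : Subgroup (Matrix.GeneralLinearGroup (Fin 2) F)) : Set (Matrix.GeneralLinearGroup (Fin 2) F)))
  rw [← h1] at h3
  rw [← h2] at h4
  have hpos : 0 < Nat.card (Sylow p (Matrix.GeneralLinearGroup (Fin 2) F)) := Nat.card_pos
  have h5 := Nat.eq_of_mul_eq_mul_right hpos (h3.trans h4.symm)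
  rw [h5, coe_U₀, normalizer_U, card_B hF]

end Cfsg.Agent.S0272
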