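import Cfsg.Statements.S0273
import Mathlib
import Cfsg.Agent.Lib.Helper5.GL2Sylow

set_option autoImplicit false
open Cfsg

namespace Cfsg.Agent.S0273

open Cfsg.Agent.Lib.Helper5.GL2Sylow

/-- In GL_2(q) the centraliser of a non-trivial element of a Sylow p-subgroup (p the characteristic) has order q (q-1): the Sylow subgroup times the scalars. -/
theorem result {F : Type*} [Field F] [Fintype F] {q : ℕ} (hF : Fintype.card F = q) (p : ℕ) [Fact p.Prime] [CharP F p] (P : Sylow p (Matrix.GeneralLinearGroup (Fin 2) F)) (a : Matrix.GeneralLinearGroup (Fin 2) F) (ha : a ∈ P) (ha1 : a ≠ 1) : Nat.card (Subgroup.centralizer ({a} : Set (Matrix.GeneralLinearGroup (Fin 2) F))) = q * (q - 1) := by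
  classical
  obtain ⟨g, hg⟩ := exists_conj p P
  obtain ⟨c, hc⟩ := (mem_U_iff _).mp ((hg a).mp ha)
  have hc0 : c ≠ 0 := by
    rintro rfl
    rw [tri_one] at hc
    apply ha1
    have : a = g * (g⁻¹ * a * g) * g⁻¹ := by group
    rw [this, hc]; group
  rw [← card_centralizer_tri hF c hc0]
  apply Nat.card_congr
  refine ⟨fun x => ⟨g⁻¹ * x.1 * g, ?_⟩, fun y => ⟨g * y.1 * g⁻¹, ?_⟩, ?_, ?_⟩
  · have hx := x.2
    rw [Subgroup.mem_centralizer_iff] at hx ⊢
    intro z hz
    rw [Set.mem_singleton_iff] at hz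
    have hxa := hx a rfl
    rw [hz, ← hc]
    calc g⁻¹ * a * g * (g⁻¹ * x.1 * g) = g⁻¹ * (a * x.1) * g := by group
      _ = g⁻¹ * (x.1 * a) * g := by rw [hxa]
      _ = g⁻¹ * x.1 * g * (g⁻¹ * a * g) := by group
  · have hy := y.2
    rw [Subgroup.mem_centralizer_iff] at hy ⊢
    intro z hz
    rw [Set.mem_singleton_iff] at hz
    have hyc' := hy (tri 1 1 c) rfl
    have hyc : (g⁻¹ * a * g) * y.1 = y.1 * (g⁻¹ * a * g) := by rw [hc]; exact hyc'
    rw [hz]
    calc a * (g * y.1 * g⁻¹) = g * ((g⁻¹ * a * g) * y.1) * g⁻¹ := by group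
      _ = g * (y.1 * (g⁻¹ * a * g)) * g⁻¹ := by rw [hyc]
      _ = g * y.1 * g⁻¹ * a := by group
  · intro x
    apply Subtype.ext
    show g * (g⁻¹ * x.1 * g) * g⁻¹ = x.1
    group
  · intro y
    apply Subtype.ext
    show g⁻¹ * (g * y.1 * g⁻¹) * g = y.1
    group

end Cfsg.Agent.S0273
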