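import Cfsg.Statements.S0274
import Mathlib
import Cfsg.Agent.Lib.Helper5.DicksonLite

set_option autoImplicit false
open Cfsg

namespace Cfsg.Agent.S0274

open Cfsg.Agent.S0260 (up lo up_coe lo_coe up_mul up_zero conj_upper conj_lower U mem_U_iff exists_conj)
open Cfsg.Agent.Lib.Helper5.DicksonLite

variable {F : Type*} [Field F]

/-- an upper triangular matrix normalizes `U` -/
theorem conj_mem_U_iff (m : SL2 F) (hm : (m : Matrix (Fin 2) (Fin 2) F) 1 0 = 0) (z : SL2 F) :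
    m⁻¹ * z * m ∈ U F ↔ z ∈ U F := by
  rw [mem_U_iff, mem_U_iff]
  constructor
  · rintro ⟨t, ht⟩
    refine ⟨t * ((m : Matrix (Fin 2) (Fin 2) F) 0 0) ^ 2, ?_⟩
    rw [← conj_upper m hm t, ← ht]
    group
  · rintro ⟨t, rfl⟩
    have hm' : ((m⁻¹ : SL2 F) : Matrix (Fin 2) (Fin 2) F) 1 0 = 0 := by
      rw [Matrix.SpecialLinearGroup.coe_inv, Matrix.adjugate_fin_two]
      simp [hm]
    refine ⟨t * (((m⁻¹ : SL2 F) : Matrix (Fin 2) (Fin 2) F) 0 0) ^ 2, ?_⟩
    rw [← conj_upper m⁻¹ hm' t, inv_inv]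

section Finite

variable [Fintype F] (p : ℕ) [Fact p.Prime] [CharP F p]

/-- each Sylow `p`-subgroup of `H` is the intersection of `H` with a conjugate of `U` -/
theorem sylow_char (H : Subgroup (SL2 F)) (P : Sylow p H) :
    ∃ g : SL2 F, ∀ x : H, x ∈ P ↔ g⁻¹ * (x : SL2 F) * g ∈ U F := by
  classical
  have hP : IsPGroup p ((P : Subgroup H).map H.subtype) := P.isPGroup'.map H.subtype
  obtain ⟨S, hS⟩ := hP.exists_le_sylow
  obtain ⟨g, hg⟩ := exists_conj p S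
  refine ⟨g, fun x => ?_⟩
  rw [← hg]
  constructor
  · intro hx
    exact hS ⟨x, hx, rfl⟩
  · intro hx
    have hQ : IsPGroup p ((S : Subgroup (SL2 F)).subgroupOf H) := S.isPGroup'.comap_subtype
    have hle : (P : Subgroup H) ≤ (S : Subgroup (SL2 F)).subgroupOf H := by
      intro y hy
      exact hS ⟨y, hy, rfl⟩
    have heq := P.is_maximal' hQ hle
    have hx' : x ∈ (S : Subgroup (SL2 F)).subgroupOf H := hx
    rw [heq] at hx'
    exact hx'

end Finite

/-- Dickson's Theorem for SL_2: if p is odd and H is a subgroup of SL_2(q), q a power of p, with more than one Sylow p-subgroup, then H contains a copy of SL_2(p). -/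
theorem result {F : Type*} [Field F] [Fintype F] (p : ℕ) [Fact p.Prime] [CharP F p] (hp : p ≠ 2) (H : Subgroup (Matrix.SpecialLinearGroup (Fin 2) F)) (hH : 1 < Nat.card (Sylow p H)) : ∃ K : Subgroup (Matrix.SpecialLinearGroup (Fin 2) F), K ≤ H ∧ Nonempty (K ≃* Matrix.SpecialLinearGroup (Fin 2) (ZMod p)) := by
  classical
  have : Finite (Sylow p H) := Nat.finite_of_card_ne_zero (by omega)
  obtain ⟨P₁, P₂, hne⟩ : ∃ P₁ P₂ : Sylow p H, P₁ ≠ P₂ := by
    have := Finite.one_lt_card_iff_nontrivial.mp hH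
    exact exists_pair_ne _
  obtain ⟨g₁, hg₁⟩ := sylow_char p H P₁
  obtain ⟨g₂, hg₂⟩ := sylow_char p H P₂
  set m : SL2 F := g₁⁻¹ * g₂ with hm
  -- elements
  have hnle₁ : ¬ (P₁ : Subgroup H) ≤ P₂ := by
    intro hle
    exact hne (Sylow.ext (P₁.is_maximal' P₂.isPGroup' hle).symm)
  have hnle₂ : ¬ (P₂ : Subgroup H) ≤ P₁ := by
    intro hle
    exact hne (Sylow.ext (P₂.is_maximal' P₁.isPGroup' hle))
  obtain ⟨a, haP, haQ⟩ := SetLike.not_le_iff_exists.mp hnle₁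
  obtain ⟨b, hbP, hbQ⟩ := SetLike.not_le_iff_exists.mp hnle₂
  have ha1 : a ≠ 1 := by
    rintro rfl
    exact haQ (Subgroup.one_mem _)
  have hb1 : b ≠ 1 := by
    rintro rfl
    exact hbQ (Subgroup.one_mem _)
  obtain ⟨x, hx⟩ := (mem_U_iff _).mp ((hg₁ a).mp haP)
  obtain ⟨y, hy⟩ := (mem_U_iff _).mp ((hg₂ b).mp hbP)
  have hx0 : x ≠ 0 := by
    rintro rfl
    rw [up_zero] at hx
    apply ha1
    apply Subtype.ext
    have : (a : SL2 F) = g₁ * (g₁⁻¹ * (a : SL2 F) * g₁) * g₁⁻¹ := by group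
    rw [this, hx]
    simp
  have hy0 : y ≠ 0 := by
    rintro rfl
    rw [up_zero] at hy
    apply hb1
    apply Subtype.ext
    have : (b : SL2 F) = g₂ * (g₂⁻¹ * (b : SL2 F) * g₂) * g₂⁻¹ := by group
    rw [this, hy]
    simp
  -- `m` is not upper triangular
  have hγ : (m : Matrix (Fin 2) (Fin 2) F) 1 0 ≠ 0 := by
    intro h0
    apply haQ
    show a ∈ P₂
    rw [hg₂]
    have h1 : g₂⁻¹ * (a : SL2 F) * g₂ = m⁻¹ * (g₁⁻¹ * (a : SL2 F) * g₁) * m := by
      rw [hm]; group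
    rw [h1, conj_mem_U_iff m h0]
    exact (hg₁ a).mp haP
  set γ := (m : Matrix (Fin 2) (Fin 2) F) 1 0 with hγdef
  set α := (m : Matrix (Fin 2) (Fin 2) F) 0 0 with hαdef
  set c : SL2 F := up (-(α / γ)) with hc
  have h00 : ((c * m : SL2 F) : Matrix (Fin 2) (Fin 2) F) 0 0 = 0 := by
    rw [Matrix.SpecialLinearGroup.coe_mul, hc, up_coe]
    simp only [Matrix.mul_apply, Fin.sum_univ_two, Matrix.of_apply, Matrix.cons_val', Matrix.cons_val_zero,
      Matrix.cons_val_one, Matrix.cons_val_fin_one]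
    rw [← hγdef, ← hαdef]
    field_simp
    ring
  have h10 : ((c * m : SL2 F) : Matrix (Fin 2) (Fin 2) F) 1 0 = γ := by
    rw [Matrix.SpecialLinearGroup.coe_mul, hc, up_coe]
    simp [Matrix.mul_apply, Fin.sum_univ_two, hγdef]
  have hlow := conj_lower (c * m) h00 y
  rw [h10] at hlow
  set G : SL2 F := c * g₁⁻¹ with hG
  have hGa : G * (a : SL2 F) * G⁻¹ = up x := by
    have : G * (a : SL2 F) * G⁻¹ = c * (g₁⁻¹ * (a : SL2 F) * g₁) * c⁻¹ := by rw [hG]; group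
    rw [this, hx, hc, conj_up_up]
  have hGb : G * (b : SL2 F) * G⁻¹ = lo (-(y * γ ^ 2)) := by
    have : G * (b : SL2 F) * G⁻¹ = (c * m) * (g₂⁻¹ * (b : SL2 F) * g₂) * (c * m)⁻¹ := by
      rw [hG, hm]; group
    rw [this, hy, hlow]
  have hy' : -(y * γ ^ 2) ≠ 0 := by
    simp only [ne_eq, neg_eq_zero, mul_eq_zero, not_or]
    exact ⟨hy0, pow_ne_zero 2 hγ⟩
  obtain ⟨f, hf, hfr⟩ := exists_sl2p p hp x (-(y * γ ^ 2)) hx0 hy'
  set f' : SL2 (ZMod p) →* SL2 F := (MulAut.conj G⁻¹).toMonoidHom.comp f with hf'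
  have hf'inj : Function.Injective f' := (MulAut.conj G⁻¹).injective.comp hf
  refine ⟨f'.range, ?_, ⟨(MonoidHom.ofInjective hf'inj).symm⟩⟩
  rintro _ ⟨z, rfl⟩
  have h1 : f z ∈ Subgroup.closure {(up x : SL2 F), lo (-(y * γ ^ 2))} := hfr ⟨z, rfl⟩
  have h2 : Subgroup.closure {(up x : SL2 F), lo (-(y * γ ^ 2))} ≤
      H.comap (MulAut.conj G⁻¹).toMonoidHom := by
    rw [Subgroup.closure_le]
    rintro u (rfl | rfl)
    · show (MulAut.conj G⁻¹) (up x) ∈ H
      rw [← hGa]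
      have : (MulAut.conj G⁻¹) (G * (a : SL2 F) * G⁻¹) = (a : SL2 F) := by
        simp [MulAut.conj_apply]
        group
      rw [this]
      exact a.2
    · show (MulAut.conj G⁻¹) (lo (-(y * γ ^ 2))) ∈ H
      rw [← hGb]
      have : (MulAut.conj G⁻¹) (G * (b : SL2 F) * G⁻¹) = (b : SL2 F) := by
        simp [MulAut.conj_apply]
        group
      rw [this]
      exact b.2
  exact h2 h1

end Cfsg.Agent.S0274
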