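import Cfsg.Statements.S0275
import Mathlib
import Cfsg.Agent.S0274
import Cfsg.Agent.S0261
import Cfsg.Agent.Lib.Helper54.Quaternion
import Cfsg.Agent.Lib.Helper35.SL2

set_option autoImplicit false
open Cfsg

namespace Cfsg.Agent.S0275

theorem quat_not_comm (k : ℕ) (hk : 1 ≤ k) :
    ∃ u v : QuaternionGroup (2 ^ k), u * v ≠ v * u := by
  refine ⟨QuaternionGroup.a 1, QuaternionGroup.xa 0, ?_⟩
  rw [QuaternionGroup.a_mul_xa, QuaternionGroup.xa_mul_a]
  intro h
  have h1 : (0 - 1 : ZMod (2 * 2 ^ k)) = 0 + 1 := QuaternionGroup.xa.inj h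
  have h2 : ((2 : ℕ) : ZMod (2 * 2 ^ k)) = 0 := by
    push_cast
    linear_combination -h1
  have h3 := (ZMod.natCast_eq_zero_iff 2 (2 * 2 ^ k)).mp h2
  have h4 : 2 * 2 ^ k ≤ 2 := Nat.le_of_dvd (by norm_num) h3
  have h5 : 2 ^ 1 ≤ 2 ^ k := Nat.pow_le_pow_right (by norm_num) hk
  omega

theorem cyclic_comm {G : Type*} [Group G] (h : IsCyclic G) (x y : G) : x * y = y * x :=
  IsMulCommutative.is_comm.comm x y

/-- If p is odd and H is a subgroup of SL_2(q), q a power of p, with more than one Sylow p-subgroup, then the Sylow 2-subgroups of H are generalised quaternion. -/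
theorem result {F : Type*} [Field F] [Fintype F] (p : ℕ) [Fact p.Prime] [CharP F p] (hp : p ≠ 2) (H : Subgroup (Matrix.SpecialLinearGroup (Fin 2) F)) (hH : 1 < Nat.card (Sylow p H)) (S : Sylow 2 H) : ∃ k : ℕ, 1 ≤ k ∧ Nonempty ((S : Subgroup H) ≃* QuaternionGroup (2 ^ k)) := by
  classical
  have : Fact (Nat.Prime 2) := ⟨Nat.prime_two⟩
  have hprime : p.Prime := Fact.out
  have h2F : (2 : F) ≠ 0 := Cfsg.Agent.Lib.Helper5.DicksonLite.two_ne_zero_of_char p hp
  -- unique involution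
  have hinv : ∀ g : Matrix.SpecialLinearGroup (Fin 2) F, g ^ 2 = 1 → g = 1 ∨ g = -1 := by
    intro g hg
    have h1 : (g : Matrix (Fin 2) (Fin 2) F) * (g : Matrix (Fin 2) (Fin 2) F) = 1 := by
      have := congrArg (fun M : Matrix.SpecialLinearGroup (Fin 2) F => (M : Matrix (Fin 2) (Fin 2) F)) hg
      simpa [pow_two] using this
    rcases Cfsg.Agent.Lib.Helper35.SL2.eq_one_or_neg_one_of_sq _ g.2 h2F h1 with h | h
    · left
      exact Subtype.ext h
    · right
      apply Subtype.ext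
      rw [h]
      simp
  have hUI : Cfsg.Agent.Lib.Helper54.UniqueSubgroup.UI 2 (Matrix.SpecialLinearGroup (Fin 2) F) := by
    intro g h hg hh hg1
    rcases hinv g hg with hg' | hg'
    · exact absurd hg' hg1
    · rcases hinv h hh with hh' | hh'
      · rw [hh']; exact one_mem _
      · rw [hh', ← hg']; exact Subgroup.mem_zpowers g
  have hUIS : Cfsg.Agent.Lib.Helper54.UniqueSubgroup.UI 2 (S : Subgroup H) :=
    (hUI.subgroup H).subgroup _
  -- a noncommuting pair in `S`
  obtain ⟨K, hKH, ⟨e⟩⟩ := Cfsg.Agent.S0274.result p hp H hH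
  let T : Sylow 2 (Matrix.SpecialLinearGroup (Fin 2) (ZMod p)) := default
  have hodd : Odd (Fintype.card (ZMod p)) := by
    rw [ZMod.card]
    exact hprime.odd_of_ne_two hp
  obtain ⟨k, hk, ⟨eT⟩⟩ := Cfsg.Agent.S0261.result hodd T
  obtain ⟨u₀, v₀, huv⟩ := quat_not_comm k hk
  have huv' : eT.symm u₀ * eT.symm v₀ ≠ eT.symm v₀ * eT.symm u₀ := by
    intro h
    apply huv
    have := congrArg eT h
    simpa using this
  let ι : Matrix.SpecialLinearGroup (Fin 2) (ZMod p) →* H :=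
    (Subgroup.inclusion hKH).comp e.symm.toMonoidHom
  have hι : Function.Injective ι := (Subgroup.inclusion_injective hKH).comp e.symm.injective
  have hT1 : IsPGroup 2 ((T : Subgroup (Matrix.SpecialLinearGroup (Fin 2) (ZMod p))).map ι) :=
    T.isPGroup'.map ι
  obtain ⟨S', hS'⟩ := hT1.exists_le_sylow
  obtain ⟨g, hg⟩ := MulAction.exists_smul_eq H S' S
  have hmem : ∀ t : T, g * ι (t : Matrix.SpecialLinearGroup (Fin 2) (ZMod p)) * g⁻¹ ∈ S := by
    intro t
    rw [← hg]
    show _ ∈ ((g • S' : Sylow 2 H) : Subgroup H)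
    rw [Sylow.coe_subgroup_smul, Subgroup.mem_pointwise_smul_iff_inv_smul_mem]
    have h1 : (MulAut.conj g)⁻¹ • (g * ι (t : Matrix.SpecialLinearGroup (Fin 2) (ZMod p)) * g⁻¹) =
        ι (t : Matrix.SpecialLinearGroup (Fin 2) (ZMod p)) := by
      rw [MulAut.smul_def, ← map_inv, MulAut.conj_apply]
      group
    rw [h1]
    exact hS' ⟨t, t.2, rfl⟩
  have hncomm : ¬ ∀ a b : (S : Subgroup H), a * b = b * a := by
    intro hc
    have h1 := hc ⟨_, hmem (eT.symm u₀)⟩ ⟨_, hmem (eT.symm v₀)⟩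
    have h2 := congrArg Subtype.val h1
    simp only [Subgroup.coe_mul] at h2
    have h3 : ι ((eT.symm u₀ : T) : Matrix.SpecialLinearGroup (Fin 2) (ZMod p)) *
        ι ((eT.symm v₀ : T) : Matrix.SpecialLinearGroup (Fin 2) (ZMod p)) =
        ι ((eT.symm v₀ : T) : Matrix.SpecialLinearGroup (Fin 2) (ZMod p)) *
        ι ((eT.symm u₀ : T) : Matrix.SpecialLinearGroup (Fin 2) (ZMod p)) := by
      have h4 : ∀ X Y : H, g * X * g⁻¹ * (g * Y * g⁻¹) = g * (X * Y) * g⁻¹ := by
        intro X Y; group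
      rw [h4, h4] at h2
      exact mul_left_cancel (mul_right_cancel h2)
    rw [← map_mul, ← map_mul] at h3
    have h5 := hι h3
    apply huv'
    apply Subtype.ext
    exact h5
  rcases Cfsg.Agent.Lib.Helper54.Quaternion.isCyclic_or_quaternion S.isPGroup' hUIS with
    h | ⟨n, ⟨e'⟩⟩
  · exact absurd (cyclic_comm h) hncomm
  · refine ⟨n, ?_, ⟨e'⟩⟩
    by_contra hn
    have hn0 : n = 0 := by omega
    subst hn0
    have hc1 : IsCyclic (QuaternionGroup (2 ^ 0)) := by
      simpa using QuaternionGroup.quaternionGroup_one_isCyclic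
    have hc : IsCyclic (S : Subgroup H) := (MulEquiv.isCyclic e').mpr hc1
    exact hncomm (cyclic_comm hc)

end Cfsg.Agent.S0275
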