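import Cfsg.Statements.S0276
import Mathlib
import Cfsg.Agent.Lib.Helper5.SL2Card

set_option autoImplicit false
open Cfsg

namespace Cfsg.Agent.S0276

theorem sq_mem_center {F : Type*} [Field F] [Fintype F]
    (hq : Fintype.card F % 8 = 3 ∨ Fintype.card F % 8 = 5)
    (g : Matrix.SpecialLinearGroup (Fin 2) F)
    (h4 : g ^ 4 ∈ Subgroup.center (Matrix.SpecialLinearGroup (Fin 2) F)) :
    g ^ 2 ∈ Subgroup.center (Matrix.SpecialLinearGroup (Fin 2) F) := by
  classical
  rw [Matrix.SpecialLinearGroup.mem_center_iff] at h4 ⊢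
  obtain ⟨r, hr, hrg⟩ := h4
  have h2 : ¬ IsSquare (2 : F) := by
    rw [FiniteField.isSquare_two_iff]
    omega
  have hdet := g.det_coe
  rw [Matrix.det_fin_two] at hdet
  have hg4 : (g : Matrix (Fin 2) (Fin 2) F) * g * (g * g) = Matrix.scalar (Fin 2) r := by
    rw [hrg]
    have : g ^ 4 = g * g * (g * g) := by simp [pow_succ, mul_assoc]
    rw [this]; rfl
  have e00 := congrFun (congrFun hg4 0) 0
  have e01 := congrFun (congrFun hg4 0) 1
  have e10 := congrFun (congrFun hg4 1) 0
  have e11 := congrFun (congrFun hg4 1) 1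
  simp [Matrix.mul_apply, Fin.sum_univ_two] at e00 e01 e10 e11
  set a := (g : Matrix (Fin 2) (Fin 2) F) 0 0 with ha
  set b := (g : Matrix (Fin 2) (Fin 2) F) 0 1 with hb
  set c := (g : Matrix (Fin 2) (Fin 2) F) 1 0 with hc
  set d := (g : Matrix (Fin 2) (Fin 2) F) 1 1 with hd
  have ht2 : (a + d) ^ 2 - 2 ≠ 0 := by
    intro h
    apply h2
    exact ⟨a + d, by linear_combination -h⟩
  have hbt : b * (a + d) = 0 := by
    have : b * (a + d) * ((a + d) ^ 2 - 2) = 0 := by linear_combination e01 + 2 * b * (a + d) * hdet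
    rcases mul_eq_zero.mp this with h | h
    · exact h
    · exact absurd h ht2
  have hct : c * (a + d) = 0 := by
    have : c * (a + d) * ((a + d) ^ 2 - 2) = 0 := by linear_combination e10 + 2 * c * (a + d) * hdet
    rcases mul_eq_zero.mp this with h | h
    · exact h
    · exact absurd h ht2
  have hg2 : ((g ^ 2 : Matrix.SpecialLinearGroup (Fin 2) F) : Matrix (Fin 2) (Fin 2) F)
      = (g : Matrix (Fin 2) (Fin 2) F) * g := by
    rw [pow_two]; rfl
  by_cases ht : a + d = 0
  · refine ⟨-1, by simp, ?_⟩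
    rw [hg2]
    have hd' : d = -a := by linear_combination ht
    ext i j
    fin_cases i <;> fin_cases j <;>
      simp [Matrix.mul_apply, Fin.sum_univ_two, ← ha, ← hb, ← hc, ← hd]
    · rw [hd'] at hdet; linear_combination hdet
    · linear_combination -hbt
    · linear_combination -hct
    · rw [hd'] at hdet ⊢; linear_combination hdet
  · have hb0 : b = 0 := by
      rcases mul_eq_zero.mp hbt with h | h
      · exact h
      · exact absurd h ht
    have hc0 : c = 0 := by
      rcases mul_eq_zero.mp hct with h | h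
      · exact h
      · exact absurd h ht
    rw [hb0, hc0] at hdet e00 e11
    simp at hdet e00 e11
    have had : a ^ 2 = d ^ 2 := by
      have h1 : (a ^ 2 - d ^ 2) * ((a + d) ^ 2 - 2) = 0 := by
        linear_combination e00 - e11 + 2 * (a ^ 2 - d ^ 2) * hdet
      rcases mul_eq_zero.mp h1 with h | h
      · linear_combination h
      · exact absurd h ht2
    refine ⟨a ^ 2, ?_, ?_⟩
    · simp only [Fintype.card_fin]
      have : a ^ 2 * d ^ 2 = 1 := by linear_combination (a * d + 1) * hdet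
      rw [← had] at this
      linear_combination this
    · rw [hg2]
      ext i j
      fin_cases i <;> fin_cases j <;>
        simp [Matrix.mul_apply, Fin.sum_univ_two, ← ha, ← hb, ← hc, ← hd, hb0, hc0]
      · ring
      · rw [had]; ring

/-- For q = 3 or 5 mod 8 the Sylow 2-subgroups of PSL_2(q) are elementary abelian of order 4. -/
theorem result {F : Type*} [Field F] [Fintype F] {q : ℕ} (hF : Fintype.card F = q) (hq : q % 8 = 3 ∨ q % 8 = 5) (P : Sylow 2 (Matrix.ProjectiveSpecialLinearGroup (Fin 2) F)) : IsKleinFour (P : Subgroup (Matrix.ProjectiveSpecialLinearGroup (Fin 2) F)) := by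
  classical
  have hcardG := Cfsg.Agent.Lib.Helper5.SL2Card.card_PSL_two hF
  have hgcd : Nat.gcd 2 (q - 1) = 2 := by
    apply Nat.gcd_eq_left
    omega
  rw [hgcd] at hcardG
  -- q (q^2-1) = 8 * odd
  obtain ⟨k, hk⟩ : ∃ k, q * (q ^ 2 - 1) = 8 * (2 * k + 1) := by
    have hq1 : q ^ 2 - 1 = (q - 1) * (q + 1) := by
      have : 1 ≤ q := by omega
      zify [this, Nat.one_le_pow 2 q this]
      ring
    rw [hq1]
    rcases hq with h | h
    · obtain ⟨j, hj⟩ : ∃ j, q = 8 * j + 3 := ⟨q / 8, by omega⟩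
      subst hj
      refine ⟨(8 * j + 3) * (4 * j + 1) * (2 * j + 1) / 2 , ?_⟩
      have h1 : 8 * j + 3 - 1 = 2 * (4 * j + 1) := by omega
      have h2 : 8 * j + 3 + 1 = 4 * (2 * j + 1) := by omega
      rw [h1, h2]
      have hodd : (8 * j + 3) * (4 * j + 1) * (2 * j + 1) % 2 = 1 := by
        simp [Nat.mul_mod, Nat.add_mod]
      have := Nat.div_add_mod ((8 * j + 3) * (4 * j + 1) * (2 * j + 1)) 2
      rw [hodd] at this
      rw [this]
      ring
    · obtain ⟨j, hj⟩ : ∃ j, q = 8 * j + 5 := ⟨q / 8, by omega⟩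
      subst hj
      refine ⟨(8 * j + 5) * (2 * j + 1) * (4 * j + 3) / 2 , ?_⟩
      have h1 : 8 * j + 5 - 1 = 4 * (2 * j + 1) := by omega
      have h2 : 8 * j + 5 + 1 = 2 * (4 * j + 3) := by omega
      rw [h1, h2]
      have hodd : (8 * j + 5) * (2 * j + 1) * (4 * j + 3) % 2 = 1 := by
        simp [Nat.mul_mod, Nat.add_mod]
      have := Nat.div_add_mod ((8 * j + 5) * (2 * j + 1) * (4 * j + 3)) 2
      rw [hodd] at this
      rw [this]
      ring
  rw [hk] at hcardG
  have hN : Nat.card (Matrix.ProjectiveSpecialLinearGroup (Fin 2) F) = 4 * (2 * k + 1) := by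
    omega
  have hP : Nat.card (P : Subgroup (Matrix.ProjectiveSpecialLinearGroup (Fin 2) F)) = 4 := by
    rw [Sylow.card_eq_multiplicity, hN]
    have hf : (4 * (2 * k + 1)).factorization 2 = 2 := by
      apply le_antisymm
      · by_contra hlt
        push Not at hlt
        have : 2 ^ 3 ∣ 4 * (2 * k + 1) :=
          (Nat.Prime.pow_dvd_iff_le_factorization Nat.prime_two (by omega)).mpr hlt
        omega
      · apply (Nat.Prime.pow_dvd_iff_le_factorization Nat.prime_two (by omega)).mp
        exact ⟨2 * k + 1, by ring⟩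
    rw [hf]; norm_num
  refine ⟨hP, ?_⟩
  have hexp2 : Monoid.exponent (P : Subgroup (Matrix.ProjectiveSpecialLinearGroup (Fin 2) F)) ∣ 2 := by
    apply Monoid.exponent_dvd_of_forall_pow_eq_one
    rintro ⟨x, hx⟩
    have hx4 : x ^ 4 = 1 := by
      have := pow_card_eq_one' (G := (P : Subgroup (Matrix.ProjectiveSpecialLinearGroup (Fin 2) F))) (x := ⟨x, hx⟩)
      rw [hP] at this
      exact congrArg Subtype.val this
    apply Subtype.ext
    show x ^ 2 = 1
    obtain ⟨g, rfl⟩ := QuotientGroup.mk_surjective x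
    rw [← QuotientGroup.mk_pow, QuotientGroup.eq_one_iff] at hx4 ⊢
    exact sq_mem_center (hF ▸ hq) g hx4
  have hexp1 : Monoid.exponent (P : Subgroup (Matrix.ProjectiveSpecialLinearGroup (Fin 2) F)) ≠ 1 := by
    intro h1
    rw [Monoid.exp_eq_one_iff] at h1
    have := Nat.card_eq_one_iff_unique.mpr ⟨h1, ⟨1⟩⟩
    omega
  have := Nat.le_of_dvd (by norm_num) hexp2
  have h0 : Monoid.exponent (P : Subgroup (Matrix.ProjectiveSpecialLinearGroup (Fin 2) F)) ≠ 0 := by
    intro h0; rw [h0] at hexp2; omega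
  omega

end Cfsg.Agent.S0276
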