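import Cfsg.Statements.S0285
import Mathlib
import Cfsg.Agent.Lib.Helper5.HermCount

set_option autoImplicit false
open Cfsg

namespace Cfsg.Agent.S0285

/-- The standard Hermitian form on F^n, |F| = q^2, has exactly (q^n - (-1)^n)(q^(n-1) + (-1)^n) non-zero isotropic vectors; counting the zero vector too: -/
theorem result {F : Type*} [Field F] [Fintype F] {q : ℕ} (hF : Fintype.card F = q ^ 2) (n : ℕ) : Nat.card {v : Fin n → F // Cfsg.hermForm n F q v v = 0} = (if Even n then (q ^ n - 1) * (q ^ (n - 1) + 1) else (q ^ n + 1) * (q ^ (n - 1) - 1)) + 1 := by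
  have hq := Cfsg.Agent.Lib.Helper5.HermCount.two_le hF
  have h := (Cfsg.Agent.Lib.Helper5.HermCount.main hF n).1
  change Cfsg.Agent.Lib.Helper5.HermCount.A q n (0 : F) = _
  generalize Cfsg.Agent.Lib.Helper5.HermCount.A q n (0 : F) = N at h ⊢
  have hq0 : (q : ℤ) ≠ 0 := by exact_mod_cast (by omega : q ≠ 0)
  rcases Nat.even_or_odd n with he | ho
  · rw [if_pos he]
    rw [he.neg_one_pow, one_mul, one_mul] at h
    rcases Nat.eq_zero_or_pos n with rfl | hn
    · simp only [mul_zero, pow_zero, zero_add, pow_one] at h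
      have h2 : (q : ℤ) * N = q * 1 := by rw [h]; ring
      have h3 := mul_left_cancel₀ hq0 h2
      simp only [pow_zero, Nat.sub_self, zero_mul, zero_add]
      exact_mod_cast h3
    · obtain ⟨k, rfl⟩ : ∃ k, n = k + 1 := ⟨n - 1, by omega⟩
      have h1 : 1 ≤ q ^ (k + 1) := Nat.one_le_pow _ _ (by omega)
      have h2 : (q : ℤ) * N = q * (((q ^ (k + 1) - 1) * (q ^ (k + 1 - 1) + 1) + 1 : ℕ) : ℤ) := by
        rw [h]
        push_cast [h1]
        ring
      exact_mod_cast mul_left_cancel₀ hq0 h2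
  · rw [if_neg (Nat.not_even_iff_odd.mpr ho)]
    rw [ho.neg_one_pow] at h
    obtain ⟨k, rfl⟩ : ∃ k, n = k + 1 := ⟨n - 1, by rcases ho with ⟨j, hj⟩; omega⟩
    have h1 : 1 ≤ q ^ k := Nat.one_le_pow _ _ (by omega)
    have h2 : (q : ℤ) * N = q * (((q ^ (k + 1) + 1) * (q ^ (k + 1 - 1) - 1) + 1 : ℕ) : ℤ) := by
      rw [h]
      simp only [Nat.add_sub_cancel]
      push_cast [h1]
      ring
    exact_mod_cast mul_left_cancel₀ hq0 h2

end Cfsg.Agent.S0285
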