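import Cfsg.Statements.S0297
import Mathlib
import Cfsg.Agent.Lib.Helper5.OmegaSimpleMat
import Cfsg.Agent.Lib.Helper5.OmegaGen2
import Cfsg.Agent.Lib.Helper44.NegPairs
import Cfsg.Agent.Lib.Helper45.OmegaCenter

set_option autoImplicit false
open Cfsg

namespace Cfsg.Agent.S0297

open Cfsg.Agent.Lib.Helper44.NegPairs Cfsg.Agent.Lib.Helper5.OmegaSimple
open Cfsg.Agent.Lib.Helper5.OmegaSimpleMat Cfsg.Agent.Lib.Helper5.OmegaGen2

/-- PΩ^-_{2m}(q) is simple for m at least 4 (the form is quadFormMinus (m-1) with anisotropic binary part). -/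
theorem result {F : Type*} [Field F] [Fintype F] (m : ℕ) (hm : 4 ≤ m) (a b : F) (hab : ∀ z₁ z₂ : F, z₁ ^ 2 + a * z₁ * z₂ + b * z₂ ^ 2 = 0 → z₁ = 0 ∧ z₂ = 0) : IsSimpleGroup (Cfsg.POmega F (Cfsg.quadFormMinus (m - 1) F a b)) := by
  classical
  have hcard : Fintype.card ((Fin (m - 1) ⊕ Fin (m - 1)) ⊕ Fin 2) = 2 * m := by
    simp [Fintype.card_sum]
    omega
  have hS := Cfsg.Agent.Lib.Helper45.OmegaCenter.sep_minusQ' (F := F) (m - 1) a b hab
  have hfr : 5 ≤ Module.finrank F ((Fin (m - 1) ⊕ Fin (m - 1)) ⊕ Fin 2 → F) := by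
    rw [Module.finrank_fintype_fun_eq_card, hcard]
    omega
  have hgen : commutator ↥(Cfsg.Agent.Lib.Helper44.OGroup.O (minusQ (m - 1) F a b)) =
      EG (minusQ (m - 1) F a b) := by
    by_cases h2 : (2 : F) = 0
    · have : CharP F 2 := CharTwo.of_one_ne_zero_of_two_eq_zero one_ne_zero h2
      exact commutator_eq_EG_two hS hfr
    · exact commutator_eq_EG_odd h2 hS hfr
  have h := simple_of_gen (minusQ (m - 1) F a b) hS (by rw [hcard]; omega) hgen
  rw [coe_minusQ] at h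
  exact h

end Cfsg.Agent.S0297
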