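import Cfsg.Statements.S0298
import Mathlib
import Cfsg.Agent.Lib.Helper5.OmegaIso
import Cfsg.Agent.Lib.Helper5.SL2Card
import Cfsg.Agent.Lib.Helper5.SLGen
import Cfsg.Agent.Lib.Helper14.OrthIndex
import Cfsg.Agent.Lib.Helper45.OrthCard
import Cfsg.Agent.S0260

set_option autoImplicit false
open Cfsg

namespace Cfsg.Agent.S0298

open Matrix
open scoped commutatorElement
open Cfsg.Agent.S0260 (up lo up_coe lo_coe up_mul h01 h10)

variable {F : Type*} [Field F]

/-- index type of the form -/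
abbrev I3 : Type := Unit ⊕ (Fin 1 ⊕ Fin 1)

/-- relabelling -/
def e3 : Fin 3 ≃ I3 where
  toFun i := ![Sum.inl (), Sum.inr (Sum.inl 0), Sum.inr (Sum.inr 0)] i
  invFun j := match j with
    | Sum.inl _ => 0
    | Sum.inr (Sum.inl _) => 1
    | Sum.inr (Sum.inr _) => 2
  left_inv := by intro i; fin_cases i <;> rfl
  right_inv := by
    rintro (⟨⟩ | i | i)
    · rfl
    · fin_cases i; rfl
    · fin_cases i; rfl

/-- matrix of `X ↦ g X adj(g)` on trace zero matrices `[[x, y], [z, -x]]` -/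
def N (g : Matrix (Fin 2) (Fin 2) F) : Matrix (Fin 3) (Fin 3) F :=
  !![g 0 0 * g 1 1 + g 0 1 * g 1 0, -(g 0 0 * g 1 0), g 0 1 * g 1 1;
     -(2 * g 0 0 * g 0 1), g 0 0 ^ 2, -(g 0 1 ^ 2);
     2 * g 1 0 * g 1 1, -(g 1 0 ^ 2), g 1 1 ^ 2]

theorem N_mul (g h : Matrix (Fin 2) (Fin 2) F) : N (g * h) = N g * N h := by
  ext i j
  fin_cases i <;> fin_cases j <;>
    simp [N, Matrix.mul_apply, Fin.sum_univ_two, Fin.sum_univ_three] <;> ring

theorem N_one : N (1 : Matrix (Fin 2) (Fin 2) F) = 1 := by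
  ext i j
  fin_cases i <;> fin_cases j <;> simp [N]

/-- the form on `Fin 3` -/
def Q3 (u : Fin 3 → F) : F := u 0 ^ 2 + u 1 * u 2

theorem N_iso (g : Matrix (Fin 2) (Fin 2) F) (hg : g.det = 1) (u : Fin 3 → F) :
    Q3 (N g *ᵥ u) = Q3 u := by
  rw [Matrix.det_fin_two] at hg
  simp [Q3, N, Matrix.mulVec, dotProduct, Fin.sum_univ_three]
  linear_combination ((g 0 0 * g 1 1 - g 0 1 * g 1 0 + 1) * (u 0 ^ 2 + u 1 * u 2)) * hg

theorem quad_eq (v : I3 → F) : Cfsg.quadFormOdd 1 F v = Q3 (v ∘ e3) := by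
  simp [Cfsg.quadFormOdd, Q3, e3]

/-- the representation, as matrices -/
def ρ₀ : Matrix.SpecialLinearGroup (Fin 2) F →* Matrix I3 I3 F where
  toFun g := (N (g : Matrix (Fin 2) (Fin 2) F)).submatrix e3.symm e3.symm
  map_one' := by
    rw [Matrix.SpecialLinearGroup.coe_one, N_one, Matrix.submatrix_one_equiv]
  map_mul' g h := by
    rw [Matrix.SpecialLinearGroup.coe_mul, N_mul, Matrix.submatrix_mul_equiv]

theorem iso_of_fin3 (M : Matrix (Fin 3) (Fin 3) F) (hM : ∀ u, Q3 (M *ᵥ u) = Q3 u) (v : I3 → F) :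
    Cfsg.quadFormOdd 1 F (M.submatrix e3.symm e3.symm *ᵥ v) = Cfsg.quadFormOdd 1 F v := by
  rw [quad_eq, quad_eq, Matrix.submatrix_mulVec_equiv]
  have : ((M *ᵥ (v ∘ ⇑e3.symm.symm)) ∘ ⇑e3.symm) ∘ ⇑e3 = M *ᵥ (v ∘ e3) := by
    funext i
    simp
  rw [this, hM]

theorem ρ₀_mem (g : Matrix.SpecialLinearGroup (Fin 2) F) :
    (ρ₀ (F := F)).toHomUnits g ∈ Cfsg.isometryGroup F (Cfsg.quadFormOdd 1 F) := by
  intro u _
  exact iso_of_fin3 _ (N_iso _ g.det_coe) u

/-- the representation into the isometry group -/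
def ρ : Matrix.SpecialLinearGroup (Fin 2) F →* Cfsg.isometryGroup F (Cfsg.quadFormOdd 1 F) :=
  (ρ₀ (F := F)).toHomUnits.codRestrict _ ρ₀_mem

theorem ρ_coe (g : Matrix.SpecialLinearGroup (Fin 2) F) :
    (((ρ g : Cfsg.isometryGroup F (Cfsg.quadFormOdd 1 F)) : GL I3 F) : Matrix I3 I3 F) =
      (N (g : Matrix (Fin 2) (Fin 2) F)).submatrix e3.symm e3.symm := rfl

/-- `diag(1,-1,-1)` -/
def D3 : Matrix (Fin 3) (Fin 3) F := !![1, 0, 0; 0, -1, 0; 0, 0, -1]

theorem D3_mul : (D3 : Matrix (Fin 3) (Fin 3) F) * D3 = 1 := by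
  ext i j
  fin_cases i <;> fin_cases j <;> simp [D3, Matrix.mul_apply, Fin.sum_univ_three]

theorem D3_iso (u : Fin 3 → F) : Q3 ((D3 : Matrix (Fin 3) (Fin 3) F) *ᵥ u) = Q3 u := by
  simp [Q3, D3, Matrix.mulVec, dotProduct, Fin.sum_univ_three]

/-- the isometry `diag(1,-1,-1)` -/
def δ : Cfsg.isometryGroup F (Cfsg.quadFormOdd 1 F) :=
  ⟨⟨(D3 : Matrix (Fin 3) (Fin 3) F).submatrix e3.symm e3.symm,
    (D3 : Matrix (Fin 3) (Fin 3) F).submatrix e3.symm e3.symm,
    by rw [Matrix.submatrix_mul_equiv, D3_mul, Matrix.submatrix_one_equiv],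
    by rw [Matrix.submatrix_mul_equiv, D3_mul, Matrix.submatrix_one_equiv]⟩,
   fun u _ => iso_of_fin3 _ D3_iso u⟩

theorem δ_up (c : F) : δ * ρ (up c) = ρ (up (-c)) * δ := by
  apply Subtype.ext
  apply Units.ext
  show (D3 : Matrix (Fin 3) (Fin 3) F).submatrix e3.symm e3.symm *
      (N ((up c : Matrix.SpecialLinearGroup (Fin 2) F) : Matrix (Fin 2) (Fin 2) F)).submatrix e3.symm e3.symm =
    (N ((up (-c) : Matrix.SpecialLinearGroup (Fin 2) F) : Matrix (Fin 2) (Fin 2) F)).submatrix e3.symm e3.symm *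
      (D3 : Matrix (Fin 3) (Fin 3) F).submatrix e3.symm e3.symm
  rw [Matrix.submatrix_mul_equiv, Matrix.submatrix_mul_equiv, up_coe, up_coe]
  congr 1
  ext i j
  fin_cases i <;> fin_cases j <;> simp [N, D3, Matrix.mul_apply, Fin.sum_univ_three]

theorem δ_lo (c : F) : δ * ρ (lo c) = ρ (lo (-c)) * δ := by
  apply Subtype.ext
  apply Units.ext
  show (D3 : Matrix (Fin 3) (Fin 3) F).submatrix e3.symm e3.symm *
      (N ((lo c : Matrix.SpecialLinearGroup (Fin 2) F) : Matrix (Fin 2) (Fin 2) F)).submatrix e3.symm e3.symm =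
    (N ((lo (-c) : Matrix.SpecialLinearGroup (Fin 2) F) : Matrix (Fin 2) (Fin 2) F)).submatrix e3.symm e3.symm *
      (D3 : Matrix (Fin 3) (Fin 3) F).submatrix e3.symm e3.symm
  rw [Matrix.submatrix_mul_equiv, Matrix.submatrix_mul_equiv, lo_coe, lo_coe]
  congr 1
  ext i j
  fin_cases i <;> fin_cases j <;> simp [N, D3, Matrix.mul_apply, Fin.sum_univ_three]

theorem lo_mul (s t : F) : (lo s : Matrix.SpecialLinearGroup (Fin 2) F) * lo t = lo (s + t) := by
  ext i j
  rw [Matrix.SpecialLinearGroup.coe_mul, lo_coe, lo_coe, lo_coe]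
  fin_cases i <;> fin_cases j <;> simp [Matrix.mul_apply, Fin.sum_univ_two, add_comm]

theorem comm_of_rel {G : Type*} [Group G] (d x x' : G) (h : d * x = x' * d) :
    ⁅d, x⁆ = x' * x⁻¹ := by
  rw [commutatorElement_def, h]
  group

theorem ρ_mem_comm (h2 : (2 : F) ≠ 0) (g : Matrix.SpecialLinearGroup (Fin 2) F) :
    ρ g ∈ commutator (Cfsg.isometryGroup F (Cfsg.quadFormOdd 1 F)) := by
  induction g using Cfsg.Agent.Lib.Helper5.SLGen.transvection_induction with
  | htransvec i j h c =>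
    fin_cases i <;> fin_cases j
    · exact absurd rfl h
    · show ρ (up c) ∈ _
      have h1 : ρ (up c) = ⁅(δ : Cfsg.isometryGroup F (Cfsg.quadFormOdd 1 F)), ρ (up (-(c / 2)))⁆ := by
        rw [comm_of_rel _ _ _ (δ_up (F := F) (-(c / 2))), ← map_inv, ← map_mul]
        congr 1
        rw [eq_mul_inv_iff_mul_eq, up_mul]
        congr 1
        field_simp
        ring
      rw [h1, commutator_def]
      exact Subgroup.commutator_mem_commutator (Subgroup.mem_top _) (Subgroup.mem_top _)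
    · show ρ (lo c) ∈ _
      have h1 : ρ (lo c) = ⁅(δ : Cfsg.isometryGroup F (Cfsg.quadFormOdd 1 F)), ρ (lo (-(c / 2)))⁆ := by
        rw [comm_of_rel _ _ _ (δ_lo (F := F) (-(c / 2))), ← map_inv, ← map_mul]
        congr 1
        rw [eq_mul_inv_iff_mul_eq, lo_mul]
        congr 1
        field_simp
        ring
      rw [h1, commutator_def]
      exact Subgroup.commutator_mem_commutator (Subgroup.mem_top _) (Subgroup.mem_top _)
    · exact absurd rfl h
  | hmul A B hA hB =>
    rw [map_mul]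
    exact Subgroup.mul_mem _ hA hB

theorem N_scalar (r : F) : N (Matrix.scalar (Fin 2) r) = r ^ 2 • (1 : Matrix (Fin 3) (Fin 3) F) := by
  ext i j
  fin_cases i <;> fin_cases j <;> simp [N]
  all_goals ring

theorem ker_eq : (ρ (F := F)).ker = Subgroup.center (Matrix.SpecialLinearGroup (Fin 2) F) := by
  ext g
  rw [MonoidHom.mem_ker, Matrix.SpecialLinearGroup.mem_center_iff]
  have hdet := g.det_coe
  rw [Matrix.det_fin_two] at hdet
  constructor
  · intro hg
    have H : (N (g : Matrix (Fin 2) (Fin 2) F)).submatrix e3.symm e3.symm = 1 := by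
      rw [← ρ_coe, hg]
      rfl
    have H' : N (g : Matrix (Fin 2) (Fin 2) F) = 1 := by
      have := congrArg (fun M : Matrix I3 I3 F => M.submatrix e3 e3) H
      simpa using this
    have h11 : (g : Matrix (Fin 2) (Fin 2) F) 0 0 ^ 2 = 1 := by
      have := congrFun (congrFun H' 1) 1
      simpa [N] using this
    have h12 : (g : Matrix (Fin 2) (Fin 2) F) 0 1 = 0 := by
      have := congrFun (congrFun H' 1) 2
      simpa [N] using this
    have h21 : (g : Matrix (Fin 2) (Fin 2) F) 1 0 = 0 := by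
      have := congrFun (congrFun H' 2) 1
      simpa [N] using this
    rw [h12, h21] at hdet
    refine ⟨(g : Matrix (Fin 2) (Fin 2) F) 0 0, by simpa using h11, ?_⟩
    have ha : (g : Matrix (Fin 2) (Fin 2) F) 0 0 ≠ 0 := by
      intro h0
      rw [h0] at hdet
      simp at hdet
    have hd : (g : Matrix (Fin 2) (Fin 2) F) 1 1 = (g : Matrix (Fin 2) (Fin 2) F) 0 0 := by
      apply mul_left_cancel₀ ha
      linear_combination hdet - h11
    ext i j
    fin_cases i <;> fin_cases j <;> simp [h12, h21, hd]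
  · rintro ⟨r, hr, hrg⟩
    apply Subtype.ext
    apply Units.ext
    show (N (g : Matrix (Fin 2) (Fin 2) F)).submatrix e3.symm e3.symm = 1
    rw [← hrg]
    have hr2 : r ^ 2 = 1 := by simpa using hr
    have : N (Matrix.scalar (Fin 2) r) = 1 := by
      rw [N_scalar, hr2, one_smul]
    rw [this, Matrix.submatrix_one_equiv]

theorem mul_up_entries (M : Matrix (Fin 2) (Fin 2) F) :
    M * (!![1, 1; 0, 1] : Matrix (Fin 2) (Fin 2) F) =
      !![M 0 0, M 0 0 + M 0 1; M 1 0, M 1 0 + M 1 1] := by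
  ext i j
  fin_cases i <;> fin_cases j <;> simp [Matrix.mul_apply, Fin.sum_univ_two]

theorem scal_up_mul (r : F) (M : Matrix (Fin 2) (Fin 2) F) :
    Matrix.scalar (Fin 2) r * (!![1, 1; 0, 1] : Matrix (Fin 2) (Fin 2) F) * M =
      !![r * (M 0 0 + M 1 0), r * (M 0 1 + M 1 1); r * M 1 0, r * M 1 1] := by
  ext i j
  fin_cases i <;> fin_cases j <;> simp [Matrix.mul_apply, Fin.sum_univ_two] <;> ring

theorem mul_lo_entries (M : Matrix (Fin 2) (Fin 2) F) :
    M * (!![1, 0; 1, 1] : Matrix (Fin 2) (Fin 2) F) =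
      !![M 0 0 + M 0 1, M 0 1; M 1 0 + M 1 1, M 1 1] := by
  ext i j
  fin_cases i <;> fin_cases j <;> simp [Matrix.mul_apply, Fin.sum_univ_two]

theorem scal_lo_mul (r : F) (M : Matrix (Fin 2) (Fin 2) F) :
    Matrix.scalar (Fin 2) r * (!![1, 0; 1, 1] : Matrix (Fin 2) (Fin 2) F) * M =
      !![r * M 0 0, r * M 0 1; r * (M 0 0 + M 1 0), r * (M 0 1 + M 1 1)] := by
  ext i j
  fin_cases i <;> fin_cases j <;> simp [Matrix.mul_apply, Fin.sum_univ_two] <;> ring

theorem coe_rel (g h z : Matrix.SpecialLinearGroup (Fin 2) F) (hz : z = g * h * g⁻¹ * h⁻¹) :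
    (g : Matrix (Fin 2) (Fin 2) F) * (h : Matrix (Fin 2) (Fin 2) F) =
      (z : Matrix (Fin 2) (Fin 2) F) * (h : Matrix (Fin 2) (Fin 2) F) *
        (g : Matrix (Fin 2) (Fin 2) F) := by
  have h1 : g * h = z * h * g := by
    rw [hz]
    group
  rw [← Matrix.SpecialLinearGroup.coe_mul, ← Matrix.SpecialLinearGroup.coe_mul,
    ← Matrix.SpecialLinearGroup.coe_mul, ← h1]

theorem center_of_comm (h2 : (2 : F) ≠ 0) (g : Matrix.SpecialLinearGroup (Fin 2) F)
    (hg : ∀ h : Matrix.SpecialLinearGroup (Fin 2) F,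
      g * h * g⁻¹ * h⁻¹ ∈ Subgroup.center (Matrix.SpecialLinearGroup (Fin 2) F)) :
    g ∈ Subgroup.center (Matrix.SpecialLinearGroup (Fin 2) F) := by
  have hdet := g.det_coe
  rw [Matrix.det_fin_two] at hdet
  obtain ⟨r, hr, hrz⟩ := Matrix.SpecialLinearGroup.mem_center_iff.mp (hg (up 1))
  obtain ⟨s, hs, hsz⟩ := Matrix.SpecialLinearGroup.mem_center_iff.mp (hg (lo 1))
  have hr2 : r ^ 2 = 1 := by simpa using hr
  have hs2 : s ^ 2 = 1 := by simpa using hs
  have e1 := coe_rel g (up 1) _ rfl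
  have e2 := coe_rel g (lo 1) _ rfl
  rw [← hrz, up_coe, mul_up_entries, scal_up_mul] at e1
  rw [← hsz, lo_coe, mul_lo_entries, scal_lo_mul] at e2
  set a := (g : Matrix (Fin 2) (Fin 2) F) 0 0 with ha
  set b := (g : Matrix (Fin 2) (Fin 2) F) 0 1 with hb
  set c := (g : Matrix (Fin 2) (Fin 2) F) 1 0 with hc
  set d := (g : Matrix (Fin 2) (Fin 2) F) 1 1 with hd
  have a00 : a = r * (a + c) := congrFun (congrFun e1 0) 0
  have a01 : a + b = r * (b + d) := congrFun (congrFun e1 0) 1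
  have a10 : c = r * c := congrFun (congrFun e1 1) 0
  have b00 : a + b = s * a := congrFun (congrFun e2 0) 0
  have b01 : b = s * b := congrFun (congrFun e2 0) 1
  have hr' : (r - 1) * (r + 1) = 0 := by linear_combination hr2
  have hs' : (s - 1) * (s + 1) = 0 := by linear_combination hs2
  have hc0 : c = 0 ∧ a = d := by
    rcases mul_eq_zero.mp hr' with h | h
    · have hr1 : r = 1 := by linear_combination h
      rw [hr1] at a00 a01
      constructor
      · linear_combination -a00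
      · linear_combination a01
    · exfalso
      have hr1 : r = -1 := by linear_combination h
      rw [hr1] at a00 a10
      have hc0 : c = 0 := by
        have : 2 * c = 0 := by linear_combination a10
        rcases mul_eq_zero.mp this with h' | h'
        · exact absurd h' h2
        · exact h'
      have ha0 : a = 0 := by
        have : 2 * a = 0 := by linear_combination a00 - hc0
        rcases mul_eq_zero.mp this with h' | h'
        · exact absurd h' h2
        · exact h'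
      rw [ha0, hc0] at hdet
      simp at hdet
  have hb0 : b = 0 := by
    rcases mul_eq_zero.mp hs' with h | h
    · have hs1 : s = 1 := by linear_combination h
      rw [hs1] at b00
      linear_combination b00
    · have hs1 : s = -1 := by linear_combination h
      rw [hs1] at b01
      have : 2 * b = 0 := by linear_combination b01
      rcases mul_eq_zero.mp this with h' | h'
      · exact absurd h' h2
      · exact h'
  obtain ⟨hc0, had⟩ := hc0
  rw [Matrix.SpecialLinearGroup.mem_center_iff]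
  refine ⟨a, ?_, ?_⟩
  · rw [hb0, hc0, ← had] at hdet
    simp only [Fintype.card_fin]
    linear_combination hdet
  · ext i j
    fin_cases i <;> fin_cases j <;> simp [← ha, ← hb, ← hc, ← hd, hb0, hc0, had]

theorem sep_QO (h2 : (2 : F) ≠ 0) (m : ℕ) :
    Cfsg.Agent.Lib.Helper44.QSpace.Sep (Cfsg.Agent.Lib.Helper45.OrthCard.QO (F := F) m) := by
  intro x hx
  apply Cfsg.Agent.Lib.Helper45.OrthCard.nd_QO m x ?_ hx
  have h := hx x
  rw [QuadraticMap.polar_self, two_smul, ← two_mul] at h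
  rcases mul_eq_zero.mp h with h' | h'
  · exact absurd h' h2
  · exact h'

/-- PΩ_3(q) is isomorphic to PSL_2(q) for q odd. -/
theorem result {F : Type*} [Field F] [Fintype F] (hodd : Odd (Fintype.card F)) : Nonempty (Cfsg.POmega F (Cfsg.quadFormOdd 1 F) ≃* Matrix.ProjectiveSpecialLinearGroup (Fin 2) F) := by
  classical
  have h2 : (2 : F) ≠ 0 := by
    intro h
    have : CharP F 2 := CharTwo.of_one_ne_zero_of_two_eq_zero one_ne_zero h
    have h3 := FiniteField.even_card_of_char_two (ringChar.eq F 2)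
    rcases hodd with ⟨k, hk⟩
    omega
  set q := Fintype.card F with hq
  have hq1 : 1 < q := Fintype.one_lt_card
  have hO : Nat.card (Cfsg.isometryGroup F (Cfsg.quadFormOdd 1 F)) = 2 * q * (q ^ 2 - 1) := by
    have h := Cfsg.Agent.Lib.Helper45.OrthCard.card_odd (F := F) rfl hodd 1
    rw [h]
    simp [hq]
  have hidx : (Cfsg.Omega F (Cfsg.quadFormOdd 1 F)).index = 4 := by
    have h := Cfsg.Agent.Lib.Helper14.OrthIndex.index_omega h2
      (Cfsg.Agent.Lib.Helper45.OrthCard.QO (F := F) 1) (sep_QO h2 1) (by simp)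
    rwa [Cfsg.Agent.Lib.Helper45.OrthCard.QO_coe] at h
  have hΩ : Nat.card (Cfsg.Omega F (Cfsg.quadFormOdd 1 F)) * 4 = 2 * q * (q ^ 2 - 1) := by
    rw [← hidx, Subgroup.card_mul_index, hO]
  have hSL := Cfsg.Agent.Lib.Helper5.SL2Card.card_SL_two (F := F) (q := q) rfl
  have hZ := Cfsg.Agent.Lib.Helper5.SL2Card.card_center_SL_two (F := F) (q := q) rfl
  have hgcd : Nat.gcd 2 (q - 1) = 2 := by
    rcases hodd with ⟨k, hk⟩
    have : q - 1 = 2 * k := by omega
    rw [this]
    exact Nat.gcd_mul_right_right k 2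
  rw [hgcd] at hZ
  have hrange : Nat.card (ρ (F := F)).range * 2 = q * (q ^ 2 - 1) := by
    have h1 := Subgroup.card_eq_card_quotient_mul_card_subgroup
      (Subgroup.center (Matrix.SpecialLinearGroup (Fin 2) F))
    rw [hZ, hSL] at h1
    rw [← Nat.card_congr (QuotientGroup.quotientKerEquivRange (ρ (F := F))).toEquiv, ker_eq]
    exact h1.symm
  have hle : (ρ (F := F)).range ≤ commutator (Cfsg.isometryGroup F (Cfsg.quadFormOdd 1 F)) := by
    rintro _ ⟨g, rfl⟩
    exact ρ_mem_comm h2 g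
  have heq : (ρ (F := F)).range = commutator (Cfsg.isometryGroup F (Cfsg.quadFormOdd 1 F)) := by
    apply Subgroup.eq_of_le_of_card_ge hle
    have h4 : Nat.card (commutator (Cfsg.isometryGroup F (Cfsg.quadFormOdd 1 F))) * 4 =
        2 * q * (q ^ 2 - 1) := hΩ
    have : Nat.card (commutator (Cfsg.isometryGroup F (Cfsg.quadFormOdd 1 F))) * 4 =
        Nat.card (ρ (F := F)).range * 4 := by
      rw [h4]
      have := hrange
      nlinarith
    omega
  let f : Matrix.SpecialLinearGroup (Fin 2) F →* ↥(Cfsg.Omega F (Cfsg.quadFormOdd 1 F)) :=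
    (ρ (F := F)).codRestrict _ (ρ_mem_comm h2)
  have hf : Function.Surjective f := by
    rintro ⟨y, hy⟩
    have hy' : y ∈ (ρ (F := F)).range := by
      rw [heq]
      exact hy
    obtain ⟨g, rfl⟩ := hy'
    exact ⟨g, rfl⟩
  have hker : f.ker = Subgroup.center (Matrix.SpecialLinearGroup (Fin 2) F) := by
    rw [← ker_eq]
    ext g
    rw [MonoidHom.mem_ker, MonoidHom.mem_ker]
    constructor
    · intro h
      exact congrArg Subtype.val h
    · intro h
      exact Subtype.ext h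
  exact Cfsg.Agent.Lib.Helper5.OmegaIso.quot_center_equiv f hf
    (fun g hg => center_of_comm h2 g (fun h => by rw [← hker]; exact hg h))

end Cfsg.Agent.S0298
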