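import Cfsg.Statements.S0299
import Mathlib
import Cfsg.Agent.Lib.Helper5.OmegaIso
import Cfsg.Agent.Lib.Helper5.OmegaPlus
import Cfsg.Agent.Lib.Helper5.SL2Card
import Cfsg.Agent.Lib.Helper5.SLGen
import Cfsg.Agent.S0260

set_option autoImplicit false
open Cfsg

namespace Cfsg.Agent.S0299

open Matrix
open scoped commutatorElement
open Cfsg.Agent.S0260 (up lo up_coe lo_coe up_mul h01 h10)

variable {F : Type*} [Field F]

/-- index type of the form -/
abbrev I4 : Type := Fin 2 ⊕ Fin 2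

/-- relabelling -/
def e4 : Fin 4 ≃ I4 where
  toFun i := ![Sum.inl 0, Sum.inl 1, Sum.inr 0, Sum.inr 1] i
  invFun j := match j with
    | Sum.inl i => ![0, 1] i
    | Sum.inr i => ![2, 3] i
  left_inv := by intro i; fin_cases i <;> rfl
  right_inv := by rintro (i | i) <;> fin_cases i <;> rfl

/-- matrix of `X ↦ g X adj(h)` on `X = [[u0, -u1], [u3, u2]]` -/
def T (g h : Matrix (Fin 2) (Fin 2) F) : Matrix (Fin 4) (Fin 4) F :=
  !![g 0 0 * h 1 1, g 0 0 * h 1 0, -(g 0 1 * h 1 0), g 0 1 * h 1 1;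
     g 0 0 * h 0 1, g 0 0 * h 0 0, -(g 0 1 * h 0 0), g 0 1 * h 0 1;
     -(g 1 0 * h 0 1), -(g 1 0 * h 0 0), g 1 1 * h 0 0, -(g 1 1 * h 0 1);
     g 1 0 * h 1 1, g 1 0 * h 1 0, -(g 1 1 * h 1 0), g 1 1 * h 1 1]

theorem T_mul (g g' h h' : Matrix (Fin 2) (Fin 2) F) :
    T (g * g') (h * h') = T g h * T g' h' := by
  ext i j
  fin_cases i <;> fin_cases j <;>
    simp [T, Matrix.mul_apply, Fin.sum_univ_two, Fin.sum_univ_four] <;> ring

theorem T_one : T (1 : Matrix (Fin 2) (Fin 2) F) 1 = 1 := by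
  ext i j
  fin_cases i <;> fin_cases j <;> simp [T]

/-- the form on `Fin 4` -/
def Q4 (u : Fin 4 → F) : F := u 0 * u 2 + u 1 * u 3

theorem T_iso (g h : Matrix (Fin 2) (Fin 2) F) (hg : g.det = 1) (hh : h.det = 1)
    (u : Fin 4 → F) : Q4 (T g h *ᵥ u) = Q4 u := by
  rw [Matrix.det_fin_two] at hg hh
  simp [Q4, T, Matrix.mulVec, dotProduct, Fin.sum_univ_four]
  linear_combination ((h 0 0 * h 1 1 - h 0 1 * h 1 0) * (u 0 * u 2 + u 1 * u 3)) * hg +
    (u 0 * u 2 + u 1 * u 3) * hh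

theorem quad_eq (v : I4 → F) : Cfsg.quadFormPlus 2 F v = Q4 (v ∘ e4) := by
  simp [Cfsg.quadFormPlus, Q4, e4, Fin.sum_univ_two]

theorem iso_of_fin4 (M : Matrix (Fin 4) (Fin 4) F) (hM : ∀ u, Q4 (M *ᵥ u) = Q4 u) (v : I4 → F) :
    Cfsg.quadFormPlus 2 F (M.submatrix e4.symm e4.symm *ᵥ v) = Cfsg.quadFormPlus 2 F v := by
  rw [quad_eq, quad_eq, Matrix.submatrix_mulVec_equiv]
  have : ((M *ᵥ (v ∘ ⇑e4.symm.symm)) ∘ ⇑e4.symm) ∘ ⇑e4 = M *ᵥ (v ∘ e4) := by
    funext i
    simp
  rw [this, hM]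

/-- the representation, as matrices -/
def ρ₀ : Matrix.SpecialLinearGroup (Fin 2) F × Matrix.SpecialLinearGroup (Fin 2) F →*
    Matrix I4 I4 F where
  toFun p := (T (p.1 : Matrix (Fin 2) (Fin 2) F) (p.2 : Matrix (Fin 2) (Fin 2) F)).submatrix
    e4.symm e4.symm
  map_one' := by
    show (T ((1 : Matrix.SpecialLinearGroup (Fin 2) F) : Matrix (Fin 2) (Fin 2) F)
      ((1 : Matrix.SpecialLinearGroup (Fin 2) F) : Matrix (Fin 2) (Fin 2) F)).submatrix
        e4.symm e4.symm = 1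
    rw [Matrix.SpecialLinearGroup.coe_one, T_one, Matrix.submatrix_one_equiv]
  map_mul' p p' := by
    show (T ((p.1 * p'.1 : Matrix.SpecialLinearGroup (Fin 2) F) : Matrix (Fin 2) (Fin 2) F)
      ((p.2 * p'.2 : Matrix.SpecialLinearGroup (Fin 2) F) : Matrix (Fin 2) (Fin 2) F)).submatrix
        e4.symm e4.symm = _
    rw [Matrix.SpecialLinearGroup.coe_mul, Matrix.SpecialLinearGroup.coe_mul, T_mul,
      Matrix.submatrix_mul_equiv]

theorem ρ₀_mem (p : Matrix.SpecialLinearGroup (Fin 2) F × Matrix.SpecialLinearGroup (Fin 2) F) :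
    (ρ₀ (F := F)).toHomUnits p ∈ Cfsg.isometryGroup F (Cfsg.quadFormPlus 2 F) := by
  intro u _
  exact iso_of_fin4 _ (T_iso _ _ p.1.det_coe p.2.det_coe) u

/-- the representation into the isometry group -/
def ρ : Matrix.SpecialLinearGroup (Fin 2) F × Matrix.SpecialLinearGroup (Fin 2) F →*
    Cfsg.isometryGroup F (Cfsg.quadFormPlus 2 F) :=
  (ρ₀ (F := F)).toHomUnits.codRestrict _ ρ₀_mem

theorem ρ_coe (p : Matrix.SpecialLinearGroup (Fin 2) F × Matrix.SpecialLinearGroup (Fin 2) F) :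
    (((ρ p : Cfsg.isometryGroup F (Cfsg.quadFormPlus 2 F)) : GL I4 F) : Matrix I4 I4 F) =
      (T (p.1 : Matrix (Fin 2) (Fin 2) F) (p.2 : Matrix (Fin 2) (Fin 2) F)).submatrix
        e4.symm e4.symm := rfl

/-- `diag(1, s, 1, s⁻¹)` -/
def D4 (s : F) : Matrix (Fin 4) (Fin 4) F := !![1, 0, 0, 0; 0, s, 0, 0; 0, 0, 1, 0; 0, 0, 0, s⁻¹]

theorem D4_mul (s : F) (hs : s ≠ 0) : D4 s * D4 s⁻¹ = 1 := by
  ext i j
  fin_cases i <;> fin_cases j <;> simp [D4, Matrix.mul_apply, Fin.sum_univ_four, hs]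

theorem D4_iso (s : F) (hs : s ≠ 0) (u : Fin 4 → F) : Q4 (D4 s *ᵥ u) = Q4 u := by
  simp [Q4, D4, Matrix.mulVec, dotProduct, Fin.sum_univ_four]
  field_simp

/-- the isometry `diag(1, s, 1, s⁻¹)` -/
def δ (s : F) (hs : s ≠ 0) : Cfsg.isometryGroup F (Cfsg.quadFormPlus 2 F) :=
  ⟨⟨(D4 s).submatrix e4.symm e4.symm, (D4 s⁻¹).submatrix e4.symm e4.symm,
    by rw [Matrix.submatrix_mul_equiv, D4_mul s hs, Matrix.submatrix_one_equiv],
    by
      rw [Matrix.submatrix_mul_equiv]
      have := D4_mul s⁻¹ (inv_ne_zero hs)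
      rw [inv_inv] at this
      rw [this, Matrix.submatrix_one_equiv]⟩,
   fun u _ => iso_of_fin4 _ (D4_iso s hs) u⟩

theorem rel_of_mat (s : F) (hs : s ≠ 0)
    (p p' : Matrix.SpecialLinearGroup (Fin 2) F × Matrix.SpecialLinearGroup (Fin 2) F)
    (h : D4 s * T (p.1 : Matrix (Fin 2) (Fin 2) F) (p.2 : Matrix (Fin 2) (Fin 2) F) =
      T (p'.1 : Matrix (Fin 2) (Fin 2) F) (p'.2 : Matrix (Fin 2) (Fin 2) F) * D4 s) :
    δ s hs * ρ p = ρ p' * δ s hs := by
  apply Subtype.ext
  apply Units.ext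
  show (D4 s).submatrix e4.symm e4.symm *
      (T (p.1 : Matrix (Fin 2) (Fin 2) F) (p.2 : Matrix (Fin 2) (Fin 2) F)).submatrix
        e4.symm e4.symm =
    (T (p'.1 : Matrix (Fin 2) (Fin 2) F) (p'.2 : Matrix (Fin 2) (Fin 2) F)).submatrix
        e4.symm e4.symm * (D4 s).submatrix e4.symm e4.symm
  rw [Matrix.submatrix_mul_equiv, Matrix.submatrix_mul_equiv, h]

theorem δ_up_left (s : F) (hs : s ≠ 0) (c : F) :
    δ s hs * ρ (up c, 1) = ρ (up (s * c), 1) * δ s hs := by
  apply rel_of_mat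
  show D4 s * T ((up c : Matrix.SpecialLinearGroup (Fin 2) F) : Matrix (Fin 2) (Fin 2) F)
    ((1 : Matrix.SpecialLinearGroup (Fin 2) F) : Matrix (Fin 2) (Fin 2) F) =
    T ((up (s * c) : Matrix.SpecialLinearGroup (Fin 2) F) : Matrix (Fin 2) (Fin 2) F)
    ((1 : Matrix.SpecialLinearGroup (Fin 2) F) : Matrix (Fin 2) (Fin 2) F) * D4 s
  rw [up_coe, up_coe, Matrix.SpecialLinearGroup.coe_one]
  ext i j
  fin_cases i <;> fin_cases j <;> simp [T, D4, Matrix.mul_apply, Fin.sum_univ_four]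
  all_goals field_simp

theorem δ_lo_left (s : F) (hs : s ≠ 0) (c : F) :
    δ s hs * ρ (lo c, 1) = ρ (lo (c / s), 1) * δ s hs := by
  apply rel_of_mat
  show D4 s * T ((lo c : Matrix.SpecialLinearGroup (Fin 2) F) : Matrix (Fin 2) (Fin 2) F)
    ((1 : Matrix.SpecialLinearGroup (Fin 2) F) : Matrix (Fin 2) (Fin 2) F) =
    T ((lo (c / s) : Matrix.SpecialLinearGroup (Fin 2) F) : Matrix (Fin 2) (Fin 2) F)
    ((1 : Matrix.SpecialLinearGroup (Fin 2) F) : Matrix (Fin 2) (Fin 2) F) * D4 s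
  rw [lo_coe, lo_coe, Matrix.SpecialLinearGroup.coe_one]
  ext i j
  fin_cases i <;> fin_cases j <;> simp [T, D4, Matrix.mul_apply, Fin.sum_univ_four]
  all_goals field_simp

theorem δ_up_right (s : F) (hs : s ≠ 0) (c : F) :
    δ s hs * ρ (1, up c) = ρ (1, up (s * c)) * δ s hs := by
  apply rel_of_mat
  show D4 s * T ((1 : Matrix.SpecialLinearGroup (Fin 2) F) : Matrix (Fin 2) (Fin 2) F)
    ((up c : Matrix.SpecialLinearGroup (Fin 2) F) : Matrix (Fin 2) (Fin 2) F) =
    T ((1 : Matrix.SpecialLinearGroup (Fin 2) F) : Matrix (Fin 2) (Fin 2) F)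
    ((up (s * c) : Matrix.SpecialLinearGroup (Fin 2) F) : Matrix (Fin 2) (Fin 2) F) * D4 s
  rw [up_coe, up_coe, Matrix.SpecialLinearGroup.coe_one]
  ext i j
  fin_cases i <;> fin_cases j <;> simp [T, D4, Matrix.mul_apply, Fin.sum_univ_four]
  all_goals field_simp

theorem δ_lo_right (s : F) (hs : s ≠ 0) (c : F) :
    δ s hs * ρ (1, lo c) = ρ (1, lo (c / s)) * δ s hs := by
  apply rel_of_mat
  show D4 s * T ((1 : Matrix.SpecialLinearGroup (Fin 2) F) : Matrix (Fin 2) (Fin 2) F)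
    ((lo c : Matrix.SpecialLinearGroup (Fin 2) F) : Matrix (Fin 2) (Fin 2) F) =
    T ((1 : Matrix.SpecialLinearGroup (Fin 2) F) : Matrix (Fin 2) (Fin 2) F)
    ((lo (c / s) : Matrix.SpecialLinearGroup (Fin 2) F) : Matrix (Fin 2) (Fin 2) F) * D4 s
  rw [lo_coe, lo_coe, Matrix.SpecialLinearGroup.coe_one]
  ext i j
  fin_cases i <;> fin_cases j <;> simp [T, D4, Matrix.mul_apply, Fin.sum_univ_four]
  all_goals field_simp

theorem lo_mul (s t : F) : (lo s : Matrix.SpecialLinearGroup (Fin 2) F) * lo t = lo (s + t) := by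
  ext i j
  rw [Matrix.SpecialLinearGroup.coe_mul, lo_coe, lo_coe, lo_coe]
  fin_cases i <;> fin_cases j <;> simp [Matrix.mul_apply, Fin.sum_univ_two, add_comm]

theorem comm_of_rel {G : Type*} [Group G] (d x x' : G) (h : d * x = x' * d) :
    ⁅d, x⁆ = x' * x⁻¹ := by
  rw [commutatorElement_def, h]
  group

theorem exists_s [Fintype F] (hF : 3 ≤ Fintype.card F) : ∃ s : F, s ≠ 0 ∧ s ≠ 1 := by
  classical
  by_contra hne
  push Not at hne
  have h01 : ∀ s : F, s ∈ ({0, 1} : Finset F) := by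
    intro s
    by_cases h : s = 0
    · simp [h]
    · simp [hne s h]
  have : Fintype.card F ≤ 2 := by
    calc Fintype.card F = (Finset.univ : Finset F).card := rfl
      _ ≤ ({0, 1} : Finset F).card := Finset.card_le_card (fun s _ => h01 s)
      _ ≤ 2 := Finset.card_le_two
  omega

theorem ρL_mem (s : F) (hs0 : s ≠ 0) (hs1 : s ≠ 1) (g : Matrix.SpecialLinearGroup (Fin 2) F) :
    ρ (g, 1) ∈ commutator (Cfsg.isometryGroup F (Cfsg.quadFormPlus 2 F)) := by
  have hs1' : s - 1 ≠ 0 := sub_ne_zero.mpr hs1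
  have hs1'' : 1 - s ≠ 0 := sub_ne_zero.mpr (Ne.symm hs1)
  induction g using Cfsg.Agent.Lib.Helper5.SLGen.transvection_induction with
  | htransvec i j h c =>
    fin_cases i <;> fin_cases j
    · exact absurd rfl h
    · show ρ (up c, 1) ∈ _
      have h1 : ρ ((up c : Matrix.SpecialLinearGroup (Fin 2) F),
          (1 : Matrix.SpecialLinearGroup (Fin 2) F)) =
          ⁅δ s hs0, ρ ((up (c / (s - 1)) : Matrix.SpecialLinearGroup (Fin 2) F),
            (1 : Matrix.SpecialLinearGroup (Fin 2) F))⁆ := by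
        rw [comm_of_rel _ _ _ (δ_up_left s hs0 (c / (s - 1))), ← map_inv, ← map_mul]
        congr 1
        rw [eq_mul_inv_iff_mul_eq, Prod.mk_mul_mk, up_mul, one_mul]
        congr 2
        field_simp
        ring
      rw [h1, commutator_def]
      exact Subgroup.commutator_mem_commutator (Subgroup.mem_top _) (Subgroup.mem_top _)
    · show ρ (lo c, 1) ∈ _
      have h1 : ρ ((lo c : Matrix.SpecialLinearGroup (Fin 2) F),
          (1 : Matrix.SpecialLinearGroup (Fin 2) F)) =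
          ⁅δ s hs0, ρ ((lo (c * s / (1 - s)) : Matrix.SpecialLinearGroup (Fin 2) F),
            (1 : Matrix.SpecialLinearGroup (Fin 2) F))⁆ := by
        rw [comm_of_rel _ _ _ (δ_lo_left s hs0 (c * s / (1 - s))), ← map_inv, ← map_mul]
        congr 1
        rw [eq_mul_inv_iff_mul_eq, Prod.mk_mul_mk, lo_mul, one_mul]
        congr 2
        field_simp
        ring
      rw [h1, commutator_def]
      exact Subgroup.commutator_mem_commutator (Subgroup.mem_top _) (Subgroup.mem_top _)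
    · exact absurd rfl h
  | hmul A B hA hB =>
    have : ((A * B, 1) : Matrix.SpecialLinearGroup (Fin 2) F × Matrix.SpecialLinearGroup (Fin 2) F)
        = (A, 1) * (B, 1) := by
      rw [Prod.mk_mul_mk, mul_one]
    rw [this, map_mul]
    exact Subgroup.mul_mem _ hA hB

theorem ρR_mem (s : F) (hs0 : s ≠ 0) (hs1 : s ≠ 1) (g : Matrix.SpecialLinearGroup (Fin 2) F) :
    ρ (1, g) ∈ commutator (Cfsg.isometryGroup F (Cfsg.quadFormPlus 2 F)) := by
  have hs1' : s - 1 ≠ 0 := sub_ne_zero.mpr hs1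
  have hs1'' : 1 - s ≠ 0 := sub_ne_zero.mpr (Ne.symm hs1)
  induction g using Cfsg.Agent.Lib.Helper5.SLGen.transvection_induction with
  | htransvec i j h c =>
    fin_cases i <;> fin_cases j
    · exact absurd rfl h
    · show ρ (1, up c) ∈ _
      have h1 : ρ ((1 : Matrix.SpecialLinearGroup (Fin 2) F),
          (up c : Matrix.SpecialLinearGroup (Fin 2) F)) =
          ⁅δ s hs0, ρ ((1 : Matrix.SpecialLinearGroup (Fin 2) F),
            (up (c / (s - 1)) : Matrix.SpecialLinearGroup (Fin 2) F))⁆ := by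
        rw [comm_of_rel _ _ _ (δ_up_right s hs0 (c / (s - 1))), ← map_inv, ← map_mul]
        congr 1
        rw [eq_mul_inv_iff_mul_eq, Prod.mk_mul_mk, up_mul, one_mul]
        congr 2
        field_simp
        ring
      rw [h1, commutator_def]
      exact Subgroup.commutator_mem_commutator (Subgroup.mem_top _) (Subgroup.mem_top _)
    · show ρ (1, lo c) ∈ _
      have h1 : ρ ((1 : Matrix.SpecialLinearGroup (Fin 2) F),
          (lo c : Matrix.SpecialLinearGroup (Fin 2) F)) =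
          ⁅δ s hs0, ρ ((1 : Matrix.SpecialLinearGroup (Fin 2) F),
            (lo (c * s / (1 - s)) : Matrix.SpecialLinearGroup (Fin 2) F))⁆ := by
        rw [comm_of_rel _ _ _ (δ_lo_right s hs0 (c * s / (1 - s))), ← map_inv, ← map_mul]
        congr 1
        rw [eq_mul_inv_iff_mul_eq, Prod.mk_mul_mk, lo_mul, one_mul]
        congr 2
        field_simp
        ring
      rw [h1, commutator_def]
      exact Subgroup.commutator_mem_commutator (Subgroup.mem_top _) (Subgroup.mem_top _)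
    · exact absurd rfl h
  | hmul A B hA hB =>
    have : ((1, A * B) : Matrix.SpecialLinearGroup (Fin 2) F × Matrix.SpecialLinearGroup (Fin 2) F)
        = (1, A) * (1, B) := by
      rw [Prod.mk_mul_mk, mul_one]
    rw [this, map_mul]
    exact Subgroup.mul_mem _ hA hB

theorem T_scalar (r r' : F) :
    T (Matrix.scalar (Fin 2) r) (Matrix.scalar (Fin 2) r') =
      (r * r') • (1 : Matrix (Fin 4) (Fin 4) F) := by
  ext i j
  fin_cases i <;> fin_cases j <;> simp [T]

/-- the diagonal embedding -/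
def diagHom : Matrix.SpecialLinearGroup (Fin 2) F →*
    Matrix.SpecialLinearGroup (Fin 2) F × Matrix.SpecialLinearGroup (Fin 2) F :=
  MonoidHom.prod (MonoidHom.id _) (MonoidHom.id _)

theorem diagHom_apply (g : Matrix.SpecialLinearGroup (Fin 2) F) : diagHom g = (g, g) := rfl

theorem ker_eq : (ρ (F := F)).ker =
    (Subgroup.center (Matrix.SpecialLinearGroup (Fin 2) F)).map diagHom := by
  ext ⟨g, h⟩
  rw [MonoidHom.mem_ker, Subgroup.mem_map]
  have hdg := g.det_coe
  have hdh := h.det_coe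
  rw [Matrix.det_fin_two] at hdg hdh
  constructor
  · intro hρ
    have H : (T (g : Matrix (Fin 2) (Fin 2) F) (h : Matrix (Fin 2) (Fin 2) F)).submatrix
        e4.symm e4.symm = 1 := by
      have h1 := ρ_coe (F := F) (g, h)
      rw [hρ] at h1
      exact h1.symm
    have H' : T (g : Matrix (Fin 2) (Fin 2) F) (h : Matrix (Fin 2) (Fin 2) F) = 1 := by
      have := congrArg (fun M : Matrix I4 I4 F => M.submatrix e4 e4) H
      simpa using this
    have h00 : (g : Matrix (Fin 2) (Fin 2) F) 0 0 * (h : Matrix (Fin 2) (Fin 2) F) 1 1 = 1 := by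
      have := congrFun (congrFun H' 0) 0
      simpa [T] using this
    have h11 : (g : Matrix (Fin 2) (Fin 2) F) 0 0 * (h : Matrix (Fin 2) (Fin 2) F) 0 0 = 1 := by
      have := congrFun (congrFun H' 1) 1
      simpa [T] using this
    have h33 : (g : Matrix (Fin 2) (Fin 2) F) 1 1 * (h : Matrix (Fin 2) (Fin 2) F) 1 1 = 1 := by
      have := congrFun (congrFun H' 3) 3
      simpa [T] using this
    have h01 : (g : Matrix (Fin 2) (Fin 2) F) 0 0 * (h : Matrix (Fin 2) (Fin 2) F) 1 0 = 0 := by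
      have := congrFun (congrFun H' 0) 1
      simpa [T] using this
    have h03 : (g : Matrix (Fin 2) (Fin 2) F) 0 1 * (h : Matrix (Fin 2) (Fin 2) F) 1 1 = 0 := by
      have := congrFun (congrFun H' 0) 3
      simpa [T] using this
    have h10 : (g : Matrix (Fin 2) (Fin 2) F) 0 0 * (h : Matrix (Fin 2) (Fin 2) F) 0 1 = 0 := by
      have := congrFun (congrFun H' 1) 0
      simpa [T] using this
    have h30 : (g : Matrix (Fin 2) (Fin 2) F) 1 0 * (h : Matrix (Fin 2) (Fin 2) F) 1 1 = 0 := by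
      have := congrFun (congrFun H' 3) 0
      simpa [T] using this
    set a := (g : Matrix (Fin 2) (Fin 2) F) 0 0 with ha
    set b := (g : Matrix (Fin 2) (Fin 2) F) 0 1 with hb
    set c := (g : Matrix (Fin 2) (Fin 2) F) 1 0 with hc
    set d := (g : Matrix (Fin 2) (Fin 2) F) 1 1 with hd
    set a' := (h : Matrix (Fin 2) (Fin 2) F) 0 0 with ha'
    set b' := (h : Matrix (Fin 2) (Fin 2) F) 0 1 with hb'
    set c' := (h : Matrix (Fin 2) (Fin 2) F) 1 0 with hc'
    set d' := (h : Matrix (Fin 2) (Fin 2) F) 1 1 with hd'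
    have ha0 : a ≠ 0 := left_ne_zero_of_mul_eq_one h00
    have hd0 : d' ≠ 0 := right_ne_zero_of_mul_eq_one h00
    have hc'0 : c' = 0 := (mul_eq_zero.mp h01).resolve_left ha0
    have hb0 : b = 0 := (mul_eq_zero.mp h03).resolve_right hd0
    have hb'0 : b' = 0 := (mul_eq_zero.mp h10).resolve_left ha0
    have hc0 : c = 0 := (mul_eq_zero.mp h30).resolve_right hd0
    have had' : a' = d' := mul_left_cancel₀ ha0 (h11.trans h00.symm)
    have hda : d = a := mul_right_cancel₀ hd0 (h33.trans h00.symm)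
    have haa : a * a = 1 := by
      rw [hb0, hda] at hdg
      linear_combination hdg
    have ha'a : a' = a := by
      linear_combination a * h11 - a' * haa
    refine ⟨g, ?_, ?_⟩
    · rw [Matrix.SpecialLinearGroup.mem_center_iff]
      refine ⟨a, by simp only [Fintype.card_fin]; linear_combination haa, ?_⟩
      ext i j
      fin_cases i <;> fin_cases j <;> simp [← ha, ← hb, ← hc, ← hd, hb0, hc0, hda]
    · rw [diagHom_apply]
      refine Prod.ext rfl ?_
      show g = h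
      ext i j
      fin_cases i <;> fin_cases j <;>
        simp [← ha, ← hb, ← hc, ← hd, ← ha', ← hb', ← hc', ← hd', hb0, hc0, hb'0, hc'0, hda,
          ha'a, ← had']
  · rintro ⟨z, hz, hzp⟩
    rw [diagHom_apply] at hzp
    obtain ⟨rfl, rfl⟩ := Prod.mk.inj hzp
    obtain ⟨r, hr, hrz⟩ := Matrix.SpecialLinearGroup.mem_center_iff.mp hz
    have hr2 : r * r = 1 := by
      have : r ^ 2 = 1 := by simpa using hr
      linear_combination this
    apply Subtype.ext
    apply Units.ext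
    show (T (z : Matrix (Fin 2) (Fin 2) F) (z : Matrix (Fin 2) (Fin 2) F)).submatrix
      e4.symm e4.symm = 1
    rw [← hrz, T_scalar, hr2, one_smul, Matrix.submatrix_one_equiv]

theorem center_of_comm
    (p : Matrix.SpecialLinearGroup (Fin 2) F × Matrix.SpecialLinearGroup (Fin 2) F)
    (hp : ∀ p' : Matrix.SpecialLinearGroup (Fin 2) F × Matrix.SpecialLinearGroup (Fin 2) F,
      p * p' * p⁻¹ * p'⁻¹ ∈ (ρ (F := F)).ker) :
    p ∈ Subgroup.center
      (Matrix.SpecialLinearGroup (Fin 2) F × Matrix.SpecialLinearGroup (Fin 2) F) := by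
  obtain ⟨g, h⟩ := p
  rw [Subgroup.mem_center_iff]
  rintro ⟨x, y⟩
  have hx : g * x = x * g := by
    have h1 := hp (x, 1)
    rw [ker_eq, Subgroup.mem_map] at h1
    obtain ⟨z, -, hz⟩ := h1
    rw [diagHom_apply] at hz
    have h2 : z = g * x * g⁻¹ * x⁻¹ := congrArg Prod.fst hz
    have h3 : z = h * 1 * h⁻¹ * 1⁻¹ := congrArg Prod.snd hz
    have h4 : z = 1 := by rw [h3]; group
    rw [h4] at h2
    have : g * x = (g * x * g⁻¹ * x⁻¹) * (x * g) := by group
    rw [this, ← h2, one_mul]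
  have hy : h * y = y * h := by
    have h1 := hp (1, y)
    rw [ker_eq, Subgroup.mem_map] at h1
    obtain ⟨z, -, hz⟩ := h1
    rw [diagHom_apply] at hz
    have h2 : z = h * y * h⁻¹ * y⁻¹ := congrArg Prod.snd hz
    have h3 : z = g * 1 * g⁻¹ * 1⁻¹ := congrArg Prod.fst hz
    have h4 : z = 1 := by rw [h3]; group
    rw [h4] at h2
    have : h * y = (h * y * h⁻¹ * y⁻¹) * (y * h) := by group
    rw [this, ← h2, one_mul]
  exact Prod.ext hx.symm hy.symm

/-- PΩ^+_4(q) is isomorphic to PSL_2(q) x PSL_2(q) for q at least 3. -/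
theorem result {F : Type*} [Field F] [Fintype F] (hF : 3 ≤ Fintype.card F) : Nonempty (Cfsg.POmega F (Cfsg.quadFormPlus 2 F) ≃* Matrix.ProjectiveSpecialLinearGroup (Fin 2) F × Matrix.ProjectiveSpecialLinearGroup (Fin 2) F) := by
  classical
  obtain ⟨s, hs0, hs1⟩ := exists_s hF
  set q := Fintype.card F with hq
  have hle : (ρ (F := F)).range ≤ commutator (Cfsg.isometryGroup F (Cfsg.quadFormPlus 2 F)) := by
    rintro _ ⟨⟨g, h⟩, rfl⟩
    have : ((g, h) : Matrix.SpecialLinearGroup (Fin 2) F × Matrix.SpecialLinearGroup (Fin 2) F)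
        = (g, 1) * (1, h) := by
      rw [Prod.mk_mul_mk, mul_one, one_mul]
    rw [this, map_mul]
    exact Subgroup.mul_mem _ (ρL_mem s hs0 hs1 g) (ρR_mem s hs0 hs1 h)
  have hΩ := Cfsg.Agent.Lib.Helper5.OmegaPlus.card_omega_plus (F := F) (q := q) rfl 1
    (Or.inl (by omega))
  have hΩ' : Nat.card (commutator (Cfsg.isometryGroup F (Cfsg.quadFormPlus 2 F))) *
      Nat.gcd 2 (q - 1) = q ^ 2 * (q ^ 2 - 1) * (q ^ 2 - 1) := by
    have := hΩ
    simp only [Finset.prod_range_one] at this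
    exact this
  have hSL := Cfsg.Agent.Lib.Helper5.SL2Card.card_SL_two (F := F) (q := q) rfl
  have hZ := Cfsg.Agent.Lib.Helper5.SL2Card.card_center_SL_two (F := F) (q := q) rfl
  have hker : Nat.card (ρ (F := F)).ker = Nat.gcd 2 (q - 1) := by
    rw [ker_eq, Subgroup.card_map_of_injective, hZ]
    intro a b hab
    exact congrArg Prod.fst hab
  have hrange : Nat.card (ρ (F := F)).range * Nat.gcd 2 (q - 1) =
      (q * (q ^ 2 - 1)) * (q * (q ^ 2 - 1)) := by
    have h1 := Subgroup.card_eq_card_quotient_mul_card_subgroup (ρ (F := F)).ker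
    rw [Nat.card_prod, hSL, hker,
      Nat.card_congr (QuotientGroup.quotientKerEquivRange (ρ (F := F))).toEquiv] at h1
    exact h1.symm
  have hgpos : 0 < Nat.gcd 2 (q - 1) := Nat.gcd_pos_of_pos_left _ (by norm_num)
  have heq : (ρ (F := F)).range = commutator (Cfsg.isometryGroup F (Cfsg.quadFormPlus 2 F)) := by
    apply Subgroup.eq_of_le_of_card_ge hle
    have : Nat.card (commutator (Cfsg.isometryGroup F (Cfsg.quadFormPlus 2 F))) *
        Nat.gcd 2 (q - 1) = Nat.card (ρ (F := F)).range * Nat.gcd 2 (q - 1) := by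
      rw [hΩ', hrange]
      ring
    exact (Nat.eq_of_mul_eq_mul_right hgpos this).le
  let f : Matrix.SpecialLinearGroup (Fin 2) F × Matrix.SpecialLinearGroup (Fin 2) F →*
      ↥(Cfsg.Omega F (Cfsg.quadFormPlus 2 F)) :=
    (ρ (F := F)).codRestrict _ (fun p => hle ⟨p, rfl⟩)
  have hf : Function.Surjective f := by
    rintro ⟨y, hy⟩
    have hy' : y ∈ (ρ (F := F)).range := by
      rw [heq]
      exact hy
    obtain ⟨g, rfl⟩ := hy'
    exact ⟨g, rfl⟩
  have hkerf : f.ker = (ρ (F := F)).ker := by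
    ext g
    rw [MonoidHom.mem_ker, MonoidHom.mem_ker]
    constructor
    · intro h
      exact congrArg Subtype.val h
    · intro h
      exact Subtype.ext h
  obtain ⟨e1⟩ := Cfsg.Agent.Lib.Helper5.OmegaIso.quot_center_equiv f hf
    (fun g hg => center_of_comm g (fun h => by rw [← hkerf]; exact hg h))
  obtain ⟨e2⟩ := Cfsg.Agent.Lib.Helper5.OmegaPlus.prod_quot_center
    (Matrix.SpecialLinearGroup (Fin 2) F) (Matrix.SpecialLinearGroup (Fin 2) F)
  exact ⟨e1.trans e2⟩

end Cfsg.Agent.S0299
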