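import Cfsg.Statements.S0302
import Mathlib
import Cfsg.Agent.Lib.Helper5.OmegaIso
import Cfsg.Agent.Lib.Helper5.OmegaPlus
import Cfsg.Agent.Lib.Helper5.SL2Card
import Cfsg.Agent.Lib.Helper5.SLCard
import Cfsg.Agent.Lib.Helper5.SLGen

set_option autoImplicit false
open Cfsg

namespace Cfsg.Agent.S0302

open Matrix

variable {F : Type*} [Field F]

/-- index type of the form -/
abbrev I6 : Type := Fin 3 ⊕ Fin 3

/-- relabelling -/
def e6 : Fin 6 ≃ I6 where
  toFun i := ![Sum.inl 0, Sum.inl 1, Sum.inl 2, Sum.inr 0, Sum.inr 1, Sum.inr 2] i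
  invFun j := match j with
    | Sum.inl i => ![0, 1, 2] i
    | Sum.inr i => ![3, 4, 5] i
  left_inv := by intro i; fin_cases i <;> rfl
  right_inv := by rintro (i | i) <;> fin_cases i <;> rfl

/-- first index of the pair -/
def i1 : Fin 6 → Fin 4 := ![0, 0, 0, 2, 1, 1]

/-- second index of the pair -/
def i2 : Fin 6 → Fin 4 := ![1, 2, 3, 3, 3, 2]

/-- signs -/
def sg : Fin 6 → F := ![1, 1, 1, 1, -1, 1]

/-- the second exterior power in (signed) Plücker coordinates -/
def W (g : Matrix (Fin 4) (Fin 4) F) : Matrix (Fin 6) (Fin 6) F :=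
  Matrix.of fun a b => sg a * sg b *
    (g (i1 a) (i1 b) * g (i2 a) (i2 b) - g (i1 a) (i2 b) * g (i2 a) (i1 b))

set_option maxHeartbeats 1600000 in
theorem W_mul (g h : Matrix (Fin 4) (Fin 4) F) : W (g * h) = W g * W h := by
  ext a b
  fin_cases a <;> fin_cases b <;>
    simp [W, i1, i2, sg, Matrix.mul_apply, Fin.sum_univ_four, Fin.sum_univ_six] <;> ring

theorem W_one : W (1 : Matrix (Fin 4) (Fin 4) F) = 1 := by
  ext a b
  fin_cases a <;> fin_cases b <;> simp [W, i1, i2, sg, Matrix.one_apply]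

/-- the form on `Fin 6` -/
def Q6 (u : Fin 6 → F) : F := u 0 * u 3 + u 1 * u 4 + u 2 * u 5

theorem quad_eq (v : I6 → F) : Cfsg.quadFormPlus 3 F v = Q6 (v ∘ e6) := by
  simp [Cfsg.quadFormPlus, Q6, e6, Fin.sum_univ_three]

theorem iso_of_fin6 (M : Matrix (Fin 6) (Fin 6) F) (hM : ∀ u, Q6 (M *ᵥ u) = Q6 u) (v : I6 → F) :
    Cfsg.quadFormPlus 3 F (M.submatrix e6.symm e6.symm *ᵥ v) = Cfsg.quadFormPlus 3 F v := by
  rw [quad_eq, quad_eq, Matrix.submatrix_mulVec_equiv]
  have : ((M *ᵥ (v ∘ ⇑e6.symm.symm)) ∘ ⇑e6.symm) ∘ ⇑e6 = M *ᵥ (v ∘ e6) := by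
    funext i
    simp
  rw [this, hM]

set_option maxHeartbeats 1600000 in
theorem W_transvection (i j : Fin 4) (hij : i ≠ j) (c : F) (u : Fin 6 → F) :
    Q6 (W (Matrix.transvection i j c) *ᵥ u) = Q6 u := by
  fin_cases i <;> fin_cases j <;>
    first
    | exact absurd rfl hij
    | (simp [Q6, W, i1, i2, sg, Matrix.mulVec, dotProduct, Fin.sum_univ_six, Matrix.transvection,
        Matrix.one_apply, Matrix.single_apply]
       try ring)

theorem W_iso (g : Matrix.SpecialLinearGroup (Fin 4) F) (u : Fin 6 → F) :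
    Q6 (W (g : Matrix (Fin 4) (Fin 4) F) *ᵥ u) = Q6 u := by
  induction g using Cfsg.Agent.Lib.Helper5.SLGen.transvection_induction generalizing u with
  | htransvec i j h c =>
    rw [Matrix.SpecialLinearGroup.transvection_coe]
    exact W_transvection i j h c u
  | hmul A B hA hB =>
    rw [Matrix.SpecialLinearGroup.coe_mul, W_mul, ← Matrix.mulVec_mulVec, hA, hB]

/-- the representation, as matrices -/
def ρ₀ : Matrix.SpecialLinearGroup (Fin 4) F →* Matrix I6 I6 F where
  toFun g := (W (g : Matrix (Fin 4) (Fin 4) F)).submatrix e6.symm e6.symm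
  map_one' := by
    rw [Matrix.SpecialLinearGroup.coe_one, W_one, Matrix.submatrix_one_equiv]
  map_mul' g h := by
    rw [Matrix.SpecialLinearGroup.coe_mul, W_mul, Matrix.submatrix_mul_equiv]

theorem ρ₀_mem (g : Matrix.SpecialLinearGroup (Fin 4) F) :
    (ρ₀ (F := F)).toHomUnits g ∈ Cfsg.isometryGroup F (Cfsg.quadFormPlus 3 F) := by
  intro u _
  exact iso_of_fin6 _ (W_iso g) u

/-- the representation into the isometry group -/
def ρ : Matrix.SpecialLinearGroup (Fin 4) F →* Cfsg.isometryGroup F (Cfsg.quadFormPlus 3 F) :=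
  (ρ₀ (F := F)).toHomUnits.codRestrict _ ρ₀_mem

theorem ρ_coe (g : Matrix.SpecialLinearGroup (Fin 4) F) :
    (((ρ g : Cfsg.isometryGroup F (Cfsg.quadFormPlus 3 F)) : GL I6 F) : Matrix I6 I6 F) =
      (W (g : Matrix (Fin 4) (Fin 4) F)).submatrix e6.symm e6.symm := rfl

set_option maxHeartbeats 1600000 in
/-- the kernel of `W` consists of scalars `r` with `r² = 1` -/
theorem W_ker (gm : Matrix (Fin 4) (Fin 4) F) (hW : W gm = 1) :
    ∃ r : F, r ^ 2 = 1 ∧ Matrix.scalar (Fin 4) r = gm := by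
  have hM00 : gm 0 0 * gm 1 1 - gm 0 1 * gm 1 0 = 1 := by
    have h := congrFun (congrFun hW 0) 0
    simp [W, i1, i2, sg] at h
    first | linear_combination h | linear_combination -h
  have hM01 : gm 0 0 * gm 1 2 - gm 0 2 * gm 1 0 = 0 := by
    have h := congrFun (congrFun hW 0) 1
    simp [W, i1, i2, sg] at h
    first | linear_combination h | linear_combination -h
  have hM02 : gm 0 0 * gm 1 3 - gm 0 3 * gm 1 0 = 0 := by
    have h := congrFun (congrFun hW 0) 2
    simp [W, i1, i2, sg] at h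
    first | linear_combination h | linear_combination -h
  have hM04 : gm 0 1 * gm 1 3 - gm 0 3 * gm 1 1 = 0 := by
    have h := congrFun (congrFun hW 0) 4
    simp [W, i1, i2, sg] at h
    first | linear_combination h | linear_combination -h
  have hM05 : gm 0 1 * gm 1 2 - gm 0 2 * gm 1 1 = 0 := by
    have h := congrFun (congrFun hW 0) 5
    simp [W, i1, i2, sg] at h
    first | linear_combination h | linear_combination -h
  have hM10 : gm 0 0 * gm 2 1 - gm 0 1 * gm 2 0 = 0 := by
    have h := congrFun (congrFun hW 1) 0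
    simp [W, i1, i2, sg] at h
    first | linear_combination h | linear_combination -h
  have hM11 : gm 0 0 * gm 2 2 - gm 0 2 * gm 2 0 = 1 := by
    have h := congrFun (congrFun hW 1) 1
    simp [W, i1, i2, sg] at h
    first | linear_combination h | linear_combination -h
  have hM12 : gm 0 0 * gm 2 3 - gm 0 3 * gm 2 0 = 0 := by
    have h := congrFun (congrFun hW 1) 2
    simp [W, i1, i2, sg] at h
    first | linear_combination h | linear_combination -h
  have hM15 : gm 0 1 * gm 2 2 - gm 0 2 * gm 2 1 = 0 := by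
    have h := congrFun (congrFun hW 1) 5
    simp [W, i1, i2, sg] at h
    first | linear_combination h | linear_combination -h
  have hM20 : gm 0 0 * gm 3 1 - gm 0 1 * gm 3 0 = 0 := by
    have h := congrFun (congrFun hW 2) 0
    simp [W, i1, i2, sg] at h
    first | linear_combination h | linear_combination -h
  have hM21 : gm 0 0 * gm 3 2 - gm 0 2 * gm 3 0 = 0 := by
    have h := congrFun (congrFun hW 2) 1
    simp [W, i1, i2, sg] at h
    first | linear_combination h | linear_combination -h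
  have hM22 : gm 0 0 * gm 3 3 - gm 0 3 * gm 3 0 = 1 := by
    have h := congrFun (congrFun hW 2) 2
    simp [W, i1, i2, sg] at h
    first | linear_combination h | linear_combination -h
  have hM24 : gm 0 1 * gm 3 3 - gm 0 3 * gm 3 1 = 0 := by
    have h := congrFun (congrFun hW 2) 4
    simp [W, i1, i2, sg] at h
    first | linear_combination h | linear_combination -h
  have hM31 : gm 2 0 * gm 3 2 - gm 2 2 * gm 3 0 = 0 := by
    have h := congrFun (congrFun hW 3) 1
    simp [W, i1, i2, sg] at h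
    first | linear_combination h | linear_combination -h
  have hM32 : gm 2 0 * gm 3 3 - gm 2 3 * gm 3 0 = 0 := by
    have h := congrFun (congrFun hW 3) 2
    simp [W, i1, i2, sg] at h
    first | linear_combination h | linear_combination -h
  have hM40 : gm 1 0 * gm 3 1 - gm 1 1 * gm 3 0 = 0 := by
    have h := congrFun (congrFun hW 4) 0
    simp [W, i1, i2, sg] at h
    first | linear_combination h | linear_combination -h
  have hM42 : gm 1 0 * gm 3 3 - gm 1 3 * gm 3 0 = 0 := by
    have h := congrFun (congrFun hW 4) 2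
    simp [W, i1, i2, sg] at h
    first | linear_combination h | linear_combination -h
  have hM44 : gm 1 1 * gm 3 3 - gm 1 3 * gm 3 1 = 1 := by
    have h := congrFun (congrFun hW 4) 4
    simp [W, i1, i2, sg] at h
    first | linear_combination h | linear_combination -h
  have hM50 : gm 1 0 * gm 2 1 - gm 1 1 * gm 2 0 = 0 := by
    have h := congrFun (congrFun hW 5) 0
    simp [W, i1, i2, sg] at h
    first | linear_combination h | linear_combination -h
  have hM51 : gm 1 0 * gm 2 2 - gm 1 2 * gm 2 0 = 0 := by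
    have h := congrFun (congrFun hW 5) 1
    simp [W, i1, i2, sg] at h
    first | linear_combination h | linear_combination -h
  have hM55 : gm 1 1 * gm 2 2 - gm 1 2 * gm 2 1 = 1 := by
    have h := congrFun (congrFun hW 5) 5
    simp [W, i1, i2, sg] at h
    first | linear_combination h | linear_combination -h
  have z01 : gm 0 1 = 0 := by
    linear_combination (-(gm 0 1)) * hM55 + gm 1 1 * hM15 - gm 2 1 * hM05
  have z02 : gm 0 2 = 0 := by
    linear_combination (-(gm 0 2)) * hM55 + (-(gm 2 2)) * hM05 - (-(gm 1 2)) * hM15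
  have z03 : gm 0 3 = 0 := by
    linear_combination (-(gm 0 3)) * hM44 + (-(gm 3 3)) * hM04 - (-(gm 1 3)) * hM24
  have z10 : gm 1 0 = 0 := by
    linear_combination (-(gm 1 0)) * hM11 + gm 0 0 * hM51 - (-(gm 2 0)) * hM01
  have z12 : gm 1 2 = 0 := by
    linear_combination (-(gm 1 2)) * hM11 + gm 2 2 * hM01 - (-(gm 0 2)) * hM51
  have z13 : gm 1 3 = 0 := by
    linear_combination (-(gm 1 3)) * hM22 + gm 3 3 * hM02 - (-(gm 0 3)) * hM42
  have z20 : gm 2 0 = 0 := by
    linear_combination (-(gm 2 0)) * hM00 + (-(gm 0 0)) * hM50 - (-(gm 1 0)) * hM10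
  have z21 : gm 2 1 = 0 := by
    linear_combination (-(gm 2 1)) * hM00 + gm 1 1 * hM10 - gm 0 1 * hM50
  have z23 : gm 2 3 = 0 := by
    linear_combination (-(gm 2 3)) * hM22 + gm 3 3 * hM12 - (-(gm 0 3)) * hM32
  have z30 : gm 3 0 = 0 := by
    linear_combination (-(gm 3 0)) * hM00 + (-(gm 0 0)) * hM40 - (-(gm 1 0)) * hM20
  have z31 : gm 3 1 = 0 := by
    linear_combination (-(gm 3 1)) * hM00 + gm 1 1 * hM20 - gm 0 1 * hM40
  have z32 : gm 3 2 = 0 := by
    linear_combination (-(gm 3 2)) * hM11 + gm 2 2 * hM21 - gm 0 2 * hM31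
  rw [z01, z10] at hM00
  rw [z02, z20] at hM11
  rw [z03, z30] at hM22
  rw [z12, z21] at hM55
  simp only [mul_zero, sub_zero] at hM00 hM11 hM22 hM55
  have h0 : gm 0 0 ≠ 0 := left_ne_zero_of_mul_eq_one hM00
  have e12 : gm 1 1 = gm 2 2 := mul_left_cancel₀ h0 (hM00.trans hM11.symm)
  have e13 : gm 1 1 = gm 3 3 := mul_left_cancel₀ h0 (hM00.trans hM22.symm)
  have h11 : gm 1 1 * gm 1 1 = 1 := by rw [← e12] at hM55; exact hM55
  have e01 : gm 0 0 = gm 1 1 := by linear_combination gm 1 1 * hM00 - gm 0 0 * h11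
  refine ⟨gm 0 0, by rw [e01]; linear_combination h11, ?_⟩
  ext i j
  fin_cases i <;> fin_cases j <;>
    simp [z01, z02, z03, z10, z12, z13, z20, z21, z23, z30, z31, z32, ← e12, ← e13, e01]

theorem ker_le : (ρ (F := F)).ker ≤ Subgroup.center (Matrix.SpecialLinearGroup (Fin 4) F) := by
  intro g hg
  rw [MonoidHom.mem_ker] at hg
  have H : (W (g : Matrix (Fin 4) (Fin 4) F)).submatrix e6.symm e6.symm = 1 := by
    have h1 := ρ_coe (F := F) g
    rw [hg] at h1
    exact h1.symm
  have H' : W (g : Matrix (Fin 4) (Fin 4) F) = 1 := by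
    have := congrArg (fun M : Matrix I6 I6 F => M.submatrix e6 e6) H
    simpa using this
  obtain ⟨r, hr, hrg⟩ := W_ker _ H'
  rw [Matrix.SpecialLinearGroup.mem_center_iff]
  refine ⟨r, ?_, hrg⟩
  simp only [Fintype.card_fin]
  linear_combination (r ^ 2 + 1) * hr

theorem ker_entry (g : (ρ (F := F)).ker) :
    ((g : Matrix.SpecialLinearGroup (Fin 4) F) : Matrix (Fin 4) (Fin 4) F) 0 0 ^ 2 = 1 ∧
    Matrix.scalar (Fin 4)
      (((g : Matrix.SpecialLinearGroup (Fin 4) F) : Matrix (Fin 4) (Fin 4) F) 0 0) =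
      ((g : Matrix.SpecialLinearGroup (Fin 4) F) : Matrix (Fin 4) (Fin 4) F) := by
  have hg := g.2
  rw [MonoidHom.mem_ker] at hg
  have H : (W ((g : Matrix.SpecialLinearGroup (Fin 4) F) : Matrix (Fin 4) (Fin 4) F)).submatrix
      e6.symm e6.symm = 1 := by
    have h1 := ρ_coe (F := F) (g : Matrix.SpecialLinearGroup (Fin 4) F)
    rw [hg] at h1
    exact h1.symm
  have H' : W ((g : Matrix.SpecialLinearGroup (Fin 4) F) : Matrix (Fin 4) (Fin 4) F) = 1 := by
    have := congrArg (fun M : Matrix I6 I6 F => M.submatrix e6 e6) H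
    simpa using this
  obtain ⟨r, hr, hrg⟩ := W_ker _ H'
  have h00 : ((g : Matrix.SpecialLinearGroup (Fin 4) F) : Matrix (Fin 4) (Fin 4) F) 0 0 = r := by
    rw [← hrg]
    simp
  rw [h00]
  exact ⟨hr, hrg⟩

theorem card_ker_le [Fintype F] :
    Nat.card (ρ (F := F)).ker ≤ Nat.gcd 2 (Fintype.card F - 1) := by
  classical
  have hne : ∀ g : (ρ (F := F)).ker,
      ((g : Matrix.SpecialLinearGroup (Fin 4) F) : Matrix (Fin 4) (Fin 4) F) 0 0 ≠ 0 := by
    intro g h0
    have := (ker_entry g).1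
    rw [h0] at this
    simp at this
  let φ : (ρ (F := F)).ker → (powMonoidHom 2 : Fˣ →* Fˣ).ker := fun g =>
    ⟨Units.mk0 _ (hne g), by
      rw [MonoidHom.mem_ker]
      apply Units.ext
      simp only [powMonoidHom_apply, Units.val_pow_eq_pow_val, Units.val_mk0, Units.val_one]
      exact (ker_entry g).1⟩
  have hφ : Function.Injective φ := by
    intro g g' hgg
    have h1 : ((g : Matrix.SpecialLinearGroup (Fin 4) F) : Matrix (Fin 4) (Fin 4) F) 0 0 =
        ((g' : Matrix.SpecialLinearGroup (Fin 4) F) : Matrix (Fin 4) (Fin 4) F) 0 0 := by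
      have := congrArg (fun x : (powMonoidHom 2 : Fˣ →* Fˣ).ker => ((x : Fˣ) : F)) hgg
      simpa [φ] using this
    apply Subtype.ext
    apply Subtype.ext
    rw [← (ker_entry g).2, ← (ker_entry g').2, h1]
  have h2 := Nat.card_le_card_of_injective φ hφ
  rw [IsCyclic.card_powMonoidHom_ker, Cfsg.Agent.Lib.Helper5.SL2Card.card_units (F := F) rfl,
    Nat.gcd_comm] at h2
  exact h2

theorem card_SL4 [Fintype F] {q : ℕ} (hF : Fintype.card F = q) :
    Nat.card (Matrix.SpecialLinearGroup (Fin 4) F) =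
      q ^ 6 * (q ^ 3 - 1) * ((q ^ 2 - 1) * (q ^ 4 - 1)) := by
  classical
  have h := Cfsg.Agent.Lib.Helper5.SLCard.card_SL_mul (F := F) (ι := Fin 4)
  rw [Matrix.card_GL_field, Cfsg.Agent.Lib.Helper5.SL2Card.card_units hF, hF] at h
  have hq : 2 ≤ q := hF ▸ Cfsg.Agent.Lib.Helper5.SL2Card.two_le_card
  have e1 : q ^ 4 - q ^ 1 = q * (q ^ 3 - 1) := by
    rw [Nat.mul_sub, mul_one, pow_one]
    congr 1
    ring
  have e2 : q ^ 4 - q ^ 2 = q ^ 2 * (q ^ 2 - 1) := by
    rw [Nat.mul_sub, mul_one]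
    congr 1
    ring
  have e3 : q ^ 4 - q ^ 3 = q ^ 3 * (q - 1) := by
    rw [Nat.mul_sub, mul_one, ← pow_succ]
  rw [Fin.prod_univ_four] at h
  simp only [Fin.val_zero, Fin.val_one, Fin.val_two, pow_zero] at h
  have e4 : ((3 : Fin 4) : ℕ) = 3 := rfl
  rw [e4, e1, e2, e3] at h
  have hpos : 0 < q - 1 := by omega
  apply Nat.eq_of_mul_eq_mul_right hpos
  rw [h]
  ring

/-- PΩ^+_6(q) is isomorphic to PSL_4(q). -/
theorem result {F : Type*} [Field F] [Fintype F] : Nonempty (Cfsg.POmega F (Cfsg.quadFormPlus 3 F) ≃* Matrix.ProjectiveSpecialLinearGroup (Fin 4) F) := by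
  classical
  set q := Fintype.card F with hq
  have hperf : commutator (Matrix.SpecialLinearGroup (Fin 4) F) = ⊤ :=
    Cfsg.Agent.Lib.Helper5.SLGen.commutator_eq_top_of_three (by simp)
  have hle : (ρ (F := F)).range ≤ commutator (Cfsg.isometryGroup F (Cfsg.quadFormPlus 3 F)) := by
    rintro _ ⟨g, rfl⟩
    have hg : g ∈ commutator (Matrix.SpecialLinearGroup (Fin 4) F) := by
      rw [hperf]
      exact Subgroup.mem_top _
    rw [commutator_def] at hg ⊢
    have h1 : (ρ (F := F)) g ∈ Subgroup.map (ρ (F := F))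
        ⁅(⊤ : Subgroup (Matrix.SpecialLinearGroup (Fin 4) F)),
          (⊤ : Subgroup (Matrix.SpecialLinearGroup (Fin 4) F))⁆ := Subgroup.mem_map_of_mem _ hg
    rw [Subgroup.map_commutator] at h1
    exact Subgroup.commutator_mono le_top le_top h1
  have hΩ := Cfsg.Agent.Lib.Helper5.OmegaPlus.card_omega_plus (F := F) (q := q) rfl 2
    (Or.inr (by norm_num))
  have hΩ' : Nat.card (commutator (Cfsg.isometryGroup F (Cfsg.quadFormPlus 3 F))) *
      Nat.gcd 2 (q - 1) = q ^ 6 * (q ^ 3 - 1) * ((q ^ 2 - 1) * (q ^ 4 - 1)) := by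
    have := hΩ
    simp only [Finset.prod_range_succ, Finset.prod_range_zero, one_mul] at this
    exact this
  have hSL := card_SL4 (F := F) (q := q) rfl
  have hker := card_ker_le (F := F)
  have hrange : Nat.card (ρ (F := F)).range * Nat.card (ρ (F := F)).ker =
      q ^ 6 * (q ^ 3 - 1) * ((q ^ 2 - 1) * (q ^ 4 - 1)) := by
    have h1 := Subgroup.card_eq_card_quotient_mul_card_subgroup (ρ (F := F)).ker
    rw [hSL, Nat.card_congr (QuotientGroup.quotientKerEquivRange (ρ (F := F))).toEquiv] at h1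
    exact h1.symm
  have hgpos : 0 < Nat.gcd 2 (q - 1) := Nat.gcd_pos_of_pos_left _ (by norm_num)
  have heq : (ρ (F := F)).range = commutator (Cfsg.isometryGroup F (Cfsg.quadFormPlus 3 F)) := by
    apply Subgroup.eq_of_le_of_card_ge hle
    have h3 : Nat.card (commutator (Cfsg.isometryGroup F (Cfsg.quadFormPlus 3 F))) *
        Nat.gcd 2 (q - 1) ≤ Nat.card (ρ (F := F)).range * Nat.gcd 2 (q - 1) := by
      rw [hΩ', ← hrange]
      exact Nat.mul_le_mul_left _ hker
    exact Nat.le_of_mul_le_mul_right h3 hgpos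
  let f : Matrix.SpecialLinearGroup (Fin 4) F →* ↥(Cfsg.Omega F (Cfsg.quadFormPlus 3 F)) :=
    (ρ (F := F)).codRestrict _ (fun p => hle ⟨p, rfl⟩)
  have hf : Function.Surjective f := by
    rintro ⟨y, hy⟩
    have hy' : y ∈ (ρ (F := F)).range := by
      rw [heq]
      exact hy
    obtain ⟨g, rfl⟩ := hy'
    exact ⟨g, rfl⟩
  have hkerf : f.ker = (ρ (F := F)).ker := by
    ext g
    rw [MonoidHom.mem_ker, MonoidHom.mem_ker]
    constructor
    · intro h
      exact congrArg Subtype.val h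
    · intro h
      exact Subtype.ext h
  exact Cfsg.Agent.Lib.Helper5.OmegaIso.quot_center_equiv f hf
    (fun g hg => Cfsg.Agent.Lib.Helper5.OmegaIso.mem_center_of_perfect hperf g
      (fun h => ker_le (by rw [← hkerf]; exact hg h)))

end Cfsg.Agent.S0302
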