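import Cfsg.Statements.S0301
import Mathlib
import Cfsg.Agent.Lib.Helper5.OmegaIso
import Cfsg.Agent.Lib.Helper5.SpCard
import Cfsg.Agent.Lib.Helper14.OrthIndex
import Cfsg.Agent.Lib.Helper45.OrthCard
import Cfsg.Agent.S0245
import Cfsg.Agent.S0246
import Cfsg.Agent.S0269
import Cfsg.Agent.S0298
import Cfsg.Agent.S0302

set_option autoImplicit false
open Cfsg

namespace Cfsg.Agent.S0301

open Matrix
open Cfsg.Agent.S0302 (W W_mul W_one Q6 W_iso W_ker)

variable {F : Type*} [Field F]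

/-- index type of the form -/
abbrev I5 : Type := Unit ⊕ (Fin 2 ⊕ Fin 2)

/-- relabelling -/
def e5 : Fin 5 ≃ I5 where
  toFun i := ![Sum.inl (), Sum.inr (Sum.inl 0), Sum.inr (Sum.inl 1), Sum.inr (Sum.inr 0),
    Sum.inr (Sum.inr 1)] i
  invFun j := match j with
    | Sum.inl _ => 0
    | Sum.inr (Sum.inl i) => ![1, 2] i
    | Sum.inr (Sum.inr i) => ![3, 4] i
  left_inv := by intro i; fin_cases i <;> rfl
  right_inv := by
    rintro (⟨⟩ | i | i)
    · rfl
    · fin_cases i <;> rfl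
    · fin_cases i <;> rfl

/-- relabelling -/
def e4 : Fin 4 ≃ Fin 2 ⊕ Fin 2 where
  toFun i := ![Sum.inl 0, Sum.inl 1, Sum.inr 0, Sum.inr 1] i
  invFun j := match j with
    | Sum.inl i => ![0, 1] i
    | Sum.inr i => ![2, 3] i
  left_inv := by intro i; fin_cases i <;> rfl
  right_inv := by rintro (i | i) <;> fin_cases i <;> rfl

/-- the embedding of the 5-space as the hyperplane `u 4 = u 1` -/
def E (F : Type*) [Field F] : Matrix (Fin 6) (Fin 5) F :=
  !![0, 1, 0, 0, 0;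
     1, 0, 0, 0, 0;
     0, 0, 1, 0, 0;
     0, 0, 0, 1, 0;
     1, 0, 0, 0, 0;
     0, 0, 0, 0, 1]

/-- a retraction -/
def P (F : Type*) [Field F] : Matrix (Fin 5) (Fin 6) F :=
  !![0, 1, 0, 0, 0, 0;
     1, 0, 0, 0, 0, 0;
     0, 0, 1, 0, 0, 0;
     0, 0, 0, 1, 0, 0;
     0, 0, 0, 0, 0, 1]

theorem P_mul_E : P F * E F = 1 := by
  ext i j
  fin_cases i <;> fin_cases j <;> simp [P, E, Matrix.mul_apply, Fin.sum_univ_six]

theorem EP_of (u : Fin 6 → F) (hu : u 4 = u 1) : E F *ᵥ (P F *ᵥ u) = u := by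
  funext i
  fin_cases i <;>
    simp [P, E, Matrix.mulVec, dotProduct, Fin.sum_univ_six, Fin.sum_univ_five, hu]

theorem E_row (t : Fin 5 → F) : (E F *ᵥ t) 4 = (E F *ᵥ t) 1 := by
  simp [E, Matrix.mulVec, dotProduct, Fin.sum_univ_five]

/-- the symplectic relations, in coordinates -/
structure Rel (h : Matrix (Fin 4) (Fin 4) F) : Prop where
  c01 : h 0 0 * h 2 1 - h 0 1 * h 2 0 + h 1 0 * h 3 1 - h 1 1 * h 3 0 = 0
  c02 : h 0 0 * h 2 2 - h 0 2 * h 2 0 + h 1 0 * h 3 2 - h 1 2 * h 3 0 = 1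
  c03 : h 0 0 * h 2 3 - h 0 3 * h 2 0 + h 1 0 * h 3 3 - h 1 3 * h 3 0 = 0
  c12 : h 0 1 * h 2 2 - h 0 2 * h 2 1 + h 1 1 * h 3 2 - h 1 2 * h 3 1 = 0
  c13 : h 0 1 * h 2 3 - h 0 3 * h 2 1 + h 1 1 * h 3 3 - h 1 3 * h 3 1 = 1
  c23 : h 0 2 * h 2 3 - h 0 3 * h 2 2 + h 1 2 * h 3 3 - h 1 3 * h 3 2 = 0
  r01 : h 0 0 * h 1 2 - h 0 2 * h 1 0 + h 0 1 * h 1 3 - h 0 3 * h 1 1 = 0
  r02 : h 0 0 * h 2 2 - h 0 2 * h 2 0 + h 0 1 * h 2 3 - h 0 3 * h 2 1 = 1
  r03 : h 0 0 * h 3 2 - h 0 2 * h 3 0 + h 0 1 * h 3 3 - h 0 3 * h 3 1 = 0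
  r12 : h 1 0 * h 2 2 - h 1 2 * h 2 0 + h 1 1 * h 2 3 - h 1 3 * h 2 1 = 0
  r13 : h 1 0 * h 3 2 - h 1 2 * h 3 0 + h 1 1 * h 3 3 - h 1 3 * h 3 1 = 1
  r23 : h 2 0 * h 3 2 - h 2 2 * h 3 0 + h 2 1 * h 3 3 - h 2 3 * h 3 1 = 0

/-- the invariant linear functional -/
theorem W_lam (h : Matrix (Fin 4) (Fin 4) F) (H : Rel h) (v : Fin 6 → F) :
    (W h *ᵥ v) 4 - (W h *ᵥ v) 1 = v 4 - v 1 := by
  obtain ⟨c01, c02, c03, c12, c13, c23, -, -, -, -, -, -⟩ := H
  simp [W, Cfsg.Agent.S0302.i1, Cfsg.Agent.S0302.i2, Cfsg.Agent.S0302.sg, Matrix.mulVec,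
    dotProduct, Fin.sum_univ_six]
  linear_combination (-(v 0)) * c01 - v 1 * c02 - v 2 * c03 - v 3 * c23 + v 4 * c13 - v 5 * c12

/-- the invariant vector -/
def ustar : Fin 6 → F := ![0, 1, 0, 0, -1, 0]

theorem W_ustar (h : Matrix (Fin 4) (Fin 4) F) (H : Rel h) : W h *ᵥ ustar = ustar := by
  obtain ⟨-, -, -, -, -, -, r01, r02, r03, r12, r13, r23⟩ := H
  funext a
  fin_cases a <;>
    simp [W, Cfsg.Agent.S0302.i1, Cfsg.Agent.S0302.i2, Cfsg.Agent.S0302.sg, Matrix.mulVec,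
      dotProduct, Fin.sum_univ_six, ustar]
  · linear_combination r01
  · linear_combination r02
  · linear_combination r03
  · linear_combination r23
  · linear_combination -r13
  · linear_combination r12

/-- the 5-dimensional representation -/
def V (h : Matrix (Fin 4) (Fin 4) F) : Matrix (Fin 5) (Fin 5) F :=
  P F * W h * E F

theorem W_E (h : Matrix (Fin 4) (Fin 4) F) (H : Rel h) : W h * E F = E F * V h := by
  ext a b
  have h1 := EP_of (W h *ᵥ (E F *ᵥ Pi.single b 1)) (by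
    have := W_lam h H (E F *ᵥ Pi.single b 1)
    rw [E_row] at this
    linear_combination this)
  have h2 := congrFun h1 a
  rw [Matrix.mulVec_mulVec, Matrix.mulVec_mulVec, Matrix.mulVec_mulVec, Matrix.mulVec_mulVec,
    Matrix.mulVec_single_one, Matrix.mulVec_single_one, Matrix.col_apply, Matrix.col_apply] at h2
  rw [← h2, V]
  simp only [Matrix.mul_assoc]

theorem V_mul (g h : Matrix (Fin 4) (Fin 4) F) (H : Rel h) : V (g * h) = V g * V h := by
  have h1 := W_E h H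
  simp only [V] at h1 ⊢
  rw [W_mul]
  calc P F * (W g * W h) * E F = P F * W g * (W h * E F) := by simp only [Matrix.mul_assoc]
    _ = P F * W g * (E F * (P F * W h * E F)) := by rw [h1]
    _ = _ := by simp only [Matrix.mul_assoc]

theorem V_one : V (1 : Matrix (Fin 4) (Fin 4) F) = 1 := by
  rw [V, W_one, Matrix.mul_one, P_mul_E]

/-- the form on `Fin 5` -/
def Q5 (t : Fin 5 → F) : F := t 0 ^ 2 + t 1 * t 3 + t 2 * t 4

theorem Q5_eq (t : Fin 5 → F) : Q5 t = Q6 (E F *ᵥ t) := by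
  simp [Q5, Q6, E, Matrix.mulVec, dotProduct, Fin.sum_univ_five]
  ring

theorem V_iso (g : Matrix.SpecialLinearGroup (Fin 4) F)
    (H : Rel (g : Matrix (Fin 4) (Fin 4) F)) (t : Fin 5 → F) :
    Q5 (V (g : Matrix (Fin 4) (Fin 4) F) *ᵥ t) = Q5 t := by
  rw [Q5_eq, Q5_eq, Matrix.mulVec_mulVec, ← W_E _ H, ← Matrix.mulVec_mulVec, W_iso]

theorem quad_eq (v : I5 → F) : Cfsg.quadFormOdd 2 F v = Q5 (v ∘ e5) := by
  simp [Cfsg.quadFormOdd, Q5, e5, Fin.sum_univ_two]
  ring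

theorem iso_of_fin5 (M : Matrix (Fin 5) (Fin 5) F) (hM : ∀ u, Q5 (M *ᵥ u) = Q5 u) (v : I5 → F) :
    Cfsg.quadFormOdd 2 F (M.submatrix e5.symm e5.symm *ᵥ v) = Cfsg.quadFormOdd 2 F v := by
  rw [quad_eq, quad_eq, Matrix.submatrix_mulVec_equiv]
  have : ((M *ᵥ (v ∘ ⇑e5.symm.symm)) ∘ ⇑e5.symm) ∘ ⇑e5 = M *ᵥ (v ∘ e5) := by
    funext i
    simp
  rw [this, hM]

/-- a symplectic matrix in `Fin 4` coordinates -/
def g4 (g : Matrix.symplecticGroup (Fin 2) F) : Matrix (Fin 4) (Fin 4) F :=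
  (g : Matrix (Fin 2 ⊕ Fin 2) (Fin 2 ⊕ Fin 2) F).submatrix e4 e4

theorem g4_mul (g h : Matrix.symplecticGroup (Fin 2) F) : g4 (g * h) = g4 g * g4 h := by
  rw [g4, g4, g4, Matrix.submatrix_mul_equiv]
  rfl

theorem g4_one : g4 (1 : Matrix.symplecticGroup (Fin 2) F) = 1 := by
  rw [g4]
  exact Matrix.submatrix_one_equiv _

theorem g4_det (g : Matrix.symplecticGroup (Fin 2) F) : (g4 g).det = 1 := by
  rw [g4, Matrix.det_submatrix_equiv_self]
  exact SymplecticGroup.det_eq_one g.2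

set_option maxHeartbeats 1600000 in
theorem g4_rel (g : Matrix.symplecticGroup (Fin 2) F) : Rel (g4 g) := by
  have H1 := (SymplecticGroup.mem_iff').mp g.2
  have H2 := (SymplecticGroup.mem_iff).mp g.2
  refine ⟨?_, ?_, ?_, ?_, ?_, ?_, ?_, ?_, ?_, ?_, ?_, ?_⟩
  · have h := congrFun (congrFun H1 (Sum.inl 0)) (Sum.inl 1)
    simp [Matrix.mul_apply, Fintype.sum_sum_type, Fin.sum_univ_two, Matrix.J,
      Matrix.fromBlocks, Matrix.one_apply] at h
    simp [g4, e4]
    linear_combination -h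
  · have h := congrFun (congrFun H1 (Sum.inl 0)) (Sum.inr 0)
    simp [Matrix.mul_apply, Fintype.sum_sum_type, Fin.sum_univ_two, Matrix.J,
      Matrix.fromBlocks, Matrix.one_apply] at h
    simp [g4, e4]
    linear_combination -h
  · have h := congrFun (congrFun H1 (Sum.inl 0)) (Sum.inr 1)
    simp [Matrix.mul_apply, Fintype.sum_sum_type, Fin.sum_univ_two, Matrix.J,
      Matrix.fromBlocks, Matrix.one_apply] at h
    simp [g4, e4]
    linear_combination -h
  · have h := congrFun (congrFun H1 (Sum.inl 1)) (Sum.inr 0)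
    simp [Matrix.mul_apply, Fintype.sum_sum_type, Fin.sum_univ_two, Matrix.J,
      Matrix.fromBlocks, Matrix.one_apply] at h
    simp [g4, e4]
    linear_combination -h
  · have h := congrFun (congrFun H1 (Sum.inl 1)) (Sum.inr 1)
    simp [Matrix.mul_apply, Fintype.sum_sum_type, Fin.sum_univ_two, Matrix.J,
      Matrix.fromBlocks, Matrix.one_apply] at h
    simp [g4, e4]
    linear_combination -h
  · have h := congrFun (congrFun H1 (Sum.inr 0)) (Sum.inr 1)
    simp [Matrix.mul_apply, Fintype.sum_sum_type, Fin.sum_univ_two, Matrix.J,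
      Matrix.fromBlocks, Matrix.one_apply] at h
    simp [g4, e4]
    linear_combination -h
  · have h := congrFun (congrFun H2 (Sum.inl 0)) (Sum.inl 1)
    simp [Matrix.mul_apply, Fintype.sum_sum_type, Fin.sum_univ_two, Matrix.J,
      Matrix.fromBlocks, Matrix.one_apply] at h
    simp [g4, e4]
    linear_combination -h
  · have h := congrFun (congrFun H2 (Sum.inl 0)) (Sum.inr 0)
    simp [Matrix.mul_apply, Fintype.sum_sum_type, Fin.sum_univ_two, Matrix.J,
      Matrix.fromBlocks, Matrix.one_apply] at h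
    simp [g4, e4]
    linear_combination -h
  · have h := congrFun (congrFun H2 (Sum.inl 0)) (Sum.inr 1)
    simp [Matrix.mul_apply, Fintype.sum_sum_type, Fin.sum_univ_two, Matrix.J,
      Matrix.fromBlocks, Matrix.one_apply] at h
    simp [g4, e4]
    linear_combination -h
  · have h := congrFun (congrFun H2 (Sum.inl 1)) (Sum.inr 0)
    simp [Matrix.mul_apply, Fintype.sum_sum_type, Fin.sum_univ_two, Matrix.J,
      Matrix.fromBlocks, Matrix.one_apply] at h
    simp [g4, e4]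
    linear_combination -h
  · have h := congrFun (congrFun H2 (Sum.inl 1)) (Sum.inr 1)
    simp [Matrix.mul_apply, Fintype.sum_sum_type, Fin.sum_univ_two, Matrix.J,
      Matrix.fromBlocks, Matrix.one_apply] at h
    simp [g4, e4]
    linear_combination -h
  · have h := congrFun (congrFun H2 (Sum.inr 0)) (Sum.inr 1)
    simp [Matrix.mul_apply, Fintype.sum_sum_type, Fin.sum_univ_two, Matrix.J,
      Matrix.fromBlocks, Matrix.one_apply] at h
    simp [g4, e4]
    linear_combination -h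

/-- the representation, as matrices -/
def ρ₀ : Matrix.symplecticGroup (Fin 2) F →* Matrix I5 I5 F where
  toFun g := (V (g4 g)).submatrix e5.symm e5.symm
  map_one' := by
    rw [g4_one, V_one, Matrix.submatrix_one_equiv]
  map_mul' g h := by
    rw [g4_mul, V_mul _ _ (g4_rel h), Matrix.submatrix_mul_equiv]

theorem ρ₀_mem (g : Matrix.symplecticGroup (Fin 2) F) :
    (ρ₀ (F := F)).toHomUnits g ∈ Cfsg.isometryGroup F (Cfsg.quadFormOdd 2 F) := by
  intro u _
  exact iso_of_fin5 _ (V_iso ⟨g4 g, g4_det g⟩ (g4_rel g)) u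

/-- the representation into the isometry group -/
def ρ : Matrix.symplecticGroup (Fin 2) F →* Cfsg.isometryGroup F (Cfsg.quadFormOdd 2 F) :=
  (ρ₀ (F := F)).toHomUnits.codRestrict _ ρ₀_mem

theorem ρ_coe (g : Matrix.symplecticGroup (Fin 2) F) :
    (((ρ g : Cfsg.isometryGroup F (Cfsg.quadFormOdd 2 F)) : GL I5 F) : Matrix I5 I5 F) =
      (V (g4 g)).submatrix e5.symm e5.symm := rfl

theorem W_eq_one (h2 : (2 : F) ≠ 0) (h : Matrix (Fin 4) (Fin 4) F) (H : Rel h) (hV : V h = 1) :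
    W h = 1 := by
  have hE : W h * E F = E F := by rw [W_E h H, hV, Matrix.mul_one]
  have key : ∀ u : Fin 6 → F, W h *ᵥ u = u := by
    intro u
    obtain ⟨c, hc⟩ : ∃ c : F, c = (u 1 - u 4) / 2 := ⟨_, rfl⟩
    have h4 : (u - c • ustar : Fin 6 → F) 4 = (u - c • ustar : Fin 6 → F) 1 := by
      simp [ustar, hc]
      field_simp
      ring
    have hu : u = E F *ᵥ (P F *ᵥ (u - c • ustar)) + c • ustar := by
      rw [EP_of _ h4]
      simp
    conv_lhs => rw [hu]
    rw [Matrix.mulVec_add, Matrix.mulVec_smul, W_ustar h H, Matrix.mulVec_mulVec, hE, ← hu]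
  ext a b
  have := congrFun (key (Pi.single b 1)) a
  rw [Matrix.mulVec_single_one, Matrix.col_apply] at this
  rw [this, Matrix.one_apply, Pi.single_apply]

theorem ker_le (h2 : (2 : F) ≠ 0) :
    (ρ (F := F)).ker ≤ Subgroup.center (Matrix.symplecticGroup (Fin 2) F) := by
  intro g hg
  rw [MonoidHom.mem_ker] at hg
  have H : (V (g4 g)).submatrix e5.symm e5.symm = 1 := by
    have h1 := ρ_coe (F := F) g
    rw [hg] at h1
    exact h1.symm
  have H' : V (g4 g) = 1 := by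
    have := congrArg (fun M : Matrix I5 I5 F => M.submatrix e5 e5) H
    simpa using this
  obtain ⟨r, hr, hrg⟩ := W_ker _ (W_eq_one h2 _ (g4_rel g) H')
  have hg' : (g : Matrix (Fin 2 ⊕ Fin 2) (Fin 2 ⊕ Fin 2) F) = Matrix.scalar _ r := by
    ext i j
    have := congrFun (congrFun hrg (e4.symm i)) (e4.symm j)
    simp [g4, Matrix.diagonal_apply] at this
    rw [← this]
    simp [Matrix.diagonal_apply]
  rw [Subgroup.mem_center_iff]
  intro h
  apply Subtype.ext
  show (h : Matrix (Fin 2 ⊕ Fin 2) (Fin 2 ⊕ Fin 2) F) * (g : Matrix (Fin 2 ⊕ Fin 2) (Fin 2 ⊕ Fin 2) F) =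
    (g : Matrix (Fin 2 ⊕ Fin 2) (Fin 2 ⊕ Fin 2) F) * (h : Matrix (Fin 2 ⊕ Fin 2) (Fin 2 ⊕ Fin 2) F)
  rw [hg']
  exact ((Matrix.scalar_commute r (fun r' => Commute.all _ _) _).eq).symm

/-- PΩ_5(q) is isomorphic to PSp_4(q) for q odd. -/
theorem result {F : Type*} [Field F] [Fintype F] (hodd : Odd (Fintype.card F)) : Nonempty (Cfsg.POmega F (Cfsg.quadFormOdd 2 F) ≃* Cfsg.PSp 2 F) := by
  classical
  have h2 : (2 : F) ≠ 0 := by
    intro h
    have : CharP F 2 := CharTwo.of_one_ne_zero_of_two_eq_zero one_ne_zero h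
    have h3 := FiniteField.even_card_of_char_two (ringChar.eq F 2)
    rcases hodd with ⟨k, hk⟩
    omega
  set q := Fintype.card F with hq
  have hq1 : 1 < q := Fintype.one_lt_card
  have hq3 : 3 ≤ q := by
    rcases hodd with ⟨k, hk⟩
    omega
  have hperf : commutator (Matrix.symplecticGroup (Fin 2) F) = ⊤ :=
    Cfsg.Agent.S0269.result 2 (Or.inr (Or.inl ⟨rfl, hq3⟩))
  have hO : Nat.card (Cfsg.isometryGroup F (Cfsg.quadFormOdd 2 F)) =
      2 * (q ^ 4 * ((q ^ 2 - 1) * (q ^ 4 - 1))) := by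
    have h := Cfsg.Agent.Lib.Helper45.OrthCard.card_odd (F := F) rfl hodd 2
    rw [h]
    simp [Finset.prod_range_succ, hq]
    ring
  have hidx : (Cfsg.Omega F (Cfsg.quadFormOdd 2 F)).index = 4 := by
    have h := Cfsg.Agent.Lib.Helper14.OrthIndex.index_omega h2
      (Cfsg.Agent.Lib.Helper45.OrthCard.QO (F := F) 2) (Cfsg.Agent.S0298.sep_QO h2 2) (by simp)
    rwa [Cfsg.Agent.Lib.Helper45.OrthCard.QO_coe] at h
  have hΩ : Nat.card (Cfsg.Omega F (Cfsg.quadFormOdd 2 F)) * 4 =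
      2 * (q ^ 4 * ((q ^ 2 - 1) * (q ^ 4 - 1))) := by
    have h := Subgroup.card_mul_index (Cfsg.Omega F (Cfsg.quadFormOdd 2 F))
    rw [hidx, hO] at h
    exact h
  have hSp : Nat.card (Matrix.symplecticGroup (Fin 2) F) = q ^ 4 * ((q ^ 2 - 1) * (q ^ 4 - 1)) := by
    have h := Cfsg.Agent.S0245.result (F := F) (q := q) rfl 2
    rw [h]
    simp [Finset.prod_range_succ]
  have hgcd : Nat.gcd 2 (q - 1) = 2 := by
    rcases hodd with ⟨k, hk⟩
    have : q - 1 = 2 * k := by omega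
    rw [this]
    exact Nat.gcd_mul_right_right k 2
  have hZ : Nat.card (Subgroup.center (Matrix.symplecticGroup (Fin 2) F)) = 2 := by
    have h := Cfsg.Agent.S0246.result (F := F) (q := q) rfl 2 (by norm_num)
    rw [h, hgcd]
  have hker : Nat.card (ρ (F := F)).ker ≤ 2 :=
    le_trans (Subgroup.card_le_of_le (ker_le h2)) hZ.le
  have hrange : Nat.card (ρ (F := F)).range * Nat.card (ρ (F := F)).ker =
      q ^ 4 * ((q ^ 2 - 1) * (q ^ 4 - 1)) := by
    have h1 := Subgroup.card_eq_card_quotient_mul_card_subgroup (ρ (F := F)).ker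
    rw [hSp, Nat.card_congr (QuotientGroup.quotientKerEquivRange (ρ (F := F))).toEquiv] at h1
    exact h1.symm
  have hle : (ρ (F := F)).range ≤ commutator (Cfsg.isometryGroup F (Cfsg.quadFormOdd 2 F)) := by
    rintro _ ⟨g, rfl⟩
    have hg : g ∈ commutator (Matrix.symplecticGroup (Fin 2) F) := by
      rw [hperf]
      exact Subgroup.mem_top _
    rw [commutator_def] at hg ⊢
    have h1 : (ρ (F := F)) g ∈ Subgroup.map (ρ (F := F))
        ⁅(⊤ : Subgroup (Matrix.symplecticGroup (Fin 2) F)),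
          (⊤ : Subgroup (Matrix.symplecticGroup (Fin 2) F))⁆ := Subgroup.mem_map_of_mem _ hg
    rw [Subgroup.map_commutator] at h1
    exact Subgroup.commutator_mono le_top le_top h1
  have heq : (ρ (F := F)).range = commutator (Cfsg.isometryGroup F (Cfsg.quadFormOdd 2 F)) := by
    apply Subgroup.eq_of_le_of_card_ge hle
    have h4 : Nat.card (commutator (Cfsg.isometryGroup F (Cfsg.quadFormOdd 2 F))) * 4 =
        2 * (q ^ 4 * ((q ^ 2 - 1) * (q ^ 4 - 1))) := hΩ
    have h5 : Nat.card (commutator (Cfsg.isometryGroup F (Cfsg.quadFormOdd 2 F))) * 4 ≤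
        Nat.card (ρ (F := F)).range * 4 := by
      rw [h4, ← hrange]
      have := Nat.mul_le_mul_left (Nat.card (ρ (F := F)).range) hker
      nlinarith
    omega
  let f : Matrix.symplecticGroup (Fin 2) F →* ↥(Cfsg.Omega F (Cfsg.quadFormOdd 2 F)) :=
    (ρ (F := F)).codRestrict _ (fun p => hle ⟨p, rfl⟩)
  have hf : Function.Surjective f := by
    rintro ⟨y, hy⟩
    have hy' : y ∈ (ρ (F := F)).range := by
      rw [heq]
      exact hy
    obtain ⟨g, rfl⟩ := hy'
    exact ⟨g, rfl⟩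
  have hkerf : f.ker = (ρ (F := F)).ker := by
    ext g
    rw [MonoidHom.mem_ker, MonoidHom.mem_ker]
    constructor
    · intro h
      exact congrArg Subtype.val h
    · intro h
      exact Subtype.ext h
  exact Cfsg.Agent.Lib.Helper5.OmegaIso.quot_center_equiv f hf
    (fun g hg => Cfsg.Agent.Lib.Helper5.OmegaIso.mem_center_of_perfect hperf g
      (fun h => ker_le h2 (by rw [← hkerf]; exact hg h)))

end Cfsg.Agent.S0301
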