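import Cfsg.Statements.S0316
import Cfsg.Agent.Lib.Helper6.InvLen
import Cfsg.Agent.Lib.Helper6.BN
import Cfsg.Agent.Lib.Helper6.BN2
import Cfsg.Agent.Lib.Helper6.BN3

set_option autoImplicit false
open Cfsg

namespace Cfsg.Agent.S0316

open Cfsg.Agent.Lib.Helper6.InvLen Cfsg.Agent.Lib.Helper6.BN Cfsg.Agent.Lib.Helper6.BN2
  Cfsg.Agent.Lib.Helper6.BN3

/-- The map `J ↦ P_J` is a lattice isomorphism from the power set of the set of distinguished generators onto the
subgroups containing `B`. -/
theorem result {G : Type*} [Group G] (P : Cfsg.BNPair G) :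
    ∃ e : Set P.S ≃o {M : Subgroup G // P.B ≤ M},
      ∀ J : Set P.S, ((e J : {M : Subgroup G // P.B ≤ M}) : Subgroup G) = P.parabolic (Subtype.val '' J) := by
  have himg : ∀ J : Set P.S, Subtype.val '' J ⊆ P.S := by
    rintro J _ ⟨s, _, rfl⟩
    exact s.2
  refine ⟨{ toFun := fun J => ⟨P.parabolic (Subtype.val '' J), B_le_parabolic P _⟩
            invFun := fun M => {s : P.S | (s : G) ∈ M.1}
            left_inv := ?_
            right_inv := ?_
            map_rel_iff' := ?_ }, fun J => rfl⟩
  · intro J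
    ext s
    constructor
    · intro hs
      have := mem_of_mem_parabolic P (himg J) s.2 hs
      obtain ⟨s', hs', e⟩ := this
      have : s' = s := Subtype.ext e
      rw [← this]; exact hs'
    · intro hs
      exact closure_le_parabolic P _ (Subgroup.subset_closure ⟨s, hs, rfl⟩)
  · intro M
    apply Subtype.ext
    show P.parabolic (Subtype.val '' {s : P.S | (s : G) ∈ M.1}) = M.1
    have e : Subtype.val '' {s : P.S | (s : G) ∈ M.1} = {s | s ∈ P.S ∧ s ∈ M.1} := by
      ext x
      constructor
      · rintro ⟨s, hs, rfl⟩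
        exact ⟨s.2, hs⟩
      · rintro ⟨h1, h2⟩
        exact ⟨⟨x, h1⟩, h2, rfl⟩
    rw [e]
    exact (subgroup_eq_parabolic P M.2).symm
  · intro J K
    show P.parabolic (Subtype.val '' J) ≤ P.parabolic (Subtype.val '' K) ↔ J ≤ K
    rw [parabolic_le_iff P (himg J) (himg K)]
    exact Set.image_subset_image_iff Subtype.val_injective

end Cfsg.Agent.S0316
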