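import Cfsg.Statements.S0320
import Cfsg.Agent.Lib.Helper6.InvLen
import Cfsg.Agent.Lib.Helper6.BN
import Cfsg.Agent.Lib.Helper6.BN2
import Cfsg.Agent.Lib.Helper6.Cox

set_option autoImplicit false
open Cfsg

namespace Cfsg.Agent.S0320

open Cfsg.Agent.Lib.Helper6.InvLen Cfsg.Agent.Lib.Helper6.BN Cfsg.Agent.Lib.Helper6.BN2
  Cfsg.Agent.Lib.Helper6.Cox

theorem weyl_coxeter {G : Type*} [Group G] (P : Cfsg.BNPair G) :
    ∃ (M : CoxeterMatrix P.S) (cs : CoxeterSystem M (Wg P)),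
      ∀ s : P.S, cs.simple s = proj P ⟨(s : G), P.subset s.2⟩ := by
  have hrange : Set.range (fun s : P.S => proj P ⟨(s : G), P.subset s.2⟩) = SW P := by
    ext w
    constructor
    · rintro ⟨s, rfl⟩
      exact ⟨⟨(s : G), P.subset s.2⟩, s.2, rfl⟩
    · rintro ⟨s0, hs0, rfl⟩
      exact ⟨⟨(s0 : G), hs0⟩, rfl⟩
  apply exists_coxeterSystem (fun s : P.S => proj P ⟨(s : G), P.subset s.2⟩)
  · intro s s' h
    have h1 := (proj_eq_iff P).1 h
    exact Subtype.ext (P.inj s s.2 s' s'.2 h1)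
  · intro s
    exact SW_sq P ⟨⟨(s : G), P.subset s.2⟩, s.2, rfl⟩
  · rw [hrange]; exact SW_closure P
  · intro l hl
    rw [hrange] at hl
    have hL : ∀ a ∈ l.map (fun s : P.S => proj P ⟨(s : G), P.subset s.2⟩), a ∈ SW P := by
      intro a ha
      obtain ⟨s, _, rfl⟩ := List.mem_map.1 ha
      exact ⟨⟨(s : G), P.subset s.2⟩, s.2, rfl⟩
    have hl' : len (SW P) (l.map (fun s : P.S => proj P ⟨(s : G), P.subset s.2⟩)).prod <
        (l.map (fun s : P.S => proj P ⟨(s : G), P.subset s.2⟩)).length := by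
      rw [List.length_map]; exact hl
    obtain ⟨L1, A, L2, B, L3, e, hAB⟩ := deletion P hL hl'
    rw [List.map_eq_append_iff] at e
    obtain ⟨la, lb, rfl, e1, e2⟩ := e
    rw [List.map_eq_append_iff] at e1
    obtain ⟨l1, la', rfl, rfl, e3⟩ := e1
    rw [List.map_eq_cons_iff] at e2 e3
    obtain ⟨b, l3, rfl, rfl, rfl⟩ := e2
    obtain ⟨a, l2, rfl, rfl, rfl⟩ := e3
    exact ⟨l1, a, l2, b, l3, rfl, hAB⟩

/-- The Weyl group `W = N / (B ⊓ N)` of a (B,N)-pair, with its distinguished involutions, is a Coxeter system. -/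
theorem result {G : Type*} [Group G] (P : Cfsg.BNPair G)
    [hN : ((P.B ⊓ P.N).subgroupOf P.N).Normal] :
    ∃ (M : CoxeterMatrix P.S) (cs : CoxeterSystem M (P.N ⧸ (P.B ⊓ P.N).subgroupOf P.N)),
      ∀ s : P.S, cs.simple s = QuotientGroup.mk (⟨(s : G), P.subset s.2⟩ : P.N) := by
  exact weyl_coxeter P

end Cfsg.Agent.S0320
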