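import Cfsg.Statements.S0321
import Cfsg.Agent.Lib.Helper6.InvLen
import Cfsg.Agent.Lib.Helper6.BN
import Cfsg.Agent.Lib.Helper6.BN2
import Cfsg.Agent.Lib.Helper6.BN3
import Cfsg.Agent.Lib.Helper6.BN4

set_option autoImplicit false
open Cfsg

namespace Cfsg.Agent.S0321

open Cfsg.Agent.Lib.Helper6.InvLen Cfsg.Agent.Lib.Helper6.BN Cfsg.Agent.Lib.Helper6.BN2
  Cfsg.Agent.Lib.Helper6.BN3 Cfsg.Agent.Lib.Helper6.BN4

/-- For `n ∈ N` not in `B`, the union `B ∪ B n B` is (the underlying set of) a subgroup exactly when `n` agrees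
modulo `B ⊓ N` with one of the distinguished representatives; thus the distinguished involutions are
determined by `B` and `N`. -/
theorem result {G : Type*} [Group G] (P : Cfsg.BNPair G) {n : G}
    (hn : n ∈ P.N) (hnB : n ∉ P.B) :
    (∃ H : Subgroup G, (H : Set G) = (P.B : Set G) ∪ DoubleCoset.doubleCoset n (P.B : Set G) P.B) ↔ ∃ s ∈ P.S, s⁻¹ * n ∈ P.B := by
  constructor
  · rintro ⟨H, hH⟩
    have hBH : P.B ≤ H := by
      intro b hb
      have : b ∈ (H : Set G) := by rw [hH]; exact Or.inl hb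
      exact this
    have hnH : n ∈ H := by
      have : n ∈ (H : Set G) := by
        rw [hH]; exact Or.inr (DoubleCoset.mem_doubleCoset_self _ _ _)
      exact this
    have hpar := subgroup_eq_parabolic P hBH
    by_cases hJ : ∃ s, s ∈ P.S ∧ s ∈ H
    · obtain ⟨s, hs, hsH⟩ := hJ
      refine ⟨s, hs, ?_⟩
      have h1 : s ∈ (H : Set G) := hsH
      rw [hH] at h1
      rcases h1 with h1 | h1
      · exact absurd h1 (S_not_mem_B P hs)
      · have h2 : s ∈ C P (proj P ⟨n, hn⟩) := (mem_C_iff_doubleCoset P ⟨n, hn⟩ s).2 h1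
        have h3 : s ∈ C P (proj P ⟨s, P.subset hs⟩) := mem_C_self P ⟨s, P.subset hs⟩
        have := C_unique P h3 h2
        exact (proj_eq_iff P).1 this
    · exfalso
      have he : {s | s ∈ P.S ∧ s ∈ H} = ∅ := by
        ext s
        simp only [Set.mem_ofPred_eq, Set.mem_empty_iff_false, iff_false]
        intro hs
        exact hJ ⟨s, hs⟩
      rw [he] at hpar
      have : H = P.B := by
        rw [hpar]; unfold Cfsg.BNPair.parabolic; simp
      rw [this] at hnH
      exact hnB hnH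
  · rintro ⟨s, hs, hsn⟩
    refine ⟨P.parabolic {s}, ?_⟩
    have hJ : ({s} : Set G) ⊆ P.S := by
      intro x hx
      rw [Set.mem_singleton_iff] at hx
      rw [hx]; exact hs
    have hsN := P.subset hs
    have hσS : proj P ⟨s, hsN⟩ ∈ SW P := ⟨⟨s, hsN⟩, hs, rfl⟩
    have himg : img P {s} = {proj P ⟨s, hsN⟩} := by
      ext w
      constructor
      · rintro ⟨s', hs', rfl⟩
        have : s' = ⟨s, hsN⟩ := Subtype.ext hs'
        rw [this]; rfl
      · intro hw
        rw [Set.mem_singleton_iff] at hw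
        exact ⟨⟨s, hsN⟩, rfl, hw.symm⟩
    have hσn : proj P ⟨s, hsN⟩ = proj P ⟨n, hn⟩ := (proj_eq_iff P).2 hsn
    ext g
    rw [SetLike.mem_coe, mem_parabolic_iff_W P hJ, himg]
    constructor
    · rintro ⟨w, hw, hg⟩
      rcases closure_singleton_invol (SW_sq P hσS) hw with rfl | rfl
      · left; exact (mem_C_one P).1 hg
      · right
        rw [hσn] at hg
        exact (mem_C_iff_doubleCoset P ⟨n, hn⟩ g).1 hg
    · rintro (hg | hg)
      · exact ⟨1, Subgroup.one_mem _, (mem_C_one P).2 hg⟩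
      · exact ⟨proj P ⟨s, hsN⟩, Subgroup.subset_closure rfl, by
          rw [hσn]; exact (mem_C_iff_doubleCoset P ⟨n, hn⟩ g).2 hg⟩

end Cfsg.Agent.S0321
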