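import Cfsg.Statements.S0322
import Cfsg.Agent.Lib.Helper6.InvLen
import Cfsg.Agent.Lib.Helper6.BN
import Cfsg.Agent.Lib.Helper6.BN2
import Cfsg.Agent.Lib.Helper6.BN3
import Cfsg.Agent.Lib.Helper6.BN4

set_option autoImplicit false
open Cfsg

namespace Cfsg.Agent.S0322

open Cfsg.Agent.Lib.Helper6.InvLen Cfsg.Agent.Lib.Helper6.BN Cfsg.Agent.Lib.Helper6.BN2
  Cfsg.Agent.Lib.Helper6.BN3 Cfsg.Agent.Lib.Helper6.BN4

/-- A group with a (B,N)-pair of rank one acts doubly transitively on the left cosets of `B`. -/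
theorem result {G : Type*} [Group G] (P : Cfsg.BNPair G) (h : P.rank = 1) : MulAction.IsMultiplyPretransitive G (G ⧸ P.B) 2 := by
  rw [MulAction.is_two_pretransitive_iff]
  have hcard : Nat.card P.S = 1 := h
  rw [Nat.card_eq_one_iff_unique] at hcard
  obtain ⟨hsub, ⟨⟨s, hs⟩⟩⟩ := hcard
  have hS1 : ∀ s' ∈ P.S, s' = s := fun s' hs' =>
    congrArg Subtype.val (hsub.elim ⟨s', hs'⟩ ⟨s, hs⟩)
  have hsN := P.subset hs
  have hσS : proj P ⟨s, hsN⟩ ∈ SW P := ⟨⟨s, hsN⟩, hs, rfl⟩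
  have hSW : SW P = {proj P ⟨s, hsN⟩} := by
    ext w
    constructor
    · rintro ⟨s', hs', rfl⟩
      have : s' = ⟨s, hsN⟩ := Subtype.ext (hS1 _ hs')
      rw [this]; rfl
    · intro hw
      rw [Set.mem_singleton_iff] at hw
      rw [hw]; exact hσS
  have hW : ∀ w : Wg P, w = 1 ∨ w = proj P ⟨s, hsN⟩ := by
    intro w
    have : w ∈ Subgroup.closure (SW P) := by rw [SW_closure P]; trivial
    rw [hSW] at this
    exact closure_singleton_invol (SW_sq P hσS) this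
  have key : ∀ a b : G ⧸ P.B, a ≠ b →
      ∃ g : G, g • a = ((1 : G) : G ⧸ P.B) ∧ g • b = ((s : G) : G ⧸ P.B) := by
    intro a b hab
    induction a using QuotientGroup.induction_on with
    | H x =>
    induction b using QuotientGroup.induction_on with
    | H y =>
    have hxy : x⁻¹ * y ∉ P.B := fun hh => hab (QuotientGroup.eq.2 hh)
    obtain ⟨w, hw⟩ := exists_C P (x⁻¹ * y)
    rcases hW w with rfl | rfl
    · exact absurd ((mem_C_one P).1 hw) hxy
    · obtain ⟨b1, hb1, b2, hb2, e⟩ := (mem_C_of_rep P ⟨s, hsN⟩).1 hw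
      refine ⟨b1⁻¹ * x⁻¹, ?_, ?_⟩
      · show (((b1⁻¹ * x⁻¹) * x : G) : G ⧸ P.B) = ((1 : G) : G ⧸ P.B)
        rw [QuotientGroup.eq]
        simpa using hb1
      · show (((b1⁻¹ * x⁻¹) * y : G) : G ⧸ P.B) = ((s : G) : G ⧸ P.B)
        rw [QuotientGroup.eq]
        have e2 : (b1⁻¹ * x⁻¹ * y)⁻¹ * s = b2⁻¹ := by
          have e3 : b1⁻¹ * x⁻¹ * y = s * b2 := by
            rw [mul_assoc, e]
            simp [mul_assoc]
          rw [e3]; group
        rw [e2]; exact P.B.inv_mem hb2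
  intro a b c d hab hcd
  obtain ⟨g1, h1, h2⟩ := key a b hab
  obtain ⟨g2, h3, h4⟩ := key c d hcd
  refine ⟨g2⁻¹ * g1, ?_, ?_⟩
  · rw [mul_smul, h1, ← h3, inv_smul_smul]
  · rw [mul_smul, h2, ← h4, inv_smul_smul]

end Cfsg.Agent.S0322
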