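import Cfsg.Statements.S0335
import Cfsg.Agent.Lib.Helper6.Sz3

set_option autoImplicit false
open Cfsg

namespace Cfsg.Agent.S0335

open Cfsg.Agent.Lib.Helper6.Sz0 Cfsg.Agent.Lib.Helper6.Sz1 Cfsg.Agent.Lib.Helper6.Sz2
  Cfsg.Agent.Lib.Helper6.Sz3 Matrix in
theorem aux {F : Type*} [Field F] [Fintype F] {m : ℕ} (hm : 1 ≤ m)
    (hF : Fintype.card F = 2 ^ (2 * m + 1)) (P0 P1 P2 : Projectivization F (Fin 4 → F))
    (h0 : P0 ∈ Cfsg.suzukiOvoid F m) (h1 : P1 ∈ Cfsg.suzukiOvoid F m)
    (h2 : P2 ∈ Cfsg.suzukiOvoid F m) (h01 : P0 ≠ P1) (h02 : P0 ≠ P2) (h12 : P1 ≠ P2) :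
    Projectivization.Independent ![P0, P1, P2] := by
  obtain ⟨g, hg, e0, e1⟩ := exists_smul_pair hF h0 h1 h01
  have h2' : g⁻¹ • P2 ∈ Cfsg.suzukiOvoid F m := smul_mem_of_mem_Sz (inv_mem hg) h2
  rcases mem_ovoid.1 h2' with h | ⟨x, y, h⟩
  · exfalso
    apply h02
    rw [← e0, ← h, smul_inv_smul]
  · have hxy : ¬ (x = 0 ∧ y = 0) := by
      rintro ⟨rfl, rfl⟩
      apply h12
      rw [← e1, ← h, smul_inv_smul]
    have e2 : g • pt m x y = P2 := by rw [← h, smul_inv_smul]
    let w : Fin 3 → (Fin 4 → F) := ![einf, Cfsg.Agent.Lib.Helper6.Sz1.vec m 0 0, Cfsg.Agent.Lib.Helper6.Sz1.vec m x y]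
    have hw : LinearIndependent F w := by
      rw [Fintype.linearIndependent_iff]
      intro c hc
      rw [Fin.sum_univ_three] at hc
      have k0 := congrFun hc 0
      have k1 := congrFun hc 1
      have k2 := congrFun hc 2
      have k3 := congrFun hc 3
      have f00 : fO m (0 : F) 0 = 0 := by simp [fO]
      simp [w, einf, Cfsg.Agent.Lib.Helper6.Sz1.vec, f00] at k0 k1 k2 k3
      have c2 : c 2 = 0 := by
        by_contra hne
        apply hxy
        exact ⟨by simpa [hne] using k2, by simpa [hne] using k1⟩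
      rw [c2] at k0 k3
      simp at k0 k3
      intro i
      fin_cases i
      · exact k0
      · exact k3
      · exact c2
    have hunit : IsUnit g.1 := by
      rw [Matrix.isUnit_iff_isUnit_det, g.2]
      exact isUnit_one
    have hinj : Function.Injective (g.1).mulVec := Matrix.mulVec_injective_of_isUnit hunit
    have hv : LinearIndependent F (fun i => g.1 *ᵥ w i) :=
      hw.map' (Matrix.mulVecLin g.1) (LinearMap.ker_eq_bot.2 hinj)
    have hne : ∀ i, g.1 *ᵥ w i ≠ 0 := fun i => hv.ne_zero i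
    have key : ![P0, P1, P2] = fun i => Projectivization.mk F (g.1 *ᵥ w i) (hne i) := by
      funext i
      fin_cases i
      · show P0 = _
        rw [← e0]
        exact Cfsg.Agent.Lib.Helper6.Sz2.smul_mk g einf_ne_zero
      · show P1 = _
        rw [← e1]
        exact Cfsg.Agent.Lib.Helper6.Sz2.smul_mk g (vec_ne_zero m 0 0)
      · show P2 = _
        rw [← e2]
        exact Cfsg.Agent.Lib.Helper6.Sz2.smul_mk g (vec_ne_zero m x y)
    rw [key]
    exact Projectivization.Independent.mk _ hne hv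

/-- The Suzuki–Tits point set is an ovoid: any three distinct points of it are projectively independent
(no line of projective 3-space meets it in more than two points). -/
theorem result {F : Type*} [Field F] [Fintype F] {m : ℕ} (hm : 1 ≤ m)
    (hF : Fintype.card F = 2 ^ (2 * m + 1)) (p : Fin 3 ↪ Cfsg.suzukiOvoid F m) :
    Projectivization.Independent (fun i => (p i : Projectivization F (Fin 4 → F))) := by
  have h := aux hm hF (p 0).1 (p 1).1 (p 2).1 (p 0).2 (p 1).2 (p 2).2
    (fun h => by simpa using p.injective (Subtype.ext h))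
    (fun h => by simpa using p.injective (Subtype.ext h))
    (fun h => by simpa using p.injective (Subtype.ext h))
  have e : (fun i => (p i : Projectivization F (Fin 4 → F))) = ![(p 0).1, (p 1).1, (p 2).1] := by
    funext i
    fin_cases i <;> rfl
  rw [e]
  exact h

end Cfsg.Agent.S0335
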