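import Mathlib
import Cfsg.Statements.S0339
import Cfsg.Agent.Lib.Helper52.ZassFrob

set_option autoImplicit false
open Cfsg

namespace Cfsg.Agent.S0339

open Cfsg.Agent.Lib.Helper52.ZassFrob Cfsg.Agent.Lib.Helper13

/-- A nontrivial normal subgroup `N` of a Zassenhaus group has no regular subgroup normalised
by `N`. -/
theorem regular_normal_of_normal {G Ω : Type*} [Group G] [MulAction G Ω] [Finite Ω]
    (hZ : Cfsg.IsZassenhausGroup G Ω) (N : Subgroup G) [hNn : N.Normal] (hN : N ≠ ⊥)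
    (M : Subgroup G) (hMN : M ≤ N) (hnorm : ∀ n ∈ N, ∀ m ∈ M, n * m * n⁻¹ ∈ M)
    (htr : ∀ a b : Ω, ∃ m ∈ M, m • a = b) (hfree : ∀ m ∈ M, ∀ a : Ω, m • a = a → m = 1) :
    False := by
  obtain ⟨a, b, -, hab, -, -⟩ := exists_three hZ
  -- Step 1: nonidentity elements of `M` are conjugate under `N`
  have hconj : ∀ m₁ ∈ M, ∀ m₂ ∈ M, m₁ ≠ 1 → m₂ ≠ 1 → ∃ s ∈ N, s * m₁ * s⁻¹ = m₂ := by
    intro m₁ hm₁ m₂ hm₂ h1 h2
    have hb1 : a ≠ m₁ • a := fun h => h1 (hfree m₁ hm₁ a h.symm)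
    have hb2 : a ≠ m₂ • a := fun h => h2 (hfree m₂ hm₂ a h.symm)
    obtain ⟨s, hs, hsa, hsb⟩ := normal_two_trans hZ N hN hb1 hb2
    refine ⟨s, hs, ?_⟩
    have hmem : m₂⁻¹ * (s * m₁ * s⁻¹) ∈ M := M.mul_mem (M.inv_mem hm₂) (hnorm s hs m₁ hm₁)
    have hfix : (m₂⁻¹ * (s * m₁ * s⁻¹)) • a = a := by
      have hsi : s⁻¹ • a = a := by rw [inv_smul_eq_iff, hsa]
      rw [mul_smul, mul_smul, mul_smul, hsi, hsb, inv_smul_smul]
    have := hfree _ hmem a hfix
    have e : s * m₁ * s⁻¹ = m₂ * (m₂⁻¹ * (s * m₁ * s⁻¹)) := by group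
    rw [e, this, mul_one]
  -- Step 2: `M` is normal in `G`
  have hdich : ∀ g : G, (∃ m₀ ∈ M, m₀ ≠ 1 ∧ g * m₀ * g⁻¹ ∈ M) → ∀ m ∈ M, g * m * g⁻¹ ∈ M := by
    rintro g ⟨m₀, hm₀, hm₀1, hgm₀⟩ m hm
    by_cases hm1 : m = 1
    · rw [hm1]
      simp
    · obtain ⟨s, hs, hsm⟩ := hconj m₀ hm₀ m hm hm₀1 hm1
      have e : g * m * g⁻¹ = (g * s * g⁻¹) * (g * m₀ * g⁻¹) * (g * s * g⁻¹)⁻¹ := by
        rw [← hsm]; group
      rw [e]
      exact hnorm _ (hNn.conj_mem s hs g) _ hgm₀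
  have hnormal : ∀ g : G, ∀ m ∈ M, g * m * g⁻¹ ∈ M := by
    intro g
    apply hdich g
    by_contra hcon
    push Not at hcon
    -- `M` and `g M g⁻¹` commute elementwise
    have hcomm : ∀ m ∈ M, ∀ m' ∈ M, m * (g * m' * g⁻¹) = (g * m' * g⁻¹) * m := by
      intro m hm m' hm'
      have hw : g * m' * g⁻¹ ∈ N := hNn.conj_mem m' (hMN hm') g
      have h1 : m * (g * m' * g⁻¹) * m⁻¹ * (g * m' * g⁻¹)⁻¹ ∈ M := by
        have h2 := hnorm _ hw _ (M.inv_mem hm)
        have e : m * (g * m' * g⁻¹) * m⁻¹ * (g * m' * g⁻¹)⁻¹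
            = m * ((g * m' * g⁻¹) * m⁻¹ * (g * m' * g⁻¹)⁻¹) := by group
        rw [e]
        exact M.mul_mem hm h2
      have hgm : g⁻¹ * m * g ∈ N := by
        have := hNn.conj_mem m (hMN hm) g⁻¹
        rwa [inv_inv] at this
      have h3 : (g⁻¹ * m * g) * m' * (g⁻¹ * m * g)⁻¹ * m'⁻¹ ∈ M :=
        M.mul_mem (hnorm _ hgm _ hm') (M.inv_mem hm')
      have e3 : m * (g * m' * g⁻¹) * m⁻¹ * (g * m' * g⁻¹)⁻¹
          = g * ((g⁻¹ * m * g) * m' * (g⁻¹ * m * g)⁻¹ * m'⁻¹) * g⁻¹ := by group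
      have h4 : (g⁻¹ * m * g) * m' * (g⁻¹ * m * g)⁻¹ * m'⁻¹ = 1 := by
        by_contra hne
        apply hcon _ h3 hne
        rw [← e3]
        exact h1
      rw [h4] at e3
      have e5 : m * (g * m' * g⁻¹) * m⁻¹ * (g * m' * g⁻¹)⁻¹ = 1 := by
        rw [e3]; group
      have e6 : m * (g * m' * g⁻¹) = (m * (g * m' * g⁻¹) * m⁻¹ * (g * m' * g⁻¹)⁻¹)
          * ((g * m' * g⁻¹) * m) := by group
      rw [e6, e5, one_mul]
    obtain ⟨m, hm, hma⟩ := htr a b
    obtain ⟨m', hm', hma'⟩ := htr (g⁻¹ • a) (g⁻¹ • b)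
    have hm''a : (g * m' * g⁻¹) • a = b := by
      rw [mul_smul, mul_smul, hma', smul_inv_smul]
    have hm1 : m ≠ 1 := by
      intro h
      rw [h, one_smul] at hma
      exact hab hma
    -- an element `y ∈ M` commuting with `m`, with `y • a ∉ {a, b}`
    obtain ⟨y, hy, hym, hya, hyb⟩ : ∃ y ∈ M, y * m = m * y ∧ y • a ≠ a ∧ y • a ≠ b := by
      by_cases hmm : m * m = 1
      · have hsq : ∀ z ∈ M, z * z = 1 := by
          intro z hz
          by_cases hz1 : z = 1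
          · rw [hz1, one_mul]
          · obtain ⟨s, hs, hsz⟩ := hconj m hm z hz hm1 hz1
            rw [← hsz]
            have e : s * m * s⁻¹ * (s * m * s⁻¹) = s * (m * m) * s⁻¹ := by group
            rw [e, hmm]; group
        obtain ⟨c, hca, hcb⟩ := exists_third hZ a b
        obtain ⟨y, hy, hyc⟩ := htr a c
        refine ⟨y, hy, ?_, by rw [hyc]; exact hca, by rw [hyc]; exact hcb⟩
        have h1 := hsq y hy
        have h2 := hsq m hm
        have h3 := hsq (y * m) (M.mul_mem hy hm)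
        have e : y * m = y * (y * m * (y * m)) * m := by rw [h3, mul_one]
        calc y * m = y * (y * m * (y * m)) * m := e
          _ = (y * y) * (m * y) * (m * m) := by group
          _ = m * y := by rw [h1, h2, one_mul, mul_one]
      · refine ⟨m * m, M.mul_mem hm hm, by group, ?_, ?_⟩
        · intro h
          exact hmm (hfree _ (M.mul_mem hm hm) a h)
        · intro h
          rw [mul_smul, hma] at h
          rw [← hma] at h
          have h' := smul_left_cancel _ h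
          rw [hma] at h'
          exact hab h'.symm
    -- `x = m⁻¹ m''` fixes `a`, `b`, `y • a`
    have hxa : (m⁻¹ * (g * m' * g⁻¹)) • a = a := by
      rw [mul_smul, hm''a, inv_smul_eq_iff, hma]
    have hxm : (m⁻¹ * (g * m' * g⁻¹)) * m = m * (m⁻¹ * (g * m' * g⁻¹)) := by
      have := hcomm m hm m' hm'
      calc (m⁻¹ * (g * m' * g⁻¹)) * m = m⁻¹ * ((g * m' * g⁻¹) * m) := by group
        _ = m⁻¹ * (m * (g * m' * g⁻¹)) := by rw [this]
        _ = m * (m⁻¹ * (g * m' * g⁻¹)) := by group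
    have hxy : (m⁻¹ * (g * m' * g⁻¹)) * y = y * (m⁻¹ * (g * m' * g⁻¹)) := by
      have h1 := hcomm y hy m' hm'
      have h2 : m⁻¹ * y = y * m⁻¹ := by
        calc m⁻¹ * y = m⁻¹ * (y * m) * m⁻¹ := by group
          _ = m⁻¹ * (m * y) * m⁻¹ := by rw [hym]
          _ = y * m⁻¹ := by group
      calc (m⁻¹ * (g * m' * g⁻¹)) * y = m⁻¹ * ((g * m' * g⁻¹) * y) := by group
        _ = m⁻¹ * (y * (g * m' * g⁻¹)) := by rw [h1]
        _ = (m⁻¹ * y) * (g * m' * g⁻¹) := by group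
        _ = (y * m⁻¹) * (g * m' * g⁻¹) := by rw [h2]
        _ = y * (m⁻¹ * (g * m' * g⁻¹)) := by group
    have hxb : (m⁻¹ * (g * m' * g⁻¹)) • b = b := by
      rw [← hma, smul_smul, hxm, mul_smul, hxa]
    have hxya : (m⁻¹ * (g * m' * g⁻¹)) • (y • a) = y • a := by
      rw [smul_smul, hxy, mul_smul, hxa]
    have hx1 := three_fix hZ hab (Ne.symm hyb) (Ne.symm hya) hxa hxb hxya
    have hmm' : g * m' * g⁻¹ = m := by
      have e : g * m' * g⁻¹ = m * (m⁻¹ * (g * m' * g⁻¹)) := by group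
      rw [e, hx1, mul_one]
    have hm'1 : m' ≠ 1 := by
      intro h
      rw [h] at hmm'
      apply hm1
      rw [← hmm']; group
    apply hcon m' hm' hm'1
    rw [hmm']
    exact hm
  -- Step 3: contradiction with the definition of a Zassenhaus group
  have hMnormal : M.Normal := ⟨fun m hm g => hnormal g m hm⟩
  have hpt : MulAction.IsPretransitive M Ω := by
    constructor
    intro c d
    obtain ⟨m, hm, hmc⟩ := htr c d
    exact ⟨⟨m, hm⟩, hmc⟩
  obtain ⟨c, hc⟩ := hZ.2.2.2.2 M hMnormal hpt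
  apply hc
  rw [eq_bot_iff]
  intro y hy
  rw [Subgroup.mem_bot]
  have hyc : (y : G) • c = c := hy
  exact Subtype.ext (hfree _ y.2 c hyc)

/-- A non-trivial normal subgroup of a Zassenhaus group is itself a Zassenhaus group on the same set. -/
theorem result {G Ω : Type*} [Group G] [MulAction G Ω] [Finite Ω]
    (hZ : Cfsg.IsZassenhausGroup G Ω) (N : Subgroup G) [N.Normal] (hN : N ≠ ⊥) :
    Cfsg.IsZassenhausGroup N Ω := by
  obtain ⟨a, b, -, hab, -, -⟩ := exists_three hZ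
  refine ⟨?_, ?_, ?_, ?_, ?_⟩
  · have := hZ.1
    constructor
    intro n₁ n₂ h
    apply Subtype.ext
    apply eq_of_smul_eq_smul (α := Ω)
    intro c
    exact h c
  · rw [MulAction.is_two_pretransitive_iff]
    intro a b c d hab hcd
    obtain ⟨n, hn, h1, h2⟩ := normal_two_trans hZ N hN hab hcd
    exact ⟨⟨n, hn⟩, h1, h2⟩
  · intro g a b c hab hbc hac ha hb hc
    exact Subtype.ext (three_fix hZ hab hbc hac ha hb hc)
  · obtain ⟨n, hn, hn1, hna, hnb⟩ := normal_fix_two hZ N hN hab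
    exact ⟨⟨n, hn⟩, fun h => hn1 (congrArg Subtype.val h), a, b, hab, hna, hnb⟩
  · intro M hM hpt
    by_contra hcon
    push Not at hcon
    apply regular_normal_of_normal hZ N hN (M.map N.subtype)
    · exact Subgroup.map_subtype_le M
    · intro n hn m hm
      rw [Subgroup.mem_map] at hm ⊢
      obtain ⟨y, hy, rfl⟩ := hm
      exact ⟨⟨n, hn⟩ * y * ⟨n, hn⟩⁻¹, hM.conj_mem y hy ⟨n, hn⟩, rfl⟩
    · intro c d
      obtain ⟨m, hm⟩ := MulAction.exists_smul_eq (↥M) c d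
      exact ⟨((m : ↥N) : G), Subgroup.mem_map_of_mem _ m.2, hm⟩
    · intro m hm c hmc
      rw [Subgroup.mem_map] at hm
      obtain ⟨y, hy, rfl⟩ := hm
      have hmem : (⟨y, hy⟩ : ↥M) ∈ MulAction.stabilizer (↥M) c := hmc
      rw [hcon c, Subgroup.mem_bot] at hmem
      have : y = 1 := congrArg Subtype.val hmem
      rw [this]
      rfl

end Cfsg.Agent.S0339
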