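import Cfsg.Statements.S0353
import Cfsg.Agent.S0352

set_option autoImplicit false
open Cfsg

namespace Cfsg.Agent.S0353

variable {α : Type*} [Fintype α] [DecidableEq α]

theorem blk_eq {B : Set (Finset α)} (hB : Cfsg.IsSteinerSystem 5 8 B) {b c s : Finset α}
    (hs : s.card = 5) (hb : b ∈ B) (hc : c ∈ B) (hsb : s ⊆ b) (hsc : s ⊆ c) : b = c :=
  (hB.2 s hs).unique ⟨hb, hsb⟩ ⟨hc, hsc⟩

theorem lemA (hα : Fintype.card α = 24) {B : Set (Finset α)} (hB : Cfsg.IsSteinerSystem 5 8 B)
    {b c d : Finset α} (hb : b ∈ B) (hc : c ∈ B) (hd : d ∈ B) (h4 : (b ∩ c).card = 4)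
    (hY : 3 ≤ (d ∩ (b \ c)).card) (hZ : 2 ≤ (d ∩ (c \ b)).card) : b \ c ⊆ d := by
  have hb8 := hB.1 b hb
  have hc8 := hB.1 c hc
  have hd8 := hB.1 d hd
  have hYc : (b \ c).card = 4 := by
    have := Finset.card_sdiff_add_card_inter b c
    omega
  have hZc : (c \ b).card = 4 := by
    have := Finset.card_sdiff_add_card_inter c b
    rw [Finset.inter_comm] at this
    omega
  have e1 : (d ∩ b).card = (d ∩ (b \ c)).card + (d ∩ (b ∩ c)).card := by
    rw [← Finset.card_union_of_disjoint, ← Finset.inter_union_distrib_left,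
      Finset.sdiff_union_inter]
    rw [Finset.disjoint_left]
    intro v hv1 hv2
    simp only [Finset.mem_inter, Finset.mem_sdiff] at hv1 hv2
    exact hv1.2.2 hv2.2.2
  have e2 : (d ∩ c).card = (d ∩ (c \ b)).card + (d ∩ (b ∩ c)).card := by
    rw [← Finset.card_union_of_disjoint, ← Finset.inter_union_distrib_left,
      Finset.inter_comm b c, Finset.sdiff_union_inter]
    rw [Finset.disjoint_left]
    intro v hv1 hv2
    simp only [Finset.mem_inter, Finset.mem_sdiff] at hv1 hv2
    exact hv1.2.2 hv2.2.1
  have hdb : d ≠ b := by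
    rintro rfl
    have : d ∩ (c \ d) = ∅ := by
      ext v
      simp
    rw [this] at hZ
    simp at hZ
  have hdc : d ≠ c := by
    rintro rfl
    have : d ∩ (b \ d) = ∅ := by
      ext v
      simp
    rw [this] at hY
    simp at hY
  have i1 := Cfsg.Agent.S0352.result hα hB hd hb hdb
  have i2 := Cfsg.Agent.S0352.result hα hB hd hc hdc
  have leY : (d ∩ (b \ c)).card ≤ 4 := by
    rw [← hYc]
    exact Finset.card_le_card Finset.inter_subset_right
  by_cases hY4 : (d ∩ (b \ c)).card = 4
  · have : d ∩ (b \ c) = b \ c :=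
      Finset.eq_of_subset_of_card_le Finset.inter_subset_right (by omega)
    rw [← this]
    exact Finset.inter_subset_left
  · exfalso
    have nY : (d ∩ (b \ c)).card = 3 := by omega
    have nX : (d ∩ (b ∩ c)).card = 1 := by omega
    have nZ : (d ∩ (c \ b)).card = 3 := by
      have : (d ∩ (c \ b)).card ≤ 4 := by
        rw [← hZc]
        exact Finset.card_le_card Finset.inter_subset_right
      omega
    have e3 : (d ∩ (b ∪ c)).card = (d ∩ b).card + (d ∩ (c \ b)).card := by
      rw [← Finset.card_union_of_disjoint, ← Finset.inter_union_distrib_left,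
        Finset.union_sdiff_self_eq_union]
      rw [Finset.disjoint_left]
      intro v hv1 hv2
      simp only [Finset.mem_inter, Finset.mem_sdiff] at hv1 hv2
      exact hv2.2.2 hv1.2
    have e4 := Finset.card_sdiff_add_card_inter d (b ∪ c)
    have e5 : (d \ (b ∪ c)).card = 1 := by omega
    obtain ⟨e, he⟩ := Finset.card_eq_one.1 e5
    have hed : e ∈ d ∧ e ∉ b ∧ e ∉ c := by
      have : e ∈ d \ (b ∪ c) := by rw [he]; exact Finset.mem_singleton_self e
      simp only [Finset.mem_sdiff, Finset.mem_union, not_or] at this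
      exact ⟨this.1, this.2.1, this.2.2⟩
    have heX : e ∉ b ∩ c := fun h => hed.2.1 (Finset.mem_inter.1 h).1
    obtain ⟨ce, ⟨hce, hsce⟩, -⟩ := hB.2 (insert e (b ∩ c))
      (by rw [Finset.card_insert_of_notMem heX, h4])
    have hce8 := hB.1 ce hce
    have hXce : b ∩ c ⊆ ce := (Finset.subset_insert _ _).trans hsce
    have hece : e ∈ ce := hsce (Finset.mem_insert_self _ _)
    have hcard : (b ∪ c ∪ ce).card < Fintype.card α := by
      have h1 := Finset.card_union_add_card_inter b c
      have h2 := Finset.card_union_le (b ∪ c) ce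
      omega
    obtain ⟨p, hp⟩ : ∃ p, p ∉ b ∪ c ∪ ce := by
      by_contra hcon
      push Not at hcon
      have : (Finset.univ : Finset α) ⊆ b ∪ c ∪ ce := fun v _ => hcon v
      have := Finset.card_le_card this
      rw [Finset.card_univ] at this
      omega
    simp only [Finset.mem_union, not_or] at hp
    obtain ⟨⟨hpb, hpc⟩, hpce⟩ := hp
    have hpX : p ∉ b ∩ c := fun h => hpb (Finset.mem_inter.1 h).1
    obtain ⟨cp, ⟨hcp, hscp⟩, -⟩ := hB.2 (insert p (b ∩ c))
      (by rw [Finset.card_insert_of_notMem hpX, h4])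
    have hXcp : b ∩ c ⊆ cp := (Finset.subset_insert _ _).trans hscp
    have hpcp : p ∈ cp := hscp (Finset.mem_insert_self _ _)
    have key : ∀ f : Finset α, f ∈ B → b ∩ c ⊆ f → p ∉ f → cp ∩ f = b ∩ c := by
      intro f hf hXf hpf
      have hne : cp ≠ f := by
        rintro rfl
        exact hpf hpcp
      have hsub : b ∩ c ⊆ cp ∩ f := Finset.subset_inter hXcp hXf
      have hle := Finset.card_le_card hsub
      have i3 := Cfsg.Agent.S0352.result hα hB hcp hf hne
      exact (Finset.eq_of_subset_of_card_le hsub (by omega)).symm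
    have k1 := key b hb Finset.inter_subset_left hpb
    have k2 := key c hc Finset.inter_subset_right hpc
    have k3 := key ce hce hXce hpce
    have hecp : e ∉ cp := by
      intro h
      have : e ∈ cp ∩ ce := Finset.mem_inter.2 ⟨h, hece⟩
      rw [k3] at this
      exact heX this
    have hpd : p ∉ d := by
      intro h
      have : p ∈ d \ (b ∪ c) := by
        simp only [Finset.mem_sdiff, Finset.mem_union, not_or]
        exact ⟨h, hpb, hpc⟩
      rw [he, Finset.mem_singleton] at this
      rw [this] at hpce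
      exact hpce hece
    have hne : cp ≠ d := by
      rintro rfl
      exact hpd hpcp
    have heq : cp ∩ d = d ∩ (b ∩ c) := by
      ext v
      constructor
      · intro hv
        obtain ⟨hv1, hv2⟩ := Finset.mem_inter.1 hv
        by_cases hvb : v ∈ b
        · have : v ∈ cp ∩ b := Finset.mem_inter.2 ⟨hv1, hvb⟩
          rw [k1] at this
          exact Finset.mem_inter.2 ⟨hv2, this⟩
        · by_cases hvc : v ∈ c
          · have : v ∈ cp ∩ c := Finset.mem_inter.2 ⟨hv1, hvc⟩
            rw [k2] at this
            exact Finset.mem_inter.2 ⟨hv2, this⟩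
          · exfalso
            have : v ∈ d \ (b ∪ c) := by
              simp only [Finset.mem_sdiff, Finset.mem_union, not_or]
              exact ⟨hv2, hvb, hvc⟩
            rw [he, Finset.mem_singleton] at this
            rw [this] at hv1
            exact hecp hv1
      · intro hv
        obtain ⟨hv1, hv2⟩ := Finset.mem_inter.1 hv
        exact Finset.mem_inter.2 ⟨hXcp hv2, hv1⟩
    have i4 := Cfsg.Agent.S0352.result hα hB hcp hd hne
    rw [heq] at i4
    omega

/-- In an S(5, 8, 24), the symmetric difference of two blocks meeting in four points is a block. -/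
theorem result {α : Type*} [Fintype α] [DecidableEq α] (hα : Fintype.card α = 24) {B : Set (Finset α)} (hB : Cfsg.IsSteinerSystem 5 8 B) {b c : Finset α} (hb : b ∈ B) (hc : c ∈ B) (h4 : (b ∩ c).card = 4) : symmDiff b c ∈ B := by
  have hb8 := hB.1 b hb
  have hc8 := hB.1 c hc
  have hYc : (b \ c).card = 4 := by
    have := Finset.card_sdiff_add_card_inter b c
    omega
  have hZc : (c \ b).card = 4 := by
    have := Finset.card_sdiff_add_card_inter c b
    rw [Finset.inter_comm] at this
    omega
  obtain ⟨z1, hz1⟩ : (c \ b).Nonempty := Finset.card_pos.1 (by omega)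
  have hz1' := Finset.mem_sdiff.1 hz1
  have hz1Y : z1 ∉ b \ c := fun h => hz1'.2 (Finset.mem_sdiff.1 h).1
  obtain ⟨D, ⟨hD, hsD⟩, -⟩ := hB.2 (insert z1 (b \ c))
    (by rw [Finset.card_insert_of_notMem hz1Y, hYc])
  have hYD : b \ c ⊆ D := (Finset.subset_insert _ _).trans hsD
  have hz1D : z1 ∈ D := hsD (Finset.mem_insert_self _ _)
  have hZD : c \ b ⊆ D := by
    intro z hz
    by_cases hzz : z = z1
    · rw [hzz]; exact hz1D
    · obtain ⟨y0, hy0⟩ : (b \ c).Nonempty := Finset.card_pos.1 (by omega)
      have hz' := Finset.mem_sdiff.1 hz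
      have hzY : z ∉ b \ c := fun h => hz'.2 (Finset.mem_sdiff.1 h).1
      have n1 : z1 ∉ (b \ c).erase y0 := fun h => hz1Y (Finset.mem_of_mem_erase h)
      have n2 : z ∉ insert z1 ((b \ c).erase y0) := by
        intro h
        rcases Finset.mem_insert.1 h with h | h
        · exact hzz h
        · exact hzY (Finset.mem_of_mem_erase h)
      obtain ⟨d, ⟨hd, hsd⟩, -⟩ := hB.2 (insert z (insert z1 ((b \ c).erase y0)))
        (by rw [Finset.card_insert_of_notMem n2, Finset.card_insert_of_notMem n1,
          Finset.card_erase_of_mem hy0, hYc])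
      have hzd : z ∈ d := hsd (Finset.mem_insert_self _ _)
      have hz1d : z1 ∈ d := hsd (Finset.mem_insert_of_mem (Finset.mem_insert_self _ _))
      have hEd : (b \ c).erase y0 ⊆ d := fun v hv =>
        hsd (Finset.mem_insert_of_mem (Finset.mem_insert_of_mem hv))
      have h3 : 3 ≤ (d ∩ (b \ c)).card := by
        have hsub : (b \ c).erase y0 ⊆ d ∩ (b \ c) := fun v hv =>
          Finset.mem_inter.2 ⟨hEd hv, Finset.mem_of_mem_erase hv⟩
        have := Finset.card_le_card hsub
        rw [Finset.card_erase_of_mem hy0, hYc] at this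
        exact this
      have h2 : 2 ≤ (d ∩ (c \ b)).card := by
        have hsub : ({z, z1} : Finset α) ⊆ d ∩ (c \ b) := by
          intro v hv
          rcases Finset.mem_insert.1 hv with h | h
          · rw [h]; exact Finset.mem_inter.2 ⟨hzd, hz⟩
          · rw [Finset.mem_singleton.1 h]; exact Finset.mem_inter.2 ⟨hz1d, hz1⟩
        have := Finset.card_le_card hsub
        rw [Finset.card_pair hzz] at this
        exact this
      have hYd := lemA hα hB hb hc hd h4 h3 h2
      have hdD : d = D := blk_eq hB (s := insert z1 (b \ c))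
        (by rw [Finset.card_insert_of_notMem hz1Y, hYc]) hd hD
        (Finset.insert_subset hz1d hYd) hsD
      rw [← hdD]
      exact hzd
  have hdisj : Disjoint (b \ c) (c \ b) := by
    rw [Finset.disjoint_left]
    intro v hv1 hv2
    exact (Finset.mem_sdiff.1 hv2).2 (Finset.mem_sdiff.1 hv1).1
  have hfin : symmDiff b c = D := by
    rw [symmDiff_def, Finset.sup_eq_union]
    apply Finset.eq_of_subset_of_card_le (Finset.union_subset hYD hZD)
    rw [hB.1 D hD, Finset.card_union_of_disjoint hdisj, hYc, hZc]
  rw [hfin]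
  exact hD

end Cfsg.Agent.S0353
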