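import Cfsg.Statements.S0371
import Cfsg.Agent.Lib.Helper7.M24Mem

set_option autoImplicit false
open Cfsg

namespace Cfsg.Agent.S0371

open Cfsg.Agent.Lib.Helper7.M24Mem

/-- Multiplication by a nonzero square residue modulo 23, fixing the extra point, lies in the group of the length-24 code. -/
theorem result (u : (ZMod 23)ˣ) (hu : IsSquare u) : Equiv.optionCongr (Units.mulLeft u) ∈ Cfsg.M24 := by
  obtain ⟨v, rfl⟩ := hu
  apply mem_M24_of_gens
  intro t
  have : (fun p => qrWord t ((Equiv.optionCongr (Units.mulLeft (v * v))).symm p))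
      = qrWord (((v * v : (ZMod 23)ˣ) : ZMod 23) * t) := by
    funext p
    cases p with
    | none => rfl
    | some x =>
      show (if ∃ r : ZMod 23, (((v * v)⁻¹ : (ZMod 23)ˣ) : ZMod 23) * x = r ^ 2 + t
          then (1 : ZMod 2) else 0)
        = if ∃ r : ZMod 23, x = r ^ 2 + ((v * v : (ZMod 23)ˣ) : ZMod 23) * t then 1 else 0
      have hv : ((v : ZMod 23)) * ((v⁻¹ : (ZMod 23)ˣ) : ZMod 23) = 1 := by
        rw [← Units.val_mul]; simp
      have : (∃ r : ZMod 23, (((v * v)⁻¹ : (ZMod 23)ˣ) : ZMod 23) * x = r ^ 2 + t) ↔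
          ∃ r : ZMod 23, x = r ^ 2 + ((v * v : (ZMod 23)ˣ) : ZMod 23) * t := by
        simp only [mul_inv_rev, Units.val_mul]
        constructor
        · rintro ⟨r, hr⟩
          refine ⟨(v : ZMod 23) * r, ?_⟩
          linear_combination (v : ZMod 23) * (v : ZMod 23) * hr
            - x * (1 + (v : ZMod 23) * ((v⁻¹ : (ZMod 23)ˣ) : ZMod 23)) * hv
        · rintro ⟨r, hr⟩
          refine ⟨((v⁻¹ : (ZMod 23)ˣ) : ZMod 23) * r, ?_⟩
          linear_combination ((v⁻¹ : (ZMod 23)ˣ) : ZMod 23) * ((v⁻¹ : (ZMod 23)ˣ) : ZMod 23) * hr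
            + t * (1 + (v : ZMod 23) * ((v⁻¹ : (ZMod 23)ˣ) : ZMod 23)) * hv
      simp only [this]
  rw [this]
  exact Submodule.subset_span (Or.inl ⟨_, rfl⟩)

end Cfsg.Agent.S0371
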