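import Cfsg.Statements.S0380
import Cfsg.Agent.Lib.Helper7.M21

set_option autoImplicit false
open Cfsg

namespace Cfsg.Agent.S0380

/-- A three-point stabiliser in the group of the length-24 code is isomorphic to PSL(3, F) for the field F with 4 elements. -/
theorem result (p q r : Cfsg.GolayPt) (hpq : p ≠ q) (hpr : p ≠ r) (hqr : q ≠ r) (F : Type) [Field F] [Fintype F] (hF : Fintype.card F = 4) : Nonempty (↥(MulAction.stabilizer Cfsg.M24 p ⊓ MulAction.stabilizer Cfsg.M24 q ⊓ MulAction.stabilizer Cfsg.M24 r) ≃* Matrix.ProjectiveSpecialLinearGroup (Fin 3) F) := by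
  classical
  open Cfsg.Agent.Lib.Helper7.GolayBase Cfsg.Agent.Lib.Helper7.ChainGen
    Cfsg.Agent.Lib.Helper7.M24Main in
  obtain ⟨t, ht, hmap⟩ := exists_map_base5 [p, q, r] (by simp [hpq, hpr, hqr]) (by simp)
  have hmap' : [t p, t q, t r] = [pt 23, pt 0, pt 1] := by simpa [base5] using hmap
  simp only [List.cons.injEq, and_true] at hmap'
  obtain ⟨htp, htq, htr⟩ := hmap'
  have hti : ∀ (x : GolayPt) (y : GolayPt), t x = y → t⁻¹ y = x := by
    intro x y h
    rw [← h]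
    simp
  let H3 : Subgroup ↥M24 := MulAction.stabilizer Cfsg.M24 p ⊓ MulAction.stabilizer Cfsg.M24 q ⊓
    MulAction.stabilizer Cfsg.M24 r
  let K : Subgroup (Equiv.Perm GolayPt) := M24 ⊓ FixL [1, 0, 23]
  have h1 : ∀ y : ↥M24, y ∈ H3 → t * (y : Equiv.Perm GolayPt) * t⁻¹ ∈ K := by
    intro y hy
    have hyp : (y : Equiv.Perm GolayPt) p = p := hy.1.1
    have hyq : (y : Equiv.Perm GolayPt) q = q := hy.1.2
    have hyr : (y : Equiv.Perm GolayPt) r = r := hy.2
    refine ⟨M24.mul_mem (M24.mul_mem ht y.2) (M24.inv_mem ht), ?_⟩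
    intro f hf
    simp only [List.mem_cons, List.not_mem_nil, or_false] at hf
    rcases hf with rfl | rfl | rfl
    · show t ((y : Equiv.Perm GolayPt) (t⁻¹ (pt 1))) = pt 1
      rw [hti r _ htr, hyr, htr]
    · show t ((y : Equiv.Perm GolayPt) (t⁻¹ (pt 0))) = pt 0
      rw [hti q _ htq, hyq, htq]
    · show t ((y : Equiv.Perm GolayPt) (t⁻¹ (pt 23))) = pt 23
      rw [hti p _ htp, hyp, htp]
  have h2a : ∀ w ∈ K, t⁻¹ * w * t ∈ M24 := fun w hw =>
    M24.mul_mem (M24.mul_mem (M24.inv_mem ht) hw.1) ht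
  have h2b : ∀ (w : Equiv.Perm GolayPt) (hw : w ∈ K),
      (⟨t⁻¹ * w * t, h2a w hw⟩ : ↥M24) ∈ H3 := by
    intro w hw
    refine ⟨⟨?_, ?_⟩, ?_⟩
    · show t⁻¹ (w (t p)) = p
      rw [htp, hw.2 23 (by simp), hti p _ htp]
    · show t⁻¹ (w (t q)) = q
      rw [htq, hw.2 0 (by simp), hti q _ htq]
    · show t⁻¹ (w (t r)) = r
      rw [htr, hw.2 1 (by simp), hti r _ htr]
  let e : ↥H3 ≃* ↥K :=
    { toFun := fun y => ⟨t * ((y : ↥M24) : Equiv.Perm GolayPt) * t⁻¹, h1 y.1 y.2⟩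
      invFun := fun w => ⟨⟨t⁻¹ * w.1 * t, h2a w.1 w.2⟩, h2b w.1 w.2⟩
      left_inv := fun y => by
        apply Subtype.ext
        apply Subtype.ext
        simp [mul_assoc]
      right_inv := fun w => by
        apply Subtype.ext
        simp [mul_assoc]
      map_mul' := fun y y' => by
        apply Subtype.ext
        simp [mul_assoc] }
  obtain ⟨e2⟩ := Cfsg.Agent.Lib.Helper7.M21.base_iso hF
  exact ⟨e.trans e2⟩

end Cfsg.Agent.S0380
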