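import Cfsg.Statements.S0403
import Cfsg.Agent.Lib.Helper27.SimpHS

set_option autoImplicit false
open Cfsg

namespace Cfsg.Agent.S0403

open Cfsg.Agent.Lib.Helper27 Cfsg.Agent.Lib.Helper27.Bits Cfsg.Agent.Lib.Helper27.Pk
open Cfsg.Agent.Lib.Helper27.MinTab Cfsg.Agent.Lib.Helper27.MinEnum Cfsg.Agent.Lib.Helper27.MinFast
open Cfsg.Agent.Lib.Helper27.MinAll Cfsg.Agent.Lib.Helper27.LDot Cfsg.Agent.Lib.Helper27.LMat
open Cfsg.Agent.Lib.Helper27.Spread Cfsg.Agent.Lib.Helper27.Co0Act Cfsg.Agent.Lib.Helper27.LApp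
open Cfsg.Agent.Lib.Helper27.OrbCert Cfsg.Agent.Lib.Helper27.CoGlue
open Cfsg.Agent.Lib.Helper27.CertBase Cfsg.Agent.Lib.Helper27.CoStd
open Cfsg.Agent.Lib.Helper27.SimpleCrit Cfsg.Agent.Lib.Helper27.SimpGlue
open Cfsg.Agent.Lib.Helper27.SimpM22 Cfsg.Agent.Lib.Helper27.SimpHS
open MulAction

/-- Stabiliser of a vector of sum of squares 48 is simple of order 495766656000. -/
theorem result (v : Cfsg.leechLattice) (hv : Cfsg.sqNorm (v : Cfsg.GolayPt → ℤ) = 48) : Cfsg.IsCo3 (MulAction.stabilizer Cfsg.Co0 v) := by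
  obtain ⟨g0, h1⟩ := std48 v hv
  refine simple_card_conj (stabilizer Co0 v) (stabilizer Co0 u0) g0 ?_ 495766656000
    ⟨co3_simple, card_co3⟩
  intro x
  rw [mem_stabilizer_iff, mem_stabilizer_iff, conj_fix g0 x h1]

end Cfsg.Agent.S0403
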