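import Cfsg.Statements.S0419
import Cfsg.Agent.Lib.Helper7.SharpTrans

set_option autoImplicit false
open Cfsg

namespace Cfsg.Agent.S0419

/-- A sharply 5-transitive group of degree 12 is simple of order 95040. -/
theorem result {α : Type*} [Fintype α] [DecidableEq α] (hα : Fintype.card α = 12) (G : Subgroup (Equiv.Perm α)) [MulAction.IsMultiplyPretransitive G α 5] (hsharp : ∀ x : Fin 5 ↪ α, MulAction.stabilizer G x = ⊥) : Cfsg.IsM12 G := by
  have hfaith : ∀ g : G, (∀ x : α, g • x = x) → g = 1 := by
    intro g hg
    apply Subtype.ext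
    apply Equiv.ext
    exact hg
  have hcard : Nat.card G = 11 * 8640 := by
    rw [Cfsg.Agent.Lib.Helper7.SharpTrans.card_of_sharp (G := G) (α := α) 5 (by omega) hsharp, hα]
    decide
  have : MulAction.IsMultiplyPretransitive G α 3 :=
    MulAction.isMultiplyPretransitive_of_le (n := 5) (by omega)
      (by rw [Nat.card_eq_fintype_card, hα]; omega)
  refine ⟨?_, hcard⟩
  refine Cfsg.Agent.Lib.Helper7.SimpleSylow.simple_of_degree_p_succ (X := α) (p := 11) (q := 5)
    (m := 8640) (r := 2) (s := 3) (by norm_num) (by norm_num) hα hfaith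
    Cfsg.Agent.Lib.Helper7.SharpTrans.three_of_multiply (by norm_num) (by norm_num) (by norm_num)
    (by norm_num) (by norm_num) hcard (by norm_num) (by norm_num) ?_
  intro j hj
  have hle : j ≤ 10 := Nat.le_of_dvd (by norm_num) hj
  interval_cases j <;> simp_all

end Cfsg.Agent.S0419
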