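import Cfsg.Statements.S0432

set_option autoImplicit false
open Cfsg

namespace Cfsg.Agent.S0432

open scoped Pointwise

lemma leechSet_perm (σ : Equiv.Perm Cfsg.GolayPt) (hσ : σ ∈ Cfsg.M24) (x : Cfsg.GolayPt → ℤ)
    (hx : x ∈ Cfsg.leechSet) : (fun i => x (σ i)) ∈ Cfsg.leechSet := by
  obtain ⟨m, h1, h2, h3⟩ := hx
  refine ⟨m, fun i => h1 (σ i), ?_, fun k => ?_⟩
  · rw [Equiv.sum_comp σ x]; exact h2
  · have hσ' : σ⁻¹ • supports (golayCode : Set (GolayPt → ZMod 2))
        = supports (golayCode : Set (GolayPt → ZMod 2)) :=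
      MulAction.mem_stabilizer_iff.mp (inv_mem hσ)
    have key : (Finset.univ.filter fun i => x (σ i) ≡ k [ZMOD 4])
        = σ⁻¹ • (Finset.univ.filter fun i => x i ≡ k [ZMOD 4]) := by
      ext i
      rw [Finset.mem_inv_smul_finset_iff]
      simp
    rw [key, ← hσ']
    exact Set.smul_mem_smul_set (h3 k)

/-- Coordinate permutations from the code's group preserve the lattice. -/
theorem result (σ : Equiv.Perm Cfsg.GolayPt) (hσ : σ ∈ Cfsg.M24) (x : Cfsg.GolayPt → ℤ) (hx : x ∈ Cfsg.leechLattice) : (fun i => x (σ i)) ∈ Cfsg.leechLattice := by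
  unfold leechLattice at hx ⊢
  induction hx using AddSubgroup.closure_induction with
  | mem y hy => exact AddSubgroup.subset_closure (leechSet_perm σ hσ y hy)
  | zero => exact AddSubgroup.zero_mem _
  | add y z _ _ hy hz => exact AddSubgroup.add_mem _ hy hz
  | neg y _ hy => exact AddSubgroup.neg_mem _ hy

end Cfsg.Agent.S0432
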