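import Cfsg.Statements.S0433
import Cfsg.Agent.Lib.Helper7.GolayCode

set_option autoImplicit false
open Cfsg

namespace Cfsg.Agent.S0433

open Cfsg.Agent.Lib.Helper7.GolayBase Cfsg.Agent.Lib.Helper7.GolayCode

lemma card_dvd4 {c : Finset GolayPt}
    (hc : c ∈ supports (golayCode : Set (GolayPt → ZMod 2))) : 4 ∣ c.card := by
  obtain ⟨m, hm, rfl⟩ := (mem_supports_iff c).mp hc
  rw [card_mk]
  rcases weights m hm with h | h | h | h | h <;> rw [h] <;> decide

lemma symmDiff_mem {c d : Finset GolayPt}
    (hc : c ∈ supports (golayCode : Set (GolayPt → ZMod 2)))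
    (hd : d ∈ supports (golayCode : Set (GolayPt → ZMod 2))) :
    symmDiff c d ∈ supports (golayCode : Set (GolayPt → ZMod 2)) := by
  obtain ⟨a, ha, rfl⟩ := (mem_supports_iff c).mp hc
  obtain ⟨b, hb, rfl⟩ := (mem_supports_iff d).mp hd
  rw [← mk_xor]
  exact mk_mem_supports (xor_mem_codeList ha hb)

lemma card_symmDiff_add (c d : Finset GolayPt) :
    (symmDiff c d).card + 2 * (c ∩ d).card = c.card + d.card := by
  have h1 : symmDiff c d = (c \ d) ∪ (d \ c) := rfl
  have h2 : Disjoint (c \ d) (d \ c) := by
    rw [Finset.disjoint_left]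
    intro a ha hb
    rw [Finset.mem_sdiff] at ha hb
    exact ha.2 hb.1
  rw [h1, Finset.card_union_of_disjoint h2]
  have h3 := Finset.card_sdiff_add_card_inter c d
  have h4 := Finset.card_sdiff_add_card_inter d c
  rw [Finset.inter_comm d c] at h4
  omega

lemma card_inter_even {c d : Finset GolayPt}
    (hc : c ∈ supports (golayCode : Set (GolayPt → ZMod 2)))
    (hd : d ∈ supports (golayCode : Set (GolayPt → ZMod 2))) : 2 ∣ (c ∩ d).card := by
  have h1 := card_dvd4 hc
  have h2 := card_dvd4 hd
  have h3 := card_dvd4 (symmDiff_mem hc hd)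
  have h4 := card_symmDiff_add c d
  omega

lemma flip_leechSet (c : Finset GolayPt)
    (hc : c ∈ supports (golayCode : Set (GolayPt → ZMod 2)))
    (x : GolayPt → ℤ) (hx : x ∈ leechSet) :
    (fun i => if i ∈ c then -x i else x i) ∈ leechSet := by
  obtain ⟨m, h1, h2, h3⟩ := hx
  simp only [Int.ModEq] at h1 h2
  refine ⟨m, ?_, ?_, ?_⟩
  · intro i
    show (if i ∈ c then -x i else x i) % 2 = m % 2
    have := h1 i
    split_ifs <;> omega
  · have key : (∑ i ∈ c, x i) % 4 = 0 := by
      obtain ⟨ε, hε⟩ : ∃ ε : ℤ, ε = m % 2 := ⟨_, rfl⟩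
      have hA := h3 (ε + 2)
      have hpt : ∀ i, x i % 4 = (ε + if x i ≡ ε + 2 [ZMOD 4] then 2 else 0) % 4 := by
        intro i
        have := h1 i
        simp only [Int.ModEq]
        split_ifs with h <;> omega
      rw [Finset.sum_int_mod, Finset.sum_congr rfl (fun i _ => hpt i), ← Finset.sum_int_mod,
        Finset.sum_add_distrib, Finset.sum_const, Finset.sum_ite, Finset.sum_const,
        Finset.sum_const_zero]
      have e1 := card_dvd4 hc
      have e2 := card_inter_even hc hA
      rw [Finset.inter_filter, Finset.inter_univ] at e2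
      obtain ⟨a, ha⟩ := e1
      obtain ⟨b, hb⟩ := e2
      rw [ha, hb]
      apply Int.emod_eq_zero_of_dvd
      refine ⟨a * ε + b, ?_⟩
      simp only [nsmul_eq_mul]
      push_cast
      ring
    have hsum : ∑ i, (if i ∈ c then -x i else x i) = ∑ i, x i - 2 * ∑ i ∈ c, x i := by
      have : ∀ i, (if i ∈ c then -x i else x i) = x i - 2 * (if i ∈ c then x i else 0) := by
        intro i; split_ifs <;> ring
      simp_rw [this]
      rw [Finset.sum_sub_distrib, ← Finset.mul_sum, Finset.sum_ite_mem, Finset.univ_inter]
    show (∑ i, (if i ∈ c then -x i else x i)) % 8 = (4 * m) % 8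
    rw [hsum]
    omega
  · intro k
    by_cases hodd : m % 2 = 1 ∧ k % 2 = 1
    · have : (Finset.univ.filter fun i => (if i ∈ c then -x i else x i) ≡ k [ZMOD 4])
          = symmDiff c (Finset.univ.filter fun i => x i ≡ k [ZMOD 4]) := by
        ext i
        rw [Finset.mem_symmDiff, Finset.mem_filter, Finset.mem_filter]
        have := h1 i
        by_cases hi : i ∈ c
        · simp only [Finset.mem_univ, true_and, hi, if_true, not_true, and_false, or_false,
            Int.ModEq]
          constructor
          · intro h; omega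
          · intro h; omega
        · simp only [Finset.mem_univ, true_and, hi, if_false, not_false_eq_true, and_true,
            false_and, false_or]
      rw [this]
      exact symmDiff_mem hc (h3 k)
    · have : (Finset.univ.filter fun i => (if i ∈ c then -x i else x i) ≡ k [ZMOD 4])
          = (Finset.univ.filter fun i => x i ≡ k [ZMOD 4]) := by
        apply Finset.filter_congr
        intro i _
        simp only [Int.ModEq]
        have := h1 i
        split_ifs
        · omega
        · exact Iff.rfl
      rw [this]
      exact h3 k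

/-- Sign changes on the support of a codeword preserve the lattice. -/
theorem result (c : Finset Cfsg.GolayPt) (hc : c ∈ Cfsg.supports (Cfsg.golayCode : Set (Cfsg.GolayPt → ZMod 2))) (x : Cfsg.GolayPt → ℤ) (hx : x ∈ Cfsg.leechLattice) : (fun i => if i ∈ c then -x i else x i) ∈ Cfsg.leechLattice := by
  unfold leechLattice at hx ⊢
  induction hx using AddSubgroup.closure_induction with
  | mem y hy => exact AddSubgroup.subset_closure (flip_leechSet c hc y hy)
  | zero =>
    have : (fun i => if i ∈ c then -(0 : GolayPt → ℤ) i else (0 : GolayPt → ℤ) i) = 0 := by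
      funext i; simp
    rw [this]; exact AddSubgroup.zero_mem _
  | add y z _ _ hy hz =>
    have : (fun i => if i ∈ c then -(y + z) i else (y + z) i)
        = (fun i => if i ∈ c then -y i else y i) + (fun i => if i ∈ c then -z i else z i) := by
      funext i; simp only [Pi.add_apply]; split_ifs <;> ring
    rw [this]; exact AddSubgroup.add_mem _ hy hz
  | neg y _ hy =>
    have : (fun i => if i ∈ c then -(-y) i else (-y) i)
        = -(fun i => if i ∈ c then -y i else y i) := by
      funext i; simp only [Pi.neg_apply]; split_ifs <;> ring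
    rw [this]; exact AddSubgroup.neg_mem _ hy

end Cfsg.Agent.S0433
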