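import Cfsg.Statements.S0440
import Cfsg.Agent.Lib.Helper13.SympMat
import Cfsg.Agent.S0271

set_option autoImplicit false
open Cfsg

namespace Cfsg.Agent.S0440

open Matrix Cfsg.Agent.Lib.Helper13 Cfsg.Agent.Lib.Helper13.SympMat

theorem comm_grp {G : Type*} [Group G] {a b : G} (ha : a * a = 1) (hb : b * b = 1)
    (h : a * b * a⁻¹ = b) : (a * b) ^ 2 = 1 := by
  have ha' : a⁻¹ = a := inv_eq_of_mul_eq_one_left ha
  rw [ha'] at h
  calc (a * b) ^ 2 = (a * b * a) * b := by simp [pow_succ, mul_assoc]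
    _ = 1 := by rw [h, hb]

theorem braid_grp {G : Type*} [Group G] {a b : G} (ha : a * a = 1) (hb : b * b = 1)
    (h : a * b * a⁻¹ = b * a * b⁻¹) : (a * b) ^ 3 = 1 := by
  have ha' : a⁻¹ = a := inv_eq_of_mul_eq_one_left ha
  have hb' : b⁻¹ = b := inv_eq_of_mul_eq_one_left hb
  rw [ha', hb'] at h
  calc (a * b) ^ 3 = (a * b * a) * (b * a * b) := by simp [pow_succ, mul_assoc]
    _ = (a * b * a) * (a * b * a) := by rw [h]
    _ = a * b * (a * a) * b * a := by simp [mul_assoc]
    _ = a * (b * b) * a := by rw [ha]; simp [mul_assoc]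
    _ = 1 := by rw [hb, mul_one, ha]

theorem zmod2_cases (x : ZMod 2) : x = 0 ∨ x = 1 := by
  revert x; decide

variable (n : ℕ)

/-- The symplectic transvection of a vector, as an element of the symplectic group. -/
def T (v : Fin n ⊕ Fin n → ZMod 2) : Matrix.symplecticGroup (Fin n) (ZMod 2) :=
  ⟨Cfsg.sympTransvection n v 1, transvection_mem n v 1⟩

theorem Φ_T (v x : Fin n ⊕ Fin n → ZMod 2) :
    Φ n (T n v) x = x + form n (ZMod 2) x v • v := by
  rw [Φ_apply]
  show Cfsg.sympTransvection n v 1 *ᵥ x = _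
  rw [transvection_mulVec, one_mul]

theorem ext_Φ {A B : Matrix.symplecticGroup (Fin n) (ZMod 2)}
    (h : ∀ x, Φ n A x = Φ n B x) : A = B :=
  Φ_injective n (LinearEquiv.ext h)

theorem form_symm (x y : Fin n ⊕ Fin n → ZMod 2) :
    form n (ZMod 2) x y = form n (ZMod 2) y x := by
  have h := LinearMap.BilinForm.IsAlt.neg_eq (form_alt n (F := ZMod 2)) x y
  rw [← h]
  exact (CharTwo.neg_eq _).symm

theorem form_self (x : Fin n ⊕ Fin n → ZMod 2) : form n (ZMod 2) x x = 0 :=
  form_alt n (F := ZMod 2) x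

theorem add_self_vec (v : Fin n ⊕ Fin n → ZMod 2) : v + v = 0 := by
  funext p; exact CharTwo.add_self_eq_zero (v p)

theorem exists_form_one {v : Fin n ⊕ Fin n → ZMod 2} (hv : v ≠ 0) :
    ∃ x, form n (ZMod 2) x v = 1 := by
  by_contra h
  push Not at h
  apply hv
  apply (form_nondeg n (F := ZMod 2)).2 v
  intro x
  rcases zmod2_cases (form n (ZMod 2) x v) with h1 | h1
  · exact h1
  · exact absurd h1 (h x)

theorem one_app (x : Fin n ⊕ Fin n → ZMod 2) :
    (1 : (Fin n ⊕ Fin n → ZMod 2) ≃ₗ[ZMod 2] (Fin n ⊕ Fin n → ZMod 2)) x = x := rfl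

theorem Φ_inv_apply (g : Matrix.symplecticGroup (Fin n) (ZMod 2)) (x : Fin n ⊕ Fin n → ZMod 2) :
    Φ n g (Φ n g⁻¹ x) = x := by
  rw [← LinearEquiv.mul_apply, ← map_mul, mul_inv_cancel, map_one]
  rfl

theorem conj_T (g : Matrix.symplecticGroup (Fin n) (ZMod 2)) (v : Fin n ⊕ Fin n → ZMod 2) :
    g * T n v * g⁻¹ = T n (Φ n g v) := by
  apply ext_Φ
  intro x
  rw [map_mul, map_mul, LinearEquiv.mul_apply, LinearEquiv.mul_apply, Φ_T, Φ_T, map_add,
    map_smul, Φ_inv_apply]
  have h2 := Φ_isometry n g (Φ n g⁻¹ x) v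
  rw [Φ_inv_apply] at h2
  rw [h2]

theorem T_sq (v : Fin n ⊕ Fin n → ZMod 2) : T n v * T n v = 1 := by
  apply ext_Φ
  intro x
  rw [map_mul, LinearEquiv.mul_apply, Φ_T, Φ_T, map_one, one_app, map_add,
    LinearMap.add_apply, map_smul, LinearMap.smul_apply, form_self, smul_zero, add_zero,
    add_assoc, ← add_smul, CharTwo.add_self_eq_zero, zero_smul, add_zero]

theorem T_ne_one {v : Fin n ⊕ Fin n → ZMod 2} (hv : v ≠ 0) : T n v ≠ 1 := by
  intro h
  obtain ⟨x, hx⟩ := exists_form_one n hv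
  have h1 := Φ_T n v x
  rw [h, map_one, one_app, hx, one_smul] at h1
  apply hv
  have h2 : x + 0 = x + v := by rw [add_zero]; exact h1
  exact (add_left_cancel h2).symm

theorem orderOf_T {v : Fin n ⊕ Fin n → ZMod 2} (hv : v ≠ 0) : orderOf (T n v) = 2 := by
  have : Fact (Nat.Prime 2) := ⟨Nat.prime_two⟩
  apply orderOf_eq_prime
  · rw [pow_two]; exact T_sq n v
  · exact T_ne_one n hv

theorem T_mul_T (v w : Fin n ⊕ Fin n → ZMod 2) :
    (T n v * T n w) ^ 2 = 1 ∨ (T n v * T n w) ^ 3 = 1 := by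
  have hv' : (T n v)⁻¹ = T n v := inv_eq_of_mul_eq_one_left (T_sq n v)
  have hw' : (T n w)⁻¹ = T n w := inv_eq_of_mul_eq_one_left (T_sq n w)
  have h1 : T n v * T n w * (T n v)⁻¹ = T n (w + form n (ZMod 2) w v • v) := by
    rw [conj_T, Φ_T]
  have h2 : T n w * T n v * (T n w)⁻¹ = T n (v + form n (ZMod 2) v w • w) := by
    rw [conj_T, Φ_T]
  rcases zmod2_cases (form n (ZMod 2) v w) with h | h
  · left
    apply comm_grp (T_sq n v) (T_sq n w)
    rw [h1, form_symm, h, zero_smul, add_zero]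
  · right
    apply braid_grp (T_sq n v) (T_sq n w)
    rw [h1, h2, form_symm, h, one_smul, one_smul, add_comm]

/-- The rank condition for transvections. -/
theorem rank_T {v : Fin n ⊕ Fin n → ZMod 2} (hv : v ≠ 0) :
    ((T n v : Matrix (Fin n ⊕ Fin n) (Fin n ⊕ Fin n) (ZMod 2)) - 1).rank = 1 := by
  have hmul : ∀ x, ((T n v : Matrix (Fin n ⊕ Fin n) (Fin n ⊕ Fin n) (ZMod 2)) - 1) *ᵥ x =
      form n (ZMod 2) x v • v := by
    intro x
    rw [Matrix.sub_mulVec, Matrix.one_mulVec, ← Φ_apply, Φ_T, add_sub_cancel_left]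
  have hrange : LinearMap.range
      ((T n v : Matrix (Fin n ⊕ Fin n) (Fin n ⊕ Fin n) (ZMod 2)) - 1).mulVecLin =
      Submodule.span (ZMod 2) {v} := by
    ext y
    rw [LinearMap.mem_range, Submodule.mem_span_singleton]
    constructor
    · rintro ⟨x, rfl⟩
      exact ⟨form n (ZMod 2) x v, by rw [Matrix.mulVecLin_apply, hmul]⟩
    · rintro ⟨c, rfl⟩
      rcases zmod2_cases c with rfl | rfl
      · exact ⟨0, by simp⟩
      · obtain ⟨x, hx⟩ := exists_form_one n hv
        exact ⟨x, by rw [Matrix.mulVecLin_apply, hmul, hx]⟩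
  show Module.finrank (ZMod 2) (LinearMap.range _) = 1
  rw [hrange]
  exact finrank_span_singleton hv

/-- An element of the symplectic group with `g - 1` of rank one is a transvection. -/
theorem eq_T_of_rank (g : Matrix.symplecticGroup (Fin n) (ZMod 2))
    (hg : ((g : Matrix (Fin n ⊕ Fin n) (Fin n ⊕ Fin n) (ZMod 2)) - 1).rank = 1) :
    ∃ v, v ≠ 0 ∧ g = T n v := by
  set M : Matrix (Fin n ⊕ Fin n) (Fin n ⊕ Fin n) (ZMod 2) :=
    (g : Matrix (Fin n ⊕ Fin n) (Fin n ⊕ Fin n) (ZMod 2)) - 1 with hM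
  have hfin : Module.finrank (ZMod 2) (LinearMap.range M.mulVecLin) = 1 := hg
  obtain ⟨a', ha', hspan⟩ := finrank_eq_one_iff'.mp hfin
  obtain ⟨y0, hy0⟩ := a'.2
  have ha0 : (a' : Fin n ⊕ Fin n → ZMod 2) ≠ 0 := fun h => ha' (Subtype.ext h)
  rw [Matrix.mulVecLin_apply] at hy0
  have hcase : ∀ x, M *ᵥ x = 0 ∨ M *ᵥ x = (a' : Fin n ⊕ Fin n → ZMod 2) := by
    intro x
    obtain ⟨c, hc⟩ := hspan ⟨M *ᵥ x, ⟨x, Matrix.mulVecLin_apply _ _⟩⟩
    have hc' : c • (a' : Fin n ⊕ Fin n → ZMod 2) = M *ᵥ x := congrArg Subtype.val hc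
    rcases zmod2_cases c with rfl | rfl
    · left; rw [← hc', zero_smul]
    · right; rw [← hc', one_smul]
  have hΦ : ∀ x, Φ n g x = x + M *ᵥ x := by
    intro x
    rw [Φ_apply, hM, Matrix.sub_mulVec, Matrix.one_mulVec, add_sub_cancel]
  -- the isometry relation
  have hrel : ∀ x y, form n (ZMod 2) x (M *ᵥ y) = form n (ZMod 2) (M *ᵥ x) y := by
    intro x y
    have h1 := Φ_isometry n g x y
    rw [hΦ, hΦ] at h1
    simp only [map_add, LinearMap.add_apply] at h1
    have h2 : form n (ZMod 2) (M *ᵥ x) (M *ᵥ y) = 0 := by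
      rcases hcase x with hx | hx <;> rcases hcase y with hy | hy
      · rw [hx]; simp
      · rw [hx]; simp
      · rw [hy]; simp
      · rw [hx, hy]; exact form_self n _
    rw [h2, add_zero] at h1
    have h3 : form n (ZMod 2) x (M *ᵥ y) + form n (ZMod 2) (M *ᵥ x) y = 0 := by
      linear_combination h1
    exact CharTwo.add_eq_zero.mp h3
  obtain ⟨x1, hx1⟩ := exists_form_one n ha0
  have hkey : ∀ x, M *ᵥ x = form n (ZMod 2) x (a' : Fin n ⊕ Fin n → ZMod 2) •
      (a' : Fin n ⊕ Fin n → ZMod 2) := by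
    have hMx1 : M *ᵥ x1 = (a' : Fin n ⊕ Fin n → ZMod 2) := by
      rcases hcase x1 with h | h
      · exfalso
        have h5 := hrel x1 y0
        rw [hy0, hx1, h] at h5
        simp at h5
      · exact h
    have hκ : form n (ZMod 2) (a' : Fin n ⊕ Fin n → ZMod 2) y0 = 1 := by
      have h5 := hrel x1 y0
      rw [hy0, hx1, hMx1] at h5
      exact h5.symm
    intro x
    have h6 := hrel x y0
    rw [hy0] at h6
    rcases hcase x with h | h
    · rw [h] at h6 ⊢
      rw [h6]; simp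
    · rw [h] at h6 ⊢
      rw [h6, hκ, one_smul]
  refine ⟨(a' : Fin n ⊕ Fin n → ZMod 2), ha0, ?_⟩
  apply ext_Φ
  intro x
  rw [hΦ, Φ_T, hkey]

/-- In the symplectic group in dimension 2n ≥ 2 over the field with two elements, the elements g for which g - 1 has rank one (the symplectic transvections) form a conjugacy class of 3-transpositions generating the group. -/
theorem result (n : ℕ) (hn : 1 ≤ n) : Cfsg.IsThreeTranspositionClass {g : Matrix.symplecticGroup (Fin n) (ZMod 2) | ((g : Matrix (Fin n ⊕ Fin n) (Fin n ⊕ Fin n) (ZMod 2)) - 1).rank = 1} := by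
  refine ⟨⟨?_, ?_⟩, ?_, ?_⟩
  · intro d hd
    obtain ⟨v, hv, rfl⟩ := eq_T_of_rank n d hd
    exact orderOf_T n hv
  · intro d hd e he
    obtain ⟨v, hv, rfl⟩ := eq_T_of_rank n d hd
    obtain ⟨w, hw, rfl⟩ := eq_T_of_rank n e he
    exact T_mul_T n v w
  · let v0 : Fin n ⊕ Fin n → ZMod 2 := Pi.single (Sum.inl ⟨0, hn⟩) 1
    have hv0 : v0 ≠ 0 := by
      intro h
      have := congrFun h (Sum.inl ⟨0, hn⟩)
      simp [v0] at this
    refine ⟨T n v0, rank_T n hv0, ?_⟩
    ext g
    constructor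
    · intro hg
      obtain ⟨w, hw, rfl⟩ := eq_T_of_rank n g hg
      obtain ⟨k, hk⟩ := Cfsg.Agent.S0271.result n v0 w hv0 hw
      show IsConj (T n v0) (T n w)
      rw [isConj_iff]
      refine ⟨k, ?_⟩
      rw [conj_T, Φ_apply, hk]
    · intro hg
      have hg' : IsConj (T n v0) g := hg
      rw [isConj_iff] at hg'
      obtain ⟨k, rfl⟩ := hg'
      rw [conj_T]
      apply rank_T
      intro h
      apply hv0
      have h1 : Φ n k v0 = Φ n k 0 := by rw [h, map_zero]
      exact (Φ n k).injective h1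
  · rw [eq_top_iff, ← closure_gens_eq_top n (F := ZMod 2)]
    apply (Subgroup.closure_le _).mpr
    rintro A ⟨w, c, hA⟩
    rcases zmod2_cases c with rfl | rfl
    · have : A = 1 := by
        apply Subtype.ext
        rw [hA]
        simp [Cfsg.sympTransvection]
      rw [this]; exact Subgroup.one_mem _
    · by_cases hw : w = 0
      · have : A = 1 := by
          apply Subtype.ext
          rw [hA, hw]
          simp [Cfsg.sympTransvection]
        rw [this]; exact Subgroup.one_mem _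
      · have : A = T n w := Subtype.ext hA
        rw [this]
        exact Subgroup.subset_closure (rank_T n hw)

end Cfsg.Agent.S0440
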