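import Cfsg.Statements.S0442

set_option autoImplicit false
open Cfsg

namespace Cfsg.Agent.S0442

lemma conj_inv_pow {G : Type*} [Group G] (a b : G) (ha : a * a = 1) (hb : b * b = 1) (n : ℕ) :
    a * (a * b) ^ n = ((a * b) ^ n)⁻¹ * a := by
  have ia : a⁻¹ = a := inv_eq_of_mul_eq_one_left ha
  have ib : b⁻¹ = b := inv_eq_of_mul_eq_one_left hb
  have h1 : a * (a * b) * a⁻¹ = (a * b)⁻¹ := by
    rw [mul_inv_rev, ia, ib, ← mul_assoc, ha, one_mul]
  have h2 : a * (a * b) ^ n * a⁻¹ = ((a * b) ^ n)⁻¹ := by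
    rw [← conj_pow, h1, inv_pow]
  rw [← h2]
  simp

lemma dihedral_comm {G : Type*} [Group G] (a b : G) (ha : a * a = 1) (hb : b * b = 1) (n : ℕ)
    (h : (a * b) ^ n * (a * b) ^ n = 1) : Commute ((a * b) ^ n) a := by
  have h1 := conj_inv_pow a b ha hb n
  have h2 : ((a * b) ^ n)⁻¹ = (a * b) ^ n := inv_eq_of_mul_eq_one_left h
  rw [h2] at h1
  exact h1.symm

lemma odd_case {G : Type*} [Group G] (a b : G) (ha : a * a = 1) (hb : b * b = 1) (m : ℕ)
    (hpow : (a * b) ^ (2 * m + 1) = 1) : (a * b) ^ m * a = b * (a * b) ^ m := by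
  have h1 : a * (a * b) ^ m = ((a * b) ^ m)⁻¹ * a := conj_inv_pow a b ha hb m
  have h2 : (a * b) ^ m * a = a * ((a * b) ^ m)⁻¹ := by
    have : (a * b) ^ m * a * (a * b) ^ m = a := by
      rw [mul_assoc, h1, mul_inv_cancel_left]
    exact eq_mul_inv_of_mul_eq this
  have h3 : ((a * b) ^ m)⁻¹ = (a * b) * (a * b) ^ m := by
    symm
    apply eq_inv_of_mul_eq_one_left
    rw [← pow_succ', ← pow_add]
    have : m + 1 + m = 2 * m + 1 := by omega
    rw [this]; exact hpow
  rw [h2, h3]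
  simp only [← mul_assoc]
  rw [ha, one_mul]

/-- A standard trick for producing elements of an involution centraliser: for an involution a and an element g, let b be the conjugate g⁻¹ * a * g. If a * b has odd order 2m + 1 then g * (a * b) ^ m commutes with a; if a * b has even order 2m then (a * b) ^ m and (a * (g * a * g⁻¹)) ^ m commute with a. -/
theorem result {G : Type*} [Group G] (a g : G) (ha : orderOf a = 2) : (∀ m : ℕ, orderOf (a * (g⁻¹ * a * g)) = 2 * m + 1 → Commute (g * (a * (g⁻¹ * a * g)) ^ m) a) ∧ (∀ m : ℕ, orderOf (a * (g⁻¹ * a * g)) = 2 * m → Commute ((a * (g⁻¹ * a * g)) ^ m) a ∧ Commute ((a * (g * a * g⁻¹)) ^ m) a) := by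
  have sa : a * a = 1 := by
    have := pow_orderOf_eq_one a
    rw [ha, pow_two] at this
    exact this
  have ia : a⁻¹ = a := inv_eq_of_mul_eq_one_left sa
  have sqa' : ∀ x, a * (a * x) = x := fun x => by rw [← mul_assoc, sa, one_mul]
  have sb : (g⁻¹ * a * g) * (g⁻¹ * a * g) = 1 := by
    simp [mul_assoc, sqa']
  have sb' : (g * a * g⁻¹) * (g * a * g⁻¹) = 1 := by
    simp [mul_assoc, sqa']
  constructor
  · intro m hm
    have hpow : (a * (g⁻¹ * a * g)) ^ (2 * m + 1) = 1 := by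
      rw [← hm]; exact pow_orderOf_eq_one _
    have h := odd_case a (g⁻¹ * a * g) sa sb m hpow
    show g * (a * (g⁻¹ * a * g)) ^ m * a = a * (g * (a * (g⁻¹ * a * g)) ^ m)
    rw [mul_assoc, h]
    simp [mul_assoc]
  · intro m hm
    have hpow : (a * (g⁻¹ * a * g)) ^ (2 * m) = 1 := by
      rw [← hm]; exact pow_orderOf_eq_one _
    constructor
    · apply dihedral_comm a _ sa sb
      rw [← pow_add, ← two_mul]; exact hpow
    · apply dihedral_comm a _ sa sb'
      rw [← pow_add, ← two_mul]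
      have hw : a * (g * a * g⁻¹) = g * (a * (g⁻¹ * a * g))⁻¹ * g⁻¹ := by
        simp [mul_assoc, ia]
      rw [hw, conj_pow, inv_pow, hpow]
      simp

end Cfsg.Agent.S0442
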