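import Cfsg.Statements.S0443

set_option autoImplicit false
open Cfsg

namespace Cfsg.Agent.S0443

/-- a 2-element commuting with a Sylow 2-subgroup lies in it -/
lemma mem_sylow_of_centralizes {G : Type*} [Group G] (t : G) (ht : orderOf t = 2) (P : Sylow 2 G)
    (h : (P : Subgroup G) ≤ Subgroup.centralizer ({t} : Set G)) : t ∈ P := by
  have : Fact (Nat.Prime 2) := ⟨Nat.prime_two⟩
  have hz : IsPGroup 2 (Subgroup.zpowers t) := by
    apply IsPGroup.of_card (n := 1)
    rw [Nat.card_zpowers, ht, pow_one]
  have hnorm : Subgroup.zpowers t ≤ Subgroup.normalizer ((P : Subgroup G) : Set G) := by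
    refine le_trans ?_ (Subgroup.centralizer_le_normalizer _)
    rw [Subgroup.zpowers_le, Subgroup.mem_centralizer_iff]
    intro x hx
    have := h hx
    rw [Subgroup.mem_centralizer_iff] at this
    exact (this t rfl).symm
  have hsup : IsPGroup 2 (Subgroup.zpowers t ⊔ (P : Subgroup G) : Subgroup G) :=
    IsPGroup.to_sup_of_normal_right' hz P.isPGroup' hnorm
  have := P.is_maximal' hsup le_sup_right
  have h2 : Subgroup.zpowers t ≤ (P : Subgroup G) := by
    rw [← this]; exact le_sup_left
  exact h2 (Subgroup.mem_zpowers t)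

theorem result {G : Type*} [Group G] [Finite G] (t : G) (ht : orderOf t = 2) : Cfsg.IsTwoCentralInvolution t ↔ ∃ P : Sylow 2 G, (P : Subgroup G) ≤ Subgroup.centralizer ({t} : Set G) := by
  constructor
  · rintro ⟨_, P, htP, hP⟩
    refine ⟨P, fun x hx => ?_⟩
    rw [Subgroup.mem_centralizer_iff]
    intro y hy
    rw [Set.mem_singleton_iff] at hy
    subst hy
    exact (hP x hx).symm
  · rintro ⟨P, hP⟩
    refine ⟨ht, P, mem_sylow_of_centralizes t ht P hP, fun x hx => ?_⟩
    have := hP hx
    rw [Subgroup.mem_centralizer_iff] at this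
    exact (this t rfl).symm

end Cfsg.Agent.S0443
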