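import Cfsg.Statements.S0444

set_option autoImplicit false
open Cfsg

namespace Cfsg.Agent.S0444

/-- normal forms of the six elements of the group generated by two involutions with braid relation -/
inductive W : Type
  | one | d | e | de | ed | ded
  deriving DecidableEq

instance instFintypeW : Fintype W :=
  ⟨{.one, .d, .e, .de, .ed, .ded}, by intro x; cases x <;> decide⟩

def mulW : W → W → W
  | .one, .one => .one
  | .one, .d => .d
  | .one, .e => .e
  | .one, .de => .de
  | .one, .ed => .ed
  | .one, .ded => .ded
  | .d, .one => .d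
  | .d, .d => .one
  | .d, .e => .de
  | .d, .de => .e
  | .d, .ed => .ded
  | .d, .ded => .ed
  | .e, .one => .e
  | .e, .d => .ed
  | .e, .e => .one
  | .e, .de => .ded
  | .e, .ed => .d
  | .e, .ded => .de
  | .de, .one => .de
  | .de, .d => .ded
  | .de, .e => .d
  | .de, .de => .ed
  | .de, .ed => .one
  | .de, .ded => .e
  | .ed, .one => .ed
  | .ed, .d => .e
  | .ed, .e => .ded
  | .ed, .de => .one
  | .ed, .ed => .de
  | .ed, .ded => .d
  | .ded, .one => .ded
  | .ded, .d => .de
  | .ded, .e => .ed
  | .ded, .de => .d
  | .ded, .ed => .e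
  | .ded, .ded => .one

def toPerm : W → Equiv.Perm (Fin 3)
  | .one => 1
  | .d => Equiv.swap 0 1
  | .e => Equiv.swap 1 2
  | .de => Equiv.swap 0 1 * Equiv.swap 1 2
  | .ed => Equiv.swap 1 2 * Equiv.swap 0 1
  | .ded => Equiv.swap 0 1 * Equiv.swap 1 2 * Equiv.swap 0 1

def toG {G : Type*} [Group G] (d e : G) : W → G
  | .one => 1
  | .d => d
  | .e => e
  | .de => d * e
  | .ed => e * d
  | .ded => d * e * d

theorem toPerm_mul : ∀ a b : W, toPerm (mulW a b) = toPerm a * toPerm b := by decide

theorem toPerm_bij : Function.Bijective toPerm := by decide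

theorem toG_mul {G : Type*} [Group G] (d e : G) (hd : d * d = 1) (he : e * e = 1)
    (hbr : e * d * e = d * e * d) (a b : W) : toG d e (mulW a b) = toG d e a * toG d e b := by
  have hd' : ∀ x, d * (d * x) = x := fun x => by rw [← mul_assoc, hd, one_mul]
  have he' : ∀ x, e * (e * x) = x := fun x => by rw [← mul_assoc, he, one_mul]
  have hbr0 : e * (d * e) = d * (e * d) := by simpa [mul_assoc] using hbr
  have hbr' : ∀ x, e * (d * (e * x)) = d * (e * (d * x)) := fun x => by
    have := congrArg (· * x) hbr0
    simpa [mul_assoc] using this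
  cases a <;> cases b <;> simp [toG, mulW, mul_assoc, hd, he, hd', he', hbr0, hbr']

lemma comm_or_braid {G : Type*} [Group G] (e d : G) (he : e * e = 1) (hd : d * d = 1)
    (h : (e * d) ^ 2 = 1 ∨ (e * d) ^ 3 = 1) : Commute e d ∨ e * d * e = d * e * d := by
  have ie : e⁻¹ = e := inv_eq_of_mul_eq_one_left he
  have id : d⁻¹ = d := inv_eq_of_mul_eq_one_left hd
  rcases h with h2 | h3
  · left
    have h2' : e * d * (e * d) = 1 := by rwa [pow_two] at h2
    have : e * d = (e * d)⁻¹ := eq_inv_of_mul_eq_one_left h2'
    rw [mul_inv_rev, ie, id] at this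
    exact this
  · right
    have h3' : e * d * e * (d * e * d) = 1 := by
      rw [pow_succ, pow_two] at h3
      simpa [mul_assoc] using h3
    have : e * d * e = (d * e * d)⁻¹ := eq_inv_of_mul_eq_one_left h3'
    rw [mul_inv_rev, mul_inv_rev, ie, id, ← mul_assoc] at this
    exact this

/-- Two members of a set of 3-transpositions which do not commute generate a subgroup isomorphic to the symmetric group on three letters. -/
theorem result {G : Type*} [Group G] {E : Set G} (hE : Cfsg.IsThreeTranspositionSet E) {d e : G} (hd : d ∈ E) (he : e ∈ E) (h : ¬ Commute d e) : Nonempty (Subgroup.closure ({d, e} : Set G) ≃* Equiv.Perm (Fin 3)) := by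
  obtain ⟨hord, hprod⟩ := hE
  have sq : ∀ d ∈ E, d * d = 1 := fun d hd => by
    have := pow_orderOf_eq_one d
    rw [hord d hd, pow_two] at this
    exact this
  have sd := sq d hd
  have se := sq e he
  have hbr : e * d * e = d * e * d :=
    (comm_or_braid e d se sd (hprod e he d hd)).resolve_left (fun hc => h hc.symm)
  let eqv : W ≃ Equiv.Perm (Fin 3) := Equiv.ofBijective toPerm toPerm_bij
  have eqv_apply : ∀ a, eqv a = toPerm a := fun a => rfl
  let φ : Equiv.Perm (Fin 3) →* G :=
    { toFun := fun σ => toG d e (eqv.symm σ)
      map_one' := by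
        have : eqv.symm 1 = W.one := by rw [Equiv.symm_apply_eq]; rfl
        rw [this]; rfl
      map_mul' := by
        intro σ τ
        have : eqv.symm (σ * τ) = mulW (eqv.symm σ) (eqv.symm τ) := by
          rw [Equiv.symm_apply_eq, eqv_apply, toPerm_mul, ← eqv_apply, ← eqv_apply]
          simp
        rw [this, toG_mul d e sd se hbr] }
  have φ_apply : ∀ σ, φ σ = toG d e (eqv.symm σ) := fun σ => rfl
  have hinj : Function.Injective φ := by
    rw [injective_iff_map_eq_one]
    intro σ hσ
    have key : ∀ a : W, toG d e a = 1 → a = W.one := by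
      intro a ha
      cases a with
      | one => rfl
      | d =>
        exfalso; apply h; simp only [toG] at ha; rw [ha]; exact Commute.one_left _
      | e =>
        exfalso; apply h; simp only [toG] at ha; rw [ha]; exact Commute.one_right _
      | de =>
        exfalso; apply h; simp only [toG] at ha
        rw [eq_inv_of_mul_eq_one_right ha]; exact (Commute.refl d).inv_right
      | ed =>
        exfalso; apply h; simp only [toG] at ha
        rw [eq_inv_of_mul_eq_one_left ha]; exact (Commute.refl d).inv_right
      | ded =>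
        exfalso; apply h; simp only [toG] at ha
        have h1 : d * e = d⁻¹ := eq_inv_of_mul_eq_one_left ha
        have h2 : e = d⁻¹ * d⁻¹ := by
          calc e = d⁻¹ * (d * e) := by simp
            _ = d⁻¹ * d⁻¹ := by rw [h1]
        rw [h2]
        exact ((Commute.refl d).inv_right).mul_right ((Commute.refl d).inv_right)
    have := key _ hσ
    rw [Equiv.symm_apply_eq] at this
    rw [this]; rfl
  have hrange : φ.range = Subgroup.closure {d, e} := by
    apply le_antisymm
    · rintro _ ⟨σ, rfl⟩
      rw [φ_apply]
      generalize eqv.symm σ = a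
      have hdm : d ∈ Subgroup.closure ({d, e} : Set G) := Subgroup.subset_closure (by simp)
      have hem : e ∈ Subgroup.closure ({d, e} : Set G) := Subgroup.subset_closure (by simp)
      cases a <;> simp only [toG]
      · exact one_mem _
      · exact hdm
      · exact hem
      · exact mul_mem hdm hem
      · exact mul_mem hem hdm
      · exact mul_mem (mul_mem hdm hem) hdm
    · rw [Subgroup.closure_le]
      rintro x (hx | hx)
      · exact ⟨eqv W.d, by rw [φ_apply, Equiv.symm_apply_apply, hx]; rfl⟩
      · rw [Set.mem_singleton_iff] at hx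
        exact ⟨eqv W.e, by rw [φ_apply, Equiv.symm_apply_apply, hx]; rfl⟩
  exact ⟨(MulEquiv.subgroupCongr hrange.symm).trans (MonoidHom.ofInjective hinj).symm⟩

end Cfsg.Agent.S0444
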