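import Cfsg.Statements.S0445
import Mathlib

set_option autoImplicit false
open Cfsg

namespace Cfsg.Agent.S0445

/-- the general shape of a matrix commuting with the transvection -/
def mk5 (a : ZMod 2) (x : Fin 4 → ZMod 2) (y : Fin 3 → ZMod 2)
    (B : Fin 3 → Fin 3 → ZMod 2) : Matrix (Fin 5) (Fin 5) (ZMod 2) :=
  Matrix.of fun i j =>
    Fin.cases (motive := fun _ => ZMod 2) (Fin.cases (motive := fun _ => ZMod 2) a x j)
      (fun i' => Fin.cases (motive := fun _ => ZMod 2)
        (Fin.cases (motive := fun _ => ZMod 2) 0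
          (Fin.cases (motive := fun _ => ZMod 2) a (fun _ => 0)) j)
        (fun i'' => Fin.cases (motive := fun _ => ZMod 2) 0
          (Fin.cases (motive := fun _ => ZMod 2) (y i'') (B i'')) j) i') i

@[simp] lemma mk5_zero_zero (a x y B) : mk5 a x y B 0 0 = a := rfl
@[simp] lemma mk5_zero_succ (a x y B) (j : Fin 4) : mk5 a x y B 0 j.succ = x j := rfl
@[simp] lemma mk5_one_zero (a x y B) : mk5 a x y B (Fin.succ 0) 0 = 0 := rfl
@[simp] lemma mk5_one_one (a x y B) : mk5 a x y B (Fin.succ 0) (Fin.succ 0) = a := rfl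
@[simp] lemma mk5_one_succ_succ (a x y B) (j : Fin 3) :
    mk5 a x y B (Fin.succ 0) j.succ.succ = 0 := rfl
@[simp] lemma mk5_succ_succ_zero (a x y B) (i : Fin 3) : mk5 a x y B i.succ.succ 0 = 0 := rfl
@[simp] lemma mk5_succ_succ_one (a x y B) (i : Fin 3) :
    mk5 a x y B i.succ.succ (Fin.succ 0) = y i := rfl
@[simp] lemma mk5_succ_succ_succ_succ (a x y B) (i j : Fin 3) :
    mk5 a x y B i.succ.succ j.succ.succ = B i j := rfl

lemma mk5_succ_zero (a x y B) (i : Fin 4) : mk5 a x y B i.succ 0 = 0 := by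
  refine Fin.cases ?_ (fun i => ?_) i <;> rfl

lemma det_mk5 (a x y B) : (mk5 a x y B).det = a * (a * (Matrix.of B).det) := by
  rw [Matrix.det_succ_column_zero, Fin.sum_univ_succ]
  simp only [mk5_succ_zero, mul_zero, zero_mul, Finset.sum_const_zero, add_zero, Fin.val_zero,
    pow_zero, one_mul, mk5_zero_zero, Fin.succAbove_zero]
  have h4 : ((mk5 a x y B).submatrix Fin.succ Fin.succ).det = a * (Matrix.of B).det := by
    rw [Matrix.det_succ_row_zero, Fin.sum_univ_succ]
    have h1 : ∀ j : Fin 3, ((mk5 a x y B).submatrix Fin.succ Fin.succ) 0 j.succ = 0 :=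
      fun j => rfl
    have h2 : ((mk5 a x y B).submatrix Fin.succ Fin.succ) 0 0 = a := rfl
    have h3 : ((mk5 a x y B).submatrix Fin.succ Fin.succ).submatrix Fin.succ Fin.succ
        = Matrix.of B := by
      ext i j; rfl
    simp only [h1, h2, mul_zero, zero_mul, Finset.sum_const_zero, add_zero, Fin.val_zero,
      pow_zero, one_mul, Fin.succAbove_zero]
    rw [h3]
  rw [h4]

lemma zmod2_cases : ∀ a d : ZMod 2, a * (a * d) = 1 → a = 1 ∧ d = 1 := by decide

lemma zmod2_ne_zero : ∀ a : ZMod 2, a ≠ 0 → a = 1 := by decide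

lemma comm_iff (A : Matrix (Fin 5) (Fin 5) (ZMod 2)) :
    A * Matrix.transvection 0 1 1 = Matrix.transvection 0 1 1 * A ↔
      A * Matrix.single 0 1 (1 : ZMod 2) = Matrix.single 0 1 (1 : ZMod 2) * A := by
  simp only [Matrix.transvection, Matrix.mul_add, Matrix.add_mul, Matrix.mul_one, Matrix.one_mul]
  exact add_right_inj A

lemma mk5_one_ne (a x y B) (j : Fin 5) (hj : j ≠ 1) : mk5 a x y B 1 j = 0 := by
  rcases Fin.eq_zero_or_eq_succ j with rfl | ⟨j', rfl⟩
  · rfl
  · rcases Fin.eq_zero_or_eq_succ j' with rfl | ⟨j'', rfl⟩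
    · exact absurd rfl hj
    · rfl

lemma comm_mk5 (a x y B) :
    mk5 a x y B * Matrix.transvection 0 1 1 = Matrix.transvection 0 1 1 * mk5 a x y B := by
  rw [comm_iff]
  ext i j
  by_cases hj : j = 1
  · subst hj
    rw [Matrix.mul_single_apply_same]
    by_cases hi : i = 0
    · subst hi
      rw [Matrix.single_mul_apply_same]
      show a * 1 = 1 * a
      ring
    · rw [Matrix.single_mul_apply_of_ne _ _ _ _ _ hi]
      rcases Fin.eq_zero_or_eq_succ i with rfl | ⟨i', rfl⟩
      · exact absurd rfl hi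
      · rw [mk5_succ_zero]; simp
  · rw [Matrix.mul_single_apply_of_ne _ _ _ _ _ hj]
    by_cases hi : i = 0
    · subst hi
      rw [Matrix.single_mul_apply_same, mk5_one_ne _ _ _ _ _ hj]; simp
    · rw [Matrix.single_mul_apply_of_ne _ _ _ _ _ hi]

lemma shape (A : Matrix (Fin 5) (Fin 5) (ZMod 2))
    (h : A * Matrix.transvection 0 1 1 = Matrix.transvection 0 1 1 * A) :
    A = mk5 (A 0 0) (fun j => A 0 j.succ) (fun i => A i.succ.succ 1)
      (fun i j => A i.succ.succ j.succ.succ) := by
  rw [comm_iff] at h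
  have e1 : ∀ i : Fin 4, A i.succ 0 = 0 := by
    intro i
    have := congrFun (congrFun h i.succ) 1
    rw [Matrix.mul_single_apply_same,
      Matrix.single_mul_apply_of_ne _ _ _ _ _ (Fin.succ_ne_zero i)] at this
    simpa using this
  have e2 : A 0 0 = A 1 1 := by
    have := congrFun (congrFun h 0) 1
    rw [Matrix.mul_single_apply_same, Matrix.single_mul_apply_same] at this
    simpa using this
  have e3 : ∀ j : Fin 5, j ≠ 1 → A 1 j = 0 := by
    intro j hj
    have := congrFun (congrFun h 0) j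
    rw [Matrix.mul_single_apply_of_ne _ _ _ _ _ hj, Matrix.single_mul_apply_same] at this
    simpa using this.symm
  ext i j
  rcases Fin.eq_zero_or_eq_succ i with rfl | ⟨i', rfl⟩
  · rcases Fin.eq_zero_or_eq_succ j with rfl | ⟨j', rfl⟩
    · rfl
    · rfl
  · rcases Fin.eq_zero_or_eq_succ i' with rfl | ⟨i'', rfl⟩
    · rcases Fin.eq_zero_or_eq_succ j with rfl | ⟨j', rfl⟩
      · exact e1 0
      · rcases Fin.eq_zero_or_eq_succ j' with rfl | ⟨j'', rfl⟩
        · exact e2.symm
        · refine e3 _ ?_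
          intro hc
          have := congrArg Fin.val hc
          simp at this
    · rcases Fin.eq_zero_or_eq_succ j with rfl | ⟨j', rfl⟩
      · exact e1 _
      · rcases Fin.eq_zero_or_eq_succ j' with rfl | ⟨j'', rfl⟩
        · rfl
        · rfl

noncomputable def equivShape :
    {A : Matrix (Fin 5) (Fin 5) (ZMod 2) //
      A.det = 1 ∧ A * Matrix.transvection 0 1 1 = Matrix.transvection 0 1 1 * A} ≃
    (Fin 4 → ZMod 2) × (Fin 3 → ZMod 2) ×
      {B : Matrix (Fin 3) (Fin 3) (ZMod 2) // B.det = 1} where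
  toFun A := ⟨fun j => A.1 0 j.succ, fun i => A.1 i.succ.succ 1,
    ⟨Matrix.of fun i j => A.1 i.succ.succ j.succ.succ, by
      have h := shape A.1 A.2.2
      have hd : (mk5 (A.1 0 0) (fun j => A.1 0 j.succ) (fun i => A.1 i.succ.succ 1)
          (fun i j => A.1 i.succ.succ j.succ.succ)).det = 1 := by
        rw [← h]; exact A.2.1
      rw [det_mk5] at hd
      exact (zmod2_cases _ _ hd).2⟩⟩
  invFun p := ⟨mk5 1 p.1 p.2.1 (fun i j => p.2.2.1 i j), by
    rw [det_mk5]
    have : (Matrix.of fun i j => p.2.2.1 i j) = p.2.2.1 := rfl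
    rw [this, p.2.2.2]; simp, comm_mk5 _ _ _ _⟩
  left_inv A := by
    apply Subtype.ext
    have h := shape A.1 A.2.2
    have hd : (mk5 (A.1 0 0) (fun j => A.1 0 j.succ) (fun i => A.1 i.succ.succ 1)
        (fun i j => A.1 i.succ.succ j.succ.succ)).det = 1 := by
      rw [← h]; exact A.2.1
    rw [det_mk5] at hd
    have ha := (zmod2_cases _ _ hd).1
    show mk5 1 (fun j => A.1 0 j.succ) (fun i => A.1 i.succ.succ 1)
        (fun i j => A.1 i.succ.succ j.succ.succ) = A.1
    have h2 : mk5 1 (fun j => A.1 0 j.succ) (fun i => A.1 i.succ.succ 1)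
        (fun i j => A.1 i.succ.succ j.succ.succ) = mk5 (A.1 0 0) (fun j => A.1 0 j.succ)
        (fun i => A.1 i.succ.succ 1) (fun i j => A.1 i.succ.succ j.succ.succ) := by rw [ha]
    exact h2.trans h.symm
  right_inv p := by
    rcases p with ⟨x, y, B, hB⟩
    rfl

def equivCent (s : Matrix.SpecialLinearGroup (Fin 5) (ZMod 2))
    (hs : (s : Matrix (Fin 5) (Fin 5) (ZMod 2)) = Matrix.transvection 0 1 1) :
    Subgroup.centralizer ({s} : Set (Matrix.SpecialLinearGroup (Fin 5) (ZMod 2))) ≃
    {A : Matrix (Fin 5) (Fin 5) (ZMod 2) //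
      A.det = 1 ∧ A * Matrix.transvection 0 1 1 = Matrix.transvection 0 1 1 * A} where
  toFun g := ⟨g.1.1, g.1.2, by
    have := g.2
    rw [Subgroup.mem_centralizer_iff] at this
    have h := this s rfl
    have h' := congrArg Subtype.val h
    simp only [Matrix.SpecialLinearGroup.coe_mul, hs] at h'
    exact h'.symm⟩
  invFun A := ⟨(⟨A.1, A.2.1⟩ : Matrix.SpecialLinearGroup (Fin 5) (ZMod 2)), by
    refine Subgroup.mem_centralizer_iff.mpr ?_
    intro h hh
    rw [Set.mem_singleton_iff] at hh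
    rw [hh]
    apply Subtype.ext
    show (s : Matrix (Fin 5) (Fin 5) (ZMod 2)) * A.1 = A.1 * (s : Matrix (Fin 5) (Fin 5) (ZMod 2))
    rw [hs]
    exact A.2.2.symm⟩
  left_inv g := rfl
  right_inv A := rfl

lemma card_B : Nat.card {B : Matrix (Fin 3) (Fin 3) (ZMod 2) // B.det = 1} = 168 := by
  have e : GL (Fin 3) (ZMod 2) ≃ {B : Matrix (Fin 3) (Fin 3) (ZMod 2) // B.det = 1} :=
    { toFun := fun M => ⟨M.1, zmod2_ne_zero _ (Matrix.GeneralLinearGroup.det_ne_zero M)⟩
      invFun := fun B => Matrix.GeneralLinearGroup.mk'' B.1 (by rw [B.2]; exact isUnit_one)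
      left_inv := fun M => by ext; rfl
      right_inv := fun B => rfl }
  rw [← Nat.card_congr e, Matrix.card_GL_field]
  simp [Fin.prod_univ_succ]

/-- In the special linear group of dimension 5 over the field with two elements, the centraliser of a transvection has order 21504 = 2 ^ 7 · 168 (it is an extension of an extraspecial group of order 2 ^ 7 by the simple group of order 168). -/
theorem result (s : Matrix.SpecialLinearGroup (Fin 5) (ZMod 2)) (hs : (s : Matrix (Fin 5) (Fin 5) (ZMod 2)) = Matrix.transvection 0 1 1) : Nat.card (Subgroup.centralizer ({s} : Set (Matrix.SpecialLinearGroup (Fin 5) (ZMod 2)))) = 21504 := by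
  rw [Nat.card_congr (equivCent s hs), Nat.card_congr equivShape, Nat.card_prod, Nat.card_prod,
    card_B]
  simp [Nat.card_eq_fintype_card]

end Cfsg.Agent.S0445
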