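import Cfsg.Statements.S0459
import Cfsg.Agent.Lib.Helper61.RuSimp
import Cfsg.Agent.Lib.Helper61.RuPerm

set_option autoImplicit false
open Cfsg

namespace Cfsg.Agent.S0459

open Cfsg.Agent.Lib.Helper61

/-- the statement for an abstract simple group of the order of Ru acting faithfully on an orbit of
4060 points, with a simple subgroup of the order of the Tits group fixing the base point. -/
theorem final {M : Type*} [Group M] (hs : IsSimpleGroup M) (hc : Nat.card M = 145926144000)
    {Ω : Type*} [MulAction M Ω] (ω : Ω) (hn : (MulAction.orbit M ω).ncard = 4060)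
    (hfaith : ∀ g : M, (∀ x ∈ MulAction.orbit M ω, g • x = x) → g = 1)
    (K : Subgroup M) (hK : ∀ k ∈ K, k • ω = ω) (hKs : IsSimpleGroup K)
    (hKc : Nat.card K = 17971200) :
    ∃ H : Subgroup (Equiv.Perm (Fin 4060)), Cfsg.IsRu H ∧ MulAction.IsPretransitive H (Fin 4060) ∧
      Nat.card (MulAction.stabilizer H (0 : Fin 4060)) = 35942400 ∧
      ∃ T : Subgroup (MulAction.stabilizer H (0 : Fin 4060)), Cfsg.IsTits T := by
  obtain ⟨H, ⟨ψ⟩, htr, T, ⟨θ⟩⟩ := RuPerm.perm_realization ω 4060 hn hfaith K hK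
  have hH : Nat.card H = 145926144000 := by rw [← Nat.card_congr ψ.toEquiv, hc]
  refine ⟨H, ⟨ψ.symm.isSimpleGroup, hH⟩, htr, ?_, T, ⟨θ.symm.isSimpleGroup, ?_⟩⟩
  · have h1 := Subgroup.card_mul_index (MulAction.stabilizer H (0 : Fin 4060))
    rw [MulAction.index_stabilizer_of_transitive, Nat.card_fin, hH] at h1
    omega
  · rw [← Nat.card_congr θ.toEquiv, hKc]

/-- the same for two subgroups of an ambient group acting. -/
theorem final2 {Γ : Type*} [Group Γ] {Ω : Type*} [MulAction Γ Ω] (M K : Subgroup Γ) (hKM : K ≤ M)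
    (hs : IsSimpleGroup ↥M) (hc : Nat.card ↥M = 145926144000) (ω : Ω)
    (hn : (MulAction.orbit ↥M ω).ncard = 4060)
    (hfaith : ∀ g : ↥M, (∀ x ∈ MulAction.orbit ↥M ω, g • x = x) → g = 1)
    (hK : ∀ k ∈ K, k • ω = ω) (hKs : IsSimpleGroup ↥K) (hKc : Nat.card ↥K = 17971200) :
    ∃ H : Subgroup (Equiv.Perm (Fin 4060)), Cfsg.IsRu H ∧ MulAction.IsPretransitive H (Fin 4060) ∧
      Nat.card (MulAction.stabilizer H (0 : Fin 4060)) = 35942400 ∧
      ∃ T : Subgroup (MulAction.stabilizer H (0 : Fin 4060)), Cfsg.IsTits T := by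
  refine final hs hc ω hn hfaith (K.subgroupOf M) ?_ ?_ ?_
  · rintro ⟨g, hg⟩ hk
    exact hK g hk
  · exact (Subgroup.subgroupOfEquivOfLe hKM).isSimpleGroup
  · rw [Nat.card_congr (Subgroup.subgroupOfEquivOfLe hKM).toEquiv, hKc]

open Cfsg.Agent.Lib.Helper61.RuFast Cfsg.Agent.Lib.Helper61.RuData
open Cfsg.Agent.Lib.Helper61.RuMain Cfsg.Agent.Lib.Helper61.RuGrp

attribute [local instance] actGL

/-- The Rudvalis group exists as a transitive permutation group of degree 4060: simple of order 145926144000, with point stabiliser of order 35942400 containing a simple subgroup of order 17971200 (the order of the Tits group). -/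
theorem result : ∃ H : Subgroup (Equiv.Perm (Fin 4060)), Cfsg.IsRu H ∧ MulAction.IsPretransitive H (Fin 4060) ∧ Nat.card (MulAction.stabilizer H (0 : Fin 4060)) = 35942400 ∧ ∃ T : Subgroup (MulAction.stabilizer H (0 : Fin 4060)), Cfsg.IsTits T :=
  final2 M K K_le_M RuSimp.simpleM cardM (vecOf b0c) RuSimp.orbit_ncardM RuSimp.hfaithM
    RuSimp.K_fix0 RuSimp.simpleK cardK

end Cfsg.Agent.S0459
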