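import Cfsg.Statements.S1683
import Cfsg.Agent.Lib.Helper29.S1683.Up0
import Cfsg.Agent.Lib.Helper29.S1683.Up1
import Cfsg.Agent.Lib.Helper29.S1683.Up2
import Cfsg.Agent.Lib.Helper29.S1683.Up3
import Cfsg.Agent.Lib.Helper29.S1683.Lo0
import Cfsg.Agent.Lib.Helper29.S1683.Lo1
import Cfsg.Agent.Lib.Helper29.S1683.Lo2

set_option autoImplicit false
open Cfsg

namespace Cfsg.Agent.S1683

open Cfsg.Agent.Lib.Helper29 Cfsg.Agent.Lib.Helper29.TcTrace Cfsg.Agent.Lib.Helper29.TcCert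
  Cfsg.Agent.Lib.Helper29.TcPerm Cfsg.Agent.Lib.Helper29.TcCox Cfsg.Agent.Lib.Helper29.S1683 in
theorem upAll : ∀ b, b < 101 → ∃ J, chkBlk D lay cols 73 7359 b J = true := fun b h =>
  if h0 : b < 26 then up_0_26 b (Nat.zero_le _) h0 else
  if h1 : b < 52 then up_26_52 b (Nat.le_of_not_lt h0) h1 else
  if h2 : b < 78 then up_52_78 b (Nat.le_of_not_lt h1) h2 else
  up_78_101 b (Nat.le_of_not_lt h2) h

open Cfsg.Agent.Lib.Helper29 Cfsg.Agent.Lib.Helper29.TcTrace Cfsg.Agent.Lib.Helper29.TcCert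
  Cfsg.Agent.Lib.Helper29.TcPerm Cfsg.Agent.Lib.Helper29.TcCox Cfsg.Agent.Lib.Helper29.S1683 in
theorem loAll : ∀ b, b < 9 → ∃ J, chkPBlk P 4 15 256 2058 b J = true := fun b h =>
  if h0 : b < 3 then lo_0_3 b (Nat.zero_le _) h0 else
  if h1 : b < 6 then lo_3_6 b (Nat.le_of_not_lt h0) h1 else
  lo_6_9 b (Nat.le_of_not_lt h1) h

open Cfsg.Agent.Lib.Helper29 Cfsg.Agent.Lib.Helper29.TcTrace Cfsg.Agent.Lib.Helper29.TcCert
  Cfsg.Agent.Lib.Helper29.TcPerm Cfsg.Agent.Lib.Helper29.TcCox Cfsg.Agent.Lib.Helper29.S1683 in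
theorem ok : CoxOK Cfsg.Spor.He.edges Cfsg.Spor.He.extra
    ({Cfsg.Spor.He.a, Cfsg.Spor.He.c, Cfsg.Spor.He.d, Cfsg.Spor.He.e, Cfsg.Spor.He.f, (Cfsg.Spor.He.a * Cfsg.Spor.He.b) ^ 2, (Cfsg.Spor.He.b * Cfsg.Spor.He.c * Cfsg.Spor.He.d * Cfsg.Spor.He.e) ^ 7} : Set (FreeGroup Cfsg.Spor.He.Gen))
    nodesL extraWords hWords colOf colLetters invL 7 7
    D 17 125103 2058 8 131071 VL RL MG MT PAR PL FIN VERT vtree lay cols 73 7359 101 baseL P 4 15 256 9 where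
  hnodes := by decide
  hnodes' := by decide
  hextra := by rfl
  hS := by
    intro x
    simp only [Set.mem_insert_iff, Set.mem_singleton_iff, hWords, List.map_cons, List.map_nil,
      List.mem_cons, List.not_mem_nil, or_false]
    exact Iff.rfl
  hcolOf := by rintro ⟨x, y⟩; cases x <;> cases y <;> decide
  hround := by decide
  hinvL := by decide
  hinvinv := by decide
  hnH := by rfl
  hD := by rfl
  hW := by decide
  hWN := by decide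
  hN := by decide
  hRL := by decide +kernel
  hVLlen := by rfl
  hRLlen := by rfl
  hRH := by decide +kernel
  hlive0 := by decide +kernel
  hcols := by decide
  hB := by decide
  hcov := by decide
  hblk := upAll
  hbase := by decide +kernel
  hvtree := by decide +kernel
  hWL := by decide
  hPn := by decide
  hn := by decide
  hPcols := by decide
  hPrels := by decide +kernel
  hPhws := by decide +kernel
  hPtwl := by decide +kernel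
  hPnH := by rfl
  hBL := by decide
  hcovL := by decide
  hblkL := loAll
  hbound1 := by decide
  hbv := by decide +kernel

/-- In the presented Held group, let H be the subgroup generated by the images of a, c, d, e, f, (ab)^2 and (bcde)^7. Then H has index 2058, there are four distinct H-orbits on the cosets of H other than H itself, of sizes 136, 136, 425 and 1360. -/
theorem result : (((Subgroup.closure ({Cfsg.Spor.He.a, Cfsg.Spor.He.c, Cfsg.Spor.He.d, Cfsg.Spor.He.e, Cfsg.Spor.He.f, (Cfsg.Spor.He.a * Cfsg.Spor.He.b) ^ 2, (Cfsg.Spor.He.b * Cfsg.Spor.He.c * Cfsg.Spor.He.d * Cfsg.Spor.He.e) ^ 7} : Set (FreeGroup Cfsg.Spor.He.Gen))).map (PresentedGroup.mk (Cfsg.Spor.coxRelators Cfsg.Spor.He.edges ∪ {r | r ∈ Cfsg.Spor.He.extra})))).index = 2058 ∧ ∃ q₁ q₂ q₃ q₄ : Cfsg.Spor.He ⧸ (((Subgroup.closure ({Cfsg.Spor.He.a, Cfsg.Spor.He.c, Cfsg.Spor.He.d, Cfsg.Spor.He.e, Cfsg.Spor.He.f,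 (Cfsg.Spor.He.a * Cfsg.Spor.He.b) ^ 2, (Cfsg.Spor.He.b * Cfsg.Spor.He.c * Cfsg.Spor.He.d * Cfsg.Spor.He.e) ^ 7} : Set (FreeGroup Cfsg.Spor.He.Gen))).map (PresentedGroup.mk (Cfsg.Spor.coxRelators Cfsg.Spor.He.edges ∪ {r | r ∈ Cfsg.Spor.He.extra})))), MulAction.orbit (((Subgroup.closure ({Cfsg.Spor.He.a, Cfsg.Spor.He.c, Cfsg.Spor.He.d, Cfsg.Spor.He.e, Cfsg.Spor.He.f, (Cfsg.Spor.He.a * Cfsg.Spor.He.b) ^ 2, (Cfsg.Spor.He.b * Cfsg.Spor.He.c * Cfsg.Spor.He.d * Cfsg.Spor.He.e) ^ 7} : Set (FreeGroup Cfsg.Spor.He.Gen))).map (PresentedGroup.mk (Cfsg.Spor.coxRelators Cfsg.Spor.He.edges ∪ {r | r ∈ Cfsg.Spor.He.extra})))) q₁ ≠ MulAction.orbit (((Subgroup.closure ({Cfsg.Spor.He.a, Cfsg.Spor.He.c, Cfsg.Spor.He.d, Cfsg.Spor.He.e, Cfsg.Spor.He.f, (Cfsg.Spor.He.a * Cfsg.Spor.He.b) ^ 2, (Cfsg.Spor.He.b * Cfsg.Spor.He.c * Cfsg.Spor.He.d * Cfsg.Spor.He.e) ^ 7} : Set (FreeGroup Cfsg.Spor.He.Gen))).map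 (PresentedGroup.mk (Cfsg.Spor.coxRelators Cfsg.Spor.He.edges ∪ {r | r ∈ Cfsg.Spor.He.extra})))) q₂ ∧ (MulAction.orbit (((Subgroup.closure ({Cfsg.Spor.He.a, Cfsg.Spor.He.c, Cfsg.Spor.He.d, Cfsg.Spor.He.e, Cfsg.Spor.He.f, (Cfsg.Spor.He.a * Cfsg.Spor.He.b) ^ 2, (Cfsg.Spor.He.b * Cfsg.Spor.He.c * Cfsg.Spor.He.d * Cfsg.Spor.He.e) ^ 7} : Set (FreeGroup Cfsg.Spor.He.Gen))).map (PresentedGroup.mk (Cfsg.Spor.coxRelators Cfsg.Spor.He.edges ∪ {r | r ∈ Cfsg.Spor.He.extra})))) q₁).ncard = 136 ∧ (MulAction.orbit (((Subgroup.closure ({Cfsg.Spor.He.a, Cfsg.Spor.He.c, Cfsg.Spor.He.d, Cfsg.Spor.He.e, Cfsg.Spor.He.f, (Cfsg.Spor.He.a * Cfsg.Spor.He.b) ^ 2, (Cfsg.Spor.He.b * Cfsg.Spor.He.c * Cfsg.Spor.He.d * Cfsg.Spor.He.e) ^ 7} : Set (FreeGroup Cfsg.Spor.He.Gen))).map (PresentedGroup.mk (Cfsg.Spor.coxRelators Cfsg.Spor.He.edges ∪ {r | r ∈ Cfsg.Spor.He.extra})))) q₂).ncard = 136 ∧ (MulAction.orbit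 (((Subgroup.closure ({Cfsg.Spor.He.a, Cfsg.Spor.He.c, Cfsg.Spor.He.d, Cfsg.Spor.He.e, Cfsg.Spor.He.f, (Cfsg.Spor.He.a * Cfsg.Spor.He.b) ^ 2, (Cfsg.Spor.He.b * Cfsg.Spor.He.c * Cfsg.Spor.He.d * Cfsg.Spor.He.e) ^ 7} : Set (FreeGroup Cfsg.Spor.He.Gen))).map (PresentedGroup.mk (Cfsg.Spor.coxRelators Cfsg.Spor.He.edges ∪ {r | r ∈ Cfsg.Spor.He.extra})))) q₃).ncard = 425 ∧ (MulAction.orbit (((Subgroup.closure ({Cfsg.Spor.He.a, Cfsg.Spor.He.c, Cfsg.Spor.He.d, Cfsg.Spor.He.e, Cfsg.Spor.He.f, (Cfsg.Spor.He.a * Cfsg.Spor.He.b) ^ 2, (Cfsg.Spor.He.b * Cfsg.Spor.He.c * Cfsg.Spor.He.d * Cfsg.Spor.He.e) ^ 7} : Set (FreeGroup Cfsg.Spor.He.Gen))).map (PresentedGroup.mk (Cfsg.Spor.coxRelators Cfsg.Spor.He.edges ∪ {r | r ∈ Cfsg.Spor.He.extra})))) q₄).ncard = 1360 := by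
  obtain ⟨hidx, f, hf, horb⟩ := Cfsg.Agent.Lib.Helper29.TcCox.cox_main ok
  refine ⟨hidx, ?_⟩
  obtain ⟨q1, e1⟩ := horb 26790 28830 (by decide) (by decide) (by decide) (by decide)
  obtain ⟨q2, e2⟩ := horb 28830 30870 (by decide) (by decide) (by decide) (by decide)
  obtain ⟨q3, e3⟩ := horb 20415 26790 (by decide) (by decide) (by decide) (by decide)
  obtain ⟨q4, e4⟩ := horb 15 20415 (by decide) (by decide) (by decide) (by decide)
  refine ⟨q1, q2, q3, q4, ?_, ?_, ?_, ?_, ?_⟩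
  · exact Cfsg.Agent.Lib.Helper29.TcIndex.ne_of_image e1 e2 (by decide) (by decide) (by decide)
  · exact (Cfsg.Agent.Lib.Helper29.TcIndex.ncard_of_image hf e1 (by decide) (by decide) (by decide)).trans (by decide)
  · exact (Cfsg.Agent.Lib.Helper29.TcIndex.ncard_of_image hf e2 (by decide) (by decide) (by decide)).trans (by decide)
  · exact (Cfsg.Agent.Lib.Helper29.TcIndex.ncard_of_image hf e3 (by decide) (by decide) (by decide)).trans (by decide)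
  · exact (Cfsg.Agent.Lib.Helper29.TcIndex.ncard_of_image hf e4 (by decide) (by decide) (by decide)).trans (by decide)


end Cfsg.Agent.S1683
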