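import Cfsg.Statements.S0481

set_option autoImplicit false
open Cfsg

namespace Cfsg.Agent.S0481

open scoped Pointwise

/-- a 2-element commuting with a Sylow 2-subgroup lies in it -/
lemma mem_sylow_of_centralizes {G : Type*} [Group G] (t : G) (ht : orderOf t = 2) (P : Sylow 2 G)
    (h : (P : Subgroup G) ≤ Subgroup.centralizer ({t} : Set G)) : t ∈ P := by
  have : Fact (Nat.Prime 2) := ⟨Nat.prime_two⟩
  have hz : IsPGroup 2 (Subgroup.zpowers t) := by
    apply IsPGroup.of_card (n := 1)
    rw [Nat.card_zpowers, ht, pow_one]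
  have hnorm : Subgroup.zpowers t ≤ Subgroup.normalizer ((P : Subgroup G) : Set G) := by
    refine le_trans ?_ (Subgroup.centralizer_le_normalizer _)
    rw [Subgroup.zpowers_le, Subgroup.mem_centralizer_iff]
    intro x hx
    have := h hx
    rw [Subgroup.mem_centralizer_iff] at this
    exact (this t rfl).symm
  have hsup : IsPGroup 2 (Subgroup.zpowers t ⊔ (P : Subgroup G) : Subgroup G) :=
    IsPGroup.to_sup_of_normal_right' hz P.isPGroup' hnorm
  have := P.is_maximal' hsup le_sup_right
  have h2 : Subgroup.zpowers t ≤ (P : Subgroup G) := by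
    rw [← this]; exact le_sup_left
  exact h2 (Subgroup.mem_zpowers t)

theorem result {G : Type*} [Group G] [Finite G] (z : G) (hz : orderOf z = 2) (Q : Subgroup G) (hQC : Q ≤ Subgroup.centralizer ({z} : Set G)) (hQn : ∀ g ∈ Subgroup.centralizer ({z} : Set G), ∀ q ∈ Q, g * q * g⁻¹ ∈ Q) (hQ2 : IsPGroup 2 Q) (hZ : Nat.card (Subgroup.center Q) = 2) (hsq : ∀ x : Q, x ^ 2 ∈ Subgroup.center Q) (hlarge : Subgroup.centralizer (Q : Set G) ≤ Q) : (∃ P : Sylow 2 G, (P : Subgroup G) ≤ Subgroup.centralizer ({z} : Set G)) ∧ ∀ u : G, orderOf u = 2 → (∃ P : Sylow 2 G, (P : Subgroup G) ≤ Subgroup.centralizer ({u} : Set G)) → IsConj z u := by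
  have : Fact (Nat.Prime 2) := ⟨Nat.prime_two⟩
  have hz1 : z ≠ 1 := by
    rintro rfl
    simp at hz
  -- z centralizes Q
  have hzQ : z ∈ Subgroup.centralizer (Q : Set G) := by
    rw [Subgroup.mem_centralizer_iff]
    intro q hq
    have := hQC hq
    rw [Subgroup.mem_centralizer_iff] at this
    exact (this z rfl).symm
  have hzmem : z ∈ Q := hlarge hzQ
  -- elements centralizing Q are 1 or z
  have claimA : ∀ w : G, w ∈ Subgroup.centralizer (Q : Set G) → w = 1 ∨ w = z := by
    intro w hw
    have hwQ : w ∈ Q := hlarge hw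
    have cen : ∀ v : G, v ∈ Subgroup.centralizer (Q : Set G) → ∀ hv : v ∈ Q,
        (⟨v, hv⟩ : Q) ∈ Subgroup.center Q := by
      intro v hv hvQ
      rw [Subgroup.mem_center_iff]
      rintro ⟨q, hq⟩
      rw [Subgroup.mem_centralizer_iff] at hv
      exact Subtype.ext (hv q hq)
    obtain ⟨y, hy1, hy2⟩ := (Nat.card_eq_two_iff' (1 : Subgroup.center Q)).mp hZ
    by_cases hw1 : w = 1
    · exact Or.inl hw1
    right
    have e1 : (⟨⟨w, hwQ⟩, cen w hw hwQ⟩ : Subgroup.center Q) = y := by
      apply hy2
      intro h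
      apply hw1
      have := congrArg (fun x : Subgroup.center Q => ((x : Q) : G)) h
      simpa using this
    have e2 : (⟨⟨z, hzmem⟩, cen z hzQ hzmem⟩ : Subgroup.center Q) = y := by
      apply hy2
      intro h
      apply hz1
      have := congrArg (fun x : Subgroup.center Q => ((x : Q) : G)) h
      simpa using this
    have := congrArg (fun x : Subgroup.center Q => ((x : Q) : G)) (e1.trans e2.symm)
    simpa using this
  obtain ⟨T, hQT⟩ := hQ2.exists_le_sylow
  have claimB : ∀ w : G, w ∈ T → (∀ x ∈ T, x * w = w * x) → w = 1 ∨ w = z := by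
    intro w _ hw
    apply claimA
    rw [Subgroup.mem_centralizer_iff]
    intro q hq
    exact hw q (hQT hq)
  -- the centre of T is nontrivial
  have hTne : (T : Subgroup G) ≠ ⊥ := by
    intro h
    have : z ∈ (T : Subgroup G) := hQT hzmem
    rw [h, Subgroup.mem_bot] at this
    exact hz1 this
  have hT : Nontrivial (T : Subgroup G) := (Subgroup.nontrivial_iff_ne_bot _).mpr hTne
  have hc : Nontrivial (Subgroup.center (T : Subgroup G)) := T.isPGroup'.center_nontrivial
  obtain ⟨c, hc1⟩ := exists_ne (1 : Subgroup.center (T : Subgroup G))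
  have hcz : ((c : (T : Subgroup G)) : G) = z := by
    have := claimB ((c : (T : Subgroup G)) : G) (c : (T : Subgroup G)).2 (fun x hx => by
      have := Subgroup.mem_center_iff.mp c.2 ⟨x, hx⟩
      exact congrArg Subtype.val this)
    rcases this with h | h
    · exfalso
      apply hc1
      ext
      simpa using h
    · exact h
  have hzT : ∀ x ∈ T, x * z = z * x := by
    intro x hx
    rw [← hcz]
    have := Subgroup.mem_center_iff.mp c.2 ⟨x, hx⟩
    exact congrArg Subtype.val this
  constructor
  · refine ⟨T, fun x hx => ?_⟩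
    rw [Subgroup.mem_centralizer_iff]
    intro y hy
    rw [Set.mem_singleton_iff] at hy
    subst hy
    exact (hzT x hx).symm
  · rintro u hu ⟨P, hP⟩
    have huP : u ∈ P := mem_sylow_of_centralizes u hu P hP
    have hucomm : ∀ x ∈ P, x * u = u * x := by
      intro x hx
      have := hP hx
      rw [Subgroup.mem_centralizer_iff] at this
      exact (this u rfl).symm
    obtain ⟨g, hg⟩ := MulAction.exists_smul_eq G T P
    have hmem : ∀ x : G, x ∈ P ↔ g⁻¹ * x * g ∈ T := by
      intro x
      have h1 : (P : Subgroup G) = MulAut.conj g • (T : Subgroup G) := by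
        rw [← hg]; exact Sylow.coe_subgroup_smul
      show x ∈ (P : Subgroup G) ↔ _
      rw [h1, Subgroup.mem_pointwise_smul_iff_inv_smul_mem]
      simp only [MulAut.smul_def, ← map_inv, MulAut.conj_apply, inv_inv]
      exact Iff.rfl
    have hw : g⁻¹ * u * g = 1 ∨ g⁻¹ * u * g = z := by
      apply claimB _ ((hmem u).mp huP)
      intro x hx
      have hx' : g * x * g⁻¹ ∈ P := by
        rw [hmem]; simpa [mul_assoc] using hx
      have := hucomm _ hx'
      calc x * (g⁻¹ * u * g) = g⁻¹ * (g * x * g⁻¹ * u) * g := by simp [mul_assoc]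
        _ = g⁻¹ * (u * (g * x * g⁻¹)) * g := by rw [this]
        _ = g⁻¹ * u * g * x := by simp [mul_assoc]
    have hu1 : u ≠ 1 := by
      rintro rfl
      simp at hu
    rcases hw with h | h
    · exfalso
      apply hu1
      have : u = g * (g⁻¹ * u * g) * g⁻¹ := by simp [mul_assoc]
      rw [this, h]; simp
    · rw [isConj_iff]
      refine ⟨g, ?_⟩
      rw [← h]; simp [mul_assoc]

end Cfsg.Agent.S0481
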