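import Cfsg.Statements.S0499
import Cfsg.Agent.S0071

set_option autoImplicit false
open Cfsg

namespace Cfsg.Agent.S0499

lemma arith (N r a b : ℕ) (hr : r.Prime) (hr2 : r ≠ 2) (ha : a ≤ 3) (hb : b < a)
    (hdiv : r ∣ 2 ^ a - 2 ^ b) (hrN : r ∣ N) (haN : 2 ^ a ∣ N) : 12 ∣ N ∨ 56 ∣ N := by
  have hr1 : r ≠ 1 := hr.ne_one
  have hr0 : r ≠ 0 := hr.ne_zero
  have hle : r ≤ 7 := by
    have h7 : 2 ^ a - 2 ^ b ≤ 7 := by interval_cases a <;> interval_cases b <;> simp
    have hpos : 0 < 2 ^ a - 2 ^ b := Nat.sub_pos_of_lt (Nat.pow_lt_pow_right (by norm_num) hb)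
    exact (Nat.le_of_dvd hpos hdiv).trans h7
  have hr357 : r = 3 ∨ r = 5 ∨ r = 7 := by
    interval_cases r
    all_goals first | omega | (exfalso; revert hr; norm_num)
  rcases hr357 with rfl | rfl | rfl <;> interval_cases a <;> interval_cases b <;>
    omega

/-- if `h` normalizes `Q` and `h ^ r` centralizes `Q` (`r` prime), then `|Q| ≡ |C_Q(h)|` mod `r`. -/
lemma card_modEq_fix {G : Type*} [Group G] [Finite G] (Q : Subgroup G) (h : G) (r : ℕ)
    [Fact r.Prime]
    (hN : h ∈ Subgroup.normalizer (Q : Set G))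
    (hr : h ^ r ∈ Subgroup.centralizer (Q : Set G)) :
    Nat.card Q ≡ Nat.card ((Subgroup.centralizer {h}).subgroupOf Q) [MOD r] := by
  classical
  letI : Fintype Q := Fintype.ofFinite _
  let f : Function.End Q :=
    fun x => ⟨h * x * h⁻¹, (Subgroup.mem_normalizer_iff.mp hN x).mp x.2⟩
  have hpow : ∀ k : ℕ, ∀ x : Q, (((f ^ k) x : Q) : G) = h ^ k * x * (h ^ k)⁻¹ := by
    intro k
    induction k with
    | zero => intro x; have h0 : (f ^ 0) x = x := rfl; rw [h0]; simp
    | succ k ih =>
      intro x
      rw [pow_succ]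
      have h1 : (f ^ k * f) x = (f ^ k) (f x) := rfl
      rw [h1, ih]
      have h2 : ((f x : Q) : G) = h * x * h⁻¹ := rfl
      rw [h2, pow_succ]
      group
  have hf : f ^ r ^ 1 = 1 := by
    rw [pow_one]
    funext x
    apply Subtype.ext
    rw [hpow]
    have h3 := Subgroup.mem_centralizer_iff.mp hr x x.2
    have h4 : ((1 : Function.End Q) x : Q) = x := rfl
    rw [h4, ← h3]
    group
  have key := Equiv.Perm.card_fixedPoints_modEq (p := r) (n := 1) hf
  rw [Nat.card_eq_fintype_card]
  refine key.trans ?_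
  rw [← Nat.card_eq_fintype_card]
  have hset : (Function.fixedPoints f) = (((Subgroup.centralizer {h}).subgroupOf Q : Subgroup Q) : Set Q) := by
    ext x
    rw [Function.mem_fixedPoints, SetLike.mem_coe, Subgroup.mem_subgroupOf,
      Subgroup.mem_centralizer_singleton_iff]
    constructor
    · intro hx
      have h5 : ((f x : Q) : G) = x := congrArg Subtype.val hx
      have h6 : ((f x : Q) : G) = h * x * h⁻¹ := rfl
      rw [h6] at h5
      calc (x : G) * h = h * x * h⁻¹ * h := by rw [h5]
        _ = h * x := by group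
    · intro hx
      apply Subtype.ext
      have h6 : ((f x : Q) : G) = h * x * h⁻¹ := rfl
      rw [h6, ← hx]
      group
  rw [hset]
  rfl

theorem result {G : Type*} [Group G] [Finite G] [IsSimpleGroup G]
    (hG : ¬ IsMulCommutative G) (h2 : Even (Nat.card G)) :
    12 ∣ Nat.card G ∨ 16 ∣ Nat.card G ∨ 56 ∣ Nat.card G := by
  by_contra hcon
  push Not at hcon
  obtain ⟨h12, h16, h56⟩ := hcon
  have : Fact (Nat.Prime 2) := ⟨Nat.prime_two⟩
  obtain P : Sylow 2 G := default
  obtain ⟨n, hn⟩ := P.2.exists_card_eq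
  have hPdvd : 2 ^ n ∣ Nat.card G := hn ▸ Subgroup.card_subgroup_dvd_card (P : Subgroup G)
  have hn3 : n ≤ 3 := by
    by_contra hlt
    exact h16 ((pow_dvd_pow 2 (by omega : 4 ≤ n)).trans hPdvd)
  have hcond : ∀ Q : Subgroup G, Q ≤ (P : Subgroup G) →
      ∀ g ∈ Subgroup.normalizer (Q : Set G),
      Nat.Coprime (orderOf g) 2 → g ∈ Subgroup.centralizer (Q : Set G) := by
    intro Q hQ
    have hQp : IsPGroup 2 Q := P.2.to_le hQ
    obtain ⟨a, ha⟩ := hQp.exists_card_eq
    have han : a ≤ n := by
      have h1 : Nat.card Q ∣ Nat.card (P : Subgroup G) := Subgroup.card_dvd_of_le hQ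
      rw [ha, hn] at h1
      exact (Nat.pow_dvd_pow_iff_le_right (by norm_num)).mp h1
    have haG : 2 ^ a ∣ Nat.card G := ha ▸ Subgroup.card_subgroup_dvd_card Q
    have main : ∀ m : ℕ, ∀ g ∈ Subgroup.normalizer (Q : Set G), orderOf g = m →
        Nat.Coprime m 2 → g ∈ Subgroup.centralizer (Q : Set G) := by
      intro m
      induction m using Nat.strong_induction_on with
      | _ m ih =>
        intro g hgN hgo hcop
        by_contra hgC
        have hm1 : m ≠ 1 := by
          intro h1
          rw [h1, orderOf_eq_one_iff] at hgo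
          rw [hgo] at hgC
          exact hgC (Subgroup.one_mem _)
        have hm0 : 0 < m := by
          rw [← hgo]; exact orderOf_pos g
        set r := m.minFac with hr_def
        have hr : r.Prime := Nat.minFac_prime hm1
        haveI : Fact r.Prime := ⟨hr⟩
        have hrm : r ∣ m := Nat.minFac_dvd m
        have hr2 : r ≠ 2 := by
          intro h
          rw [h] at hrm
          have := Nat.Coprime.eq_one_of_dvd hcop.symm hrm
          omega
        have hgr : g ^ r ∈ Subgroup.centralizer (Q : Set G) := by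
          have ho : orderOf (g ^ r) = m / r := by
            rw [orderOf_pow_of_dvd hr.ne_zero (hgo ▸ hrm), hgo]
          have hlt : m / r < m := Nat.div_lt_self hm0 hr.one_lt
          refine ih (m / r) hlt (g ^ r) (Subgroup.pow_mem _ hgN r) ho ?_
          exact Nat.Coprime.coprime_dvd_left (Nat.div_dvd_of_dvd hrm) hcop
        have key := card_modEq_fix Q g r hgN hgr
        set F := (Subgroup.centralizer {g}).subgroupOf Q with hF
        have hFp : IsPGroup 2 F := hQp.to_subgroup F
        obtain ⟨b, hb⟩ := hFp.exists_card_eq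
        have hba : b ≤ a := by
          have h1 : Nat.card F ∣ Nat.card Q := Subgroup.card_subgroup_dvd_card F
          rw [ha, hb] at h1
          exact (Nat.pow_dvd_pow_iff_le_right (by norm_num)).mp h1
        have hne : b ≠ a := by
          intro hab
          have h1 : Nat.card F = Nat.card Q := by rw [ha, hb, hab]
          have h2 : F = ⊤ := (Subgroup.card_eq_iff_eq_top F).mp h1
          apply hgC
          rw [Subgroup.mem_centralizer_iff]
          intro x hx
          have h3 : (⟨x, hx⟩ : Q) ∈ F := by rw [h2]; trivial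
          rw [hF, Subgroup.mem_subgroupOf, Subgroup.mem_centralizer_singleton_iff] at h3
          exact h3
        rw [ha, hb] at key
        have hdiv : r ∣ 2 ^ a - 2 ^ b :=
          (Nat.modEq_iff_dvd' (Nat.pow_le_pow_right (by norm_num) hba)).mp key.symm
        have hrG : r ∣ Nat.card G := hrm.trans (hgo ▸ orderOf_dvd_natCard g)
        rcases arith (Nat.card G) r a b hr hr2 (by omega) (by omega) hdiv hrG haG with h | h
        · exact h12 h
        · exact h56 h
    intro g hgN hcop
    exact main (orderOf g) g hgN rfl hcop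
  obtain ⟨N, hNn, hNc⟩ := (Cfsg.Agent.S0071.result P).mpr hcond
  rcases hNn.eq_bot_or_eq_top with h | h
  · rw [h, Subgroup.isComplement'_bot_left] at hNc
    have hGp : IsPGroup 2 G := by
      apply IsPGroup.of_card (n := n)
      rw [← hn, hNc, Subgroup.card_top]
    haveI := hGp.center_nontrivial
    rcases (inferInstance : (Subgroup.center G).Normal).eq_bot_or_eq_top with hc | hc
    · exact (Subgroup.nontrivial_iff_ne_bot _).mp inferInstance hc
    · apply hG
      refine ⟨⟨fun x y => ?_⟩⟩
      have hy : y ∈ Subgroup.center G := by rw [hc]; trivial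
      exact (Subgroup.mem_center_iff.mp hy x).symm ▸ rfl
  · rw [h, Subgroup.isComplement'_top_left] at hNc
    exact P.ne_bot_of_dvd_card h2.two_dvd hNc

end Cfsg.Agent.S0499
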