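import Cfsg.Statements.S0502
import Cfsg.Agent.Lib.Helper20.Klein

set_option autoImplicit false
open Cfsg

namespace Cfsg.Agent.S0502

variable {P : Type*} [Group P]

/-- Elements of the closure of two commuting involutions. -/
theorem closure_pair_cases {a b : P} (ha2 : a * a = 1) (hb2 : b * b = 1) (hab : a * b = b * a) :
    ∀ t ∈ Subgroup.closure ({a, b} : Set P), t = 1 ∨ t = a ∨ t = b ∨ t = b * a := by
  have hb2' : ∀ c, b * (b * c) = c := fun c => by rw [← mul_assoc, hb2, one_mul]
  have hab' : ∀ c, a * (b * c) = b * (a * c) := fun c => by rw [← mul_assoc, hab, mul_assoc]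
  have hainv : a⁻¹ = a := inv_eq_of_mul_eq_one_left ha2
  have hbinv : b⁻¹ = b := inv_eq_of_mul_eq_one_left hb2
  intro t ht
  induction ht using Subgroup.closure_induction with
  | mem x hx =>
    rcases hx with rfl | rfl
    · exact Or.inr (Or.inl rfl)
    · exact Or.inr (Or.inr (Or.inl rfl))
  | one => exact Or.inl rfl
  | mul x y _ _ hx hy =>
    rcases hx with rfl | rfl | rfl | rfl <;> rcases hy with rfl | rfl | rfl | rfl <;>
      simp [mul_assoc, ha2, hb2, hab, hb2', hab']
  | inv x _ hx =>
    rcases hx with rfl | rfl | rfl | rfl <;> simp [hainv, hbinv, hab]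

theorem klein_closure {a b : P} (ha2 : a * a = 1) (hb2 : b * b = 1) (hab : a * b = b * a)
    (ha1 : a ≠ 1) (hb1 : b ≠ 1) (hne : b ≠ a) :
    IsKleinFour ↥(Subgroup.closure ({a, b} : Set P)) :=
  Cfsg.Agent.Lib.Helper20.Klein.isKleinFour_of _ a b (Subgroup.subset_closure (by simp))
    (Subgroup.subset_closure (by simp)) ha2 hb2 hab ha1 hb1 hne (closure_pair_cases ha2 hb2 hab)

theorem comm_closure {s t : Set P} (h : ∀ x ∈ s, ∀ y ∈ t, x * y = y * x) :
    ∀ x ∈ Subgroup.closure s, ∀ y ∈ Subgroup.closure t, x * y = y * x := by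
  have h1 : ∀ y ∈ t, Subgroup.closure s ≤ Subgroup.centralizer {y} := by
    intro y hy
    rw [Subgroup.closure_le]
    intro x hx
    rw [SetLike.mem_coe, Subgroup.mem_centralizer_iff]
    intro z hz
    rw [Set.mem_singleton_iff] at hz
    rw [hz]
    exact (h x hx y hy).symm
  intro x hx
  have h2 : Subgroup.closure t ≤ Subgroup.centralizer {x} := by
    rw [Subgroup.closure_le]
    intro y hy
    rw [SetLike.mem_coe, Subgroup.mem_centralizer_iff]
    intro z hz
    rw [Set.mem_singleton_iff] at hz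
    rw [hz]
    exact (Subgroup.mem_centralizer_iff.mp (h1 y hy hx) y rfl).symm
  intro y hy
  exact Subgroup.mem_centralizer_iff.mp (h2 hy) x rfl

/-- A nontrivial normal subgroup of a finite `2`-group contains a nontrivial central element. -/
theorem exists_fixed [Finite P] (hP : IsPGroup 2 P) (E : Subgroup P) [E.Normal]
    (hE8 : 8 ≤ Nat.card E) : ∃ z ∈ E, z ≠ 1 ∧ ∀ g : P, g * z = z * g := by
  have hEp : IsPGroup 2 ↥E := hP.to_subgroup E
  obtain ⟨k, hk⟩ := IsPGroup.iff_card.mp hEp
  have h2 : 2 ∣ Nat.card ↥E := by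
    rcases Nat.eq_zero_or_pos k with rfl | hpos
    · rw [hk] at hE8; norm_num at hE8
    · rw [hk]; exact dvd_pow_self 2 hpos.ne'
  have hP' : IsPGroup 2 (ConjAct P) := hP
  have h1 : (1 : ↥E) ∈ MulAction.fixedPoints (ConjAct P) ↥E := by
    intro g
    exact smul_one g
  obtain ⟨b, hb, hne⟩ := hP'.exists_fixed_point_of_prime_dvd_card_of_fixed_point ↥E h2 h1
  refine ⟨b, b.2, ?_, ?_⟩
  · intro h
    exact hne (Subtype.ext h.symm)
  · intro g
    have h3 := congrArg Subtype.val (hb (ConjAct.toConjAct g))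
    rw [ConjAct.Subgroup.val_conj_smul, ConjAct.smul_def] at h3
    simp only [ConjAct.ofConjAct_toConjAct] at h3
    exact mul_inv_eq_iff_eq_mul.mp h3

/-- An involution normalizing an elementary abelian `2`-group of order at least `8` centralizes
an element of it outside `{1, z}`. -/
theorem exists_centralizing [Finite P] (E : Subgroup P) [hEn : E.Normal]
    (hcomm : ∀ x ∈ E, ∀ y ∈ E, x * y = y * x) (hE2 : ∀ e ∈ E, e * e = 1) (hE8 : 8 ≤ Nat.card E)
    (a z : P) (ha2 : a * a = 1) :
    ∃ w ∈ E, w ≠ 1 ∧ w ≠ z ∧ a * w = w * a := by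
  classical
  by_contra hcon
  push Not at hcon
  have hainv : a⁻¹ = a := inv_eq_of_mul_eq_one_left ha2
  have hconj : ∀ e ∈ E, a * e * a ∈ E := fun e he => by
    have := hEn.conj_mem e he a
    rwa [hainv] at this
  have hφc : ∀ e ∈ E, a * (e * (a * e * a)) = (e * (a * e * a)) * a := by
    intro e he
    have h1 := hcomm e he _ (hconj e he)
    calc a * (e * (a * e * a)) = ((a * e * a) * e) * a := by group
      _ = (e * (a * e * a)) * a := by rw [← h1]
  have hφ : ∀ e ∈ E, e * (a * e * a) = 1 ∨ e * (a * e * a) = z := by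
    intro e he
    by_contra h
    push Not at h
    exact hcon _ (E.mul_mem he (hconj e he)) h.1 h.2 (hφc e he)
  have hker : ∀ e ∈ E, e * (a * e * a) = 1 → e = 1 ∨ e = z := by
    intro e he h1
    by_contra h
    push Not at h
    apply hcon e he h.1 h.2
    have h2 : a * e * a = e := mul_left_cancel (h1.trans (hE2 e he).symm)
    calc a * e = a * e * (a * a) := by rw [ha2, mul_one]
      _ = (a * e * a) * a := by group
      _ = e * a := by rw [h2]
  have hmul : ∀ e ∈ E, ∀ e' ∈ E,
      (e * e') * (a * (e * e') * a) = (e * (a * e * a)) * (e' * (a * e' * a)) := by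
    intro e he e' he'
    have h1 := hcomm e' he' _ (hconj e he)
    have h0 : a * (e * e') * a = (a * e * a) * (a * e' * a) := by
      calc a * (e * e') * a = a * e * 1 * e' * a := by group
        _ = a * e * (a * a) * e' * a := by rw [ha2]
        _ = (a * e * a) * (a * e' * a) := by group
    rw [h0]
    calc (e * e') * ((a * e * a) * (a * e' * a)) = e * (e' * (a * e * a)) * (a * e' * a) := by
          group
      _ = e * ((a * e * a) * e') * (a * e' * a) := by rw [h1]
      _ = (e * (a * e * a)) * (e' * (a * e' * a)) := by group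
  -- a base point
  obtain ⟨e₀, he₀, hall⟩ : ∃ e₀ ∈ E, ∀ e ∈ E, e = 1 ∨ e = z ∨ e = e₀ ∨ e = e₀ * z := by
    by_cases hc : ∀ e ∈ E, e * (a * e * a) = 1
    · refine ⟨1, E.one_mem, fun e he => ?_⟩
      rcases hker e he (hc e he) with h | h
      · exact Or.inl h
      · exact Or.inr (Or.inl h)
    · push Not at hc
      obtain ⟨e₀, he₀, hne⟩ := hc
      have hz₀ : e₀ * (a * e₀ * a) = z := (hφ e₀ he₀).resolve_left hne
      have hzE : z ∈ E := hz₀ ▸ E.mul_mem he₀ (hconj e₀ he₀)
      refine ⟨e₀, he₀, fun e he => ?_⟩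
      rcases hφ e he with h | h
      · rcases hker e he h with h' | h'
        · exact Or.inl h'
        · exact Or.inr (Or.inl h')
      · have h3 : (e₀ * e) * (a * (e₀ * e) * a) = 1 := by
          rw [hmul e₀ he₀ e he, hz₀, h, hE2 z hzE]
        have he₀inv : e₀⁻¹ = e₀ := inv_eq_of_mul_eq_one_left (hE2 e₀ he₀)
        rcases hker _ (E.mul_mem he₀ he) h3 with h' | h'
        · right; right; left
          have : e = e₀⁻¹ := eq_inv_of_mul_eq_one_right h'
          rw [this, he₀inv]
        · right; right; right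
          have : e = e₀⁻¹ * z := by rw [← h']; group
          rw [this, he₀inv]
  have hsub : (E : Set P) ⊆ ((({1, z, e₀, e₀ * z} : Finset P)) : Set P) := by
    intro e he
    rw [Finset.mem_coe]
    simp only [Finset.mem_insert, Finset.mem_singleton]
    exact hall e he
  have hcard : Nat.card ↥E ≤ 4 := by
    have h1 : Nat.card ↥E = (E : Set P).ncard := (Nat.card_coe_set_eq (E : Set P))
    rw [h1]
    calc (E : Set P).ncard ≤ ((({1, z, e₀, e₀ * z} : Finset P)) : Set P).ncard :=
          Set.ncard_le_ncard hsub (Finset.finite_toSet _)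
      _ = ({1, z, e₀, e₀ * z} : Finset P).card := Set.ncard_coe_finset _
      _ ≤ 4 := Finset.card_le_four
  omega

/-- The relation of the statement. -/
def Rel (A B : Subgroup P) : Prop :=
  IsKleinFour A ∧ IsKleinFour B ∧ ∀ a ∈ A, ∀ b ∈ B, a * b = b * a

theorem Rel.symm {A B : Subgroup P} (h : Rel A B) : Rel B A :=
  ⟨h.2.1, h.1, fun x hx y hy => (h.2.2 y hy x hx).symm⟩

theorem chain_symm {A B : Subgroup P} (h : Relation.ReflTransGen Rel A B) :
    Relation.ReflTransGen Rel B A := by
  induction h with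
  | refl => exact Relation.ReflTransGen.refl
  | tail _ hbc ih => exact Relation.ReflTransGen.head hbc.symm ih


/-- If a finite 2-group has a normal elementary abelian subgroup of order at least 8, then any two of its Klein
four-subgroups are joined by a chain of Klein four-subgroups with consecutive members commuting elementwise. -/
theorem result {P : Type*} [Group P] [Finite P] (hP : IsPGroup 2 P)
    (E : Subgroup P) [E.Normal] (hE : IsMulCommutative E) (hE2 : ∀ e ∈ E, e ^ 2 = 1) (hE8 : 8 ≤ Nat.card E) :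
    Cfsg.IsFourConnected P := by
  have hcomm : ∀ x ∈ E, ∀ y ∈ E, x * y = y * x := fun x hx y hy =>
    congrArg Subtype.val (hE.is_comm.comm (⟨x, hx⟩ : ↥E) ⟨y, hy⟩)
  have hE2' : ∀ e ∈ E, e * e = 1 := fun e he => by rw [← pow_two]; exact hE2 e he
  obtain ⟨z, hzE, hz1, hzc⟩ := exists_fixed hP E hE8
  have hz2 : z * z = 1 := hE2' z hzE
  have key : ∀ U : Subgroup P, IsKleinFour U →
      ∃ W : Subgroup P, W ≤ E ∧ IsKleinFour W ∧ Relation.ReflTransGen Rel U W := by
    intro U hU
    obtain ⟨a, haU, ha1, haz⟩ :=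
      Cfsg.Agent.Lib.Helper20.Klein.exists_not_mem_zpowers U hU.card_four z (hE2 z hzE)
    have ha2 : a * a = 1 := by
      rw [← pow_two]
      exact Cfsg.Agent.Lib.Helper20.Klein.sq_eq_one_of_klein U hU a haU
    have hU₁ : IsKleinFour ↥(Subgroup.closure ({a, z} : Set P)) :=
      klein_closure ha2 hz2 (hzc a) ha1 hz1 (fun h => haz h.symm)
    have hUU₁ : ∀ u ∈ U, ∀ v ∈ Subgroup.closure ({a, z} : Set P), u * v = v * u := by
      have := comm_closure (s := (U : Set P)) (t := ({a, z} : Set P)) (by
        rintro x hx y (rfl | rfl)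
        · exact Cfsg.Agent.Lib.Helper20.Klein.comm_of_klein U hU x y hx haU
        · exact hzc x)
      rwa [Subgroup.closure_eq] at this
    obtain ⟨w, hwE, hw1, hwz, haw⟩ := exists_centralizing E hcomm hE2' hE8 a z ha2
    have hW : IsKleinFour ↥(Subgroup.closure ({z, w} : Set P)) :=
      klein_closure hz2 (hE2' w hwE) (hzc w).symm hz1 hw1 hwz
    have hWE : Subgroup.closure ({z, w} : Set P) ≤ E := by
      rw [Subgroup.closure_le]
      rintro x (rfl | rfl)
      · exact hzE
      · exact hwE
    have hU₁W : ∀ u ∈ Subgroup.closure ({a, z} : Set P),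
        ∀ v ∈ Subgroup.closure ({z, w} : Set P), u * v = v * u := by
      apply comm_closure
      rintro x (rfl | rfl) y (rfl | rfl)
      · exact hzc x
      · exact haw
      · rfl
      · exact (hzc y).symm
    exact ⟨_, hWE, hW,
      (Relation.ReflTransGen.single ⟨hU, hU₁, hUU₁⟩).tail ⟨hU₁, hW, hU₁W⟩⟩
  intro U V hU hV
  obtain ⟨W, hWE, hW, hUW⟩ := key U hU
  obtain ⟨W', hW'E, hW', hVW'⟩ := key V hV
  have hWW' : Rel W W' := ⟨hW, hW', fun a ha b hb => hcomm a (hWE ha) b (hW'E hb)⟩
  exact (hUW.tail hWW').trans (chain_symm hVW')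

end Cfsg.Agent.S0502
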