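import Cfsg.Statements.S0505
import Cfsg.Agent.Lib.Helper48.CharP
import Cfsg.Agent.Lib.Helper48.CharPGfs
import Cfsg.Agent.Lib.Helper30.NoComp
import Cfsg.Agent.Lib.Helper21.Quasi

set_option autoImplicit false
open Cfsg

namespace Cfsg.Agent.S0505

open Subgroup Cfsg.Agent.Lib.Helper48.CharP Cfsg.Agent.Lib.Helper48.CharPGfs

/-- Let G be a finite group of even order in which the centralizer of every involution is solvable and has trivial
core (no nontrivial normal subgroup of odd order). Then G is of characteristic 2 type. -/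
theorem result {G : Type*} [Group G] [Finite G]
    (h2 : Even (Nat.card G))
    (hs : ∀ t : G, orderOf t = 2 → Group.IsSolvable (Subgroup.centralizer ({t} : Set G)))
    (hc : ∀ t : G, orderOf t = 2 → Cfsg.oddCore (Subgroup.centralizer ({t} : Set G)) = ⊥) :
    Cfsg.IsCharacteristicTwoType G := by
  have : Fact (Nat.Prime 2) := ⟨Nat.prime_two⟩
  refine ⟨h2, ?_⟩
  intro T hT hT1
  show Subgroup.centralizer (pCore 2 ↥(normalizer (T : Set G)) : Set ↥(normalizer (T : Set G))) ≤
    pCore 2 ↥(normalizer (T : Set G))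
  rw [Cfsg.Agent.Lib.Helper48.CharP.charP_iff]
  have hne' : T ⊓ T ≠ ⊥ := by
    rw [inf_idem]
    exact hT1
  obtain ⟨z, hzT, -, hz2, hzZ⟩ := exists_central_orderOf hT le_normalizer hne'
  apply chP_normalizer_of_centralizer hT hzT hzZ
  rw [← Cfsg.Agent.Lib.Helper48.CharP.charP_iff]
  have hsolC := hs z hz2
  apply Cfsg.Agent.Lib.Helper30.NoComp.centralizer_pCore_le_of_pPrimeCore 2 _ (hc z hz2)
  intro K hK
  have hsol : Group.IsSolvable ↥K := inferInstance
  exact Cfsg.Agent.Lib.Helper21.Quasi.not_isSolvable hK.2 hsol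

end Cfsg.Agent.S0505
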