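import Cfsg.Statements.S0535
import Cfsg.Agent.Lib.Helper9.Wie4

set_option autoImplicit false
open Cfsg

namespace Cfsg.Agent.S0535

/-- Suppose that for every nontrivial subgroup H of a finite group and every prime p dividing the order of H there is a proper subgroup of H whose index in H is a power of p. Then the group is solvable. -/
theorem result {G : Type*} [Group G] [Finite G] (h : ∀ H : Subgroup G, H ≠ ⊥ → ∀ p : ℕ, p.Prime → p ∣ Nat.card H → ∃ K : Subgroup H, K ≠ ⊤ ∧ ∃ k : ℕ, K.index = p ^ k) : Group.IsSolvable G := by
  exact Cfsg.Agent.Lib.Helper9.Wie4.solvable_of_pp _ G rfl h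

end Cfsg.Agent.S0535
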