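import Cfsg.Statements.S0539
import Cfsg.Agent.Lib.Helper62.Wielandt

set_option autoImplicit false
open Pointwise
open Cfsg

namespace Cfsg.Agent.S0539

open Cfsg.Agent.Lib.Helper62 in
/-- Let S be a family of subnormal subgroups of a finite group that is closed under conjugation, and S₀ a proper subfamily. Then some member of S not in S₀ normalizes the join of S₀. -/
theorem result {G : Type*} [Group G] [Finite G] (S S₀ : Set (Subgroup G)) (hS : ∀ U ∈ S, U.IsSubnormal) (hconj : ∀ U ∈ S, ∀ g : G, MulAut.conj g • U ∈ S) (h₀ : S₀ ⊂ S) : ∃ X ∈ S, X ∉ S₀ ∧ X ≤ Subgroup.normalizer ((sSup S₀ : Subgroup G) : Set G) := by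
  have hS₀ : ∀ U ∈ S₀, U.IsSubnormal := fun U hU => hS U (h₀.subset hU)
  have hJ : (sSup S₀ : Subgroup G).IsSubnormal := Wielandt.sSup_isSubnormal S₀ hS₀
  by_cases hn : (sSup S₀ : Subgroup G).Normal
  · obtain ⟨X, hXS, hXS₀⟩ := Set.exists_of_ssubset h₀
    refine ⟨X, hXS, hXS₀, ?_⟩
    rw [Subgroup.normalizer_eq_top_iff.mpr hn]
    exact le_top
  · obtain ⟨x, hx1, hx2⟩ := Wielandt.exists_conj_ne_le_normalizer hJ hn
    have : ∃ U ∈ S₀, MulAut.conj x • U ∉ S₀ := by
      by_contra hall
      push Not at hall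
      apply hx1
      apply Wielandt.smul_eq_of_le
      rw [Subgroup.pointwise_smul_subset_iff]
      apply sSup_le
      intro U hU
      rw [← Subgroup.pointwise_smul_subset_iff]
      exact le_sSup (hall U hU)
    obtain ⟨U, hU, hU'⟩ := this
    refine ⟨MulAut.conj x • U, hconj U (h₀.subset hU) x, hU', ?_⟩
    exact (Subgroup.pointwise_smul_le_pointwise_smul_iff.mpr (le_sSup hU)).trans hx2

end Cfsg.Agent.S0539
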