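import Cfsg.Statements.S0548
import Cfsg.Agent.S0547
import Mathlib

set_option autoImplicit false
open Cfsg

namespace Cfsg.Agent.S0548

/-- Let a finite solvable group G act faithfully and primitively on a set, let M be a minimal normal subgroup and H the stabilizer of a point. Then H is a complement to M, no non-identity element of H centralizes M, and the only subgroups of M normalized by H are the trivial subgroup and M. -/
theorem result {G : Type*} [Group G] [Finite G] [Group.IsSolvable G] {Ω : Type*} [MulAction G Ω] [FaithfulSMul G Ω] (hprim : MulAction.IsPreprimitive G Ω) (M : Subgroup G) [M.Normal] (hM : M ≠ ⊥) (hmin : ∀ K : Subgroup G, K.Normal → K ≤ M → K = ⊥ ∨ K = M) (ω : Ω) : Subgroup.IsComplement' M (MulAction.stabilizer G ω) ∧ MulAction.stabilizer G ω ⊓ Subgroup.centralizer (M : Set G) = ⊥ ∧ ∀ K : Subgroup G, K ≤ M → MulAction.stabilizer G ω ≤ Subgroup.normalizer (K : Set G) → K = ⊥ ∨ K = M := by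
  have hT := Cfsg.Agent.S0547.pretransitive hprim M hM
  have hcompl : Subgroup.IsComplement' M (MulAction.stabilizer G ω) := by
    apply Subgroup.isComplement'_stabilizer
    · intro h hh
      have h1 : h ∈ MulAction.stabilizer M ω := hh
      rw [Cfsg.Agent.S0547.stabilizer_eq_bot hprim M hM hmin ω, Subgroup.mem_bot] at h1
      exact h1
    · intro g
      exact MulAction.exists_smul_eq M (g • ω) ω
  refine ⟨hcompl, ?_, ?_⟩
  · rw [Subgroup.eq_bot_iff_forall]
    rintro g ⟨hg1, hg2⟩
    exact Cfsg.Agent.S0547.eq_one_of_centralizer M hT ω g hg2 hg1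
  · intro K hKM hKN
    apply hmin K ?_ hKM
    rw [← Subgroup.normalizer_eq_top_iff, eq_top_iff, ← hcompl.sup_eq_top]
    apply sup_le _ hKN
    intro m hm
    rw [Subgroup.mem_normalizer_iff]
    intro k
    have key : ∀ x ∈ K, m * x * m⁻¹ = x := by
      intro x hx
      rw [Cfsg.Agent.S0547.commute_of_mem M hM hmin hm (hKM hx), mul_assoc, mul_inv_cancel, mul_one]
    constructor
    · intro hk
      rw [key k hk]; exact hk
    · intro hk
      have h2 : k = m * k * m⁻¹ := by
        calc k = m⁻¹ * (m * k * m⁻¹) * m := by group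
          _ = m * k * m⁻¹ := by
            rw [Cfsg.Agent.S0547.commute_of_mem M hM hmin (M.inv_mem hm) (hKM hk), mul_assoc, inv_mul_cancel, mul_one]
      rw [h2]; exact hk

end Cfsg.Agent.S0548
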