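import Cfsg.Statements.S0550
import Cfsg.Agent.S0549
import Mathlib

set_option autoImplicit false
open Cfsg

namespace Cfsg.Agent.S0550

theorem inf_eq_bot_of_ne {G : Type*} [Group G] (A B : Subgroup G) [A.Normal] [B.Normal]
    (hA : A ≠ ⊥) (hAmin : ∀ K : Subgroup G, K.Normal → K ≤ A → K = ⊥ ∨ K = A)
    (hBmin : ∀ K : Subgroup G, K.Normal → K ≤ B → K = ⊥ ∨ K = B) (hAB : A ≠ B) : A ⊓ B = ⊥ := by
  rcases hAmin (A ⊓ B) inferInstance inf_le_left with h | h
  · exact h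
  · exfalso
    have hle : A ≤ B := inf_eq_left.mp h
    rcases hBmin A inferInstance hle with h' | h'
    · exact hA h'
    · exact hAB h'

theorem range_le {G : Type*} [Group G] (N : Subgroup G) [N.Normal] (H K : Subgroup G)
    (hHK : H ≤ K ⊔ N) :
    ((QuotientGroup.mk' N).comp H.subtype).range ≤ ((QuotientGroup.mk' N).comp K.subtype).range := by
  rintro x ⟨h, rfl⟩
  obtain ⟨k, hk, n, hn, hkn⟩ := Subgroup.mem_sup_of_normal_right.mp (hHK h.2)
  refine ⟨⟨k, hk⟩, ?_⟩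
  simp only [MonoidHom.comp_apply, Subgroup.coe_subtype, QuotientGroup.mk'_apply]
  rw [QuotientGroup.eq, ← hkn]
  simpa using hn

theorem comp_injective {G : Type*} [Group G] (N : Subgroup G) [N.Normal] (H : Subgroup G)
    (hH : H ⊓ N = ⊥) : Function.Injective ((QuotientGroup.mk' N).comp H.subtype) := by
  rw [injective_iff_map_eq_one]
  intro a ha
  simp only [MonoidHom.comp_apply, Subgroup.coe_subtype, QuotientGroup.mk'_apply] at ha
  rw [QuotientGroup.eq_one_iff] at ha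
  have : (a : G) ∈ H ⊓ N := ⟨a.2, ha⟩
  rw [hH, Subgroup.mem_bot] at this
  exact Subtype.ext this

/-- Two complements of a normal subgroup inside the same overgroup are isomorphic. -/
theorem iso_of_complements {G : Type*} [Group G] (N : Subgroup G) [N.Normal] (H K : Subgroup G)
    (hH : H ⊓ N = ⊥) (hK : K ⊓ N = ⊥) (hHK : H ⊔ N = K ⊔ N) : Nonempty (H ≃* K) := by
  have e1 := MonoidHom.ofInjective (comp_injective N H hH)
  have e2 := MonoidHom.ofInjective (comp_injective N K hK)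
  have hr : ((QuotientGroup.mk' N).comp H.subtype).range = ((QuotientGroup.mk' N).comp K.subtype).range :=
    le_antisymm (range_le N H K (hHK ▸ le_sup_left)) (range_le N K H (hHK ▸ le_sup_left))
  exact ⟨e1.trans ((MulEquiv.subgroupCongr hr).trans e2.symm)⟩

theorem result {G : Type*} [Group G] [Finite G] (U : Subgroup G) (hU : IsCoatom U) (hcore : U.normalCore = ⊥) (A B : Subgroup G) [A.Normal] [B.Normal] (hA : A ≠ ⊥) (hB : B ≠ ⊥) (hAmin : ∀ K : Subgroup G, K.Normal → K ≤ A → K = ⊥ ∨ K = A) (hBmin : ∀ K : Subgroup G, K.Normal → K ≤ B → K = ⊥ ∨ K = B) (hAB : A ≠ B) : Subgroup.centralizer (B : Set G) = A ∧ Subgroup.centralizer (A : Set G) = B ∧ Subgroup.IsComplement' A U ∧ Subgroup.IsComplement' B U ∧ ¬ IsMulCommutative A ∧ Nonempty (A ≃* B) ∧ Nonempty (A ≃* ↥((A ⊔ B) ⊓ U)) := by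
  have hAB0 : A ⊓ B = ⊥ := inf_eq_bot_of_ne A B hA hAmin hBmin hAB
  have hBA0 : B ⊓ A = ⊥ := by rw [inf_comm]; exact hAB0
  have hcomm : ⁅A, B⁆ = ⊥ := le_bot_iff.mp (hAB0 ▸ Subgroup.commutator_le_inf A B)
  have hcomm' : ⁅B, A⁆ = ⊥ := by rw [Subgroup.commutator_comm]; exact hcomm
  have hAC : A ≤ Subgroup.centralizer (B : Set G) :=
    Subgroup.commutator_eq_bot_iff_le_centralizer.mp hcomm
  have hBC : B ≤ Subgroup.centralizer (A : Set G) :=
    Subgroup.commutator_eq_bot_iff_le_centralizer.mp hcomm'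
  have key : ∀ (X Y : Subgroup G) [X.Normal] [Y.Normal], X ≠ ⊥ → Y ≠ ⊥ →
      X ≤ Subgroup.centralizer (Y : Set G) → Subgroup.centralizer (Y : Set G) = X := by
    intro X Y _ _ hX hY hXC
    obtain ⟨h1, h2⟩ := Cfsg.Agent.S0549.result U hU hcore Y hY
    rcases h2 with h2 | ⟨_, h2⟩
    · exfalso
      rw [h2] at hXC
      exact hX (le_bot_iff.mp hXC)
    · rcases h2 X inferInstance hXC with h3 | h3
      · exact absurd h3 hX
      · exact h3.symm
  have hCB : Subgroup.centralizer (B : Set G) = A := key A B hA hB hAC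
  have hCA : Subgroup.centralizer (A : Set G) = B := key B A hB hA hBC
  have hAU : A ⊓ U = ⊥ := by
    have := Cfsg.Agent.S0549.cent_inf_eq_bot U hU hcore B hB
    rwa [hCB] at this
  have hBU : B ⊓ U = ⊥ := by
    have := Cfsg.Agent.S0549.cent_inf_eq_bot U hU hcore A hA
    rwa [hCA] at this
  have hAUt : A ⊔ U = ⊤ := Cfsg.Agent.S0549.sup_eq_top_of_normal U hU hcore A hA
  have hBUt : B ⊔ U = ⊤ := Cfsg.Agent.S0549.sup_eq_top_of_normal U hU hcore B hB
  have compl : ∀ (X : Subgroup G) [X.Normal], X ⊓ U = ⊥ → X ⊔ U = ⊤ → Subgroup.IsComplement' X U := by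
    intro X _ h1 h2
    apply Subgroup.isComplement'_of_disjoint_and_mul_eq_univ (disjoint_iff.mpr h1)
    rw [← Subgroup.normal_mul, h2]
    rfl
  have hnc : ¬ IsMulCommutative A := by
    intro hc
    have hle : A ≤ Subgroup.centralizer (A : Set G) :=
      Subgroup.le_centralizer_iff_isMulCommutative.mpr hc
    rw [hCA] at hle
    have : A ⊓ B = A := inf_eq_left.mpr hle
    rw [hAB0] at this
    exact hA this.symm
  -- D = (A ⊔ B) ⊓ U
  have hDsup : ∀ (X Y : Subgroup G) [X.Normal] [Y.Normal], Y ⊔ U = ⊤ →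
      X ⊔ Y = (X ⊔ Y) ⊓ U ⊔ Y := by
    intro X Y _ _ hY
    apply le_antisymm
    · intro x hx
      have hx' : x ∈ Y ⊔ U := by rw [hY]; trivial
      obtain ⟨y, hy, u, hu, rfl⟩ := Subgroup.mem_sup_of_normal_left.mp hx'
      have hu' : u ∈ X ⊔ Y := by
        have : u = y⁻¹ * (y * u) := by group
        rw [this]
        exact Subgroup.mul_mem _ (Subgroup.inv_mem _ (Subgroup.mem_sup_right hy)) hx
      exact Subgroup.mul_mem _ (Subgroup.mem_sup_right hy) (Subgroup.mem_sup_left ⟨hu', hu⟩)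
    · exact sup_le inf_le_left le_sup_right
  have hDB : (A ⊔ B) ⊓ U ⊓ B = ⊥ := by
    apply le_bot_iff.mp
    rw [← hBU]
    exact le_inf inf_le_right (inf_le_left.trans inf_le_right)
  have hDA : (A ⊔ B) ⊓ U ⊓ A = ⊥ := by
    apply le_bot_iff.mp
    rw [← hAU]
    exact le_inf inf_le_right (inf_le_left.trans inf_le_right)
  have e1 : Nonempty (A ≃* ↥((A ⊔ B) ⊓ U)) :=
    iso_of_complements B A ((A ⊔ B) ⊓ U) hAB0 hDB (hDsup A B hBUt)
  have e2 : Nonempty (B ≃* ↥((A ⊔ B) ⊓ U)) := by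
    apply iso_of_complements A B ((A ⊔ B) ⊓ U) hBA0 hDA
    have h := hDsup B A hAUt
    rw [sup_comm B A] at h
    calc B ⊔ A = A ⊔ B := sup_comm _ _
      _ = _ := h
  obtain ⟨f1⟩ := e1
  obtain ⟨f2⟩ := e2
  exact ⟨hCB, hCA, compl A hAU hAUt, compl B hBU hBUt, hnc, ⟨f1.trans f2.symm⟩, ⟨f1⟩⟩

end Cfsg.Agent.S0550
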