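import Cfsg.Statements.S0551
import Cfsg.Agent.S0547
import Cfsg.Agent.S0549
import Cfsg.Agent.Lib.Helper10.Timmesfeld
import Mathlib

set_option autoImplicit false
open Pointwise
open Cfsg

namespace Cfsg.Agent.S0551

theorem exists_minimal_normal {G : Type*} [Group G] [Finite G] [Nontrivial G] :
    ∃ N : Subgroup G, N.Normal ∧ N ≠ ⊥ ∧
      ∀ K : Subgroup G, K.Normal → K ≤ N → K = ⊥ ∨ K = N := by
  obtain ⟨N, ⟨hn, hne⟩, hmin⟩ := exists_minimal_of_wellFoundedLT
    (fun K : Subgroup G => K.Normal ∧ K ≠ ⊥) ⟨⊤, inferInstance, top_ne_bot⟩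
  refine ⟨N, hn, hne, ?_⟩
  intro K hK hKN
  by_cases h : K = ⊥
  · exact Or.inl h
  · exact Or.inr (le_antisymm hKN (hmin ⟨hK, h⟩ hKN))

theorem le_normalizer_inf {G : Type*} [Group G] (A M : Subgroup G) [hM : M.Normal] :
    A ≤ Subgroup.normalizer ((A ⊓ M : Subgroup G) : Set G) := by
  intro a ha
  rw [Subgroup.mem_normalizer_iff]
  intro x
  constructor
  · rintro ⟨h1, h2⟩
    exact ⟨A.mul_mem (A.mul_mem ha h1) (A.inv_mem ha), hM.conj_mem x h2 a⟩
  · rintro ⟨h1, h2⟩
    refine ⟨?_, ?_⟩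
    · have : x = a⁻¹ * (a * x * a⁻¹) * a := by group
      rw [this]; exact A.mul_mem (A.mul_mem (A.inv_mem ha) h1) ha
    · have : x = a⁻¹ * (a * x * a⁻¹) * a⁻¹⁻¹ := by group
      rw [this]; exact hM.conj_mem _ h2 a⁻¹

/-- In a finite solvable group all core-free maximal subgroups are conjugate. -/
theorem result {G : Type*} [Group G] [Finite G] [Group.IsSolvable G] (U V : Subgroup G) (hU : IsCoatom U) (hV : IsCoatom V) (hUc : U.normalCore = ⊥) (hVc : V.normalCore = ⊥) : ∃ g : G, MulAut.conj g • U = V := by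
  have hnt : Nontrivial G := by
    by_contra h
    rw [not_nontrivial_iff_subsingleton] at h
    exact hU.1 (Subsingleton.elim _ _)
  obtain ⟨N, hNn, hN, hNmin⟩ := exists_minimal_normal (G := G)
  have := hNn
  obtain ⟨p, d, hp, hd, hNcard⟩ := Cfsg.Agent.S0547.card_prime_pow N hN hNmin
  have : Fact p.Prime := ⟨hp⟩
  have hNp : IsPGroup p N := IsPGroup.of_card hNcard
  have hNab : N ≤ Subgroup.centralizer (N : Set G) := by
    rw [← Subgroup.commutator_eq_bot_iff_le_centralizer]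
    exact Cfsg.Agent.S0547.comm_eq_bot N hN hNmin
  have facts : ∀ W : Subgroup G, IsCoatom W → W.normalCore = ⊥ → W ⊔ N = ⊤ ∧ N ⊓ W = ⊥ := by
    intro W hW hWc
    refine ⟨?_, ?_⟩
    · rw [sup_comm]; exact Cfsg.Agent.S0549.sup_eq_top_of_normal W hW hWc N hN
    · apply le_bot_iff.mp
      rw [← Cfsg.Agent.S0549.cent_inf_eq_bot W hW hWc N hN]
      exact inf_le_inf_right _ hNab
  have hCN : Subgroup.centralizer (N : Set G) = N := by
    apply le_antisymm _ hNab
    intro c hc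
    have hc' : c ∈ N ⊔ U := by rw [sup_comm, (facts U hU hUc).1]; trivial
    obtain ⟨n, hn, u, hu, rfl⟩ := Subgroup.mem_sup_of_normal_left.mp hc'
    have hu' : u ∈ Subgroup.centralizer (N : Set G) ⊓ U := ⟨by
      have : u = n⁻¹ * (n * u) := by group
      rw [this]; exact Subgroup.mul_mem _ (Subgroup.inv_mem _ (hNab hn)) hc, hu⟩
    rw [Cfsg.Agent.S0549.cent_inf_eq_bot U hU hUc N hN, Subgroup.mem_bot] at hu'
    rw [hu', mul_one]; exact hn
  by_cases hNtop : N = ⊤
  · have hU0 : U = ⊥ := by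
      have := (facts U hU hUc).2
      rwa [hNtop, top_inf_eq] at this
    have hV0 : V = ⊥ := by
      have := (facts V hV hVc).2
      rwa [hNtop, top_inf_eq] at this
    exact ⟨1, by rw [hU0, hV0]; simp⟩
  have : Nontrivial (G ⧸ N) := QuotientGroup.nontrivial_iff.mpr hNtop
  obtain ⟨Mb, hMbn, hMb, hMbmin⟩ := exists_minimal_normal (G := G ⧸ N)
  have := hMbn
  obtain ⟨q, e, hq, he, hMbcard⟩ := Cfsg.Agent.S0547.card_prime_pow Mb hMb hMbmin
  have : Fact q.Prime := ⟨hq⟩
  have hMbq : IsPGroup q Mb := IsPGroup.of_card hMbcard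
  obtain ⟨M, hMdef⟩ : ∃ M : Subgroup G, M = Mb.comap (QuotientGroup.mk' N) := ⟨_, rfl⟩
  have hMn : M.Normal := by rw [hMdef]; infer_instance
  have hNM : N ≤ M := by
    intro n hn
    rw [hMdef, Subgroup.mem_comap]
    have : (QuotientGroup.mk' N) n = 1 := (QuotientGroup.eq_one_iff n).mpr hn
    rw [this]; exact Mb.one_mem
  have hMN : ¬ M ≤ N := by
    intro hle
    apply hMb
    rw [Subgroup.eq_bot_iff_forall]
    intro x hx
    obtain ⟨g, rfl⟩ := QuotientGroup.mk'_surjective N x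
    have : g ∈ M := by rw [hMdef]; exact hx
    exact (QuotientGroup.eq_one_iff g).mpr (hle this)
  have hpow : ∀ m ∈ M, ∃ k : ℕ, m ^ (q ^ k) ∈ N := by
    intro m hm
    have hm' : QuotientGroup.mk' N m ∈ Mb := by rw [hMdef] at hm; exact hm
    obtain ⟨k, hk⟩ := hMbq ⟨QuotientGroup.mk' N m, hm'⟩
    refine ⟨k, ?_⟩
    have h1 : (QuotientGroup.mk' N m) ^ (q ^ k) = 1 := by
      have := congrArg Subtype.val hk
      simpa using this
    rw [← map_pow] at h1
    exact (QuotientGroup.eq_one_iff _).mp h1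
  have hpq : p ≠ q := by
    intro hpq
    have hMp : IsPGroup p M := by
      rintro ⟨m, hm⟩
      obtain ⟨k, hk⟩ := hpow m hm
      obtain ⟨l, hl⟩ := hNp ⟨m ^ (q ^ k), hk⟩
      refine ⟨k + l, ?_⟩
      apply Subtype.ext
      have h2 := congrArg Subtype.val hl
      simp only [Subgroup.coe_pow, Subgroup.coe_one] at h2 ⊢
      rw [pow_add, pow_mul]
      rw [hpq] at h2 ⊢
      exact h2
    have hcomm : ⁅N, M⁆ = ⊥ := by
      rcases hNmin ⁅N, M⁆ inferInstance (Subgroup.commutator_le_left N M) with h | h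
      · exact h
      · exfalso
        have hMnorm : M ≤ Subgroup.normalizer (N : Set G) := by
          rw [Subgroup.normalizer_eq_top_iff.mpr hNn]; exact le_top
        exact hN (Cfsg.Agent.Lib.Helper10.Timmesfeld.nilp N M N hNp hMp hMnorm le_rfl h.ge)
    have : M ≤ Subgroup.centralizer (N : Set G) := by
      rw [Subgroup.commutator_comm] at hcomm
      exact Subgroup.commutator_eq_bot_iff_le_centralizer.mp hcomm
    rw [hCN] at this
    exact hMN this
  have hX : ∀ W : Subgroup G, IsCoatom W → W.normalCore = ⊥ →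
      IsPGroup q (M ⊓ W : Subgroup G) ∧ (∀ m ∈ M, ∃ x ∈ M ⊓ W, ∃ n ∈ N, m = x * n) ∧
      ∀ S : Sylow q G, M ⊓ W ≤ S → (S : Subgroup G) ⊓ M = M ⊓ W := by
    intro W hW hWc
    obtain ⟨f1, f2⟩ := facts W hW hWc
    have hdec : ∀ m ∈ M, ∃ x ∈ M ⊓ W, ∃ n ∈ N, m = x * n := by
      intro m hm
      have hm' : m ∈ W ⊔ N := by rw [f1]; trivial
      obtain ⟨w, hw, n, hn, rfl⟩ := Subgroup.mem_sup_of_normal_right.mp hm'
      refine ⟨w, ⟨?_, hw⟩, n, hn, rfl⟩
      have : w = (w * n) * n⁻¹ := by group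
      rw [this]; exact M.mul_mem hm (M.inv_mem (hNM hn))
    refine ⟨?_, hdec, ?_⟩
    · rintro ⟨x, hxM, hxW⟩
      obtain ⟨k, hk⟩ := hpow x hxM
      refine ⟨k, ?_⟩
      apply Subtype.ext
      have : x ^ (q ^ k) ∈ N ⊓ W := ⟨hk, W.pow_mem hxW _⟩
      rw [f2, Subgroup.mem_bot] at this
      simpa using this
    · intro S hS
      apply le_antisymm
      · rintro s ⟨hsS, hsM⟩
        obtain ⟨x, hx, n, hn, rfl⟩ := hdec s hsM
        have hnS : n ∈ (S : Subgroup G) := by
          have : n = x⁻¹ * (x * n) := by group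
          rw [this]; exact Subgroup.mul_mem _ (Subgroup.inv_mem _ (hS hx)) hsS
        have hdisj := IsPGroup.disjoint_of_ne q p hpq.symm (S : Subgroup G) N S.isPGroup' hNp
        have : n ∈ (S : Subgroup G) ⊓ N := ⟨hnS, hn⟩
        rw [disjoint_iff.mp hdisj, Subgroup.mem_bot] at this
        rw [this, mul_one]; exact hx
      · intro x hx
        exact ⟨hS hx, hx.1⟩
  obtain ⟨hXq, hXdec, hXS⟩ := hX U hU hUc
  obtain ⟨hYq, hYdec, hYS⟩ := hX V hV hVc
  obtain ⟨S, hS⟩ := hXq.exists_le_sylow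
  obtain ⟨T, hT⟩ := hYq.exists_le_sylow
  obtain ⟨g, hg⟩ := MulAction.exists_smul_eq G S T
  have hconj : MulAut.conj g • U ⊓ M = V ⊓ M := by
    have h1 : MulAut.conj g • (S : Subgroup G) = T := by
      rw [← hg, Sylow.coe_subgroup_smul]
    calc MulAut.conj g • U ⊓ M = MulAut.conj g • U ⊓ MulAut.conj g • M := by
          rw [Subgroup.Normal.conj_smul_eq_self g M]
      _ = MulAut.conj g • (U ⊓ M) := (Subgroup.smul_inf _ _ _).symm
      _ = MulAut.conj g • ((S : Subgroup G) ⊓ M) := by rw [hXS S hS, inf_comm]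
      _ = MulAut.conj g • (S : Subgroup G) ⊓ MulAut.conj g • M := Subgroup.smul_inf _ _ _
      _ = (T : Subgroup G) ⊓ M := by rw [h1, Subgroup.Normal.conj_smul_eq_self g M]
      _ = V ⊓ M := by rw [hYS T hT, inf_comm]
  refine ⟨g, ?_⟩
  by_contra hne
  have hYne : V ⊓ M ≠ ⊥ := by
    intro h0
    apply hMN
    intro m hm
    obtain ⟨x, hx, n, hn, rfl⟩ := hYdec m hm
    have : x ∈ V ⊓ M := ⟨hx.2, hx.1⟩
    rw [h0, Subgroup.mem_bot] at this
    rw [this, one_mul]; exact hn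
  have hVn : V ≤ Subgroup.normalizer ((V ⊓ M : Subgroup G) : Set G) := le_normalizer_inf V M
  have hWn : MulAut.conj g • U ≤ Subgroup.normalizer ((V ⊓ M : Subgroup G) : Set G) := by
    rw [← hconj]; exact le_normalizer_inf _ M
  by_cases hWV : MulAut.conj g • U ≤ V
  · have h1 : U ≤ (MulAut.conj g)⁻¹ • V := Subgroup.pointwise_smul_subset_iff.mp hWV
    have h2 : (MulAut.conj g)⁻¹ • V ≠ ⊤ := by
      intro h
      apply hV.1
      have : V = MulAut.conj g • ((MulAut.conj g)⁻¹ • V) := (smul_inv_smul _ _).symm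
      rw [this, h]
      simp
    have h3 : U = (MulAut.conj g)⁻¹ • V := by
      by_contra h
      exact h2 (hU.2 _ (lt_of_le_of_ne h1 h))
    apply hne
    rw [h3, smul_inv_smul]
  · have htop : MulAut.conj g • U ⊔ V = ⊤ :=
      hV.2 _ (lt_of_le_of_ne le_sup_right (fun h => hWV (h ▸ le_sup_left)))
    have hnorm : (V ⊓ M).Normal := by
      rw [← Subgroup.normalizer_eq_top_iff, eq_top_iff, ← htop]; exact sup_le hWn hVn
    have : V ⊓ M ≤ V.normalCore := Subgroup.normal_le_normalCore.mpr inf_le_left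
    rw [hVc] at this
    exact hYne (le_bot_iff.mp this)

end Cfsg.Agent.S0551
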