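import Cfsg.Statements.S0553
import Cfsg.Agent.S0547
import Cfsg.Agent.S0551
import Mathlib

set_option autoImplicit false
open Cfsg

namespace Cfsg.Agent.S0553

/-- If some normal `p`-subgroup has index prime to `p`, all Sylow `p`-subgroups are normal. -/
theorem sylow_normal_of_normal {G : Type*} [Group G] [Finite G] {p : ℕ} [Fact p.Prime]
    (K : Subgroup G) [hKn : K.Normal] (hK : IsPGroup p K) (hind : ¬ p ∣ K.index) :
    ∀ P : Sylow p G, (P : Subgroup G).Normal := by
  intro P
  have hK'n : ((hK.toSylow hind : Sylow p G) : Subgroup G).Normal := hKn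
  have := Sylow.unique_of_normal (hK.toSylow hind) hK'n
  have hP : P = hK.toSylow hind := Subsingleton.elim _ _
  rw [hP]; exact hK'n

theorem sylow_normal_of_sylow_normal {G : Type*} [Group G] [Finite G] {p : ℕ} [Fact p.Prime]
    (Q : Sylow p G) (hQ : (Q : Subgroup G).Normal) :
    ∀ P : Sylow p G, (P : Subgroup G).Normal := by
  intro P
  have := Sylow.unique_of_normal Q hQ
  have hP : P = Q := Subsingleton.elim _ _
  rw [hP]; exact hQ

theorem lemmaA {G : Type*} [Group G] [Finite G] [Group.IsSolvable G] (N : Subgroup G) [hNn : N.Normal]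
    (hN : N ≠ ⊥) (hmin : ∀ K : Subgroup G, K.Normal → K ≤ N → K = ⊥ ∨ K = N) (p d : ℕ)
    [Fact p.Prime] (hd : 0 < d) (hcard : Nat.card N = p ^ d) (M : Subgroup G) (hM : IsCoatom M)
    (hNM : ¬ N ≤ M) (hcop : (Nat.card M).Coprime M.index) :
    ∀ P : Sylow p G, (P : Subgroup G).Normal := by
  have htop : N ⊔ M = ⊤ :=
    hM.2 _ (lt_of_le_of_ne le_sup_right (fun h => hNM (h ▸ le_sup_left)))
  have hinf_n : (M ⊓ N).Normal := by
    rw [← Subgroup.normalizer_eq_top_iff, eq_top_iff, ← htop]
    apply sup_le _ (Cfsg.Agent.S0551.le_normalizer_inf M N)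
    intro n hn
    rw [Subgroup.mem_normalizer_iff]
    intro x
    constructor
    · intro hx
      have : n * x * n⁻¹ = x := by
        rw [Cfsg.Agent.S0547.commute_of_mem N hN hmin hn hx.2, mul_assoc, mul_inv_cancel, mul_one]
      rw [this]; exact hx
    · intro hx
      have hxN : x ∈ N := by
        have : x = n⁻¹ * (n * x * n⁻¹) * n := by group
        rw [this]; exact N.mul_mem (N.mul_mem (N.inv_mem hn) hx.2) hn
      have : n * x * n⁻¹ = x := by
        rw [Cfsg.Agent.S0547.commute_of_mem N hN hmin hn hxN, mul_assoc, mul_inv_cancel, mul_one]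
      rw [← this]; exact hx
  have hinf : N ⊓ M = ⊥ := by
    rcases hmin (M ⊓ N) hinf_n inf_le_right with h | h
    · rw [inf_comm]; exact h
    · exact absurd (h ▸ inf_le_left : N ≤ M) hNM
  have hcompl : Subgroup.IsComplement' N M := by
    apply Subgroup.isComplement'_of_disjoint_and_mul_eq_univ (disjoint_iff.mpr hinf)
    rw [← Subgroup.normal_mul, htop]; rfl
  have hindM : M.index = p ^ d := by rw [hcompl.index_eq_card, hcard]
  have hindN : N.index = Nat.card M := hcompl.symm.index_eq_card
  apply sylow_normal_of_normal N (IsPGroup.of_card hcard)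
  rw [hindN]
  intro hdvd
  rw [hindM] at hcop
  have h1 : p ∣ Nat.gcd (Nat.card M) (p ^ d) := Nat.dvd_gcd hdvd (dvd_pow_self p hd.ne')
  rw [hcop] at h1
  exact (Fact.out : p.Prime).one_lt.ne' (Nat.dvd_one.mp h1)

theorem isCoatom_comap {G : Type*} [Group G] (N : Subgroup G) [N.Normal] (Mb : Subgroup (G ⧸ N))
    (hMb : IsCoatom Mb) : IsCoatom (Mb.comap (QuotientGroup.mk' N)) := by
  have hsurj := QuotientGroup.mk'_surjective N
  constructor
  · intro h
    apply hMb.1
    rw [← Subgroup.map_comap_eq_self_of_surjective hsurj Mb, h,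
      Subgroup.map_top_of_surjective _ hsurj]
  · intro K hK
    have hNK : N ≤ K := by
      refine le_trans ?_ hK.le
      intro n hn
      rw [Subgroup.mem_comap]
      have : (QuotientGroup.mk' N) n = 1 := (QuotientGroup.eq_one_iff n).mpr hn
      rw [this]; exact Mb.one_mem
    have hKc : (K.map (QuotientGroup.mk' N)).comap (QuotientGroup.mk' N) = K := by
      rw [Subgroup.comap_map_eq, QuotientGroup.ker_mk', sup_eq_left.mpr hNK]
    have h1 : Mb ≤ K.map (QuotientGroup.mk' N) := by
      rw [← Subgroup.map_comap_eq_self_of_surjective hsurj Mb]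
      exact Subgroup.map_mono hK.le
    have h2 : Mb ≠ K.map (QuotientGroup.mk' N) := by
      intro h
      rw [h, hKc] at hK
      exact lt_irrefl _ hK
    have h3 := hMb.2 _ (lt_of_le_of_ne h1 h2)
    rw [← hKc, h3]
    rfl

theorem aux.{u} (n : ℕ) : ∀ (G : Type u) [Group G] [Finite G] [Group.IsSolvable G] [Nontrivial G],
    Nat.card G = n → (∀ M : Subgroup G, IsCoatom M → (Nat.card M).Coprime M.index) →
    ∃ p : ℕ, p.Prime ∧ p ∣ Nat.card G ∧ ∀ P : Sylow p G, (P : Subgroup G).Normal := by
  induction n using Nat.strong_induction_on with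
  | _ n ih =>
    intro G _ _ _ _ hn h
    obtain ⟨N, hNn, hN, hNmin⟩ := Cfsg.Agent.S0551.exists_minimal_normal (G := G)
    have := hNn
    obtain ⟨p, d, hp, hd, hNcard⟩ := Cfsg.Agent.S0547.card_prime_pow N hN hNmin
    have : Fact p.Prime := ⟨hp⟩
    have hpdvd : p ∣ Nat.card G := by
      have h1 : Nat.card N ∣ Nat.card G := Subgroup.card_subgroup_dvd_card N
      rw [hNcard] at h1
      exact (dvd_pow_self p hd.ne').trans h1
    by_cases hA : ∃ M : Subgroup G, IsCoatom M ∧ ¬ N ≤ M
    · obtain ⟨M, hM, hNM⟩ := hA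
      exact ⟨p, hp, hpdvd, lemmaA N hN hNmin p d hd hNcard M hM hNM (h M hM)⟩
    · push Not at hA
      have hNtop : N ≠ ⊤ := by
        intro htop
        rcases eq_top_or_exists_le_coatom (⊥ : Subgroup G) with h0 | ⟨M, hM, -⟩
        · exact bot_ne_top h0
        · have := hA M hM
          rw [htop] at this
          exact hM.1 (top_le_iff.mp this)
      have : Nontrivial (G ⧸ N) := QuotientGroup.nontrivial_iff.mpr hNtop
      have hlt : Nat.card (G ⧸ N) < n := by
        rw [← hn, Subgroup.card_eq_card_quotient_mul_card_subgroup N]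
        have h1 : 1 < Nat.card N := (Subgroup.one_lt_card_iff_ne_bot N).mpr hN
        have h2 : 0 < Nat.card (G ⧸ N) := Nat.card_pos
        nlinarith
      have hquot : ∀ Mb : Subgroup (G ⧸ N), IsCoatom Mb → (Nat.card Mb).Coprime Mb.index := by
        intro Mb hMb
        have h1 := h _ (isCoatom_comap N Mb hMb)
        rw [Subgroup.index_comap_of_surjective _ (QuotientGroup.mk'_surjective N)] at h1
        have h2 : Nat.card Mb ∣ Nat.card (Mb.comap (QuotientGroup.mk' N)) := by
          have := Subgroup.card_map_dvd (H := Mb.comap (QuotientGroup.mk' N)) (QuotientGroup.mk' N)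
          rwa [Subgroup.map_comap_eq_self_of_surjective (QuotientGroup.mk'_surjective N)] at this
        exact Nat.Coprime.coprime_dvd_left h2 h1
      obtain ⟨q, hq, hqdvd, hQ⟩ := ih _ hlt (G ⧸ N) rfl hquot
      have : Fact q.Prime := ⟨hq⟩
      have hqdvd' : q ∣ Nat.card G := by
        rw [← Subgroup.index_eq_card] at hqdvd
        exact hqdvd.trans (Subgroup.index_dvd_card N)
      obtain ⟨Q₀⟩ : Nonempty (Sylow q G) := inferInstance
      have hsurj := QuotientGroup.mk'_surjective N
      have hQb : ((Q₀ : Subgroup G).map (QuotientGroup.mk' N)).Normal := hQ (Q₀.mapSurjective hsurj)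
      have hKn : ((Q₀ : Subgroup G) ⊔ N).Normal := by
        have h1 : (((Q₀ : Subgroup G).map (QuotientGroup.mk' N)).comap (QuotientGroup.mk' N)).Normal :=
          inferInstance
        rwa [Subgroup.comap_map_eq, QuotientGroup.ker_mk'] at h1
      have hfr := Sylow.normalizer_sup_eq_top' (N := (Q₀ : Subgroup G) ⊔ N) Q₀ le_sup_left
      have hle0 : (Q₀ : Subgroup G) ≤ Subgroup.normalizer ((Q₀ : Subgroup G) : Set G) :=
        Subgroup.le_normalizer
      have hfr' : Subgroup.normalizer ((Q₀ : Subgroup G) : Set G) ⊔ N = ⊤ := by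
        have h2 : Subgroup.normalizer ((Q₀ : Subgroup G) : Set G) ⊔ ((Q₀ : Subgroup G) ⊔ N) = ⊤ :=
          hfr
        rw [← sup_assoc, sup_eq_left.mpr hle0] at h2
        exact h2
      by_cases hH : Subgroup.normalizer ((Q₀ : Subgroup G) : Set G) = ⊤
      · exact ⟨q, hq, hqdvd', sylow_normal_of_sylow_normal Q₀ (Subgroup.normalizer_eq_top_iff.mp hH)⟩
      · exfalso
        rcases eq_top_or_exists_le_coatom (Subgroup.normalizer ((Q₀ : Subgroup G) : Set G)) with h0 | ⟨M, hM, hle⟩
        · exact hH h0
        · have hNM := hA M hM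
          have : (⊤ : Subgroup G) ≤ M := by rw [← hfr']; exact sup_le hle hNM
          exact hM.1 (top_le_iff.mp this)

/-- Let G be a nontrivial finite solvable group in which every maximal subgroup has order coprime to its index. Then for some prime p dividing the order of G the Sylow p-subgroups of G are normal. -/
theorem result {G : Type*} [Group G] [Finite G] [Group.IsSolvable G] [Nontrivial G] (h : ∀ M : Subgroup G, IsCoatom M → (Nat.card M).Coprime M.index) : ∃ p : ℕ, p.Prime ∧ p ∣ Nat.card G ∧ ∀ P : Sylow p G, (P : Subgroup G).Normal := by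
  exact aux (Nat.card G) G rfl h

end Cfsg.Agent.S0553
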