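import Cfsg.Statements.S0554
import Cfsg.Agent.S0547
import Cfsg.Agent.S0551
import Mathlib

set_option autoImplicit false
open Cfsg

namespace Cfsg.Agent.S0554

/-- An element of a normal subgroup on the right of an ordered product can be absorbed into
the `j`-th factor. -/
theorem absorb {G : Type*} [Group G] (N : Subgroup G) [hN : N.Normal] :
    ∀ (t : ℕ) (s : Fin t → G) (j : Fin t) (n : G), n ∈ N →
      ∃ s' : Fin t → G, (∀ i, i ≠ j → s' i = s i) ∧ (∃ n' ∈ N, s' j = s j * n') ∧
        (List.ofFn s).prod * n = (List.ofFn s').prod := by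
  intro t
  induction t with
  | zero => intro s j; exact j.elim0
  | succ t ih =>
    intro s j n hn
    induction j using Fin.cases with
    | zero =>
      refine ⟨Fin.cons (s 0 * ((List.ofFn (fun i : Fin t => s i.succ)).prod * n *
        ((List.ofFn (fun i : Fin t => s i.succ)).prod)⁻¹)) (fun i : Fin t => s i.succ), ?_, ?_, ?_⟩
      · intro i hi
        induction i using Fin.cases with
        | zero => exact absurd rfl hi
        | succ i => simp
      · exact ⟨(List.ofFn (fun i : Fin t => s i.succ)).prod * n *
          ((List.ofFn (fun i : Fin t => s i.succ)).prod)⁻¹, hN.conj_mem n hn _, by simp⟩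
      · rw [List.ofFn_succ, List.ofFn_succ, List.prod_cons, List.prod_cons]
        simp only [Fin.cons_zero, Fin.cons_succ]
        group
    | succ j =>
      obtain ⟨s', h1, h2, h3⟩ := ih (fun i : Fin t => s i.succ) j n hn
      refine ⟨Fin.cons (s 0) s', ?_, ?_, ?_⟩
      · intro i hi
        induction i using Fin.cases with
        | zero => simp
        | succ i =>
          simp only [Fin.cons_succ]
          exact h1 i (fun h => hi (by rw [h]))
      · simpa using h2
      · rw [List.ofFn_succ, List.ofFn_succ, List.prod_cons, List.prod_cons]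
        simp only [Fin.cons_zero, Fin.cons_succ]
        rw [mul_assoc, h3]

theorem aux.{u} (n : ℕ) : ∀ (G : Type u) [Group G] [Finite G] [Group.IsSolvable G],
    Nat.card G = n → ∀ (t : ℕ) (p : Fin t → ℕ) (_hp : ∀ i, (p i).Prime)
    (_hall : ∀ q : ℕ, q.Prime → q ∣ Nat.card G → ∃ i, p i = q) (S : (i : Fin t) → Sylow (p i) G),
    ∀ g : G, ∃ s : (i : Fin t) → G, (∀ i, s i ∈ (S i : Subgroup G)) ∧ g = (List.ofFn s).prod := by
  induction n using Nat.strong_induction_on with
  | _ n ih =>
    intro G _ _ _ hn t p hp hall S g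
    have hfact : ∀ i, Fact (p i).Prime := fun i => ⟨hp i⟩
    rcases subsingleton_or_nontrivial G with hsub | hnt
    · exact ⟨fun _ => 1, fun i => Subgroup.one_mem _, Subsingleton.elim _ _⟩
    obtain ⟨N, hNn, hN, hNmin⟩ := Cfsg.Agent.S0551.exists_minimal_normal (G := G)
    have := hNn
    obtain ⟨q, d, hq, hd, hNcard⟩ := Cfsg.Agent.S0547.card_prime_pow N hN hNmin
    have hqdvd : q ∣ Nat.card G := by
      have h1 : Nat.card N ∣ Nat.card G := Subgroup.card_subgroup_dvd_card N
      rw [hNcard] at h1
      exact (dvd_pow_self q hd.ne').trans h1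
    obtain ⟨j, hj⟩ := hall q hq hqdvd
    have hNp : IsPGroup (p j) N := by
      rw [hj]; exact IsPGroup.of_card hNcard
    have hNS : N ≤ (S j : Subgroup G) := hNp.le_sylow_of_normal (S j)
    have hsurj := QuotientGroup.mk'_surjective N
    have hlt : Nat.card (G ⧸ N) < n := by
      rw [← hn, Subgroup.card_eq_card_quotient_mul_card_subgroup N]
      have h1 : 1 < Nat.card N := (Subgroup.one_lt_card_iff_ne_bot N).mpr hN
      have h2 : 0 < Nat.card (G ⧸ N) := Nat.card_pos
      nlinarith
    have hall' : ∀ q' : ℕ, q'.Prime → q' ∣ Nat.card (G ⧸ N) → ∃ i, p i = q' := by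
      intro q' hq' hdvd
      apply hall q' hq'
      rw [← Subgroup.index_eq_card] at hdvd
      exact hdvd.trans (Subgroup.index_dvd_card N)
    obtain ⟨sb, hsb, hgb⟩ := ih _ hlt (G ⧸ N) rfl t p hp hall'
      (fun i => (S i).mapSurjective hsurj) (QuotientGroup.mk' N g)
    have hlift : ∀ i, ∃ x ∈ (S i : Subgroup G), QuotientGroup.mk' N x = sb i := by
      intro i
      have := hsb i
      rw [Sylow.coe_mapSurjective, Subgroup.mem_map] at this
      exact this
    choose s hs hsm using hlift
    have hprod : QuotientGroup.mk' N ((List.ofFn s).prod) = (List.ofFn sb).prod := by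
      rw [map_list_prod, List.map_ofFn]
      congr 1
      congr 1
      funext i
      exact hsm i
    have hn' : ((List.ofFn s).prod)⁻¹ * g ∈ N := by
      rw [← QuotientGroup.eq]
      have h1 : QuotientGroup.mk' N ((List.ofFn s).prod) = QuotientGroup.mk' N g := by
        rw [hprod, hgb]
      exact h1
    obtain ⟨s', h1, ⟨n', hn'N, h2⟩, h3⟩ := absorb N t s j _ hn'
    refine ⟨s', ?_, ?_⟩
    · intro i
      by_cases hi : i = j
      · subst hi
        rw [h2]
        exact Subgroup.mul_mem _ (hs i) (hNS hn'N)
      · rw [h1 i hi]; exact hs i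
    · rw [← h3]; group

/-- Let G be a finite solvable group and let S assign to each of t distinct primes, including every prime divisor of the order of G, a Sylow subgroup of G. Then every element of G is a product s_0 s_1 ⋯ s_(t-1) with s_i in S i, the factors taken in the given order. -/
theorem result {G : Type*} [Group G] [Finite G] [Group.IsSolvable G] (t : ℕ) (p : Fin t → ℕ) (hp : ∀ i, (p i).Prime) (hinj : Function.Injective p) (hall : ∀ q : ℕ, q.Prime → q ∣ Nat.card G → ∃ i, p i = q) (S : (i : Fin t) → Sylow (p i) G) : ∀ g : G, ∃ s : (i : Fin t) → G, (∀ i, s i ∈ (S i : Subgroup G)) ∧ g = (List.ofFn s).prod := by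
  exact aux (Nat.card G) G rfl t p hp hall S

end Cfsg.Agent.S0554
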