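import Mathlib
import Cfsg.Statements.S0555

set_option autoImplicit false
open Cfsg

namespace Cfsg.Agent.S0555

open scoped commutatorElement

theorem cyclic_quot {G : Type*} [Group G] (B C : Subgroup G) [(C.subgroupOf B).Normal]
    (h : IsCyclic (↥B ⧸ C.subgroupOf B)) :
    ∃ b ∈ B, ∀ y ∈ B, ∃ k : ℤ, (b ^ k)⁻¹ * y ∈ C := by
  obtain ⟨q, hq⟩ := h.exists_zpow_surjective
  obtain ⟨b, rfl⟩ := QuotientGroup.mk_surjective q
  refine ⟨b, b.2, ?_⟩
  intro y hy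
  obtain ⟨k, hk⟩ := hq (QuotientGroup.mk ⟨y, hy⟩)
  refine ⟨k, ?_⟩
  simp only at hk
  rw [← QuotientGroup.mk_zpow, QuotientGroup.eq, Subgroup.mem_subgroupOf] at hk
  simpa using hk

theorem result {G : Type*} [Group G] (i : ℕ) (hi : 1 ≤ i) (h₁ : IsCyclic (↥(derivedSeries G i) ⧸ (derivedSeries G (i + 1)).subgroupOf (derivedSeries G i))) (h₂ : IsCyclic (↥(derivedSeries G (i + 1)) ⧸ (derivedSeries G (i + 2)).subgroupOf (derivedSeries G (i + 1)))) : derivedSeries G (i + 1) = derivedSeries G (i + 2) := by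
  apply le_antisymm _ (derivedSeries_antitone G (by omega))
  obtain ⟨c, hcC, hC⟩ := cyclic_quot _ _ h₂
  obtain ⟨b0, hb0, hB⟩ := cyclic_quot _ _ h₁
  have hEn : (derivedSeries G (i + 2)).Normal := derivedSeries_normal G (i + 2)
  have hCn : (derivedSeries G (i + 1)).Normal := derivedSeries_normal G (i + 1)
  have hCB : derivedSeries G (i + 1) ≤ derivedSeries G i := derivedSeries_antitone G (by omega)
  have hBcomm : derivedSeries G i ≤ commutator G := by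
    rw [← derivedSeries_one]; exact derivedSeries_antitone G hi
  set π := QuotientGroup.mk' (derivedSeries G (i + 2)) with hπ
  have hgen : ∀ x ∈ derivedSeries G (i + 1), ∃ k : ℤ, π x = (π c) ^ k := by
    intro x hx
    obtain ⟨k, hk⟩ := hC x hx
    refine ⟨k, ?_⟩
    rw [← map_zpow, eq_comm]
    exact QuotientGroup.eq.mpr hk
  have hconj : ∀ g : G, ∃ m : ℤ, π g * π c * (π g)⁻¹ = (π c) ^ m := by
    intro g
    obtain ⟨m, hm⟩ := hgen (g * c * g⁻¹) (hCn.conj_mem c hcC g)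
    exact ⟨m, by rw [← hm, map_mul, map_mul, map_inv]⟩
  have hact : ∀ g1 g2 : G, (π g1 * π g2) * π c * (π g1 * π g2)⁻¹ = (π g2 * π g1) * π c * (π g2 * π g1)⁻¹ := by
    intro g1 g2
    obtain ⟨m1, hm1⟩ := hconj g1
    obtain ⟨m2, hm2⟩ := hconj g2
    have e1 : (π g1 * π g2) * π c * (π g1 * π g2)⁻¹ = π g1 * (π g2 * π c * (π g2)⁻¹) * (π g1)⁻¹ := by group
    have e2 : (π g2 * π g1) * π c * (π g2 * π g1)⁻¹ = π g2 * (π g1 * π c * (π g1)⁻¹) * (π g2)⁻¹ := by group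
    rw [e1, e2, hm1, hm2, ← conj_zpow, ← conj_zpow, hm1, hm2, ← zpow_mul, ← zpow_mul, mul_comm]
  have hcomm : ∀ g1 g2 : G, ⁅π g1, π g2⁆ * π c = π c * ⁅π g1, π g2⁆ := by
    intro g1 g2
    have h := hact g1⁻¹ g2⁻¹
    simp only [map_inv] at h
    have e : ⁅π g1, π g2⁆ = ((π g2)⁻¹ * (π g1)⁻¹)⁻¹ * ((π g1)⁻¹ * (π g2)⁻¹) := by
      simp only [commutatorElement_def]; group
    rw [e]
    calc ((π g2)⁻¹ * (π g1)⁻¹)⁻¹ * ((π g1)⁻¹ * (π g2)⁻¹) * π c
        = ((π g2)⁻¹ * (π g1)⁻¹)⁻¹ * (((π g1)⁻¹ * (π g2)⁻¹) * π c * ((π g1)⁻¹ * (π g2)⁻¹)⁻¹) * ((π g1)⁻¹ * (π g2)⁻¹) := by group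
      _ = ((π g2)⁻¹ * (π g1)⁻¹)⁻¹ * (((π g2)⁻¹ * (π g1)⁻¹) * π c * ((π g2)⁻¹ * (π g1)⁻¹)⁻¹) * ((π g1)⁻¹ * (π g2)⁻¹) := by rw [h]
      _ = π c * (((π g2)⁻¹ * (π g1)⁻¹)⁻¹ * ((π g1)⁻¹ * (π g2)⁻¹)) := by group
  have hK : commutator G ≤ (Subgroup.centralizer ({π c} : Set (G ⧸ derivedSeries G (i + 2)))).comap π := by
    rw [commutator_def, Subgroup.commutator_le]
    intro g1 _ g2 _
    rw [Subgroup.mem_comap, map_commutatorElement, Subgroup.mem_centralizer_iff]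
    intro x hx
    rw [Set.mem_singleton_iff] at hx
    rw [hx]
    exact (hcomm g1 g2).symm
  have hBC : ∀ b ∈ derivedSeries G i, ∀ x ∈ derivedSeries G (i + 1), Commute (π b) (π x) := by
    intro b hb x hx
    have h1 := hK (hBcomm hb)
    rw [Subgroup.mem_comap, Subgroup.mem_centralizer_iff] at h1
    have h2 : Commute (π b) (π c) := (h1 (π c) rfl).symm
    obtain ⟨k, hk⟩ := hgen x hx
    rw [hk]
    exact h2.zpow_right k
  rw [derivedSeries_succ, Subgroup.commutator_le]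
  intro y1 hy1 y2 hy2
  obtain ⟨k, hk⟩ := hB y1 hy1
  obtain ⟨l, hl⟩ := hB y2 hy2
  have hz1B : (b0 ^ k)⁻¹ * y1 ∈ derivedSeries G i := hCB hk
  have e1 : π y1 = (π b0) ^ k * π ((b0 ^ k)⁻¹ * y1) := by
    rw [← map_zpow, ← map_mul]; congr 1; group
  have e2 : π y2 = (π b0) ^ l * π ((b0 ^ l)⁻¹ * y2) := by
    rw [← map_zpow, ← map_mul]; congr 1; group
  have hc : Commute (π y1) (π y2) := by
    rw [e1, e2]
    apply Commute.mul_left
    · apply Commute.mul_right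
      · exact (Commute.refl (π b0)).zpow_zpow k l
      · exact (hBC b0 hb0 _ hl).zpow_left k
    · apply Commute.mul_right
      · exact ((hBC b0 hb0 _ hk).zpow_left l).symm
      · exact hBC _ hz1B _ hl
  rw [← QuotientGroup.eq_one_iff, ← QuotientGroup.mk'_apply, ← hπ, map_commutatorElement]
  exact commutatorElement_eq_one_iff_commute.mpr hc

end Cfsg.Agent.S0555
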