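import Mathlib
import Cfsg.Statements.S0588

set_option autoImplicit false
open Cfsg

namespace Cfsg.Agent.S0588

theorem result {G : Type*} [Group G] [Finite G] (H : Subgroup G) (h : ∀ x ∈ H, x ≠ 1 → Subgroup.centralizer ({x} : Set G) ≤ H) : (Nat.card H).Coprime H.index := by
  apply Nat.Coprime.symm
  rw [Nat.coprime_comm]
  apply Nat.coprime_of_dvd
  intro p hp hpH hpi
  haveI : Fact p.Prime := ⟨hp⟩
  obtain ⟨x, hx⟩ := exists_prime_orderOf_dvd_card' p hpH
  have hx1 : (x : G) ≠ 1 := by
    intro h1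
    have : x = 1 := Subtype.ext h1
    rw [this, orderOf_one] at hx
    exact hp.one_lt.ne hx
  have hxG : orderOf (x : G) = p := by rw [Subgroup.orderOf_coe]; exact hx
  have hzp : IsPGroup p (Subgroup.zpowers (x : G)) := by
    apply IsPGroup.of_card (n := 1)
    rw [Nat.card_zpowers, hxG, pow_one]
  obtain ⟨S, hS⟩ := hzp.exists_le_sylow
  have hxS : (x : G) ∈ (S : Subgroup G) := hS (Subgroup.mem_zpowers _)
  haveI : Nontrivial (S : Subgroup G) := ⟨⟨⟨x, hxS⟩, 1, fun h' => hx1 (congrArg Subtype.val h')⟩⟩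
  haveI := S.2.center_nontrivial
  obtain ⟨z, hz⟩ := exists_ne (1 : Subgroup.center (S : Subgroup G))
  have hz1 : ((z : (S : Subgroup G)) : G) ≠ 1 := by
    intro h1
    apply hz
    apply Subtype.ext
    apply Subtype.ext
    exact h1
  have hzc : ∀ s : (S : Subgroup G), (s : G) * ((z : (S : Subgroup G)) : G) = ((z : (S : Subgroup G)) : G) * (s : G) := by
    intro s
    have := (Subgroup.mem_center_iff.mp z.2) s
    exact congrArg Subtype.val this
  have hzH : ((z : (S : Subgroup G)) : G) ∈ H := by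
    apply h x x.2 hx1
    rw [Subgroup.mem_centralizer_iff]
    intro y hy
    rw [Set.mem_singleton_iff] at hy
    subst hy
    exact (hzc ⟨x, hxS⟩)
  have hSH : (S : Subgroup G) ≤ H := by
    intro s hs
    apply h _ hzH hz1
    rw [Subgroup.mem_centralizer_iff]
    intro y hy
    rw [Set.mem_singleton_iff] at hy
    subst hy
    exact (hzc ⟨s, hs⟩).symm
  have := Subgroup.index_dvd_of_le hSH
  exact S.not_dvd_index (dvd_trans hpi this)

end Cfsg.Agent.S0588
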