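import Cfsg.Statements.S0556
import Cfsg.Agent.S0035
import Cfsg.Agent.S0581
import Cfsg.Agent.S0588
import Cfsg.Agent.S0601
import Mathlib

set_option autoImplicit false
open Cfsg

namespace Cfsg.Agent.S0556

open scoped Pointwise

/-- If the abelian maximal subgroup is normal, the group is metabelian. -/
theorem normal_case {G : Type*} [Group G] (A : Subgroup G) (hA : IsCoatom A)
    [IsMulCommutative A] [hAn : A.Normal] : derivedSeries G 2 = ⊥ := by
  have key : ∀ x y : G, x * y * x⁻¹ * y⁻¹ ∈ A := by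
    intro x y
    by_cases hx : x ∈ A
    · have e : x * y * x⁻¹ * y⁻¹ = x * (y * x⁻¹ * y⁻¹) := by group
      rw [e]; exact A.mul_mem hx (hAn.conj_mem _ (A.inv_mem hx) y)
    · have htop : A ⊔ Subgroup.zpowers x = ⊤ := by
        apply hA.2
        refine lt_of_le_of_ne le_sup_left ?_
        intro h
        apply hx
        rw [h]
        exact (le_sup_right : Subgroup.zpowers x ≤ A ⊔ Subgroup.zpowers x)
          (Subgroup.mem_zpowers x)
      have hy : y ∈ A ⊔ Subgroup.zpowers x := htop ▸ Subgroup.mem_top y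
      rw [← SetLike.mem_coe, Subgroup.normal_mul] at hy
      obtain ⟨a, ha, z, hz, rfl⟩ := hy
      obtain ⟨k, rfl⟩ := Subgroup.mem_zpowers_iff.mp hz
      have e : x * (a * x ^ k) * x⁻¹ * (a * x ^ k)⁻¹ = (x * a * x⁻¹) * a⁻¹ := by group
      rw [e]; exact A.mul_mem (hAn.conj_mem a ha x) (A.inv_mem ha)
  have h1 : derivedSeries G 1 ≤ A := by
    rw [derivedSeries_one, commutator_def, Subgroup.commutator_le]
    intro x _ y _
    exact key x y
  rw [derivedSeries_succ, eq_bot_iff, Subgroup.commutator_le]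
  intro x hx y hy
  have : x * y = y * x := setLike_mul_comm (h1 hx) (h1 hy)
  rw [Subgroup.mem_bot, commutatorElement_eq_one_iff_mul_comm]; exact this

/-- If `a ∈ N` has trivial centralizer in the normal subgroup `K` and `G = N K`, then the
centralizer of `a` lies in `N`. -/
theorem cent_le {G : Type*} [Group G] [Finite G] (K N : Subgroup G) [hKn : K.Normal]
    (hNK : ∀ b : G, ∃ n ∈ N, ∃ k ∈ K, b = n * k) (a : G) (haN : a ∈ N)
    (hcent : ∀ k ∈ K, k * a = a * k → k = 1) (b : G) (hb : b * a = a * b) : b ∈ N := by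
  obtain ⟨n, hn, k, hk, rfl⟩ := hNK b
  have hinj : ∀ x ∈ K, ∀ y ∈ K, x * a * x⁻¹ * a⁻¹ = y * a * y⁻¹ * a⁻¹ → x = y := by
    intro x hx y hy e
    have e1 : (y⁻¹ * x) * a = a * (y⁻¹ * x) := by
      have e2 : x * a * x⁻¹ = y * a * y⁻¹ := by
        have := congrArg (· * a) e
        simpa using this
      calc (y⁻¹ * x) * a = y⁻¹ * (x * a * x⁻¹) * x := by group
        _ = y⁻¹ * (y * a * y⁻¹) * x := by rw [e2]
        _ = a * (y⁻¹ * x) := by group
    have := hcent _ (K.mul_mem (K.inv_mem hy) hx) e1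
    calc x = y * (y⁻¹ * x) := by group
      _ = y := by rw [this, mul_one]
  -- `k a k⁻¹ a⁻¹ ∈ N ⊓ K`
  have hkN : k * a * k⁻¹ * a⁻¹ ∈ N ⊓ K := by
    refine Subgroup.mem_inf.mpr ⟨?_, ?_⟩
    · have e : k * a * k⁻¹ * a⁻¹ = n⁻¹ * a * n * a⁻¹ := by
        have e3 : k * a * k⁻¹ = n⁻¹ * a * n := by
          calc k * a * k⁻¹ = n⁻¹ * ((n * k) * a) * k⁻¹ := by group
            _ = n⁻¹ * (a * (n * k)) * k⁻¹ := by rw [hb]
            _ = n⁻¹ * a * n := by group
        rw [e3]
      rw [e]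
      exact N.mul_mem (N.mul_mem (N.mul_mem (N.inv_mem hn) haN) hn) (N.inv_mem haN)
    · have e : k * a * k⁻¹ * a⁻¹ = k * (a * k⁻¹ * a⁻¹) := by group
      rw [e]; exact K.mul_mem hk (hKn.conj_mem _ (K.inv_mem hk) a)
  -- the map `x ↦ x a x⁻¹ a⁻¹` on `N ⊓ K`
  let φ : (N ⊓ K : Subgroup G) → (N ⊓ K : Subgroup G) := fun x =>
    ⟨(x : G) * a * (x : G)⁻¹ * a⁻¹, Subgroup.mem_inf.mpr
      ⟨N.mul_mem (N.mul_mem (N.mul_mem x.2.1 haN) (N.inv_mem x.2.1)) (N.inv_mem haN), by
        have e : (x : G) * a * (x : G)⁻¹ * a⁻¹ = (x : G) * (a * (x : G)⁻¹ * a⁻¹) := by group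
        rw [e]; exact K.mul_mem x.2.2 (hKn.conj_mem _ (K.inv_mem x.2.2) a)⟩⟩
  have hφ : Function.Injective φ := by
    intro x y e
    have e' : (x : G) * a * (x : G)⁻¹ * a⁻¹ = (y : G) * a * (y : G)⁻¹ * a⁻¹ :=
      congrArg Subtype.val e
    exact Subtype.ext (hinj _ x.2.2 _ y.2.2 e')
  obtain ⟨m, hm⟩ := (Finite.injective_iff_surjective.mp hφ) ⟨_, hkN⟩
  have hm' : (m : G) * a * (m : G)⁻¹ * a⁻¹ = k * a * k⁻¹ * a⁻¹ := congrArg Subtype.val hm
  have hmk : (m : G) = k := hinj _ m.2.2 _ hk hm'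
  exact N.mul_mem hn (hmk ▸ m.2.1)

/-- The kernel of a Frobenius-type group with abelian maximal complement is abelian. -/
theorem kernel_abelian {G : Type*} [Group G] [Finite G] (A K : Subgroup G) (hA : IsCoatom A)
    [IsMulCommutative A] (hA1 : A ≠ ⊥)
    (hTI : ∀ g : G, g ∉ A → A ⊓ (MulAut.conj g • A) = ⊥) [hKn : K.Normal]
    (hKA : Subgroup.IsComplement' K A) : ∀ x ∈ K, ∀ y ∈ K, x * y = y * x := by
  have hdisj : K ⊓ A = ⊥ := hKA.disjoint.eq_bot
  have hsup : K ⊔ A = ⊤ := hKA.sup_eq_top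
  -- centralizers of nonidentity elements of `A` lie in `A`
  have hcentA : ∀ a ∈ A, a ≠ 1 → ∀ g : G, g * a = a * g → g ∈ A := by
    intro a ha ha1 g hg
    by_contra hgA
    have h1 : a ∈ A ⊓ (MulAut.conj g • A) := by
      refine Subgroup.mem_inf.mpr ⟨ha, ?_⟩
      rw [Subgroup.mem_pointwise_smul_iff_inv_smul_mem, MulAut.smul_def, MulAut.conj_inv_apply]
      have e : g⁻¹ * a * g = a := by rw [mul_assoc, ← hg]; group
      rw [e]; exact ha
    rw [hTI g hgA, Subgroup.mem_bot] at h1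
    exact ha1 h1
  have hcent : ∀ a ∈ A, a ≠ 1 → ∀ k ∈ K, k * a = a * k → k = 1 := by
    intro a ha ha1 k hk hka
    have h1 : k ∈ K ⊓ A := Subgroup.mem_inf.mpr ⟨hk, hcentA a ha ha1 k hka⟩
    rw [hdisj, Subgroup.mem_bot] at h1
    exact h1
  -- `A`-invariant subgroups of `K`
  have hinv : ∀ M : Subgroup G, M ≤ K → M ≠ ⊥ → A ≤ Subgroup.normalizer (M : Set G) → M = K := by
    intro M hMK hM1 hAM
    obtain ⟨⟨m, hm⟩, hm0⟩ := (Subgroup.ne_bot_iff_exists_ne_one).mp hM1
    have hm1 : m ≠ 1 := fun h => hm0 (Subtype.ext h)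
    have hmA : m ∉ A := by
      intro h
      have : m ∈ K ⊓ A := Subgroup.mem_inf.mpr ⟨hMK hm, h⟩
      rw [hdisj, Subgroup.mem_bot] at this
      exact hm1 this
    have hNtop : Subgroup.normalizer (M : Set G) = ⊤ := by
      apply hA.2
      refine lt_of_le_of_ne hAM ?_
      intro h
      apply hmA
      rw [h]
      exact Subgroup.le_normalizer hm
    have hMn : M.Normal := Subgroup.normalizer_eq_top_iff.mp hNtop
    have hMA : M ⊔ A = ⊤ := by
      apply hA.2
      refine lt_of_le_of_ne le_sup_right ?_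
      intro h
      apply hmA
      rw [h]
      exact (le_sup_left : M ≤ M ⊔ A) hm
    apply le_antisymm hMK
    intro k hk
    have hk' : k ∈ M ⊔ A := hMA ▸ Subgroup.mem_top k
    rw [← SetLike.mem_coe, Subgroup.normal_mul] at hk'
    obtain ⟨m', hm', a, ha, e⟩ := hk'
    have e' : m' * a = k := e
    have haK : a ∈ K ⊓ A := by
      refine Subgroup.mem_inf.mpr ⟨?_, ha⟩
      have : a = m'⁻¹ * k := by rw [← e']; group
      rw [this]; exact K.mul_mem (K.inv_mem (hMK hm')) hk
    rw [hdisj, Subgroup.mem_bot] at haK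
    rw [← e', haK, mul_one]; exact hm'
  -- an element of prime order in `A`
  have hcardA : Nat.card A ≠ 1 := fun h => hA1 (Subgroup.card_eq_one.mp h)
  obtain ⟨p, hp, hpA⟩ := Nat.exists_prime_and_dvd hcardA
  have : Fact p.Prime := ⟨hp⟩
  obtain ⟨a', ha'⟩ := exists_prime_orderOf_dvd_card' (G := A) p hpA
  obtain ⟨a, haA, hao⟩ : ∃ a ∈ A, orderOf a = p :=
    ⟨(a' : G), a'.2, by rw [Subgroup.orderOf_coe]; exact ha'⟩
  have ha1 : a ≠ 1 := by
    rintro rfl
    rw [orderOf_one] at hao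
    exact hp.ne_one hao.symm
  -- `p ∤ |K|`
  have hHall : (Nat.card A).Coprime A.index := Cfsg.Agent.S0588.result A (by
    intro x hx hx1 g hg
    rw [Subgroup.mem_centralizer_iff] at hg
    exact hcentA x hx hx1 g (hg x rfl).symm)
  have hKcard : Nat.card K = A.index := by
    have h1 := hKA.card_mul_card
    have h2 := Subgroup.card_mul_index A
    rw [← h2, mul_comm] at h1
    exact Nat.eq_of_mul_eq_mul_left Nat.card_pos h1
  have hpK : ¬ p ∣ Nat.card K := by
    intro h
    rw [hKcard] at h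
    exact hp.one_lt.ne' (Nat.eq_one_of_dvd_coprimes hHall hpA h)
  have hK1 : K ≠ ⊥ := by
    intro h
    rw [h, bot_sup_eq] at hsup
    exact hA.1 hsup
  have hKcard1 : Nat.card K ≠ 1 := fun h => hK1 (Subgroup.card_eq_one.mp h)
  obtain ⟨r, hr, hrK⟩ := Nat.exists_prime_and_dvd hKcard1
  have : Fact r.Prime := ⟨hr⟩
  obtain ⟨R⟩ : Nonempty (Sylow r K) := inferInstance
  obtain ⟨R', hR'⟩ : ∃ R' : Subgroup G, R' = (R : Subgroup K).map K.subtype := ⟨_, rfl⟩
  have hR'K : R' ≤ K := hR' ▸ Subgroup.map_subtype_le _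
  have hR'1 : R' ≠ ⊥ := by
    rw [hR']
    intro h
    have := (Subgroup.map_eq_bot_iff_of_injective _ K.subtype_injective).mp h
    exact R.ne_bot_of_dvd_card hrK this
  obtain ⟨N, hN⟩ : ∃ N : Subgroup G, N = Subgroup.normalizer (R' : Set G) := ⟨_, rfl⟩
  have hNK : N ⊔ K = ⊤ := by rw [hN, hR']; exact Sylow.normalizer_sup_eq_top R
  have hNidx : ¬ p ∣ N.index := by
    have h1 := Cfsg.Agent.S0601.relIndex_eq_of_normal N K
    rw [hNK, Subgroup.relIndex_top_right] at h1
    rw [← h1]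
    intro h
    exact hpK (h.trans (Subgroup.relIndex_dvd_card N K))
  have hzp : IsPGroup p (Subgroup.zpowers a) := by
    apply IsPGroup.of_card (n := 1)
    rw [Nat.card_zpowers, hao, pow_one]
  obtain ⟨g, hg⟩ := Cfsg.Agent.S0581.pgroup_le_conj N p hNidx (Subgroup.zpowers a) hzp
  have haN₂ : a ∈ MulAut.conj g • N := hg (Subgroup.mem_zpowers a)
  have hNK₂ : ∀ b : G, ∃ n ∈ MulAut.conj g • N, ∃ k ∈ K, b = n * k := by
    intro b
    have hb : g⁻¹ * b * g ∈ N ⊔ K := hNK ▸ Subgroup.mem_top _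
    rw [← SetLike.mem_coe, Subgroup.mul_normal] at hb
    obtain ⟨n, hn, k, hk, e⟩ := hb
    have e' : n * k = g⁻¹ * b * g := e
    refine ⟨g * n * g⁻¹, ?_, g * k * g⁻¹, hKn.conj_mem k hk g, ?_⟩
    · rw [Subgroup.mem_pointwise_smul_iff_inv_smul_mem, MulAut.smul_def, MulAut.conj_inv_apply]
      have : g⁻¹ * (g * n * g⁻¹) * g = n := by group
      rw [this]; exact hn
    · calc b = g * (g⁻¹ * b * g) * g⁻¹ := by group
        _ = g * (n * k) * g⁻¹ := by rw [e']
        _ = g * n * g⁻¹ * (g * k * g⁻¹) := by group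
  have hAN₂ : A ≤ MulAut.conj g • N := by
    intro b hb
    exact cent_le K (MulAut.conj g • N) hNK₂ a haN₂ (hcent a haA ha1) b
      (setLike_mul_comm hb haA)
  have hN₂top : MulAut.conj g • N = ⊤ := by
    apply hA.2
    refine lt_of_le_of_ne hAN₂ ?_
    intro h
    obtain ⟨⟨x, hx⟩, hx0⟩ := (Subgroup.ne_bot_iff_exists_ne_one).mp hR'1
    have hx1 : x ≠ 1 := fun h => hx0 (Subtype.ext h)
    have h1 : g * x * g⁻¹ ∈ MulAut.conj g • N := by
      rw [Subgroup.mem_pointwise_smul_iff_inv_smul_mem, MulAut.smul_def, MulAut.conj_inv_apply]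
      have : g⁻¹ * (g * x * g⁻¹) * g = x := by group
      rw [this, hN]; exact Subgroup.le_normalizer hx
    rw [← h] at h1
    have h2 : g * x * g⁻¹ ∈ K ⊓ A := Subgroup.mem_inf.mpr ⟨hKn.conj_mem x (hR'K hx) g, h1⟩
    rw [hdisj, Subgroup.mem_bot] at h2
    apply hx1
    calc x = g⁻¹ * (g * x * g⁻¹) * g := by group
      _ = 1 := by rw [h2]; group
  have hNtop : N = ⊤ := by
    rw [eq_top_iff]
    intro x _
    have : g * x * g⁻¹ ∈ MulAut.conj g • N := hN₂top ▸ Subgroup.mem_top _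
    rw [Subgroup.mem_pointwise_smul_iff_inv_smul_mem, MulAut.smul_def,
      MulAut.conj_inv_apply] at this
    have e : g⁻¹ * (g * x * g⁻¹) * g = x := by group
    rw [e] at this; exact this
  have hR'eq : R' = K := hinv R' hR'K hR'1 (by rw [← hN, hNtop]; exact le_top)
  -- `K` is an `r`-group
  have hKr : IsPGroup r K := by
    intro k
    have hk : (k : G) ∈ R' := hR'eq ▸ k.2
    rw [hR'] at hk
    obtain ⟨k', hk', e⟩ := hk
    have ek : k' = k := Subtype.ext e
    obtain ⟨n, hn⟩ := R.isPGroup' ⟨k', hk'⟩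
    refine ⟨n, ?_⟩
    rw [← ek]
    exact congrArg Subtype.val hn
  have hKnt : Nontrivial K := (Subgroup.nontrivial_iff_ne_bot K).mpr hK1
  have hcen := hKr.bot_lt_center
  have hZn : ((Subgroup.center K).map K.subtype).Normal := inferInstance
  have hZ1 : (Subgroup.center K).map K.subtype ≠ ⊥ := by
    intro h
    have := (Subgroup.map_eq_bot_iff_of_injective _ K.subtype_injective).mp h
    exact hcen.ne' this
  have hZeq := hinv _ (Subgroup.map_subtype_le _) hZ1
    (by rw [Subgroup.normalizer_eq_top_iff.mpr hZn]; exact le_top)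
  intro x hx y hy
  have hx' : x ∈ (Subgroup.center K).map K.subtype := by rw [hZeq]; exact hx
  obtain ⟨z, hz, rfl⟩ := hx'
  have := Subgroup.mem_center_iff.mp hz ⟨y, hy⟩
  exact (congrArg Subtype.val this).symm

/-- A Frobenius-type group with abelian maximal complement is metabelian. -/
theorem frob_metabelian {G : Type*} [Group G] [Finite G] (A K : Subgroup G) (hA : IsCoatom A)
    [IsMulCommutative A] (hA1 : A ≠ ⊥)
    (hTI : ∀ g : G, g ∉ A → A ⊓ (MulAut.conj g • A) = ⊥) [hKn : K.Normal]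
    (hKA : Subgroup.IsComplement' K A) : derivedSeries G 2 = ⊥ := by
  have hKc := kernel_abelian A K hA hA1 hTI hKA
  have hsup : K ⊔ A = ⊤ := hKA.sup_eq_top
  have key : ∀ x y : G, x * y * x⁻¹ * y⁻¹ ∈ K := by
    intro x y
    have hx : x ∈ K ⊔ A := hsup ▸ Subgroup.mem_top x
    have hy : y ∈ K ⊔ A := hsup ▸ Subgroup.mem_top y
    rw [← SetLike.mem_coe, Subgroup.normal_mul] at hx hy
    obtain ⟨k₁, hk₁, a₁, ha₁, rfl⟩ := hx
    obtain ⟨k₂, hk₂, a₂, ha₂, rfl⟩ := hy
    have hc : a₂ * a₁⁻¹ = a₁⁻¹ * a₂ := setLike_mul_comm ha₂ (A.inv_mem ha₁)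
    have e : k₁ * a₁ * (k₂ * a₂) * (k₁ * a₁)⁻¹ * (k₂ * a₂)⁻¹ =
        k₁ * (a₁ * k₂ * a₁⁻¹) * (a₂ * k₁⁻¹ * a₂⁻¹) * k₂⁻¹ := by
      calc k₁ * a₁ * (k₂ * a₂) * (k₁ * a₁)⁻¹ * (k₂ * a₂)⁻¹
          = k₁ * a₁ * k₂ * (a₂ * a₁⁻¹) * k₁⁻¹ * a₂⁻¹ * k₂⁻¹ := by group
        _ = k₁ * a₁ * k₂ * (a₁⁻¹ * a₂) * k₁⁻¹ * a₂⁻¹ * k₂⁻¹ := by rw [hc]
        _ = k₁ * (a₁ * k₂ * a₁⁻¹) * (a₂ * k₁⁻¹ * a₂⁻¹) * k₂⁻¹ := by group
    have e' : (fun x1 x2 => x1 * x2) k₁ a₁ * (fun x1 x2 => x1 * x2) k₂ a₂ *
        ((fun x1 x2 => x1 * x2) k₁ a₁)⁻¹ * ((fun x1 x2 => x1 * x2) k₂ a₂)⁻¹ =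
        k₁ * (a₁ * k₂ * a₁⁻¹) * (a₂ * k₁⁻¹ * a₂⁻¹) * k₂⁻¹ := e
    rw [e']
    exact K.mul_mem (K.mul_mem (K.mul_mem hk₁ (hKn.conj_mem k₂ hk₂ a₁))
      (hKn.conj_mem _ (K.inv_mem hk₁) a₂)) (K.inv_mem hk₂)
  have h1 : derivedSeries G 1 ≤ K := by
    rw [derivedSeries_one, commutator_def, Subgroup.commutator_le]
    intro x _ y _
    exact key x y
  rw [derivedSeries_succ, eq_bot_iff, Subgroup.commutator_le]
  intro x hx y hy
  have : x * y = y * x := hKc x (h1 hx) y (h1 hy)
  rw [Subgroup.mem_bot, commutatorElement_eq_one_iff_mul_comm]; exact this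

/-- If the abelian maximal subgroup is not normal, its image modulo the centre is a
Frobenius complement. -/
theorem quotient_props {G : Type*} [Group G] [Finite G] (A : Subgroup G) (hA : IsCoatom A)
    [IsMulCommutative A] (hAn : ¬ A.Normal) :
    IsCoatom (A.map (QuotientGroup.mk' (Subgroup.center G))) ∧
      Cfsg.IsFrobeniusComplement (A.map (QuotientGroup.mk' (Subgroup.center G))) := by
  have hN : Subgroup.normalizer (A : Set G) = A := by
    rcases eq_or_lt_of_le (Subgroup.le_normalizer : A ≤ Subgroup.normalizer (A : Set G)) with h | h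
    · exact h.symm
    · exact absurd (Subgroup.normalizer_eq_top_iff.mp (hA.2 _ h)) hAn
  have hZ : Subgroup.center G ≤ A := by
    have := Subgroup.center_le_normalizer (s := (A : Set G))
    rwa [hN] at this
  have hTI0 : ∀ g : G, g ∉ A → A ⊓ (MulAut.conj g • A) ≤ Subgroup.center G := by
    intro g hg x hx
    obtain ⟨hxA, hxg⟩ := Subgroup.mem_inf.mp hx
    by_contra hxZ
    -- the centralizer of `x` is `A`
    have hAC : A ≤ Subgroup.centralizer ({x} : Set G) := by
      intro a ha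
      rw [Subgroup.mem_centralizer_iff]
      intro h hh
      rw [Set.mem_singleton_iff] at hh
      rw [hh]; exact setLike_mul_comm hxA ha
    have hCtop : Subgroup.centralizer ({x} : Set G) ≠ ⊤ := by
      intro h
      apply hxZ
      rw [Subgroup.mem_center_iff]
      intro y
      have : y ∈ Subgroup.centralizer ({x} : Set G) := h ▸ Subgroup.mem_top y
      rw [Subgroup.mem_centralizer_iff] at this
      exact (this x rfl).symm
    have hCA : Subgroup.centralizer ({x} : Set G) = A := by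
      rcases eq_or_lt_of_le hAC with h | h
      · exact h.symm
      · exact absurd (hA.2 _ h) hCtop
    have hgA : MulAut.conj g • A ≤ A := by
      intro y hy
      rw [← hCA, Subgroup.mem_centralizer_iff]
      intro h hh
      rw [Set.mem_singleton_iff] at hh
      rw [hh]
      rw [Subgroup.mem_pointwise_smul_iff_inv_smul_mem, MulAut.smul_def,
        MulAut.conj_inv_apply] at hy hxg
      have hc : (g⁻¹ * x * g) * (g⁻¹ * y * g) = (g⁻¹ * y * g) * (g⁻¹ * x * g) :=
        setLike_mul_comm hxg hy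
      calc x * y = g * ((g⁻¹ * x * g) * (g⁻¹ * y * g)) * g⁻¹ := by group
        _ = g * ((g⁻¹ * y * g) * (g⁻¹ * x * g)) * g⁻¹ := by rw [hc]
        _ = y * x := by group
    have hgA' : MulAut.conj g • A = A := by
      apply Subgroup.eq_of_le_of_card_ge hgA
      exact (Nat.card_congr (Subgroup.equivSMul (MulAut.conj g) A).toEquiv).le
    apply hg
    rw [← hN, Subgroup.mem_normalizer_iff]
    intro h
    constructor
    · intro hh
      have : g * h * g⁻¹ ∈ MulAut.conj g • A := by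
        rw [Subgroup.mem_pointwise_smul_iff_inv_smul_mem, MulAut.smul_def, MulAut.conj_inv_apply]
        have e : g⁻¹ * (g * h * g⁻¹) * g = h := by group
        rw [e]; exact hh
      rw [hgA'] at this; exact this
    · intro hh
      rw [← hgA', Subgroup.mem_pointwise_smul_iff_inv_smul_mem, MulAut.smul_def,
        MulAut.conj_inv_apply] at hh
      have e : g⁻¹ * (g * h * g⁻¹) * g = h := by group
      rw [e] at hh; exact hh
  have hker : (QuotientGroup.mk' (Subgroup.center G)).ker ≤ A := by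
    rw [QuotientGroup.ker_mk']; exact hZ
  have hcomap : (A.map (QuotientGroup.mk' (Subgroup.center G))).comap
      (QuotientGroup.mk' (Subgroup.center G)) = A := Subgroup.comap_map_eq_self hker
  have hsurj := QuotientGroup.mk'_surjective (Subgroup.center G)
  have hmem : ∀ g : G, QuotientGroup.mk' (Subgroup.center G) g ∈
      A.map (QuotientGroup.mk' (Subgroup.center G)) ↔ g ∈ A := by
    intro g
    rw [← Subgroup.mem_comap, hcomap]
  refine ⟨⟨?_, ?_⟩, ?_, ?_, ?_⟩
  · intro h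
    apply hA.1
    rw [← hcomap, h, Subgroup.comap_top]
  · intro M hM
    have h1 : A ≤ M.comap (QuotientGroup.mk' (Subgroup.center G)) := by
      rw [← hcomap]; exact Subgroup.comap_mono hM.le
    rcases eq_or_lt_of_le h1 with h | h
    · exfalso
      apply hM.ne
      rw [← Subgroup.map_comap_eq_self_of_surjective hsurj M, ← h]
    · have := hA.2 _ h
      rw [← Subgroup.map_comap_eq_self_of_surjective hsurj M, this,
        Subgroup.map_top_of_surjective _ hsurj]
  · intro h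
    rw [Subgroup.map_eq_bot_iff, QuotientGroup.ker_mk'] at h
    have : A = Subgroup.center G := le_antisymm h hZ
    apply hAn
    rw [this]; infer_instance
  · intro h
    apply hA.1
    rw [← hcomap, h, Subgroup.comap_top]
  · intro gb hgb
    obtain ⟨g, rfl⟩ := hsurj gb
    have hg : g ∉ A := fun h => hgb ((hmem g).mpr h)
    rw [eq_bot_iff]
    intro xb hxb
    obtain ⟨hx1, hx2⟩ := Subgroup.mem_inf.mp hxb
    obtain ⟨a, ha, rfl⟩ := hx1
    rw [Subgroup.mem_pointwise_smul_iff_inv_smul_mem, MulAut.smul_def,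
      MulAut.conj_inv_apply] at hx2
    have hx3 : QuotientGroup.mk' (Subgroup.center G) (g⁻¹ * a * g) ∈
        A.map (QuotientGroup.mk' (Subgroup.center G)) := by
      rw [map_mul, map_mul, map_inv]; exact hx2
    rw [hmem] at hx3
    have hx4 : a ∈ A ⊓ (MulAut.conj g • A) := by
      refine Subgroup.mem_inf.mpr ⟨ha, ?_⟩
      rw [Subgroup.mem_pointwise_smul_iff_inv_smul_mem, MulAut.smul_def, MulAut.conj_inv_apply]
      exact hx3
    have hx5 := hTI0 g hg hx4
    rw [Subgroup.mem_bot]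
    exact (QuotientGroup.eq_one_iff a).mpr hx5

/-- If a finite group has a maximal subgroup that is abelian, then the third term of its derived series is trivial (so the group is solvable of derived length at most three). -/
theorem result {G : Type*} [Group G] [Finite G] (A : Subgroup G) (hA : IsCoatom A) [IsMulCommutative A] : derivedSeries G 3 = ⊥ := by
  by_cases hAn : A.Normal
  · have h2 := normal_case A hA
    rw [derivedSeries_succ, h2]
    exact Subgroup.commutator_bot_left _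
  · obtain ⟨hcoatom, hfrob⟩ := quotient_props A hA hAn
    obtain ⟨K, -, hKn, hKA⟩ := Cfsg.Agent.S0035.result _ hfrob
    have h2 := frob_metabelian _ K hcoatom hfrob.1 hfrob.2.2 hKA
    have hsurj := QuotientGroup.mk'_surjective (Subgroup.center G)
    have h3 : (derivedSeries G 2).map (QuotientGroup.mk' (Subgroup.center G)) = ⊥ := by
      rw [map_derivedSeries_eq hsurj, h2]
    rw [Subgroup.map_eq_bot_iff, QuotientGroup.ker_mk'] at h3
    rw [derivedSeries_succ, eq_bot_iff, Subgroup.commutator_le]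
    intro x hx y hy
    have hxZ := Subgroup.mem_center_iff.mp (h3 hx) y
    rw [Subgroup.mem_bot, commutatorElement_eq_one_iff_mul_comm]
    exact hxZ.symm

end Cfsg.Agent.S0556
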