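import Cfsg.Statements.S0561
import Cfsg.Agent.Lib.Helper91.Hall
import Cfsg.Agent.Lib.Helper10.Thompson
import Cfsg.Agent.S0559
import Cfsg.Agent.S0560
import Mathlib

set_option autoImplicit false
open Pointwise
open Cfsg

namespace Cfsg.Agent.S0561

open Cfsg.Agent.Lib.Helper91.Hall

universe u

/-- Arithmetic of two unitary divisors `a`, `b` of `N`: their lcm `m` is a unitary divisor. -/
theorem arith_aux {N a a' b b' d a₁ b₁ : ℕ} (hN : 0 < N) (ha : a * a' = N) (hb : b * b' = N)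
    (hca : a.Coprime a') (hcb : b.Coprime b') (hd0 : 0 < d) (ha₁ : a = d * a₁)
    (hb₁ : b = d * b₁) (hc : Nat.Coprime a₁ b₁) :
    ∃ m n' : ℕ, N = m * n' ∧ m.Coprime n' ∧ a ∣ m ∧ b ∣ m ∧ m = b * a₁ := by
  have hb₁0 : 0 < b₁ := by
    rcases Nat.eq_zero_or_pos b₁ with h | h
    · rw [h, mul_zero] at hb₁; rw [hb₁, zero_mul] at hb; omega
    · exact h
  have h1 : a₁ * a' = b₁ * b' := by
    have h2 : d * (a₁ * a') = d * (b₁ * b') := by
      calc d * (a₁ * a') = (d * a₁) * a' := by ring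
        _ = a * a' := by rw [← ha₁]
        _ = b * b' := by rw [ha, hb]
        _ = (d * b₁) * b' := by rw [← hb₁]
        _ = d * (b₁ * b') := by ring
    exact Nat.eq_of_mul_eq_mul_left hd0 h2
  have h3 : b₁ ∣ a' := by
    have : b₁ ∣ a₁ * a' := ⟨b', h1⟩
    exact hc.symm.dvd_of_dvd_mul_left this
  obtain ⟨n', hn'⟩ := h3
  have h4 : b' = a₁ * n' := by
    have h5 : b₁ * b' = b₁ * (a₁ * n') := by
      rw [← h1, hn']; ring
    exact Nat.eq_of_mul_eq_mul_left hb₁0 h5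
  refine ⟨a * b₁, n', ?_, ?_, ⟨b₁, rfl⟩, ?_, ?_⟩
  · rw [← ha, hn']; ring
  · apply Nat.Coprime.mul_left
    · exact Nat.Coprime.coprime_dvd_right ⟨b₁, by rw [hn']; ring⟩ hca
    · exact Nat.Coprime.coprime_dvd_left ⟨d, by rw [hb₁]; ring⟩
        (Nat.Coprime.coprime_dvd_right ⟨a₁, by rw [h4]; ring⟩ hcb)
  · refine ⟨a₁, ?_⟩
    rw [ha₁, hb₁]; ring
  · rw [ha₁, hb₁]; ring

theorem arith {N a a' b b' : ℕ} (hN : 0 < N) (ha : a * a' = N) (hb : b * b' = N)
    (hca : a.Coprime a') (hcb : b.Coprime b') :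
    ∃ m n' a₁ : ℕ, N = m * n' ∧ m.Coprime n' ∧ a ∣ m ∧ b ∣ m ∧ m = b * a₁ ∧
      a = Nat.gcd a b * a₁ := by
  have ha0 : 0 < a := by
    rcases Nat.eq_zero_or_pos a with h | h
    · rw [h, zero_mul] at ha; omega
    · exact h
  have hd0 : 0 < Nat.gcd a b := Nat.gcd_pos_of_pos_left _ ha0
  have hc : Nat.Coprime (a / Nat.gcd a b) (b / Nat.gcd a b) := Nat.coprime_div_gcd_div_gcd hd0
  have e1 : a = Nat.gcd a b * (a / Nat.gcd a b) := (Nat.mul_div_cancel' (Nat.gcd_dvd_left a b)).symm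
  have e2 : b = Nat.gcd a b * (b / Nat.gcd a b) := (Nat.mul_div_cancel' (Nat.gcd_dvd_right a b)).symm
  obtain ⟨m, n', h1, h2, h3, h4, h5⟩ := arith_aux hN ha hb hca hcb hd0 e1 e2 hc
  exact ⟨m, n', a / Nat.gcd a b, h1, h2, h3, h4, h5, e1⟩

/-- The case `x = y = 1`: the product of the two normal Hall subgroups is a Hall subgroup. -/
theorem main {G : Type u} [Group G] [Finite G] [Group.IsSolvable G] (H K A B : Subgroup G)
    (hHK : ∀ g : G, ∃ h ∈ H, ∃ k ∈ K, g = h * k)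
    (hAn : ∀ h ∈ H, ∀ a ∈ A, h * a * h⁻¹ ∈ A) (hBn : ∀ k ∈ K, ∀ b ∈ B, k * b * k⁻¹ ∈ B)
    (hAh : (Nat.card A).Coprime A.index) (hBh : (Nat.card B).Coprime B.index) :
    ∃ S : Subgroup G, (S : Set G) = (A : Set G) * (B : Set G) := by
  obtain ⟨m, n', a₁, hN, hmn, ham, hbm, hmb, hag⟩ :=
    arith (Nat.card_pos (α := G)) A.card_mul_index B.card_mul_index hAh hBh
  obtain ⟨E₁, hE₁, hAE₁⟩ := hall_contain m n' hN hmn A (Nat.Coprime.coprime_dvd_left ham hmn)
  obtain ⟨E₂, hE₂, hBE₂⟩ := hall_contain m n' hN hmn B (Nat.Coprime.coprime_dvd_left hbm hmn)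
  obtain ⟨g, hg⟩ := hall_conj m n' hN hmn E₁ E₂ hE₁ hE₂
  obtain ⟨h, hh, k, hk, e⟩ := hHK g⁻¹
  have hAE : A ≤ MulAut.conj h⁻¹ • E₁ := by
    intro y hy
    rw [mem_conj_smul, inv_inv]
    exact hAE₁ (hAn h hh y hy)
  have hBE : B ≤ MulAut.conj h⁻¹ • E₁ := by
    intro y hy
    rw [mem_conj_smul, inv_inv]
    have h1 : k⁻¹ * y * k ∈ B := by
      have := hBn k⁻¹ (K.inv_mem hk) y hy
      rwa [inv_inv] at this
    have h2 := hBE₂ h1
    rw [← hg, mem_conj_smul] at h2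
    have e2 : g⁻¹ * (k⁻¹ * y * k) * g = h * y * h⁻¹ := by
      have e3 : g = (h * k)⁻¹ := by rw [← e, inv_inv]
      rw [e3]; group
    rw [e2] at h2; exact h2
  have hEcard : Nat.card (MulAut.conj h⁻¹ • E₁ : Subgroup G) = m := by
    rw [card_conj_smul, hE₁]
  have hrel : B.relIndex (MulAut.conj h⁻¹ • E₁) ≤ B.relIndex A := by
    have h1 : Nat.card B * B.relIndex (MulAut.conj h⁻¹ • E₁) =
        Nat.card (MulAut.conj h⁻¹ • E₁ : Subgroup G) :=
      Cfsg.Agent.Lib.Helper10.Thompson.card_mul_relIndex hBE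
    have h2 : Nat.card (A ⊓ B : Subgroup G) * B.relIndex A = Nat.card A := by
      have := Cfsg.Agent.Lib.Helper10.Thompson.card_mul_relIndex (inf_le_left : A ⊓ B ≤ A)
      rwa [Subgroup.inf_relIndex_left] at this
    have h3 : B.relIndex (MulAut.conj h⁻¹ • E₁) = a₁ := by
      rw [hEcard, hmb] at h1
      exact Nat.eq_of_mul_eq_mul_left Nat.card_pos h1
    have h4 : Nat.card (A ⊓ B : Subgroup G) ∣ Nat.gcd (Nat.card A) (Nat.card B) :=
      Nat.dvd_gcd (Subgroup.card_dvd_of_le inf_le_left) (Subgroup.card_dvd_of_le inf_le_right)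
    obtain ⟨t, ht⟩ := h4
    have h5 : Nat.card (A ⊓ B : Subgroup G) * B.relIndex A =
        Nat.card (A ⊓ B : Subgroup G) * (t * a₁) := by
      rw [h2, ← mul_assoc, ← ht]; exact hag
    have h6 : B.relIndex A = t * a₁ := Nat.eq_of_mul_eq_mul_left Nat.card_pos h5
    rw [h3, h6]
    have ht0 : 0 < t := by
      rcases Nat.eq_zero_or_pos t with h0 | h0
      · rw [h0, mul_zero] at ht
        exact absurd ht (Nat.gcd_pos_of_pos_left _ Nat.card_pos).ne'
      · exact h0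
    exact Nat.le_mul_of_pos_left _ ht0
  have hprod := Cfsg.Agent.S0560.exists_mul_of_relIndex_le A (MulAut.conj h⁻¹ • E₁) B hAE hrel
  refine ⟨MulAut.conj h⁻¹ • E₁, ?_⟩
  ext x
  constructor
  · intro hx
    obtain ⟨a, ha, hab⟩ := hprod x hx
    exact Set.mem_mul.mpr ⟨a, ha, a⁻¹ * x, hab, by group⟩
  · intro hx
    obtain ⟨a, ha, b, hb, rfl⟩ := Set.mem_mul.mp hx
    exact Subgroup.mul_mem _ (hAE ha) (hBE hb)

theorem normal_conj {G : Type*} [Group G] (H A : Subgroup G) (hA : A ≤ H)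
    (hAn : (A.subgroupOf H).Normal) (x : G) :
    ∀ h ∈ MulAut.conj x • H, ∀ a ∈ MulAut.conj x • A, h * a * h⁻¹ ∈ MulAut.conj x • A := by
  intro h hh a ha
  rw [mem_conj_smul] at hh ha ⊢
  have h1 := hAn.conj_mem ⟨x⁻¹ * a * x, hA ha⟩ (Subgroup.mem_subgroupOf.mpr ha) ⟨x⁻¹ * h * x, hh⟩
  have h2 := Subgroup.mem_subgroupOf.mp h1
  have e : x⁻¹ * (h * a * h⁻¹) * x = (x⁻¹ * h * x) * (x⁻¹ * a * x) * (x⁻¹ * h * x)⁻¹ := by group
  rw [e]; exact h2

theorem hall_conj_smul {G : Type*} [Group G] (A : Subgroup G)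
    (hAh : (Nat.card A).Coprime A.index) (x : G) :
    (Nat.card (MulAut.conj x • A : Subgroup G)).Coprime (MulAut.conj x • A : Subgroup G).index := by
  have h1 : (MulAut.conj x • A : Subgroup G).index = A.index :=
    Subgroup.index_map_of_bijective (MulAction.bijective (MulAut.conj x)) A
  rw [card_conj_smul, h1]; exact hAh

/-- Let the finite solvable group G be the product HK of subgroups, and let A be normal in H and B normal in K, where A and B are Hall subgroups of G (order coprime to index). Then for all x, y the product set of xAx⁻¹ and yBy⁻¹ is a subgroup of G. -/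
theorem result {G : Type*} [Group G] [Finite G] [Group.IsSolvable G] (H K A B : Subgroup G) (hHK : ∀ g : G, ∃ h ∈ H, ∃ k ∈ K, g = h * k) (hA : A ≤ H) (hAn : (A.subgroupOf H).Normal) (hB : B ≤ K) (hBn : (B.subgroupOf K).Normal) (hAh : (Nat.card A).Coprime A.index) (hBh : (Nat.card B).Coprime B.index) (x y : G) : ∃ S : Subgroup G, (S : Set G) = ((MulAut.conj x • A : Subgroup G) : Set G) * ((MulAut.conj y • B : Subgroup G) : Set G) := by
  have hfac := (Cfsg.Agent.S0559.result H K (MulAut.conj x • H) (MulAut.conj y • K) hHK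
    ⟨x, rfl⟩ ⟨y, rfl⟩).1
  exact main (MulAut.conj x • H) (MulAut.conj y • K) (MulAut.conj x • A) (MulAut.conj y • B) hfac
    (normal_conj H A hA hAn x) (normal_conj K B hB hBn y) (hall_conj_smul A hAh x)
    (hall_conj_smul B hBh y)

end Cfsg.Agent.S0561
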