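import Cfsg.Statements.S0563
import Cfsg.Agent.Lib.Helper10.KW5
import Cfsg.Agent.S0561
import Mathlib

set_option autoImplicit false
open Pointwise
open Cfsg

namespace Cfsg.Agent.S0563

open Cfsg.Agent.Lib.Helper10.KW1

/-- A Sylow subgroup of a nilpotent factor `A` of `G = AB` (coprime orders) is a normal Hall
subgroup. -/
theorem hall_of_sylow {G : Type*} [Group G] [Finite G] (A B : Subgroup G)
    (hA : Group.IsNilpotent A) (hcop : (Nat.card A).Coprime (Nat.card B))
    (hAB : ∀ g : G, ∃ a ∈ A, ∃ b ∈ B, g = a * b) (p : ℕ) [Fact p.Prime] (P : Sylow p A) :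
    (∀ h ∈ A, ∀ a ∈ (P : Subgroup A).map A.subtype, h * a * h⁻¹ ∈ (P : Subgroup A).map A.subtype) ∧
    (Nat.card ((P : Subgroup A).map A.subtype : Subgroup G)).Coprime
      ((P : Subgroup A).map A.subtype : Subgroup G).index := by
  constructor
  · intro h hh a ha
    obtain ⟨a', ha', rfl⟩ := Subgroup.mem_map.mp ha
    haveI := hA
    have hn : (P : Subgroup A).Normal := sylow_normal_of_nilpotent p P
    have h1 := hn.conj_mem a' ha' ⟨h, hh⟩
    exact Subgroup.mem_map.mpr ⟨_, h1, rfl⟩
  · rw [Subgroup.card_subtype, Subgroup.index_map_subtype]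
    apply Nat.Coprime.mul_right P.card_coprime_index
    have h1 : Nat.card G * Nat.card (A ⊓ B : Subgroup G) = Nat.card A * Nat.card B :=
      Cfsg.Agent.S0560.card_mul_inf_eq A B hAB
    have h2 : A.index ∣ Nat.card B := by
      have h3 : Nat.card A * A.index ∣ Nat.card A * Nat.card B := by
        rw [A.card_mul_index, ← h1]; exact Dvd.intro _ rfl
      exact (Nat.mul_dvd_mul_iff_left Nat.card_pos).mp h3
    exact Nat.Coprime.coprime_dvd_left (Subgroup.card_subgroup_dvd_card _)
      (Nat.Coprime.coprime_dvd_right h2 hcop)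

/-- If a finite group G is the product AB of two nilpotent subgroups of coprime orders, then G is solvable, and for every Sylow p-subgroup P of A and Sylow q-subgroup Q of B the product set PQ is a subgroup. -/
theorem result {G : Type*} [Group G] [Finite G] (A B : Subgroup G) (hA : Group.IsNilpotent A) (hB : Group.IsNilpotent B) (hcop : (Nat.card A).Coprime (Nat.card B)) (hAB : ∀ g : G, ∃ a ∈ A, ∃ b ∈ B, g = a * b) : Group.IsSolvable G ∧ ∀ (p q : ℕ) [Fact p.Prime] [Fact q.Prime] (P : Sylow p A) (Q : Sylow q B), ∃ S : Subgroup G, (S : Set G) = (((P : Subgroup A).map A.subtype : Subgroup G) : Set G) * (((Q : Subgroup B).map B.subtype : Subgroup G) : Set G) := by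
  have hsolv : Group.IsSolvable G := Cfsg.Agent.Lib.Helper10.KW5.wielandt A B hA hB hcop hAB
  refine ⟨hsolv, ?_⟩
  intro p q _ _ P Q
  haveI := hsolv
  have hBA : ∀ g : G, ∃ b ∈ B, ∃ a ∈ A, g = b * a := by
    intro g
    obtain ⟨a, ha, b, hb, e⟩ := hAB g⁻¹
    refine ⟨b⁻¹, B.inv_mem hb, a⁻¹, A.inv_mem ha, ?_⟩
    rw [← mul_inv_rev, ← e, inv_inv]
  obtain ⟨hPn, hPh⟩ := hall_of_sylow A B hA hcop hAB p P
  obtain ⟨hQn, hQh⟩ := hall_of_sylow B A hB hcop.symm hBA q Q
  exact Cfsg.Agent.S0561.main A B _ _ hAB hPn hQn hPh hQh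

end Cfsg.Agent.S0563
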