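import Cfsg.Statements.S0565
import Cfsg.Agent.Lib.Helper10.KW6
import Cfsg.Agent.S0547
import Cfsg.Agent.S0551
import Mathlib

set_option autoImplicit false
open Cfsg

namespace Cfsg.Agent.S0565

open scoped Pointwise
open Cfsg.Agent.Lib.Helper10.KW0 Cfsg.Agent.Lib.Helper10.KW1

universe u

/-- If `G = A N` with `N` normal and `X` is normalized by `A` and by `N`, then `X` is normal. -/
theorem normal_of_sup {G : Type*} [Group G] (A N X : Subgroup G) (hN : N.Normal)
    (hAN : A ⊔ N = ⊤) (hA : ∀ a ∈ A, ∀ x ∈ X, a * x * a⁻¹ ∈ X)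
    (hNX : ∀ n ∈ N, ∀ x ∈ X, n * x * n⁻¹ ∈ X) : X.Normal := by
  refine ⟨fun x hx g => ?_⟩
  have hg : g ∈ ((A ⊔ N : Subgroup G) : Set G) := by rw [hAN]; trivial
  rw [Subgroup.mul_normal] at hg
  obtain ⟨a, ha, n, hn, rfl⟩ := Set.mem_mul.mp hg
  have e : a * n * x * (a * n)⁻¹ = a * (n * x * n⁻¹) * a⁻¹ := by group
  rw [e]
  exact hA a ha _ (hNX n hn x hx)

theorem sup_eq_top_of_map {G : Type*} [Group G] (A N : Subgroup G) [N.Normal]
    (h : A.map (QuotientGroup.mk' N) = ⊤) : A ⊔ N = ⊤ := by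
  rw [eq_top_iff]
  intro g _
  have hg : QuotientGroup.mk' N g ∈ A.map (QuotientGroup.mk' N) := by rw [h]; trivial
  obtain ⟨a, ha, e⟩ := Subgroup.mem_map.mp hg
  have h1 : a⁻¹ * g ∈ N := by
    have := QuotientGroup.eq.mp e
    exact this
  have e2 : g = a * (a⁻¹ * g) := by group
  rw [e2]
  exact Subgroup.mul_mem _ (Subgroup.mem_sup_left ha) (Subgroup.mem_sup_right h1)

/-- The key step: a minimal normal `p`-subgroup `N` and a prime `p` dividing `|A|` lead to a
contradiction in a minimal counterexample. -/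
theorem false_of_dvd {G : Type*} [Group G] [Finite G] (A N : Subgroup G)
    (hA : Group.IsNilpotent A) (hAtop : A ≠ ⊤)
    (hsup : ∀ K : Subgroup G, K.Normal → K ≠ ⊥ → A ⊔ K = ⊤)
    (hN : N.Normal) (hne : N ≠ ⊥)
    (hmin : ∀ K : Subgroup G, K.Normal → K ≤ N → K = ⊥ ∨ K = N)
    (hab : ∀ x ∈ N, ∀ y ∈ N, x * y = y * x) (p : ℕ) [Fact p.Prime] (hp : IsPGroup p N)
    (hpA : p ∣ Nat.card A) : False := by
  have hAp : rPart A p ≠ ⊥ := rPart_ne_bot A hA p hpA
  have hAN : A ⊔ N = ⊤ := hsup N hN hne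
  have hPp : IsPGroup p (rPart A p ⊔ N : Subgroup G) :=
    IsPGroup.to_sup_of_normal_right (isPGroup_rPart A p) hp
  have hPnil : Group.IsNilpotent (rPart A p ⊔ N : Subgroup G) := hPp.isNilpotent
  obtain ⟨z, hzN, hzZ, hz1⟩ := exists_mem_inf_Zc (rPart A p ⊔ N) N hPnil
    ⟨le_sup_right, fun a _ x hx => hN.conj_mem x hx a⟩ hne
  have hzc := ((mem_Zc _ z).mp hzZ).2
  have hAconj : ∀ a ∈ A, ∀ y ∈ rPart A p, a * y * a⁻¹ ∈ rPart A p := fun a ha =>
    rPart_conj_mem A hA p a (fun x hx => A.mul_mem (A.mul_mem ha hx) (A.inv_mem ha))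
  obtain ⟨C, hC⟩ : ∃ C : Subgroup G, C = N ⊓ Subgroup.centralizer (rPart A p : Set G) := ⟨_, rfl⟩
  have hCmem : ∀ x : G, x ∈ C ↔ x ∈ N ∧ ∀ y ∈ rPart A p, y * x = x * y := by
    intro x
    rw [hC, Subgroup.mem_inf, Subgroup.mem_centralizer_iff]
    rfl
  have hzC : z ∈ C := (hCmem z).mpr ⟨hzN, fun y hy => hzc y (Subgroup.mem_sup_left hy)⟩
  have hCne : C ≠ ⊥ := fun h0 => hz1 ((Subgroup.mem_bot).mp (h0 ▸ hzC))
  have hCn : C.Normal := by
    apply normal_of_sup A N C hN hAN
    · intro a ha c hc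
      rw [hCmem] at hc ⊢
      refine ⟨hN.conj_mem c hc.1 a, fun y hy => ?_⟩
      have h1 : a⁻¹ * y * a ∈ rPart A p := by
        have := hAconj a⁻¹ (A.inv_mem ha) y hy
        rwa [inv_inv] at this
      have h2 := hc.2 _ h1
      calc y * (a * c * a⁻¹) = a * ((a⁻¹ * y * a) * c) * a⁻¹ := by group
        _ = a * (c * (a⁻¹ * y * a)) * a⁻¹ := by rw [h2]
        _ = a * c * a⁻¹ * y := by group
    · intro n hn c hc
      have hcN : c ∈ N := ((hCmem c).mp hc).1
      have e : n * c * n⁻¹ = c := by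
        rw [hab n hn c hcN, mul_assoc, mul_inv_cancel, mul_one]
      rw [e]; exact hc
  have hCN : C = N := by
    rcases hmin C hCn (by rw [hC]; exact inf_le_left) with h | h
    · exact absurd h hCne
    · exact h
  have hNc : ∀ n ∈ N, ∀ y ∈ rPart A p, y * n = n * y := by
    intro n hn
    exact ((hCmem n).mp (hCN ▸ hn)).2
  have hApn : (rPart A p).Normal := by
    apply normal_of_sup A N (rPart A p) hN hAN hAconj
    intro n hn y hy
    have e : n * y * n⁻¹ = y := by
      rw [← hNc n hn y hy, mul_assoc, mul_inv_cancel, mul_one]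
    rw [e]; exact hy
  have h1 := hsup (rPart A p) hApn hAp
  rw [sup_eq_left.mpr (rPart_le A p)] at h1
  exact hAtop h1

theorem nilpotent_of_top {G : Type*} [Group G] (A : Subgroup G) (hA : Group.IsNilpotent A)
    (h : A = ⊤) : Group.IsNilpotent G := by
  subst h
  exact Group.nilpotent_of_surjective (⊤ : Subgroup G).subtype
    (fun g => ⟨⟨g, Subgroup.mem_top g⟩, rfl⟩)

theorem exists_normal_of_nilpotent {G : Type*} [Group G] [Finite G] (hG : Group.IsNilpotent G)
    (B : Subgroup G) (hB : B ≠ ⊤) : ∃ N : Subgroup G, N.Normal ∧ N ≠ ⊤ ∧ B ≤ N := by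
  obtain ⟨K, hK, hBK⟩ := (eq_top_or_exists_le_coatom B).resolve_left hB
  exact ⟨K, Subgroup.NormalizerCondition.normal_of_coatom K Group.normalizerCondition_of_isNilpotent hK,
    hK.1, hBK⟩

theorem aux : ∀ (n : ℕ) (G : Type u) [Group G] [Finite G], Nat.card G = n →
    ∀ A B : Subgroup G, Group.IsNilpotent A → Group.IsNilpotent B →
    (∀ g : G, ∃ a ∈ A, ∃ b ∈ B, g = a * b) → (A ≠ ⊤ ∨ B ≠ ⊤) →
    ∃ N : Subgroup G, N.Normal ∧ N ≠ ⊤ ∧ (A ≤ N ∨ B ≤ N) := by
  intro n
  induction n using Nat.strong_induction_on with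
  | _ n ih =>
    intro G _ _ hn A B hA hB hfac hproper
    by_contra hcon
    have hsolv : Group.IsSolvable G := Cfsg.Agent.Lib.Helper10.KW6.kegel_wielandt A B hA hB hfac
    have hAtop : A ≠ ⊤ := by
      intro h
      have hBtop : B ≠ ⊤ := hproper.resolve_left (fun h' => h' h)
      obtain ⟨K, hKn, hKtop, hBK⟩ := exists_normal_of_nilpotent (nilpotent_of_top A hA h) B hBtop
      exact hcon ⟨K, hKn, hKtop, Or.inr hBK⟩
    have hBtop : B ≠ ⊤ := by
      intro h
      obtain ⟨K, hKn, hKtop, hAK⟩ := exists_normal_of_nilpotent (nilpotent_of_top B hB h) A hAtop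
      exact hcon ⟨K, hKn, hKtop, Or.inl hAK⟩
    have hsup : ∀ N : Subgroup G, N.Normal → N ≠ ⊥ → A ⊔ N = ⊤ ∧ B ⊔ N = ⊤ := by
      intro N hN hN1
      by_contra hnot
      have hlt : Nat.card (G ⧸ N) < n := by
        rw [← hn, Subgroup.card_eq_card_quotient_mul_card_subgroup N]
        have h1 : 1 < Nat.card N := by
          rcases Nat.lt_or_ge 1 (Nat.card N) with h | h
          · exact h
          · exfalso
            have h2 : Nat.card N = 1 := le_antisymm h Nat.card_pos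
            exact hN1 (Subgroup.card_eq_one.mp h2)
        have h0 : 0 < Nat.card (G ⧸ N) := Nat.card_pos
        nlinarith
      have hpr : A.map (QuotientGroup.mk' N) ≠ ⊤ ∨ B.map (QuotientGroup.mk' N) ≠ ⊤ := by
        by_contra h2
        push Not at h2
        exact hnot ⟨sup_eq_top_of_map A N h2.1, sup_eq_top_of_map B N h2.2⟩
      obtain ⟨K, hKn, hKtop, hK⟩ := ih _ hlt (G ⧸ N) rfl (A.map (QuotientGroup.mk' N))
        (B.map (QuotientGroup.mk' N))
        (Cfsg.Agent.Lib.Helper10.KW5.nilpotent_map A hA _)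
        (Cfsg.Agent.Lib.Helper10.KW5.nilpotent_map B hB _) (by
          intro q
          obtain ⟨g, rfl⟩ := QuotientGroup.mk_surjective q
          obtain ⟨a, ha, b, hb, e⟩ := hfac g
          exact ⟨_, ⟨a, ha, rfl⟩, _, ⟨b, hb, rfl⟩, by rw [e]; rfl⟩) hpr
      apply hcon
      refine ⟨K.comap (QuotientGroup.mk' N), hKn.comap _, ?_, ?_⟩
      · intro h0
        apply hKtop
        rw [eq_top_iff]
        intro q _
        obtain ⟨g, rfl⟩ := QuotientGroup.mk_surjective q
        have : g ∈ K.comap (QuotientGroup.mk' N) := by rw [h0]; trivial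
        exact this
      · rcases hK with h | h
        · exact Or.inl (Subgroup.map_le_iff_le_comap.mp h)
        · exact Or.inr (Subgroup.map_le_iff_le_comap.mp h)
    haveI : Nontrivial G := by
      by_contra h
      rw [not_nontrivial_iff_subsingleton] at h
      exact hAtop (Subsingleton.elim _ _)
    obtain ⟨N, hNn, hNne, hmin⟩ := Cfsg.Agent.S0551.exists_minimal_normal (G := G)
    haveI := hNn
    obtain ⟨p, d, hp, hd, hcard⟩ := Cfsg.Agent.S0547.card_prime_pow N hNne hmin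
    haveI : Fact p.Prime := ⟨hp⟩
    have hNp : IsPGroup p N := IsPGroup.of_card hcard
    have hab : ∀ x ∈ N, ∀ y ∈ N, x * y = y * x := fun x hx y hy =>
      Cfsg.Agent.S0547.commute_of_mem N hNne hmin hx hy
    have hpG : p ∣ Nat.card A * Nat.card B := by
      have h1 : p ∣ Nat.card N := by rw [hcard]; exact dvd_pow_self p hd.ne'
      have h2 : Nat.card N ∣ Nat.card G := Subgroup.card_subgroup_dvd_card N
      have h3 : Nat.card G ∣ Nat.card A * Nat.card B := by
        rw [← Cfsg.Agent.S0560.card_mul_inf_eq A B hfac]; exact Dvd.intro _ rfl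
      exact h1.trans (h2.trans h3)
    rcases (Nat.Prime.dvd_mul hp).mp hpG with hpA | hpB
    · exact false_of_dvd A N hA hAtop (fun K hK hK1 => (hsup K hK hK1).1) hNn hNne hmin hab p
        hNp hpA
    · exact false_of_dvd B N hB hBtop (fun K hK hK1 => (hsup K hK hK1).2) hNn hNne hmin hab p
        hNp hpB

/-- Let the finite group G be the product AB of nilpotent subgroups A and B, not both equal to G. Then there is a proper normal subgroup of G containing A or containing B. -/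
theorem result {G : Type*} [Group G] [Finite G] (A B : Subgroup G) (hA : Group.IsNilpotent A) (hB : Group.IsNilpotent B) (hAB : ∀ g : G, ∃ a ∈ A, ∃ b ∈ B, g = a * b) (hproper : A ≠ ⊤ ∨ B ≠ ⊤) : ∃ N : Subgroup G, N.Normal ∧ N ≠ ⊤ ∧ (A ≤ N ∨ B ≤ N) := by
  exact aux _ G rfl A B hA hB hAB hproper

end Cfsg.Agent.S0565
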