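import Mathlib
import Cfsg.Statements.S0567

set_option autoImplicit false
open Cfsg

namespace Cfsg.Agent.S0567

open scoped commutatorElement

variable {G : Type*} [Group G]

theorem conj_mem_closure (S : Set G) (g : G)
    (hS : ∀ s ∈ S, g * s * g⁻¹ ∈ Subgroup.closure S) :
    ∀ t ∈ Subgroup.closure S, g * t * g⁻¹ ∈ Subgroup.closure S := by
  intro t ht
  induction ht using Subgroup.closure_induction with
  | mem x hx => exact hS x hx
  | one => simp
  | mul x y _ _ hx hy =>
    have : g * (x * y) * g⁻¹ = (g * x * g⁻¹) * (g * y * g⁻¹) := by group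
    rw [this]; exact Subgroup.mul_mem _ hx hy
  | inv x _ hx =>
    have : g * x⁻¹ * g⁻¹ = (g * x * g⁻¹)⁻¹ := by group
    rw [this]; exact Subgroup.inv_mem _ hx

/-- The iterated commutator. -/
def L (H : Subgroup G) (m : ℕ) : Subgroup G := (fun K : Subgroup G => ⁅K, H⁆)^[m] ⊤

theorem L_zero (H : Subgroup G) : L H 0 = ⊤ := rfl

theorem L_succ (H : Subgroup G) (m : ℕ) : L H (m + 1) = ⁅L H m, H⁆ := by
  unfold L
  rw [Function.iterate_succ_apply']

theorem L_mono {H K : Subgroup G} (h : H ≤ K) (m : ℕ) : L H m ≤ L K m := by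
  induction m with
  | zero => simp [L_zero]
  | succ m ih => rw [L_succ, L_succ]; exact Subgroup.commutator_mono ih h

theorem L_anti (H : Subgroup G) (m : ℕ) : L H (m + 1) ≤ L H m := by
  induction m with
  | zero => simp [L_zero]
  | succ m ih =>
    calc L H (m + 1 + 1) = ⁅L H (m + 1), H⁆ := L_succ H (m + 1)
      _ ≤ ⁅L H m, H⁆ := Subgroup.commutator_mono ih le_rfl
      _ = L H (m + 1) := (L_succ H m).symm

theorem N1 (H : Subgroup G) (j : ℕ) : ∀ h ∈ H, ∀ t ∈ L H j, h * t * h⁻¹ ∈ L H j := by
  induction j with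
  | zero => intro h _ t _; simp [L_zero]
  | succ j ih =>
    intro h hh t ht
    rw [L_succ, Subgroup.commutator_def] at ht ⊢
    apply conj_mem_closure _ h _ t ht
    rintro s ⟨y, hy, h', hh', rfl⟩
    apply Subgroup.subset_closure
    refine ⟨h * y * h⁻¹, ih h hh y hy, h * h' * h⁻¹, H.mul_mem (H.mul_mem hh hh') (H.inv_mem hh), ?_⟩
    simp only [commutatorElement_def]; group

theorem N2 (H : Subgroup G) (j : ℕ) : ∀ x ∈ L H j, ∀ t ∈ L H (j + 1), x * t * x⁻¹ ∈ L H (j + 1) := by
  intro x hx t ht
  rw [L_succ, Subgroup.commutator_def] at ht ⊢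
  apply conj_mem_closure _ x _ t ht
  rintro s ⟨y, hy, h, hh, rfl⟩
  have : x * ⁅y, h⁆ * x⁻¹ = ⁅x * y, h⁆ * ⁅x, h⁆⁻¹ := by
    simp only [commutatorElement_def]; group
  rw [this, ← Subgroup.commutator_def]
  exact Subgroup.mul_mem _ (Subgroup.commutator_mem_commutator (Subgroup.mul_mem _ hx hy) hh)
    (Subgroup.inv_mem _ (Subgroup.commutator_mem_commutator hx hh))

theorem chain (H : Subgroup G) (j : ℕ) : (H ⊔ L H j).IsSubnormal := by
  induction j with
  | zero => rw [L_zero, sup_top_eq]; exact Subgroup.IsSubnormal.top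
  | succ j ih =>
    have hle : H ⊔ L H (j + 1) ≤ H ⊔ L H j := sup_le_sup_left (L_anti H j) H
    refine Subgroup.IsSubnormal.step _ _ hle ih ?_
    rw [Subgroup.normal_subgroupOf_iff_le_normalizer hle]
    apply sup_le
    · rw [Subgroup.le_normalizer_iff]
      intro h hh t ht
      have : H ⊔ L H (j + 1) ≤ (H ⊔ L H (j + 1)).comap (MulAut.conj h).toMonoidHom := by
        apply sup_le
        · intro t ht
          rw [Subgroup.mem_comap]
          exact Subgroup.mem_sup_left (H.mul_mem (H.mul_mem hh ht) (H.inv_mem hh))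
        · intro t ht
          rw [Subgroup.mem_comap]
          exact Subgroup.mem_sup_right (N1 H (j + 1) h hh t ht)
      exact this ht
    · rw [Subgroup.le_normalizer_iff]
      intro x hx t ht
      have : H ⊔ L H (j + 1) ≤ (H ⊔ L H (j + 1)).comap (MulAut.conj x).toMonoidHom := by
        apply sup_le
        · intro t ht
          rw [Subgroup.mem_comap]
          have e : (MulAut.conj x).toMonoidHom t = ⁅x, t⁆ * t := by
            simp [commutatorElement_def, MulAut.conj_apply]
          rw [e]
          refine Subgroup.mul_mem _ (Subgroup.mem_sup_right ?_) (Subgroup.mem_sup_left ht)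
          rw [L_succ]
          exact Subgroup.commutator_mem_commutator hx ht
        · intro t ht
          rw [Subgroup.mem_comap]
          exact Subgroup.mem_sup_right (N2 H j x hx t ht)
      exact this ht

theorem result {G : Type*} [Group G] (H : Subgroup G) : H.IsSubnormal ↔ ∃ m : ℕ, (fun K : Subgroup G => ⁅K, H⁆)^[m] ⊤ ≤ H := by
  constructor
  · intro h
    induction h with
    | top => exact ⟨0, le_rfl⟩
    | step H K hle hK hN ih =>
      obtain ⟨m, hm⟩ := ih
      refine ⟨m + 1, ?_⟩
      have h1 : L H m ≤ K := (L_mono hle m).trans hm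
      have h2 : K ≤ Subgroup.normalizer (H : Set G) := (Subgroup.normal_subgroupOf_iff_le_normalizer hle).mp hN
      show L H (m + 1) ≤ H
      rw [L_succ, Subgroup.commutator_le]
      intro k hk h hh
      have h3 := (Subgroup.le_normalizer_iff.mp h2) k (h1 hk) h hh
      rw [commutatorElement_def]
      exact H.mul_mem h3 (H.inv_mem hh)
  · rintro ⟨m, hm⟩
    have := chain H m
    rwa [sup_eq_left.mpr (show L H m ≤ H from hm)] at this

end Cfsg.Agent.S0567
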