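import Mathlib
import Cfsg.Statements.S0568
import Cfsg.Agent.S0006
import Cfsg.Agent.S0023
import Cfsg.Agent.S0043
import Cfsg.Agent.Lib.Helper9.CS2

set_option autoImplicit false
open Pointwise
open Cfsg

namespace Cfsg.Agent.S0568

open scoped commutatorElement

/-- a `p`-group acting by conjugation on a nontrivial normal `p`-subgroup has a nontrivial
fixed point -/
theorem exists_fixed {G : Type*} [Group G] [Finite G] (p : ℕ) [Fact p.Prime]
    (S A : Subgroup G) [A.Normal] (hSp : IsPGroup p S) (hAp : IsPGroup p A) (hA : A ≠ ⊥) :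
    ∃ a ∈ A, a ≠ 1 ∧ ∀ s ∈ S, s * a = a * s := by
  have hSn : S ≤ Subgroup.normalizer (A : Set G) := by
    rw [Subgroup.normalizer_eq_top_iff.mpr inferInstance]; exact le_top
  letI := Cfsg.Agent.S0023.conjAction A S hSn
  have hpA : p ∣ Nat.card A := by
    obtain ⟨k, hk⟩ := IsPGroup.iff_card.mp hAp
    have hk0 : k ≠ 0 := by
      rintro rfl
      rw [pow_zero] at hk
      exact hA (Subgroup.eq_bot_of_card_eq A hk)
    rw [hk]; exact dvd_pow_self p hk0
  have h1 : (1 : A) ∈ MulAction.fixedPoints S A := by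
    intro s
    apply Subtype.ext
    rw [Cfsg.Agent.S0023.coe_conjAction_smul]
    simp
  obtain ⟨b, hb, hne⟩ := hSp.exists_fixed_point_of_prime_dvd_card_of_fixed_point A hpA h1
  refine ⟨b, b.2, ?_, ?_⟩
  · intro h; exact hne (Subtype.ext h.symm)
  · intro s hs
    have := congrArg Subtype.val (hb ⟨s, hs⟩)
    rw [Cfsg.Agent.S0023.coe_conjAction_smul] at this
    calc s * b = s * b * s⁻¹ * s := by group
      _ = b * s := by rw [this]

/-- `L = C (T ∩ L)` when the indices of `C ∩ L` and `T ∩ L` in `L` are coprime -/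
theorem decomp {Q : Type*} [Group Q] [Finite Q] (C L T : Subgroup Q)
    (hcop : (C.subgroupOf L).index.Coprime (T.subgroupOf L).index) :
    ∀ l ∈ L, ∃ c ∈ C, ∃ t ∈ T, l = c * t := by
  intro l hl
  obtain ⟨h, hh, k, hk, hhk⟩ := Cfsg.Agent.S0006.exists_mul_of_coprime_index _ _ hcop
    (⟨l, hl⟩ : L)
  exact ⟨h, Subgroup.mem_subgroupOf.mp hh, k, Subgroup.mem_subgroupOf.mp hk,
    congrArg Subtype.val hhk⟩

/-- **Key lemma**: a Hall `r'`-subgroup `K` of a finite solvable group is normalised by no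
nontrivial element of a non-central minimal normal `r`-subgroup `B`. -/
theorem nc {Q : Type*} [Group Q] [Finite Q] [Group.IsSolvable Q] (r : ℕ) [hr : Fact r.Prime]
    (B : Subgroup Q) [hBn : B.Normal] (hB0 : B ≠ ⊥) (hBr : IsPGroup r B)
    (hmin : ∀ M : Subgroup Q, M.Normal → M ≤ B → M = ⊥ ∨ M = B)
    (hnc : Subgroup.centralizer (B : Set Q) ≠ ⊤)
    (K : Subgroup Q) (hKc : (Nat.card K).Coprime r) (hKi : ∃ k, K.index = r ^ k)
    (x : Q) (hxB : x ∈ B) (hxK : x ∈ Subgroup.normalizer (K : Set Q)) : x = 1 := by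
  classical
  obtain ⟨C, hC⟩ : ∃ C : Subgroup Q, C = Subgroup.centralizer (B : Set Q) := ⟨_, rfl⟩
  haveI hCn : C.Normal := by rw [hC]; infer_instance
  have hnt : Nontrivial (Q ⧸ C) := by
    rw [← not_subsingleton_iff_nontrivial]
    intro hs
    apply hnc
    rw [← hC, Subgroup.eq_top_iff']
    intro y
    rw [← QuotientGroup.eq_one_iff (N := C)]
    exact Subsingleton.elim _ _
  obtain ⟨N, hNn, hN0, hNmin⟩ := Cfsg.Agent.S0006.exists_min_normal (Q ⧸ C)
  haveI := hNn
  obtain ⟨-, q, hq, hexp⟩ := Cfsg.Agent.S0043.result N hN0 hNmin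
  haveI : Fact q.Prime := ⟨hq⟩
  have hNq : IsPGroup q N := by
    intro a
    refine ⟨1, ?_⟩
    rw [pow_one]
    exact Subtype.ext (hexp a a.2)
  obtain ⟨L, hL⟩ : ∃ L : Subgroup Q, L = N.comap (QuotientGroup.mk' C) := ⟨_, rfl⟩
  haveI hLn : L.Normal := by rw [hL]; exact hNn.comap _
  have hmemL : ∀ g : Q, g ∈ L ↔ QuotientGroup.mk' C g ∈ N := by
    intro g; rw [hL, Subgroup.mem_comap]
  -- `C_B(L) = 1`
  have hW : B ⊓ Subgroup.centralizer (L : Set Q) = ⊥ := by
    rcases hmin (B ⊓ Subgroup.centralizer (L : Set Q)) inferInstance inf_le_left with h | h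
    · exact h
    · exfalso
      have h1 : B ≤ Subgroup.centralizer (L : Set Q) := inf_eq_left.mp h
      have h2 : L ≤ C := by rw [hC]; exact Subgroup.le_centralizer_iff.mp h1
      apply hN0
      rw [eq_bot_iff]
      intro y hy
      obtain ⟨g, rfl⟩ := QuotientGroup.mk'_surjective C y
      have hg : g ∈ L := (hmemL g).mpr hy
      exact (QuotientGroup.eq_one_iff g).mpr (h2 hg)
  -- index of `C` in `L`
  have hCLidx : (C.subgroupOf L).index = Nat.card N := by
    have h1 : C = (⊥ : Subgroup (Q ⧸ C)).comap (QuotientGroup.mk' C) := by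
      rw [MonoidHom.comap_bot, QuotientGroup.ker_mk']
    have h2 : (C.subgroupOf L).index = C.relIndex L := rfl
    rw [h2]
    conv_lhs => rw [h1]
    rw [Subgroup.relIndex_comap, hL,
      Subgroup.map_comap_eq_self_of_surjective (QuotientGroup.mk'_surjective C),
      Subgroup.relIndex_bot_left]
  obtain ⟨j, hj⟩ := IsPGroup.iff_card.mp hNq
  -- elements of `B` commute with `C`
  have hBC : ∀ b ∈ B, ∀ c ∈ C, c * b = b * c := by
    intro b hb c hc
    rw [hC] at hc
    exact (Subgroup.mem_centralizer_iff.mp hc b hb).symm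
  by_cases hqr : q = r
  · -- a Sylow `r`-subgroup centralises a nontrivial element of `B`, which then centralises `L`
    obtain ⟨S⟩ : Nonempty (Sylow r Q) := inferInstance
    obtain ⟨b, hbB, hb1, hbS⟩ := exists_fixed r (S : Subgroup Q) B S.isPGroup' hBr hB0
    have hcop : (C.subgroupOf L).index.Coprime (((S : Subgroup Q)).subgroupOf L).index := by
      rw [hCLidx, hj, hqr]
      apply Nat.Coprime.pow_left
      rw [Nat.Prime.coprime_iff_not_dvd hr.out]
      intro hdvd
      exact S.not_dvd_index (hdvd.trans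
        (Cfsg.Agent.Lib.Helper9.SubnSylow.relIndex_dvd_index_of_normal_right (S : Subgroup Q) L))
    have hbL : b ∈ B ⊓ Subgroup.centralizer (L : Set Q) := by
      refine Subgroup.mem_inf.mpr ⟨hbB, ?_⟩
      rw [Subgroup.mem_centralizer_iff]
      intro l hl
      obtain ⟨c, hc, s, hs, rfl⟩ := decomp C L (S : Subgroup Q) hcop l hl
      rw [mul_assoc, hbS s hs, ← mul_assoc, hBC b hbB c hc, mul_assoc]
    rw [hW, Subgroup.mem_bot] at hbL
    exact absurd hbL hb1
  · -- `x` centralises `K` and `C`, hence `L`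
    have hBK : B ⊓ K = ⊥ := by
      apply (Subgroup.disjoint_of_coprime_natCard _).eq_bot
      obtain ⟨i, hi⟩ := IsPGroup.iff_card.mp hBr
      rw [hi]
      exact Nat.Coprime.pow_left i hKc.symm
    have hxk : ∀ k ∈ K, k * x = x * k := by
      intro k hk
      have h1 : x * k * x⁻¹ * k⁻¹ ∈ B ⊓ K := by
        refine Subgroup.mem_inf.mpr ⟨?_, ?_⟩
        · have : k * x⁻¹ * k⁻¹ ∈ B := hBn.conj_mem _ (B.inv_mem hxB) k
          have e : x * k * x⁻¹ * k⁻¹ = x * (k * x⁻¹ * k⁻¹) := by group
          rw [e]; exact B.mul_mem hxB this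
        · exact K.mul_mem ((Subgroup.mem_normalizer_iff.mp hxK k).mp hk) (K.inv_mem hk)
      rw [hBK, Subgroup.mem_bot] at h1
      have e : x * k = x * k * x⁻¹ * k⁻¹ * (k * x) := by group
      rw [e, h1, one_mul]
    obtain ⟨i, hi⟩ := hKi
    have hcop : (C.subgroupOf L).index.Coprime ((K.subgroupOf L)).index := by
      rw [hCLidx, hj]
      have h1 : (K.subgroupOf L).index ∣ r ^ i := by
        rw [← hi]
        exact Cfsg.Agent.Lib.Helper9.SubnSylow.relIndex_dvd_index_of_normal_right K L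
      apply Nat.Coprime.coprime_dvd_right h1
      apply Nat.Coprime.pow _ _
      exact (Nat.coprime_primes hq hr.out).mpr hqr
    have hxL : x ∈ B ⊓ Subgroup.centralizer (L : Set Q) := by
      refine Subgroup.mem_inf.mpr ⟨hxB, ?_⟩
      rw [Subgroup.mem_centralizer_iff]
      intro l hl
      obtain ⟨c, hc, s, hs, rfl⟩ := decomp C L K hcop l hl
      rw [mul_assoc, hxk s hs, ← mul_assoc, hBC x hxB c hc, mul_assoc]
    rw [hW, Subgroup.mem_bot] at hxL
    exact hxL

/-- Let D be the system normalizer of a Hall complement system of a finite solvable group G, and let A < B be normal subgroups with no normal subgroup of G strictly between them (a chief factor). If G centralizes B modulo A then B ≤ A ⊔ D (D covers the factor); otherwise B ∩ D ≤ A (D avoids it). -/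
theorem result {G : Type*} [Group G] [Finite G] [Group.IsSolvable G] (K : Nat.Primes → Subgroup G) (hK : Cfsg.IsComplementSystem K) (A B : Subgroup G) [A.Normal] [B.Normal] (hAB : A < B) (hchief : ∀ N : Subgroup G, N.Normal → A ≤ N → N ≤ B → N = A ∨ N = B) : (⁅B, (⊤ : Subgroup G)⁆ ≤ A → B ≤ A ⊔ Cfsg.systemNormalizer K) ∧ (¬ ⁅B, (⊤ : Subgroup G)⁆ ≤ A → B ⊓ Cfsg.systemNormalizer K ≤ A) := by
  have hπ : Function.Surjective (QuotientGroup.mk' A) := QuotientGroup.mk'_surjective A
  have hmap := Cfsg.Agent.Lib.Helper9.CS2.systemNormalizer_map K hK A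
  constructor
  · intro hcent b hb
    have hbc : QuotientGroup.mk' A b ∈
        Cfsg.systemNormalizer (fun p => (K p).map (QuotientGroup.mk' A)) := by
      refine Subgroup.mem_iInf.mpr (fun p => ?_)
      rw [Subgroup.mem_normalizer_iff]
      intro y
      obtain ⟨g, rfl⟩ := hπ y
      have hcomm : QuotientGroup.mk' A b * QuotientGroup.mk' A g * (QuotientGroup.mk' A b)⁻¹
          = QuotientGroup.mk' A g := by
        rw [← map_inv, ← map_mul, ← map_mul]
        apply QuotientGroup.eq.mpr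
        have h1 : ⁅b, g⁻¹⁆ ∈ A :=
          hcent (Subgroup.commutator_mem_commutator hb (Subgroup.mem_top _))
        have e : (b * g * b⁻¹)⁻¹ * g = ⁅b, g⁻¹⁆ := by
          rw [commutatorElement_def]; group
        rw [e]; exact h1
      rw [hcomm]
    rw [hmap] at hbc
    obtain ⟨d, hd, hdb⟩ := hbc
    have h2 : d⁻¹ * b ∈ A := QuotientGroup.eq.mp hdb
    have e : b = (b * (d⁻¹ * b)⁻¹) * (d⁻¹ * b) := by group
    have e2 : b * (d⁻¹ * b)⁻¹ = d := by group
    rw [e, e2]
    have h3 : d * (d⁻¹ * b) = (d * (d⁻¹ * b) * d⁻¹) * d := by group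
    rw [h3]
    exact Subgroup.mul_mem _
      ((le_sup_left : A ≤ A ⊔ Cfsg.systemNormalizer K)
        (Subgroup.Normal.conj_mem inferInstance _ h2 d))
      ((le_sup_right : Cfsg.systemNormalizer K ≤ A ⊔ Cfsg.systemNormalizer K) hd)
  · intro hnc x hx
    obtain ⟨hxB, hxD⟩ := Subgroup.mem_inf.mp hx
    obtain ⟨Bbar, hBbar⟩ : ∃ Bbar : Subgroup (G ⧸ A), Bbar = B.map (QuotientGroup.mk' A) :=
      ⟨_, rfl⟩
    haveI hBbn : Bbar.Normal := by
      rw [hBbar]; exact Subgroup.Normal.map inferInstance _ hπ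
    have hB0 : Bbar ≠ ⊥ := by
      intro h
      apply not_le_of_gt hAB
      intro b hb
      have : QuotientGroup.mk' A b ∈ Bbar := by
        rw [hBbar]; exact Subgroup.mem_map_of_mem _ hb
      rw [h, Subgroup.mem_bot] at this
      exact (QuotientGroup.eq_one_iff b).mp this
    have hcomapB : Bbar.comap (QuotientGroup.mk' A) = B := by
      rw [hBbar, Subgroup.comap_map_eq, QuotientGroup.ker_mk', sup_eq_left.mpr hAB.le]
    have hmapA : A.map (QuotientGroup.mk' A) = ⊥ := by
      rw [eq_bot_iff]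
      rintro _ ⟨a, ha, rfl⟩
      exact (QuotientGroup.eq_one_iff a).mpr ha
    have hmin : ∀ M : Subgroup (G ⧸ A), M.Normal → M ≤ Bbar → M = ⊥ ∨ M = Bbar := by
      intro M hMn hMB
      have h1 : A ≤ M.comap (QuotientGroup.mk' A) := by
        intro a ha
        rw [Subgroup.mem_comap]
        have : QuotientGroup.mk' A a = 1 := (QuotientGroup.eq_one_iff a).mpr ha
        rw [this]; exact M.one_mem
      have h2 : M.comap (QuotientGroup.mk' A) ≤ B := by
        rw [← hcomapB]; exact Subgroup.comap_mono hMB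
      rcases hchief _ (hMn.comap _) h1 h2 with h | h
      · left
        rw [← Subgroup.map_comap_eq_self_of_surjective hπ M, h, hmapA]
      · right
        rw [← Subgroup.map_comap_eq_self_of_surjective hπ M, h, hBbar]
    obtain ⟨-, r, hr, hexp⟩ := Cfsg.Agent.S0043.result Bbar hB0 hmin
    haveI : Fact r.Prime := ⟨hr⟩
    have hBr : IsPGroup r Bbar := by
      intro a
      refine ⟨1, ?_⟩
      rw [pow_one]
      exact Subtype.ext (hexp a a.2)
    have hncbar : Subgroup.centralizer (Bbar : Set (G ⧸ A)) ≠ ⊤ := by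
      intro htop
      apply hnc
      rw [Subgroup.commutator_le]
      intro b hb g _
      have hg : QuotientGroup.mk' A g ∈ Subgroup.centralizer (Bbar : Set (G ⧸ A)) := by
        rw [htop]; trivial
      have hbB : QuotientGroup.mk' A b ∈ Bbar := by
        rw [hBbar]; exact Subgroup.mem_map_of_mem _ hb
      have h1 := Subgroup.mem_centralizer_iff.mp hg _ hbB
      have h2 : QuotientGroup.mk' A ⁅b, g⁆ = 1 := by
        rw [commutatorElement_def, map_mul, map_mul, map_mul, map_inv, map_inv, h1]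
        group
      exact (QuotientGroup.eq_one_iff _).mp h2
    have hKbar := Cfsg.Agent.Lib.Helper9.CS2.isComplementSystem_map (QuotientGroup.mk' A) hπ hK
    have hKc : (Nat.card ((K ⟨r, hr⟩).map (QuotientGroup.mk' A))).Coprime r :=
      (Cfsg.Agent.Lib.Helper9.CS1.coprime_card hKbar ⟨r, hr⟩).symm
    have hKi : ∃ k, ((K ⟨r, hr⟩).map (QuotientGroup.mk' A)).index = r ^ k := ⟨_, hKbar ⟨r, hr⟩⟩
    have hxN : QuotientGroup.mk' A x ∈ Subgroup.normalizer
        (((K ⟨r, hr⟩).map (QuotientGroup.mk' A) : Subgroup (G ⧸ A)) : Set (G ⧸ A)) :=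
      Subgroup.le_normalizer_map _ (Subgroup.mem_map_of_mem _ ((Subgroup.mem_iInf.mp hxD) ⟨r, hr⟩))
    have hxBbar : QuotientGroup.mk' A x ∈ Bbar := by
      rw [hBbar]; exact Subgroup.mem_map_of_mem _ hxB
    have := nc r Bbar hB0 hBr hmin hncbar _ hKc hKi _ hxBbar hxN
    exact (QuotientGroup.eq_one_iff x).mp this

end Cfsg.Agent.S0568
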