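import Mathlib
import Cfsg.Statements.S0570
import Cfsg.Agent.S0001
import Cfsg.Agent.S0026
import Cfsg.Agent.S0045
import Cfsg.Agent.Lib.Helper9.CS2

set_option autoImplicit false
open Pointwise
open Cfsg

namespace Cfsg.Agent.S0570

open Cfsg.Agent.S0045

/-- product formula for a normal subgroup -/
theorem card_sup_mul_card_inf {G : Type*} [Group G] [Finite G] (N X : Subgroup G) [N.Normal] :
    Nat.card (N ⊔ X : Subgroup G) * Nat.card (N ⊓ X : Subgroup G)
      = Nat.card N * Nat.card X := by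
  have cm : ∀ {H K : Subgroup G}, H ≤ K → Nat.card H * H.relIndex K = Nat.card K := by
    intro H K hHK
    have := Subgroup.card_mul_index (H.subgroupOf K)
    rwa [Cfsg.Agent.S0001.card_subgroupOf_of_le hHK] at this
  have e1 : Nat.card N * N.relIndex X = Nat.card (N ⊔ X : Subgroup G) := by
    have := cm (le_sup_left : N ≤ N ⊔ X)
    rwa [Subgroup.relIndex_sup_left] at this
  have e3 : Nat.card (N ⊓ X : Subgroup G) * N.relIndex X = Nat.card X := by
    have := cm (inf_le_right : N ⊓ X ≤ X)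
    rwa [Subgroup.inf_relIndex_right] at this
  rw [← e1, ← e3]; ring

/-- a finite nilpotent group has a normal `p`-complement -/
theorem nil_pcompl_type (N : Type*) [Group N] [Finite N] [Group.IsNilpotent N] (p : ℕ)
    [Fact p.Prime] :
    ∃ Q : Subgroup N, Q.Normal ∧ (Nat.card Q).Coprime p ∧ ∃ k, Q.index = p ^ k := by
  obtain ⟨P⟩ : Nonempty (Sylow p N) := inferInstance
  haveI : (P : Subgroup N).Normal := inferInstance
  have hcop := Cfsg.Agent.S0045.coprime_of_pgroup p P.isPGroup' P.not_dvd_index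
  obtain ⟨Q, hQ⟩ := Subgroup.exists_right_complement'_of_coprime hcop
  obtain ⟨k, hk⟩ := IsPGroup.iff_card.mp P.isPGroup'
  have hQidx : Q.index = Nat.card (P : Subgroup N) := hQ.index_eq_card
  have hQcard : Nat.card Q = (P : Subgroup N).index := hQ.symm.index_eq_card.symm
  have hQhall : (Nat.card Q).Coprime Q.index := by rw [hQidx, hQcard]; exact hcop.symm
  refine ⟨Q, Cfsg.Agent.S0045.hall_normal_of_nilpotent Q hQhall, ?_, k, by rw [hQidx, hk]⟩
  rw [hQcard]
  exact ((Nat.Prime.coprime_iff_not_dvd Fact.out).mpr P.not_dvd_index).symm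

theorem mem_of_coprime_order {N : Type*} [Group N] [Finite N] (p : ℕ) (Q : Subgroup N)
    [Q.Normal] (k : ℕ) (hk : Q.index = p ^ k) (x : N) (hx : (orderOf x).Coprime p) : x ∈ Q := by
  rw [← QuotientGroup.eq_one_iff (N := Q)]
  have h1 : ((x : N ⧸ Q)) ^ orderOf x = 1 := by
    rw [← QuotientGroup.mk_pow, pow_orderOf_eq_one]; rfl
  have h2 : ((x : N ⧸ Q)) ^ (p ^ k) = 1 := by
    rw [← hk, Subgroup.index_eq_card]; exact pow_card_eq_one'
  have h3 := orderOf_dvd_of_pow_eq_one h1
  have h4 := orderOf_dvd_of_pow_eq_one h2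
  have h5 : orderOf (x : N ⧸ Q) = 1 :=
    Nat.Coprime.eq_one_of_dvd ((Nat.Coprime.pow_right k hx).coprime_dvd_left h3) h4
  exact orderOf_eq_one_iff.mp h5

/-- a nilpotent subgroup `N` has a `p`-complement containing all its `p'`-elements -/
theorem nil_pcompl {G : Type*} [Group G] [Finite G] (N : Subgroup G) (hN : Group.IsNilpotent N)
    (p : ℕ) [Fact p.Prime] :
    ∃ Q : Subgroup G, Q ≤ N ∧ (Nat.card Q).Coprime p ∧ (∃ k, Nat.card N = Nat.card Q * p ^ k) ∧
      ∀ x ∈ N, (orderOf x).Coprime p → x ∈ Q := by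
  haveI := hN
  obtain ⟨Q₀, hQn, hQc, k, hk⟩ := nil_pcompl_type N p
  haveI := hQn
  have hcard : Nat.card (Q₀.map N.subtype) = Nat.card Q₀ :=
    (Nat.card_congr (Q₀.equivMapOfInjective N.subtype N.subtype_injective).toEquiv).symm
  refine ⟨Q₀.map N.subtype, Subgroup.map_subtype_le Q₀, by rw [hcard]; exact hQc, ⟨k, ?_⟩, ?_⟩
  · rw [hcard, ← hk]; exact (Subgroup.card_mul_index Q₀).symm
  · intro x hx hox
    have : (⟨x, hx⟩ : N) ∈ Q₀ :=
      mem_of_coprime_order p Q₀ k hk _ (by rwa [Subgroup.orderOf_mk])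
    exact ⟨⟨x, hx⟩, this, rfl⟩

theorem exists_system {G : Type*} [Group G] [Finite G] (F : Subgroup G) [hFn : F.Normal]
    (hF : Group.IsNilpotent F) (C : Subgroup G) (hCnil : Group.IsNilpotent C)
    (hCF : C ⊔ F = ⊤) (p : Nat.Primes) :
    ∃ Kp : Subgroup G, Kp.index = (p : ℕ) ^ (Nat.card G).factorization p ∧
      C ≤ Subgroup.normalizer (Kp : Set G) := by
  haveI : Fact (p : ℕ).Prime := ⟨p.2⟩
  obtain ⟨Cq, hCqC, hCqc, ⟨a, ha⟩, hCqchar⟩ := nil_pcompl C hCnil p
  obtain ⟨Fq, hFqF, hFqc, ⟨b, hb⟩, hFqchar⟩ := nil_pcompl F hF p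
  have hconj : ∀ (N Q : Subgroup G), Q ≤ N → (Nat.card Q).Coprime p →
      (∀ x ∈ N, (orderOf x).Coprime p → x ∈ Q) → ∀ g : G, (∀ n ∈ N, g * n * g⁻¹ ∈ N) →
      ∀ x ∈ Q, g * x * g⁻¹ ∈ Q := by
    intro N Q hQN hQc hchar g hg x hx
    apply hchar _ (hg x (hQN hx))
    have : orderOf (g * x * g⁻¹) = orderOf x := (MulAut.conj g).orderOf_eq x
    rw [this]
    exact Nat.Coprime.coprime_dvd_left (Subgroup.orderOf_dvd_natCard Q hx) hQc
  haveI hFqn : Fq.Normal :=
    ⟨fun x hx g => hconj F Fq hFqF hFqc hFqchar g (fun n hn => hFn.conj_mem n hn g) x hx⟩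
  have hCnorm : C ≤ Subgroup.normalizer (Cq : Set G) := by
    intro c hc
    apply Cfsg.Agent.S0026.mem_normalizer_of_conj_mem
    · exact hconj C Cq hCqC hCqc hCqchar c
        (fun n hn => C.mul_mem (C.mul_mem hc hn) (C.inv_mem hc))
    · intro x hx
      have := hconj C Cq hCqC hCqc hCqchar c⁻¹
        (fun n hn => C.mul_mem (C.mul_mem (C.inv_mem hc) hn) (C.inv_mem (C.inv_mem hc))) x hx
      simpa using this
  refine ⟨Fq ⊔ Cq, ?_, ?_⟩
  · have e1 := card_sup_mul_card_inf Fq Cq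
    have e2 := card_sup_mul_card_inf F C
    have htop : F ⊔ C = ⊤ := by rw [sup_comm]; exact hCF
    rw [htop, Subgroup.card_top] at e2
    have hdvd : Nat.card (Fq ⊓ Cq : Subgroup G) ∣ Nat.card (F ⊓ C : Subgroup G) :=
      Subgroup.card_dvd_of_le (inf_le_inf hFqF hCqC)
    obtain ⟨j, hj⟩ := hdvd
    have hkn := Subgroup.card_mul_index (Fq ⊔ Cq)
    have hpos : 0 < Nat.card (Fq ⊔ Cq : Subgroup G) * Nat.card (Fq ⊓ Cq : Subgroup G) :=
      Nat.mul_pos Nat.card_pos Nat.card_pos
    have key : Nat.card (Fq ⊔ Cq : Subgroup G) * Nat.card (Fq ⊓ Cq : Subgroup G)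
          * ((Fq ⊔ Cq).index * j)
        = Nat.card (Fq ⊔ Cq : Subgroup G) * Nat.card (Fq ⊓ Cq : Subgroup G)
          * (p : ℕ) ^ (a + b) := by
      calc Nat.card (Fq ⊔ Cq : Subgroup G) * Nat.card (Fq ⊓ Cq : Subgroup G)
            * ((Fq ⊔ Cq).index * j)
          = (Nat.card (Fq ⊔ Cq : Subgroup G) * (Fq ⊔ Cq).index)
            * (Nat.card (Fq ⊓ Cq : Subgroup G) * j) := by ring
        _ = Nat.card G * Nat.card (F ⊓ C : Subgroup G) := by rw [hkn, hj]
        _ = Nat.card F * Nat.card C := e2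
        _ = (Nat.card Fq * (p : ℕ) ^ b) * (Nat.card Cq * (p : ℕ) ^ a) := by rw [hb, ha]
        _ = (Nat.card Fq * Nat.card Cq) * (p : ℕ) ^ (a + b) := by ring
        _ = Nat.card (Fq ⊔ Cq : Subgroup G) * Nat.card (Fq ⊓ Cq : Subgroup G)
            * (p : ℕ) ^ (a + b) := by rw [← e1]
    have htj : (Fq ⊔ Cq).index * j = (p : ℕ) ^ (a + b) := Nat.eq_of_mul_eq_mul_left hpos key
    obtain ⟨m, -, hm⟩ := (Nat.dvd_prime_pow p.2).mp (Dvd.intro _ htj)
    have hkc : (Nat.card (Fq ⊔ Cq : Subgroup G)).Coprime p := by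
      have : Nat.card (Fq ⊔ Cq : Subgroup G) ∣ Nat.card Fq * Nat.card Cq := Dvd.intro _ e1
      exact Nat.Coprime.coprime_dvd_left this (Nat.Coprime.mul_left hFqc hCqc)
    have h3 : Nat.card (Fq ⊔ Cq : Subgroup G) * (p : ℕ) ^ m = Nat.card G := by
      rw [← hm]; exact hkn
    have h4 : (Nat.card G).factorization p = m := by
      rw [← h3, Nat.factorization_mul Nat.card_pos.ne' (pow_ne_zero _ p.2.ne_zero),
        Finsupp.add_apply, Nat.Prime.factorization_pow p.2,
        Nat.factorization_eq_zero_of_not_dvd ((Nat.Prime.coprime_iff_not_dvd p.2).mp hkc.symm)]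
      simp
    rw [h4]; exact hm
  · intro c hc
    apply mem_normalizer_of_smul_eq
    rw [Subgroup.smul_sup, Subgroup.Normal.conj_smul_eq_self,
      smul_eq_of_mem_normalizer (hCnorm hc)]

theorem systemNormalizer_conj {G : Type*} [Group G] (K : Nat.Primes → Subgroup G) (g : G) :
    Cfsg.systemNormalizer (fun p => MulAut.conj g • K p)
      = MulAut.conj g • Cfsg.systemNormalizer K := by
  ext x
  rw [Subgroup.mem_pointwise_smul_iff_inv_smul_mem]
  simp only [Cfsg.systemNormalizer, Subgroup.mem_iInf, MulAut.smul_def, MulAut.conj_inv_apply]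
  refine forall_congr' (fun p => ?_)
  constructor
  · intro h
    apply mem_normalizer_of_smul_eq
    have h1 := smul_eq_of_mem_normalizer h
    rw [conj_mul_smul, conj_mul_smul, h1, conj_inv_smul_conj_smul]
  · intro h
    apply mem_normalizer_of_smul_eq
    have h1 := smul_eq_of_mem_normalizer h
    have e : x * g = g * (g⁻¹ * x * g) := by group
    rw [← conj_mul_smul, e, conj_mul_smul, h1]

/-- Let G be a finite group with a nilpotent normal subgroup F such that G modulo F is nilpotent (nilpotent length at most two). Then a subgroup of G is a Carter subgroup if and only if it is the system normalizer of some Hall complement system. -/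
theorem result {G : Type*} [Group G] [Finite G] (F : Subgroup G) [F.Normal] (hF : Group.IsNilpotent F) (hGF : Group.IsNilpotent (G ⧸ F)) (C : Subgroup G) : Cfsg.IsCarterSubgroup C ↔ ∃ K : Nat.Primes → Subgroup G, Cfsg.IsComplementSystem K ∧ C = Cfsg.systemNormalizer K := by
  haveI := hF
  haveI := hGF
  haveI hsolv : Group.IsSolvable G :=
    Group.isSolvable_of_ker_le_range F.subtype (QuotientGroup.mk' F)
      (by rw [QuotientGroup.ker_mk', Subgroup.range_subtype])
  have IHc : ∀ (H : Type _) [Group H] [Finite H] [Group.IsSolvable H],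
      Nat.card H < Nat.card G → ConjProp H := fun H _ _ _ _ => (Cfsg.Agent.S0045.main _ H rfl).2
  have fwd : ∀ C : Subgroup G, IsCarter C → ∃ K : Nat.Primes → Subgroup G,
      Cfsg.IsComplementSystem K ∧ C = Cfsg.systemNormalizer K := by
    intro C hC
    have hCF : C ⊔ F = ⊤ := by
      have h1 := carter_map hC F (normalizer_sup IHc hC F)
      have h2 := carter_eq_top h1
      have h3 := congrArg (Subgroup.comap (QuotientGroup.mk' F)) h2
      rwa [Subgroup.comap_map_eq, QuotientGroup.ker_mk', Subgroup.comap_top] at h3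
    choose K hKidx hKnorm using exists_system F hF C hC.1 hCF
    refine ⟨K, hKidx, ?_⟩
    have hCD : C ≤ Cfsg.systemNormalizer K := le_iInf hKnorm
    have hDnil := Cfsg.Agent.Lib.Helper9.CS1.isNilpotent_systemNormalizer K hKidx
    haveI := hDnil
    have h1 := carter_eq_top (carter_subgroupOf hC hCD)
    apply le_antisymm hCD
    exact Subgroup.subgroupOf_eq_top.mp h1
  constructor
  · exact fwd C
  · rintro ⟨K, hK, rfl⟩
    obtain ⟨C₀, hC₀⟩ := (Cfsg.Agent.S0045.main _ G rfl).1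
    obtain ⟨K₀, hK₀, rfl⟩ := fwd C₀ hC₀
    obtain ⟨g, hg⟩ := Cfsg.Agent.Lib.Helper9.CS2.conj_of_isComplementSystem K₀ K hK₀ hK
    have hKeq : K = fun p => MulAut.conj g • K₀ p := funext (fun p => (hg p).symm)
    rw [hKeq, systemNormalizer_conj]
    exact carter_conj hC₀ g

end Cfsg.Agent.S0570
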