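import Mathlib
import Cfsg.Statements.S0569
import Cfsg.Agent.S0001
import Cfsg.Agent.S0006
import Cfsg.Agent.S0026
import Cfsg.Agent.S0043
import Cfsg.Agent.S0045
import Cfsg.Agent.S0568
import Cfsg.Agent.S0570
import Cfsg.Agent.Lib.Helper9.CS3
import Cfsg.Agent.Lib.Helper91.Hall

set_option autoImplicit false
open Pointwise
open Cfsg

namespace Cfsg.Agent.S0569

open Cfsg.Agent.S0045

universe u

/-- a non-normal maximal subgroup `M` of a finite solvable group has index a power of a prime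
`r`, and contains the normaliser of each Hall `r'`-subgroup of `G` lying in `M`. -/
theorem max_lemma {G : Type u} [Group G] [Finite G] [Group.IsSolvable G] (M : Subgroup G)
    (hMtop : M ≠ ⊤) (hMmax : ∀ M' : Subgroup G, M < M' → M' = ⊤) (hMn : ¬ M.Normal) :
    ∃ r : ℕ, r.Prime ∧ (∃ j, M.index = r ^ j) ∧ ∀ K : Subgroup G, K ≤ M →
      (Nat.card K).Coprime r → (∃ k, K.index = r ^ k) →
      Subgroup.normalizer (K : Set G) ≤ M := by
  classical
  obtain ⟨A, hA⟩ : ∃ A : Subgroup G, A = M.normalCore := ⟨_, rfl⟩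
  haveI hAn : A.Normal := by rw [hA]; infer_instance
  have hAM : A ≤ M := by rw [hA]; exact M.normalCore_le
  have hπ : Function.Surjective (QuotientGroup.mk' A) := QuotientGroup.mk'_surjective A
  have hnt : Nontrivial (G ⧸ A) := by
    rw [← not_subsingleton_iff_nontrivial]
    intro hs
    apply hMtop
    rw [Subgroup.eq_top_iff']
    intro y
    apply hAM
    rw [← QuotientGroup.eq_one_iff (N := A)]
    exact Subsingleton.elim _ _
  obtain ⟨Bb, hBn, hB0, hBmin⟩ := Cfsg.Agent.S0006.exists_min_normal (G ⧸ A)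
  haveI := hBn
  obtain ⟨hBc, r, hr, hexp⟩ := Cfsg.Agent.S0043.result Bb hB0 hBmin
  haveI : Fact r.Prime := ⟨hr⟩
  have hBr : IsPGroup r Bb := by
    intro a
    refine ⟨1, ?_⟩
    rw [pow_one]
    exact Subtype.ext (hexp a a.2)
  have hBcomm : ∀ x ∈ Bb, ∀ y ∈ Bb, x * y = y * x := fun x hx y hy => setLike_mul_comm hx hy
  obtain ⟨Mb, hMb⟩ : ∃ Mb : Subgroup (G ⧸ A), Mb = M.map (QuotientGroup.mk' A) := ⟨_, rfl⟩
  have hcomapM : Mb.comap (QuotientGroup.mk' A) = M := by
    rw [hMb, Subgroup.comap_map_eq, QuotientGroup.ker_mk', sup_eq_left.mpr hAM]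
  have hmemM : ∀ g : G, QuotientGroup.mk' A g ∈ Mb ↔ g ∈ M := by
    intro g; rw [← Subgroup.mem_comap, hcomapM]
  have hBM : ¬ Bb ≤ Mb := by
    intro h
    apply hB0
    have h1 : Bb.comap (QuotientGroup.mk' A) ≤ M := by
      rw [← hcomapM]; exact Subgroup.comap_mono h
    haveI : (Bb.comap (QuotientGroup.mk' A)).Normal := hBn.comap _
    have h2 : Bb.comap (QuotientGroup.mk' A) ≤ A :=
      (Subgroup.normal_le_normalCore.mpr h1).trans (le_of_eq hA.symm)
    rw [eq_bot_iff]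
    intro y hy
    obtain ⟨g, rfl⟩ := hπ y
    exact (QuotientGroup.eq_one_iff g).mpr (h2 hy)
  have hsup : Mb ⊔ Bb = ⊤ := by
    have h1 : M < (Mb ⊔ Bb).comap (QuotientGroup.mk' A) := by
      refine lt_of_le_of_ne (by rw [← hcomapM]; exact Subgroup.comap_mono le_sup_left) ?_
      intro heq
      apply hBM
      intro y hy
      obtain ⟨g, rfl⟩ := hπ y
      have : g ∈ (Mb ⊔ Bb).comap (QuotientGroup.mk' A) := (le_sup_right : Bb ≤ Mb ⊔ Bb) hy
      rw [← heq] at this
      exact (hmemM g).mpr this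
    have h2 := hMmax _ h1
    rw [← Subgroup.map_comap_eq_self_of_surjective hπ (Mb ⊔ Bb), h2,
      Subgroup.map_top_of_surjective _ hπ]
  have hdec : ∀ g : G ⧸ A, ∃ m ∈ Mb, ∃ b ∈ Bb, g = m * b := by
    intro g
    have hg : g ∈ ((Mb ⊔ Bb : Subgroup (G ⧸ A)) : Set (G ⧸ A)) := by rw [hsup]; trivial
    rw [Subgroup.mul_normal] at hg
    obtain ⟨m, hm, b, hb, rfl⟩ := hg
    exact ⟨m, hm, b, hb, rfl⟩
  have hinf : Mb ⊓ Bb = ⊥ := by
    have hWn : (Mb ⊓ Bb).Normal := by
      constructor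
      intro w hw g
      obtain ⟨hwM, hwB⟩ := Subgroup.mem_inf.mp hw
      obtain ⟨m, hm, b, hb, rfl⟩ := hdec g
      have e : m * b * w * (m * b)⁻¹ = m * w * m⁻¹ := by
        have := hBcomm b hb w hwB
        calc m * b * w * (m * b)⁻¹ = m * (b * w) * b⁻¹ * m⁻¹ := by group
          _ = m * (w * b) * b⁻¹ * m⁻¹ := by rw [this]
          _ = m * w * m⁻¹ := by group
      rw [e]
      exact Subgroup.mem_inf.mpr ⟨Mb.mul_mem (Mb.mul_mem hm hwM) (Mb.inv_mem hm),
        hBn.conj_mem w hwB m⟩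
    rcases hBmin _ hWn inf_le_right with h | h
    · exact h
    · exact absurd (inf_eq_right.mp h) hBM
  have hnc : Subgroup.centralizer (Bb : Set (G ⧸ A)) ≠ ⊤ := by
    intro htop
    apply hMn
    have hMbn : Mb.Normal := by
      constructor
      intro x hx g
      obtain ⟨m, hm, b, hb, rfl⟩ := hdec g
      have hbx : b * x = x * b := by
        have hxc : x ∈ Subgroup.centralizer (Bb : Set (G ⧸ A)) := by rw [htop]; trivial
        exact Subgroup.mem_centralizer_iff.mp hxc b hb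
      have e : m * b * x * (m * b)⁻¹ = m * x * m⁻¹ := by
        calc m * b * x * (m * b)⁻¹ = m * (b * x) * b⁻¹ * m⁻¹ := by group
          _ = m * (x * b) * b⁻¹ * m⁻¹ := by rw [hbx]
          _ = m * x * m⁻¹ := by group
      rw [e]
      exact Mb.mul_mem (Mb.mul_mem hm hx) (Mb.inv_mem hm)
    rw [← hcomapM]; exact hMbn.comap _
  refine ⟨r, hr, ?_, ?_⟩
  · obtain ⟨j, hj⟩ := IsPGroup.iff_card.mp hBr
    refine ⟨j, ?_⟩
    have h1 : M.index = Mb.index := by
      rw [← hcomapM, Subgroup.index_comap_of_surjective _ hπ]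
    have h2 : Mb.index = Mb.relIndex (Mb ⊔ Bb) := by rw [hsup, Subgroup.relIndex_top_right]
    rw [h1, h2, Cfsg.Agent.Lib.Helper9.SubnSylow.relIndex_sup_eq_of_normal,
      ← Subgroup.inf_relIndex_right, hinf, Subgroup.relIndex_bot_left, hj]
  · rintro K hKM hKc ⟨k, hk⟩ x hx
    have hKbc : (Nat.card (K.map (QuotientGroup.mk' A))).Coprime r :=
      Nat.Coprime.coprime_dvd_left (Subgroup.card_map_dvd K _) hKc
    have hKbi : ∃ k', (K.map (QuotientGroup.mk' A)).index = r ^ k' := by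
      have := Subgroup.index_map_dvd K hπ
      rw [hk] at this
      obtain ⟨k', -, hk'⟩ := (Nat.dvd_prime_pow hr).mp this
      exact ⟨k', hk'⟩
    have hKbM : K.map (QuotientGroup.mk' A) ≤ Mb := by rw [hMb]; exact Subgroup.map_mono hKM
    have hxb : QuotientGroup.mk' A x ∈ Subgroup.normalizer
        ((K.map (QuotientGroup.mk' A) : Subgroup (G ⧸ A)) : Set (G ⧸ A)) :=
      Subgroup.le_normalizer_map _ (Subgroup.mem_map_of_mem _ hx)
    obtain ⟨m, hm, b, hb, hmb⟩ := hdec (QuotientGroup.mk' A x)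
    have hbK : ∀ y ∈ K.map (QuotientGroup.mk' A), b * y = y * b := by
      intro y hy
      have h1 : (QuotientGroup.mk' A x) * y * (QuotientGroup.mk' A x)⁻¹ ∈ Mb :=
        hKbM ((Subgroup.mem_normalizer_iff.mp hxb y).mp hy)
      rw [hmb] at h1
      have h2 : b * y * b⁻¹ ∈ Mb := by
        have := Mb.mul_mem (Mb.mul_mem (Mb.inv_mem hm) h1) hm
        have e : m⁻¹ * (m * b * y * (m * b)⁻¹) * m = b * y * b⁻¹ := by group
        rwa [e] at this
      have h3 : b * y * b⁻¹ * y⁻¹ ∈ Mb ⊓ Bb := by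
        refine Subgroup.mem_inf.mpr ⟨Mb.mul_mem h2 (Mb.inv_mem (hKbM hy)), ?_⟩
        have : y * b⁻¹ * y⁻¹ ∈ Bb := hBn.conj_mem _ (Bb.inv_mem hb) y
        have e : b * y * b⁻¹ * y⁻¹ = b * (y * b⁻¹ * y⁻¹) := by group
        rw [e]; exact Bb.mul_mem hb this
      rw [hinf, Subgroup.mem_bot] at h3
      have e : b * y = b * y * b⁻¹ * y⁻¹ * (y * b) := by group
      rw [e, h3, one_mul]
    have hbN : b ∈ Subgroup.normalizer
        ((K.map (QuotientGroup.mk' A) : Subgroup (G ⧸ A)) : Set (G ⧸ A)) := by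
      apply Cfsg.Agent.S0026.mem_normalizer_of_conj_mem
      · intro y hy; rw [hbK y hy, mul_inv_cancel_right]; exact hy
      · intro y hy
        rw [mul_assoc, ← hbK y hy, inv_mul_cancel_left]; exact hy
    have hb1 := Cfsg.Agent.S0568.nc r Bb hB0 hBr hBmin hnc _ hKbc hKbi b hb hbN
    rw [hb1, mul_one] at hmb
    rw [← hmemM, hmb]; exact hm

/-- a complement system of a subgroup `M` extends to one of `G` -/
theorem exists_extension {G : Type u} [Group G] [Finite G] [Group.IsSolvable G] (M : Subgroup G)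
    (K₂ : Nat.Primes → Subgroup M) (hK₂ : Cfsg.IsComplementSystem K₂) (p : Nat.Primes) :
    ∃ Kp : Subgroup G, Kp.index = (p : ℕ) ^ (Nat.card G).factorization p ∧
      Kp ⊓ M = (K₂ p).map M.subtype := by
  have hHM : (K₂ p).map M.subtype ≤ M := Subgroup.map_subtype_le _
  have hHcard : Nat.card ((K₂ p).map M.subtype) = Nat.card (K₂ p) :=
    (Nat.card_congr ((K₂ p).equivMapOfInjective M.subtype M.subtype_injective).toEquiv).symm
  have hHc : (Nat.card ((K₂ p).map M.subtype)).Coprime p := by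
    rw [hHcard]; exact (Cfsg.Agent.Lib.Helper9.CS1.coprime_card hK₂ p).symm
  have hpv : (p : ℕ) ^ (Nat.card G).factorization p ∣ Nat.card G := Nat.ordProj_dvd _ _
  obtain ⟨m, hm⟩ := hpv
  have hG : Nat.card G = m * (p : ℕ) ^ (Nat.card G).factorization p := by
    rw [mul_comm]; exact hm
  have hmpos : 0 < m := by
    rcases Nat.eq_zero_or_pos m with h | h
    · rw [h, mul_zero] at hm
      exact absurd hm Nat.card_pos.ne'
    · exact h
  have hmp : m.Coprime p := by
    have h1 : m = Nat.card G / (p : ℕ) ^ (Nat.card G).factorization p :=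
      (Nat.div_eq_of_eq_mul_right (pow_pos p.2.pos _) hm).symm
    rw [h1]
    exact (Nat.coprime_ordCompl p.2 Nat.card_pos.ne').symm
  obtain ⟨Kp, hKpcard, hHK⟩ := Cfsg.Agent.Lib.Helper91.Hall.hall_contain m
    ((p : ℕ) ^ (Nat.card G).factorization p) hG (Nat.Coprime.pow_right _ hmp)
    ((K₂ p).map M.subtype) (Nat.Coprime.pow_right _ hHc)
  have hKpidx : Kp.index = (p : ℕ) ^ (Nat.card G).factorization p := by
    have := Kp.card_mul_index
    rw [hKpcard] at this
    rw [hG] at this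
    exact Nat.eq_of_mul_eq_mul_left hmpos this
  refine ⟨Kp, hKpidx, ?_⟩
  symm
  apply Subgroup.eq_of_le_of_card_ge (le_inf hHK hHM)
  apply Nat.le_of_dvd Nat.card_pos
  have h1 : Nat.card (Kp ⊓ M : Subgroup G) ∣ Nat.card M := Subgroup.card_dvd_of_le inf_le_right
  have h2 : Nat.card M = Nat.card ((K₂ p).map M.subtype)
      * (p : ℕ) ^ (Nat.card M).factorization p := by
    rw [hHcard]; exact (Cfsg.Agent.Lib.Helper9.CS1.card_mul_pow_eq hK₂ p).symm
  have h3 : (Nat.card (Kp ⊓ M : Subgroup G)).Coprime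
      ((p : ℕ) ^ (Nat.card M).factorization p) := by
    apply Nat.Coprime.pow_right
    apply Nat.Coprime.coprime_dvd_left (Subgroup.card_dvd_of_le inf_le_left)
    rw [hKpcard]; exact hmp
  rw [h2] at h1
  exact (Nat.Coprime.dvd_mul_right h3).mp h1

/-- some Carter subgroup contains some system normaliser -/
theorem pair (n : ℕ) : ∀ (G : Type u) [Group G] [Finite G] [Group.IsSolvable G],
    Nat.card G = n → ∃ (C : Subgroup G) (K : Nat.Primes → Subgroup G),
      IsCarter C ∧ Cfsg.IsComplementSystem K ∧ Cfsg.systemNormalizer K ≤ C := by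
  induction n using Nat.strong_induction_on with
  | _ n ih =>
  intro G _ _ _ hn
  classical
  by_cases hnil : Group.IsNilpotent G
  · haveI := hnil
    have hex : ∀ p : Nat.Primes, ∃ H : Subgroup G,
        H.index = (p : ℕ) ^ (Nat.card G).factorization p :=
      fun p => Cfsg.Agent.Lib.Helper9.CS3.exists_pComplement _ G rfl p p.2
    choose K hK using hex
    exact ⟨⊤, K, carter_top, hK, le_top⟩
  obtain ⟨C, hC⟩ := (Cfsg.Agent.S0045.main _ G rfl).1
  have hCtop : C ≠ ⊤ := by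
    rintro rfl
    exact hnil (nilpotent_of_top hC.1)
  obtain ⟨M, hMco, hCM⟩ := (eq_top_or_exists_le_coatom C).resolve_left hCtop
  have hMtop : M ≠ ⊤ := hMco.1
  have hMmax : ∀ M' : Subgroup G, M < M' → M' = ⊤ := fun M' h => hMco.2 M' h
  have hMn : ¬ M.Normal := by
    intro hMnorm
    apply hMtop
    rw [Subgroup.eq_top_iff']
    intro g
    have h1 : MulAut.conj g • C ≤ M := by
      calc MulAut.conj g • C ≤ MulAut.conj g • M :=
            Subgroup.pointwise_smul_le_pointwise_smul_iff.mpr hCM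
        _ = M := Subgroup.Normal.conj_smul_eq_self g M
    obtain ⟨m, hm⟩ := (Cfsg.Agent.S0045.main _ M rfl).2 _ _ (carter_subgroupOf hC hCM)
      (carter_subgroupOf (carter_conj hC g) h1)
    have h2 := Cfsg.Agent.S0001.conj_of_subgroupOf m hCM h1 hm
    have h3 : MulAut.conj ((m : G)⁻¹ * g) • C = C := by
      rw [conj_mul_smul, ← h2, conj_inv_smul_conj_smul]
    have h4 := mem_normalizer_of_smul_eq h3
    rw [hC.2] at h4
    have : g = (m : G) * ((m : G)⁻¹ * g) := by group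
    rw [this]; exact M.mul_mem m.2 (hCM h4)
  obtain ⟨r, hr, ⟨j, hj⟩, hmax⟩ := max_lemma M hMtop hMmax hMn
  have hlt : Nat.card M < n := hn ▸ Cfsg.Agent.S0001.card_lt_of_ne_top hMtop
  obtain ⟨C₁, K₁, hC₁, hK₁, hD₁⟩ := ih _ hlt M rfl
  obtain ⟨m, hm⟩ := (Cfsg.Agent.S0045.main _ M rfl).2 _ _ hC₁ (carter_subgroupOf hC hCM)
  have hK₂ := Cfsg.Agent.Lib.Helper9.CS2.isComplementSystem_conj m hK₁
  have hD₂ : Cfsg.systemNormalizer (fun p => MulAut.conj m • K₁ p) ≤ C.subgroupOf M := by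
    rw [Cfsg.Agent.S0570.systemNormalizer_conj, ← hm]
    exact Subgroup.pointwise_smul_le_pointwise_smul_iff.mpr hD₁
  choose K hKidx hKinf using exists_extension M (fun p => MulAut.conj m • K₁ p) hK₂
  refine ⟨C, K, hC, hKidx, ?_⟩
  intro d hd
  have hdN : ∀ p, d ∈ Subgroup.normalizer (K p : Set G) := fun p => (Subgroup.mem_iInf.mp hd) p
  have hKrc : (Nat.card (K ⟨r, hr⟩)).Coprime r :=
    (Cfsg.Agent.Lib.Helper9.CS1.coprime_card hKidx ⟨r, hr⟩).symm
  have hKr : K ⟨r, hr⟩ ≤ M := by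
    rw [← inf_eq_left]
    apply Subgroup.eq_of_le_of_card_ge inf_le_left
    apply Nat.le_of_dvd Nat.card_pos
    have e1 : Nat.card (K ⟨r, hr⟩) * r ^ (Nat.card G).factorization r = Nat.card G :=
      Cfsg.Agent.Lib.Helper9.CS1.card_mul_pow_eq hKidx ⟨r, hr⟩
    have e2 : Nat.card (MulAut.conj m • K₁ ⟨r, hr⟩ : Subgroup M)
        * r ^ (Nat.card M).factorization r = Nat.card M :=
      Cfsg.Agent.Lib.Helper9.CS1.card_mul_pow_eq hK₂ ⟨r, hr⟩
    have e3 := M.card_mul_index
    rw [hj] at e3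
    have e4 : Nat.card (K ⟨r, hr⟩ ⊓ M : Subgroup G) = Nat.card (MulAut.conj m • K₁ ⟨r, hr⟩ : Subgroup M) := by
      rw [hKinf ⟨r, hr⟩]
      exact (Nat.card_congr (Subgroup.equivMapOfInjective _ M.subtype
        M.subtype_injective).toEquiv).symm
    rw [e4]
    have e5 : Nat.card (K ⟨r, hr⟩) * r ^ (Nat.card G).factorization r
        = Nat.card (MulAut.conj m • K₁ ⟨r, hr⟩ : Subgroup M)
          * r ^ ((Nat.card M).factorization r + j) := by
      rw [pow_add, ← mul_assoc, e2, e3]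
      exact e1
    have h1 : Nat.card (K ⟨r, hr⟩) ∣ Nat.card (MulAut.conj m • K₁ ⟨r, hr⟩ : Subgroup M)
          * r ^ ((Nat.card M).factorization r + j) := Dvd.intro _ e5
    exact (Nat.Coprime.dvd_mul_right (Nat.Coprime.pow_right _ hKrc)).mp h1
  have hdM : d ∈ M := hmax (K ⟨r, hr⟩) hKr hKrc ⟨_, hKidx ⟨r, hr⟩⟩ (hdN ⟨r, hr⟩)
  have hd₂ : (⟨d, hdM⟩ : M) ∈ Cfsg.systemNormalizer (fun p => MulAut.conj m • K₁ p) := by
    refine Subgroup.mem_iInf.mpr (fun p => ?_)
    have h1 : d ∈ Subgroup.normalizer ((K p ⊓ M : Subgroup G) : Set G) := by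
      apply mem_normalizer_of_smul_eq
      rw [Subgroup.smul_inf, smul_eq_of_mem_normalizer (hdN p),
        Subgroup.conj_smul_eq_self_of_mem hdM]
    rw [hKinf p] at h1
    have h2 : (⟨d, hdM⟩ : M) ∈ (Subgroup.normalizer
        ((((MulAut.conj m • K₁ p : Subgroup M)).map M.subtype : Subgroup G) : Set G)).subgroupOf M :=
      Subgroup.mem_subgroupOf.mpr h1
    rw [Subgroup.subgroupOf_normalizer_eq (Subgroup.map_subtype_le _)] at h2
    have e : ((MulAut.conj m • K₁ p : Subgroup M).map M.subtype).subgroupOf M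
        = MulAut.conj m • K₁ p := Subgroup.comap_map_eq_self_of_injective M.subtype_injective _
    rwa [e] at h2
  exact Subgroup.mem_subgroupOf.mp (hD₂ hd₂)

/-- In a finite solvable group: each nilpotent self-normalizing subgroup contains the system normalizer of some Hall complement system, and the system normalizer of any Hall complement system lies in some nilpotent self-normalizing subgroup. -/
theorem result {G : Type*} [Group G] [Finite G] [Group.IsSolvable G] : (∀ C : Subgroup G, Cfsg.IsCarterSubgroup C → ∃ K : Nat.Primes → Subgroup G, Cfsg.IsComplementSystem K ∧ Cfsg.systemNormalizer K ≤ C) ∧ ∀ K : Nat.Primes → Subgroup G, Cfsg.IsComplementSystem K → ∃ C : Subgroup G, Cfsg.IsCarterSubgroup C ∧ Cfsg.systemNormalizer K ≤ C := by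
  obtain ⟨C₀, K₀, hC₀, hK₀, hD₀⟩ := pair _ G rfl
  constructor
  · intro C hC
    obtain ⟨g, hg⟩ := (Cfsg.Agent.S0045.main _ G rfl).2 C₀ C hC₀ hC
    refine ⟨fun p => MulAut.conj g • K₀ p,
      Cfsg.Agent.Lib.Helper9.CS2.isComplementSystem_conj g hK₀, ?_⟩
    rw [Cfsg.Agent.S0570.systemNormalizer_conj, ← hg]
    exact Subgroup.pointwise_smul_le_pointwise_smul_iff.mpr hD₀
  · intro K hK
    obtain ⟨g, hg⟩ := Cfsg.Agent.Lib.Helper9.CS2.conj_of_isComplementSystem K₀ K hK₀ hK
    refine ⟨MulAut.conj g • C₀, carter_conj hC₀ g, ?_⟩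
    have hKeq : K = fun p => MulAut.conj g • K₀ p := funext (fun p => (hg p).symm)
    rw [hKeq, Cfsg.Agent.S0570.systemNormalizer_conj]
    exact Subgroup.pointwise_smul_le_pointwise_smul_iff.mpr hD₀

end Cfsg.Agent.S0569
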