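import Mathlib
import Cfsg.Statements.S0572

set_option autoImplicit false
open Cfsg

namespace Cfsg.Agent.S0572

open scoped commutatorElement

variable {G : Type*} [Group G]

theorem L1 (g x y : G) : g * ⁅x, y⁆ * g⁻¹ = ⁅g * x * g⁻¹, g * y * g⁻¹⁆ := by
  simp only [commutatorElement_def]; group

theorem L2 (x y z : G) : ⁅x * y, z⁆ = x * ⁅y, z⁆ * x⁻¹ * ⁅x, z⁆ := by
  simp only [commutatorElement_def]; group

theorem L3 (x y z : G) : ⁅x, y * z⁆ = ⁅x, y⁆ * (y * ⁅x, z⁆ * y⁻¹) := by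
  simp only [commutatorElement_def]; group

theorem conj_eq_of_comm (g x : G) (h : g * x = x * g) : g * x * g⁻¹ = x := by
  rw [h]; group

theorem comm_eq_one (x y : G) (h : x * y = y * x) : ⁅x, y⁆ = 1 :=
  commutatorElement_eq_one_iff_mul_comm.mpr h

theorem key (A B : Subgroup G) (hAc : ∀ x ∈ A, ∀ y ∈ A, x * y = y * x)
    (hBc : ∀ x ∈ B, ∀ y ∈ B, x * y = y * x) (hAB : ∀ g : G, ∃ a ∈ A, ∃ b ∈ B, g = a * b)
    (a c : G) (ha : a ∈ A) (hc : c ∈ A) (b d : G) (hb : b ∈ B) (hd : d ∈ B) :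
    (c * d) * ⁅a, b⁆ * (c * d)⁻¹ = (d * c) * ⁅a, b⁆ * (d * c)⁻¹ := by
  obtain ⟨a', ha', b', hb', h1⟩ := hAB (d * a * d⁻¹)
  obtain ⟨a₂, ha₂, b₂, hb₂, h2⟩ := hAB ((c * b * c⁻¹)⁻¹)
  have h2' : c * b * c⁻¹ = b₂⁻¹ * a₂⁻¹ := by
    have : c * b * c⁻¹ = ((c * b * c⁻¹)⁻¹)⁻¹ := by group
    rw [this, h2]; group
  have hb₂' : b₂⁻¹ ∈ B := B.inv_mem hb₂
  have ha₂' : a₂⁻¹ ∈ A := A.inv_mem ha₂
  have e1 : (c * d) * ⁅a, b⁆ * (c * d)⁻¹ = ⁅a', b₂⁻¹⁆ := by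
    have : (c * d) * ⁅a, b⁆ * (c * d)⁻¹ = c * (d * ⁅a, b⁆ * d⁻¹) * c⁻¹ := by group
    rw [this, L1 d, conj_eq_of_comm d b (hBc d hd b hb), h1, L2, comm_eq_one b' b (hBc b' hb' b hb)]
    have : a' * 1 * a'⁻¹ * ⁅a', b⁆ = ⁅a', b⁆ := by group
    rw [this, L1 c, conj_eq_of_comm c a' (hAc c hc a' ha'), h2', L3,
      comm_eq_one a' a₂⁻¹ (hAc a' ha' _ ha₂')]
    group
  have e2 : (d * c) * ⁅a, b⁆ * (d * c)⁻¹ = ⁅a', b₂⁻¹⁆ := by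
    have : (d * c) * ⁅a, b⁆ * (d * c)⁻¹ = d * (c * ⁅a, b⁆ * c⁻¹) * d⁻¹ := by group
    rw [this, L1 c, conj_eq_of_comm c a (hAc c hc a ha), h2', L3,
      comm_eq_one a a₂⁻¹ (hAc a ha _ ha₂')]
    have : ⁅a, b₂⁻¹⁆ * (b₂⁻¹ * 1 * b₂⁻¹⁻¹) = ⁅a, b₂⁻¹⁆ := by group
    rw [this, L1 d, conj_eq_of_comm d b₂⁻¹ (hBc d hd _ hb₂'), h1, L2,
      comm_eq_one b' b₂⁻¹ (hBc b' hb' _ hb₂')]
    group
  rw [e1, e2]

theorem comm_comm (A B : Subgroup G) (hAc : ∀ x ∈ A, ∀ y ∈ A, x * y = y * x)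
    (hBc : ∀ x ∈ B, ∀ y ∈ B, x * y = y * x) (hAB : ∀ g : G, ∃ a ∈ A, ∃ b ∈ B, g = a * b)
    (a c : G) (ha : a ∈ A) (hc : c ∈ A) (b d : G) (hb : b ∈ B) (hd : d ∈ B) :
    ⁅a, b⁆ * ⁅c, d⁆ = ⁅c, d⁆ * ⁅a, b⁆ := by
  have h := key A B hAc hBc hAB a c⁻¹ ha (A.inv_mem hc) b d⁻¹ hb (B.inv_mem hd)
  have e : ⁅c, d⁆ = (d⁻¹ * c⁻¹)⁻¹ * (c⁻¹ * d⁻¹) := by
    simp only [commutatorElement_def]; group
  rw [e]
  calc ⁅a, b⁆ * ((d⁻¹ * c⁻¹)⁻¹ * (c⁻¹ * d⁻¹))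
      = (d⁻¹ * c⁻¹)⁻¹ * ((d⁻¹ * c⁻¹) * ⁅a, b⁆ * (d⁻¹ * c⁻¹)⁻¹) * (c⁻¹ * d⁻¹) := by group
    _ = (d⁻¹ * c⁻¹)⁻¹ * ((c⁻¹ * d⁻¹) * ⁅a, b⁆ * (c⁻¹ * d⁻¹)⁻¹) * (c⁻¹ * d⁻¹) := by rw [h]
    _ = (d⁻¹ * c⁻¹)⁻¹ * (c⁻¹ * d⁻¹) * ⁅a, b⁆ := by group

theorem result {G : Type*} [Group G] (A B : Subgroup G) [IsMulCommutative A] [IsMulCommutative B] (hAB : ∀ g : G, ∃ a ∈ A, ∃ b ∈ B, g = a * b) : derivedSeries G 2 = ⊥ := by
  have hAc : ∀ x ∈ A, ∀ y ∈ A, x * y = y * x := by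
    intro x hx y hy
    exact congrArg Subtype.val (mul_comm' (⟨x, hx⟩ : A) ⟨y, hy⟩)
  have hBc : ∀ x ∈ B, ∀ y ∈ B, x * y = y * x := by
    intro x hx y hy
    exact congrArg Subtype.val (mul_comm' (⟨x, hx⟩ : B) ⟨y, hy⟩)
  -- N = ⁅A, B⁆ is commutative
  have hNcomm : IsMulCommutative (⁅A, B⁆ : Subgroup G) := by
    rw [Subgroup.commutator_def]
    apply Subgroup.isMulCommutative_closure
    rintro x ⟨a, ha, b, hb, rfl⟩ y ⟨c, hc, d, hd, rfl⟩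
    exact comm_comm A B hAc hBc hAB a c ha hc b d hb hd
  -- N is normalized by A and B
  have hNA : ∀ a₁ ∈ A, ∀ n ∈ (⁅A, B⁆ : Subgroup G), a₁ * n * a₁⁻¹ ∈ (⁅A, B⁆ : Subgroup G) := by
    intro a₁ ha₁ n hn
    rw [Subgroup.commutator_def] at hn
    induction hn using Subgroup.closure_induction with
    | mem x hx =>
      obtain ⟨a, ha, b, hb, rfl⟩ := hx
      have : a₁ * ⁅a, b⁆ * a₁⁻¹ = ⁅a₁ * a, b⁆ * ⁅a₁, b⁆⁻¹ := by
        simp only [commutatorElement_def]; group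
      rw [this]
      exact Subgroup.mul_mem _ (Subgroup.commutator_mem_commutator (A.mul_mem ha₁ ha) hb)
        (Subgroup.inv_mem _ (Subgroup.commutator_mem_commutator ha₁ hb))
    | one => simp
    | mul x y _ _ hx hy =>
      have : a₁ * (x * y) * a₁⁻¹ = (a₁ * x * a₁⁻¹) * (a₁ * y * a₁⁻¹) := by group
      rw [this]; exact Subgroup.mul_mem _ hx hy
    | inv x _ hx =>
      have : a₁ * x⁻¹ * a₁⁻¹ = (a₁ * x * a₁⁻¹)⁻¹ := by group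
      rw [this]; exact Subgroup.inv_mem _ hx
  have hNB : ∀ b₁ ∈ B, ∀ n ∈ (⁅A, B⁆ : Subgroup G), b₁ * n * b₁⁻¹ ∈ (⁅A, B⁆ : Subgroup G) := by
    intro b₁ hb₁ n hn
    rw [Subgroup.commutator_def] at hn
    induction hn using Subgroup.closure_induction with
    | mem x hx =>
      obtain ⟨a, ha, b, hb, rfl⟩ := hx
      have : b₁ * ⁅a, b⁆ * b₁⁻¹ = ⁅a, b₁⁆⁻¹ * ⁅a, b₁ * b⁆ := by
        simp only [commutatorElement_def]; group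
      rw [this]
      exact Subgroup.mul_mem _ (Subgroup.inv_mem _ (Subgroup.commutator_mem_commutator ha hb₁))
        (Subgroup.commutator_mem_commutator ha (B.mul_mem hb₁ hb))
    | one => simp
    | mul x y _ _ hx hy =>
      have : b₁ * (x * y) * b₁⁻¹ = (b₁ * x * b₁⁻¹) * (b₁ * y * b₁⁻¹) := by group
      rw [this]; exact Subgroup.mul_mem _ hx hy
    | inv x _ hx =>
      have : b₁ * x⁻¹ * b₁⁻¹ = (b₁ * x * b₁⁻¹)⁻¹ := by group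
      rw [this]; exact Subgroup.inv_mem _ hx
  have hNn : (⁅A, B⁆ : Subgroup G).Normal := by
    constructor
    intro n hn g
    obtain ⟨a, ha, b, hb, rfl⟩ := hAB g
    have : a * b * n * (a * b)⁻¹ = a * (b * n * b⁻¹) * a⁻¹ := by group
    rw [this]
    exact hNA a ha _ (hNB b hb n hn)
  -- G / N is commutative
  have hquot : IsMulCommutative (G ⧸ (⁅A, B⁆ : Subgroup G)) := by
    have hab : ∀ a ∈ A, ∀ b ∈ B, Commute (QuotientGroup.mk a : G ⧸ (⁅A, B⁆ : Subgroup G)) (QuotientGroup.mk b) := by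
      intro a ha b hb
      show (QuotientGroup.mk a : G ⧸ (⁅A, B⁆ : Subgroup G)) * QuotientGroup.mk b = QuotientGroup.mk b * QuotientGroup.mk a
      rw [← QuotientGroup.mk_mul, ← QuotientGroup.mk_mul, eq_comm, QuotientGroup.eq]
      have : (b * a)⁻¹ * (a * b) = ⁅a⁻¹, b⁻¹⁆ := by
        simp only [commutatorElement_def]; group
      rw [this]
      exact Subgroup.commutator_mem_commutator (A.inv_mem ha) (B.inv_mem hb)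
    have haa : ∀ a ∈ A, ∀ a' ∈ A, Commute (QuotientGroup.mk a : G ⧸ (⁅A, B⁆ : Subgroup G)) (QuotientGroup.mk a') := by
      intro a ha a' ha'
      show (QuotientGroup.mk a : G ⧸ (⁅A, B⁆ : Subgroup G)) * QuotientGroup.mk a' = QuotientGroup.mk a' * QuotientGroup.mk a
      rw [← QuotientGroup.mk_mul, ← QuotientGroup.mk_mul, hAc a ha a' ha']
    have hbb : ∀ b ∈ B, ∀ b' ∈ B, Commute (QuotientGroup.mk b : G ⧸ (⁅A, B⁆ : Subgroup G)) (QuotientGroup.mk b') := by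
      intro b hb b' hb'
      show (QuotientGroup.mk b : G ⧸ (⁅A, B⁆ : Subgroup G)) * QuotientGroup.mk b' = QuotientGroup.mk b' * QuotientGroup.mk b
      rw [← QuotientGroup.mk_mul, ← QuotientGroup.mk_mul, hBc b hb b' hb']
    refine ⟨⟨fun x y => ?_⟩⟩
    obtain ⟨g₁, rfl⟩ := QuotientGroup.mk_surjective x
    obtain ⟨g₂, rfl⟩ := QuotientGroup.mk_surjective y
    obtain ⟨a₁, ha₁, b₁, hb₁, rfl⟩ := hAB g₁
    obtain ⟨a₂, ha₂, b₂, hb₂, rfl⟩ := hAB g₂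
    rw [QuotientGroup.mk_mul, QuotientGroup.mk_mul]
    exact (((haa a₁ ha₁ a₂ ha₂).mul_right (hab a₁ ha₁ b₂ hb₂)).mul_left
      (((hab a₂ ha₂ b₁ hb₁).symm).mul_right (hbb b₁ hb₁ b₂ hb₂))).eq
  have hcomm : commutator G ≤ ⁅A, B⁆ :=
    Subgroup.Normal.quotient_commutative_iff_commutator_le.mp hquot
  have h1 : derivedSeries G 1 ≤ ⁅A, B⁆ := by
    rw [derivedSeries_one]; exact hcomm
  rw [derivedSeries_succ, eq_bot_iff]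
  calc ⁅derivedSeries G 1, derivedSeries G 1⁆ ≤ ⁅(⁅A, B⁆ : Subgroup G), ⁅A, B⁆⁆ := Subgroup.commutator_mono h1 h1
    _ = ⊥ := by
      rw [Subgroup.commutator_eq_bot_iff_le_centralizer]
      exact Subgroup.le_centralizer_iff_isMulCommutative.mpr hNcomm

end Cfsg.Agent.S0572
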