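import Cfsg.Statements.S0573
import Cfsg.Agent.S0572
import Cfsg.Agent.S0560
import Cfsg.Agent.H32.PGroup
import Mathlib

set_option autoImplicit false
open Cfsg

namespace Cfsg.Agent.S0573

open scoped Pointwise commutatorElement

theorem inf_center_normal {G : Type*} [Group G] (A : Subgroup G) :
    (A ⊓ Subgroup.center G).Normal := by
  constructor
  intro n hn g
  have h1 : g * n = n * g := Subgroup.mem_center_iff.mp hn.2 g
  have h2 : g * n * g⁻¹ = n := by rw [h1]; group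
  rw [h2]; exact hn

/-- If the centre is nontrivial, one of the factors contains a nontrivial central subgroup. -/
theorem central_case {G : Type*} [Group G] (A B : Subgroup G) [IsMulCommutative A]
    [IsMulCommutative B] (hAB : ∀ g : G, ∃ a ∈ A, ∃ b ∈ B, g = a * b)
    (hZ : Subgroup.center G ≠ ⊥) :
    ∃ N : Subgroup G, N.Normal ∧ N ≠ ⊥ ∧ (N ≤ A ∨ N ≤ B) := by
  obtain ⟨⟨z, hzc⟩, hz⟩ := (Subgroup.ne_bot_iff_exists_ne_one).mp hZ
  have hz1' : z ≠ 1 := fun h => hz (Subtype.ext h)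
  obtain ⟨a, ha, b, hb, e⟩ := hAB z
  have hzc' := Subgroup.mem_center_iff.mp hzc
  have ea : a = z * b⁻¹ := by rw [e]; group
  have haZ : a ∈ Subgroup.center G := by
    rw [Subgroup.mem_center_iff]
    intro g
    obtain ⟨a', ha', b', hb', rfl⟩ := hAB g
    have h1 : b' * a = a * b' := by
      rw [ea]
      calc b' * (z * b⁻¹) = (b' * z) * b⁻¹ := by group
        _ = z * (b' * b⁻¹) := by rw [hzc' b']; group
        _ = z * (b⁻¹ * b') := by rw [setLike_mul_comm hb' (B.inv_mem hb)]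
        _ = z * b⁻¹ * b' := by group
    calc a' * b' * a = a' * (b' * a) := by group
      _ = (a' * a) * b' := by rw [h1]; group
      _ = a * (a' * b') := by rw [setLike_mul_comm ha' ha]; group
  by_cases ha1 : a = 1
  · have hzb : z = b := by rw [e, ha1, one_mul]
    refine ⟨B ⊓ Subgroup.center G, inf_center_normal B, ?_, Or.inr inf_le_left⟩
    intro h
    have : z ∈ B ⊓ Subgroup.center G := ⟨hzb ▸ hb, hzc⟩
    rw [h, Subgroup.mem_bot] at this
    exact hz1' this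
  · refine ⟨A ⊓ Subgroup.center G, inf_center_normal A, ?_, Or.inl inf_le_left⟩
    intro h
    have : a ∈ A ⊓ Subgroup.center G := ⟨ha, haZ⟩
    rw [h, Subgroup.mem_bot] at this
    exact ha1 this

/-- With trivial centre, the centralizer in `A` of an abelian normal subgroup containing all
commutators is normal in `G`. -/
theorem A0_normal {G : Type*} [Group G] (A B : Subgroup G) [IsMulCommutative A]
    [IsMulCommutative B] (hAB : ∀ g : G, ∃ a ∈ A, ∃ b ∈ B, g = a * b)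
    (hZ : Subgroup.center G = ⊥) (V : Subgroup G) [hVn : V.Normal]
    (hVc : ∀ x ∈ V, ∀ y ∈ V, x * y = y * x) (hV : ∀ x y : G, x * y * x⁻¹ * y⁻¹ ∈ V) :
    (A ⊓ Subgroup.centralizer (V : Set G)).Normal := by
  have key : ∀ a₀ ∈ A ⊓ Subgroup.centralizer (V : Set G), ∀ b ∈ B,
      b * a₀ * b⁻¹ ∈ A ⊓ Subgroup.centralizer (V : Set G) := by
    intro a₀ ha₀ b hb
    have hcV : b * a₀ * b⁻¹ * a₀⁻¹ ∈ V := hV b a₀
    have hcomm : ∀ a ∈ A, a * (b * a₀ * b⁻¹ * a₀⁻¹) = (b * a₀ * b⁻¹ * a₀⁻¹) * a := by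
      intro a haA
      have hd : a * b * a⁻¹ * b⁻¹ ∈ V := hV a b
      have h1 : a * a₀ = a₀ * a := setLike_mul_comm haA ha₀.1
      have h1' : a₀⁻¹ * a⁻¹ = a⁻¹ * a₀⁻¹ := by
        rw [← mul_inv_rev, ← mul_inv_rev, h1]
      have h2 : (a * b * a⁻¹ * b⁻¹)⁻¹ * a₀ = a₀ * (a * b * a⁻¹ * b⁻¹)⁻¹ :=
        Subgroup.mem_centralizer_iff.mp ha₀.2 _ (V.inv_mem hd)
      have h2' : (a * b * a⁻¹ * b⁻¹)⁻¹ * a₀⁻¹ = a₀⁻¹ * (a * b * a⁻¹ * b⁻¹)⁻¹ :=
        (show Commute (a * b * a⁻¹ * b⁻¹)⁻¹ a₀ from h2).inv_right.eq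
      have h3 : (a * b * a⁻¹ * b⁻¹) * (b * a₀ * b⁻¹ * a₀⁻¹) =
          (b * a₀ * b⁻¹ * a₀⁻¹) * (a * b * a⁻¹ * b⁻¹) := hVc _ hd _ hcV
      have e1 : a * (b * a₀ * b⁻¹ * a₀⁻¹) * a⁻¹ = b * a₀ * b⁻¹ * a₀⁻¹ := by
        calc a * (b * a₀ * b⁻¹ * a₀⁻¹) * a⁻¹
            = a * b * a₀ * b⁻¹ * (a₀⁻¹ * a⁻¹) := by group
          _ = a * b * a₀ * b⁻¹ * (a⁻¹ * a₀⁻¹) := by rw [h1']
          _ = a * b * (a⁻¹ * (a * a₀)) * b⁻¹ * a⁻¹ * a₀⁻¹ := by group
          _ = a * b * (a⁻¹ * (a₀ * a)) * b⁻¹ * a⁻¹ * a₀⁻¹ := by rw [h1]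
          _ = (a * b * a⁻¹ * b⁻¹) * (b * a₀ * b⁻¹) * ((a * b * a⁻¹ * b⁻¹)⁻¹ * a₀⁻¹) := by group
          _ = (a * b * a⁻¹ * b⁻¹) * (b * a₀ * b⁻¹) * (a₀⁻¹ * (a * b * a⁻¹ * b⁻¹)⁻¹) := by rw [h2']
          _ = ((a * b * a⁻¹ * b⁻¹) * (b * a₀ * b⁻¹ * a₀⁻¹)) * (a * b * a⁻¹ * b⁻¹)⁻¹ := by group
          _ = ((b * a₀ * b⁻¹ * a₀⁻¹) * (a * b * a⁻¹ * b⁻¹)) * (a * b * a⁻¹ * b⁻¹)⁻¹ := by rw [h3]
          _ = b * a₀ * b⁻¹ * a₀⁻¹ := by group
      calc a * (b * a₀ * b⁻¹ * a₀⁻¹) = (a * (b * a₀ * b⁻¹ * a₀⁻¹) * a⁻¹) * a := by group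
        _ = (b * a₀ * b⁻¹ * a₀⁻¹) * a := by rw [e1]
    -- the commutator lies in A
    have hcA : b * a₀ * b⁻¹ * a₀⁻¹ ∈ A := by
      obtain ⟨a₁, ha₁, b₁, hb₁, e⟩ := hAB (b * a₀ * b⁻¹ * a₀⁻¹)
      have eb : b₁ = a₁⁻¹ * (b * a₀ * b⁻¹ * a₀⁻¹) := by rw [e]; group
      have hb₁Z : b₁ ∈ Subgroup.center G := by
        rw [Subgroup.mem_center_iff]
        intro g
        obtain ⟨a', ha', b', hb', rfl⟩ := hAB g
        have h4 : a' * b₁ = b₁ * a' := by
          rw [eb]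
          calc a' * (a₁⁻¹ * (b * a₀ * b⁻¹ * a₀⁻¹)) = (a' * a₁⁻¹) * (b * a₀ * b⁻¹ * a₀⁻¹) := by group
            _ = a₁⁻¹ * (a' * (b * a₀ * b⁻¹ * a₀⁻¹)) := by
                rw [setLike_mul_comm ha' (A.inv_mem ha₁)]; group
            _ = a₁⁻¹ * ((b * a₀ * b⁻¹ * a₀⁻¹) * a') := by rw [hcomm a' ha']
            _ = a₁⁻¹ * (b * a₀ * b⁻¹ * a₀⁻¹) * a' := by group
        have h5 : b' * b₁ = b₁ * b' := setLike_mul_comm hb' hb₁
        calc a' * b' * b₁ = a' * (b' * b₁) := by group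
          _ = (a' * b₁) * b' := by rw [h5]; group
          _ = b₁ * (a' * b') := by rw [h4]; group
      rw [hZ, Subgroup.mem_bot] at hb₁Z
      rw [e, hb₁Z, mul_one]; exact ha₁
    refine Subgroup.mem_inf.mpr ⟨?_, ?_⟩
    · have e2 : b * a₀ * b⁻¹ = (b * a₀ * b⁻¹ * a₀⁻¹) * a₀ := by group
      rw [e2]; exact A.mul_mem hcA ha₀.1
    · exact (inferInstance : (Subgroup.centralizer (V : Set G)).Normal).conj_mem a₀ ha₀.2 b
  constructor
  intro n hn g
  obtain ⟨a, ha, b, hb, rfl⟩ := hAB g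
  have h1 := key n hn b hb
  have e3 : a * b * n * (a * b)⁻¹ = a * (b * n * b⁻¹) * a⁻¹ := by group
  have e4 : a * (b * n * b⁻¹) * a⁻¹ = b * n * b⁻¹ := by
    rw [setLike_mul_comm ha h1.1]; group
  rw [e3, e4]; exact h1

/-- If `x * y` lies in the normal subgroup `W`, then all commutators `[g, x]` lie in `W`. -/
theorem comm_mem {G : Type*} [Group G] (X Y : Subgroup G) [IsMulCommutative X]
    [IsMulCommutative Y] (hXY : ∀ g : G, ∃ x ∈ X, ∃ y ∈ Y, g = x * y)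
    (W : Subgroup G) [hW : W.Normal] (x y : G) (hx : x ∈ X) (hy : y ∈ Y) (hz : x * y ∈ W) (g : G) :
    g * x * g⁻¹ * x⁻¹ ∈ W := by
  obtain ⟨x', hx', y', hy', rfl⟩ := hXY g
  have h1 : y' * x * y'⁻¹ * x⁻¹ = (y' * (x * y) * y'⁻¹) * (x * y)⁻¹ := by
    have e : y⁻¹ * y'⁻¹ = y'⁻¹ * y⁻¹ := setLike_mul_comm (Y.inv_mem hy) (Y.inv_mem hy')
    calc y' * x * y'⁻¹ * x⁻¹ = y' * x * y * (y⁻¹ * y'⁻¹) * x⁻¹ := by group
      _ = y' * x * y * (y'⁻¹ * y⁻¹) * x⁻¹ := by rw [e]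
      _ = (y' * (x * y) * y'⁻¹) * (x * y)⁻¹ := by group
  have h2 : y' * x * y'⁻¹ * x⁻¹ ∈ W := by
    rw [h1]; exact W.mul_mem (hW.conj_mem _ hz y') (W.inv_mem hz)
  have h3 : x' * y' * x * (x' * y')⁻¹ * x⁻¹ = x' * (y' * x * y'⁻¹ * x⁻¹) * x'⁻¹ := by
    have e : x * x'⁻¹ = x'⁻¹ * x := setLike_mul_comm hx (X.inv_mem hx')
    calc x' * y' * x * (x' * y')⁻¹ * x⁻¹ = x' * y' * x * y'⁻¹ * x⁻¹ * (x * x'⁻¹) * x⁻¹ := by group
      _ = x' * y' * x * y'⁻¹ * x⁻¹ * (x'⁻¹ * x) * x⁻¹ := by rw [e]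
      _ = x' * (y' * x * y'⁻¹ * x⁻¹) * x'⁻¹ := by group
  rw [h3]; exact hW.conj_mem _ h2 x'

/-- An element centralizing the `p`-part of an abelian normal subgroup `V` and moving `V`
only inside the `p`-part centralizes `V`. -/
theorem centralizes {G : Type*} [Group G] (V : Subgroup G) [hVn : V.Normal]
    (hVc : ∀ x ∈ V, ∀ y ∈ V, x * y = y * x) (q m : ℕ) (hqm : Nat.Coprime q m)
    (hVqm : ∀ v ∈ V, v ^ (q * m) = 1) (a : G)
    (ha1 : ∀ v ∈ V, v ^ q = 1 → a * v = v * a)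
    (ha2 : ∀ v ∈ V, (v * a * v⁻¹ * a⁻¹) ^ q = 1) :
    a ∈ Subgroup.centralizer (V : Set G) := by
  rw [Subgroup.mem_centralizer_iff]
  intro v hv
  have hv' : v ∈ V := hv
  have hw : (v * a * v⁻¹ * a⁻¹) ^ q = 1 := ha2 v hv'
  have hvm : (v ^ m) ^ q = 1 := by rw [← pow_mul, mul_comm]; exact hVqm v hv'
  have hvm' : a * v ^ m = v ^ m * a := ha1 _ (V.pow_mem hv' m) hvm
  have hc : Commute (a * v * a⁻¹) v⁻¹ := hVc _ (hVn.conj_mem v hv' a) _ (V.inv_mem hv')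
  have hw2 : ((v * a * v⁻¹ * a⁻¹)⁻¹) ^ m = 1 := by
    have e : (v * a * v⁻¹ * a⁻¹)⁻¹ = (a * v * a⁻¹) * v⁻¹ := by group
    rw [e, hc.mul_pow, conj_pow, hvm']
    group
  have hw3 : (v * a * v⁻¹ * a⁻¹) ^ m = 1 := by
    rw [inv_pow, inv_eq_one] at hw2; exact hw2
  have ho : orderOf (v * a * v⁻¹ * a⁻¹) = 1 :=
    (Nat.Coprime.coprime_dvd_left (orderOf_dvd_of_pow_eq_one hw) hqm).eq_one_of_dvd
      (orderOf_dvd_of_pow_eq_one hw3)
  rw [orderOf_eq_one_iff] at ho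
  have e2 : v * a = (v * a * v⁻¹ * a⁻¹) * (a * v) := by group
  rw [e2, ho, one_mul]

/-- A nontrivial abelian normal subgroup of `G = AB` is centralized by a nontrivial element of
`A` or of `B`. -/
theorem final {G : Type*} [Group G] [Finite G] (A B : Subgroup G) [IsMulCommutative A]
    [IsMulCommutative B] (hAB : ∀ g : G, ∃ a ∈ A, ∃ b ∈ B, g = a * b)
    (V : Subgroup G) [hVn : V.Normal]
    (hVc : ∀ x ∈ V, ∀ y ∈ V, x * y = y * x) (hV1 : V ≠ ⊥) :
    A ⊓ Subgroup.centralizer (V : Set G) ≠ ⊥ ∨ B ⊓ Subgroup.centralizer (V : Set G) ≠ ⊥ := by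
  have hcard : Nat.card V ≠ 1 := fun h => hV1 (Subgroup.card_eq_one.mp h)
  obtain ⟨p, hp, hpV⟩ := Nat.exists_prime_and_dvd hcard
  have : Fact p.Prime := ⟨hp⟩
  obtain ⟨k, m, hpm, hkm⟩ := Nat.exists_eq_pow_mul_and_not_dvd (Nat.card_pos (α := V)).ne' p
    hp.ne_one
  have hk : k ≠ 0 := by
    rintro rfl
    rw [pow_zero, one_mul] at hkm
    exact hpm (hkm ▸ hpV)
  have hcop : Nat.Coprime (p ^ k) m := Nat.Coprime.pow_left k ((Nat.Prime.coprime_iff_not_dvd hp).mpr hpm)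
  have hVpow : ∀ v ∈ V, v ^ (p ^ k * m) = 1 := by
    intro v hv
    rw [← hkm]
    have := pow_card_eq_one' (G := V) (x := ⟨v, hv⟩)
    exact congrArg Subtype.val this
  -- the `p`-part of `V`
  let Vp : Subgroup G :=
    { carrier := {v | v ∈ V ∧ v ^ (p ^ k) = 1}
      one_mem' := ⟨V.one_mem, one_pow _⟩
      mul_mem' := by
        rintro x y ⟨hx, hx1⟩ ⟨hy, hy1⟩
        refine ⟨V.mul_mem hx hy, ?_⟩
        rw [(show Commute x y from hVc x hx y hy).mul_pow, hx1, hy1, one_mul]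
      inv_mem' := by
        rintro x ⟨hx, hx1⟩
        exact ⟨V.inv_mem hx, by rw [inv_pow, hx1, inv_one]⟩ }
  have hVp_mem : ∀ v, v ∈ Vp ↔ v ∈ V ∧ v ^ (p ^ k) = 1 := fun v => Iff.rfl
  have hVpn : Vp.Normal := by
    constructor
    intro n hn g
    rw [hVp_mem] at hn ⊢
    exact ⟨hVn.conj_mem n hn.1 g, by rw [conj_pow, hn.2]; group⟩
  have hVpp : IsPGroup p Vp := by
    rintro ⟨v, hv⟩
    exact ⟨k, Subtype.ext ((hVp_mem v).mp hv).2⟩
  have hVp1 : Vp ≠ ⊥ := by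
    obtain ⟨x, hx⟩ := exists_prime_orderOf_dvd_card' (G := V) p hpV
    intro h
    have hxm : (x : G) ∈ Vp := by
      rw [hVp_mem]
      refine ⟨x.2, ?_⟩
      obtain ⟨j, rfl⟩ := Nat.exists_eq_succ_of_ne_zero hk
      have : x ^ p = 1 := hx ▸ pow_orderOf_eq_one x
      rw [pow_succ, pow_mul', ← Subgroup.coe_pow, this]
      simp
    rw [h, Subgroup.mem_bot] at hxm
    have : x = 1 := Subtype.ext hxm
    rw [this, orderOf_one] at hx
    exact hp.ne_one hx.symm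
  obtain ⟨P, Q, R, hR⟩ := Cfsg.Agent.S0560.result A B hAB p
  have hVpR : Vp ≤ R := hVpp.le_sylow_of_normal R
  have hBA : ∀ g : G, ∃ b ∈ B, ∃ a ∈ A, g = b * a := by
    intro g
    obtain ⟨a, ha, b, hb, e⟩ := hAB g⁻¹
    refine ⟨b⁻¹, B.inv_mem hb, a⁻¹, A.inv_mem ha, ?_⟩
    rw [← mul_inv_rev, ← e, inv_inv]
  have hAc : ∀ x ∈ A, ∀ y ∈ A, x * y = y * x := fun x hx y hy => setLike_mul_comm hx hy
  have hBc : ∀ x ∈ B, ∀ y ∈ B, x * y = y * x := fun x hx y hy => setLike_mul_comm hx hy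
  -- a nontrivial element of `Vp` central in `R`
  have hN1 : Vp.subgroupOf (R : Subgroup G) ≠ ⊥ := by
    obtain ⟨⟨v, hvV⟩, hv⟩ := (Subgroup.ne_bot_iff_exists_ne_one).mp hVp1
    intro h
    have : (⟨v, hVpR hvV⟩ : (R : Subgroup G)) ∈ Vp.subgroupOf (R : Subgroup G) := by
      rw [Subgroup.mem_subgroupOf]; exact hvV
    rw [h, Subgroup.mem_bot] at this
    have e1 : v = 1 := congrArg Subtype.val this
    exact hv (Subtype.ext e1)
  obtain ⟨z, hzN, hz1, hzc⟩ := Cfsg.Agent.H32.exists_mem_center_of_normal R.isPGroup'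
    (Vp.subgroupOf (R : Subgroup G)) hN1
  rw [Subgroup.mem_subgroupOf] at hzN
  have hzc' : ∀ r ∈ (R : Subgroup G), r * (z : G) = (z : G) * r := by
    intro r hr
    have := Subgroup.mem_center_iff.mp hzc ⟨r, hr⟩
    exact congrArg Subtype.val this
  have hz1' : (z : G) ≠ 1 := fun h => hz1 (Subtype.ext h)
  have hmemR : ∀ r, r ∈ (R : Subgroup G) ↔ ∃ x ∈ (P : Subgroup A).map A.subtype,
      ∃ y ∈ (Q : Subgroup B).map B.subtype, x * y = r := by
    intro r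
    rw [← SetLike.mem_coe, hR, Set.mem_mul]
    rfl
  have hPA : (P : Subgroup A).map A.subtype ≤ A := Subgroup.map_subtype_le _
  have hQB : (Q : Subgroup B).map B.subtype ≤ B := Subgroup.map_subtype_le _
  have hPR : ∀ x ∈ (P : Subgroup A).map A.subtype, x ∈ (R : Subgroup G) := by
    intro x hx
    rw [hmemR]
    exact ⟨x, hx, 1, Subgroup.one_mem _, mul_one x⟩
  have hQR : ∀ y ∈ (Q : Subgroup B).map B.subtype, y ∈ (R : Subgroup G) := by
    intro y hy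
    rw [hmemR]
    exact ⟨1, Subgroup.one_mem _, y, hy, one_mul y⟩
  obtain ⟨a, haP, b, hbQ, hab⟩ := (hmemR z).mp z.2
  have haA : a ∈ A := hPA haP
  have hbB : b ∈ B := hQB hbQ
  have haR : ∀ r ∈ (R : Subgroup G), r * a = a * r := by
    intro r hr
    obtain ⟨x, hx, y, hy, rfl⟩ := (hmemR r).mp hr
    have h1 : x * a = a * x := hAc x (hPA hx) a haA
    have h2 : y * (z : G) = (z : G) * y := hzc' y (hQR y hy)
    have h3 : y * b⁻¹ = b⁻¹ * y := hBc y (hQB hy) b⁻¹ (B.inv_mem hbB)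
    have h4 : y * a = a * y := by
      have ea : a = (z : G) * b⁻¹ := by rw [← hab]; group
      rw [ea]
      calc y * ((z : G) * b⁻¹) = (y * (z : G)) * b⁻¹ := by group
        _ = (z : G) * (y * b⁻¹) := by rw [h2]; group
        _ = (z : G) * b⁻¹ * y := by rw [h3]; group
    calc x * y * a = x * (y * a) := by group
      _ = (x * a) * y := by rw [h4]; group
      _ = a * (x * y) := by rw [h1]; group
  have hbR : ∀ r ∈ (R : Subgroup G), r * b = b * r := by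
    intro r hr
    obtain ⟨x, hx, y, hy, rfl⟩ := (hmemR r).mp hr
    have h1 : y * b = b * y := hBc y (hQB hy) b hbB
    have h2 : x * (z : G) = (z : G) * x := hzc' x (hPR x hx)
    have h3 : x * a⁻¹ = a⁻¹ * x := hAc x (hPA hx) a⁻¹ (A.inv_mem haA)
    have h4 : x * b = b * x := by
      have eb : b = a⁻¹ * (z : G) := by rw [← hab]; group
      rw [eb]
      calc x * (a⁻¹ * (z : G)) = (x * a⁻¹) * (z : G) := by group
        _ = a⁻¹ * (x * (z : G)) := by rw [h3]; group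
        _ = a⁻¹ * (z : G) * x := by rw [h2]; group
    calc x * y * b = x * (y * b) := by group
      _ = (x * b) * y := by rw [h1]; group
      _ = b * (x * y) := by rw [h4]; group
  have hba : b * a = a * b := haR b (hQR b hbQ)
  have hzV : a * b ∈ Vp := hab ▸ hzN
  have hzV' : b * a ∈ Vp := hba ▸ hzV
  have hca := comm_mem A B hAB Vp a b haA hbB hzV
  have hcb := comm_mem B A hBA Vp b a hbB haA hzV'
  have haC : a ∈ Subgroup.centralizer (V : Set G) := by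
    refine centralizes V hVc (p ^ k) m hcop hVpow a ?_ ?_
    · intro v hv hv1
      exact (haR v (hVpR ((hVp_mem v).mpr ⟨hv, hv1⟩))).symm
    · intro v hv
      exact ((hVp_mem _).mp (hca v)).2
  have hbC : b ∈ Subgroup.centralizer (V : Set G) := by
    refine centralizes V hVc (p ^ k) m hcop hVpow b ?_ ?_
    · intro v hv hv1
      exact (hbR v (hVpR ((hVp_mem v).mpr ⟨hv, hv1⟩))).symm
    · intro v hv
      exact ((hVp_mem _).mp (hcb v)).2
  by_contra hcon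
  push Not at hcon
  have ha1 : a = 1 := by
    have : a ∈ A ⊓ Subgroup.centralizer (V : Set G) := Subgroup.mem_inf.mpr ⟨haA, haC⟩
    rw [hcon.1, Subgroup.mem_bot] at this; exact this
  have hb1 : b = 1 := by
    have : b ∈ B ⊓ Subgroup.centralizer (V : Set G) := Subgroup.mem_inf.mpr ⟨hbB, hbC⟩
    rw [hcon.2, Subgroup.mem_bot] at this; exact this
  rw [ha1, hb1, mul_one] at hab
  exact hz1' hab.symm

/-- If a nontrivial finite group G is the product AB of abelian subgroups A and B, then some nontrivial normal subgroup of G is contained in A or in B. -/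
theorem result {G : Type*} [Group G] [Finite G] [Nontrivial G] (A B : Subgroup G) [IsMulCommutative A] [IsMulCommutative B] (hAB : ∀ g : G, ∃ a ∈ A, ∃ b ∈ B, g = a * b) : ∃ N : Subgroup G, N.Normal ∧ N ≠ ⊥ ∧ (N ≤ A ∨ N ≤ B) := by
  by_cases hZ : Subgroup.center G = ⊥
  swap
  · exact central_case A B hAB hZ
  have hBA : ∀ g : G, ∃ b ∈ B, ∃ a ∈ A, g = b * a := by
    intro g
    obtain ⟨a, ha, b, hb, e⟩ := hAB g⁻¹
    refine ⟨b⁻¹, B.inv_mem hb, a⁻¹, A.inv_mem ha, ?_⟩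
    rw [← mul_inv_rev, ← e, inv_inv]
  have hd2 := Cfsg.Agent.S0572.result A B hAB
  have hVn : (commutator G).Normal := inferInstance
  have hVc : ∀ x ∈ commutator G, ∀ y ∈ commutator G, x * y = y * x := by
    intro x hx y hy
    have h1 : ⁅x, y⁆ ∈ derivedSeries G 2 := by
      rw [derivedSeries_succ, derivedSeries_one]
      exact Subgroup.commutator_mem_commutator hx hy
    rw [hd2, Subgroup.mem_bot] at h1
    exact (commutatorElement_eq_one_iff_mul_comm.mp h1)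
  have hV : ∀ x y : G, x * y * x⁻¹ * y⁻¹ ∈ commutator G := by
    intro x y
    have : ⁅x, y⁆ ∈ commutator G := by
      rw [commutator_def]
      exact Subgroup.commutator_mem_commutator (Subgroup.mem_top x) (Subgroup.mem_top y)
    exact this
  have hV1 : commutator G ≠ ⊥ := by
    intro h
    have hcomm : ∀ x y : G, x * y = y * x := by
      intro x y
      have := hV x y
      rw [h, Subgroup.mem_bot] at this
      calc x * y = (x * y * x⁻¹ * y⁻¹) * (y * x) := by group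
        _ = y * x := by rw [this, one_mul]
    have : Subgroup.center G = ⊤ := by
      rw [eq_top_iff]
      intro g _
      rw [Subgroup.mem_center_iff]
      intro h'; exact hcomm h' g
    rw [hZ] at this
    exact bot_ne_top this
  have hA0 := A0_normal A B hAB hZ (commutator G) hVc hV
  have hB0 := A0_normal B A hBA hZ (commutator G) hVc hV
  rcases final A B hAB (commutator G) hVc hV1 with h | h
  · exact ⟨_, hA0, h, Or.inl inf_le_left⟩
  · exact ⟨_, hB0, h, Or.inr inf_le_left⟩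

end Cfsg.Agent.S0573
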