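import Cfsg.Statements.S0574
import Mathlib
import Cfsg.Agent.S0572
import Cfsg.Agent.S0564

set_option autoImplicit false
open Cfsg

namespace Cfsg.Agent.S0574

universe u

open scoped commutatorElement

theorem ds_le {G : Type u} [Group G] (K : Subgroup G) (m : ℕ) (h : derivedSeries G m ≤ K) (k : ℕ) :
    derivedSeries G (m + k) ≤ (derivedSeries ↥K k).map K.subtype := by
  induction k with
  | zero =>
    rw [derivedSeries_zero, ← MonoidHom.range_eq_map, Subgroup.range_subtype]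
    simpa using h
  | succ k ih =>
    rw [← add_assoc, derivedSeries_succ, derivedSeries_succ, Subgroup.map_commutator]
    exact Subgroup.commutator_mono ih ih

theorem comm_subgroupOf {G : Type u} [Group G] (K X : Subgroup G) (hX : X ≤ K) :
    (⁅X.subgroupOf K, X.subgroupOf K⁆).map K.subtype = ⁅X, X⁆ := by
  rw [Subgroup.map_commutator, Subgroup.subgroupOf_map_subtype, inf_eq_left.mpr hX]

theorem omega_lt {G : Type u} [Group G] [Finite G] (K L : Subgroup G) (h : K < L) :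
    (Nat.card K).primeFactorsList.length + 1 ≤ (Nat.card L).primeFactorsList.length := by
  obtain ⟨m, hm⟩ := Subgroup.card_dvd_of_le h.le
  have hK : Nat.card K ≠ 0 := Nat.card_pos.ne'
  have hL : Nat.card L ≠ 0 := Nat.card_pos.ne'
  have hm0 : m ≠ 0 := by
    rintro rfl
    rw [mul_zero] at hm
    exact hL hm
  have hm1 : m ≠ 1 := by
    rintro rfl
    rw [mul_one] at hm
    exact h.ne (Subgroup.eq_of_le_of_card_ge h.le hm.le)
  rw [hm, (Nat.perm_primeFactorsList_mul hK hm0).length_eq, List.length_append]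
  have h3 : m.primeFactorsList ≠ [] := by
    intro h0
    rcases (Nat.primeFactorsList_eq_nil m).mp h0 with h1 | h1
    · exact hm0 h1
    · exact hm1 h1
  have := List.length_pos_iff.mpr h3
  omega

theorem lemL (n : ℕ) : ∀ (H : Type u) [Group H] [Finite H] [Group.IsSolvable H], Nat.card H = n →
    ∀ (A B : Subgroup H), (∀ x ∈ A, ∀ y ∈ A, x * y = y * x) →
      (∀ x ∈ ⁅B, B⁆, ∀ y ∈ B, x * y = y * x) →
      (∀ g : H, ∃ a ∈ A, ∃ b ∈ B, g = a * b) → A ⊔ ⁅B, B⁆ = ⊤ → ⁅B, B⁆ = ⊥ := by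
  induction n using Nat.strong_induction_on with
  | _ n ih =>
  intro H _ _ _ hn A B hA hB hAB hgen
  have key : ∀ N : Subgroup H, N.Normal → N ≠ ⊥ → ⁅B, B⁆ ≤ N := by
    intro N hN hN0
    have hlt : Nat.card (H ⧸ N) < n := by
      rw [← hn, Subgroup.card_eq_card_quotient_mul_card_subgroup N]
      have h1 : 1 < Nat.card N := (Subgroup.one_lt_card_iff_ne_bot N).mpr hN0
      have h2 : 0 < Nat.card (H ⧸ N) := Nat.card_pos
      nlinarith
    have hq := ih _ hlt (H ⧸ N) rfl (A.map (QuotientGroup.mk' N)) (B.map (QuotientGroup.mk' N)) ?_ ?_ ?_ ?_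
    · rw [← Subgroup.map_commutator, Subgroup.map_eq_bot_iff, QuotientGroup.ker_mk'] at hq
      exact hq
    · rintro _ ⟨a, ha, rfl⟩ _ ⟨a', ha', rfl⟩
      rw [← map_mul, ← map_mul, hA a ha a' ha']
    · rw [← Subgroup.map_commutator]
      rintro _ ⟨c, hc, rfl⟩ _ ⟨b, hb, rfl⟩
      rw [← map_mul, ← map_mul, hB c hc b hb]
    · intro g
      obtain ⟨g0, rfl⟩ := QuotientGroup.mk'_surjective N g
      obtain ⟨a, ha, b, hb, rfl⟩ := hAB g0
      exact ⟨_, Subgroup.mem_map_of_mem _ ha, _, Subgroup.mem_map_of_mem _ hb, map_mul _ _ _⟩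
    · rw [← Subgroup.map_commutator, ← Subgroup.map_sup, hgen]
      exact Subgroup.map_top_of_surjective _ (QuotientGroup.mk'_surjective N)
  by_contra hne
  obtain ⟨z, hz, hz1⟩ : ∃ z ∈ ⁅B, B⁆, z ≠ 1 := by
    by_contra hcon
    push Not at hcon
    exact hne ((Subgroup.eq_bot_iff_forall _).mpr hcon)
  obtain ⟨V0, hV0n, hV0c, hV0⟩ : ∃ V0 : Subgroup H, V0.Normal ∧
      (∀ x ∈ V0, ∀ y ∈ V0, x * y = y * x) ∧ V0 ≠ ⊥ := by
    have hsol : ∃ k, derivedSeries H k = ⊥ := (Group.isSolvable_def H).mp inferInstance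
    classical
    have hk : derivedSeries H (Nat.find hsol) = ⊥ := Nat.find_spec hsol
    have hk0 : Nat.find hsol ≠ 0 := by
      intro h0
      rw [h0, derivedSeries_zero] at hk
      have : z ∈ (⊤ : Subgroup H) := Subgroup.mem_top z
      rw [hk] at this
      exact hz1 (Subgroup.mem_bot.mp this)
    obtain ⟨j, hj⟩ := Nat.exists_eq_succ_of_ne_zero hk0
    refine ⟨derivedSeries H j, derivedSeries_normal H j, ?_, ?_⟩
    · intro x hx y hy
      have : ⁅x, y⁆ ∈ derivedSeries H (j + 1) := by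
        rw [derivedSeries_succ]
        exact Subgroup.commutator_mem_commutator hx hy
      rw [← Nat.succ_eq_add_one, ← hj, hk, Subgroup.mem_bot] at this
      exact commutatorElement_eq_one_iff_mul_comm.mp this
    · intro h0
      have : j < Nat.find hsol := by omega
      exact Nat.find_min hsol this h0
  have hBV0 : ⁅B, B⁆ ≤ V0 := key V0 hV0n hV0
  have hWn : (Subgroup.normalClosure ({z} : Set H)).Normal := Subgroup.normalClosure_normal
  have hzW : z ∈ Subgroup.normalClosure ({z} : Set H) :=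
    Subgroup.subset_normalClosure (Set.mem_singleton z)
  have hWV0 : Subgroup.normalClosure ({z} : Set H) ≤ V0 :=
    Subgroup.normalClosure_le_normal (by
      intro x hx
      rw [Set.mem_singleton_iff] at hx
      rw [hx]
      exact hBV0 hz)
  have hWc : ∀ x ∈ Subgroup.normalClosure ({z} : Set H), ∀ y ∈ Subgroup.normalClosure ({z} : Set H),
      x * y = y * x := fun x hx y hy => hV0c x (hWV0 hx) y (hWV0 hy)
  have hW0 : Subgroup.normalClosure ({z} : Set H) ≠ ⊥ := by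
    intro h0
    rw [h0] at hzW
    exact hz1 (Subgroup.mem_bot.mp hzW)
  have hBW : ⁅B, B⁆ ≤ Subgroup.normalClosure ({z} : Set H) := key _ hWn hW0
  have hAW : ∀ g : H, ∃ a ∈ A, ∃ w ∈ Subgroup.normalClosure ({z} : Set H), g = a * w := by
    intro g
    have hg : g ∈ A ⊔ Subgroup.normalClosure ({z} : Set H) := by
      have hle : A ⊔ ⁅B, B⁆ ≤ A ⊔ Subgroup.normalClosure ({z} : Set H) := sup_le_sup_left hBW A
      exact hle (hgen ▸ Subgroup.mem_top g)
    obtain ⟨a, ha, w, hw, rfl⟩ := Subgroup.mem_sup_of_normal_right.mp hg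
    exact ⟨a, ha, w, hw, rfl⟩
  have hCn : (A ⊓ Subgroup.centralizer (Subgroup.normalClosure ({z} : Set H) : Set H)).Normal := by
    constructor
    intro c hc g
    obtain ⟨a, ha, w, hw, rfl⟩ := hAW g
    have h1 : w * c = c * w := Subgroup.mem_centralizer_iff.mp hc.2 w hw
    have h2 : a * c = c * a := hA a ha c hc.1
    have h3 : a * w * c * (a * w)⁻¹ = c := by
      rw [mul_inv_rev, mul_assoc a w c, h1, ← mul_assoc a c w, h2]
      group
    rw [h3]
    exact hc
  by_cases hC0 : A ⊓ Subgroup.centralizer (Subgroup.normalClosure ({z} : Set H) : Set H) = ⊥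
  · have hCz : ∀ a ∈ A, a * z = z * a → a = 1 := by
      intro a ha haz
      have hmem : a ∈ A ⊓ Subgroup.centralizer (Subgroup.normalClosure ({z} : Set H) : Set H) := by
        refine ⟨ha, ?_⟩
        have hle : Subgroup.normalClosure ({z} : Set H) ≤ Subgroup.centralizer ({a} : Set H) := by
          show Subgroup.closure (Group.conjugatesOfSet ({z} : Set H)) ≤ _
          rw [Subgroup.closure_le]
          intro x hx
          rw [Group.mem_conjugatesOfSet_iff] at hx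
          obtain ⟨z', hz', hconj⟩ := hx
          rw [Set.mem_singleton_iff] at hz'
          subst hz'
          obtain ⟨g, rfl⟩ := isConj_iff.mp hconj
          obtain ⟨a', ha', w, hw, rfl⟩ := hAW g
          have h1 : w * z' = z' * w := hWc w hw z' hzW
          have h2 : a * a' = a' * a := hA a ha a' ha'
          rw [SetLike.mem_coe, Subgroup.mem_centralizer_iff]
          intro h hh
          rw [Set.mem_singleton_iff] at hh
          subst hh
          have e1 : a' * w * z' * (a' * w)⁻¹ = a' * z' * a'⁻¹ := by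
            rw [mul_inv_rev, mul_assoc a' w z', h1]
            group
          rw [e1]
          calc h * (a' * z' * a'⁻¹) = (h * a') * z' * a'⁻¹ := by group
            _ = a' * (h * z') * a'⁻¹ := by rw [h2]; group
            _ = a' * (z' * h) * a'⁻¹ := by rw [haz]
            _ = a' * z' * (h * a'⁻¹) := by group
            _ = a' * z' * (a'⁻¹ * h) := by
                have : h * a'⁻¹ = a'⁻¹ * h := by
                  rw [eq_inv_mul_iff_mul_eq, ← mul_assoc, ← h2, mul_assoc, mul_inv_cancel, mul_one]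
                rw [this]
            _ = a' * z' * a'⁻¹ * h := by group
        refine Subgroup.mem_centralizer_iff.mpr ?_
        intro h hh
        exact (Subgroup.mem_centralizer_iff.mp (hle hh) a (Set.mem_singleton a)).symm
      rw [hC0] at hmem
      exact Subgroup.mem_bot.mp hmem
    have hzB : ∀ g : H, g * z = z * g → g ∈ B := by
      intro g hg
      obtain ⟨a, ha, b, hb, rfl⟩ := hAB g
      have hbz : z * b = b * z := hB z hz b hb
      have h2 : a * z * b = z * a * b := by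
        rw [mul_assoc a z b, hbz, ← mul_assoc, hg, mul_assoc]
      rw [hCz a ha (mul_right_cancel h2), one_mul]
      exact hb
    have hWB : Subgroup.normalClosure ({z} : Set H) ≤ B := fun w hw => hzB w (hWc w hw z hzW)
    have hBleW : B ≤ Subgroup.normalClosure ({z} : Set H) := by
      intro b hb
      obtain ⟨a, ha, w, hw, rfl⟩ := hAW b
      have haB : a ∈ B := by
        have := B.mul_mem hb (B.inv_mem (hWB hw))
        simpa [mul_assoc] using this
      have haz : a * z = z * a := (hB z hz a haB).symm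
      rw [hCz a ha haz, one_mul]
      exact hw
    apply hne
    rw [Subgroup.commutator_eq_bot_iff_le_centralizer]
    intro x hx
    rw [Subgroup.mem_centralizer_iff]
    intro y hy
    exact hWc y (hBleW hy) x (hBleW hx)
  · have hBC : ⁅B, B⁆ ≤ A ⊓ Subgroup.centralizer (Subgroup.normalClosure ({z} : Set H) : Set H) :=
      key _ hCn hC0
    have hAtop : A = ⊤ := by
      rw [← hgen]
      exact (sup_eq_left.mpr (hBC.trans inf_le_left)).symm
    apply hne
    rw [Subgroup.commutator_eq_bot_iff_le_centralizer]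
    intro x hx
    rw [Subgroup.mem_centralizer_iff]
    intro y hy
    exact hA y (hAtop ▸ Subgroup.mem_top y) x (hAtop ▸ Subgroup.mem_top x)

theorem mainM (n : ℕ) : ∀ (G : Type u) [Group G] [Finite G] [Group.IsSolvable G], Nat.card G = n →
    ∀ (A B : Subgroup G), (∀ x ∈ A, ∀ y ∈ A, x * y = y * x) →
      (∀ x ∈ ⁅B, B⁆, ∀ y ∈ B, x * y = y * x) →
      (∀ g : G, ∃ a ∈ A, ∃ b ∈ B, g = a * b) →
      derivedSeries G (2 * (1 + (Nat.card ↥(⁅B, B⁆ : Subgroup G)).primeFactorsList.length)) = ⊥ := by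
  induction n using Nat.strong_induction_on with
  | _ n ih =>
  intro G _ _ _ hn A B hA hB hAB
  have hM0n : (Subgroup.normalClosure ((⁅B, B⁆ : Subgroup G) : Set G)).Normal :=
    Subgroup.normalClosure_normal
  have hBdM : ⁅B, B⁆ ≤ Subgroup.normalClosure ((⁅B, B⁆ : Subgroup G) : Set G) :=
    Subgroup.le_normalClosure
  have h1 : derivedSeries G 2 ≤ Subgroup.normalClosure ((⁅B, B⁆ : Subgroup G) : Set G) := by
    haveI : IsMulCommutative ↥(A.map (QuotientGroup.mk' (Subgroup.normalClosure ((⁅B, B⁆ : Subgroup G) : Set G)))) := ⟨⟨by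
      rintro ⟨_, a, ha, rfl⟩ ⟨_, a', ha', rfl⟩
      apply Subtype.ext
      show QuotientGroup.mk' _ a * QuotientGroup.mk' _ a' = QuotientGroup.mk' _ a' * QuotientGroup.mk' _ a
      rw [← map_mul, ← map_mul, hA a ha a' ha']⟩⟩
    haveI : IsMulCommutative ↥(B.map (QuotientGroup.mk' (Subgroup.normalClosure ((⁅B, B⁆ : Subgroup G) : Set G)))) := ⟨⟨by
      rintro ⟨_, b, hb, rfl⟩ ⟨_, b', hb', rfl⟩
      apply Subtype.ext
      show QuotientGroup.mk' _ b * QuotientGroup.mk' _ b' = QuotientGroup.mk' _ b' * QuotientGroup.mk' _ b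
      have hc : ⁅b, b'⁆ ∈ Subgroup.normalClosure ((⁅B, B⁆ : Subgroup G) : Set G) :=
        hBdM (Subgroup.commutator_mem_commutator hb hb')
      have h1 : QuotientGroup.mk' (Subgroup.normalClosure ((⁅B, B⁆ : Subgroup G) : Set G)) ⁅b, b'⁆ = 1 :=
        (QuotientGroup.eq_one_iff _).mpr hc
      rw [map_commutatorElement] at h1
      exact commutatorElement_eq_one_iff_mul_comm.mp h1⟩⟩
    have hI := Cfsg.Agent.S0572.result
      (A.map (QuotientGroup.mk' (Subgroup.normalClosure ((⁅B, B⁆ : Subgroup G) : Set G))))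
      (B.map (QuotientGroup.mk' (Subgroup.normalClosure ((⁅B, B⁆ : Subgroup G) : Set G)))) (by
      intro g
      obtain ⟨g0, rfl⟩ := QuotientGroup.mk'_surjective _ g
      obtain ⟨a, ha, b, hb, rfl⟩ := hAB g0
      exact ⟨_, Subgroup.mem_map_of_mem _ ha, _, Subgroup.mem_map_of_mem _ hb, map_mul _ _ _⟩)
    have h2 := map_derivedSeries_le_derivedSeries
      (QuotientGroup.mk' (Subgroup.normalClosure ((⁅B, B⁆ : Subgroup G) : Set G))) 2
    rw [hI, le_bot_iff, Subgroup.map_eq_bot_iff, QuotientGroup.ker_mk'] at h2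
    exact h2
  have h2 : Subgroup.normalClosure ((⁅B, B⁆ : Subgroup G) : Set G) ≤ A ⊔ ⁅B, B⁆ := by
    show Subgroup.closure (Group.conjugatesOfSet ((⁅B, B⁆ : Subgroup G) : Set G)) ≤ _
    rw [Subgroup.closure_le]
    intro x hx
    rw [Group.mem_conjugatesOfSet_iff] at hx
    obtain ⟨c, hc, hconj⟩ := hx
    obtain ⟨g, rfl⟩ := isConj_iff.mp hconj
    obtain ⟨a, ha, b, hb, rfl⟩ := hAB g
    have hcb : c * b = b * c := hB c hc b hb
    have e1 : a * b * c * (a * b)⁻¹ = a * c * a⁻¹ := by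
      rw [mul_inv_rev, mul_assoc a b c, ← hcb]
      group
    rw [SetLike.mem_coe, e1]
    exact Subgroup.mul_mem _ (Subgroup.mul_mem _ (Subgroup.mem_sup_left ha) (Subgroup.mem_sup_right hc))
      (Subgroup.inv_mem _ (Subgroup.mem_sup_left ha))
  have hB2G1 : (A ⊔ ⁅B, B⁆) ⊓ B ≤ A ⊔ ⁅B, B⁆ := inf_le_left
  have hB2B : (A ⊔ ⁅B, B⁆) ⊓ B ≤ B := inf_le_right
  have hAG1 : A ≤ A ⊔ ⁅B, B⁆ := le_sup_left
  have hcomm2 : ⁅(A ⊔ ⁅B, B⁆) ⊓ B, (A ⊔ ⁅B, B⁆) ⊓ B⁆ ≤ ⁅B, B⁆ := Subgroup.commutator_mono hB2B hB2B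
  have hmapB' := comm_subgroupOf (A ⊔ ⁅B, B⁆) ((A ⊔ ⁅B, B⁆) ⊓ B) hB2G1
  have hA'c : ∀ x ∈ A.subgroupOf (A ⊔ ⁅B, B⁆), ∀ y ∈ A.subgroupOf (A ⊔ ⁅B, B⁆), x * y = y * x := by
    intro x hx y hy
    apply Subtype.ext
    exact hA x (Subgroup.mem_subgroupOf.mp hx) y (Subgroup.mem_subgroupOf.mp hy)
  have hB'c : ∀ x ∈ ⁅((A ⊔ ⁅B, B⁆) ⊓ B).subgroupOf (A ⊔ ⁅B, B⁆), ((A ⊔ ⁅B, B⁆) ⊓ B).subgroupOf (A ⊔ ⁅B, B⁆)⁆,
      ∀ y ∈ ((A ⊔ ⁅B, B⁆) ⊓ B).subgroupOf (A ⊔ ⁅B, B⁆), x * y = y * x := by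
    intro x hx y hy
    apply Subtype.ext
    have hx' : (x : G) ∈ ⁅B, B⁆ := by
      apply hcomm2
      rw [← hmapB']
      exact Subgroup.mem_map_of_mem (A ⊔ ⁅B, B⁆).subtype hx
    exact hB x hx' y (hB2B (Subgroup.mem_subgroupOf.mp hy))
  have hfac : ∀ g : ↥(A ⊔ ⁅B, B⁆), ∃ a ∈ A.subgroupOf (A ⊔ ⁅B, B⁆),
      ∃ b ∈ ((A ⊔ ⁅B, B⁆) ⊓ B).subgroupOf (A ⊔ ⁅B, B⁆), g = a * b := by
    intro g
    obtain ⟨a, ha, b, hb, hg⟩ := hAB g
    have hbG1 : b ∈ A ⊔ ⁅B, B⁆ := by
      have e : b = a⁻¹ * g := by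
        rw [hg]
        group
      rw [e]
      exact Subgroup.mul_mem _ (Subgroup.inv_mem _ (hAG1 ha)) g.2
    exact ⟨⟨a, hAG1 ha⟩, Subgroup.mem_subgroupOf.mpr ha, ⟨b, hbG1⟩,
      Subgroup.mem_subgroupOf.mpr ⟨hbG1, hb⟩, Subtype.ext hg⟩
  by_cases hlt : ⁅(A ⊔ ⁅B, B⁆) ⊓ B, (A ⊔ ⁅B, B⁆) ⊓ B⁆ = ⁅B, B⁆
  · have hbot : ⁅B, B⁆ = ⊥ := by
      have hL := lemL _ (↥(A ⊔ ⁅B, B⁆)) rfl _ _ hA'c hB'c hfac (by
        apply Subgroup.map_injective (A ⊔ ⁅B, B⁆).subtype_injective
        rw [Subgroup.map_sup, hmapB', Subgroup.subgroupOf_map_subtype, inf_eq_left.mpr hAG1, hlt,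
          ← MonoidHom.range_eq_map, Subgroup.range_subtype])
      rw [← hlt, ← hmapB', hL, Subgroup.map_bot]
    have hM0bot : Subgroup.normalClosure ((⁅B, B⁆ : Subgroup G) : Set G) = ⊥ := by
      rw [hbot]
      exact le_bot_iff.mp (Subgroup.normalClosure_le_normal (le_refl _))
    have h3 : derivedSeries G 2 = ⊥ := le_bot_iff.mp (hM0bot ▸ h1)
    exact le_bot_iff.mp (h3 ▸ derivedSeries_antitone G (by omega))
  · have hlt' : ⁅(A ⊔ ⁅B, B⁆) ⊓ B, (A ⊔ ⁅B, B⁆) ⊓ B⁆ < ⁅B, B⁆ := lt_of_le_of_ne hcomm2 hlt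
    have hG1top : A ⊔ ⁅B, B⁆ ≠ ⊤ := by
      intro h
      apply hlt
      rw [h, top_inf_eq]
    have hcard : Nat.card ↥(A ⊔ ⁅B, B⁆) < n := by
      rw [← hn]
      exact lt_of_le_of_ne (Subgroup.card_le_card_group _)
        (fun h => hG1top ((Subgroup.card_eq_iff_eq_top _).mp h))
    have hIH := ih _ hcard (↥(A ⊔ ⁅B, B⁆)) rfl _ _ hA'c hB'c hfac
    have hcardeq : Nat.card ↥(⁅((A ⊔ ⁅B, B⁆) ⊓ B).subgroupOf (A ⊔ ⁅B, B⁆),
        ((A ⊔ ⁅B, B⁆) ⊓ B).subgroupOf (A ⊔ ⁅B, B⁆)⁆ : Subgroup ↥(A ⊔ ⁅B, B⁆)) =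
        Nat.card ↥(⁅(A ⊔ ⁅B, B⁆) ⊓ B, (A ⊔ ⁅B, B⁆) ⊓ B⁆ : Subgroup G) := by
      rw [← hmapB']
      exact (Subgroup.card_map_of_injective (A ⊔ ⁅B, B⁆).subtype_injective).symm
    rw [hcardeq] at hIH
    have hΩ := omega_lt _ _ hlt'
    have h3 := ds_le (A ⊔ ⁅B, B⁆) 2 (h1.trans h2)
      (2 * (1 + (Nat.card ↥(⁅(A ⊔ ⁅B, B⁆) ⊓ B, (A ⊔ ⁅B, B⁆) ⊓ B⁆ : Subgroup G)).primeFactorsList.length))
    rw [hIH, Subgroup.map_bot, le_bot_iff] at h3
    exact le_bot_iff.mp (h3 ▸ derivedSeries_antitone G (by omega))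

/-- Let the finite group G be the product AB of an abelian subgroup A and a subgroup B of nilpotency class at most two, and let Ω be the number of prime factors, with multiplicity, of the order of the commutator subgroup of B. Then the term of index 2(1 + Ω) of the derived series of G is trivial. -/
theorem result {G : Type*} [Group G] [Finite G] (A B : Subgroup G) [IsMulCommutative A] (hB : commutator ↥B ≤ Subgroup.center ↥B) (hAB : ∀ g : G, ∃ a ∈ A, ∃ b ∈ B, g = a * b) : derivedSeries G (2 * (1 + (Nat.card ↥(commutator ↥B)).primeFactorsList.length)) = ⊥ := by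
  have hAc : ∀ x ∈ A, ∀ y ∈ A, x * y = y * x := by
    intro x hx y hy
    have h := mul_comm' (⟨x, hx⟩ : A) ⟨y, hy⟩
    exact congrArg Subtype.val h
  have hmap : (commutator ↥B).map B.subtype = ⁅B, B⁆ := Subgroup.map_subtype_commutator B
  have hBc : ∀ x ∈ ⁅B, B⁆, ∀ y ∈ B, x * y = y * x := by
    intro x hx y hy
    rw [← hmap] at hx
    obtain ⟨x', hx', rfl⟩ := hx
    have h := Subgroup.mem_center_iff.mp (hB hx') ⟨y, hy⟩
    exact (congrArg Subtype.val h).symm
  have hnA : Group.IsNilpotent A := by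
    letI : CommGroup A := { (inferInstance : Group A) with mul_comm := fun a b => mul_comm' a b }
    exact CommGroup.isNilpotent
  have hnB : Group.IsNilpotent B := by
    rw [Subgroup.nilpotent_iff_lowerCentralSeries]
    refine ⟨2, Subgroup.lowerCentralSeries_succ_eq_bot ⊤ ?_⟩
    rw [Subgroup.top_lowerCentralSeries_one]
    exact hB
  haveI : Group.IsSolvable G := Cfsg.Agent.S0564.result A B hnA hnB hAB
  have hcard : Nat.card ↥(commutator ↥B) = Nat.card ↥(⁅B, B⁆ : Subgroup G) := by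
    rw [← hmap]
    exact (Subgroup.card_map_of_injective B.subtype_injective).symm
  rw [hcard]
  exact mainM _ G rfl A B hAc hBc hAB

end Cfsg.Agent.S0574
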