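import Mathlib
import Cfsg.Statements.S0576

set_option autoImplicit false
open Cfsg

namespace Cfsg.Agent.S0576

theorem inn_normal {H : Type*} [Group H] : (MulAut.conj : H →* MulAut H).range.Normal := by
  constructor
  rintro _ ⟨h, rfl⟩ ψ
  refine ⟨ψ h, ?_⟩
  ext x
  simp [MulAut.conj_apply]

theorem result {G : Type*} [Group G] [Finite G] (H : Subgroup G) [H.Normal] (hH : H ≤ frattini G) : (MulAut.conj : ↥H →* MulAut ↥H).range ≤ frattini (MulAut ↥H) := by
  haveI := inn_normal (H := ↥H)
  simp only [frattini, Order.radical]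
  apply le_iInf₂
  intro M hM
  by_contra hIM
  have hM' : IsCoatom M := hM
  have htop : (MulAut.conj : ↥H →* MulAut ↥H).range ⊔ M = ⊤ := by
    apply hM'.2
    exact lt_of_le_of_ne le_sup_right (fun h => hIM (h ▸ le_sup_left))
  have hK : M.comap (MulAut.conjNormal : G →* MulAut ↥H) ⊔ frattini G = ⊤ := by
    rw [eq_top_iff]
    intro g _
    have hg : (MulAut.conjNormal g : MulAut ↥H) ∈ (MulAut.conj : ↥H →* MulAut ↥H).range ⊔ M := by
      rw [htop]; trivial
    obtain ⟨f, hf, m, hm, hfm⟩ := Subgroup.mem_sup_of_normal_left.mp hg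
    obtain ⟨h, rfl⟩ := hf
    have hmem : (h : G)⁻¹ * g ∈ M.comap (MulAut.conjNormal : G →* MulAut ↥H) := by
      rw [Subgroup.mem_comap, map_mul, map_inv, MulAut.conjNormal_val, ← hfm]
      simpa using hm
    have : g = (h : G) * ((h : G)⁻¹ * g) := by group
    rw [this]
    exact Subgroup.mul_mem _ (Subgroup.mem_sup_right (hH h.2)) (Subgroup.mem_sup_left hmem)
  have hK' := frattini_nongenerating hK
  apply hIM
  rintro _ ⟨h, rfl⟩
  have : (h : G) ∈ M.comap (MulAut.conjNormal : G →* MulAut ↥H) := by rw [hK']; trivial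
  rw [Subgroup.mem_comap, MulAut.conjNormal_val] at this
  exact this

end Cfsg.Agent.S0576
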