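import Cfsg.Statements.S0578
import Mathlib

set_option autoImplicit false
open Cfsg

namespace Cfsg.Agent.S0578

open scoped commutatorElement

/-- Under the hypothesis, every `p`-subgroup is abelian. -/
theorem pgroup_comm {G : Type*} [Group G] [Finite G]
    (h : ∀ A : Subgroup G, IsMulCommutative A → Subgroup.normalizer (A : Set G) = Subgroup.centralizer (A : Set G))
    {p : ℕ} [Fact p.Prime] (P : Subgroup G) (hP : IsPGroup p P) : IsMulCommutative P := by
  obtain ⟨A, ⟨hAP, hAc⟩, hmax⟩ := exists_maximal_of_wellFoundedGT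
    (fun A : Subgroup G => A ≤ P ∧ IsMulCommutative A) ⟨⊥, bot_le, inferInstance⟩
  by_cases hAeq : A = P
  · rw [← hAeq]; exact hAc
  exfalso
  have hnil : Group.IsNilpotent P := hP.isNilpotent
  have hnc : NormalizerCondition P := Group.normalizerCondition_of_isNilpotent
  have hlt : A.subgroupOf P < ⊤ := by
    rw [lt_top_iff_ne_top]
    intro htop
    rw [Subgroup.subgroupOf_eq_top] at htop
    exact hAeq (le_antisymm hAP htop)
  obtain ⟨-, hx⟩ := (SetLike.lt_iff_le_and_exists.mp (hnc _ hlt))
  obtain ⟨x, hxN, hxA⟩ := hx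
  have hxA' : (x : G) ∉ A := fun hh => hxA (Subgroup.mem_subgroupOf.mpr hh)
  have hxNG : (x : G) ∈ Subgroup.normalizer (A : Set G) := by
    rw [Subgroup.mem_normalizer_iff]
    intro g
    rw [Subgroup.mem_normalizer_iff] at hxN
    constructor
    · intro hg
      have := (hxN ⟨g, hAP hg⟩).mp (Subgroup.mem_subgroupOf.mpr hg)
      exact Subgroup.mem_subgroupOf.mp this
    · intro hg
      have hgP : g ∈ P := by
        have : g = (x : G)⁻¹ * ((x : G) * g * (x : G)⁻¹) * (x : G) := by group
        rw [this]
        exact P.mul_mem (P.mul_mem (P.inv_mem x.2) (hAP hg)) x.2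
      have := (hxN ⟨g, hgP⟩).mpr (Subgroup.mem_subgroupOf.mpr hg)
      exact Subgroup.mem_subgroupOf.mp this
  rw [h A hAc] at hxNG
  have hcl : IsMulCommutative (Subgroup.closure ((A : Set G) ∪ {(x : G)})) := by
    apply Subgroup.isMulCommutative_closure
    rintro a (ha | ha) b (hb | hb)
    · exact setLike_mul_comm ha hb
    · rw [Set.mem_singleton_iff] at hb
      rw [hb]
      exact Subgroup.mem_centralizer_iff.mp hxNG a ha
    · rw [Set.mem_singleton_iff] at ha
      rw [ha]
      exact (Subgroup.mem_centralizer_iff.mp hxNG b hb).symm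
    · rw [Set.mem_singleton_iff] at ha hb
      rw [ha, hb]
  have hclP : Subgroup.closure ((A : Set G) ∪ {(x : G)}) ≤ P := by
    rw [Subgroup.closure_le]
    rintro a (ha | ha)
    · exact hAP ha
    · rw [Set.mem_singleton_iff] at ha
      rw [ha]; exact x.2
  have hle : A ≤ Subgroup.closure ((A : Set G) ∪ {(x : G)}) := by
    intro a ha
    exact Subgroup.subset_closure (Or.inl ha)
  have := hmax ⟨hclP, hcl⟩ hle
  exact hxA' (this (Subgroup.subset_closure (Or.inr rfl)))

/-- If in a finite group the normalizer of each abelian subgroup coincides with its centralizer, then the group is abelian. -/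
theorem result {G : Type*} [Group G] [Finite G] (h : ∀ A : Subgroup G, IsMulCommutative A → Subgroup.normalizer (A : Set G) = Subgroup.centralizer (A : Set G)) : IsMulCommutative G := by
  refine ⟨⟨fun a b => ?_⟩⟩
  by_contra hab
  have hc : ⁅a, b⁆ ≠ 1 := by
    intro h1
    exact hab (commutatorElement_eq_one_iff_mul_comm.mp h1)
  have hord : orderOf ⁅a, b⁆ ≠ 1 := by
    intro h1
    exact hc (orderOf_eq_one_iff.mp h1)
  obtain ⟨p, hp, hpdvd⟩ := Nat.exists_prime_and_dvd hord
  have : Fact p.Prime := ⟨hp⟩
  obtain ⟨P⟩ : Nonempty (Sylow p G) := inferInstance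
  have hPc : IsMulCommutative (P : Subgroup G) := pgroup_comm h (P : Subgroup G) P.isPGroup'
  have hP : Subgroup.normalizer ((P : Subgroup G) : Set G) ≤ Subgroup.centralizer ((P : Subgroup G) : Set G) :=
    (h (P : Subgroup G) hPc).le
  have hker : ⁅a, b⁆ ∈ (MonoidHom.transferSylow P hP).ker := by
    rw [MonoidHom.mem_ker, map_commutatorElement, commutatorElement_eq_one_iff_mul_comm]
    exact setLike_mul_comm (MonoidHom.transferSylow P hP a).2 (MonoidHom.transferSylow P hP b).2 |> fun e => Subtype.ext e
  have h1 : orderOf ⁅a, b⁆ ∣ Nat.card (MonoidHom.transferSylow P hP).ker :=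
    Subgroup.orderOf_dvd_natCard _ hker
  exact MonoidHom.not_dvd_card_ker_transferSylow P hP (hpdvd.trans h1)

end Cfsg.Agent.S0578
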