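import Mathlib
import Cfsg.Statements.S0583

set_option autoImplicit false
open Cfsg

namespace Cfsg.Agent.S0583

theorem normal_nilpotent_le_centralizer {G : Type*} [Group G] (M : Subgroup G) [M.Normal] (hM : M ≠ ⊥) (hmin : ∀ K : Subgroup G, K.Normal → K ≤ M → K = ⊥ ∨ K = M) (N : Subgroup G) [N.Normal] (hN : Group.IsNilpotent N) :
    N ≤ Subgroup.centralizer (M : Set G) := by
  rw [← Subgroup.commutator_eq_bot_iff_le_centralizer, Subgroup.commutator_comm]
  rcases hmin ⁅M, N⁆ inferInstance (Subgroup.commutator_le_left M N) with h | h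
  · exact h
  · exfalso
    have hMN : M ≤ N := by
      have := Subgroup.commutator_le_right M N
      rw [h] at this
      exact this
    obtain ⟨n, hn⟩ := (Subgroup.isNilpotent_iff_lowerCentralSeries N).mp hN
    have key : ∀ k : ℕ, M ≤ N.lowerCentralSeries k := by
      intro k
      induction k with
      | zero => simpa using hMN
      | succ k ih =>
        rw [Subgroup.lowerCentralSeries_succ]
        calc M = ⁅M, N⁆ := h.symm
          _ ≤ ⁅N.lowerCentralSeries k, N⁆ := Subgroup.commutator_mono ih le_rfl
    have := key n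
    rw [hn] at this
    exact hM (le_bot_iff.mp this)

theorem result {G : Type*} [Group G] [Finite G] (M : Subgroup G) [M.Normal] (hM : M ≠ ⊥) (hmin : ∀ K : Subgroup G, K.Normal → K ≤ M → K = ⊥ ∨ K = M) : Cfsg.fittingSubgroup G ≤ Subgroup.centralizer (M : Set G) := by
  unfold Cfsg.fittingSubgroup
  apply sSup_le
  rintro N ⟨hNn, hNnil⟩
  haveI := hNn
  exact normal_nilpotent_le_centralizer M hM hmin N hNnil

end Cfsg.Agent.S0583
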