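import Mathlib
import Cfsg.Statements.S0586
import Cfsg.Agent.S0583
import Cfsg.Agent.S0585

set_option autoImplicit false
open Cfsg

namespace Cfsg.Agent.S0586

theorem commutator_le_coatom_of_nilpotent {N : Type*} [Group N] [Finite N] (hN : Group.IsNilpotent N)
    (D : Subgroup N) (hD : IsCoatom D) : commutator N ≤ D := by
  have hnorm : D.Normal := by
    have q := (Group.isNilpotent_of_finite_tfae (G := N)).out 0 2
    exact (q.mp hN) D hD
  have := hN
  rw [← Subgroup.Normal.quotient_commutative_iff_commutator_le, ← Subgroup.center_eq_top_iff]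
  have : Nontrivial (N ⧸ D) := QuotientGroup.nontrivial_iff.mpr hD.1
  have hc : Subgroup.center (N ⧸ D) ≠ ⊥ := Group.IsNilpotent.center_ne_bot _
  have hle : D ≤ (Subgroup.center (N ⧸ D)).comap (QuotientGroup.mk' D) := by
    intro x hx
    rw [Subgroup.mem_comap]
    have : (QuotientGroup.mk' D) x = 1 := (QuotientGroup.eq_one_iff x).mpr hx
    rw [this]
    exact Subgroup.one_mem _
  have hne : D ≠ (Subgroup.center (N ⧸ D)).comap (QuotientGroup.mk' D) := by
    intro h
    apply hc
    rw [eq_bot_iff]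
    intro q hq
    obtain ⟨x, rfl⟩ := QuotientGroup.mk'_surjective D q
    have : x ∈ D := by rw [h]; exact hq
    rw [Subgroup.mem_bot]
    exact (QuotientGroup.eq_one_iff x).mpr this
  have htop := hD.2 _ (lt_of_le_of_ne hle hne)
  rw [eq_top_iff]
  intro q _
  obtain ⟨x, rfl⟩ := QuotientGroup.mk'_surjective D q
  have : x ∈ (Subgroup.center (N ⧸ D)).comap (QuotientGroup.mk' D) := by rw [htop]; trivial
  exact this

theorem comm_le_coatom {G : Type*} [Group G] [Finite G] (N : Subgroup G) [N.Normal]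
    (hN : Group.IsNilpotent N) (M : Subgroup G) (hM : IsCoatom M) : ⁅N, N⁆ ≤ M := by
  by_contra h
  have htop : ⁅N, N⁆ ⊔ M = ⊤ :=
    hM.2 _ (lt_of_le_of_ne le_sup_right (fun e => h (e ▸ le_sup_left)))
  have hNM : ¬ N ≤ M := fun hle => h ((Subgroup.commutator_le_self N).trans hle)
  have hD' : M.subgroupOf N ≠ ⊤ := by rwa [Ne, Subgroup.subgroupOf_eq_top]
  obtain ⟨D1, hD1, hle⟩ := (eq_top_or_exists_le_coatom (M.subgroupOf N)).resolve_left hD'
  have hcomm := commutator_le_coatom_of_nilpotent hN D1 hD1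
  apply hD1.1
  rw [eq_top_iff]
  intro n _
  have hn : (n : G) ∈ ⁅N, N⁆ ⊔ M := by rw [htop]; trivial
  obtain ⟨c, hc, m, hm, hcm⟩ := Subgroup.mem_sup_of_normal_left.mp hn
  have hcN : c ∈ N := Subgroup.commutator_le_self N hc
  have hmN : m ∈ N := by
    have : m = c⁻¹ * n := by rw [← hcm]; group
    rw [this]; exact N.mul_mem (N.inv_mem hcN) n.2
  have hc' : (⟨c, hcN⟩ : N) ∈ commutator N := by
    rw [← Subgroup.map_subtype_commutator] at hc
    obtain ⟨c', hc', hcc⟩ := Subgroup.mem_map.mp hc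
    have : c' = ⟨c, hcN⟩ := Subtype.ext hcc
    rw [← this]; exact hc'
  have : n = ⟨c, hcN⟩ * ⟨m, hmN⟩ := Subtype.ext hcm.symm
  rw [this]
  exact D1.mul_mem (hcomm hc') (hle (Subgroup.mem_subgroupOf.mpr hm))

theorem isNilpotent_of_comm {G : Type*} [Group G] (N : Subgroup G) (h : IsMulCommutative N) :
    Group.IsNilpotent N := by
  apply Subgroup.isNilpotent_of_lowerCentralSeries_eq_bot (n := 1)
  rw [Subgroup.lowerCentralSeries_succ, Subgroup.lowerCentralSeries_zero,
    Subgroup.commutator_eq_bot_iff_le_centralizer]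
  exact Subgroup.le_centralizer_iff_isMulCommutative.mpr h

theorem result {G : Type*} [Group G] [Finite G] (hΦ : frattini G = ⊥) : Cfsg.fittingSubgroup G = sSup {N : Subgroup G | N.Normal ∧ N ≠ ⊥ ∧ IsMulCommutative N ∧ ∀ K : Subgroup G, K.Normal → K ≤ N → K = ⊥ ∨ K = N} := by
  set T : Set (Subgroup G) := {N : Subgroup G | N.Normal ∧ N ≠ ⊥ ∧ IsMulCommutative N ∧ ∀ K : Subgroup G, K.Normal → K ≤ N → K = ⊥ ∨ K = N} with hT
  set S : Subgroup G := sSup T with hS
  apply le_antisymm
  · -- F(G) ≤ S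
    unfold Cfsg.fittingSubgroup
    apply sSup_le
    rintro N ⟨hNn, hNnil⟩
    have := hNn
    -- N is abelian
    have hNab : ⁅N, N⁆ = ⊥ := by
      rw [← le_bot_iff, ← hΦ]
      simp only [frattini, Order.radical]
      apply le_iInf₂
      intro M hM
      exact comm_le_coatom N hNnil M hM
    have hNcent : N ≤ Subgroup.centralizer (N : Set G) :=
      Subgroup.commutator_eq_bot_iff_le_centralizer.mp hNab
    -- each member of T centralizes N and S
    have hTN : ∀ M ∈ T, N ≤ Subgroup.centralizer (M : Set G) := by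
      rintro M ⟨hMn, hMne, hMc, hMmin⟩
      have := hMn
      exact Cfsg.Agent.S0583.normal_nilpotent_le_centralizer M hMne hMmin N hNnil
    have hTT : ∀ M ∈ T, ∀ M' ∈ T, M' ≤ Subgroup.centralizer (M : Set G) := by
      rintro M ⟨hMn, hMne, hMc, hMmin⟩ M' ⟨hMn', hMne', hMc', hMmin'⟩
      have := hMn
      have := hMn'
      exact Cfsg.Agent.S0583.normal_nilpotent_le_centralizer M hMne hMmin M' (isNilpotent_of_comm M' hMc')
    have hSN : S ≤ Subgroup.centralizer (N : Set G) := by
      apply sSup_le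
      intro M hM
      exact Subgroup.le_centralizer_iff.mp (hTN M hM)
    have hSS : S ≤ Subgroup.centralizer (S : Set G) := by
      apply sSup_le
      intro M hM
      rw [Subgroup.le_centralizer_iff]
      apply sSup_le
      intro M' hM'
      exact hTT M hM M' hM'
    have hSnorm : S.Normal := Subgroup.sSup_normal T (fun M hM => hM.1)
    have hSc : IsMulCommutative S := Subgroup.le_centralizer_iff_isMulCommutative.mp hSS
    obtain ⟨H, hH⟩ := Cfsg.Agent.S0585.result hΦ S
    have hdisj : S ⊓ H = ⊥ := disjoint_iff.mp hH.disjoint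
    have hsup : S ⊔ H = ⊤ := hH.sup_eq_top
    have hN1S : S ⊔ N ≤ Subgroup.centralizer (S : Set G) :=
      sup_le hSS (Subgroup.le_centralizer_iff.mp hSN)
    have hN1N : S ⊔ N ≤ Subgroup.centralizer (N : Set G) := sup_le hSN hNcent
    have hN1c : S ⊔ N ≤ Subgroup.centralizer ((S ⊔ N : Subgroup G) : Set G) :=
      sup_le (Subgroup.le_centralizer_iff.mp hN1S) (Subgroup.le_centralizer_iff.mp hN1N)
    have hDn : ((S ⊔ N) ⊓ H).Normal := by
      constructor
      intro x hx g
      have hg : g ∈ S ⊔ H := by rw [hsup]; trivial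
      obtain ⟨s, hs, h, hh, rfl⟩ := Subgroup.mem_sup_of_normal_left.mp hg
      have h1 : h * x * h⁻¹ ∈ S ⊔ N := (inferInstance : (S ⊔ N).Normal).conj_mem x hx.1 h
      have h2 : h * x * h⁻¹ ∈ H := H.mul_mem (H.mul_mem hh hx.2) (H.inv_mem hh)
      have hcomm : s * (h * x * h⁻¹) = (h * x * h⁻¹) * s :=
        Subgroup.mem_centralizer_iff.mp (hN1S h1) s hs
      have e : s * h * x * (s * h)⁻¹ = h * x * h⁻¹ := by
        have : s * h * x * (s * h)⁻¹ = s * (h * x * h⁻¹) * s⁻¹ := by group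
        rw [this, hcomm]; group
      rw [e]; exact ⟨h1, h2⟩
    have hD : (S ⊔ N) ⊓ H = ⊥ := by
      by_contra hD
      obtain ⟨M0, ⟨hM0n, hM0ne, hM0le⟩, hM0min⟩ := exists_minimal_of_wellFoundedLT
        (fun K : Subgroup G => K.Normal ∧ K ≠ ⊥ ∧ K ≤ (S ⊔ N) ⊓ H) ⟨(S ⊔ N) ⊓ H, hDn, hD, le_rfl⟩
      have hM0T : M0 ∈ T := by
        refine ⟨hM0n, hM0ne, ?_, ?_⟩
        · apply Subgroup.le_centralizer_iff_isMulCommutative.mp
          exact (hM0le.trans inf_le_left).trans
            (hN1c.trans (Subgroup.centralizer_le (hM0le.trans inf_le_left)))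
        · intro K hKn hK
          by_cases hKb : K = ⊥
          · exact Or.inl hKb
          · exact Or.inr (le_antisymm hK (hM0min ⟨hKn, hKb, hK.trans hM0le⟩ hK))
      have h1 : M0 ≤ S := le_sSup hM0T
      have h2 : M0 ≤ S ⊓ H := le_inf h1 (hM0le.trans inf_le_right)
      rw [hdisj] at h2
      exact hM0ne (le_bot_iff.mp h2)
    intro x hx
    have hg : x ∈ S ⊔ H := by rw [hsup]; trivial
    obtain ⟨s, hs, h, hh, rfl⟩ := Subgroup.mem_sup_of_normal_left.mp hg
    have hh' : h ∈ (S ⊔ N) ⊓ H := by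
      refine ⟨?_, hh⟩
      have : h = s⁻¹ * (s * h) := by group
      rw [this]
      exact Subgroup.mul_mem _ (Subgroup.inv_mem _ (Subgroup.mem_sup_left hs)) (Subgroup.mem_sup_right hx)
    rw [hD, Subgroup.mem_bot] at hh'
    rw [hh', mul_one]
    exact hs
  · apply sSup_le
    rintro M ⟨hMn, hMne, hMc, hMmin⟩
    unfold Cfsg.fittingSubgroup
    exact le_sSup ⟨hMn, isNilpotent_of_comm M hMc⟩

end Cfsg.Agent.S0586
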