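import Cfsg.Statements.S0589
import Mathlib

set_option autoImplicit false
open Pointwise
open Cfsg

namespace Cfsg.Agent.S0589

/-- Pure arithmetic core of the orbit count. -/
theorem arith {Q : Type*} [Fintype Q] [DecidableEq Q] [Nonempty Q] (N n : ℕ) (m s : Q → ℕ)
    (hms : ∀ q, m q * s q = N) (hN : 0 < N)
    (hn : n = ∑ q, m q) (hB : Nat.card Q * N ≤ n + (N - 1)) (hmod : n % N = 1 % N) :
    ∃ q, s q = N := by
  rw [Nat.card_eq_fintype_card] at hB
  by_contra hcon
  push Not at hcon
  have hm1 : ∀ q, 0 < m q := by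
    intro q
    apply Nat.pos_of_ne_zero
    intro h
    have := hms q
    rw [h, zero_mul] at this
    omega
  have hs1 : ∀ q, 0 < s q := by
    intro q
    apply Nat.pos_of_ne_zero
    intro h
    have := hms q
    rw [h, mul_zero] at this
    omega
  have hmle : ∀ q, m q ≤ N := fun q => Nat.le_of_dvd hN ⟨s q, (hms q).symm⟩
  have hm2 : ∀ q, 2 ≤ m q := by
    intro q
    by_contra h
    have h1 : m q = 1 := by have := hm1 q; omega
    have h2 := hms q
    rw [h1, one_mul] at h2
    exact hcon q h2
  have hdich : ∀ q, m q = N ∨ 2 * m q ≤ N := by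
    intro q
    rcases Nat.lt_or_ge (s q) 2 with h | h
    · left
      have h1 : s q = 1 := by have := hs1 q; omega
      have h2 := hms q
      rw [h1, mul_one] at h2
      exact h2
    · right
      calc 2 * m q = m q * 2 := by ring
        _ ≤ m q * s q := Nat.mul_le_mul_left _ h
        _ = N := hms q
  have hsum : (∑ q, (N - m q)) + n = Fintype.card Q * N := by
    rw [hn, ← Finset.sum_add_distrib]
    rw [Finset.sum_congr rfl (fun q _ => Nat.sub_add_cancel (hmle q))]
    simp [Finset.card_univ]
  have hd : ∑ q, (N - m q) ≤ N - 1 := by omega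
  have huniq : ∀ q₁ q₂, m q₁ ≠ N → m q₂ ≠ N → q₁ = q₂ := by
    intro q₁ q₂ h1 h2
    by_contra hne
    have h1' := (hdich q₁).resolve_left h1
    have h2' := (hdich q₂).resolve_left h2
    have h3 : ∑ q ∈ ({q₁, q₂} : Finset Q), (N - m q) ≤ ∑ q, (N - m q) :=
      Finset.sum_le_sum_of_subset (Finset.subset_univ _)
    rw [Finset.sum_pair hne] at h3
    omega
  by_cases hex : ∃ q₀, m q₀ ≠ N
  · obtain ⟨q₀, hq₀⟩ := hex
    have hrest : ∀ q ∈ Finset.univ.erase q₀, m q = N := by
      intro q hq
      by_contra h
      exact (Finset.ne_of_mem_erase hq) (huniq q q₀ h hq₀)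
    have hn' : n = m q₀ + (Fintype.card Q - 1) * N := by
      rw [hn, ← Finset.add_sum_erase Finset.univ m (Finset.mem_univ q₀),
        Finset.sum_congr rfl hrest]
      simp [Finset.card_erase_of_mem, Finset.card_univ]
    have h2' := (hdich q₀).resolve_left hq₀
    have h3 := hm2 q₀
    rw [hn', Nat.add_mul_mod_self_right, Nat.mod_eq_of_lt (by omega),
      Nat.mod_eq_of_lt (by omega)] at hmod
    omega
  · push Not at hex
    have hn' : n = Fintype.card Q * N := by
      rw [hn, Finset.sum_congr rfl (fun q _ => hex q)]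
      simp [Finset.card_univ]
    rw [hn', Nat.mul_mod_left] at hmod
    have hN1 : N = 1 := by
      by_contra h
      rw [Nat.mod_eq_of_lt (by omega)] at hmod
      omega
    obtain ⟨q⟩ := ‹Nonempty Q›
    have h3 := hm2 q
    have h4 := hmle q
    omega

theorem card_fixedBy_one {K X : Type*} [Group K] [MulAction K X] :
    Nat.card (MulAction.fixedBy X (1 : K)) = Nat.card X := by
  apply Nat.card_congr
  exact Equiv.subtypeUnivEquiv (fun x => by simp)

theorem sum_fixed_le {K X : Type*} [Group K] [MulAction K X] [Fintype K] [Finite X] [DecidableEq K]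
    (hfix : ∀ k : K, k ≠ 1 → ∀ x y : X, k • x = x → k • y = y → x = y) :
    ∑ k : K, Nat.card (MulAction.fixedBy X k) ≤ Nat.card X + (Fintype.card K - 1) := by
  rw [← Finset.add_sum_erase Finset.univ _ (Finset.mem_univ (1 : K)), card_fixedBy_one]
  apply Nat.add_le_add_left
  calc ∑ k ∈ Finset.univ.erase (1 : K), Nat.card (MulAction.fixedBy X k)
      ≤ ∑ k ∈ Finset.univ.erase (1 : K), 1 := by
        apply Finset.sum_le_sum
        intro k hk
        rw [Finite.card_le_one_iff_subsingleton]
        constructor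
        rintro ⟨x, hx⟩ ⟨y, hy⟩
        exact Subtype.ext (hfix k (Finset.ne_of_mem_erase hk) x y hx hy)
    _ = Fintype.card K - 1 := by
        simp [Finset.card_erase_of_mem, Finset.card_univ]

theorem sum_fixed_eq {K X : Type*} [Group K] [MulAction K X] [Fintype K] [Finite X] [DecidableEq K]
    (hfix : ∀ k : K, k ≠ 1 → ∀ x y : X, k • x = x → k • y = y → x = y)
    (x₀ : X) (hx₀ : ∀ k : K, k • x₀ = x₀) :
    ∑ k : K, Nat.card (MulAction.fixedBy X k) = Nat.card X + (Fintype.card K - 1) := by
  rw [← Finset.add_sum_erase Finset.univ _ (Finset.mem_univ (1 : K)), card_fixedBy_one]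
  congr 1
  calc ∑ k ∈ Finset.univ.erase (1 : K), Nat.card (MulAction.fixedBy X k)
      = ∑ k ∈ Finset.univ.erase (1 : K), 1 := by
        apply Finset.sum_congr rfl
        intro k hk
        rw [Nat.card_eq_one_iff_unique]
        refine ⟨?_, ⟨⟨x₀, hx₀ k⟩⟩⟩
        constructor
        rintro ⟨x, hx⟩ ⟨y, hy⟩
        exact Subtype.ext (hfix k (Finset.ne_of_mem_erase hk) x y hx hy)
    _ = Fintype.card K - 1 := by
        simp [Finset.card_erase_of_mem, Finset.card_univ]

/-- If every element fixes a common point and nonidentity elements fix at most one point,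
then the number of points is `1` modulo the group order. -/
theorem card_mod_of_common {K X : Type*} [Group K] [MulAction K X] [Finite K] [Finite X]
    (hfix : ∀ k : K, k ≠ 1 → ∀ x y : X, k • x = x → k • y = y → x = y)
    (x₀ : X) (hx₀ : ∀ k : K, k • x₀ = x₀) :
    Nat.card X % Nat.card K = 1 % Nat.card K := by
  classical
  have := Fintype.ofFinite K
  have := Fintype.ofFinite X
  have hB := MulAction.sum_card_fixedBy_eq_card_orbits_mul_card_group K X
  simp only [Fintype.card_eq_nat_card] at hB
  have hA := sum_fixed_eq (K := K) (X := X) hfix x₀ hx₀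
  rw [hB, Fintype.card_eq_nat_card] at hA
  have hpos : 0 < Nat.card K := Nat.card_pos
  have h1 : Nat.card X + Nat.card K = Nat.card (Quotient (MulAction.orbitRel K X)) * Nat.card K + 1 := by
    omega
  have h2 : (Nat.card X + Nat.card K) % Nat.card K = 1 % Nat.card K := by
    rw [h1, Nat.mul_add_mod_self_right]
  rwa [Nat.add_mod_right] at h2

/-- A group acting so that nonidentity elements fix at most one point, with the number of points
congruent to `1` modulo the group order, has a common fixed point. -/
theorem exists_fixed_point {L X : Type*} [Group L] [MulAction L X] [Finite L] [Finite X]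
    [Nonempty X]
    (hfix : ∀ l : L, l ≠ 1 → ∀ x y : X, l • x = x → l • y = y → x = y)
    (hmod : Nat.card X % Nat.card L = 1 % Nat.card L) : ∃ x : X, ∀ l : L, l • x = x := by
  classical
  have := Fintype.ofFinite L
  have := Fintype.ofFinite X
  have hO := MulAction.card_eq_sum_card_group_div_card_stabilizer L X
  have hB := MulAction.sum_card_fixedBy_eq_card_orbits_mul_card_group L X
  simp only [Fintype.card_eq_nat_card] at hO hB
  have hA := sum_fixed_le (K := L) (X := X) hfix
  rw [hB, Fintype.card_eq_nat_card] at hA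
  have hQne : Nonempty (Quotient (MulAction.orbitRel L X)) :=
    ⟨Quotient.mk'' (Classical.arbitrary X)⟩
  obtain ⟨q, hq⟩ := arith (Q := Quotient (MulAction.orbitRel L X)) (Nat.card L) (Nat.card X)
    (fun q => Nat.card L / Nat.card (MulAction.stabilizer L q.out))
    (fun q => Nat.card (MulAction.stabilizer L q.out))
    (fun q => Nat.div_mul_cancel (Subgroup.card_subgroup_dvd_card _)) Nat.card_pos hO hA hmod
  refine ⟨q.out, fun l => ?_⟩
  have htop : MulAction.stabilizer L q.out = ⊤ := Subgroup.eq_top_of_card_eq _ hq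
  have hl : l ∈ MulAction.stabilizer L q.out := by rw [htop]; trivial
  exact hl

/-- Let H be a Frobenius complement in a finite group G and L a subgroup of G whose order divides the order of H. Then L is contained in some conjugate of H. -/
theorem result {G : Type*} [Group G] [Finite G] (H : Subgroup G) (hH : Cfsg.IsFrobeniusComplement H) (L : Subgroup G) (hL : Nat.card L ∣ Nat.card H) : ∃ x : G, L ≤ MulAut.conj x • H := by
  obtain ⟨hH1, hH2, hfrob⟩ := hH
  have hmk : ∀ (g a : G), g • (a : G ⧸ H) = (a : G ⧸ H) → a⁻¹ * g * a ∈ H := by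
    intro g a hx
    have hx' : ((g * a : G) : G ⧸ H) = (a : G ⧸ H) := hx
    rw [QuotientGroup.eq] at hx'
    have := H.inv_mem hx'
    have e : ((g * a)⁻¹ * a)⁻¹ = a⁻¹ * g * a := by group
    rwa [e] at this
  have hfixG : ∀ g : G, g ≠ 1 → ∀ x y : G ⧸ H, g • x = x → g • y = y → x = y := by
    intro g hg x y
    induction x using QuotientGroup.induction_on with
    | _ a =>
    induction y using QuotientGroup.induction_on with
    | _ b =>
    intro hx hy
    have hx' := hmk g a hx
    have hy' := hmk g b hy
    by_contra hne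
    have hz : a⁻¹ * b ∉ H := fun h => hne (QuotientGroup.eq.mpr h)
    have h0 := hfrob (a⁻¹ * b) hz
    have hmem : a⁻¹ * g * a ∈ H ⊓ MulAut.conj (a⁻¹ * b) • H := by
      refine Subgroup.mem_inf.mpr ⟨hx', ?_⟩
      rw [Subgroup.mem_pointwise_smul_iff_inv_smul_mem]
      have e : (MulAut.conj (a⁻¹ * b))⁻¹ • (a⁻¹ * g * a) = b⁻¹ * g * b := by
        rw [MulAut.smul_def, MulAut.conj_inv_apply]
        group
      rw [e]; exact hy'
    rw [h0, Subgroup.mem_bot] at hmem
    apply hg
    calc g = a * (a⁻¹ * g * a) * a⁻¹ := by group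
      _ = 1 := by rw [hmem]; group
  -- index of H is 1 mod |H|
  have hmodH : Nat.card (G ⧸ H) % Nat.card H = 1 % Nat.card H := by
    apply card_mod_of_common (K := H) (X := G ⧸ H) _ ((1 : G) : G ⧸ H)
    · intro k
      have : ((((k : G) * 1 : G)) : G ⧸ H) = ((1 : G) : G ⧸ H) := by
        rw [QuotientGroup.eq]; simp
      exact this
    · intro k hk x y hx hy
      exact hfixG (k : G) (fun h => hk (Subtype.ext h)) x y hx hy
  have hmodL : Nat.card (G ⧸ H) % Nat.card L = 1 % Nat.card L := by
    rw [← Nat.mod_mod_of_dvd _ hL, hmodH, Nat.mod_mod_of_dvd _ hL]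
  obtain ⟨x, hx⟩ := exists_fixed_point (L := L) (X := G ⧸ H)
    (fun l hl x y hx hy => hfixG (l : G) (fun h => hl (Subtype.ext h)) x y hx hy) hmodL
  induction x using QuotientGroup.induction_on with
  | _ a =>
  refine ⟨a, ?_⟩
  intro l hl
  have h1 := hmk l a (hx ⟨l, hl⟩)
  rw [Subgroup.mem_pointwise_smul_iff_inv_smul_mem]
  have e : (MulAut.conj a)⁻¹ • l = a⁻¹ * l * a := by
    rw [MulAut.smul_def, MulAut.conj_inv_apply]
  rw [e]; exact h1

end Cfsg.Agent.S0589
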