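import Mathlib
import Cfsg.Statements.S0590

set_option autoImplicit false
open Cfsg

namespace Cfsg.Agent.S0590

open scoped commutatorElement

theorem key {G : Type*} [Group G] (V H : Subgroup G)
    (hHV : H ≤ Subgroup.normalizer (V : Set G)) (hq : ⁅⁅V, H⁆, H⁆ = ⊥)
    (a : G) (ha : a ∈ H) (v : G) (hv : v ∈ V) :
    ∃ d ∈ V, (∀ b ∈ H, d * b = b * d) ∧ a * v * a⁻¹ = d * v := by
  refine ⟨⁅a, v⁆, ?_, ?_, ?_⟩
  · have h1 : a * v * a⁻¹ ∈ V := (Subgroup.mem_normalizer_iff.mp (hHV ha) v).mp hv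
    exact V.mul_mem h1 (V.inv_mem hv)
  · intro b hb
    have h1 : ⁅v, a⁆ ∈ ⁅V, H⁆ := Subgroup.commutator_mem_commutator hv ha
    have h2 : ⁅a, v⁆ ∈ ⁅V, H⁆ := by rw [← commutatorElement_inv]; exact inv_mem h1
    have h3 : ⁅⁅a, v⁆, b⁆ ∈ ⁅⁅V, H⁆, H⁆ := Subgroup.commutator_mem_commutator h2 hb
    rw [hq, Subgroup.mem_bot, commutatorElement_eq_one_iff_mul_comm] at h3
    exact h3
  · rw [commutatorElement_def]; group

theorem result {G : Type*} [Group G] [Finite G] {p : ℕ} [Fact p.Prime] (V H : Subgroup G) (hV : Cfsg.IsElementaryAbelian p V) (hHV : H ≤ Subgroup.normalizer (V : Set G)) (hq : ⁅⁅V, H⁆, H⁆ = ⊥) : ⁅H, H⁆ ≤ Subgroup.centralizer (V : Set G) ∧ ∀ a ∈ H, a ^ p ∈ Subgroup.centralizer (V : Set G) := by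
  have hVcomm : ∀ x ∈ V, ∀ y ∈ V, x * y = y * x := by
    intro x hx y hy
    have h1 := hV.1
    have := mul_comm' (⟨x, hx⟩ : V) ⟨y, hy⟩
    exact congrArg Subtype.val this
  constructor
  · rw [Subgroup.commutator_le]
    intro a ha b hb
    have hconj : ∀ v ∈ V, (a * b) * v * (a * b)⁻¹ = (b * a) * v * (b * a)⁻¹ := by
      intro v hv
      obtain ⟨da, hda, hdac, hda'⟩ := key V H hHV hq a ha v hv
      obtain ⟨db, hdb, hdbc, hdb'⟩ := key V H hHV hq b hb v hv
      have e1 : (a * b) * v * (a * b)⁻¹ = a * (b * v * b⁻¹) * a⁻¹ := by group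
      have e2 : (b * a) * v * (b * a)⁻¹ = b * (a * v * a⁻¹) * b⁻¹ := by group
      rw [e1, e2, hda', hdb']
      have e3 : a * (db * v) * a⁻¹ = (a * db) * v * a⁻¹ := by group
      have e4 : b * (da * v) * b⁻¹ = (b * da) * v * b⁻¹ := by group
      rw [e3, e4, ← hdbc a ha, ← hdac b hb]
      have e5 : db * a * v * a⁻¹ = db * (a * v * a⁻¹) := by group
      have e6 : da * b * v * b⁻¹ = da * (b * v * b⁻¹) := by group
      rw [e5, e6, hda', hdb', ← mul_assoc, ← mul_assoc, hVcomm db hdb da hda]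
    rw [Subgroup.mem_centralizer_iff]
    intro v hv
    have hba : (b * a)⁻¹ ∈ Subgroup.normalizer (V : Set G) := hHV (H.inv_mem (H.mul_mem hb ha))
    have hw : (b * a)⁻¹ * v * ((b * a)⁻¹)⁻¹ ∈ V := (Subgroup.mem_normalizer_iff.mp hba v).mp hv
    have := hconj _ hw
    have e7 : b * a * ((b * a)⁻¹ * v * (b * a)⁻¹⁻¹) * (b * a)⁻¹ = v := by group
    rw [e7] at this
    rw [commutatorElement_def]
    have e8 : a * b * a⁻¹ * b⁻¹ * v = (a * b * ((b * a)⁻¹ * v * (b * a)⁻¹⁻¹) * (a * b)⁻¹) * (a * b * a⁻¹ * b⁻¹) := by group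
    rw [e8, this]
  · intro a ha
    have hpow : ∀ v ∈ V, ∃ d ∈ V, ∀ n : ℕ, a ^ n * v * (a ^ n)⁻¹ = d ^ n * v := by
      intro v hv
      obtain ⟨d, hd, hdc, hd'⟩ := key V H hHV hq a ha v hv
      refine ⟨d, hd, ?_⟩
      intro n
      induction n with
      | zero => simp
      | succ n ih =>
        have e1 : a ^ (n + 1) * v * (a ^ (n + 1))⁻¹ = a * (a ^ n * v * (a ^ n)⁻¹) * a⁻¹ := by
          rw [pow_succ']; group
        rw [e1, ih]
        have hcomm : a * d ^ n = d ^ n * a := by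
          have : Commute d a := hdc a ha
          exact (this.pow_left n).eq.symm
        have e2 : a * (d ^ n * v) * a⁻¹ = (a * d ^ n) * v * a⁻¹ := by group
        rw [e2, hcomm]
        have e3 : d ^ n * a * v * a⁻¹ = d ^ n * (a * v * a⁻¹) := by group
        rw [e3, hd', pow_succ]
        group
    rw [Subgroup.mem_centralizer_iff]
    intro v hv
    obtain ⟨d, hd, hn⟩ := hpow v hv
    have := hn p
    rw [hV.2 d hd, one_mul] at this
    calc v * a ^ p = (a ^ p * v * (a ^ p)⁻¹) * a ^ p := by rw [this]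
      _ = a ^ p * v := by group

end Cfsg.Agent.S0590
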