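import Mathlib
import Cfsg.Statements.S0591

set_option autoImplicit false
open Cfsg

namespace Cfsg.Agent.S0591

open scoped commutatorElement

theorem result {G : Type*} [Group G] [Finite G] {p : ℕ} [Fact p.Prime] (V : Subgroup G) (hV : Cfsg.IsElementaryAbelian p V) (a : G) (ha : a ∈ Subgroup.normalizer (V : Set G)) (hq : ⁅⁅V, Subgroup.zpowers a⁆, Subgroup.zpowers a⁆ = ⊥) : Nat.card V ≤ Nat.card ↥(V ⊓ Subgroup.centralizer (Subgroup.zpowers a : Set G)) ^ 2 := by
  have hVcomm : ∀ x ∈ V, ∀ y ∈ V, x * y = y * x := by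
    intro x hx y hy
    have h1 := hV.1
    have := mul_comm' (⟨x, hx⟩ : V) ⟨y, hy⟩
    exact congrArg Subtype.val this
  have hcent : ∀ x : G, a * x = x * a → x ∈ Subgroup.centralizer (Subgroup.zpowers a : Set G) := by
    intro x hx
    rw [Subgroup.mem_centralizer_iff]
    intro h hh
    obtain ⟨k, rfl⟩ := Subgroup.mem_zpowers_iff.mp hh
    exact ((show Commute a x from hx).zpow_left k).eq
  have hconj : ∀ v ∈ V, a * v * a⁻¹ ∈ V := fun v hv => (Subgroup.mem_normalizer_iff.mp ha v).mp hv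
  have hmemV : ∀ v ∈ V, ⁅a, v⁆ ∈ V := fun v hv => V.mul_mem (hconj v hv) (V.inv_mem hv)
  have hmem : ∀ v ∈ V, ⁅a, v⁆ ∈ V ⊓ Subgroup.centralizer (Subgroup.zpowers a : Set G) := by
    intro v hv
    refine ⟨hmemV v hv, ?_⟩
    apply hcent
    have h1 : ⁅v, a⁆ ∈ ⁅V, Subgroup.zpowers a⁆ :=
      Subgroup.commutator_mem_commutator hv (Subgroup.mem_zpowers a)
    have h2 : ⁅a, v⁆ ∈ ⁅V, Subgroup.zpowers a⁆ := by rw [← commutatorElement_inv]; exact inv_mem h1
    have h3 : ⁅⁅a, v⁆, a⁆ ∈ ⁅⁅V, Subgroup.zpowers a⁆, Subgroup.zpowers a⁆ :=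
      Subgroup.commutator_mem_commutator h2 (Subgroup.mem_zpowers a)
    rw [hq, Subgroup.mem_bot, commutatorElement_eq_one_iff_mul_comm] at h3
    exact h3.symm
  let φ : V →* ↥(V ⊓ Subgroup.centralizer (Subgroup.zpowers a : Set G)) :=
    { toFun := fun v => ⟨⁅a, (v : G)⁆, hmem v v.2⟩
      map_one' := by
        apply Subtype.ext
        simp
      map_mul' := by
        intro v w
        apply Subtype.ext
        show ⁅a, (v : G) * (w : G)⁆ = ⁅a, (v : G)⁆ * ⁅a, (w : G)⁆
        have h1 : ⁅a, (v : G) * (w : G)⁆ = (a * v * a⁻¹) * (⁅a, (w : G)⁆ * (v : G)⁻¹) := by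
          rw [commutatorElement_def, commutatorElement_def]; group
        rw [h1, hVcomm _ (hmemV w w.2) _ (V.inv_mem v.2), commutatorElement_def]
        group }
  have hker : Nat.card φ.ker ≤ Nat.card ↥(V ⊓ Subgroup.centralizer (Subgroup.zpowers a : Set G)) := by
    have hk : ∀ x : φ.ker, ((x : V) : G) ∈ V ⊓ Subgroup.centralizer (Subgroup.zpowers a : Set G) := by
      intro x
      refine ⟨(x : V).2, hcent _ ?_⟩
      have := x.2
      rw [MonoidHom.mem_ker] at this
      have h2 : ⁅a, ((x : V) : G)⁆ = 1 := congrArg Subtype.val this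
      rw [commutatorElement_eq_one_iff_mul_comm] at h2
      exact h2
    apply Nat.card_le_card_of_injective (fun x : φ.ker => (⟨((x : V) : G), hk x⟩ : ↥(V ⊓ Subgroup.centralizer (Subgroup.zpowers a : Set G))))
    intro x y hxy
    apply Subtype.ext
    apply Subtype.ext
    have h3 := congrArg Subtype.val hxy
    exact h3
  have hrange : Nat.card φ.range ≤ Nat.card ↥(V ⊓ Subgroup.centralizer (Subgroup.zpowers a : Set G)) :=
    Nat.card_le_card_of_injective _ (Subgroup.subtype_injective _)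
  have hcard : Nat.card V = Nat.card φ.ker * Nat.card φ.range := by
    rw [← Subgroup.index_ker φ]
    exact (Subgroup.card_mul_index φ.ker).symm
  rw [hcard, sq]
  exact Nat.mul_le_mul hker hrange

end Cfsg.Agent.S0591
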