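import Cfsg.Statements.S0592
-- import your own Cfsg.Agent.* helpers here
import Cfsg.Agent.Lib.Helper11.QuadPair
import Mathlib

set_option autoImplicit false
open Cfsg

namespace Cfsg.Agent.S0592

open Cfsg.Agent.Lib.Helper11.Dickson Cfsg.Agent.Lib.Helper11.QuadPair
open Polynomial Matrix

/-- `∏ (X - a) = X^q - X` over a finite field. -/
theorem prod_X_sub_C_univ {K : Type*} [Field K] [Fintype K] :
    ∏ a : K, (X - C a) = (X ^ Fintype.card K - X : K[X]) := by
  have hmonic : (X ^ Fintype.card K - X : K[X]).Monic :=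
    Polynomial.monic_X_pow_sub (by rw [degree_X]; exact_mod_cast Fintype.one_lt_card)
  have hroots := FiniteField.roots_X_pow_card_sub_X K
  have hcard : Multiset.card (X ^ Fintype.card K - X : K[X]).roots =
      (X ^ Fintype.card K - X : K[X]).natDegree := by
    rw [hroots, FiniteField.X_pow_card_sub_X_natDegree_eq K Fintype.one_lt_card]
    simp
  have h := Polynomial.prod_multiset_X_sub_C_of_monic_of_roots_card_eq hmonic hcard
  rw [hroots] at h
  exact h

/-- An endomorphism killed by `(X^q - X)^N` which is not unipotent of exponent `N` has an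
eigenvector with eigenvalue `≠ 1` in `K`. -/
theorem exists_eigen {K : Type*} [Field K] [Fintype K] {W : Type*} [AddCommGroup W] [Module K W]
    (G : Module.End K W) (N : ℕ) (hG : aeval G ((X ^ Fintype.card K - X : K[X]) ^ N) = 0)
    (hnil : (G - 1) ^ N ≠ 0) : ∃ ζ : K, ζ ≠ 1 ∧ ∃ v : W, v ≠ 0 ∧ G v = ζ • v := by
  classical
  by_contra hcon
  push Not at hcon
  apply hnil
  have hinj : ∀ s : Finset K, (1 : K) ∉ s →
      Function.Injective (aeval G (∏ a ∈ s, (X - C a))) := by
    intro s
    induction s using Finset.induction_on with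
    | empty =>
      intro _
      rw [Finset.prod_empty, map_one]
      exact Function.injective_id
    | insert a s ha ih =>
      intro h1
      rw [Finset.prod_insert ha, map_mul, Module.End.coe_mul]
      have ha1 : a ≠ 1 := fun h => h1 (h ▸ Finset.mem_insert_self _ _)
      have hs1 : (1 : K) ∉ s := fun h => h1 (Finset.mem_insert_of_mem h)
      have hinj1 : Function.Injective (aeval G (X - C a)) := by
        rw [injective_iff_map_eq_zero]
        intro w hw
        by_contra hw0
        apply hcon a ha1 w hw0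
        have h2 : aeval G (X - C a) w = G w - a • w := by
          simp [Algebra.algebraMap_eq_smul_one]
        rw [h2] at hw
        exact sub_eq_zero.mp hw
      exact hinj1.comp (ih hs1)
  set Q : K[X] := ∏ a ∈ Finset.univ.erase (1 : K), (X - C a) with hQ
  have hQinj := hinj (Finset.univ.erase 1) (Finset.notMem_erase _ _)
  have hfac : (X ^ Fintype.card K - X : K[X]) = Q * (X - C 1) := by
    rw [← prod_X_sub_C_univ, hQ, mul_comm]
    exact (Finset.mul_prod_erase Finset.univ (fun a : K => (X - C a : K[X]))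
      (Finset.mem_univ (1 : K))).symm
  rw [hfac, mul_pow, map_mul] at hG
  have h1 : aeval G ((X - C 1 : K[X]) ^ N) = (G - 1) ^ N := by simp
  rw [h1] at hG
  apply LinearMap.ext
  intro w
  have h2 : (aeval G (Q ^ N)) (((G - 1) ^ N) w) = 0 := by
    have := congrArg (fun T : Module.End K W => T w) hG
    simpa using this
  have hQNinj : Function.Injective (aeval G (Q ^ N)) := by
    rw [map_pow, Module.End.coe_pow]
    exact hQinj.iterate N
  exact hQNinj (h2.trans (map_zero _).symm)

/-- Let K be a finite field of characteristic p and order q, and H a group of automorphisms of a nonzero finite-dimensional K-space generated by a, b with (a-1)^2 = (b-1)^2 = 0. If H is not a p-group and the p'-part of the order of ab divides q-1, some homomorphism H → SL(2,K) has image not a p-group. -/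
theorem result {K : Type*} [Field K] [Fintype K] {p : ℕ} [Fact p.Prime] [CharP K p] {W : Type*} [AddCommGroup W] [Module K W] [FiniteDimensional K W] [Finite W] [Nontrivial W] (H : Subgroup (W ≃ₗ[K] W)) (a b : W ≃ₗ[K] W) (hH : H = Subgroup.closure {a, b}) (ha : ∀ w : W, a (a w - w) = a w - w) (hb : ∀ w : W, b (b w - w) = b w - w) (hnp : ¬ IsPGroup p H) (hk : ∃ e k : ℕ, orderOf (a * b) = p ^ e * k ∧ k ∣ Fintype.card K - 1) : ∃ φ : H →* Matrix.SpecialLinearGroup (Fin 2) K, ¬ IsPGroup p φ.range := by
  subst hH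
  obtain ⟨e, k, hord, hkq⟩ := hk
  set α : Module.End K W := (a : W →ₗ[K] W) - 1 with hαdef
  set β : Module.End K W := (b : W →ₗ[K] W) - 1 with hβdef
  have hα : α * α = 0 := by
    apply LinearMap.ext
    intro v
    show a (a v - v) - (a v - v) = 0
    rw [ha, sub_self]
  have hβ : β * β = 0 := by
    apply LinearMap.ext
    intro v
    show b (b v - v) - (b v - v) = 0
    rw [hb, sub_self]
  have ha' : ∀ v, a v = v + α v := by
    intro v
    show a v = v + (a v - v)
    abel
  have hb' : ∀ v, b v = v + β v := by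
    intro v
    show b v = v + (b v - v)
    abel
  have hα' : ∀ v, α (α v) = 0 := fun v => congrArg (fun T : Module.End K W => T v) hα
  have hβ' : ∀ v, β (β v) = 0 := fun v => congrArg (fun T : Module.End K W => T v) hβ
  have hnil : ∀ j : ℕ, (α * β + β * α) ^ j ≠ 0 := by
    intro j hj
    apply hnp
    intro g
    refine ⟨2 * j + 1, ?_⟩
    apply Subtype.ext
    have := pow_eq_one_of_nilpotent (p := p) a b _ _ ha' hb' hα hβ j hj g.1 g.2
    rw [Subgroup.coe_pow, this]
    rfl
  -- the endomorphisms `G = ab` and `Gi = (ab)⁻¹`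
  set T := LinearEquiv.automorphismGroup.toLinearMapMonoidHom (R := K) (M := W) with hT
  set G : Module.End K W := T (a * b) with hGdef
  set Gi : Module.End K W := (1 - β) * (1 - α) with hGidef
  have hGv : ∀ v, G v = v + α v + β v + α (β v) := by
    intro v
    show a (b v) = _
    rw [hb', ha', map_add]
    abel
  have hGiv : ∀ v, Gi v = v - α v - β v + β (α v) := by
    intro v
    show (1 - β) ((1 - α) v) = _
    simp only [LinearMap.sub_apply, Module.End.one_apply, map_sub]
    abel
  have hGiG : ∀ v, Gi (G v) = v := by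
    intro v
    rw [hGiv, hGv]
    simp only [map_add, map_sub, hα', hβ', map_zero]
    abel
  have hGGi : ∀ v, G (Gi v) = v := by
    intro v
    rw [hGv, hGiv]
    simp only [map_add, map_sub, hα', hβ', map_zero]
    abel
  have hγv : ∀ v, (α * β + β * α) v = G v + Gi v - 2 • v := by
    intro v
    rw [hGv, hGiv]
    show α (β v) + β (α v) = _
    abel
  -- `G - 1` is not nilpotent
  have hcomm : Commute Gi (G - 1) := by
    show Gi * (G - 1) = (G - 1) * Gi
    apply LinearMap.ext
    intro v
    show Gi (G v - v) = G (Gi v) - Gi v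
    rw [map_sub, hGiG, hGGi]
  have hγ : α * β + β * α = Gi * (G - 1) ^ 2 := by
    apply LinearMap.ext
    intro v
    rw [hγv, pow_two]
    show _ = Gi (G (G v - v) - (G v - v))
    have h1 : Gi (G (G v - v) - (G v - v)) = (G v - v) - (v - Gi v) := by
      rw [map_sub Gi, hGiG, map_sub Gi, hGiG]
    rw [h1]
    abel
  have hGnil : ∀ N : ℕ, (G - 1) ^ N ≠ 0 := by
    intro N hN
    apply hnil N
    rw [hγ, (hcomm.pow_right 2).mul_pow, ← pow_mul, mul_comm 2 N, pow_mul, hN, zero_pow (by norm_num),
      mul_zero]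
  -- `G` is killed by `(X^q - X)^(p^e)`
  have hq1 : 1 ≤ Fintype.card K := Fintype.card_pos
  have hGpow : G ^ (p ^ e * (Fintype.card K - 1)) = 1 := by
    rw [hGdef, ← map_pow]
    have : (a * b) ^ (p ^ e * (Fintype.card K - 1)) = 1 := by
      rw [← orderOf_dvd_iff_pow_eq_one, hord]
      exact Nat.mul_dvd_mul_left _ hkq
    rw [this, map_one]
  have hGaeval : aeval G ((X ^ Fintype.card K - X : K[X]) ^ (p ^ e)) = 0 := by
    rw [sub_pow_char_pow, map_sub, map_pow, map_pow, map_pow, aeval_X, ← pow_mul]
    have h1 : Fintype.card K * p ^ e = p ^ e + p ^ e * (Fintype.card K - 1) := by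
      have : Fintype.card K = 1 + (Fintype.card K - 1) := by omega
      conv_lhs => rw [this]
      ring
    rw [h1, pow_add, hGpow, mul_one, sub_self]
  obtain ⟨ζ, hζ1, v, hv0, hGvζ⟩ := exists_eigen G (p ^ e) hGaeval (hGnil _)
  have hζ0 : ζ ≠ 0 := by
    rintro rfl
    apply hv0
    have := hGiG v
    rw [hGvζ, zero_smul, map_zero] at this
    exact this.symm
  have hGivζ : Gi v = ζ⁻¹ • v := by
    have := hGiG v
    rw [hGvζ, map_smul] at this
    calc Gi v = ζ⁻¹ • (ζ • Gi v) := by rw [smul_smul, inv_mul_cancel₀ hζ0, one_smul]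
      _ = ζ⁻¹ • v := by rw [this]
  set lam : K := ζ + ζ⁻¹ - 2 with hlam
  have hlam0 : lam ≠ 0 := by
    intro h0
    have h1 : lam * ζ = (ζ - 1) ^ 2 := by
      rw [hlam]; field_simp; ring
    rw [h0, zero_mul] at h1
    exact hζ1 (sub_eq_zero.mp (pow_eq_zero_iff (by norm_num) |>.mp h1.symm))
  have hγvζ : α (β v) + β (α v) = lam • v := by
    have := hγv v
    rw [hGvζ, hGivζ] at this
    have h2 : (α * β + β * α) v = α (β v) + β (α v) := rfl
    rw [h2] at this
    rw [this, hlam, sub_smul, add_smul, two_smul, two_smul]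
  -- the vector `u`
  obtain ⟨u, hu0, hαu, hαβu⟩ : ∃ u : W, u ≠ 0 ∧ α u = 0 ∧ α (β u) = lam • u := by
    by_cases hαv : α v = 0
    · refine ⟨v, hv0, hαv, ?_⟩
      rw [← hγvζ, hαv, map_zero, add_zero]
    · refine ⟨α v, hαv, hα' v, ?_⟩
      have := congrArg α hγvζ
      rw [map_add, hα', zero_add, map_smul] at this
      exact this
  set w' : W := lam⁻¹ • β u with hw'
  have hαw' : α w' = u := by
    rw [hw', map_smul, hαβu, smul_smul, inv_mul_cancel₀ hlam0, one_smul]
  have hβw' : β w' = 0 := by
    rw [hw', map_smul, hβ', smul_zero]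
  have hlamw' : lam • w' = β u := by
    rw [hw', smul_smul, mul_inv_cancel₀ hlam0, one_smul]
  let Ψ : (Fin 2 → K) →+ W :=
    AddMonoidHom.mk' (fun x => x 0 • u + x 1 • w') (by
      intro x y
      simp only [Pi.add_apply, add_smul]
      abel)
  have hΨ : ∀ x, Ψ x = x 0 • u + x 1 • w' := fun x => rfl
  have hΨinj : Function.Injective Ψ := by
    rw [injective_iff_map_eq_zero]
    intro x hx
    rw [hΨ] at hx
    have h1 := congrArg α hx
    rw [map_add, map_smul, map_smul, hαu, smul_zero, zero_add, hαw', map_zero] at h1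
    have hx1 : x 1 = 0 := by
      rcases smul_eq_zero.mp h1 with h | h
      · exact h
      · exact absurd h hu0
    rw [hx1, zero_smul, add_zero] at hx
    have hx0 : x 0 = 0 := by
      rcases smul_eq_zero.mp hx with h | h
      · exact h
      · exact absurd h hu0
    ext i
    fin_cases i
    · exact hx0
    · exact hx1
  obtain ⟨φ, hφa, hφb⟩ := exists_hom_of_intertwiner a b (tmat (1 : K)) (smat lam) Ψ hΨinj
    (fun x => by
      show a (Ψ x) = _
      rw [tmat_mulVec, hΨ, hΨ, ha', map_add, map_smul, map_smul, hαu, hαw']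
      simp only [Matrix.cons_val_zero, Matrix.cons_val_one, add_smul, one_mul, smul_zero]
      abel)
    (fun x => by
      show b (Ψ x) = _
      rw [smat_mulVec, hΨ, hΨ, hb', map_add, map_smul, map_smul, hβw']
      simp only [Matrix.cons_val_zero, Matrix.cons_val_one, add_smul, mul_smul, smul_zero]
      rw [smul_comm lam (x 0) w', hlamw']
      abel)
  refine ⟨φ, ?_⟩
  intro hp
  have hmem : tmat (1 : K) * smat lam ∈ φ.range :=
    ⟨⟨a, Subgroup.subset_closure (Set.mem_insert _ _)⟩ *
      ⟨b, Subgroup.subset_closure (Set.mem_insert_of_mem _ (Set.mem_singleton _))⟩, by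
      rw [map_mul, hφa, hφb]⟩
  obtain ⟨j, hj⟩ := hp ⟨_, hmem⟩
  have hj' : (tmat (1 : K) * smat lam) ^ (p ^ j) = 1 :=
    (Subgroup.coe_pow φ.range ⟨_, hmem⟩ _).symm.trans
      ((congrArg Subtype.val hj).trans (Subgroup.coe_one φ.range))
  set M : Matrix (Fin 2) (Fin 2) K := !![1 + lam, 1; lam, 1] with hM
  have hMeq : ((tmat (1 : K) * smat lam : Matrix.SpecialLinearGroup (Fin 2) K) :
      Matrix (Fin 2) (Fin 2) K) = M := by
    rw [Matrix.SpecialLinearGroup.coe_mul, tmat_coe, smat_coe, Matrix.mul_fin_two, hM]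
    ext i j; fin_cases i <;> fin_cases j <;> simp
  have hMpow : M ^ (p ^ j) = 1 := by
    rw [← hMeq, ← Matrix.SpecialLinearGroup.coe_pow, hj']
    rfl
  have hnilM : (M - 1) ^ (p ^ j) = 0 := by
    rw [sub_pow_char_pow_of_commute p j (Commute.one_right M), hMpow, one_pow, sub_self]
  have hdet : (M - 1).det ^ (p ^ j) = 0 := by
    rw [← Matrix.det_pow, hnilM, Matrix.det_zero]
  have hdet' : (M - 1).det = -lam := by
    rw [hM, Matrix.det_fin_two]
    simp
  rw [hdet'] at hdet
  exact hlam0 (neg_eq_zero.mp (pow_eq_zero_iff (pow_ne_zero _ (Fact.out : p.Prime).ne_zero) |>.mp hdet))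

end Cfsg.Agent.S0592
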