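import Cfsg.Statements.S0594
import Cfsg.Agent.Lib.Helper11.QuadSolv

set_option autoImplicit false
open Cfsg

namespace Cfsg.Agent.S0594

/-- For odd p, two quadratic generators of a faithful group that is not a p-group, one of which acts nontrivially on a normal subgroup of order prime to p, force p = 3 and a section isomorphic to SL(2,3). -/
theorem result {G : Type*} [Group G] [Finite G] {p : ℕ} [Fact p.Prime] (hp : p ≠ 2) (V H : Subgroup G) (hV : Cfsg.IsElementaryAbelian p V) (hHV : H ≤ Subgroup.normalizer (V : Set G)) (hf : H ⊓ Subgroup.centralizer (V : Set G) = ⊥) (a b : G) (hab : H = Subgroup.closure {a, b}) (ha : ⁅⁅V, Subgroup.zpowers a⁆, Subgroup.zpowers a⁆ = ⊥) (hb : ⁅⁅V, Subgroup.zpowers b⁆, Subgroup.zpowers b⁆ = ⊥) (hnp : ¬ IsPGroup p H) (Q : Subgroup G) (hQH : Q ≤ H) (hQn : H ≤ Subgroup.normalizer (Q : Set G)) (hQ : (Nat.card Q).Coprime p) (hQa : ⁅Q, Subgroup.zpowers a⁆ ≠ ⊥) : p = 3 ∧ ∃ (K L : Subgroup G)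 (hL : (L.subgroupOf K).Normal), K ≤ H ∧ Nonempty ((K ⧸ L.subgroupOf K) ≃* Matrix.SpecialLinearGroup (Fin 2) (ZMod 3)) := by
  classical
  have hp' : p.Prime := Fact.out
  have haH : a ∈ H := by rw [hab]; exact Subgroup.subset_closure (Set.mem_insert _ _)
  -- an element of `Q` not commuting with `a`
  have hex : ∃ q ∈ Q, q * a ≠ a * q := by
    by_contra hne
    push Not at hne
    apply hQa
    rw [Subgroup.commutator_eq_bot_iff_le_centralizer]
    intro q hq
    rw [Subgroup.mem_centralizer_iff]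
    intro h hh
    obtain ⟨k, rfl⟩ := Subgroup.mem_zpowers_iff.mp hh
    have hc : Commute a q := (hne q hq).symm
    exact (hc.zpow_left k).eq
  obtain ⟨q, hqQ, hqa⟩ := hex
  have hqH : q ∈ H := hQH hqQ
  have hle : Subgroup.closure ({a, q * a * q⁻¹} : Set G) ≤ H := by
    rw [Subgroup.closure_le]
    rintro x (rfl | rfl)
    · exact haH
    · exact H.mul_mem (H.mul_mem hqH haH) (H.inv_mem hqH)
  have hap : a ^ p = 1 := by
    have h1 := Cfsg.Agent.Lib.Helper11.QuadSolv.quad_pow_mem_centralizer V p hV.2 a (hHV haH) ha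
    have h2 : a ^ p ∈ H ⊓ Subgroup.centralizer (V : Set G) := ⟨H.pow_mem haH p, h1⟩
    rw [hf, Subgroup.mem_bot] at h2
    exact h2
  have hnp₁ : ¬ IsPGroup p ↥(Subgroup.closure ({a, q * a * q⁻¹} : Set G)) := by
    intro hpg
    have hz : a⁻¹ * (q * a * q⁻¹) ∈ Subgroup.closure ({a, q * a * q⁻¹} : Set G) :=
      Subgroup.mul_mem _ (Subgroup.inv_mem _ (Subgroup.subset_closure (Set.mem_insert _ _)))
        (Subgroup.subset_closure (Set.mem_insert_of_mem _ (Set.mem_singleton _)))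
    obtain ⟨k, hk⟩ := hpg ⟨_, hz⟩
    have hk' : (a⁻¹ * (q * a * q⁻¹)) ^ p ^ k = 1 := by
      have := congrArg Subtype.val hk
      simpa using this
    have hzQ : a⁻¹ * (q * a * q⁻¹) ∈ Q := by
      have h1 : a⁻¹ * q * a ∈ Q := by
        have h2 : a⁻¹ ∈ Subgroup.normalizer (Q : Set G) := Subgroup.inv_mem _ (hQn haH)
        have h3 := ((Subgroup.mem_normalizer_iff.mp h2) q).mp hqQ
        simpa using h3
      have : a⁻¹ * (q * a * q⁻¹) = (a⁻¹ * q * a) * q⁻¹ := by group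
      rw [this]
      exact Q.mul_mem h1 (Q.inv_mem hqQ)
    have hcard : (a⁻¹ * (q * a * q⁻¹)) ^ Nat.card Q = 1 :=
      congrArg Subtype.val (pow_card_eq_one' (G := ↥Q) (x := ⟨_, hzQ⟩))
    have h1 : orderOf (a⁻¹ * (q * a * q⁻¹)) ∣ p ^ k := orderOf_dvd_of_pow_eq_one hk'
    have h2 : orderOf (a⁻¹ * (q * a * q⁻¹)) ∣ Nat.card Q := orderOf_dvd_of_pow_eq_one hcard
    have h3 : orderOf (a⁻¹ * (q * a * q⁻¹)) = 1 := by
      have h4 := Nat.dvd_gcd h2 h1
      rw [Nat.Coprime.gcd_eq_one (hQ.pow_right k)] at h4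
      exact Nat.dvd_one.mp h4
    rw [orderOf_eq_one_iff] at h3
    apply hqa
    calc q * a = a * (a⁻¹ * (q * a * q⁻¹)) * q := by group
      _ = a * q := by rw [h3, mul_one]
  have hch : Cfsg.Agent.Lib.Helper11.QuadSolv.PChain p
      ↥(Subgroup.closure ({a, q * a * q⁻¹} : Set G)) :=
    Cfsg.Agent.Lib.Helper11.QuadSolv.pChain_closure_conj p Q hQ a q (hQn haH) hqQ hap
  have hf' : Subgroup.closure ({a, q * a * q⁻¹} : Set G) ⊓ Subgroup.centralizer (V : Set G)
      = ⊥ := by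
    rw [eq_bot_iff, ← hf]
    exact inf_le_inf_right _ hle
  obtain ⟨K₁, L₁, hL₁, hK₁, ⟨e₁⟩⟩ :=
    Cfsg.Agent.Lib.Helper11.QuadBridge.exists_SL2_section hp V
      (Subgroup.closure ({a, q * a * q⁻¹} : Set G)) hV (hle.trans hHV) hf' a (q * a * q⁻¹) rfl ha
      (Cfsg.Agent.Lib.Helper11.QuadSylow.quad_conj V q a (hHV hqH) ha) hnp₁
  have h3 : p = 3 := Cfsg.Agent.Lib.Helper11.QuadSolv.eq_three_of_pChain_SL2 hp
    (Cfsg.Agent.Lib.Helper11.QuadSolv.pChain_of_section _ K₁ L₁ hL₁ hK₁ e₁ hch)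
  subst h3
  exact ⟨rfl, Cfsg.Agent.Lib.Helper11.QuadBridge.exists_SL2_section hp V H hV hHV hf a b hab ha hb
    hnp⟩

end Cfsg.Agent.S0594
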