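import Cfsg.Statements.S0596
import Cfsg.Agent.Lib.Helper11.QuadSolv

set_option autoImplicit false
open Cfsg

namespace Cfsg.Agent.S0596

/-- For odd p, a p-separable group with a faithful action on an elementary abelian p-group that is not p-stable has p = 3 and involves SL(2,3). -/
theorem result {G : Type*} [Group G] [Finite G] {p : ℕ} [Fact p.Prime] (hp : p ≠ 2) (V H : Subgroup G) (hV : Cfsg.IsElementaryAbelian p V) (hHV : H ≤ Subgroup.normalizer (V : Set G)) (hf : H ⊓ Subgroup.centralizer (V : Set G) = ⊥) (hsep : Cfsg.IsPSolvable p H) (a : G) (haH : a ∈ H) (hq : ⁅⁅V, Subgroup.zpowers a⁆, Subgroup.zpowers a⁆ = ⊥) (hna : a ∉ (Cfsg.pCore p H).map H.subtype) : p = 3 ∧ ∃ (K L : Subgroup G) (hL : (L.subgroupOf K).Normal), K ≤ H ∧ Nonempty ((K ⧸ L.subgroupOf K) ≃* Matrix.SpecialLinearGroup (Fin 2) (ZMod 3)) := by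
  obtain ⟨y₁, y₂, -, -, hy₁, hy₂, hq₁, hq₂, hle, hnp⟩ :=
    Cfsg.Agent.Lib.Helper11.QuadSylow.exists_pair_of_not_mem_pCore V H hHV a haH hq hna
  have hf' : Subgroup.closure ({y₁, y₂} : Set G) ⊓ Subgroup.centralizer (V : Set G) = ⊥ := by
    rw [eq_bot_iff, ← hf]
    exact inf_le_inf_right _ hle
  obtain ⟨K, L, hL, hK, ⟨e⟩⟩ :=
    Cfsg.Agent.Lib.Helper11.QuadBridge.exists_SL2_section hp V
      (Subgroup.closure ({y₁, y₂} : Set G)) hV (hle.trans hHV) hf' y₁ y₂ rfl hq₁ hq₂ hnp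
  have hch : Cfsg.Agent.Lib.Helper11.QuadSolv.PChain p ↥H :=
    Cfsg.Agent.Lib.Helper11.QuadSolv.pChain_of_isPSolvable hsep
  have h3 : p = 3 := Cfsg.Agent.Lib.Helper11.QuadSolv.eq_three_of_pChain_SL2 hp
    (Cfsg.Agent.Lib.Helper11.QuadSolv.pChain_of_section H K L hL (hK.trans hle) e hch)
  subst h3
  exact ⟨rfl, K, L, hL, hK.trans hle, ⟨e⟩⟩

end Cfsg.Agent.S0596
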