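import Mathlib
import Cfsg.Statements.S0598
import Cfsg.Agent.Lib.Helper10.Timmesfeld

set_option autoImplicit false
open Cfsg

namespace Cfsg.Agent.S0598

open Cfsg.Agent.Lib.Helper10.Thompson Cfsg.Agent.Lib.Helper10.Timmesfeld

theorem result {G : Type*} [Group G] [Finite G] {p : ℕ} [Fact p.Prime] (V A : Subgroup G) (hV : Cfsg.IsElementaryAbelian p V) (hAV : A ≤ Subgroup.normalizer (V : Set G)) (hab : ⁅A, A⁆ ≤ Subgroup.centralizer (V : Set G)) (U : Subgroup G) (hU : U ≤ V) : ∃ B : Subgroup G, B ≤ A ∧ ((Nat.card A * Nat.card ↥(V ⊓ Subgroup.centralizer (A : Set G)) < Nat.card B * Nat.card ↥(V ⊓ Subgroup.centralizer (B : Set G))) ∨ (B = A ⊓ Subgroup.centralizer ((⁅U, A⁆ : Subgroup G) : Set G) ∧ (V ⊓ Subgroup.centralizer (B : Set G)) = ⁅U, A⁆ ⊔ (V ⊓ Subgroup.centralizer (A : Set G)) ∧ Nat.card A * Nat.card ↥(V ⊓ Subgroup.centralizer (A : Set G)) = Nat.card B * Nat.card ↥(V ⊓ Subgroup.centralizer (B :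 Set G)))) := by
  by_cases hex : ∃ B : Subgroup G, B ≤ A ∧ Nat.card A * Nat.card ↥(V ⊓ Subgroup.centralizer (A : Set G)) < Nat.card B * Nat.card ↥(V ⊓ Subgroup.centralizer (B : Set G))
  · obtain ⟨B, hB, hlt⟩ := hex
    exact ⟨B, hB, Or.inl hlt⟩
  · have hmax : ∀ B : Subgroup G, B ≤ A →
        Nat.card B * Nat.card ↥(V ⊓ Subgroup.centralizer (B : Set G)) ≤
          Nat.card A * Nat.card ↥(V ⊓ Subgroup.centralizer (A : Set G)) := by
      intro B hB
      by_contra h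
      exact hex ⟨B, hB, not_le.mp h⟩
    obtain ⟨r1, r2⟩ := core V A U (ea_comm hV) hAV hab hU hmax
    exact ⟨_, inf_le_left, Or.inr ⟨rfl, r2, r1.symm⟩⟩

end Cfsg.Agent.S0598
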