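import Mathlib
import Cfsg.Statements.S0599
import Cfsg.Agent.Lib.Helper10.Timmesfeld

set_option autoImplicit false
open Cfsg

namespace Cfsg.Agent.S0599

open Cfsg.Agent.Lib.Helper10.Thompson Cfsg.Agent.Lib.Helper10.Timmesfeld

theorem result {G : Type*} [Group G] [Finite G] {p : ℕ} [Fact p.Prime] (V A : Subgroup G) (hV : Cfsg.IsElementaryAbelian p V) (hAV : A ≤ Subgroup.normalizer (V : Set G)) (hA : Cfsg.IsBestOffenderOn p V A) (U : Subgroup G) (hU : U ≤ V) : Cfsg.IsBestOffenderOn p V (A ⊓ Subgroup.centralizer ((⁅U, A⁆ : Subgroup G) : Set G)) ∧ V ⊓ Subgroup.centralizer ((A ⊓ Subgroup.centralizer ((⁅U, A⁆ : Subgroup G) : Set G) : Subgroup G) : Set G) = ⁅U, A⁆ ⊔ (V ⊓ Subgroup.centralizer (A : Set G)) ∧ (⁅V, A⁆ ≠ ⊥ → ⁅V, A ⊓ Subgroup.centralizer ((⁅U, A⁆ : Subgroup G) : Set G)⁆ ≠ ⊥) := by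
  obtain ⟨hmax, hab, hpow⟩ := hA
  obtain ⟨r1, r2⟩ := core V A U (ea_comm hV) hAV hab hU hmax
  refine ⟨⟨?_, ?_, ?_⟩, r2, ?_⟩
  · intro B hB
    rw [r1]
    exact hmax B (hB.trans inf_le_left)
  · exact (Subgroup.commutator_mono inf_le_left inf_le_left).trans hab
  · intro a ha
    exact hpow a ha.1
  · intro hne hbot
    apply hne
    have hVc0 : V ≤ Subgroup.centralizer
        ((A ⊓ Subgroup.centralizer ((⁅U, A⁆ : Subgroup G) : Set G) : Subgroup G) : Set G) :=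
      Subgroup.commutator_eq_bot_iff_le_centralizer.mp hbot
    have hVeq : V ≤ ⁅U, A⁆ ⊔ (V ⊓ Subgroup.centralizer (A : Set G)) := by
      rw [← r2]; exact le_inf le_rfl hVc0
    obtain ⟨P, hP, hPA, hdec⟩ := exists_pgroup_dec V A hAV hpow
    exact comm_eq_bot_of_eq V A P U (ea_comm hV) (ea_isPGroup hV) hAV hU hP hPA hdec hVeq

end Cfsg.Agent.S0599
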