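import Mathlib
import Cfsg.Statements.S0600

set_option autoImplicit false
open Cfsg

namespace Cfsg.Agent.S0600

theorem result {G : Type*} [Group G] [Finite G] {p : ℕ} [Fact p.Prime] (V : Subgroup G) [V.Normal] (hV : Cfsg.IsElementaryAbelian p V) (hgen : V = ⨆ S : Sylow p G, V ⊓ Subgroup.centralizer ((S : Subgroup G) : Set G)) : Cfsg.pCore p (G ⧸ Subgroup.centralizer (V : Set G)) = ⊥ := by
  unfold Cfsg.pCore
  rw [eq_bot_iff]
  apply sSup_le
  rintro N ⟨hNn, hNp⟩
  intro q hq
  rw [Subgroup.mem_bot]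
  obtain ⟨x, rfl⟩ := QuotientGroup.mk_surjective q
  rw [QuotientGroup.eq_one_iff]
  have hV' : ∀ S : Sylow p G, V ⊓ Subgroup.centralizer ((S : Subgroup G) : Set G) ≤
      Subgroup.centralizer ({x} : Set G) := by
    intro S w hw
    have hle : N ≤ (S.mapSurjective (QuotientGroup.mk'_surjective
        (Subgroup.centralizer (V : Set G))) : Sylow p (G ⧸ Subgroup.centralizer (V : Set G))) :=
      hNp.le_sylow_of_normal _
    have hx := hle hq
    obtain ⟨s, hs, hsx⟩ := Subgroup.mem_map.mp hx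
    have hc : s⁻¹ * x ∈ Subgroup.centralizer (V : Set G) := QuotientGroup.eq.mp hsx
    apply Subgroup.mem_centralizer_iff.mpr
    intro y hy
    rw [Set.mem_singleton_iff] at hy
    subst hy
    have h1 : s * w = w * s := Subgroup.mem_centralizer_iff.mp hw.2 s hs
    have h2 : w * (s⁻¹ * y) = (s⁻¹ * y) * w := Subgroup.mem_centralizer_iff.mp hc w hw.1
    calc y * w = s * ((s⁻¹ * y) * w) := by group
      _ = s * (w * (s⁻¹ * y)) := by rw [h2]
      _ = (s * w) * (s⁻¹ * y) := by group
      _ = (w * s) * (s⁻¹ * y) := by rw [h1]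
      _ = w * y := by group
  have hV'' : V ≤ Subgroup.centralizer ({x} : Set G) := by
    rw [hgen]
    exact iSup_le hV'
  apply Subgroup.mem_centralizer_iff.mpr
  intro v hv
  exact (Subgroup.mem_centralizer_iff.mp (hV'' hv) x rfl).symm

end Cfsg.Agent.S0600
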