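import Mathlib
import Cfsg.Statements.S0603
import Cfsg.Agent.Lib.Helper10.Thompson

set_option autoImplicit false
open Cfsg

namespace Cfsg.Agent.S0603

open Cfsg.Agent.Lib.Helper10.Thompson

theorem result {G : Type*} [Group G] [Finite G] {p : ℕ} [Fact p.Prime] (U : Subgroup G) (hU : Cfsg.thompsonSubgroup p G ≤ U) : Cfsg.thompsonSubgroupOf p U = Cfsg.thompsonSubgroup p G := by
  obtain ⟨A0, hA0⟩ := exists_max (G := G) p
  have hA0U : A0 ≤ U := (le_sSup hA0).trans hU
  apply le_antisymm (thompsonOf_le hA0 hA0U)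
  have key : ∀ A ∈ Cfsg.maxElementaryAbelianSubgroups p G, A ≤ Cfsg.thompsonSubgroupOf p U :=
    fun A hA => le_thompsonOf hA ((le_sSup hA).trans hU)
  exact sSup_le key

end Cfsg.Agent.S0603
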