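import Cfsg.Statements.S0626
import Mathlib
import Cfsg.Agent.S0595
import Cfsg.Agent.Lib.Helper96.PStable

set_option autoImplicit false
open Cfsg

namespace Cfsg.Agent.S0626


open Cfsg.Agent.Lib.Helper96.PStable

/-- abelian Sylow 2-subgroups give the faithful case for all sections -/
theorem faith_of_abelian_sylow {G : Type*} [Group G] [Finite G] {p : ℕ} [Fact p.Prime] (hp : p ≠ 2)
    (hab : ∀ T : Sylow 2 G, IsMulCommutative T) : Faith p G := by
  intro G' _ _ V' H' hV hHV hf hM a' ha' hq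
  obtain ⟨M, f, hfs⟩ := hM
  by_contra hna
  have : Fact (Nat.Prime 2) := ⟨Nat.prime_two⟩
  obtain ⟨T'⟩ : Nonempty (Sylow 2 ↥H') := inferInstance
  apply Cfsg.Agent.S0595.result hp V' H' hV hHV hf a' ha' hq hna T'
  obtain ⟨TM, hTM⟩ := Sylow.mapSurjective_surjective hfs 2 T'
  obtain ⟨T⟩ : Nonempty (Sylow 2 G) := inferInstance
  have hmem : ∀ x : ↥(T' : Subgroup ↥H'), ∃ x₀ ∈ (TM : Subgroup ↥M), f x₀ = (x : ↥H') := by
    intro x
    have h1 : (x : ↥H') ∈ ((TM.mapSurjective hfs : Sylow 2 ↥H') : Subgroup ↥H') := by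
      rw [hTM]; exact x.2
    rw [Sylow.coe_mapSurjective] at h1
    exact h1
  refine ⟨⟨fun x y => ?_⟩⟩
  obtain ⟨x₀, hx₀, hx⟩ := hmem x
  obtain ⟨y₀, hy₀, hy⟩ := hmem y
  have hc : x₀ * y₀ = y₀ * x₀ := by
    have := Cfsg.Agent.Lib.Helper11.QuadSylow.comm_of_sylow_comm T (hab T)
      ((TM : Subgroup ↥M).map M.subtype) (TM.isPGroup'.map _) (x₀ : G) (y₀ : G)
      (Subgroup.mem_map_of_mem _ hx₀) (Subgroup.mem_map_of_mem _ hy₀)
    exact Subtype.ext this
  apply Subtype.ext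
  rw [Subgroup.coe_mul, Subgroup.coe_mul, ← hx, ← hy, ← map_mul, hc, map_mul]

/-- For odd p, groups whose Sylow 2-subgroups are abelian are p-stable in the action sense. -/
theorem result {G : Type*} [Group G] [Finite G] {p : ℕ} [Fact p.Prime] (hp : p ≠ 2) (hab : ∀ T : Sylow 2 G, IsMulCommutative T) : Cfsg.IsActionPStable p G := by
  exact isActionPStable_of_faith (faith_of_abelian_sylow hp hab)

end Cfsg.Agent.S0626
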