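import Mathlib
import Cfsg.Statements.S0636
import Cfsg.Agent.Lib.Helper24.PGroupBasic
import Cfsg.Agent.Lib.Helper49.RankOne
import Cfsg.Agent.Lib.Helper53.PGroupBasics

set_option autoImplicit false
open Cfsg

namespace Cfsg.Agent.S0636

universe u

/-- If the `p`-th power map is multiplicative on a non-cyclic normal subgroup `K` of a `p`-group
(`p` odd), then the elements of order dividing `p` in `K` form a normal subgroup of order at
least `p ^ 2`. -/
theorem omega_sub {R : Type u} [Group R] [Finite R] {p : ℕ} [Fact p.Prime] (hp2 : p ≠ 2)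
    (hR : IsPGroup p R) (K : Subgroup R) [hKn : K.Normal]
    (hmul : ∀ x ∈ K, ∀ y ∈ K, (x * y) ^ p = x ^ p * y ^ p)
    (hnc : ¬ IsCyclic K) :
    ∃ Ω : Subgroup R, Ω ≤ K ∧ Ω.Normal ∧ (∀ x ∈ Ω, x ^ p = 1) ∧ p ^ 2 ≤ Nat.card Ω := by
  have hp : p.Prime := Fact.out
  let Ω : Subgroup R :=
    { carrier := {x | x ∈ K ∧ x ^ p = 1}
      one_mem' := ⟨K.one_mem, one_pow _⟩
      mul_mem' := by
        rintro a b ⟨ha, hap⟩ ⟨hb, hbp⟩
        exact ⟨K.mul_mem ha hb, by rw [hmul a ha b hb, hap, hbp, one_mul]⟩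
      inv_mem' := by
        rintro a ⟨ha, hap⟩
        exact ⟨K.inv_mem ha, by rw [inv_pow, hap, inv_one]⟩ }
  have hmem : ∀ x, x ∈ Ω ↔ x ∈ K ∧ x ^ p = 1 := fun x => Iff.rfl
  refine ⟨Ω, fun x hx => ((hmem x).mp hx).1, ?_, fun x hx => ((hmem x).mp hx).2, ?_⟩
  · constructor
    intro n hn g
    rw [hmem] at hn ⊢
    refine ⟨hKn.conj_mem n hn.1 g, ?_⟩
    rw [conj_pow, hn.2, mul_one, mul_inv_cancel]
  · have hbig : p < Nat.card Ω := by
      by_contra hle
      push Not at hle
      apply hnc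
      obtain ⟨n, hn⟩ := (hR.to_subgroup K).exists_card_eq
      refine Cfsg.Agent.Lib.Helper49.RankOne.isCyclic_of_card_pow_eq_one_le hp2 n K hn ?_
      refine le_trans (Nat.card_le_card_of_injective
        (fun g : {g : ↥K // g ^ p = 1} => (⟨(g.1 : R), (hmem _).mpr ⟨g.1.2, by
          have := congrArg Subtype.val g.2
          simpa using this⟩⟩ : Ω)) ?_) hle
      intro a b hab
      have h1 := congrArg Subtype.val hab
      exact Subtype.ext (Subtype.ext h1)
    obtain ⟨k, hk⟩ := (hR.to_subgroup Ω).exists_card_eq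
    rw [hk] at hbig ⊢
    apply Nat.pow_le_pow_right hp.pos
    by_contra h
    have hk1 : k ≤ 1 := by omega
    have := Nat.pow_le_pow_right hp.pos hk1
    rw [pow_one] at this
    omega

theorem main {p : ℕ} [Fact p.Prime] (hp2 : p ≠ 2) :
    ∀ (n : ℕ) (R : Type u) [Group R] [Finite R], Nat.card R ≤ n → IsPGroup p R →
      ∀ (S : Subgroup R) [S.Normal], ¬ IsCyclic S →
        ∃ Ω : Subgroup R, Ω ≤ S ∧ Ω.Normal ∧ (∀ x ∈ Ω, x ^ p = 1) ∧ p ^ 2 ≤ Nat.card Ω := by
  have hp : p.Prime := Fact.out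
  intro n
  induction n with
  | zero =>
    intro R _ _ hcard
    have : 0 < Nat.card R := Nat.card_pos
    omega
  | succ n ih =>
    intro R _ _ hcard hR S hSn hS
    have hSne : S ≠ ⊥ := by
      intro h
      apply hS
      have : Subsingleton ↥S := by rw [h]; infer_instance
      exact isCyclic_of_subsingleton
    obtain ⟨z₀, hz₀S, hz₀1, hz₀c⟩ :=
      Cfsg.Agent.Lib.Helper53.PGroupBasics.exists_center_mem_normal hR S hSne
    -- an element of order p
    obtain ⟨k, hk⟩ := hR z₀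
    obtain ⟨m, -, hm⟩ := (Nat.dvd_prime_pow hp).mp (orderOf_dvd_of_pow_eq_one hk)
    have hm0 : m ≠ 0 := by
      rintro rfl
      rw [pow_zero, orderOf_eq_one_iff] at hm
      exact hz₀1 hm
    obtain ⟨m', rfl⟩ := Nat.exists_eq_succ_of_ne_zero hm0
    obtain ⟨z, hz⟩ : ∃ z : R, z = z₀ ^ (p ^ m') := ⟨_, rfl⟩
    have hzp : z ^ p = 1 := by
      rw [hz, ← pow_mul, ← pow_succ, ← hm, pow_orderOf_eq_one]
    have hz1 : z ≠ 1 := by
      intro h
      rw [hz] at h
      have := orderOf_dvd_of_pow_eq_one h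
      rw [hm] at this
      have := (Nat.pow_dvd_pow_iff_le_right hp.one_lt).mp this
      omega
    have hzS : z ∈ S := by rw [hz]; exact S.pow_mem hz₀S _
    have hzc : z ∈ Subgroup.center R := by rw [hz]; exact Subgroup.pow_mem _ hz₀c _
    have hzo : orderOf z = p := orderOf_eq_prime hzp hz1
    obtain ⟨N, hN⟩ : ∃ N : Subgroup R, N = Subgroup.zpowers z := ⟨_, rfl⟩
    have hNc : N ≤ Subgroup.center R := by
      rw [hN, Subgroup.zpowers_le]; exact hzc
    have hNcomm : ∀ c ∈ N, ∀ t : R, Commute c t := by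
      intro c hc t
      exact (Subgroup.mem_center_iff.mp (hNc hc) t).symm
    have hNn : N.Normal := by
      constructor
      intro c hc g
      have := Subgroup.mem_center_iff.mp (hNc hc) g
      rw [this, mul_inv_cancel_right]; exact hc
    have hNS : N ≤ S := by
      rw [hN, Subgroup.zpowers_le]; exact hzS
    have hNcard : Nat.card N = p := by rw [hN, Nat.card_zpowers, hzo]
    have hQcard : Nat.card (R ⧸ N) ≤ n := by
      have h1 := Subgroup.card_eq_card_quotient_mul_card_subgroup N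
      rw [hNcard] at h1
      have h2 : 0 < Nat.card (R ⧸ N) := Nat.card_pos
      have h3 := hp.two_le
      nlinarith
    have hQ : IsPGroup p (R ⧸ N) := hR.to_quotient N
    have hπ : ∀ x : R, (QuotientGroup.mk' N x = 1) ↔ x ∈ N := by
      intro x
      rw [← MonoidHom.mem_ker, QuotientGroup.ker_mk']
    by_cases hc : IsCyclic (S.map (QuotientGroup.mk' N))
    · -- `S` is abelian
      obtain ⟨g, hg⟩ := hc.exists_generator
      obtain ⟨s, hsS, hs⟩ := Subgroup.mem_map.mp g.2
      have key : ∀ x ∈ S, ∃ k : ℤ, ∃ c : R, (∀ t : R, c * t = t * c) ∧ x = c * s ^ k := by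
        intro x hx
        obtain ⟨k, hk⟩ := Subgroup.mem_zpowers_iff.mp
          (hg ⟨QuotientGroup.mk' N x, Subgroup.mem_map_of_mem _ hx⟩)
        have hk' := congrArg Subtype.val hk
        rw [Subgroup.coe_zpow, ← hs, ← map_zpow] at hk'
        have h1 : QuotientGroup.mk' N (x * (s ^ k)⁻¹) = 1 := by
          rw [map_mul, map_inv, hk']
          exact mul_inv_cancel _
        have h2 := (hπ _).mp h1
        refine ⟨k, x * (s ^ k)⁻¹, fun t => (hNcomm _ h2 t).eq, by group⟩
      have hSab : ∀ x ∈ S, ∀ y ∈ S, x * y = y * x := by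
        intro x hx y hy
        obtain ⟨k, c, hc, rfl⟩ := key x hx
        obtain ⟨l, d, hd, rfl⟩ := key y hy
        calc c * s ^ k * (d * s ^ l) = c * (s ^ k * d) * s ^ l := by group
          _ = c * (d * s ^ k) * s ^ l := by rw [hd (s ^ k)]
          _ = (c * d) * (s ^ k * s ^ l) := by group
          _ = (d * c) * (s ^ l * s ^ k) := by
              rw [hc d, ← zpow_add, ← zpow_add, add_comm]
          _ = d * (c * s ^ l) * s ^ k := by group
          _ = d * (s ^ l * c) * s ^ k := by rw [hc (s ^ l)]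
          _ = d * s ^ l * (c * s ^ k) := by group
      exact omega_sub hp2 hR S
        (fun x hx y hy => (Commute.mul_pow (hSab x hx y hy) p)) hS
    · have hSmn : (S.map (QuotientGroup.mk' N)).Normal :=
        Subgroup.Normal.map hSn _ (QuotientGroup.mk'_surjective N)
      obtain ⟨Ωb, hΩS, hΩn, hΩe, hΩc⟩ := ih (R ⧸ N) hQcard hQ (S.map (QuotientGroup.mk' N)) hc
      obtain ⟨Ab, hAn, hAΩ, hAc⟩ :=
        Cfsg.Agent.Lib.Helper24.PGroupBasic.exists_normal_le_card hQ Ωb hΩe 2 hΩc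
      have hAe : ∀ a ∈ Ab, a ^ p = 1 := fun a ha => hΩe a (hAΩ ha)
      have hAab : ∀ a ∈ Ab, ∀ b ∈ Ab, a * b = b * a := by
        have hcm : IsMulCommutative ↥Ab := IsPGroup.isMulCommutative_of_card_eq_prime_sq hAc
        intro a ha b hb
        have := hcm.is_comm.comm (⟨a, ha⟩ : ↥Ab) ⟨b, hb⟩
        exact congrArg Subtype.val this
      obtain ⟨K, hK⟩ : ∃ K : Subgroup R, K = Ab.comap (QuotientGroup.mk' N) := ⟨_, rfl⟩
      have hKmem : ∀ x, x ∈ K ↔ QuotientGroup.mk' N x ∈ Ab := by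
        intro x; rw [hK]; exact Subgroup.mem_comap
      have hKn : K.Normal := by rw [hK]; exact hAn.comap _
      have hKS : K ≤ S := by
        intro x hx
        have h1 := hΩS (hAΩ ((hKmem x).mp hx))
        obtain ⟨s, hsS, hs⟩ := Subgroup.mem_map.mp h1
        have h2 : QuotientGroup.mk' N (s⁻¹ * x) = 1 := by
          rw [map_mul, map_inv, hs]; exact inv_mul_cancel _
        have h3 := hNS ((hπ _).mp h2)
        have : x = s * (s⁻¹ * x) := by group
        rw [this]; exact S.mul_mem hsS h3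
      have hcomm : ∀ x ∈ K, ∀ y ∈ K, x⁻¹ * y * x * y⁻¹ ∈ N := by
        intro x hx y hy
        rw [← hπ]
        rw [map_mul, map_mul, map_mul, map_inv, map_inv,
          mul_assoc (QuotientGroup.mk' N x)⁻¹, hAab _ ((hKmem y).mp hy) _ ((hKmem x).mp hx)]
        group
      have hpow : ∀ y ∈ K, y ^ p ∈ N := by
        intro y hy
        rw [← hπ, map_pow]
        exact hAe _ ((hKmem y).mp hy)
      have hmul : ∀ x ∈ K, ∀ y ∈ K, (x * y) ^ p = x ^ p * y ^ p := fun x hx y hy =>
        Cfsg.Agent.Lib.Helper49.RankOne.mul_pow_prime_of_central hp hp2 x y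
          (fun t => hNcomm _ (hcomm x hx y hy) t) (fun t => hNcomm _ (hpow y hy) t)
      have hKnc : ¬ IsCyclic K := by
        intro hcyc
        obtain ⟨g, hg⟩ := hcyc.exists_generator
        have hle : Ab ≤ Subgroup.zpowers (QuotientGroup.mk' N (g : R)) := by
          intro a ha
          obtain ⟨x, rfl⟩ := QuotientGroup.mk'_surjective N a
          obtain ⟨k, hk⟩ := Subgroup.mem_zpowers_iff.mp (hg ⟨x, (hKmem x).mpr ha⟩)
          have hk' := congrArg Subtype.val hk
          rw [Subgroup.coe_zpow] at hk'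
          rw [Subgroup.mem_zpowers_iff]
          exact ⟨k, by rw [← map_zpow, hk']⟩
        have h1 := Subgroup.card_le_of_le hle
        rw [hAc, Nat.card_zpowers] at h1
        have h2 : orderOf (QuotientGroup.mk' N (g : R)) ∣ p :=
          orderOf_dvd_of_pow_eq_one (hAe _ ((hKmem _).mp g.2))
        have h3 := Nat.le_of_dvd hp.pos h2
        have h4 := hp.two_le
        nlinarith
      obtain ⟨Ω, hΩK, hΩn', hΩe', hΩc'⟩ := omega_sub hp2 hR K hmul hKnc
      exact ⟨Ω, hΩK.trans hKS, hΩn', hΩe', hΩc'⟩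

theorem result {R : Type*} [Group R] [Finite R] {p : ℕ} [Fact p.Prime] (hp : p ≠ 2) (hR : IsPGroup p R) (S : Subgroup R) [S.Normal] (hS : ¬ IsCyclic S) : ∃ A : Subgroup R, A ≤ S ∧ A.Normal ∧ Cfsg.IsElementaryAbelian p A ∧ Nat.card A = p ^ 2 := by
  obtain ⟨Ω, hΩS, hΩn, hΩe, hΩc⟩ := main hp (Nat.card R) R le_rfl hR S hS
  obtain ⟨B, hBn, hBΩ, hBc⟩ :=
    Cfsg.Agent.Lib.Helper24.PGroupBasic.exists_normal_le_card hR Ω hΩe 2 hΩc
  exact ⟨B, hBΩ.trans hΩS, hBn,
    ⟨IsPGroup.isMulCommutative_of_card_eq_prime_sq hBc, fun a ha => hΩe a (hBΩ ha)⟩, hBc⟩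

end Cfsg.Agent.S0636
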