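import Cfsg.Statements.S0642
import Mathlib

set_option autoImplicit false
open Cfsg

namespace Cfsg.Agent.S0642

open scoped commutatorElement

theorem powerClosure_mono {G : Type*} [Group G] (p n : ℕ) {H K : Subgroup G} (h : H ≤ K) :
    Cfsg.powerClosure p n H ≤ Cfsg.powerClosure p n K := by
  unfold Cfsg.powerClosure
  apply Subgroup.closure_mono
  rintro _ ⟨x, hx, rfl⟩
  exact ⟨x, h hx, rfl⟩

/-- In a nontrivial finite 2-subgroup `D`, the squares generate a proper subgroup. -/
theorem powerClosure_two_lt {G : Type*} [Group G] [Finite G] (hG : IsPGroup 2 G) (D : Subgroup G)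
    (hD : D ≠ ⊥) : ¬ D ≤ Cfsg.powerClosure 2 1 D := by
  intro hle
  have : Fact (Nat.Prime 2) := ⟨Nat.prime_two⟩
  have hDp : IsPGroup 2 D := hG.to_subgroup D
  obtain ⟨k, hk⟩ := IsPGroup.iff_card.mp hDp
  have hk0 : k ≠ 0 := by
    rintro rfl
    apply hD
    rw [pow_zero] at hk
    exact (Subgroup.card_eq_one).mp hk
  obtain ⟨k', rfl⟩ := Nat.exists_eq_succ_of_ne_zero hk0
  have hdvd : 2 ^ k' ∣ Nat.card D := by
    rw [hk]; exact pow_dvd_pow 2 (Nat.le_succ k')
  obtain ⟨K, hK⟩ := Sylow.exists_subgroup_card_pow_prime 2 hdvd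
  have hidx : K.index = 2 := by
    have h1 := K.card_mul_index
    rw [hK, hk, pow_succ] at h1
    have h2 : 0 < 2 ^ k' := by positivity
    exact Nat.eq_of_mul_eq_mul_left h2 h1
  have hM : Cfsg.powerClosure 2 1 D ≤ K.map D.subtype := by
    unfold Cfsg.powerClosure
    rw [Subgroup.closure_le]
    rintro _ ⟨x, hx, rfl⟩
    refine ⟨(⟨x, hx⟩ : D) ^ 2, ?_, by simp⟩
    exact Subgroup.sq_mem_of_index_two hidx _
  have hKtop : K = ⊤ := by
    rw [eq_top_iff]
    intro x _
    obtain ⟨y, hy, hyx⟩ := hM (hle x.2)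
    have : y = x := Subtype.ext hyx
    rw [← this]; exact hy
  rw [hKtop, Subgroup.index_top] at hidx
  exact absurd hidx (by norm_num)

/-- Among finite 2-groups the regular ones are exactly the abelian ones. -/
theorem result {G : Type*} [Group G] [Finite G] (hG : IsPGroup 2 G) : Cfsg.IsRegularPGroup 2 G ↔ ∀ a b : G, a * b = b * a := by
  constructor
  · intro hreg a b
    set H := Subgroup.closure ({a, b} : Set G) with hH
    set D := ⁅H, H⁆ with hDdef
    set M := Cfsg.powerClosure 2 1 D with hMdef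
    -- H normalizes D
    have hDH : D ≤ H := by
      rw [hDdef, Subgroup.commutator_le]
      intro x hx y hy
      exact H.mul_mem (H.mul_mem (H.mul_mem hx hy) (H.inv_mem hx)) (H.inv_mem hy)
    have hconjD : ∀ h ∈ H, ∀ d ∈ D, h * d * h⁻¹ ∈ D := by
      intro h hh d hd
      have h1 : ⁅h, d⁆ ∈ D := Subgroup.commutator_mem_commutator hh (hDH hd)
      have h2 : h * d * h⁻¹ = ⁅h, d⁆ * d := by
        simp [commutatorElement_def]
      rw [h2]
      exact D.mul_mem h1 hd
    -- H normalizes M
    have hconjM : ∀ h ∈ H, ∀ m ∈ M, h * m * h⁻¹ ∈ M := by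
      intro h hh m hm
      have hmap : M.map (MulAut.conj h).toMonoidHom ≤ M := by
        rw [hMdef]
        unfold Cfsg.powerClosure
        rw [MonoidHom.map_closure]
        apply Subgroup.closure_mono
        rintro _ ⟨y, ⟨x, hx, rfl⟩, rfl⟩
        refine ⟨h * x * h⁻¹, hconjD h hh x hx, ?_⟩
        simp [MulAut.conj_apply, conj_pow]
      have := hmap (Subgroup.mem_map_of_mem _ hm)
      simpa [MulAut.conj_apply] using this
    -- all commutators of elements of H lie in M
    have hcomm : ∀ x ∈ H, ∀ y ∈ H, ⁅x, y⁆ ∈ M := by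
      intro x hx y hy
      obtain ⟨c, hc, hceq⟩ := hreg.2 y x 1
      have hcM : c ∈ M := by
        refine powerClosure_mono 2 1 ?_ hc
        apply Subgroup.commutator_mono <;>
        · rw [Subgroup.closure_le]
          rintro z (rfl | rfl)
          · exact hy
          · exact hx
      -- (y x)^2 = y^2 x^2 c  gives  ⁅x, y⁆ = (y x x) c (y x x)⁻¹
      have h3 : ⁅x, y⁆ = (y * x * x) * c * (y * x * x)⁻¹ := by
        have h4 : c = (y * y * (x * x))⁻¹ * (y * x * (y * x)) := by
          simp only [pow_one, pow_two] at hceq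
          rw [hceq]; group
        rw [h4, commutatorElement_def]; group
      rw [h3]
      exact hconjM _ (H.mul_mem (H.mul_mem hy hx) hx) c hcM
    have hDM : D ≤ M := by
      rw [hDdef, Subgroup.commutator_le]
      intro x hx y hy
      exact hcomm x hx y hy
    have hDbot : D = ⊥ := by
      by_contra hne
      exact powerClosure_two_lt hG D hne hDM
    have hab : ⁅a, b⁆ ∈ D := Subgroup.commutator_mem_commutator
      (Subgroup.subset_closure (by simp)) (Subgroup.subset_closure (by simp))
    rw [hDbot, Subgroup.mem_bot] at hab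
    exact (commutatorElement_eq_one_iff_mul_comm.mp hab)
  · intro hcomm
    refine ⟨hG, ?_⟩
    intro a b n
    refine ⟨1, Subgroup.one_mem _, ?_⟩
    rw [mul_one]
    exact (Commute.mul_pow (hcomm a b) _)

end Cfsg.Agent.S0642
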