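import Cfsg.Statements.S0656
import Cfsg.Agent.Lib.Helper11.QuadBridge
import Cfsg.Agent.Lib.Helper67.BaerSuzuki
-- import your own Cfsg.Agent.* helpers here

set_option autoImplicit false
open Cfsg

namespace Cfsg.Agent.S0656

/-- Conjugating a quadratic element by an element normalizing `V` gives a quadratic element. -/
theorem quad_conj {G : Type*} [Group G] (V : Subgroup G) (g x : G)
    (hg : g ∈ Subgroup.normalizer (V : Set G))
    (hq : ⁅⁅V, Subgroup.zpowers x⁆, Subgroup.zpowers x⁆ = ⊥) :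
    ⁅⁅V, Subgroup.zpowers (g * x * g⁻¹)⁆, Subgroup.zpowers (g * x * g⁻¹)⁆ = ⊥ := by
  have h1 : V.map (MulAut.conj g).toMonoidHom = V := by
    ext y
    constructor
    · rintro ⟨v, hv, rfl⟩
      exact ((Subgroup.mem_normalizer_iff.mp hg) v).mp hv
    · intro hy
      refine ⟨g⁻¹ * y * g, ?_, ?_⟩
      · have h2 := (Subgroup.mem_normalizer_iff.mp hg) (g⁻¹ * y * g)
        have h3 : g * (g⁻¹ * y * g) * g⁻¹ = y := by group
        rw [h3] at h2
        exact h2.mpr hy
      · show g * (g⁻¹ * y * g) * g⁻¹ = y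
        group
  have h2 : (Subgroup.zpowers x).map (MulAut.conj g).toMonoidHom
      = Subgroup.zpowers (g * x * g⁻¹) := by
    rw [MonoidHom.map_zpowers]
    rfl
  have h3 := congrArg (Subgroup.map (MulAut.conj g).toMonoidHom) hq
  rw [Subgroup.map_commutator, Subgroup.map_commutator, h1, h2, Subgroup.map_bot] at h3
  exact h3

/-- For odd p, a faithful group on an elementary abelian p-group with no nontrivial normal p-subgroup in which some nontrivial p-element acts quadratically has a section isomorphic to SL(2, p). -/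
theorem result {G : Type*} [Group G] [Finite G] {p : ℕ} [Fact p.Prime] (hp : p ≠ 2) (V H : Subgroup G) (hV : Cfsg.IsElementaryAbelian p V) (hHV : H ≤ Subgroup.normalizer (V : Set G)) (hf : H ⊓ Subgroup.centralizer (V : Set G) = ⊥) (hO : Cfsg.pCore p ↥H = ⊥) (x : G) (hxH : x ∈ H) (hx1 : x ≠ 1) (hxp : ∃ k : ℕ, orderOf x = p ^ k) (hq : ⁅⁅V, Subgroup.zpowers x⁆, Subgroup.zpowers x⁆ = ⊥) : ∃ (K L : Subgroup G) (hL : (L.subgroupOf K).Normal), K ≤ H ∧ Nonempty ((K ⧸ L.subgroupOf K) ≃* Matrix.SpecialLinearGroup (Fin 2) (ZMod p)) := by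
  classical
  let x' : ↥H := ⟨x, hxH⟩
  let S : Set ↥H := Group.conjugatesOfSet {x'}
  have hS : ∀ (g y : ↥H), y ∈ S → g * y * g⁻¹ ∈ S := fun g y hy =>
    Group.conj_mem_conjugatesOfSet hy
  have hSmem : ∀ y ∈ S, ∃ g : ↥H, g * x' * g⁻¹ = y := by
    intro y hy
    rw [Group.mem_conjugatesOfSet_iff] at hy
    obtain ⟨a, ha, hc⟩ := hy
    rw [Set.mem_singleton_iff] at ha
    subst ha
    exact isConj_iff.mp hc
  -- some pair of conjugates does not generate a `p`-group
  have hpair : ¬ ∀ y₁ ∈ S, ∀ y₂ ∈ S, IsPGroup p (Subgroup.closure ({y₁, y₂} : Set ↥H)) := by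
    intro hall
    have h1 : IsPGroup p (Subgroup.closure S) :=
      Cfsg.Agent.Lib.Helper67.BaerSuzuki.isPGroup_closure S hS hall
    have h2 : (Subgroup.closure S).Normal := by
      show (Subgroup.normalClosure ({x'} : Set ↥H)).Normal
      exact Subgroup.normalClosure_normal
    have h3 : Subgroup.closure S ≤ Cfsg.pCore p ↥H := le_sSup ⟨h2, h1⟩
    rw [hO] at h3
    have h4 : x' ∈ Subgroup.closure S :=
      Subgroup.subset_closure (Group.subset_conjugatesOfSet (Set.mem_singleton x'))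
    have h5 := h3 h4
    rw [Subgroup.mem_bot] at h5
    exact hx1 (congrArg Subtype.val h5)
  push Not at hpair
  obtain ⟨y₁, hy₁, y₂, hy₂, hnp⟩ := hpair
  obtain ⟨g₁, hg₁⟩ := hSmem y₁ hy₁
  obtain ⟨g₂, hg₂⟩ := hSmem y₂ hy₂
  have hle : Subgroup.closure ({(y₁ : G), (y₂ : G)} : Set G) ≤ H := by
    rw [Subgroup.closure_le]
    rintro z (rfl | rfl)
    · exact y₁.2
    · exact y₂.2
  have hq₁ : ⁅⁅V, Subgroup.zpowers (y₁ : G)⁆, Subgroup.zpowers (y₁ : G)⁆ = ⊥ := by
    rw [← hg₁]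
    exact quad_conj V g₁ x (hHV g₁.2) hq
  have hq₂ : ⁅⁅V, Subgroup.zpowers (y₂ : G)⁆, Subgroup.zpowers (y₂ : G)⁆ = ⊥ := by
    rw [← hg₂]
    exact quad_conj V g₂ x (hHV g₂.2) hq
  have hf' : Subgroup.closure ({(y₁ : G), (y₂ : G)} : Set G) ⊓ Subgroup.centralizer (V : Set G)
      = ⊥ := by
    rw [eq_bot_iff, ← hf]
    exact inf_le_inf_right _ hle
  have hnp' : ¬ IsPGroup p ↥(Subgroup.closure ({(y₁ : G), (y₂ : G)} : Set G)) := by
    intro hpg
    apply hnp
    have h1 : (Subgroup.closure ({y₁, y₂} : Set ↥H)).map H.subtype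
        = Subgroup.closure ({(y₁ : G), (y₂ : G)} : Set G) := by
      rw [MonoidHom.map_closure, Set.image_pair]
      rfl
    intro z
    have h2 : ((z : ↥H) : G) ∈ Subgroup.closure ({(y₁ : G), (y₂ : G)} : Set G) := by
      rw [← h1]
      exact ⟨z.1, z.2, rfl⟩
    obtain ⟨k, hk⟩ := hpg ⟨_, h2⟩
    refine ⟨k, ?_⟩
    apply Subtype.ext
    apply Subtype.ext
    have h3 := congrArg Subtype.val hk
    simpa using h3
  obtain ⟨K, L, hL, hK, hiso⟩ :=
    Cfsg.Agent.Lib.Helper11.QuadBridge.exists_SL2_section hp V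
      (Subgroup.closure ({(y₁ : G), (y₂ : G)} : Set G)) hV (hle.trans hHV) hf' _ _ rfl hq₁ hq₂ hnp'
  exact ⟨K, L, hL, hK.trans hle, hiso⟩

end Cfsg.Agent.S0656
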