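import Cfsg.Statements.S0662
import Cfsg.Agent.Lib.Helper54.MaxClass

set_option autoImplicit false
open Cfsg

namespace Cfsg.Agent.S0662

open Subgroup commutatorElement
open Cfsg.Agent.Lib.Helper54.MaxClass
open Cfsg.Agent.Lib.Helper54.UniqueSubgroup

universe u

/-- If the lower central series stabilises at `k`, it is constant from `k` on. -/
theorem lcs_const {G : Type u} [Group G] {k : ℕ}
    (h : (⊤ : Subgroup G).lowerCentralSeries (k + 1) = (⊤ : Subgroup G).lowerCentralSeries k) :
    ∀ j, (⊤ : Subgroup G).lowerCentralSeries (k + j) = (⊤ : Subgroup G).lowerCentralSeries k := by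
  intro j
  induction j with
  | zero => rfl
  | succ j ih =>
    rw [← add_assoc, Subgroup.lowerCentralSeries_succ, ih, ← Subgroup.lowerCentralSeries_succ, h]

theorem lcs_ne_succ {G : Type u} [Group G] {k m : ℕ}
    (hm : (⊤ : Subgroup G).lowerCentralSeries m = ⊥)
    (hk : (⊤ : Subgroup G).lowerCentralSeries k ≠ ⊥) :
    (⊤ : Subgroup G).lowerCentralSeries (k + 1) ≠ (⊤ : Subgroup G).lowerCentralSeries k := by
  intro h
  apply hk
  have h1 := lcs_const h m
  have h2 : (⊤ : Subgroup G).lowerCentralSeries (k + m) ≤ (⊤ : Subgroup G).lowerCentralSeries m :=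
    Subgroup.lowerCentralSeries_antitone ⊤ (by omega)
  rw [h1, hm] at h2
  exact le_bot_iff.1 h2

theorem card_step {p : ℕ} [hp : Fact p.Prime] {G : Type u} [Group G] [Finite G]
    (hG : IsPGroup p G) {H K : Subgroup G} (hle : H ≤ K) (hne : H ≠ K) :
    p * Nat.card H ∣ Nat.card K := by
  obtain ⟨a, ha⟩ := (hG.to_subgroup H).exists_card_eq
  obtain ⟨b, hb⟩ := (hG.to_subgroup K).exists_card_eq
  have h1 : Nat.card H ∣ Nat.card K := Subgroup.card_dvd_of_le hle
  rw [ha, hb] at h1 ⊢
  have hab : a ≤ b := (Nat.pow_dvd_pow_iff_le_right hp.out.one_lt).1 h1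
  have hne' : a ≠ b := by
    intro hab'
    apply hne
    apply Subgroup.eq_of_le_of_card_ge hle
    rw [ha, hb, hab']
  rw [← pow_succ']
  exact pow_dvd_pow p (by omega)

theorem lcs_one_le_two_of_cyclic {G : Type u} [Group G]
    (h : IsCyclic (G ⧸ (⊤ : Subgroup G).lowerCentralSeries 1)) :
    (⊤ : Subgroup G).lowerCentralSeries 1 ≤ (⊤ : Subgroup G).lowerCentralSeries 2 := by
  have h21 : (⊤ : Subgroup G).lowerCentralSeries 2 ≤ (⊤ : Subgroup G).lowerCentralSeries 1 :=
    Subgroup.lowerCentralSeries_antitone ⊤ (by norm_num)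
  let f : G ⧸ (⊤ : Subgroup G).lowerCentralSeries 2 →* G ⧸ (⊤ : Subgroup G).lowerCentralSeries 1 :=
    QuotientGroup.map _ _ (MonoidHom.id G) (by simpa using h21)
  have hker : f.ker ≤ center (G ⧸ (⊤ : Subgroup G).lowerCentralSeries 2) := by
    intro x hx
    obtain ⟨a, rfl⟩ := QuotientGroup.mk_surjective x
    rw [MonoidHom.mem_ker] at hx
    have ha : a ∈ (⊤ : Subgroup G).lowerCentralSeries 1 := by
      have h1 : f (QuotientGroup.mk a) = QuotientGroup.mk a := rfl
      rw [h1, QuotientGroup.eq_one_iff] at hx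
      exact hx
    rw [Subgroup.mem_center_iff]
    intro y
    obtain ⟨b, rfl⟩ := QuotientGroup.mk_surjective y
    rw [← QuotientGroup.mk_mul, ← QuotientGroup.mk_mul, QuotientGroup.eq]
    have h3 : ⁅a⁻¹, b⁻¹⁆ ∈ (⊤ : Subgroup G).lowerCentralSeries 2 :=
      Subgroup.commutator_mem_commutator (inv_mem ha) (Subgroup.mem_top _)
    have h4 : (b * a)⁻¹ * (a * b) = ⁅a⁻¹, b⁻¹⁆ := by
      rw [commutatorElement_def]; group
    rw [h4]; exact h3
  have hcomm := f.isMulCommutative_of_isCyclic_of_ker_le_center hker
  have h5 : (⊤ : Subgroup G).lowerCentralSeries 1 = ⁅(⊤ : Subgroup G), ⊤⁆ := rfl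
  rw [h5, Subgroup.commutator_le]
  intro a _ b _
  have h6 : (QuotientGroup.mk ⁅a, b⁆ : G ⧸ (⊤ : Subgroup G).lowerCentralSeries 2) = 1 := by
    rw [commutatorElement_def]
    simp only [QuotientGroup.mk_mul, QuotientGroup.mk_inv]
    rw [mul_comm' (QuotientGroup.mk a : G ⧸ (⊤ : Subgroup G).lowerCentralSeries 2)
      (QuotientGroup.mk b)]
    group
  exact (QuotientGroup.eq_one_iff _).1 h6

theorem card_lcs {p : ℕ} [hp : Fact p.Prime] {G : Type u} [Group G] [Finite G] {n : ℕ}
    (hG : Nat.card G = p ^ n) (hn : 3 ≤ n)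
    (hbot : (⊤ : Subgroup G).lowerCentralSeries (n - 1) = ⊥)
    (hne : (⊤ : Subgroup G).lowerCentralSeries (n - 2) ≠ ⊥) :
    ∀ k, 1 ≤ k → k ≤ n - 1 →
      Nat.card ((⊤ : Subgroup G).lowerCentralSeries k) = p ^ (n - 1 - k) := by
  have hP : IsPGroup p G := IsPGroup.of_card hG
  have hnek : ∀ k, k ≤ n - 2 → (⊤ : Subgroup G).lowerCentralSeries k ≠ ⊥ := by
    intro k hk h
    apply hne
    exact le_bot_iff.1 (h ▸ Subgroup.lowerCentralSeries_antitone ⊤ hk)
  have hstep : ∀ k, k ≤ n - 2 → p * Nat.card ((⊤ : Subgroup G).lowerCentralSeries (k + 1)) ∣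
      Nat.card ((⊤ : Subgroup G).lowerCentralSeries k) := by
    intro k hk
    exact card_step hP (Subgroup.lowerCentralSeries_antitone ⊤ (by omega))
      (lcs_ne_succ hbot (hnek k hk))
  have hlow : ∀ j, j ≤ n - 1 →
      p ^ j ∣ Nat.card ((⊤ : Subgroup G).lowerCentralSeries (n - 1 - j)) := by
    intro j
    induction j with
    | zero => intro _; simp
    | succ j ih =>
      intro hj
      have h1 := ih (by omega)
      have h2 := hstep (n - 1 - (j + 1)) (by omega)
      have h3 : n - 1 - (j + 1) + 1 = n - 1 - j := by omega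
      rw [h3] at h2
      rw [pow_succ']
      exact (Nat.mul_dvd_mul_left p h1).trans h2
  have hbase : Nat.card ((⊤ : Subgroup G).lowerCentralSeries 1) ∣ p ^ (n - 2) := by
    obtain ⟨b, hb⟩ := (hP.to_subgroup ((⊤ : Subgroup G).lowerCentralSeries 1)).exists_card_eq
    have h1 := ((⊤ : Subgroup G).lowerCentralSeries 1).card_mul_index
    rw [hG, hb] at h1
    have hbn : b ≤ n := (Nat.pow_dvd_pow_iff_le_right hp.out.one_lt).1 ⟨_, h1.symm⟩
    have h2 : ((⊤ : Subgroup G).lowerCentralSeries 1).index = p ^ (n - b) := by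
      have h3 : p ^ n = p ^ b * p ^ (n - b) := by rw [← pow_add]; congr 1; omega
      rw [h3] at h1
      exact Nat.eq_of_mul_eq_mul_left (pow_pos hp.out.pos b) h1
    rw [hb]
    apply pow_dvd_pow
    by_contra hcon
    have hcyc : IsCyclic (G ⧸ (⊤ : Subgroup G).lowerCentralSeries 1) := by
      rw [Subgroup.index_eq_card] at h2
      have hle : n - b = 0 ∨ n - b = 1 := by omega
      rcases hle with h | h
      · rw [h, pow_zero] at h2
        have : Subsingleton (G ⧸ (⊤ : Subgroup G).lowerCentralSeries 1) :=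
          (Nat.card_eq_one_iff_unique.1 h2).1
        exact isCyclic_of_subsingleton
      · rw [h, pow_one] at h2
        exact isCyclic_of_prime_card h2
    have h4 := lcs_one_le_two_of_cyclic hcyc
    exact lcs_ne_succ hbot (hnek 1 (by omega))
      (le_antisymm (Subgroup.lowerCentralSeries_antitone ⊤ (by norm_num)) h4)
  have hup : ∀ k, 1 ≤ k → k ≤ n - 1 →
      Nat.card ((⊤ : Subgroup G).lowerCentralSeries k) ∣ p ^ (n - 1 - k) := by
    intro k hk1
    induction k, hk1 using Nat.le_induction with
    | base => intro _; exact hbase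
    | succ k hk1 ih =>
      intro hk
      have h1 := ih (by omega)
      have h2 := hstep k (by omega)
      have h3 : p ^ (n - 1 - k) = p * p ^ (n - 1 - (k + 1)) := by
        rw [← pow_succ']; congr 1; omega
      rw [h3] at h1
      exact Nat.dvd_of_mul_dvd_mul_left hp.out.pos (h2.trans h1)
  intro k hk1 hk
  have h1 := hlow (n - 1 - k) (by omega)
  have h2 : n - 1 - (n - 1 - k) = k := by omega
  rw [h2] at h1
  exact Nat.dvd_antisymm (hup k hk1 hk) h1

/-- A noncyclic commutative group of order `p ^ 2` has exactly `p + 1` subgroups of index `p`. -/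
theorem card_index_p {p : ℕ} [hp : Fact p.Prime] {Q : Type u} [CommGroup Q] [Finite Q]
    (hQ : Nat.card Q = p ^ 2) (hnc : ¬ IsCyclic Q) :
    Nat.card {M : Subgroup Q // M.index = p} = p + 1 := by
  classical
  have : Fintype Q := Fintype.ofFinite Q
  have : Fintype (Subgroup Q) := Fintype.ofFinite _
  have hP : IsPGroup p Q := IsPGroup.of_card hQ
  have hord : ∀ x : Q, x ≠ 1 → orderOf x = p := by
    intro x hx
    obtain ⟨k, hk⟩ := orderOf_eq_pow hP x
    have hk2 : k ≤ 2 := by
      have h1 := orderOf_dvd_natCard x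
      rw [hQ, hk] at h1
      exact (Nat.pow_dvd_pow_iff_le_right hp.out.one_lt).1 h1
    interval_cases k
    · rw [pow_zero, orderOf_eq_one_iff] at hk; exact absurd hk hx
    · rw [hk, pow_one]
    · exfalso
      apply hnc
      exact isCyclic_of_orderOf_eq_card x (by rw [hk, hQ])
  have hidx : ∀ M : Subgroup Q, M.index = p ↔ Nat.card M = p := by
    intro M
    have h1 := M.card_mul_index
    rw [hQ] at h1
    constructor
    · intro h
      rw [h, pow_two] at h1
      exact Nat.eq_of_mul_eq_mul_right hp.out.pos h1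
    · intro h
      rw [h, pow_two] at h1
      exact Nat.eq_of_mul_eq_mul_left hp.out.pos h1
  have hmem : ∀ (M : Subgroup Q) (x : Q), Nat.card M = p → x ≠ 1 → x ∈ M → zpowers x = M := by
    intro M x hM hx hxM
    apply Subgroup.eq_of_le_of_card_ge (by rwa [zpowers_le])
    rw [Nat.card_zpowers, hord x hx, hM]
  set s : Finset Q := Finset.univ.filter (fun x => x ≠ 1) with hs
  set t : Finset (Subgroup Q) := Finset.univ.filter (fun M => M.index = p) with ht
  have hst : ∀ x ∈ s, zpowers x ∈ t := by
    intro x hx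
    rw [hs, Finset.mem_filter] at hx
    rw [ht, Finset.mem_filter]
    refine ⟨Finset.mem_univ _, ?_⟩
    rw [hidx, Nat.card_zpowers, hord x hx.2]
  have h1 := Finset.card_eq_sum_card_fiberwise hst
  have hfib : ∀ M ∈ t, (s.filter (fun x => zpowers x = M)).card = p - 1 := by
    intro M hM
    rw [ht, Finset.mem_filter] at hM
    have hMc := (hidx M).1 hM.2
    have h2 : s.filter (fun x => zpowers x = M) =
        (Finset.univ.filter (fun x => x ∈ M)).erase 1 := by
      ext x
      simp only [hs, Finset.mem_filter, Finset.mem_univ, true_and, Finset.mem_erase]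
      constructor
      · rintro ⟨hx, rfl⟩
        exact ⟨hx, mem_zpowers x⟩
      · rintro ⟨hx, hxM⟩
        exact ⟨hx, hmem M x hMc hx hxM⟩
    rw [h2, Finset.card_erase_of_mem (by simp [one_mem])]
    have h3 : (Finset.univ.filter (fun x => x ∈ M)).card = Nat.card M := by
      rw [Nat.card_eq_fintype_card, Fintype.card_subtype]
    rw [h3, hMc]
  rw [Finset.sum_congr rfl hfib, Finset.sum_const, smul_eq_mul] at h1
  have hsc : s.card = p ^ 2 - 1 := by
    have h4 : s = Finset.univ.erase 1 := by
      ext x; simp [hs]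
    rw [h4, Finset.card_erase_of_mem (Finset.mem_univ _), Finset.card_univ,
      ← Nat.card_eq_fintype_card, hQ]
  have htc : Nat.card {M : Subgroup Q // M.index = p} = t.card := by
    rw [Nat.card_eq_fintype_card, Fintype.card_subtype]
  rw [htc]
  rw [hsc] at h1
  have hp2 := hp.out.two_le
  have h5 : p ^ 2 - 1 = (p + 1) * (p - 1) := by
    obtain ⟨q, rfl⟩ : ∃ q, p = q + 1 := ⟨p - 1, by omega⟩
    simp only [Nat.add_sub_cancel]
    ring_nf
    omega
  rw [h5] at h1
  exact (Nat.eq_of_mul_eq_mul_right (by omega) h1).symm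

/-- In a p-group of maximal class of order at least p³ the normal subgroups of index at least p² are exactly the terms of the lower central series, and there are exactly p + 1 normal subgroups of index p. -/
theorem result {G : Type*} [Group G] [Finite G] {p : ℕ} [Fact p.Prime] (n : ℕ) (hG : Nat.card G = p ^ n) (hcl : Group.nilpotencyClass G = n - 1) (hn : 3 ≤ n) : (∀ (N : Subgroup G) [N.Normal] (r : ℕ), 2 ≤ r → N.index = p ^ r → N = (⊤ : Subgroup G).lowerCentralSeries (r - 1)) ∧ Nat.card {N : Subgroup G // N.Normal ∧ N.index = p} = p + 1 := by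
  have hp : Fact p.Prime := inferInstance
  have hP : IsPGroup p G := IsPGroup.of_card hG
  have hnil : Group.IsNilpotent G := hP.isNilpotent
  have hbot : (⊤ : Subgroup G).lowerCentralSeries (n - 1) = ⊥ :=
    Subgroup.lowerCentralSeries_eq_bot_iff_nilpotencyClass_le.2 hcl.le
  have hne : (⊤ : Subgroup G).lowerCentralSeries (n - 2) ≠ ⊥ := by
    intro h
    have := Subgroup.lowerCentralSeries_eq_bot_iff_nilpotencyClass_le.1 h
    omega
  have hcard := card_lcs hG hn hbot hne
  refine ⟨?_, ?_⟩
  · intro N _ r hr hidx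
    have hrn : r ≤ n := by
      have h1 := N.index_dvd_card
      rw [hidx, hG] at h1
      exact (Nat.pow_dvd_pow_iff_le_right hp.out.one_lt).1 h1
    have hq : Nat.card (G ⧸ N) = p ^ r := by rw [← Subgroup.index_eq_card, hidx]
    have h1 := lcs_eq_bot_of_card r (G ⧸ N) hq hr
    have h2 := Subgroup.map_lowerCentralSeries (⊤ : Subgroup G) (QuotientGroup.mk' N) (r - 1)
    rw [Subgroup.map_top_of_surjective _ (QuotientGroup.mk'_surjective N), h1,
      Subgroup.map_eq_bot_iff, QuotientGroup.ker_mk'] at h2
    symm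
    apply Subgroup.eq_of_le_of_card_ge h2
    rw [hcard (r - 1) (by omega) (by omega)]
    have h3 := N.card_mul_index
    rw [hidx, hG] at h3
    have h4 : p ^ n = p ^ (n - r) * p ^ r := by rw [← pow_add]; congr 1; omega
    rw [h4] at h3
    have h5 := Nat.eq_of_mul_eq_mul_right (pow_pos hp.out.pos r) h3
    rw [h5]
    apply Nat.pow_le_pow_right hp.out.pos
    omega
  · -- the abelianization
    have hc1 : Nat.card (commutator G) = p ^ (n - 2) := hcard 1 le_rfl (by omega)
    have hQ : Nat.card (Abelianization G) = p ^ 2 := by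
      have h1 := (commutator G).card_mul_index
      rw [hc1, hG] at h1
      have h2 : p ^ n = p ^ (n - 2) * p ^ 2 := by rw [← pow_add]; congr 1; omega
      rw [h2] at h1
      have h3 := Nat.eq_of_mul_eq_mul_left (pow_pos hp.out.pos (n - 2)) h1
      rw [Subgroup.index_eq_card] at h3
      exact h3
    have hnc : ¬ IsCyclic (Abelianization G) := by
      intro hcyc
      have h4 := lcs_one_le_two_of_cyclic (G := G) hcyc
      exact lcs_ne_succ hbot (fun h => hne (le_bot_iff.1 (h ▸
        Subgroup.lowerCentralSeries_antitone ⊤ (by omega : 1 ≤ n - 2))))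
        (le_antisymm (Subgroup.lowerCentralSeries_antitone ⊤ (by norm_num)) h4)
    rw [← card_index_p hQ hnc]
    have hker : (Abelianization.of : G →* Abelianization G).ker = commutator G :=
      Abelianization.ker_of G
    have hsurj : Function.Surjective (Abelianization.of : G →* Abelianization G) :=
      QuotientGroup.mk_surjective
    apply Nat.card_congr
    refine
      { toFun := fun N => ⟨N.1.map Abelianization.of, ?_⟩
        invFun := fun M => ⟨M.1.comap Abelianization.of, ?_, ?_⟩
        left_inv := ?_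
        right_inv := ?_ }
    · obtain ⟨N, hN, hNi⟩ := N
      have hle : (Abelianization.of : G →* Abelianization G).ker ≤ N := by
        rw [hker]
        have : IsCyclic (G ⧸ N) := by
          apply isCyclic_of_prime_card (p := p)
          rw [← Subgroup.index_eq_card, hNi]
        have hcm : ∀ a b : G ⧸ N, a * b = b * a := fun a b => mul_comm' a b
        rw [commutator_def, Subgroup.commutator_le]
        intro a _ b _
        rw [← QuotientGroup.eq_one_iff, commutatorElement_def]
        simp only [QuotientGroup.mk_mul, QuotientGroup.mk_inv]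
        rw [hcm (QuotientGroup.mk a) (QuotientGroup.mk b)]
        group
      show (N.map Abelianization.of).index = p
      rw [Subgroup.index_map_eq N hsurj hle, hNi]
    · exact Subgroup.Normal.comap (Subgroup.normal_of_isMulCommutative _) _
    · show (M.1.comap Abelianization.of).index = p
      rw [Subgroup.index_comap_of_surjective _ hsurj]
      exact M.2
    · rintro ⟨N, hN, hNi⟩
      have hle : (Abelianization.of : G →* Abelianization G).ker ≤ N := by
        rw [hker]
        have : IsCyclic (G ⧸ N) := by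
          apply isCyclic_of_prime_card (p := p)
          rw [← Subgroup.index_eq_card, hNi]
        have hcm : ∀ a b : G ⧸ N, a * b = b * a := fun a b => mul_comm' a b
        rw [commutator_def, Subgroup.commutator_le]
        intro a _ b _
        rw [← QuotientGroup.eq_one_iff, commutatorElement_def]
        simp only [QuotientGroup.mk_mul, QuotientGroup.mk_inv]
        rw [hcm (QuotientGroup.mk a) (QuotientGroup.mk b)]
        group
      apply Subtype.ext
      exact Subgroup.comap_map_eq_self hle
    · rintro ⟨M, hM⟩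
      apply Subtype.ext
      exact Subgroup.map_comap_eq_self_of_surjective hsurj M

end Cfsg.Agent.S0662
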