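import Cfsg.Statements.S0663
-- import your own Cfsg.Agent.* helpers here

set_option autoImplicit false
open Cfsg

namespace Cfsg.Agent.S0663

open scoped commutatorElement

variable {L : Type*} [Group L]

lemma comm_le (H G : Subgroup L) (hG : G ≤ Subgroup.normalizer (H : Set L)) : ⁅H, G⁆ ≤ H := by
  rw [Subgroup.commutator_le]
  intro h hh g hg
  have h1 : g * h⁻¹ * g⁻¹ ∈ H := (Subgroup.mem_normalizer_iff.1 (hG hg) h⁻¹).1 (H.inv_mem hh)
  have h2 : ⁅h, g⁆ = h * (g * h⁻¹ * g⁻¹) := by rw [commutatorElement_def]; group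
  rw [h2]
  exact H.mul_mem hh h1

lemma normalizer_comm_of_le (H G K : Subgroup L) (hKH : K ≤ Subgroup.normalizer (H : Set L))
    (hKG : K ≤ Subgroup.normalizer (G : Set L)) :
    K ≤ Subgroup.normalizer ((⁅H, G⁆ : Subgroup L) : Set L) := by
  rw [Subgroup.le_normalizer_iff]
  intro k hk x hx
  have h0 : ⁅H, G⁆ ≤ (⁅H, G⁆).comap (MulAut.conj k).toMonoidHom := by
    rw [Subgroup.commutator_le]
    intro h hh g hg
    simp only [Subgroup.mem_comap, MulEquiv.coe_toMonoidHom, MulAut.conj_apply]
    have h1 : k * ⁅h, g⁆ * k⁻¹ = ⁅k * h * k⁻¹, k * g * k⁻¹⁆ := by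
      simp only [commutatorElement_def]; group
    rw [h1]
    exact Subgroup.commutator_mem_commutator ((Subgroup.mem_normalizer_iff.1 (hKH hk) h).1 hh)
      ((Subgroup.mem_normalizer_iff.1 (hKG hk) g).1 hg)
  have h2 := h0 hx
  simpa only [Subgroup.mem_comap, MulEquiv.coe_toMonoidHom, MulAut.conj_apply] using h2

/-- A `p`-group acting on a `p`-group `H` with `[H, G] = H` forces `H = 1`. -/
lemma eq_bot_of_comm_eq [Finite L] {p : ℕ} [Fact p.Prime] (H G : Subgroup L) (hH : IsPGroup p H)
    (hG : IsPGroup p G) (hGH : G ≤ Subgroup.normalizer (H : Set L)) (h : ⁅H, G⁆ = H) : H = ⊥ := by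
  have hM : IsPGroup p (H ⊔ G : Subgroup L) := IsPGroup.to_sup_of_normal_left' hH hG hGH
  have hnil : Group.IsNilpotent (H ⊔ G : Subgroup L) := hM.isNilpotent
  obtain ⟨k, hk⟩ := (Subgroup.isNilpotent_iff_lowerCentralSeries (H ⊔ G)).1 hnil
  have h1 : ∀ j, H ≤ (H ⊔ G).lowerCentralSeries j := by
    intro j
    induction j with
    | zero => exact le_sup_left
    | succ j ih =>
      rw [Subgroup.lowerCentralSeries_succ]
      calc H = ⁅H, G⁆ := h.symm
        _ ≤ ⁅(H ⊔ G).lowerCentralSeries j, H ⊔ G⁆ := Subgroup.commutator_mono ih le_sup_right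
  exact le_bot_iff.1 (hk ▸ h1 k)

lemma exp_eq (f : ℕ → ℕ) (n : ℕ) (h0 : f 0 = n) (hs : ∀ i < n, f (i + 1) < f i) :
    ∀ i ≤ n, f i = n - i := by
  have h1 : ∀ i ≤ n, f i + i ≤ n := by
    intro i hi
    induction i with
    | zero => simp [h0]
    | succ i ih =>
      have h2 := ih (by omega)
      have h3 := hs i (by omega)
      omega
  intro i hi
  have h4 := h1 i hi
  have h2 : ∀ j, i + j ≤ n → f (i + j) + (i + j) ≤ f i + i := by
    intro j hj
    induction j with
    | zero => simp
    | succ j ih =>
      have h5 := ih (by omega)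
      have h6 := hs (i + j) (by omega)
      have h8 : i + (j + 1) = i + j + 1 := by omega
      rw [h8]
      omega
  have h3 := h2 (n - i) (by omega)
  have h7 : i + (n - i) = n := by omega
  rw [h7] at h3
  omega

lemma card_mul_relIndex' {H K : Subgroup L} (h : H ≤ K) :
    Nat.card H * H.relIndex K = Nat.card K := by
  have h1 := Subgroup.relIndex_mul_relIndex ⊥ H K bot_le h
  rwa [Subgroup.relIndex_bot_left, Subgroup.relIndex_bot_left] at h1

lemma ic_props (N G : Subgroup L) (hGN : G ≤ Subgroup.normalizer (N : Set L)) (i : ℕ) :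
    iterCommutator N G i ≤ N ∧
      G ≤ Subgroup.normalizer ((iterCommutator N G i : Subgroup L) : Set L) := by
  induction i with
  | zero => exact ⟨le_rfl, hGN⟩
  | succ i ih =>
    refine ⟨(comm_le _ G ih.2).trans ih.1, ?_⟩
    exact normalizer_comm_of_le _ G G ih.2 Subgroup.le_normalizer

lemma ic_succ_le (N G : Subgroup L) (hGN : G ≤ Subgroup.normalizer (N : Set L)) (i : ℕ) :
    iterCommutator N G (i + 1) ≤ iterCommutator N G i :=
  comm_le _ G (ic_props N G hGN i).2

lemma ic_anti (N G : Subgroup L) (hGN : G ≤ Subgroup.normalizer (N : Set L)) {i j : ℕ}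
    (h : i ≤ j) : iterCommutator N G j ≤ iterCommutator N G i := by
  induction j, h using Nat.le_induction with
  | base => exact le_rfl
  | succ j _ ih => exact (ic_succ_le N G hGN j).trans ih

/-- elements normalizing `W` whose commutators with `G` lie in `W` -/
def commSub (W G : Subgroup L) : Subgroup L where
  carrier := {x | x ∈ Subgroup.normalizer (W : Set L) ∧ ∀ g ∈ G, ⁅x, g⁆ ∈ W}
  mul_mem' := by
    rintro x y ⟨hx, hx'⟩ ⟨hy, hy'⟩
    refine ⟨Subgroup.mul_mem _ hx hy, fun g hg => ?_⟩
    have h1 : ⁅x * y, g⁆ = x * ⁅y, g⁆ * x⁻¹ * ⁅x, g⁆ := by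
      simp only [commutatorElement_def]; group
    rw [h1]
    exact W.mul_mem ((Subgroup.mem_normalizer_iff.1 hx _).1 (hy' g hg)) (hx' g hg)
  one_mem' := ⟨Subgroup.one_mem _, fun g _ => by simp⟩
  inv_mem' := by
    rintro x ⟨hx, hx'⟩
    refine ⟨Subgroup.inv_mem _ hx, fun g hg => ?_⟩
    have h1 : ⁅x⁻¹, g⁆ = x⁻¹ * (⁅x, g⁆)⁻¹ * (x⁻¹)⁻¹ := by
      simp only [commutatorElement_def]; group
    rw [h1]
    exact (Subgroup.mem_normalizer_iff.1 (Subgroup.inv_mem _ hx) _).1 (W.inv_mem (hx' g hg))

section Main

variable [Finite L] {p : ℕ} [Fact p.Prime] (N G : Subgroup L) (hN : IsPGroup p N)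
  (hG : IsPGroup p G) (hGN : G ≤ Subgroup.normalizer (N : Set L)) (n : ℕ)
  (hn : Nat.card N = p ^ n)

include hN hG hGN hn

lemma card_chain (hne : ∀ i < n, iterCommutator N G i ≠ ⊥) :
    ∀ i ≤ n, Nat.card (iterCommutator N G i) = p ^ (n - i) := by
  have hp : p.Prime := Fact.out
  have hpow : ∀ i, Nat.card (iterCommutator N G i) =
      p ^ (Nat.log p (Nat.card (iterCommutator N G i))) := by
    intro i
    obtain ⟨k, hk⟩ := IsPGroup.iff_card.1 (hN.to_le (ic_props N G hGN i).1)
    rw [hk, Nat.log_pow hp.one_lt]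
  have key := exp_eq (fun i => Nat.log p (Nat.card (iterCommutator N G i))) n
    (by
      show Nat.log p (Nat.card (iterCommutator N G 0)) = n
      have : iterCommutator N G 0 = N := rfl
      rw [this, hn, Nat.log_pow hp.one_lt])
    (by
      intro i hi
      show Nat.log p (Nat.card (iterCommutator N G (i + 1))) <
        Nat.log p (Nat.card (iterCommutator N G i))
      by_contra hcon
      have h1 : Nat.card (iterCommutator N G i) ≤ Nat.card (iterCommutator N G (i + 1)) := by
        rw [hpow i, hpow (i + 1)]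
        exact Nat.pow_le_pow_right hp.pos (not_lt.1 hcon)
      have h2 := Subgroup.eq_of_le_of_card_ge (ic_succ_le N G hGN i) h1
      exact hne i hi (eq_bot_of_comm_eq _ G (hN.to_le (ic_props N G hGN i).1) hG
        (ic_props N G hGN i).2 h2))
  intro i hi
  rw [hpow i]
  exact congrArg (fun e => p ^ e) (key i hi)

omit hn in
lemma normal_chain (hcard : ∀ i ≤ n, Nat.card (iterCommutator N G i) = p ^ (n - i)) :
    ∀ i ≤ n, N ≤ Subgroup.normalizer ((iterCommutator N G i : Subgroup L) : Set L) := by
  have hp : p.Prime := Fact.out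
  intro i
  induction i with
  | zero => intro _; exact Subgroup.le_normalizer
  | succ i ih =>
    intro hi
    have ih' := ih (by omega)
    set M := N ⊔ G with hMdef
    have hM : IsPGroup p M := IsPGroup.to_sup_of_normal_left' hN hG hGN
    have hMn : M ≤ Subgroup.normalizer ((iterCommutator N G i : Subgroup L) : Set L) :=
      sup_le ih' (ic_props N G hGN i).2
    set X := ⁅iterCommutator N G i, M⁆ with hX
    have hXle : X ≤ iterCommutator N G i := comm_le _ M hMn
    have hXne : X ≠ iterCommutator N G i := by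
      intro h
      have h1 := eq_bot_of_comm_eq _ M (hN.to_le (ic_props N G hGN i).1) hM hMn h
      have h2 := hcard i (by omega)
      rw [h1, Subgroup.card_bot] at h2
      have h3 : 1 < p ^ (n - i) := Nat.one_lt_pow (by omega) hp.one_lt
      omega
    have hleX : iterCommutator N G (i + 1) ≤ X := Subgroup.commutator_mono le_rfl le_sup_right
    obtain ⟨e, he⟩ := IsPGroup.iff_card.1 (hN.to_le (hXle.trans (ic_props N G hGN i).1))
    have h1 : e < n - i := by
      by_contra hcon
      apply hXne
      apply Subgroup.eq_of_le_of_card_ge hXle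
      rw [he, hcard i (by omega)]
      exact Nat.pow_le_pow_right hp.pos (not_lt.1 hcon)
    have h2 : Nat.card X ≤ Nat.card (iterCommutator N G (i + 1)) := by
      rw [he, hcard (i + 1) hi]
      exact Nat.pow_le_pow_right hp.pos (by omega)
    have h3 : iterCommutator N G (i + 1) = X := Subgroup.eq_of_le_of_card_ge hleX h2
    rw [h3]
    exact le_sup_left.trans (normalizer_comm_of_le _ M M hMn Subgroup.le_normalizer)

omit hn in
lemma key_step (hcard : ∀ i ≤ n, Nat.card (iterCommutator N G i) = p ^ (n - i)) :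
    ∀ k i, i + k + 1 = n → ∀ H : Subgroup L, H ≤ iterCommutator N G i →
      G ≤ Subgroup.normalizer (H : Set L) → ¬ H ≤ iterCommutator N G (i + 1) →
      H = iterCommutator N G i := by
  have hp : p.Prime := Fact.out
  have hnorm := normal_chain N G hN hG hGN n hcard
  -- common part
  have hsup : ∀ i, i + 1 ≤ n → ∀ H : Subgroup L, H ≤ iterCommutator N G i →
      ¬ H ≤ iterCommutator N G (i + 1) → H ⊔ iterCommutator N G (i + 1) = iterCommutator N G i := by
    intro i hi H hH hnot
    have hJle : H ⊔ iterCommutator N G (i + 1) ≤ iterCommutator N G i :=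
      sup_le hH (ic_succ_le N G hGN i)
    obtain ⟨e, he⟩ := IsPGroup.iff_card.1 (hN.to_le (hJle.trans (ic_props N G hGN i).1))
    apply Subgroup.eq_of_le_of_card_ge hJle
    rw [he, hcard i (by omega)]
    apply Nat.pow_le_pow_right hp.pos
    by_contra hcon
    apply hnot
    have h1 : Nat.card (H ⊔ iterCommutator N G (i + 1) : Subgroup L) ≤
        Nat.card (iterCommutator N G (i + 1)) := by
      rw [he, hcard (i + 1) hi]
      exact Nat.pow_le_pow_right hp.pos (by omega)
    have h2 := Subgroup.eq_of_le_of_card_ge (le_sup_right :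
      iterCommutator N G (i + 1) ≤ H ⊔ iterCommutator N G (i + 1)) h1
    rw [h2]
    exact le_sup_left
  intro k
  induction k with
  | zero =>
    intro i hi H hH hGH hnot
    have h1 := hsup i (by omega) H hH hnot
    have h2 : iterCommutator N G (i + 1) = ⊥ := by
      have h3 := hcard (i + 1) (by omega)
      have h4 : n - (i + 1) = 0 := by omega
      rw [h4, pow_zero] at h3
      exact Subgroup.card_eq_one.1 h3
    rw [h2, sup_bot_eq] at h1
    exact h1
  | succ k ih =>
    intro i hi H hH hGH hnot
    have h1 := hsup i (by omega) H hH hnot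
    have hH1le : ⁅H, G⁆ ≤ iterCommutator N G (i + 1) := Subgroup.commutator_mono hH le_rfl
    have hH1n : G ≤ Subgroup.normalizer ((⁅H, G⁆ : Subgroup L) : Set L) :=
      normalizer_comm_of_le H G G hGH Subgroup.le_normalizer
    have hnot1 : ¬ ⁅H, G⁆ ≤ iterCommutator N G (i + 1 + 1) := by
      intro hle
      set W := iterCommutator N G (i + 1 + 1) with hW
      have hNW : N ≤ Subgroup.normalizer (W : Set L) := hnorm (i + 1 + 1) (by omega)
      have hHD : H ≤ commSub W G := by
        intro x hx
        exact ⟨hNW ((ic_props N G hGN i).1 (hH hx)),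
          fun g hg => hle (Subgroup.commutator_mem_commutator hx hg)⟩
      have hND : iterCommutator N G (i + 1) ≤ commSub W G := by
        intro x hx
        exact ⟨hNW ((ic_props N G hGN (i + 1)).1 hx),
          fun g hg => Subgroup.commutator_mem_commutator hx hg⟩
      have hD : iterCommutator N G i ≤ commSub W G := by
        rw [← h1]
        exact sup_le hHD hND
      have hle2 : iterCommutator N G (i + 1) ≤ W := by
        show ⁅iterCommutator N G i, G⁆ ≤ W
        rw [Subgroup.commutator_le]
        intro x hx g hg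
        exact (hD hx).2 g hg
      have h3 := Subgroup.card_le_of_le hle2
      rw [hcard (i + 1) (by omega), hcard (i + 1 + 1) (by omega)] at h3
      have h4 : n - (i + 1 + 1) < n - (i + 1) := by omega
      have h5 := Nat.pow_lt_pow_right hp.one_lt h4
      omega
    have h2 := ih (i + 1) (by omega) ⁅H, G⁆ hH1le hH1n hnot1
    rw [← h2] at h1
    rw [← h1]
    exact (sup_eq_left.2 (comm_le H G hGH)).symm

end Main

/-- A p-group acts uniserially on a p-group N of order p^n exactly when the iterated commutator chain from N has length n; in that case the chain terms are all the invariant subgroups of N and they are normal in N. -/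
theorem result {L : Type*} [Group L] [Finite L] {p : ℕ} [Fact p.Prime] (N G : Subgroup L) (hN : IsPGroup p N) (hG : IsPGroup p G) (hGN : G ≤ Subgroup.normalizer (N : Set L)) (n : ℕ) (hn : Nat.card N = p ^ n) : ((∀ H : Subgroup L, H ≤ N → G ≤ Subgroup.normalizer (H : Set L) → H ≠ ⊥ → (⁅H, G⁆).relIndex H = p) ↔ Cfsg.iterCommutator N G (n - 1) ≠ ⊥ ∨ n = 0) ∧ ((∀ H : Subgroup L, H ≤ N → G ≤ Subgroup.normalizer (H : Set L) → H ≠ ⊥ → (⁅H, G⁆).relIndex H = p) → ∀ H : Subgroup L, H ≤ N → G ≤ Subgroup.normalizer (H : Set L) → (∃ i ≤ n, H = Cfsg.iterCommutator N G i) ∧ N ≤ Subgroup.normalizer (H : Set L)) := by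
  have hp : p.Prime := Fact.out
  -- uniserial implies the orders of the chain
  have hcardU : (∀ H : Subgroup L, H ≤ N → G ≤ Subgroup.normalizer (H : Set L) → H ≠ ⊥ →
      (⁅H, G⁆).relIndex H = p) → ∀ i ≤ n, Nat.card (iterCommutator N G i) = p ^ (n - i) := by
    intro hU i
    induction i with
    | zero => intro _; exact hn
    | succ i ih =>
      intro hi
      have h1 := ih (by omega)
      have hne : iterCommutator N G i ≠ ⊥ := by
        intro h
        rw [h, Subgroup.card_bot] at h1
        have h3 : 1 < p ^ (n - i) := Nat.one_lt_pow (by omega) hp.one_lt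
        omega
      have h2 := hU _ (ic_props N G hGN i).1 (ic_props N G hGN i).2 hne
      have h3 := card_mul_relIndex' (ic_succ_le N G hGN i)
      have h4 : (iterCommutator N G (i + 1)).relIndex (iterCommutator N G i) = p := h2
      rw [h4, h1] at h3
      have h5 : n - i = (n - (i + 1)) + 1 := by omega
      rw [h5, pow_succ] at h3
      exact Nat.eq_of_mul_eq_mul_right hp.pos h3
  -- a nontrivial last term gives the orders of the chain
  have hcardA : n ≠ 0 → iterCommutator N G (n - 1) ≠ ⊥ →
      ∀ i ≤ n, Nat.card (iterCommutator N G i) = p ^ (n - i) := by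
    intro hn0 hne
    apply card_chain N G hN hG hGN n hn
    intro i hi hbot
    apply hne
    have h1 := ic_anti N G hGN (show i ≤ n - 1 by omega)
    rw [hbot] at h1
    exact le_bot_iff.1 h1
  -- the orders of the chain give the classification of invariant subgroups
  have hclass : (∀ i ≤ n, Nat.card (iterCommutator N G i) = p ^ (n - i)) →
      ∀ H : Subgroup L, H ≤ N → G ≤ Subgroup.normalizer (H : Set L) →
        ∃ i ≤ n, H = iterCommutator N G i := by
    intro hcard H hHN hGH
    by_contra hcon
    push Not at hcon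
    have h1 : ∀ i ≤ n, H ≤ iterCommutator N G i := by
      intro i
      induction i with
      | zero => intro _; exact hHN
      | succ i ih =>
        intro hi
        by_contra hnot
        exact hcon i (by omega)
          (key_step N G hN hG hGN n hcard (n - i - 1) i (by omega) H (ih (by omega)) hGH hnot)
    have h2 := h1 n le_rfl
    have h3 : iterCommutator N G n = ⊥ := by
      have h4 := hcard n le_rfl
      rw [Nat.sub_self, pow_zero] at h4
      exact Subgroup.card_eq_one.1 h4
    rw [h3] at h2
    exact hcon n le_rfl (by rw [h3]; exact le_bot_iff.1 h2)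
  refine ⟨⟨?_, ?_⟩, ?_⟩
  · intro hU
    by_cases hn0 : n = 0
    · exact Or.inr hn0
    · left
      intro h
      have h1 := hcardU hU (n - 1) (by omega)
      rw [h, Subgroup.card_bot] at h1
      have h3 : 1 < p ^ (n - (n - 1)) := Nat.one_lt_pow (by omega) hp.one_lt
      omega
  · intro h H hHN hGH hHne
    have hn0 : n ≠ 0 := by
      rintro rfl
      apply hHne
      rw [pow_zero] at hn
      have h1 : N = ⊥ := Subgroup.card_eq_one.1 hn
      rw [h1] at hHN
      exact le_bot_iff.1 hHN
    have hne : iterCommutator N G (n - 1) ≠ ⊥ := by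
      rcases h with h | h
      · exact h
      · exact absurd h hn0
    have hcard := hcardA hn0 hne
    obtain ⟨i, hi, rfl⟩ := hclass hcard H hHN hGH
    have hi' : i < n := by
      rcases Nat.lt_or_ge i n with h1 | h1
      · exact h1
      · exfalso
        have h2 : i = n := le_antisymm hi h1
        apply hHne
        have h4 := hcard i hi
        rw [h2, Nat.sub_self, pow_zero] at h4
        rw [h2]
        exact Subgroup.card_eq_one.1 h4
    have h3 := card_mul_relIndex' (ic_succ_le N G hGN i)
    rw [hcard i hi, hcard (i + 1) (by omega)] at h3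
    have h5 : n - i = (n - (i + 1)) + 1 := by omega
    rw [h5, pow_succ] at h3
    have h6 : 0 < p ^ (n - (i + 1)) := Nat.pow_pos hp.pos
    exact Nat.eq_of_mul_eq_mul_left h6 h3
  · intro hU H hHN hGH
    have hcard := hcardU hU
    obtain ⟨i, hi, rfl⟩ := hclass hcard H hHN hGH
    exact ⟨⟨i, hi, rfl⟩, normal_chain N G hN hG hGN n hcard i hi⟩

end Cfsg.Agent.S0663
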