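-- Statement S0666.
import Cfsg.Statements.S0666
import Cfsg.Agent.S0035
import Cfsg.Agent.Lib.Helper24.FrobAction
import Cfsg.Agent.Lib.Helper24.ConjAction

set_option autoImplicit false
open Cfsg

namespace Cfsg.Agent.S0666

open Cfsg.Agent.Lib.Helper24.FrobAction Cfsg.Agent.Lib.Helper24.ConjAction in
/-- A Frobenius group acting on a nontrivial abelian group of order prime to that of its kernel, with the kernel acting without nontrivial fixed points, has a complement with a nontrivial fixed point. -/
theorem result {G : Type*} [Group G] [Finite G] (V F : Subgroup G) (hVab : IsMulCommutative V) (hV1 : V ≠ ⊥) (hFV : F ≤ Subgroup.normalizer (V : Set G)) (H : Subgroup ↥F) (hH : Cfsg.IsFrobeniusComplement H) (hcop : (Nat.card V).Coprime (Nat.card (Cfsg.frobeniusKernel H))) (hCK : V ⊓ Subgroup.centralizer (Subtype.val '' Cfsg.frobeniusKernel H : Set G) = ⊥) : V ⊓ Subgroup.centralizer ((H.map F.subtype : Subgroup G) : Set G) ≠ ⊥ := by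
  intro hbot
  classical
  obtain ⟨N, hNset, hNn, hNc⟩ := Cfsg.Agent.S0035.result H hH
  let inst : CommGroup ↥V :=
    { (inferInstance : Group ↥V) with mul_comm := fun a b => isMulCommutative_iff.mp hVab a b }
  have key := @eq_one_of_fixed_points_trivial ↥F ↥V _ _ inst _ (conjHom F V hFV) N H hNn ?_ ?_ ?_ ?_
  · apply hV1
    rw [eq_bot_iff]
    intro v hv
    have := key ⟨v, hv⟩
    exact (Subgroup.mem_bot).mpr (congrArg Subtype.val this)
  · intro h hh hh1 n hn hc
    have hnH : n ∈ H := Cfsg.Agent.Lib.Helper71.Frobenius.mem_of_commute hH hh hh1 hc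
    by_contra hn1
    have hnK : n ∈ Cfsg.frobeniusKernel H := by rw [← hNset]; exact hn
    exact Cfsg.Agent.Lib.Helper71.Frobenius.not_mem_of_mem_kernel H hnK hn1 hnH
  · have : Nat.card N = Nat.card (Cfsg.frobeniusKernel H) := by rw [← hNset]; rfl
    rw [this]
    exact hcop
  · intro w hw
    have hmem : (w : G) ∈ V ⊓
        Subgroup.centralizer (Subtype.val '' Cfsg.frobeniusKernel H : Set G) := by
      refine Subgroup.mem_inf.mpr ⟨w.2, ?_⟩
      rw [Subgroup.mem_centralizer_iff]
      rintro _ ⟨k, hk, rfl⟩
      have hkN : k ∈ N := by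
        have : k ∈ (N : Set ↥F) := hNset ▸ hk
        exact this
      have h1 := congrArg Subtype.val (hw k hkN)
      rw [conjHom_apply] at h1
      calc (k : G) * w = (k : G) * w * (k : G)⁻¹ * k := by group
        _ = w * k := by rw [h1]
    rw [hCK, Subgroup.mem_bot] at hmem
    exact Subtype.ext hmem
  · intro w hw
    have hmem : (w : G) ∈ V ⊓
        Subgroup.centralizer ((H.map F.subtype : Subgroup G) : Set G) := by
      refine Subgroup.mem_inf.mpr ⟨w.2, ?_⟩
      rw [Subgroup.mem_centralizer_iff]
      rintro _ ⟨k, hk, rfl⟩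
      have h1 := congrArg Subtype.val (hw k hk)
      rw [conjHom_apply] at h1
      show (k : G) * w = w * (k : G)
      calc (k : G) * w = (k : G) * w * (k : G)⁻¹ * k := by group
        _ = w * k := by rw [h1]
    rw [hbot, Subgroup.mem_bot] at hmem
    exact Subtype.ext hmem

end Cfsg.Agent.S0666
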