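import Cfsg.Statements.S0677
import Mathlib
import Cfsg.Agent.S0675
import Cfsg.Agent.S0676

set_option autoImplicit false
open Cfsg

namespace Cfsg.Agent.S0677

/-- Fisher's inequality for a point-block incidence structure. -/
theorem fisher {X B : Type*} [Fintype X] [Fintype B] (I : X → B → Prop) (ρ lam : ℕ)
    (hρ : ∀ x, Nat.card {b : B // I x b} = ρ)
    (hl : ∀ x y, x ≠ y → Nat.card {b : B // I x b ∧ I y b} = lam) (hlt : lam < ρ) :
    Fintype.card X ≤ Fintype.card B := by
  classical
  let m : X → B → ℚ := fun x b => if I x b then 1 else 0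
  let φ : (X → ℚ) →ₗ[ℚ] (B → ℚ) :=
    { toFun := fun c b => ∑ x, m x b * c x
      map_add' := by
        intro c d; funext b
        simp [mul_add, Finset.sum_add_distrib]
      map_smul' := by
        intro r c; funext b
        simp [Finset.mul_sum, mul_left_comm] }
  have hM : ∀ x y, ∑ b, m x b * m y b = (lam : ℚ) + if x = y then (ρ : ℚ) - lam else 0 := by
    intro x y
    by_cases hxy : x = y
    · subst hxy
      rw [if_pos rfl]
      have h1 : ∀ b, m x b * m x b = if I x b then 1 else 0 := by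
        intro b; simp only [m]; split_ifs <;> simp
      simp only [h1, Finset.sum_boole]
      have h2 := hρ x
      rw [Nat.card_eq_fintype_card, Fintype.card_subtype] at h2
      rw [h2]; ring
    · rw [if_neg hxy, add_zero]
      have h1 : ∀ b, m x b * m y b = if I x b ∧ I y b then 1 else 0 := by
        intro b; simp only [m]; split_ifs <;> simp_all
      simp only [h1, Finset.sum_boole]
      have h2 := hl x y hxy
      rw [Nat.card_eq_fintype_card, Fintype.card_subtype] at h2
      rw [h2]
  have hinj : Function.Injective φ := by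
    rw [← LinearMap.ker_eq_bot, LinearMap.ker_eq_bot']
    intro c hc
    have key : ∀ y, ((ρ : ℚ) - lam) * c y + lam * ∑ x, c x = 0 := by
      intro y
      have h1 : ∑ b, m y b * (φ c) b = 0 := by rw [hc]; simp
      have h2 : ∑ b, m y b * (φ c) b = ∑ x, c x * ∑ b, m x b * m y b := by
        show ∑ b, m y b * ∑ x, m x b * c x = _
        simp only [Finset.mul_sum]
        rw [Finset.sum_comm]
        apply Finset.sum_congr rfl; intro x _
        apply Finset.sum_congr rfl; intro b _
        ring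
      rw [h2] at h1
      simp only [hM, mul_add, Finset.sum_add_distrib, mul_ite, mul_zero, Finset.sum_ite_eq',
        Finset.mem_univ, if_true] at h1
      rw [← Finset.sum_mul] at h1
      linarith
    have hS : ∑ x, c x = 0 := by
      have h1 : ∑ y, (((ρ : ℚ) - lam) * c y + lam * ∑ x, c x) = 0 := by
        simp only [key, Finset.sum_const_zero]
      rw [Finset.sum_add_distrib, ← Finset.mul_sum, Finset.sum_const, Finset.card_univ,
        nsmul_eq_mul] at h1
      have h2 : (∑ x, c x) * (((ρ : ℚ) - lam) + Fintype.card X * lam) = 0 := by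
        linarith
      have h3 : (0 : ℚ) < ((ρ : ℚ) - lam) + Fintype.card X * lam := by
        have h4 : (lam : ℚ) < ρ := by exact_mod_cast hlt
        have h5 : (0 : ℚ) ≤ Fintype.card X * lam := by positivity
        linarith
      rcases mul_eq_zero.mp h2 with h | h
      · exact h
      · exact absurd h h3.ne'
    funext y
    have h1 := key y
    rw [hS, mul_zero, add_zero] at h1
    have h4 : ((ρ : ℚ) - lam) ≠ 0 := by
      have : (lam : ℚ) < ρ := by exact_mod_cast hlt
      linarith
    rcases mul_eq_zero.mp h1 with h | h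
    · exact absurd h h4
    · exact h
  have := LinearMap.finrank_le_finrank_of_injective hinj
  rwa [Module.finrank_fintype_fun_eq_card, Module.finrank_fintype_fun_eq_card] at this

section design
variable {G : Type*} [Group G] (H : Subgroup G) {α : Type*} [MulAction G α] (Δ : Set α)

/-- Incidence between points and cosets of `H`. -/
def inc (x : α) (q : G ⧸ H) : Prop := ∃ g : G, (g : G ⧸ H) = q ∧ g⁻¹ • x ∈ Δ

theorem inc_mk (hΔ : ∀ h ∈ H, ∀ y, h • y ∈ Δ ↔ y ∈ Δ) (x : α) (g : G) :
    inc H Δ x (g : G ⧸ H) ↔ g⁻¹ • x ∈ Δ := by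
  constructor
  · rintro ⟨g', hq, hmem⟩
    rw [QuotientGroup.eq] at hq
    have h1 : g⁻¹ • x = (g'⁻¹ * g)⁻¹ • (g'⁻¹ • x) := by
      rw [← mul_smul]; congr 1; group
    rw [h1, hΔ _ (H.inv_mem hq)]
    exact hmem
  · intro h
    exact ⟨g, rfl, h⟩

theorem inc_smul (g : G) (x : α) (q : G ⧸ H) : inc H Δ (g • x) (g • q) ↔ inc H Δ x q := by
  constructor
  · rintro ⟨g'', hq, hmem⟩
    refine ⟨g⁻¹ * g'', ?_, ?_⟩
    · have h1 : ((g⁻¹ * g'' : G) : G ⧸ H) = g⁻¹ • (g'' : G ⧸ H) := rfl
      rw [h1, hq, inv_smul_smul]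
    · rw [mul_inv_rev, inv_inv, mul_smul]
      exact hmem
  · rintro ⟨g', hq, hmem⟩
    refine ⟨g * g', ?_, ?_⟩
    · rw [← hq]; rfl
    · rw [mul_inv_rev, mul_smul, inv_smul_smul]
      exact hmem

/-- Number of cosets incident with three given points. -/
noncomputable def cnt (x y z : α) : ℕ :=
  Set.ncard {q : G ⧸ H | inc H Δ x q ∧ inc H Δ y q ∧ inc H Δ z q}

theorem cnt_smul (g : G) (x y z : α) :
    cnt H Δ (g • x) (g • y) (g • z) = cnt H Δ x y z := by
  have h1 : {q : G ⧸ H | inc H Δ (g • x) q ∧ inc H Δ (g • y) q ∧ inc H Δ (g • z) q} =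
      (fun q => g • q) '' {q : G ⧸ H | inc H Δ x q ∧ inc H Δ y q ∧ inc H Δ z q} := by
    ext q
    simp only [Set.mem_ofPred_eq, Set.mem_image]
    constructor
    · intro hq
      refine ⟨g⁻¹ • q, ?_, smul_inv_smul g q⟩
      rw [← inc_smul H Δ g x, ← inc_smul H Δ g y, ← inc_smul H Δ g z, smul_inv_smul]
      exact hq
    · rintro ⟨q', hq', rfl⟩
      rw [inc_smul, inc_smul, inc_smul]
      exact hq'
  unfold cnt
  rw [h1, Set.ncard_image_of_injective _ (MulAction.injective g)]

theorem block_size (hΔ : ∀ h ∈ H, ∀ y, h • y ∈ Δ ↔ y ∈ Δ) (q : G ⧸ H) :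
    Set.ncard {x : α | inc H Δ x q} = Δ.ncard := by
  induction q using QuotientGroup.induction_on with
  | H g =>
    have h1 : {x : α | inc H Δ x (g : G ⧸ H)} = (fun y => g • y) '' Δ := by
      ext x
      simp only [Set.mem_ofPred_eq, Set.mem_image]
      rw [inc_mk H Δ hΔ]
      constructor
      · intro hx
        exact ⟨g⁻¹ • x, hx, smul_inv_smul g x⟩
      · rintro ⟨y, hy, rfl⟩
        rw [inv_smul_smul]; exact hy
    rw [h1, Set.ncard_image_of_injective _ (MulAction.injective g)]

theorem double_count [Fintype α] [Finite (G ⧸ H)] (hΔ : ∀ h ∈ H, ∀ y, h • y ∈ Δ ↔ y ∈ Δ) :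
    ∑ x : α, cnt H Δ x x x = Nat.card (G ⧸ H) * Δ.ncard := by
  classical
  have : Fintype (G ⧸ H) := Fintype.ofFinite _
  have h1 : ∀ x : α, cnt H Δ x x x = ∑ q : G ⧸ H, if inc H Δ x q then 1 else 0 := by
    intro x
    unfold cnt
    rw [Finset.sum_boole, ← Set.ncard_coe_finset]
    congr 1
    ext q
    simp
  have h2 : ∀ q : G ⧸ H, (∑ x : α, if inc H Δ x q then 1 else 0) = Δ.ncard := by
    intro q
    rw [← block_size H Δ hΔ q, Finset.sum_boole, Nat.cast_id, ← Set.ncard_coe_finset]
    congr 1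
    ext x
    simp
  simp only [h1]
  rw [Finset.sum_comm]
  simp only [h2, Finset.sum_const, Finset.card_univ, smul_eq_mul, Nat.card_eq_fintype_card]

end design

theorem orbit_large {G : Type*} [Group G] [Finite G] (H : Subgroup G) {α : Type*} [Fintype α]
    [DecidableEq α] [MulAction G α] [MulAction.IsPretransitive G α]
    (h2 : ∀ a b c d : α, a ≠ b → c ≠ d → ∃ g : G, g • a = c ∧ g • b = d)
    (h3 : ∀ a b c a' b' c' : α, a ≠ b → a ≠ c → b ≠ c → a' ≠ b' → a' ≠ c' → b' ≠ c' →
      ∃ g : G, g • a = a' ∧ g • b = b' ∧ g • c = c')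
    (hidx : H.index = Fintype.card α) (Δ : Set α) (hΔ : ∀ h ∈ H, ∀ y, h • y ∈ Δ ↔ y ∈ Δ)
    (hk2 : 2 ≤ Δ.ncard) (hk : Δ.ncard < Fintype.card α) : Fintype.card α - 1 ≤ Δ.ncard := by
  classical
  obtain ⟨a, ha, x, hx, hax⟩ : ∃ a ∈ Δ, ∃ x ∈ Δ, a ≠ x := by
    have := (Set.one_lt_ncard_iff (Set.toFinite Δ)).mp (by omega)
    obtain ⟨a, b, ha, hb, hab⟩ := this
    exact ⟨a, ha, b, hb, hab⟩
  obtain ⟨y, hy⟩ : ∃ y, y ∉ Δ := by
    by_contra hcon
    push Not at hcon
    have : Δ = Set.univ := Set.eq_univ_of_forall hcon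
    rw [this, Set.ncard_univ, Nat.card_eq_fintype_card] at hk
    exact lt_irrefl _ hk
  have hay : a ≠ y := fun h => hy (h ▸ ha)
  have hxy : x ≠ y := fun h => hy (h ▸ hx)
  have hr : ∀ z : α, cnt H Δ z z z = cnt H Δ a a a := by
    intro z
    obtain ⟨g, rfl⟩ := MulAction.exists_smul_eq G a z
    exact cnt_smul H Δ g a a a
  have hrk : cnt H Δ a a a = Δ.ncard := by
    have h1 := double_count H Δ hΔ
    simp only [hr, Finset.sum_const, Finset.card_univ, smul_eq_mul] at h1
    have h4 : Nat.card (G ⧸ H) = Fintype.card α := hidx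
    rw [h4] at h1
    exact Nat.eq_of_mul_eq_mul_left (Fintype.card_pos_iff.mpr ⟨a⟩) h1
  have hl2 : ∀ z : α, z ≠ a → cnt H Δ a z z = cnt H Δ a x x := by
    intro z hz
    obtain ⟨g, hg1, hg2⟩ := h2 a x a z hax (Ne.symm hz)
    have := cnt_smul H Δ g a x x
    rw [hg1, hg2] at this
    exact this
  have hl3 : ∀ z w : α, z ≠ a → w ≠ a → z ≠ w → cnt H Δ a z w = cnt H Δ a x y := by
    intro z w hz hw hzw
    obtain ⟨g, hg1, hg2, hg3⟩ := h3 a x y a z w hax hay hxy (Ne.symm hz) (Ne.symm hw) hzw
    have := cnt_smul H Δ g a x y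
    rw [hg1, hg2, hg3] at this
    exact this
  have hlt : cnt H Δ a x y < cnt H Δ a x x := by
    unfold cnt
    apply Set.ncard_lt_ncard
    · constructor
      · rintro q ⟨h1, h2, _⟩; exact ⟨h1, h2, h2⟩
      · intro hsub
        have h1 : ((1 : G) : G ⧸ H) ∈
            {q : G ⧸ H | inc H Δ a q ∧ inc H Δ x q ∧ inc H Δ x q} := by
          refine ⟨?_, ?_, ?_⟩ <;> rw [inc_mk H Δ hΔ] <;> simpa
        have h2 := hsub h1
        have h3 := h2.2.2
        rw [inc_mk H Δ hΔ] at h3
        simp only [inv_one, one_smul] at h3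
        exact hy h3
    · exact Set.toFinite _
  let X := {z : α // z ≠ a}
  let B := {q : G ⧸ H // inc H Δ a q}
  have : Fintype B := Fintype.ofFinite _
  have hF := fisher (X := X) (B := B) (fun z b => inc H Δ z.1 b.1) (cnt H Δ a x x)
    (cnt H Δ a x y) ?_ ?_ hlt
  · have hX : Fintype.card X = Fintype.card α - 1 := Set.card_ne_eq a
    have hB : Fintype.card B = Δ.ncard := by
      rw [← hrk]
      unfold cnt
      rw [← Nat.card_eq_fintype_card, ← Nat.card_coe_set_eq]
      apply Nat.card_congr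
      exact Equiv.subtypeEquivRight (fun q => by
        show _ ↔ (_ ∧ _ ∧ _)
        tauto)
    rw [hX, hB] at hF
    exact hF
  · intro z
    rw [← hl2 z.1 z.2]
    unfold cnt
    rw [← Nat.card_coe_set_eq]
    apply Nat.card_congr
    exact (Equiv.subtypeSubtypeEquivSubtypeInter (fun q : G ⧸ H => inc H Δ a q)
      (fun q => inc H Δ z.1 q)).trans (Equiv.subtypeEquivRight (fun q => by
      show _ ↔ (_ ∧ _ ∧ _)
      tauto))
  · intro z w hzw
    rw [← hl3 z.1 w.1 z.2 w.2 (fun h => hzw (Subtype.ext h))]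
    unfold cnt
    rw [← Nat.card_coe_set_eq]
    apply Nat.card_congr
    exact (Equiv.subtypeSubtypeEquivSubtypeInter (fun q : G ⧸ H => inc H Δ a q)
      (fun q => inc H Δ z.1 q ∧ inc H Δ w.1 q)).trans (Equiv.subtypeEquivRight (fun q => by
      show _ ↔ (_ ∧ _ ∧ _)
      tauto))

theorem three_explicit {G : Type*} [Group G] {α : Type*} [MulAction G α]
    (h3 : MulAction.IsMultiplyPretransitive G α 3) (a b c a' b' c' : α) (hab : a ≠ b)
    (hac : a ≠ c) (hbc : b ≠ c) (hab' : a' ≠ b') (hac' : a' ≠ c') (hbc' : b' ≠ c') :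
    ∃ g : G, g • a = a' ∧ g • b = b' ∧ g • c = c' := by
  let f : Fin 3 ↪ α := ⟨![a, b, c], by
    intro i j hij
    fin_cases i <;> fin_cases j <;> simp_all⟩
  let f' : Fin 3 ↪ α := ⟨![a', b', c'], by
    intro i j hij
    fin_cases i <;> fin_cases j <;> simp_all⟩
  obtain ⟨g, hg⟩ := h3.exists_smul_eq f f'
  refine ⟨g, ?_, ?_, ?_⟩
  · exact congrArg (fun k : Fin 3 ↪ α => k 0) hg
  · exact congrArg (fun k : Fin 3 ↪ α => k 1) hg
  · exact congrArg (fun k : Fin 3 ↪ α => k 2) hg

section solvable
variable {α : Type*} [Fintype α] [DecidableEq α] {p : ℕ} [Fact p.Prime]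

open scoped commutatorElement in
theorem affine_of_solvable (hα : Fintype.card α = p) (G : Subgroup (Equiv.Perm α))
    [MulAction.IsPretransitive G α] (hG : Group.IsSolvable G) :
    ∃ e : ZMod p ≃ α, ∀ g : G, ∃ a b : ZMod p, ∀ x, e.symm (g • x) = a * e.symm x + b := by
  classical
  have hp : p.Prime := Fact.out
  obtain ⟨a₀⟩ : Nonempty α := Fintype.card_pos_iff.mp (by rw [hα]; exact hp.pos)
  have hsol : ∃ n, derivedSeries G n = ⊥ := hG.solvable
  have hpG : p ∣ Nat.card G := by
    have h1 := MulAction.index_stabilizer_of_transitive G a₀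
    have h2 := Subgroup.index_dvd_card (MulAction.stabilizer G a₀)
    rw [h1, Nat.card_eq_fintype_card, hα] at h2
    exact h2
  have htop : (⊤ : Subgroup G) ≠ ⊥ := by
    intro h
    have h1 : Nat.card G = 1 := by
      rw [← Subgroup.card_top (G := G), h, Subgroup.card_bot]
    rw [h1] at hpG
    exact hp.one_lt.ne' (Nat.dvd_one.mp hpG)
  have hm0 : derivedSeries G (Nat.find hsol) = ⊥ := Nat.find_spec hsol
  have hmne : Nat.find hsol ≠ 0 := by
    intro h0
    rw [h0, derivedSeries_zero] at hm0
    exact htop hm0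
  obtain ⟨n, hn⟩ : ∃ n, Nat.find hsol = n + 1 := Nat.exists_eq_succ_of_ne_zero hmne
  have hAne : derivedSeries G n ≠ ⊥ := Nat.find_min hsol (by omega : n < Nat.find hsol)
  set A := derivedSeries G n with hA
  have hAn : A.Normal := derivedSeries_normal G n
  have hcomm : ∀ x ∈ A, ∀ y ∈ A, x * y = y * x := by
    intro x hx y hy
    have h1 : ⁅x, y⁆ ∈ ⁅A, A⁆ := Subgroup.commutator_mem_commutator hx hy
    have h2 : ⁅A, A⁆ = ⊥ := by
      rw [hA, ← derivedSeries_succ, ← hn]; exact hm0
    rw [h2, Subgroup.mem_bot] at h1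
    exact commutatorElement_eq_one_iff_mul_comm.mp h1
  have hprim : MulAction.IsPreprimitive G α :=
    MulAction.IsPreprimitive.of_prime_card (by rw [Nat.card_eq_fintype_card, hα]; exact hp)
  have hfp : MulAction.fixedPoints A α ≠ Set.univ := by
    intro hfix
    apply hAne
    rw [Subgroup.eq_bot_iff_forall]
    intro u hu
    apply Subtype.ext
    apply Equiv.ext
    intro x
    have hx : x ∈ MulAction.fixedPoints A α := by rw [hfix]; trivial
    exact hx ⟨u, hu⟩
  have hAt : MulAction.IsPretransitive A α :=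
    MulAction.IsQuasiPreprimitive.isPretransitive_of_normal hfp
  have hpA : p ∣ Nat.card A := by
    have h1 := MulAction.index_stabilizer_of_transitive A a₀
    have h2 := Subgroup.index_dvd_card (MulAction.stabilizer A a₀)
    rw [h1, Nat.card_eq_fintype_card, hα] at h2
    exact h2
  obtain ⟨t₀, ht₀⟩ := exists_prime_orderOf_dvd_card' p hpA
  set t : G := (t₀ : G) with ht_def
  have htA : t ∈ A := t₀.2
  have htord : orderOf (t : Equiv.Perm α) = p := by
    rw [Subgroup.orderOf_coe, ht_def, Subgroup.orderOf_coe]; exact ht₀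
  obtain ⟨e, he⟩ := Cfsg.Agent.S0676.exists_coord_of hα (t : Equiv.Perm α) htord
  refine ⟨e, fun g => ?_⟩
  set u : G := g * t * g⁻¹ with hu
  have huA : u ∈ A := hAn.conj_mem t htA g
  have hut : u * t = t * u := hcomm u huA t htA
  have hut' : (u : Equiv.Perm α) * (t : Equiv.Perm α) =
      (t : Equiv.Perm α) * (u : Equiv.Perm α) := by
    have := congrArg Subtype.val hut
    simpa using this
  set c : ZMod p := e.symm ((u : Equiv.Perm α) (e 0)) with hc
  have hu0 : (u : Equiv.Perm α) (e 0) = e c := by rw [hc, Equiv.apply_symm_apply]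
  have hunat : ∀ n : ℕ, (u : Equiv.Perm α) (e (n : ZMod p)) = e (c + n) := by
    intro n
    induction n with
    | zero => simp [hu0]
    | succ n ih =>
      have h1 : e ((n + 1 : ℕ) : ZMod p) = (t : Equiv.Perm α) (e (n : ZMod p)) := by
        rw [he]; congr 1; push_cast; ring
      rw [h1, ← Equiv.Perm.mul_apply, hut', Equiv.Perm.mul_apply, ih, he]
      congr 1; push_cast; ring
  have huall : ∀ j : ZMod p, (u : Equiv.Perm α) (e j) = e (c + j) := by
    intro j
    have := hunat j.val
    rwa [ZMod.natCast_zmod_val] at this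
  have hug : (u : Equiv.Perm α) * (g : Equiv.Perm α) =
      (g : Equiv.Perm α) * (t : Equiv.Perm α) := by
    have h1 : u * g = g * t := by rw [hu]; group
    have := congrArg Subtype.val h1
    simpa using this
  set b : ZMod p := e.symm ((g : Equiv.Perm α) (e 0)) with hb
  have hgnat : ∀ n : ℕ, e.symm ((g : Equiv.Perm α) (e (n : ZMod p))) = c * n + b := by
    intro n
    induction n with
    | zero => simp [hb]
    | succ n ih =>
      have h1 : e ((n + 1 : ℕ) : ZMod p) = (t : Equiv.Perm α) (e (n : ZMod p)) := by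
        rw [he]; congr 1; push_cast; ring
      have h2 : (g : Equiv.Perm α) (e (n : ZMod p)) = e (c * n + b) := by
        rw [← ih, Equiv.apply_symm_apply]
      rw [h1, ← Equiv.Perm.mul_apply, ← hug, Equiv.Perm.mul_apply, h2, huall,
        Equiv.symm_apply_apply]
      push_cast; ring
  refine ⟨c, b, fun x => ?_⟩
  obtain ⟨j, rfl⟩ := e.surjective x
  have := hgnat j.val
  rw [ZMod.natCast_zmod_val] at this
  rw [Equiv.symm_apply_apply]
  exact this

omit [Fintype α] [DecidableEq α] in
theorem fixed_of_affine {G : Subgroup (Equiv.Perm α)} [Finite G] (e : ZMod p ≃ α)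
    (haff : ∀ g : G, ∃ a b : ZMod p, ∀ x, e.symm (g • x) = a * e.symm x + b)
    (H : Subgroup G) (hpH : ¬ p ∣ Nat.card H) : ∃ x : α, ∀ h ∈ H, h • x = x := by
  classical
  have : Fintype H := Fintype.ofFinite _
  have hN : ((Nat.card H : ℕ) : ZMod p) ≠ 0 := by
    rw [Ne, ZMod.natCast_eq_zero_iff]; exact hpH
  set S : ZMod p := ∑ h : H, e.symm ((h : G) • e 0) with hS
  refine ⟨e (((Nat.card H : ℕ) : ZMod p)⁻¹ * S), fun h' hh' => ?_⟩
  obtain ⟨a, b, hab⟩ := haff h'
  have h1 : S = a * S + (Nat.card H : ℕ) * b := by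
    have h2 : S = ∑ h : H, e.symm ((h' * (h : G)) • e 0) := by
      rw [hS]
      exact (Fintype.sum_equiv (Equiv.mulLeft (⟨h', hh'⟩ : H))
        (fun h : H => e.symm ((h' * (h : G)) • e 0)) (fun h : H => e.symm ((h : G) • e 0))
        (fun h => rfl)).symm
    have h3 : ∑ h : H, e.symm ((h' * (h : G)) • e 0) = a * S + (Nat.card H : ℕ) * b := by
      simp only [mul_smul, hab, Finset.sum_add_distrib, ← Finset.mul_sum, Finset.sum_const,
        Finset.card_univ, nsmul_eq_mul, Nat.card_eq_fintype_card]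
      rw [hS]
    exact h2.trans h3
  apply e.symm.injective
  rw [hab, Equiv.symm_apply_apply]
  calc a * (((Nat.card H : ℕ) : ZMod p)⁻¹ * S) + b
      = ((Nat.card H : ℕ) : ZMod p)⁻¹ * (a * S + (Nat.card H : ℕ) * b) := by
        field_simp
    _ = ((Nat.card H : ℕ) : ZMod p)⁻¹ * S := by rw [← h1]

end solvable

/-- In a transitive permutation group of prime degree `p` whose Sylow `p`-normaliser has even order, the point stabilisers are the only subgroups of index `p`. -/
theorem result {α : Type*} [Fintype α] [DecidableEq α] {p : ℕ} [Fact p.Prime] (hα : Fintype.card α = p) (G : Subgroup (Equiv.Perm α)) [MulAction.IsPretransitive G α] (P : Sylow p G) (heven : Even (Nat.card (Subgroup.normalizer ((P : Subgroup G) : Set G)))) (H : Subgroup G) (hH : H.index = p) : ∃ a : α, H = MulAction.stabilizer G a := by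
  classical
  have hp : p.Prime := Fact.out
  obtain ⟨a₀⟩ : Nonempty α := Fintype.card_pos_iff.mp (by rw [hα]; exact hp.pos)
  have hidx : ∀ a : α, p * Nat.card (MulAction.stabilizer G a) = Nat.card G := by
    intro a
    have h1 := MulAction.index_stabilizer_of_transitive G a
    rw [Nat.card_eq_fintype_card, hα] at h1
    rw [← h1]; exact Subgroup.index_mul_card _
  have hnsq : ¬ p ^ 2 ∣ Nat.card G := by
    intro h3
    have h4 : Nat.card G ∣ p.factorial := by
      have := Subgroup.card_subgroup_dvd_card G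
      rwa [Nat.card_perm, Nat.card_eq_fintype_card (α := α), hα] at this
    have h5 : p ^ 2 ∣ p.factorial := h3.trans h4
    have h6 : p ∣ (p - 1).factorial := by
      have h7 : p.factorial = p * (p - 1).factorial := by
        conv_lhs => rw [show p = (p - 1) + 1 by have := hp.pos; omega, Nat.factorial_succ]
        congr 1
        have := hp.pos
        omega
      rw [h7, pow_two] at h5
      exact Nat.dvd_of_mul_dvd_mul_left hp.pos h5
    have := (hp.dvd_factorial).mp h6
    have := hp.pos
    omega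
  have hHcard : Nat.card H * p = Nat.card G := by rw [← hH]; exact H.card_mul_index
  have hpH : ¬ p ∣ Nat.card H := by
    intro h
    apply hnsq
    rw [← hHcard, pow_two]
    exact Nat.mul_dvd_mul h (dvd_refl p)
  suffices hfix : ∃ a : α, ∀ h ∈ H, h • a = a by
    obtain ⟨a, ha⟩ := hfix
    refine ⟨a, ?_⟩
    apply Subgroup.eq_of_le_of_card_ge
    · intro h hh
      exact ha h hh
    · have h1 := hidx a
      have h2 : Nat.card (MulAction.stabilizer G a) = Nat.card H := by
        apply Nat.eq_of_mul_eq_mul_left hp.pos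
        rw [h1, mul_comm, hHcard]
      exact h2.le
  by_cases hG : Group.IsSolvable G
  · obtain ⟨e, haff⟩ := affine_of_solvable hα G hG
    exact fixed_of_affine e haff H hpH
  · have h3 := Cfsg.Agent.S0676.result hα G hG P heven
    have hαp : (Fintype.card α).Prime := by rw [hα]; exact hp
    have h2 : MulAction.IsMultiplyPretransitive G α 2 :=
      (Cfsg.Agent.S0675.result hαp G).resolve_left hG
    have h2' : ∀ a b c d : α, a ≠ b → c ≠ d → ∃ g : G, g • a = c ∧ g • b = d :=
      fun a b c d hab hcd => MulAction.is_two_pretransitive_iff.mp h2 hab hcd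
    set O : Set α := MulAction.orbit H a₀ with hO
    have hOinv : ∀ h ∈ H, ∀ y, h • y ∈ O ↔ y ∈ O := by
      intro h hh y
      constructor
      · rintro ⟨k, hk⟩
        refine ⟨(⟨h, hh⟩ : H)⁻¹ * k, ?_⟩
        have h5 : k • a₀ = h • y := hk
        show ((⟨h, hh⟩ : H)⁻¹ * k) • a₀ = y
        rw [mul_smul, h5]
        exact inv_smul_smul h y
      · rintro ⟨k, hk⟩
        refine ⟨(⟨h, hh⟩ : H) * k, ?_⟩
        have h5 : k • a₀ = y := hk
        show ((⟨h, hh⟩ : H) * k) • a₀ = h • y
        rw [mul_smul, h5]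
        rfl
    have ha₀O : a₀ ∈ O := MulAction.mem_orbit_self a₀
    have hkle : O.ncard ≤ p := by
      have := Set.ncard_le_card O
      rwa [Nat.card_eq_fintype_card, hα] at this
    have hkp : O.ncard < p := by
      rcases Nat.lt_or_ge O.ncard p with h | h
      · exact h
      · exfalso
        apply hpH
        have h5 := MulAction.index_stabilizer H a₀
        have h6 := Subgroup.index_dvd_card (MulAction.stabilizer H a₀)
        rw [h5] at h6
        have h7 : O.ncard = p := le_antisymm hkle h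
        rw [← h7]
        exact h6
    have hk1 : 1 ≤ O.ncard := (Set.ncard_pos (Set.toFinite O)).mpr ⟨a₀, ha₀O⟩
    by_cases hk : O.ncard = 1
    · refine ⟨a₀, fun h hh => ?_⟩
      obtain ⟨z, hz⟩ := Set.ncard_eq_one.mp hk
      have h1 : a₀ = z := by
        have := ha₀O
        rw [hz] at this
        exact this
      have h2 : h • a₀ ∈ O := (hOinv h hh a₀).mpr ha₀O
      rw [hz] at h2
      rw [h1] at h2 ⊢
      exact h2
    · have hlarge := orbit_large H h2' (three_explicit h3) (by rw [hH, hα]) O hOinv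
        (by omega) (by rw [hα]; exact hkp)
      rw [hα] at hlarge
      have hkeq : O.ncard = p - 1 := by omega
      have hcompl : Oᶜ.ncard = 1 := by
        rw [Set.ncard_compl, Nat.card_eq_fintype_card, hα, hkeq]
        have := hp.two_le
        omega
      obtain ⟨a, ha⟩ := Set.ncard_eq_one.mp hcompl
      refine ⟨a, fun h hh => ?_⟩
      have h1 : a ∈ Oᶜ := by rw [ha]; rfl
      have h2 : h • a ∈ Oᶜ := by
        rw [Set.mem_compl_iff, hOinv h hh]
        exact h1
      rw [ha] at h2
      exact h2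

end Cfsg.Agent.S0677
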