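import Cfsg.Statements.S0678
import Mathlib
import Cfsg.Agent.S0675
import Cfsg.Agent.S0676
import Cfsg.Agent.Lib.Helper12.Cent
import Cfsg.Agent.Lib.Helper12.MultTrans

set_option autoImplicit false
open Cfsg

namespace Cfsg.Agent.S0678

open Equiv MulAction

section
variable {α : Type*} [Fintype α] [DecidableEq α]

theorem supp_ge_four (G : Subgroup (Perm α)) (hprim : IsPreprimitive G α)
    (hA : ¬ alternatingGroup α ≤ G) {g : Perm α} (hg : g ∈ G) (h1 : g ≠ 1) :
    4 ≤ g.support.card := by
  by_contra hlt
  have h2 := Perm.two_le_card_support_of_ne_one h1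
  have hcases : g.support.card = 2 ∨ g.support.card = 3 := by omega
  apply hA
  rcases hcases with h | h
  · have hswap := Perm.card_support_eq_two.mp h
    have htop := Equiv.Perm.subgroup_eq_top_of_isPreprimitive_of_isSwap_mem hprim g hswap hg
    rw [htop]; exact le_top
  · have h3c := card_support_eq_three_iff.mp h
    exact Equiv.Perm.alternatingGroup_le_of_isPreprimitive_of_isThreeCycle_mem hprim h3c hg

theorem supp_le (hα : Fintype.card α = 7) (g : Perm α) (T : Finset α)
    (hfix : ∀ t ∈ T, g t = t) : g.support.card + T.card ≤ 7 := by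
  have hdisj : Disjoint g.support T := by
    rw [Finset.disjoint_left]
    intro a ha hat
    exact (Perm.mem_support.mp ha) (hfix a hat)
  have h := Finset.card_union_of_disjoint hdisj
  have hle := Finset.card_le_univ (g.support ∪ T)
  omega

theorem fix_four (hα : Fintype.card α = 7) (G : Subgroup (Perm α)) (hprim : IsPreprimitive G α)
    (hA : ¬ alternatingGroup α ≤ G) {g : Perm α} (hg : g ∈ G) (T : Finset α) (hT : 4 ≤ T.card)
    (hfix : ∀ t ∈ T, g t = t) : g = 1 := by
  by_contra h1
  have h4 := supp_ge_four G hprim hA hg h1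
  have := supp_le hα g T hfix
  omega

theorem card_dvd (hα : Fintype.card α = 7) (G : Subgroup (Perm α)) : Nat.card G ∣ 5040 := by
  have h := Subgroup.card_subgroup_dvd_card G
  rw [Nat.card_eq_fintype_card (α := Perm α), Fintype.card_perm, hα] at h
  exact h

omit [DecidableEq α] in
theorem seven_dvd (hα : Fintype.card α = 7) (G : Subgroup (Perm α)) [IsPretransitive G α] :
    7 ∣ Nat.card G := by
  obtain ⟨a⟩ : Nonempty α := Fintype.card_pos_iff.mp (by omega)
  have h := index_stabilizer_of_transitive (G := G) (x := a)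
  rw [Nat.card_eq_fintype_card, hα] at h
  rw [← h]
  exact Subgroup.index_dvd_card _

theorem fact7 {n : ℕ} (h7 : 7 ∣ n) (h : n ∣ 5040) : n.factorization 7 = 1 := by
  have hn : n ≠ 0 := by rintro rfl; simp at h
  have hp : Nat.Prime 7 := by norm_num
  have h1 : 1 ≤ n.factorization 7 := by
    rw [← hp.pow_dvd_iff_le_factorization hn]; simpa using h7
  have h2 : ¬ 2 ≤ n.factorization 7 := by
    rw [← hp.pow_dvd_iff_le_factorization hn]
    intro h49
    have : 7 ^ 2 ∣ 5040 := h49.trans h
    norm_num at this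
  omega

end

section
variable {α : Type*} [Fintype α] [DecidableEq α]

/-- A subgroup of order 7 acts transitively on 7 points. -/
theorem trans_of_card (hα : Fintype.card α = 7) (G : Subgroup (Perm α)) (Q : Subgroup G)
    (hQ : Nat.card Q = 7) : IsPretransitive Q α := by
  have : Fact (Nat.Prime 7) := ⟨by norm_num⟩
  have : Finite Q := Nat.finite_of_card_ne_zero (by omega)
  obtain ⟨q, hq⟩ := exists_prime_orderOf_dvd_card' (G := Q) 7 (by rw [hQ])
  set t : Perm α := ((q : G) : Perm α) with ht
  have hto : orderOf t = 7 := by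
    rw [ht, Subgroup.orderOf_coe, Subgroup.orderOf_coe, hq]
  obtain ⟨e, he⟩ := S0676.exists_coord_of (p := 7) hα t hto
  refine ⟨fun x y => ?_⟩
  obtain ⟨i, rfl⟩ := e.surjective x
  obtain ⟨j, rfl⟩ := e.surjective y
  refine ⟨q ^ (j - i).val, ?_⟩
  show (((q ^ (j - i).val : Q) : G) : Perm α) (e i) = e j
  rw [Subgroup.coe_pow, Subgroup.coe_pow, ← ht, S0676.pow_coord e t he]
  congr 1
  rw [ZMod.natCast_zmod_val]; ring

theorem cent_eq (hα : Fintype.card α = 7) (G : Subgroup (Perm α)) (Q : Subgroup G)
    (hQ : Nat.card Q = 7) : Subgroup.centralizer (Q : Set G) = Q := by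
  have : Fact (Nat.Prime 7) := ⟨by norm_num⟩
  have := trans_of_card hα G Q hQ
  have : IsCyclic Q := isCyclic_of_prime_card hQ
  have hcomm : ∀ a b : Q, a * b = b * a := fun a b => (IsCyclic.isMulCommutative (α := Q)).is_comm.comm a b
  have hle : Q.map G.subtype ≤
      Subgroup.centralizer ((Q.map G.subtype : Subgroup (Perm α)) : Set (Perm α)) := by
    rintro _ ⟨a, ha, rfl⟩ _ ⟨b, hb, rfl⟩
    have := hcomm ⟨b, hb⟩ ⟨a, ha⟩
    have h2 : b * a = a * b := congrArg Subtype.val this
    exact congrArg G.subtype h2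
  have hc := Cfsg.Agent.Lib.Helper12.Cent.cent_eq G Q Q hle
  apply le_antisymm
  · intro c hc'
    have h1 : (c : Perm α) ∈
        Subgroup.centralizer ((Q.map G.subtype : Subgroup (Perm α)) : Set (Perm α)) := by
      rintro _ ⟨b, hb, rfl⟩
      have := hc' b hb
      exact congrArg G.subtype this
    rw [hc] at h1
    obtain ⟨c', hc'Q, hcc⟩ := h1
    have : c' = c := G.subtype_injective hcc
    rwa [← this]
  · intro a ha b hb
    have := hcomm ⟨b, hb⟩ ⟨a, ha⟩
    exact congrArg Subtype.val this

theorem card_normalizer (hα : Fintype.card α = 7) (G : Subgroup (Perm α)) (Q : Subgroup G)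
    (hQ : Nat.card Q = 7) :
    ∃ d, d ∣ 6 ∧ Nat.card (Subgroup.normalizer (Q : Set G)) = 7 * d := by
  have : Fact (Nat.Prime 7) := ⟨by norm_num⟩
  have : IsCyclic Q := isCyclic_of_prime_card hQ
  have hker := Subgroup.normalizerMonoidHom_ker (H := Q)
  rw [cent_eq hα G Q hQ] at hker
  refine ⟨Nat.card Q.normalizerMonoidHom.range, ?_, ?_⟩
  · have h1 := Subgroup.card_subgroup_dvd_card Q.normalizerMonoidHom.range
    rw [IsCyclic.card_mulAut, hQ, Nat.totient_prime (by norm_num)] at h1
    exact h1
  · rw [← Subgroup.index_ker, ← Subgroup.card_mul_index Q.normalizerMonoidHom.ker, hker]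
    congr 1
    rw [← hQ]
    exact Nat.card_congr (Subgroup.subgroupOfEquivOfLe Subgroup.le_normalizer).toEquiv

end

section
variable {α : Type*} [Fintype α] [DecidableEq α]

omit [Fintype α] [DecidableEq α] in
theorem sq210 : Squarefree 210 := by
  rw [Nat.squarefree_iff_prime_squarefree]
  intro p hp hpp
  have h1 : p ≤ 14 := by
    by_contra hlt
    push Not at hlt
    have : 210 < p * p := by nlinarith
    exact absurd (Nat.le_of_dvd (by norm_num) hpp) (by omega)
  interval_cases p <;> first | (norm_num at hp; done) | (norm_num at hpp)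

omit [DecidableEq α] in
theorem dvd_of_two (hα : Fintype.card α = 7) (G : Subgroup (Perm α))
    (h2 : IsMultiplyPretransitive G α 2) : 42 ∣ Nat.card G := by
  have hemb : Nat.card (Fin 2 ↪ α) = 42 := by
    rw [Nat.card_eq_fintype_card, Fintype.card_embedding_eq, hα, Fintype.card_fin]; rfl
  obtain ⟨x⟩ : Nonempty (Fin 2 ↪ α) := (Nat.card_pos_iff.mp (by omega)).1
  have h := @index_stabilizer_of_transitive G (Fin 2 ↪ α) _ _ x h2
  rw [hemb] at h
  rw [← h]; exact Subgroup.index_dvd_card _

/-- The case of a Sylow normaliser of even order. -/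
theorem even_false (hα : Fintype.card α = 7) (G : Subgroup (Perm α)) [IsPretransitive G α]
    (hG : ¬ Group.IsSolvable G) (hA : ¬ alternatingGroup α ≤ G)
    (Q : Subgroup G) (hQ : Nat.card Q = 7)
    (heven : Even (Nat.card (Subgroup.normalizer (Q : Set G)))) : False := by
  have hp7 : Fact (Nat.Prime 7) := ⟨by norm_num⟩
  have hdvd := card_dvd hα G
  have h7 := seven_dvd hα G
  have hfac := fact7 h7 hdvd
  let P : Sylow 7 G := Sylow.ofCard Q (by rw [hQ, hfac, pow_one])
  have hPQ : (P : Subgroup G) = Q := rfl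
  have h3 : IsMultiplyPretransitive G α 3 :=
    S0676.result (p := 7) hα G hG P (by rw [hPQ]; exact heven)
  have h2 : IsMultiplyPretransitive G α 2 :=
    isMultiplyPretransitive_of_le (n := 3) (by norm_num)
      (by rw [Nat.card_eq_fintype_card, hα]; norm_num)
  have hprim : IsPreprimitive G α := isPreprimitive_of_is_two_pretransitive h2
  have hemb : Nat.card (Fin 3 ↪ α) = 210 := by
    rw [Nat.card_eq_fintype_card, Fintype.card_embedding_eq, hα, Fintype.card_fin]; rfl
  obtain ⟨x⟩ : Nonempty (Fin 3 ↪ α) := (Nat.card_pos_iff.mp (by omega)).1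
  have hidx := @index_stabilizer_of_transitive G (Fin 3 ↪ α) _ _ x h3
  rw [hemb] at hidx
  set H := stabilizer G x with hH
  have hcard := Subgroup.card_mul_index H
  rw [hidx] at hcard
  have hfixx : ∀ h ∈ H, ∀ i, (h : Perm α) (x i) = x i := by
    intro h hh i
    have h1 := mem_stabilizer_iff.mp hh
    exact congrArg (fun f : Fin 3 ↪ α => f i) h1
  let T : Finset α := Finset.univ.image x
  have hT : T.card = 3 := by
    rw [Finset.card_image_of_injective _ x.injective]; simp
  obtain ⟨y₀, hy₀⟩ : ∃ y, y ∉ T := Cfsg.Agent.Lib.Helper12.MultTrans.exists_avoid T (by omega)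
  have hsemi : ∀ h ∈ H, (h : Perm α) y₀ = y₀ → h = 1 := by
    intro h hh hy
    have : (h : Perm α) = 1 := by
      apply fix_four hα G hprim hA h.2 (insert y₀ T)
      · rw [Finset.card_insert_of_notMem hy₀]; omega
      · intro t ht
        rcases Finset.mem_insert.mp ht with rfl | ht
        · exact hy
        · obtain ⟨i, -, rfl⟩ := Finset.mem_image.mp ht
          exact hfixx h hh i
    exact Subtype.ext this
  have he4 : Nat.card H ≤ 4 := by
    classical
    let _ : Fintype H := Fintype.ofFinite H
    rw [Nat.card_eq_fintype_card, ← Finset.card_univ]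
    have hc : (Tᶜ).card = 4 := by rw [Finset.card_compl, hα, hT]
    rw [← hc]
    apply Finset.card_le_card_of_injOn (fun h : H => ((h : G) : Perm α) y₀)
    · intro h _
      rw [Finset.mem_coe, Finset.mem_compl]
      intro hmem
      obtain ⟨i, -, hi⟩ := Finset.mem_image.mp hmem
      have h5 := hfixx h h.2 i
      rw [hi] at h5
      have h6 := ((h : G) : Perm α).injective h5
      rw [h6] at hmem
      exact hy₀ hmem
    · intro h _ h' _ hhh
      have h1 : ((h'⁻¹ * h : H) : G) = 1 := by
        apply hsemi _ (h'⁻¹ * h).2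
        have h8 : ((h : G) : Perm α) y₀ = ((h' : G) : Perm α) y₀ := hhh
        simp only [Subgroup.coe_mul, Subgroup.coe_inv, Perm.mul_apply, h8]
        rw [Perm.inv_def, Equiv.symm_apply_apply]
      have h9 : h'⁻¹ * h = 1 := Subtype.ext h1
      exact (inv_mul_eq_one.mp h9).symm
  have he3 : ¬ 3 ∣ Nat.card H := by
    intro h3d
    have : Fact (Nat.Prime 3) := ⟨by norm_num⟩
    obtain ⟨h, hh⟩ := exists_prime_orderOf_dvd_card' (G := H) 3 h3d
    set g : Perm α := ((h : G) : Perm α) with hg
    have hgo : orderOf g = 3 := by rw [hg, Subgroup.orderOf_coe, Subgroup.orderOf_coe, hh]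
    have hg1 : g ≠ 1 := by
      intro h1; rw [h1, orderOf_one] at hgo; omega
    have h4 : 4 ≤ g.support.card := supp_ge_four G hprim hA (h : G).2 hg1
    have h4' : g.support.card + T.card ≤ 7 := supp_le hα g T (by
      intro t ht
      obtain ⟨i, -, rfl⟩ := Finset.mem_image.mp ht
      exact hfixx h h.2 i)
    obtain ⟨n, hn⟩ := Perm.cycleType_prime_order (σ := g) (by rw [hgo]; norm_num)
    have hsum := Perm.sum_cycleType g
    rw [hn, hgo, Multiset.sum_replicate, smul_eq_mul] at hsum
    omega
  have he24 : Nat.card H ∣ 24 := by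
    have h5 : Nat.card H * 210 ∣ 24 * 210 := by rw [hcard]; exact hdvd
    exact Nat.dvd_of_mul_dvd_mul_right (by norm_num) h5
  have hepos : 0 < Nat.card H := Nat.card_pos
  obtain ⟨d, hd6, hNd⟩ := card_normalizer hα G Q hQ
  have hsyl : Nat.card (Sylow 7 G) % 7 = 1 := card_sylow_modEq_one 7 G
  have hidxN : Nat.card (Sylow 7 G) = (Subgroup.normalizer (Q : Set G)).index :=
    P.card_eq_index_normalizer
  have hNcard := Subgroup.card_mul_index (Subgroup.normalizer (Q : Set G))
  rw [← hidxN, hNd, ← hcard] at hNcard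
  rw [hNd] at heven
  have hd2 : d % 2 = 0 := by
    have := Nat.even_iff.mp heven
    omega
  have hd6' : d ≤ 6 := Nat.le_of_dvd (by norm_num) hd6
  obtain ⟨e, he⟩ : ∃ e, e = Nat.card H := ⟨_, rfl⟩
  obtain ⟨n, hn⟩ : ∃ n, n = Nat.card (Sylow 7 G) := ⟨_, rfl⟩
  rw [← he] at he4 he3 he24 hepos hNcard hcard
  rw [← hn] at hNcard hsyl
  have hcases : e = 1 ∨ e = 2 ∨ e = 4 := by
    interval_cases e <;> omega
  rcases hcases with rfl | rfl | rfl
  · have hsq : Squarefree (Nat.card G) := by
      rw [← hcard]
      exact sq210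
    have := IsZGroup.of_squarefree hsq
    exact hG inferInstance
  · interval_cases d <;> omega
  · interval_cases d <;> omega

end

section
variable {α : Type*} [Fintype α] [DecidableEq α]

/-- A non-trivial normal subgroup of a 2-transitive group of degree 7 has order divisible by 7. -/
theorem seven_dvd_normal (hα : Fintype.card α = 7) (G : Subgroup (Perm α))
    (h2 : IsMultiplyPretransitive G α 2) (K : Subgroup G) [K.Normal] (hK : K ≠ ⊥) :
    IsPretransitive K α ∧ 7 ∣ Nat.card K := by
  have hj := Cfsg.Agent.Lib.Helper12.MultTrans.jordan_normal G (k := 2) (by norm_num)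
    (by rw [hα]; norm_num) h2 K hK
  rcases hj with h | ⟨h, -⟩
  · have hKt : IsPretransitive K α := is_one_pretransitive_iff.mp h
    refine ⟨hKt, ?_⟩
    obtain ⟨a⟩ : Nonempty α := Fintype.card_pos_iff.mp (by omega)
    have h := index_stabilizer_of_transitive (G := K) (x := a)
    rw [Nat.card_eq_fintype_card, hα] at h
    rw [← h]
    exact Subgroup.index_dvd_card _
  · omega

/-- The case of a self-normalising Sylow 7-subgroup. -/
theorem one_false (hα : Fintype.card α = 7) (G : Subgroup (Perm α)) [IsPretransitive G α]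
    (hG : ¬ Group.IsSolvable G) (h2 : IsMultiplyPretransitive G α 2)
    (Q : Subgroup G) (hQ : Nat.card Q = 7)
    (hN : Nat.card (Subgroup.normalizer (Q : Set G)) = 7) : False := by
  have hp7 : Fact (Nat.Prime 7) := ⟨by norm_num⟩
  have hdvd := card_dvd hα G
  have h7 := seven_dvd hα G
  have hfac := fact7 h7 hdvd
  let P : Sylow 7 G := Sylow.ofCard Q (by rw [hQ, hfac, pow_one])
  have hPQ : (P : Subgroup G) = Q := rfl
  have hNQ : Subgroup.normalizer (Q : Set G) = Q := by
    symm
    apply Subgroup.eq_of_le_of_card_ge Subgroup.le_normalizer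
    rw [hN, hQ]
  have hle : Subgroup.normalizer ((P : Subgroup G) : Set G) ≤
      Subgroup.centralizer ((P : Subgroup G) : Set G) := by
    rw [hPQ, hNQ, cent_eq hα G Q hQ]
  have hcomp := MonoidHom.ker_transferSylow_isComplement' P hle
  set K := (MonoidHom.transferSylow P hle).ker with hK
  have hKcard := hcomp.card_mul_card
  have hKbot : K = ⊥ := by
    by_contra hne
    obtain ⟨-, h7K⟩ := seven_dvd_normal hα G h2 K hne
    have h49 : 7 * 7 ∣ Nat.card G := by
      rw [← hKcard]
      exact mul_dvd_mul h7K (by rw [hPQ, hQ])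
    have := h49.trans hdvd
    norm_num at this
  rw [hKbot, Subgroup.card_bot, one_mul, hPQ, hQ] at hKcard
  have : IsCyclic G := isCyclic_of_prime_card hKcard.symm
  exact hG (Group.isSolvable_of_comm
    (fun a b => (IsCyclic.isMulCommutative (α := G)).is_comm.comm a b))

omit [Fintype α] [DecidableEq α] in
theorem arith {n c : ℕ} (h1 : 21 * n = c) (h2 : n % 7 = 1) (h3 : 42 ∣ c) (h4 : c ∣ 5040) :
    c = 168 ∨ c = 2520 := by
  subst h1
  have hn : n ∣ 240 := Nat.dvd_of_mul_dvd_mul_left (by norm_num : 0 < 21) (by simpa using h4)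
  have hn240 : n ≤ 240 := Nat.le_of_dvd (by norm_num) hn
  obtain ⟨k, rfl⟩ : ∃ k, n = 14 * k + 8 := ⟨n / 14, by omega⟩
  have hk : k ≤ 16 := by omega
  interval_cases k <;> omega

/-- The case of a Sylow normaliser of order 21. -/
theorem three_card (hα : Fintype.card α = 7) (G : Subgroup (Perm α)) [IsPretransitive G α]
    (hA : ¬ alternatingGroup α ≤ G) (h2 : IsMultiplyPretransitive G α 2)
    (Q : Subgroup G) (hQ : Nat.card Q = 7)
    (hN : Nat.card (Subgroup.normalizer (Q : Set G)) = 21) : Nat.card G = 168 := by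
  have hp7 : Fact (Nat.Prime 7) := ⟨by norm_num⟩
  have hdvd := card_dvd hα G
  have h7 := seven_dvd hα G
  have hfac := fact7 h7 hdvd
  let P : Sylow 7 G := Sylow.ofCard Q (by rw [hQ, hfac, pow_one])
  have hsyl : Nat.card (Sylow 7 G) % 7 = 1 := card_sylow_modEq_one 7 G
  have hidxN : Nat.card (Sylow 7 G) = (Subgroup.normalizer (Q : Set G)).index :=
    P.card_eq_index_normalizer
  have hNcard := Subgroup.card_mul_index (Subgroup.normalizer (Q : Set G))
  rw [← hidxN, hN] at hNcard
  rcases arith hNcard hsyl (dvd_of_two hα G h2) hdvd with h | h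
  · exact h
  · exfalso
    apply hA
    apply Equiv.Perm.alternatingGroup_le_of_index_le_two
    have h5 := Subgroup.card_mul_index G
    rw [Nat.card_eq_fintype_card (α := Perm α), Fintype.card_perm, hα, h] at h5
    have h6 : Nat.factorial 7 = 5040 := rfl
    rw [h6] at h5
    omega

/-- Order of the group and of the normaliser of a subgroup of order 7. -/
theorem main (hα : Fintype.card α = 7) (G : Subgroup (Perm α)) [IsPretransitive G α]
    (hG : ¬ Group.IsSolvable G) (hA : ¬ alternatingGroup α ≤ G)
    (Q : Subgroup G) (hQ : Nat.card Q = 7) :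
    Nat.card G = 168 ∧ Nat.card (Subgroup.normalizer (Q : Set G)) = 21 ∧
      IsMultiplyPretransitive G α 2 := by
  have h2 : IsMultiplyPretransitive G α 2 := by
    rcases S0675.result (by rw [hα]; norm_num) G with h | h
    · exact absurd h hG
    · exact h
  obtain ⟨d, hd6, hNd⟩ := card_normalizer hα G Q hQ
  have hd6' : d ≤ 6 := Nat.le_of_dvd (by norm_num) hd6
  have hdpos : 0 < d := Nat.pos_of_dvd_of_pos hd6 (by norm_num)
  rcases Nat.even_or_odd d with he | ho
  · exfalso
    apply even_false hα G hG hA Q hQ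
    rw [hNd]
    exact he.mul_left 7
  · have hcases : d = 1 ∨ d = 3 := by
      have := Nat.odd_iff.mp ho
      interval_cases d <;> omega
    rcases hcases with rfl | rfl
    · exact (one_false hα G hG h2 Q hQ (by rw [hNd])).elim
    · have hN : Nat.card (Subgroup.normalizer (Q : Set G)) = 21 := by rw [hNd]
      exact ⟨three_card hα G hA h2 Q hQ hN, hN, h2⟩

end

section
variable {α : Type*} [Fintype α] [DecidableEq α]

omit [Fintype α] [DecidableEq α] in
theorem map_trans (G : Subgroup (Perm α)) (H : Subgroup G) [IsPretransitive H α] :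
    IsPretransitive (H.map G.subtype) α := by
  refine ⟨fun x y => ?_⟩
  obtain ⟨h, hh⟩ := exists_smul_eq H x y
  exact ⟨⟨((h : G) : Perm α), ⟨(h : G), h.2, rfl⟩⟩, hh⟩

end

/-- A non-solvable transitive permutation group on 7 points that does not contain the alternating group is a simple group of order 168. -/
theorem result {α : Type*} [Fintype α] [DecidableEq α] (hα : Fintype.card α = 7) (G : Subgroup (Equiv.Perm α)) [MulAction.IsPretransitive G α] (hG : ¬ Group.IsSolvable G) (hA : ¬ alternatingGroup α ≤ G) : Nat.card G = 168 ∧ IsSimpleGroup G := by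
  have hp7 : Fact (Nat.Prime 7) := ⟨by norm_num⟩
  have hp3 : Fact (Nat.Prime 3) := ⟨by norm_num⟩
  have hdvd := card_dvd hα G
  have h7 := seven_dvd hα G
  obtain ⟨Q, hQ⟩ := Sylow.exists_subgroup_card_pow_prime 7 (n := 1) (G := G) (by simpa using h7)
  rw [pow_one] at hQ
  obtain ⟨hcard, -, h2⟩ := main hα G hG hA Q hQ
  refine ⟨hcard, ?_⟩
  have hnt : Nontrivial G := by
    apply Finite.one_lt_card_iff_nontrivial.mp
    rw [hcard]; norm_num
  refine ⟨fun H hH => ?_⟩
  by_cases hbot : H = ⊥
  · exact Or.inl hbot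
  right
  obtain ⟨hHt, h7H⟩ := seven_dvd_normal hα G h2 H hbot
  have hHdvd : Nat.card H ∣ 5040 := (Subgroup.card_subgroup_dvd_card H).trans hdvd
  have hfacH := fact7 h7H hHdvd
  obtain ⟨PH⟩ : Nonempty (Sylow 7 H) := inferInstance
  have hPH : Nat.card PH = 7 := by rw [Sylow.card_eq_multiplicity, hfacH, pow_one]
  set Q' : Subgroup G := (PH : Subgroup H).map H.subtype with hQ'
  have hQ'card : Nat.card Q' = 7 := by
    rw [hQ', Subgroup.card_map_of_injective H.subtype_injective]; exact hPH
  obtain ⟨-, hN, -⟩ := main hα G hG hA Q' hQ'card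
  have hfr : Subgroup.normalizer (Q' : Set G) ⊔ H = ⊤ := Sylow.normalizer_sup_eq_top PH
  have hQ'H : Q' ≤ H := by
    rintro _ ⟨a, -, rfl⟩
    exact a.2
  have hidx : H.index ∣ 3 := by
    have h1 := Subgroup.relIndex_sup_right (Subgroup.normalizer (Q' : Set G)) H
    rw [hfr, Subgroup.relIndex_top_right] at h1
    rw [h1]
    refine (Subgroup.relIndex_dvd_of_le_left (Subgroup.normalizer (Q' : Set G)) hQ'H).trans ?_
    have h4 := Subgroup.card_mul_index (Q'.subgroupOf (Subgroup.normalizer (Q' : Set G)))
    rw [Nat.card_congr (Subgroup.subgroupOfEquivOfLe Subgroup.le_normalizer).toEquiv, hQ'card, hN]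
      at h4
    have h5 : Q'.relIndex (Subgroup.normalizer (Q' : Set G)) = 3 := by
      unfold Subgroup.relIndex
      omega
    rw [h5]
  have hidx' : H.index = 1 ∨ H.index = 3 := by
    have := Nat.le_of_dvd (by norm_num) hidx
    interval_cases h : H.index <;> omega
  rcases hidx' with h1 | h3
  · exact Subgroup.index_eq_one.mp h1
  · exfalso
    apply hG
    have hHcard := Subgroup.card_mul_index H
    rw [h3, hcard] at hHcard
    have hHsolv : Group.IsSolvable H := by
      have hmt := map_trans G H
      have hmcard : Nat.card (H.map G.subtype) = Nat.card H :=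
        Subgroup.card_map_of_injective G.subtype_injective
      rcases S0675.result (by rw [hα]; norm_num) (H.map G.subtype) with hs | ht
      · exact Group.isSolvable_of_isSolvable_injective
          (f := (Subgroup.equivMapOfInjective H G.subtype G.subtype_injective).toMonoidHom)
          (Subgroup.equivMapOfInjective H G.subtype G.subtype_injective).injective
      · exfalso
        have h42 := dvd_of_two hα (H.map G.subtype) ht
        rw [hmcard] at h42
        omega
    have hqc : Nat.card (G ⧸ H) = 3 := h3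
    have hcyc : IsCyclic (G ⧸ H) := isCyclic_of_prime_card hqc
    have hqsolv : Group.IsSolvable (G ⧸ H) := Group.isSolvable_of_comm
      (fun a b => (IsCyclic.isMulCommutative (α := G ⧸ H)).is_comm.comm a b)
    exact Group.isSolvable_of_ker_le_range H.subtype (QuotientGroup.mk' H) (by simp)

end Cfsg.Agent.S0678
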