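import Cfsg.Statements.S0679
import Cfsg.Agent.Lib.Helper92.D11Asm
import Cfsg.Agent.Lib.Helper47.D11CARDNORM
import Cfsg.Agent.Lib.Helper47.D11NORMONE
import Cfsg.Agent.Lib.Helper67.D11ODDNORM
import Cfsg.Agent.Lib.Helper52.D11ORD
import Cfsg.Agent.Lib.Helper52.D11NORM5
import Cfsg.Agent.Lib.Helper47.D11CENT5
import Cfsg.Agent.Lib.Helper65.D11ODD5
import Cfsg.Agent.Lib.Helper33.D11SHARP
import Cfsg.Agent.Lib.Helper71.D11FIN4
import Cfsg.Agent.Lib.Helper71.D11EVENSUB
import Cfsg.Agent.Lib.Helper71.D11NO1320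
import Cfsg.Agent.Lib.Helper67.D11ODDINV
import Cfsg.Agent.Lib.Helper65.D11NOSIX

set_option autoImplicit false
open Cfsg

namespace Cfsg.Agent.S0679

/-- A non-solvable transitive permutation group on 11 points that does not contain the alternating group is either sharply 4-transitive (of order 7920) or isomorphic to the projective special linear group of degree 2 over the field with 11 elements. -/
theorem result {α : Type*} [Fintype α] [DecidableEq α] (hα : Fintype.card α = 11) (G : Subgroup (Equiv.Perm α)) [MulAction.IsPretransitive G α] (hG : ¬ Group.IsSolvable G) (hA : ¬ alternatingGroup α ≤ G) : (MulAction.IsMultiplyPretransitive G α 4 ∧ ∀ x : Fin 4 ↪ α, MulAction.stabilizer G x = ⊥) ∨ Nonempty (G ≃* Matrix.ProjectiveSpecialLinearGroup (Fin 2) (ZMod 11)) := by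
  exact Cfsg.Agent.Lib.Helper92.D11Asm.final
    Cfsg.Agent.Lib.Helper47.D11CARDNORM.main
    Cfsg.Agent.Lib.Helper47.D11NORMONE.main
    Cfsg.Agent.Lib.Helper67.D11ODDNORM.main
    Cfsg.Agent.Lib.Helper52.D11ORD.main
    Cfsg.Agent.Lib.Helper52.D11NORM5.main
    Cfsg.Agent.Lib.Helper47.D11CENT5.main
    Cfsg.Agent.Lib.Helper65.D11ODD5.main
    Cfsg.Agent.Lib.Helper33.D11SHARP.main
    Cfsg.Agent.Lib.Helper71.D11FIN4.main
    Cfsg.Agent.Lib.Helper71.D11EVENSUB.main
    (Cfsg.Agent.Lib.Helper71.D11NO1320.main Cfsg.Agent.Lib.Helper47.D11CARDNORM.main)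
    Cfsg.Agent.Lib.Helper67.D11ODDINV.main
    Cfsg.Agent.Lib.Helper65.D11NOSIX.main
    hα G hG hA

end Cfsg.Agent.S0679
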