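import Cfsg.Statements.S0681
import Mathlib

set_option autoImplicit false
open Cfsg

namespace Cfsg.Agent.S0681

section
variable {F : Type*} [Cfsg.NearField F]

theorem nf_zero_mul (a : F) : (0 : F) * a = 0 := by
  have h := Cfsg.NearField.right_distrib (0 : F) 0 a
  rw [add_zero] at h
  exact (add_eq_left.mp h.symm)

theorem nf_neg_mul (a b : F) : (-a) * b = -(a * b) := by
  have h := Cfsg.NearField.right_distrib (-a) a b
  rw [neg_add_cancel, nf_zero_mul] at h
  exact eq_neg_of_add_eq_zero_left h.symm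

theorem nf_mul_ne_zero {a b : F} (ha : a ≠ 0) (hb : b ≠ 0) : a * b ≠ 0 := by
  intro h
  obtain ⟨a', _, h2⟩ := Cfsg.NearField.exists_inv a ha
  apply hb
  calc b = a' * a * b := by rw [h2, one_mul]
    _ = a' * (a * b) := mul_assoc _ _ _
    _ = 0 := by rw [h, Cfsg.NearField.mul_zero]

theorem nf_inv_ne_zero {a b : F} (h : a * b = 1) : b ≠ 0 := by
  intro hb
  rw [hb, Cfsg.NearField.mul_zero] at h
  exact Cfsg.NearField.zero_ne_one h

/-- The affine group of a near-field. -/
def affGroup (F : Type*) [Cfsg.NearField F] : Subgroup (Equiv.Perm F) where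
  carrier := {σ | ∃ a b : F, a ≠ 0 ∧ ∀ x : F, σ x = x * a + b}
  one_mem' := ⟨1, 0, fun h => Cfsg.NearField.zero_ne_one h.symm, fun x => by simp⟩
  mul_mem' := by
    rintro σ τ ⟨a, b, ha, hσ⟩ ⟨c, d, hc, hτ⟩
    refine ⟨c * a, d * a + b, nf_mul_ne_zero hc ha, fun x => ?_⟩
    rw [Equiv.Perm.coe_mul, Function.comp_apply, hτ, hσ, Cfsg.NearField.right_distrib, mul_assoc,
      add_assoc]
  inv_mem' := by
    rintro σ ⟨a, b, ha, hσ⟩
    obtain ⟨a', h1, h2⟩ := Cfsg.NearField.exists_inv a ha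
    refine ⟨a', (-b) * a', nf_inv_ne_zero h1, fun x => ?_⟩
    apply σ.injective
    rw [Equiv.Perm.inv_def, Equiv.apply_symm_apply, hσ, Cfsg.NearField.right_distrib, mul_assoc, mul_assoc, h2,
      mul_one, mul_one, add_assoc, neg_add_cancel, add_zero]

theorem mem_affGroup (σ : Equiv.Perm F) :
    σ ∈ affGroup F ↔ ∃ a b : F, a ≠ 0 ∧ ∀ x : F, σ x = x * a + b := Iff.rfl

end

/-- The affine maps `x ↦ x * a + b`, `a ≠ 0`, of a near-field form a sharply doubly transitive permutation group. -/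
theorem result {F : Type*} [Cfsg.NearField F] : ∃ H : Subgroup (Equiv.Perm F), (∀ σ : Equiv.Perm F, σ ∈ H ↔ ∃ a b : F, a ≠ 0 ∧ ∀ x : F, σ x = x * a + b) ∧ MulAction.IsMultiplyPretransitive H F 2 ∧ ∀ x : Fin 2 ↪ F, MulAction.stabilizer H x = ⊥ := by
  refine ⟨affGroup F, mem_affGroup, ?_, ?_⟩
  · rw [MulAction.is_two_pretransitive_iff]
    intro x₁ x₂ y₁ y₂ hx hy
    have hx' : x₁ - x₂ ≠ 0 := sub_ne_zero.mpr hx
    have hy' : y₁ - y₂ ≠ 0 := sub_ne_zero.mpr hy
    obtain ⟨u, hu1, hu2⟩ := Cfsg.NearField.exists_inv (x₁ - x₂) hx'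
    have hune : u ≠ 0 := nf_inv_ne_zero hu1
    set a := u * (y₁ - y₂) with ha
    have hane : a ≠ 0 := nf_mul_ne_zero hune hy'
    have key : x₁ * a - x₂ * a = y₁ - y₂ := by
      have : (x₁ - x₂) * a = y₁ - y₂ := by
        rw [ha, ← mul_assoc, hu1, one_mul]
      rw [← this, sub_eq_add_neg, sub_eq_add_neg, Cfsg.NearField.right_distrib, nf_neg_mul]
    set b := -(x₁ * a) + y₁ with hb
    obtain ⟨a', h1, h2⟩ := Cfsg.NearField.exists_inv a hane
    let σ : Equiv.Perm F :=
      { toFun := fun x => x * a + b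
        invFun := fun x => (x - b) * a'
        left_inv := fun x => by
          simp only [add_sub_cancel_right]
          rw [mul_assoc, h1, mul_one]
        right_inv := fun x => by
          simp only
          rw [mul_assoc, h2, mul_one, sub_add_cancel] }
    have hσ : σ ∈ affGroup F := ⟨a, b, hane, fun x => rfl⟩
    refine ⟨⟨σ, hσ⟩, ?_, ?_⟩
    · change x₁ * a + b = y₁
      rw [hb, ← add_assoc, add_neg_cancel, zero_add]
    · change x₂ * a + b = y₂
      have e : x₂ * a = -(y₁ - y₂) + x₁ * a := by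
        rw [← key]; simp
      rw [e, hb, add_assoc, ← add_assoc (x₁ * a), add_neg_cancel, zero_add]
      simp
  · intro x
    rw [eq_bot_iff]
    intro h hh
    rw [Subgroup.mem_bot]
    rw [MulAction.mem_stabilizer_iff] at hh
    have h0 : (h : Equiv.Perm F) (x 0) = x 0 := by
      have := congrArg (fun e : Fin 2 ↪ F => e 0) hh
      exact this
    have h1 : (h : Equiv.Perm F) (x 1) = x 1 := by
      have := congrArg (fun e : Fin 2 ↪ F => e 1) hh
      exact this
    obtain ⟨a, b, ha, hab⟩ := h.2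
    rw [hab] at h0 h1
    have hne : x 0 - x 1 ≠ 0 := sub_ne_zero.mpr (x.injective.ne (by decide))
    have e1 : (x 0 - x 1) * a = x 0 - x 1 := by
      rw [sub_eq_add_neg, Cfsg.NearField.right_distrib, nf_neg_mul]
      have e2 : x 0 * a = x 0 - b := eq_sub_of_add_eq h0
      have e3 : x 1 * a = x 1 - b := eq_sub_of_add_eq h1
      rw [e2, e3]
      simp [sub_eq_add_neg, add_assoc]
    obtain ⟨u, hu1, hu2⟩ := Cfsg.NearField.exists_inv (x 0 - x 1) hne
    have ha1 : a = 1 := by
      calc a = u * (x 0 - x 1) * a := by rw [hu2, one_mul]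
        _ = u * ((x 0 - x 1) * a) := mul_assoc _ _ _
        _ = 1 := by rw [e1, hu2]
    have hb0 : b = 0 := by
      rw [ha1, mul_one] at h0
      exact add_eq_left.mp h0
    apply Subtype.ext
    ext y
    rw [hab, ha1, hb0]
    simp

end Cfsg.Agent.S0681
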