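import Cfsg.Statements.S0682
import Mathlib

set_option autoImplicit false
open Cfsg

namespace Cfsg.Agent.S0682

section
variable {F : Type*} [Cfsg.NearField F]

theorem nf_zero_mul (a : F) : (0 : F) * a = 0 := by
  have h := Cfsg.NearField.right_distrib (0 : F) 0 a
  rw [add_zero] at h
  exact (add_eq_left.mp h.symm)

theorem nf_nsmul_mul (n : ℕ) (x c : F) : (n • x) * c = n • (x * c) := by
  induction n with
  | zero => simp [nf_zero_mul]
  | succ n ih => rw [succ_nsmul, succ_nsmul, Cfsg.NearField.right_distrib, ih]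

theorem nf_exists_mul {x : F} (hx : x ≠ 0) (y : F) : ∃ c : F, x * c = y := by
  obtain ⟨u, h1, _⟩ := Cfsg.NearField.exists_inv x hx
  exact ⟨u * y, by rw [← mul_assoc, h1, one_mul]⟩

end

/-- A finite near-field has prime-power order; its additive group is commutative of prime exponent. -/
theorem result {F : Type*} [Cfsg.NearField F] [Finite F] : ∃ p j : ℕ, p.Prime ∧ 1 ≤ j ∧ Nat.card F = p ^ j ∧ (∀ x y : F, x + y = y + x) ∧ ∀ x : F, p • x = 0 := by
  classical
  have hnt : Nontrivial F := ⟨⟨0, 1, Cfsg.NearField.zero_ne_one⟩⟩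
  have hcard : 1 < Nat.card F := Finite.one_lt_card
  obtain ⟨p, hp, hpd⟩ := Nat.exists_prime_and_dvd (ne_of_gt hcard)
  haveI : Fact p.Prime := ⟨hp⟩
  obtain ⟨x₀, hx₀⟩ := exists_prime_addOrderOf_dvd_card' (G := F) p hpd
  have hx₀ne : x₀ ≠ 0 := by
    intro h
    rw [h, addOrderOf_zero] at hx₀
    exact hp.one_lt.ne hx₀
  have hpx₀ : p • x₀ = 0 := by
    rw [← hx₀]; exact addOrderOf_nsmul_eq_zero x₀
  have hexp : ∀ y : F, p • y = 0 := by
    intro y
    obtain ⟨c, rfl⟩ := nf_exists_mul hx₀ne y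
    rw [← nf_nsmul_mul, hpx₀, nf_zero_mul]
  have hpg : IsPGroup p (Multiplicative F) := by
    intro g
    refine ⟨1, ?_⟩
    rw [pow_one]
    have := hexp (Multiplicative.toAdd g)
    exact congrArg Multiplicative.ofAdd this
  obtain ⟨j, hj⟩ := IsPGroup.iff_card.mp hpg
  have hj' : Nat.card F = p ^ j := by
    rw [← hj]; rfl
  have hj1 : 1 ≤ j := by
    rcases Nat.eq_zero_or_pos j with h | h
    · rw [h, pow_zero] at hj'
      omega
    · exact h
  refine ⟨p, j, hp, hj1, hj', ?_, hexp⟩
  haveI : Nontrivial (Multiplicative F) := ⟨⟨Multiplicative.ofAdd 0, Multiplicative.ofAdd 1,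
    fun h => Cfsg.NearField.zero_ne_one (Multiplicative.ofAdd.injective h)⟩⟩
  haveI : Finite (Multiplicative F) := ‹Finite F›
  have hcen : Nontrivial (Subgroup.center (Multiplicative F)) := hpg.center_nontrivial
  obtain ⟨⟨z, hz⟩, hzne⟩ := exists_ne (1 : Subgroup.center (Multiplicative F))
  rw [Subgroup.mem_center_iff] at hz
  set z' : F := Multiplicative.toAdd z with hz'
  have hz'ne : z' ≠ 0 := by
    intro h
    apply hzne
    apply Subtype.ext
    exact congrArg Multiplicative.ofAdd h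
  have hzc : ∀ y : F, y + z' = z' + y := by
    intro y
    have := hz (Multiplicative.ofAdd y)
    exact congrArg Multiplicative.toAdd this
  intro x y
  rcases eq_or_ne x 0 with hx | hx
  · rw [hx]; simp
  obtain ⟨c, hc⟩ := nf_exists_mul hz'ne x
  have hcne : c ≠ 0 := by
    intro h
    rw [h, Cfsg.NearField.mul_zero] at hc
    exact hx hc.symm
  obtain ⟨c', _, h2⟩ := Cfsg.NearField.exists_inv c hcne
  have hy : y = (y * c') * c := by rw [mul_assoc, h2, mul_one]
  rw [← hc, hy, ← Cfsg.NearField.right_distrib, ← Cfsg.NearField.right_distrib, hzc]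

end Cfsg.Agent.S0682
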