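import Cfsg.Statements.S0687
import Mathlib
import Cfsg.Agent.Lib.Helper12.FpfReg

set_option autoImplicit false
open Cfsg

namespace Cfsg.Agent.S0687

/-- In a linear group over the prime field that is regular on non-zero vectors and has no irreducible cyclic normal subgroup, a normal subgroup `N` minimal among the non-abelian normal subgroups centralising a maximal normal abelian subgroup `A` is irreducible on `V`, and its centraliser is `A`. -/
theorem result {p : ℕ} [Fact p.Prime] {V : Type*} [AddCommGroup V] [Module (ZMod p) V] [Finite V] (H : Subgroup (V ≃ₗ[ZMod p] V)) (hreg : ∀ v w : V, v ≠ 0 → w ≠ 0 → ∃! h : H, (h : V ≃ₗ[ZMod p] V) v = w) (hI : ∀ A : Subgroup H, A.Normal → IsCyclic A → ∃ W : Submodule (ZMod p) V, W ≠ ⊥ ∧ W ≠ ⊤ ∧ ∀ a ∈ A, ∀ v ∈ W, ((a : H) : V ≃ₗ[ZMod p] V) v ∈ W) (A : Subgroup H) (hAn : A.Normal) (hAc : IsMulCommutative A) (hAmax : ∀ B : Subgroup H, B.Normal → IsMulCommutative B → A ≤ B → B = A) (N : Subgroup H) (hNn : N.Normal) (hNle : N ≤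 Subgroup.centralizer (A : Set H)) (hNna : ¬ IsMulCommutative N) (hNmin : ∀ M : Subgroup H, M.Normal → M ≤ N → ¬ IsMulCommutative M → M = N) : (∀ W : Submodule (ZMod p) V, (∀ n ∈ N, ∀ v ∈ W, ((n : H) : V ≃ₗ[ZMod p] V) v ∈ W) → W = ⊥ ∨ W = ⊤) ∧ Subgroup.centralizer (N : Set H) = A := by
  open Cfsg.Agent.Lib.Helper12.FpfLin in
  refine ⟨fun W hW => irreducible_of_reg H hreg N hNn hNna W hW, ?_⟩
  haveI := hNn
  apply hAmax _ inferInstance
  · rw [subgroupComm_iff]
    exact centralizer_comm_of_reg H hreg N hNn hNna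
  · intro a ha
    rw [Subgroup.mem_centralizer_iff]
    intro n hn
    have := Subgroup.mem_centralizer_iff.mp (hNle hn) a ha
    exact this.symm

end Cfsg.Agent.S0687
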