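import Cfsg.Statements.S0691
import Cfsg.Agent.Lib.Helper12.Mat2

set_option autoImplicit false
open Cfsg

namespace Cfsg.Agent.S0691

open Cfsg.Agent.Lib.Helper12.Mat2

def gT : List T := [(2, 0, 0, 3), (0, 4, 1, 0), (1, 2, 1, 3)]

def gTi : List T := [(3, 0, 0, 2), (0, 1, 4, 0), (3, 3, 4, 1)]

def ws : List (List ℕ) :=
  [[], [0], [1], [2], [0, 0], [1, 0], [2, 0], [0, 1], [2, 1], [1, 2], [2, 2], [0, 0, 0], [1, 0, 0], [2, 0, 0], [1, 2, 0], [2, 2, 0], [2, 0, 1], [2, 2, 1], [0, 1, 2], [2, 1, 2], [2, 2, 0, 0], [2, 1, 2, 0], [2, 2, 0, 1], [2, 0, 1, 2]]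

/-- An exceptional sharply doubly transitive group of degree 5^2: the listed matrices generate a subgroup of GL(2,5) of order 24 acting regularly on the non-zero vectors. -/
theorem result (A : Matrix.GeneralLinearGroup (Fin 2) (ZMod 5)) (B : Matrix.GeneralLinearGroup (Fin 2) (ZMod 5)) (C : Matrix.GeneralLinearGroup (Fin 2) (ZMod 5)) (hA : (A : Matrix (Fin 2) (Fin 2) (ZMod 5)) = !![2, 0; 0, -2]) (hB : (B : Matrix (Fin 2) (Fin 2) (ZMod 5)) = !![0, -1; 1, 0]) (hC : (C : Matrix (Fin 2) (Fin 2) (ZMod 5)) = !![1, 2; 1, -2]) : Nat.card (Subgroup.closure ({A, B, C} : Set (Matrix.GeneralLinearGroup (Fin 2) (ZMod 5)))) = 24 ∧ ∀ v w : Fin 2 → ZMod 5, v ≠ 0 → w ≠ 0 → ∃! h : Subgroup.closure ({A, B, C} : Set (Matrix.GeneralLinearGroup (Fin 2) (ZMod 5))), Matrix.mulVec ((h : Matrix.GeneralLinearGroup (Fin 2) (ZMod 5)) : Matrix (Fin 2) (Fin 2) (ZMod 5)) v = w := by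
  haveI : Fact (Nat.Prime 5) := ⟨by norm_num⟩
  have hA' : (A : Matrix (Fin 2) (Fin 2) (ZMod 5)) = toMat 5 (2, 0, 0, 3) := by
    rw [hA]; decide
  have hAi : ((A⁻¹ : Matrix.GeneralLinearGroup (Fin 2) (ZMod 5)) : Matrix (Fin 2) (Fin 2) (ZMod 5)) = toMat 5 (3, 0, 0, 2) :=
    inv_tuple hA' (by decide)
  have hB' : (B : Matrix (Fin 2) (Fin 2) (ZMod 5)) = toMat 5 (0, 4, 1, 0) := by
    rw [hB]; decide
  have hBi : ((B⁻¹ : Matrix.GeneralLinearGroup (Fin 2) (ZMod 5)) : Matrix (Fin 2) (Fin 2) (ZMod 5)) = toMat 5 (0, 1, 4, 0) :=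
    inv_tuple hB' (by decide)
  have hC' : (C : Matrix (Fin 2) (Fin 2) (ZMod 5)) = toMat 5 (1, 2, 1, 3) := by
    rw [hC]; decide
  have hCi : ((C⁻¹ : Matrix.GeneralLinearGroup (Fin 2) (ZMod 5)) : Matrix (Fin 2) (Fin 2) (ZMod 5)) = toMat 5 (3, 3, 4, 1) :=
    inv_tuple hC' (by decide)
  have key := main_list (q := 5) ({A, B, C} : Set (Matrix.GeneralLinearGroup (Fin 2) (ZMod 5))) gT gTi ws ?_ ?_
    (by decide +kernel) (by decide +kernel) (by decide +kernel) (by decide +kernel) (by decide +kernel)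
  · have e : (5 : ℕ) ^ 2 - 1 = 24 := by norm_num
    rw [e] at key
    exact key
  · intro t ht
    simp only [gT, List.mem_cons, List.mem_nil_iff, or_false] at ht
    rcases ht with rfl | rfl | rfl
    · exact ⟨A, by simp, hA'⟩
    · exact ⟨B, by simp, hB'⟩
    · exact ⟨C, by simp, hC'⟩
  · intro g hg
    simp only [Set.mem_insert_iff, Set.mem_singleton_iff] at hg
    rcases hg with rfl | rfl | rfl
    · exact ⟨⟨_, by simp [gT, gTi], hA'⟩, ⟨_, by simp [gT, gTi], hAi⟩⟩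
    · exact ⟨⟨_, by simp [gT, gTi], hB'⟩, ⟨_, by simp [gT, gTi], hBi⟩⟩
    · exact ⟨⟨_, by simp [gT, gTi], hC'⟩, ⟨_, by simp [gT, gTi], hCi⟩⟩

end Cfsg.Agent.S0691
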