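import Cfsg.Statements.S0694
import Mathlib

set_option autoImplicit false
open Cfsg

namespace Cfsg.Agent.S0694

open Finset

/-- The geometric sum `1 + q + ... + q^(i-1)` with `q = t + 1`. -/
def gs (t i : ℕ) : ℕ := ∑ j ∈ range i, (t + 1) ^ j

theorem gs_zero (t : ℕ) : gs t 0 = 0 := by simp [gs]

theorem gs_succ (t i : ℕ) : gs t (i + 1) = gs t i + (t + 1) ^ i := by
  simp [gs, sum_range_succ]

theorem gs_geo (t i : ℕ) : t * gs t i + 1 = (t + 1) ^ i := by
  induction i with
  | zero => simp [gs_zero]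
  | succ i ih =>
    rw [gs_succ, pow_succ, ← ih]
    ring

theorem gs_add (t a b : ℕ) : gs t (a + b) = gs t a + (t + 1) ^ a * gs t b := by
  induction b with
  | zero => simp [gs_zero]
  | succ b ih =>
    rw [← add_assoc, gs_succ, gs_succ, ih, pow_add]
    ring

theorem gs_modEq (t i : ℕ) : gs t i ≡ i [MOD t] := by
  induction i with
  | zero => rw [gs_zero]
  | succ i ih =>
    rw [gs_succ]
    refine Nat.ModEq.add ih ?_
    have h1 : (t + 1) ≡ 1 [MOD t] := by
      simp [Nat.ModEq]
    simpa using h1.pow i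

theorem modEq_iff (t n i : ℕ) (ht : 0 < t) : (t + 1) ^ i ≡ 1 [MOD n * t] ↔ n ∣ gs t i := by
  rw [Nat.ModEq.comm, Nat.modEq_iff_dvd' (Nat.one_le_pow _ _ (Nat.succ_pos t))]
  have h1 : (t + 1) ^ i - 1 = gs t i * t := by
    rw [← gs_geo]; simp [mul_comm]
  rw [h1, Nat.mul_dvd_mul_iff_right ht]

/-- Lifting the exponent for the geometric sum. -/
theorem emult_gs (t p : ℕ) (ht : 0 < t) (hp : p.Prime) (hpt : p ∣ t) (h4 : p = 2 → 4 ∣ t)
    (i : ℕ) : emultiplicity p (gs t i) = emultiplicity p i := by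
  have hfin : emultiplicity p t ≠ ⊤ :=
    finiteMultiplicity_iff_emultiplicity_ne_top.mp
      (Nat.finiteMultiplicity_iff.mpr ⟨hp.ne_one, ht⟩)
  have hsub : (t + 1) ^ i - 1 ^ i = t * gs t i := by
    rw [one_pow, ← gs_geo]; simp
  have hnd : ¬ p ∣ t + 1 := by
    intro h
    have h1 := (Nat.dvd_add_right hpt).mp h
    exact hp.one_lt.ne' (Nat.dvd_one.mp h1)
  rcases hp.eq_two_or_odd' with rfl | hodd
  · have h4t := h4 rfl
    rcases Nat.even_or_odd i with hi | hi
    · have h := Nat.two_pow_sub_pow (x := t + 1) (y := 1) (by simpa using hpt) hnd hi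
      rw [hsub, Nat.add_sub_cancel, emultiplicity_mul hp.prime] at h
      have h1 : emultiplicity 2 (t + 1 + 1) = ((1 : ℕ) : ℕ∞) := by
        apply emultiplicity_eq_of_dvd_of_not_dvd
        · rw [pow_one]; omega
        · norm_num; omega
      rw [h1] at h
      have h2 : emultiplicity 2 t + (emultiplicity 2 (gs t i) + 1)
          = emultiplicity 2 t + (emultiplicity 2 i + 1) := by
        rw [← add_assoc, h]
        push_cast
        ring
      have h3 := ENat.add_right_injective_of_ne_top hfin h2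
      exact ENat.add_left_injective_of_ne_top ENat.one_ne_top h3
    · have h1 : ¬ 2 ∣ gs t i := by
        have h2 : gs t i ≡ i [MOD 2] := (gs_modEq t i).of_dvd hpt
        rw [h2.dvd_iff (dvd_refl 2)]
        exact hi.not_two_dvd_nat
      have h2 : ¬ 2 ∣ i := hi.not_two_dvd_nat
      rw [emultiplicity_eq_zero.mpr h1, emultiplicity_eq_zero.mpr h2]
  · have h := Nat.emultiplicity_pow_sub_pow hp hodd (x := t + 1) (y := 1) (by simpa using hpt)
      hnd i
    rw [hsub, Nat.add_sub_cancel, emultiplicity_mul hp.prime] at h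
    exact ENat.add_right_injective_of_ne_top hfin h

theorem dvd_gs_iff (t n : ℕ) (ht : 0 < t) (hA : ∀ r : ℕ, r.Prime → r ∣ n → r ∣ t)
    (hA4 : 4 ∣ n → 4 ∣ t) (i : ℕ) : n ∣ gs t i ↔ n ∣ i := by
  rw [Nat.dvd_iff_prime_pow_dvd_dvd (gs t i) n, Nat.dvd_iff_prime_pow_dvd_dvd i n]
  refine forall_congr' fun p => forall_congr' fun k => forall_congr' fun hp =>
    forall_congr' fun hpk => ?_
  rcases Nat.eq_zero_or_pos k with rfl | hk
  · simp
  have hpn : p ∣ n := dvd_trans (dvd_pow_self p hk.ne') hpk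
  have hpt := hA p hp hpn
  by_cases h4 : p = 2 → 4 ∣ t
  · rw [pow_dvd_iff_le_emultiplicity, pow_dvd_iff_le_emultiplicity, emult_gs t p ht hp hpt h4 i]
  · push Not at h4
    obtain ⟨rfl, h4⟩ := h4
    have hk1 : k = 1 := by
      by_contra hk1
      have hk2 : 2 ≤ k := by omega
      apply h4
      apply hA4
      exact dvd_trans (pow_dvd_pow 2 hk2) hpk
    subst hk1
    rw [pow_one]
    have h2 : gs t i ≡ i [MOD 2] := (gs_modEq t i).of_dvd hpt
    exact h2.dvd_iff (dvd_refl 2)

theorem coprime_of_dvd (t n : ℕ) (hn : 0 < n) (h : n ∣ gs t n) : Nat.Coprime n (t + 1) := by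
  obtain ⟨m, rfl⟩ : ∃ m, n = 1 + m := ⟨n - 1, by omega⟩
  have h1 := gs_add t 1 m
  have h2 : gs t 1 = 1 := by simp [gs]
  rw [h2, pow_one] at h1
  have hg1 : Nat.gcd (1 + m) (t + 1) ∣ gs t (1 + m) := dvd_trans (Nat.gcd_dvd_left _ _) h
  have hg2 : Nat.gcd (1 + m) (t + 1) ∣ (t + 1) * gs t m :=
    dvd_mul_of_dvd_left (Nat.gcd_dvd_right _ _) _
  rw [h1] at hg1
  exact Nat.dvd_one.mp ((Nat.dvd_add_left hg2).mp hg1)

/-- Descent: if the affine map `x ↦ q x + 1` is a full cycle modulo `n`, then the sums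
`gs t i` with `0 < i < d` are not divisible by `d`, for any divisor `d` of `n`. -/
theorem descent (t n d i : ℕ) (hn : 0 < n) (hnn : n ∣ gs t n)
    (hB : ∀ i, 0 < i → i < n → ¬ n ∣ gs t i) (hd : d ∣ n) (hi : 0 < i) (hid : i < d) :
    ¬ d ∣ gs t i := by
  intro hdi
  have hcop : Nat.Coprime n (t + 1) := coprime_of_dvd t n hn hnn
  have key : ∀ a b, a < b → b < n → ¬ gs t a ≡ gs t b [MOD n] := by
    intro a b hlt hb hab
    have hsum : gs t b = gs t a + (t + 1) ^ a * gs t (b - a) := by
      rw [← gs_add]; congr 1; omega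
    have h1 : gs t a + 0 ≡ gs t a + (t + 1) ^ a * gs t (b - a) [MOD n] := by
      rw [add_zero, ← hsum]; exact hab
    have h2 := Nat.ModEq.add_left_cancel' _ h1
    have h3 : n ∣ (t + 1) ^ a * gs t (b - a) := (Nat.modEq_zero_iff_dvd.mp h2.symm)
    have h4 : n ∣ gs t (b - a) := (Nat.Coprime.pow_right a hcop).dvd_of_dvd_mul_left h3
    exact hB (b - a) (by omega) (by omega) h4
  have hinj : Set.InjOn (fun j => gs t j % n) (range n : Finset ℕ) := by
    intro a ha b hb hab
    simp only [coe_range, Set.mem_Iio] at ha hb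
    by_contra hne
    rcases Nat.lt_or_gt_of_ne hne with hlt | hlt
    · exact key a b hlt hb hab
    · exact key b a hlt ha hab.symm
  have himg : (range n).image (fun j => gs t j % n) = range n := by
    apply Finset.eq_of_subset_of_card_le
    · intro x hx
      rw [mem_image] at hx
      obtain ⟨j, -, rfl⟩ := hx
      exact mem_range.mpr (Nat.mod_lt _ hn)
    · rw [card_image_of_injOn hinj]
  have hper : ∀ m j, gs t (j + m * i) ≡ gs t j [MOD d] := by
    intro m
    induction m with
    | zero => intro j; simp [Nat.ModEq.refl]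
    | succ m ih =>
      intro j
      have h0 : j + (m + 1) * i = (j + m * i) + i := by ring
      rw [h0, gs_add]
      have h1 : (t + 1) ^ (j + m * i) * gs t i ≡ 0 [MOD d] :=
        Nat.modEq_zero_iff_dvd.mpr (dvd_mul_of_dvd_right hdi _)
      simpa using (ih j).add h1
  have hsub : range d ⊆ (range i).image (fun j => gs t j % d) := by
    intro c hc
    rw [mem_range] at hc
    have hcn : c ∈ range n := mem_range.mpr (lt_of_lt_of_le hc (Nat.le_of_dvd hn hd))
    rw [← himg, mem_image] at hcn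
    obtain ⟨j, -, hj⟩ := hcn
    rw [mem_image]
    refine ⟨j % i, mem_range.mpr (Nat.mod_lt _ hi), ?_⟩
    have h1 : gs t j ≡ gs t (j % i) [MOD d] := by
      have h2 := hper (j / i) (j % i)
      rwa [Nat.mod_add_div' j i] at h2
    have h2 : gs t j % d = c := by
      have h3 : gs t j % n % d = c % d := by
        rw [← hj]
      rw [Nat.mod_mod_of_dvd _ hd] at h3
      rw [h3, Nat.mod_eq_of_lt hc]
    rw [← h2]; exact h1.symm
  have h1 := Finset.card_le_card hsub
  rw [card_range] at h1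
  have h2 := Finset.card_image_le (s := range i) (f := fun j => gs t j % d)
  rw [card_range] at h2
  omega

/-- The Dickson pair condition: for a prime power `q` and `n > 1`, (every prime factor of `n` divides `q - 1`, and `4 ∣ n → 4 ∣ q - 1`) holds exactly when `q ^ n ≡ 1` modulo `n * (q - 1)` but `q ^ i` is not, for `0 < i < n`. -/
theorem result (q n : ℕ) (hq : IsPrimePow q) (hn : 1 < n) : ((∀ r : ℕ, r.Prime → r ∣ n → r ∣ q - 1) ∧ (4 ∣ n → 4 ∣ q - 1)) ↔ (q ^ n ≡ 1 [MOD n * (q - 1)] ∧ ∀ i : ℕ, 0 < i → i < n → ¬ q ^ i ≡ 1 [MOD n * (q - 1)]) := by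
  have hq2 : 2 ≤ q := hq.two_le
  obtain ⟨t, rfl⟩ : ∃ t, q = t + 1 := ⟨q - 1, by omega⟩
  have ht : 0 < t := by omega
  rw [Nat.add_sub_cancel]
  constructor
  · rintro ⟨hA, hA4⟩
    constructor
    · rw [modEq_iff t n n ht, dvd_gs_iff t n ht hA hA4]
    · intro i hi hin
      rw [modEq_iff t n i ht, dvd_gs_iff t n ht hA hA4]
      exact Nat.not_dvd_of_pos_of_lt hi hin
  · rintro ⟨h1, h2⟩
    rw [modEq_iff t n n ht] at h1
    have hB : ∀ i, 0 < i → i < n → ¬ n ∣ gs t i := by
      intro i hi hin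
      rw [← modEq_iff t n i ht]
      exact h2 i hi hin
    have hcop := coprime_of_dvd t n (by omega) h1
    constructor
    · intro r hr hrn
      have hrq : ¬ r ∣ t + 1 := by
        intro h
        have h3 := Nat.eq_one_of_dvd_coprimes hcop hrn h
        exact hr.one_lt.ne' h3
      have hfer : (t + 1) ^ (r - 1) ≡ 1 [MOD r] := by
        have hc : Nat.Coprime (t + 1) r := ((Nat.Prime.coprime_iff_not_dvd hr).mpr hrq).symm
        have h3 := Nat.ModEq.pow_totient hc
        rwa [Nat.totient_prime hr] at h3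
      have h3 : r ∣ t * gs t (r - 1) := by
        have h4 := (Nat.modEq_iff_dvd' (Nat.one_le_pow _ _ (Nat.succ_pos t))).mp hfer.symm
        rwa [← gs_geo, Nat.add_sub_cancel] at h4
      rcases (Nat.Prime.dvd_mul hr).mp h3 with h | h
      · exact h
      · have h5 := hr.two_le
        exact absurd h (descent t n r (r - 1) (by omega) h1 hB hrn (by omega) (by omega))
    · intro h4
      have hodd : ¬ 2 ∣ t + 1 := by
        intro h
        have h3 := Nat.eq_one_of_dvd_coprimes hcop (dvd_trans (by norm_num) h4) h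
        omega
      have hd := descent t n 4 2 (by omega) h1 hB h4 (by norm_num) (by norm_num)
      have h5 : gs t 2 = t + 2 := by
        simp [gs, sum_range_succ]; ring
      rw [h5] at hd
      omega

end Cfsg.Agent.S0694
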