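import Cfsg.Statements.S0695
import Mathlib

set_option autoImplicit false
open Cfsg

namespace Cfsg.Agent.S0695

open MulAction

/-- Regularity: distinct elements of `N` move `a` to distinct points. -/
theorem reg_inj {G : Type*} [Group G] {X : Type*} [MulAction G X] (N : Subgroup G)
    (hreg : ∀ x : X, MulAction.stabilizer N x = ⊥) (a : X) {m n : G} (hm : m ∈ N) (hn : n ∈ N)
    (h : m • a = n • a) : m = n := by
  have h1 : (⟨n⁻¹ * m, N.mul_mem (N.inv_mem hn) hm⟩ : N) ∈ MulAction.stabilizer N a := by
    rw [MulAction.mem_stabilizer_iff]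
    show (n⁻¹ * m) • a = a
    rw [mul_smul, h, inv_smul_smul]
  rw [hreg a, Subgroup.mem_bot] at h1
  have h2 : n⁻¹ * m = 1 := congrArg Subtype.val h1
  exact (inv_mul_eq_one.mp h2).symm

/-- A regular subgroup has as many elements as there are points. -/
theorem card_reg {G : Type*} [Group G] {X : Type*} [MulAction G X] (N : Subgroup G)
    (htrans : MulAction.IsPretransitive N X)
    (hreg : ∀ x : X, MulAction.stabilizer N x = ⊥) (a : X) : Nat.card N = Nat.card X := by
  apply Nat.card_congr
  refine Equiv.ofBijective (fun n : N => (n : G) • a) ⟨?_, ?_⟩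
  · intro m n h
    exact Subtype.ext (reg_inj N hreg a m.2 n.2 h)
  · intro x
    obtain ⟨n, hn⟩ := htrans.exists_smul_eq a x
    exact ⟨n, hn⟩

/-- The key block argument: if `n ∈ N` is not an involution (nor trivial), every point other than
`a` is `n • a` or `n⁻¹ • a`. -/
theorem key {G : Type*} [Group G] {X : Type*} [MulAction G X]
    (h2 : MulAction.IsMultiplyPreprimitive G X 2) (N : Subgroup G) [N.Normal]
    (hreg : ∀ x : X, MulAction.stabilizer N x = ⊥) (a : X) (n : G) (hn : n ∈ N) (hn2 : n ^ 2 ≠ 1)
    (x : X) (hx : x ≠ a) : x = n • a ∨ x = n⁻¹ • a := by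
  have hprim : IsPreprimitive (fixingSubgroup G ({a} : Set X))
      (SubMulAction.ofFixingSubgroup G ({a} : Set X)) :=
    IsMultiplyPreprimitive.isPreprimitive_ofFixingSubgroup G 2 (by simp; rfl)
  have hn1 : n ≠ 1 := by
    rintro rfl
    exact hn2 (one_pow 2)
  have hninv : n ≠ n⁻¹ := by
    intro h
    apply hn2
    rw [pow_two]
    nth_rewrite 1 [h]
    exact inv_mul_cancel n
  have hna : n • a ≠ a := by
    intro h
    exact hn1 (reg_inj N hreg a hn N.one_mem (by rw [h, one_smul]))
  have hna' : n⁻¹ • a ≠ a := by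
    intro h
    apply hna
    calc n • a = n • (n⁻¹ • a) := by rw [h]
      _ = a := smul_inv_smul n a
  set B : Set (SubMulAction.ofFixingSubgroup G ({a} : Set X)) :=
    {y | (y : X) = n • a ∨ (y : X) = n⁻¹ • a} with hB
  have hblock : IsBlock (fixingSubgroup G ({a} : Set X)) B := by
    rw [isBlock_iff_smul_eq_of_mem]
    rintro ⟨k, hk⟩ y hy hky
    have hka : k • a = a := by
      have := (mem_fixingSubgroup_iff G).mp hk a (Set.mem_singleton a)
      exact this
    have hm : k * n * k⁻¹ ∈ N := ‹N.Normal›.conj_mem n hn k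
    have hm' : (k * n * k⁻¹)⁻¹ ∈ N := N.inv_mem hm
    have hkn : k • (n • a) = (k * n * k⁻¹) • a := by
      rw [mul_smul, mul_smul]
      congr 2
      rw [eq_inv_smul_iff, hka]
    have hkn' : k • (n⁻¹ • a) = (k * n * k⁻¹)⁻¹ • a := by
      rw [mul_inv_rev, mul_inv_rev, inv_inv, mul_smul, mul_smul]
      congr 2
      rw [eq_inv_smul_iff, hka]
    have hm2 : k * n * k⁻¹ = n ∨ k * n * k⁻¹ = n⁻¹ := by
      have hky' : k • (y : X) = n • a ∨ k • (y : X) = n⁻¹ • a := hky
      rcases hy with hy | hy
      · rw [hy, hkn] at hky'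
        rcases hky' with h | h
        · exact Or.inl (reg_inj N hreg a hm hn h)
        · exact Or.inr (reg_inj N hreg a hm (N.inv_mem hn) h)
      · rw [hy, hkn'] at hky'
        rcases hky' with h | h
        · right
          have := reg_inj N hreg a hm' hn h
          exact inv_eq_iff_eq_inv.mp this
        · left
          have := reg_inj N hreg a hm' (N.inv_mem hn) h
          exact inv_injective this
    have hsub : ∀ w ∈ B, (⟨k, hk⟩ : fixingSubgroup G ({a} : Set X)) • w ∈ B := by
      intro w hw
      show k • (w : X) = n • a ∨ k • (w : X) = n⁻¹ • a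
      rcases hw with hw | hw
      · rw [hw, hkn]
        rcases hm2 with h | h
        · left; rw [h]
        · right; rw [h]
      · rw [hw, hkn']
        rcases hm2 with h | h
        · right; rw [h]
        · left; rw [h, inv_inv]
    have hinvsub : ∀ w ∈ B, (⟨k, hk⟩ : fixingSubgroup G ({a} : Set X))⁻¹ • w ∈ B := by
      intro w hw
      show k⁻¹ • (w : X) = n • a ∨ k⁻¹ • (w : X) = n⁻¹ • a
      rw [inv_smul_eq_iff, inv_smul_eq_iff, hkn, hkn']
      rcases hw with hw | hw
      · rw [hw]
        rcases hm2 with h | h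
        · left; rw [h]
        · right; rw [h, inv_inv]
      · rw [hw]
        rcases hm2 with h | h
        · right; rw [h]
        · left; rw [h]
    ext w
    constructor
    · rintro ⟨v, hv, rfl⟩
      exact hsub v hv
    · intro hw
      refine ⟨(⟨k, hk⟩ : fixingSubgroup G ({a} : Set X))⁻¹ • w, hinvsub w hw, ?_⟩
      simp
  have htriv := hprim.isTrivialBlock_of_isBlock hblock
  rcases htriv with hsub | huniv
  · exfalso
    have h1 : (⟨n • a, hna⟩ : SubMulAction.ofFixingSubgroup G ({a} : Set X)) ∈ B := Or.inl rfl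
    have h2 : (⟨n⁻¹ • a, hna'⟩ : SubMulAction.ofFixingSubgroup G ({a} : Set X)) ∈ B := Or.inr rfl
    have h3 := hsub h1 h2
    have h4 : n • a = n⁻¹ • a := congrArg Subtype.val h3
    exact hninv (reg_inj N hreg a hn (N.inv_mem hn) h4)
  · have hxB : (⟨x, hx⟩ : SubMulAction.ofFixingSubgroup G ({a} : Set X)) ∈ B := by
      rw [huniv]; exact Set.mem_univ _
    exact hxB

/-- A regular normal subgroup of a doubly primitive group of finite degree at least 2 is an elementary abelian 2-group (and the degree is a power of 2), unless the degree is 3. -/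
theorem result {G : Type*} [Group G] {X : Type*} [Fintype X] [MulAction G X] (hX : 2 ≤ Fintype.card X) (h2 : MulAction.IsMultiplyPreprimitive G X 2) (N : Subgroup G) [N.Normal] (htrans : MulAction.IsPretransitive N X) (hreg : ∀ x : X, MulAction.stabilizer N x = ⊥) : Fintype.card X = 3 ∨ (IsMulCommutative N ∧ (∀ n ∈ N, n ^ 2 = 1) ∧ ∃ m : ℕ, Fintype.card X = 2 ^ m) := by
  classical
  have hne : Nonempty X := by
    rw [← Fintype.card_pos_iff]; omega
  obtain ⟨a⟩ := hne
  by_cases hex : ∀ n ∈ N, n ^ 2 = 1
  · right
    have hinv : ∀ x : N, x⁻¹ = x := by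
      intro x
      have h := hex x x.2
      apply Subtype.ext
      show (x : G)⁻¹ = x
      rw [inv_eq_iff_mul_eq_one, ← pow_two]
      exact h
    refine ⟨⟨⟨fun x y => ?_⟩⟩, hex, ?_⟩
    · calc x * y = (x * y)⁻¹ := (hinv _).symm
        _ = y⁻¹ * x⁻¹ := mul_inv_rev x y
        _ = y * x := by rw [hinv, hinv]
    · have hcard := card_reg N htrans hreg a
      have hfin : Finite N := by
        apply Nat.finite_of_card_ne_zero
        rw [hcard, Nat.card_eq_fintype_card]
        omega
      have : Fact (Nat.Prime 2) := ⟨Nat.prime_two⟩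
      have hp : IsPGroup 2 N := by
        intro x
        refine ⟨1, ?_⟩
        apply Subtype.ext
        rw [pow_one]
        exact hex x x.2
      obtain ⟨m, hm⟩ := (IsPGroup.iff_card).mp hp
      refine ⟨m, ?_⟩
      rw [← Nat.card_eq_fintype_card, ← hcard, hm]
  · left
    push Not at hex
    obtain ⟨n, hn, hn2⟩ := hex
    have hk := key h2 N hreg a n hn hn2
    have hn1 : n ≠ 1 := by
      rintro rfl
      exact hn2 (one_pow 2)
    have hninv : n ≠ n⁻¹ := by
      intro h
      apply hn2
      rw [pow_two]
      nth_rewrite 1 [h]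
      exact inv_mul_cancel n
    have hna : n • a ≠ a := by
      intro h
      exact hn1 (reg_inj N hreg a hn N.one_mem (by rw [h, one_smul]))
    have hna' : n⁻¹ • a ≠ a := by
      intro h
      apply hna
      calc n • a = n • (n⁻¹ • a) := by rw [h]
        _ = a := smul_inv_smul n a
    have hne3 : n • a ≠ n⁻¹ • a := fun h => hninv (reg_inj N hreg a hn (N.inv_mem hn) h)
    have huniv : (Finset.univ : Finset X) = {a, n • a, n⁻¹ • a} := by
      ext x
      simp only [Finset.mem_univ, Finset.mem_insert, Finset.mem_singleton, true_iff]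
      by_cases hx : x = a
      · exact Or.inl hx
      · exact Or.inr (hk x hx)
    rw [← Finset.card_univ, huniv]
    rw [Finset.card_insert_of_notMem, Finset.card_insert_of_notMem, Finset.card_singleton]
    · simpa using hne3
    · simp only [Finset.mem_insert, Finset.mem_singleton, not_or]
      exact ⟨fun h => hna h.symm, fun h => hna' h.symm⟩

end Cfsg.Agent.S0695
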