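import Cfsg.Statements.S0696
import Mathlib
import Cfsg.Agent.S0695

set_option autoImplicit false
open Cfsg

namespace Cfsg.Agent.S0696

open MulAction

/-- The key block argument: in a triply primitive group with a regular normal elementary abelian
2-subgroup `N`, given `n₁ ≠ 1` and `n ∉ {1, n₁}` in `N`, every point other than `a`, `n₁ • a` is
`n • a` or `(n * n₁) • a`. -/
theorem key {G : Type*} [Group G] {X : Type*} [MulAction G X]
    (h3 : MulAction.IsMultiplyPreprimitive G X 3) (N : Subgroup G) [N.Normal]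
    (hreg : ∀ x : X, MulAction.stabilizer N x = ⊥) (hex : ∀ n ∈ N, n ^ 2 = 1) (a : X)
    (n₁ : G) (hn₁ : n₁ ∈ N) (hn₁1 : n₁ ≠ 1)
    (n : G) (hn : n ∈ N) (hn1 : n ≠ 1) (hnn₁ : n ≠ n₁)
    (x : X) (hx : x ≠ a) (hx' : x ≠ n₁ • a) : x = n • a ∨ x = (n * n₁) • a := by
  have hinj := @S0695.reg_inj G _ X _ N hreg a
  have hsq : n₁ * n₁ = 1 := by rw [← pow_two]; exact hex n₁ hn₁
  have hne : a ≠ n₁ • a := by
    intro h
    exact hn₁1 (hinj hn₁ N.one_mem (by rw [← h, one_smul]))
  have hprim : IsPreprimitive (fixingSubgroup G ({a, n₁ • a} : Set X))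
      (SubMulAction.ofFixingSubgroup G ({a, n₁ • a} : Set X)) :=
    IsMultiplyPreprimitive.isPreprimitive_ofFixingSubgroup G 3 (by
      rw [Set.encard_pair hne]; rfl)
  have hnn : n * n₁ ∈ N := N.mul_mem hn hn₁
  have hna : n • a ∉ ({a, n₁ • a} : Set X) := by
    rintro (h | h)
    · exact hn1 (hinj hn N.one_mem (by rw [h, one_smul]))
    · exact hnn₁ (hinj hn hn₁ h)
  have hna' : (n * n₁) • a ∉ ({a, n₁ • a} : Set X) := by
    rintro (h | h)
    · have h1 : n * n₁ = 1 := hinj hnn N.one_mem (by rw [h, one_smul])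
      apply hnn₁
      calc n = n * (n₁ * n₁) := by rw [hsq, mul_one]
        _ = (n * n₁) * n₁ := (mul_assoc _ _ _).symm
        _ = n₁ := by rw [h1, one_mul]
    · have h1 : n * n₁ = n₁ := hinj hnn hn₁ h
      exact hn1 (mul_eq_right.mp h1)
  set B : Set (SubMulAction.ofFixingSubgroup G ({a, n₁ • a} : Set X)) :=
    {y | (y : X) = n • a ∨ (y : X) = (n * n₁) • a} with hB
  have hblock : IsBlock (fixingSubgroup G ({a, n₁ • a} : Set X)) B := by
    rw [isBlock_iff_smul_eq_of_mem]
    rintro ⟨k, hk⟩ y hy hky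
    have hka : k • a = a :=
      (mem_fixingSubgroup_iff G).mp hk a (Set.mem_insert _ _)
    have hkb : k • (n₁ • a) = n₁ • a :=
      (mem_fixingSubgroup_iff G).mp hk (n₁ • a) (Set.mem_insert_of_mem _ rfl)
    have hm : k * n * k⁻¹ ∈ N := ‹N.Normal›.conj_mem n hn k
    have hmn : k * n * k⁻¹ * n₁ ∈ N := N.mul_mem hm hn₁
    have hkn : k • (n • a) = (k * n * k⁻¹) • a := by
      rw [mul_smul, mul_smul]
      congr 2
      rw [eq_inv_smul_iff, hka]
    have hkn' : k • ((n * n₁) • a) = (k * n * k⁻¹ * n₁) • a := by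
      rw [mul_smul, mul_smul (k * n * k⁻¹), mul_smul, mul_smul]
      congr 2
      rw [eq_inv_smul_iff, hkb]
    have hm2 : k * n * k⁻¹ = n ∨ k * n * k⁻¹ = n * n₁ := by
      have hky' : k • (y : X) = n • a ∨ k • (y : X) = (n * n₁) • a := hky
      rcases hy with hy | hy
      · rw [hy, hkn] at hky'
        rcases hky' with h | h
        · exact Or.inl (hinj hm hn h)
        · exact Or.inr (hinj hm hnn h)
      · rw [hy, hkn'] at hky'
        rcases hky' with h | h
        · right
          have h1 := hinj hmn hn h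
          calc k * n * k⁻¹ = k * n * k⁻¹ * (n₁ * n₁) := by rw [hsq, mul_one]
            _ = (k * n * k⁻¹ * n₁) * n₁ := (mul_assoc _ _ _).symm
            _ = n * n₁ := by rw [h1]
        · left
          have h1 := hinj hmn hnn h
          exact mul_right_cancel h1
    have hmn2 : k * n * k⁻¹ * n₁ = n ∨ k * n * k⁻¹ * n₁ = n * n₁ := by
      rcases hm2 with h | h
      · right; rw [h]
      · left; rw [h, mul_assoc, hsq, mul_one]
    have hsub : ∀ w ∈ B, (⟨k, hk⟩ : fixingSubgroup G ({a, n₁ • a} : Set X)) • w ∈ B := by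
      intro w hw
      show k • (w : X) = n • a ∨ k • (w : X) = (n * n₁) • a
      rcases hw with hw | hw
      · rw [hw, hkn]
        rcases hm2 with h | h
        · left; rw [h]
        · right; rw [h]
      · rw [hw, hkn']
        rcases hmn2 with h | h
        · left; rw [h]
        · right; rw [h]
    have hinvsub : ∀ w ∈ B, (⟨k, hk⟩ : fixingSubgroup G ({a, n₁ • a} : Set X))⁻¹ • w ∈ B := by
      intro w hw
      show k⁻¹ • (w : X) = n • a ∨ k⁻¹ • (w : X) = (n * n₁) • a
      rw [inv_smul_eq_iff, inv_smul_eq_iff, hkn, hkn']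
      rcases hm2 with h | h
      · rcases hw with hw | hw
        · left; rw [hw, h]
        · right; rw [hw, h]
      · rcases hw with hw | hw
        · right; rw [hw, h, mul_assoc, hsq, mul_one]
        · left; rw [hw, h]
    ext w
    constructor
    · rintro ⟨v, hv, rfl⟩
      exact hsub v hv
    · intro hw
      refine ⟨(⟨k, hk⟩ : fixingSubgroup G ({a, n₁ • a} : Set X))⁻¹ • w, hinvsub w hw, ?_⟩
      simp
  have htriv := hprim.isTrivialBlock_of_isBlock hblock
  rcases htriv with hsub | huniv
  · exfalso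
    have h1 : (⟨n • a, hna⟩ : SubMulAction.ofFixingSubgroup G ({a, n₁ • a} : Set X)) ∈ B :=
      Or.inl rfl
    have h2 : (⟨(n * n₁) • a, hna'⟩ : SubMulAction.ofFixingSubgroup G ({a, n₁ • a} : Set X)) ∈ B :=
      Or.inr rfl
    have h3 := hsub h1 h2
    have h4 : n • a = (n * n₁) • a := congrArg Subtype.val h3
    have h5 : n = n * n₁ := hinj hn hnn h4
    exact hn₁1 (mul_eq_left.mp h5.symm)
  · have hxB : (⟨x, by
        rintro (h | h)
        · exact hx h
        · exact hx' h⟩ : SubMulAction.ofFixingSubgroup G ({a, n₁ • a} : Set X)) ∈ B := by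
      rw [huniv]; exact Set.mem_univ _
    exact hxB

/-- A triply primitive group of degree at least 3 having a regular normal subgroup has degree 3 or 4. -/
theorem result {G : Type*} [Group G] {X : Type*} [Fintype X] [MulAction G X] (hX : 3 ≤ Fintype.card X) (h3 : MulAction.IsMultiplyPreprimitive G X 3) (N : Subgroup G) [N.Normal] (htrans : MulAction.IsPretransitive N X) (hreg : ∀ x : X, MulAction.stabilizer N x = ⊥) : Fintype.card X = 3 ∨ Fintype.card X = 4 := by
  classical
  have h2 : MulAction.IsMultiplyPreprimitive G X 2 := by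
    refine MulAction.isMultiplyPreprimitive_of_le G X h3 (by norm_num) ?_
    rw [ENat.card_eq_coe_fintype_card]
    exact_mod_cast hX
  rcases S0695.result (by omega) h2 N htrans hreg with h | ⟨-, hex, m, hm⟩
  · exact Or.inl h
  right
  have hne : Nonempty X := by
    rw [← Fintype.card_pos_iff]; omega
  obtain ⟨a⟩ := hne
  have hinj := @S0695.reg_inj G _ X _ N hreg a
  -- pick a second point and a third point
  obtain ⟨b, hb⟩ : ∃ b : X, b ≠ a := by
    by_contra hcon
    push Not at hcon
    have : Fintype.card X ≤ 1 := Fintype.card_le_one_iff.mpr (fun x y => by rw [hcon x, hcon y])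
    omega
  obtain ⟨c, hca, hcb⟩ : ∃ c : X, c ≠ a ∧ c ≠ b := by
    by_contra hcon
    push Not at hcon
    have hsub : (Finset.univ : Finset X) ⊆ {a, b} := by
      intro x _
      simp only [Finset.mem_insert, Finset.mem_singleton]
      by_cases hxa : x = a
      · exact Or.inl hxa
      · exact Or.inr (hcon x hxa)
    have := Finset.card_le_card hsub
    rw [Finset.card_univ] at this
    have h2 : ({a, b} : Finset X).card ≤ 2 := Finset.card_le_two
    omega
  obtain ⟨⟨n₁, hn₁⟩, hn₁b⟩ := htrans.exists_smul_eq a b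
  obtain ⟨⟨n, hn⟩, hnc⟩ := htrans.exists_smul_eq a c
  have hn₁b' : n₁ • a = b := hn₁b
  have hnc' : n • a = c := hnc
  have hn₁1 : n₁ ≠ 1 := by
    rintro rfl
    exact hb (by rw [← hn₁b', one_smul])
  have hn1 : n ≠ 1 := by
    rintro rfl
    exact hca (by rw [← hnc', one_smul])
  have hnn₁ : n ≠ n₁ := by
    rintro rfl
    exact hcb (by rw [← hnc', hn₁b'])
  have hk := key h3 N hreg hex a n₁ hn₁ hn₁1 n hn hn1 hnn₁
  have huniv : (Finset.univ : Finset X) = {a, n₁ • a, n • a, (n * n₁) • a} := by
    ext x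
    simp only [Finset.mem_univ, Finset.mem_insert, Finset.mem_singleton, true_iff]
    by_cases hx : x = a
    · exact Or.inl hx
    · by_cases hx' : x = n₁ • a
      · exact Or.inr (Or.inl hx')
      · exact Or.inr (Or.inr (hk x hx hx'))
  have hle : Fintype.card X ≤ 4 := by
    rw [← Finset.card_univ, huniv]
    exact Finset.card_le_four
  -- the degree is a power of 2 which is at least 3 and at most 4
  have hm2 : 2 ≤ m := by
    by_contra hcon
    have : m = 0 ∨ m = 1 := by omega
    rcases this with rfl | rfl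
    · rw [pow_zero] at hm; omega
    · rw [pow_one] at hm; omega
  have : 2 ^ 2 ≤ 2 ^ m := Nat.pow_le_pow_right (by norm_num) hm2
  omega

end Cfsg.Agent.S0696
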