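import Mathlib
import Cfsg.Statements.S0698
import Cfsg.Agent.S0695
import Cfsg.Agent.S0696

set_option autoImplicit false
open Cfsg

namespace Cfsg.Agent.S0698

open MulAction

universe u v

/-- A nontrivial normal subgroup of a faithful primitive group is transitive. -/
theorem normal_pretransitive {H : Type*} [Group H] {X : Type*} [MulAction H X]
    (hprim : IsPreprimitive H X)
    (hfaith : ∀ h : H, (∀ x : X, h • x = x) → h = 1)
    (N : Subgroup H) [N.Normal] (hN : N ≠ ⊥) : IsPretransitive N X := by
  have := hprim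
  apply IsQuasiPreprimitive.isPretransitive_of_normal (G := H) (X := X) (N := N)
  intro hfix
  apply hN
  rw [Subgroup.eq_bot_iff_forall]
  intro n hn
  apply hfaith
  intro x
  have : x ∈ fixedPoints N X := by rw [hfix]; trivial
  exact this ⟨n, hn⟩

/-- Transitivity of the point stabilizer of `N` on the remaining points lifts to `N`. -/
theorem succ_trans {G : Type*} [Group G] {X : Type*} [MulAction G X] (N : Subgroup G) (a : X)
    (hN : IsPretransitive N X) (m : ℕ)
    (h : IsMultiplyPretransitive (N.subgroupOf (stabilizer G a))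
      (SubMulAction.ofStabilizer G a) m) :
    IsMultiplyPretransitive N X (m + 1) := by
  rw [SubMulAction.ofStabilizer.isMultiplyPretransitive (a := a)]
  rw [isMultiplyPretransitive_iff] at h ⊢
  intro x y
  let cx : (Fin m ↪ SubMulAction.ofStabilizer N a) → (Fin m ↪ SubMulAction.ofStabilizer G a) :=
    fun x => ⟨fun i => ⟨(x i : X), by
        have := (x i).2
        rw [SubMulAction.mem_ofStabilizer_iff] at this ⊢
        exact this⟩, by
      intro i j hij
      apply x.injective
      apply Subtype.ext
      exact congrArg Subtype.val hij⟩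
  obtain ⟨g, hg⟩ := h (cx x) (cx y)
  have hgN : ((g : stabilizer G a) : G) ∈ N := Subgroup.mem_subgroupOf.mp g.2
  have hga : ((g : stabilizer G a) : G) • a = a := (g : stabilizer G a).2
  refine ⟨⟨⟨((g : stabilizer G a) : G), hgN⟩, hga⟩, ?_⟩
  ext i
  have := congrArg (fun e => ((e i : SubMulAction.ofStabilizer G a) : X)) hg
  exact this

/-- The contradiction for a sharply 2-transitive normal subgroup whose point stabilizer has
exponent 2, on at least 4 points. -/
theorem swap_contra {G : Type*} [Group G] {X : Type*} [MulAction G X] (N : Subgroup G) (a : X)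
    (hNtr : ∀ x y : X, ∃ g ∈ N, g • x = y)
    (P1 : ∀ x y : X, x ≠ a → y ≠ a → ∃ s ∈ N, s • a = a ∧ s • x = y)
    (P2 : ∀ s ∈ N, s • a = a → s * s = 1)
    (P3 : ∀ s ∈ N, s • a = a → ∀ x : X, x ≠ a → s • x = x → s = 1)
    (b x y : X) (hba : b ≠ a) (hxa : x ≠ a) (hya : y ≠ a) (hxb : x ≠ b) (hyb : y ≠ b)
    (hxy : x ≠ y) : False := by
  obtain ⟨g, hgN, hgab⟩ := hNtr a b
  obtain ⟨s, hsN, hsa, hsx⟩ := P1 x y hxa hya
  have hx' : g⁻¹ • x ≠ a := by
    intro h; apply hxb; rw [← hgab, ← h, smul_inv_smul]
  have hy' : g⁻¹ • y ≠ a := by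
    intro h; apply hyb; rw [← hgab, ← h, smul_inv_smul]
  obtain ⟨s', hs'N, hs'a, hs'x⟩ := P1 (g⁻¹ • x) (g⁻¹ • y) hx' hy'
  have hgb : g⁻¹ • b = a := by rw [← hgab, inv_smul_smul]
  obtain ⟨t, ht⟩ : ∃ t : G, t = g * s' * g⁻¹ := ⟨_, rfl⟩
  have htN : t ∈ N := by rw [ht]; exact N.mul_mem (N.mul_mem hgN hs'N) (N.inv_mem hgN)
  have htb : t • b = b := by rw [ht, mul_smul, mul_smul, hgb, hs'a, hgab]
  have htx : t • x = y := by rw [ht, mul_smul, mul_smul, hs'x, smul_inv_smul]
  have hss : s * s = 1 := P2 s hsN hsa
  have hs's' : s' * s' = 1 := P2 s' hs'N hs'a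
  have htt : t * t = 1 := by
    rw [ht]
    calc g * s' * g⁻¹ * (g * s' * g⁻¹) = g * (s' * s') * g⁻¹ := by group
      _ = 1 := by rw [hs's']; group
  have hsy : s • y = x := by rw [← hsx, ← mul_smul, hss, one_smul]
  have hty : t • y = x := by rw [← htx, ← mul_smul, htt, one_smul]
  have hux : (s⁻¹ * t) • x = x := by rw [mul_smul, htx, inv_smul_eq_iff, hsx]
  have huy : (s⁻¹ * t) • y = y := by rw [mul_smul, hty, inv_smul_eq_iff, hsy]
  have huN : s⁻¹ * t ∈ N := N.mul_mem (N.inv_mem hsN) htN
  have hu1 : s⁻¹ * t = 1 := by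
    obtain ⟨h, hhN, hhax⟩ := hNtr a x
    have hhx : h⁻¹ • x = a := by rw [← hhax, inv_smul_smul]
    have hw := P3 (h⁻¹ * (s⁻¹ * t) * h) (N.mul_mem (N.mul_mem (N.inv_mem hhN) huN) hhN)
      (by rw [mul_smul, mul_smul, hhax, hux, hhx]) (h⁻¹ • y)
      (by intro hc; apply hxy; rw [← hhax, ← hc, smul_inv_smul])
      (by rw [mul_smul, mul_smul, smul_inv_smul, huy])
    have : s⁻¹ * t = h * (h⁻¹ * (s⁻¹ * t) * h) * h⁻¹ := by group
    rw [this, hw]; group
  have hst : t = s := by
    have := congrArg (fun w => s * w) hu1
    simpa using this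
  rw [hst] at htb
  have hs1 := P3 s hsN hsa b hba htb
  rw [hs1, one_smul] at hsx
  exact hxy hsx

theorem J : ∀ (k : ℕ), 2 ≤ k → ∀ (G : Type u) [Group G] (X : Type v) [Finite X] [MulAction G X],
    (∀ g : G, (∀ x : X, g • x = x) → g = 1) → k < Nat.card X → IsMultiplyPretransitive G X k →
    ∀ (N : Subgroup G) [N.Normal], N ≠ ⊥ →
      IsMultiplyPretransitive N X (k - 1) ∨
        (k = 3 ∧ (∀ a ∈ N, ∀ b ∈ N, a * b = b * a) ∧ (∀ n ∈ N, n ^ 2 = 1) ∧
          ∀ x : X, ∀ n ∈ N, n • x = x → n = 1) := by
  intro k
  induction k with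
  | zero => intro h; omega
  | succ k ih =>
    intro hk G _ X _ _ hfaith hcard hG N _ hN
    have h2 : IsMultiplyPretransitive G X 2 :=
      isMultiplyPretransitive_of_le (n := k + 1) hk hcard.le
    have hprim : IsPreprimitive G X := isPreprimitive_of_is_two_pretransitive h2
    have htr : IsPretransitive G X := hprim.toIsPretransitive
    have hNtr : IsPretransitive N X := normal_pretransitive hprim hfaith N hN
    have hNtr' : ∀ x y : X, ∃ g ∈ N, g • x = y := by
      intro x y
      obtain ⟨g, hg⟩ := hNtr.exists_smul_eq x y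
      exact ⟨g, g.2, hg⟩
    by_cases hk2 : k = 1
    · subst hk2
      left
      exact is_one_pretransitive_iff.mpr hNtr
    have hk3 : 2 ≤ k := by omega
    have hne : Nonempty X := by
      rw [← Finite.card_pos_iff]; omega
    obtain ⟨a⟩ := hne
    by_cases hreg : ∀ n ∈ N, n • a = a → n = 1
    · right
      have hreg' : ∀ x : X, ∀ n ∈ N, n • x = x → n = 1 := by
        intro x n hn hx
        obtain ⟨m, hmN, hm⟩ := hNtr' a x
        have h1 := hreg (m⁻¹ * n * m) (N.mul_mem (N.mul_mem (N.inv_mem hmN) hn) hmN) (by
          rw [mul_smul, mul_smul, hm, hx, ← hm, inv_smul_smul])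
        have : n = m * (m⁻¹ * n * m) * m⁻¹ := by group
        rw [this, h1]; group
      have hstab : ∀ x : X, stabilizer N x = ⊥ := by
        intro x
        rw [Subgroup.eq_bot_iff_forall]
        intro n hn
        exact Subtype.ext (hreg' x n n.2 hn)
      letI : Fintype X := Fintype.ofFinite X
      have hcardF : Fintype.card X = Nat.card X := (Nat.card_eq_fintype_card).symm
      have hE : ENat.card X = (Nat.card X : ℕ∞) := ENat.card_eq_coe_natCard X
      have h3 : IsMultiplyPretransitive G X 3 :=
        isMultiplyPretransitive_of_le (n := k + 1) (by omega) hcard.le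
      have h2p : IsMultiplyPreprimitive G X 2 :=
        isMultiplyPreprimitive_of_isMultiplyPretransitive_succ G X (n := 2) (by
          rw [hE]; exact_mod_cast (by omega : 3 ≤ Nat.card X))
      rcases Cfsg.Agent.S0695.result (by omega) h2p N hNtr hstab with h | ⟨hc, he, -⟩
      · omega
      · have hk' : k + 1 = 3 := by
          by_contra hne3
          have h4 : IsMultiplyPretransitive G X 4 :=
            isMultiplyPretransitive_of_le (n := k + 1) (by omega) hcard.le
          have h3p : IsMultiplyPreprimitive G X 3 :=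
            isMultiplyPreprimitive_of_isMultiplyPretransitive_succ G X (n := 3) (by
              rw [hE]; exact_mod_cast (by omega : 4 ≤ Nat.card X))
          rcases Cfsg.Agent.S0696.result (by omega) h3p N hNtr hstab with h | h <;> omega
        refine ⟨hk', ?_, he, hreg'⟩
        intro a ha b hb
        have := hc.is_comm.comm (⟨a, ha⟩ : N) ⟨b, hb⟩
        exact congrArg Subtype.val this
    · push Not at hreg
      obtain ⟨n₀, hn₀N, hn₀a, hn₀1⟩ := hreg
      have hGa : IsMultiplyPretransitive (stabilizer G a) (SubMulAction.ofStabilizer G a) k :=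
        (SubMulAction.ofStabilizer.isMultiplyPretransitive (a := a)).mp hG
      have hcard' : k < Nat.card (SubMulAction.ofStabilizer G a) := by
        rw [SubMulAction.nat_card_ofStabilizer_eq]; omega
      have hfaith' : ∀ g : stabilizer G a,
          (∀ x : SubMulAction.ofStabilizer G a, g • x = x) → g = 1 := by
        intro g hg
        apply Subtype.ext
        apply hfaith
        intro x
        by_cases hx : x = a
        · rw [hx]; exact g.2
        · have := hg ⟨x, (SubMulAction.mem_ofStabilizer_iff G a).mpr hx⟩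
          exact congrArg Subtype.val this
      have hNa_ne : N.subgroupOf (stabilizer G a) ≠ ⊥ := by
        intro h
        have : (⟨n₀, hn₀a⟩ : stabilizer G a) ∈ N.subgroupOf (stabilizer G a) :=
          Subgroup.mem_subgroupOf.mpr hn₀N
        rw [h, Subgroup.mem_bot] at this
        exact hn₀1 (congrArg Subtype.val this)
      rcases ih hk3 (stabilizer G a) (SubMulAction.ofStabilizer G a) hfaith' hcard' hGa
        (N.subgroupOf (stabilizer G a)) hNa_ne with h | ⟨hk', -, hexp, hreg1⟩
      · left
        have h5 := succ_trans N a hNtr (k - 1) h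
        have e : k - 1 + 1 = k + 1 - 1 := by omega
        rw [e] at h5
        exact h5
      · exfalso
        -- transitivity of the stabilizer on the other points
        have h2a : IsMultiplyPretransitive (stabilizer G a) (SubMulAction.ofStabilizer G a) 2 :=
          isMultiplyPretransitive_of_le (n := k) hk3 hcard'.le
        have hprima : IsPreprimitive (stabilizer G a) (SubMulAction.ofStabilizer G a) :=
          isPreprimitive_of_is_two_pretransitive h2a
        have hNatr := normal_pretransitive hprima hfaith' (N.subgroupOf (stabilizer G a)) hNa_ne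
        have P1 : ∀ x y : X, x ≠ a → y ≠ a → ∃ s ∈ N, s • a = a ∧ s • x = y := by
          intro x y hx hy
          obtain ⟨g, hg⟩ := hNatr.exists_smul_eq
            (⟨x, (SubMulAction.mem_ofStabilizer_iff G a).mpr hx⟩ : SubMulAction.ofStabilizer G a)
            ⟨y, (SubMulAction.mem_ofStabilizer_iff G a).mpr hy⟩
          refine ⟨((g : stabilizer G a) : G), Subgroup.mem_subgroupOf.mp g.2,
            (g : stabilizer G a).2, ?_⟩
          exact congrArg Subtype.val hg
        have P2 : ∀ s ∈ N, s • a = a → s * s = 1 := by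
          intro s hs hsa
          have := hexp (⟨s, hsa⟩ : stabilizer G a) (Subgroup.mem_subgroupOf.mpr hs)
          have h6 := congrArg Subtype.val this
          rw [← sq]
          simpa using h6
        have P3 : ∀ s ∈ N, s • a = a → ∀ x : X, x ≠ a → s • x = x → s = 1 := by
          intro s hs hsa x hx hsx
          have := hreg1 ⟨x, (SubMulAction.mem_ofStabilizer_iff G a).mpr hx⟩
            (⟨s, hsa⟩ : stabilizer G a) (Subgroup.mem_subgroupOf.mpr hs) (Subtype.ext hsx)
          exact congrArg Subtype.val this
        -- four distinct points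
        classical
        letI : Fintype X := Fintype.ofFinite X
        have hcardF : Fintype.card X = Nat.card X := (Nat.card_eq_fintype_card).symm
        have hc1 : ({a} : Finset X).card < (Finset.univ : Finset X).card := by
          rw [Finset.card_singleton, Finset.card_univ, hcardF]; omega
        obtain ⟨b, -, hb⟩ := Finset.exists_mem_notMem_of_card_lt_card hc1
        have hc2 : ({a, b} : Finset X).card < (Finset.univ : Finset X).card := by
          have := Finset.card_le_two (a := a) (b := b)
          rw [Finset.card_univ, hcardF]; omega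
        obtain ⟨x, -, hx⟩ := Finset.exists_mem_notMem_of_card_lt_card hc2
        have hc3 : ({a, b, x} : Finset X).card < (Finset.univ : Finset X).card := by
          have := Finset.card_le_three (a := a) (b := b) (c := x)
          rw [Finset.card_univ, hcardF]; omega
        obtain ⟨y, -, hy⟩ := Finset.exists_mem_notMem_of_card_lt_card hc3
        simp only [Finset.mem_singleton, Finset.mem_insert, not_or] at hb hx hy
        exact swap_contra N a hNtr' P1 P2 P3 b x y hb hx.1 hy.1 hx.2 hy.2.1 (Ne.symm hy.2.2)

theorem result {α : Type*} [Fintype α] [DecidableEq α] (G : Subgroup (Equiv.Perm α)) {k : ℕ} (hk : 1 < k) (hdeg : k < Fintype.card α) (hG : MulAction.IsMultiplyPretransitive G α k) (N : Subgroup G) [N.Normal] (hN : N ≠ ⊥) : MulAction.IsMultiplyPretransitive N α (k - 1) ∨ (k = 3 ∧ IsMulCommutative N ∧ ∀ n ∈ N, n ^ 2 = 1) := by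
  have hfaith : ∀ g : G, (∀ x : α, g • x = x) → g = 1 := by
    intro g hg
    apply Subtype.ext
    ext x
    exact hg x
  rcases J k hk G α hfaith (by rw [Nat.card_eq_fintype_card]; exact hdeg) hG N hN with
    h | ⟨h3, hc, he, -⟩
  · left; exact h
  · right
    exact ⟨h3, isMulCommutative_iff.mpr (fun a b => Subtype.ext (hc a a.2 b b.2)), he⟩

end Cfsg.Agent.S0698
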