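import Mathlib
import Cfsg.Statements.S0697
import Cfsg.Agent.S0698

set_option autoImplicit false
open Cfsg

namespace Cfsg.Agent.S0697

open MulAction

universe u v

/-- In a group whose two-point stabilizer is primitive on the remaining points, an element `s ≠ 1`
of a normal subgroup `H` with `H_a` semiregular off `a` is an involution, or there are at most
four points. -/
theorem sq_or_small {G : Type*} [Group G] {X : Type*} [MulAction G X] (H : Subgroup G)
    [hHn : H.Normal] (a b : X) (hab : a ≠ b)
    (hprim : IsPreprimitive (fixingSubgroup G ({a, b} : Set X))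
      (SubMulAction.ofFixingSubgroup G ({a, b} : Set X)))
    (P3 : ∀ s ∈ H, s • a = a → ∀ x : X, x ≠ a → s • x = x → s = 1)
    (s : G) (hs : s ∈ H) (hsa : s • a = a) (hs1 : s ≠ 1) :
    s * s = 1 ∨ ∀ x : X, x = a ∨ x = b ∨ x = s • b ∨ x = s⁻¹ • b := by
  have hinj : ∀ u ∈ H, ∀ v ∈ H, u • a = a → v • a = a → u • b = v • b → u = v := by
    intro u hu v hv hua hva huv
    have h1 := P3 (v⁻¹ * u) (H.mul_mem (H.inv_mem hv) hu)
      (by rw [mul_smul, hua, inv_smul_eq_iff, hva]) b (Ne.symm hab)
      (by rw [mul_smul, huv, inv_smul_smul])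
    have := congrArg (fun w => v * w) h1
    simpa using this
  have hsia : s⁻¹ • a = a := by rw [inv_smul_eq_iff, hsa]
  have hsiH : s⁻¹ ∈ H := H.inv_mem hs
  have hsi1 : s⁻¹ ≠ 1 := fun h => hs1 (inv_eq_one.mp h)
  have hnot : ∀ u ∈ H, u • a = a → u ≠ 1 → u • b ∉ ({a, b} : Set X) := by
    intro u hu hua hu1
    rintro (h | h)
    · apply hab
      have : u • b = u • a := by rw [h, hua]
      exact (MulAction.injective u this).symm
    · exact hu1 (P3 u hu hua b (Ne.symm hab) h)
  obtain ⟨B, hB⟩ : ∃ B : Set (SubMulAction.ofFixingSubgroup G ({a, b} : Set X)),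
      B = {y : SubMulAction.ofFixingSubgroup G ({a, b} : Set X) |
        (y : X) = s • b ∨ (y : X) = s⁻¹ • b} := ⟨_, rfl⟩
  have hBmem : ∀ y : SubMulAction.ofFixingSubgroup G ({a, b} : Set X),
      y ∈ B ↔ ((y : X) = s • b ∨ (y : X) = s⁻¹ • b) := by
    intro y; rw [hB]; exact Iff.rfl
  have claim : ∀ g : fixingSubgroup G ({a, b} : Set X),
      ∀ y ∈ B, g • y ∈ B → ∀ w ∈ B, g • w ∈ B := by
    rintro ⟨k, hk⟩ y hy hky w hw
    have hka : k • a = a := (mem_fixingSubgroup_iff G).mp hk a (Set.mem_insert _ _)
    have hkb : k • b = b :=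
      (mem_fixingSubgroup_iff G).mp hk b (Set.mem_insert_of_mem _ rfl)
    have hkia : k⁻¹ • a = a := by rw [inv_smul_eq_iff, hka]
    have hkib : k⁻¹ • b = b := by rw [inv_smul_eq_iff, hkb]
    have hm : k * s * k⁻¹ ∈ H := hHn.conj_mem s hs k
    have hma : (k * s * k⁻¹) • a = a := by rw [mul_smul, mul_smul, hkia, hsa, hka]
    have hmi : (k * s * k⁻¹)⁻¹ ∈ H := H.inv_mem hm
    have hmia : (k * s * k⁻¹)⁻¹ • a = a := by rw [inv_smul_eq_iff, hma]
    have e1 : k • (s • b) = (k * s * k⁻¹) • b := by rw [mul_smul, mul_smul, hkib]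
    have e2 : k • (s⁻¹ • b) = (k * s * k⁻¹)⁻¹ • b := by
      have : (k * s * k⁻¹)⁻¹ = k * s⁻¹ * k⁻¹ := by group
      rw [this, mul_smul, mul_smul, hkib]
    have hky' : k • (y : X) = s • b ∨ k • (y : X) = s⁻¹ • b := (hBmem _).mp hky
    have hcase : k * s * k⁻¹ = s ∨ k * s * k⁻¹ = s⁻¹ := by
      rcases (hBmem y).mp hy with hy | hy
      · rw [hy, e1] at hky'
        rcases hky' with h | h
        · exact Or.inl (hinj _ hm _ hs hma hsa h)
        · exact Or.inr (hinj _ hm _ hsiH hma hsia h)
      · rw [hy, e2] at hky'
        rcases hky' with h | h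
        · right
          have := hinj _ hmi _ hs hmia hsa h
          exact inv_eq_iff_eq_inv.mp this
        · left
          have := hinj _ hmi _ hsiH hmia hsia h
          exact inv_injective this
    rw [hBmem]
    show k • (w : X) = s • b ∨ k • (w : X) = s⁻¹ • b
    rcases (hBmem w).mp hw with hw | hw
    · rw [hw, e1]
      rcases hcase with h | h
      · left; rw [h]
      · right; rw [h]
    · rw [hw, e2]
      rcases hcase with h | h
      · right; rw [h]
      · left; rw [h, inv_inv]
  have hblock : IsBlock (fixingSubgroup G ({a, b} : Set X)) B := by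
    rw [isBlock_iff_smul_eq_of_mem]
    intro g y hy hgy
    ext w
    constructor
    · rintro ⟨v, hv, rfl⟩
      exact claim g y hy hgy v hv
    · intro hw
      refine ⟨g⁻¹ • w, claim g⁻¹ (g • y) hgy (by rw [inv_smul_smul]; exact hy) w hw, ?_⟩
      simp
  have hc : s • b ∉ ({a, b} : Set X) := hnot s hs hsa hs1
  have hc' : s⁻¹ • b ∉ ({a, b} : Set X) := hnot s⁻¹ hsiH hsia hsi1
  rcases hprim.isTrivialBlock_of_isBlock hblock with hsub | huniv
  · left
    have h1 : (⟨s • b, hc⟩ : SubMulAction.ofFixingSubgroup G ({a, b} : Set X)) ∈ B :=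
      (hBmem _).mpr (Or.inl rfl)
    have h2 : (⟨s⁻¹ • b, hc'⟩ : SubMulAction.ofFixingSubgroup G ({a, b} : Set X)) ∈ B :=
      (hBmem _).mpr (Or.inr rfl)
    have h3 := hsub h1 h2
    have h4 : s • b = s⁻¹ • b := congrArg Subtype.val h3
    have h5 : s = s⁻¹ := hinj s hs s⁻¹ hsiH hsa hsia h4
    calc s * s = s * s⁻¹ := by rw [← h5]
      _ = 1 := mul_inv_cancel s
  · right
    intro x
    by_cases hxa : x = a
    · exact Or.inl hxa
    · by_cases hxb : x = b
      · exact Or.inr (Or.inl hxb)
      · right; right
        have hxB : (⟨x, by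
            rintro (h | h)
            · exact hxa h
            · exact hxb h⟩ : SubMulAction.ofFixingSubgroup G ({a, b} : Set X)) ∈ B := by
          rw [huniv]; exact Set.mem_univ _
        exact (hBmem _).mp hxB

theorem P : ∀ (k : ℕ), 1 ≤ k → ∀ (G : Type u) [Group G] [Finite G] (X : Type v) [Finite X]
    [MulAction G X],
    (∀ g : G, (∀ x : X, g • x = x) → g = 1) → k ≤ Nat.card X → IsMultiplyPreprimitive G X k →
    Nat.card G < (Nat.card X).factorial →
    ∀ (H : Subgroup G) [H.Normal], H ≠ ⊥ → (2 ≤ k → ∃ a : X, ∃ h ∈ H, h ≠ 1 ∧ h • a = a) →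
      IsMultiplyPretransitive H X k := by
  intro k
  induction k with
  | zero => intro h; omega
  | succ k ih =>
    intro _ G _ _ X _ _ hfaith hcard hG hlt H _ hH hnr
    by_cases hk0 : k = 0
    · subst hk0
      have hprim : IsPreprimitive G X := (is_one_preprimitive_iff G X).mp hG
      exact is_one_pretransitive_iff.mpr
        (Cfsg.Agent.S0698.normal_pretransitive hprim hfaith H hH)
    have hk1 : 1 ≤ k := by omega
    have hGt : IsMultiplyPretransitive G X (k + 1) := hG.isMultiplyPretransitive
    have h2 : IsMultiplyPretransitive G X 2 :=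
      isMultiplyPretransitive_of_le (n := k + 1) (by omega) hcard
    have hprim : IsPreprimitive G X := isPreprimitive_of_is_two_pretransitive h2
    have htr : IsPretransitive G X := hprim.toIsPretransitive
    have hHtr : IsPretransitive H X := Cfsg.Agent.S0698.normal_pretransitive hprim hfaith H hH
    have hHtr' : ∀ x y : X, ∃ g ∈ H, g • x = y := by
      intro x y
      obtain ⟨g, hg⟩ := hHtr.exists_smul_eq x y
      exact ⟨g, g.2, hg⟩
    obtain ⟨a, h₀, hh₀, hh₀1, hh₀a⟩ := hnr (by omega)
    have hGa : IsMultiplyPreprimitive (stabilizer G a) (SubMulAction.ofStabilizer G a) k :=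
      isMultiplyPreprimitive_ofStabilizer G X
    have hcardeq : Nat.card (SubMulAction.ofStabilizer G a) = Nat.card X - 1 :=
      SubMulAction.nat_card_ofStabilizer_eq G a
    have hcard' : k ≤ Nat.card (SubMulAction.ofStabilizer G a) := by
      rw [hcardeq]; omega
    have hfaith' : ∀ g : stabilizer G a,
        (∀ x : SubMulAction.ofStabilizer G a, g • x = x) → g = 1 := by
      intro g hg
      apply Subtype.ext
      apply hfaith
      intro x
      by_cases hx : x = a
      · rw [hx]; exact g.2
      · have := hg ⟨x, (SubMulAction.mem_ofStabilizer_iff G a).mpr hx⟩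
        exact congrArg Subtype.val this
    have hHa_ne : H.subgroupOf (stabilizer G a) ≠ ⊥ := by
      intro h
      have : (⟨h₀, hh₀a⟩ : stabilizer G a) ∈ H.subgroupOf (stabilizer G a) :=
        Subgroup.mem_subgroupOf.mpr hh₀
      rw [h, Subgroup.mem_bot] at this
      exact hh₀1 (congrArg Subtype.val this)
    have hlt' : Nat.card (stabilizer G a) <
        (Nat.card (SubMulAction.ofStabilizer G a)).factorial := by
      rw [hcardeq]
      have h1 := Subgroup.card_mul_index (stabilizer G a)
      rw [MulAction.index_stabilizer_of_transitive] at h1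
      obtain ⟨n, hn⟩ : ∃ n, Nat.card X = n + 1 := ⟨Nat.card X - 1, by omega⟩
      rw [hn, Nat.factorial_succ, ← h1, hn] at hlt
      rw [hn, Nat.add_sub_cancel]
      rw [mul_comm] at hlt
      exact lt_of_mul_lt_mul_left hlt (Nat.zero_le _)
    have hnr' : 2 ≤ k → ∃ x : SubMulAction.ofStabilizer G a,
        ∃ h ∈ H.subgroupOf (stabilizer G a), h ≠ 1 ∧ h • x = x := by
      intro hk2
      by_contra hcon
      push Not at hcon
      have P3 : ∀ s ∈ H, s • a = a → ∀ x : X, x ≠ a → s • x = x → s = 1 := by
        intro s hs hsa x hx hsx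
        by_contra hs1
        exact hcon ⟨x, (SubMulAction.mem_ofStabilizer_iff G a).mpr hx⟩
          (⟨s, hsa⟩ : stabilizer G a) (Subgroup.mem_subgroupOf.mpr hs)
          (fun h => hs1 (congrArg Subtype.val h)) (Subtype.ext hsx)
      have hGat : IsMultiplyPretransitive (stabilizer G a) (SubMulAction.ofStabilizer G a) k :=
        hGa.isMultiplyPretransitive
      have h2a : IsMultiplyPretransitive (stabilizer G a) (SubMulAction.ofStabilizer G a) 2 :=
        isMultiplyPretransitive_of_le (n := k) hk2 hcard'
      have hprima : IsPreprimitive (stabilizer G a) (SubMulAction.ofStabilizer G a) :=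
        isPreprimitive_of_is_two_pretransitive h2a
      have hHatr := Cfsg.Agent.S0698.normal_pretransitive hprima hfaith'
        (H.subgroupOf (stabilizer G a)) hHa_ne
      have P1 : ∀ x y : X, x ≠ a → y ≠ a → ∃ s ∈ H, s • a = a ∧ s • x = y := by
        intro x y hx hy
        obtain ⟨g, hg⟩ := hHatr.exists_smul_eq
          (⟨x, (SubMulAction.mem_ofStabilizer_iff G a).mpr hx⟩ : SubMulAction.ofStabilizer G a)
          ⟨y, (SubMulAction.mem_ofStabilizer_iff G a).mpr hy⟩
        refine ⟨((g : stabilizer G a) : G), Subgroup.mem_subgroupOf.mp g.2,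
          (g : stabilizer G a).2, ?_⟩
        exact congrArg Subtype.val hg
      classical
      letI : Fintype X := Fintype.ofFinite X
      have hcardF : Fintype.card X = Nat.card X := (Nat.card_eq_fintype_card).symm
      have hc1 : ({a} : Finset X).card < (Finset.univ : Finset X).card := by
        rw [Finset.card_singleton, Finset.card_univ, hcardF]; omega
      obtain ⟨b, -, hb⟩ := Finset.exists_mem_notMem_of_card_lt_card hc1
      rw [Finset.mem_singleton] at hb
      have h3t : IsMultiplyPretransitive G X 3 :=
        isMultiplyPretransitive_of_le (n := k + 1) (by omega) hcard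
      by_cases h5 : 5 ≤ Nat.card X
      · have hE : ENat.card X = (Nat.card X : ℕ∞) := ENat.card_eq_coe_natCard X
        have h3p : IsMultiplyPreprimitive G X 3 :=
          isMultiplyPreprimitive_of_le G X hG (by omega) (by
            rw [hE]; exact_mod_cast hcard)
        have hprimab : IsPreprimitive (fixingSubgroup G ({a, b} : Set X))
            (SubMulAction.ofFixingSubgroup G ({a, b} : Set X)) :=
          IsMultiplyPreprimitive.isPreprimitive_ofFixingSubgroup G 3 (by
            rw [Set.encard_pair (Ne.symm hb)]; rfl)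
        have P2 : ∀ s ∈ H, s • a = a → s * s = 1 := by
          intro s hs hsa
          by_cases hs1 : s = 1
          · rw [hs1, one_mul]
          rcases sq_or_small H a b (Ne.symm hb) hprimab P3 s hs hsa hs1 with h | h
          · exact h
          · exfalso
            have hsub : (Finset.univ : Finset X) ⊆ {a, b, s • b, s⁻¹ • b} := by
              intro x _
              simp only [Finset.mem_insert, Finset.mem_singleton]
              exact h x
            have h6 := Finset.card_le_card hsub
            have h7 := Finset.card_le_four (a := a) (b := b) (c := s • b) (d := s⁻¹ • b)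
            rw [Finset.card_univ, hcardF] at h6
            omega
        have hc2 : ({a, b} : Finset X).card < (Finset.univ : Finset X).card := by
          have := Finset.card_le_two (a := a) (b := b)
          rw [Finset.card_univ, hcardF]; omega
        obtain ⟨x, -, hx⟩ := Finset.exists_mem_notMem_of_card_lt_card hc2
        have hc3 : ({a, b, x} : Finset X).card < (Finset.univ : Finset X).card := by
          have := Finset.card_le_three (a := a) (b := b) (c := x)
          rw [Finset.card_univ, hcardF]; omega
        obtain ⟨y, -, hy⟩ := Finset.exists_mem_notMem_of_card_lt_card hc3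
        simp only [Finset.mem_singleton, Finset.mem_insert, not_or] at hx hy
        exact Cfsg.Agent.S0698.swap_contra H a hHtr' P1 P2 P3 b x y hb hx.1 hy.1 hx.2 hy.2.1
          (Ne.symm hy.2.2)
      · -- at most four points: `G` is the full symmetric group
        have h3c : 3 ≤ Fintype.card X := by rw [hcardF]; omega
        obtain ⟨x₀⟩ : Nonempty (Fin 3 ↪ X) :=
          Function.Embedding.nonempty_of_card_le (by rw [Fintype.card_fin]; exact h3c)
        have hsurj : Function.Surjective (fun g : G => g • x₀) :=
          fun y => h3t.exists_smul_eq x₀ y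
        have h6 := Nat.card_le_card_of_surjective _ hsurj
        rw [Nat.card_eq_fintype_card, Fintype.card_embedding_eq, Fintype.card_fin, hcardF] at h6
        have h7 : Nat.card X = 3 ∨ Nat.card X = 4 := by omega
        rcases h7 with h7 | h7
        · rw [h7] at h6 hlt
          have e1 : Nat.descFactorial 3 3 = 6 := by decide
          have e2 : Nat.factorial 3 = 6 := by decide
          omega
        · rw [h7] at h6 hlt
          have e1 : Nat.descFactorial 4 3 = 24 := by decide
          have e2 : Nat.factorial 4 = 24 := by decide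
          omega
    have h5 := ih hk1 (stabilizer G a) (SubMulAction.ofStabilizer G a) hfaith' hcard' hGa hlt'
      (H.subgroupOf (stabilizer G a)) hHa_ne hnr'
    exact Cfsg.Agent.S0698.succ_trans H a hHtr k h5

theorem result {α : Type*} [Fintype α] [DecidableEq α] (G : Subgroup (Equiv.Perm α)) {k : ℕ} (hk : 1 ≤ k) (hkn : k ≤ Fintype.card α) (hG : MulAction.IsMultiplyPreprimitive G α k) (htop : G ≠ ⊤) (H : Subgroup G) [H.Normal] (hH : H ≠ ⊥) (hnr : ∃ a : α, MulAction.stabilizer H a ≠ ⊥) : MulAction.IsMultiplyPretransitive H α k := by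
  have hfaith : ∀ g : G, (∀ x : α, g • x = x) → g = 1 := by
    intro g hg
    apply Subtype.ext
    ext x
    exact hg x
  have hlt : Nat.card G < (Nat.card α).factorial := by
    have h1 : Nat.card (Equiv.Perm α) = (Nat.card α).factorial := by
      rw [Nat.card_eq_fintype_card, Fintype.card_perm, Nat.card_eq_fintype_card]
    rw [← h1]
    refine lt_of_le_of_ne (Subgroup.card_le_card_group G) ?_
    intro h
    exact htop ((Subgroup.card_eq_iff_eq_top G).mp h)
  refine P k hk G α hfaith (by rw [Nat.card_eq_fintype_card]; exact hkn) hG hlt H hH ?_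
  intro _
  obtain ⟨a, ha⟩ := hnr
  obtain ⟨x, hx⟩ := (Subgroup.ne_bot_iff_exists_ne_one).mp ha
  refine ⟨a, ((x : H) : G), (x : H).2, ?_, x.2⟩
  intro h
  apply hx
  apply Subtype.ext
  apply Subtype.ext
  exact h

end Cfsg.Agent.S0697
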