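import Cfsg.Statements.S0699
import Mathlib
import Cfsg.Agent.Lib.Helper12.MultTrans

set_option autoImplicit false
open Cfsg

namespace Cfsg.Agent.S0699

open Equiv Cfsg.Agent.Lib.Helper12.MultTrans

variable {α : Type*} [Fintype α] [DecidableEq α]

/-- A non-trivial normal subgroup of a 3-transitive group of odd degree is 2-transitive. -/
theorem two_trans (G N : Subgroup (Perm α)) (hodd : Odd (Fintype.card α))
    (h5 : 5 ≤ Fintype.card α) (hMT : MT G ∅ 3) (hNG : N ≤ G)
    (hnorm : ∀ g ∈ G, ∀ n ∈ N, g * n * g⁻¹ ∈ N) (hN : N ≠ ⊥) : MT N ∅ 2 := by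
  rcases main 1 ∅ G N (by simp) hMT (by simp; omega) hNG hnorm hN with h | ⟨-, hcomm, hsq⟩
  · exact h
  · exfalso
    have hMT2 : MT G ∅ 2 := MT_mono1 hMT (by simp; omega)
    have hTr := Tr_of_normal (S := ∅) (by simp) hMT2 hNG hnorm hN
    have hsemi := semi_of_comm (S := ∅) (by simp) hTr hcomm
    obtain ⟨⟨n, hn⟩, hn1⟩ := (Subgroup.ne_bot_iff_exists_ne_one).mp hN
    have hn1' : n ≠ 1 := fun h => hn1 (Subtype.ext h)
    have hfp : ∀ c, n c ≠ c := fun c hc => hn1' (hsemi n hn c (by simp) hc)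
    have h2 : 2 ∣ n.support.card := Perm.two_dvd_card_support (by rw [pow_two]; exact hsq n hn)
    have h3 : n.support = Finset.univ := by
      ext c
      simp [Perm.mem_support, hfp c]
    rw [h3, Finset.card_univ] at h2
    exact hodd.not_two_dvd_nat h2

/-- The pointwise stabiliser of two points. -/
def ptStab (N : Subgroup (Perm α)) (a b : α) : Subgroup (Perm α) where
  carrier := {n | n ∈ N ∧ n a = a ∧ n b = b}
  one_mem' := ⟨N.one_mem, rfl, rfl⟩
  mul_mem' := by
    rintro x y ⟨hx, h1, h2⟩ ⟨hy, h3, h4⟩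
    exact ⟨N.mul_mem hx hy, by rw [Perm.mul_apply, h3, h1], by rw [Perm.mul_apply, h4, h2]⟩
  inv_mem' := by
    rintro x ⟨hx, h1, h2⟩
    exact ⟨N.inv_mem hx, inv_apply_eq' x h1, inv_apply_eq' x h2⟩

/-- The setwise stabiliser of a pair of points. -/
def setStab (N : Subgroup (Perm α)) (a b : α) : Subgroup (Perm α) where
  carrier := {n | n ∈ N ∧ ((n a = a ∧ n b = b) ∨ (n a = b ∧ n b = a))}
  one_mem' := ⟨N.one_mem, Or.inl ⟨rfl, rfl⟩⟩
  mul_mem' := by
    rintro x y ⟨hx, hx'⟩ ⟨hy, hy'⟩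
    refine ⟨N.mul_mem hx hy, ?_⟩
    rcases hx' with ⟨h1, h2⟩ | ⟨h1, h2⟩ <;> rcases hy' with ⟨h3, h4⟩ | ⟨h3, h4⟩ <;>
      simp [Perm.mul_apply, h1, h2, h3, h4]
  inv_mem' := by
    rintro x ⟨hx, hx'⟩
    refine ⟨N.inv_mem hx, ?_⟩
    rcases hx' with ⟨h1, h2⟩ | ⟨h1, h2⟩
    · left; exact ⟨inv_apply_eq' x h1, inv_apply_eq' x h2⟩
    · right; exact ⟨inv_apply_eq' x h2, inv_apply_eq' x h1⟩

omit [Fintype α] [DecidableEq α] in
theorem mem_ptStab {N : Subgroup (Perm α)} {a b : α} {n : Perm α} :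
    n ∈ ptStab N a b ↔ n ∈ N ∧ n a = a ∧ n b = b := Iff.rfl

omit [Fintype α] [DecidableEq α] in
theorem mem_setStab {N : Subgroup (Perm α)} {a b : α} {n : Perm α} :
    n ∈ setStab N a b ↔ n ∈ N ∧ ((n a = a ∧ n b = b) ∨ (n a = b ∧ n b = a)) := Iff.rfl

omit [Fintype α] [DecidableEq α] in
/-- All two-point stabilisers of a 2-transitive group have the same order. -/
theorem card_ptStab (N : Subgroup (Perm α)) (hMT2 : MT N ∅ 2) {a b x y : α} (hab : a ≠ b)
    (hxy : x ≠ y) : Nat.card (ptStab N x y) = Nat.card (ptStab N a b) := by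
  obtain ⟨g, hg, h1, h2⟩ := hMT2.two (by simp) (by simp) (by simp) (by simp) hab hxy
  have h3 : ptStab N x y = (ptStab N a b).map (MulAut.conj g).toMonoidHom := by
    ext n
    rw [Subgroup.mem_map]
    constructor
    · rintro ⟨hn, hnx, hny⟩
      refine ⟨g⁻¹ * n * g, ⟨N.mul_mem (N.mul_mem (N.inv_mem hg) hn) hg, ?_, ?_⟩, ?_⟩
      · rw [Perm.mul_apply, Perm.mul_apply, h1, hnx]; exact inv_apply_eq' g h1
      · rw [Perm.mul_apply, Perm.mul_apply, h2, hny]; exact inv_apply_eq' g h2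
      · simp only [MulEquiv.coe_toMonoidHom, MulAut.conj_apply]
        group
    · rintro ⟨m, ⟨hm, hma, hmb⟩, rfl⟩
      simp only [MulEquiv.coe_toMonoidHom, MulAut.conj_apply]
      refine ⟨N.mul_mem (N.mul_mem hg hm) (N.inv_mem hg), ?_, ?_⟩
      · rw [Perm.mul_apply, Perm.mul_apply, inv_apply_eq' g h1, hma, h1]
      · rw [Perm.mul_apply, Perm.mul_apply, inv_apply_eq' g h2, hmb, h2]
  rw [h3]
  exact Subgroup.card_map_of_injective (MulAut.conj g).injective

omit [Fintype α] [DecidableEq α] in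
/-- The setwise stabiliser of a pair is twice as large as the pointwise stabiliser. -/
theorem card_setStab (N : Subgroup (Perm α)) (hMT2 : MT N ∅ 2) {a b : α} (hab : a ≠ b) :
    Nat.card (setStab N a b) = Nat.card (ptStab N a b) * 2 := by
  have hle : ptStab N a b ≤ setStab N a b := fun n hn => ⟨hn.1, Or.inl hn.2⟩
  obtain ⟨s, hs, h1, h2⟩ := hMT2.two (by simp) (by simp) (by simp) (by simp) hab (Ne.symm hab)
  have hrel : (ptStab N a b).relIndex (setStab N a b) = 2 := by
    rw [Subgroup.relIndex_eq_two_iff]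
    refine ⟨s, ⟨hs, Or.inr ⟨h1, h2⟩⟩, ?_⟩
    rintro n ⟨hn, hn' | hn'⟩
    · right
      refine ⟨⟨hn, hn'⟩, ?_⟩
      rintro ⟨-, h3, -⟩
      rw [Perm.mul_apply, h1, hn'.2] at h3
      exact hab h3.symm
    · left
      refine ⟨⟨N.mul_mem hn hs, ?_, ?_⟩, ?_⟩
      · rw [Perm.mul_apply, h1, hn'.2]
      · rw [Perm.mul_apply, h2, hn'.1]
      · rintro ⟨-, h3, -⟩
        rw [hn'.1] at h3
        exact hab h3.symm
  have h3 := Subgroup.card_mul_index ((ptStab N a b).subgroupOf (setStab N a b))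
  have h4 : Nat.card ((ptStab N a b).subgroupOf (setStab N a b)) = Nat.card (ptStab N a b) :=
    Nat.card_congr (Subgroup.subgroupOfEquivOfLe hle).toEquiv
  rw [h4] at h3
  rw [← h3]
  congr 1

/-- A 2-subgroup of the setwise stabiliser of a pair with at most one fixed point, containing an
element interchanging the pair. -/
theorem sylow_fix (N : Subgroup (Perm α)) (hMT2 : MT N ∅ 2) {a b : α} (hab : a ≠ b) :
    ∃ Q : Subgroup (Perm α), Q ≤ setStab N a b ∧ IsPGroup 2 Q ∧
      (∃ q ∈ Q, q a = b ∧ q b = a) ∧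
      ∀ x y, (∀ q ∈ Q, q x = x) → (∀ q ∈ Q, q y = y) → x = y := by
  have hp : Fact (Nat.Prime 2) := ⟨Nat.prime_two⟩
  obtain ⟨P⟩ : Nonempty (Sylow 2 (setStab N a b)) := inferInstance
  have hPcard := P.card_eq_multiplicity
  have hQcard : Nat.card ((P : Subgroup (setStab N a b)).map (setStab N a b).subtype)
      = 2 ^ (Nat.card (setStab N a b)).factorization 2 := by
    rw [Subgroup.card_map_of_injective (Subgroup.subtype_injective _)]
    exact hPcard
  have hQle : (P : Subgroup (setStab N a b)).map (setStab N a b).subtype ≤ setStab N a b :=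
    Subgroup.map_subtype_le _
  have hone : ∀ x y, (∀ q ∈ (P : Subgroup (setStab N a b)).map (setStab N a b).subtype, q x = x) →
      (∀ q ∈ (P : Subgroup (setStab N a b)).map (setStab N a b).subtype, q y = y) → x = y := by
    intro x y hx hy
    by_contra hxy
    have hle : (P : Subgroup (setStab N a b)).map (setStab N a b).subtype ≤ ptStab N x y :=
      fun q hq => ⟨(hQle hq).1, hx q hq, hy q hq⟩
    have hdvd := Subgroup.card_dvd_of_le hle
    rw [hQcard, card_ptStab N hMT2 hab hxy, card_setStab N hMT2 hab] at hdvd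
    have hK : Nat.card (ptStab N a b) ≠ 0 := Nat.card_pos.ne'
    rw [Nat.factorization_mul hK (by norm_num)] at hdvd
    simp only [Finsupp.coe_add, Pi.add_apply, Nat.Prime.factorization_self Nat.prime_two] at hdvd
    exact Nat.pow_succ_factorization_not_dvd hK Nat.prime_two hdvd
  refine ⟨(P : Subgroup (setStab N a b)).map (setStab N a b).subtype, hQle,
    P.isPGroup'.map _, ?_, hone⟩
  by_contra hcon
  push Not at hcon
  apply hab
  apply hone a b
  · intro q hq
    rcases (hQle hq).2 with h | h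
    · exact h.1
    · exact absurd h.2 (hcon q hq h.1)
  · intro q hq
    rcases (hQle hq).2 with h | h
    · exact h.2
    · exact absurd h.2 (hcon q hq h.1)

omit [Fintype α] [DecidableEq α] in
/-- A 2-group fixes a point of every invariant set of odd size. -/
theorem fixed_in_odd (Q : Subgroup (Perm α)) (hQ : IsPGroup 2 Q) (E : Finset α)
    (hE : ∀ q ∈ Q, ∀ x ∈ E, q x ∈ E) (hodd : Odd E.card) : ∃ x ∈ E, ∀ q ∈ Q, q x = x := by
  have hp : Fact (Nat.Prime 2) := ⟨Nat.prime_two⟩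
  let E' : SubMulAction Q α :=
    { carrier := (E : Set α)
      smul_mem' := fun q x hx => hE q q.2 x hx }
  have hcard : Nat.card E' = E.card := by
    have h1 : Nat.card E' = Nat.card (E : Set α) := rfl
    rw [h1, Nat.card_coe_set_eq, Set.ncard_coe_finset]
  have h2 : ¬ 2 ∣ Nat.card E' := by
    rw [hcard]; exact hodd.not_two_dvd_nat
  obtain ⟨⟨x, hx⟩, hfix⟩ := hQ.nonempty_fixed_point_of_prime_not_dvd_card E' h2
  exact ⟨x, hx, fun q hq => congrArg Subtype.val (hfix ⟨q, hq⟩)⟩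

/-- Two points `δ`, `ε` are related if the 3-sets `{a, b, δ}` and `{a, b, ε}` are in the same
`N`-orbit. -/
def R (N : Subgroup (Perm α)) (a b δ ε : α) : Prop :=
  ∃ n ∈ N, ({a, b, δ} : Finset α).image n = {a, b, ε}

omit [Fintype α] in
theorem R_refl (N : Subgroup (Perm α)) (a b δ : α) : R N a b δ δ :=
  ⟨1, N.one_mem, by simp⟩

omit [Fintype α] in
theorem R_symm {N : Subgroup (Perm α)} {a b δ ε : α} (h : R N a b δ ε) : R N a b ε δ := by
  obtain ⟨n, hn, himg⟩ := h
  refine ⟨n⁻¹, N.inv_mem hn, ?_⟩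
  rw [← himg, Finset.image_image]
  have h1 : (⇑n⁻¹ ∘ ⇑n) = id := by
    funext x
    simp
  rw [h1, Finset.image_id]

omit [Fintype α] in
theorem R_trans {N : Subgroup (Perm α)} {a b δ ε ζ : α} (h1 : R N a b δ ε) (h2 : R N a b ε ζ) :
    R N a b δ ζ := by
  obtain ⟨n, hn, himg⟩ := h1
  obtain ⟨m, hm, himg'⟩ := h2
  refine ⟨m * n, N.mul_mem hm hn, ?_⟩
  rw [← himg', ← himg, Finset.image_image]
  rfl

omit [Fintype α] in
/-- The relation is preserved by elements normalising `N` and fixing `a` and `b`. -/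
theorem R_conj {N : Subgroup (Perm α)} {a b δ ε : α} {g : Perm α}
    (hnorm : ∀ n ∈ N, g * n * g⁻¹ ∈ N) (hga : g a = a) (hgb : g b = b) (h : R N a b δ ε) :
    R N a b (g δ) (g ε) := by
  obtain ⟨n, hn, himg⟩ := h
  refine ⟨g * n * g⁻¹, hnorm n hn, ?_⟩
  have h1 : ({a, b, g δ} : Finset α) = ({a, b, δ} : Finset α).image g := by
    simp [Finset.image_insert, hga, hgb]
  have h2 : ({a, b, g ε} : Finset α) = ({a, b, ε} : Finset α).image g := by
    simp [Finset.image_insert, hga, hgb]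
  rw [h1, h2, ← himg, Finset.image_image, Finset.image_image]
  apply Finset.image_congr
  intro x _
  simp

omit [Fintype α] in
/-- An element of `N` preserving the pair `{a, b}` relates every point to its image. -/
theorem R_setStab {N : Subgroup (Perm α)} {a b ε : α} {q : Perm α} (hq : q ∈ setStab N a b) :
    R N a b ε (q ε) := by
  refine ⟨q, hq.1, ?_⟩
  rcases hq.2 with ⟨h1, h2⟩ | ⟨h1, h2⟩
  · simp [Finset.image_insert, h1, h2]
  · simp only [Finset.image_insert, Finset.image_singleton, h1, h2]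
    exact Finset.insert_comm b a _

/-- The class of a point. -/
noncomputable def cls (N : Subgroup (Perm α)) (a b δ : α) : Finset α := by
  classical exact Finset.univ.filter (fun ε => ε ≠ a ∧ ε ≠ b ∧ R N a b δ ε)

theorem mem_cls {N : Subgroup (Perm α)} {a b δ ε : α} :
    ε ∈ cls N a b δ ↔ ε ≠ a ∧ ε ≠ b ∧ R N a b δ ε := by
  classical
  simp [cls]

theorem cls_eq {N : Subgroup (Perm α)} {a b δ ε : α} (h : R N a b δ ε) :
    cls N a b ε = cls N a b δ := by
  ext x
  rw [mem_cls, mem_cls]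
  constructor
  · rintro ⟨h1, h2, h3⟩; exact ⟨h1, h2, R_trans h h3⟩
  · rintro ⟨h1, h2, h3⟩; exact ⟨h1, h2, R_trans (R_symm h) h3⟩

/-- The classes have odd size. -/
theorem odd_cls (G N : Subgroup (Perm α)) (hodd : Odd (Fintype.card α)) (hMT : MT G ∅ 3)
    (hnorm : ∀ g ∈ G, ∀ n ∈ N, g * n * g⁻¹ ∈ N) {a b : α} (hab : a ≠ b) {δ : α} (hδa : δ ≠ a)
    (hδb : δ ≠ b) : Odd (cls N a b δ).card := by
  classical
  have hle : ∀ δ δ' : α, δ ≠ a → δ ≠ b → δ' ≠ a → δ' ≠ b →
      (cls N a b δ).card ≤ (cls N a b δ').card := by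
    intro δ δ' h1 h2 h3 h4
    obtain ⟨g, hg, hga, hgb, hgδ⟩ := hMT.three (a := a) (b := b) (c := δ) (a' := a) (b' := b)
      (c' := δ') (by simp) (by simp) (by simp) (by simp) (by simp) (by simp) hab (Ne.symm h1)
      (Ne.symm h2) hab (Ne.symm h3) (Ne.symm h4)
    have hsub : (cls N a b δ).image g ⊆ cls N a b δ' := by
      intro x hx
      rw [Finset.mem_image] at hx
      obtain ⟨ε, hε, rfl⟩ := hx
      rw [mem_cls] at hε ⊢
      refine ⟨?_, ?_, ?_⟩
      · intro h; rw [← hga] at h; exact hε.1 (g.injective h)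
      · intro h; rw [← hgb] at h; exact hε.2.1 (g.injective h)
      · rw [← hgδ]; exact R_conj (hnorm g hg) hga hgb hε.2.2
    have h5 := Finset.card_le_card hsub
    rwa [Finset.card_image_of_injective _ g.injective] at h5
  have hΔ : (Finset.univ.filter (fun x : α => x ≠ a ∧ x ≠ b)).card + 2 = Fintype.card α := by
    have h1 : Finset.univ.filter (fun x : α => x ≠ a ∧ x ≠ b) = Finset.univ \ {a, b} := by
      ext x; simp
    rw [h1, Finset.card_sdiff_of_subset (Finset.subset_univ _), Finset.card_univ,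
      Finset.card_pair hab]
    have h2 : 2 ≤ Fintype.card α := by
      rw [← Finset.card_pair hab, ← Finset.card_univ]
      exact Finset.card_le_card (Finset.subset_univ _)
    omega
  have hsum := Finset.card_eq_sum_card_image (cls N a b)
    (Finset.univ.filter (fun x : α => x ≠ a ∧ x ≠ b))
  have hfib : ∀ c ∈ (Finset.univ.filter (fun x : α => x ≠ a ∧ x ≠ b)).image (cls N a b),
      ((Finset.univ.filter (fun x : α => x ≠ a ∧ x ≠ b)).filter
        (fun x => cls N a b x = c)).card = (cls N a b δ).card := by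
    intro c hc
    rw [Finset.mem_image] at hc
    obtain ⟨δ₀, hδ₀, rfl⟩ := hc
    rw [Finset.mem_filter] at hδ₀
    have h1 : (Finset.univ.filter (fun x : α => x ≠ a ∧ x ≠ b)).filter
        (fun x => cls N a b x = cls N a b δ₀) = cls N a b δ₀ := by
      ext x
      rw [Finset.mem_filter, Finset.mem_filter, mem_cls]
      constructor
      · rintro ⟨⟨-, h2, h3⟩, h4⟩
        have h5 : x ∈ cls N a b x := mem_cls.mpr ⟨h2, h3, R_refl N a b x⟩
        rw [h4, mem_cls] at h5
        exact h5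
      · rintro ⟨h2, h3, h4⟩
        exact ⟨⟨Finset.mem_univ _, h2, h3⟩, cls_eq h4⟩
    rw [h1]
    exact le_antisymm (hle δ₀ δ hδ₀.2.1 hδ₀.2.2 hδa hδb) (hle δ δ₀ hδa hδb hδ₀.2.1 hδ₀.2.2)
  rw [Finset.sum_congr rfl hfib, Finset.sum_const, smul_eq_mul] at hsum
  have hoddΔ : Odd (Finset.univ.filter (fun x : α => x ≠ a ∧ x ≠ b)).card := by
    rcases hodd with ⟨m, hm⟩
    exact ⟨m - 1, by omega⟩
  rw [hsum] at hoddΔ
  exact (Nat.odd_mul.mp hoddΔ).2

/-- Wagner's theorem for subgroups of the symmetric group. -/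
theorem three_trans (G N : Subgroup (Perm α)) (hodd : Odd (Fintype.card α))
    (h5 : 5 ≤ Fintype.card α) (hMT : MT G ∅ 3)
    (hnorm : ∀ g ∈ G, ∀ n ∈ N, g * n * g⁻¹ ∈ N) (hMT2 : MT N ∅ 2) : MT N ∅ 3 := by
  obtain ⟨a, b, hab⟩ := Fintype.exists_pair_of_one_lt_card (by omega : 1 < Fintype.card α)
  obtain ⟨Q, hQle, hQ, ⟨s, hsQ, hsa, hsb⟩, hone⟩ := sylow_fix N hMT2 hab
  obtain ⟨φ, -, hφ⟩ := fixed_in_odd Q hQ Finset.univ (fun _ _ _ _ => Finset.mem_univ _)
    (by rwa [Finset.card_univ])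
  have hφa : φ ≠ a := by
    rintro rfl
    exact hab ((hφ s hsQ).symm.trans hsa)
  have hφb : φ ≠ b := by
    rintro rfl
    exact hab ((hφ s hsQ).symm.trans hsb).symm
  have hsN : s ∈ N := (hQle hsQ).1
  have hsφ : s φ = φ := hφ s hsQ
  -- every point off `a`, `b` is related to `φ`
  have hRφ : ∀ δ, δ ≠ a → δ ≠ b → R N a b δ φ := by
    intro δ hδa hδb
    have hinv : ∀ q ∈ Q, ∀ x ∈ cls N a b δ, q x ∈ cls N a b δ := by
      intro q hq x hx
      rw [mem_cls] at hx ⊢
      have hqs := hQle hq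
      refine ⟨?_, ?_, R_trans hx.2.2 (R_setStab hqs)⟩
      · intro h
        rcases hqs.2 with ⟨h1, h2⟩ | ⟨h1, h2⟩
        · rw [← h1] at h; exact hx.1 (q.injective h)
        · rw [← h2] at h; exact hx.2.1 (q.injective h)
      · intro h
        rcases hqs.2 with ⟨h1, h2⟩ | ⟨h1, h2⟩
        · rw [← h2] at h; exact hx.2.1 (q.injective h)
        · rw [← h1] at h; exact hx.1 (q.injective h)
    obtain ⟨x, hx, hxfix⟩ := fixed_in_odd Q hQ (cls N a b δ) hinv
      (odd_cls G N hodd hMT hnorm hab hδa hδb)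
    have hxφ : x = φ := hone x φ hxfix hφ
    rw [hxφ, mem_cls] at hx
    exact hx.2.2
  -- an element of `N` fixing `a` and interchanging `b`, `φ`
  obtain ⟨g, hg, hga, hgb, hgφ⟩ := hMT.three (a := a) (b := b) (c := φ) (a' := b) (b' := φ)
    (c' := a) (by simp) (by simp) (by simp) (by simp) (by simp) (by simp) hab (Ne.symm hφa)
    (Ne.symm hφb) (Ne.symm hφb) (Ne.symm hab) hφa
  have hs₁N : g * s * g⁻¹ ∈ N := hnorm g hg s hsN
  have hs₁a : (g * s * g⁻¹) a = a := by
    rw [Perm.mul_apply, Perm.mul_apply, inv_apply_eq' g hgφ, hsφ, hgφ]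
  have hs₁b : (g * s * g⁻¹) b = φ := by
    rw [Perm.mul_apply, Perm.mul_apply, inv_apply_eq' g hga, hsa, hgb]
  have hs₁φ : (g * s * g⁻¹) φ = b := by
    rw [Perm.mul_apply, Perm.mul_apply, inv_apply_eq' g hgb, hsb, hga]
  set s₁ := g * s * g⁻¹ with hs₁
  have hT : ∀ z, z ∈ ({a, b, φ} : Finset α) ↔ z = a ∨ z = b ∨ z = φ := by
    intro z; simp
  have hsT : ∀ z ∈ ({a, b, φ} : Finset α), s z ∈ ({a, b, φ} : Finset α) := by
    intro z hz
    rw [hT] at hz ⊢
    rcases hz with rfl | rfl | rfl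
    · exact Or.inr (Or.inl hsa)
    · exact Or.inl hsb
    · exact Or.inr (Or.inr hsφ)
  have hs₁T : ∀ z ∈ ({a, b, φ} : Finset α), s₁ z ∈ ({a, b, φ} : Finset α) := by
    intro z hz
    rw [hT] at hz ⊢
    rcases hz with rfl | rfl | rfl
    · exact Or.inl hs₁a
    · exact Or.inr (Or.inr hs₁b)
    · exact Or.inr (Or.inl hs₁φ)
  have harr : ∀ x y, x ∈ ({a, b, φ} : Finset α) → y ∈ ({a, b, φ} : Finset α) → x ≠ y →
      ∃ m ∈ N, m x = a ∧ m y = b ∧ ∀ z ∈ ({a, b, φ} : Finset α), m z ∈ ({a, b, φ} : Finset α) := by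
    intro x y hx hy hxy
    rw [hT] at hx hy
    rcases hx with rfl | rfl | rfl <;> rcases hy with rfl | rfl | rfl
    · exact absurd rfl hxy
    · exact ⟨1, N.one_mem, rfl, rfl, fun z hz => hz⟩
    · exact ⟨s₁, hs₁N, hs₁a, hs₁φ, hs₁T⟩
    · exact ⟨s, hsN, hsb, hsa, hsT⟩
    · exact absurd rfl hxy
    · refine ⟨s₁ * s, N.mul_mem hs₁N hsN, ?_, ?_, fun z hz => hs₁T _ (hsT z hz)⟩
      · rw [Perm.mul_apply, hsb, hs₁a]
      · rw [Perm.mul_apply, hsφ, hs₁φ]
    · refine ⟨s * s₁, N.mul_mem hsN hs₁N, ?_, ?_, fun z hz => hsT _ (hs₁T z hz)⟩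
      · rw [Perm.mul_apply, hs₁φ, hsb]
      · rw [Perm.mul_apply, hs₁a, hsa]
    · refine ⟨s₁ * s * s₁, N.mul_mem (N.mul_mem hs₁N hsN) hs₁N, ?_, ?_,
        fun z hz => hs₁T _ (hsT _ (hs₁T z hz))⟩
      · rw [Perm.mul_apply, Perm.mul_apply, hs₁φ, hsb, hs₁a]
      · rw [Perm.mul_apply, Perm.mul_apply, hs₁b, hsφ, hs₁φ]
    · exact absurd rfl hxy
  -- the two-point stabiliser is transitive on the remaining points
  have hK : ∀ δ, δ ≠ a → δ ≠ b → ∃ k ∈ N, k a = a ∧ k b = b ∧ k δ = φ := by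
    intro δ hδa hδb
    obtain ⟨n, hn, himg⟩ := hRφ δ hδa hδb
    have hna : n a ∈ ({a, b, φ} : Finset α) := by
      rw [← himg]; exact Finset.mem_image_of_mem n (by simp)
    have hnb : n b ∈ ({a, b, φ} : Finset α) := by
      rw [← himg]; exact Finset.mem_image_of_mem n (by simp)
    have hnδ : n δ ∈ ({a, b, φ} : Finset α) := by
      rw [← himg]; exact Finset.mem_image_of_mem n (by simp)
    obtain ⟨m, hm, hma, hmb, hmT⟩ := harr (n a) (n b) hna hnb (fun h => hab (n.injective h))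
    refine ⟨m * n, N.mul_mem hm hn, hma, hmb, ?_⟩
    have h1 := hmT _ hnδ
    rw [hT] at h1
    rcases h1 with h1 | h1 | h1
    · exfalso
      rw [← hma] at h1
      exact hδa (n.injective (m.injective h1))
    · exfalso
      rw [← hmb] at h1
      exact hδb (n.injective (m.injective h1))
    · exact h1
  -- assemble 3-transitivity
  have hTrN : Tr N ∅ := by
    intro x y _ _
    by_cases hxy : x = y
    · exact ⟨1, N.one_mem, hxy⟩
    · obtain ⟨c, hc⟩ := exists_avoid ({x, y} : Finset α) (by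
        have := Finset.card_le_two (a := x) (b := y)
        omega)
      simp only [Finset.mem_insert, Finset.mem_singleton, not_or] at hc
      obtain ⟨n, hn, h1, -⟩ := hMT2.two (a := x) (b := c) (c := y) (d := c) (by simp) (by simp)
        (by simp) (by simp) (Ne.symm hc.1) (Ne.symm hc.2)
      exact ⟨n, hn, h1⟩
  have hTra : Tr (stab N a) (insert a ∅) := by
    intro x y hx hy
    simp only [Finset.mem_insert, Finset.notMem_empty, or_false] at hx hy
    obtain ⟨n, hn, h1, h2⟩ := hMT2.two (a := a) (b := x) (c := a) (d := y) (by simp) (by simp)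
      (by simp) (by simp) (Ne.symm hx) (Ne.symm hy)
    exact ⟨n, mem_stab.mpr ⟨hn, h1⟩, h2⟩
  have hTrab : Tr (stab (stab N a) b) (insert b (insert a ∅)) := by
    intro x y hx hy
    simp only [Finset.mem_insert, Finset.notMem_empty, or_false, not_or] at hx hy
    obtain ⟨k₁, hk₁, h1, h2, h3⟩ := hK x hx.2 hx.1
    obtain ⟨k₂, hk₂, h4, h5, h6⟩ := hK y hy.2 hy.1
    refine ⟨k₂⁻¹ * k₁, ?_, ?_⟩
    · rw [mem_stab, mem_stab]
      refine ⟨⟨N.mul_mem (N.inv_mem hk₂) hk₁, ?_⟩, ?_⟩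
      · rw [Perm.mul_apply, h1]; exact inv_apply_eq' k₂ h4
      · rw [Perm.mul_apply, h2]; exact inv_apply_eq' k₂ h5
    · rw [Perm.mul_apply, h3]; exact inv_apply_eq' k₂ h6
  have hfixa : ∀ h ∈ stab N a, ∀ s ∈ insert a (∅ : Finset α), h s = s := by
    intro h hh s hs
    simp only [Finset.mem_insert, Finset.notMem_empty, or_false] at hs
    rw [hs]; exact (mem_stab.mp hh).2
  exact MT_succ hTrN (by simp) (Finset.notMem_empty a)
    (MT_succ hTra hfixa (by simp [hab.symm]) (MT_one_of_Tr hTrab))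

/-- Wagner's Theorem: a non-trivial normal subgroup of a triply transitive permutation group of odd degree at least 5 is triply transitive. -/
theorem result {α : Type*} [Fintype α] [DecidableEq α] (G : Subgroup (Equiv.Perm α)) (hodd : Odd (Fintype.card α)) (h5 : 5 ≤ Fintype.card α) (hG : MulAction.IsMultiplyPretransitive G α 3) (N : Subgroup G) [N.Normal] (hN : N ≠ ⊥) : MulAction.IsMultiplyPretransitive N α 3 := by
  have hMT : MT G ∅ 3 := by
    intro x y hx hy _ _
    obtain ⟨g, hg⟩ := hG.exists_smul_eq (⟨x, hx⟩ : Fin 3 ↪ α) ⟨y, hy⟩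
    refine ⟨g, g.2, fun i => ?_⟩
    have h1 := DFunLike.congr_fun hg i
    exact h1
  have hnormal := ‹N.Normal›
  have hNG : N.map G.subtype ≤ G := Subgroup.map_subtype_le _
  have hnorm : ∀ g ∈ G, ∀ n ∈ N.map G.subtype, g * n * g⁻¹ ∈ N.map G.subtype := by
    rintro g hg n ⟨n', hn', rfl⟩
    exact ⟨⟨g, hg⟩ * n' * ⟨g, hg⟩⁻¹, hnormal.conj_mem n' hn' ⟨g, hg⟩, rfl⟩
  have hN' : N.map G.subtype ≠ ⊥ := by
    intro h
    apply hN
    exact (Subgroup.map_eq_bot_iff_of_injective N G.subtype_injective).mp h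
  have hMT2 := two_trans G (N.map G.subtype) hodd h5 hMT hNG hnorm hN'
  have hMT3 := three_trans G (N.map G.subtype) hodd h5 hMT hnorm hMT2
  refine ⟨fun x y => ?_⟩
  obtain ⟨h', ⟨n', hn', rfl⟩, hmap⟩ := hMT3 x y x.injective y.injective (by simp) (by simp)
  refine ⟨⟨n', hn'⟩, ?_⟩
  ext i
  exact hmap i

end Cfsg.Agent.S0699
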