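import Cfsg.Statements.S0700
import Cfsg.Agent.Lib.Helper59.Burnside2T

set_option autoImplicit false
open Cfsg

namespace Cfsg.Agent.S0700

open Cfsg.Agent.Lib.Helper59.MinNormal MulAction

/-- Burnside's Theorem on doubly transitive groups: a minimal normal subgroup of a finite doubly transitive permutation group is elementary abelian and regular, or simple and primitive. -/
theorem result {α : Type*} [Fintype α] [DecidableEq α] (G : Subgroup (Equiv.Perm α)) (hG : MulAction.IsMultiplyPretransitive G α 2) (N : Subgroup G) [N.Normal] (hN : N ≠ ⊥) (hmin : ∀ M : Subgroup G, M.Normal → M ≤ N → M = ⊥ ∨ M = N) : (IsMulCommutative N ∧ (∃ p : ℕ, p.Prime ∧ ∀ n ∈ N, n ^ p = 1) ∧ ∀ a : α, MulAction.stabilizer N a = ⊥) ∨ (IsSimpleGroup N ∧ MulAction.IsPreprimitive N α) := by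
  have hfaith : FaithfulSMul G α := ⟨fun {x y} h => Subtype.ext (Equiv.ext h)⟩
  have hNmin : IsMinInv ⊤ N := by
    refine ⟨hN, by rw [Subgroup.normalizer_eq_top_iff.mpr inferInstance], fun S hS hS0 hSn => ?_⟩
    have hSn' : S.Normal := Subgroup.normalizer_eq_top_iff.mp (top_le_iff.mp hSn)
    exact (hmin S hSn' hS).resolve_left hS0
  rcases Cfsg.Agent.Lib.Helper59.Burnside2T.burnside hG N hNmin with ⟨hab, hp, hreg⟩ | h
  · left
    refine ⟨⟨⟨fun a b => Subtype.ext (hab a a.2 b b.2)⟩⟩, hp, fun a => ?_⟩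
    rw [eq_bot_iff]
    intro x hx
    rw [Subgroup.mem_bot]
    have h1 : (x : G) ∈ N ⊓ stabilizer G a := ⟨x.2, hx⟩
    rw [hreg a, Subgroup.mem_bot] at h1
    exact Subtype.ext h1
  · exact Or.inr h

end Cfsg.Agent.S0700
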