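import Cfsg.Statements.S0701
import Mathlib

set_option autoImplicit false
open Cfsg

namespace Cfsg.Agent.S0701

/-- The centraliser in the full symmetric group of a transitive permutation group `G` is semiregular, and it is transitive if and only if `G` is regular. -/
theorem result {α : Type*} (G : Subgroup (Equiv.Perm α)) [MulAction.IsPretransitive G α] : (∀ c ∈ Subgroup.centralizer (G : Set (Equiv.Perm α)), ∀ a : α, c a = a → c = 1) ∧ (MulAction.IsPretransitive (Subgroup.centralizer (G : Set (Equiv.Perm α))) α ↔ ∀ a : α, MulAction.stabilizer G a = ⊥) := by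
  have hsemi : ∀ c ∈ Subgroup.centralizer (G : Set (Equiv.Perm α)), ∀ a : α, c a = a → c = 1 := by
    intro c hc a hca
    ext x
    obtain ⟨g, rfl⟩ := MulAction.exists_smul_eq G a x
    have h := hc (g : Equiv.Perm α) g.2
    have h2 := congrArg (fun σ : Equiv.Perm α => σ a) h
    simp only [Equiv.Perm.coe_mul, Function.comp_apply] at h2
    rw [hca] at h2
    simp only [Subgroup.smul_def, Equiv.Perm.smul_def, Equiv.Perm.coe_one, id_eq]
    exact h2.symm
  refine ⟨hsemi, ?_, ?_⟩
  · intro htrans a
    rw [eq_bot_iff]
    intro g hg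
    rw [MulAction.mem_stabilizer_iff] at hg
    rw [Subgroup.mem_bot]
    apply Subtype.ext
    ext x
    obtain ⟨c, rfl⟩ := htrans.exists_smul_eq a x
    have h := c.2 (g : Equiv.Perm α) g.2
    have h2 := congrArg (fun σ : Equiv.Perm α => σ a) h
    simp only [Equiv.Perm.coe_mul, Function.comp_apply] at h2
    have hg' : (g : Equiv.Perm α) a = a := hg
    rw [hg'] at h2
    simp only [Subgroup.smul_def, Equiv.Perm.smul_def, Subgroup.coe_one, Equiv.Perm.coe_one, id_eq]
    exact h2
  · intro hreg
    have hbij : ∀ a : α, Function.Bijective (fun g : G => g • a) := by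
      intro a
      refine ⟨?_, fun x => MulAction.exists_smul_eq G a x⟩
      intro g h hgh
      replace hgh : g • a = h • a := hgh
      have : g⁻¹ * h ∈ MulAction.stabilizer G a := by
        rw [MulAction.mem_stabilizer_iff, mul_smul, ← hgh, inv_smul_smul]
      rw [hreg a, Subgroup.mem_bot] at this
      exact (inv_mul_eq_one.mp this)
    constructor
    intro a b
    let ea := Equiv.ofBijective _ (hbij a)
    let eb := Equiv.ofBijective _ (hbij b)
    let c : Equiv.Perm α := ea.symm.trans eb
    have hc : ∀ g : G, c (g • a) = g • b := by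
      intro g
      change eb (ea.symm (g • a)) = g • b
      have : ea.symm (g • a) = g := by
        rw [Equiv.symm_apply_eq]; rfl
      rw [this]; rfl
    have hmem : c ∈ Subgroup.centralizer (G : Set (Equiv.Perm α)) := by
      intro h hh
      ext x
      obtain ⟨g, rfl⟩ := MulAction.exists_smul_eq G a x
      simp only [Equiv.Perm.coe_mul, Function.comp_apply]
      have e1 : h (g • a) = ((⟨h, hh⟩ : G) * g) • a := by
        rw [mul_smul]; rfl
      rw [hc g, e1, hc, mul_smul]; rfl
    refine ⟨⟨c, hmem⟩, ?_⟩
    have := hc 1
    simpa using this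

end Cfsg.Agent.S0701
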