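import Cfsg.Statements.S0702
import Mathlib

set_option autoImplicit false
open Cfsg

namespace Cfsg.Agent.S0702

section
variable {α : Type*} (G : Subgroup (Equiv.Perm α)) [MulAction.IsPretransitive G α] (a : α)

/-- The map `g • a ↦ g • n⁻¹ • a`. -/
noncomputable def cfun (n : G) : α → α :=
  fun x => (Classical.choose (MulAction.exists_smul_eq G a x)) • (n⁻¹ • a)

theorem cfun_spec {n : G}
    (hn : n ∈ Subgroup.normalizer ((MulAction.stabilizer G a : Subgroup G) : Set G)) (g : G) :
    cfun G a n (g • a) = g • n⁻¹ • a := by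
  unfold cfun
  have hspec := Classical.choose_spec (MulAction.exists_smul_eq G a (g • a))
  set g' := Classical.choose (MulAction.exists_smul_eq G a (g • a)) with hg'
  have h1 : g⁻¹ * g' ∈ MulAction.stabilizer G a := by
    rw [MulAction.mem_stabilizer_iff, mul_smul, hspec, inv_smul_smul]
  have h2 := (Subgroup.mem_normalizer_iff.mp hn (g⁻¹ * g')).mp h1
  rw [MulAction.mem_stabilizer_iff, mul_smul, mul_smul, mul_smul] at h2
  have h3 : g⁻¹ • g' • n⁻¹ • a = n⁻¹ • a := eq_inv_smul_iff.mpr h2
  exact inv_smul_eq_iff.mp h3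

/-- The permutation attached to an element of the normalizer of the stabilizer. -/
noncomputable def cperm (n : Subgroup.normalizer ((MulAction.stabilizer G a : Subgroup G) : Set G)) :
    Equiv.Perm α where
  toFun := cfun G a (n : G)
  invFun := cfun G a ((n : G)⁻¹)
  left_inv := by
    intro x
    obtain ⟨g, rfl⟩ := MulAction.exists_smul_eq G a x
    rw [cfun_spec G a n.2, ← mul_smul, cfun_spec G a (Subgroup.inv_mem _ n.2), inv_inv, ← mul_smul,
      inv_mul_cancel_right]
  right_inv := by
    intro x
    obtain ⟨g, rfl⟩ := MulAction.exists_smul_eq G a x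
    rw [cfun_spec G a (Subgroup.inv_mem _ n.2), inv_inv, ← mul_smul, cfun_spec G a n.2, ← mul_smul,
      mul_inv_cancel_right]

theorem cperm_apply (n : Subgroup.normalizer ((MulAction.stabilizer G a : Subgroup G) : Set G))
    (g : G) : cperm G a n (g • a) = g • (n : G)⁻¹ • a :=
  cfun_spec G a n.2 g

theorem cperm_mem (n : Subgroup.normalizer ((MulAction.stabilizer G a : Subgroup G) : Set G)) :
    cperm G a n ∈ Subgroup.centralizer (G : Set (Equiv.Perm α)) := by
  intro h hh
  ext x
  obtain ⟨g, rfl⟩ := MulAction.exists_smul_eq G a x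
  simp only [Equiv.Perm.coe_mul, Function.comp_apply]
  have e1 : h (g • a) = ((⟨h, hh⟩ : G) * g) • a := by
    rw [mul_smul]; rfl
  rw [cperm_apply, e1, cperm_apply, mul_smul]
  rfl

/-- The homomorphism from the normalizer of the stabilizer to the centralizer. -/
noncomputable def chom :
    Subgroup.normalizer ((MulAction.stabilizer G a : Subgroup G) : Set G) →*
      Subgroup.centralizer (G : Set (Equiv.Perm α)) :=
  MonoidHom.mk' (fun n => ⟨cperm G a n, cperm_mem G a n⟩) (by
    intro n m
    apply Subtype.ext
    ext x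
    obtain ⟨g, rfl⟩ := MulAction.exists_smul_eq G a x
    change cperm G a (n * m) (g • a) = cperm G a n (cperm G a m (g • a))
    rw [cperm_apply, cperm_apply]
    have e : g • ((m : G))⁻¹ • a = (g * (m : G)⁻¹) • a := (mul_smul _ _ _).symm
    rw [e, cperm_apply]
    simp [mul_smul])

theorem chom_apply (n : Subgroup.normalizer ((MulAction.stabilizer G a : Subgroup G) : Set G))
    (g : G) : ((chom G a n : Subgroup.centralizer (G : Set (Equiv.Perm α))) : Equiv.Perm α) (g • a)
      = g • (n : G)⁻¹ • a :=
  cperm_apply G a n g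

theorem chom_ker : (chom G a).ker = (MulAction.stabilizer G a).subgroupOf
    (Subgroup.normalizer ((MulAction.stabilizer G a : Subgroup G) : Set G)) := by
  ext n
  rw [MonoidHom.mem_ker, Subgroup.mem_subgroupOf, MulAction.mem_stabilizer_iff]
  constructor
  · intro h
    have h1 := chom_apply G a n 1
    rw [h] at h1
    simp only [one_smul] at h1
    have h2 : (n : G)⁻¹ • a = a := by
      rw [← h1]; rfl
    rw [inv_smul_eq_iff] at h2
    exact h2.symm
  · intro h
    apply Subtype.ext
    ext x
    obtain ⟨g, rfl⟩ := MulAction.exists_smul_eq G a x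
    rw [chom_apply]
    have h2 : (n : G)⁻¹ • a = a := by
      rw [inv_smul_eq_iff]; exact h.symm
    rw [h2]
    rfl

omit [MulAction.IsPretransitive G α] in
theorem fixed_mem_normalizer [Finite α] {h : G}
    (hfix : ∀ k ∈ MulAction.stabilizer G a, k • h • a = h • a) :
    h⁻¹ ∈ Subgroup.normalizer ((MulAction.stabilizer G a : Subgroup G) : Set G) := by
  apply Subgroup.mem_normalizer_fintype
  intro k hk
  change h⁻¹ * k * h⁻¹⁻¹ ∈ MulAction.stabilizer G a
  rw [MulAction.mem_stabilizer_iff, inv_inv, mul_smul, mul_smul, hfix k hk, inv_smul_smul]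

omit [MulAction.IsPretransitive G α] in
theorem centralizer_comm {c : Equiv.Perm α} (hc : c ∈ Subgroup.centralizer (G : Set (Equiv.Perm α)))
    (g : G) (x : α) : c (g • x) = g • c x := by
  have h := hc (g : Equiv.Perm α) g.2
  have h2 := congrArg (fun σ : Equiv.Perm α => σ x) h
  simp only [Equiv.Perm.coe_mul, Function.comp_apply] at h2
  exact h2.symm

theorem chom_surjective [Finite α] : Function.Surjective (chom G a) := by
  intro c
  obtain ⟨h, hh⟩ := MulAction.exists_smul_eq G a ((c : Equiv.Perm α) a)
  have hfix : ∀ k ∈ MulAction.stabilizer G a, k • h • a = h • a := by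
    intro k hk
    rw [hh, ← centralizer_comm G c.2, MulAction.mem_stabilizer_iff.mp hk]
  refine ⟨⟨h⁻¹, fixed_mem_normalizer G a hfix⟩, ?_⟩
  apply Subtype.ext
  ext x
  obtain ⟨g, rfl⟩ := MulAction.exists_smul_eq G a x
  rw [chom_apply]
  simp only [inv_inv]
  rw [hh, centralizer_comm G c.2]

end

/-- For a transitive permutation group `G` on a finite set, the centraliser of `G` in the symmetric group is isomorphic to `N_G(G_ω)/G_ω`, and its orbit of `ω` is the set of fixed points of `G_ω`. -/
theorem result {α : Type*} [Finite α] (G : Subgroup (Equiv.Perm α)) [MulAction.IsPretransitive G α] (a : α) : Nonempty (Subgroup.centralizer (G : Set (Equiv.Perm α)) ≃* Subgroup.normalizer ((MulAction.stabilizer G a : Subgroup G) : Set G) ⧸ (MulAction.stabilizer G a).subgroupOf (Subgroup.normalizer ((MulAction.stabilizer G a : Subgroup G) : Set G))) ∧ MulAction.orbit (Subgroup.centralizer (G : Set (Equiv.Perm α))) a = MulAction.fixedPoints (MulAction.stabilizer G a) α := by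
  constructor
  · exact ⟨((QuotientGroup.quotientMulEquivOfEq (chom_ker G a).symm).trans
      (QuotientGroup.quotientKerEquivOfSurjective (chom G a) (chom_surjective G a))).symm⟩
  · ext x
    constructor
    · rintro ⟨c, rfl⟩
      rw [MulAction.mem_fixedPoints]
      intro k
      change (k : G) • (c : Equiv.Perm α) a = (c : Equiv.Perm α) a
      rw [← centralizer_comm G c.2, MulAction.mem_stabilizer_iff.mp k.2]
    · intro hx
      rw [MulAction.mem_fixedPoints] at hx
      obtain ⟨h, rfl⟩ := MulAction.exists_smul_eq G a x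
      have hfix : ∀ k ∈ MulAction.stabilizer G a, k • h • a = h • a := fun k hk => hx ⟨k, hk⟩
      refine ⟨chom G a ⟨h⁻¹, fixed_mem_normalizer G a hfix⟩, ?_⟩
      have := chom_apply G a ⟨h⁻¹, fixed_mem_normalizer G a hfix⟩ 1
      simp only [one_smul, inv_inv] at this
      exact this

end Cfsg.Agent.S0702
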