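import Cfsg.Statements.S0703
import Mathlib
import Cfsg.Agent.Lib.Helper12.Cent

set_option autoImplicit false
open Cfsg

namespace Cfsg.Agent.S0703

/-- An abelian transitive minimal normal subgroup `M` of a permutation group on a finite set is self-centralising in the symmetric group, regular, elementary abelian, and is the unique minimal normal subgroup. -/
theorem result {α : Type*} [Finite α] (G : Subgroup (Equiv.Perm α)) (M : Subgroup G) [M.Normal] (hM : M ≠ ⊥) (hmin : ∀ L : Subgroup G, L.Normal → L ≤ M → L = ⊥ ∨ L = M) (hab : IsMulCommutative M) (htrans : MulAction.IsPretransitive M α) : Subgroup.centralizer ((M.map G.subtype : Subgroup (Equiv.Perm α)) : Set (Equiv.Perm α)) = M.map G.subtype ∧ (∀ a : α, MulAction.stabilizer M a = ⊥) ∧ (∃ p : ℕ, p.Prime ∧ ∀ m ∈ M, m ^ p = 1) ∧ ∀ L : Subgroup G, L.Normal → L ≠ ⊥ → (∀ L' : Subgroup G, L'.Normal → L' ≤ L → L' = ⊥ ∨ L' = L) → L = M := by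
  classical
  have hcomm : ∀ x ∈ M, ∀ y ∈ M, x * y = y * x := by
    intro x hx y hy
    have := hab.is_comm.comm ⟨x, hx⟩ ⟨y, hy⟩
    exact congrArg Subtype.val this
  have hMM : M.map G.subtype ≤ Subgroup.centralizer
      ((M.map G.subtype : Subgroup (Equiv.Perm α)) : Set (Equiv.Perm α)) := by
    rintro _ ⟨n, hn, rfl⟩ _ ⟨m, hm, rfl⟩
    exact congrArg G.subtype (hcomm m hm n hn)
  have hcent := Cfsg.Agent.Lib.Helper12.Cent.cent_eq G M M hMM
  have hreg := Cfsg.Agent.Lib.Helper12.Cent.stab_bot G M M hMM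
  refine ⟨hcent, hreg, ?_, ?_⟩
  · have hcard : Nat.card M ≠ 1 := by
      intro h; exact hM (Subgroup.card_eq_one.mp h)
    obtain ⟨p, hp, hpd⟩ := Nat.exists_prime_and_dvd hcard
    haveI : Fact p.Prime := ⟨hp⟩
    obtain ⟨x, hx⟩ := exists_prime_orderOf_dvd_card' (G := M) p hpd
    refine ⟨p, hp, ?_⟩
    let L : Subgroup G :=
      { carrier := {g | g ∈ M ∧ g ^ p = 1}
        mul_mem' := by
          rintro a b ⟨ha, ha'⟩ ⟨hb, hb'⟩
          refine ⟨M.mul_mem ha hb, ?_⟩
          rw [(show Commute a b from hcomm a ha b hb).mul_pow, ha', hb', one_mul]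
        one_mem' := ⟨M.one_mem, one_pow _⟩
        inv_mem' := by
          rintro a ⟨ha, ha'⟩
          exact ⟨M.inv_mem ha, by rw [inv_pow, ha', inv_one]⟩ }
    have hLn : L.Normal := by
      constructor
      rintro n ⟨hn, hn'⟩ g
      refine ⟨‹M.Normal›.conj_mem n hn g, ?_⟩
      rw [conj_pow, hn', mul_one, mul_inv_cancel]
    have hLM : L ≤ M := fun g hg => hg.1
    have hLne : L ≠ ⊥ := by
      intro h
      have hxL : (x : G) ∈ L := ⟨x.2, by
        rw [← Subgroup.coe_pow, ← hx, pow_orderOf_eq_one]; rfl⟩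
      rw [h, Subgroup.mem_bot] at hxL
      have : x = 1 := Subtype.ext hxL
      rw [this, orderOf_one] at hx
      exact hp.one_lt.ne hx
    rcases hmin L hLn hLM with h | h
    · exact absurd h hLne
    · intro m hm
      have : m ∈ L := by rw [h]; exact hm
      exact this.2
  · intro L hLn hLne hLmin
    by_contra hLM
    haveI := hLn
    rcases hmin (L ⊓ M) inferInstance inf_le_right with h | h
    · have h' : M ⊓ L = ⊥ := by rw [inf_comm]; exact h
      have h1 := Cfsg.Agent.Lib.Helper12.Cent.map_le_cent G M L h'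
      rw [hcent, Cfsg.Agent.Lib.Helper12.Cent.map_le_map_iff] at h1
      apply hLne
      rw [← h]
      exact (inf_eq_left.mpr h1).symm
    · have hML : M ≤ L := by rw [← h]; exact inf_le_left
      rcases hLmin M inferInstance hML with h2 | h2
      · exact hM h2
      · exact hLM h2.symm

end Cfsg.Agent.S0703
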