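import Cfsg.Statements.S0704
import Mathlib
import Cfsg.Agent.Lib.Helper12.Cent

set_option autoImplicit false
open Cfsg

namespace Cfsg.Agent.S0704

/-- Two distinct transitive minimal normal subgroups `M`, `N` of a permutation group are regular, non-abelian, isomorphic, each other's centraliser in the symmetric group, and the only minimal normal subgroups. -/
theorem result {α : Type*} (G : Subgroup (Equiv.Perm α)) (M N : Subgroup G) [M.Normal] [N.Normal] (hM : M ≠ ⊥) (hN : N ≠ ⊥) (hMmin : ∀ L : Subgroup G, L.Normal → L ≤ M → L = ⊥ ∨ L = M) (hNmin : ∀ L : Subgroup G, L.Normal → L ≤ N → L = ⊥ ∨ L = N) (hMN : M ≠ N) (hMt : MulAction.IsPretransitive M α) (hNt : MulAction.IsPretransitive N α) : (∀ a : α, MulAction.stabilizer M a = ⊥) ∧ (∀ a : α, MulAction.stabilizer N a = ⊥) ∧ ¬ IsMulCommutative M ∧ Nonempty (M ≃* N) ∧ Subgroup.centralizer ((M.map G.subtype : Subgroup (Equiv.Perm α)) : Set (Equiv.Perm α)) = N.map G.subtype ∧ Subgroup.centralizer ((N.map G.subtype : Subgroup (Equiv.Perm α))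 : Set (Equiv.Perm α)) = M.map G.subtype ∧ ∀ L : Subgroup G, L.Normal → L ≠ ⊥ → (∀ L' : Subgroup G, L'.Normal → L' ≤ L → L' = ⊥ ∨ L' = L) → L = M ∨ L = N := by
  classical
  have hd : M ⊓ N = ⊥ := by
    rcases hMmin (M ⊓ N) inferInstance inf_le_left with h | h
    · exact h
    · exfalso
      have hMN' : M ≤ N := by rw [← h]; exact inf_le_right
      rcases hNmin M inferInstance hMN' with h2 | h2
      · exact hM h2
      · exact hMN h2
  have hd' : N ⊓ M = ⊥ := by rw [inf_comm]; exact hd
  have hNM := Cfsg.Agent.Lib.Helper12.Cent.map_le_cent G M N hd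
  have hMN2 := Cfsg.Agent.Lib.Helper12.Cent.map_le_cent G N M hd'
  have hCM := Cfsg.Agent.Lib.Helper12.Cent.cent_eq G M N hNM
  have hCN := Cfsg.Agent.Lib.Helper12.Cent.cent_eq G N M hMN2
  have hregN := Cfsg.Agent.Lib.Helper12.Cent.stab_bot G M N hNM
  have hregM := Cfsg.Agent.Lib.Helper12.Cent.stab_bot G N M hMN2
  refine ⟨hregM, hregN, ?_, ?_, hCM, hCN, ?_⟩
  · intro hab
    have hcomm : ∀ x ∈ M, ∀ y ∈ M, x * y = y * x := by
      intro x hx y hy
      have := hab.is_comm.comm ⟨x, hx⟩ ⟨y, hy⟩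
      exact congrArg Subtype.val this
    have hMM : M.map G.subtype ≤ Subgroup.centralizer
        ((M.map G.subtype : Subgroup (Equiv.Perm α)) : Set (Equiv.Perm α)) := by
      rintro _ ⟨n, hn, rfl⟩ _ ⟨m, hm, rfl⟩
      exact congrArg G.subtype (hcomm m hm n hn)
    rw [hCM, Cfsg.Agent.Lib.Helper12.Cent.map_le_map_iff] at hMM
    rcases hNmin M inferInstance hMM with h2 | h2
    · exact hM h2
    · exact hMN h2
  · obtain ⟨a⟩ : Nonempty α := by
      by_contra hα
      rw [not_nonempty_iff] at hα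
      apply hM
      rw [eq_bot_iff]
      intro m _
      rw [Subgroup.mem_bot]
      apply Subtype.ext
      exact Subsingleton.elim _ _
    have hcommMN : ∀ (m : M) (n : N) (x : α), m • n • x = n • m • x := by
      intro m n x
      have hc : (m : G) * (n : G) = (n : G) * (m : G) :=
        Subgroup.commute_of_normal_of_disjoint M N inferInstance inferInstance
          (disjoint_iff.mpr hd) m n m.2 n.2
      change (m : G) • (n : G) • x = (n : G) • (m : G) • x
      rw [← mul_smul, hc, mul_smul]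
    have huniqN : ∀ n₁ n₂ : N, n₁ • a = n₂ • a → n₁ = n₂ := by
      intro n₁ n₂ h
      have : n₂⁻¹ * n₁ ∈ MulAction.stabilizer N a := by
        rw [MulAction.mem_stabilizer_iff, mul_smul, h, inv_smul_smul]
      rw [hregN a, Subgroup.mem_bot] at this
      exact (inv_mul_eq_one.mp this).symm
    have huniqM : ∀ m₁ m₂ : M, m₁ • a = m₂ • a → m₁ = m₂ := by
      intro m₁ m₂ h
      have : m₂⁻¹ * m₁ ∈ MulAction.stabilizer M a := by
        rw [MulAction.mem_stabilizer_iff, mul_smul, h, inv_smul_smul]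
      rw [hregM a, Subgroup.mem_bot] at this
      exact (inv_mul_eq_one.mp this).symm
    have hex : ∀ m : M, ∃ n : N, n • a = m⁻¹ • a :=
      fun m => MulAction.exists_smul_eq N a (m⁻¹ • a)
    choose φ hφ using hex
    let Φ : M →* N := MonoidHom.mk' φ (by
      intro m₁ m₂
      apply huniqN
      rw [hφ, mul_smul, hφ m₂, ← hcommMN, hφ m₁, mul_inv_rev, mul_smul])
    refine ⟨MulEquiv.ofBijective Φ ⟨?_, ?_⟩⟩
    · intro m₁ m₂ h
      have h' : φ m₁ = φ m₂ := h
      have h1 : m₁⁻¹ • a = m₂⁻¹ • a := by rw [← hφ m₁, ← hφ m₂, h']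
      exact inv_injective (huniqM _ _ h1)
    · intro n
      obtain ⟨m, hm⟩ := MulAction.exists_smul_eq M a (n⁻¹ • a)
      refine ⟨m, huniqN _ _ ?_⟩
      change φ m • a = n • a
      rw [hφ, inv_smul_eq_iff, hcommMN, hm, smul_inv_smul]
  · intro L hLn hLne hLmin
    haveI := hLn
    by_contra hcon
    push Not at hcon
    rcases hMmin (L ⊓ M) inferInstance inf_le_right with h | h
    · have h' : M ⊓ L = ⊥ := by rw [inf_comm]; exact h
      have h1 := Cfsg.Agent.Lib.Helper12.Cent.map_le_cent G M L h'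
      rw [hCM, Cfsg.Agent.Lib.Helper12.Cent.map_le_map_iff] at h1
      rcases hNmin L hLn h1 with h2 | h2
      · exact hLne h2
      · exact hcon.2 h2
    · have hML : M ≤ L := by rw [← h]; exact inf_le_left
      rcases hLmin M inferInstance hML with h2 | h2
      · exact hM h2
      · exact hcon.1 h2.symm

end Cfsg.Agent.S0704
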