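import Cfsg.Statements.S0705
import Mathlib

set_option autoImplicit false
open scoped Pointwise
open Cfsg

namespace Cfsg.Agent.S0705

theorem ktrans {α : Type*} [Fintype α] [DecidableEq α] (G : Subgroup (Equiv.Perm α)) {k : ℕ}
    (hk : k < Fintype.card α)
    (hgen : ∀ s : Finset α, s.card = k + 1 → ∀ σ : Equiv.Perm ↥s,
      ∃ g ∈ G, ∀ x : ↥s, g (x : α) = σ x) :
    ∀ (n : ℕ) (x y : Fin k ↪ α), (Finset.univ.filter (fun i => x i ≠ y i)).card = n →
      ∃ g ∈ G, ∀ i, g (x i) = y i := by
  intro n
  induction n using Nat.strong_induction_on with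
  | _ n ih =>
    intro x y hn
    by_cases hall : ∀ i, x i = y i
    · exact ⟨1, G.one_mem, fun i => by simpa using hall i⟩
    push Not at hall
    obtain ⟨i₀, hi₀⟩ := hall
    set a := x i₀ with ha
    set b := y i₀ with hb
    set S := Finset.univ.image x with hS
    have hScard : S.card = k := by
      rw [Finset.card_image_of_injective _ x.injective]; simp
    have hex : ∃ z, z ∉ S ∧ (b ∉ S → z = b) := by
      by_cases hbS : b ∈ S
      · have : ∃ z, z ∉ S := by
          by_contra hcon
          push Not at hcon
          have : S = Finset.univ := Finset.eq_univ_iff_forall.mpr hcon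
          rw [this, Finset.card_univ] at hScard
          omega
        obtain ⟨z, hz⟩ := this
        exact ⟨z, hz, fun h => absurd hbS h⟩
      · exact ⟨b, hbS, fun _ => rfl⟩
    obtain ⟨z, hzS, hzb⟩ := hex
    set s := insert z S with hs
    have hscard : s.card = k + 1 := by rw [Finset.card_insert_of_notMem hzS, hScard]
    have haS : a ∈ S := Finset.mem_image_of_mem x (Finset.mem_univ i₀)
    have has : a ∈ s := Finset.mem_insert_of_mem haS
    have hbs : b ∈ s := by
      by_cases hbS : b ∈ S
      · exact Finset.mem_insert_of_mem hbS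
      · rw [hs, hzb hbS]; exact Finset.mem_insert_self _ _
    obtain ⟨g, hgG, hg⟩ := hgen s hscard (Equiv.swap ⟨a, has⟩ ⟨b, hbs⟩)
    have hga : g a = b := by
      have := hg ⟨a, has⟩
      simpa using this
    have hgfix : ∀ c ∈ S, c ≠ a → c ≠ b → g c = c := by
      intro c hc hca hcb
      have := hg ⟨c, Finset.mem_insert_of_mem hc⟩
      rw [Equiv.swap_apply_of_ne_of_ne] at this
      · exact this
      · intro h; exact hca (congrArg Subtype.val h)
      · intro h; exact hcb (congrArg Subtype.val h)
    let x' : Fin k ↪ α := x.trans g.toEmbedding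
    have hx' : ∀ i, x' i = g (x i) := fun i => rfl
    have hsub : Finset.univ.filter (fun i => x' i ≠ y i) ⊂
        Finset.univ.filter (fun i => x i ≠ y i) := by
      rw [Finset.ssubset_iff_of_subset]
      · refine ⟨i₀, ?_, ?_⟩
        · simp only [Finset.mem_filter, Finset.mem_univ, true_and]; exact hi₀
        · simp only [Finset.mem_filter, Finset.mem_univ, true_and, not_not]
          rw [hx', ← ha, hga]
      · intro i hi
        simp only [Finset.mem_filter, Finset.mem_univ, true_and] at hi ⊢
        intro hxy
        apply hi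
        rw [hx']
        have hii : i ≠ i₀ := by
          intro h; rw [h] at hxy; exact hi₀ hxy
        have hne_a : x i ≠ a := fun h => hii (x.injective h)
        have hne_b : x i ≠ b := by
          rw [hxy]; exact fun h => hii (y.injective h)
        rw [hgfix (x i) (Finset.mem_image_of_mem x (Finset.mem_univ i)) hne_a hne_b, hxy]
    have hlt := Finset.card_lt_card hsub
    rw [hn] at hlt
    obtain ⟨g', hg'G, hg'⟩ := ih _ hlt x' y rfl
    exact ⟨g' * g, G.mul_mem hg'G hgG, fun i => by simpa [hx'] using hg' i⟩

/-- A generously `k`-transitive permutation group (every `(k+1)`-subset has its full symmetric group induced by the setwise stabiliser) of degree greater than `k` is `k`-transitive, and for a `k`-subset the setwise and pointwise stabilisers have the same orbits outside it. -/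
theorem result {α : Type*} [Fintype α] [DecidableEq α] (G : Subgroup (Equiv.Perm α)) {k : ℕ} (hk : k < Fintype.card α) (hgen : ∀ s : Finset α, s.card = k + 1 → ∀ σ : Equiv.Perm ↥s, ∃ g ∈ G, ∀ x : ↥s, g (x : α) = σ x) : MulAction.IsMultiplyPretransitive G α k ∧ ∀ s : Finset α, s.card = k → ∀ a b : α, a ∉ s → b ∉ s → (∃ g ∈ G, g • s = s ∧ g a = b) → ∃ g ∈ G, (∀ x ∈ s, g x = x) ∧ g a = b := by
  refine ⟨⟨fun x y => ?_⟩, ?_⟩
  · obtain ⟨g, hg, h⟩ := ktrans G hk hgen _ x y rfl
    exact ⟨⟨g, hg⟩, by ext i; exact h i⟩
  · rintro s hs a b ha hb ⟨g, hgG, hgs, hgab⟩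
    set s' := insert b s with hs'
    have hs'card : s'.card = k + 1 := by rw [Finset.card_insert_of_notMem hb, hs]
    have hgmem : ∀ x ∈ s, g x ∈ s := by
      intro x hx
      have : g • x ∈ g • s := Finset.smul_mem_smul_finset hx
      rw [hgs] at this
      exact this
    let τ : Equiv.Perm α := Equiv.swap b (g b) * g
    have hτs : ∀ x ∈ s, τ x = g x := by
      intro x hx
      change Equiv.swap b (g b) (g x) = g x
      apply Equiv.swap_apply_of_ne_of_ne
      · intro h; exact hb (h ▸ hgmem x hx)
      · intro h; exact hb ((g.injective h) ▸ hx)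
    have hτb : τ b = b := by
      change Equiv.swap b (g b) (g b) = b
      exact Equiv.swap_apply_right _ _
    have hτmem : ∀ x, x ∈ s' → τ x ∈ s' := by
      intro x hx
      rcases Finset.mem_insert.mp hx with rfl | hx
      · rw [hτb]; exact Finset.mem_insert_self _ _
      · rw [hτs x hx]; exact Finset.mem_insert_of_mem (hgmem x hx)
    obtain ⟨h, hhG, hh⟩ := hgen s' hs'card (τ.subtypePermOfFintype hτmem)
    refine ⟨h⁻¹ * g, G.mul_mem (G.inv_mem hhG) hgG, ?_, ?_⟩
    · intro x hx
      have := hh ⟨x, Finset.mem_insert_of_mem hx⟩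
      rw [Equiv.Perm.subtypePermOfFintype_apply] at this
      change h⁻¹ (g x) = x
      rw [Equiv.Perm.inv_eq_iff_eq, this]
      exact (hτs x hx).symm
    · change h⁻¹ (g a) = b
      rw [hgab, Equiv.Perm.inv_eq_iff_eq]
      have := hh ⟨b, Finset.mem_insert_self _ _⟩
      rw [Equiv.Perm.subtypePermOfFintype_apply] at this
      rw [this]
      exact hτb.symm

end Cfsg.Agent.S0705
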