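import Cfsg.Statements.S0706
import Mathlib

set_option autoImplicit false
open Cfsg

namespace Cfsg.Agent.S0706

open Equiv MulAction

section
variable {α : Type*} [Fintype α] [DecidableEq α]

omit [Fintype α] [DecidableEq α] in
theorem app_inv (a : Perm α) (x : α) : a (a⁻¹ x) = x := a.apply_symm_apply x

omit [Fintype α] [DecidableEq α] in
theorem inv_app (a : Perm α) (x : α) : a⁻¹ (a x) = x := a.symm_apply_apply x

/-- Pointwise stabiliser of a finset inside `G`, as a subgroup of the symmetric group. -/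
def ptFix (G : Subgroup (Perm α)) (Γ : Finset α) : Subgroup (Perm α) where
  carrier := {g | g ∈ G ∧ ∀ x ∈ Γ, g x = x}
  one_mem' := ⟨G.one_mem, fun _ _ => rfl⟩
  mul_mem' := by
    rintro a b ⟨ha, ha'⟩ ⟨hb, hb'⟩
    exact ⟨G.mul_mem ha hb, fun x hx => by rw [Perm.mul_apply, hb' x hx, ha' x hx]⟩
  inv_mem' := by
    rintro a ⟨ha, ha'⟩
    exact ⟨G.inv_mem ha, fun x hx => by rw [Perm.inv_eq_iff_eq, ha' x hx]⟩

/-- Setwise stabiliser of a finset inside `G`. -/
def setStab (G : Subgroup (Perm α)) (Γ : Finset α) : Subgroup (Perm α) where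
  carrier := {g | g ∈ G ∧ ∀ x, g x ∈ Γ ↔ x ∈ Γ}
  one_mem' := ⟨G.one_mem, fun _ => Iff.rfl⟩
  mul_mem' := by
    rintro a b ⟨ha, ha'⟩ ⟨hb, hb'⟩
    exact ⟨G.mul_mem ha hb, fun x => by rw [Perm.mul_apply, ha', hb']⟩
  inv_mem' := by
    rintro a ⟨ha, ha'⟩
    refine ⟨G.inv_mem ha, fun x => ?_⟩
    rw [← ha' (a⁻¹ x), app_inv]

omit [Fintype α] [DecidableEq α] in
theorem ptFix_le_setStab (G : Subgroup (Perm α)) (Γ : Finset α) : ptFix G Γ ≤ setStab G Γ := by
  rintro g ⟨hg, hfix⟩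
  refine ⟨hg, fun x => ⟨fun h => ?_, fun h => by rw [hfix x h]; exact h⟩⟩
  have h1 := hfix (g x) h
  have hx : g x = x := g.injective h1
  rwa [hx] at h

omit [Fintype α] in
theorem mem_setStab_of_maps {G : Subgroup (Perm α)} {Γ : Finset α} {g : Perm α} (hg : g ∈ G)
    (h : ∀ x ∈ Γ, g x ∈ Γ) : g ∈ setStab G Γ := by
  refine ⟨hg, fun x => ⟨fun hx => ?_, h x⟩⟩
  have himg : Γ.image g = Γ := Finset.eq_of_subset_of_card_le
    (by
      intro y hy
      obtain ⟨z, hz, rfl⟩ := Finset.mem_image.mp hy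
      exact h z hz)
    (by rw [Finset.card_image_of_injective _ g.injective])
  rw [← himg] at hx
  obtain ⟨z, hz, hzx⟩ := Finset.mem_image.mp hx
  rwa [← g.injective hzx]

omit [Fintype α] [DecidableEq α] in
theorem mem_orbit_iff (G : Subgroup (Perm α)) (Γ : Finset α) (x y : α) :
    y ∈ MulAction.orbit (fixingSubgroup G (Γ : Set α)) x ↔ ∃ g ∈ ptFix G Γ, g x = y := by
  constructor
  · rintro ⟨κ, rfl⟩
    refine ⟨((κ : G) : Perm α), ⟨(κ : G).2, fun z hz => ?_⟩, rfl⟩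
    exact (mem_fixingSubgroup_iff G).mp κ.2 z (Finset.mem_coe.mpr hz)
  · rintro ⟨g, ⟨hg, hfix⟩, rfl⟩
    refine ⟨⟨⟨g, hg⟩, ?_⟩, rfl⟩
    rw [mem_fixingSubgroup_iff]
    intro z hz
    exact hfix z (Finset.mem_coe.mp hz)

omit [Fintype α] in
/-- Homogeneity on `k`-sets. -/
theorem homog (G : Subgroup (Perm α)) {k : ℕ}
    (hgen : ∀ s : Finset α, s.card = k + 1 → ∀ σ : Perm ↥s, ∃ g ∈ G, ∀ x : ↥s, g (x : α) = σ x) :
    ∀ (n : ℕ) (A B : Finset α), A.card = k → B.card = k → (A \ B).card = n →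
      ∃ g ∈ G, ∀ x ∈ A, g x ∈ B := by
  intro n
  induction n with
  | zero =>
    intro A B hA hB h0
    refine ⟨1, G.one_mem, fun x hx => ?_⟩
    have : A ⊆ B := Finset.sdiff_eq_empty_iff_subset.mp (Finset.card_eq_zero.mp h0)
    exact this hx
  | succ n ih =>
    intro A B hA hB hn
    obtain ⟨a, ha⟩ : (A \ B).Nonempty := Finset.card_pos.mp (by omega)
    have hBA : (B \ A).card = n + 1 := by
      have h1 := Finset.card_sdiff_add_card_inter A B
      have h2 := Finset.card_sdiff_add_card_inter B A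
      rw [Finset.inter_comm] at h2
      omega
    obtain ⟨b, hb⟩ : (B \ A).Nonempty := Finset.card_pos.mp (by omega)
    rw [Finset.mem_sdiff] at ha hb
    set s := insert b A with hs
    have hscard : s.card = k + 1 := by rw [hs, Finset.card_insert_of_notMem hb.2, hA]
    have has : a ∈ s := Finset.mem_insert_of_mem ha.1
    have hbs : b ∈ s := Finset.mem_insert_self b A
    obtain ⟨g₁, hg₁, hg₁s⟩ := hgen s hscard (Equiv.swap ⟨a, has⟩ ⟨b, hbs⟩)
    set A₁ := insert b (A.erase a) with hA₁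
    have hab : a ≠ b := by rintro rfl; exact hb.2 ha.1
    have hA₁card : A₁.card = k := by
      rw [hA₁, Finset.card_insert_of_notMem, Finset.card_erase_of_mem ha.1, hA]
      · have : 0 < A.card := Finset.card_pos.mpr ⟨a, ha.1⟩
        omega
      · intro h; exact hb.2 (Finset.mem_of_mem_erase h)
    have hmap : ∀ x ∈ A, g₁ x ∈ A₁ := by
      intro x hx
      have hxs : x ∈ s := Finset.mem_insert_of_mem hx
      have h1 := hg₁s ⟨x, hxs⟩
      by_cases hxa : x = a
      · subst hxa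
        rw [Equiv.swap_apply_left] at h1
        rw [h1]; exact Finset.mem_insert_self _ _
      · have hxb : x ≠ b := by rintro rfl; exact hb.2 hx
        rw [Equiv.swap_apply_of_ne_of_ne (by simpa [Subtype.ext_iff] using hxa)
          (by simpa [Subtype.ext_iff] using hxb)] at h1
        rw [h1]
        exact Finset.mem_insert_of_mem (Finset.mem_erase.mpr ⟨hxa, hx⟩)
    have hdiff : (A₁ \ B).card = n := by
      have : A₁ \ B = (A \ B).erase a := by
        ext x
        simp only [hA₁, Finset.mem_sdiff, Finset.mem_insert, Finset.mem_erase]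
        constructor
        · rintro ⟨h | h, hxB⟩
          · subst h; exact absurd hb.1 hxB
          · exact ⟨h.1, h.2, hxB⟩
        · rintro ⟨hxa, hxA, hxB⟩
          exact ⟨Or.inr ⟨hxa, hxA⟩, hxB⟩
      rw [this, Finset.card_erase_of_mem (Finset.mem_sdiff.mpr ha), hn]; rfl
    obtain ⟨g₂, hg₂, hg₂m⟩ := ih A₁ B hA₁card hB hdiff
    exact ⟨g₂ * g₁, G.mul_mem hg₂ hg₁, fun x hx => hg₂m _ (hmap x hx)⟩

omit [Fintype α] [DecidableEq α] in
theorem card_ptFix_dvd (G : Subgroup (Perm α)) {A B : Finset α} {g : Perm α} (hg : g ∈ G)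
    (hmap : ∀ x ∈ A, g x ∈ B) : Nat.card (ptFix G B) ∣ Nat.card (ptFix G A) := by
  let φ : ptFix G B →* ptFix G A :=
    { toFun := fun h => ⟨g⁻¹ * h * g, ⟨G.mul_mem (G.mul_mem (G.inv_mem hg) h.2.1) hg, fun x hx => by
        rw [Perm.mul_apply, Perm.mul_apply, h.2.2 _ (hmap x hx), inv_app]⟩⟩
      map_one' := by
        apply Subtype.ext
        simp
      map_mul' := fun a b => by
        apply Subtype.ext
        simp [mul_assoc] }
  apply Subgroup.card_dvd_of_injective φ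
  intro a b hab
  have h1 : g⁻¹ * (a : Perm α) * g = g⁻¹ * (b : Perm α) * g := congrArg Subtype.val hab
  apply Subtype.ext
  have h2 := mul_right_cancel h1
  exact mul_left_cancel h2

end

section
variable {α : Type*} [Fintype α] [DecidableEq α]

omit [Fintype α] in
/-- Orbits of the pointwise stabiliser outside `Γ` are invariant under the setwise stabiliser. -/
theorem orbit_inv (G : Subgroup (Perm α)) {k : ℕ}
    (hgen : ∀ s : Finset α, s.card = k + 1 → ∀ σ : Perm ↥s, ∃ g ∈ G, ∀ x : ↥s, g (x : α) = σ x)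
    (Γ : Finset α) (hΓ : Γ.card = k) {m : Perm α} (hm : m ∈ setStab G Γ) {δ : α} (hδ : δ ∉ Γ) :
    ∃ κ ∈ ptFix G Γ, κ δ = m δ := by
  set s := insert δ Γ with hs
  have hscard : s.card = k + 1 := by rw [hs, Finset.card_insert_of_notMem hδ, hΓ]
  have hm' : m⁻¹ ∈ setStab G Γ := (setStab G Γ).inv_mem hm
  let τ : Perm α := Perm.ofSubtype (Perm.subtypePerm m⁻¹ hm'.2)
  have hτΓ : ∀ x ∈ Γ, τ x = m⁻¹ x := fun x hx => by
    show Perm.ofSubtype (Perm.subtypePerm m⁻¹ hm'.2) x = _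
    rw [Perm.ofSubtype_apply_of_mem _ hx]; rfl
  have hτδ : ∀ x, x ∉ Γ → τ x = x := fun x hx => Perm.ofSubtype_apply_of_not_mem _ hx
  have hτs : ∀ x, τ x ∈ s ↔ x ∈ s := by
    intro x
    by_cases hx : x ∈ Γ
    · rw [hτΓ x hx]
      have h1 : m⁻¹ x ∈ Γ := (hm'.2 x).mpr hx
      constructor
      · intro _; exact Finset.mem_insert_of_mem hx
      · intro _; exact Finset.mem_insert_of_mem h1
    · rw [hτδ x hx]
  obtain ⟨g, hg, hgs⟩ := hgen s hscard (Perm.subtypePerm τ hτs)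
  have hgΓ : ∀ x ∈ Γ, g x = m⁻¹ x := fun x hx => by
    have h1 := hgs ⟨x, Finset.mem_insert_of_mem hx⟩
    rw [h1]
    exact hτΓ x hx
  have hgδ : g δ = δ := by
    have h1 := hgs ⟨δ, Finset.mem_insert_self δ Γ⟩
    rw [h1]
    exact hτδ δ hδ
  refine ⟨m * g, ⟨G.mul_mem hm.1 hg, fun x hx => ?_⟩, ?_⟩
  · rw [Perm.mul_apply, hgΓ x hx, app_inv]
  · rw [Perm.mul_apply, hgδ]

omit [Fintype α] [DecidableEq α] in
/-- A `p`-group fixes a point of every invariant set of size prime to `p`. -/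
theorem pgroup_fixed [Finite α] {p : ℕ} [Fact p.Prime] (T : Subgroup (Perm α)) (hT : IsPGroup p T)
    (Δ : Set α) (hinv : ∀ t ∈ T, ∀ x ∈ Δ, t x ∈ Δ) (hcard : ¬ p ∣ Nat.card Δ) :
    ∃ δ ∈ Δ, ∀ t ∈ T, t δ = δ := by
  let E' : SubMulAction T α :=
    { carrier := Δ
      smul_mem' := fun q x hx => hinv q q.2 x hx }
  have h1 : Nat.card E' = Nat.card Δ := rfl
  obtain ⟨⟨x, hx⟩, hfix⟩ := hT.nonempty_fixed_point_of_prime_not_dvd_card E'
    (by rw [h1]; exact hcard)
  exact ⟨x, hx, fun q hq => congrArg Subtype.val (hfix ⟨q, hq⟩)⟩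

omit [Fintype α] [DecidableEq α] in
/-- Restriction of the setwise stabiliser to `Γ`. -/
def resHom (G : Subgroup (Perm α)) (Γ : Finset α) : setStab G Γ →* Perm ↥Γ where
  toFun m := Perm.subtypePerm (m : Perm α) m.2.2
  map_one' := by ext; rfl
  map_mul' a b := by ext; rfl

omit [Fintype α] [DecidableEq α] in
theorem resHom_apply (G : Subgroup (Perm α)) (Γ : Finset α) (m : setStab G Γ) (x : ↥Γ) :
    ((resHom G Γ m x : ↥Γ) : α) = (m : Perm α) x := rfl

theorem resHom_surj (G : Subgroup (Perm α)) {k : ℕ} (hk : k < Fintype.card α)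
    (hgen : ∀ s : Finset α, s.card = k + 1 → ∀ σ : Perm ↥s, ∃ g ∈ G, ∀ x : ↥s, g (x : α) = σ x)
    (Γ : Finset α) (hΓ : Γ.card = k) : Function.Surjective (resHom G Γ) := by
  intro σ
  obtain ⟨δ, hδ⟩ : ∃ δ, δ ∉ Γ := by
    by_contra hcon
    push Not at hcon
    have : Γ = Finset.univ := Finset.eq_univ_iff_forall.mpr hcon
    rw [this, Finset.card_univ] at hΓ
    omega
  set s := insert δ Γ with hs
  have hscard : s.card = k + 1 := by rw [hs, Finset.card_insert_of_notMem hδ, hΓ]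
  let τ : Perm α := Perm.ofSubtype σ
  have hτΓ : ∀ (x : α) (hx : x ∈ Γ), τ x = σ ⟨x, hx⟩ := fun x hx =>
    Perm.ofSubtype_apply_of_mem _ hx
  have hτδ : ∀ x, x ∉ Γ → τ x = x := fun x hx => Perm.ofSubtype_apply_of_not_mem _ hx
  have hτs : ∀ x, τ x ∈ s ↔ x ∈ s := by
    intro x
    by_cases hx : x ∈ Γ
    · rw [hτΓ x hx]
      constructor
      · intro _; exact Finset.mem_insert_of_mem hx
      · intro _; exact Finset.mem_insert_of_mem (σ ⟨x, hx⟩).2
    · rw [hτδ x hx]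
  obtain ⟨g, hg, hgs⟩ := hgen s hscard (Perm.subtypePerm τ hτs)
  have hgΓ : ∀ (x : α) (hx : x ∈ Γ), g x = σ ⟨x, hx⟩ := fun x hx => by
    have h1 := hgs ⟨x, Finset.mem_insert_of_mem hx⟩
    rw [h1]
    exact hτΓ x hx
  refine ⟨⟨g, mem_setStab_of_maps hg (fun x hx => by rw [hgΓ x hx]; exact (σ ⟨x, hx⟩).2)⟩, ?_⟩
  ext x
  exact hgΓ x x.2

/-- An element of a Sylow subgroup of the setwise stabiliser acting on `Γ` non-trivially with
support of size at most `p`. -/
theorem exists_elt {p : ℕ} [hp : Fact p.Prime] (G : Subgroup (Perm α)) {k : ℕ}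
    (hk : k < Fintype.card α)
    (hgen : ∀ s : Finset α, s.card = k + 1 → ∀ σ : Perm ↥s, ∃ g ∈ G, ∀ x : ↥s, g (x : α) = σ x)
    (hpk : p ≤ k) (Γ : Finset α) (hΓ : Γ.card = k) (T : Sylow p (setStab G Γ)) :
    ∃ x : setStab G Γ, x ∈ T ∧ resHom G Γ x ≠ 1 ∧ (resHom G Γ x).support.card ≤ p := by
  have hsurj := resHom_surj G hk hgen Γ hΓ
  obtain ⟨c, hc⟩ : ∃ c : Perm ↥Γ, c.cycleType = {p} := by
    rw [Equiv.Perm.exists_with_cycleType_iff]
    refine ⟨?_, ?_⟩
    · rw [Multiset.sum_singleton, Fintype.card_coe, hΓ]; exact hpk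
    · intro a ha
      rw [Multiset.mem_singleton] at ha
      rw [ha]; exact hp.out.two_le
  have hord : orderOf c = p := by rw [← Perm.lcm_cycleType, hc]; simp
  have hsupp : c.support.card = p := by rw [← Perm.sum_cycleType, hc]; simp
  have hc1 : c ≠ 1 := by
    rintro rfl
    rw [orderOf_one] at hord
    exact hp.out.one_lt.ne hord
  have hzp : IsPGroup p (Subgroup.zpowers c) := by
    apply IsPGroup.of_card (n := 1)
    rw [Nat.card_zpowers, hord, pow_one]
  obtain ⟨Q, hQ⟩ := hzp.exists_le_sylow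
  obtain ⟨g, hg⟩ := MulAction.exists_smul_eq (Perm ↥Γ) Q (T.mapSurjective hsurj)
  have hmem : g * c * g⁻¹ ∈ ((T.mapSurjective hsurj : Sylow p (Perm ↥Γ)) : Subgroup (Perm ↥Γ)) := by
    rw [← hg, Sylow.coe_subgroup_smul]
    have := Subgroup.smul_mem_pointwise_smul c (MulAut.conj g) (Q : Subgroup _)
      (hQ (Subgroup.mem_zpowers c))
    simpa [MulAut.smul_def] using this
  rw [Sylow.coe_mapSurjective] at hmem
  obtain ⟨x, hxT, hx⟩ := hmem
  refine ⟨x, hxT, ?_, ?_⟩
  · rw [hx]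
    intro h
    apply hc1
    have h2 : g * c = g := by
      have := congrArg (· * g) h
      simpa using this
    exact mul_left_cancel (a := g) (by rw [h2, mul_one])
  · rw [hx, Perm.card_support_conj, hsupp]

end

/-- In a generously `k`-transitive permutation group, for a prime `p ≤ k` and a `k`-set `Γ`, there are no `p` points outside `Γ` lying in distinct orbits of the pointwise stabiliser of `Γ` all of length prime to `p` (at most `p - 1` such orbits). -/
theorem result {α : Type*} [Fintype α] [DecidableEq α] (G : Subgroup (Equiv.Perm α)) {k : ℕ} (hk : k < Fintype.card α) (hgen : ∀ s : Finset α, s.card = k + 1 → ∀ σ : Equiv.Perm ↥s, ∃ g ∈ G, ∀ x : ↥s, g (x : α) = σ x) {p : ℕ} (hp : p.Prime) (hpk : p ≤ k) (Γ : Finset α) (hΓ : Γ.card = k) (f : Fin p → α) (hf : ∀ i, f i ∉ Γ) (hdist : ∀ i j, i ≠ j → f j ∉ MulAction.orbit (fixingSubgroup G (Γ : Set α)) (f i)) : ∃ i, p ∣ Nat.card (MulAction.orbit (fixingSubgroup G (Γ : Set α)) (f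 i)) := by
  by_contra hcon
  push Not at hcon
  have hp' : Fact p.Prime := ⟨hp⟩
  set K := ptFix G Γ with hK
  set M := setStab G Γ with hM
  obtain ⟨S⟩ : Nonempty (Sylow p K) := inferInstance
  set S' : Subgroup (Perm α) := (S : Subgroup K).map K.subtype with hS'
  have hS'K : S' ≤ K := by
    rintro _ ⟨a, -, rfl⟩
    exact a.2
  have hS'card : Nat.card S' = p ^ (Nat.card K).factorization p := by
    rw [hS', Subgroup.card_map_of_injective K.subtype_injective]
    exact S.card_eq_multiplicity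
  have hKM : K ≤ M := ptFix_le_setStab G Γ
  have hS'pg : IsPGroup p S' := S.isPGroup'.map K.subtype
  have hS'p : IsPGroup p (S'.subgroupOf M) := hS'pg.comap_subtype
  obtain ⟨T, hT⟩ := hS'p.exists_le_sylow
  set T' : Subgroup (Perm α) := (T : Subgroup M).map M.subtype with hT'
  have hT'M : T' ≤ M := by
    rintro _ ⟨a, -, rfl⟩
    exact a.2
  have hT'p : IsPGroup p T' := T.isPGroup'.map M.subtype
  have hS'T' : S' ≤ T' := by
    intro a ha
    exact ⟨⟨a, hKM (hS'K ha)⟩, hT (Subgroup.mem_subgroupOf.mpr ha), rfl⟩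
  have hKΓ : ∀ κ ∈ K, ∀ y, y ∉ Γ → κ y ∉ Γ := by
    intro κ hκ y hy hmem
    exact hy (((hKM hκ).2 y).mp hmem)
  have hfixpt : ∀ i, ∃ δ, (∃ κ ∈ K, κ (f i) = δ) ∧ ∀ t ∈ T', t δ = δ := by
    intro i
    have hset : MulAction.orbit (fixingSubgroup G (Γ : Set α)) (f i) =
        {y | ∃ κ ∈ K, κ (f i) = y} := by
      ext y; exact mem_orbit_iff G Γ (f i) y
    have hc := hcon i
    rw [hset] at hc
    obtain ⟨δ, hδ, hδfix⟩ := pgroup_fixed T' hT'p {y | ∃ κ ∈ K, κ (f i) = y} (by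
      rintro t ht y ⟨κ, hκ, rfl⟩
      have hyΓ : κ (f i) ∉ Γ := hKΓ κ hκ _ (hf i)
      obtain ⟨κ', hκ', h⟩ := orbit_inv G hgen Γ hΓ (hT'M ht) hyΓ
      exact ⟨κ' * κ, K.mul_mem hκ' hκ, by rw [Perm.mul_apply, h]⟩) hc
    exact ⟨δ, hδ, hδfix⟩
  choose δ hδK hδT using hfixpt
  have hδΓ : ∀ i, δ i ∉ Γ := by
    intro i
    obtain ⟨κ, hκ, h1⟩ := hδK i
    rw [← h1]
    exact hKΓ κ hκ _ (hf i)
  have hδinj : Function.Injective δ := by
    intro i j hij
    by_contra hne
    apply hdist i j hne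
    rw [mem_orbit_iff]
    obtain ⟨κ, hκ, h1⟩ := hδK i
    obtain ⟨κ', hκ', h2⟩ := hδK j
    refine ⟨κ'⁻¹ * κ, K.mul_mem (K.inv_mem hκ') hκ, ?_⟩
    rw [Perm.mul_apply, h1, hij, ← h2, inv_app]
  obtain ⟨x, hxT, hx1, hxsupp⟩ := exists_elt G hk hgen hpk Γ hΓ T
  have hxT' : (x : Perm α) ∈ T' := ⟨x, hxT, rfl⟩
  set Γ₀ : Finset α := Γ.filter (fun y => (x : Perm α) y = y) with hΓ₀
  have hΓ₀card : k ≤ Γ₀.card + p := by
    have h1 : (Γ \ Γ₀).card ≤ (resHom G Γ x).support.card := by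
      rw [← Finset.card_map (Function.Embedding.subtype (fun y => y ∈ Γ))]
      apply Finset.card_le_card
      intro y hy
      rw [Finset.mem_sdiff, hΓ₀, Finset.mem_filter] at hy
      have hyΓ : y ∈ Γ := hy.1
      have hxy : (x : Perm α) y ≠ y := fun h => hy.2 ⟨hyΓ, h⟩
      refine Finset.mem_map.mpr ⟨⟨y, hyΓ⟩, ?_, rfl⟩
      rw [Perm.mem_support]
      intro h
      apply hxy
      have := congrArg Subtype.val h
      rwa [resHom_apply] at this
    have h2 := Finset.card_sdiff_add_card_eq_card (Finset.filter_subset (fun y => (x : Perm α) y = y) Γ)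
    rw [← hΓ₀] at h2
    omega
  set D : Finset α := Finset.univ.image δ with hD
  have hDcard : D.card = p := by
    rw [hD, Finset.card_image_of_injective _ hδinj]; simp
  have hdisj : Disjoint Γ₀ D := by
    rw [Finset.disjoint_left]
    intro y hy hyD
    obtain ⟨i, -, rfl⟩ := Finset.mem_image.mp hyD
    exact hδΓ i (Finset.mem_filter.mp hy).1
  obtain ⟨Sg, hSgsub, hSgcard⟩ := Finset.exists_subset_card_eq (s := Γ₀ ∪ D) (n := k)
    (by rw [Finset.card_union_of_disjoint hdisj]; omega)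
  have hxfix : ∀ y ∈ Γ₀ ∪ D, (x : Perm α) y = y := by
    intro y hy
    rcases Finset.mem_union.mp hy with h | h
    · exact (Finset.mem_filter.mp h).2
    · obtain ⟨i, -, rfl⟩ := Finset.mem_image.mp h
      exact hδT i _ hxT'
  have hSfix : ∀ s ∈ S', ∀ y ∈ Γ₀ ∪ D, s y = y := by
    intro s hs y hy
    rcases Finset.mem_union.mp hy with h | h
    · exact (hS'K hs).2 y (Finset.mem_filter.mp h).1
    · obtain ⟨i, -, rfl⟩ := Finset.mem_image.mp h
      exact hδT i _ (hS'T' hs)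
  set U : Subgroup (Perm α) := T' ⊓ ptFix G Sg with hU
  have hSU : S' ≤ U := by
    intro s hs
    exact ⟨hS'T' hs, (hS'K hs).1, fun y hy => hSfix s hs y (hSgsub hy)⟩
  have hxU : (x : Perm α) ∈ U :=
    ⟨hxT', x.2.1, fun y hy => hxfix y (hSgsub hy)⟩
  have hxS : (x : Perm α) ∉ S' := by
    intro h
    apply hx1
    ext y
    rw [resHom_apply]
    exact (hS'K h).2 y y.2
  have hUp : IsPGroup p U := hT'p.to_le inf_le_left
  obtain ⟨a, ha⟩ := hUp.exists_card_eq
  obtain ⟨g, hg, hgmap⟩ := homog G hgen _ Γ Sg hΓ hSgcard rfl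
  have hdvd1 : Nat.card (ptFix G Sg) ∣ Nat.card K := card_ptFix_dvd G hg hgmap
  have hdvd2 : Nat.card U ∣ Nat.card (ptFix G Sg) := Subgroup.card_dvd_of_le inf_le_right
  have hdvd : p ^ a ∣ Nat.card K := ha ▸ hdvd2.trans hdvd1
  have hle : a ≤ (Nat.card K).factorization p :=
    (hp.pow_dvd_iff_le_factorization Nat.card_pos.ne').mp hdvd
  have hcardle : Nat.card U ≤ Nat.card S' := by
    rw [ha, hS'card]; exact Nat.pow_le_pow_right hp.pos hle
  have hEq := Subgroup.eq_of_le_of_card_ge hSU hcardle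
  exact hxS (hEq ▸ hxU)

end Cfsg.Agent.S0706
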