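import Cfsg.Statements.S0707
import Mathlib

set_option autoImplicit false
open Cfsg

namespace Cfsg.Agent.S0707

/-- In a primitive permutation group, distinct points have distinct stabilisers unless the group is regular of prime degree. -/
theorem result {α : Type*} (G : Subgroup (Equiv.Perm α)) [MulAction.IsPreprimitive G α] (h : ¬ (Nat.card α).Prime ∨ ∃ a : α, MulAction.stabilizer G a ≠ ⊥) {a b : α} (hab : a ≠ b) : MulAction.stabilizer G a ≠ MulAction.stabilizer G b := by
  intro heq
  have hnt : Nontrivial α := ⟨⟨a, b, hab⟩⟩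
  set K := MulAction.stabilizer G a with hK
  set N := Subgroup.normalizer (K : Set G) with hNdef
  have hKN : K ≤ N := Subgroup.le_normalizer
  have hblock : MulAction.IsBlock G (MulAction.orbit N a) := MulAction.IsBlock.of_orbit hKN
  have ha_mem : a ∈ MulAction.orbit N a := MulAction.mem_orbit_self a
  have hb_mem : b ∈ MulAction.orbit N a := by
    obtain ⟨g, hg⟩ := MulAction.exists_smul_eq G a b
    refine ⟨⟨g, ?_⟩, hg⟩
    rw [Subgroup.mem_normalizer_iff]
    intro h
    have : g * h * g⁻¹ ∈ K ↔ g * h * g⁻¹ ∈ MulAction.stabilizer G b := by rw [← heq]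
    rw [this, ← hg]
    simp only [hK, MulAction.mem_stabilizer_iff, mul_smul, inv_smul_smul]
    exact (smul_left_cancel_iff g).symm
  have huniv : MulAction.orbit N a = Set.univ := by
    rcases MulAction.IsPreprimitive.isTrivialBlock_of_isBlock hblock with h1 | h1
    · exact absurd (h1 ha_mem hb_mem) hab
    · exact h1
  have hall : ∀ x : α, MulAction.stabilizer G x = K := by
    intro x
    have hx : x ∈ MulAction.orbit N a := by rw [huniv]; trivial
    obtain ⟨n, rfl⟩ := hx
    ext h
    have hn := (Subgroup.mem_normalizer_iff.mp n.2) ((n : G)⁻¹ * h * n)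
    have e1 : (n : G) * ((n : G)⁻¹ * h * n) * (n : G)⁻¹ = h := by group
    rw [e1] at hn
    rw [← hn]
    simp only [hK, MulAction.mem_stabilizer_iff, mul_smul]
    rw [inv_smul_eq_iff]
    rfl
  have hKbot : K = ⊥ := by
    rw [eq_bot_iff]
    intro g hg
    rw [Subgroup.mem_bot]
    apply Subtype.ext
    ext x
    have : g ∈ MulAction.stabilizer G x := by rw [hall x]; exact hg
    exact this
  have hco : IsCoatom K := MulAction.IsPreprimitive.isCoatom_stabilizer_of_isPreprimitive (G := G) a
  rw [hKbot] at hco
  have hso : IsSimpleOrder (Subgroup G) := isSimpleOrder_iff_isCoatom_bot.mpr hco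
  have hcard : Nat.card α = Nat.card G := by
    have h1 := MulAction.index_stabilizer G a
    rw [← hK, hKbot, Subgroup.index_bot, MulAction.orbit_eq_univ, Set.ncard_univ] at h1
    exact h1.symm
  have hprime : (Nat.card G).Prime := by
    have hntG : Nontrivial G := by
      have : Nontrivial (Subgroup G) := hso.toNontrivial
      exact (Subgroup.nontrivial_iff).mp this
    obtain ⟨g, hg⟩ := exists_ne (1 : G)
    have hz : Subgroup.zpowers g = ⊤ :=
      (hso.eq_bot_or_eq_top (Subgroup.zpowers g)).resolve_left (Subgroup.zpowers_ne_bot.2 hg)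
    have hcyc : IsCyclic G := ⟨⟨g, (Subgroup.eq_top_iff' _).1 hz⟩⟩
    letI : CommGroup G := IsCyclic.commGroup
    have hsimple : IsSimpleGroup G := ⟨fun H _ => hso.eq_bot_or_eq_top H⟩
    exact IsSimpleGroup.prime_card
  rcases h with h | ⟨x, hx⟩
  · exact h (hcard ▸ hprime)
  · exact hx (by rw [hall x, hKbot])

end Cfsg.Agent.S0707
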