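import Cfsg.Statements.S0708
import Cfsg.Agent.Lib.Helper7.Jordan2

set_option autoImplicit false
open Cfsg

namespace Cfsg.Agent.S0708

/-- Tits' argument: a sharply 4-transitive group (no finiteness assumed) has finite degree at most 11, and at most 6 when the degree is even. -/
theorem result {G : Type*} [Group G] {Ω : Type*} [MulAction G Ω] (h4 : MulAction.IsMultiplyPretransitive G Ω 4) (hsharp : ∀ x : Fin 4 ↪ Ω, MulAction.stabilizer G x = ⊥) (hne : Nonempty (Fin 4 ↪ Ω)) : Finite Ω ∧ Nat.card Ω ≤ 11 ∧ (Even (Nat.card Ω) → Nat.card Ω ≤ 6) := by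

  obtain ⟨x₀⟩ := hne
  obtain ⟨hfin, hcard⟩ := Cfsg.Agent.Lib.Helper7.Jordan2.tits4 (G := G) (X := Ω) ⟨h4, hsharp⟩ x₀
  refine ⟨hfin, by omega, fun he => ?_⟩
  rcases hcard with h | h | h | h
  · omega
  · rw [h] at he; exact absurd he (by decide)
  · omega
  · rw [h] at he; exact absurd he (by decide)

end Cfsg.Agent.S0708
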