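import Cfsg.Statements.S0709
import Mathlib
import Cfsg.Agent.Lib.Helper12.MultTrans

set_option autoImplicit false
open Cfsg

namespace Cfsg.Agent.S0709

open Equiv
open Cfsg.Agent.Lib.Helper12.MultTrans

section step
variable {α : Type*} [Fintype α] [DecidableEq α]

omit [Fintype α] [DecidableEq α] in
theorem inv_app (a : Perm α) (x : α) : a⁻¹ (a x) = x := a.symm_apply_apply x

omit [Fintype α] [DecidableEq α] in
theorem MT_le {H₁ H₂ : Subgroup (Perm α)} {S : Finset α} {k : ℕ} (hle : H₁ ≤ H₂)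
    (h : MT H₁ S k) : MT H₂ S k := by
  intro x y hx hy hxS hyS
  obtain ⟨g, hg, hmap⟩ := h x y hx hy hxS hyS
  exact ⟨g, hle hg, hmap⟩

omit [Fintype α] [DecidableEq α] in
theorem Tr_of_MT2 {A : Subgroup (Perm α)} {S : Finset α} (h2 : MT A S 2) {a c : α} (ha : a ∉ S)
    (hc : c ∉ S) (hac : a ≠ c) : Tr A S := by
  intro y z hy hz
  have aux : ∀ w, w ∉ S → ∃ w', w' ∉ S ∧ w ≠ w' := by
    intro w hw
    by_cases hwa : w = a
    · exact ⟨c, hc, by rw [hwa]; exact hac⟩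
    · exact ⟨a, ha, hwa⟩
  obtain ⟨y', hy', hyy'⟩ := aux y hy
  obtain ⟨z', hz', hzz'⟩ := aux z hz
  obtain ⟨g, hg, h1, -⟩ := MT.two h2 hy hy' hz hz' hyy' hzz'
  exact ⟨g, hg, h1⟩

omit [Fintype α] in
/-- The one-point extension: the group generated by `A` and `s` is `A ∪ A s A`. -/
theorem step_mem (A : Subgroup (Perm α)) (S : Finset α) (a : α) (s x : Perm α)
    (hAfix : ∀ g ∈ A, ∀ y ∈ S, g y = y) (ha : a ∉ S) (h2 : MT A S 2)
    (hnorm : ∀ g ∈ stab A a, s * g * s⁻¹ ∈ stab A a) (hs2 : s ^ 2 ∈ stab A a)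
    (hx : x ∈ A) (hxa : x a ≠ a) (hbraid : (x * s) ^ 3 ∈ A) :
    ∀ b ∈ Subgroup.closure ((A : Set (Perm α)) ∪ {s}),
      b ∈ A ∨ ∃ g ∈ A, ∃ g' ∈ A, b = g * s * g' := by
  have hs2A : s ^ 2 ∈ A := (mem_stab.mp hs2).1
  have hnorm' : ∀ g ∈ stab A a, s⁻¹ * g * s ∈ stab A a := by
    intro g hg
    have h1 := hnorm g hg
    have h2' : s⁻¹ * g * s = (s ^ 2)⁻¹ * (s * g * s⁻¹) * s ^ 2 := by group
    rw [h2']
    exact (stab A a).mul_mem ((stab A a).mul_mem ((stab A a).inv_mem hs2) h1) hs2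
  have hsxs : ∃ g₁ ∈ A, ∃ g₂ ∈ A, s * x * s = g₁ * s * g₂ := by
    refine ⟨x⁻¹ * (x * s) ^ 3 * (s ^ 2)⁻¹,
      A.mul_mem (A.mul_mem (A.inv_mem hx) hbraid) (A.inv_mem hs2A), x⁻¹, A.inv_mem hx, ?_⟩
    have h3 : (x * s) ^ 3 = x * s * (x * s) * (x * s) := by rw [pow_succ, pow_two]
    rw [h3]
    group
  have key : ∀ g ∈ A, s * g * s ∈ A ∨ ∃ g₁ ∈ A, ∃ g₂ ∈ A, s * g * s = g₁ * s * g₂ := by
    intro g hg
    by_cases hga : g a = a
    · left
      have h1 := hnorm g (mem_stab.mpr ⟨hg, hga⟩)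
      have : s * g * s = (s * g * s⁻¹) * s ^ 2 := by group
      rw [this]
      exact A.mul_mem (mem_stab.mp h1).1 hs2A
    · right
      have hgaS : g a ∉ S := notS (hAfix g hg) ha
      have hxaS : x a ∉ S := notS (hAfix x hx) ha
      obtain ⟨u, hu, hua, hux⟩ := MT.two h2 ha hxaS ha hgaS (Ne.symm hxa) (Ne.symm hga)
      set v := x⁻¹ * u⁻¹ * g with hv
      have hvA : v ∈ A := A.mul_mem (A.mul_mem (A.inv_mem hx) (A.inv_mem hu)) hg
      have hva : v a = a := by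
        rw [hv, Perm.mul_apply, Perm.mul_apply, ← hux, inv_app u, inv_app x]
      have hustab : u ∈ stab A a := mem_stab.mpr ⟨hu, hua⟩
      have hvstab : v ∈ stab A a := mem_stab.mpr ⟨hvA, hva⟩
      obtain ⟨g₁, hg₁, g₂, hg₂, hsx⟩ := hsxs
      refine ⟨(s * u * s⁻¹) * g₁, A.mul_mem (mem_stab.mp (hnorm u hustab)).1 hg₁,
        g₂ * (s⁻¹ * v * s), A.mul_mem hg₂ (mem_stab.mp (hnorm' v hvstab)).1, ?_⟩
      have hg' : g = u * x * v := by rw [hv]; group
      calc s * g * s = (s * u * s⁻¹) * (s * x * s) * (s⁻¹ * v * s) := by rw [hg']; group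
        _ = (s * u * s⁻¹) * (g₁ * s * g₂) * (s⁻¹ * v * s) := by rw [hsx]
        _ = s * u * s⁻¹ * g₁ * s * (g₂ * (s⁻¹ * v * s)) := by group
  have hXA : ∀ y ∈ A, ∀ b, (b ∈ A ∨ ∃ g ∈ A, ∃ g' ∈ A, b = g * s * g') →
      (y * b ∈ A ∨ ∃ g ∈ A, ∃ g' ∈ A, y * b = g * s * g') := by
    intro y hy b hb
    rcases hb with h | ⟨g, hg, g', hg', rfl⟩
    · left; exact A.mul_mem hy h
    · right; exact ⟨y * g, A.mul_mem hy hg, g', hg', by group⟩
  have hXs : ∀ b, (b ∈ A ∨ ∃ g ∈ A, ∃ g' ∈ A, b = g * s * g') →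
      (s * b ∈ A ∨ ∃ g ∈ A, ∃ g' ∈ A, s * b = g * s * g') := by
    intro b hb
    rcases hb with h | ⟨g, hg, g', hg', rfl⟩
    · right; exact ⟨1, A.one_mem, b, h, by group⟩
    · rcases key g hg with h | ⟨g₁, hg₁, g₂, hg₂, h⟩
      · left
        have : s * (g * s * g') = (s * g * s) * g' := by group
        rw [this]; exact A.mul_mem h hg'
      · right
        refine ⟨g₁, hg₁, g₂ * g', A.mul_mem hg₂ hg', ?_⟩
        have : s * (g * s * g') = (s * g * s) * g' := by group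
        rw [this, h]; group
  intro b hb
  refine Subgroup.closure_induction_left
    (p := fun b _ => b ∈ A ∨ ∃ g ∈ A, ∃ g' ∈ A, b = g * s * g') ?_ ?_ ?_ hb
  · left; exact A.one_mem
  · intro y hy z _ ih
    rcases hy with hyA | hys
    · exact hXA y hyA z ih
    · rw [Set.mem_singleton_iff] at hys
      subst hys
      exact hXs z ih
  · intro y hy z _ ih
    rcases hy with hyA | hys
    · exact hXA y⁻¹ (A.inv_mem hyA) z ih
    · rw [Set.mem_singleton_iff] at hys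
      subst hys
      have h1 := hXA (y ^ 2)⁻¹ (A.inv_mem hs2A) (y * z) (hXs z ih)
      have h2' : y⁻¹ * z = (y ^ 2)⁻¹ * (y * z) := by group
      rw [h2']
      exact h1

omit [Fintype α] in
theorem step_stab (A : Subgroup (Perm α)) (S : Finset α) (a inf : α) (s x : Perm α)
    (hAfix : ∀ g ∈ A, ∀ y ∈ S, g y = y) (ha : a ∉ S) (h2 : MT A S 2)
    (hnorm : ∀ g ∈ stab A a, s * g * s⁻¹ ∈ stab A a) (hs2 : s ^ 2 ∈ stab A a)
    (hx : x ∈ A) (hxa : x a ≠ a) (hbraid : (x * s) ^ 3 ∈ A) (hinf : inf ∈ S)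
    (hsinf : s inf = a) :
    ∀ b ∈ Subgroup.closure ((A : Set (Perm α)) ∪ {s}), b inf = inf → b ∈ A := by
  intro b hb hbinf
  rcases step_mem A S a s x hAfix ha h2 hnorm hs2 hx hxa hbraid b hb with h | ⟨g, hg, g', hg', rfl⟩
  · exact h
  · exfalso
    rw [Perm.mul_apply, Perm.mul_apply, hAfix g' hg' inf hinf, hsinf] at hbinf
    exact notS (hAfix g hg) ha (hbinf ▸ hinf)

omit [Fintype α] in
theorem step_fix (A : Subgroup (Perm α)) (S : Finset α) (inf : α) (s : Perm α)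
    (hAfix : ∀ g ∈ A, ∀ y ∈ S, g y = y) (hsfix : ∀ y ∈ S, y ≠ inf → s y = y) :
    ∀ b ∈ Subgroup.closure ((A : Set (Perm α)) ∪ {s}), ∀ y ∈ S.erase inf, b y = y := by
  have hle : Subgroup.closure ((A : Set (Perm α)) ∪ {s}) ≤
      fixingSubgroup (Perm α) ((S.erase inf : Finset α) : Set α) := by
    rw [Subgroup.closure_le]
    intro g hg
    rw [SetLike.mem_coe, mem_fixingSubgroup_iff]
    intro y hy
    rw [Finset.mem_coe, Finset.mem_erase] at hy
    rcases hg with hgA | hgs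
    · exact hAfix g hgA y hy.2
    · rw [Set.mem_singleton_iff] at hgs
      rw [hgs]
      exact hsfix y hy.2 hy.1
  intro b hb y hy
  exact (mem_fixingSubgroup_iff (Perm α)).mp (hle hb) y (Finset.mem_coe.mpr hy)

omit [Fintype α] in
theorem step_Tr (A : Subgroup (Perm α)) (S : Finset α) (a inf : α) (s : Perm α)
    (ha : a ∉ S) (hTr : Tr A S) (hsinf : s inf = a) :
    Tr (Subgroup.closure ((A : Set (Perm α)) ∪ {s})) (S.erase inf) := by
  set B := Subgroup.closure ((A : Set (Perm α)) ∪ {s}) with hB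
  have hAB : A ≤ B := by
    intro g hg
    exact Subgroup.subset_closure (Or.inl hg)
  have hsB : s ∈ B := Subgroup.subset_closure (Or.inr rfl)
  have aux : ∀ y, y ∉ S.erase inf → ∃ b ∈ B, b y = a := by
    intro y hy
    by_cases hyi : y = inf
    · exact ⟨s, hsB, by rw [hyi, hsinf]⟩
    · have hyS : y ∉ S := fun h => hy (Finset.mem_erase.mpr ⟨hyi, h⟩)
      obtain ⟨g, hg, hga⟩ := hTr y a hyS ha
      exact ⟨g, hAB hg, hga⟩
  intro y z hy hz
  obtain ⟨b₁, hb₁, h1⟩ := aux y hy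
  obtain ⟨b₂, hb₂, h2⟩ := aux z hz
  refine ⟨b₂⁻¹ * b₁, B.mul_mem (B.inv_mem hb₂) hb₁, ?_⟩
  rw [Perm.mul_apply, h1, ← h2, inv_app]

end step

section main
variable {α : Type*} [Fintype α] [DecidableEq α]

/-- The hypotheses of Witt's lemma. -/
structure Hyp (t : ℕ) (q : ℕ → α) (G : Subgroup (Perm α)) (s : ℕ → Perm α)
    (H : Subgroup (Perm α)) : Prop where
  ht : 2 ≤ t
  hq : ∀ i j : ℕ, 1 ≤ i → i ≤ t → 1 ≤ j → j ≤ t → q i = q j → i = j
  hfix : ∀ g ∈ G, ∀ i : ℕ, 3 ≤ i → i ≤ t → g (q i) = q i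
  h2 : ∀ a b c d : α, (∀ i, 3 ≤ i → i ≤ t → a ≠ q i ∧ b ≠ q i ∧ c ≠ q i ∧ d ≠ q i) → a ≠ b →
    c ≠ d → ∃ g ∈ G, g a = c ∧ g b = d
  hs1 : s 1 ∈ G
  hs1q : s 1 (q 1) = q 2 ∧ s 1 (q 2) = q 1
  hsq : ∀ i : ℕ, 2 ≤ i → i + 1 ≤ t → s i (q i) = q (i + 1) ∧ s i (q (i + 1)) = q i ∧
    ∀ j : ℕ, 1 ≤ j → j ≤ t → j ≠ i → j ≠ i + 1 → s i (q j) = q j
  hH : H = G ⊓ MulAction.stabilizer (Perm α) (q 1) ⊓ MulAction.stabilizer (Perm α) (q 2)
  hsq2 : ∀ i : ℕ, 1 ≤ i → i + 1 ≤ t → s i ^ 2 ∈ H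
  hbraid : ∀ i : ℕ, 1 ≤ i → i + 2 ≤ t → (s i * s (i + 1)) ^ 3 ∈ H
  hcomm : ∀ i j : ℕ, 1 ≤ i → i + 2 ≤ j → j + 1 ≤ t → (s i * s j) ^ 2 ∈ H ∧ (s j * s i) ^ 2 ∈ H
  hnorm : ∀ i : ℕ, 2 ≤ i → i + 1 ≤ t → ∀ g ∈ G ⊓ MulAction.stabilizer (Perm α) (q 2),
    s i * g * (s i)⁻¹ ∈ G ⊓ MulAction.stabilizer (Perm α) (q 2)

/-- The points `q (i+1), …, q t`. -/
def Sset (t : ℕ) (q : ℕ → α) (i : ℕ) : Finset α := (Finset.Icc (i + 1) t).image q

/-- The group generated by `G` and `s 2, …, s (i-1)`. -/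
def L (G : Subgroup (Perm α)) (s : ℕ → Perm α) (i : ℕ) : Subgroup (Perm α) :=
  Subgroup.closure ((G : Set (Perm α)) ∪ {x | ∃ j : ℕ, 2 ≤ j ∧ j + 1 ≤ i ∧ x = s j})

omit [Fintype α] in
theorem mem_Sset {t : ℕ} {q : ℕ → α} {i : ℕ} {x : α} :
    x ∈ Sset t q i ↔ ∃ j, i + 1 ≤ j ∧ j ≤ t ∧ q j = x := by
  simp [Sset, Finset.mem_image, Finset.mem_Icc, and_assoc]

variable {t : ℕ} {q : ℕ → α} {G : Subgroup (Perm α)} {s : ℕ → Perm α} {H : Subgroup (Perm α)}

omit [Fintype α] [DecidableEq α] in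
theorem Hyp.H_le (hyp : Hyp t q G s H) : H ≤ G := by
  rw [hyp.hH]; exact inf_le_left.trans inf_le_left

omit [Fintype α] [DecidableEq α] in
theorem Hyp.H_fix (hyp : Hyp t q G s H) : ∀ h ∈ H, ∀ j, 1 ≤ j → j ≤ t → h (q j) = q j := by
  intro h hh j hj1 hjt
  have hh' := hh
  rw [hyp.hH, Subgroup.mem_inf, Subgroup.mem_inf, MulAction.mem_stabilizer_iff,
    MulAction.mem_stabilizer_iff] at hh'
  obtain ⟨⟨hG, h1⟩, h2⟩ := hh'
  by_cases hj : j = 1
  · subst hj; exact h1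
  by_cases hj' : j = 2
  · subst hj'; exact h2
  exact hyp.hfix h hG j (by omega) hjt

theorem Hyp.card (hyp : Hyp t q G s H) : t ≤ Fintype.card α := by
  have h1 : ((Finset.Icc 1 t).image q).card = t := by
    rw [Finset.card_image_of_injOn, Nat.card_Icc]
    · omega
    · intro i hi j hj hij
      rw [Finset.mem_coe, Finset.mem_Icc] at hi hj
      exact hyp.hq i j hi.1 hi.2 hj.1 hj.2 hij
  rw [← h1]; exact Finset.card_le_univ _

omit [Fintype α] in
theorem Sset_card (t : ℕ) (q : ℕ → α) (i : ℕ) : (Sset t q i).card ≤ t - i := by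
  unfold Sset
  refine Finset.card_image_le.trans ?_
  rw [Nat.card_Icc]; omega

omit [Fintype α] in
theorem Hyp.q_not_mem (hyp : Hyp t q G s H) {i : ℕ} (hi1 : 1 ≤ i) (hit : i ≤ t) :
    q i ∉ Sset t q i := by
  rw [mem_Sset]
  rintro ⟨j, hj, hjt, hqj⟩
  have := hyp.hq j i (by omega) hjt hi1 hit hqj
  omega

omit [Fintype α] in
theorem Hyp.Sset_erase (hyp : Hyp t q G s H) {i : ℕ} (hi : i + 1 ≤ t) :
    (Sset t q i).erase (q (i + 1)) = Sset t q (i + 1) := by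
  ext x
  rw [Finset.mem_erase, mem_Sset, mem_Sset]
  constructor
  · rintro ⟨hne, j, hj, hjt, rfl⟩
    refine ⟨j, ?_, hjt, rfl⟩
    by_contra hlt
    have : j = i + 1 := by omega
    subst this; exact hne rfl
  · rintro ⟨j, hj, hjt, rfl⟩
    refine ⟨?_, j, by omega, hjt, rfl⟩
    intro h
    have := hyp.hq j (i + 1) (by omega) hjt (by omega) hi h
    omega

omit [Fintype α] in
theorem Sset_insert {i : ℕ} (hi : i + 1 ≤ t) :
    insert (q (i + 1)) (Sset t q (i + 1)) = Sset t q i := by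
  ext x
  rw [Finset.mem_insert, mem_Sset, mem_Sset]
  constructor
  · rintro (rfl | ⟨j, hj, hjt, rfl⟩)
    · exact ⟨i + 1, le_refl _, hi, rfl⟩
    · exact ⟨j, by omega, hjt, rfl⟩
  · rintro ⟨j, hj, hjt, rfl⟩
    by_cases h : j = i + 1
    · left; rw [h]
    · right; exact ⟨j, by omega, hjt, rfl⟩

omit [Fintype α] [DecidableEq α] in
theorem L_two : L G s 2 = G := by
  unfold L
  have : {x : Perm α | ∃ j : ℕ, 2 ≤ j ∧ j + 1 ≤ 2 ∧ x = s j} = ∅ := by
    ext x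
    simp only [Set.mem_ofPred_eq, Set.mem_empty_iff_false, iff_false]
    rintro ⟨j, hj, hj', -⟩
    omega
  rw [this, Set.union_empty, Subgroup.closure_eq]

omit [Fintype α] [DecidableEq α] in
theorem G_le_L (i : ℕ) : G ≤ L G s i := fun _ hg => Subgroup.subset_closure (Or.inl hg)

omit [Fintype α] [DecidableEq α] in
theorem s_mem_L {i j : ℕ} (hj : 2 ≤ j) (hji : j + 1 ≤ i) : s j ∈ L G s i :=
  Subgroup.subset_closure (Or.inr ⟨j, hj, hji, rfl⟩)

omit [Fintype α] [DecidableEq α] in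
theorem L_mono {i j : ℕ} (h : i ≤ j) : L G s i ≤ L G s j := by
  apply Subgroup.closure_mono
  rintro x (hx | ⟨k, hk, hki, rfl⟩)
  · exact Or.inl hx
  · exact Or.inr ⟨k, hk, by omega, rfl⟩

omit [Fintype α] [DecidableEq α] in
theorem L_succ {i : ℕ} (hi : 2 ≤ i) :
    L G s (i + 1) = Subgroup.closure ((L G s i : Set (Perm α)) ∪ {s i}) := by
  apply le_antisymm
  · show Subgroup.closure _ ≤ _
    rw [Subgroup.closure_le]
    rintro x (hx | ⟨k, hk, hki, rfl⟩)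
    · exact Subgroup.subset_closure (Or.inl (G_le_L i hx))
    · by_cases hk' : k = i
      · subst hk'; exact Subgroup.subset_closure (Or.inr rfl)
      · exact Subgroup.subset_closure (Or.inl (s_mem_L hk (by omega)))
  · rw [Subgroup.closure_le]
    rintro x (hx | hx)
    · exact L_mono (Nat.le_succ i) hx
    · rw [Set.mem_singleton_iff] at hx
      rw [hx]; exact s_mem_L hi (le_refl _)

omit [Fintype α] [DecidableEq α] in
theorem Hyp.conj_swap (hyp : Hyp t q G s H) {i j : ℕ} (hj : 1 ≤ j) (hji : j + 2 ≤ i)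
    (hit : i + 1 ≤ t) : ∃ h ∈ H, s i * s j * (s i)⁻¹ = h * (s j)⁻¹ * (s i ^ 2)⁻¹ := by
  refine ⟨(s i * s j) ^ 2, (hyp.hcomm j i hj hji hit).2, ?_⟩
  rw [pow_two (s i * s j)]; group

omit [Fintype α] [DecidableEq α] in
theorem Hyp.conj_G (hyp : Hyp t q G s H) {i : ℕ} (hi : 3 ≤ i) (hit : i + 1 ≤ t) :
    ∀ g ∈ G, s i * g * (s i)⁻¹ ∈ G := by
  intro g hg
  have ht := hyp.ht
  have hstabG : ∀ u ∈ G, u (q 2) = q 2 → s i * u * (s i)⁻¹ ∈ G := by
    intro u hu hu2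
    have := hyp.hnorm i (by omega) hit u
      (Subgroup.mem_inf.mpr ⟨hu, MulAction.mem_stabilizer_iff.mpr hu2⟩)
    exact (Subgroup.mem_inf.mp this).1
  by_cases hg2 : g (q 2) = q 2
  · exact hstabG g hg hg2
  · have hnotq : ∀ (w : α), (∃ g' ∈ G, ∃ m, (m = 1 ∨ m = 2) ∧ g' (q m) = w) →
        ∀ j, 3 ≤ j → j ≤ t → w ≠ q j := by
      rintro w ⟨g', hg', m, hm, rfl⟩ j hj hjt heq
      have h1 := hyp.hfix g' hg' j hj hjt
      rw [← h1] at heq
      have h3 := g'.injective heq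
      have := hyp.hq m j (by omega) (by omega) (by omega) hjt h3
      omega
    obtain ⟨u, hu, hu2, hu1⟩ := hyp.h2 (q 2) (q 1) (q 2) (g (q 2))
      (fun j hj hjt => ⟨hnotq _ ⟨1, G.one_mem, 2, Or.inr rfl, rfl⟩ j hj hjt,
        hnotq _ ⟨1, G.one_mem, 1, Or.inl rfl, rfl⟩ j hj hjt,
        hnotq _ ⟨1, G.one_mem, 2, Or.inr rfl, rfl⟩ j hj hjt,
        hnotq _ ⟨g, hg, 2, Or.inr rfl, rfl⟩ j hj hjt⟩)
      (by
        intro h
        have := hyp.hq 2 1 (by norm_num) ht (by norm_num) (by omega) h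
        omega)
      (Ne.symm hg2)
    set v := (s 1)⁻¹ * u⁻¹ * g with hv
    have hvG : v ∈ G := G.mul_mem (G.mul_mem (G.inv_mem hyp.hs1) (G.inv_mem hu)) hg
    have hv2 : v (q 2) = q 2 := by
      rw [hv, Perm.mul_apply, Perm.mul_apply, ← hu1, inv_app]
      exact inv_apply_eq' (s 1) hyp.hs1q.2
    obtain ⟨h, hh, heq⟩ := hyp.conj_swap (i := i) (j := 1) (le_refl _) (by omega) hit
    have hg' : g = u * s 1 * v := by rw [hv]; group
    have hcalc : s i * g * (s i)⁻¹ =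
        (s i * u * (s i)⁻¹) * (s i * s 1 * (s i)⁻¹) * (s i * v * (s i)⁻¹) := by
      rw [hg']; group
    rw [hcalc, heq]
    exact G.mul_mem (G.mul_mem (hstabG u hu hu2)
      (G.mul_mem (G.mul_mem (hyp.H_le hh) (G.inv_mem hyp.hs1))
        (G.inv_mem (hyp.H_le (hyp.hsq2 i (by omega) hit))))) (hstabG v hvG hv2)

omit [Fintype α] [DecidableEq α] in
theorem Hyp.conj_L (hyp : Hyp t q G s H) {i : ℕ} (hi : 3 ≤ i) (hit : i + 1 ≤ t) :
    ∀ g ∈ L G s (i - 1), s i * g * (s i)⁻¹ ∈ L G s (i - 1) := by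
  intro g hg
  refine Subgroup.closure_induction (p := fun g _ => s i * g * (s i)⁻¹ ∈ L G s (i - 1))
    ?_ ?_ ?_ ?_ hg
  · rintro x (hx | ⟨j, hj, hji, rfl⟩)
    · exact G_le_L _ (hyp.conj_G hi hit x hx)
    · obtain ⟨h, hh, heq⟩ := hyp.conj_swap (i := i) (j := j) (by omega) (by omega) hit
      rw [heq]
      exact (L G s (i - 1)).mul_mem ((L G s (i - 1)).mul_mem (G_le_L _ (hyp.H_le hh))
        ((L G s (i - 1)).inv_mem (s_mem_L hj hji)))
        ((L G s (i - 1)).inv_mem (G_le_L _ (hyp.H_le (hyp.hsq2 i (by omega) hit))))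
  · have : s i * 1 * (s i)⁻¹ = 1 := by group
    rw [this]; exact Subgroup.one_mem _
  · intro x y _ _ hx hy
    have : s i * (x * y) * (s i)⁻¹ = (s i * x * (s i)⁻¹) * (s i * y * (s i)⁻¹) := by group
    rw [this]; exact Subgroup.mul_mem _ hx hy
  · intro x _ hx
    have : s i * x⁻¹ * (s i)⁻¹ = (s i * x * (s i)⁻¹)⁻¹ := by group
    rw [this]; exact Subgroup.inv_mem _ hx

theorem Hyp.main (hyp : Hyp t q G s H) : ∀ d : ℕ, 2 + d ≤ t →
    (∀ g ∈ L G s (2 + d), ∀ y ∈ Sset t q (2 + d), g y = y) ∧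
    MT (L G s (2 + d)) (Sset t q (2 + d)) (2 + d) ∧
    (∀ g ∈ L G s (2 + d), g (q (2 + d)) = q (2 + d) → 3 ≤ 2 + d → g ∈ L G s (2 + d - 1)) := by
  intro d
  induction d with
  | zero =>
    intro _
    refine ⟨?_, ?_, ?_⟩
    · intro g hg y hy
      have hg' : g ∈ G := by
        have : L G s (2 + 0) = G := L_two
        rwa [this] at hg
      obtain ⟨j, hj, hjt, rfl⟩ := mem_Sset.mp hy
      exact hyp.hfix g hg' j hj hjt
    · have : L G s (2 + 0) = G := L_two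
      rw [this]
      intro x y hx hy hxS hyS
      obtain ⟨g, hg, h0, h1⟩ := hyp.h2 (x 0) (x 1) (y 0) (y 1)
        (fun j hj hjt => ⟨fun h => hxS 0 (mem_Sset.mpr ⟨j, hj, hjt, h.symm⟩),
          fun h => hxS 1 (mem_Sset.mpr ⟨j, hj, hjt, h.symm⟩),
          fun h => hyS 0 (mem_Sset.mpr ⟨j, hj, hjt, h.symm⟩),
          fun h => hyS 1 (mem_Sset.mpr ⟨j, hj, hjt, h.symm⟩)⟩)
        (fun h => by have := hx h; simp at this)
        (fun h => by have := hy h; simp at this)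
      refine ⟨g, hg, fun i => ?_⟩
      fin_cases i
      · exact h0
      · exact h1
    · intro g _ _ h3
      omega
  | succ d ih =>
    intro hle
    obtain ⟨ihfix, ihMT, ihstab⟩ := ih (by omega)
    have hcardα := hyp.card
    have hScard := Sset_card t q (2 + d)
    have h2' : MT (L G s (2 + d)) (Sset t q (2 + d)) 2 := MT_mono d 2 ihMT (by omega)
    obtain ⟨i, hi⟩ : ∃ i, i = 2 + d := ⟨_, rfl⟩
    rw [← hi] at ihfix ihMT ihstab h2'
    have hi2 : 2 ≤ i := by omega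
    have hit : i + 1 ≤ t := by omega
    have hidx : 2 + (d + 1) = i + 1 := by omega
    rw [hidx]
    obtain ⟨hsa, hsinf, hsrest⟩ := hyp.hsq i hi2 hit
    have ha : q i ∉ Sset t q i := hyp.q_not_mem (by omega) (by omega)
    have hinf : q (i + 1) ∈ Sset t q i := mem_Sset.mpr ⟨i + 1, le_refl _, hit, rfl⟩
    have hsfix : ∀ y ∈ Sset t q i, y ≠ q (i + 1) → s i y = y := by
      intro y hy hne
      obtain ⟨j, hj, hjt, rfl⟩ := mem_Sset.mp hy
      exact hsrest j (by omega) hjt (by omega) (by rintro rfl; exact hne rfl)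
    have hxL : s (i - 1) ∈ L G s i := by
      by_cases h3 : 3 ≤ i
      · exact s_mem_L (by omega) (by omega)
      · have hi2' : i = 2 := by omega
        rw [hi2']
        exact G_le_L _ hyp.hs1
    have hxa : s (i - 1) (q i) ≠ q i := by
      by_cases h3 : 3 ≤ i
      · have h1 := (hyp.hsq (i - 1) (by omega) (by omega)).2.1
        have e : i - 1 + 1 = i := by omega
        rw [e] at h1
        rw [h1]
        intro h
        have := hyp.hq (i - 1) i (by omega) (by omega) (by omega) (by omega) h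
        omega
      · have hi2' : i = 2 := by omega
        rw [hi2']
        show s 1 (q 2) ≠ q 2
        rw [hyp.hs1q.2]
        intro h
        have := hyp.hq 1 2 (by omega) (by omega) (by omega) (by omega) h
        omega
    have hbr : (s (i - 1) * s i) ^ 3 ∈ L G s i := by
      have h1 := hyp.hbraid (i - 1) (by omega) (by omega)
      have e : i - 1 + 1 = i := by omega
      rw [e] at h1
      exact G_le_L _ (hyp.H_le h1)
    have hs2 : s i ^ 2 ∈ stab (L G s i) (q i) :=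
      mem_stab.mpr ⟨G_le_L _ (hyp.H_le (hyp.hsq2 i (by omega) hit)),
        hyp.H_fix _ (hyp.hsq2 i (by omega) hit) i (by omega) (by omega)⟩
    have hnorm : ∀ g ∈ stab (L G s i) (q i), s i * g * (s i)⁻¹ ∈ stab (L G s i) (q i) := by
      intro g hg
      obtain ⟨hgL, hgq⟩ := mem_stab.mp hg
      rw [mem_stab]
      constructor
      · by_cases h3 : 3 ≤ i
        · exact L_mono (by omega) (hyp.conj_L h3 hit g (ihstab g hgL hgq h3))
        · have hi2' : i = 2 := by omega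
          subst hi2'
          rw [L_two] at hgL ⊢
          have := hyp.hnorm 2 (le_refl _) (by omega) g
            (Subgroup.mem_inf.mpr ⟨hgL, MulAction.mem_stabilizer_iff.mpr hgq⟩)
          exact (Subgroup.mem_inf.mp this).1
      · rw [Perm.mul_apply, Perm.mul_apply, inv_apply_eq' (s i) hsinf, ihfix g hgL _ hinf, hsinf]
    have hLsucc := L_succ (G := G) (s := s) hi2
    refine ⟨?_, ?_, ?_⟩
    · intro g hg y hy
      rw [hLsucc] at hg
      exact step_fix (L G s i) (Sset t q i) (q (i + 1)) (s i) ihfix hsfix g hg y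
        (by rw [hyp.Sset_erase hit]; exact hy)
    · have hfix' : ∀ g ∈ L G s (i + 1), ∀ y ∈ Sset t q (i + 1), g y = y := by
        intro g hg y hy
        rw [hLsucc] at hg
        exact step_fix (L G s i) (Sset t q i) (q (i + 1)) (s i) ihfix hsfix g hg y
          (by rw [hyp.Sset_erase hit]; exact hy)
      have hTr : Tr (L G s (i + 1)) (Sset t q (i + 1)) := by
        rw [hLsucc, ← hyp.Sset_erase hit]
        refine step_Tr (L G s i) (Sset t q i) (q i) (q (i + 1)) (s i) ha ?_ hsinf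
        have hxaS : s (i - 1) (q i) ∉ Sset t q i := notS (ihfix _ hxL) ha
        exact Tr_of_MT2 h2' ha hxaS (Ne.symm hxa)
      apply MT_succ hTr hfix' (hyp.q_not_mem (by omega) hit)
      rw [Sset_insert hit]
      exact MT_le (fun g hg => mem_stab.mpr ⟨L_mono (Nat.le_succ i) hg, ihfix g hg _ hinf⟩) ihMT
    · intro g hg hgq _
      rw [hLsucc] at hg
      have := step_stab (L G s i) (Sset t q i) (q i) (q (i + 1)) (s i) (s (i - 1)) ihfix ha h2'
        hnorm hs2 hxL hxa hbr hinf hsinf g hg hgq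
      simpa using this

end main

/-- Witt's Lemma for constructing transitive extensions. Points `q 1, …, q t` (`t ≥ 2`) of a finite set are given; `G` fixes `q i` for `i ≥ 3` and is doubly transitive on the remaining points; `s 1 ∈ G` swaps `q 1, q 2`; for `2 ≤ i ≤ t-1`, `s i` swaps `q i, q (i+1)` and fixes the other `q j`; with `H` the stabiliser of `q 1, q 2` in `G`: `s i ^ 2 ∈ H`, `(s i * s (i+1)) ^ 3 ∈ H`, `(s i * s j) ^ 2 ∈ H` for `j ≥ i + 2`, and `s i` (`i ≥ 2`) normalises the stabiliser of `q 2` in `G`. Then `G` and the `s i` generate a `t`-transitive group whose pointwise stabiliser of the `q`'s is `H`. -/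
theorem result {α : Type*} [Fintype α] [DecidableEq α] (t : ℕ) (ht : 2 ≤ t) (q : ℕ → α) (hq : ∀ i j : ℕ, 1 ≤ i → i ≤ t → 1 ≤ j → j ≤ t → q i = q j → i = j) (G : Subgroup (Equiv.Perm α)) (hfix : ∀ g ∈ G, ∀ i : ℕ, 3 ≤ i → i ≤ t → g (q i) = q i) (h2 : ∀ a b c d : α, (∀ i, 3 ≤ i → i ≤ t → a ≠ q i ∧ b ≠ q i ∧ c ≠ q i ∧ d ≠ q i) → a ≠ b → c ≠ d → ∃ g ∈ G, g a = c ∧ g b = d) (s : ℕ → Equiv.Perm α) (hs1 : s 1 ∈ G) (hs1q : s 1 (q 1) = q 2 ∧ s 1 (q 2) = q 1) (hsq : ∀ i : ℕ, 2 ≤ i → i + 1 ≤ t → s i (q i) = q (i + 1) ∧ s i (q (i + 1)) = q i ∧ ∀ j : ℕ, 1 ≤ j → j ≤ t → j ≠ i → j ≠ i + 1 → s i (q j) = q j) (H : Subgroup (Equiv.Perm α)) (hH : H = G ⊓ MulAction.stabilizer (Equiv.Perm α) (q 1) ⊓ MulAction.stabilizer (Equiv.Perm α) (q 2)) (hsq2 : ∀ i : ℕ, 1 ≤ i → i + 1 ≤ t → s i ^ 2 ∈ H) (hbraid : ∀ i : ℕ, 1 ≤ i → i + 2 ≤ t → (s i * s (i + 1)) ^ 3 ∈ H) (hcomm : ∀ i j : ℕ, 1 ≤ i → i + 2 ≤ j → j + 1 ≤ t → (s i * s j) ^ 2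 ∈ H ∧ (s j * s i) ^ 2 ∈ H) (hnorm : ∀ i : ℕ, 2 ≤ i → i + 1 ≤ t → ∀ g ∈ G ⊓ MulAction.stabilizer (Equiv.Perm α) (q 2), s i * g * (s i)⁻¹ ∈ G ⊓ MulAction.stabilizer (Equiv.Perm α) (q 2)) : MulAction.IsMultiplyPretransitive ↥(Subgroup.closure ((G : Set (Equiv.Perm α)) ∪ {x | ∃ i : ℕ, 2 ≤ i ∧ i + 1 ≤ t ∧ x = s i})) α t ∧ Subgroup.closure ((G : Set (Equiv.Perm α)) ∪ {x | ∃ i : ℕ, 2 ≤ i ∧ i + 1 ≤ t ∧ x = s i}) ⊓ fixingSubgroup (Equiv.Perm α) {x | ∃ i : ℕ, 1 ≤ i ∧ i ≤ t ∧ x = q i} = H := by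
  have hyp : Hyp t q G s H := ⟨ht, hq, hfix, h2, hs1, hs1q, hsq, hH, hsq2, hbraid, hcomm, hnorm⟩
  have hL : Subgroup.closure ((G : Set (Equiv.Perm α)) ∪
      {x | ∃ i : ℕ, 2 ≤ i ∧ i + 1 ≤ t ∧ x = s i}) = L G s t := rfl
  rw [hL]
  obtain ⟨d, hd⟩ : ∃ d, t = 2 + d := ⟨t - 2, by omega⟩
  obtain ⟨-, hMT, -⟩ := hyp.main d (by omega)
  rw [← hd] at hMT
  constructor
  · refine ⟨fun x y => ?_⟩
    have hS : Sset t q t = ∅ := by
      ext y
      rw [mem_Sset]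
      simp only [Finset.notMem_empty, iff_false]
      rintro ⟨j, hj, hj', -⟩
      omega
    rw [hS] at hMT
    obtain ⟨h, hh, hmap⟩ := hMT x y x.injective y.injective (by simp) (by simp)
    refine ⟨⟨h, hh⟩, ?_⟩
    ext i
    exact hmap i
  · apply le_antisymm
    · rintro g ⟨hgL, hgfix⟩
      have hgq : ∀ j, 1 ≤ j → j ≤ t → g (q j) = q j := fun j hj hjt =>
        (mem_fixingSubgroup_iff _).mp hgfix (q j) ⟨j, hj, hjt, rfl⟩
      have desc : ∀ e, e ≤ d → g ∈ L G s (2 + e) → g ∈ G := by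
        intro e
        induction e with
        | zero =>
          intro _ h
          have h0 : L G s (2 + 0) = G := L_two
          rwa [h0] at h
        | succ e ih =>
          intro he h
          have h1 := (hyp.main (e + 1) (by omega)).2.2 g h (hgq _ (by omega) (by omega)) (by omega)
          have e1 : 2 + (e + 1) - 1 = 2 + e := by omega
          rw [e1] at h1
          exact ih (by omega) h1
      have hgG := desc d (le_refl _) (by rw [← hd]; exact hgL)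
      rw [hyp.hH]
      exact Subgroup.mem_inf.mpr ⟨Subgroup.mem_inf.mpr ⟨hgG,
        MulAction.mem_stabilizer_iff.mpr (hgq 1 (by omega) (by omega))⟩,
        MulAction.mem_stabilizer_iff.mpr (hgq 2 (by omega) (by omega))⟩
    · intro h hh
      refine Subgroup.mem_inf.mpr ⟨G_le_L _ (hyp.H_le hh), ?_⟩
      rw [mem_fixingSubgroup_iff]
      rintro y ⟨j, hj, hjt, rfl⟩
      exact hyp.H_fix h hh j hj hjt

end Cfsg.Agent.S0709
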