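import Cfsg.Statements.S0710
import Mathlib
import Cfsg.Agent.S0676

set_option autoImplicit false
open Cfsg

namespace Cfsg.Agent.S0710

/-- No transitive permutation group on 13 points has order `13 * 12 * 11 * 10 * 9 * 8`. -/
theorem result {α : Type*} [Fintype α] [DecidableEq α] (hα : Fintype.card α = 13) (G : Subgroup (Equiv.Perm α)) [MulAction.IsPretransitive G α] : Nat.card G ≠ 13 * 12 * 11 * 10 * 9 * 8 := by
  classical
  intro hcard
  have : Fact (Nat.Prime 13) := ⟨by norm_num⟩
  obtain ⟨P⟩ : Nonempty (Sylow 13 G) := Sylow.nonempty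
  have hPcard : Nat.card (P : Subgroup G) = 13 := by
    have h1 := P.card_eq_multiplicity
    set n := (Nat.card G).factorization 13 with hn
    have hn1 : 1 ≤ n :=
      Nat.Prime.factorization_pos_of_dvd (by norm_num) Nat.card_pos.ne' (by rw [hcard]; norm_num)
    have hn2 : n ≤ 1 := by
      by_contra hcon
      have h3 : 13 ^ 2 ∣ Nat.card G := by
        refine (pow_dvd_pow 13 (by omega : 2 ≤ n)).trans ?_
        rw [← h1]; exact Subgroup.card_subgroup_dvd_card _
      rw [hcard] at h3
      norm_num at h3
    rw [h1, le_antisymm hn2 hn1, pow_one]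
  obtain ⟨t₀, ht₀⟩ := exists_prime_orderOf_dvd_card' (G := (P : Subgroup G)) 13
    (by rw [hPcard])
  have htord : orderOf (((t₀ : G) : Equiv.Perm α)) = 13 := by
    rw [Subgroup.orderOf_coe, Subgroup.orderOf_coe]; exact ht₀
  obtain ⟨e, he⟩ := Cfsg.Agent.S0676.exists_coord_of hα ((t₀ : G) : Equiv.Perm α) htord
  have hcyc : IsCyclic (P : Subgroup G) := isCyclic_of_prime_card hPcard
  have hcent : Subgroup.centralizer ((P : Subgroup G) : Set G) = (P : Subgroup G) := by
    apply le_antisymm
    · intro u hu
      have hut : u * (t₀ : G) = (t₀ : G) * u := (hu (t₀ : G) t₀.2).symm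
      have hut' : (u : Equiv.Perm α) * ((t₀ : G) : Equiv.Perm α) =
          ((t₀ : G) : Equiv.Perm α) * (u : Equiv.Perm α) := by
        have := congrArg Subtype.val hut
        simpa using this
      set c : ZMod 13 := e.symm ((u : Equiv.Perm α) (e 0)) with hc
      have hu0 : (u : Equiv.Perm α) (e 0) = e c := by rw [hc, Equiv.apply_symm_apply]
      have hunat : ∀ n : ℕ, (u : Equiv.Perm α) (e (n : ZMod 13)) = e (c + n) := by
        intro n
        induction n with
        | zero => simp [hu0]
        | succ n ih =>
          have h1 : e ((n + 1 : ℕ) : ZMod 13) =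
              ((t₀ : G) : Equiv.Perm α) (e (n : ZMod 13)) := by
            rw [he]; congr 1; push_cast; ring
          rw [h1, ← Equiv.Perm.mul_apply, hut', Equiv.Perm.mul_apply, ih, he]
          congr 1; push_cast; ring
      have hueq : u = (t₀ : G) ^ c.val := by
        apply Subtype.ext
        apply Equiv.ext
        intro x
        obtain ⟨j, rfl⟩ := e.surjective x
        have h1 := hunat j.val
        rw [ZMod.natCast_zmod_val] at h1
        rw [h1, Subgroup.coe_pow, Cfsg.Agent.S0676.pow_coord e _ he, ZMod.natCast_zmod_val,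
          add_comm]
      rw [hueq]
      exact (P : Subgroup G).pow_mem t₀.2 _
    · exact Subgroup.le_centralizer _
  have key := Subgroup.card_dvd_of_injective _
    (QuotientGroup.kerLift_injective (P : Subgroup G).normalizerMonoidHom)
  rw [Subgroup.normalizerMonoidHom_ker, ← Subgroup.index, ← Subgroup.relIndex] at key
  rw [hcent, IsCyclic.card_mulAut, hPcard, Nat.totient_prime (by norm_num)] at key
  have h1 := Subgroup.relIndex_mul_index
    (Subgroup.le_normalizer : (P : Subgroup G) ≤ Subgroup.normalizer ((P : Subgroup G) : Set G))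
  have h2 : (P : Subgroup G).index = 95040 := by
    have := (P : Subgroup G).index_mul_card
    rw [hPcard, hcard] at this
    omega
  have h3 := P.card_eq_index_normalizer
  have h4 : Nat.card (Sylow 13 G) ≡ 1 [MOD 13] := card_sylow_modEq_one 13 G
  rw [h3] at h4
  rw [h2] at h1
  have hd : (P : Subgroup G).relIndex (Subgroup.normalizer ((P : Subgroup G) : Set G)) ≤ 12 :=
    Nat.le_of_dvd (by norm_num) key
  have hn : (Subgroup.normalizer ((P : Subgroup G) : Set G)).index % 13 = 1 := h4
  generalize (P : Subgroup G).relIndex (Subgroup.normalizer ((P : Subgroup G) : Set G)) = d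
    at h1 key hd
  generalize (Subgroup.normalizer ((P : Subgroup G) : Set G)).index = n at h1 hn
  interval_cases d <;> omega

end Cfsg.Agent.S0710
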