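import Cfsg.Statements.S0711
import Mathlib

set_option autoImplicit false
open Cfsg

namespace Cfsg.Agent.S0711

open MulAction Equiv

variable {α : Type*} [Fintype α] [DecidableEq α]

omit [Fintype α] [DecidableEq α] in
/-- A multiply transitive group induces every permutation on a small set. -/
theorem exists_agree (G : Subgroup (Perm α)) (Φ : Finset α)
    (hk : IsMultiplyPretransitive G α Φ.card) (σ : Perm α) :
    ∃ x ∈ G, ∀ z ∈ Φ, x z = σ z := by
  let eq : ↥Φ ≃ Fin Φ.card := Fintype.equivFinOfCardEq (Fintype.card_coe Φ)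
  let e : Fin Φ.card ↪ α := eq.symm.toEmbedding.trans (Function.Embedding.subtype _)
  let e' : Fin Φ.card ↪ α := e.trans σ.toEmbedding
  obtain ⟨x, hx⟩ := hk.exists_smul_eq e e'
  refine ⟨x, x.2, ?_⟩
  intro z hz
  have := DFunLike.congr_fun hx (eq ⟨z, hz⟩)
  have h2 : x • z = σ z := by simpa [e, e'] using this
  exact h2

theorem exists_agree' (G : Subgroup (Perm α)) {k : ℕ} (hkn : k ≤ Fintype.card α)
    (hG : IsMultiplyPretransitive G α k) (Φ : Finset α) (hΦ : Φ.card ≤ k) (σ : Perm α) :
    ∃ x ∈ G, ∀ z ∈ Φ, x z = σ z := by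
  have h1 : IsMultiplyPretransitive G α Φ.card :=
    isMultiplyPretransitive_of_le (n := k) hΦ (by rw [Nat.card_eq_fintype_card]; exact hkn)
  exact exists_agree G Φ h1 σ

/-- Support estimate for the commutator `x⁻¹ (h x h⁻¹)` when `h` fixes `Γ` pointwise. -/
theorem core (x h : Perm α) (Γ : Finset α) (hΓ : Γ ⊆ x.support) (hfix : ∀ ω ∈ Γ, h ω = ω) :
    (x⁻¹ * (h * x * h⁻¹)).support.card + (Γ.filter (fun ω => x ω ∈ Γ)).card
      + (x.support ∩ x.support.map h.toEmbedding).card ≤ 2 * x.support.card := by
  have h1 : (x⁻¹ * (h * x * h⁻¹)).support ⊆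
      (x.support ∪ x.support.map h.toEmbedding) \ (Γ.filter (fun ω => x ω ∈ Γ)) := by
    intro ω hω
    rw [Finset.mem_sdiff]
    constructor
    · have h2 := Perm.support_mul_le x⁻¹ (h * x * h⁻¹) hω
      rw [Perm.support_inv, Perm.support_conj] at h2
      exact h2
    · intro hω0
      rw [Finset.mem_filter] at hω0
      obtain ⟨hωΓ, hxω⟩ := hω0
      rw [Perm.mem_support] at hω
      apply hω
      have e1 : h⁻¹ ω = ω := by rw [Perm.inv_eq_iff_eq]; exact (hfix ω hωΓ).symm
      simp only [Perm.mul_apply, e1, hfix (x ω) hxω]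
      simp
  have h2 : Γ.filter (fun ω => x ω ∈ Γ) ⊆ x.support ∪ x.support.map h.toEmbedding :=
    fun ω hω => Finset.mem_union_left _ (hΓ (Finset.mem_filter.mp hω).1)
  have h3 := Finset.card_le_card h1
  rw [Finset.card_sdiff_of_subset h2] at h3
  have h4 := Finset.card_union_add_card_inter x.support (x.support.map h.toEmbedding)
  have h5 : (x.support.map h.toEmbedding).card = x.support.card := Finset.card_map _
  have h6 := Finset.card_le_card h2
  omega

/-- Subsets of the support of every size with at most one exit point. -/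
theorem greedy (x : Perm α) (j : ℕ) (hj : j ≤ x.support.card) :
    ∃ Γ ⊆ x.support, Γ.card = j ∧ (Γ.filter (fun ω => x ω ∉ Γ)).card ≤ 1 := by
  induction j with
  | zero => exact ⟨∅, Finset.empty_subset _, rfl, by simp⟩
  | succ j ih =>
    obtain ⟨Γ, hΓ, hcard, hexit⟩ := ih (by omega)
    by_cases hex : ∃ ω ∈ Γ, x ω ∉ Γ
    · obtain ⟨ω₀, hω₀, hxω₀⟩ := hex
      refine ⟨insert (x ω₀) Γ, ?_, ?_, ?_⟩
      · intro y hy
        rw [Finset.mem_insert] at hy
        rcases hy with rfl | hy
        · exact Perm.apply_mem_support.mpr (hΓ hω₀)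
        · exact hΓ hy
      · rw [Finset.card_insert_of_notMem hxω₀, hcard]
      · have hsub : (insert (x ω₀) Γ).filter (fun ω => x ω ∉ insert (x ω₀) Γ) ⊆ {x ω₀} := by
          intro y hy
          rw [Finset.mem_filter, Finset.mem_insert] at hy
          obtain ⟨hy1, hy2⟩ := hy
          rw [Finset.mem_singleton]
          rcases hy1 with rfl | hy1
          · rfl
          · exfalso
            have hy3 : x y ∉ Γ := fun h => hy2 (Finset.mem_insert_of_mem h)
            have hyE : y ∈ Γ.filter (fun ω => x ω ∉ Γ) := Finset.mem_filter.mpr ⟨hy1, hy3⟩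
            have hωE : ω₀ ∈ Γ.filter (fun ω => x ω ∉ Γ) := Finset.mem_filter.mpr ⟨hω₀, hxω₀⟩
            have hyω : y = ω₀ := Finset.card_le_one.mp hexit y hyE ω₀ hωE
            apply hy2
            rw [hyω]
            exact Finset.mem_insert_self _ _
        exact (Finset.card_le_card hsub).trans (by simp)
    · push Not at hex
      have hlt : Γ.card < x.support.card := by omega
      obtain ⟨δ, hδ, hδΓ⟩ := Finset.exists_mem_notMem_of_card_lt_card hlt
      refine ⟨insert δ Γ, ?_, ?_, ?_⟩
      · intro y hy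
        rw [Finset.mem_insert] at hy
        rcases hy with rfl | hy
        · exact hδ
        · exact hΓ hy
      · rw [Finset.card_insert_of_notMem hδΓ, hcard]
      · have hsub : (insert δ Γ).filter (fun ω => x ω ∉ insert δ Γ) ⊆ {δ} := by
          intro y hy
          rw [Finset.mem_filter, Finset.mem_insert] at hy
          obtain ⟨hy1, hy2⟩ := hy
          rw [Finset.mem_singleton]
          rcases hy1 with rfl | hy1
          · rfl
          · exact absurd (Finset.mem_insert_of_mem (hex y hy1)) hy2
        exact (Finset.card_le_card hsub).trans (by simp)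

omit [Fintype α] [DecidableEq α] in
/-- If `h x = x h` fails at a point then the commutator is not the identity. -/
theorem comm_ne_one (x h : Perm α) (ω : α) (hne : h (x ω) ≠ x (h ω)) :
    x⁻¹ * (h * x * h⁻¹) ≠ 1 := by
  intro h1
  have h2 : h * x = x * h := by
    have h3 := congrArg (fun t => x * t * h) h1
    simpa [mul_assoc] using h3
  have h3 := congrArg (fun t : Perm α => t ω) h2
  simp only [Perm.mul_apply] at h3
  exact hne h3

theorem step (G : Subgroup (Perm α)) {k : ℕ} (hk : 3 ≤ k) (hkn : k ≤ Fintype.card α)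
    (hG : IsMultiplyPretransitive G α k) (x : Perm α) (hx : x ∈ G)
    (h4 : 4 ≤ x.support.card) (hsupp : x.support.card < 2 * k - 2) :
    ∃ z ∈ G, z ≠ 1 ∧ z.support.card < x.support.card := by
  by_cases hfull : x.support = Finset.univ
  · have hn : 2 < Fintype.card α := by omega
    obtain ⟨a, b, c, hab, hac, hbc⟩ := Fintype.two_lt_card_iff.mp hn
    obtain ⟨g, hg, hga⟩ := exists_agree' G hkn hG {a, b}
      ((Finset.card_le_two).trans (by omega)) (Equiv.swap b c)
    have h1 : g a = a := by
      rw [hga a (by simp), Equiv.swap_apply_of_ne_of_ne hab hac]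
    have h2 : g b = c := by
      rw [hga b (by simp), Equiv.swap_apply_left]
    refine ⟨g, hg, ?_, ?_⟩
    · rintro rfl; exact hbc h2
    · have h3 : g.support ⊆ Finset.univ.erase a := by
        intro y hy
        rw [Finset.mem_erase]
        refine ⟨?_, Finset.mem_univ _⟩
        rintro rfl
        exact (Perm.mem_support.mp hy) h1
      have h5 := Finset.card_le_card h3
      rw [Finset.card_erase_of_mem (Finset.mem_univ a)] at h5
      rw [hfull]
      have h6 : 0 < (Finset.univ : Finset α).card := Finset.card_pos.mpr ⟨a, Finset.mem_univ a⟩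
      omega
  · obtain ⟨ε, hε⟩ : ∃ ε, ε ∉ x.support := by
      by_contra hcon
      push Not at hcon
      exact hfull (Finset.eq_univ_iff_forall.mpr hcon)
    obtain ⟨Γ, hΓ, hcard, hexit⟩ := greedy x (min (k - 1) (x.support.card - 1)) (by omega)
    have hsplit := Finset.card_filter_add_card_filter_not (s := Γ) (fun ω => x ω ∈ Γ)
    by_cases hex : ∃ ω ∈ Γ, x ω ∉ Γ
    · obtain ⟨ω₀, hω₀, hxω₀⟩ := hex
      have hxω₀Δ : x ω₀ ∈ x.support := Perm.apply_mem_support.mpr (hΓ hω₀)
      by_cases hbig : k + 1 ≤ x.support.card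
      · have hlt : (insert (x ω₀) Γ).card < x.support.card := by
          rw [Finset.card_insert_of_notMem hxω₀, hcard]; omega
        obtain ⟨δ', hδ'Δ, hδ'2⟩ := Finset.exists_mem_notMem_of_card_lt_card hlt
        rw [Finset.mem_insert, not_or] at hδ'2
        obtain ⟨hδ'ne, hδ'Γ⟩ := hδ'2
        obtain ⟨h, hhG, hh⟩ := exists_agree' G hkn hG (insert (x ω₀) Γ)
          (by rw [Finset.card_insert_of_notMem hxω₀, hcard]; omega) (Equiv.swap (x ω₀) δ')
        have hfix : ∀ ω ∈ Γ, h ω = ω := by
          intro ω hω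
          rw [hh ω (Finset.mem_insert_of_mem hω)]
          exact Equiv.swap_apply_of_ne_of_ne (by rintro rfl; exact hxω₀ hω)
            (by rintro rfl; exact hδ'Γ hω)
        have hδ : h (x ω₀) = δ' := by
          rw [hh _ (Finset.mem_insert_self _ _), Equiv.swap_apply_left]
        have hcore := core x h Γ hΓ hfix
        have hI : Γ.card + 1 ≤ (x.support ∩ x.support.map h.toEmbedding).card := by
          have hsub : insert δ' Γ ⊆ x.support ∩ x.support.map h.toEmbedding := by
            intro y hy
            rw [Finset.mem_insert] at hy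
            rw [Finset.mem_inter, Finset.mem_map]
            rcases hy with rfl | hy
            · exact ⟨hδ'Δ, x ω₀, hxω₀Δ, hδ⟩
            · exact ⟨hΓ hy, y, hΓ hy, hfix y hy⟩
          have h5 := Finset.card_le_card hsub
          rwa [Finset.card_insert_of_notMem hδ'Γ] at h5
        refine ⟨x⁻¹ * (h * x * h⁻¹),
          G.mul_mem (G.inv_mem hx) (G.mul_mem (G.mul_mem hhG hx) (G.inv_mem hhG)), ?_, by omega⟩
        apply comm_ne_one x h ω₀
        rw [hδ, hfix ω₀ hω₀]
        exact hδ'ne
      · obtain ⟨h, hhG, hh⟩ := exists_agree' G hkn hG (insert (x ω₀) Γ)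
          (by rw [Finset.card_insert_of_notMem hxω₀, hcard]; omega) (Equiv.swap (x ω₀) ε)
        have hfix : ∀ ω ∈ Γ, h ω = ω := by
          intro ω hω
          rw [hh ω (Finset.mem_insert_of_mem hω)]
          exact Equiv.swap_apply_of_ne_of_ne (by rintro rfl; exact hxω₀ hω)
            (by rintro rfl; exact hε (hΓ hω))
        have hδ : h (x ω₀) = ε := by
          rw [hh _ (Finset.mem_insert_self _ _), Equiv.swap_apply_left]
        have hcore := core x h Γ hΓ hfix
        have hI : Γ.card ≤ (x.support ∩ x.support.map h.toEmbedding).card := by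
          have hsub : Γ ⊆ x.support ∩ x.support.map h.toEmbedding := by
            intro y hy
            rw [Finset.mem_inter, Finset.mem_map]
            exact ⟨hΓ hy, y, hΓ hy, hfix y hy⟩
          exact Finset.card_le_card hsub
        refine ⟨x⁻¹ * (h * x * h⁻¹),
          G.mul_mem (G.inv_mem hx) (G.mul_mem (G.mul_mem hhG hx) (G.inv_mem hhG)), ?_, by omega⟩
        apply comm_ne_one x h ω₀
        rw [hδ, hfix ω₀ hω₀]
        rintro rfl
        exact hε hxω₀Δ
    · push Not at hex
      have hΓ₀ : Γ.filter (fun ω => x ω ∈ Γ) = Γ := Finset.filter_true_of_mem hex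
      have hlt : Γ.card < x.support.card := by omega
      obtain ⟨δ, hδΔ, hδΓ⟩ := Finset.exists_mem_notMem_of_card_lt_card hlt
      obtain ⟨h, hhG, hh⟩ := exists_agree' G hkn hG (insert δ Γ)
        (by rw [Finset.card_insert_of_notMem hδΓ, hcard]; omega) (Equiv.swap δ ε)
      have hfix : ∀ ω ∈ Γ, h ω = ω := by
        intro ω hω
        rw [hh ω (Finset.mem_insert_of_mem hω)]
        exact Equiv.swap_apply_of_ne_of_ne (by rintro rfl; exact hδΓ hω)
          (by rintro rfl; exact hε (hΓ hω))
      have hδ : h δ = ε := by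
        rw [hh _ (Finset.mem_insert_self _ _), Equiv.swap_apply_left]
      have hcore := core x h Γ hΓ hfix
      rw [hΓ₀] at hcore
      have hI : Γ.card ≤ (x.support ∩ x.support.map h.toEmbedding).card := by
        have hsub : Γ ⊆ x.support ∩ x.support.map h.toEmbedding := by
          intro y hy
          rw [Finset.mem_inter, Finset.mem_map]
          exact ⟨hΓ hy, y, hΓ hy, hfix y hy⟩
        exact Finset.card_le_card hsub
      refine ⟨x⁻¹ * (h * x * h⁻¹),
        G.mul_mem (G.inv_mem hx) (G.mul_mem (G.mul_mem hhG hx) (G.inv_mem hhG)), ?_, by omega⟩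
      apply comm_ne_one x h δ
      rw [hδ, Perm.notMem_support.mp hε]
      intro h5
      rw [← hδ] at h5
      exact (Perm.mem_support.mp hδΔ) (h.injective h5)

theorem exists_small (G : Subgroup (Perm α)) {k : ℕ} (hk : 3 ≤ k) (hkn : k ≤ Fintype.card α)
    (hG : IsMultiplyPretransitive G α k) : ∀ (m : ℕ) (x : Perm α), x ∈ G → x ≠ 1 →
      x.support.card = m → m < 2 * k - 2 → ∃ y ∈ G, y ≠ 1 ∧ y.support.card ≤ 3 := by
  intro m
  induction m using Nat.strong_induction_on with
  | _ m ih =>
    intro x hx hx1 hm hlt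
    by_cases h3 : m ≤ 3
    · exact ⟨x, hx, hx1, by omega⟩
    · obtain ⟨z, hz, hz1, hzlt⟩ := step G hk hkn hG x hx (by omega) (by omega)
      exact ih z.support.card (by omega) z hz hz1 rfl (by omega)

/-- A `k`-transitive permutation group (`k ≥ 3`) with a non-identity element of support smaller than `2k - 2` contains a non-identity element of support at most 3, and therefore contains the alternating group. -/
theorem result {α : Type*} [Fintype α] [DecidableEq α] (G : Subgroup (Equiv.Perm α)) {k : ℕ} (hk : 3 ≤ k) (hkn : k ≤ Fintype.card α) (hG : MulAction.IsMultiplyPretransitive G α k) (g : Equiv.Perm α) (hg : g ∈ G) (hg1 : g ≠ 1) (hsupp : g.support.card < 2 * k - 2) : (∃ h : Equiv.Perm α, h ∈ G ∧ h ≠ 1 ∧ h.support.card ≤ 3) ∧ alternatingGroup α ≤ G := by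
  obtain ⟨y, hy, hy1, hy3⟩ := exists_small G hk hkn hG _ g hg hg1 rfl hsupp
  refine ⟨⟨y, hy, hy1, hy3⟩, ?_⟩
  have h2 : IsMultiplyPretransitive G α 2 :=
    isMultiplyPretransitive_of_le (n := k) (by omega)
      (by rw [Nat.card_eq_fintype_card]; exact hkn)
  have hprim : IsPreprimitive G α := isPreprimitive_of_is_two_pretransitive h2
  have h2le := Perm.two_le_card_support_of_ne_one hy1
  have hcases : y.support.card = 2 ∨ y.support.card = 3 := by omega
  rcases hcases with h | h
  · have hswap := Perm.card_support_eq_two.mp h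
    have htop := Equiv.Perm.subgroup_eq_top_of_isPreprimitive_of_isSwap_mem hprim y hswap hy
    rw [htop]; exact le_top
  · have h3c := card_support_eq_three_iff.mp h
    exact Equiv.Perm.alternatingGroup_le_of_isPreprimitive_of_isThreeCycle_mem hprim h3c hy

end Cfsg.Agent.S0711
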