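import Cfsg.Statements.S0712
import Mathlib

set_option autoImplicit false
open Cfsg

namespace Cfsg.Agent.S0712

open MulAction SubMulAction in
theorem aux.{u, v} (m : ℕ) : ∀ {G : Type u} {α : Type v} [Group G] [MulAction G α] [Finite α]
    (s : Set α), s.ncard = m → IsMultiplyPretransitive G α m →
    IsMultiplyPretransitive (fixingSubgroup G s) (ofFixingSubgroup G s) 2 →
    IsMultiplyPretransitive G α (m + 2) := by
  induction m with
  | zero =>
    intro G α _ _ _ s hs _ h2
    have hs' : s = ∅ := by
      rwa [Set.ncard_eq_zero (Set.toFinite s)] at hs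
    subst hs'
    exact (IsPretransitive.of_embedding_congr of_fixingSubgroupEmpty_mapScalars_surjective
      ofFixingSubgroupEmpty_equivariantMap_bijective).mp h2
  | succ m ih =>
    intro G α _ _ _ s hs hm h2
    have hne : s.Nonempty := by
      rw [← Set.ncard_pos (Set.toFinite s), hs]; exact Nat.succ_pos m
    obtain ⟨a, ha⟩ := hne
    set t : Set (ofStabilizer G a) := Subtype.val ⁻¹' s with ht
    have hst : s = insert a (Subtype.val '' t) := by
      ext x
      by_cases hx : x = a <;> simp [hx, mem_ofStabilizer_iff, ha, t]
    have ha' : a ∉ Subtype.val '' t := by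
      intro h; rw [Set.mem_image] at h; obtain ⟨x, hx⟩ := h
      apply x.prop; rw [hx.right]; exact Set.mem_singleton a
    have hcard : m + 1 ≤ Nat.card α := by
      rw [← hs]; exact Set.ncard_le_card s
    have hpre : IsPretransitive G α := by
      rw [← is_one_pretransitive_iff]
      exact isMultiplyPretransitive_of_le (n := m + 1) (by omega) hcard
    rw [show m + 1 + 2 = (m + 2).succ from rfl, ofStabilizer.isMultiplyPretransitive (a := a)]
    apply ih t
    · rw [← Set.ncard_image_of_injective t Subtype.val_injective]
      apply Nat.add_right_cancel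
      rw [← Set.ncard_insert_of_notMem ha', ← hst, hs]
    · exact (ofStabilizer.isMultiplyPretransitive (a := a)).mp hm
    · have h2' : IsMultiplyPretransitive (fixingSubgroup G (insert a (Subtype.val '' t)))
          (ofFixingSubgroup G (insert a (Subtype.val '' t))) 2 :=
        (IsPretransitive.of_embedding_congr (MulEquiv.surjective _)
          (ofFixingSubgroup_of_eq_bijective (hst := hst))).mp h2
      exact (IsPretransitive.of_embedding_congr (MulEquiv.surjective _)
        ofFixingSubgroup_insert_map_bijective).mp h2'

/-- Jordan: a primitive group in which the pointwise stabiliser of a set `s` is doubly transitive on the complement of `s` (which has at least 2 points) is `(|s| + 2)`-transitive. -/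
theorem result {α : Type*} [Fintype α] [DecidableEq α] (G : Subgroup (Equiv.Perm α)) (hG : MulAction.IsPreprimitive G α) (s : Set α) {m : ℕ} (hsm : s.ncard = m) (hm : m + 2 ≤ Fintype.card α) (h2 : MulAction.IsMultiplyPretransitive (fixingSubgroup G s) (SubMulAction.ofFixingSubgroup G s) 2) : MulAction.IsMultiplyPretransitive G α (m + 2) := by
  rcases Nat.eq_zero_or_pos m with hm0 | hmpos
  · subst hm0
    exact aux 0 s hsm MulAction.is_zero_pretransitive h2
  · obtain ⟨n, rfl⟩ := Nat.exists_eq_succ_of_ne_zero (by omega : m ≠ 0)
    have hprim : MulAction.IsPreprimitive (fixingSubgroup G s) (SubMulAction.ofFixingSubgroup G s) :=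
      MulAction.isPreprimitive_of_is_two_pretransitive h2
    have hmp : MulAction.IsMultiplyPreprimitive G α (n + 2) :=
      hG.isMultiplyPreprimitive hsm (by rw [Nat.card_eq_fintype_card]; omega) hprim
    have hmt : MulAction.IsMultiplyPretransitive G α (n + 2) := hmp.isMultiplyPretransitive
    have hmt' : MulAction.IsMultiplyPretransitive G α (n + 1) :=
      MulAction.isMultiplyPretransitive_of_le (n := n + 2) (by omega)
        (by rw [Nat.card_eq_fintype_card]; omega)
    exact aux (n + 1) s hsm hmt' h2

end Cfsg.Agent.S0712
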