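import Cfsg.Statements.S0714
import Mathlib

set_option autoImplicit false
open Cfsg

namespace Cfsg.Agent.S0714

section
variable {α : Type*} [Fintype α] [DecidableEq α] {K : Type*} [Field K]

theorem pull (W : Subrepresentation (Cfsg.permRep K (alternatingGroup α) α)) (τ : Equiv.Perm α)
    (hτ : τ ∈ alternatingGroup α) (f : α → K) (hf : f ∈ W.toSubmodule) :
    (fun x => f (τ x)) ∈ W.toSubmodule := by
  have h := W.apply_mem_toSubmodule ((⟨τ, hτ⟩ : alternatingGroup α)⁻¹) hf
  have e : (Cfsg.permRep K (alternatingGroup α) α ((⟨τ, hτ⟩ : alternatingGroup α)⁻¹)) f =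
      fun x => f (τ x) := by
    funext x
    change f ((((⟨τ, hτ⟩ : alternatingGroup α)⁻¹)⁻¹) • x) = f (τ x)
    rw [inv_inv]
    rfl
  rw [e] at h
  exact h

omit [DecidableEq α] in
theorem exists_not_mem (s : Finset α) (h : s.card < Fintype.card α) : ∃ x, x ∉ s := by
  by_contra hcon
  push Not at hcon
  have : s = Finset.univ := Finset.eq_univ_iff_forall.mpr hcon
  rw [this, Finset.card_univ] at h
  exact lt_irrefl _ h

theorem three_cycle_mem {a b c : α} (hab : a ≠ b) (hbc : b ≠ c) :
    Equiv.swap a b * Equiv.swap b c ∈ alternatingGroup α := by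
  rw [Equiv.Perm.mem_alternatingGroup, Equiv.Perm.sign_mul, Equiv.Perm.sign_swap hab,
    Equiv.Perm.sign_swap hbc]
  rfl

theorem three_cycle_a {a b c : α} (hab : a ≠ b) (hac : a ≠ c) :
    (Equiv.swap a b * Equiv.swap b c) a = b := by
  rw [Equiv.Perm.coe_mul, Function.comp_apply, Equiv.swap_apply_of_ne_of_ne hab hac,
    Equiv.swap_apply_left]

theorem three_cycle_b {a b c : α} (hac : a ≠ c) (hbc : b ≠ c) :
    (Equiv.swap a b * Equiv.swap b c) b = c := by
  rw [Equiv.Perm.coe_mul, Function.comp_apply, Equiv.swap_apply_left,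
    Equiv.swap_apply_of_ne_of_ne (Ne.symm hac) (Ne.symm hbc)]

theorem three_cycle_c {a b c : α} :
    (Equiv.swap a b * Equiv.swap b c) c = a := by
  rw [Equiv.Perm.coe_mul, Function.comp_apply, Equiv.swap_apply_right, Equiv.swap_apply_right]

theorem three_cycle_other {a b c x : α} (hxa : x ≠ a) (hxb : x ≠ b) (hxc : x ≠ c) :
    (Equiv.swap a b * Equiv.swap b c) x = x := by
  rw [Equiv.Perm.coe_mul, Function.comp_apply, Equiv.swap_apply_of_ne_of_ne hxb hxc,
    Equiv.swap_apply_of_ne_of_ne hxa hxb]

theorem delta_mem (hα : 5 ≤ Fintype.card α)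
    (W : Subrepresentation (Cfsg.permRep K (alternatingGroup α) α)) {f : α → K}
    (hf : f ∈ W.toSubmodule) {a b : α} (hfab : f a ≠ f b) :
    ∃ a e : α, a ≠ e ∧ (Pi.single a (1 : K) - Pi.single e (1 : K) : α → K) ∈ W.toSubmodule := by
  have hab : a ≠ b := fun h => hfab (h ▸ rfl)
  obtain ⟨c, hc⟩ := exists_not_mem ({a, b} : Finset α) (by
    have : ({a, b} : Finset α).card ≤ 2 := Finset.card_le_two
    omega)
  obtain ⟨d, hd⟩ := exists_not_mem ({a, b, c} : Finset α) (by
    have : ({a, b, c} : Finset α).card ≤ 3 := Finset.card_le_three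
    omega)
  obtain ⟨e, he⟩ := exists_not_mem ({a, b, c, d} : Finset α) (by
    have : ({a, b, c, d} : Finset α).card ≤ 4 := Finset.card_le_four
    omega)
  simp only [Finset.mem_insert, Finset.mem_singleton, not_or] at hc hd he
  obtain ⟨hca, hcb⟩ := hc
  obtain ⟨hda, hdb, hdc⟩ := hd
  obtain ⟨hea, heb, hec, hed⟩ := he
  have hτ₁m : Equiv.swap a b * Equiv.swap b c ∈ alternatingGroup α :=
    three_cycle_mem hab (Ne.symm hcb)
  set u : α → K := f - fun x => f ((Equiv.swap a b * Equiv.swap b c) x) with hu
  have huW : u ∈ W.toSubmodule := W.toSubmodule.sub_mem hf (pull W _ hτ₁m f hf)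
  have hua : u a = f a - f b := by
    rw [hu, Pi.sub_apply, three_cycle_a hab (Ne.symm hca)]
  have hu0 : ∀ x, x ≠ a → x ≠ b → x ≠ c → u x = 0 := by
    intro x h1 h2 h3
    rw [hu, Pi.sub_apply, three_cycle_other h1 h2 h3, sub_self]
  have hτ₂m : Equiv.swap a d * Equiv.swap d e ∈ alternatingGroup α :=
    three_cycle_mem (Ne.symm hda) (Ne.symm hed)
  set v : α → K := u - fun x => u ((Equiv.swap a d * Equiv.swap d e) x) with hv
  have hvW : v ∈ W.toSubmodule := W.toSubmodule.sub_mem huW (pull W _ hτ₂m u huW)
  have hud : u d = 0 := hu0 d hda hdb hdc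
  have hue : u e = 0 := hu0 e hea heb hec
  have hveq : v = (u a) • (Pi.single a (1 : K) - Pi.single e (1 : K)) := by
    funext x
    simp only [hv, Pi.sub_apply, Pi.smul_apply, smul_eq_mul, Pi.single_apply]
    by_cases hxa : x = a
    · subst hxa
      rw [three_cycle_a (Ne.symm hda) (Ne.symm hea), hud]
      simp [Ne.symm hea]
    by_cases hxd : x = d
    · subst hxd
      rw [three_cycle_b (Ne.symm hea) (Ne.symm hed), hud, hue]
      simp [hxa, Ne.symm hed]
    by_cases hxe : x = e
    · subst hxe
      rw [three_cycle_c, hue]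
      simp [hxa]
    · rw [three_cycle_other hxa hxd hxe]
      simp [hxa, hxe]
  refine ⟨a, e, Ne.symm hea, ?_⟩
  have hua0 : u a ≠ 0 := by rw [hua]; exact sub_ne_zero.mpr hfab
  have := W.toSubmodule.smul_mem (u a)⁻¹ hvW
  rw [hveq, smul_smul, inv_mul_cancel₀ hua0, one_smul] at this
  exact this

theorem all_delta (hα : 5 ≤ Fintype.card α)
    (W : Subrepresentation (Cfsg.permRep K (alternatingGroup α) α)) {a e : α} (hae : a ≠ e)
    (h : (Pi.single a (1 : K) - Pi.single e (1 : K) : α → K) ∈ W.toSubmodule) (x y : α)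
    (hxy : x ≠ y) : (Pi.single x (1 : K) - Pi.single y (1 : K) : α → K) ∈ W.toSubmodule := by
  have h2 : MulAction.IsMultiplyPretransitive (alternatingGroup α) α 2 := by
    have := alternatingGroup.isMultiplyPretransitive α
    exact MulAction.isMultiplyPretransitive_of_le (n := Nat.card α - 2)
      (by rw [Nat.card_eq_fintype_card]; omega) (by rw [Nat.card_eq_fintype_card]; omega)
  rw [MulAction.is_two_pretransitive_iff] at h2
  obtain ⟨g, hga, hgb⟩ := h2 hxy hae
  have key := pull W (g : Equiv.Perm α) g.2 _ h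
  have hga' : (g : Equiv.Perm α) x = a := hga
  have hgb' : (g : Equiv.Perm α) y = e := hgb
  have e1 : ∀ z, (g : Equiv.Perm α) z = a ↔ z = x := by
    intro z
    constructor
    · intro h; apply (g : Equiv.Perm α).injective; rw [h]; exact hga'.symm
    · rintro rfl; exact hga'
  have e2 : ∀ z, (g : Equiv.Perm α) z = e ↔ z = y := by
    intro z
    constructor
    · intro h; apply (g : Equiv.Perm α).injective; rw [h]; exact hgb'.symm
    · rintro rfl; exact hgb'
  convert key using 1
  funext z
  simp only [Pi.sub_apply, Pi.single_apply, e1, e2]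

theorem sumZero_le (hα : 5 ≤ Fintype.card α)
    (W : Subrepresentation (Cfsg.permRep K (alternatingGroup α) α))
    (hall : ∀ x y : α, x ≠ y →
      (Pi.single x (1 : K) - Pi.single y (1 : K) : α → K) ∈ W.toSubmodule) :
    (Cfsg.permSumZero K (alternatingGroup α) α).toSubmodule ≤ W.toSubmodule := by
  intro f hf
  have hf0 : ∑ x, f x = 0 := hf
  obtain ⟨x₀⟩ : Nonempty α := by
    rw [← Fintype.card_pos_iff]; omega
  have hdecomp : f = ∑ x, f x • (Pi.single x (1 : K) - Pi.single x₀ (1 : K) : α → K) := by
    funext z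
    simp only [Finset.sum_apply, Pi.smul_apply, Pi.sub_apply, Pi.single_apply, smul_eq_mul,
      mul_sub, Finset.sum_sub_distrib, mul_ite, mul_one, mul_zero]
    rw [Finset.sum_ite_eq Finset.univ z f]
    by_cases hz : z = x₀
    · simp [hz, hf0]
    · simp [hz]
  rw [hdecomp]
  apply Submodule.sum_mem
  intro x _
  by_cases hx : x = x₀
  · rw [hx, sub_self, smul_zero]; exact Submodule.zero_mem _
  · exact Submodule.smul_mem _ _ (hall x x₀ hx)

end

/-- Over any field, the permutation module of the alternating group of degree at least 5 has exactly four invariant subspaces: zero, the constant functions, the functions with coordinate sum zero, and everything. -/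
theorem result {α : Type*} [Fintype α] [DecidableEq α] (hα : 5 ≤ Fintype.card α) {K : Type*} [Field K] (W : Subrepresentation (Cfsg.permRep K (alternatingGroup α) α)) : W.toSubmodule = ⊥ ∨ W = Cfsg.permConstants K (alternatingGroup α) α ∨ W = Cfsg.permSumZero K (alternatingGroup α) α ∨ W.toSubmodule = ⊤ := by
  classical
  by_cases hconst : ∀ f ∈ W.toSubmodule, ∀ a b : α, f a = f b
  · by_cases hbot : W.toSubmodule = ⊥
    · exact Or.inl hbot
    · right; left
      apply Subrepresentation.toSubmodule_injective
      change W.toSubmodule = Submodule.span K {fun _ => 1}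
      obtain ⟨x₀⟩ : Nonempty α := by
        rw [← Fintype.card_pos_iff]; omega
      apply le_antisymm
      · intro f hf
        rw [Submodule.mem_span_singleton]
        refine ⟨f x₀, ?_⟩
        funext x
        simp only [Pi.smul_apply, smul_eq_mul, mul_one]
        exact hconst f hf x₀ x
      · rw [Submodule.span_singleton_le_iff_mem]
        obtain ⟨f, hf, hf0⟩ := (Submodule.ne_bot_iff _).mp hbot
        have hfx : f x₀ ≠ 0 := by
          intro h
          apply hf0
          funext x
          rw [← hconst f hf x₀ x, h]; rfl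
        have := W.toSubmodule.smul_mem (f x₀)⁻¹ hf
        convert this using 1
        funext x
        simp only [Pi.smul_apply, smul_eq_mul]
        rw [← hconst f hf x₀ x, inv_mul_cancel₀ hfx]
  · push Not at hconst
    obtain ⟨f, hf, a, b, hfab⟩ := hconst
    obtain ⟨a', e', hae, hd⟩ := delta_mem hα W hf hfab
    have hall := all_delta hα W hae hd
    have hle := sumZero_le hα W hall
    by_cases hsz : W.toSubmodule ≤ (Cfsg.permSumZero K (alternatingGroup α) α).toSubmodule
    · right; right; left
      apply Subrepresentation.toSubmodule_injective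
      exact le_antisymm hsz hle
    · right; right; right
      rw [SetLike.not_le_iff_exists] at hsz
      obtain ⟨h, hh, hh0⟩ := hsz
      have hs : ∑ x, h x ≠ 0 := hh0
      rw [eq_top_iff]
      intro f _
      have hdecomp : f = (f - ((∑ x, f x) / (∑ x, h x)) • h) + ((∑ x, f x) / (∑ x, h x)) • h := by
        abel
      rw [hdecomp]
      apply Submodule.add_mem
      · apply hle
        change ∑ x, (f - ((∑ x, f x) / (∑ x, h x)) • h) x = 0
        simp only [Pi.sub_apply, Pi.smul_apply, smul_eq_mul, Finset.sum_sub_distrib,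
          ← Finset.mul_sum]
        field_simp
        ring
      · exact Submodule.smul_mem _ _ hh

end Cfsg.Agent.S0714
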