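import Cfsg.Statements.S0715
import Mathlib
import Cfsg.Agent.Lib.Helper12.Orbital
import Cfsg.Agent.Lib.Helper3.Irr
import Cfsg.Agent.Lib.CT.Ops
import Cfsg.Agent.Lib.Helper80.Integrality

set_option autoImplicit false
open Cfsg

namespace Cfsg.Agent.S0715

open Cfsg.Agent.Lib.Helper12 Cfsg.Agent.Lib.Helper12.Orbital

/-- Constituents of the permutation character minus one are non-principal constituents of the
permutation character (transitive case). -/
theorem constituent_sub_one {G : Type*} [Group G] [Fintype G] {Ω : Type*} [Fintype Ω]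
    [MulAction G Ω] [MulAction.IsPretransitive G Ω] [Nonempty Ω] (ψ : IrrCharacter G)
    (h : classInner (fun g : G => (Nat.card (MulAction.fixedBy Ω g) : ℂ) - 1) (ψ : G → ℂ) ≠ 0) :
    (ψ : G → ℂ) ≠ (fun _ => 1) ∧
      classInner (fun g : G => (Nat.card (MulAction.fixedBy Ω g) : ℂ)) (ψ : G → ℂ)
        = classInner (fun g : G => (Nat.card (MulAction.fixedBy Ω g) : ℂ) - 1) (ψ : G → ℂ) := by
  classical
  let triv : IrrCharacter G := ⟨fun _ => 1, Cfsg.Agent.Lib.CT.Ops.isIrrCharacter_one⟩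
  have hsub : (fun g : G => (Nat.card (MulAction.fixedBy Ω g) : ℂ) - 1)
      = (fun g : G => (Nat.card (MulAction.fixedBy Ω g) : ℂ)) - (fun _ : G => (1 : ℂ)) := rfl
  rw [hsub, Cfsg.Agent.Lib.Helper3.Irr.classInner_sub_left] at h ⊢
  have hne : (ψ : G → ℂ) ≠ (fun _ => 1) := by
    intro h1
    apply h
    have h11 : classInner (fun _ : G => (1 : ℂ)) (fun _ : G => (1 : ℂ)) = 1 :=
      Cfsg.Agent.Lib.Helper3.Irr.irr_inner_self triv
    rw [h1, inner_perm_one, h11, sub_self]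
  refine ⟨hne, ?_⟩
  have h2 : classInner (fun _ : G => (1 : ℂ)) (ψ : G → ℂ) = 0 := by
    have h3 : triv ≠ ψ := fun h3 => hne (by rw [← h3])
    exact Cfsg.Agent.Lib.Helper3.Irr.irr_inner_ne (χ := triv) (ψ := ψ) h3
  rw [h2, sub_zero]

/-- If a natural number `f` divides the degree of every non-principal irreducible constituent of the permutation character of a transitive group, then `f` divides every non-trivial subdegree. -/
theorem result {G : Type*} [Group G] [Fintype G] {Ω : Type*} [Fintype Ω] [MulAction G Ω] [MulAction.IsPretransitive G Ω] (f : ℕ) (hf : ∀ χ : G → ℂ, Cfsg.IsIrrCharacter G χ → χ ≠ (fun _ => 1) → Cfsg.classInner (fun g : G => (Nat.card (MulAction.fixedBy Ω g) : ℂ)) χ ≠ 0 → ∃ m : ℕ, χ 1 = (f : ℂ) * m) (a b : Ω) (hab : b ≠ a) : f ∣ Nat.card (MulAction.orbit (MulAction.stabilizer G a) b) := by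
  classical
  have hfinI := Cfsg.Agent.Lib.Helper3.Irr.finite_irrCharacter (G := G)
  have : Fintype (IrrCharacter G) := Fintype.ofFinite _
  have hne : Nonempty Ω := ⟨a⟩
  obtain ⟨S, d, h1, h2, h3⟩ := PermMod.spectral_sumZero (G := G) (orbMat G a b)
    (fun g x y => orbMat_smul a b g x y)
    (Nat.card (MulAction.orbit (MulAction.stabilizer G a) b) : ℤ) (∑ x, orbMat G a b x a)
    (fun x => orbMat_row a b x) (fun y => orbMat_col a b y)
  have h4 := h3 1
  rw [pow_one, orbMat_trace hab] at h4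
  have key : ∀ ψ : IrrCharacter G, ∃ m : ℕ, (∃ μ ∈ S, d μ ψ ≠ 0) →
      charDegree (ψ : G → ℂ) = f * m := by
    intro ψ
    by_cases hex : ∃ μ ∈ S, d μ ψ ≠ 0
    · obtain ⟨μ, hμ, hd⟩ := hex
      have h5 : ∑ μ ∈ S, d μ ψ ≠ 0 := by
        have := Finset.single_le_sum (f := fun μ => d μ ψ) (fun _ _ => Nat.zero_le _) hμ
        have hpos : 0 < d μ ψ := Nat.pos_of_ne_zero hd
        have h6 : d μ ψ ≤ ∑ μ ∈ S, d μ ψ := this
        omega
      have h6 : classInner (fun g : G => (Nat.card (MulAction.fixedBy Ω g) : ℂ) - 1) (ψ : G → ℂ)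
          ≠ 0 := by
        rw [h2 ψ]
        exact_mod_cast h5
      obtain ⟨h7, h8⟩ := constituent_sub_one ψ h6
      rw [← h8] at h6
      obtain ⟨m, hm⟩ := hf ψ.1 ψ.2 h7 h6
      refine ⟨m, fun _ => ?_⟩
      have h9 := Cfsg.Agent.Lib.Helper80.Integrality.apply_one_eq_charDegree
        (Cfsg.Agent.Lib.Helper80.Integrality.isCharacter_of_isIrrCharacter ψ.2)
      rw [hm] at h9
      exact_mod_cast h9.symm
    · exact ⟨0, fun h => absurd h hex⟩
  choose k hk using key
  have hint : ∀ μ ∈ S, IsIntegral ℤ μ := by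
    intro μ hμ
    obtain ⟨v, hv, -, hv2⟩ := h1 μ hμ
    exact Cfsg.Agent.Lib.Helper80.Integrality.isIntegral_of_int_matrix_eigenvalue _ v hv μ hv2
  have h5 : ((Nat.card (MulAction.orbit (MulAction.stabilizer G a) b) : ℕ) : ℂ)
      = (f : ℂ) * (-∑ μ ∈ S, ∑ ψ : IrrCharacter G, μ * (d μ ψ : ℂ) * (k ψ : ℂ)) := by
    have h6 : ∑ μ ∈ S, ∑ ψ : IrrCharacter G, μ ^ 1 * (d μ ψ : ℂ) * (charDegree (ψ : G → ℂ) : ℂ)
        = (f : ℂ) * ∑ μ ∈ S, ∑ ψ : IrrCharacter G, μ * (d μ ψ : ℂ) * (k ψ : ℂ) := by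
      rw [Finset.mul_sum]
      refine Finset.sum_congr rfl fun μ hμ => ?_
      rw [Finset.mul_sum]
      refine Finset.sum_congr rfl fun ψ _ => ?_
      by_cases hd : d μ ψ = 0
      · simp [hd]
      · rw [hk ψ ⟨μ, hμ, hd⟩]
        push_cast
        ring
    rw [h6] at h4
    push_cast at h4
    linear_combination -h4
  have hz : IsIntegral ℤ (-∑ μ ∈ S, ∑ ψ : IrrCharacter G, μ * (d μ ψ : ℂ) * (k ψ : ℂ)) := by
    apply IsIntegral.neg
    apply IsIntegral.sum
    intro μ hμ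
    apply IsIntegral.sum
    intro ψ _
    exact ((hint μ hμ).mul (isIntegral_natCast _)).mul (isIntegral_natCast _)
  by_cases hf0 : f = 0
  · subst hf0
    simp only [Nat.cast_zero, zero_mul, Nat.cast_eq_zero] at h5
    rw [h5]
  · apply Cfsg.Agent.Lib.Helper80.Integrality.dvd_of_isIntegral_div hf0
    rw [h5, mul_div_assoc, mul_comm, div_mul_cancel₀]
    · exact hz
    · exact_mod_cast hf0

end Cfsg.Agent.S0715
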