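import Cfsg.Statements.S0716
import Mathlib
import Cfsg.Agent.S0715
import Cfsg.Agent.Lib.Helper12.Suborbit
import Cfsg.Agent.Lib.Helper12.Orbital
import Cfsg.Agent.Lib.Helper80.Restrict

set_option autoImplicit false
open Cfsg

namespace Cfsg.Agent.S0716

open Cfsg.Agent.Lib.Helper12 Cfsg.Agent.Lib.Helper12.Orbital

/-- The multiplicities of the irreducible characters in a transitive permutation character:
the principal character has multiplicity one, the degree is the sum of the degrees and the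
rank is the sum of the squares of the multiplicities. -/
theorem core {G : Type*} [Group G] [Fintype G] {Ω : Type*} [Fintype Ω] [MulAction G Ω]
    [MulAction.IsPretransitive G Ω] (a : Ω) [Fintype (IrrCharacter G)]
    [DecidableEq (IrrCharacter G)] :
    ∃ m : IrrCharacter G → ℕ,
      (∀ ψ : IrrCharacter G,
        classInner (fun g : G => (Nat.card (MulAction.fixedBy Ω g) : ℂ)) (ψ : G → ℂ) = m ψ) ∧
      m ⟨fun _ => 1, Cfsg.Agent.Lib.CT.Ops.isIrrCharacter_one⟩ = 1 ∧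
      Fintype.card Ω = 1 + ∑ ψ ∈ Finset.univ.erase
        (⟨fun _ => 1, Cfsg.Agent.Lib.CT.Ops.isIrrCharacter_one⟩ : IrrCharacter G),
          m ψ * charDegree (ψ : G → ℂ) ∧
      Nat.card (MulAction.orbitRel.Quotient (MulAction.stabilizer G a) Ω) = 1 + ∑ ψ ∈
        Finset.univ.erase (⟨fun _ => 1, Cfsg.Agent.Lib.CT.Ops.isIrrCharacter_one⟩ : IrrCharacter G),
          m ψ ^ 2 := by
  classical
  have hne : Nonempty Ω := ⟨a⟩
  have hπ : IsCharacter G (fun g : G => (Nat.card (MulAction.fixedBy Ω g) : ℂ)) :=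
    Cfsg.Agent.S0157.permChar_isCharacter (G := G) (X := Ω)
  obtain ⟨m, hm1, -, hm3, hm4⟩ := Cfsg.Agent.Lib.Helper80.Restrict.exists_mult hπ
  have hmt : m ⟨fun _ => 1, Cfsg.Agent.Lib.CT.Ops.isIrrCharacter_one⟩ = 1 := by
    have h1 := hm1 ⟨fun _ => 1, Cfsg.Agent.Lib.CT.Ops.isIrrCharacter_one⟩
    have h2 : classInner (fun g : G => (Nat.card (MulAction.fixedBy Ω g) : ℂ)) (fun _ => (1 : ℂ))
        = 1 := inner_perm_one
    rw [h2] at h1
    exact_mod_cast h1.symm
  refine ⟨m, hm1, hmt, ?_, ?_⟩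
  · have h1 : charDegree (fun g : G => (Nat.card (MulAction.fixedBy Ω g) : ℂ)) = Fintype.card Ω := by
      apply Cfsg.Agent.Lib.CT.Wedderburn.charDegree_eq_of_apply_one
      rw [PermMod.card_fixedBy_eq]
      simp
    rw [← h1, hm3, ← Finset.add_sum_erase Finset.univ _ (Finset.mem_univ
      (⟨fun _ => 1, Cfsg.Agent.Lib.CT.Ops.isIrrCharacter_one⟩ : IrrCharacter G)), hmt]
    congr 1
    rw [one_mul]
    apply Cfsg.Agent.Lib.CT.Wedderburn.charDegree_eq_of_apply_one
    simp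
  · have h1 := inner_perm_perm (G := G) a
    rw [hm4] at h1
    have h2 : ∑ ψ : IrrCharacter G, m ψ ^ 2
        = Nat.card (MulAction.orbitRel.Quotient (MulAction.stabilizer G a) Ω) := by
      exact_mod_cast h1
    rw [← h2, ← Finset.add_sum_erase Finset.univ _ (Finset.mem_univ
      (⟨fun _ => 1, Cfsg.Agent.Lib.CT.Ops.isIrrCharacter_one⟩ : IrrCharacter G)), hmt]
    norm_num

/-- (a) If all non-principal irreducible constituents of the permutation character of a transitive group have the same degree `f`, the character is multiplicity-free and all non-trivial subdegrees equal `f`. (b) A transitive group of rank at most 5 has multiplicity-free permutation character. -/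
theorem result {G : Type*} [Group G] [Fintype G] {Ω : Type*} [Fintype Ω] [MulAction G Ω] [MulAction.IsPretransitive G Ω] (a : Ω) : ((f : ℕ) → (∀ χ : G → ℂ, Cfsg.IsIrrCharacter G χ → χ ≠ (fun _ => 1) → Cfsg.classInner (fun g : G => (Nat.card (MulAction.fixedBy Ω g) : ℂ)) χ ≠ 0 → χ 1 = f) → (∀ χ : G → ℂ, Cfsg.IsIrrCharacter G χ → Cfsg.classInner (fun g : G => (Nat.card (MulAction.fixedBy Ω g) : ℂ)) χ = 0 ∨ Cfsg.classInner (fun g : G => (Nat.card (MulAction.fixedBy Ω g) : ℂ)) χ = 1) ∧ ∀ b : Ω, b ≠ a → Nat.card (MulAction.orbit (MulAction.stabilizer G a) b) = f) ∧ (Nat.card (MulAction.orbitRel.Quotient (MulAction.stabilizer G a) Ω) ≤ 5 → ∀ χ : G → ℂ, Cfsg.IsIrrCharacter G χ → Cfsg.classInner (fun g : G => (Nat.card (MulAction.fixedBy Ω g) : ℂ)) χ = 0 ∨ Cfsg.classInner (fun g : G => (Nat.card (MulAction.fixedBy Ω g) : ℂ)) χ = 1) := by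
  classical
  have hfinI := Cfsg.Agent.Lib.Helper3.Irr.finite_irrCharacter (G := G)
  have : Fintype (IrrCharacter G) := Fintype.ofFinite _
  have hne : Nonempty Ω := ⟨a⟩
  obtain ⟨m, hm1, hmt, hcard0, hrank0⟩ := core (G := G) a
  set triv : IrrCharacter G := ⟨fun _ => 1, Cfsg.Agent.Lib.CT.Ops.isIrrCharacter_one⟩ with htriv
  have hrank : Nat.card (MulAction.orbitRel.Quotient (MulAction.stabilizer G a) Ω)
      = 1 + ∑ ψ ∈ Finset.univ.erase triv, m ψ ^ 2 := hrank0
  have hcard : Fintype.card Ω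
      = 1 + ∑ ψ ∈ Finset.univ.erase triv, m ψ * charDegree (ψ : G → ℂ) := hcard0
  clear hrank0 hcard0
  have key : ∀ f : ℕ,
      (∀ ψ : IrrCharacter G, ψ ≠ triv → m ψ ≠ 0 → charDegree (ψ : G → ℂ) = f) →
      (∑ ψ ∈ Finset.univ.erase triv, m ψ ^ 2) * f ≤ (∑ ψ ∈ Finset.univ.erase triv, m ψ) * f ∧
      ((∑ ψ ∈ Finset.univ.erase triv, m ψ ^ 2) * f = (∑ ψ ∈ Finset.univ.erase triv, m ψ) * f →
        ∀ b : Ω, b ≠ a → Nat.card (MulAction.orbit (MulAction.stabilizer G a) b) = f) := by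
    intro f hdeg
    have h715 : ∀ b : Ω, b ≠ a → f ∣ Nat.card (MulAction.orbit (MulAction.stabilizer G a) b) := by
      intro b hb
      apply Cfsg.Agent.S0715.result f ?_ a b hb
      intro χ hχ hχ1 hχ2
      refine ⟨1, ?_⟩
      have h1 := hdeg ⟨χ, hχ⟩ (fun h => hχ1 (congrArg Subtype.val h)) (by
        intro h0
        apply hχ2
        rw [hm1 ⟨χ, hχ⟩, h0, Nat.cast_zero])
      rw [Cfsg.Agent.Lib.Helper80.Integrality.apply_one_eq_charDegree
        (Cfsg.Agent.Lib.Helper80.Integrality.isCharacter_of_isIrrCharacter hχ)]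
      have h2 : charDegree χ = f := h1
      rw [h2]
      simp
    have hle : ∀ b : Ω, b ≠ a → f ≤ Nat.card (MulAction.orbit (MulAction.stabilizer G a) b) :=
      fun b hb => Nat.le_of_dvd (Suborbit.card_orbit_pos _ b) (h715 b hb)
    obtain ⟨h1, h2⟩ := Suborbit.suborbit_bound (G := G) a f hle
    have hsum : ∑ ψ ∈ Finset.univ.erase triv, m ψ * charDegree (ψ : G → ℂ)
        = (∑ ψ ∈ Finset.univ.erase triv, m ψ) * f := by
      rw [Finset.sum_mul]
      refine Finset.sum_congr rfl fun ψ hψ => ?_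
      by_cases h0 : m ψ = 0
      · simp [h0]
      · rw [hdeg ψ (Finset.ne_of_mem_erase hψ) h0]
    rw [hrank, hcard, hsum] at h1 h2
    simp only [Nat.add_sub_cancel_left] at h1 h2
    exact ⟨by omega, fun heq => h2 (by omega)⟩
  refine ⟨?_, ?_⟩
  · intro f hf
    have hdeg : ∀ ψ : IrrCharacter G, ψ ≠ triv → m ψ ≠ 0 → charDegree (ψ : G → ℂ) = f := by
      intro ψ hψ h0
      have h1 := hf ψ.1 ψ.2 (fun h => hψ (Subtype.ext h)) (by
        rw [hm1 ψ]
        exact_mod_cast h0)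
      exact Cfsg.Agent.Lib.CT.Wedderburn.charDegree_eq_of_apply_one h1
    obtain ⟨k1, k2⟩ := key f hdeg
    have hm01 : ∀ ψ : IrrCharacter G, m ψ = 0 ∨ m ψ = 1 := by
      intro ψ
      by_cases hψ : ψ = triv
      · right
        rw [hψ, hmt]
      by_cases h0 : m ψ = 0
      · left
        exact h0
      right
      have hfpos : 0 < f := by
        rw [← hdeg ψ hψ h0]
        exact Cfsg.Agent.Lib.Helper80.Integrality.charDegree_pos ψ
      have k3 : ∑ ψ ∈ Finset.univ.erase triv, m ψ ^ 2 ≤ ∑ ψ ∈ Finset.univ.erase triv, m ψ :=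
        Nat.le_of_mul_le_mul_right k1 hfpos
      have k4 : ∀ ψ ∈ Finset.univ.erase triv, m ψ ≤ m ψ ^ 2 :=
        fun ψ _ => Nat.le_self_pow (by norm_num) _
      have k5 := (Finset.sum_eq_sum_iff_of_le k4).1 (le_antisymm (Finset.sum_le_sum k4) k3) ψ
        (Finset.mem_erase.2 ⟨hψ, Finset.mem_univ _⟩)
      have k6 : m ψ * m ψ = m ψ * 1 := by
        rw [mul_one, ← sq]
        exact k5.symm
      exact Nat.eq_of_mul_eq_mul_left (Nat.pos_of_ne_zero h0) k6
    refine ⟨?_, ?_⟩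
    · intro χ hχ
      rw [hm1 ⟨χ, hχ⟩]
      rcases hm01 ⟨χ, hχ⟩ with h | h <;> simp [h]
    · intro b hb
      apply k2 _ b hb
      congr 1
      refine Finset.sum_congr rfl fun ψ _ => ?_
      rcases hm01 ψ with h | h <;> simp [h]
  · intro hr χ hχ
    by_contra hcon
    rw [not_or] at hcon
    have h2 : 2 ≤ m ⟨χ, hχ⟩ := by
      rw [hm1 ⟨χ, hχ⟩] at hcon
      have h0 : m ⟨χ, hχ⟩ ≠ 0 := fun h => hcon.1 (by rw [h, Nat.cast_zero])
      have h1 : m ⟨χ, hχ⟩ ≠ 1 := fun h => hcon.2 (by rw [h, Nat.cast_one])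
      omega
    have hψ : (⟨χ, hχ⟩ : IrrCharacter G) ≠ triv := by
      intro h
      rw [h, hmt] at h2
      omega
    have h3 : ∑ ψ' ∈ Finset.univ.erase triv, m ψ' ^ 2 ≤ 4 := by
      rw [hrank] at hr
      omega
    have hmem : (⟨χ, hχ⟩ : IrrCharacter G) ∈ Finset.univ.erase triv :=
      Finset.mem_erase.2 ⟨hψ, Finset.mem_univ _⟩
    have h4 := Finset.add_sum_erase (Finset.univ.erase triv) (fun ψ' => m ψ' ^ 2) hmem
    have h4' := Finset.add_sum_erase (Finset.univ.erase triv) (fun ψ' => m ψ') hmem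
    have h5 : m ⟨χ, hχ⟩ = 2 := by
      have : m ⟨χ, hχ⟩ ^ 2 ≤ 4 := by
        have := Nat.le_add_right (m ⟨χ, hχ⟩ ^ 2)
          (∑ ψ' ∈ (Finset.univ.erase triv).erase ⟨χ, hχ⟩, m ψ' ^ 2)
        omega
      nlinarith
    have h6 : ∀ ψ' ∈ (Finset.univ.erase triv).erase ⟨χ, hχ⟩, m ψ' = 0 := by
      have h7 : ∑ ψ' ∈ (Finset.univ.erase triv).erase ⟨χ, hχ⟩, m ψ' ^ 2 = 0 := by
        simp only [h5] at h4
        omega
      intro ψ' hψ'
      have h8 := (Finset.sum_eq_zero_iff.1 h7) ψ' hψ'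
      simpa using h8
    have hdeg : ∀ ψ' : IrrCharacter G, ψ' ≠ triv → m ψ' ≠ 0 →
        charDegree (ψ' : G → ℂ) = charDegree χ := by
      intro ψ' h1 h0
      by_cases h : ψ' = ⟨χ, hχ⟩
      · rw [h]
      · exact absurd (h6 ψ' (Finset.mem_erase.2 ⟨h, Finset.mem_erase.2 ⟨h1, Finset.mem_univ _⟩⟩)) h0
    obtain ⟨k1, -⟩ := key _ hdeg
    have s2 : ∑ ψ' ∈ Finset.univ.erase triv, m ψ' ^ 2 = 4 := by
      rw [← h4, h5, Finset.sum_eq_zero (fun ψ' hψ' => by rw [h6 ψ' hψ']; rfl)]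
      rfl
    have s1 : ∑ ψ' ∈ Finset.univ.erase triv, m ψ' = 2 := by
      rw [← h4', h5, Finset.sum_eq_zero h6]
      rfl
    rw [s1, s2] at k1
    have := Cfsg.Agent.Lib.Helper80.Integrality.charDegree_pos ⟨χ, hχ⟩
    have h9 : 0 < charDegree χ := this
    omega

end Cfsg.Agent.S0716
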