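import Cfsg.Statements.S0717
import Mathlib
import Cfsg.Agent.Lib.Helper12.PermSym
import Cfsg.Agent.Lib.Helper12.Orbital
import Cfsg.Agent.Lib.CT.Ops

set_option autoImplicit false
open Cfsg

namespace Cfsg.Agent.S0717

open Cfsg.Agent.Lib.Helper12 Cfsg.Agent.Lib.Helper3.Irr
open scoped Matrix

/-- All suborbits of a transitive group are self-paired (every pair of points is interchanged by some group element) if and only if the permutation character is multiplicity-free and each of its irreducible constituents is real-valued. -/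
theorem result {G : Type*} [Group G] [Fintype G] {Ω : Type*} [Fintype Ω] [MulAction G Ω] [MulAction.IsPretransitive G Ω] : (∀ a b : Ω, ∃ g : G, g • a = b ∧ g • b = a) ↔ ∀ χ : G → ℂ, Cfsg.IsIrrCharacter G χ → Cfsg.classInner (fun g : G => (Nat.card (MulAction.fixedBy Ω g) : ℂ)) χ ≠ 0 → Cfsg.classInner (fun g : G => (Nat.card (MulAction.fixedBy Ω g) : ℂ)) χ = 1 ∧ ∀ g : G, (starRingEnd ℂ) (χ g) = χ g := by
  classical
  have hfinI := finite_irrCharacter (G := G)
  have : Fintype (IrrCharacter G) := Fintype.ofFinite _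
  have hchar : (Cfsg.permRep ℂ G Ω).character
      = fun g : G => (Nat.card (MulAction.fixedBy Ω g) : ℂ) :=
    funext PermMod.permRep_character
  rw [← hchar]
  set ρ := Cfsg.permRep ℂ G Ω with hρ
  constructor
  · intro hgen
    have hsym : ∀ T : (Ω → ℂ) →ₗ[ℂ] (Ω → ℂ), T ∈ (ρ.linHom ρ).invariants →
        (LinearMap.toMatrix' T)ᵀ = LinearMap.toMatrix' T := by
      intro T hT
      rw [Commutant.mem_inv_iff] at hT
      ext x y
      obtain ⟨g, h1, h2⟩ := hgen x y
      rw [Matrix.transpose_apply]
      have h3 := PermMod.invariant_of_commute T (fun g => hT g) g x y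
      rw [h1, h2] at h3
      exact h3
    have hcomm : ∀ S T : (Ω → ℂ) →ₗ[ℂ] (Ω → ℂ), S ∈ (ρ.linHom ρ).invariants →
        T ∈ (ρ.linHom ρ).invariants → S ∘ₗ T = T ∘ₗ S := by
      intro S T hS hT
      have hST : S ∘ₗ T ∈ (ρ.linHom ρ).invariants := by
        rw [Commutant.mem_inv_iff] at hS hT ⊢
        intro g
        rw [LinearMap.comp_assoc, hT g, ← LinearMap.comp_assoc, hS g, LinearMap.comp_assoc]
      have h1 := hsym _ hST
      rw [LinearMap.toMatrix'_comp, Matrix.transpose_mul, hsym S hS, hsym T hT,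
        ← LinearMap.toMatrix'_comp, ← LinearMap.toMatrix'_comp] at h1
      exact (LinearMap.toMatrix'.injective h1).symm
    have hmf := fun χ hχ => Commutant.multFree_of_comm ρ hcomm χ hχ
    intro χ hχ hne
    refine ⟨(hmf χ hχ).resolve_left hne, ?_⟩
    have hχ' : IsIrrCharacter G (fun g => χ g⁻¹) :=
      Cfsg.Agent.Lib.CT.Ops.isIrrCharacter_inv_arg hχ
    have h2 : Commutant.cOp ρ χ = Commutant.cOp ρ (fun g => χ g⁻¹) := by
      apply LinearMap.toMatrix'.injective
      rw [← PermSym.transpose_cOp,
        hsym _ (Commutant.cOp_mem ρ (IsIrrCharacter.isClassFunction hχ))]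
    by_contra hcon
    have hneq : (⟨χ, hχ⟩ : IrrCharacter G) ≠ ⟨fun g => χ g⁻¹, hχ'⟩ := by
      intro h
      apply hcon
      intro g
      have h3 := congrFun (congrArg Subtype.val h) g
      rw [← IsCharacter.apply_inv (IsIrrCharacter.isCharacter hχ) g]
      exact h3.symm
    let a : IrrCharacter G → ℂ := fun ψ =>
      if ψ = ⟨χ, hχ⟩ then 1 else if ψ = ⟨fun g => χ g⁻¹, hχ'⟩ then -1 else 0
    have h4 : ∑ ψ : IrrCharacter G, a ψ • Commutant.cOp ρ (ψ : G → ℂ) = 0 := by
      have h5 : ∀ ψ : IrrCharacter G, a ψ • Commutant.cOp ρ (ψ : G → ℂ)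
          = (if ψ = ⟨χ, hχ⟩ then Commutant.cOp ρ χ else 0)
            - (if ψ = ⟨fun g => χ g⁻¹, hχ'⟩ then Commutant.cOp ρ (fun g => χ g⁻¹) else 0) := by
        intro ψ
        by_cases h5 : ψ = ⟨χ, hχ⟩
        · rw [if_pos h5, if_neg (fun h6 => hneq (h5.symm.trans h6)), sub_zero]
          have h7 : a ψ = 1 := by simp only [a, if_pos h5]
          rw [h7, one_smul, h5]
        · rw [if_neg h5]
          by_cases h6 : ψ = ⟨fun g => χ g⁻¹, hχ'⟩
          · rw [if_pos h6, zero_sub]
            have h7 : a ψ = -1 := by simp only [a, if_neg h5, if_pos h6]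
            rw [h7, h6]
            exact neg_one_smul ℂ (Commutant.cOp ρ fun g => χ g⁻¹)
          · rw [if_neg h6, sub_zero]
            have h7 : a ψ = 0 := by simp only [a, if_neg h5, if_neg h6]
            rw [h7, zero_smul]
      simp only [h5]
      rw [Finset.sum_sub_distrib, Finset.sum_ite_eq', Finset.sum_ite_eq',
        if_pos (Finset.mem_univ _), if_pos (Finset.mem_univ _), h2, sub_self]
    have h5 := Commutant.cOp_indep ρ a h4 ⟨χ, hχ⟩ hne
    simp [a] at h5
  · intro h a b
    have hne : Nonempty Ω := ⟨a⟩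
    have hmf : ∀ ψ : IrrCharacter G, classInner ρ.character (ψ : G → ℂ) = 0 ∨
        classInner ρ.character (ψ : G → ℂ) = 1 := by
      intro ψ
      by_cases h0 : classInner ρ.character (ψ : G → ℂ) = 0
      · left
        exact h0
      · right
        exact (h ψ.1 ψ.2 h0).1
    have hsym : ∀ T : (Ω → ℂ) →ₗ[ℂ] (Ω → ℂ), T ∈ (ρ.linHom ρ).invariants →
        (LinearMap.toMatrix' T)ᵀ = LinearMap.toMatrix' T := by
      intro T hT
      have h1 := PermSym.inv_le_span_constituents ρ hmf hT
      have key : ∀ X ∈ Submodule.span ℂ (Set.range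
          fun i : {ψ : IrrCharacter G // classInner ρ.character (ψ : G → ℂ) ≠ 0} =>
            Commutant.cOp ρ (i.1 : G → ℂ)),
          (LinearMap.toMatrix' X)ᵀ = LinearMap.toMatrix' X := by
        intro X hX
        induction hX using Submodule.span_induction with
        | mem x hx =>
          obtain ⟨i, rfl⟩ := hx
          show (LinearMap.toMatrix' (Commutant.cOp ρ (i.1 : G → ℂ)))ᵀ = _
          rw [PermSym.transpose_cOp]
          congr 2
          funext g
          rw [IsCharacter.apply_inv (IsIrrCharacter.isCharacter i.1.2) g]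
          exact (h i.1.1 i.1.2 i.2).2 g
        | zero => simp
        | add x y _ _ hx hy => rw [map_add, Matrix.transpose_add, hx, hy]
        | smul c x _ hx => rw [map_smul, Matrix.transpose_smul, hx]
      exact key T h1
    have hA : PermMod.intOp (Orbital.orbMat G a b) ∈ (ρ.linHom ρ).invariants := by
      rw [Commutant.mem_inv_iff]
      intro g
      exact (PermMod.intOp_commute _ (fun g x y => Orbital.orbMat_smul a b g x y) g).eq
    have h2 := hsym _ hA
    have h3 : LinearMap.toMatrix' (PermMod.intOp (Orbital.orbMat G a b))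
        = (Orbital.orbMat G a b).map (Int.castRingHom ℂ) := by
      unfold PermMod.intOp
      rw [LinearMap.toMatrix'_toLin']
    rw [h3] at h2
    have h4 := congrFun (congrFun h2 a) b
    rw [Matrix.transpose_apply, Matrix.map_apply, Matrix.map_apply] at h4
    have h5 : Orbital.orbMat G a b b a = Orbital.orbMat G a b a b :=
      (Int.castRingHom ℂ).injective_int h4
    rw [Orbital.orbMat_apply, Orbital.orbMat_apply, if_pos (Orbital.orb_self a b)] at h5
    by_contra hcon
    rw [if_neg (fun ⟨g, h1, h2⟩ => hcon ⟨g, h1, h2⟩)] at h5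
    exact zero_ne_one h5

end Cfsg.Agent.S0717
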