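import Cfsg.Statements.S0719
import Mathlib
import Cfsg.Agent.Lib.Helper12.Rank3
import Cfsg.Agent.Lib.Helper12.PermMod
import Cfsg.Agent.Lib.Helper3.Irr
import Cfsg.Agent.Lib.Helper80.Integrality

set_option autoImplicit false
open Cfsg

namespace Cfsg.Agent.S0719

open Cfsg.Agent.Lib.Helper12 Cfsg.Agent.Lib.Helper12.Orbital Cfsg.Agent.Lib.Helper3.Irr

theorem arith (m k l : ℕ) (hm2 : 2 ≤ m) (hkl : 2 * m = 1 + k + l) (hk : 2 ≤ k) (hl : 2 ≤ l)
    (μ₁ μ₂ : ℂ) (p q : ℤ)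
    (Q1 : μ₁ ^ 2 = (p : ℂ) * μ₁ + (q : ℂ)) (Q2 : μ₂ ^ 2 = (p : ℂ) * μ₂ + (q : ℂ))
    (E1 : -(k : ℂ) = ((m : ℂ) - 1) * μ₁ + (m : ℂ) * μ₂)
    (E2 : 2 * (m : ℂ) * (k : ℂ) - (k : ℂ) ^ 2 = ((m : ℂ) - 1) * μ₁ ^ 2 + (m : ℂ) * μ₂ ^ 2) :
    ∃ a : ℕ, 0 < a ∧ m = 2 * a ^ 2 + 2 * a + 1 ∧
      (k = a * (2 * a + 1) ∨ k = (a + 1) * (2 * a + 1)) := by
  have hM2 : (2 : ℤ) ≤ (m : ℤ) := by exact_mod_cast hm2
  have hK2 : (2 : ℤ) ≤ (k : ℤ) := by exact_mod_cast hk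
  have hL2 : (2 : ℤ) ≤ (l : ℤ) := by exact_mod_cast hl
  have hKL : 2 * (m : ℤ) = 1 + (k : ℤ) + (l : ℤ) := by exact_mod_cast hkl
  by_cases heq : μ₁ = μ₂
  · exfalso
    subst heq
    have h : (2 * (m : ℂ) - 1) * (2 * (m : ℂ) * (k : ℂ) - (k : ℂ) ^ 2) = (k : ℂ) ^ 2 := by
      linear_combination (2 * (m : ℂ) - 1) * E2 - ((2 * (m : ℂ) - 1) * μ₁ - (k : ℂ)) * E1
    have h' : (2 * (m : ℤ) - 1) * (2 * (m : ℤ) * (k : ℤ) - (k : ℤ) ^ 2) = (k : ℤ) ^ 2 := by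
      exact_mod_cast h
    have h1 : 0 < (2 * (m : ℤ) - 1) * (2 * (m : ℤ) - (k : ℤ)) - (k : ℤ) := by nlinarith
    have h2 : (k : ℤ) * ((2 * (m : ℤ) - 1) * (2 * (m : ℤ) - (k : ℤ)) - (k : ℤ)) = 0 := by
      linear_combination h'
    rcases mul_eq_zero.1 h2 with h3 | h3
    · omega
    · omega
  · have hsum : μ₁ + μ₂ = (p : ℂ) := by
      have h : (μ₁ - μ₂) * (μ₁ + μ₂ - (p : ℂ)) = 0 := by linear_combination Q1 - Q2
      rcases mul_eq_zero.1 h with h1 | h1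
      · exact absurd (sub_eq_zero.1 h1) heq
      · exact sub_eq_zero.1 h1
    obtain ⟨s, hs⟩ : ∃ s : ℤ, s = -(k : ℤ) - ((m : ℤ) - 1) * p := ⟨_, rfl⟩
    have hμ₂ : μ₂ = (s : ℂ) := by
      rw [hs]
      push_cast
      linear_combination (-1 : ℂ) * E1 - ((m : ℂ) - 1) * hsum
    have hμ₁ : μ₁ = ((p - s : ℤ) : ℂ) := by
      push_cast
      rw [← hμ₂]
      linear_combination hsum
    have E2' : 2 * (m : ℤ) * (k : ℤ) - (k : ℤ) ^ 2
        = ((m : ℤ) - 1) * (p - s) ^ 2 + (m : ℤ) * s ^ 2 := by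
      have h := E2
      rw [hμ₁, hμ₂] at h
      exact_mod_cast h
    have hK : (k : ℤ) = -s - ((m : ℤ) - 1) * p := by linarith
    have key : (m : ℤ) * (2 * s * (s + 1) + ((m : ℤ) - 1) * p * (p + 2)) = 0 := by
      rw [hK] at E2'
      linear_combination (-1 : ℤ) * E2'
    have key2 : 2 * s * (s + 1) + ((m : ℤ) - 1) * p * (p + 2) = 0 := by
      rcases mul_eq_zero.1 key with h | h
      · omega
      · exact h
    have hs0 : 0 ≤ s * (s + 1) := by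
      rcases le_or_gt 0 s with h | h
      · positivity
      · nlinarith
    have hp0 : p * (p + 2) ≤ 0 := by
      by_contra hcon
      push Not at hcon
      nlinarith
    have hp1 : p ≤ 0 := by
      by_contra hcon
      push Not at hcon
      nlinarith
    have hp2 : -2 ≤ p := by
      by_contra hcon
      push Not at hcon
      nlinarith
    interval_cases p
    · -- p = -2
      exfalso
      have h1 : s * (s + 1) = 0 := by linarith
      rcases mul_eq_zero.1 h1 with h2 | h2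
      · omega
      · omega
    · -- p = -1
      have hM : (m : ℤ) = 2 * s ^ 2 + 2 * s + 1 := by linarith
      have hK' : (k : ℤ) = 2 * s ^ 2 + s := by linarith
      rcases le_or_gt 1 s with h | h
      · refine ⟨s.toNat, ?_, ?_, Or.inl ?_⟩
        · omega
        · have h1 : ((s.toNat : ℕ) : ℤ) = s := Int.toNat_of_nonneg (by omega)
          have : (m : ℤ) = ((2 * s.toNat ^ 2 + 2 * s.toNat + 1 : ℕ) : ℤ) := by
            push_cast
            rw [h1, hM]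
          exact_mod_cast this
        · have h1 : ((s.toNat : ℕ) : ℤ) = s := Int.toNat_of_nonneg (by omega)
          have : (k : ℤ) = ((s.toNat * (2 * s.toNat + 1) : ℕ) : ℤ) := by
            push_cast
            rw [h1, hK']
            ring
          exact_mod_cast this
      · have hs2 : s ≤ -2 := by
          by_contra hcon
          push Not at hcon
          have : s = 0 ∨ s = -1 := by omega
          rcases this with h3 | h3
          · rw [h3] at hM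
            omega
          · rw [h3] at hM
            omega
        refine ⟨(-s - 1).toNat, ?_, ?_, Or.inr ?_⟩
        · omega
        · have h1 : (((-s - 1).toNat : ℕ) : ℤ) = -s - 1 := Int.toNat_of_nonneg (by omega)
          have : (m : ℤ) = ((2 * (-s - 1).toNat ^ 2 + 2 * (-s - 1).toNat + 1 : ℕ) : ℤ) := by
            push_cast
            rw [h1, hM]
            ring
          exact_mod_cast this
        · have h1 : (((-s - 1).toNat : ℕ) : ℤ) = -s - 1 := Int.toNat_of_nonneg (by omega)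
          have : (k : ℤ) = ((((-s - 1).toNat + 1) * (2 * (-s - 1).toNat + 1) : ℕ) : ℤ) := by
            push_cast
            rw [h1, hK']
            ring
          exact_mod_cast this
    · -- p = 0
      exfalso
      have h1 : s * (s + 1) = 0 := by linarith
      rcases mul_eq_zero.1 h1 with h2 | h2
      · omega
      · omega

theorem pick_one (S : Finset ℂ) (d : ℂ → ℕ) (h : ∑ μ ∈ S, d μ = 1) :
    ∃ μ₀ ∈ S, ∀ F : ℂ → ℂ, ∑ μ ∈ S, F μ * (d μ : ℂ) = F μ₀ := by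
  classical
  have h1 : ∃ μ₀ ∈ S, d μ₀ ≠ 0 := by
    by_contra hcon
    push Not at hcon
    rw [Finset.sum_eq_zero (fun μ hμ => hcon μ hμ)] at h
    omega
  obtain ⟨μ₀, hμ₀, hd⟩ := h1
  have h2 := Finset.add_sum_erase S d hμ₀
  have h3 : d μ₀ = 1 := by omega
  have h4 : ∑ μ ∈ S.erase μ₀, d μ = 0 := by omega
  refine ⟨μ₀, hμ₀, fun F => ?_⟩
  rw [← Finset.add_sum_erase S _ hμ₀, h3, Nat.cast_one, mul_one]
  have h5 : ∑ μ ∈ S.erase μ₀, F μ * (d μ : ℂ) = 0 := by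
    apply Finset.sum_eq_zero
    intro μ hμ
    rw [(Finset.sum_eq_zero_iff.1 h4) μ hμ, Nat.cast_zero, mul_zero]
  rw [h5, add_zero]

theorem pick_zero (S : Finset ℂ) (d : ℂ → ℕ) (h : ∑ μ ∈ S, d μ = 0) (F : ℂ → ℂ) :
    ∑ μ ∈ S, F μ * (d μ : ℂ) = 0 := by
  apply Finset.sum_eq_zero
  intro μ hμ
  rw [(Finset.sum_eq_zero_iff.1 h) μ hμ, Nat.cast_zero, mul_zero]

/-- The parameters of a single non-trivial suborbit. -/
theorem core {G : Type*} [Group G] [Fintype G] {Ω : Type*} [Fintype Ω] [MulAction G Ω]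
    (hprim : MulAction.IsPreprimitive G Ω) {m : ℕ} (hm : Fintype.card Ω = 2 * m) (a₀ : Ω)
    (hrank : Nat.card (MulAction.orbitRel.Quotient (MulAction.stabilizer G a₀) Ω) = 3)
    (χ₁ χ₂ : G → ℂ) (h₁ : Cfsg.IsIrrCharacter G χ₁) (h₂ : Cfsg.IsIrrCharacter G χ₂)
    (hπ : (fun g : G => (Nat.card (MulAction.fixedBy Ω g) : ℂ)) = fun g => 1 + χ₁ g + χ₂ g)
    (hd₁ : χ₁ 1 = (m : ℂ) - 1) (hd₂ : χ₂ 1 = m) (b : Ω) (hb : b ≠ a₀) :
    ∃ a : ℕ, 0 < a ∧ m = 2 * a ^ 2 + 2 * a + 1 ∧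
      (Nat.card (MulAction.orbit (MulAction.stabilizer G a₀) b) = a * (2 * a + 1) ∨
        Nat.card (MulAction.orbit (MulAction.stabilizer G a₀) b) = (a + 1) * (2 * a + 1)) := by
  classical
  have hfinI := finite_irrCharacter (G := G)
  have : Fintype (IrrCharacter G) := Fintype.ofFinite _
  have hne : Nonempty Ω := ⟨a₀⟩
  have htrans : MulAction.IsPretransitive G Ω := hprim.toIsPretransitive
  have heven : Even (Fintype.card Ω) := ⟨m, by rw [hm]; ring⟩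
  obtain ⟨c, hc1, hc2, hc3, hc4⟩ := Rank3.exists_third (G := G) a₀ b hb hrank
  have hk2 := Rank3.card_orbit_ne_one (G := G) a₀ b hb hrank heven
  have hl2 := Rank3.card_orbit_ne_one (G := G) a₀ c hc1 hrank heven
  have hkpos := Suborbit.card_orbit_pos (MulAction.stabilizer G a₀) b
  have hlpos := Suborbit.card_orbit_pos (MulAction.stabilizer G a₀) c
  have hsym := Rank3.orb_symm_of_rank3 (G := G) a₀ b hb hrank heven
  obtain ⟨lam, mu, hsq⟩ := Rank3.sq_entry (G := G) a₀ b hb hrank hsym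
  obtain ⟨S, d, hS1, hS2, hS3⟩ := PermMod.spectral_sumZero (G := G) (orbMat G a₀ b)
    (fun g x y => orbMat_smul a₀ b g x y)
    (Nat.card (MulAction.orbit (MulAction.stabilizer G a₀) b) : ℤ)
    (Nat.card (MulAction.orbit (MulAction.stabilizer G a₀) b) : ℤ)
    (fun x => orbMat_row a₀ b x) (fun y => Rank3.orbMat_col_eq a₀ b y)
  have hquad : ∀ μ ∈ S, μ ^ 2 = ((lam - mu : ℤ) : ℂ) * μ
      + (((Nat.card (MulAction.orbit (MulAction.stabilizer G a₀) b) : ℤ) - mu : ℤ) : ℂ) := by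
    intro μ hμ
    obtain ⟨v, hv, hv0, hv1⟩ := hS1 μ hμ
    exact Rank3.eigen_quadratic (orbMat G a₀ b) _ lam mu hsq v hv hv0 μ hv1
  have hne12 : (⟨χ₁, h₁⟩ : IrrCharacter G) ≠ ⟨χ₂, h₂⟩ := by
    intro h
    have h3 : χ₁ = χ₂ := congrArg Subtype.val h
    rw [h3, hd₂] at hd₁
    have h4 : (1 : ℂ) = 0 := by linear_combination hd₁
    exact one_ne_zero h4
  have hin : ∀ ψ : IrrCharacter G,
      classInner (fun g : G => (Nat.card (MulAction.fixedBy Ω g) : ℂ) - 1) (ψ : G → ℂ)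
        = (if (⟨χ₁, h₁⟩ : IrrCharacter G) = ψ then 1 else 0)
          + (if (⟨χ₂, h₂⟩ : IrrCharacter G) = ψ then 1 else 0) := by
    intro ψ
    have e : (fun g : G => (Nat.card (MulAction.fixedBy Ω g) : ℂ) - 1) = χ₁ + χ₂ := by
      funext g
      have h3 := congrFun hπ g
      simp only [Pi.add_apply]
      rw [h3]
      ring
    rw [e, classInner_add_left]
    have h3 := irr_orthonormal (⟨χ₁, h₁⟩ : IrrCharacter G) ψ
    have h4 := irr_orthonormal (⟨χ₂, h₂⟩ : IrrCharacter G) ψ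
    rw [← h3, ← h4]
  have hd1 : ∑ μ ∈ S, d μ ⟨χ₁, h₁⟩ = 1 := by
    have h3 := hS2 ⟨χ₁, h₁⟩
    rw [hin, if_pos rfl, if_neg hne12.symm, add_zero] at h3
    exact_mod_cast h3.symm
  have hd2 : ∑ μ ∈ S, d μ ⟨χ₂, h₂⟩ = 1 := by
    have h3 := hS2 ⟨χ₂, h₂⟩
    rw [hin, if_neg hne12, if_pos rfl, zero_add] at h3
    exact_mod_cast h3.symm
  have hd0 : ∀ ψ : IrrCharacter G, ψ ≠ ⟨χ₁, h₁⟩ → ψ ≠ ⟨χ₂, h₂⟩ → ∑ μ ∈ S, d μ ψ = 0 := by
    intro ψ hψ1 hψ2
    have h3 := hS2 ψ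
    rw [hin, if_neg (Ne.symm hψ1), if_neg (Ne.symm hψ2), add_zero] at h3
    exact_mod_cast h3.symm
  obtain ⟨μ₁, hμ₁S, hμ₁⟩ := pick_one S (fun μ => d μ ⟨χ₁, h₁⟩) hd1
  obtain ⟨μ₂, hμ₂S, hμ₂⟩ := pick_one S (fun μ => d μ ⟨χ₂, h₂⟩) hd2
  have hdeg1 : (charDegree χ₁ : ℂ) = (m : ℂ) - 1 := by
    rw [← Cfsg.Agent.Lib.Helper80.Integrality.apply_one_eq_charDegree
      (Cfsg.Agent.Lib.Helper80.Integrality.isCharacter_of_isIrrCharacter h₁), hd₁]
  have hdeg2 : (charDegree χ₂ : ℂ) = (m : ℂ) := by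
    rw [← Cfsg.Agent.Lib.Helper80.Integrality.apply_one_eq_charDegree
      (Cfsg.Agent.Lib.Helper80.Integrality.isCharacter_of_isIrrCharacter h₂), hd₂]
  have htr : ∀ j : ℕ, (((orbMat G a₀ b) ^ j).trace : ℂ)
      - ((Nat.card (MulAction.orbit (MulAction.stabilizer G a₀) b) : ℤ) : ℂ) ^ j
      = ((m : ℂ) - 1) * μ₁ ^ j + (m : ℂ) * μ₂ ^ j := by
    intro j
    rw [hS3 j, Finset.sum_comm]
    rw [Finset.sum_eq_add (⟨χ₁, h₁⟩ : IrrCharacter G) ⟨χ₂, h₂⟩ hne12]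
    · have e1 : ∑ μ ∈ S, μ ^ j * (d μ ⟨χ₁, h₁⟩ : ℂ)
          * (charDegree ((⟨χ₁, h₁⟩ : IrrCharacter G) : G → ℂ) : ℂ)
          = (∑ μ ∈ S, (fun μ => μ ^ j) μ * (d μ ⟨χ₁, h₁⟩ : ℂ)) * (charDegree χ₁ : ℂ) := by
        rw [Finset.sum_mul]
      have e2 : ∑ μ ∈ S, μ ^ j * (d μ ⟨χ₂, h₂⟩ : ℂ)
          * (charDegree ((⟨χ₂, h₂⟩ : IrrCharacter G) : G → ℂ) : ℂ)
          = (∑ μ ∈ S, (fun μ => μ ^ j) μ * (d μ ⟨χ₂, h₂⟩ : ℂ)) * (charDegree χ₂ : ℂ) := by
        rw [Finset.sum_mul]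
      rw [e1, e2, hμ₁ (fun μ => μ ^ j), hμ₂ (fun μ => μ ^ j), hdeg1, hdeg2]
      ring
    · intro ψ _ hψ
      have e3 : ∑ μ ∈ S, μ ^ j * (d μ ψ : ℂ) * (charDegree (ψ : G → ℂ) : ℂ)
          = (∑ μ ∈ S, (fun μ => μ ^ j) μ * (d μ ψ : ℂ)) * (charDegree (ψ : G → ℂ) : ℂ) := by
        rw [Finset.sum_mul]
      rw [e3, pick_zero S (fun μ => d μ ψ) (hd0 ψ hψ.1 hψ.2), zero_mul]
    · intro h
      exact absurd (Finset.mem_univ _) h
    · intro h
      exact absurd (Finset.mem_univ _) h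
  have E1 := htr 1
  have E2 := htr 2
  rw [pow_one, orbMat_trace hb] at E1
  rw [Rank3.trace_sq a₀ b hsym, hm] at E2
  have Q1 := hquad μ₁ hμ₁S
  have Q2 := hquad μ₂ hμ₂S
  have hm2 : 2 ≤ m := by
    have hpos := Cfsg.Agent.Lib.Helper80.Integrality.charDegree_pos (⟨χ₁, h₁⟩ : IrrCharacter G)
    have h3 : (charDegree χ₁ : ℂ) + 1 = (m : ℂ) := by
      rw [hdeg1]
      ring
    have h4 : charDegree χ₁ + 1 = m := by exact_mod_cast h3
    have h5 : 0 < charDegree χ₁ := hpos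
    omega
  have hkl : 2 * m = 1 + Nat.card (MulAction.orbit (MulAction.stabilizer G a₀) b)
      + Nat.card (MulAction.orbit (MulAction.stabilizer G a₀) c) := by
    rw [← hm]
    exact hc4
  refine arith m _ _ hm2 hkl (by omega) (by omega) μ₁ μ₂ (lam - mu)
    ((Nat.card (MulAction.orbit (MulAction.stabilizer G a₀) b) : ℤ) - mu) Q1 Q2 ?_ ?_
  · push_cast at E1 ⊢
    linear_combination E1
  · push_cast at E2 ⊢
    linear_combination E2

/-- Groups of Wielandt type: if a primitive group of degree `2m` has rank 3 and permutation character `1 + χ₁ + χ₂` with irreducible `χ₁, χ₂` of degrees `m - 1` and `m`, then `m = 2a² + 2a + 1` for some positive integer `a` and the two non-trivial subdegrees are `a(2a+1)` and `(a+1)(2a+1)`. -/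
theorem result {G : Type*} [Group G] [Fintype G] {Ω : Type*} [Fintype Ω] [MulAction G Ω] (hprim : MulAction.IsPreprimitive G Ω) {m : ℕ} (hm : Fintype.card Ω = 2 * m) (a₀ : Ω) (hrank : Nat.card (MulAction.orbitRel.Quotient (MulAction.stabilizer G a₀) Ω) = 3) (χ₁ χ₂ : G → ℂ) (h₁ : Cfsg.IsIrrCharacter G χ₁) (h₂ : Cfsg.IsIrrCharacter G χ₂) (hπ : (fun g : G => (Nat.card (MulAction.fixedBy Ω g) : ℂ)) = fun g => 1 + χ₁ g + χ₂ g) (hd₁ : χ₁ 1 = (m : ℂ) - 1) (hd₂ : χ₂ 1 = m) : ∃ a : ℕ, 0 < a ∧ m = 2 * a ^ 2 + 2 * a + 1 ∧ ∀ b : Ω, b ≠ a₀ → Nat.card (MulAction.orbit (MulAction.stabilizer G a₀) b) = a * (2 * a + 1) ∨ Nat.card (MulAction.orbit (MulAction.stabilizer G a₀) b) = (a + 1) * (2 * a + 1) := by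
  have hex : ∃ b : Ω, b ≠ a₀ := by
    by_contra hcon
    push Not at hcon
    have h1 : Fintype.card Ω ≤ 1 := Fintype.card_le_one_iff.2 (fun x y => by rw [hcon x, hcon y])
    have h2 : Nat.card (MulAction.orbitRel.Quotient (MulAction.stabilizer G a₀) Ω)
        ≤ Nat.card Ω := Nat.card_le_card_of_surjective (Quotient.mk'') Quotient.mk''_surjective
    have h3 : Nat.card Ω = Fintype.card Ω := Nat.card_eq_fintype_card
    omega
  obtain ⟨b₀, hb₀⟩ := hex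
  obtain ⟨a, ha, hma, -⟩ := core hprim hm a₀ hrank χ₁ χ₂ h₁ h₂ hπ hd₁ hd₂ b₀ hb₀
  refine ⟨a, ha, hma, ?_⟩
  intro b hb
  obtain ⟨a', ha', hma', hk'⟩ := core hprim hm a₀ hrank χ₁ χ₂ h₁ h₂ hπ hd₁ hd₂ b hb
  have haa : a' = a := by
    rw [hma] at hma'
    nlinarith
  rw [haa] at hk'
  exact hk'

end Cfsg.Agent.S0719
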