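import Cfsg.Statements.S0721
-- import your own Cfsg.Agent.* helpers here
import Mathlib

set_option autoImplicit false
open Cfsg

namespace Cfsg.Agent.S0721

section helpers

theorem supEquivProd {H : Type*} [Group H] (M T : Subgroup H)
    (hcomm : ∀ a ∈ M, ∀ b ∈ T, a * b = b * a) (hdisj : M ⊓ T = ⊥) :
    Nonempty (↥M × ↥T ≃* ↥(M ⊔ T)) := by
  have comm : ∀ (a : ↥M) (b : ↥T), Commute (M.subtype a) (T.subtype b) :=
    fun a b => hcomm a a.2 b b.2
  have hinj : Function.Injective (MonoidHom.noncommCoprod M.subtype T.subtype comm) := by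
    rw [MonoidHom.noncommCoprod_injective]
    refine ⟨M.subtype_injective, T.subtype_injective, ?_⟩
    rw [Subgroup.range_subtype, Subgroup.range_subtype, disjoint_iff]
    exact hdisj
  have hrange : (MonoidHom.noncommCoprod M.subtype T.subtype comm).range = M ⊔ T := by
    rw [MonoidHom.noncommCoprod_range, Subgroup.range_subtype, Subgroup.range_subtype]
  exact ⟨(MonoidHom.ofInjective hinj).trans (MulEquiv.subgroupCongr hrange)⟩

theorem piSuccEquiv (T : Type*) [Group T] (m : ℕ) :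
    Nonempty ((Fin m → T) × T ≃* (Fin (m + 1) → T)) :=
  ⟨{ toFun := fun p => Fin.cons p.2 p.1
     invFun := fun f => (Fin.tail f, f 0)
     left_inv := by intro p; simp
     right_inv := by intro f; simp
     map_mul' := by
       intro p q
       ext i
       refine Fin.cases ?_ (fun j => ?_) i <;> simp }⟩

theorem comm_of_disj {H : Type*} [Group H] (N K₁ K₂ : Subgroup H) (h1 : K₁ ≤ N) (h2 : K₂ ≤ N)
    (hn1 : ∀ n ∈ N, ∀ x ∈ K₁, n * x * n⁻¹ ∈ K₁) (hn2 : ∀ n ∈ N, ∀ x ∈ K₂, n * x * n⁻¹ ∈ K₂)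
    (hd : K₁ ⊓ K₂ = ⊥) : ∀ a ∈ K₁, ∀ b ∈ K₂, a * b = b * a := by
  intro a ha b hb
  have hc : a * b * a⁻¹ * b⁻¹ ∈ K₁ ⊓ K₂ := by
    constructor
    · have e : a * b * a⁻¹ * b⁻¹ = a * (b * a⁻¹ * b⁻¹) := by group
      rw [e]
      exact K₁.mul_mem ha (hn1 b (h2 hb) _ (K₁.inv_mem ha))
    · exact K₂.mul_mem (hn2 a (h1 ha) b hb) (K₂.inv_mem hb)
  rw [hd, Subgroup.mem_bot] at hc
  have e : a * b = (a * b * a⁻¹ * b⁻¹) * (b * a) := by group
  rw [e, hc, one_mul]

end helpers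


/-- A minimal normal subgroup of a finite group is isomorphic to a direct power `T ^ m` of a simple group `T` (possibly of prime order). -/
theorem result {H : Type*} [Group H] [Finite H] (N : Subgroup H) [N.Normal] (hN : N ≠ ⊥) (hmin : ∀ M : Subgroup H, M.Normal → M ≤ N → M = ⊥ ∨ M = N) : ∃ (T : Type) (_ : Group T) (m : ℕ), IsSimpleGroup T ∧ 0 < m ∧ Nonempty (N ≃* (Fin m → T)) := by
  classical
  have hNn : N.Normal := inferInstance
  set NN : Subgroup H → Prop := fun K => ∀ n ∈ N, ∀ x ∈ K, n * x * n⁻¹ ∈ K with hNN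
  have hS : ∃ k : ℕ, ∃ K : Subgroup H, (K ≤ N ∧ NN K ∧ K ≠ ⊥) ∧ Nat.card K = k :=
    ⟨_, N, ⟨le_rfl, fun n hn x hx => N.mul_mem (N.mul_mem hn hx) (N.inv_mem hn), hN⟩, rfl⟩
  obtain ⟨T₀, ⟨hT₀N, hT₀NN, hT₀1⟩, hT₀min⟩ : ∃ K : Subgroup H, (K ≤ N ∧ NN K ∧ K ≠ ⊥) ∧
      ∀ K' : Subgroup H, K' ≤ N → NN K' → K' ≠ ⊥ → Nat.card K ≤ Nat.card K' := by
    obtain ⟨K, hK, hKc⟩ := Nat.find_spec hS
    refine ⟨K, hK, fun K' h1 h2 h3 => ?_⟩
    rw [hKc]
    exact Nat.find_min' hS ⟨K', ⟨h1, h2, h3⟩, rfl⟩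
  set Tc : H → Subgroup H := fun h => T₀.map (MulAut.conj h).toMonoidHom with hTc
  have hTcN : ∀ h, Tc h ≤ N := by
    rintro h _ ⟨t, ht, rfl⟩
    exact hNn.conj_mem t (hT₀N ht) h
  have hTcNN : ∀ h, NN (Tc h) := by
    rintro h n hn _ ⟨t, ht, rfl⟩
    refine ⟨(h⁻¹ * n * h) * t * (h⁻¹ * n * h)⁻¹, hT₀NN _ ?_ t ht, ?_⟩
    · have := hNn.conj_mem n hn h⁻¹
      simpa using this
    · simp only [MulEquiv.toMonoidHom_eq_coe, MonoidHom.coe_coe, MulAut.conj_apply]
      group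
  have hTc1 : ∀ h, Tc h ≠ ⊥ := by
    intro h h0
    rw [hTc] at h0
    simp only at h0
    rw [Subgroup.map_eq_bot_iff_of_injective _ (MulAut.conj h).injective] at h0
    exact hT₀1 h0
  have hTccard : ∀ h, Nat.card (Tc h) = Nat.card T₀ := fun h =>
    Subgroup.card_map_of_injective (MulAut.conj h).injective
  have hA : ∀ h, ∀ K : Subgroup H, K ≤ N → NN K → Tc h ≤ K ∨ Tc h ⊓ K = ⊥ := by
    intro h K hKN hKNN
    by_cases h0 : Tc h ⊓ K = ⊥
    · right; exact h0
    · left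
      have h1 : Nat.card T₀ ≤ Nat.card ↥(Tc h ⊓ K) :=
        hT₀min _ (inf_le_left.trans (hTcN h))
          (fun n hn x hx => ⟨hTcNN h n hn x hx.1, hKNN n hn x hx.2⟩) h0
      rw [← hTccard h] at h1
      have h2 : Tc h ⊓ K = Tc h := Subgroup.eq_of_le_of_card_ge inf_le_left h1
      rw [← h2]
      exact inf_le_right
  have hgen : ∀ M : Subgroup H, (∀ h, Tc h ≤ M) → N ≤ M := by
    intro M hM
    have h1 : Subgroup.normalClosure (T₀ : Set H) = N := by
      rcases hmin _ Subgroup.normalClosure_normal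
        (Subgroup.normalClosure_le_normal hT₀N) with h0 | h0
      · exfalso
        apply hT₀1
        rw [eq_bot_iff, ← h0]
        exact Subgroup.le_normalClosure
      · exact h0
    rw [← h1, Subgroup.normalClosure, Subgroup.closure_le]
    intro x hx
    rw [Group.mem_conjugatesOfSet_iff] at hx
    obtain ⟨t, ht, hc⟩ := hx
    obtain ⟨c, rfl⟩ := isConj_iff.mp hc
    exact hM c ⟨t, ht, rfl⟩
  have key : ∀ d : ℕ, ∀ M : Subgroup H, M ≤ N → NN M →
      (∃ m : ℕ, Nonempty (↥M ≃* (Fin m → ↥T₀))) → Nat.card N - Nat.card M = d →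
      ∃ m : ℕ, Nonempty (↥N ≃* (Fin m → ↥T₀)) := by
    intro d
    induction d using Nat.strong_induction_on with
    | _ d ih =>
      rintro M hMN hMNN ⟨m, ⟨e⟩⟩ hd
      by_cases hMeq : M = N
      · exact ⟨m, ⟨(MulEquiv.subgroupCongr hMeq.symm).trans e⟩⟩
      · have hex : ∃ h, ¬ Tc h ≤ M := by
          by_contra hall
          push Not at hall
          exact hMeq (le_antisymm hMN (hgen M hall))
        obtain ⟨h, hh⟩ := hex
        have hdisj : Tc h ⊓ M = ⊥ := (hA h M hMN hMNN).resolve_left hh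
        have hdisj' : M ⊓ Tc h = ⊥ := by rw [inf_comm]; exact hdisj
        have hcomm := comm_of_disj N M (Tc h) hMN (hTcN h) hMNN (hTcNN h) hdisj'
        obtain ⟨e1⟩ := supEquivProd M (Tc h) hcomm hdisj'
        obtain ⟨e2⟩ := piSuccEquiv ↥T₀ m
        have eTc : ↥(Tc h) ≃* ↥T₀ :=
          (T₀.equivMapOfInjective _ (MulAut.conj h).injective).symm
        have e' : ↥(M ⊔ Tc h) ≃* (Fin (m + 1) → ↥T₀) :=
          e1.symm.trans ((MulEquiv.prodCongr e eTc).trans e2)
        have hlt : Nat.card M < Nat.card ↥(M ⊔ Tc h) := by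
          by_contra hle
          push Not at hle
          have := Subgroup.eq_of_le_of_card_ge (le_sup_left : M ≤ M ⊔ Tc h) hle
          exact hh (this ▸ le_sup_right)
        have hle : Nat.card ↥(M ⊔ Tc h) ≤ Nat.card N :=
          Subgroup.card_le_of_le (sup_le hMN (hTcN h))
        refine ih (Nat.card N - Nat.card ↥(M ⊔ Tc h)) (by omega) (M ⊔ Tc h)
          (sup_le hMN (hTcN h)) ?_ ⟨m + 1, ⟨e'⟩⟩ rfl
        intro n hn x hx
        have h1 : (M ⊔ Tc h).map (MulAut.conj n).toMonoidHom ≤ M ⊔ Tc h := by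
          rw [Subgroup.map_sup]
          apply sup_le_sup
          · rintro _ ⟨y, hy, rfl⟩
            exact hMNN n hn y hy
          · rintro _ ⟨y, hy, rfl⟩
            exact hTcNN h n hn y hy
        exact h1 ⟨x, hx, rfl⟩
  have hbot : ∃ m : ℕ, Nonempty (↥(⊥ : Subgroup H) ≃* (Fin m → ↥T₀)) :=
    ⟨0, ⟨MulEquiv.ofUnique⟩⟩
  obtain ⟨m, ⟨e⟩⟩ := key _ ⊥ bot_le
    (fun n _ x hx => by rw [Subgroup.mem_bot] at hx ⊢; rw [hx]; group) hbot rfl
  have hm : 0 < m := by
    rcases Nat.eq_zero_or_pos m with h0 | h0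
    · exfalso
      subst h0
      have h1 : Nat.card N = 1 := by
        rw [Nat.card_congr e.toEquiv]
        exact Nat.card_unique
      exact hN (Subgroup.card_eq_one.mp h1)
    · exact h0
  have hNle : N ≤ T₀ ⊔ Subgroup.centralizer (T₀ : Set H) := by
    apply hgen
    intro h
    rcases hA h T₀ hT₀N hT₀NN with h1 | h1
    · exact h1.trans le_sup_left
    · refine le_trans ?_ le_sup_right
      intro x hx
      rw [Subgroup.mem_centralizer_iff]
      intro t ht
      exact (comm_of_disj N (Tc h) T₀ (hTcN h) hT₀N (hTcNN h) hT₀NN h1 x hx t ht).symm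
  have hsimple : IsSimpleGroup ↥T₀ := by
    rw [Subgroup.isSimpleGroup_iff]
    refine ⟨hT₀1, ?_⟩
    intro J hJT hJn
    by_cases hJ1 : J = ⊥
    · left; exact hJ1
    · right
      have hnorm : N ≤ Subgroup.normalizer (J : Set H) := by
        refine hNle.trans (sup_le ?_ ?_)
        · exact Subgroup.le_normalizer_of_normal_subgroupOf hJT
        · exact (Subgroup.centralizer_le hJT).trans (Subgroup.centralizer_le_normalizer _)
      have hJNN : NN J := fun n hn x hx => (Subgroup.mem_normalizer_iff.mp (hnorm hn) x).mp hx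
      exact Subgroup.eq_of_le_of_card_ge hJT (hT₀min J (hJT.trans hT₀N) hJNN hJ1)
  let n := Nat.card ↥T₀
  let eT : {i : ℕ // i < n} ≃ ↥T₀ := Fin.equivSubtype.symm.trans (Finite.equivFin ↥T₀).symm
  let _ : Group {i : ℕ // i < n} := eT.group
  let eT' : {i : ℕ // i < n} ≃* ↥T₀ := eT.mulEquiv
  refine ⟨{i : ℕ // i < n}, inferInstance, m, ?_, hm,
    ⟨e.trans (MulEquiv.piCongrRight (fun _ => eT'.symm))⟩⟩
  exact eT'.isSimpleGroup

end Cfsg.Agent.S0721
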