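import Cfsg.Statements.S0723
-- import your own Cfsg.Agent.* helpers here
import Cfsg.Agent.Lib.Helper95.MinNormal
import Cfsg.Agent.Lib.Helper95.OnanScott

set_option autoImplicit false
open Cfsg

namespace Cfsg.Agent.S0723

open Cfsg.Agent.Lib.Helper95


/-- The core of the O'Nan–Scott Theorem. Let `H` be a primitive permutation group on a finite set whose unique minimal normal subgroup `N` is non-abelian, and `K` a point stabiliser. Then there are a non-abelian simple group `T` and an isomorphism `N ≃* T^m` (`m ≥ 1`) under which `K ⊓ N` becomes either a product `∏ K_i` of proper subgroups `K_i < T`, or the set of functions constant on each block of a partition of the index set into blocks of one common size `k ≥ 2`. -/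
theorem result {α : Type*} [Finite α] (H : Subgroup (Equiv.Perm α)) [MulAction.IsPreprimitive H α] (N : Subgroup H) [N.Normal] (hN : N ≠ ⊥) (hmin : ∀ M : Subgroup H, M.Normal → M ≤ N → M = ⊥ ∨ M = N) (huniq : ∀ L : Subgroup H, L.Normal → L ≠ ⊥ → (∀ M : Subgroup H, M.Normal → M ≤ L → M = ⊥ ∨ M = L) → L = N) (hnab : ¬ IsMulCommutative N) (a : α) : ∃ (T : Type) (_ : Group T) (m : ℕ) (e : N ≃* (Fin m → T)), IsSimpleGroup T ∧ ¬ IsMulCommutative T ∧ 0 < m ∧ ((∃ K : Fin m → Subgroup T, (∀ i, K i ≠ ⊤) ∧ ∀ n : N, (n : H) ∈ MulAction.stabilizer H a ↔ ∀ i, e n i ∈ K i) ∨ (∃ (k : ℕ) (c : Fin m → Fin m), 2 ≤ k ∧ (∀ j : Fin m, Nat.card {i : Fin m // c i = j} = k ∨ Nat.card {i : Fin m // c i = j} = 0) ∧ ∀ n : N, (n : H) ∈ MulAction.stabilizer H a ↔ ∀ i j : Fin m, c i = c j → e n i = e n j)) := by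
  classical
  obtain ⟨T₀, -, -, hsimp, -, ⟨m, hm, ⟨e₀⟩⟩, -⟩ := MinNormal.structure_thm N hN hmin
  have hT₀ : ¬ ∀ x y : T₀, x * y = y * x := by
    intro hcomm
    apply hnab
    refine ⟨⟨fun x y => ?_⟩⟩
    apply e₀.injective
    rw [map_mul, map_mul]
    funext i
    exact hcomm _ _
  -- transport to `Type`
  let T : Type := Shrink.{0} ↥T₀
  let τ : T ≃* ↥T₀ := Shrink.mulEquiv
  have hTs : IsSimpleGroup T := τ.isSimpleGroup
  have hT : ¬ ∀ x y : T, x * y = y * x := by
    intro hcomm
    apply hT₀
    intro x y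
    have h1 := hcomm (τ.symm x) (τ.symm y)
    have h2 := congrArg τ h1
    simpa using h2
  let e₁ : N ≃* (Fin m → T) := e₀.trans (MulEquiv.piCongrRight (fun _ => τ.symm))
  -- nontriviality and maximality
  have hnt : Nontrivial α := by
    by_contra hnt
    rw [not_nontrivial_iff_subsingleton] at hnt
    apply hN
    rw [eq_bot_iff]
    intro n _
    rw [Subgroup.mem_bot]
    exact Subsingleton.elim _ _
  have hK : IsCoatom (MulAction.stabilizer H a) :=
    MulAction.IsPreprimitive.isCoatom_stabilizer_of_isPreprimitive _ a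
  have hNK : ¬ N ≤ MulAction.stabilizer H a := by
    intro hle
    apply hN
    rw [eq_bot_iff]
    intro n hn
    rw [Subgroup.mem_bot]
    apply Subtype.ext
    apply Equiv.ext
    intro b
    obtain ⟨g, rfl⟩ := MulAction.exists_smul_eq H a b
    have h1 : g⁻¹ * n * g ∈ N := by
      have := ‹N.Normal›.conj_mem n hn g⁻¹
      simpa using this
    have h2 := hle h1
    rw [MulAction.mem_stabilizer_iff] at h2
    have h3 : n • (g • a) = g • a := by
      have h4 : g • ((g⁻¹ * n * g) • a) = g • a := by rw [h2]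
      rw [← mul_smul] at h4
      rw [← mul_smul]
      have h5 : g * (g⁻¹ * n * g) = n * g := by group
      rw [h5] at h4
      exact h4
    exact h3
  obtain ⟨e, he⟩ := OnanScott.core N (MulAction.stabilizer H a) hmin hK hNK hT m e₁
  refine ⟨T, inferInstance, m, e, hTs, ?_, hm, he⟩
  intro hc
  exact hT (fun x y => hc.is_comm.comm x y)

end Cfsg.Agent.S0723
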