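import Cfsg.Statements.S0724
import Mathlib

set_option autoImplicit false
open Cfsg

namespace Cfsg.Agent.S0724

theorem key {α : Type*} [Fintype α] [DecidableEq α] (G : Subgroup (Equiv.Perm α)) [Fintype G] (j : ℕ) :
    (Nat.card G : ℤ) ∣ ∑ g : G, (Nat.card (MulAction.fixedBy α (g : Equiv.Perm α)) : ℤ) ^ j := by
  classical
  have h1 : ∀ g : G, Fintype.card (MulAction.fixedBy (Fin j → α) g) =
      (Nat.card (MulAction.fixedBy α (g : Equiv.Perm α))) ^ j := by
    intro g
    let e : MulAction.fixedBy (Fin j → α) g ≃ (Fin j → MulAction.fixedBy α (g : Equiv.Perm α)) :=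
      { toFun := fun f i => ⟨f.1 i, by
          have := f.2
          rw [MulAction.mem_fixedBy] at this ⊢
          exact congrFun this i⟩
        invFun := fun f => ⟨fun i => (f i).1, by
          rw [MulAction.mem_fixedBy]
          funext i
          exact (f i).2⟩
        left_inv := fun f => rfl
        right_inv := fun f => rfl }
    rw [Fintype.card_congr e, Fintype.card_fun, Fintype.card_fin, Nat.card_eq_fintype_card]
  have h2 := MulAction.sum_card_fixedBy_eq_card_orbits_mul_card_group G (Fin j → α)
  simp_rw [h1] at h2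
  have h3 : (∑ g : G, (Nat.card (MulAction.fixedBy α (g : Equiv.Perm α)) : ℤ) ^ j) =
      ((∑ g : G, (Nat.card (MulAction.fixedBy α (g : Equiv.Perm α))) ^ j : ℕ) : ℤ) := by
    push_cast; rfl
  rw [h3, h2, Nat.card_eq_fintype_card]
  push_cast
  exact Dvd.intro_left _ rfl

/-- Blichfeldt's Theorem: if a finite set `L` of natural numbers contains the number of fixed points of every non-identity element of a permutation group `G` of degree `n`, then the order of `G` divides `∏ (n - l)` over `l ∈ L`. -/
theorem result {α : Type*} [Fintype α] [DecidableEq α] (G : Subgroup (Equiv.Perm α)) (L : Finset ℕ) (hL : ∀ g ∈ G, g ≠ 1 → Nat.card (MulAction.fixedBy α g) ∈ L) : Nat.card G ∣ ∏ l ∈ L, (Fintype.card α - l) := by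
  classical
  by_cases hle : ∀ l ∈ L, l ≤ Fintype.card α
  swap
  · push Not at hle
    obtain ⟨l, hl, hlt⟩ := hle
    have : ∏ l ∈ L, (Fintype.card α - l) = 0 := Finset.prod_eq_zero hl (by omega)
    rw [this]; exact dvd_zero _
  let P : Polynomial ℤ := ∏ l ∈ L, (Polynomial.X - Polynomial.C (l : ℤ))
  have hsum : (Nat.card G : ℤ) ∣
      ∑ g : G, P.eval (Nat.card (MulAction.fixedBy α (g : Equiv.Perm α)) : ℤ) := by
    simp_rw [Polynomial.eval_eq_sum_range]
    rw [Finset.sum_comm]
    apply Finset.dvd_sum
    intro j _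
    rw [← Finset.mul_sum]
    exact Dvd.dvd.mul_left (key G j) _
  have hval : ∑ g : G, P.eval (Nat.card (MulAction.fixedBy α (g : Equiv.Perm α)) : ℤ) =
      P.eval (Fintype.card α : ℤ) := by
    rw [Finset.sum_eq_single (1 : G)]
    · congr 2
      simp [MulAction.fixedBy]
    · intro g _ hg
      have := hL g g.2 (by intro h; apply hg; exact Subtype.ext h)
      simp only [P, Polynomial.eval_prod, Polynomial.eval_sub, Polynomial.eval_X, Polynomial.eval_C]
      exact Finset.prod_eq_zero this (sub_self _)
    · intro h; exact absurd (Finset.mem_univ _) h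
  rw [hval] at hsum
  have : P.eval (Fintype.card α : ℤ) = ((∏ l ∈ L, (Fintype.card α - l) : ℕ) : ℤ) := by
    simp only [P, Polynomial.eval_prod, Polynomial.eval_sub, Polynomial.eval_X, Polynomial.eval_C]
    rw [Nat.cast_prod]
    apply Finset.prod_congr rfl
    intro l hl
    rw [Nat.cast_sub (hle l hl)]
  rw [this] at hsum
  exact Int.natCast_dvd_natCast.mp hsum

end Cfsg.Agent.S0724
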