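import Cfsg.Statements.S0726
import Mathlib

set_option autoImplicit false
open Cfsg

namespace Cfsg.Agent.S0726

/-- The left and right regular permutation representations of a group are each other's centralisers in the symmetric group: the centraliser of the left regular image is the right regular image, and a transitive subgroup centralising the left regular image is the whole right regular image. -/
theorem result {G : Type*} [Group G] : Subgroup.centralizer ((MulAction.toPermHom G G).range : Set (Equiv.Perm G)) = (MulAction.toPermHom Gᵐᵒᵖ G).range ∧ ∀ H : Subgroup (Equiv.Perm G), H ≤ Subgroup.centralizer ((MulAction.toPermHom G G).range : Set (Equiv.Perm G)) → MulAction.IsPretransitive H G → H = (MulAction.toPermHom Gᵐᵒᵖ G).range := by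
  have key : Subgroup.centralizer ((MulAction.toPermHom G G).range : Set (Equiv.Perm G)) = (MulAction.toPermHom Gᵐᵒᵖ G).range := by
    ext c
    constructor
    · intro hc
      rw [Subgroup.mem_centralizer_iff] at hc
      refine ⟨MulOpposite.op (c 1), ?_⟩
      ext x
      have := hc (MulAction.toPermHom G G x) ⟨x, rfl⟩
      have h2 := congrArg (fun σ : Equiv.Perm G => σ 1) this
      simp at h2
      simp [h2]
    · rintro ⟨g, rfl⟩
      rw [Subgroup.mem_centralizer_iff]
      rintro _ ⟨h, rfl⟩
      ext x
      simp [mul_assoc]
  refine ⟨key, fun H hH htrans => ?_⟩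
  apply le_antisymm (key ▸ hH)
  rintro _ ⟨g, rfl⟩
  obtain ⟨h, hh⟩ := htrans.exists_smul_eq (1 : G) (g.unop)
  have hmem := hH h.2
  rw [key] at hmem
  obtain ⟨g', hg'⟩ := hmem
  have h1 : (h : Equiv.Perm G) 1 = g.unop := hh
  rw [← hg'] at h1
  simp at h1
  rw [← h1, hg']
  exact h.2

end Cfsg.Agent.S0726
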