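import Cfsg.Statements.S0728
import Mathlib

set_option autoImplicit false
open Cfsg

namespace Cfsg.Agent.S0728

open Equiv MulAction

variable {α : Type*} [Fintype α] [DecidableEq α]

omit [Fintype α] [DecidableEq α] in
/-- The embedding of three distinct points. -/
def emb3 (c₁ c₂ c₃ : α) (h12 : c₁ ≠ c₂) (h13 : c₁ ≠ c₃) (h23 : c₂ ≠ c₃) : Fin 3 ↪ α :=
  ⟨![c₁, c₂, c₃], by intro i j hij; fin_cases i <;> fin_cases j <;> simp_all⟩

omit [Fintype α] [DecidableEq α] in
/-- The cyclic shift of a triple. -/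
def shift (t : Fin 3 ↪ α) : Fin 3 ↪ α :=
  ⟨fun i => t (i + 1), t.injective.comp (add_left_injective 1)⟩

omit [Fintype α] [DecidableEq α] in
/-- In a sharply 3-transitive group, an element fixing a triple is trivial. -/
theorem eq_of_smul_eq (G : Subgroup (Perm α))
    (hsharp : ∀ x : Fin 3 ↪ α, MulAction.stabilizer G x = ⊥) (g g' : G) (t : Fin 3 ↪ α)
    (h : ∀ i, g • t i = g' • t i) : g = g' := by
  have h1 : g'⁻¹ * g ∈ MulAction.stabilizer G t := by
    rw [MulAction.mem_stabilizer_iff]
    ext i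
    show (g'⁻¹ * g) • t i = t i
    rw [mul_smul, h i, inv_smul_smul]
  rw [hsharp t, Subgroup.mem_bot] at h1
  exact (inv_mul_eq_one.mp h1).symm

omit [Fintype α] [DecidableEq α] in
theorem eq_one_of_fix (G : Subgroup (Perm α))
    (hsharp : ∀ x : Fin 3 ↪ α, MulAction.stabilizer G x = ⊥) (g : G) {u v w : α} (huv : u ≠ v)
    (huw : u ≠ w) (hvw : v ≠ w) (hu : g • u = u) (hv : g • v = v) (hw : g • w = w) : g = 1 := by
  apply eq_of_smul_eq G hsharp g 1 (emb3 u v w huv huw hvw)
  intro i
  rw [one_smul]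
  fin_cases i
  · exact hu
  · exact hv
  · exact hw

/-- The counting argument: a two-point stabiliser of a sharply 3-transitive group cannot contain
three non-trivial elements of order 3. -/
theorem count_contra (G : Subgroup (Perm α)) (h3 : IsMultiplyPretransitive G α 3)
    (hsharp : ∀ x : Fin 3 ↪ α, MulAction.stabilizer G x = ⊥) {a b : α} (hab : a ≠ b)
    (Γ : Finset G) (hΓ : Γ.card = 3)
    (hΓ' : ∀ g ∈ Γ, g ≠ 1 ∧ g ^ 3 = 1 ∧ g • a = a ∧ g • b = b) : False := by
  classical
  -- a third point
  obtain ⟨g₀, hg₀⟩ : ∃ g, g ∈ Γ := Finset.card_pos.mp (by omega)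
  obtain ⟨hg₀1, -, hg₀a, hg₀b⟩ := hΓ' g₀ hg₀
  obtain ⟨c₀, hc₀⟩ : ∃ c, g₀ • c ≠ c := by
    by_contra hcon
    push Not at hcon
    apply hg₀1
    apply Subtype.ext
    ext x
    exact hcon x
  have hc₀a : c₀ ≠ a := by rintro rfl; exact hc₀ hg₀a
  have hc₀b : c₀ ≠ b := by rintro rfl; exact hc₀ hg₀b
  have hn3 : 3 ≤ Fintype.card α := by
    have h1 : ({a, b, c₀} : Finset α).card = 3 := by
      rw [Finset.card_insert_of_notMem, Finset.card_insert_of_notMem, Finset.card_singleton]
      · simpa using hc₀b.symm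
      · simp [hab, hc₀a.symm]
    rw [← h1, ← Finset.card_univ]
    exact Finset.card_le_card (Finset.subset_univ _)
  -- the rotation attached to a triple
  choose ρ hρ using fun t : Fin 3 ↪ α => h3.exists_smul_eq t (shift t)
  have hρ' : ∀ (t : Fin 3 ↪ α) (i : Fin 3), ρ t • t i = t (i + 1) := by
    intro t i
    exact DFunLike.congr_fun (hρ t) i
  have hρne : ∀ t : Fin 3 ↪ α, ρ t ≠ 1 := by
    intro t h
    have h1 := hρ' t 0
    rw [h, one_smul] at h1
    have h2 := t.injective h1
    exact absurd h2 (by decide)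
  -- the double counting
  have key := Finset.card_mul_le_card_mul
    (s := (Finset.univ : Finset α).offDiag) (t := (Finset.univ : Finset (Fin 3 ↪ α)))
    (fun (p : α × α) (t : Fin 3 ↪ α) => ρ t • p.1 = p.1 ∧ ρ t • p.2 = p.2)
    (m := 3 * (Fintype.card α - 2)) (n := 2) ?_ ?_
  · rw [Finset.offDiag_card, Finset.card_univ, Finset.card_univ, Fintype.card_embedding_eq,
      Fintype.card_fin] at key
    obtain ⟨m, hm⟩ : ∃ m, Fintype.card α = m + 3 := ⟨Fintype.card α - 3, by omega⟩
    rw [hm] at key
    have e1 : (m + 3).descFactorial 3 = (m + 3) * (m + 2) * (m + 1) := by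
      simp [Nat.descFactorial_succ]
      ring
    have e2 : (m + 3) * (m + 3) - (m + 3) = (m + 3) * (m + 2) := by
      have : (m + 3) * (m + 3) = (m + 3) * (m + 2) + (m + 3) := by ring
      omega
    have e3 : m + 3 - 2 = m + 1 := by omega
    rw [e1, e2, e3] at key
    have hpos : 0 < (m + 3) * (m + 2) * (m + 1) := by positivity
    nlinarith
  · -- every pair is fixed by the rotations of at least `3 (n - 2)` triples
    rintro ⟨x, y⟩ hp
    rw [Finset.mem_offDiag] at hp
    have hxy : x ≠ y := hp.2.2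
    -- transport `Γ` to the pair `(x, y)`
    obtain ⟨c', hc'⟩ : ∃ c', c' ≠ x ∧ c' ≠ y := by
      by_contra hcon
      push Not at hcon
      have hsub : (Finset.univ : Finset α) ⊆ {x, y} := by
        intro z _
        by_cases hz : z = x
        · simp [hz]
        · simp [hcon z hz]
      have h1 := Finset.card_le_card hsub
      rw [Finset.card_univ] at h1
      have h2 := Finset.card_le_two (a := x) (b := y)
      omega
    obtain ⟨h, hh⟩ := h3.exists_smul_eq (emb3 a b c₀ hab hc₀a.symm hc₀b.symm)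
      (emb3 x y c' hxy hc'.1.symm hc'.2.symm)
    have hha : h • a = x := DFunLike.congr_fun hh 0
    have hhb : h • b = y := DFunLike.congr_fun hh 1
    have hinj : Function.Injective (fun g : G => h * g * h⁻¹) := by
      intro g g' hgg
      simpa using hgg
    have hΓc : (Γ.image (fun g : G => h * g * h⁻¹)).card = 3 := by
      rw [Finset.card_image_of_injective _ hinj, hΓ]
    have hΓx : ∀ g ∈ Γ.image (fun g : G => h * g * h⁻¹),
        g ≠ 1 ∧ g ^ 3 = 1 ∧ g • x = x ∧ g • y = y := by
      intro g hg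
      rw [Finset.mem_image] at hg
      obtain ⟨g', hg', rfl⟩ := hg
      obtain ⟨h1, h2, h3', h4⟩ := hΓ' g' hg'
      refine ⟨?_, ?_, ?_, ?_⟩
      · intro h5
        apply h1
        have h6 : h * g' * h⁻¹ = h * 1 * h⁻¹ := by rw [h5]; group
        exact hinj h6
      · rw [conj_pow, h2]; group
      · rw [← hha, mul_smul, mul_smul, inv_smul_smul, h3']
      · rw [← hhb, mul_smul, mul_smul, inv_smul_smul, h4]
    have hcardS : ((Γ.image (fun g : G => h * g * h⁻¹)) ×ˢ
        (Finset.univ.filter (fun c : α => c ≠ x ∧ c ≠ y))).card = 3 * (Fintype.card α - 2) := by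
      rw [Finset.card_product, hΓc]
      congr 1
      have h1 : Finset.univ.filter (fun c : α => c ≠ x ∧ c ≠ y) = Finset.univ \ {x, y} := by
        ext z; simp
      rw [h1, Finset.card_sdiff_of_subset (Finset.subset_univ _), Finset.card_univ,
        Finset.card_pair hxy]
    rw [← hcardS]
    apply Finset.card_le_card_of_surjOn (fun t : Fin 3 ↪ α => (ρ t, t 0))
    rintro ⟨g, c⟩ hgc
    rw [Finset.mem_coe, Finset.mem_product, Finset.mem_filter] at hgc
    obtain ⟨hgΓ, -, hcx, hcy⟩ := hgc
    obtain ⟨hg1, hg3, hgx, hgy⟩ := hΓx g hgΓ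
    have hgc : g • c ≠ c := by
      intro hfix
      exact hg1 (eq_one_of_fix G hsharp g hxy hcx.symm hcy.symm hgx hgy hfix)
    have hg3c : g • g • g • c = c := by
      have h5 : g • g • g • c = (g ^ 3) • c := by
        rw [pow_succ, pow_two, mul_smul, mul_smul]
      rw [h5, hg3, one_smul]
    have h12 : c ≠ g • c := Ne.symm hgc
    have h23 : g • c ≠ g • g • c := fun h => h12 (MulAction.injective g h)
    have h13 : c ≠ g • g • c := by
      intro h
      apply hgc
      have h5 : g • c = g • g • g • c := congrArg (fun z => g • z) h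
      rw [hg3c] at h5
      exact h5
    have hρg : ρ (emb3 c (g • c) (g • g • c) h12 h13 h23) = g := by
      apply eq_of_smul_eq G hsharp _ _ (emb3 c (g • c) (g • g • c) h12 h13 h23)
      intro i
      rw [hρ']
      fin_cases i
      · rfl
      · rfl
      · exact hg3c.symm
    refine ⟨emb3 c (g • c) (g • g • c) h12 h13 h23, ?_, ?_⟩
    · rw [Finset.mem_coe, Finset.mem_bipartiteAbove]
      refine ⟨Finset.mem_univ _, ?_, ?_⟩
      · show ρ _ • x = x
        rw [hρg]; exact hgx
      · show ρ _ • y = y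
        rw [hρg]; exact hgy
    · show (ρ _, _) = (g, c)
      rw [hρg]
      rfl
  · -- the rotation of a triple fixes at most two points
    intro t _
    have hF : (Finset.univ.filter (fun z : α => ρ t • z = z)).card ≤ 2 := by
      by_contra hcon
      push Not at hcon
      obtain ⟨u, v, w, hu, hv, hw, huv, huw, hvw⟩ := Finset.two_lt_card_iff.mp hcon
      rw [Finset.mem_filter] at hu hv hw
      exact hρne t (eq_one_of_fix G hsharp (ρ t) huv huw hvw hu.2 hv.2 hw.2)
    have hsub : (Finset.univ : Finset α).offDiag.bipartiteBelow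
        (fun (p : α × α) (t : Fin 3 ↪ α) => ρ t • p.1 = p.1 ∧ ρ t • p.2 = p.2) t
        ⊆ (Finset.univ.filter (fun z : α => ρ t • z = z)).offDiag := by
      intro p hp
      rw [Finset.mem_bipartiteBelow, Finset.mem_offDiag] at hp
      rw [Finset.mem_offDiag, Finset.mem_filter, Finset.mem_filter]
      exact ⟨⟨Finset.mem_univ _, hp.2.1⟩, ⟨Finset.mem_univ _, hp.2.2⟩, hp.1.2.2⟩
    refine (Finset.card_le_card hsub).trans ?_
    rw [Finset.offDiag_card]
    generalize (Finset.univ.filter (fun z : α => ρ t • z = z)).card = k at hF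
    interval_cases k <;> simp

/-- In a sharply triply transitive group of even degree at least 6 (degree `q + 1`, `q` odd), a two-point stabiliser has at most one subgroup of order 3. -/
theorem result {α : Type*} [Fintype α] [DecidableEq α] (heven : Even (Fintype.card α)) (h6 : 6 ≤ Fintype.card α) (G : Subgroup (Equiv.Perm α)) (h3 : MulAction.IsMultiplyPretransitive G α 3) (hsharp : ∀ x : Fin 3 ↪ α, MulAction.stabilizer G x = ⊥) {a b : α} (hab : a ≠ b) (A B : Subgroup G) (hA : A ≤ MulAction.stabilizer G a ⊓ MulAction.stabilizer G b) (hB : B ≤ MulAction.stabilizer G a ⊓ MulAction.stabilizer G b) (hA3 : Nat.card A = 3) (hB3 : Nat.card B = 3) : A = B := by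
  classical
  have hp : Fact (Nat.Prime 3) := ⟨Nat.prime_three⟩
  -- a subgroup of order 3 is contained in any subgroup of order 3 meeting it non-trivially
  have hle : ∀ (A B : Subgroup G), Nat.card A = 3 → ∀ x ∈ A, x ≠ 1 → x ∈ B → A ≤ B := by
    intro A B hA3 x hxA hx1 hxB z hz
    have h1 : (⟨z, hz⟩ : A) ∈ Subgroup.zpowers (⟨x, hxA⟩ : A) :=
      mem_zpowers_of_prime_card hA3 (fun h => hx1 (congrArg Subtype.val h))
    obtain ⟨k, hk⟩ := Subgroup.mem_zpowers_iff.mp h1
    have h2 : x ^ k = z := by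
      have := congrArg Subtype.val hk
      simpa using this
    rw [← h2]
    exact B.zpow_mem hxB k
  have hfinA : Finite A := Nat.finite_of_card_ne_zero (by omega)
  have hfinB : Finite B := Nat.finite_of_card_ne_zero (by omega)
  by_contra hAB
  -- non-trivial elements
  obtain ⟨x, hxA, hx1⟩ : ∃ x ∈ A, x ≠ 1 := by
    by_contra hcon
    push Not at hcon
    have : A = ⊥ := (Subgroup.eq_bot_iff_forall A).mpr hcon
    rw [this, Subgroup.card_bot] at hA3
    omega
  obtain ⟨y, hyB, hy1⟩ : ∃ y ∈ B, y ≠ 1 := by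
    by_contra hcon
    push Not at hcon
    have : B = ⊥ := (Subgroup.eq_bot_iff_forall B).mpr hcon
    rw [this, Subgroup.card_bot] at hB3
    omega
  have hyA : y ∉ A := by
    intro hyA
    have h1 : B ≤ A := hle B A hB3 y hyB hy1 hyA
    exact hAB (Subgroup.eq_of_le_of_card_ge h1 (by rw [hA3, hB3])).symm
  have hx3 : x ^ 3 = 1 := by
    have h1 : (⟨x, hxA⟩ : A) ^ Nat.card A = 1 := pow_card_eq_one'
    rw [hA3] at h1
    have := congrArg Subtype.val h1
    simpa using this
  have hy3 : y ^ 3 = 1 := by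
    have h1 : (⟨y, hyB⟩ : B) ^ Nat.card B = 1 := pow_card_eq_one'
    rw [hB3] at h1
    have := congrArg Subtype.val h1
    simpa using this
  have hxinv : x ≠ x⁻¹ := by
    intro h
    apply hx1
    have h1 : x * x = 1 := by
      nth_rewrite 2 [h]
      exact mul_inv_cancel x
    calc x = x ^ 3 * (x * x)⁻¹ := by group
      _ = 1 := by rw [hx3, h1]; group
  have hfix : ∀ z ∈ A, z • a = a ∧ z • b = b := by
    intro z hz
    have h1 := hA hz
    rw [Subgroup.mem_inf, MulAction.mem_stabilizer_iff, MulAction.mem_stabilizer_iff] at h1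
    exact h1
  have hfixB : ∀ z ∈ B, z • a = a ∧ z • b = b := by
    intro z hz
    have h1 := hB hz
    rw [Subgroup.mem_inf, MulAction.mem_stabilizer_iff, MulAction.mem_stabilizer_iff] at h1
    exact h1
  have hxinvA : x⁻¹ ∈ A := A.inv_mem hxA
  refine count_contra G h3 hsharp hab {x, x⁻¹, y} ?_ ?_
  · rw [Finset.card_insert_of_notMem, Finset.card_insert_of_notMem, Finset.card_singleton]
    · simp only [Finset.mem_singleton]
      rintro rfl
      exact hyA hxinvA
    · simp only [Finset.mem_insert, Finset.mem_singleton, not_or]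
      refine ⟨hxinv, ?_⟩
      rintro rfl
      exact hyA hxA
  · intro g hg
    simp only [Finset.mem_insert, Finset.mem_singleton] at hg
    rcases hg with rfl | rfl | rfl
    · exact ⟨hx1, hx3, hfix g hxA⟩
    · refine ⟨inv_ne_one.mpr hx1, ?_, hfix _ hxinvA⟩
      rw [inv_pow, hx3, inv_one]
    · exact ⟨hy1, hy3, hfixB g hyB⟩

end Cfsg.Agent.S0728
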