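import Cfsg.Statements.S0733
import Mathlib

set_option autoImplicit false
open Cfsg

namespace Cfsg.Agent.S0733

open scoped Pointwise

/-- A permutation group of affine type — generated by the translations of a finite vector space `V` over `ZMod p` together with a group `G₀` of linear automorphisms — is primitive on `V` if and only if `G₀` is irreducible on `V`. -/
theorem result {p : ℕ} [Fact p.Prime] {V : Type*} [AddCommGroup V] [Module (ZMod p) V] [Finite V] [Nontrivial V] (G₀ : Subgroup (V ≃ₗ[ZMod p] V)) (G : Subgroup (Equiv.Perm V)) (hG : ∀ σ : Equiv.Perm V, σ ∈ G ↔ ∃ g ∈ G₀, ∃ b : V, ∀ x : V, σ x = (g : V ≃ₗ[ZMod p] V) x + b) : MulAction.IsPreprimitive G V ↔ ∀ W : Submodule (ZMod p) V, (∀ g ∈ G₀, ∀ v ∈ W, (g : V ≃ₗ[ZMod p] V) v ∈ W) → W = ⊥ ∨ W = ⊤ := by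
  have hτ : ∀ g ∈ G₀, ∀ b : V, ((g : V ≃ₗ[ZMod p] V).toEquiv.trans (Equiv.addRight b)) ∈ G :=
    fun g hg b => (hG _).2 ⟨g, hg, b, fun x => rfl⟩
  constructor
  · intro hprim W hW
    have hblock : MulAction.IsBlock G (W : Set V) := by
      rw [MulAction.isBlock_iff_smul_eq_of_mem]
      rintro ⟨σ, hσ⟩ a ha hσa
      obtain ⟨g, hg, b, hgb⟩ := (hG σ).1 hσ
      have hσa' : σ a ∈ W := hσa
      have hb : b ∈ W := by
        have h1 : g a ∈ W := hW g hg a ha
        have h2 : g a + b ∈ W := by rw [← hgb]; exact hσa'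
        simpa using W.sub_mem h2 h1
      ext y
      constructor
      · rintro ⟨w, hw, rfl⟩
        change σ w ∈ W
        rw [hgb]
        exact W.add_mem (hW g hg w hw) hb
      · intro hy
        refine ⟨g.symm (y - b), hW g⁻¹ (inv_mem hg) _ (W.sub_mem hy hb), ?_⟩
        change σ (g.symm (y - b)) = y
        rw [hgb]
        simp
    rcases hprim.isTrivialBlock_of_isBlock hblock with h | h
    · left
      rw [eq_bot_iff]
      intro w hw
      exact (Submodule.mem_bot _).2 (h hw W.zero_mem)
    · right
      rw [eq_top_iff]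
      intro w _
      have : w ∈ (W : Set V) := by rw [h]; trivial
      exact this
  · intro hirr
    haveI : MulAction.IsPretransitive G V := by
      refine ⟨fun x y => ⟨⟨_, hτ 1 (one_mem _) (y - x)⟩, ?_⟩⟩
      change (1 : V ≃ₗ[ZMod p] V) x + (y - x) = y
      simp
    refine { isTrivialBlock_of_isBlock := ?_ }
    intro B hB
    rcases B.eq_empty_or_nonempty with rfl | ⟨b₀, hb₀⟩
    · exact Or.inl Set.subsingleton_empty
    have hfix : ∀ (σ : Equiv.Perm V) (hσ : σ ∈ G), σ b₀ ∈ B → ∀ x, (x ∈ B ↔ σ x ∈ B) := by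
      intro σ hσ h x
      have h1 : (⟨σ, hσ⟩ : G) • B = B := hB.smul_eq_of_mem hb₀ h
      constructor
      · intro hx
        rw [← h1]
        exact Set.smul_mem_smul_set (a := (⟨σ, hσ⟩ : G)) hx
      · intro hx
        rw [← h1] at hx
        obtain ⟨x', hx', hxx'⟩ := hx
        have : x' = x := σ.injective hxx'
        rw [← this]
        exact hx'
    let W' : AddSubgroup V :=
      { carrier := {v | v + b₀ ∈ B}
        zero_mem' := by simpa using hb₀
        add_mem' := by
          intro u v hu hv
          have h1 := (hfix _ (hτ 1 (one_mem _) v) (by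
            change (1 : V ≃ₗ[ZMod p] V) b₀ + v ∈ B
            simpa [add_comm] using hv) (u + b₀)).1 hu
          change (1 : V ≃ₗ[ZMod p] V) (u + b₀) + v ∈ B at h1
          change u + v + b₀ ∈ B
          have e : u + v + b₀ = (1 : V ≃ₗ[ZMod p] V) (u + b₀) + v := by
            simp only [LinearEquiv.coe_one, id_eq]
            abel
          rw [e]
          exact h1
        neg_mem' := by
          intro v hv
          have h1 := (hfix _ (hτ 1 (one_mem _) v) (by
            change (1 : V ≃ₗ[ZMod p] V) b₀ + v ∈ B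
            simpa [add_comm] using hv) (-v + b₀)).2 (by
            change (1 : V ≃ₗ[ZMod p] V) (-v + b₀) + v ∈ B
            simpa using hb₀)
          exact h1 }
    have hW'mem : ∀ v, v ∈ W' ↔ v + b₀ ∈ B := fun v => Iff.rfl
    have hinv : ∀ g ∈ G₀, ∀ v ∈ AddSubgroup.toZModSubmodule p W',
        (g : V ≃ₗ[ZMod p] V) v ∈ AddSubgroup.toZModSubmodule p W' := by
      intro g hg v hv
      rw [AddSubgroup.mem_toZModSubmodule, hW'mem] at hv ⊢
      have h1 := (hfix _ (hτ g hg (b₀ - g b₀)) (by
        change g b₀ + (b₀ - g b₀) ∈ B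
        simpa using hb₀) (v + b₀)).1 hv
      change g (v + b₀) + (b₀ - g b₀) ∈ B at h1
      have e : g v + b₀ = g (v + b₀) + (b₀ - g b₀) := by
        rw [map_add]
        abel
      rw [e]
      exact h1
    rcases hirr _ hinv with h | h
    · left
      have hall : ∀ x ∈ B, x = b₀ := by
        intro x hx
        have h1 : x - b₀ ∈ AddSubgroup.toZModSubmodule p W' := by
          rw [AddSubgroup.mem_toZModSubmodule, hW'mem]
          simpa using hx
        rw [h, Submodule.mem_bot] at h1
        exact sub_eq_zero.1 h1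
      intro x hx y hy
      rw [hall x hx, hall y hy]
    · right
      ext x
      simp only [Set.mem_univ, iff_true]
      have h1 : x - b₀ ∈ AddSubgroup.toZModSubmodule p W' := by rw [h]; trivial
      rw [AddSubgroup.mem_toZModSubmodule, hW'mem] at h1
      simpa using h1

end Cfsg.Agent.S0733
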