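import Cfsg.Statements.S0734
import Mathlib

set_option autoImplicit false
open Cfsg

namespace Cfsg.Agent.S0734

open scoped Pointwise

/-- Higman's criterion for primitivity: a transitive action on a finite set is primitive if and only if every non-trivial orbital graph (edges = images of a fixed pair of distinct points) is connected. -/
theorem result {G : Type*} [Group G] {Ω : Type*} [Finite Ω] [MulAction G Ω] [MulAction.IsPretransitive G Ω] [Nontrivial Ω] : MulAction.IsPreprimitive G Ω ↔ ∀ a b : Ω, a ≠ b → (SimpleGraph.fromRel fun x y : Ω => ∃ g : G, g • a = x ∧ g • b = y).Connected := by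
  constructor
  · intro hprim a b hab
    set Γ := SimpleGraph.fromRel fun x y : Ω => ∃ g : G, g • a = x ∧ g • b = y with hΓ
    have hadj : ∀ (g : G) (x y : Ω), Γ.Adj x y → Γ.Adj (g • x) (g • y) := by
      intro g x y h
      rw [hΓ, SimpleGraph.fromRel_adj] at h ⊢
      refine ⟨fun e => h.1 (MulAction.injective g e), ?_⟩
      rcases h.2 with ⟨k, hk1, hk2⟩ | ⟨k, hk1, hk2⟩
      · left; exact ⟨g * k, by rw [mul_smul, hk1], by rw [mul_smul, hk2]⟩
      · right; exact ⟨g * k, by rw [mul_smul, hk1], by rw [mul_smul, hk2]⟩
    have hreach : ∀ (g : G) (x y : Ω), Γ.Reachable x y → Γ.Reachable (g • x) (g • y) := by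
      intro g x y h
      rw [SimpleGraph.reachable_iff_reflTransGen] at h ⊢
      exact Relation.ReflTransGen.lift (g • ·) (fun u v huv => hadj g u v huv) x y h
    have hB : MulAction.IsBlock G {x | Γ.Reachable a x} := by
      rw [MulAction.isBlock_iff_smul_eq_of_mem]
      intro g a' ha' hga'
      have h1 : Γ.Reachable (g • a) a := (hreach g a a' ha').trans (SimpleGraph.Reachable.symm hga')
      ext y
      rw [Set.mem_smul_set_iff_inv_smul_mem]
      constructor
      · intro hy
        have h2 := hreach g _ _ hy
        rw [smul_inv_smul] at h2
        exact h1.symm.trans h2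
      · intro hy
        have h2 := hreach g⁻¹ _ _ (h1.trans hy)
        rwa [inv_smul_smul] at h2
    have htriv := hprim.isTrivialBlock_of_isBlock hB
    have hab_adj : Γ.Adj a b := by
      rw [hΓ, SimpleGraph.fromRel_adj]
      exact ⟨hab, Or.inl ⟨1, one_smul _ _, one_smul _ _⟩⟩
    have hall : ∀ x, Γ.Reachable a x := by
      rcases htriv with h | h
      · exact absurd (h (show a ∈ {x | Γ.Reachable a x} from SimpleGraph.Reachable.refl a)
          (show b ∈ {x | Γ.Reachable a x} from hab_adj.reachable)) hab
      · intro x
        have : x ∈ {x | Γ.Reachable a x} := by rw [h]; trivial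
        exact this
    exact ⟨fun u v => (hall u).symm.trans (hall v)⟩
  · intro h
    refine { isTrivialBlock_of_isBlock := ?_ }
    intro B hB
    by_cases hsub : B.Subsingleton
    · exact Or.inl hsub
    · right
      rw [Set.not_subsingleton_iff] at hsub
      obtain ⟨a, ha, b, hb, hab⟩ := hsub
      have hconn := h a b hab
      set Γ := SimpleGraph.fromRel fun x y : Ω => ∃ g : G, g • a = x ∧ g • b = y with hΓ
      have hstep : ∀ x y : Ω, Γ.Adj x y → (x ∈ B ↔ y ∈ B) := by
        intro x y hxy
        rw [hΓ, SimpleGraph.fromRel_adj] at hxy
        have hkey : ∀ (k : G) (u w : Ω), k • a = u → k • b = w → (u ∈ B ↔ w ∈ B) := by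
          intro k u w hu hw
          have hu' : u ∈ k • B := by rw [← hu]; exact Set.smul_mem_smul_set ha
          have hw' : w ∈ k • B := by rw [← hw]; exact Set.smul_mem_smul_set hb
          constructor
          · intro huB
            have : k • B = B := by
              by_contra hne
              have hd := hB (g₁ := k) (g₂ := 1) (by rwa [one_smul])
              rw [one_smul] at hd
              exact Set.disjoint_left.1 hd hu' huB
            rw [← this]; exact hw'
          · intro hwB
            have : k • B = B := by
              by_contra hne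
              have hd := hB (g₁ := k) (g₂ := 1) (by rwa [one_smul])
              rw [one_smul] at hd
              exact Set.disjoint_left.1 hd hw' hwB
            rw [← this]; exact hu'
        rcases hxy.2 with ⟨k, hk1, hk2⟩ | ⟨k, hk1, hk2⟩
        · exact hkey k x y hk1 hk2
        · exact (hkey k y x hk1 hk2).symm
      have hreach : ∀ x y : Ω, Γ.Reachable x y → (x ∈ B ↔ y ∈ B) := by
        intro x y hxy
        rw [SimpleGraph.reachable_iff_reflTransGen] at hxy
        induction hxy with
        | refl => exact Iff.rfl
        | tail _ hbc ih => exact ih.trans (hstep _ _ hbc)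
      ext y
      simp only [Set.mem_univ, iff_true]
      exact (hreach a y (hconn.preconnected a y)).1 ha

end Cfsg.Agent.S0734
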