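import Cfsg.Statements.S0735
import Mathlib

set_option autoImplicit false
open Cfsg

namespace Cfsg.Agent.S0735

open scoped Pointwise

theorem pairs {α : Type*} [Fintype α] [DecidableEq α] (G : Subgroup (Equiv.Perm α))
    (h2 : MulAction.IsPretransitive G (Set.powersetCard α 2)) (x y u v : α) (hxy : x ≠ y)
    (huv : u ≠ v) :
    ∃ g : G, ((g : Equiv.Perm α) x = u ∧ (g : Equiv.Perm α) y = v) ∨
      ((g : Equiv.Perm α) x = v ∧ (g : Equiv.Perm α) y = u) := by
  let s : Set.powersetCard α 2 := ⟨{x, y}, Finset.card_pair hxy⟩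
  let t : Set.powersetCard α 2 := ⟨{u, v}, Finset.card_pair huv⟩
  obtain ⟨g, hg⟩ := h2.exists_smul_eq s t
  refine ⟨g, ?_⟩
  have h1 : ((g : Equiv.Perm α) • ({x, y} : Finset α)) = {u, v} := by
    have := congrArg Subtype.val hg
    rwa [Subgroup.smul_def, Set.powersetCard.coe_smul] at this
  have hx : (g : Equiv.Perm α) x ∈ ({u, v} : Finset α) := by
    rw [← h1]
    exact Finset.smul_mem_smul_finset (a := (g : Equiv.Perm α)) (Finset.mem_insert_self x {y})
  have hy : (g : Equiv.Perm α) y ∈ ({u, v} : Finset α) := by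
    rw [← h1]
    exact Finset.smul_mem_smul_finset (a := (g : Equiv.Perm α))
      (Finset.mem_insert_of_mem (Finset.mem_singleton_self y))
  have hne : (g : Equiv.Perm α) x ≠ (g : Equiv.Perm α) y :=
    fun h => hxy ((g : Equiv.Perm α).injective h)
  simp only [Finset.mem_insert, Finset.mem_singleton] at hx hy
  rcases hx with hx | hx <;> rcases hy with hy | hy
  · exact absurd (hx.trans hy.symm) hne
  · exact Or.inl ⟨hx, hy⟩
  · exact Or.inr ⟨hx, hy⟩
  · exact absurd (hx.trans hy.symm) hne

/-- A 2-homogeneous permutation group (transitive on 2-subsets) of even order is doubly transitive; a non-trivial 2-homogeneous group is primitive. -/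
theorem result {α : Type*} [Fintype α] [DecidableEq α] (G : Subgroup (Equiv.Perm α)) (h2 : MulAction.IsPretransitive G (Set.powersetCard α 2)) (hα : 3 ≤ Fintype.card α) : (Even (Nat.card G) → MulAction.IsMultiplyPretransitive G α 2) ∧ (G ≠ ⊥ → MulAction.IsPreprimitive G α) := by
  have hp := pairs G h2
  constructor
  · intro heven
    haveI : Fact (Nat.Prime 2) := ⟨Nat.prime_two⟩
    obtain ⟨t, ht⟩ := exists_prime_orderOf_dvd_card' (G := G) 2 heven.two_dvd
    have ht1 : t ≠ 1 := by
      intro h
      rw [h, orderOf_one] at ht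
      omega
    have ht2 : t * t = 1 := by
      rw [← sq, ← ht]
      exact pow_orderOf_eq_one t
    obtain ⟨x, hx⟩ : ∃ x, (t : Equiv.Perm α) x ≠ x := by
      by_contra hcon
      apply ht1
      apply Subtype.ext
      ext x
      by_contra hx
      exact hcon ⟨x, hx⟩
    set y := (t : Equiv.Perm α) x with hy
    have hty : (t : Equiv.Perm α) y = x := by
      have h1 : ((t * t : G) : Equiv.Perm α) x = x := by rw [ht2]; rfl
      exact h1
    have horient : ∀ a b : α, a ≠ b →
        ∃ g : G, (g : Equiv.Perm α) x = a ∧ (g : Equiv.Perm α) y = b := by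
      intro a b hab
      obtain ⟨g, hg | hg⟩ := hp x y a b (Ne.symm hx) hab
      · exact ⟨g, hg⟩
      · refine ⟨g * t, ?_, ?_⟩
        · change (g : Equiv.Perm α) ((t : Equiv.Perm α) x) = a
          rw [← hy]
          exact hg.2
        · change (g : Equiv.Perm α) ((t : Equiv.Perm α) y) = b
          rw [hty]
          exact hg.1
    rw [MulAction.is_two_pretransitive_iff]
    intro a b c d hab hcd
    obtain ⟨g₁, hg₁⟩ := horient a b hab
    obtain ⟨g₂, hg₂⟩ := horient c d hcd
    refine ⟨g₂ * g₁⁻¹, ?_, ?_⟩
    · change (g₂ : Equiv.Perm α) ((g₁⁻¹ : G) • a) = c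
      have : (g₁⁻¹ : G) • a = x := by
        rw [inv_smul_eq_iff]
        exact hg₁.1.symm
      rw [this]
      exact hg₂.1
    · change (g₂ : Equiv.Perm α) ((g₁⁻¹ : G) • b) = d
      have : (g₁⁻¹ : G) • b = y := by
        rw [inv_smul_eq_iff]
        exact hg₁.2.symm
      rw [this]
      exact hg₂.2
  · intro _
    have hthird : ∀ u v : α, ∃ w, w ≠ u ∧ w ≠ v := by
      intro u v
      have hc : ({u, v} : Finset α).card < (Finset.univ : Finset α).card := by
        have := Finset.card_le_two (a := u) (b := v)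
        rw [Finset.card_univ]
        omega
      obtain ⟨w, -, hw⟩ := Finset.exists_mem_notMem_of_card_lt_card hc
      simp only [Finset.mem_insert, Finset.mem_singleton, not_or] at hw
      exact ⟨w, hw.1, hw.2⟩
    haveI : MulAction.IsPretransitive G α := by
      refine ⟨fun u v => ?_⟩
      by_cases huv : u = v
      · exact ⟨1, by rw [huv, one_smul]⟩
      · obtain ⟨w, hwu, hwv⟩ := hthird u v
        obtain ⟨g, hg | hg⟩ := hp u w v w (Ne.symm hwu) (Ne.symm hwv)
        · exact ⟨g, hg.1⟩
        · refine ⟨g * g, ?_⟩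
          change (g : Equiv.Perm α) ((g : Equiv.Perm α) u) = v
          rw [hg.1, hg.2]
    refine { isTrivialBlock_of_isBlock := ?_ }
    intro B hB
    by_cases hsub : B.Subsingleton
    · exact Or.inl hsub
    · right
      rw [Set.not_subsingleton_iff] at hsub
      obtain ⟨x, hx, y, hy, hxy⟩ := hsub
      ext z
      simp only [Set.mem_univ, iff_true]
      by_contra hz
      have hxz : x ≠ z := fun h => hz (h ▸ hx)
      obtain ⟨g, hg⟩ := hp x y x z hxy hxz
      rw [MulAction.isBlock_iff_smul_eq_of_mem] at hB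
      rcases hg with hg | hg
      · have h1 : g • B = B := hB hx (by change (g : Equiv.Perm α) x ∈ B; rw [hg.1]; exact hx)
        apply hz
        rw [← h1, ← hg.2]
        exact Set.smul_mem_smul_set (a := g) hy
      · have h1 : g • B = B := hB hy (by change (g : Equiv.Perm α) y ∈ B; rw [hg.2]; exact hx)
        apply hz
        rw [← h1, ← hg.1]
        exact Set.smul_mem_smul_set (a := g) hx

end Cfsg.Agent.S0735
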