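import Cfsg.Statements.S0736
-- import your own Cfsg.Agent.* helpers here
import Mathlib

set_option autoImplicit false
open Cfsg

namespace Cfsg.Agent.S0736

section helpers

/-- `C(k + p^a - 1, k) ≡ 1 (mod p)` when `p^a ∣ k`. -/
theorem choose_modEq_one (p : ℕ) [Fact p.Prime] : ∀ (a k : ℕ), p ^ a ∣ k →
    Nat.choose (k + p ^ a - 1) k ≡ 1 [MOD p] := by
  intro a
  induction a with
  | zero =>
    intro k _
    simp [Nat.ModEq]
  | succ a ih =>
    intro k hk
    have hp : p.Prime := Fact.out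
    obtain ⟨k', rfl⟩ : p ∣ k := dvd_trans (dvd_pow_self p (Nat.succ_ne_zero a)) hk
    have hk' : p ^ a ∣ k' := by
      rw [pow_succ'] at hk
      exact (Nat.mul_dvd_mul_iff_left hp.pos).mp hk
    have h1 := Choose.choose_modEq_choose_mod_mul_choose_div_nat (p := p)
      (n := p * k' + p ^ (a + 1) - 1) (k := p * k')
    have hpos : 0 < p ^ a := pow_pos hp.pos a
    have e1 : p * k' + p ^ (a + 1) - 1 = (p - 1) + p * (k' + p ^ a - 1) := by
      have : p ^ (a + 1) = p * p ^ a := pow_succ' p a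
      rw [this]
      have h2 : 1 ≤ p := hp.one_lt.le
      have h3 : 1 ≤ k' + p ^ a := by omega
      zify [h2, h3]
      have h4 : (1:ℤ) ≤ (p:ℤ) * (k':ℤ) + (p:ℤ) * (p:ℤ) ^ a := by
        have : (1:ℤ) ≤ (p:ℤ) * (p:ℤ) ^ a := by
          have : (0:ℤ) < (p:ℤ) ^ a := by positivity
          have : (1:ℤ) ≤ (p:ℤ) := by exact_mod_cast h2
          nlinarith
        have : (0:ℤ) ≤ (p:ℤ) * (k':ℤ) := by positivity
        linarith
      rw [Nat.cast_sub (by exact_mod_cast h4)]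
      push_cast
      ring
    have e2 : (p * k' + p ^ (a + 1) - 1) % p = p - 1 := by
      rw [e1, Nat.add_mul_mod_self_left]
      exact Nat.mod_eq_of_lt (Nat.sub_lt hp.pos one_pos)
    have e3 : (p * k' + p ^ (a + 1) - 1) / p = k' + p ^ a - 1 := by
      rw [e1, Nat.add_mul_div_left _ _ hp.pos, Nat.div_eq_of_lt (Nat.sub_lt hp.pos one_pos), zero_add]
    have e4 : (p * k') % p = 0 := Nat.mul_mod_right p k'
    have e5 : (p * k') / p = k' := Nat.mul_div_cancel_left k' hp.pos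
    rw [e2, e3, e4, e5, Nat.choose_zero_right, one_mul] at h1
    exact h1.trans (ih k' hk')

/-- number of `k`-subsets of `J` containing a `(k-1)`-subset `Γ ⊆ J`. -/
theorem card_above {α : Type*} [DecidableEq α] (k : ℕ) (hk : 1 ≤ k) (J Γ : Finset α)
    (hΓ : Γ.card = k - 1) (hΓJ : Γ ⊆ J) :
    ((Finset.powersetCard k J).filter (fun Δ => Γ ⊆ Δ)).card = J.card - (k - 1) := by
  have : (Finset.powersetCard k J).filter (fun Δ => Γ ⊆ Δ) = (J \ Γ).image (fun x => insert x Γ) := by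
    ext Δ
    simp only [Finset.mem_filter, Finset.mem_powersetCard, Finset.mem_image, Finset.mem_sdiff]
    constructor
    · rintro ⟨⟨hΔJ, hΔ⟩, hΓΔ⟩
      have hc : (Δ \ Γ).card = 1 := by
        rw [Finset.card_sdiff_of_subset hΓΔ, hΔ, hΓ]; omega
      obtain ⟨x, hx⟩ := Finset.card_eq_one.mp hc
      have hxm : x ∈ Δ \ Γ := by rw [hx]; exact Finset.mem_singleton_self x
      rw [Finset.mem_sdiff] at hxm
      refine ⟨x, ⟨hΔJ hxm.1, hxm.2⟩, ?_⟩
      rw [← Finset.sdiff_union_of_subset hΓΔ, hx]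
      ext y; simp
    · rintro ⟨x, ⟨hxJ, hxΓ⟩, rfl⟩
      refine ⟨⟨?_, ?_⟩, Finset.subset_insert x Γ⟩
      · exact Finset.insert_subset hxJ hΓJ
      · rw [Finset.card_insert_of_notMem hxΓ, hΓ]; omega
  rw [this, Finset.card_image_of_injOn, Finset.card_sdiff_of_subset hΓJ, hΓ]
  intro x hx y hy hxy
  simp only [Finset.coe_sdiff, Set.mem_sdiff, Finset.mem_coe] at hx hy
  have hxy' : insert x Γ = insert y Γ := hxy
  have : x ∈ insert y Γ := by rw [← hxy']; exact Finset.mem_insert_self x Γ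
  rcases Finset.mem_insert.mp this with h | h
  · exact h
  · exact absurd h hx.2

theorem design_dvd {α : Type*} [Fintype α] [DecidableEq α] (k : ℕ) (hk : 1 ≤ k)
    (O : Finset (Finset α)) (hO : ∀ Γ ∈ O, Γ.card = k - 1) (m : ℕ)
    (hm : ∀ Δ : Finset α, Δ.card = k → (O.filter (fun Γ => Γ ⊆ Δ)).card = m)
    (p a : ℕ) (hp : p.Prime) (hpa : p ^ a ∣ k) (hn : k + p ^ a - 1 ≤ Fintype.card α) :
    p ^ a ∣ m := by
  have : Fact p.Prime := ⟨hp⟩
  obtain ⟨J, -, hJ⟩ := Finset.exists_subset_card_eq (s := (Finset.univ : Finset α))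
    (n := k + p ^ a - 1) (by rw [Finset.card_univ]; exact hn)
  have hpos : 0 < p ^ a := pow_pos hp.pos a
  have key := Finset.sum_card_bipartiteAbove_eq_sum_card_bipartiteBelow
    (s := O.filter (fun Γ => Γ ⊆ J)) (t := Finset.powersetCard k J) (fun Γ Δ => Γ ⊆ Δ)
  have h1 : ∀ Γ ∈ O.filter (fun Γ => Γ ⊆ J),
      ((Finset.powersetCard k J).bipartiteAbove (fun Γ Δ => Γ ⊆ Δ) Γ).card = p ^ a := by
    intro Γ hΓ
    rw [Finset.mem_filter] at hΓ
    have := card_above k hk J Γ (hO Γ hΓ.1) hΓ.2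
    rw [Finset.bipartiteAbove]
    rw [this, hJ]; omega
  have h2 : ∀ Δ ∈ Finset.powersetCard k J,
      ((O.filter (fun Γ => Γ ⊆ J)).bipartiteBelow (fun Γ Δ => Γ ⊆ Δ) Δ).card = m := by
    intro Δ hΔ
    rw [Finset.mem_powersetCard] at hΔ
    rw [← hm Δ hΔ.2, Finset.bipartiteBelow]
    congr 1
    ext Γ
    simp only [Finset.mem_filter]
    constructor
    · rintro ⟨⟨h, -⟩, h'⟩; exact ⟨h, h'⟩
    · rintro ⟨h, h'⟩; exact ⟨⟨h, h'.trans hΔ.1⟩, h'⟩
  rw [Finset.sum_congr rfl h1, Finset.sum_congr rfl h2, Finset.sum_const, Finset.sum_const,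
    Finset.card_powersetCard, hJ, smul_eq_mul, smul_eq_mul] at key
  have hc : Nat.Coprime (p ^ a) (Nat.choose (k + p ^ a - 1) k) := by
    apply Nat.Coprime.pow_left
    rw [Nat.Prime.coprime_iff_not_dvd hp]
    intro hd
    have h3 := choose_modEq_one p a k hpa
    have h4 : Nat.choose (k + p ^ a - 1) k ≡ 0 [MOD p] := (Nat.modEq_zero_iff_dvd).mpr hd
    have h5 : (1 : ℕ) ≡ 0 [MOD p] := h3.symm.trans h4
    have := (Nat.modEq_zero_iff_dvd).mp h5
    exact hp.one_lt.ne' (Nat.dvd_one.mp this)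
  exact hc.dvd_of_dvd_mul_left ⟨_, key.symm.trans (mul_comm _ _)⟩

open scoped Pointwise in
theorem main {α : Type*} [Fintype α] [DecidableEq α] (G : Subgroup (Equiv.Perm α)) {k : ℕ} (hk : 2 ≤ k) (hG : MulAction.IsPretransitive G (Set.powersetCard α k)) (hq : ∀ q : ℕ, IsPrimePow q → q ∣ k → k + q - 1 ≤ Fintype.card α) : MulAction.IsPretransitive G (Set.powersetCard α (k - 1)) := by
  classical
  constructor
  intro Γ₁ Γ₂
  have hΓ₁ : (Γ₁ : Finset α).card = k - 1 := Γ₁.2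
  have hΓ₂ : (Γ₂ : Finset α).card = k - 1 := Γ₂.2
  -- k < card α
  have hkn : k + 1 ≤ Fintype.card α := by
    obtain ⟨p, hp, hpk⟩ := Nat.exists_prime_and_dvd (show k ≠ 1 by omega)
    have := hq p hp.isPrimePow hpk
    have := hp.two_le
    omega
  -- the orbit family
  set O : Finset (Finset α) :=
    Finset.univ.filter (fun Γ => ∃ g : G, g • (Γ₁ : Finset α) = Γ) with hOdef
  have hOcard : ∀ Γ ∈ O, Γ.card = k - 1 := by
    intro Γ hΓ
    rw [hOdef, Finset.mem_filter] at hΓ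
    obtain ⟨g, rfl⟩ := hΓ.2
    rw [Finset.card_smul_finset]; exact hΓ₁
  have hOinv : ∀ (g : G) (Γ : Finset α), Γ ∈ O → g • Γ ∈ O := by
    intro g Γ hΓ
    rw [hOdef, Finset.mem_filter] at hΓ ⊢
    obtain ⟨h, rfl⟩ := hΓ.2
    exact ⟨Finset.mem_univ _, g * h, by rw [mul_smul]⟩
  have hle : ∀ (g : G) (Δ : Finset α),
      (O.filter (fun Γ => Γ ⊆ Δ)).card ≤ (O.filter (fun Γ => Γ ⊆ g • Δ)).card := by
    intro g Δ
    apply Finset.card_le_card_of_injOn (fun Γ => g • Γ)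
    · intro Γ hΓ
      simp only [Finset.coe_filter, Set.mem_ofPred_eq] at hΓ ⊢
      exact ⟨hOinv g Γ hΓ.1, Finset.smul_finset_subset_smul_finset hΓ.2⟩
    · intro Γ _ Γ' _ h
      exact smul_left_cancel g h
  have hinv : ∀ (g : G) (Δ : Finset α),
      (O.filter (fun Γ => Γ ⊆ g • Δ)).card = (O.filter (fun Γ => Γ ⊆ Δ)).card := by
    intro g Δ
    apply le_antisymm
    · have := hle g⁻¹ (g • Δ)
      rwa [inv_smul_smul] at this
    · exact hle g Δ
  -- a k-subset containing Γ₁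
  obtain ⟨x, hx⟩ : ∃ x, x ∉ (Γ₁ : Finset α) := by
    by_contra hcon
    push Not at hcon
    have : (Γ₁ : Finset α) = Finset.univ := Finset.eq_univ_iff_forall.mpr hcon
    rw [this, Finset.card_univ] at hΓ₁
    omega
  set Δ₀ : Finset α := insert x (Γ₁ : Finset α) with hΔ₀
  have hΔ₀card : Δ₀.card = k := by
    rw [hΔ₀, Finset.card_insert_of_notMem hx, hΓ₁]; omega
  set m := (O.filter (fun Γ => Γ ⊆ Δ₀)).card with hm
  have hmconst : ∀ Δ : Finset α, Δ.card = k → (O.filter (fun Γ => Γ ⊆ Δ)).card = m := by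
    intro Δ hΔ
    obtain ⟨g, hg⟩ := hG.exists_smul_eq (⟨Δ₀, hΔ₀card⟩ : Set.powersetCard α k) ⟨Δ, hΔ⟩
    have hg' : g • Δ₀ = Δ := congrArg (fun s : Set.powersetCard α k => (s : Finset α)) hg
    rw [← hg', hinv]
  have hm1 : 1 ≤ m := by
    rw [hm, Nat.one_le_iff_ne_zero, Finset.card_ne_zero]
    refine ⟨(Γ₁ : Finset α), ?_⟩
    rw [Finset.mem_filter, hOdef, Finset.mem_filter]
    exact ⟨⟨Finset.mem_univ _, 1, one_smul _ _⟩, Finset.subset_insert _ _⟩
  have hsub : ∀ Δ : Finset α, O.filter (fun Γ => Γ ⊆ Δ) ⊆ Finset.powersetCard (k - 1) Δ := by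
    intro Δ Γ hΓ
    rw [Finset.mem_filter] at hΓ
    rw [Finset.mem_powersetCard]
    exact ⟨hΓ.2, hOcard Γ hΓ.1⟩
  have hmk : m ≤ k := by
    have := Finset.card_le_card (hsub Δ₀)
    rw [Finset.card_powersetCard, hΔ₀card] at this
    have h2 : Nat.choose k (k - 1) = k := by
      rw [Nat.choose_symm (by omega : 1 ≤ k), Nat.choose_one_right]
    rw [h2] at this
    exact this
  have hdvd : k ∣ m := by
    rw [Nat.dvd_iff_prime_pow_dvd_dvd]
    intro p a hp hpa
    rcases Nat.eq_zero_or_pos a with rfl | ha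
    · simp
    · have hpp : IsPrimePow (p ^ a) := (isPrimePow_nat_iff _).mpr ⟨p, a, hp, ha, rfl⟩
      exact design_dvd k (by omega) O hOcard m hmconst p a hp hpa (hq _ hpp hpa)
  have hmeq : m = k := le_antisymm hmk (Nat.le_of_dvd (by omega) hdvd)
  -- now Γ₂ is in O
  obtain ⟨y, hy⟩ : ∃ y, y ∉ (Γ₂ : Finset α) := by
    by_contra hcon
    push Not at hcon
    have : (Γ₂ : Finset α) = Finset.univ := Finset.eq_univ_iff_forall.mpr hcon
    rw [this, Finset.card_univ] at hΓ₂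
    omega
  set Δ₂ : Finset α := insert y (Γ₂ : Finset α) with hΔ₂
  have hΔ₂card : Δ₂.card = k := by
    rw [hΔ₂, Finset.card_insert_of_notMem hy, hΓ₂]; omega
  have heq : O.filter (fun Γ => Γ ⊆ Δ₂) = Finset.powersetCard (k - 1) Δ₂ := by
    apply Finset.eq_of_subset_of_card_le (hsub Δ₂)
    rw [hmconst Δ₂ hΔ₂card, hmeq, Finset.card_powersetCard, hΔ₂card]
    have h2 : Nat.choose k (k - 1) = k := by
      rw [Nat.choose_symm (by omega : 1 ≤ k), Nat.choose_one_right]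
    rw [h2]
  have hmem : (Γ₂ : Finset α) ∈ O.filter (fun Γ => Γ ⊆ Δ₂) := by
    rw [heq, Finset.mem_powersetCard]
    exact ⟨Finset.subset_insert _ _, hΓ₂⟩
  rw [Finset.mem_filter, hOdef, Finset.mem_filter] at hmem
  obtain ⟨g, hg⟩ := hmem.1.2
  refine ⟨g, ?_⟩
  apply Subtype.ext
  exact hg


end helpers


/-- A `k`-homogeneous permutation group of degree `n`, `k ≥ 2`, with `k + q - 1 ≤ n` for every prime power `q` dividing `k`, is `(k-1)`-homogeneous. -/
theorem result {α : Type*} [Fintype α] [DecidableEq α] (G : Subgroup (Equiv.Perm α)) {k : ℕ} (hk : 2 ≤ k) (hG : MulAction.IsPretransitive G (Set.powersetCard α k)) (hq : ∀ q : ℕ, IsPrimePow q → q ∣ k → k + q - 1 ≤ Fintype.card α) : MulAction.IsPretransitive G (Set.powersetCard α (k - 1)) := by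
  exact main G hk hG hq

end Cfsg.Agent.S0736
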