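import Cfsg.Statements.S0740
import Cfsg.Agent.Lib.Helper13.Zass

set_option autoImplicit false
open Cfsg

namespace Cfsg.Agent.S0740

open Cfsg.Agent.Lib.Helper13

/-- In a finite Zassenhaus group any two points `a ≠ b` are swapped by an involution; every such involution has exactly one fixed point when the degree is odd and 0 or 2 fixed points when the degree is even; and if the two-point stabiliser has even order, some such involution has exactly 2 fixed points. -/
theorem result {G Ω : Type*} [Group G] [Finite G] [MulAction G Ω] [Fintype Ω] (hZ : Cfsg.IsZassenhausGroup G Ω) {a b : Ω} (hab : a ≠ b) : (∃ s : G, orderOf s = 2 ∧ s • a = b ∧ s • b = a) ∧ (∀ s : G, orderOf s = 2 → s • a = b → s • b = a → (Odd (Fintype.card Ω) → Nat.card (MulAction.fixedBy Ω s) = 1) ∧ (Even (Fintype.card Ω) → Nat.card (MulAction.fixedBy Ω s) = 0 ∨ Nat.card (MulAction.fixedBy Ω s) = 2)) ∧ (Even (Fintype.card Ω) → Even (Nat.card ↥(MulAction.stabilizer G a ⊓ MulAction.stabilizer G b)) → ∃ s :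 G, orderOf s = 2 ∧ s • a = b ∧ s • b = a ∧ Nat.card (MulAction.fixedBy Ω s) = 2) := by
  refine ⟨?_, ?_, ?_⟩
  · obtain ⟨t, ht⟩ := Zass.exists_involution hZ hab
    obtain ⟨-, ht1⟩ := (Zass.order_two_iff t).1 ht
    obtain ⟨c, hc⟩ := Zass.exists_moved hZ ht1
    obtain ⟨s, hs, hsa, hsb, -⟩ := Zass.conj_swap hZ t ht c hc hab
    exact ⟨s, hs, hsa, hsb⟩
  · intro s hs _ _
    obtain ⟨hs2, hs1⟩ := (Zass.order_two_iff s).1 hs
    have h1 := Zass.fix_le_two hZ hs1
    have h2 := Zass.parity (Ω := Ω) s hs2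
    constructor
    · intro hodd
      rw [Nat.odd_iff] at hodd
      omega
    · intro heven
      rw [Nat.even_iff] at heven
      omega
  · intro _ heven
    haveI : Fact (Nat.Prime 2) := ⟨Nat.prime_two⟩
    obtain ⟨z, hz⟩ := exists_prime_orderOf_dvd_card'
      (G := ↥(MulAction.stabilizer G a ⊓ MulAction.stabilizer G b)) 2 heven.two_dvd
    have hz' : orderOf (z : G) = 2 := by rw [Subgroup.orderOf_coe]; exact hz
    obtain ⟨-, hz1⟩ := (Zass.order_two_iff (z : G)).1 hz'
    have hza : (z : G) • a = a := (Subgroup.mem_inf.1 z.2).1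
    have hzb : (z : G) • b = b := (Subgroup.mem_inf.1 z.2).2
    have hle := Zass.fix_le_two hZ hz1
    have hge : 1 < Nat.card (MulAction.fixedBy Ω (z : G)) := by
      rw [Finite.one_lt_card_iff_nontrivial]
      exact ⟨⟨⟨a, hza⟩, ⟨b, hzb⟩, fun h => hab (congrArg Subtype.val h)⟩⟩
    obtain ⟨c, hc⟩ := Zass.exists_moved hZ hz1
    obtain ⟨s, hs, hsa, hsb, hcard⟩ := Zass.conj_swap hZ (z : G) hz' c hc hab
    exact ⟨s, hs, hsa, hsb, by omega⟩

end Cfsg.Agent.S0740
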