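import Cfsg.Statements.S0743
import Mathlib
import Cfsg.Agent.Lib.Helper13.Gleason

set_option autoImplicit false
open Cfsg

namespace Cfsg.Agent.S0743

/-- Gleason's Lemma: let `p` be a prime and `1 ≤ k < n`; if every `k`-subset of the `n` points is exactly the fixed-point set of some `p`-subgroup of `G`, then `G` is `k`-transitive. -/
theorem result {α : Type*} [Fintype α] [DecidableEq α] (G : Subgroup (Equiv.Perm α)) {p k : ℕ} (hp : p.Prime) (hk : 1 ≤ k) (hkn : k < Fintype.card α) (h : ∀ s : Finset α, s.card = k → ∃ P : Subgroup G, IsPGroup p P ∧ MulAction.fixedPoints P α = (s : Set α)) : MulAction.IsMultiplyPretransitive G α k := by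
  classical
  apply Cfsg.Agent.Lib.Helper13.Gleason.multi p hp.one_lt k hk ↥G α
    (by rw [Nat.card_eq_fintype_card]; exact hkn)
  intro s hs
  obtain ⟨P, hP, hfix⟩ := h s.toFinite.toFinset (by
    rw [← Set.ncard_eq_toFinset_card s s.toFinite]
    exact hs)
  rw [Set.Finite.coe_toFinset] at hfix
  refine ⟨P, ?_, ?_⟩
  · intro g hg y hy
    have h1 : y ∈ MulAction.fixedPoints P α := by
      rw [hfix]
      exact hy
    exact h1 ⟨g, hg⟩
  · intro x hx
    haveI : Fact p.Prime := ⟨hp⟩
    obtain ⟨n, hn⟩ := hP.card_orbit x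
    rw [Nat.card_coe_set_eq] at hn
    rw [hn]
    rcases Nat.eq_zero_or_pos n with h0 | h0
    · exfalso
      rw [h0, pow_zero] at hn
      apply hx
      rw [← hfix, MulAction.mem_fixedPoints]
      intro g
      have h1 : g • x ∈ MulAction.orbit P x := MulAction.mem_orbit x g
      have h2 : x ∈ MulAction.orbit P x := MulAction.mem_orbit_self x
      rw [Set.ncard_eq_one] at hn
      obtain ⟨z, hz⟩ := hn
      rw [hz, Set.mem_singleton_iff] at h1 h2
      rw [h1, h2]
    · exact dvd_pow_self p h0.ne'

end Cfsg.Agent.S0743
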