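import Cfsg.Statements.S0744
import Mathlib
import Cfsg.Agent.Lib.Helper13.Gleason

set_option autoImplicit false
open Cfsg

namespace Cfsg.Agent.S0744

/-- If for some `k > 1` the pointwise stabilisers of all `(k-1)`-subsets have the same order `> 1` and those of all `k`-subsets have the same order, then the group is `(k-1)`-transitive. -/
theorem result {α : Type*} [Fintype α] [DecidableEq α] (G : Subgroup (Equiv.Perm α)) {k : ℕ} (hk : 1 < k) (hkn : k ≤ Fintype.card α) (l m : ℕ) (hl : 1 < l) (hkm1 : ∀ s : Finset α, s.card = k - 1 → Nat.card (fixingSubgroup G (s : Set α)) = l) (hkm : ∀ s : Finset α, s.card = k → Nat.card (fixingSubgroup G (s : Set α)) = m) : MulAction.IsMultiplyPretransitive G α (k - 1) := by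
  classical
  have hkpos : 1 ≤ k - 1 := by omega
  have hcard : k - 1 < Nat.card α := by
    rw [Nat.card_eq_fintype_card]
    omega
  have horb : ∀ s : Set α, s.ncard = k - 1 → ∀ x, x ∉ s →
      (MulAction.orbit (fixingSubgroup G s) x).ncard * m = l := by
    intro s hs x hx
    have h1 := hkm1 s.toFinite.toFinset (by
      rw [← Set.ncard_eq_toFinset_card s s.toFinite]
      exact hs)
    rw [Set.Finite.coe_toFinset] at h1
    have h2 := hkm (insert x s).toFinite.toFinset (by
      rw [← Set.ncard_eq_toFinset_card _ (insert x s).toFinite, Set.ncard_insert_of_notMem hx, hs]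
      omega)
    rw [Set.Finite.coe_toFinset] at h2
    have h3 := Subgroup.card_mul_index (MulAction.stabilizer (fixingSubgroup G s) x)
    rw [MulAction.index_stabilizer, h1] at h3
    have e : MulAction.stabilizer (fixingSubgroup G s) x ≃ fixingSubgroup G (insert x s) :=
      { toFun := fun h => ⟨h.1.1, by
          rw [mem_fixingSubgroup_iff]
          intro y hy
          rcases hy with rfl | hy
          · exact h.2
          · exact (mem_fixingSubgroup_iff G).1 h.1.2 y hy⟩
        invFun := fun g => ⟨⟨g.1, by
          rw [mem_fixingSubgroup_iff]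
          intro y hy
          exact (mem_fixingSubgroup_iff G).1 g.2 y (Set.mem_insert_of_mem _ hy)⟩, by
          rw [MulAction.mem_stabilizer_iff]
          exact (mem_fixingSubgroup_iff G).1 g.2 x (Set.mem_insert _ _)⟩
        left_inv := fun h => rfl
        right_inv := fun g => rfl }
    rw [Nat.card_congr e, h2] at h3
    rw [mul_comm]
    exact h3
  -- a (k-1)-subset
  obtain ⟨s₀, -, hs₀⟩ := Finset.exists_subset_card_eq (s := (Finset.univ : Finset α))
    (n := k - 1) (by rw [Finset.card_univ]; omega)
  have hl₀ := hkm1 s₀ hs₀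
  haveI : Nontrivial (fixingSubgroup G (s₀ : Set α)) := by
    rw [← Finite.one_lt_card_iff_nontrivial, hl₀]
    exact hl
  obtain ⟨h, hh⟩ := exists_ne (1 : fixingSubgroup G (s₀ : Set α))
  obtain ⟨y, hy⟩ : ∃ y : α, h • y ≠ y := by
    by_contra hcon
    push Not at hcon
    apply hh
    apply Subtype.ext
    apply Subtype.ext
    ext y
    exact hcon y
  have hys : y ∉ (s₀ : Set α) := fun hmem => hy ((mem_fixingSubgroup_iff G).1 h.2 y hmem)
  have h0 := horb (s₀ : Set α) (by rw [Set.ncard_coe_finset, hs₀]) y hys
  have h2le : 2 ≤ (MulAction.orbit (fixingSubgroup G (s₀ : Set α)) y).ncard := by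
    have hsub : ({h • y, y} : Set α) ⊆ MulAction.orbit (fixingSubgroup G (s₀ : Set α)) y := by
      rintro z (rfl | rfl)
      · exact MulAction.mem_orbit y h
      · exact MulAction.mem_orbit_self _
    calc 2 = ({h • y, y} : Set α).ncard := (Set.ncard_pair hy).symm
      _ ≤ _ := Set.ncard_le_ncard hsub
  have hmpos : 0 < m := by
    rcases Nat.eq_zero_or_pos m with hm0 | hm0
    · rw [hm0, mul_zero] at h0
      omega
    · exact hm0
  have hr : 1 < l / m := by
    rw [Nat.div_eq_of_eq_mul_left hmpos h0.symm]
    omega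
  apply Cfsg.Agent.Lib.Helper13.Gleason.multi (l / m) hr (k - 1) hkpos ↥G α hcard
  intro s hs
  refine ⟨fixingSubgroup G s, fun g hg y hy => (mem_fixingSubgroup_iff G).1 hg y hy,
    fun x hx => ?_⟩
  rw [Nat.div_eq_of_eq_mul_left hmpos (horb s hs x hx).symm]

end Cfsg.Agent.S0744
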