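import Cfsg.Statements.S0749
import Cfsg.Agent.Lib.Helper13.Symp

set_option autoImplicit false
open Cfsg

namespace Cfsg.Agent.S0749

open Cfsg.Agent.Lib.Helper13 in
/-- Witt's Lemma for alternating forms. If B is a non-degenerate alternating bilinear form on a finite-dimensional vector space V (over any field) and φ is a linear equivalence between subspaces X and Y of V preserving B, then φ extends to a B-preserving linear automorphism of V. -/
theorem result {F V : Type*} [Field F] [AddCommGroup V] [Module F V] [FiniteDimensional F V] (B : LinearMap.BilinForm F V) (hB : B.Nondegenerate) (hA : B.IsAlt) (X Y : Submodule F V) (φ : X ≃ₗ[F] Y) (hφ : ∀ x x' : X, B (φ x : V) (φ x' : V) = B (x : V) (x' : V)) : ∃ g : V ≃ₗ[F] V, (∀ u v : V, B (g u) (g v) = B u v) ∧ ∀ x : X, g (x : V) = (φ x : V) := by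
  obtain ⟨f, hf⟩ := LinearMap.exists_extend (p := X) (Y.subtype.comp φ.toLinearMap)
  have hfx : ∀ x : X, f (x : V) = (φ x : V) := fun x => by
    have := LinearMap.congr_fun hf x
    simpa using this
  obtain ⟨s, hs⟩ := (IsNoetherian.noetherian X : X.FG)
  obtain ⟨g, hg, hgf⟩ := Symp.witt_T B hB hA f s
    (by
      rw [hs]
      intro x hx x' hx'
      have h1 := hfx ⟨x, hx⟩
      have h2 := hfx ⟨x', hx'⟩
      simp only at h1 h2
      rw [h1, h2]
      exact hφ _ _)
    (by
      rw [hs]
      intro x hx h0
      have h1 := hfx ⟨x, hx⟩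
      simp only at h1
      rw [h0] at h1
      have h2 : φ ⟨x, hx⟩ = 0 := Subtype.ext h1.symm
      have h3 : (⟨x, hx⟩ : X) = 0 := by
        simpa using h2
      exact congrArg Subtype.val h3)
  refine ⟨g, Symp.T_isometry B hA hg, fun x => ?_⟩
  rw [hgf x (hs ▸ x.2), hfx]

end Cfsg.Agent.S0749
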