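import Cfsg.Statements.S0750
import Mathlib

set_option autoImplicit false
open Cfsg

namespace Cfsg.Agent.S0750

open Submodule

theorem hB {F V : Type*} [Field F] [AddCommGroup V] [Module F V] (Q : QuadraticForm F V)
    (x y : V) : Q (x + y) = Q x + Q y + QuadraticMap.polarBilin Q x y := by
  rw [QuadraticMap.polarBilin_apply_apply, QuadraticMap.polar]
  ring

theorem hS {F V : Type*} [Field F] [AddCommGroup V] [Module F V] (Q : QuadraticForm F V)
    (a : F) (x : V) : Q (a • x) = a * a * Q x := by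
  rw [QuadraticMap.map_smul, smul_eq_mul]

theorem hBxx {F V : Type*} [Field F] [AddCommGroup V] [Module F V] (Q : QuadraticForm F V)
    (x : V) : QuadraticMap.polarBilin Q x x = 2 * Q x := by
  rw [QuadraticMap.polarBilin_apply_apply, QuadraticMap.polar_self]
  simp

theorem hsymm {F V : Type*} [Field F] [AddCommGroup V] [Module F V] (Q : QuadraticForm F V)
    (x y : V) : QuadraticMap.polarBilin Q x y = QuadraticMap.polarBilin Q y x := by
  rw [QuadraticMap.polarBilin_apply_apply, QuadraticMap.polarBilin_apply_apply,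
    QuadraticMap.polar_comm]

theorem Q2 {F V : Type*} [Field F] [AddCommGroup V] [Module F V] (Q : QuadraticForm F V)
    (x p : V) (a : F) :
    Q (x + a • p) = Q x + a * a * Q p + a * QuadraticMap.polarBilin Q x p := by
  rw [hB, hS, map_smul, smul_eq_mul]

theorem Q3 {F V : Type*} [Field F] [AddCommGroup V] [Module F V] (Q : QuadraticForm F V)
    (x p w : V) (a b : F) :
    Q (x + a • p + b • w) = Q x + a * a * Q p + b * b * Q w + a * QuadraticMap.polarBilin Q x p +
      b * QuadraticMap.polarBilin Q x w + a * b * QuadraticMap.polarBilin Q p w := by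
  rw [hB, Q2, hS]
  simp only [map_add, map_smul, LinearMap.add_apply, LinearMap.smul_apply, smul_eq_mul]
  ring

theorem polar_of_isom {F V : Type*} [Field F] [AddCommGroup V] [Module F V]
    (Q : QuadraticForm F V) (g : V →ₗ[F] V) (x y : V) (hx : Q (g x) = Q x) (hy : Q (g y) = Q y)
    (hxy : Q (g (x + y)) = Q (x + y)) :
    QuadraticMap.polarBilin Q (g x) (g y) = QuadraticMap.polarBilin Q x y := by
  have h1 := hB Q (g x) (g y)
  rw [← map_add, hxy, hx, hy, hB Q x y] at h1
  exact (add_left_cancel h1).symm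

theorem toEquiv {F V : Type*} [Field F] [AddCommGroup V] [Module F V] [FiniteDimensional F V]
    (Q : QuadraticForm F V) (hQ : (QuadraticMap.polarBilin Q).Nondegenerate) (g : V →ₗ[F] V)
    (hg : ∀ v, Q (g v) = Q v) : ∃ e : V ≃ₗ[F] V, ∀ v, e v = g v := by
  have hinj : Function.Injective g := by
    rw [← LinearMap.ker_eq_bot, LinearMap.ker_eq_bot']
    intro x hx
    apply hQ.1
    intro y
    rw [← polar_of_isom Q g x y (hg x) (hg y) (hg _), hx, map_zero, LinearMap.zero_apply]
  exact ⟨LinearEquiv.ofInjectiveEndo g hinj, fun v => rfl⟩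

theorem exists_vec {F V : Type*} [Field F] [AddCommGroup V] [Module F V] [FiniteDimensional F V]
    (Q : QuadraticForm F V) (hQ : (QuadraticMap.polarBilin Q).Nondegenerate) (K : Submodule F V)
    (u : V) (hu : u ∉ K) :
    ∃ w : V, (∀ x ∈ K, QuadraticMap.polarBilin Q w x = 0) ∧ QuadraticMap.polarBilin Q w u = 1 := by
  obtain ⟨ψ, hψu, hψK⟩ := Submodule.exists_dual_map_eq_bot_of_notMem hu inferInstance
  refine ⟨(LinearMap.BilinForm.toDual (QuadraticMap.polarBilin Q) hQ).symm ((ψ u)⁻¹ • ψ), ?_, ?_⟩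
  · intro x hx
    rw [LinearMap.BilinForm.apply_toDual_symm_apply, LinearMap.smul_apply]
    have h0 : ψ x = 0 := by
      have h1 : ψ x ∈ K.map ψ := Submodule.mem_map_of_mem hx
      rw [hψK] at h1
      exact (Submodule.mem_bot F).1 h1
    rw [h0, smul_zero]
  · rw [LinearMap.BilinForm.apply_toDual_symm_apply, LinearMap.smul_apply, smul_eq_mul,
      inv_mul_cancel₀ hψu]

theorem step {F V : Type*} [Field F] [AddCommGroup V] [Module F V] [FiniteDimensional F V]
    (Q : QuadraticForm F V) (hQ : (QuadraticMap.polarBilin Q).Nondegenerate) (H : Submodule F V)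
    (u : V) (f : V →ₗ[F] V) (hfH : ∀ h ∈ H, f h = h)
    (hfQ : ∀ x ∈ H ⊔ Submodule.span F {u}, Q (f x) = Q x)
    (hinj : ∀ x ∈ H ⊔ Submodule.span F {u}, f x = 0 → x = 0) (huH : u ∉ H) :
    ∃ g : V →ₗ[F] V, (∀ v, Q (g v) = Q v) ∧ (∀ h ∈ H, g h = h) ∧ g u = f u := by
  have huX : u ∈ H ⊔ Submodule.span F {u} :=
    (le_sup_right : Submodule.span F {u} ≤ _) (Submodule.mem_span_singleton_self u)
  have hHX : ∀ h ∈ H, h ∈ H ⊔ Submodule.span F {u} := fun h hh => (le_sup_left : H ≤ _) hh
  obtain ⟨p, hp⟩ : ∃ p : V, p = f u - u := ⟨_, rfl⟩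
  have hfu : f u = u + p := by
    rw [hp]
    abel
  have hHp : ∀ h ∈ H, QuadraticMap.polarBilin Q h p = 0 := by
    intro h hh
    have h1 := polar_of_isom Q f h u (hfQ h (hHX h hh)) (hfQ u huX)
      (hfQ _ (add_mem (hHX h hh) huX))
    rw [hfH h hh, hfu, map_add] at h1
    exact add_eq_left.1 h1
  have hQp : Q p = - QuadraticMap.polarBilin Q u p := by
    have h1 := hfQ u huX
    rw [hfu, hB] at h1
    linear_combination h1
  by_cases hup : QuadraticMap.polarBilin Q u p = 0
  · have hQp0 : Q p = 0 := by rw [hQp, hup, neg_zero]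
    have hpp : QuadraticMap.polarBilin Q p p = 0 := by rw [hBxx, hQp0, mul_zero]
    by_cases hp0 : p = 0
    · refine ⟨LinearMap.id, fun v => rfl, fun h _ => rfl, ?_⟩
      rw [hfu, hp0, add_zero]
      rfl
    by_cases hmem : u ∈ H ⊔ Submodule.span F {p}
    · obtain ⟨h₀, hh₀, y, hy, hu_eq⟩ := Submodule.mem_sup.1 hmem
      obtain ⟨c, rfl⟩ := Submodule.mem_span_singleton.1 hy
      have hpH : p ∉ H := by
        intro hpH
        exact huH (hu_eq ▸ add_mem hh₀ (H.smul_mem c hpH))
      have hc1 : c + 1 ≠ 0 := by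
        intro hc1
        have h1 : f (u - h₀) = 0 := by
          rw [map_sub, hfH h₀ hh₀, hfu, ← hu_eq]
          have h2 : h₀ + c • p + p - h₀ = (c + 1) • p := by
            rw [add_smul, one_smul]
            abel
          rw [h2, hc1, zero_smul]
        have h3 := hinj (u - h₀) (sub_mem huX (hHX h₀ hh₀)) h1
        rw [sub_eq_zero] at h3
        exact huH (h3 ▸ hh₀)
      have hc0 : c ≠ 0 := by
        intro hc0
        rw [hc0, zero_smul, add_zero] at hu_eq
        exact huH (hu_eq ▸ hh₀)
      obtain ⟨p₁, hp₁H, hp₁p⟩ := exists_vec Q hQ H p hpH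
      obtain ⟨p', hp'⟩ : ∃ p' : V, p' = p₁ + (- Q p₁) • p := ⟨_, rfl⟩
      have hp'H : ∀ h ∈ H, QuadraticMap.polarBilin Q p' h = 0 := by
        intro h hh
        rw [hp', map_add, map_smul, LinearMap.add_apply, LinearMap.smul_apply, hp₁H h hh,
          hsymm Q p h, hHp h hh, smul_zero, add_zero]
      have hp'p : QuadraticMap.polarBilin Q p' p = 1 := by
        rw [hp', map_add, map_smul, LinearMap.add_apply, LinearMap.smul_apply, hp₁p, hpp,
          smul_zero, add_zero]
      have hQp' : Q p' = 0 := by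
        rw [hp', Q2, hQp0, hp₁p]
        ring
      obtain ⟨μ, hμ⟩ : ∃ μ : F, μ = (c + 1) / c := ⟨_, rfl⟩
      have hμ0 : μ ≠ 0 := by
        rw [hμ]
        exact div_ne_zero hc1 hc0
      have hμμ : μ * μ⁻¹ = 1 := mul_inv_cancel₀ hμ0
      have hcμ : c * μ = c + 1 := by
        rw [hμ]
        field_simp
      obtain ⟨g, hg⟩ : ∃ g : V →ₗ[F] V, ∀ x, g x = x +
          ((μ - 1) * QuadraticMap.polarBilin Q p' x) • p +
          ((μ⁻¹ - 1) * QuadraticMap.polarBilin Q p x) • p' :=
        ⟨LinearMap.id + ((μ - 1) • QuadraticMap.polarBilin Q p').smulRight p +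
          ((μ⁻¹ - 1) • QuadraticMap.polarBilin Q p).smulRight p', fun x => by
          simp only [LinearMap.add_apply, LinearMap.id_coe, id_eq, LinearMap.smulRight_apply,
            LinearMap.smul_apply, smul_eq_mul]⟩
      refine ⟨g, ?_, ?_, ?_⟩
      · intro x
        rw [hg, Q3, hQp0, hQp', hsymm Q p p', hp'p, hsymm Q x p, hsymm Q x p']
        linear_combination (QuadraticMap.polarBilin Q p' x * QuadraticMap.polarBilin Q p x) * hμμ
      · intro h hh
        rw [hg, hp'H h hh, hsymm Q p h, hHp h hh, mul_zero, mul_zero, zero_smul, zero_smul,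
          add_zero, add_zero]
      · have hgp : g p = μ • p := by
          rw [hg, hp'p, hpp, mul_zero, zero_smul, add_zero, mul_one, sub_smul, one_smul]
          abel
        have hgh : g h₀ = h₀ := by
          rw [hg, hp'H h₀ hh₀, hsymm Q p h₀, hHp h₀ hh₀, mul_zero, mul_zero, zero_smul,
            zero_smul, add_zero, add_zero]
        rw [hfu, ← hu_eq, map_add, map_smul, hgh, hgp, smul_smul, hcμ, add_smul, one_smul]
        abel
    · obtain ⟨w₁, hw₁K, hw₁u⟩ := exists_vec Q hQ (H ⊔ Submodule.span F {p}) u hmem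
      obtain ⟨w, hw⟩ : ∃ w : V, w = (-1 : F) • w₁ := ⟨_, rfl⟩
      have hwH : ∀ h ∈ H, QuadraticMap.polarBilin Q w h = 0 := by
        intro h hh
        rw [hw, map_smul, LinearMap.smul_apply, hw₁K h ((le_sup_left : H ≤ _) hh), smul_zero]
      have hwp : QuadraticMap.polarBilin Q w p = 0 := by
        rw [hw, map_smul, LinearMap.smul_apply, hw₁K p ((le_sup_right :
          Submodule.span F {p} ≤ _) (Submodule.mem_span_singleton_self p)), smul_zero]
      have hwu : QuadraticMap.polarBilin Q w u = -1 := by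
        rw [hw, map_smul, LinearMap.smul_apply, hw₁u, smul_eq_mul, mul_one]
      obtain ⟨g, hg⟩ : ∃ g : V →ₗ[F] V, ∀ x, g x = x +
          (QuadraticMap.polarBilin Q p x) • w +
          (- QuadraticMap.polarBilin Q w x - Q w * QuadraticMap.polarBilin Q p x) • p :=
        ⟨LinearMap.id + (QuadraticMap.polarBilin Q p).smulRight w +
          (- QuadraticMap.polarBilin Q w - Q w • QuadraticMap.polarBilin Q p).smulRight p,
          fun x => by
          simp only [LinearMap.add_apply, LinearMap.id_coe, id_eq, LinearMap.smulRight_apply,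
            LinearMap.smul_apply, LinearMap.sub_apply, LinearMap.neg_apply, smul_eq_mul]⟩
      refine ⟨g, ?_, ?_, ?_⟩
      · intro x
        rw [hg, Q3, hQp0, hwp, hsymm Q x p, hsymm Q x w]
        ring
      · intro h hh
        rw [hg, hwH h hh, hsymm Q p h, hHp h hh, mul_zero, neg_zero, sub_zero, zero_smul,
          zero_smul, add_zero, add_zero]
      · rw [hg, hwu, hsymm Q p u, hup, mul_zero, zero_smul, add_zero, hfu, neg_neg, sub_zero,
          one_smul]
  · have hQp0 : Q p ≠ 0 := by
      rw [hQp]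
      exact neg_ne_zero.2 hup
    obtain ⟨g, hg⟩ : ∃ g : V →ₗ[F] V, ∀ x, g x = x +
        (- (Q p)⁻¹ * QuadraticMap.polarBilin Q p x) • p :=
      ⟨LinearMap.id + ((- (Q p)⁻¹) • QuadraticMap.polarBilin Q p).smulRight p, fun x => by
        simp only [LinearMap.add_apply, LinearMap.id_coe, id_eq, LinearMap.smulRight_apply,
          LinearMap.smul_apply, smul_eq_mul]⟩
    refine ⟨g, ?_, ?_, ?_⟩
    · intro x
      rw [hg, Q2, hsymm Q x p]
      field_simp
      ring
    · intro h hh
      rw [hg, hsymm Q p h, hHp h hh, mul_zero, zero_smul, add_zero]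
    · rw [hg, hfu, hsymm Q p u, hQp]
      congr 1
      have h1 : -(-(QuadraticMap.polarBilin Q u) p)⁻¹ * (QuadraticMap.polarBilin Q u) p = 1 := by
        field_simp
      rw [h1, one_smul]

theorem witt_aux {F V : Type*} [Field F] [AddCommGroup V] [Module F V] [FiniteDimensional F V]
    (Q : QuadraticForm F V) (hQ : (QuadraticMap.polarBilin Q).Nondegenerate) :
    ∀ (d : ℕ) (X : Submodule F V), Module.finrank F X = d → ∀ f : V →ₗ[F] V,
      (∀ x ∈ X, Q (f x) = Q x) → (∀ x ∈ X, f x = 0 → x = 0) →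
      ∃ g : V ≃ₗ[F] V, (∀ v, Q (g v) = Q v) ∧ ∀ x ∈ X, g x = f x := by
  intro d
  induction d with
  | zero =>
    intro X hX f hfQ hinj
    have hX0 : X = ⊥ := Submodule.finrank_eq_zero.1 hX
    refine ⟨LinearEquiv.refl F V, fun v => rfl, ?_⟩
    intro x hx
    rw [hX0, Submodule.mem_bot] at hx
    rw [hx, map_zero, map_zero]
  | succ d ih =>
    intro X hX f hfQ hinj
    have hXne : X ≠ ⊥ := by
      intro h
      rw [h, finrank_bot] at hX
      omega
    obtain ⟨u, huX, hu0⟩ := Submodule.exists_mem_ne_zero_of_ne_bot hXne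
    obtain ⟨K, hK⟩ := Submodule.exists_isCompl (Submodule.span F {u})
    have hle : Submodule.span F {u} ≤ X := (Submodule.span_singleton_le_iff_mem u X).2 huX
    have hsup : (K ⊓ X) ⊔ Submodule.span F {u} = X := by
      rw [sup_comm, ← sup_inf_assoc_of_le K hle, hK.sup_eq_top, top_inf_eq]
    have hdisj : (K ⊓ X) ⊓ Submodule.span F {u} = ⊥ := by
      rw [eq_bot_iff]
      intro y hy
      have h1 : y ∈ Submodule.span F {u} ⊓ K := ⟨hy.2, hy.1.1⟩
      rw [hK.inf_eq_bot] at h1
      exact h1
    have huH : u ∉ K ⊓ X := by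
      intro h
      have h1 : u ∈ (K ⊓ X) ⊓ Submodule.span F {u} := ⟨h, Submodule.mem_span_singleton_self u⟩
      rw [hdisj, Submodule.mem_bot] at h1
      exact hu0 h1
    have hfin : Module.finrank F ↥(K ⊓ X) = d := by
      have h1 := Submodule.finrank_sup_add_finrank_inf_eq (K ⊓ X) (Submodule.span F {u})
      rw [hsup, hX, hdisj, finrank_bot, finrank_span_singleton hu0] at h1
      omega
    obtain ⟨g₁, hg₁Q, hg₁⟩ := ih (K ⊓ X) hfin f (fun x hx => hfQ x hx.2) (fun x hx => hinj x hx.2)
    have hg₁s : ∀ y, Q (g₁.symm y) = Q y := by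
      intro y
      have h1 := hg₁Q (g₁.symm y)
      rw [LinearEquiv.apply_symm_apply] at h1
      exact h1.symm
    obtain ⟨g₂, hg₂Q, hg₂H, hg₂u⟩ := step Q hQ (K ⊓ X) u (g₁.symm.toLinearMap ∘ₗ f)
      (by
        intro h hh
        rw [LinearMap.comp_apply, ← hg₁ h hh]
        exact g₁.symm_apply_apply h)
      (by
        intro x hx
        rw [hsup] at hx
        rw [LinearMap.comp_apply]
        exact (hg₁s _).trans (hfQ x hx))
      (by
        intro x hx h0
        rw [hsup] at hx
        rw [LinearMap.comp_apply] at h0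
        have h1 : f x = 0 := by
          have h2 := congrArg g₁ h0
          rw [map_zero] at h2
          rw [← h2]
          exact (g₁.apply_symm_apply (f x)).symm
        exact hinj x hx h1) huH
    obtain ⟨e₂, he₂⟩ := toEquiv Q hQ g₂ hg₂Q
    refine ⟨e₂.trans g₁, ?_, ?_⟩
    · intro v
      show Q (g₁ (e₂ v)) = Q v
      rw [hg₁Q, he₂, hg₂Q]
    · intro x hx
      rw [← hsup] at hx
      obtain ⟨h, hh, y, hy, rfl⟩ := Submodule.mem_sup.1 hx
      obtain ⟨c, rfl⟩ := Submodule.mem_span_singleton.1 hy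
      show g₁ (e₂ (h + c • u)) = f (h + c • u)
      rw [he₂, map_add, map_smul, hg₂H h hh, hg₂u, map_add, map_smul, LinearMap.comp_apply,
        map_add, map_smul, hg₁ h hh]
      congr 2
      exact g₁.apply_symm_apply (f u)

/-- Witt's Lemma for quadratic forms over a finite field, in any characteristic: if Q is a quadratic form on a finite-dimensional space V whose polar bilinear form is non-degenerate, then every linear equivalence between subspaces X, Y of V that preserves Q extends to a Q-preserving linear automorphism of V. (In odd characteristic this is the symmetric-bilinear case; in characteristic two it is the statement for non-degenerate quadratic forms.) -/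
theorem result {F V : Type*} [Field F] [Finite F] [AddCommGroup V] [Module F V] [FiniteDimensional F V] (Q : QuadraticForm F V) (hQ : (QuadraticMap.polarBilin Q).Nondegenerate) (X Y : Submodule F V) (φ : X ≃ₗ[F] Y) (hφ : ∀ x : X, Q (φ x : V) = Q (x : V)) : ∃ g : V ≃ₗ[F] V, (∀ v : V, Q (g v) = Q v) ∧ ∀ x : X, g (x : V) = (φ x : V) := by
  classical
  obtain ⟨π, hπ⟩ := LinearMap.exists_leftInverse_of_injective X.subtype (Submodule.ker_subtype X)
  obtain ⟨f, hf⟩ : ∃ f : V →ₗ[F] V, ∀ x : X, f (x : V) = (φ x : V) := by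
    refine ⟨Y.subtype ∘ₗ φ.toLinearMap ∘ₗ π, fun x => ?_⟩
    have h1 : π (x : V) = x := LinearMap.congr_fun hπ x
    simp only [LinearMap.comp_apply, LinearEquiv.coe_coe, Submodule.subtype_apply]
    rw [h1]
  obtain ⟨g, hgQ, hg⟩ := witt_aux Q hQ _ X rfl f
    (by
      intro x hx
      rw [hf ⟨x, hx⟩]
      exact hφ ⟨x, hx⟩)
    (by
      intro x hx h0
      rw [hf ⟨x, hx⟩] at h0
      have h1 : φ ⟨x, hx⟩ = 0 := Subtype.ext h0
      have h2 := (LinearEquiv.map_eq_zero_iff φ).1 h1
      exact congrArg Subtype.val h2)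
  exact ⟨g, hgQ, fun x => (hg x x.2).trans (hf x)⟩

end Cfsg.Agent.S0750
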