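import Cfsg.Statements.S0753

set_option autoImplicit false
open Cfsg

namespace Cfsg.Agent.S0753

/-- If σ is a ring endomorphism of the field F other than the identity and B is a σ-sesquilinear conjugate-symmetric form with B v v = 0 for every v, then B = 0. -/
theorem result {F V : Type*} [Field F] [AddCommGroup V] [Module F V] (σ : F →+* F) (hσ : σ ≠ RingHom.id F) (B : V →ₛₗ[σ] V →ₗ[F] F) (hS : B.IsSymm) (h0 : ∀ v : V, B v v = 0) : B = 0 := by
  have hanti : ∀ x y : V, B y x = - B x y := by
    intro x y
    have h := h0 (x + y)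
    simp only [map_add, LinearMap.add_apply, h0, zero_add, add_zero] at h
    exact eq_neg_of_add_eq_zero_left h
  obtain ⟨a, ha⟩ : ∃ a : F, σ a ≠ a := by
    by_contra hcon
    exact hσ (RingHom.ext fun a => by
      by_contra h
      exact hcon ⟨a, h⟩)
  ext x y
  simp only [LinearMap.zero_apply]
  have h1 : σ (B x y) = - B x y := by rw [hS.eq x y, hanti x y]
  have h2 : σ (B x (a • y)) = - B x (a • y) := by rw [hS.eq x (a • y), hanti x (a • y)]
  simp only [map_smul, smul_eq_mul, map_mul, h1] at h2
  have h3 : (σ a - a) * B x y = 0 := by linear_combination -h2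
  rcases mul_eq_zero.mp h3 with h | h
  · exact absurd (sub_eq_zero.mp h) ha
  · exact h

end Cfsg.Agent.S0753
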