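import Cfsg.Statements.S0756

set_option autoImplicit false
open Cfsg

namespace Cfsg.Agent.S0756

open Polynomial in
theorem solve {F : Type*} [Field F] [Finite F] (h2 : (2 : F) ≠ 0) (a b : F) (ha : a ≠ 0)
    (hb : b ≠ 0) : ∃ x y : F, a * x ^ 2 + b * y ^ 2 = 1 := by
  cases nonempty_fintype F
  have hchar : ringChar F ≠ 2 := by
    intro h
    have : CharP F 2 := ringChar.of_eq h
    exact h2 (CharTwo.two_eq_zero)
  have hodd := FiniteField.odd_card_of_char_ne_two hchar
  obtain ⟨x, y, h⟩ := FiniteField.exists_root_sum_quadratic (f := C a * X ^ 2)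
    (g := C b * X ^ 2 - C 1) (Polynomial.degree_C_mul_X_pow 2 ha)
    (by
      rw [Polynomial.degree_sub_C (by rw [Polynomial.degree_C_mul_X_pow 2 hb]; norm_num),
        Polynomial.degree_C_mul_X_pow 2 hb]
      rfl) hodd
  refine ⟨x, y, ?_⟩
  simp only [eval_mul, eval_C, eval_pow, eval_X, eval_sub] at h
  linear_combination h

theorem li_of_ortho {F V : Type*} [Field F] [AddCommGroup V] [Module F V]
    (B : LinearMap.BilinForm F V) {k : ℕ} (g : Fin k → V)
    (hg : ∀ i j, i ≠ j → B (g i) (g j) = 0) (hg0 : ∀ i, B (g i) (g i) ≠ 0) :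
    LinearIndependent F g := by
  rw [Fintype.linearIndependent_iff]
  intro c hc i
  have h1 : B (g i) (∑ j, c j • g j) = c i * B (g i) (g i) := by
    simp only [map_sum, map_smul, smul_eq_mul]
    rw [Finset.sum_eq_single i]
    · intro j _ hji
      rw [hg i j (Ne.symm hji), mul_zero]
    · simp
  rw [hc, map_zero] at h1
  exact (mul_eq_zero.1 h1.symm).resolve_right (hg0 i)

theorem ext_ortho {F V : Type*} [Field F] [AddCommGroup V] [Module F V] [FiniteDimensional F V]
    (h2 : (2 : F) ≠ 0) (B : LinearMap.BilinForm F V) (hS : B.IsSymm) (hB : B.Nondegenerate)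
    {k : ℕ} (g : Fin k → V) (hg : ∀ i j, i ≠ j → B (g i) (g j) = 0)
    (hg0 : ∀ i, B (g i) (g i) ≠ 0) (hk : k < Module.finrank F V) :
    ∃ w, (∀ i, B (g i) w = 0) ∧ B w w ≠ 0 := by
  have hli := li_of_ortho B g hg hg0
  have hP : ∀ u i, B (g i) (u - ∑ j, (B (g j) u / B (g j) (g j)) • g j) = 0 := by
    intro u i
    simp only [map_sub, map_sum, map_smul, smul_eq_mul]
    rw [Finset.sum_eq_single i]
    · rw [div_mul_cancel₀ _ (hg0 i), sub_self]
    · intro j _ hji
      rw [hg i j (Ne.symm hji), mul_zero]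
    · simp
  have hlt : Submodule.span F (Set.range g) < ⊤ := by
    rw [lt_top_iff_ne_top]
    intro htop
    have h1 := finrank_span_eq_card hli
    rw [htop, finrank_top] at h1
    simp at h1
    omega
  obtain ⟨u, -, hu⟩ := SetLike.exists_of_lt hlt
  have hPu : u - ∑ j, (B (g j) u / B (g j) (g j)) • g j ≠ 0 := by
    intro h0
    apply hu
    rw [sub_eq_zero.1 h0]
    exact Submodule.sum_mem _ fun i _ => Submodule.smul_mem _ _ (Submodule.subset_span ⟨i, rfl⟩)
  by_contra hcon
  have hcon' : ∀ w, (∀ i, B (g i) w = 0) → B w w = 0 := by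
    intro w hw
    by_contra hne
    exact hcon ⟨w, hw, hne⟩
  have hWW : ∀ w w', (∀ i, B (g i) w = 0) → (∀ i, B (g i) w' = 0) → B w w' = 0 := by
    intro w w' hw hw'
    have h1 := hcon' (w + w') (fun i => by rw [map_add, hw i, hw' i, add_zero])
    have h3 := hcon' w hw
    have h4 := hcon' w' hw'
    simp only [map_add, LinearMap.add_apply, h3, h4, hS.eq w' w] at h1
    have h5 : (2 : F) * B w w' = 0 := by linear_combination h1
    exact (mul_eq_zero.1 h5).resolve_left h2
  apply hPu
  apply hB.1
  intro y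
  have hy : y = (y - ∑ j, (B (g j) y / B (g j) (g j)) • g j) +
      ∑ j, (B (g j) y / B (g j) (g j)) • g j := by abel
  rw [hy, map_add, hWW _ _ (hP u) (hP y), zero_add, map_sum]
  apply Finset.sum_eq_zero
  intro i _
  rw [map_smul, hS.eq (u - ∑ j, (B (g j) u / B (g j) (g j)) • g j) (g i), hP u i, smul_zero]

theorem rep_one {F V : Type*} [Field F] [Finite F] [AddCommGroup V] [Module F V]
    [FiniteDimensional F V]
    (h2 : (2 : F) ≠ 0) (B : LinearMap.BilinForm F V) (hS : B.IsSymm) (hB : B.Nondegenerate)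
    {k : ℕ} (e : Fin k → V) (he : ∀ i j, B (e i) (e j) = if i = j then 1 else 0)
    (hk : k + 2 ≤ Module.finrank F V) : ∃ v, (∀ i, B (e i) v = 0) ∧ B v v = 1 := by
  obtain ⟨w₀, hw₀, hd₀⟩ := ext_ortho h2 B hS hB e (fun i j hij => by rw [he, if_neg hij])
    (fun i => by rw [he, if_pos rfl]; exact one_ne_zero) (by omega)
  obtain ⟨w₁, hw₁, hd₁⟩ := ext_ortho h2 B hS hB (Fin.snoc e w₀ : Fin (k + 1) → V)
    (by
      intro i j
      refine Fin.lastCases ?_ (fun i => ?_) i <;> refine Fin.lastCases ?_ (fun j => ?_) j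
      · intro h; exact absurd rfl h
      · intro _
        simp only [Fin.snoc_last, Fin.snoc_castSucc]
        rw [hS.eq, hw₀ j]
      · intro _
        simp only [Fin.snoc_last, Fin.snoc_castSucc]
        exact hw₀ i
      · intro hij
        simp only [Fin.snoc_castSucc]
        rw [he, if_neg (fun h => hij (by rw [h]))])
    (by
      intro i
      refine Fin.lastCases ?_ (fun i => ?_) i
      · simpa using hd₀
      · simp only [Fin.snoc_castSucc]
        rw [he, if_pos rfl]
        exact one_ne_zero)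
    (by omega)
  have h01 : B w₀ w₁ = 0 := by simpa using hw₁ (Fin.last k)
  have he1 : ∀ i, B (e i) w₁ = 0 := fun i => by simpa using hw₁ (Fin.castSucc i)
  obtain ⟨x, y, hxy⟩ := solve h2 (B w₀ w₀) (B w₁ w₁) hd₀ hd₁
  refine ⟨x • w₀ + y • w₁, fun i => by simp [hw₀ i, he1 i], ?_⟩
  simp only [map_add, map_smul, LinearMap.add_apply, LinearMap.smul_apply, smul_eq_mul, h01,
    hS.eq w₁ w₀]
  linear_combination hxy

/-- Classification of symmetric bilinear forms over finite fields of odd characteristic: if B is non-degenerate symmetric on V of dimension n + 1 and α is a fixed non-square of F, there is an orthogonal basis b_0, ..., b_n with B(b_i, b_i) = 1 for i < n and B(b_n, b_n) ∈ {1, α}. -/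
theorem result {F V : Type*} [Field F] [Finite F] [AddCommGroup V] [Module F V] [FiniteDimensional F V] (h2 : (2 : F) ≠ 0) (B : LinearMap.BilinForm F V) (hS : B.IsSymm) (hB : B.Nondegenerate) {n : ℕ} (hn : Module.finrank F V = n + 1) (α : F) (hα : ¬ IsSquare α) : ∃ b : Module.Basis (Fin (n + 1)) F V, (∀ i j, i ≠ j → B (b i) (b j) = 0) ∧ (∀ i, i ≠ Fin.last n → B (b i) (b i) = 1) ∧ (B (b (Fin.last n)) (b (Fin.last n)) = 1 ∨ B (b (Fin.last n)) (b (Fin.last n)) = α) := by
  have hfam : ∀ k, k ≤ n → ∃ e : Fin k → V, ∀ i j, B (e i) (e j) = if i = j then 1 else 0 := by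
    intro k
    induction k with
    | zero => intro _; exact ⟨Fin.elim0, fun i => i.elim0⟩
    | succ k ih =>
      intro hk
      obtain ⟨e, he⟩ := ih (by omega)
      obtain ⟨v, hv, hvv⟩ := rep_one h2 B hS hB e he (by omega)
      refine ⟨(Fin.snoc e v : Fin (k + 1) → V), ?_⟩
      intro i j
      refine Fin.lastCases ?_ (fun i => ?_) i <;> refine Fin.lastCases ?_ (fun j => ?_) j
      · simp [hvv]
      · simp only [Fin.snoc_last, Fin.snoc_castSucc]
        rw [hS.eq, hv j, if_neg (Fin.castSucc_lt_last j).ne']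
      · simp only [Fin.snoc_last, Fin.snoc_castSucc]
        rw [hv i, if_neg (Fin.castSucc_lt_last i).ne]
      · simp only [Fin.snoc_castSucc, he, Fin.castSucc_inj]
  obtain ⟨e, he⟩ := hfam n le_rfl
  obtain ⟨z, hz, hd⟩ := ext_ortho h2 B hS hB e (fun i j hij => by rw [he, if_neg hij])
    (fun i => by rw [he, if_pos rfl]; exact one_ne_zero) (by omega)
  obtain ⟨z', hz', hd'⟩ : ∃ z', (∀ i, B (e i) z' = 0) ∧ (B z' z' = 1 ∨ B z' z' = α) := by
    by_cases hsq : IsSquare (B z z)
    · obtain ⟨c, hc⟩ := hsq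
      have hc0 : c ≠ 0 := by
        rintro rfl
        apply hd
        simpa using hc
      refine ⟨c⁻¹ • z, fun i => by rw [map_smul, hz i, smul_zero], Or.inl ?_⟩
      rw [map_smul, map_smul, LinearMap.smul_apply, hc, smul_eq_mul, smul_eq_mul]
      field_simp
    · cases nonempty_fintype F
      classical
      have hα0 : α ≠ 0 := by
        rintro rfl
        exact hα ⟨0, by simp⟩
      have h1 : quadraticChar F (α * B z z) = 1 := by
        rw [map_mul, quadraticChar_neg_one_iff_not_isSquare.2 hα,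
          quadraticChar_neg_one_iff_not_isSquare.2 hsq]
        norm_num
      obtain ⟨s, hs⟩ := (quadraticChar_one_iff_isSquare (mul_ne_zero hα0 hd)).1 h1
      have hs0 : s ≠ 0 := by
        rintro rfl
        have : α * B z z = 0 := by simpa using hs
        exact mul_ne_zero hα0 hd this
      refine ⟨(α / s) • z, fun i => by rw [map_smul, hz i, smul_zero], Or.inr ?_⟩
      have hBzz : B z z = s * s / α := by
        field_simp
        linear_combination hs
      rw [map_smul, map_smul, LinearMap.smul_apply, smul_eq_mul, smul_eq_mul, hBzz]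
      field_simp
  have hortho : ∀ i j, i ≠ j →
      B ((Fin.snoc e z' : Fin (n + 1) → V) i) ((Fin.snoc e z' : Fin (n + 1) → V) j) = 0 := by
    intro i j
    refine Fin.lastCases ?_ (fun i => ?_) i <;> refine Fin.lastCases ?_ (fun j => ?_) j
    · intro h; exact absurd rfl h
    · intro _
      simp only [Fin.snoc_last, Fin.snoc_castSucc]
      rw [hS.eq, hz' j]
    · intro _
      simp only [Fin.snoc_last, Fin.snoc_castSucc]
      exact hz' i
    · intro hij
      simp only [Fin.snoc_castSucc]
      rw [he, if_neg (fun h => hij (by rw [h]))]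
  have hnorm : ∀ i, i ≠ Fin.last n →
      B ((Fin.snoc e z' : Fin (n + 1) → V) i) ((Fin.snoc e z' : Fin (n + 1) → V) i) = 1 := by
    intro i
    refine Fin.lastCases ?_ (fun i => ?_) i
    · intro h; exact absurd rfl h
    · intro _
      simp only [Fin.snoc_castSucc]
      rw [he, if_pos rfl]
  have hlast : B ((Fin.snoc e z' : Fin (n + 1) → V) (Fin.last n))
      ((Fin.snoc e z' : Fin (n + 1) → V) (Fin.last n)) = B z' z' := by
    simp only [Fin.snoc_last]
  have hα0 : α ≠ 0 := by
    rintro rfl
    exact hα ⟨0, by simp⟩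
  have hli : LinearIndependent F (Fin.snoc e z' : Fin (n + 1) → V) := by
    apply li_of_ortho B _ hortho
    intro i
    by_cases hi : i = Fin.last n
    · subst hi
      rw [hlast]
      rcases hd' with h | h <;> rw [h]
      · exact one_ne_zero
      · exact hα0
    · rw [hnorm i hi]
      exact one_ne_zero
  refine ⟨basisOfLinearIndependentOfCardEqFinrank hli (by simp [hn]), ?_, ?_, ?_⟩
  · intro i j hij
    rw [coe_basisOfLinearIndependentOfCardEqFinrank]
    exact hortho i j hij
  · intro i hi
    rw [coe_basisOfLinearIndependentOfCardEqFinrank]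
    exact hnorm i hi
  · rw [coe_basisOfLinearIndependentOfCardEqFinrank, hlast]
    exact hd'

end Cfsg.Agent.S0756
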