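import Cfsg.Statements.S0757

set_option autoImplicit false
open Cfsg

namespace Cfsg.Agent.S0757

theorem aux {F : Type*} [Field F] (h2 : (2 : F) ≠ 0) {ι : Type*} [Fintype ι] [DecidableEq ι]
    (w₁ w₂ : ι → F)
    (e : (QuadraticMap.weightedSumSquares F w₁).IsometryEquiv
      (QuadraticMap.weightedSumSquares F w₂)) :
    ∃ d : F, ∏ i, w₁ i = d * d * ∏ i, w₂ i := by
  have hpol : ∀ x y : ι → F, ∑ i, w₂ i * (e x i * e y i) = ∑ i, w₁ i * (x i * y i) := by
    intro x y
    have h1 := e.map_app (x + y)
    have h2' := e.map_app x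
    have h3 := e.map_app y
    simp only [QuadraticMap.weightedSumSquares_apply, map_add, Pi.add_apply, smul_eq_mul]
      at h1 h2' h3
    have e1 : ∀ i, 2 * (w₂ i * (e x i * e y i)) =
        w₂ i * ((e x i + e y i) * (e x i + e y i)) - w₂ i * (e x i * e x i)
          - w₂ i * (e y i * e y i) := fun i => by ring
    have e2 : ∀ i, 2 * (w₁ i * (x i * y i)) =
        w₁ i * ((x i + y i) * (x i + y i)) - w₁ i * (x i * x i) - w₁ i * (y i * y i) :=
      fun i => by ring
    have key : (2 : F) * ∑ i, w₂ i * (e x i * e y i) = 2 * ∑ i, w₁ i * (x i * y i) := by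
      rw [Finset.mul_sum, Finset.mul_sum]
      simp_rw [e1, e2, Finset.sum_sub_distrib]
      rw [h1, h2', h3]
    exact mul_left_cancel₀ h2 key
  let P : Matrix ι ι F := fun i j => e (Pi.single j 1) i
  have hP : P.transpose * Matrix.diagonal w₂ * P = Matrix.diagonal w₁ := by
    ext j k
    rw [Matrix.mul_apply]
    simp only [Matrix.mul_diagonal, Matrix.transpose_apply, P]
    have := hpol (Pi.single j 1) (Pi.single k 1)
    rw [Matrix.diagonal_apply]
    calc ∑ i, e (Pi.single j 1) i * w₂ i * e (Pi.single k 1) i
        = ∑ i, w₂ i * (e (Pi.single j 1) i * e (Pi.single k 1) i) :=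
          Finset.sum_congr rfl (fun i _ => by ring)
      _ = ∑ i, w₁ i * ((Pi.single j 1 : ι → F) i * (Pi.single k 1 : ι → F) i) := this
      _ = if j = k then w₁ j else 0 := by
          rw [Finset.sum_eq_single j]
          · by_cases hjk : j = k
            · subst hjk; simp
            · simp [hjk, Pi.single_apply]
          · intro b _ hb
            simp [Pi.single_apply, hb]
          · simp
  refine ⟨P.det, ?_⟩
  have := congrArg Matrix.det hP
  rw [Matrix.det_mul, Matrix.det_mul, Matrix.det_transpose, Matrix.det_diagonal,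
    Matrix.det_diagonal] at this
  rw [← this]
  ring

/-- The two diagonal forms Σ x_i^2 and Σ_(i<n) x_i^2 + α x_n^2 on F^(n+1), with α a non-square and 2 ≠ 0 in F, are inequivalent quadratic forms (so over a finite field of odd order there are exactly two classes of non-singular symmetric bilinear forms in each dimension). -/
theorem result {F : Type*} [Field F] (h2 : (2 : F) ≠ 0) (n : ℕ) (α : F) (hα : ¬ IsSquare α) : ¬ (QuadraticMap.weightedSumSquares F (fun _ : Fin (n + 1) => (1 : F))).Equivalent (QuadraticMap.weightedSumSquares F (fun i : Fin (n + 1) => if i = Fin.last n then α else (1 : F))) := by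
  rintro ⟨e⟩
  apply hα
  obtain ⟨d, hd⟩ := aux h2 _ _ e
  rw [Finset.prod_const_one, Finset.prod_ite_eq' Finset.univ (Fin.last n) (fun _ => α)] at hd
  simp only [Finset.mem_univ, if_true] at hd
  have hd0 : d ≠ 0 := by
    rintro rfl
    simp at hd
  refine ⟨d⁻¹, ?_⟩
  field_simp
  linear_combination -hd

end Cfsg.Agent.S0757
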