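import Cfsg.Statements.S0758

set_option autoImplicit false
open Cfsg

namespace Cfsg.Agent.S0758

/-- For a finite field F of odd order q and a non-square α: the form x² + y² is isotropic iff q ≡ 1 mod 4, and the form x² + α y² is isotropic iff q ≡ 3 mod 4. -/
theorem result {F : Type*} [Field F] [Fintype F] (h2 : (2 : F) ≠ 0) (α : F) (hα : ¬ IsSquare α) : ((∃ x y : F, (x ≠ 0 ∨ y ≠ 0) ∧ x ^ 2 + y ^ 2 = 0) ↔ Fintype.card F % 4 = 1) ∧ ((∃ x y : F, (x ≠ 0 ∨ y ≠ 0) ∧ x ^ 2 + α * y ^ 2 = 0) ↔ Fintype.card F % 4 = 3) := by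
  classical
  have hchar : ringChar F ≠ 2 := by
    intro h
    haveI : CharP F 2 := ringChar.of_eq h
    exact h2 (CharTwo.two_eq_zero)
  have hodd := FiniteField.odd_card_of_char_ne_two hchar
  have hm1 := FiniteField.isSquare_neg_one_iff (F := F)
  have hα0 : α ≠ 0 := by
    rintro rfl
    exact hα ⟨0, by simp⟩
  have hχα : quadraticChar F α = -1 := quadraticChar_neg_one_iff_not_isSquare.2 hα
  constructor
  · have key : (∃ x y : F, (x ≠ 0 ∨ y ≠ 0) ∧ x ^ 2 + y ^ 2 = 0) ↔ IsSquare (-1 : F) := by
      constructor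
      · rintro ⟨x, y, hxy, h⟩
        have hy : y ≠ 0 := by
          rintro rfl
          have hx : x = 0 := by simpa using h
          simp [hx] at hxy
        refine ⟨x / y, ?_⟩
        field_simp
        linear_combination -h
      · rintro ⟨r, hr⟩
        refine ⟨r, 1, Or.inr one_ne_zero, ?_⟩
        linear_combination -hr
    rw [key, hm1]
    omega
  · have key : (∃ x y : F, (x ≠ 0 ∨ y ≠ 0) ∧ x ^ 2 + α * y ^ 2 = 0) ↔ ¬ IsSquare (-1 : F) := by
      rw [← quadraticChar_neg_one_iff_not_isSquare]
      have hmul : quadraticChar F (-α) = quadraticChar F (-1) * quadraticChar F α := by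
        rw [← map_mul]; simp
      have hnα : -α ≠ 0 := neg_ne_zero.2 hα0
      constructor
      · rintro ⟨x, y, hxy, h⟩
        have hy : y ≠ 0 := by
          rintro rfl
          have hx : x = 0 := by simpa using h
          simp [hx] at hxy
        have hsq : IsSquare (-α) := by
          refine ⟨x / y, ?_⟩
          field_simp
          linear_combination -h
        have h1 := (quadraticChar_one_iff_isSquare hnα).2 hsq
        rw [hmul, hχα] at h1
        linarith
      · intro hneg
        have h1 : quadraticChar F (-α) = 1 := by rw [hmul, hχα, hneg]; norm_num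
        obtain ⟨r, hr⟩ := (quadraticChar_one_iff_isSquare hnα).1 h1
        refine ⟨r, 1, Or.inr one_ne_zero, ?_⟩
        linear_combination -hr
    rw [key, hm1]
    omega

end Cfsg.Agent.S0758
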