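import Cfsg.Statements.S0759
import Mathlib

set_option autoImplicit false
open Cfsg

namespace Cfsg.Agent.S0759

open Matrix

theorem lemmaA {F : Type*} [Field F] (h2 : (2 : F) ≠ 0) (m : ℕ)
    (W : Submodule F (Fin m ⊕ Fin m → F)) (hW : Module.finrank F W = m)
    (hQ : ∀ w ∈ W, ∑ i, w i ^ 2 = 0) : IsSquare ((-1 : F) ^ m) := by
  classical
  have hdot : ∀ w ∈ W, ∀ w' ∈ W, w ⬝ᵥ w' = 0 := by
    intro w hw w' hw'
    have h1 := hQ (w + w') (W.add_mem hw hw')
    have h3 : ∑ i, (w + w') i ^ 2 = ∑ i, w i ^ 2 + ∑ i, w' i ^ 2 + 2 * (w ⬝ᵥ w') := by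
      simp only [dotProduct, Pi.add_apply, Finset.mul_sum, ← Finset.sum_add_distrib]
      apply Finset.sum_congr rfl
      intro i _
      ring
    rw [h3, hQ w hw, hQ w' hw'] at h1
    simpa [h2] using h1
  let b := Module.finBasisOfFinrankEq F W hW
  obtain ⟨π, hπ⟩ := LinearMap.exists_leftInverse_of_injective W.subtype (Submodule.ker_subtype W)
  let φ : Fin m → ((Fin m ⊕ Fin m → F) →ₗ[F] F) := fun k => (b.coord k) ∘ₗ π
  let P : Matrix (Fin m ⊕ Fin m) (Fin m ⊕ Fin m) F :=
    Matrix.of fun i s =>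
      Sum.elim (fun j => (b j : Fin m ⊕ Fin m → F) i) (fun k => φ k (Pi.single i 1)) s
  let C : Matrix (Fin m) (Fin m) F :=
    Matrix.of fun j k => ∑ i, φ j (Pi.single i 1) * φ k (Pi.single i 1)
  have hφ : ∀ (k : Fin m) (v : Fin m ⊕ Fin m → F), ∑ i, v i * φ k (Pi.single i 1) = φ k v := by
    intro k v
    rw [LinearMap.pi_apply_eq_sum_univ (φ k) v]
    apply Finset.sum_congr rfl
    intro i _
    rw [smul_eq_mul]
    congr 2
    ext j
    simp [Pi.single_apply, eq_comm]
  have hφb : ∀ j k : Fin m, φ k (b j : Fin m ⊕ Fin m → F) = if j = k then 1 else 0 := by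
    intro j k
    have h1 : π (b j : Fin m ⊕ Fin m → F) = b j := LinearMap.congr_fun hπ (b j)
    show b.coord k (π (b j : Fin m ⊕ Fin m → F)) = _
    rw [h1, Module.Basis.coord_apply, Module.Basis.repr_self, Finsupp.single_apply]
  have hPP : Pᵀ * P = Matrix.fromBlocks 0 1 1 C := by
    ext (j | j) (k | k)
    · simp only [Matrix.mul_apply, Matrix.transpose_apply, P, Matrix.of_apply, Sum.elim_inl,
        Matrix.fromBlocks_apply₁₁, Matrix.zero_apply]
      exact hdot _ (b j).2 _ (b k).2
    · simp only [Matrix.mul_apply, Matrix.transpose_apply, P, Matrix.of_apply, Sum.elim_inl,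
        Sum.elim_inr, Matrix.fromBlocks_apply₁₂]
      rw [hφ, hφb, Matrix.one_apply]
    · simp only [Matrix.mul_apply, Matrix.transpose_apply, P, Matrix.of_apply, Sum.elim_inl,
        Sum.elim_inr, Matrix.fromBlocks_apply₂₁]
      simp_rw [mul_comm (φ j _)]
      rw [hφ, hφb, Matrix.one_apply]
      simp [eq_comm]
    · simp only [Matrix.mul_apply, Matrix.transpose_apply, P, Matrix.of_apply, Sum.elim_inr,
        Matrix.fromBlocks_apply₂₂, C]
  have hdet : (Matrix.fromBlocks (0 : Matrix (Fin m) (Fin m) F) 1 1 C).det = (-1) ^ m := by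
    have hE : Matrix.fromBlocks (1 : Matrix (Fin m) (Fin m) F) 1 0 1 * Matrix.fromBlocks 0 1 1 C =
        Matrix.fromBlocks 1 (1 + C) 1 C := by
      rw [Matrix.fromBlocks_multiply]
      simp
    have h1 := congrArg Matrix.det hE
    rw [Matrix.det_mul, Matrix.det_fromBlocks_zero₂₁, Matrix.det_one, one_mul, one_mul,
      Matrix.det_fromBlocks_one₁₁] at h1
    rw [h1]
    have h4 : C - 1 * (1 + C) = -1 := by
      rw [one_mul]
      abel
    rw [h4, Matrix.det_neg, Matrix.det_one, mul_one, Fintype.card_fin]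
  have h5 := congrArg Matrix.det hPP
  rw [Matrix.det_mul, Matrix.det_transpose, hdet] at h5
  exact ⟨P.det, h5.symm⟩

theorem lemmaB {F : Type*} [Field F] (m : ℕ) {ι : Type} [Fintype ι] [DecidableEq ι]
    (hι : Fintype.card ι = m) (e : ι ⊕ ι ≃ Fin (2 * m)) (A : Matrix ι ι F) (hA : Aᵀ * A = -1) :
    ∃ W : Submodule F (Fin (2 * m) → F), Module.finrank F W = m ∧ ∀ w ∈ W, ∑ i, w i ^ 2 = 0 := by
  let T : (ι → F) →ₗ[F] (Fin (2 * m) → F) :=
    { toFun := fun c i => Sum.elim c (A *ᵥ c) (e.symm i)
      map_add' := by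
        intro c c'
        ext i
        rcases h : e.symm i with j | j <;> simp [h, Matrix.mulVec_add]
      map_smul' := by
        intro r c
        ext i
        rcases h : e.symm i with j | j <;> simp [h, Matrix.mulVec_smul] }
  have hT : Function.Injective T := by
    intro c c' h
    ext j
    have := congrFun h (e (Sum.inl j))
    simpa [T] using this
  refine ⟨LinearMap.range T, ?_, ?_⟩
  · rw [LinearMap.finrank_range_of_inj hT, Module.finrank_fintype_fun_eq_card, hι]
  · rintro _ ⟨c, rfl⟩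
    have h1 : ∑ i, T c i ^ 2 = ∑ s : ι ⊕ ι, Sum.elim c (A *ᵥ c) s ^ 2 := by
      rw [← Equiv.sum_comp e]
      apply Finset.sum_congr rfl
      intro s _
      simp [T]
    rw [h1, Fintype.sum_sum_type]
    simp only [Sum.elim_inl, Sum.elim_inr]
    have h2 : ∑ j, (A *ᵥ c) j ^ 2 = (A *ᵥ c) ⬝ᵥ (A *ᵥ c) := by simp [dotProduct, sq]
    have h3 : (A *ᵥ c) ⬝ᵥ (A *ᵥ c) = c ⬝ᵥ ((Aᵀ * A) *ᵥ c) := by
      rw [← Matrix.mulVec_mulVec, Matrix.dotProduct_mulVec c Aᵀ (A *ᵥ c), Matrix.vecMul_transpose]
    rw [h2, h3, hA, Matrix.neg_mulVec, Matrix.one_mulVec, dotProduct_neg]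
    simp [dotProduct, sq]

/-- Type of the orthonormal form: over a finite field of odd order q and for m ≥ 1, the quadratic form Σ_(i<2m) x_i² on F^(2m) admits an m-dimensional subspace on which it vanishes identically if and only if it is not the case that q ≡ 3 (mod 4) and m is odd. -/
theorem result {F : Type*} [Field F] [Fintype F] (h2 : (2 : F) ≠ 0) (m : ℕ) (hm : 1 ≤ m) : (∃ W : Submodule F (Fin (2 * m) → F), Module.finrank F W = m ∧ ∀ w ∈ W, ∑ i, w i ^ 2 = 0) ↔ ¬ (Fintype.card F % 4 = 3 ∧ Odd m) := by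
  classical
  constructor
  · rintro ⟨W, hW, hQ⟩ ⟨h3, hodd⟩
    let e : Fin m ⊕ Fin m ≃ Fin (2 * m) := finSumFinEquiv.trans (finCongr (two_mul m).symm)
    have key := lemmaA h2 m (W.map (LinearEquiv.funCongrLeft F F e).toLinearMap)
      (by rw [LinearEquiv.finrank_map_eq, hW])
      (by
        rintro _ ⟨w, hw, rfl⟩
        have := hQ w hw
        rw [← this]
        exact Equiv.sum_comp e (fun i => w i ^ 2))
    rw [hodd.neg_one_pow, FiniteField.isSquare_neg_one_iff] at key
    exact key h3
  · intro h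
    by_cases h3 : Fintype.card F % 4 = 3
    · have hev : Even m := by
        rw [← Nat.not_odd_iff_even]
        exact fun ho => h ⟨h3, ho⟩
      obtain ⟨k, hk⟩ := hev
      obtain ⟨a, b, hab⟩ : ∃ a b : F, a * a + b * b = -1 := by
        have hR : Fintype.card F % 2 = 1 := by omega
        obtain ⟨a, b, hab⟩ := FiniteField.exists_root_sum_quadratic
          (f := (Polynomial.X : Polynomial F) ^ 2) (g := (Polynomial.X : Polynomial F) ^ 2 + Polynomial.C 1)
          (Polynomial.degree_X_pow 2) (Polynomial.degree_X_pow_add_C (by norm_num) 1) hR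
        refine ⟨a, b, ?_⟩
        simp only [Polynomial.eval_pow, Polynomial.eval_X, Polynomial.eval_add, Polynomial.eval_C] at hab
        linear_combination hab
      exact lemmaB m (ι := Fin k ⊕ Fin k) (by simp [hk])
        (Fintype.equivFinOfCardEq (by simp [hk]; omega))
        (Matrix.fromBlocks (a • 1) (-b • 1) (b • 1) (a • 1)) (by
          have h0 : (-1 : Matrix (Fin k ⊕ Fin k) (Fin k ⊕ Fin k) F) =
              Matrix.fromBlocks (-1) 0 0 (-1) := by
            rw [← Matrix.fromBlocks_one, Matrix.fromBlocks_neg]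
            simp
          rw [h0, Matrix.fromBlocks_transpose, Matrix.fromBlocks_multiply]
          simp only [Matrix.transpose_smul, Matrix.transpose_one,
            Matrix.mul_smul, Matrix.mul_one, smul_smul, ← add_smul, neg_smul,
            smul_neg, Matrix.mul_neg, Matrix.transpose_neg, neg_neg]
          congr 1
          · rw [hab, neg_smul, one_smul]
          · rw [mul_comm a b]
            abel
          · rw [mul_comm a b]
            abel
          · rw [add_comm, hab, neg_smul, one_smul])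
    · obtain ⟨i, hi⟩ := FiniteField.isSquare_neg_one_iff.2 h3
      exact lemmaB m (ι := Fin m) (by simp) (Fintype.equivFinOfCardEq (by simp; omega))
        (i • 1) (by
          rw [Matrix.transpose_smul, Matrix.transpose_one, Matrix.smul_mul, Matrix.one_mul,
            smul_smul, ← hi, neg_smul, one_smul])

end Cfsg.Agent.S0759
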