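import Cfsg.Statements.S0760

set_option autoImplicit false
open Cfsg

namespace Cfsg.Agent.S0760

open Module in
theorem aux {F V : Type*} [Field F] [AddCommGroup V] [Module F V] [FiniteDimensional F V]
    (Q : QuadraticForm F V) (hQ : (QuadraticMap.polarBilin Q).Nondegenerate)
    (W₁ W₂ : Submodule F V) (h₁ : ∀ w ∈ W₁, Q w = 0) (h₂ : ∀ w ∈ W₂, Q w = 0)
    (hmax₁ : ∀ W : Submodule F V, W₁ ≤ W → (∀ w ∈ W, Q w = 0) → W = W₁) :
    finrank F W₂ ≤ finrank F W₁ := by
  set B : LinearMap.BilinForm F V := QuadraticMap.polarBilin Q with hBdef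
  have hBapp : ∀ x y, B x y = QuadraticMap.polar Q x y := fun x y => rfl
  have hKle : W₂ ⊓ B.orthogonal W₁ ≤ W₁ ⊓ W₂ := by
    intro w hw
    obtain ⟨hw2, hwo⟩ := hw
    refine ⟨?_, hw2⟩
    have hts : ∀ u ∈ W₁ ⊔ Submodule.span F {w}, Q u = 0 := by
      intro u hu
      obtain ⟨a, ha, b, hb, rfl⟩ := Submodule.mem_sup.1 hu
      obtain ⟨c, rfl⟩ := Submodule.mem_span_singleton.1 hb
      rw [QuadraticMap.map_add (⇑Q) a (c • w), h₁ a ha, QuadraticMap.map_smul, h₂ w hw2,
        QuadraticMap.polar_smul_right]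
      have : QuadraticMap.polar Q a w = 0 := hwo a ha
      simp [this]
    have := hmax₁ _ le_sup_left hts
    rw [← this]
    exact Submodule.mem_sup_right (Submodule.mem_span_singleton_self w)
  have hsup : W₂ ⊔ B.orthogonal W₁ ≤ B.orthogonal (W₁ ⊓ W₂) := by
    refine sup_le ?_ (LinearMap.BilinForm.orthogonal_le inf_le_left)
    intro w hw d hd
    change B d w = 0
    rw [hBapp, QuadraticMap.polar, h₂ _ (W₂.add_mem hd.2 hw), h₂ _ hd.2, h₂ _ hw]
    simp
  have e1 := Submodule.finrank_sup_add_finrank_inf_eq W₂ (B.orthogonal W₁)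
  have e2 := LinearMap.BilinForm.finrank_orthogonal hQ W₁
  have e3 := LinearMap.BilinForm.finrank_orthogonal hQ (W₁ ⊓ W₂)
  have e4 := Submodule.finrank_mono hKle
  have e5 := Submodule.finrank_mono hsup
  have e6 := Submodule.finrank_le W₁
  have e7 := Submodule.finrank_le (W₁ ⊓ W₂)
  omega

/-- Witt index is well defined: if Q is a quadratic form on a finite-dimensional space V over a finite field with non-degenerate polar form, and W₁, W₂ are subspaces on which Q vanishes that are maximal with this property, then W₁ and W₂ have the same dimension, and twice this dimension is at most dim V. -/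
theorem result {F V : Type*} [Field F] [Finite F] [AddCommGroup V] [Module F V] [FiniteDimensional F V] (Q : QuadraticForm F V) (hQ : (QuadraticMap.polarBilin Q).Nondegenerate) (W₁ W₂ : Submodule F V) (h₁ : ∀ w ∈ W₁, Q w = 0) (h₂ : ∀ w ∈ W₂, Q w = 0) (hmax₁ : ∀ W : Submodule F V, W₁ ≤ W → (∀ w ∈ W, Q w = 0) → W = W₁) (hmax₂ : ∀ W : Submodule F V, W₂ ≤ W → (∀ w ∈ W, Q w = 0) → W = W₂) : Module.finrank F W₁ = Module.finrank F W₂ ∧ 2 * Module.finrank F W₁ ≤ Module.finrank F V := by
  refine ⟨le_antisymm (aux Q hQ W₂ W₁ h₂ h₁ hmax₂) (aux Q hQ W₁ W₂ h₁ h₂ hmax₁), ?_⟩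
  have hle : W₁ ≤ LinearMap.BilinForm.orthogonal (QuadraticMap.polarBilin Q) W₁ := by
    intro w hw d hd
    change QuadraticMap.polarBilin Q d w = 0
    change QuadraticMap.polar Q d w = 0
    rw [QuadraticMap.polar, h₁ _ (W₁.add_mem hd hw), h₁ _ hd, h₁ _ hw]
    simp
  have e2 := LinearMap.BilinForm.finrank_orthogonal hQ W₁
  have e4 := Submodule.finrank_mono hle
  have e6 := Submodule.finrank_le W₁
  omega

end Cfsg.Agent.S0760
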