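import Cfsg.Statements.S0761

set_option autoImplicit false
open Cfsg

namespace Cfsg.Agent.S0761

/-- Hyperbolic partners: let B be a non-degenerate bilinear form on a finite-dimensional space, either alternating, or symmetric with 2 ≠ 0. If Z is a subspace on which B vanishes, x ∉ Z is isotropic and orthogonal to Z, then there is an isotropic y with B x y = 1 which is orthogonal to Z. -/
theorem result {F V : Type*} [Field F] [AddCommGroup V] [Module F V] [FiniteDimensional F V] (B : LinearMap.BilinForm F V) (hB : B.Nondegenerate) (hform : B.IsAlt ∨ (B.IsSymm ∧ (2 : F) ≠ 0)) (x : V) (Z : Submodule F V) (hxZ : x ∉ Z) (hx : B x x = 0) (hxz : ∀ z ∈ Z, B x z = 0) (hZ : ∀ z ∈ Z, ∀ z' ∈ Z, B z z' = 0) : ∃ y : V, B y y = 0 ∧ B x y = 1 ∧ ∀ z ∈ Z, B z y = 0 := by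
  have hrefl : B.IsRefl := by
    rcases hform with h | h
    · exact h.isRefl
    · exact h.1.isRefl
  have hperp := LinearMap.BilinForm.orthogonal_orthogonal hB hrefl Z
  have hex : ∃ w ∈ B.orthogonal Z, B w x ≠ 0 := by
    by_contra hcon
    apply hxZ
    rw [← hperp]
    intro w hw
    by_contra h0
    exact hcon ⟨w, hw, h0⟩
  obtain ⟨w, hw, hwx⟩ := hex
  have hxw : B x w ≠ 0 := fun h0 => hwx (hrefl x w h0)
  have hw' : ∀ z ∈ Z, B z w = 0 := fun z hz => hw z hz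
  have hy₀ : B x ((B x w)⁻¹ • w) = 1 := by
    rw [map_smul, smul_eq_mul, inv_mul_cancel₀ hxw]
  have hy₀Z : ∀ z ∈ Z, B z ((B x w)⁻¹ • w) = 0 := by
    intro z hz
    rw [map_smul, hw' z hz, smul_zero]
  obtain ⟨y₀, hy₀, hy₀Z⟩ : ∃ y₀, B x y₀ = 1 ∧ ∀ z ∈ Z, B z y₀ = 0 := ⟨_, hy₀, hy₀Z⟩
  rcases hform with h | ⟨hS, h2⟩
  · exact ⟨y₀, h y₀, hy₀, hy₀Z⟩
  · refine ⟨y₀ - (B y₀ y₀ / 2) • x, ?_, ?_, ?_⟩
    · have e : B y₀ x = 1 := by rw [hS.eq, hy₀]
      simp only [map_sub, map_smul, LinearMap.sub_apply, LinearMap.smul_apply, smul_eq_mul, hx,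
        hy₀, e]
      field_simp
      ring
    · rw [map_sub, map_smul, hx, hy₀]
      simp
    · intro z hz
      have e : B z x = 0 := hrefl x z (hxz z hz)
      rw [map_sub, map_smul, hy₀Z z hz, e]
      simp

end Cfsg.Agent.S0761
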