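import Cfsg.Statements.S0762

set_option autoImplicit false
open Cfsg

namespace Cfsg.Agent.S0762

theorem adjust {F V : Type*} [Field F] [Finite F] [CharP F 2] [AddCommGroup V] [Module F V]
    (Q : QuadraticForm F V) (r t : V) (hr : QuadraticMap.polar Q t r = 0) (hQr : Q r ≠ 0) :
    ∃ s : F, Q (t + s • r) = 0 := by
  obtain ⟨s, hs⟩ := FiniteField.isSquare_of_char_two (F := F)
    ((ringChar.eq_iff).2 (inferInstance : CharP F 2)) (Q t / Q r)
  refine ⟨s, ?_⟩
  rw [QuadraticMap.map_add (⇑Q) t (s • r), QuadraticMap.map_smul, QuadraticMap.polar_smul_right,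
    hr, ← hs]
  simp only [smul_eq_mul, mul_zero, add_zero]
  rw [div_mul_cancel₀ _ hQr]
  exact CharTwo.add_self_eq_zero _

/-- In characteristic two over a finite field, a quadratic form on a space of dimension at least 3 vanishes on some non-zero vector. -/
theorem result {F V : Type*} [Field F] [Finite F] [CharP F 2] [AddCommGroup V] [Module F V] [FiniteDimensional F V] (Q : QuadraticForm F V) (h3 : 3 ≤ Module.finrank F V) : ∃ v : V, v ≠ 0 ∧ Q v = 0 := by
  obtain ⟨f, hf⟩ := exists_linearIndependent_of_le_finrank h3
  rw [Fintype.linearIndependent_iff] at hf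
  have hLI : ∀ x y z : F, x • f 0 + y • f 1 + z • f 2 = 0 → x = 0 ∧ y = 0 ∧ z = 0 := by
    intro x y z h
    have := hf ![x, y, z] (by simpa [Fin.sum_univ_three] using h)
    exact ⟨this 0, this 1, this 2⟩
  have hvv : ∀ u : V, QuadraticMap.polar Q u u = 0 := by
    intro u
    rw [QuadraticMap.polar_self, two_nsmul, CharTwo.add_self_eq_zero]
  set u := f 0 with hu
  set v := f 1 with hv
  set w := f 2 with hw
  set a := QuadraticMap.polar Q v w with ha
  set b := QuadraticMap.polar Q w u with hb
  set c := QuadraticMap.polar Q u v with hc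
  have ha' : QuadraticMap.polar Q w v = a := QuadraticMap.polar_comm _ _ _
  have hb' : QuadraticMap.polar Q u w = b := QuadraticMap.polar_comm _ _ _
  have hc' : QuadraticMap.polar Q v u = c := QuadraticMap.polar_comm _ _ _
  by_cases hall : a = 0 ∧ b = 0 ∧ c = 0
  · have hu0 : u ≠ 0 := by
      intro h0
      have := hLI 1 0 0 (by simp [h0])
      exact one_ne_zero this.1
    by_cases hQu : Q u = 0
    · exact ⟨u, hu0, hQu⟩
    · obtain ⟨s, hs⟩ := adjust Q u v (by rw [hc']; exact hall.2.2) hQu
      refine ⟨v + s • u, ?_, hs⟩
      intro h0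
      have := hLI s 1 0 (by rw [zero_smul, add_zero, one_smul, add_comm]; exact h0)
      exact one_ne_zero this.2.1
  · set r := a • u + b • v + c • w with hr
    have hr0 : r ≠ 0 := by
      intro h0
      exact hall (hLI a b c h0)
    by_cases hQr : Q r = 0
    · exact ⟨r, hr0, hQr⟩
    · have hur : QuadraticMap.polar Q u r = 0 := by
        rw [hr, QuadraticMap.polar_add_right, QuadraticMap.polar_add_right,
          QuadraticMap.polar_smul_right, QuadraticMap.polar_smul_right,
          QuadraticMap.polar_smul_right, hvv, hb', ← hc]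
        simp only [smul_eq_mul, mul_zero, zero_add]
        rw [mul_comm c b]
        exact CharTwo.add_self_eq_zero _
      have hvr : QuadraticMap.polar Q v r = 0 := by
        rw [hr, QuadraticMap.polar_add_right, QuadraticMap.polar_add_right,
          QuadraticMap.polar_smul_right, QuadraticMap.polar_smul_right,
          QuadraticMap.polar_smul_right, hvv, hc', ← ha]
        simp only [smul_eq_mul, mul_zero, add_zero]
        rw [mul_comm c a]
        exact CharTwo.add_self_eq_zero _
      by_cases hbc : b = 0 ∧ c = 0
      · obtain ⟨s, hs⟩ := adjust Q r v hvr hQr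
        refine ⟨v + s • r, ?_, hs⟩
        intro h0
        have := hLI (s * a) 1 0 (by
          rw [← h0, hr, hbc.1, hbc.2]
          simp only [zero_smul, add_zero, one_smul, mul_smul]
          abel)
        exact one_ne_zero this.2.1
      · obtain ⟨s, hs⟩ := adjust Q r u hur hQr
        refine ⟨u + s • r, ?_, hs⟩
        intro h0
        have := hLI (1 + s * a) (s * b) (s * c) (by
          rw [← h0, hr]
          simp only [smul_add, add_smul, one_smul, mul_smul]
          abel)
        obtain ⟨h1, h2', h3'⟩ := this
        by_cases hs0 : s = 0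
        · rw [hs0, zero_mul, add_zero] at h1
          exact one_ne_zero h1
        · apply hbc
          exact ⟨(mul_eq_zero.1 h2').resolve_left hs0, (mul_eq_zero.1 h3').resolve_left hs0⟩

end Cfsg.Agent.S0762
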