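import Cfsg.Statements.S0763

set_option autoImplicit false
open Cfsg

namespace Cfsg.Agent.S0763

theorem li_of_polar {F V : Type*} [Field F] [CharP F 2] [AddCommGroup V] [Module F V]
    (Q : QuadraticForm F V) (v w : V) (h : QuadraticMap.polar Q v w = 1) :
    LinearIndependent F ![v, w] := by
  have hvv : ∀ u : V, QuadraticMap.polar Q u u = 0 := by
    intro u
    rw [QuadraticMap.polar_self, two_nsmul, CharTwo.add_self_eq_zero]
  rw [LinearIndependent.pair_iff]
  intro s t hst
  have e1 : QuadraticMap.polar Q v (s • v + t • w) = 0 := by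
    rw [hst]; simp [QuadraticMap.polar]
  have e2 : QuadraticMap.polar Q (s • v + t • w) w = 0 := by
    rw [hst]; simp [QuadraticMap.polar]
  rw [QuadraticMap.polar_add_right, QuadraticMap.polar_smul_right, QuadraticMap.polar_smul_right,
    hvv, h] at e1
  rw [QuadraticMap.polar_add_left, QuadraticMap.polar_smul_left, QuadraticMap.polar_smul_left,
    hvv, h] at e2
  simp only [smul_eq_mul, mul_zero, mul_one, zero_add, add_zero] at e1 e2
  exact ⟨e2, e1⟩

/-- Binary quadratic forms in characteristic two over a finite field: if Q is a quadratic form on a 2-dimensional space whose polar form is non-degenerate, then either there are vectors v, w with Q v = Q w = 0 and polar value 1 (Q is xy in these coordinates), or there are v, w and μ with Q v = 1, Q w = μ, polar value 1 and x² + x + μ without roots in F (Q is x² + xy + μy²). -/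
theorem result {F V : Type*} [Field F] [Finite F] [CharP F 2] [AddCommGroup V] [Module F V] (Q : QuadraticForm F V) (h2 : Module.finrank F V = 2) (hQ : (QuadraticMap.polarBilin Q).Nondegenerate) : (∃ v w : V, LinearIndependent F ![v, w] ∧ Q v = 0 ∧ Q w = 0 ∧ QuadraticMap.polar Q v w = 1) ∨ (∃ (v w : V) (μ : F), LinearIndependent F ![v, w] ∧ (∀ x : F, x ^ 2 + x + μ ≠ 0) ∧ Q v = 1 ∧ Q w = μ ∧ QuadraticMap.polar Q v w = 1) := by
  have hfin : Module.Finite F V := Module.finite_of_finrank_pos (by omega)
  have hvv : ∀ u : V, QuadraticMap.polar Q u u = 0 := by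
    intro u
    rw [QuadraticMap.polar_self, two_nsmul, CharTwo.add_self_eq_zero]
  -- partner with polar value one
  have hpart : ∀ v : V, v ≠ 0 → ∃ w : V, QuadraticMap.polar Q v w = 1 := by
    intro v hv
    have : ∃ w₀ : V, QuadraticMap.polar Q v w₀ ≠ 0 := by
      by_contra hcon
      apply hv
      apply hQ.1 v
      intro y
      by_contra hy
      exact hcon ⟨y, hy⟩
    obtain ⟨w₀, hw₀⟩ := this
    refine ⟨(QuadraticMap.polar Q v w₀)⁻¹ • w₀, ?_⟩
    rw [QuadraticMap.polar_smul_right, smul_eq_mul, inv_mul_cancel₀ hw₀]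
  by_cases hiso : ∃ v : V, v ≠ 0 ∧ Q v = 0
  · left
    obtain ⟨v, hv, hQv⟩ := hiso
    obtain ⟨w₁, hw₁⟩ := hpart v hv
    have hw₁' : QuadraticMap.polar Q w₁ v = 1 := by rw [QuadraticMap.polar_comm]; exact hw₁
    refine ⟨v, w₁ + Q w₁ • v, ?_, hQv, ?_, ?_⟩
    · apply li_of_polar Q
      rw [QuadraticMap.polar_add_right, QuadraticMap.polar_smul_right, hvv, hw₁]
      simp
    · rw [QuadraticMap.map_add (⇑Q) w₁ (Q w₁ • v), QuadraticMap.map_smul, hQv,
        QuadraticMap.polar_smul_right, hw₁']
      simp only [smul_eq_mul, mul_zero, add_zero, mul_one]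
      exact CharTwo.add_self_eq_zero _
    · rw [QuadraticMap.polar_add_right, QuadraticMap.polar_smul_right, hvv, hw₁]
      simp
  · right
    have haniso : ∀ v : V, v ≠ 0 → Q v ≠ 0 := fun v hv hq => hiso ⟨v, hv, hq⟩
    obtain ⟨v₀, hv₀⟩ := (Module.finrank_pos_iff_exists_ne_zero (R := F) (M := V)).1 (by omega)
    have ha := haniso v₀ hv₀
    obtain ⟨c, hc⟩ := FiniteField.isSquare_of_char_two (F := F)
      ((ringChar.eq_iff).2 (inferInstance : CharP F 2)) (Q v₀)
    have hc0 : c ≠ 0 := by
      rintro rfl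
      apply ha
      simpa using hc
    have hv : c⁻¹ • v₀ ≠ 0 := smul_ne_zero (inv_ne_zero hc0) hv₀
    have hQv : Q (c⁻¹ • v₀) = 1 := by
      rw [QuadraticMap.map_smul, hc, smul_eq_mul]
      field_simp
    obtain ⟨w, hw⟩ := hpart _ hv
    have hli := li_of_polar Q _ w hw
    refine ⟨c⁻¹ • v₀, w, Q w, hli, ?_, hQv, rfl, hw⟩
    intro x hx
    have hne : x • (c⁻¹ • v₀) + w ≠ 0 := by
      intro h0
      have := (LinearIndependent.pair_iff.1 hli) x 1 (by simpa using h0)
      exact one_ne_zero this.2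
    apply haniso _ hne
    rw [QuadraticMap.map_add (⇑Q) (x • (c⁻¹ • v₀)) w, QuadraticMap.map_smul, hQv,
      QuadraticMap.polar_smul_left, hw]
    simp only [smul_eq_mul, mul_one]
    rw [← hx]
    ring

end Cfsg.Agent.S0763
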