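import Cfsg.Statements.S0764
import Cfsg.Agent.Lib.Helper13.SympMat

set_option autoImplicit false
open Cfsg

namespace Cfsg.Agent.S0764

open Cfsg.Agent.Lib.Helper13 in
theorem result {F : Type*} [Field F] (m : ℕ) (v : Fin m ⊕ Fin m → F) (c : F) : Cfsg.sympTransvection m v c ∈ Matrix.symplecticGroup (Fin m) F := by
  exact SympMat.transvection_mem m v c

end Cfsg.Agent.S0764
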