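import Cfsg.Statements.S0768
import Mathlib
import Cfsg.Agent.S0734
import Cfsg.Agent.Lib.Helper13.SympMat

set_option autoImplicit false
open Cfsg

namespace Cfsg.Agent.S0768

open scoped LinearAlgebra.Projectivization
open Matrix Cfsg.Agent.Lib.Helper13

theorem lift {F : Type*} [Field F] (m : ℕ)
    (t : (Fin m ⊕ Fin m → F) ≃ₗ[F] (Fin m ⊕ Fin m → F))
    (ht : t ∈ Symp.T (SympMat.form m F) (SympMat.form_alt m)) :
    ∃ g : Cfsg.spGL m F, ∀ v, (g.1 : Matrix (Fin m ⊕ Fin m) (Fin m ⊕ Fin m) F) *ᵥ v = t v := by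
  rw [SympMat.T_eq] at ht
  obtain ⟨A, -, rfl⟩ := ht
  have h1 : (A : Matrix (Fin m ⊕ Fin m) (Fin m ⊕ Fin m) F) *
      ((A⁻¹ : Matrix.symplecticGroup (Fin m) F) : Matrix (Fin m ⊕ Fin m) (Fin m ⊕ Fin m) F) = 1 := by
    rw [← Submonoid.coe_mul, mul_inv_cancel, Submonoid.coe_one]
  have h2 : ((A⁻¹ : Matrix.symplecticGroup (Fin m) F) : Matrix (Fin m ⊕ Fin m) (Fin m ⊕ Fin m) F) *
      (A : Matrix (Fin m ⊕ Fin m) (Fin m ⊕ Fin m) F) = 1 := by
    rw [← Submonoid.coe_mul, inv_mul_cancel, Submonoid.coe_one]
  refine ⟨⟨⟨A.1, (A⁻¹).1, h1, h2⟩, ?_⟩, ?_⟩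
  · intro u v
    show Cfsg.sympForm m F (A.1 *ᵥ u) (A.1 *ᵥ v) = Cfsg.sympForm m F u v
    rw [← SympMat.form_apply, ← SympMat.form_apply]
    exact (SympMat.mem_symp_iff m _).1 A.2 u v
  · intro v
    rw [SympMat.Φ_apply]

theorem trans2 {F : Type*} [Field F] [Finite F] (m : ℕ) (u v u' v' : Fin m ⊕ Fin m → F)
    (hu : u ≠ 0) (hu' : u' ≠ 0) (hv : v ∉ Submodule.span F {u}) (hv' : v' ∉ Submodule.span F {u'})
    (h : SympMat.form m F u v = SympMat.form m F u' v') :
    ∃ g : Cfsg.spGL m F, (g.1 : Matrix (Fin m ⊕ Fin m) (Fin m ⊕ Fin m) F) *ᵥ u = u' ∧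
      (g.1 : Matrix (Fin m ⊕ Fin m) (Fin m ⊕ Fin m) F) *ᵥ v = v' := by
  have hA := SympMat.form_alt m (F := F)
  obtain ⟨t₁, ht₁, -, h1⟩ := Symp.step2 (SympMat.form m F) (SympMat.form_nondeg m) hA ⊥ u u'
    (by simpa using hu) (by simpa using hu')
    (by
      intro z hz
      rw [Submodule.mem_bot] at hz
      rw [hz]
      simp)
  have hiso := Symp.T_isometry (SympMat.form m F) hA ht₁
  have hx : t₁ v ∉ Submodule.span F {u'} := by
    intro hmem
    obtain ⟨k, hk⟩ := Submodule.mem_span_singleton.1 hmem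
    apply hv
    rw [Submodule.mem_span_singleton]
    refine ⟨k, ?_⟩
    apply t₁.injective
    rw [map_smul, h1, hk]
  obtain ⟨t₂, ht₂, hfix, h2⟩ := Symp.step2 (SympMat.form m F) (SympMat.form_nondeg m) hA
    (Submodule.span F {u'}) (t₁ v) v' hx hv'
    (by
      intro z hz
      obtain ⟨k, rfl⟩ := Submodule.mem_span_singleton.1 hz
      have e := hiso u v
      rw [h1] at e
      rw [map_smul, LinearMap.smul_apply, map_sub, e, h]
      simp)
  obtain ⟨g, hg⟩ := lift m (t₂ * t₁) (mul_mem ht₂ ht₁)
  refine ⟨g, ?_, ?_⟩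
  · rw [hg, LinearEquiv.mul_apply, h1]
    exact hfix u' (Submodule.mem_span_singleton_self u')
  · rw [hg, LinearEquiv.mul_apply, h2]

theorem smul_mk' {F : Type*} [Field F] (m : ℕ) (g : Cfsg.spGL m F) (v w : Fin m ⊕ Fin m → F)
    (hv : v ≠ 0) (hw : w ≠ 0)
    (h : (g.1 : Matrix (Fin m ⊕ Fin m) (Fin m ⊕ Fin m) F) *ᵥ v = w) :
    g • Projectivization.mk F v hv = Projectivization.mk F w hw := by
  subst h
  rfl

theorem iso {F : Type*} [Field F] (m : ℕ) (g : Cfsg.spGL m F) (u v : Fin m ⊕ Fin m → F) :
    SympMat.form m F ((g.1 : Matrix (Fin m ⊕ Fin m) (Fin m ⊕ Fin m) F) *ᵥ u)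
      ((g.1 : Matrix (Fin m ⊕ Fin m) (Fin m ⊕ Fin m) F) *ᵥ v) = SympMat.form m F u v := by
  rw [SympMat.form_apply, SympMat.form_apply]
  exact g.2 u v

theorem exists_ne {F : Type*} [Field F] (m : ℕ) (x : Fin m ⊕ Fin m → F) (hx : x ≠ 0) :
    ∃ z, SympMat.form m F x z ≠ 0 := by
  by_contra hcon
  push Not at hcon
  exact hx ((SympMat.form_nondeg m (F := F)).1 x hcon)

/-- Primitivity: for m ≥ 1 and F finite, the symplectic group of the form sympForm (as a subgroup of the general linear group) acts primitively on the projective space of F^(2m). -/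
theorem result {F : Type*} [Field F] [Finite F] (m : ℕ) (hm : 1 ≤ m) : MulAction.IsPreprimitive ↥(Cfsg.spGL m F) (ℙ F (Fin m ⊕ Fin m → F)) := by
  classical
  have hA := SympMat.form_alt m (F := F)
  have hneg : ∀ x y : Fin m ⊕ Fin m → F, SympMat.form m F y x = - SympMat.form m F x y :=
    fun x y => (hA.neg_eq x y).symm
  haveI : Finite (ℙ F (Fin m ⊕ Fin m → F)) := inferInstance
  haveI : MulAction.IsPretransitive ↥(Cfsg.spGL m F) (ℙ F (Fin m ⊕ Fin m → F)) := by
    constructor
    intro x y
    induction x using Projectivization.ind with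
    | h u hu =>
    induction y using Projectivization.ind with
    | h u' hu' =>
    obtain ⟨z, hz⟩ := exists_ne m u hu
    obtain ⟨z', hz'⟩ := exists_ne m u' hu'
    obtain ⟨g, hg, -⟩ := trans2 m u z u' ((SympMat.form m F u z / SympMat.form m F u' z') • z') hu hu'
      (by
        intro hmem
        obtain ⟨k, rfl⟩ := Submodule.mem_span_singleton.1 hmem
        rw [map_smul, hA u] at hz
        simp at hz)
      (by
        intro hmem
        obtain ⟨k, hk⟩ := Submodule.mem_span_singleton.1 hmem
        have := congrArg (SympMat.form m F u') hk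
        rw [map_smul, map_smul, hA u'] at this
        rw [smul_zero, smul_eq_mul, div_mul_cancel₀ _ hz'] at this
        exact hz this.symm)
      (by
        rw [map_smul, smul_eq_mul, div_mul_cancel₀ _ hz'])
    exact ⟨g, smul_mk' m g u u' hu hu' hg⟩
  haveI : Nontrivial (ℙ F (Fin m ⊕ Fin m → F)) := by
    have h1 : (Pi.single (Sum.inl (⟨0, hm⟩ : Fin m)) (1 : F) : Fin m ⊕ Fin m → F) ≠ 0 := by
      intro h
      have := congrFun h (Sum.inl (⟨0, hm⟩ : Fin m))
      simp at this
    have h2 : (Pi.single (Sum.inr (⟨0, hm⟩ : Fin m)) (1 : F) : Fin m ⊕ Fin m → F) ≠ 0 := by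
      intro h
      have := congrFun h (Sum.inr (⟨0, hm⟩ : Fin m))
      simp at this
    refine ⟨⟨Projectivization.mk F _ h1, Projectivization.mk F _ h2, ?_⟩⟩
    intro h
    rw [Projectivization.mk_eq_mk_iff'] at h
    obtain ⟨a, ha⟩ := h
    have := congrFun ha (Sum.inl (⟨0, hm⟩ : Fin m))
    simp at this
  rw [Cfsg.Agent.S0734.result]
  intro a b hab
  induction a using Projectivization.ind with
  | h u hu =>
  induction b using Projectivization.ind with
  | h v hv =>
  have hvu : v ∉ Submodule.span F {u} := by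
    intro hmem
    obtain ⟨k, hk⟩ := Submodule.mem_span_singleton.1 hmem
    apply hab
    rw [Projectivization.mk_eq_mk_iff']
    by_cases hk0 : k = 0
    · rw [hk0, zero_smul] at hk
      exact absurd hk.symm hv
    · exact ⟨k⁻¹, by rw [← hk, smul_smul, inv_mul_cancel₀ hk0, one_smul]⟩
  rw [SimpleGraph.connected_iff]
  refine ⟨?_, ⟨Projectivization.mk F u hu⟩⟩
  by_cases huv : SympMat.form m F u v = 0
  · -- orthogonal case
    have hadj : ∀ (x y : Fin m ⊕ Fin m → F) (hx : x ≠ 0) (hy : y ≠ 0),
        Projectivization.mk F x hx ≠ Projectivization.mk F y hy → SympMat.form m F x y = 0 →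
        (SimpleGraph.fromRel fun x y : ℙ F (Fin m ⊕ Fin m → F) =>
          ∃ g : ↥(Cfsg.spGL m F), g • Projectivization.mk F u hu = x ∧
            g • Projectivization.mk F v hv = y).Adj
          (Projectivization.mk F x hx) (Projectivization.mk F y hy) := by
      intro x y hx hy hne hxy
      rw [SimpleGraph.fromRel_adj]
      refine ⟨hne, Or.inl ?_⟩
      have hyx : y ∉ Submodule.span F {x} := by
        intro hmem
        obtain ⟨k, hk⟩ := Submodule.mem_span_singleton.1 hmem
        apply hne
        rw [Projectivization.mk_eq_mk_iff']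
        by_cases hk0 : k = 0
        · rw [hk0, zero_smul] at hk
          exact absurd hk.symm hy
        · exact ⟨k⁻¹, by rw [← hk, smul_smul, inv_mul_cancel₀ hk0, one_smul]⟩
      obtain ⟨g, hg1, hg2⟩ := trans2 m u v x y hu hx hvu hyx (by rw [huv, hxy])
      exact ⟨g, smul_mk' m g u x hu hx hg1, smul_mk' m g v y hv hy hg2⟩
    -- a nonzero vector orthogonal to a hyperbolic pair
    obtain ⟨w0, hw0⟩ := exists_ne m u hu
    have hkey : ∀ (x y : Fin m ⊕ Fin m → F), SympMat.form m F x y ≠ 0 →
        ∃ z, z ≠ 0 ∧ SympMat.form m F x z = 0 ∧ SympMat.form m F z y = 0 := by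
      intro x y hxy
      have hx : x ≠ 0 := by
        rintro rfl
        simp at hxy
      obtain ⟨g, hg1, hg2⟩ := trans2 m u w0 x ((SympMat.form m F u w0 / SympMat.form m F x y) • y)
        hu hx
        (by
          intro hmem
          obtain ⟨k, rfl⟩ := Submodule.mem_span_singleton.1 hmem
          rw [map_smul, hA u] at hw0
          simp at hw0)
        (by
          intro hmem
          obtain ⟨k, hk⟩ := Submodule.mem_span_singleton.1 hmem
          have := congrArg (SympMat.form m F x) hk
          rw [map_smul, map_smul, hA x] at this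
          rw [smul_zero, smul_eq_mul, div_mul_cancel₀ _ hxy] at this
          exact hw0 this.symm)
        (by rw [map_smul, smul_eq_mul, div_mul_cancel₀ _ hxy])
      set v' := v + (SympMat.form m F w0 v / SympMat.form m F u w0) • u with hv'
      have hv'0 : v' ≠ 0 := by
        intro h0
        apply hvu
        rw [Submodule.mem_span_singleton]
        refine ⟨-(SympMat.form m F w0 v / SympMat.form m F u w0), ?_⟩
        rw [hv'] at h0
        rw [neg_smul]
        exact (eq_neg_of_add_eq_zero_left h0).symm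
      have e1 : SympMat.form m F u v' = 0 := by
        rw [hv', map_add, map_smul, huv, hA u]
        simp
      have e2 : SympMat.form m F v' w0 = 0 := by
        rw [hv', map_add, map_smul, LinearMap.add_apply, LinearMap.smul_apply, hneg w0 v,
          smul_eq_mul, div_mul_cancel₀ _ hw0]
        ring
      refine ⟨(g.1 : Matrix (Fin m ⊕ Fin m) (Fin m ⊕ Fin m) F) *ᵥ v', ?_, ?_, ?_⟩
      · intro h0
        apply hv'0
        have := congrArg (fun w => ((g⁻¹ : ↥(Cfsg.spGL m F)).1 :
          Matrix (Fin m ⊕ Fin m) (Fin m ⊕ Fin m) F) *ᵥ w) h0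
        simpa using this
      · rw [← hg1, iso, e1]
      · have h3 := iso m g v' w0
        rw [hg2, e2, map_smul, smul_eq_mul] at h3
        rcases mul_eq_zero.1 h3 with h4 | h4
        · exfalso
          rw [div_eq_zero_iff] at h4
          rcases h4 with h4 | h4
          · exact hw0 h4
          · exact hxy h4
        · exact h4
    intro p q
    induction p using Projectivization.ind with
    | h x hx =>
    induction q using Projectivization.ind with
    | h y hy =>
    by_cases hpq : Projectivization.mk F x hx = Projectivization.mk F y hy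
    · rw [hpq]
    by_cases hxy : SympMat.form m F x y = 0
    · exact (hadj x y hx hy hpq hxy).reachable
    · obtain ⟨z, hz0, hz1, hz2⟩ := hkey x y hxy
      have hxz : Projectivization.mk F x hx ≠ Projectivization.mk F z hz0 := by
        intro h
        rw [Projectivization.mk_eq_mk_iff'] at h
        obtain ⟨a, ha⟩ := h
        apply hxy
        rw [← ha, map_smul, LinearMap.smul_apply, hz2, smul_zero]
      have hzy : Projectivization.mk F z hz0 ≠ Projectivization.mk F y hy := by
        intro h
        rw [Projectivization.mk_eq_mk_iff'] at h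
        obtain ⟨a, ha⟩ := h
        rw [← ha, map_smul, smul_eq_mul] at hz1
        rcases mul_eq_zero.1 hz1 with h4 | h4
        · rw [h4, zero_smul] at ha
          exact hz0 ha.symm
        · exact hxy h4
      exact (hadj x z hx hz0 hxz hz1).reachable.trans (hadj z y hz0 hy hzy hz2).reachable
  · -- non-orthogonal case
    have hadj : ∀ (x y : Fin m ⊕ Fin m → F) (hx : x ≠ 0) (hy : y ≠ 0),
        SympMat.form m F x y ≠ 0 →
        (SimpleGraph.fromRel fun x y : ℙ F (Fin m ⊕ Fin m → F) =>
          ∃ g : ↥(Cfsg.spGL m F), g • Projectivization.mk F u hu = x ∧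
            g • Projectivization.mk F v hv = y).Adj
          (Projectivization.mk F x hx) (Projectivization.mk F y hy) := by
      intro x y hx hy hxy
      rw [SimpleGraph.fromRel_adj]
      refine ⟨?_, Or.inl ?_⟩
      · intro h
        rw [Projectivization.mk_eq_mk_iff'] at h
        obtain ⟨a, ha⟩ := h
        apply hxy
        rw [← ha, map_smul, LinearMap.smul_apply, hA y, smul_zero]
      have hc : SympMat.form m F u v / SympMat.form m F x y ≠ 0 := div_ne_zero huv hxy
      have hcy : (SympMat.form m F u v / SympMat.form m F x y) • y ≠ 0 := smul_ne_zero hc hy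
      obtain ⟨g, hg1, hg2⟩ := trans2 m u v x ((SympMat.form m F u v / SympMat.form m F x y) • y)
        hu hx hvu
        (by
          intro hmem
          obtain ⟨k, hk⟩ := Submodule.mem_span_singleton.1 hmem
          have := congrArg (SympMat.form m F x) hk
          rw [map_smul, map_smul, hA x] at this
          rw [smul_zero, smul_eq_mul, div_mul_cancel₀ _ hxy] at this
          exact huv this.symm)
        (by rw [map_smul, smul_eq_mul, div_mul_cancel₀ _ hxy])
      refine ⟨g, smul_mk' m g u x hu hx hg1, ?_⟩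
      rw [smul_mk' m g v _ hv hcy hg2, Projectivization.mk_eq_mk_iff']
      exact ⟨_, rfl⟩
    intro p q
    induction p using Projectivization.ind with
    | h x hx =>
    induction q using Projectivization.ind with
    | h y hy =>
    by_cases hxy : SympMat.form m F x y = 0
    · obtain ⟨z₁, hz₁⟩ := exists_ne m x hx
      obtain ⟨z₂, hz₂⟩ := exists_ne m y hy
      have hz₂' : SympMat.form m F z₂ y ≠ 0 := by
        rw [hneg y z₂]
        exact neg_ne_zero.2 hz₂
      have hfin : ∃ z, SympMat.form m F x z ≠ 0 ∧ SympMat.form m F z y ≠ 0 := by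
        by_cases h1 : SympMat.form m F z₁ y = 0
        · by_cases h2 : SympMat.form m F x z₂ = 0
          · refine ⟨z₁ + z₂, ?_, ?_⟩
            · rw [map_add, h2, add_zero]
              exact hz₁
            · rw [map_add, LinearMap.add_apply, h1, zero_add]
              exact hz₂'
          · exact ⟨z₂, h2, hz₂'⟩
        · exact ⟨z₁, hz₁, h1⟩
      obtain ⟨z, hz1, hz2⟩ := hfin
      have hz0 : z ≠ 0 := by
        rintro rfl
        simp at hz1
      exact (hadj x z hx hz0 hz1).reachable.trans (hadj z y hz0 hy hz2).reachable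
    · exact (hadj x y hx hy hxy).reachable

end Cfsg.Agent.S0768
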