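import Cfsg.Statements.S0770

set_option autoImplicit false
open Cfsg

namespace Cfsg.Agent.S0770

open Matrix

theorem mem_D {F : Type*} [Field F] {n : ℕ} (h : Matrix.GeneralLinearGroup (Fin n) F) :
    h ∈ ((Units.map (Matrix.diagonalRingHom (Fin n) F).toMonoidHom).range :
      Subgroup (Matrix.GeneralLinearGroup (Fin n) F)) ↔
    ∀ i j, i ≠ j → (h : Matrix (Fin n) (Fin n) F) i j = 0 := by
  constructor
  · rintro ⟨u, rfl⟩ i j hij
    simp [Matrix.diagonal_apply_ne _ hij]
  · intro hh
    have hdiag : (h : Matrix (Fin n) (Fin n) F) =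
        Matrix.diagonal (fun i => (h : Matrix (Fin n) (Fin n) F) i i) := by
      ext i j
      by_cases hij : i = j
      · subst hij; simp
      · simp [Matrix.diagonal_apply_ne _ hij, hh i j hij]
    have hne : ∀ i, (h : Matrix (Fin n) (Fin n) F) i i ≠ 0 := by
      intro i h0
      have h1 : ((h : Matrix (Fin n) (Fin n) F) *
          ((h⁻¹ : Matrix.GeneralLinearGroup (Fin n) F) : Matrix (Fin n) (Fin n) F)) i i = 1 := by
        rw [Units.mul_inv, Matrix.one_apply_eq]
      rw [Matrix.mul_apply] at h1
      have h2 : ∀ k, (h : Matrix (Fin n) (Fin n) F) i k *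
          ((h⁻¹ : Matrix.GeneralLinearGroup (Fin n) F) : Matrix (Fin n) (Fin n) F) k i = 0 := by
        intro k
        by_cases hik : i = k
        · subst hik; rw [h0, zero_mul]
        · rw [hh i k hik, zero_mul]
      rw [Finset.sum_eq_zero (fun k _ => h2 k)] at h1
      exact zero_ne_one h1
    let u : (Fin n → F)ˣ :=
      ⟨fun i => (h : Matrix (Fin n) (Fin n) F) i i, fun i => ((h : Matrix (Fin n) (Fin n) F) i i)⁻¹,
        by ext i; simp [hne i], by ext i; simp [hne i]⟩
    refine ⟨u, Units.ext ?_⟩
    rw [hdiag]
    rfl

/-- For a field with at least 3 elements, an invertible matrix normalises the subgroup of invertible diagonal matrices of GL_n if and only if it is monomial (exactly one non-zero entry in each row). -/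
theorem result {F : Type*} [Field F] (hF : ∃ a : F, a ≠ 0 ∧ a ≠ 1) (n : ℕ) (g : Matrix.GeneralLinearGroup (Fin n) F) : g ∈ Subgroup.normalizer ((Units.map (Matrix.diagonalRingHom (Fin n) F).toMonoidHom).range : Subgroup (Matrix.GeneralLinearGroup (Fin n) F)) ↔ ∀ i : Fin n, ∃! j : Fin n, (g : Matrix (Fin n) (Fin n) F) i j ≠ 0 := by
  have hginv : (g : Matrix (Fin n) (Fin n) F) *
      ((g⁻¹ : Matrix.GeneralLinearGroup (Fin n) F) : Matrix (Fin n) (Fin n) F) = 1 := Units.mul_inv g
  constructor
  · intro hg i
    -- existence
    have hex : ∃ j, (g : Matrix (Fin n) (Fin n) F) i j ≠ 0 := by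
      by_contra hcon
      have h0 : ∀ j, (g : Matrix (Fin n) (Fin n) F) i j = 0 := by
        intro j
        by_contra hj
        exact hcon ⟨j, hj⟩
      have h1 := congrFun (congrFun hginv i) i
      rw [Matrix.mul_apply] at h1
      simp [h0] at h1
    obtain ⟨j, hj⟩ := hex
    refine ⟨j, hj, ?_⟩
    intro k hk
    by_contra hkj
    obtain ⟨a, ha0, ha1⟩ := hF
    -- the diagonal element
    let d : Fin n → F := Function.update (fun _ => (1 : F)) j a
    have hdne : ∀ l, d l ≠ 0 := by
      intro l
      by_cases hl : l = j
      · subst hl; simp [d, ha0]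
      · simp [d, Function.update_of_ne hl]
    let u : (Fin n → F)ˣ :=
      ⟨d, fun l => (d l)⁻¹, by ext l; simp [hdne l], by ext l; simp [hdne l]⟩
    let h : Matrix.GeneralLinearGroup (Fin n) F :=
      Units.map (Matrix.diagonalRingHom (Fin n) F).toMonoidHom u
    have hhD : h ∈ ((Units.map (Matrix.diagonalRingHom (Fin n) F).toMonoidHom).range :
      Subgroup (Matrix.GeneralLinearGroup (Fin n) F)) := ⟨u, rfl⟩
    have hh : (h : Matrix (Fin n) (Fin n) F) = Matrix.diagonal d := rfl
    have hconj := (Subgroup.mem_normalizer_iff.1 hg h).1 hhD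
    rw [mem_D] at hconj
    have heq : ((g * h * g⁻¹ : Matrix.GeneralLinearGroup (Fin n) F) : Matrix (Fin n) (Fin n) F) *
        (g : Matrix (Fin n) (Fin n) F) = (g : Matrix (Fin n) (Fin n) F) * Matrix.diagonal d := by
      rw [← hh, ← Units.val_mul, ← Units.val_mul]
      simp
    have key : ∀ l, ((g * h * g⁻¹ : Matrix.GeneralLinearGroup (Fin n) F) :
        Matrix (Fin n) (Fin n) F) i i * (g : Matrix (Fin n) (Fin n) F) i l =
        (g : Matrix (Fin n) (Fin n) F) i l * d l := by
      intro l
      have h1 := congrFun (congrFun heq i) l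
      rw [Matrix.mul_apply, Matrix.mul_diagonal] at h1
      rw [← h1]
      rw [Finset.sum_eq_single i]
      · intro b _ hb
        rw [hconj i b (Ne.symm hb), zero_mul]
      · simp
    have k1 := key j
    have k2 := key k
    have hdj : d j = a := by simp [d]
    have hdk : d k = 1 := by simp [d, Function.update_of_ne hkj]
    rw [hdj, mul_comm] at k1
    rw [hdk, mul_comm, mul_one] at k2
    have e1 := mul_left_cancel₀ hj k1
    have e2 : ((g * h * g⁻¹ : Matrix.GeneralLinearGroup (Fin n) F) :
        Matrix (Fin n) (Fin n) F) i i = 1 := by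
      have := mul_left_cancel₀ hk (k2.trans (mul_one _).symm)
      exact this
    exact ha1 (e1.symm.trans e2)
  · intro hmono
    choose π hπ hπu using hmono
    have hzero : ∀ i l, l ≠ π i → (g : Matrix (Fin n) (Fin n) F) i l = 0 := by
      intro i l hl
      by_contra h0
      exact hl (hπu i l h0)
    have hinj : Function.Injective π := by
      intro i i' hii
      by_contra hne
      have h1 := congrFun (congrFun hginv i) i
      have h2 := congrFun (congrFun hginv i') i
      rw [Matrix.mul_apply, Finset.sum_eq_single (π i)] at h1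
      · rw [Matrix.mul_apply, Finset.sum_eq_single (π i')] at h2
        · rw [Matrix.one_apply_ne (Ne.symm hne)] at h2
          rw [← hii] at h2
          rcases mul_eq_zero.1 h2 with h3 | h3
          · rw [hii] at h3; exact hπ i' h3
          · rw [h3, mul_zero] at h1
            simp at h1
        · intro b _ hb
          rw [hzero i' b hb, zero_mul]
        · simp
      · intro b _ hb
        rw [hzero i b hb, zero_mul]
      · simp
    have hsurj : Function.Surjective π := Finite.injective_iff_surjective.1 hinj
    rw [Subgroup.mem_normalizer_iff]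
    intro h
    have heq : ((g * h * g⁻¹ : Matrix.GeneralLinearGroup (Fin n) F) : Matrix (Fin n) (Fin n) F) *
        (g : Matrix (Fin n) (Fin n) F) = (g : Matrix (Fin n) (Fin n) F) *
        (h : Matrix (Fin n) (Fin n) F) := by
      rw [← Units.val_mul, ← Units.val_mul]
      simp
    rw [mem_D, mem_D]
    constructor
    · intro hh
      -- E diagonal with E g = g h
      have hE : (g : Matrix (Fin n) (Fin n) F) * (h : Matrix (Fin n) (Fin n) F) =
          Matrix.diagonal (fun i => (h : Matrix (Fin n) (Fin n) F) (π i) (π i)) *
          (g : Matrix (Fin n) (Fin n) F) := by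
        ext i l
        rw [Matrix.diagonal_mul, Matrix.mul_apply, Finset.sum_eq_single l]
        · by_cases hl : l = π i
          · subst hl; ring
          · rw [hzero i l hl]; ring
        · intro b _ hb
          rw [hh b l hb, mul_zero]
        · simp
      have hval : ((g * h * g⁻¹ : Matrix.GeneralLinearGroup (Fin n) F) :
          Matrix (Fin n) (Fin n) F) =
          Matrix.diagonal (fun i => (h : Matrix (Fin n) (Fin n) F) (π i) (π i)) := by
        rw [Units.val_mul, Units.val_mul, hE, Matrix.mul_assoc, hginv, Matrix.mul_one]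
      intro i j hij
      rw [hval, Matrix.diagonal_apply_ne _ hij]
    · intro hh k l hkl
      obtain ⟨i, rfl⟩ := hsurj k
      have h1 := congrFun (congrFun heq i) l
      rw [Matrix.mul_apply, Matrix.mul_apply, Finset.sum_eq_single i,
        Finset.sum_eq_single (π i), hzero i l (Ne.symm hkl), mul_zero] at h1
      · rcases mul_eq_zero.1 h1.symm with h3 | h3
        · exact absurd h3 (hπ i)
        · exact h3
      · intro b _ hb
        rw [hzero i b hb, zero_mul]
      · simp
      · intro b _ hb
        rw [hh i b (Ne.symm hb), zero_mul]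
      · simp

end Cfsg.Agent.S0770
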