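import Cfsg.Statements.S0771
import Mathlib

set_option autoImplicit false
open Cfsg

namespace Cfsg.Agent.S0771

open Matrix

theorem main {F : Type*} [Field F] [Fintype F] (n k : ℕ) (hk : k ≤ n) :
    Nat.card ↥(Cfsg.stabilizing (Cfsg.glToMat (Fin n) F)
      {v : Fin n → F | ∀ i : Fin n, k ≤ (i : ℕ) → v i = 0}) =
    Nat.card ((GL (Fin k) F × GL (Fin (n - k)) F) × Matrix (Fin k) (Fin (n - k)) F) := by
  classical
  let e : Fin k ⊕ Fin (n - k) ≃ Fin n := finSumFinEquiv.trans (finCongr (by omega))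
  have he1 : ∀ j : Fin k, ((e (Sum.inl j) : Fin n) : ℕ) = j := by
    intro j
    simp [e]
  have he2 : ∀ j : Fin (n - k), ((e (Sum.inr j) : Fin n) : ℕ) = k + j := by
    intro j
    simp [e]
  have hU : ∀ v : Fin n → F, (∀ i : Fin n, k ≤ (i : ℕ) → v i = 0) ↔ (v ∘ e) ∘ Sum.inr = 0 := by
    intro v
    constructor
    · intro h
      ext j
      exact h _ (by rw [he2]; omega)
    · intro h i hi
      obtain ⟨s, rfl⟩ := e.surjective i
      rcases s with j | j
      · rw [he1] at hi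
        exact absurd j.2 (by omega)
      · exact congrFun h j
  have hact : ∀ (A : Matrix (Fin k) (Fin k) F) (B : Matrix (Fin k) (Fin (n - k)) F)
      (D : Matrix (Fin (n - k)) (Fin (n - k)) F) (v : Fin n → F),
      ((Matrix.reindex e e (Matrix.fromBlocks A B 0 D) *ᵥ v) ∘ e) ∘ Sum.inr =
        D *ᵥ ((v ∘ e) ∘ Sum.inr) := by
    intro A B D v
    rw [Matrix.reindex_apply, Matrix.submatrix_mulVec_equiv, Equiv.symm_symm,
      Matrix.fromBlocks_mulVec]
    ext j
    simp
  symm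
  apply Nat.card_congr
  refine Equiv.ofBijective (fun x => ⟨Matrix.GeneralLinearGroup.mkOfDetNeZero
    (Matrix.reindex e e (Matrix.fromBlocks (x.1.1 : Matrix (Fin k) (Fin k) F) x.2 0
      (x.1.2 : Matrix (Fin (n - k)) (Fin (n - k)) F))) ?_, ?_⟩) ⟨?_, ?_⟩
  · rw [Matrix.det_reindex_self, Matrix.det_fromBlocks_zero₂₁]
    exact mul_ne_zero (Matrix.isUnits_det_units x.1.1).ne_zero
      (Matrix.isUnits_det_units x.1.2).ne_zero
  · intro v
    show (∀ i : Fin n, k ≤ (i : ℕ) → v i = 0) ↔ (∀ i : Fin n, k ≤ (i : ℕ) →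
      ((Matrix.reindex e e (Matrix.fromBlocks (x.1.1 : Matrix (Fin k) (Fin k) F) x.2 0
      (x.1.2 : Matrix (Fin (n - k)) (Fin (n - k)) F))) *ᵥ v) i = 0)
    rw [hU, hU, hact]
    constructor
    · intro h
      rw [h, Matrix.mulVec_zero]
    · intro h
      have h1 := congrArg (fun w => ((x.1.2⁻¹ : GL (Fin (n - k)) F) :
        Matrix (Fin (n - k)) (Fin (n - k)) F) *ᵥ w) h
      simp only [Matrix.mulVec_mulVec, ← Units.val_mul, inv_mul_cancel, Units.val_one,
        Matrix.one_mulVec, Matrix.mulVec_zero] at h1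
      exact h1
  · intro x y hxy
    have h1 : Matrix.reindex e e (Matrix.fromBlocks (x.1.1 : Matrix (Fin k) (Fin k) F) x.2 0
        (x.1.2 : Matrix (Fin (n - k)) (Fin (n - k)) F)) =
        Matrix.reindex e e (Matrix.fromBlocks (y.1.1 : Matrix (Fin k) (Fin k) F) y.2 0
        (y.1.2 : Matrix (Fin (n - k)) (Fin (n - k)) F)) :=
      congrArg (fun g : ↥(Cfsg.stabilizing (Cfsg.glToMat (Fin n) F)
        {v : Fin n → F | ∀ i : Fin n, k ≤ (i : ℕ) → v i = 0}) =>
        ((g : GL (Fin n) F) : Matrix (Fin n) (Fin n) F)) hxy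
    have h2 := (Matrix.reindex e e).injective h1
    rw [Matrix.fromBlocks_inj] at h2
    obtain ⟨hA, hB, -, hD⟩ := h2
    exact Prod.ext (Prod.ext (Units.ext hA) (Units.ext hD)) hB
  · intro g
    obtain ⟨X, hX⟩ : ∃ X, X = Matrix.reindex e.symm e.symm
      ((g : GL (Fin n) F) : Matrix (Fin n) (Fin n) F) := ⟨_, rfl⟩
    have hC : X.toBlocks₂₁ = 0 := by
      ext j' j
      have hmem := (g.2 (Pi.single (e (Sum.inl j)) 1)).1 (by
        intro i hi
        rw [Pi.single_apply, if_neg]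
        intro h
        rw [h, he1] at hi
        exact absurd j.2 (by omega))
      have h3 := hmem (e (Sum.inr j')) (by rw [he2]; omega)
      have h4 : (Cfsg.glToMat (Fin n) F) (g : GL (Fin n) F) =
        ((g : GL (Fin n) F) : Matrix (Fin n) (Fin n) F) := rfl
      rw [h4, Matrix.mulVec_single_one] at h3
      rw [hX]
      simpa [Matrix.toBlocks₂₁] using h3
    have hXeq : X = Matrix.fromBlocks X.toBlocks₁₁ X.toBlocks₁₂ 0 X.toBlocks₂₂ := by
      rw [← hC, Matrix.fromBlocks_toBlocks]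
    have hg : Matrix.reindex e e X = ((g : GL (Fin n) F) : Matrix (Fin n) (Fin n) F) := by
      rw [hX]
      simp
    have hdet : X.det ≠ 0 := by
      rw [hX, Matrix.det_reindex_self]
      exact (Matrix.isUnits_det_units (g : GL (Fin n) F)).ne_zero
    rw [hXeq, Matrix.det_fromBlocks_zero₂₁] at hdet
    refine ⟨((Matrix.GeneralLinearGroup.mkOfDetNeZero X.toBlocks₁₁ (left_ne_zero_of_mul hdet),
      Matrix.GeneralLinearGroup.mkOfDetNeZero X.toBlocks₂₂ (right_ne_zero_of_mul hdet)),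
      X.toBlocks₁₂), ?_⟩
    apply Subtype.ext
    apply Units.ext
    show Matrix.reindex e e (Matrix.fromBlocks X.toBlocks₁₁ X.toBlocks₁₂ 0 X.toBlocks₂₂) =
      ((g : GL (Fin n) F) : Matrix (Fin n) (Fin n) F)
    rw [← hXeq, hg]

/-- Maximal parabolic of GL_n(q): the stabiliser of the coordinate subspace spanned by the first k basis vectors has order q^(k(n-k)) · |GL_k(q)| · |GL_(n-k)(q)| (unipotent radical of order q^(k(n-k)) and Levi complement GL_k × GL_(n-k)). -/
theorem result {F : Type*} [Field F] [Fintype F] {q : ℕ} (hF : Fintype.card F = q) (n k : ℕ) (hk : k ≤ n) : Nat.card ↥(Cfsg.stabilizing (Cfsg.glToMat (Fin n) F) {v : Fin n → F | ∀ i : Fin n, k ≤ (i : ℕ) → v i = 0}) = q ^ (k * (n - k)) * (∏ i : Fin k, (q ^ k - q ^ (i : ℕ))) * ∏ i : Fin (n - k), (q ^ (n - k) - q ^ (i : ℕ)) := by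
  classical
  rw [main n k hk, Nat.card_prod, Nat.card_prod, Matrix.card_GL_field, Matrix.card_GL_field, hF]
  have h1 : Nat.card (Matrix (Fin k) (Fin (n - k)) F) = q ^ (k * (n - k)) := by
    rw [Nat.card_eq_fintype_card]
    show Fintype.card (Fin k → Fin (n - k) → F) = _
    rw [Fintype.card_fun, Fintype.card_fun, hF, Fintype.card_fin, Fintype.card_fin, ← pow_mul,
      mul_comm]
  rw [h1]
  ring

end Cfsg.Agent.S0771
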