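import Cfsg.Statements.S0773
import Mathlib
import Cfsg.Agent.S0774

set_option autoImplicit false
open Cfsg

namespace Cfsg.Agent.S0773

open Matrix

theorem mem_stab_iff {F : Type*} [Field F] [Finite F] (n j : ℕ) (g : GL (Fin n) F) :
    g ∈ Cfsg.stabilizing (Cfsg.glToMat (Fin n) F)
      {v : Fin n → F | ∀ i : Fin n, j ≤ (i : ℕ) → v i = 0} ↔
      ∀ a b : Fin n, j ≤ (a : ℕ) → (b : ℕ) < j → (g : Matrix (Fin n) (Fin n) F) a b = 0 := by
  classical
  constructor
  · intro hg a b ha hb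
    have h1 := (hg (Pi.single b 1)).1 (by
      intro i hi
      rw [Pi.single_apply, if_neg]
      rintro rfl
      omega) a ha
    have h2 : (Cfsg.glToMat (Fin n) F) g = (g : Matrix (Fin n) (Fin n) F) := rfl
    rw [h2, Matrix.mulVec_single_one] at h1
    simpa using h1
  · intro h
    apply Cfsg.Agent.S0774.mem_stab_of_mapsTo _ _ (Set.toFinite _)
    intro v hv a ha
    show ((g : Matrix (Fin n) (Fin n) F) *ᵥ v) a = 0
    rw [Matrix.mulVec, dotProduct]
    apply Finset.sum_eq_zero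
    intro b _
    by_cases hb : (b : ℕ) < j
    · rw [h a b ha hb, zero_mul]
    · rw [hv b (by omega), mul_zero]

/-- inverse transpose conjugated by the reversal permutation -/
def phi {F : Type*} [Field F] (n : ℕ) (g : GL (Fin n) F) : GL (Fin n) F :=
  ⟨((g⁻¹ : GL (Fin n) F) : Matrix (Fin n) (Fin n) F)ᵀ.submatrix Fin.revPerm Fin.revPerm,
   (g : Matrix (Fin n) (Fin n) F)ᵀ.submatrix Fin.revPerm Fin.revPerm, by
     rw [Matrix.submatrix_mul_equiv, ← Matrix.transpose_mul, Units.mul_inv, Matrix.transpose_one,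
       Matrix.submatrix_one_equiv], by
     rw [Matrix.submatrix_mul_equiv, ← Matrix.transpose_mul, Units.inv_mul, Matrix.transpose_one,
       Matrix.submatrix_one_equiv]⟩

theorem phi_phi {F : Type*} [Field F] (n : ℕ) (g : GL (Fin n) F) : phi n (phi n g) = g := by
  apply Units.ext
  show ((g : Matrix (Fin n) (Fin n) F)ᵀ.submatrix Fin.revPerm Fin.revPerm)ᵀ.submatrix
    Fin.revPerm Fin.revPerm = (g : Matrix (Fin n) (Fin n) F)
  ext i j
  simp

theorem phi_mul {F : Type*} [Field F] (n : ℕ) (g h : GL (Fin n) F) :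
    phi n (g * h) = phi n g * phi n h := by
  apply Units.ext
  show (((g * h)⁻¹ : GL (Fin n) F) : Matrix (Fin n) (Fin n) F)ᵀ.submatrix Fin.revPerm Fin.revPerm =
    ((g⁻¹ : GL (Fin n) F) : Matrix (Fin n) (Fin n) F)ᵀ.submatrix Fin.revPerm Fin.revPerm *
    ((h⁻¹ : GL (Fin n) F) : Matrix (Fin n) (Fin n) F)ᵀ.submatrix Fin.revPerm Fin.revPerm
  rw [Matrix.submatrix_mul_equiv, ← Matrix.transpose_mul, _root_.mul_inv_rev]
  rfl

theorem phi_mem {F : Type*} [Field F] [Finite F] (n j j' : ℕ) (hjj : j + j' = n)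
    (g : GL (Fin n) F)
    (hg : g ∈ Cfsg.stabilizing (Cfsg.glToMat (Fin n) F)
      {v : Fin n → F | ∀ i : Fin n, j ≤ (i : ℕ) → v i = 0}) :
    phi n g ∈ Cfsg.stabilizing (Cfsg.glToMat (Fin n) F)
      {v : Fin n → F | ∀ i : Fin n, j' ≤ (i : ℕ) → v i = 0} := by
  rw [mem_stab_iff]
  intro a b ha hb
  have ha' := a.isLt
  have hb' := b.isLt
  have h1 := (mem_stab_iff n j g⁻¹).1 (inv_mem hg) b.rev a.rev
    (by rw [Fin.val_rev]; omega) (by rw [Fin.val_rev]; omega)
  exact h1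

theorem ncard_lt {F : Type*} [Field F] [Finite F] (n a b : ℕ) (hab : a < b) (han : a < n) :
    Set.ncard {v : Fin n → F | ∀ i : Fin n, a ≤ (i : ℕ) → v i = 0} <
      Set.ncard {v : Fin n → F | ∀ i : Fin n, b ≤ (i : ℕ) → v i = 0} := by
  classical
  apply Set.ncard_lt_ncard _ (Set.toFinite _)
  constructor
  · intro v hv i hi
    exact hv i (by omega)
  · intro hsub
    have h1 : (Pi.single (⟨a, han⟩ : Fin n) (1 : F)) ∈
        {v : Fin n → F | ∀ i : Fin n, b ≤ (i : ℕ) → v i = 0} := by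
      intro i hi
      rw [Pi.single_apply, if_neg]
      rintro rfl
      simp at hi
      omega
    have h2 := hsub h1 ⟨a, han⟩ (le_refl _)
    simp at h2

theorem not_conj {F : Type*} [Field F] [Finite F] (n k j : ℕ) (hk0 : 0 < k) (hkn : k < n)
    (hjn : j < n) (hkj : k ≠ j) (g : GL (Fin n) F) :
    (Cfsg.stabilizing (Cfsg.glToMat (Fin n) F)
      {v : Fin n → F | ∀ i : Fin n, k ≤ (i : ℕ) → v i = 0}).map (MulAut.conj g).toMonoidHom ≠
    Cfsg.stabilizing (Cfsg.glToMat (Fin n) F)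
      {v : Fin n → F | ∀ i : Fin n, j ≤ (i : ℕ) → v i = 0} := by
  classical
  intro heq
  obtain ⟨c, hc⟩ : ∃ c : Matrix (Fin n) (Fin n) F,
    c = ((g⁻¹ : GL (Fin n) F) : Matrix (Fin n) (Fin n) F) := ⟨_, rfl⟩
  obtain ⟨gm, hgm⟩ : ∃ gm : Matrix (Fin n) (Fin n) F,
    gm = (g : Matrix (Fin n) (Fin n) F) := ⟨_, rfl⟩
  have hcg : c * gm = 1 := by rw [hc, hgm, Units.inv_mul]
  have hgc : gm * c = 1 := by rw [hc, hgm, Units.mul_inv]
  have hP : ∀ h ∈ Cfsg.stabilizing (Cfsg.glToMat (Fin n) F)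
      {v : Fin n → F | ∀ i : Fin n, j ≤ (i : ℕ) → v i = 0}, ∀ u : Fin n → F,
      (∀ i : Fin n, k ≤ (i : ℕ) → (c *ᵥ u) i = 0) →
      ∀ i : Fin n, k ≤ (i : ℕ) → (c *ᵥ ((h : Matrix (Fin n) (Fin n) F) *ᵥ u)) i = 0 := by
    intro h hh u hu
    rw [← heq] at hh
    obtain ⟨x, hx, rfl⟩ := hh
    have h1 : c *ᵥ ((((MulAut.conj g).toMonoidHom x : GL (Fin n) F) :
        Matrix (Fin n) (Fin n) F) *ᵥ u) = (x : Matrix (Fin n) (Fin n) F) *ᵥ (c *ᵥ u) := by
      show c *ᵥ (((g * x * g⁻¹ : GL (Fin n) F) : Matrix (Fin n) (Fin n) F) *ᵥ u) = _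
      rw [Units.val_mul, Units.val_mul, ← hc, ← hgm, Matrix.mulVec_mulVec, Matrix.mulVec_mulVec,
        ← Matrix.mul_assoc, ← Matrix.mul_assoc, hcg, Matrix.one_mul]
    rw [h1]
    exact (hx (c *ᵥ u)).1 hu
  -- elementary matrices
  have hT : ∀ a b : Fin n, a ≠ b → ¬ (j ≤ (a : ℕ) ∧ (b : ℕ) < j) →
      ∀ u : Fin n → F, (∀ i : Fin n, k ≤ (i : ℕ) → (c *ᵥ u) i = 0) →
      ∀ i : Fin n, k ≤ (i : ℕ) → u b * c i a = 0 := by
    intro a b hab hnot u hu i hi
    have hmem : (⟨Matrix.transvection a b (1 : F), Matrix.transvection a b (-1 : F), by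
        rw [Matrix.transvection_mul_transvection_same a b hab, add_neg_cancel,
          Matrix.transvection_zero], by
        rw [Matrix.transvection_mul_transvection_same a b hab, neg_add_cancel,
          Matrix.transvection_zero]⟩ : GL (Fin n) F) ∈
        Cfsg.stabilizing (Cfsg.glToMat (Fin n) F)
          {v : Fin n → F | ∀ i : Fin n, j ≤ (i : ℕ) → v i = 0} := by
      rw [mem_stab_iff]
      intro a' b' ha' hb'
      show Matrix.transvection a b (1 : F) a' b' = 0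
      rw [Matrix.transvection, Matrix.add_apply, Matrix.one_apply_ne (by
        intro h
        subst h
        omega), zero_add, Matrix.single_apply, if_neg]
      rintro ⟨rfl, rfl⟩
      exact hnot ⟨ha', hb'⟩
    have h1 := hP _ hmem u hu i hi
    have h2 : (Matrix.transvection a b (1 : F)) *ᵥ u = u + u b • Pi.single a 1 := by
      rw [Matrix.transvection, Matrix.add_mulVec, Matrix.one_mulVec, Matrix.single_mulVec]
      congr 1
      ext x
      by_cases hx : x = a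
      · subst hx
        simp
      · simp [hx]
    change (c *ᵥ ((Matrix.transvection a b (1 : F)) *ᵥ u)) i = 0 at h1
    rw [h2, Matrix.mulVec_add, Matrix.mulVec_smul, Matrix.mulVec_single_one, Pi.add_apply,
      hu i hi, zero_add] at h1
    simpa using h1
  have hF1 : ∀ a b : Fin n, a ≠ b → ¬ (j ≤ (a : ℕ) ∧ (b : ℕ) < j) →
      ∀ u : Fin n → F, (∀ i : Fin n, k ≤ (i : ℕ) → (c *ᵥ u) i = 0) → u b ≠ 0 →
      ∀ i : Fin n, k ≤ (i : ℕ) → c i a = 0 := by
    intro a b hab hnot u hu hub i hi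
    exact (mul_eq_zero.1 (hT a b hab hnot u hu i hi)).resolve_left hub
  have hF3 : ¬ ∀ a : Fin n, ∀ i : Fin n, k ≤ (i : ℕ) → c i a = 0 := by
    intro hall
    have h1 := congrFun (congrFun hcg ⟨k, hkn⟩) ⟨k, hkn⟩
    rw [Matrix.mul_apply, Matrix.one_apply_eq, Finset.sum_eq_zero] at h1
    · exact zero_ne_one h1
    · intro a _
      rw [hall a ⟨k, hkn⟩ (le_refl _), zero_mul]
  have hF5 : ∀ u : Fin n → F, (∀ i : Fin n, k ≤ (i : ℕ) → (c *ᵥ u) i = 0) → ∀ b : Fin n,
      u b ≠ 0 → (∀ a : Fin n, a ≠ b → u a ≠ 0 → ∀ i : Fin n, k ≤ (i : ℕ) → c i a = 0) →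
      ∀ i : Fin n, k ≤ (i : ℕ) → c i b = 0 := by
    intro u hu b hub hZ i hi
    have h1 := hu i hi
    rw [Matrix.mulVec, dotProduct, Finset.sum_eq_single b] at h1
    · exact (mul_eq_zero.1 h1).resolve_right hub
    · intro a _ hab
      by_cases hua : u a = 0
      · rw [hua, mul_zero]
      · rw [hZ a hab hua i hi, zero_mul]
    · intro hb
      exact absurd (Finset.mem_univ b) hb
  -- step A
  have hA : ∀ u : Fin n → F, (∀ i : Fin n, k ≤ (i : ℕ) → (c *ᵥ u) i = 0) →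
      ∀ b : Fin n, j ≤ (b : ℕ) → u b = 0 := by
    intro u hu b hb
    by_contra hub
    have h1 : ∀ a : Fin n, a ≠ b → ∀ i : Fin n, k ≤ (i : ℕ) → c i a = 0 := by
      intro a hab
      exact hF1 a b hab (by omega) u hu hub
    apply hF3
    intro a
    by_cases hab : a = b
    · subst hab
      exact hF5 u hu a hub (fun a' ha' _ => h1 a' ha')
    · exact h1 a hab
  -- the vector u0
  obtain ⟨u0, hu0⟩ : ∃ u0 : Fin n → F, u0 = gm *ᵥ Pi.single (⟨0, by omega⟩ : Fin n) 1 := ⟨_, rfl⟩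
  have hcu0 : c *ᵥ u0 = Pi.single (⟨0, by omega⟩ : Fin n) 1 := by
    rw [hu0, Matrix.mulVec_mulVec, hcg, Matrix.one_mulVec]
  have hu0U : ∀ i : Fin n, k ≤ (i : ℕ) → (c *ᵥ u0) i = 0 := by
    intro i hi
    rw [hcu0, Pi.single_apply, if_neg]
    rintro rfl
    simp at hi
    omega
  have hu0ne : ∃ b : Fin n, u0 b ≠ 0 := by
    by_contra hno
    push Not at hno
    have h0 : u0 = 0 := funext hno
    rw [h0, Matrix.mulVec_zero] at hcu0
    have h1 := congrFun hcu0 ⟨0, by omega⟩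
    simp at h1
  obtain ⟨b0, hb0⟩ := hu0ne
  have hb0j : (b0 : ℕ) < j := by
    by_contra hh
    exact hb0 (hA u0 hu0U b0 (by omega))
  have hZ : ∀ a : Fin n, (a : ℕ) < j → ∀ i : Fin n, k ≤ (i : ℕ) → c i a = 0 := by
    intro a ha
    by_cases hab : a = b0
    · subst hab
      apply hF5 u0 hu0U a hb0
      intro a' ha' hua'
      have ha'j : (a' : ℕ) < j := by
        by_contra hh
        exact hua' (hA u0 hu0U a' (by omega))
      exact hF1 a' a ha' (by omega) u0 hu0U hb0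
    · exact hF1 a b0 hab (by omega) u0 hu0U hb0
  -- step D
  have himg : {v : Fin n → F | ∀ i : Fin n, k ≤ (i : ℕ) → v i = 0} =
      (fun u => c *ᵥ u) '' {v : Fin n → F | ∀ i : Fin n, j ≤ (i : ℕ) → v i = 0} := by
    ext w
    constructor
    · intro hw
      refine ⟨gm *ᵥ w, ?_, ?_⟩
      · apply hA
        rw [Matrix.mulVec_mulVec, hcg, Matrix.one_mulVec]
        exact hw
      · show c *ᵥ (gm *ᵥ w) = w
        rw [Matrix.mulVec_mulVec, hcg, Matrix.one_mulVec]
    · rintro ⟨u, hu, rfl⟩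
      intro i hi
      show (c *ᵥ u) i = 0
      rw [Matrix.mulVec, dotProduct]
      apply Finset.sum_eq_zero
      intro a _
      by_cases ha : (a : ℕ) < j
      · rw [hZ a ha i hi, zero_mul]
      · rw [hu a (by omega), mul_zero]
  have hinj : Function.Injective (fun u : Fin n → F => c *ᵥ u) := by
    intro u v huv
    have h1 := congrArg (fun w => gm *ᵥ w) huv
    simp only [Matrix.mulVec_mulVec, hgc, Matrix.one_mulVec] at h1
    exact h1
  have hcard := congrArg Set.ncard himg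
  rw [Set.ncard_image_of_injective _ hinj] at hcard
  rcases lt_or_gt_of_ne hkj with h | h
  · exact absurd hcard (ne_of_lt (ncard_lt n k j h hkn))
  · exact absurd hcard (ne_of_gt (ncard_lt n j k h hjn))

/-- The stabilisers in GL_n(F), F finite, of the coordinate subspaces of dimensions k and n − k are isomorphic groups, but when 2k ≠ n (and 0 < k < n) no element of GL_n conjugates one onto the other. -/
theorem result {F : Type*} [Field F] [Finite F] (n k : ℕ) (hk0 : 0 < k) (hkn : k < n) (h2 : 2 * k ≠ n) : Nonempty (↥(Cfsg.stabilizing (Cfsg.glToMat (Fin n) F) {v : Fin n → F | ∀ i : Fin n, k ≤ (i : ℕ) → v i = 0}) ≃* ↥(Cfsg.stabilizing (Cfsg.glToMat (Fin n) F) {v : Fin n → F | ∀ i : Fin n, n - k ≤ (i : ℕ) → v i = 0})) ∧ ∀ g : Matrix.GeneralLinearGroup (Fin n) F, (Cfsg.stabilizing (Cfsg.glToMat (Fin n) F) {v : Fin n → F | ∀ i : Fin n, k ≤ (i : ℕ) → v i = 0}).map (MulAut.conj g).toMonoidHom ≠ Cfsg.stabilizing (Cfsg.glToMat (Fin n) F) {v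 : Fin n → F | ∀ i : Fin n, n - k ≤ (i : ℕ) → v i = 0} := by
  refine ⟨⟨{ toFun := fun g => ⟨phi n g.1, phi_mem n k (n - k) (by omega) g.1 g.2⟩
             invFun := fun g => ⟨phi n g.1, phi_mem n (n - k) k (by omega) g.1 g.2⟩
             left_inv := fun g => Subtype.ext (phi_phi n g.1)
             right_inv := fun g => Subtype.ext (phi_phi n g.1)
             map_mul' := fun g h => Subtype.ext (phi_mul n g.1 h.1) }⟩, ?_⟩
  intro g
  exact not_conj n k (n - k) hk0 hkn (by omega) (by omega) g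

end Cfsg.Agent.S0773
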