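import Cfsg.Statements.S0772
import Mathlib
import Cfsg.Agent.S0773

set_option autoImplicit false
open Cfsg

namespace Cfsg.Agent.S0772

open Matrix

/-- elementary transvection as an element of GL -/
def T {F : Type*} [Field F] (n : ℕ) (a b : Fin n) (hab : a ≠ b) (c : F) : GL (Fin n) F :=
  ⟨Matrix.transvection a b c, Matrix.transvection a b (-c), by
    rw [Matrix.transvection_mul_transvection_same a b hab, add_neg_cancel,
      Matrix.transvection_zero], by
    rw [Matrix.transvection_mul_transvection_same a b hab, neg_add_cancel,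
      Matrix.transvection_zero]⟩

theorem T_mem {F : Type*} [Field F] [Finite F] (n k : ℕ) (a b : Fin n) (hab : a ≠ b) (c : F)
    (hnot : ¬ (k ≤ (a : ℕ) ∧ (b : ℕ) < k)) :
    T n a b hab c ∈ Cfsg.stabilizing (Cfsg.glToMat (Fin n) F)
      {v : Fin n → F | ∀ i : Fin n, k ≤ (i : ℕ) → v i = 0} := by
  rw [Cfsg.Agent.S0773.mem_stab_iff]
  intro a' b' ha' hb'
  show Matrix.transvection a b c a' b' = 0
  rw [Matrix.transvection, Matrix.add_apply, Matrix.one_apply_ne (by
    intro h
    subst h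
    omega), zero_add, Matrix.single_apply, if_neg]
  rintro ⟨rfl, rfl⟩
  exact hnot ⟨ha', hb'⟩

theorem stepii {F : Type*} [Field F] [Finite F] (n k : ℕ) (H : Subgroup (GL (Fin n) F))
    (hPH : Cfsg.stabilizing (Cfsg.glToMat (Fin n) F)
      {v : Fin n → F | ∀ i : Fin n, k ≤ (i : ℕ) → v i = 0} ≤ H)
    (G : GL (Fin n) F) (hG : G ∈ H) (a b₀ : Fin n) (ha : k ≤ (a : ℕ)) (hb₀ : (b₀ : ℕ) < k)
    (hcol : ∀ i, (G : Matrix (Fin n) (Fin n) F) i b₀ = if i = a then 1 else 0)
    (b : Fin n) (hab : a ≠ b) (c : F) : T n a b hab c ∈ H := by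
  classical
  obtain ⟨N, hN⟩ : ∃ N : Matrix (Fin n) (Fin n) F, N = Matrix.of (fun i j =>
    if i = b₀ then c * (G : Matrix (Fin n) (Fin n) F) b j else 0) := ⟨_, rfl⟩
  have hGb : (G : Matrix (Fin n) (Fin n) F) b b₀ = 0 := by
    rw [hcol, if_neg (Ne.symm hab)]
  have hNN : N * N = 0 := by
    ext i j
    rw [Matrix.mul_apply, Matrix.zero_apply]
    apply Finset.sum_eq_zero
    intro l _
    rw [hN, Matrix.of_apply, Matrix.of_apply]
    by_cases hl : l = b₀
    · subst hl
      rw [hGb, mul_zero, ite_self, zero_mul]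
    · rw [if_neg hl, mul_zero]
  obtain ⟨X, hX⟩ : ∃ X : GL (Fin n) F, (X : Matrix (Fin n) (Fin n) F) = 1 + N :=
    ⟨⟨1 + N, 1 - N, by
      rw [mul_sub, add_mul, add_mul, hNN]
      simp, by
      rw [mul_add, sub_mul, sub_mul, hNN]
      simp⟩, rfl⟩
  have hXP : X ∈ Cfsg.stabilizing (Cfsg.glToMat (Fin n) F)
      {v : Fin n → F | ∀ i : Fin n, k ≤ (i : ℕ) → v i = 0} := by
    rw [Cfsg.Agent.S0773.mem_stab_iff]
    intro a' b' ha' hb'
    rw [hX, Matrix.add_apply, Matrix.one_apply_ne (by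
      intro h
      subst h
      omega), zero_add, hN, Matrix.of_apply, if_neg]
    rintro rfl
    omega
  have hTG : T n a b hab c * G = G * X := by
    apply Units.ext
    rw [Units.val_mul, Units.val_mul, hX]
    show Matrix.transvection a b c * (G : Matrix (Fin n) (Fin n) F) = _
    rw [Matrix.transvection, add_mul, one_mul, mul_add, mul_one]
    congr 1
    ext i j
    have hR : ((G : Matrix (Fin n) (Fin n) F) * N) i j =
        (G : Matrix (Fin n) (Fin n) F) i b₀ * (c * (G : Matrix (Fin n) (Fin n) F) b j) := by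
      rw [Matrix.mul_apply, Finset.sum_eq_single b₀]
      · rw [hN, Matrix.of_apply, if_pos rfl]
      · intro l _ hl
        rw [hN, Matrix.of_apply, if_neg hl, mul_zero]
      · intro hb
        exact absurd (Finset.mem_univ b₀) hb
    rw [hR, hcol]
    by_cases hi : i = a
    · subst hi
      rw [Matrix.single_mul_apply_same, if_pos rfl, one_mul]
    · rw [Matrix.single_mul_apply_of_ne c a b i j hi, if_neg hi, zero_mul]
  have h1 : T n a b hab c = G * X * G⁻¹ := eq_mul_inv_of_mul_eq hTG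
  rw [h1]
  exact H.mul_mem (H.mul_mem hG (hPH hXP)) (H.inv_mem hG)

theorem stepi {F : Type*} [Field F] [Finite F] (n k : ℕ) (H : Subgroup (GL (Fin n) F))
    (hPH : Cfsg.stabilizing (Cfsg.glToMat (Fin n) F)
      {v : Fin n → F | ∀ i : Fin n, k ≤ (i : ℕ) → v i = 0} ≤ H)
    (h : GL (Fin n) F) (hh : h ∈ H) (a b₀ : Fin n) (ha : k ≤ (a : ℕ))
    (hne : (h : Matrix (Fin n) (Fin n) F) a b₀ ≠ 0) :
    ∃ G ∈ H, ∀ i, (G : Matrix (Fin n) (Fin n) F) i b₀ = if i = a then 1 else 0 := by
  classical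
  obtain ⟨v, hv⟩ : ∃ v : Fin n → F, v = fun i => (h : Matrix (Fin n) (Fin n) F) i b₀ := ⟨_, rfl⟩
  have hdet : (Matrix.updateCol (1 : Matrix (Fin n) (Fin n) F) a v).det ≠ 0 := by
    rw [← Matrix.cramer_apply, Matrix.cramer_one, hv]
    exact hne
  obtain ⟨M, hM⟩ : ∃ M : GL (Fin n) F, (M : Matrix (Fin n) (Fin n) F) =
      Matrix.updateCol (1 : Matrix (Fin n) (Fin n) F) a v :=
    ⟨Matrix.GeneralLinearGroup.mkOfDetNeZero _ hdet, rfl⟩
  have hMP : M ∈ Cfsg.stabilizing (Cfsg.glToMat (Fin n) F)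
      {v : Fin n → F | ∀ i : Fin n, k ≤ (i : ℕ) → v i = 0} := by
    rw [Cfsg.Agent.S0773.mem_stab_iff]
    intro a' b' ha' hb'
    rw [hM, Matrix.updateCol_apply, if_neg (by
      rintro rfl
      omega), Matrix.one_apply_ne (by
      intro h
      subst h
      omega)]
  refine ⟨M⁻¹ * h, H.mul_mem (H.inv_mem (hPH hMP)) hh, ?_⟩
  have h1 : (M : Matrix (Fin n) (Fin n) F) *ᵥ Pi.single a 1 = v := by
    rw [Matrix.mulVec_single_one, hM]
    ext i
    simp
  have h2 : (M : Matrix (Fin n) (Fin n) F) *ᵥ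
      (((M⁻¹ * h : GL (Fin n) F) : Matrix (Fin n) (Fin n) F) *ᵥ Pi.single b₀ 1) = v := by
    rw [Matrix.mulVec_mulVec, ← Units.val_mul, mul_inv_cancel_left, Matrix.mulVec_single_one, hv]
    rfl
  have hinj : ∀ x y : Fin n → F, (M : Matrix (Fin n) (Fin n) F) *ᵥ x =
      (M : Matrix (Fin n) (Fin n) F) *ᵥ y → x = y := by
    intro x y hxy
    have h4 := congrArg (fun w => ((M⁻¹ : GL (Fin n) F) : Matrix (Fin n) (Fin n) F) *ᵥ w) hxy
    simp only [Matrix.mulVec_mulVec, Units.inv_mul, Matrix.one_mulVec] at h4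
    exact h4
  have h3 : ((M⁻¹ * h : GL (Fin n) F) : Matrix (Fin n) (Fin n) F) *ᵥ Pi.single b₀ 1 =
      Pi.single a 1 := hinj _ _ (h2.trans h1.symm)
  intro i
  have h5 := congrFun h3 i
  rw [Matrix.mulVec_single_one, Pi.single_apply] at h5
  exact h5

/-- Maximal parabolics are maximal: over a finite field, for 0 < k < n the stabiliser in GL_n of the span of the first k coordinate vectors is a maximal proper subgroup. -/
theorem result {F : Type*} [Field F] [Finite F] (n k : ℕ) (hk0 : 0 < k) (hkn : k < n) : IsCoatom (Cfsg.stabilizing (Cfsg.glToMat (Fin n) F) {v : Fin n → F | ∀ i : Fin n, k ≤ (i : ℕ) → v i = 0}) := by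
  classical
  constructor
  · intro htop
    have hne : (⟨k, hkn⟩ : Fin n) ≠ ⟨0, by omega⟩ := by
      intro h
      rw [Fin.ext_iff] at h
      simp at h
      omega
    have h1 : T n ⟨k, hkn⟩ ⟨0, by omega⟩ hne (1 : F) ∈ Cfsg.stabilizing (Cfsg.glToMat (Fin n) F)
        {v : Fin n → F | ∀ i : Fin n, k ≤ (i : ℕ) → v i = 0} := by
      rw [htop]
      trivial
    rw [Cfsg.Agent.S0773.mem_stab_iff] at h1
    have h2 := h1 ⟨k, hkn⟩ ⟨0, by omega⟩ (le_refl _) hk0
    change Matrix.transvection (⟨k, hkn⟩ : Fin n) ⟨0, by omega⟩ (1 : F) ⟨k, hkn⟩ ⟨0, by omega⟩ = 0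
      at h2
    rw [Matrix.transvection, Matrix.add_apply, Matrix.one_apply_ne hne, zero_add,
      Matrix.single_apply_same] at h2
    exact one_ne_zero h2
  · intro H hPH
    obtain ⟨h, hhH, hhP⟩ := SetLike.exists_of_lt hPH
    rw [Cfsg.Agent.S0773.mem_stab_iff] at hhP
    push Not at hhP
    obtain ⟨a₁, b₀, ha₁, hb₀, hne⟩ := hhP
    have hT : ∀ (a b : Fin n) (hab : a ≠ b) (c : F), T n a b hab c ∈ H := by
      intro a b hab c
      by_cases hcase : k ≤ (a : ℕ) ∧ (b : ℕ) < k
      · obtain ⟨h', hh', hne'⟩ : ∃ h' ∈ H, (h' : Matrix (Fin n) (Fin n) F) a b₀ ≠ 0 := by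
          by_cases h0 : (h : Matrix (Fin n) (Fin n) F) a b₀ = 0
          · have haa : a ≠ a₁ := by
              rintro rfl
              exact hne h0
            refine ⟨T n a a₁ haa 1 * h, H.mul_mem (hPH.le (T_mem n k a a₁ haa 1 (by omega))) hhH, ?_⟩
            show (Matrix.transvection a a₁ (1 : F) * (h : Matrix (Fin n) (Fin n) F)) a b₀ ≠ 0
            rw [Matrix.transvection, add_mul, one_mul, Matrix.add_apply, h0, zero_add,
              Matrix.single_mul_apply_same, one_mul]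
            exact hne
          · exact ⟨h, hhH, h0⟩
        obtain ⟨G, hG, hcol⟩ := stepi n k H hPH.le h' hh' a b₀ hcase.1 hne'
        exact stepii n k H hPH.le G hG a b₀ hcase.1 hb₀ hcol b hab c
      · exact hPH.le (T_mem n k a b hab c hcase)
    rw [eq_top_iff]
    intro g _
    have key := Matrix.diagonal_transvection_induction_of_det_ne_zero
      (fun M => ∀ g : GL (Fin n) F, (g : Matrix (Fin n) (Fin n) F) = M → g ∈ H)
      (g : Matrix (Fin n) (Fin n) F) (Matrix.isUnits_det_units g).ne_zero ?_ ?_ ?_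
    · exact key g rfl
    · intro D hD g' hg'
      apply hPH.le
      rw [Cfsg.Agent.S0773.mem_stab_iff]
      intro a b ha hb
      rw [hg', Matrix.diagonal_apply_ne]
      intro h
      subst h
      omega
    · intro t g' hg'
      have h1 : g' = T n t.i t.j t.hij t.c := Units.ext hg'
      rw [h1]
      exact hT _ _ _ _
    · intro A B hA hB hPA hPB g' hg'
      have h1 : g' = Matrix.GeneralLinearGroup.mkOfDetNeZero A hA *
          Matrix.GeneralLinearGroup.mkOfDetNeZero B hB := Units.ext (by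
        rw [hg']
        rfl)
      rw [h1]
      exact H.mul_mem (hPA _ rfl) (hPB _ rfl)

end Cfsg.Agent.S0772
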