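import Cfsg.Statements.S0777
import Mathlib
import Cfsg.Agent.S0774

set_option autoImplicit false
open Cfsg

namespace Cfsg.Agent.S0777

open Matrix

section
variable {F : Type*} [Field F] {m : ℕ}

/-- monomial matrix: `e_j ↦ c j • e_(π j)` -/
def mon (π : Equiv.Perm (Fin m ⊕ Fin m)) (c : Fin m ⊕ Fin m → F) :
    Matrix (Fin m ⊕ Fin m) (Fin m ⊕ Fin m) F :=
  Matrix.of fun r j => if r = π j then c j else 0

theorem mon_apply (π : Equiv.Perm (Fin m ⊕ Fin m)) (c : Fin m ⊕ Fin m → F)
    (r j : Fin m ⊕ Fin m) : mon π c r j = if r = π j then c j else 0 := rfl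

theorem mon_tJ (π : Equiv.Perm (Fin m ⊕ Fin m)) (c : Fin m ⊕ Fin m → F)
    (j k : Fin m ⊕ Fin m) :
    ((mon π c)ᵀ * J (Fin m) F * mon π c) j k = c j * J (Fin m) F (π j) (π k) * c k := by
  rw [Matrix.mul_apply, Finset.sum_eq_single (π k)]
  · rw [Matrix.mul_apply, Finset.sum_eq_single (π j)]
    · rw [Matrix.transpose_apply, mon_apply, mon_apply, if_pos rfl, if_pos rfl]
    · intro r _ hr
      rw [Matrix.transpose_apply, mon_apply, if_neg hr, zero_mul]
    · intro h
      exact absurd (Finset.mem_univ _) h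
  · intro s _ hs
    rw [mon_apply, if_neg hs, mul_zero]
  · intro h
    exact absurd (Finset.mem_univ _) h

theorem J_ne (x y : Fin m ⊕ Fin m) (h : y ≠ x.swap) : J (Fin m) F x y = 0 := by
  rcases x with i | i <;> rcases y with j | j
  · simp [J]
  · have hij : i ≠ j := fun h' => h (by rw [h']; rfl)
    simp [J, hij]
  · have hij : i ≠ j := fun h' => h (by rw [h']; rfl)
    simp [J, hij]
  · simp [J]

theorem J_swap (x : Fin m ⊕ Fin m) : J (Fin m) F x x.swap ≠ 0 := by
  rcases x with i | i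
  · simp [J]
  · simp [J]

theorem J_anti (x y : Fin m ⊕ Fin m) : J (Fin m) F y x = - J (Fin m) F x y := by
  have h := congrFun (congrFun (J_transpose (Fin m) F) x) y
  simpa using h

/-- the symplectic condition on monomial data -/
def Cond (π : Equiv.Perm (Fin m ⊕ Fin m)) (c : Fin m ⊕ Fin m → F) : Prop :=
  ∀ j k, c j * J (Fin m) F (π j) (π k) * c k = J (Fin m) F j k

theorem mon_mem_iff (π : Equiv.Perm (Fin m ⊕ Fin m)) (c : Fin m ⊕ Fin m → F) :
    mon π c ∈ symplecticGroup (Fin m) F ↔ Cond π c := by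
  rw [SymplecticGroup.mem_iff']
  constructor
  · intro h j k
    rw [← mon_tJ, h]
  · intro h
    ext j k
    rw [mon_tJ, h j k]

theorem cond_ne_zero (π : Equiv.Perm (Fin m ⊕ Fin m)) (c : Fin m ⊕ Fin m → F)
    (h : Cond π c) (j : Fin m ⊕ Fin m) : c j ≠ 0 := by
  intro h0
  have h1 := h j j.swap
  rw [h0, zero_mul, zero_mul] at h1
  exact J_swap j h1.symm

theorem cond_comm (π : Equiv.Perm (Fin m ⊕ Fin m)) (c : Fin m ⊕ Fin m → F)
    (h : Cond π c) (j : Fin m ⊕ Fin m) : π j.swap = (π j).swap := by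
  by_contra hne
  have h1 := h j j.swap
  rw [J_ne _ _ hne, mul_zero, zero_mul] at h1
  exact J_swap j h1.symm

theorem mon_inj (π π' : Equiv.Perm (Fin m ⊕ Fin m)) (c c' : Fin m ⊕ Fin m → F)
    (h : Cond π c) (heq : mon π c = mon π' c') : π = π' ∧ c = c' := by
  have key : ∀ j, π j = π' j ∧ c j = c' j := by
    intro j
    have h1 := congrFun (congrFun heq (π j)) j
    rw [mon_apply, mon_apply, if_pos rfl] at h1
    by_cases hj : π j = π' j
    · rw [if_pos hj] at h1
      exact ⟨hj, h1⟩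
    · rw [if_neg hj] at h1
      exact absurd h1 (cond_ne_zero π c h j)
  exact ⟨Equiv.ext fun j => (key j).1, funext fun j => (key j).2⟩

/-- diagonal torus element -/
def dmat (d : Fin m → F) : Matrix (Fin m ⊕ Fin m) (Fin m ⊕ Fin m) F :=
  Matrix.fromBlocks (Matrix.diagonal d) 0 0 (Matrix.diagonal fun i => (d i)⁻¹)

theorem dmat_mem (d : Fin m → F) (hd : ∀ i, d i ≠ 0) :
    dmat d ∈ symplecticGroup (Fin m) F := by
  rw [dmat, SymplecticGroup.fromBlocks_mem_iff]
  refine ⟨by simp, by simp, ?_⟩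
  rw [Matrix.diagonal_transpose, Matrix.diagonal_mul_diagonal, Matrix.transpose_zero,
    Matrix.zero_mul, sub_zero]
  rw [← Matrix.diagonal_one]
  congr 1
  funext i
  exact mul_inv_cancel₀ (hd i)

theorem dmat_offdiag (d : Fin m → F) (i j : Fin m ⊕ Fin m) (h : i ≠ j) : dmat d i j = 0 := by
  rcases i with i | i <;> rcases j with j | j
  · have hij : i ≠ j := fun h' => h (by rw [h'])
    simp [dmat, Matrix.diagonal_apply_ne _ hij]
  · simp [dmat]
  · simp [dmat]
  · have hij : i ≠ j := fun h' => h (by rw [h'])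
    simp [dmat, Matrix.diagonal_apply_ne _ hij]

theorem dmat_inl (d : Fin m → F) (i : Fin m) : dmat d (Sum.inl i) (Sum.inl i) = d i := by
  simp [dmat]

theorem dmat_inr (d : Fin m → F) (i : Fin m) : dmat d (Sum.inr i) (Sum.inr i) = (d i)⁻¹ := by
  simp [dmat]

end

section
variable {F : Type*} [Field F] [Fintype F] {m : ℕ}

/-- the diagonal torus -/
def Tor (m : ℕ) (F : Type*) [Field F] : Subgroup (symplecticGroup (Fin m) F) :=
  ⨅ i : Fin m ⊕ Fin m, Cfsg.stabilizing (Cfsg.spToMat m F)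
    ((Submodule.span F {(Pi.single i (1 : F) : Fin m ⊕ Fin m → F)} :
      Submodule F (Fin m ⊕ Fin m → F)) : Set (Fin m ⊕ Fin m → F))

theorem mem_T_iff (g : symplecticGroup (Fin m) F) :
    g ∈ Tor m F ↔ ∀ i j, i ≠ j → (g : Matrix (Fin m ⊕ Fin m) (Fin m ⊕ Fin m) F) i j = 0 := by
  classical
  rw [Tor, Subgroup.mem_iInf]
  constructor
  · intro h i j hij
    have h1 := (h j (Pi.single j 1)).1 (Submodule.subset_span rfl)
    rw [SetLike.mem_coe, Submodule.mem_span_singleton] at h1
    obtain ⟨a, ha⟩ := h1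
    have h2 := congrFun ha i
    rw [Matrix.mulVec_single_one] at h2
    rw [Pi.smul_apply, Pi.single_eq_of_ne hij, smul_zero] at h2
    exact h2.symm
  · intro h i
    apply Cfsg.Agent.S0774.mem_stab_of_mapsTo _ _ (Set.toFinite _)
    intro v hv
    rw [SetLike.mem_coe, Submodule.mem_span_singleton] at hv
    obtain ⟨a, rfl⟩ := hv
    rw [SetLike.mem_coe, Matrix.mulVec_smul, Matrix.mulVec_single_one]
    apply Submodule.smul_mem
    have h3 : (Cfsg.spToMat m F g).col i =
        (g : Matrix (Fin m ⊕ Fin m) (Fin m ⊕ Fin m) F) i i • Pi.single i (1 : F) := by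
      funext r
      rw [Pi.smul_apply, smul_eq_mul]
      by_cases hr : r = i
      · rw [hr, Pi.single_eq_same, mul_one]
        rfl
      · rw [Pi.single_eq_of_ne hr, mul_zero]
        exact h r i hr
    rw [h3]
    exact Submodule.smul_mem _ _ (Submodule.subset_span rfl)

theorem col_unique (hq : 4 ≤ Fintype.card F) (g : symplecticGroup (Fin m) F)
    (hg : g ∈ Subgroup.normalizer (Tor m F : Set (symplecticGroup (Fin m) F)))
    (j r r' : Fin m ⊕ Fin m)
    (hr : (g : Matrix (Fin m ⊕ Fin m) (Fin m ⊕ Fin m) F) r j ≠ 0)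
    (hr' : (g : Matrix (Fin m ⊕ Fin m) (Fin m ⊕ Fin m) F) r' j ≠ 0) : r = r' := by
  classical
  by_contra hne
  obtain ⟨a, ha⟩ : ∃ a : F, a ∉ ({0, 1, -1} : Finset F) := by
    by_contra hcon
    push Not at hcon
    have h1 : (Finset.univ : Finset F) ⊆ ({0, 1, -1} : Finset F) := fun a _ => hcon a
    have h2 := Finset.card_le_card h1
    rw [Finset.card_univ] at h2
    have h3 := Finset.card_le_three (a := (0 : F)) (b := 1) (c := -1)
    omega
  simp only [Finset.mem_insert, Finset.mem_singleton, not_or] at ha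
  obtain ⟨ha0, ha1, ham1⟩ := ha
  have haa : a ≠ a⁻¹ := by
    intro h
    have h1 : a * a = 1 := by
      have h2 := congrArg (fun x => a * x) h
      simp only [mul_inv_cancel₀ ha0] at h2
      exact h2
    have h2 : (a - 1) * (a + 1) = 0 := by linear_combination h1
    rcases mul_eq_zero.1 h2 with h3 | h3
    · exact ha1 (sub_eq_zero.1 h3)
    · exact ham1 (eq_neg_of_add_eq_zero_left h3)
  have hainv1 : a⁻¹ ≠ 1 := fun h => ha1 (inv_eq_one.1 h)
  obtain ⟨d, hd⟩ : ∃ d : Fin m → F,
      d = Function.update (fun _ => (1 : F)) (Sum.elim id id r) a := ⟨_, rfl⟩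
  have hd0 : ∀ i, d i ≠ 0 := by
    intro i
    rw [hd]
    by_cases hi : i = Sum.elim id id r
    · rw [hi, Function.update_self]
      exact ha0
    · rw [Function.update_of_ne hi]
      exact one_ne_zero
  obtain ⟨t, ht⟩ : ∃ t : symplecticGroup (Fin m) F, t = ⟨dmat d, dmat_mem d hd0⟩ := ⟨_, rfl⟩
  have htm : (t : Matrix (Fin m ⊕ Fin m) (Fin m ⊕ Fin m) F) = dmat d := by rw [ht]
  have htT : t ∈ Tor m F := by
    rw [mem_T_iff, htm]
    exact dmat_offdiag d
  have hneq : dmat d r r ≠ dmat d r' r' := by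
    rcases r with i | i <;> rcases r' with i' | i'
    · have hii : i' ≠ i := fun h => hne (by rw [h])
      rw [dmat_inl, dmat_inl, hd]
      simp only [Sum.elim_inl, id]
      rw [Function.update_self, Function.update_of_ne hii]
      exact ha1
    · rw [dmat_inl, dmat_inr, hd]
      simp only [Sum.elim_inl, id]
      rw [Function.update_self]
      by_cases hii : i' = i
      · rw [hii, Function.update_self]
        exact haa
      · rw [Function.update_of_ne hii, inv_one]
        exact ha1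
    · rw [dmat_inr, dmat_inl, hd]
      simp only [Sum.elim_inr, id]
      rw [Function.update_self]
      by_cases hii : i' = i
      · rw [hii, Function.update_self]
        exact haa.symm
      · rw [Function.update_of_ne hii]
        exact hainv1
    · have hii : i' ≠ i := fun h => hne (by rw [h])
      rw [dmat_inr, dmat_inr, hd]
      simp only [Sum.elim_inr, id]
      rw [Function.update_self, Function.update_of_ne hii, inv_one]
      exact hainv1
  have hconj : g⁻¹ * t * g ∈ Tor m F := ((Subgroup.mem_normalizer_iff''.1 hg) t).1 htT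
  have hdiag := (mem_T_iff _).1 hconj
  have hmat : (g : Matrix (Fin m ⊕ Fin m) (Fin m ⊕ Fin m) F) *
      ((g⁻¹ * t * g : symplecticGroup (Fin m) F) : Matrix (Fin m ⊕ Fin m) (Fin m ⊕ Fin m) F) =
      dmat d * (g : Matrix (Fin m ⊕ Fin m) (Fin m ⊕ Fin m) F) := by
    have h1 : g * (g⁻¹ * t * g) = t * g := by group
    rw [← htm, ← Submonoid.coe_mul, ← Submonoid.coe_mul, h1]
  have key : ∀ r0, (g : Matrix (Fin m ⊕ Fin m) (Fin m ⊕ Fin m) F) r0 j ≠ 0 →
      dmat d r0 r0 = ((g⁻¹ * t * g : symplecticGroup (Fin m) F) :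
        Matrix (Fin m ⊕ Fin m) (Fin m ⊕ Fin m) F) j j := by
    intro r0 h0
    have h1 := congrFun (congrFun hmat r0) j
    rw [Matrix.mul_apply, Finset.sum_eq_single j, Matrix.mul_apply,
      Finset.sum_eq_single r0] at h1
    · exact (mul_right_cancel₀ h0 (by rw [← h1, mul_comm])).symm
    · intro k _ hk
      rw [dmat_offdiag d r0 k hk.symm, zero_mul]
    · intro h
      exact absurd (Finset.mem_univ _) h
    · intro k _ hk
      rw [hdiag k j hk, mul_zero]
    · intro h
      exact absurd (Finset.mem_univ _) h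
  exact hneq ((key r hr).trans (key r' hr').symm)

theorem exists_mon (hq : 4 ≤ Fintype.card F) (g : symplecticGroup (Fin m) F)
    (hg : g ∈ Subgroup.normalizer (Tor m F : Set (symplecticGroup (Fin m) F))) :
    ∃ (π : Equiv.Perm (Fin m ⊕ Fin m)) (c : Fin m ⊕ Fin m → F),
      (g : Matrix (Fin m ⊕ Fin m) (Fin m ⊕ Fin m) F) = mon π c := by
  classical
  have hinvmul : ((g⁻¹ : symplecticGroup (Fin m) F) : Matrix (Fin m ⊕ Fin m) (Fin m ⊕ Fin m) F) *
      (g : Matrix (Fin m ⊕ Fin m) (Fin m ⊕ Fin m) F) = 1 := by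
    rw [← Submonoid.coe_mul, inv_mul_cancel, Submonoid.coe_one]
  have hcol : ∀ j, ∃ r, (g : Matrix (Fin m ⊕ Fin m) (Fin m ⊕ Fin m) F) r j ≠ 0 := by
    intro j
    by_contra hcon
    push Not at hcon
    have h3 := congrFun (congrFun hinvmul j) j
    rw [Matrix.mul_apply, Matrix.one_apply_eq] at h3
    rw [Finset.sum_eq_zero (fun r _ => by rw [hcon r, mul_zero])] at h3
    exact zero_ne_one h3
  choose π₀ hπ₀ using hcol
  have huniq : ∀ j r, (g : Matrix (Fin m ⊕ Fin m) (Fin m ⊕ Fin m) F) r j ≠ 0 → r = π₀ j :=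
    fun j r hr => col_unique hq g hg j r (π₀ j) hr (hπ₀ j)
  have hinj : Function.Injective π₀ := by
    intro j j' hjj
    by_contra hne
    obtain ⟨v, hv⟩ : ∃ v : Fin m ⊕ Fin m → F,
        v = (g : Matrix (Fin m ⊕ Fin m) (Fin m ⊕ Fin m) F) (π₀ j) j' • Pi.single j (1 : F) -
          (g : Matrix (Fin m ⊕ Fin m) (Fin m ⊕ Fin m) F) (π₀ j) j • Pi.single j' (1 : F) :=
      ⟨_, rfl⟩
    have hGv : (g : Matrix (Fin m ⊕ Fin m) (Fin m ⊕ Fin m) F) *ᵥ v = 0 := by
      rw [hv, Matrix.mulVec_sub, Matrix.mulVec_smul, Matrix.mulVec_smul,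
        Matrix.mulVec_single_one, Matrix.mulVec_single_one]
      funext r
      simp only [Pi.sub_apply, Pi.smul_apply, Matrix.col_apply, smul_eq_mul, Pi.zero_apply]
      by_cases hr : r = π₀ j
      · rw [hr]
        ring
      · have h1 : (g : Matrix (Fin m ⊕ Fin m) (Fin m ⊕ Fin m) F) r j = 0 := by
          by_contra h
          exact hr (huniq j r h)
        have h2 : (g : Matrix (Fin m ⊕ Fin m) (Fin m ⊕ Fin m) F) r j' = 0 := by
          by_contra h
          exact hr ((huniq j' r h).trans hjj.symm)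
        rw [h1, h2]
        ring
    have hv0 : v = 0 := by
      have h1 := congrArg (fun w => ((g⁻¹ : symplecticGroup (Fin m) F) :
        Matrix (Fin m ⊕ Fin m) (Fin m ⊕ Fin m) F) *ᵥ w) hGv
      simp only [Matrix.mulVec_mulVec, hinvmul, Matrix.one_mulVec, Matrix.mulVec_zero] at h1
      exact h1
    have h4 := congrFun hv0 j'
    rw [hv] at h4
    simp only [Pi.sub_apply, Pi.smul_apply, smul_eq_mul, Pi.zero_apply, Pi.single_eq_same,
      Pi.single_eq_of_ne (Ne.symm hne), mul_zero, mul_one, zero_sub, neg_eq_zero] at h4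
    exact hπ₀ j h4
  refine ⟨Equiv.ofBijective π₀ (Finite.injective_iff_bijective.1 hinj),
    fun j => (g : Matrix (Fin m ⊕ Fin m) (Fin m ⊕ Fin m) F) (π₀ j) j, ?_⟩
  ext r j
  rw [mon_apply, Equiv.ofBijective_apply]
  by_cases hr : r = π₀ j
  · rw [if_pos hr, hr]
  · rw [if_neg hr]
    by_contra h
    exact hr (huniq j r h)

theorem mon_normalizes (π : Equiv.Perm (Fin m ⊕ Fin m)) (c : Fin m ⊕ Fin m → F)
    (h : Cond π c) :
    (⟨mon π c, (mon_mem_iff π c).2 h⟩ : symplecticGroup (Fin m) F) ∈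
      Subgroup.normalizer (Tor m F : Set (symplecticGroup (Fin m) F)) := by
  classical
  have : Finite (symplecticGroup (Fin m) F) := Subtype.finite
  apply Subgroup.mem_normalizer_fintype
  intro t ht
  rw [SetLike.mem_coe] at ht ⊢
  obtain ⟨g, hgdef⟩ : ∃ g : symplecticGroup (Fin m) F,
      g = ⟨mon π c, (mon_mem_iff π c).2 h⟩ := ⟨_, rfl⟩
  rw [← hgdef]
  rw [mem_T_iff] at ht ⊢
  have hM : (g : Matrix (Fin m ⊕ Fin m) (Fin m ⊕ Fin m) F) = mon π c := by rw [hgdef]
  have h1 : (g : Matrix (Fin m ⊕ Fin m) (Fin m ⊕ Fin m) F) *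
      (t : Matrix (Fin m ⊕ Fin m) (Fin m ⊕ Fin m) F) =
      Matrix.diagonal (fun r => (t : Matrix (Fin m ⊕ Fin m) (Fin m ⊕ Fin m) F)
        (π.symm r) (π.symm r)) * (g : Matrix (Fin m ⊕ Fin m) (Fin m ⊕ Fin m) F) := by
    ext r j
    rw [Matrix.diagonal_mul, Matrix.mul_apply, Finset.sum_eq_single j, hM, mon_apply]
    · by_cases hr : r = π j
      · rw [if_pos hr, hr, Equiv.symm_apply_apply, mul_comm]
      · rw [if_neg hr, zero_mul, mul_zero]
    · intro k _ hk
      rw [ht k j hk, mul_zero]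
    · intro hh
      exact absurd (Finset.mem_univ _) hh
  have h2 : ((g * t * g⁻¹ : symplecticGroup (Fin m) F) :
      Matrix (Fin m ⊕ Fin m) (Fin m ⊕ Fin m) F) =
      Matrix.diagonal (fun r => (t : Matrix (Fin m ⊕ Fin m) (Fin m ⊕ Fin m) F)
        (π.symm r) (π.symm r)) := by
    rw [Submonoid.coe_mul, Submonoid.coe_mul, h1, Matrix.mul_assoc, ← Submonoid.coe_mul,
      mul_inv_cancel, Submonoid.coe_one, Matrix.mul_one]
  intro i j hij
  rw [h2, Matrix.diagonal_apply_ne _ hij]

/-- for `π` commuting with the swap, the coefficient vectors are parametrised by `(Fˣ)^m` -/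
noncomputable def cEquiv (π : Equiv.Perm (Fin m ⊕ Fin m))
    (hπ : ∀ j, π j.swap = (π j).swap) :
    {c : Fin m ⊕ Fin m → F // Cond π c} ≃ (Fin m → Fˣ) where
  toFun c := fun i => Units.mk0 (c.1 (Sum.inl i)) (cond_ne_zero π c.1 c.2 _)
  invFun a := ⟨Sum.elim (fun i => (a i : F)) (fun i => (a i : F)⁻¹ *
      (J (Fin m) F (π (Sum.inl i)) (π (Sum.inr i)))⁻¹ * J (Fin m) F (Sum.inl i) (Sum.inr i)), by
    have hJ : ∀ i : Fin m, J (Fin m) F (π (Sum.inl i)) (π (Sum.inr i)) ≠ 0 := by
      intro i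
      have h1 := hπ (Sum.inl i)
      rw [Sum.swap_inl] at h1
      rw [h1]
      exact J_swap _
    intro j k
    by_cases hk : k = j.swap
    · subst hk
      rcases j with i | i
      · simp only [Sum.swap_inl, Sum.elim_inl, Sum.elim_inr]
        have := hJ i
        have ha : (a i : F) ≠ 0 := (a i).ne_zero
        field_simp
      · simp only [Sum.swap_inr, Sum.elim_inl, Sum.elim_inr]
        rw [J_anti (π (Sum.inl i)) (π (Sum.inr i)), J_anti (Sum.inl i) (Sum.inr i)]
        have := hJ i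
        have ha : (a i : F) ≠ 0 := (a i).ne_zero
        field_simp
    · have h1 : π k ≠ (π j).swap := by
        rw [← hπ j]
        exact fun h => hk (π.injective h)
      rw [J_ne _ _ h1, J_ne _ _ hk, mul_zero, zero_mul]⟩
  left_inv := by
    rintro ⟨c, hc⟩
    apply Subtype.ext
    funext x
    rcases x with i | i
    · rfl
    · simp only [Sum.elim_inr, Units.val_mk0]
      have h1 := hc (Sum.inl i) (Sum.inr i)
      have h2 := cond_ne_zero π c hc (Sum.inl i)
      have h3 : J (Fin m) F (π (Sum.inl i)) (π (Sum.inr i)) ≠ 0 := by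
        have h4 := hπ (Sum.inl i)
        rw [Sum.swap_inl] at h4
        rw [h4]
        exact J_swap _
      rw [← h1]
      field_simp
  right_inv := by
    intro a
    funext i
    apply Units.ext
    simp

theorem card_cond (π : Equiv.Perm (Fin m ⊕ Fin m)) :
    Nat.card {c : Fin m ⊕ Fin m → F // Cond π c} =
      if (∀ j, π j.swap = (π j).swap) then (Fintype.card F - 1) ^ m else 0 := by
  classical
  split_ifs with hπ
  · rw [Nat.card_congr (cEquiv π hπ), Nat.card_fun, Nat.card_eq_fintype_card,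
      Nat.card_eq_fintype_card, Fintype.card_units, Fintype.card_fin]
  · have : IsEmpty {c : Fin m ⊕ Fin m → F // Cond π c} :=
      ⟨fun c => hπ (cond_comm π c.1 c.2)⟩
    exact Nat.card_of_isEmpty

end

theorem card_centralizer_swap (m : ℕ) :
    Nat.card ↥(Subgroup.centralizer
      {(Equiv.sumComm (Fin m) (Fin m) : Equiv.Perm (Fin m ⊕ Fin m))}) =
      2 ^ m * m.factorial := by
  classical
  obtain ⟨s, hs⟩ : ∃ s : Equiv.Perm (Fin m ⊕ Fin m), s = Equiv.sumComm (Fin m) (Fin m) :=
    ⟨_, rfl⟩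
  rw [← hs]
  have hs2 : s ^ 2 = 1 := by
    rw [hs]
    ext x
    simp [pow_two]
  have hsupp : s.support = Finset.univ := by
    ext x
    simp only [Equiv.Perm.mem_support, Finset.mem_univ, iff_true]
    rw [hs]
    rcases x with i | i <;> simp
  have hmem : ∀ n ∈ s.cycleType, n = 2 := by
    intro n hn
    have h1 := Equiv.Perm.dvd_of_mem_cycleType hn
    have h2 := Equiv.Perm.two_le_of_mem_cycleType hn
    have h3 : orderOf s ∣ 2 := orderOf_dvd_of_pow_eq_one hs2
    have h4 := Nat.le_of_dvd (by norm_num) (h1.trans h3)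
    omega
  have hrep : s.cycleType = Multiset.replicate (Multiset.card s.cycleType) 2 :=
    Multiset.eq_replicate_card.2 hmem
  have hsum : s.cycleType.sum = 2 * m := by
    rw [Equiv.Perm.sum_cycleType, hsupp, Finset.card_univ, Fintype.card_sum, Fintype.card_fin]
    ring
  have hcard : Multiset.card s.cycleType = m := by
    rw [hrep, Multiset.sum_replicate, smul_eq_mul] at hsum
    omega
  rw [hcard] at hrep
  rw [Equiv.Perm.nat_card_centralizer, hsum, hrep]
  have h1 : Fintype.card (Fin m ⊕ Fin m) - 2 * m = 0 := by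
    rw [Fintype.card_sum, Fintype.card_fin]
    omega
  rw [h1, Multiset.prod_replicate, Nat.factorial_zero, one_mul]
  congr 1
  rcases Nat.eq_zero_or_pos m with h0 | h0
  · subst h0
    simp
  · have h2 : (Multiset.replicate m 2).toFinset = {2} := by
      ext x
      simp only [Multiset.mem_toFinset, Multiset.mem_replicate, Finset.mem_singleton]
      constructor
      · exact fun h => h.2
      · exact fun h => ⟨by omega, h⟩
    rw [h2, Finset.prod_singleton, Multiset.count_replicate_self]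

/-- Weyl group of type C_m: for q ≥ 4 the diagonal matrices of Sp_2m(q) form a torus T ≅ (C_(q−1))^m (the elements stabilising every coordinate axis), and the normaliser of T in Sp_2m(q) has order 2^m · m! · (q − 1)^m. -/
theorem result {F : Type*} [Field F] [Fintype F] {q : ℕ} (hF : Fintype.card F = q) (hq : 4 ≤ q) (m : ℕ) : Nat.card ↥(Subgroup.normalizer (⨅ i : Fin m ⊕ Fin m, Cfsg.stabilizing (Cfsg.spToMat m F) ((Submodule.span F {(Pi.single i (1 : F) : Fin m ⊕ Fin m → F)} : Submodule F (Fin m ⊕ Fin m → F)) : Set (Fin m ⊕ Fin m → F)) : Set (Matrix.symplecticGroup (Fin m) F))) = 2 ^ m * Nat.factorial m * (q - 1) ^ m := by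
  classical
  subst hF
  have hset : (⨅ i : Fin m ⊕ Fin m, ((Cfsg.stabilizing (Cfsg.spToMat m F)
      ((Submodule.span F {(Pi.single i (1 : F) : Fin m ⊕ Fin m → F)} :
        Submodule F (Fin m ⊕ Fin m → F)) : Set (Fin m ⊕ Fin m → F)) :
      Subgroup (Matrix.symplecticGroup (Fin m) F)) : Set (Matrix.symplecticGroup (Fin m) F))) =
      (Tor m F : Set (Matrix.symplecticGroup (Fin m) F)) := by
    rw [Tor, Subgroup.coe_iInf]
    rfl
  rw [hset]
  let Φ : {p : Equiv.Perm (Fin m ⊕ Fin m) × (Fin m ⊕ Fin m → F) // Cond p.1 p.2} →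
      ↥(Subgroup.normalizer (Tor m F : Set (Matrix.symplecticGroup (Fin m) F))) :=
    fun p => ⟨⟨mon p.1.1 p.1.2, (mon_mem_iff _ _).2 p.2⟩, mon_normalizes _ _ p.2⟩
  have hΦ : Function.Bijective Φ := by
    constructor
    · rintro ⟨⟨π, c⟩, h⟩ ⟨⟨π', c'⟩, h'⟩ heq
      have h1 : mon π c = mon π' c' :=
        congrArg (fun x : ↥(Subgroup.normalizer (Tor m F : Set (Matrix.symplecticGroup (Fin m) F))) =>
          ((x : Matrix.symplecticGroup (Fin m) F) : Matrix (Fin m ⊕ Fin m) (Fin m ⊕ Fin m) F)) heq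
      obtain ⟨h2, h3⟩ := mon_inj π π' c c' h h1
      subst h2
      subst h3
      rfl
    · rintro ⟨g, hg⟩
      obtain ⟨π, c, hgm⟩ := exists_mon hq g hg
      have hc : Cond π c := (mon_mem_iff π c).1 (hgm ▸ g.2)
      exact ⟨⟨(π, c), hc⟩, Subtype.ext (Subtype.ext hgm.symm)⟩
  rw [← Nat.card_congr (Equiv.ofBijective Φ hΦ)]
  rw [Nat.card_congr (Equiv.subtypeProdEquivSigmaSubtype
    (fun (π : Equiv.Perm (Fin m ⊕ Fin m)) (c : Fin m ⊕ Fin m → F) => Cond π c)), Nat.card_sigma]
  simp_rw [card_cond]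
  rw [Finset.sum_ite, Finset.sum_const_zero, add_zero, Finset.sum_const, smul_eq_mul,
    ← card_centralizer_swap m]
  congr 1
  rw [Nat.card_eq_fintype_card, Fintype.card_subtype]
  congr 1
  ext π
  simp only [Finset.mem_filter, Finset.mem_univ, true_and]
  rw [Subgroup.mem_centralizer_singleton_iff]
  constructor
  · intro h
    ext j
    simp only [Equiv.Perm.mul_apply, Equiv.sumComm_apply]
    exact h j
  · intro h j
    have h1 := congrArg (fun f : Equiv.Perm (Fin m ⊕ Fin m) => f j) h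
    simp only [Equiv.Perm.mul_apply, Equiv.sumComm_apply] at h1
    exact h1

end Cfsg.Agent.S0777
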