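import Cfsg.Statements.S0785
import Cfsg.Agent.Lib.Helper13.Refl

set_option autoImplicit false
open Cfsg

namespace Cfsg.Agent.S0785

/-- det(I) = {±1}: for a quadratic form on F^n whose polar form is non-degenerate, every element of the isometry group has determinant 1 or −1, and as soon as Q takes a non-zero value some isometry has determinant −1. -/
theorem result {F : Type*} [Field F] {n : ℕ} (Q : QuadraticForm F (Fin n → F)) (hQ : (QuadraticMap.polarBilin Q).Nondegenerate) : (∀ g : ↥(Cfsg.isometryGroup F ⇑Q), ((g : Matrix.GeneralLinearGroup (Fin n) F) : Matrix (Fin n) (Fin n) F).det = 1 ∨ ((g : Matrix.GeneralLinearGroup (Fin n) F) : Matrix (Fin n) (Fin n) F).det = -1) ∧ ((∃ v, Q v ≠ 0) → ∃ g : ↥(Cfsg.isometryGroup F ⇑Q), ((g : Matrix.GeneralLinearGroup (Fin n) F) : Matrix (Fin n) (Fin n) F).det = -1) := by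
  constructor
  · intro g
    set A : Matrix (Fin n) (Fin n) F := ((g : Matrix.GeneralLinearGroup (Fin n) F) :
      Matrix (Fin n) (Fin n) F) with hA
    have hiso : ∀ u : Fin n → F, Q (A.mulVec u) = Q u := fun u => g.2 u u
    set M : Matrix (Fin n) (Fin n) F := LinearMap.BilinForm.toMatrix' (QuadraticMap.polarBilin Q)
      with hM
    have hMB : Matrix.toBilin' M = QuadraticMap.polarBilin Q := Matrix.toBilin'_toMatrix' _
    have hdetM : M.det ≠ 0 := by
      rw [← LinearMap.BilinForm.nondegenerate_toBilin'_iff_det_ne_zero, hMB]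
      exact hQ
    have hcomp : A.transpose * M * A = M := by
      apply Matrix.toBilin'.injective
      rw [← Matrix.toBilin'_comp, hMB]
      apply LinearMap.ext₂
      intro u w
      simp only [LinearMap.BilinForm.comp_apply, Matrix.toLin'_apply]
      change QuadraticMap.polar Q (A.mulVec u) (A.mulVec w) = QuadraticMap.polar Q u w
      rw [QuadraticMap.polar, QuadraticMap.polar, ← Matrix.mulVec_add, hiso, hiso, hiso]
    have hdet := congrArg Matrix.det hcomp
    rw [Matrix.det_mul, Matrix.det_mul, Matrix.det_transpose] at hdet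
    have h1 : A.det * A.det = 1 := by
      have h2 : (A.det * A.det) * M.det = 1 * M.det := by linear_combination hdet
      exact mul_right_cancel₀ hdetM h2
    have h3 : (A.det - 1) * (A.det + 1) = 0 := by linear_combination h1
    rcases mul_eq_zero.1 h3 with h | h
    · left; linear_combination h
    · right; linear_combination h
  · rintro ⟨v, hv⟩
    have hdet := Cfsg.Agent.Lib.Helper13.Refl.reflection_det Q v hv
    have hne : (Cfsg.reflectionMatrix ⇑Q v).det ≠ 0 := by
      rw [hdet]
      exact neg_ne_zero.2 one_ne_zero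
    refine ⟨⟨Matrix.GeneralLinearGroup.mkOfDetNeZero (Cfsg.reflectionMatrix ⇑Q v) hne, ?_⟩, ?_⟩
    · intro u w
      exact Cfsg.Agent.Lib.Helper13.Refl.reflection_isometry Q v hv u
    · exact hdet

end Cfsg.Agent.S0785
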