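import Cfsg.Statements.S0786
import Cfsg.Agent.Lib.Helper44.OMat2

set_option autoImplicit false
open Cfsg

namespace Cfsg.Agent.S0786

open Module QuadraticMap Matrix
open Cfsg.Agent.Lib.Helper44.QSpace Cfsg.Agent.Lib.Helper44.OGroup Cfsg.Agent.Lib.Helper44.Spinor
open Cfsg.Agent.Lib.Helper44.OMat Cfsg.Agent.Lib.Helper44.CD2a Cfsg.Agent.Lib.Helper44.Omega2
open Cfsg.Agent.Lib.Helper44.OMat2


/-- Generation by reflections: if F is finite, Q is a quadratic form on F^n with non-degenerate polar form, and (|F|, n) ≠ (2, 4), then the isometry group of Q is generated by the reflections r_v, Q(v) ≠ 0. -/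
theorem result {F : Type*} [Field F] [Fintype F] {n : ℕ} (Q : QuadraticForm F (Fin n → F)) (hQ : (QuadraticMap.polarBilin Q).Nondegenerate) (h : Fintype.card F ≠ 2 ∨ n ≠ 4) : Subgroup.closure {g : ↥(Cfsg.isometryGroup F ⇑Q) | ∃ v : Fin n → F, Q v ≠ 0 ∧ ((g : Matrix.GeneralLinearGroup (Fin n) F) : Matrix (Fin n) (Fin n) F) = Cfsg.reflectionMatrix ⇑Q v} = ⊤ := by
  have hS := sep_of_nondegenerate hQ
  have hCD : CDP Q := cdp_of_card hS (by rw [Fintype.card_fin]; exact h)
  rw [eq_top_iff]
  intro g _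
  obtain ⟨vs, hvs, hg⟩ := exists_prod_of_cdp hCD g
  have e : g = (vs.map (fun v => (isoEquiv Q).symm (refl Q v))).prod := by
    apply (isoEquiv Q).injective
    rw [hg, map_list_prod, List.map_map]
    congr 1
    apply List.map_congr_left
    intro v _
    simp
  rw [e]
  apply Subgroup.list_prod_mem
  intro x hx
  rw [List.mem_map] at hx
  obtain ⟨v, hv, rfl⟩ := hx
  apply Subgroup.subset_closure
  exact ⟨v, hvs v hv, symm_refl_matrix Q v⟩

end Cfsg.Agent.S0786
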