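import Cfsg.Statements.S0787
import Cfsg.Agent.Lib.Helper44.ODet
import Cfsg.Agent.Lib.Helper44.IndexTwo
import Cfsg.Agent.Lib.Helper14.OrthIndex

set_option autoImplicit false
open Cfsg

namespace Cfsg.Agent.S0787

open Module QuadraticMap Matrix
open Cfsg.Agent.Lib.Helper44.QSpace Cfsg.Agent.Lib.Helper44.OGroup Cfsg.Agent.Lib.Helper44.Spinor
open Cfsg.Agent.Lib.Helper44.OMat Cfsg.Agent.Lib.Helper44.CD2a Cfsg.Agent.Lib.Helper44.Omega2
open Cfsg.Agent.Lib.Helper44.OMat2 Cfsg.Agent.Lib.Helper44.ODet Cfsg.Agent.Lib.Helper44.IndexTwo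


/-- Existence and uniqueness of Ω: if F is finite, n ≥ 2, Q is a quadratic form on F^n with non-degenerate polar form and (|F|, n) ≠ (2, 4), then the group of isometries of determinant one has a unique subgroup of index 2. -/
theorem result {F : Type*} [Field F] [Fintype F] {n : ℕ} (hn : 2 ≤ n) (Q : QuadraticForm F (Fin n → F)) (hQ : (QuadraticMap.polarBilin Q).Nondegenerate) (h : Fintype.card F ≠ 2 ∨ n ≠ 4) : ∃! H : Subgroup ↥(Cfsg.specialIsometryGroup F ⇑Q), H.index = 2 := by
  have hS := sep_of_nondegenerate hQ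
  have hc : Fintype.card F ≠ 2 ∨ Fintype.card (Fin n) ≠ 4 := by
    rw [Fintype.card_fin]
    exact h
  have hCD : CDP Q := cdp_of_card hS hc
  have hne : Nonempty (Fin n) := ⟨⟨0, by omega⟩⟩
  -- the index of Ω in the special orthogonal group
  have hidx : ((Cfsg.Omega F ⇑Q).subgroupOf (Cfsg.specialIsometryGroup F ⇑Q)).index = 2 := by
    have hrel := Subgroup.relIndex_mul_index (omega_le_special Q)
    show (Cfsg.Omega F ⇑Q).relIndex (Cfsg.specialIsometryGroup F ⇑Q) = 2
    by_cases h2 : (2 : F) = 0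
    · have : CharP F 2 := CharTwo.of_one_ne_zero_of_two_eq_zero one_ne_zero h2
      have h1 : (Cfsg.specialIsometryGroup F ⇑Q).index = 1 := by
        rw [special_eq_top_two hCD]
        exact Subgroup.index_top
      have h3 : (Cfsg.Omega F ⇑Q).index = 2 := by
        rw [index_omega_eq]
        exact index_commutator_two hS (good_of_card' hS hc)
      rw [h1, h3] at hrel
      omega
    · have h1 : (Cfsg.specialIsometryGroup F ⇑Q).index = 2 := index_special h2 hS hCD
      have h3 : (Cfsg.Omega F ⇑Q).index = 4 :=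
        Cfsg.Agent.Lib.Helper14.OrthIndex.index_omega h2 Q hS (by rw [Fintype.card_fin]; exact hn)
      rw [h1, h3] at hrel
      omega
  refine ⟨(Cfsg.Omega F ⇑Q).subgroupOf (Cfsg.specialIsometryGroup F ⇑Q), hidx, ?_⟩
  intro H hH
  apply eq_of_le_of_index_two _ hidx hH
  apply commutator_subgroupOf_le_of_index_two (Cfsg.specialIsometryGroup F ⇑Q)
    {g : ↥(Cfsg.isometryGroup F ⇑Q) | ∃ v : Fin n → F, Q v ≠ 0 ∧ g = (isoEquiv Q).symm (refl Q v)}
    _ _ _ H hH
  · rintro r ⟨v, hv, rfl⟩
    rw [← map_mul, refl_mul_self, map_one]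
  · rintro r ⟨v, hv, rfl⟩ r' ⟨w, hw, rfl⟩
    rw [mem_special_iff]
    have := det_of_prod Q ((isoEquiv Q).symm (refl Q v) * (isoEquiv Q).symm (refl Q w)) [v, w] (by
      intro x hx
      simp only [List.mem_cons, List.not_mem_nil, or_false] at hx
      rcases hx with h1 | h1
      · rw [h1]; exact hv
      · rw [h1]; exact hw) (by simp)
    rw [this]
    simp
  · intro g
    obtain ⟨vs, hvs, hg⟩ := exists_prod_of_cdp hCD g
    refine ⟨vs.map (fun v => (isoEquiv Q).symm (refl Q v)), ?_, ?_⟩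
    · intro x hx
      rw [List.mem_map] at hx
      obtain ⟨v, hv, rfl⟩ := hx
      exact ⟨v, hvs v hv, rfl⟩
    · apply (isoEquiv Q).injective
      rw [hg, map_list_prod, List.map_map]
      congr 1
      apply List.map_congr_left
      intro v _
      simp

end Cfsg.Agent.S0787
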