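import Mathlib
import Cfsg.Statements.S0792
import Cfsg.Agent.Lib.Helper44.OMat

set_option autoImplicit false
open Cfsg

namespace Cfsg.Agent.S0792

open Module QuadraticMap Matrix
open Cfsg.Agent.Lib.Helper44.QSpace Cfsg.Agent.Lib.Helper44.OGroup Cfsg.Agent.Lib.Helper44.Spinor
open Cfsg.Agent.Lib.Helper44.CartanD Cfsg.Agent.Lib.Helper44.OMat

variable {F : Type*} [Field F] {ι : Type} [Fintype ι] [DecidableEq ι]

/-- the determinant of the linear automorphism of an invertible matrix -/
theorem det_glEquiv (A : GL ι F) :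
    LinearEquiv.det (glEquiv A) = Matrix.GeneralLinearGroup.det A := by
  apply Units.ext
  rw [LinearEquiv.coe_det]
  have : ((glEquiv A : (ι → F) ≃ₗ[F] (ι → F)) : (ι → F) →ₗ[F] (ι → F))
      = Matrix.toLin' (A : Matrix ι ι F) := by
    apply LinearMap.ext
    intro x
    rw [Matrix.toLin'_apply]
    rfl
  rw [this, LinearMap.det_toLin']
  rfl

/-- the determinant of a reflection matrix is `-1` -/
theorem det_reflectionMatrix (Q : QuadraticForm F (ι → F)) {v : ι → F} (hv : Q v ≠ 0) :
    (Cfsg.reflectionMatrix (⇑Q) v).det = -1 := by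
  have h1 : Matrix.toLin' (Cfsg.reflectionMatrix (⇑Q) v)
      = ((reflE Q v : (ι → F) ≃ₗ[F] (ι → F)) : (ι → F) →ₗ[F] (ι → F)) := by
    apply LinearMap.ext
    intro x
    rw [Matrix.toLin'_apply, reflection_mulVec]
    rfl
  rw [← LinearMap.det_toLin', h1, ← LinearEquiv.coe_det, det_reflE Q hv]
  simp

/-- the isometry whose matrix is a product of two reflection matrices -/
theorem pair_matrix (Q : QuadraticForm F (ι → F)) (u v : ι → F) :
    ((((isoEquiv Q).symm (refl Q u * refl Q v) : ↥(Cfsg.isometryGroup F ⇑Q)) : GL ι F) :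
      Matrix ι ι F) = Cfsg.reflectionMatrix (⇑Q) u * Cfsg.reflectionMatrix (⇑Q) v := by
  apply matrix_ext_mulVec
  intro x
  rw [isoEquiv_symm_mulVec, ← Matrix.mulVec_mulVec, reflection_mulVec, reflection_mulVec]
  rfl

theorem even_prod_mem (Q : QuadraticForm F (ι → F)) (k : ℕ) :
    ∀ vs : List (ι → F), vs.length = 2 * k → (∀ v ∈ vs, Q v ≠ 0) →
      (isoEquiv Q).symm ((vs.map (refl Q)).prod) ∈
        Subgroup.closure {g : ↥(Cfsg.isometryGroup F ⇑Q) | ∃ u v : ι → F, Q u ≠ 0 ∧ Q v ≠ 0 ∧
          ((g : GL ι F) : Matrix ι ι F)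
            = Cfsg.reflectionMatrix (⇑Q) u * Cfsg.reflectionMatrix (⇑Q) v} := by
  induction k with
  | zero =>
    intro vs hlen _
    have : vs = [] := List.length_eq_zero_iff.mp (by omega)
    subst this
    simp
  | succ k ih =>
    intro vs hlen hvs
    match vs, hlen, hvs with
    | [], hlen, _ => simp at hlen
    | [_], hlen, _ => simp at hlen; omega
    | u :: v :: rest, hlen, hvs =>
      have hu : Q u ≠ 0 := hvs u (by simp)
      have hv : Q v ≠ 0 := hvs v (by simp)
      have hrest : ∀ w ∈ rest, Q w ≠ 0 := fun w hw => hvs w (by simp [hw])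
      have hlen' : rest.length = 2 * k := by simp at hlen; omega
      rw [List.map_cons, List.map_cons, List.prod_cons, List.prod_cons, ← mul_assoc, map_mul]
      apply Subgroup.mul_mem
      · apply Subgroup.subset_closure
        exact ⟨u, v, hu, hv, pair_matrix Q u v⟩
      · exact ih rest hlen' hrest

/-- For q odd and Q with non-degenerate polar form on F^n, the determinant-one isometries form the subgroup generated by all products r_u r_v of two reflections (Q(u), Q(v) ≠ 0). -/
theorem result {F : Type*} [Field F] [Fintype F] (h2 : (2 : F) ≠ 0) {n : ℕ} (Q : QuadraticForm F (Fin n → F)) (hQ : (QuadraticMap.polarBilin Q).Nondegenerate) : Cfsg.specialIsometryGroup F ⇑Q = Subgroup.closure {g : ↥(Cfsg.isometryGroup F ⇑Q) | ∃ u v : Fin n → F, Q u ≠ 0 ∧ Q v ≠ 0 ∧ ((g : Matrix.GeneralLinearGroup (Fin n) F) : Matrix (Fin n) (Fin n) F) = Cfsg.reflectionMatrix ⇑Q u * Cfsg.reflectionMatrix ⇑Q v} := by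
  have hS := sep_of_nondegenerate hQ
  apply le_antisymm
  · intro g hg
    have hdet1 : Matrix.GeneralLinearGroup.det (g : GL (Fin n) F) = 1 := hg
    obtain ⟨vs, hvs, hprod⟩ := cartan_dieudonne h2 n (Fin n → F) Q
      (by rw [Module.finrank_fintype_fun_eq_card, Fintype.card_fin]) hS
      (isoEquiv Q g).1 (isoEquiv Q g).2
    have hg' : isoEquiv Q g = (vs.map (refl Q)).prod :=
      Subtype.ext (by rw [coe_prod_refl]; exact hprod)
    have hdet : detHom Q (isoEquiv Q g) = 1 := by
      show LinearEquiv.det (glEquiv (g : GL (Fin n) F)) = 1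
      rw [det_glEquiv, hdet1]
    rw [hg', detHom_prod Q vs hvs] at hdet
    have heven : Even vs.length := by
      by_contra hodd
      rw [Nat.not_even_iff_odd] at hodd
      rw [hodd.neg_one_pow] at hdet
      have h3 := congrArg Units.val hdet
      simp only [Units.val_neg, Units.val_one] at h3
      apply h2
      linear_combination -h3
    obtain ⟨k, hk⟩ := heven
    have hgeq : g = (isoEquiv Q).symm ((vs.map (refl Q)).prod) := by
      rw [← hg', MulEquiv.symm_apply_apply]
    rw [hgeq]
    exact even_prod_mem Q k vs (by omega) hvs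
  · rw [Subgroup.closure_le]
    rintro g ⟨u, v, hu, hv, hg⟩
    show Matrix.GeneralLinearGroup.det (g : GL (Fin n) F) = 1
    apply Units.ext
    rw [Matrix.GeneralLinearGroup.val_det_apply, hg, Matrix.det_mul, det_reflectionMatrix Q hu,
      det_reflectionMatrix Q hv]
    simp

end Cfsg.Agent.S0792
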