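import Cfsg.Statements.S0793
import Cfsg.Agent.Lib.Helper14.Quad

set_option autoImplicit false
open Cfsg

namespace Cfsg.Agent.S0793

/-- Root elements: if Q(u) = Q(v) = 0 and f(u, v) = 0 (f the polar form), then for every c the Siegel matrix T_(u,v)(c) preserves Q, fixes u and v, and T(c) T(d) = T(c + d). -/
theorem result {F : Type*} [Field F] {n : ℕ} (Q : QuadraticForm F (Fin n → F)) (u v : Fin n → F) (hu : Q u = 0) (hv : Q v = 0) (huv : QuadraticMap.polar ⇑Q u v = 0) : (∀ c x, Q ((Cfsg.siegelMatrix ⇑Q u v c).mulVec x) = Q x) ∧ (∀ c, (Cfsg.siegelMatrix ⇑Q u v c).mulVec u = u ∧ (Cfsg.siegelMatrix ⇑Q u v c).mulVec v = v) ∧ ∀ c d, Cfsg.siegelMatrix ⇑Q u v c * Cfsg.siegelMatrix ⇑Q u v d = Cfsg.siegelMatrix ⇑Q u v (c + d) := by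
  refine ⟨fun c x => Cfsg.Agent.Lib.Helper14.Quad.siegel_isometry Q u v hu hv huv c x,
    fun c => ⟨Cfsg.Agent.Lib.Helper14.Quad.siegel_mulVec_left Q u v hu huv c,
      Cfsg.Agent.Lib.Helper14.Quad.siegel_mulVec_right Q u v hv huv c⟩,
    fun c d => Cfsg.Agent.Lib.Helper14.Quad.siegel_mul Q u v hu hv huv c d⟩

end Cfsg.Agent.S0793
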