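-- Statement S0794: Siegel transformations are commutators in the isometry group.
import Mathlib
import Cfsg.Statements.S0794
import Cfsg.Agent.Lib.Helper14.Quad

set_option autoImplicit false
open Cfsg
open scoped commutatorElement

namespace Cfsg.Agent.S0794

open Cfsg.Agent.Lib.Helper14.Quad

section aux

variable {F : Type*} [Field F] {ι : Type} [Fintype ι] [DecidableEq ι]

/-- The matrix of the map negating a hyperbolic pair `u, u'`. -/
def torusMat (Q : QuadraticForm F (ι → F)) (u u' : ι → F) : Matrix ι ι F :=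
  1 - ((2 : F) • Matrix.vecMulVec u (Cfsg.polarVec (⇑Q) u')
      + (2 : F) • Matrix.vecMulVec u' (Cfsg.polarVec (⇑Q) u))

theorem torus_mulVec (Q : QuadraticForm F (ι → F)) (u u' x : ι → F) :
    (torusMat Q u u').mulVec x
      = x + (-(2 * QuadraticMap.polar (⇑Q) u' x)) • u
          + (-(2 * QuadraticMap.polar (⇑Q) u x)) • u' := by
  unfold torusMat
  rw [Matrix.sub_mulVec, Matrix.one_mulVec, Matrix.add_mulVec, Matrix.smul_mulVec,
    Matrix.smul_mulVec, vecMulVec_mulVec', vecMulVec_mulVec', polarVec_dot, polarVec_dot,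
    smul_smul, smul_smul]
  module

theorem torus_isometry (Q : QuadraticForm F (ι → F)) (u u' : ι → F) (hu : Q u = 0)
    (hu' : Q u' = 0) (huu' : QuadraticMap.polar (⇑Q) u u' = 1) (x : ι → F) :
    Q ((torusMat Q u u').mulVec x) = Q x := by
  rw [torus_mulVec, map_add_smul_add_smul, hu, hu', huu', QuadraticMap.polar_comm (⇑Q) x u,
    QuadraticMap.polar_comm (⇑Q) x u']
  ring

theorem torus_sq (Q : QuadraticForm F (ι → F)) (u u' : ι → F) (hu : Q u = 0)
    (hu' : Q u' = 0) (huu' : QuadraticMap.polar (⇑Q) u u' = 1) :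
    torusMat Q u u' * torusMat Q u u' = 1 := by
  apply matrix_ext_mulVec
  intro x
  rw [← Matrix.mulVec_mulVec, torus_mulVec Q u u' x, torus_mulVec, Matrix.one_mulVec]
  simp only [QuadraticMap.polar_add_right, QuadraticMap.polar_smul_right,
    QuadraticMap.polar_self, hu, hu', huu', QuadraticMap.polar_comm (⇑Q) u' u, smul_eq_mul,
    mul_zero, smul_zero, add_zero, mul_one]
  module

theorem torus_conj (Q : QuadraticForm F (ι → F)) (u u' v : ι → F) (hu : Q u = 0)
    (hu' : Q u' = 0) (huu' : QuadraticMap.polar (⇑Q) u u' = 1)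
    (huv : QuadraticMap.polar (⇑Q) u v = 0) (hvu' : QuadraticMap.polar (⇑Q) v u' = 0) (c : F) :
    torusMat Q u u' * Cfsg.siegelMatrix (⇑Q) u v c * torusMat Q u u'
      = Cfsg.siegelMatrix (⇑Q) u v (-c) := by
  apply matrix_ext_mulVec
  intro x
  rw [← Matrix.mulVec_mulVec, ← Matrix.mulVec_mulVec, torus_mulVec Q u u' x, siegel_mulVec,
    torus_mulVec, siegel_mulVec]
  simp only [QuadraticMap.polar_add_right, QuadraticMap.polar_sub_right,
    QuadraticMap.polar_smul_right,
    QuadraticMap.polar_self, hu, hu', huu', huv, hvu', QuadraticMap.polar_comm (⇑Q) u' u,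
    QuadraticMap.polar_comm (⇑Q) v u, QuadraticMap.polar_comm (⇑Q) u' v, smul_eq_mul,
    mul_zero, smul_zero, add_zero, mul_one, sub_zero]
  module

theorem exists_partner (Q : QuadraticForm F (ι → F))
    (hQ : (QuadraticMap.polarBilin Q).Nondegenerate) (u v : ι → F) (hu : Q u = 0)
    (huv : QuadraticMap.polar (⇑Q) u v = 0) (c : F)
    (hT : Cfsg.siegelMatrix (⇑Q) u v c ≠ 1) :
    ∃ u' : ι → F, Q u' = 0 ∧ QuadraticMap.polar (⇑Q) u u' = 1 ∧
      QuadraticMap.polar (⇑Q) v u' = 0 := by
  -- some x is moved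
  have hx : ∃ x, (Cfsg.siegelMatrix (⇑Q) u v c).mulVec x ≠ x := by
    by_contra hcon
    push Not at hcon
    apply hT
    apply matrix_ext_mulVec
    intro x
    rw [hcon x, Matrix.one_mulVec]
  obtain ⟨x, hx⟩ := hx
  rw [siegel_mulVec] at hx
  set α := QuadraticMap.polar (⇑Q) u x with hα
  set β := QuadraticMap.polar (⇑Q) v x with hβ
  have hz : (c * α) • v - (c * β) • u ≠ 0 := by
    intro h0
    apply hx
    rw [add_sub_assoc, h0, add_zero]
  -- nondegeneracy gives y
  have hy : ∃ y, QuadraticMap.polarBilin Q ((c * α) • v - (c * β) • u) y ≠ 0 := by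
    by_contra hcon
    push Not at hcon
    exact hz (hQ.1 _ hcon)
  obtain ⟨y, hy⟩ := hy
  rw [QuadraticMap.polarBilin_apply_apply, QuadraticMap.polar_sub_left,
    QuadraticMap.polar_smul_left, QuadraticMap.polar_smul_left] at hy
  simp only [smul_eq_mul] at hy
  set γ := QuadraticMap.polar (⇑Q) u y with hγ
  set δ := QuadraticMap.polar (⇑Q) v y with hδ
  have hdet : α * δ - β * γ ≠ 0 := by
    intro h0
    apply hy
    have : c * α * δ - c * β * γ = c * (α * δ - β * γ) := by ring
    rw [this, h0, mul_zero]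
  -- w with f(u,w) = 1, f(v,w) = 0
  set w : ι → F := (δ / (α * δ - β * γ)) • x + (-β / (α * δ - β * γ)) • y with hw
  have hw1 : QuadraticMap.polar (⇑Q) u w = 1 := by
    rw [hw, QuadraticMap.polar_add_right, QuadraticMap.polar_smul_right,
      QuadraticMap.polar_smul_right, ← hα, ← hγ]
    simp only [smul_eq_mul]
    rw [div_mul_eq_mul_div, div_mul_eq_mul_div, ← add_div, div_eq_one_iff_eq hdet]
    ring
  have hw2 : QuadraticMap.polar (⇑Q) v w = 0 := by
    rw [hw, QuadraticMap.polar_add_right, QuadraticMap.polar_smul_right,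
      QuadraticMap.polar_smul_right, ← hβ, ← hδ]
    simp only [smul_eq_mul]
    rw [div_mul_eq_mul_div, div_mul_eq_mul_div, ← add_div, div_eq_zero_iff]
    left
    ring
  refine ⟨w + (-(Q w)) • u, ?_, ?_, ?_⟩
  · rw [QuadraticMap.map_add (⇑Q), QuadraticMap.map_smul, hu, QuadraticMap.polar_smul_right,
      QuadraticMap.polar_comm (⇑Q) w u, hw1]
    simp
  · rw [QuadraticMap.polar_add_right, QuadraticMap.polar_smul_right, QuadraticMap.polar_self,
      hu, hw1]
    simp
  · rw [QuadraticMap.polar_add_right, QuadraticMap.polar_smul_right,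
      QuadraticMap.polar_comm (⇑Q) v u, huv, hw2]
    simp

end aux

/-- For q odd, n ≥ 5 and Q with non-degenerate polar form: an isometry whose matrix is a Siegel transformation T_(u,v)(c) (u, v singular and orthogonal) is a commutator in the isometry group, so lies in Ω. -/
theorem result {F : Type*} [Field F] [Fintype F] (h2 : (2 : F) ≠ 0) {n : ℕ} (hn : 5 ≤ n) (Q : QuadraticForm F (Fin n → F)) (hQ : (QuadraticMap.polarBilin Q).Nondegenerate) (u v : Fin n → F) (hu : Q u = 0) (hv : Q v = 0) (huv : QuadraticMap.polar ⇑Q u v = 0) (c : F) (g : ↥(Cfsg.isometryGroup F ⇑Q)) (hg : ((g : Matrix.GeneralLinearGroup (Fin n) F) : Matrix (Fin n) (Fin n) F) = Cfsg.siegelMatrix ⇑Q u v c) : g ∈ commutatorSet ↥(Cfsg.isometryGroup F ⇑Q) ∧ g ∈ Cfsg.Omega F ⇑Q := by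
  have _ := hn
  have key : g ∈ commutatorSet ↥(Cfsg.isometryGroup F ⇑Q) := by
    by_cases hT : Cfsg.siegelMatrix (⇑Q) u v c = 1
    · have hg1 : g = 1 := by
        apply Subtype.ext
        apply Units.ext
        rw [hg, hT]
        rfl
      rw [hg1]
      exact ⟨1, 1, by simp⟩
    · obtain ⟨u', hu', huu', hvu'⟩ := exists_partner Q hQ u v hu huv c hT
      -- the torus element
      let Hm : Matrix (Fin n) (Fin n) F := torusMat Q u u'
      have Hsq : Hm * Hm = 1 := torus_sq Q u u' hu hu' huu'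
      let hU : Matrix.GeneralLinearGroup (Fin n) F := ⟨Hm, Hm, Hsq, Hsq⟩
      have hUmem : hU ∈ Cfsg.isometryGroup F ⇑Q := by
        intro x _
        exact torus_isometry Q u u' hu hu' huu' x
      -- the Siegel element with parameter c' = -c/2
      let c' : F := -c / 2
      let Tm : Matrix (Fin n) (Fin n) F := Cfsg.siegelMatrix (⇑Q) u v c'
      let Tm' : Matrix (Fin n) (Fin n) F := Cfsg.siegelMatrix (⇑Q) u v (-c')
      have hTT' : Tm * Tm' = 1 := by
        show Cfsg.siegelMatrix (⇑Q) u v c' * Cfsg.siegelMatrix (⇑Q) u v (-c') = 1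
        rw [siegel_mul Q u v hu hv huv, add_neg_cancel, siegel_zero]
      have hT'T : Tm' * Tm = 1 := by
        show Cfsg.siegelMatrix (⇑Q) u v (-c') * Cfsg.siegelMatrix (⇑Q) u v c' = 1
        rw [siegel_mul Q u v hu hv huv, neg_add_cancel, siegel_zero]
      let tU : Matrix.GeneralLinearGroup (Fin n) F := ⟨Tm, Tm', hTT', hT'T⟩
      have tUmem : tU ∈ Cfsg.isometryGroup F ⇑Q := by
        intro x _
        exact siegel_isometry Q u v hu hv huv c' x
      refine ⟨⟨hU, hUmem⟩, ⟨tU, tUmem⟩, ?_⟩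
      apply Subtype.ext
      apply Units.ext
      rw [hg]
      show Hm * Tm * Hm * Tm' = _
      have h1 : Hm * Tm * Hm = Tm' := torus_conj Q u u' v hu hu' huu' huv hvu' c'
      rw [h1]
      show Cfsg.siegelMatrix (⇑Q) u v (-c') * Cfsg.siegelMatrix (⇑Q) u v (-c') = _
      rw [siegel_mul Q u v hu hv huv]
      congr 1
      show -(-c / 2) + -(-c / 2) = c
      field_simp
      ring
  refine ⟨key, ?_⟩
  rw [Cfsg.Omega, commutator_eq_closure]
  exact Subgroup.subset_closure key

end Cfsg.Agent.S0794
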