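-- Statement S0796: generalised Iwasawa lemma.
import Mathlib
import Cfsg.Statements.S0796

set_option autoImplicit false
open Cfsg

namespace Cfsg.Agent.S0796

/-- If G is finite and acts faithfully and primitively on X, H is the stabiliser of a point, A is a normal subgroup of H whose normal closure in G is G, then for every non-trivial normal subgroup K of G the quotient G ⧸ K is isomorphic to A ⧸ B for some normal subgroup B of A. -/
theorem result {G X : Type*} [Group G] [Finite G] [MulAction G X] [FaithfulSMul G X] (hprim : MulAction.IsPreprimitive G X) (x : X) (A : Subgroup G) (hA : A ≤ MulAction.stabilizer G x) (hAn : (A.subgroupOf (MulAction.stabilizer G x)).Normal) (hgen : Subgroup.normalClosure (A : Set G) = ⊤) (K : Subgroup G) [K.Normal] (hK : K ≠ ⊥) : ∃ (B : Subgroup A) (_ : B.Normal), Nonempty (G ⧸ K ≃* A ⧸ B) := by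
  -- K is transitive
  have hfix : MulAction.fixedPoints K X ≠ Set.univ := by
    intro hfix
    apply hK
    rw [Subgroup.eq_bot_iff_forall]
    intro k hk
    apply FaithfulSMul.eq_of_smul_eq_smul (α := X)
    intro y
    rw [one_smul]
    have hy : y ∈ MulAction.fixedPoints K X := by rw [hfix]; exact Set.mem_univ y
    exact hy ⟨k, hk⟩
  have htrans : MulAction.IsPretransitive K X :=
    MulAction.IsQuasiPreprimitive.isPretransitive_of_normal hfix
  -- stabilizer elements normalize A
  have hstabA : ∀ h ∈ MulAction.stabilizer G x, ∀ a ∈ A, h * a * h⁻¹ ∈ A := by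
    intro h hh a ha
    have := hAn.conj_mem ⟨a, hA ha⟩ (by rw [Subgroup.mem_subgroupOf]; exact ha) ⟨h, hh⟩
    rw [Subgroup.mem_subgroupOf] at this
    exact this
  -- A ⊔ K is normal
  have hnorm : (A ⊔ K).Normal := by
    constructor
    intro n hn g
    -- g = k * h with k in K and h in the stabilizer
    obtain ⟨k, hk⟩ := MulAction.exists_smul_eq K x (g • x)
    have hkg : ((k : G)⁻¹ * g) ∈ MulAction.stabilizer G x := by
      rw [MulAction.mem_stabilizer_iff, mul_smul, inv_smul_eq_iff]
      exact hk.symm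
    obtain ⟨a, ha, k', hk', rfl⟩ := Subgroup.mem_sup_of_normal_right.mp hn
    have h1 : ((k : G)⁻¹ * g) * (a * k') * ((k : G)⁻¹ * g)⁻¹ ∈ A ⊔ K := by
      have e : ((k : G)⁻¹ * g) * (a * k') * ((k : G)⁻¹ * g)⁻¹
          = (((k : G)⁻¹ * g) * a * ((k : G)⁻¹ * g)⁻¹) * (((k : G)⁻¹ * g) * k' * ((k : G)⁻¹ * g)⁻¹) := by
        group
      rw [e]
      exact Subgroup.mul_mem _ (Subgroup.mem_sup_left (hstabA _ hkg a ha))
        (Subgroup.mem_sup_right (Subgroup.Normal.conj_mem inferInstance k' hk' _))
    have hkmem : (k : G) ∈ A ⊔ K := Subgroup.mem_sup_right k.2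
    have e2 : g * (a * k') * g⁻¹
        = (k : G) * (((k : G)⁻¹ * g) * (a * k') * ((k : G)⁻¹ * g)⁻¹) * (k : G)⁻¹ := by group
    rw [e2]
    exact Subgroup.mul_mem _ (Subgroup.mul_mem _ hkmem h1) (Subgroup.inv_mem _ hkmem)
  have htop : A ⊔ K = ⊤ := by
    rw [eq_top_iff, ← hgen]
    exact Subgroup.normalClosure_le_normal (fun a ha => Subgroup.mem_sup_left ha)
  -- the map A → G ⧸ K is surjective
  let φ : A →* G ⧸ K := (QuotientGroup.mk' K).comp A.subtype
  have hsurj : Function.Surjective φ := by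
    intro q
    obtain ⟨g, rfl⟩ := QuotientGroup.mk_surjective q
    have hg : g ∈ A ⊔ K := by rw [htop]; exact Subgroup.mem_top g
    obtain ⟨a, ha, k', hk', rfl⟩ := Subgroup.mem_sup_of_normal_right.mp hg
    refine ⟨⟨a, ha⟩, ?_⟩
    show (QuotientGroup.mk a : G ⧸ K) = QuotientGroup.mk (a * k')
    exact (QuotientGroup.mk_mul_of_mem a hk').symm
  exact ⟨φ.ker, inferInstance, ⟨(QuotientGroup.quotientKerEquivOfSurjective φ hsurj).symm⟩⟩

end Cfsg.Agent.S0796
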