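import Mathlib
import Cfsg.Statements.S0797
import Cfsg.Agent.Lib.Helper14.OrthIndex

set_option autoImplicit false
open Cfsg

namespace Cfsg.Agent.S0797

open Cfsg.Agent.Lib.Helper14.OrthIndex Cfsg.Agent.Lib.Helper44.QSpace

/-- a subgroup of index 2 contains the commutator subgroup -/
theorem commutator_le_of_index_two {G : Type*} [Group G] (H : Subgroup G) (h : H.index = 2) :
    commutator G ≤ H := by
  have hn : H.Normal := Subgroup.normal_of_index_eq_two h
  rw [← Subgroup.Normal.quotient_commutative_iff_commutator_le]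
  have hc : Nat.card (G ⧸ H) = 2 := h
  have : Fact (Nat.Prime 2) := ⟨Nat.prime_two⟩
  have hcyc : IsCyclic (G ⧸ H) := isCyclic_of_prime_card hc
  exact hcyc.isMulCommutative

/-- a group of order 4 and exponent 2 has exactly three subgroups of index 2 -/
theorem card_index_two_of_klein {A : Type*} [Group A] (hA : Nat.card A = 4)
    (hexp : ∀ x : A, x * x = 1) : Nat.card {K : Subgroup A // K.index = 2} = 3 := by
  classical
  have hfin : Finite A := Nat.finite_of_card_ne_zero (by omega)
  have := Fintype.ofFinite A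
  have hord : ∀ x : A, x ≠ 1 → orderOf x = 2 := fun x hx =>
    orderOf_eq_prime (by rw [pow_two]; exact hexp x) hx
  have hidx : ∀ x : A, x ≠ 1 → (Subgroup.zpowers x).index = 2 := by
    intro x hx
    have h1 := Subgroup.card_mul_index (Subgroup.zpowers x)
    rw [Nat.card_zpowers, hord x hx, hA] at h1
    omega
  have hbij : Function.Bijective
      (fun x : {x : A // x ≠ 1} => (⟨Subgroup.zpowers x.1, hidx x.1 x.2⟩ :
        {K : Subgroup A // K.index = 2})) := by
    constructor
    · rintro ⟨x, hx⟩ ⟨y, hy⟩ h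
      simp only [Subtype.mk.injEq] at h
      have hy' : y ∈ Subgroup.zpowers x := by rw [h]; exact Subgroup.mem_zpowers y
      obtain ⟨k, hk⟩ := Subgroup.mem_zpowers_iff.mp hy'
      apply Subtype.ext
      simp only
      rcases Int.even_or_odd k with ⟨j, rfl⟩ | ⟨j, rfl⟩
      · exfalso
        apply hy
        rw [← hk, ← two_mul, zpow_mul, zpow_two, hexp, one_zpow]
      · rw [← hk, zpow_add, zpow_mul, zpow_two, hexp, one_zpow, one_mul, zpow_one]
    · rintro ⟨K, hK⟩
      have h1 := Subgroup.card_mul_index K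
      rw [hK, hA] at h1
      have hKcard : Nat.card K = 2 := by omega
      have hne : ∃ x ∈ K, x ≠ 1 := by
        by_contra hcon
        push Not at hcon
        have : K = ⊥ := (Subgroup.eq_bot_iff_forall K).mpr hcon
        rw [this, Subgroup.card_bot] at hKcard
        omega
      obtain ⟨x, hxK, hx1⟩ := hne
      refine ⟨⟨x, hx1⟩, ?_⟩
      apply Subtype.ext
      simp only
      apply Subgroup.eq_of_le_of_card_ge
      · rw [Subgroup.zpowers_le]; exact hxK
      · rw [Nat.card_zpowers, hord x hx1, hKcard]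
  rw [← Nat.card_eq_of_bijective _ hbij]
  have h2 : Nat.card {x : A // x ≠ 1} + Nat.card {x : A // x = 1} = Nat.card A := by
    rw [Nat.card_eq_fintype_card, Nat.card_eq_fintype_card, Nat.card_eq_fintype_card]
    rw [add_comm]
    exact Fintype.card_subtype_compl (fun x : A => x = 1) ▸ (by
      have := Fintype.card_subtype_le (fun x : A => x = 1)
      omega)
  have h3 : Nat.card {x : A // x = 1} = 1 := by
    rw [Nat.card_eq_fintype_card, Fintype.card_subtype_eq]
  omega

/-- O^ε_2m(q) ≅ Ω.2² for q odd: if F is finite of odd characteristic, n ≥ 2 is even and Q has non-degenerate polar form on F^n, the isometry group of Q has exactly three subgroups of index 2. -/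
theorem result {F : Type*} [Field F] [Fintype F] (h2 : (2 : F) ≠ 0) {n : ℕ} (hn : 2 ≤ n) (heven : Even n) (Q : QuadraticForm F (Fin n → F)) (hQ : (QuadraticMap.polarBilin Q).Nondegenerate) : Nat.card {H : Subgroup ↥(Cfsg.isometryGroup F ⇑Q) // H.index = 2} = 3 := by
  have hS := sep_of_nondegenerate hQ
  have hn' : 2 ≤ Fintype.card (Fin n) := by rw [Fintype.card_fin]; exact hn
  have hidx : (Cfsg.Omega F ⇑Q).index = 4 := index_omega h2 Q hS hn'
  have hsq := sq_mem_omega h2 Q hS hn'
  have hA : Nat.card (↥(Cfsg.isometryGroup F ⇑Q) ⧸ Cfsg.Omega F ⇑Q) = 4 := hidx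
  have hexp : ∀ x : ↥(Cfsg.isometryGroup F ⇑Q) ⧸ Cfsg.Omega F ⇑Q, x * x = 1 := by
    intro x
    induction x using QuotientGroup.induction_on with
    | H g =>
      rw [← QuotientGroup.mk_mul, QuotientGroup.eq_one_iff]
      exact hsq g
  rw [← card_index_two_of_klein hA hexp]
  have hker : (QuotientGroup.mk' (Cfsg.Omega F ⇑Q)).ker = Cfsg.Omega F ⇑Q := QuotientGroup.ker_mk' _
  have hsurj : Function.Surjective (QuotientGroup.mk' (Cfsg.Omega F ⇑Q)) :=
    QuotientGroup.mk'_surjective _
  apply Nat.card_congr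
  refine ⟨fun H => ⟨H.1.map (QuotientGroup.mk' (Cfsg.Omega F ⇑Q)), ?_⟩,
    fun K => ⟨K.1.comap (QuotientGroup.mk' (Cfsg.Omega F ⇑Q)), ?_⟩, ?_, ?_⟩
  · rw [Subgroup.index_map_eq _ hsurj (by rw [hker]; exact commutator_le_of_index_two H.1 H.2)]
    exact H.2
  · rw [Subgroup.index_comap_of_surjective _ hsurj]
    exact K.2
  · intro H
    apply Subtype.ext
    simp only
    exact Subgroup.comap_map_eq_self (by rw [hker]; exact commutator_le_of_index_two H.1 H.2)
  · intro K
    apply Subtype.ext
    simp only
    exact Subgroup.map_comap_eq_self_of_surjective hsurj K.1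

end Cfsg.Agent.S0797
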