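import Cfsg.Statements.S0798
import Cfsg.Agent.Lib.Helper44.ReflClass3
import Cfsg.Agent.Lib.Helper44.OMat2

set_option autoImplicit false
open Cfsg

namespace Cfsg.Agent.S0798

open Module QuadraticMap Matrix
open Cfsg.Agent.Lib.Helper44.QSpace Cfsg.Agent.Lib.Helper44.OGroup Cfsg.Agent.Lib.Helper44.Spinor
open Cfsg.Agent.Lib.Helper44.OMat Cfsg.Agent.Lib.Helper44.Omega2
open Cfsg.Agent.Lib.Helper44.OMat2 Cfsg.Agent.Lib.Helper44.ReflClass
open Cfsg.Agent.Lib.Helper44.ReflClass3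


/-- For q odd, n ≥ 2 even, Q with non-degenerate polar form (n, |F|) ≠ (4, 3), and a fixed c ≠ 0: the subgroup of the isometry group generated by the reflections r_v with Q(v) ∈ c·(F^×)² has index 2. -/
theorem result {F : Type*} [Field F] [Fintype F] (h2 : (2 : F) ≠ 0) {n : ℕ} (hn : 2 ≤ n) (heven : Even n) (Q : QuadraticForm F (Fin n → F)) (hQ : (QuadraticMap.polarBilin Q).Nondegenerate) (h43 : ¬ (n = 4 ∧ Fintype.card F = 3)) (c : F) (hc : c ≠ 0) : (Subgroup.closure {g : ↥(Cfsg.isometryGroup F ⇑Q) | ∃ (v : Fin n → F) (t : F), t ≠ 0 ∧ Q v = c * t ^ 2 ∧ ((g : Matrix.GeneralLinearGroup (Fin n) F) : Matrix (Fin n) (Fin n) F) = Cfsg.reflectionMatrix ⇑Q v}).index = 2 := by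
  have hS := sep_of_nondegenerate hQ
  have hfr : finrank F (Fin n → F) = n := by
    rw [Module.finrank_fintype_fun_eq_card, Fintype.card_fin]
  have hq : Fintype.card F ≠ 3 ∨ 5 ≤ finrank F (Fin n → F) ∨ finrank F (Fin n → F) ≤ 2 := by
    rw [hfr]
    by_cases h3 : Fintype.card F = 3
    · right
      obtain ⟨k, hk⟩ := heven
      have : n ≠ 4 := fun h4 => h43 ⟨h4, h3⟩
      omega
    · exact Or.inl h3
  have hidx := index_HA h2 hS (by rw [hfr]; exact hn) hq hc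
  have hset : Subgroup.closure {g : ↥(Cfsg.isometryGroup F ⇑Q) | ∃ (v : Fin n → F) (t : F),
      t ≠ 0 ∧ Q v = c * t ^ 2 ∧ ((g : Matrix.GeneralLinearGroup (Fin n) F)
        : Matrix (Fin n) (Fin n) F) = Cfsg.reflectionMatrix ⇑Q v}
      = (HA Q c).map ((isoEquiv Q).symm : ↥(O Q) →* ↥(Cfsg.isometryGroup F ⇑Q)) := by
    unfold HA
    rw [MonoidHom.map_closure]
    congr 1
    ext g
    constructor
    · rintro ⟨v, t, ht, hv, hg⟩
      refine ⟨refl Q v, ⟨v, ⟨t, ht, hv⟩, rfl⟩, ?_⟩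
      apply Subtype.ext
      apply Units.ext
      rw [hg]
      exact symm_refl_matrix Q v
    · rintro ⟨x, ⟨v, ⟨t, ht, hv⟩, rfl⟩, rfl⟩
      exact ⟨v, t, ht, hv, symm_refl_matrix Q v⟩
  rw [hset, Subgroup.index_map_equiv]
  exact hidx

end Cfsg.Agent.S0798
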