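import Cfsg.Statements.S0801
import Cfsg.Agent.Lib.Helper98.SL2Gen
import Cfsg.Agent.Lib.Helper98.F9Gen

set_option autoImplicit false
open Cfsg

namespace Cfsg.Agent.S0801

/-- Let F be a finite field of odd characteristic and λ ≠ 0 an element generating F as a field. Then the lower and upper unitriangular matrices with off-diagonal entries 1 and λ generate SL_2(F), unless |F| = 9 and λ² = −1, in which case they generate a subgroup of order 120. -/
theorem result {F : Type*} [Field F] [Fintype F] (h2 : (2 : F) ≠ 0) (lam : F) (hlam : lam ≠ 0) (hgen : Subfield.closure ({lam} : Set F) = ⊤) : (Subgroup.closure {g : Matrix.SpecialLinearGroup (Fin 2) F | (g : Matrix (Fin 2) (Fin 2) F) = !![1, 0; 1, 1] ∨ (g : Matrix (Fin 2) (Fin 2) F) = !![1, lam; 0, 1]} = ⊤ ∧ ¬ (Fintype.card F = 9 ∧ lam ^ 2 = -1)) ∨ (Fintype.card F = 9 ∧ lam ^ 2 = -1 ∧ Nat.card ↥(Subgroup.closure {g : Matrix.SpecialLinearGroup (Fin 2) F | (g : Matrix (Fin 2) (Fin 2) F) = !![1, 0;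 1, 1] ∨ (g : Matrix (Fin 2) (Fin 2) F) = !![1, lam; 0, 1]}) = 120) := by
  classical
  by_cases hex : Fintype.card F = 9 ∧ lam ^ 2 = -1
  · right
    exact ⟨hex.1, hex.2, Cfsg.Agent.Lib.Helper98.F9Gen.card_closure hex.1 lam hex.2⟩
  · left
    refine ⟨?_, hex⟩
    rcases Cfsg.Agent.Lib.Helper98.SL2Gen.closure_eq_top h2 lam hlam hgen with h | ⟨h3, hl⟩
    · exact h
    · exact absurd ⟨Cfsg.Agent.Lib.Helper98.F9Gen.card_nine h3 lam hl hgen, hl⟩ hex

end Cfsg.Agent.S0801
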