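import Cfsg.Statements.S0806
-- import your own Cfsg.Agent.* helpers here
import Cfsg.Agent.Lib.Helper98.DicksonB
import Cfsg.Agent.Lib.Helper6.DE5

set_option autoImplicit false
open Cfsg

namespace Cfsg.Agent.S0806

open Matrix MatrixGroups
open Cfsg.Agent.Lib.Helper98.SL2Sub Cfsg.Agent.Lib.Helper98.PSL2Max
open Cfsg.Agent.Lib.Helper98.DicksonB Cfsg.Agent.Lib.Helper98.SL2Core
open Cfsg.Agent.Lib.Helper53.SL2Inv Cfsg.Agent.Lib.Helper53.SL2Unip

lemma sq_sub_one (m : ℕ) : (m + 2) ^ 2 - 1 = (m + 1) * (m + 3) := by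
  have : (m + 2) ^ 2 = (m + 1) * (m + 3) + 1 := by ring
  omega

lemma index_ge {F : Type*} [Field F] [Fintype F] (X : Subgroup SL(2, F))
    (hle : Nat.card X ≤ Fintype.card F * (Fintype.card F - 1)) :
    Fintype.card F + 1 ≤ X.index := by
  have h := Subgroup.card_mul_index X
  rw [Cfsg.Agent.Lib.Helper5.SL2Card.card_SL_two (F := F) rfl] at h
  have hq2 : 2 ≤ Fintype.card F := Fintype.one_lt_card
  obtain ⟨m, hm⟩ : ∃ m, Fintype.card F = m + 2 := ⟨Fintype.card F - 2, by omega⟩
  rw [hm] at h hle ⊢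
  have e1 : m + 2 - 1 = m + 1 := by omega
  rw [e1] at hle
  rw [sq_sub_one] at h
  by_contra hcon
  push Not at hcon
  have h1 : Nat.card X * X.index ≤ ((m + 2) * (m + 1)) * (m + 2) :=
    Nat.mul_le_mul hle (by omega)
  rw [h] at h1
  nlinarith

lemma center_le_Bo {F : Type*} [Field F] : Subgroup.center SL(2, F) ≤ Bo F := by
  intro g hg
  obtain ⟨r, hr, hg'⟩ := Matrix.SpecialLinearGroup.mem_center_iff.1 hg
  have hg'' : g.1 = Matrix.scalar (Fin 2) r := hg'.symm
  show g.1 1 0 = 0
  rw [hg'']
  simp [Matrix.scalar_apply]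

lemma index_Bo {F : Type*} [Field F] [Fintype F] : (Bo F).index = Fintype.card F + 1 := by
  haveI : Finite SL(2, F) := finite_SL
  have h := Subgroup.card_mul_index (Bo F)
  rw [Cfsg.Agent.Lib.Helper5.SL2Card.card_SL_two (F := F) rfl, card_Bo] at h
  have hq2 : 2 ≤ Fintype.card F := Fintype.one_lt_card
  obtain ⟨m, hm⟩ : ∃ m, Fintype.card F = m + 2 := ⟨Fintype.card F - 2, by omega⟩
  rw [hm] at h ⊢
  have e1 : m + 2 - 1 = m + 1 := by omega
  rw [e1, sq_sub_one] at h
  have h' : (m + 2) * (m + 1) * (Bo F).index = (m + 2) * (m + 1) * (m + 3) := by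
    rw [h]; ring
  exact Nat.eq_of_mul_eq_mul_left (by positivity) h'

/-- proper subgroups of `SL(2, F)` containing the centre have order at most `q (q - 1)` -/
theorem card_le {F : Type*} [Field F] [Fintype F]
    (hq : Fintype.card F ∉ ({2, 3, 5, 7, 9, 11} : Finset ℕ)) (X : Subgroup SL(2, F))
    (hZ : Subgroup.center SL(2, F) ≤ X) (hX : X ≠ ⊤) :
    Nat.card X ≤ Fintype.card F * (Fintype.card F - 1) := by
  classical
  haveI : Finite SL(2, F) := finite_SL
  have hq2 : 2 ≤ Fintype.card F := Fintype.one_lt_card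
  simp only [Finset.mem_insert, Finset.mem_singleton, not_or] at hq
  by_cases h2 : (2 : F) = 0
  · have hch : ringChar F = 2 :=
      CharP.ringChar_of_prime_eq_zero Nat.prime_two (by exact_mod_cast h2)
    have heven : Fintype.card F % 2 = 0 := FiniteField.even_card_iff_char_two.1 hch
    haveI : CharP F 2 :=
      Cfsg.Agent.Lib.Helper42.SL2Even.charP_two_of_even (Nat.dvd_of_mod_eq_zero heven)
    have hq4 : 4 ≤ Fintype.card F := by omega
    obtain ⟨q, hqd⟩ : ∃ q, q = Fintype.card F := ⟨_, rfl⟩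
    rw [← hqd] at hq4 ⊢
    obtain ⟨g, hg⟩ := Cfsg.Agent.Lib.Helper6.DE4.subgroups X
    have hcard : Nat.card (X.map (MulAut.conj g).toMonoidHom) = Nat.card X :=
      card_map_equiv X (MulAut.conj g)
    rcases hg with h | ⟨t, ht, h⟩ | ⟨k, hk, h⟩
    · have := Subgroup.card_le_of_le h
      rw [hcard, Cfsg.Agent.Lib.Helper6.DE5.card_Bor, ← hqd] at this
      exact this
    · have := Subgroup.card_le_of_le h
      rw [hcard, Cfsg.Agent.Lib.Helper6.DE5.card_Ng_cm ht] at this
      have hb : 2 * (q + 1) ≤ q * (q - 1) := by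
        obtain ⟨m, rfl⟩ : ∃ m, q = m + 4 := ⟨q - 4, by omega⟩
        have : m + 4 - 1 = m + 3 := by omega
        rw [this]; nlinarith
      rcases Cfsg.Agent.Lib.Helper6.DE5.card_cent_cm' ht with h' | h' <;>
        rw [h', ← hqd] at this <;> omega
    · by_cases hx : ∃ x, x ∉ k
      · obtain ⟨x, hx⟩ := hx
        have hsq := card_sq_le k x hx
        rw [Nat.card_eq_fintype_card (α := F), ← hqd] at hsq
        have hc : Nat.card X = Nat.card (Sk k) := by rw [← hcard, h]
        rw [hc, card_Sk]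
        have hk2 : 2 ≤ Nat.card k := Cfsg.Agent.Lib.Helper98.SL2Field.card_subfield_two_le k
        obtain ⟨q₀, hq₀⟩ : ∃ q₀, q₀ = Nat.card k := ⟨_, rfl⟩
        rw [← hq₀] at hsq hk2 ⊢
        have h1 : q₀ ≤ q := le_trans (by nlinarith) hsq
        exact Nat.mul_le_mul h1 (by omega)
      · push Not at hx
        exfalso
        apply hX
        apply eq_top_of_map_eq_top X (MulAut.conj g)
        rw [h, eq_top_iff]
        intro g _
        exact ⟨hx _, hx _, hx _, hx _⟩
  · obtain ⟨p, hp⟩ := CharP.exists F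
    haveI := hp
    haveI : Fact p.Prime := ⟨CharP.char_is_prime F p⟩
    have hodd : Fintype.card F % 2 = 1 := by
      by_contra hcon
      have heven : Fintype.card F % 2 = 0 := by omega
      have hch : ringChar F = 2 := FiniteField.even_card_iff_char_two.2 heven
      have h' : ((ringChar F : ℕ) : F) = 0 := ringChar.Nat.cast_ringChar
      rw [hch] at h'
      exact h2 (by exact_mod_cast h')
    have hq13 : 13 ≤ Fintype.card F := by omega
    have hneg : negOne ∈ X := by
      apply hZ
      rw [center_eq]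
      exact Or.inr rfl
    exact card_le_of_ne_top p h2 hq13 X hneg hX

/-- Minimal index (Galois): if q ∉ {2, 3, 5, 7, 9, 11} then every proper subgroup of PSL_2(q) has index ≥ q + 1, and some subgroup has index exactly q + 1. -/
theorem result {F : Type*} [Field F] [Fintype F] {q : ℕ} (hF : Fintype.card F = q) (hq : q ∉ ({2, 3, 5, 7, 9, 11} : Finset ℕ)) : (∀ H : Subgroup (Matrix.ProjectiveSpecialLinearGroup (Fin 2) F), H ≠ ⊤ → q + 1 ≤ H.index) ∧ ∃ H : Subgroup (Matrix.ProjectiveSpecialLinearGroup (Fin 2) F), H.index = q + 1 := by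
  classical
  subst hF
  haveI : Finite SL(2, F) := finite_SL
  constructor
  · intro H hH
    have hidx : (H.comap (proj (F := F))).index = H.index :=
      Subgroup.index_comap_of_surjective H proj_surj
    rw [← hidx]
    apply index_ge
    apply card_le hq
    · have hker : (proj (F := F)).ker = Subgroup.center SL(2, F) := QuotientGroup.ker_mk' _
      have hle : (proj (F := F)).ker ≤ H.comap (proj (F := F)) := MonoidHom.ker_le_comap _ _
      rw [hker] at hle
      exact hle
    · intro htop
      apply hH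
      rw [← Subgroup.map_comap_eq_self_of_surjective (proj_surj (F := F)) H, htop,
        ← MonoidHom.range_eq_map, MonoidHom.range_eq_top.2 proj_surj]
  · refine ⟨(Bo F).map (proj (F := F)), ?_⟩
    rw [Subgroup.index_map_eq _ proj_surj, index_Bo]
    have hker : (proj (F := F)).ker = Subgroup.center SL(2, F) := QuotientGroup.ker_mk' _
    rw [hker]
    exact center_le_Bo

end Cfsg.Agent.S0806
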