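import Cfsg.Statements.S0808
import Cfsg.Agent.Lib.Helper14.Klein2
-- import your own Cfsg.Agent.* helpers here

set_option autoImplicit false
open Cfsg

namespace Cfsg.Agent.S0808

/-- Conjugacy classes of four-groups in PSL_2(q), q odd: if q ≡ 3 or 5 (mod 8) all Klein four-subgroups are conjugate; if q ≡ 1 or 7 (mod 8) there are two Klein four-subgroups which are not conjugate, and every Klein four-subgroup is conjugate to one of them. -/
theorem result {F : Type*} [Field F] [Fintype F] {q : ℕ} (hF : Fintype.card F = q) (hodd : Odd q) : ((q % 8 = 3 ∨ q % 8 = 5) → ∀ V W : Subgroup (Matrix.ProjectiveSpecialLinearGroup (Fin 2) F), IsKleinFour V → IsKleinFour W → ∃ g : Matrix.ProjectiveSpecialLinearGroup (Fin 2) F, W = V.map (MulAut.conj g).toMonoidHom) ∧ ((q % 8 = 1 ∨ q % 8 = 7) → ∃ V₁ V₂ : Subgroup (Matrix.ProjectiveSpecialLinearGroup (Fin 2) F), IsKleinFour V₁ ∧ IsKleinFour V₂ ∧ (¬ ∃ g : Matrix.ProjectiveSpecialLinearGroup (Fin 2) F, V₂ = V₁.map (MulAut.conj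 g).toMonoidHom) ∧ ∀ W : Subgroup (Matrix.ProjectiveSpecialLinearGroup (Fin 2) F), IsKleinFour W → (∃ g : Matrix.ProjectiveSpecialLinearGroup (Fin 2) F, W = V₁.map (MulAut.conj g).toMonoidHom) ∨ (∃ g : Matrix.ProjectiveSpecialLinearGroup (Fin 2) F, W = V₂.map (MulAut.conj g).toMonoidHom)) := by
  subst hF
  constructor
  · intro hq V W hV hW
    exact Cfsg.Agent.Lib.Helper14.Klein2.one_class hodd hq V W hV hW
  · intro hq
    have hsq : IsSquare (2 : F) := by
      rw [FiniteField.isSquare_two_iff]; omega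
    obtain ⟨r, hr⟩ := hsq
    have h2F := Cfsg.Agent.Lib.Helper53.SL2Inv.two_ne_zero_of_odd hodd
    have hr0 : r ≠ 0 := by
      rintro rfl
      rw [mul_zero] at hr
      exact h2F hr
    have hβ : 2 * (r⁻¹) ^ 2 = 1 := by
      rw [hr]; field_simp
    exact Cfsg.Agent.Lib.Helper14.Klein2.two_classes hodd r⁻¹ hβ

end Cfsg.Agent.S0808
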