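import Cfsg.Statements.S0810
import Cfsg.Agent.Lib.Helper6.DEven3
import Cfsg.Agent.Lib.Helper98.DOdd10

set_option autoImplicit false
open Cfsg

namespace Cfsg.Agent.S0810

/-- PSL_2(q) is minimal simple iff q is 2^r (r prime), 3^r (r an odd prime), a prime greater than 5 congruent to 2 or 3 mod 5, or 5. -/
theorem result {F : Type*} [Field F] [Fintype F] {q : ℕ} (hF : Fintype.card F = q) : Cfsg.IsMinimalSimple (Matrix.ProjectiveSpecialLinearGroup (Fin 2) F) ↔ ((∃ r : ℕ, r.Prime ∧ q = 2 ^ r) ∨ (∃ r : ℕ, r.Prime ∧ r ≠ 2 ∧ q = 3 ^ r) ∨ (q.Prime ∧ 5 < q ∧ (q % 5 = 2 ∨ q % 5 = 3)) ∨ q = 5) := by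
  rcases Nat.even_or_odd q with he | ho
  · exact Cfsg.Agent.Lib.Helper6.DEven3.even_S0810 hF he
  · exact Cfsg.Agent.Lib.Helper98.DOdd10.odd_S0810 hF ho

end Cfsg.Agent.S0810
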