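import Cfsg.Statements.S0811
import Cfsg.Agent.Lib.Helper6.DEven2
import Cfsg.Agent.Lib.Helper98.DOdd11

set_option autoImplicit false
open Cfsg

namespace Cfsg.Agent.S0811

/-- For q ∉ {2, 7, 9}, PSL_2(q) has a maximal subgroup isomorphic to the dihedral group of order 2(q + 1)/d, d = gcd(2, q − 1). -/
theorem result {F : Type*} [Field F] [Fintype F] {q : ℕ} (hF : Fintype.card F = q) (hq : q ∉ ({2, 7, 9} : Finset ℕ)) : ∃ H : Subgroup (Matrix.ProjectiveSpecialLinearGroup (Fin 2) F), IsCoatom H ∧ Nonempty (H ≃* DihedralGroup ((q + 1) / Nat.gcd 2 (q - 1))) := by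
  rcases Nat.even_or_odd q with he | ho
  · exact Cfsg.Agent.Lib.Helper6.DEven2.even_S0811 hF he (by intro h; apply hq; simp [h])
  · exact Cfsg.Agent.Lib.Helper98.DOdd11.odd_S0811 hF ho hq

end Cfsg.Agent.S0811
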