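import Cfsg.Statements.S0814
-- import your own Cfsg.Agent.* helpers here
import Cfsg.Agent.Lib.Helper43.SpOut

set_option autoImplicit false
open Cfsg

namespace Cfsg.Agent.S0814



/-- |Aut(PSp_2m(q))| = gcd(2, q−1) · f · |PSp_2m(q)| for q = p^f, m ≥ 2, (m, q) ≠ (2, 2), with an extra factor 2 exactly when m = 2 and p = 2. -/
theorem result {F : Type*} [Field F] [Fintype F] (p f : ℕ) [Fact p.Prime] (hf : 1 ≤ f) (hF : Fintype.card F = p ^ f) (m : ℕ) (hm : 2 ≤ m) (h22 : m = 2 → 3 ≤ p ^ f) : Nat.card (MulAut (Cfsg.PSp m F)) = (if m = 2 ∧ p = 2 then 2 else 1) * Nat.gcd 2 (p ^ f - 1) * f * Nat.card (Cfsg.PSp m F) := by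
  exact Cfsg.Agent.Lib.Helper43.SpOut.card_aut p f hf hF m hm

end Cfsg.Agent.S0814
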