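import Cfsg.Statements.S2739
import Cfsg.Agent.Lib.Helper46.NatSL2

set_option autoImplicit false
open scoped Pointwise
open Cfsg

namespace Cfsg.Agent.S2739

theorem ch3 {R : Type*} [CommRing R] (M : Matrix (Fin 3) (Fin 3) R) :
    M * M * M = M.trace • (M * M) - (M 0 0 * M 1 1 + M 0 0 * M 2 2 + M 1 1 * M 2 2 - M 0 1 * M 1 0 - M 0 2 * M 2 0 - M 1 2 * M 2 1) • M + M.det • (1 : Matrix (Fin 3) (Fin 3) R) := by
  ext i j
  fin_cases i <;> fin_cases j <;>
    simp [Matrix.mul_apply, Fin.sum_univ_three, Matrix.trace, Matrix.det_fin_three] <;> ring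

variable {F : Type*} [Field F]

theorem scalar_of_smul_eq (M : Matrix (Fin 3) (Fin 3) F) (c d : F) (hc : c ≠ 0)
    (h : c • M = d • (1 : Matrix (Fin 3) (Fin 3) F)) : M = (c⁻¹ * d) • (1 : Matrix (Fin 3) (Fin 3) F) := by
  have : M = c⁻¹ • (c • M) := by rw [smul_smul, inv_mul_cancel₀ hc, one_smul]
  rw [this, h, smul_smul]

theorem smul_one_eq_zero (d : F) (h : d • (1 : Matrix (Fin 3) (Fin 3) F) = 0) : d = 0 := by
  have := congrFun (congrFun h 0) 0
  simpa using this

theorem cube_scalar_eq_one [CharP F 2] (hF3 : ∀ a : F, a ≠ 0 → a ^ 3 = 1)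
    (M : Matrix (Fin 3) (Fin 3) F) (hdet : M.det = 1) (r : F) (hr : r ≠ 0)
    (hM : M * M * M = r • (1 : Matrix (Fin 3) (Fin 3) F)) (hns : ∀ c : F, M ≠ c • (1 : Matrix (Fin 3) (Fin 3) F)) : r = 1 := by
  have h := ch3 M
  rw [hM, hdet] at h
  generalize M.trace = t at h
  generalize (M 0 0 * M 1 1 + M 0 0 * M 2 2 + M 1 1 * M 2 2 - M 0 1 * M 1 0 - M 0 2 * M 2 0 - M 1 2 * M 2 1) = e at h
  by_cases ht : t = 0
  · subst ht
    have h1 : e • M = (1 - r) • (1 : Matrix (Fin 3) (Fin 3) F) := by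
      rw [sub_smul, h]; simp
    by_cases he : e = 0
    · subst he
      rw [zero_smul] at h1
      have := smul_one_eq_zero _ h1.symm
      exact (sub_eq_zero.mp this).symm
    · exact absurd (scalar_of_smul_eq M e _ he h1) (hns _)
  · -- M*M = a • M + b • 1
    have h1 : t • (M * M) = e • M + (r - 1) • (1 : Matrix (Fin 3) (Fin 3) F) := by
      rw [sub_smul, h]; abel
    have h2 : M * M = (t⁻¹ * e) • M + (t⁻¹ * (r - 1)) • (1 : Matrix (Fin 3) (Fin 3) F) := by
      have : M * M = t⁻¹ • (t • (M * M)) := by rw [smul_smul, inv_mul_cancel₀ ht, one_smul]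
      rw [this, h1, smul_add, smul_smul, smul_smul]
    generalize t⁻¹ * e = a at h2
    generalize t⁻¹ * (r - 1) = b at h2
    have h3 : (a ^ 2 + b) • M = (r - a * b) • (1 : Matrix (Fin 3) (Fin 3) F) := by
      have : M * M * M = (a ^ 2 + b) • M + (a * b) • (1 : Matrix (Fin 3) (Fin 3) F) := by
        rw [h2, Matrix.add_mul, Matrix.smul_mul, h2, Matrix.smul_mul, Matrix.one_mul, smul_add, smul_smul, smul_smul, add_smul, pow_two]
        abel
      rw [hM] at this
      rw [sub_smul, this]; abel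
    by_cases hab : a ^ 2 + b = 0
    · rw [hab, zero_smul] at h3
      have h4 := smul_one_eq_zero _ h3.symm
      have hb : b = a ^ 2 := by
        have : b = - a ^ 2 := by linear_combination hab
        rw [this, CharTwo.neg_eq]
      have hr' : r = a ^ 3 := by rw [hb] at h4; linear_combination h4
      have ha : a ≠ 0 := by
        rintro rfl
        apply hr; rw [hr']; simp
      rw [hr', hF3 a ha]
    · exact absurd (scalar_of_smul_eq M _ _ hab h3) (hns _)

theorem trace_eq_zero_of_cube (M : Matrix (Fin 3) (Fin 3) F) (hdet : M.det = 1)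
    (hM : M * M * M = 1) (hns : ∀ c : F, M ≠ c • (1 : Matrix (Fin 3) (Fin 3) F)) : M.trace = 0 := by
  have h := ch3 M
  rw [hM, hdet] at h
  generalize (M 0 0 * M 1 1 + M 0 0 * M 2 2 + M 1 1 * M 2 2 - M 0 1 * M 1 0 - M 0 2 * M 2 0 - M 1 2 * M 2 1) = e at h
  by_contra ht
  have h1 : M.trace • (M * M) = e • M := by
    have : M.trace • (M * M) - e • M = 0 := by
      have h' : (1 : Matrix (Fin 3) (Fin 3) F) = M.trace • (M * M) - e • M + 1 := by simpa using h
      have := sub_eq_zero.mpr h'.symm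
      rw [add_sub_cancel_right] at this
      exact this
    exact sub_eq_zero.mp this
  have h2 : M.trace • M = e • (1 : Matrix (Fin 3) (Fin 3) F) := by
    have := congrArg (fun N => M * M * N) h1
    simp only [Matrix.mul_smul] at this
    have e1 : M * M * (M * M) = M := by
      rw [← Matrix.mul_assoc, hM, Matrix.one_mul]
    rw [e1, hM] at this
    exact this
  exact absurd (scalar_of_smul_eq M _ _ ht h2) (hns _)

theorem exists_eigenvector [CharP F 2] (M : Matrix (Fin 3) (Fin 3) F) (hdet : M.det = 1)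
    (hM : M * M * M = 1) (hns : ∀ c : F, M ≠ c • (1 : Matrix (Fin 3) (Fin 3) F))
    (l : F) (hl : l ^ 3 = 1) : ∃ v : Fin 3 → F, v ≠ 0 ∧ M.mulVec v = l • v := by
  have ht := trace_eq_zero_of_cube M hdet hM hns
  have hM4 : M * M * (M * M) = M := by
    rw [← Matrix.mul_assoc, hM, Matrix.one_mul]
  have ht2 : (M * M).trace = 0 := by
    apply trace_eq_zero_of_cube (M * M)
    · rw [Matrix.det_mul, hdet, one_mul]
    · rw [hM4, ← Matrix.mul_assoc, hM]
    · intro c hc
      apply hns (c * c)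
      rw [← hM4, hc]
      simp [smul_smul]
  set P : Matrix (Fin 3) (Fin 3) F := 1 + (l ^ 2) • M + l • (M * M) with hP
  have hMP : M * P = l • P := by
    rw [hP, Matrix.mul_add, Matrix.mul_add, Matrix.mul_one, Matrix.mul_smul, Matrix.mul_smul,
      ← Matrix.mul_assoc, hM, smul_add, smul_add, smul_smul, smul_smul]
    have : l * l ^ 2 = 1 := by rw [← hl]; ring
    rw [this, one_smul, pow_two]
    abel
  have htP : P.trace = 1 := by
    rw [hP, Matrix.trace_add, Matrix.trace_add, Matrix.trace_smul, Matrix.trace_smul, ht, ht2]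
    simp only [Matrix.trace_one, Fintype.card_fin, smul_zero, add_zero]
    have : (2 : F) = 0 := CharTwo.two_eq_zero
    push_cast
    linear_combination this
  have : ∃ j, P j j ≠ 0 := by
    by_contra hcon
    push Not at hcon
    rw [Matrix.trace] at htP
    simp [hcon] at htP
  obtain ⟨j, hj⟩ := this
  refine ⟨fun i => P i j, fun h0 => hj (congrFun h0 j), ?_⟩
  funext i
  have := congrFun (congrFun hMP i) j
  simpa [Matrix.mul_apply, Matrix.mulVec, dotProduct] using this


theorem exists_conj_diag [CharP F 2] (ω : F) (hω : ω ^ 2 + ω + 1 = 0)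
    (M : Matrix (Fin 3) (Fin 3) F) (hdet : M.det = 1) (hM : M * M * M = 1)
    (hns : ∀ c : F, M ≠ c • (1 : Matrix (Fin 3) (Fin 3) F)) :
    ∃ g : Matrix (Fin 3) (Fin 3) F, g.det = 1 ∧ M * g = g * Matrix.diagonal ![1, ω, ω ^ 2] := by
  have h3 : ω ^ 3 = 1 := by linear_combination (ω - 1) * hω
  have h2 : (2 : F) = 0 := CharTwo.two_eq_zero
  have hω1 : ω ≠ 1 := by
    rintro rfl
    have : (1 : F) = 0 := by linear_combination hω - h2
    exact one_ne_zero this
  have hω0 : ω ≠ 0 := by
    rintro rfl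
    simp at hω
  have h01 : (1 : F) ≠ ω := fun h => hω1 h.symm
  have h02 : (1 : F) ≠ ω ^ 2 := by
    intro h
    apply hω0
    linear_combination hω - h2 + h
  have h12 : ω ≠ ω ^ 2 := by
    intro h
    have : ω * (ω - 1) = 0 := by linear_combination -h
    rcases mul_eq_zero.mp this with h' | h'
    · exact hω0 h'
    · exact hω1 (sub_eq_zero.mp h')
  set μ : Fin 3 → F := ![1, ω, ω ^ 2] with hμ
  have hμ3 : ∀ i, μ i ^ 3 = 1 := by
    intro i; fin_cases i
    · show (1 : F) ^ 3 = 1; simp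
    · show ω ^ 3 = 1; exact h3
    · show (ω ^ 2) ^ 3 = 1; rw [← pow_mul, mul_comm, pow_mul, h3, one_pow]
  have hinj : Function.Injective μ := by
    have key : ∀ i j : Fin 3, i < j → μ i ≠ μ j := by
      intro i j hlt
      fin_cases i <;> fin_cases j <;> first | exact absurd hlt (by decide) | skip
      · show (1 : F) ≠ ω; exact h01
      · show (1 : F) ≠ ω ^ 2; exact h02
      · show ω ≠ ω ^ 2; exact h12
    intro i j hij
    rcases lt_trichotomy i j with h | h | h
    · exact absurd hij (key i j h)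
    · exact h
    · exact absurd hij.symm (key j i h)
  choose v hv0 hv using fun i => exists_eigenvector M hdet hM hns (μ i) (hμ3 i)
  have hli : LinearIndependent F v := by
    apply Module.End.eigenvectors_linearIndependent' (Matrix.toLin' M) μ hinj v
    intro i
    rw [Module.End.hasEigenvector_iff, Module.End.mem_eigenspace_iff]
    exact ⟨by simpa using hv i, hv0 i⟩
  obtain ⟨g, hg⟩ : ∃ g : Matrix (Fin 3) (Fin 3) F, ∀ i j, g i j = v j i := ⟨Matrix.of (fun i j => v j i), fun _ _ => rfl⟩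
  have hcol : g.col = v := by
    funext j i
    exact hg i j
  have hdet0 : g.det ≠ 0 := by
    have : IsUnit g := Matrix.linearIndependent_cols_iff_isUnit.mp (by rw [hcol]; exact hli)
    exact ((Matrix.isUnit_iff_isUnit_det g).mp this).ne_zero
  have hMg : M * g = g * Matrix.diagonal μ := by
    ext i j
    rw [Matrix.mul_diagonal]
    have h1 : (M * g) i j = (M.mulVec (v j)) i := by
      simp [Matrix.mul_apply, Matrix.mulVec, dotProduct, hg]
    rw [h1, hv j, hg]
    simp [mul_comm]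
  refine ⟨g * Matrix.diagonal ![g.det⁻¹, 1, 1], ?_, ?_⟩
  · rw [Matrix.det_mul, Matrix.det_diagonal, Fin.prod_univ_three]
    simp [hdet0]
  · rw [← Matrix.mul_assoc, hMg, Matrix.mul_assoc, Matrix.mul_assoc, Matrix.diagonal_mul_diagonal,
      Matrix.diagonal_mul_diagonal]
    congr 2
    funext i
    exact mul_comm _ _

theorem conj_smul_zpowers {G : Type*} [Group G] (g z : G) :
    MulAut.conj g • Subgroup.zpowers z = Subgroup.zpowers (g * z * g⁻¹) :=
  MonoidHom.map_zpowers ((MulAut.conj g).toMonoidHom) z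

theorem exists_sl_conj [CharP F 2] (hF3 : ∀ a : F, a ≠ 0 → a ^ 3 = 1) (ω : F)
    (hω : ω ^ 2 + ω + 1 = 0) (D : Matrix.SpecialLinearGroup (Fin 3) F)
    (hD : (D : Matrix (Fin 3) (Fin 3) F) = Matrix.diagonal ![1, ω, ω ^ 2])
    (x : Matrix.SpecialLinearGroup (Fin 3) F)
    (hx : x ^ 3 ∈ Subgroup.center (Matrix.SpecialLinearGroup (Fin 3) F))
    (hxc : x ∉ Subgroup.center (Matrix.SpecialLinearGroup (Fin 3) F)) :
    ∃ h : Matrix.SpecialLinearGroup (Fin 3) F, x = h * D * h⁻¹ := by
  rw [Matrix.SpecialLinearGroup.mem_center_iff] at hx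
  obtain ⟨r, hr3, hr⟩ := hx
  have hns : ∀ c : F, (x : Matrix (Fin 3) (Fin 3) F) ≠ c • (1 : Matrix (Fin 3) (Fin 3) F) := by
    intro c hc
    apply hxc
    rw [Matrix.SpecialLinearGroup.mem_center_iff]
    refine ⟨c, ?_, ?_⟩
    · have := x.det_coe
      rw [hc] at this
      simpa [Matrix.det_smul] using this
    · rw [hc]; simp [Matrix.smul_one_eq_diagonal]
  have hr0 : r ≠ 0 := by rintro rfl; simp at hr3
  have hxM : (x : Matrix (Fin 3) (Fin 3) F) * x * x = r • (1 : Matrix (Fin 3) (Fin 3) F) := by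
    have : ((x ^ 3 : Matrix.SpecialLinearGroup (Fin 3) F) : Matrix (Fin 3) (Fin 3) F) = (x : Matrix (Fin 3) (Fin 3) F) * x * x := by
      rw [pow_succ, pow_two, Matrix.SpecialLinearGroup.coe_mul, Matrix.SpecialLinearGroup.coe_mul]
    rw [← this, ← hr]; simp [Matrix.smul_one_eq_diagonal]
  have hr1 : r = 1 := cube_scalar_eq_one hF3 _ x.det_coe r hr0 hxM hns
  subst hr1
  rw [one_smul] at hxM
  obtain ⟨g, hg, hMg⟩ := exists_conj_diag ω hω _ x.det_coe hxM hns
  obtain ⟨h, hh⟩ : ∃ h : Matrix.SpecialLinearGroup (Fin 3) F, (h : Matrix (Fin 3) (Fin 3) F) = g := ⟨⟨g, hg⟩, rfl⟩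
  refine ⟨h, ?_⟩
  rw [eq_mul_inv_iff_mul_eq]
  apply Subtype.ext
  rw [Matrix.SpecialLinearGroup.coe_mul, Matrix.SpecialLinearGroup.coe_mul, hh, hD]
  exact hMg


/-- In the projective special linear group PSL(3, 4) all subgroups of order 3 are conjugate. -/
theorem result (F : Type*) [Field F] [Fintype F] (hF : Fintype.card F = 4) (X Y : Subgroup (Matrix.ProjectiveSpecialLinearGroup (Fin 3) F)) (hX : Nat.card ↥X = 3) (hY : Nat.card ↥Y = 3) : ∃ g : Matrix.ProjectiveSpecialLinearGroup (Fin 3) F, MulAut.conj g • X = Y := by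
  classical
  have : Fact (Nat.Prime 2) := ⟨Nat.prime_two⟩
  have : CharP F 2 := Cfsg.Agent.Lib.Helper46.NatSL2.charP_of_card (p := 2) (n := 2) (by rw [hF]; norm_num)
  have hF3 : ∀ a : F, a ≠ 0 → a ^ 3 = 1 := fun a ha => by
    have := FiniteField.pow_card_sub_one_eq_one a ha
    rwa [hF] at this
  obtain ⟨ω, hω0, hω1⟩ : ∃ ω : F, ω ≠ 0 ∧ ω ≠ 1 := by
    by_contra hcon
    push Not at hcon
    have : Fintype.card F ≤ 2 := by
      have hsub : (Finset.univ : Finset F) ⊆ {0, 1} := by
        intro a _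
        by_cases ha : a = 0
        · simp [ha]
        · simp [hcon a ha]
      calc Fintype.card F = (Finset.univ : Finset F).card := Finset.card_univ.symm
        _ ≤ ({0, 1} : Finset F).card := Finset.card_le_card hsub
        _ ≤ 2 := Finset.card_le_two
    omega
  have hω : ω ^ 2 + ω + 1 = 0 := by
    have h3 := hF3 ω hω0
    have : (ω - 1) * (ω ^ 2 + ω + 1) = 0 := by linear_combination h3
    rcases mul_eq_zero.mp this with h | h
    · exact absurd (sub_eq_zero.mp h) hω1
    · exact h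
  obtain ⟨D, hD⟩ : ∃ D : Matrix.SpecialLinearGroup (Fin 3) F, (D : Matrix (Fin 3) (Fin 3) F) = Matrix.diagonal ![1, ω, ω ^ 2] :=
    ⟨⟨Matrix.diagonal ![1, ω, ω ^ 2], by rw [Matrix.det_diagonal, Fin.prod_univ_three]; simp; linear_combination (ω - 1) * hω⟩, rfl⟩
  have key : ∀ X : Subgroup (Matrix.ProjectiveSpecialLinearGroup (Fin 3) F), Nat.card X = 3 →
      ∃ g : Matrix.ProjectiveSpecialLinearGroup (Fin 3) F,
        MulAut.conj g • Subgroup.zpowers (QuotientGroup.mk D : Matrix.ProjectiveSpecialLinearGroup (Fin 3) F) = X := by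
    intro X hX
    have hXne : X ≠ ⊥ := by
      rintro rfl
      simp at hX
    obtain ⟨⟨xb, hxb⟩, hx1⟩ := (Subgroup.ne_bot_iff_exists_ne_one).mp hXne
    have hx1' : xb ≠ 1 := fun h => hx1 (Subtype.ext h)
    have hord : orderOf xb = 3 := by
      have hdvd : orderOf xb ∣ 3 := by
        have := Subgroup.orderOf_dvd_natCard X hxb
        rwa [hX] at this
      rcases (Nat.dvd_prime Nat.prime_three).mp hdvd with h | h
      · exact absurd (orderOf_eq_one_iff.mp h) hx1'
      · exact h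
    have hXz : Subgroup.zpowers xb = X := by
      apply Subgroup.eq_of_le_of_card_ge
      · rwa [Subgroup.zpowers_le]
      · rw [hX, Nat.card_zpowers, hord]
    obtain ⟨x, rfl⟩ := QuotientGroup.mk_surjective xb
    have hx3 : x ^ 3 ∈ Subgroup.center (Matrix.SpecialLinearGroup (Fin 3) F) := by
      rw [← QuotientGroup.eq_one_iff, QuotientGroup.mk_pow]
      have := pow_orderOf_eq_one (x : Matrix.ProjectiveSpecialLinearGroup (Fin 3) F)
      rwa [hord] at this
    have hxc : x ∉ Subgroup.center (Matrix.SpecialLinearGroup (Fin 3) F) := by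
      intro h; exact hx1' ((QuotientGroup.eq_one_iff x).mpr h)
    obtain ⟨h, hh⟩ := exists_sl_conj hF3 ω hω D hD x hx3 hxc
    refine ⟨QuotientGroup.mk h, ?_⟩
    rw [← hXz]
    refine (conj_smul_zpowers _ _).trans ?_
    rw [hh]
    rfl
  obtain ⟨a, ha⟩ := key X hX
  obtain ⟨b, hb⟩ := key Y hY
  refine ⟨b * a⁻¹, ?_⟩
  rw [← ha, ← hb, map_mul, mul_smul, map_inv, inv_smul_smul]

end Cfsg.Agent.S2739
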