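import Cfsg.Statements.S0819
import Cfsg.Agent.S2739

set_option autoImplicit false
open Cfsg

namespace Cfsg.Agent.S0819

theorem diag_of_commute {F : Type*} [Field F] (μ : Fin 3 → F) (hμ : Function.Injective μ)
    (K : Matrix (Fin 3) (Fin 3) F) (h : K * Matrix.diagonal μ = Matrix.diagonal μ * K) :
    K = Matrix.diagonal (fun i => K i i) := by
  ext i j
  by_cases hij : i = j
  · subst hij; simp
  · rw [Matrix.diagonal_apply_ne _ hij]
    have := congrFun (congrFun h i) j
    rw [Matrix.mul_diagonal, Matrix.diagonal_mul] at this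
    have h2 : K i j * (μ j - μ i) = 0 := by linear_combination this
    rcases mul_eq_zero.mp h2 with h3 | h3
    · exact h3
    · exact absurd (hμ (sub_eq_zero.mp h3)).symm hij

/-- No element of PSL_3(4) has order 15. -/
theorem result {F : Type*} [Field F] [Fintype F] (hF : Fintype.card F = 4) (g : Matrix.ProjectiveSpecialLinearGroup (Fin 3) F) : orderOf g ≠ 15 := by
  classical
  have : Fact (Nat.Prime 2) := ⟨Nat.prime_two⟩
  have : CharP F 2 := Cfsg.Agent.Lib.Helper46.NatSL2.charP_of_card (p := 2) (n := 2)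
    (by rw [hF]; norm_num)
  have hF3 : ∀ a : F, a ≠ 0 → a ^ 3 = 1 := fun a ha => by
    have := FiniteField.pow_card_sub_one_eq_one a ha
    rwa [hF] at this
  obtain ⟨ω, hω0, hω1⟩ : ∃ ω : F, ω ≠ 0 ∧ ω ≠ 1 := by
    by_contra hcon
    push Not at hcon
    have : Fintype.card F ≤ 2 := by
      have hsub : (Finset.univ : Finset F) ⊆ {0, 1} := by
        intro a _
        by_cases ha : a = 0
        · simp [ha]
        · simp [hcon a ha]
      calc Fintype.card F = (Finset.univ : Finset F).card := Finset.card_univ.symm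
        _ ≤ ({0, 1} : Finset F).card := Finset.card_le_card hsub
        _ ≤ 2 := Finset.card_le_two
    omega
  have hω : ω ^ 2 + ω + 1 = 0 := by
    have h3 := hF3 ω hω0
    have : (ω - 1) * (ω ^ 2 + ω + 1) = 0 := by linear_combination h3
    rcases mul_eq_zero.mp this with h | h
    · exact absurd (sub_eq_zero.mp h) hω1
    · exact h
  have h2 : (2 : F) = 0 := CharTwo.two_eq_zero
  have h01 : (1 : F) ≠ ω := fun h => hω1 h.symm
  have h02 : (1 : F) ≠ ω ^ 2 := by
    intro h
    apply hω0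
    linear_combination hω - h2 + h
  have h12 : ω ≠ ω ^ 2 := by
    intro h
    have : ω * (ω - 1) = 0 := by linear_combination -h
    rcases mul_eq_zero.mp this with h' | h'
    · exact hω0 h'
    · exact hω1 (sub_eq_zero.mp h')
  have hinj : Function.Injective (![1, ω, ω ^ 2] : Fin 3 → F) := by
    have key : ∀ i j : Fin 3, i < j → (![1, ω, ω ^ 2] : Fin 3 → F) i ≠ (![1, ω, ω ^ 2] : Fin 3 → F) j := by
      intro i j hlt
      fin_cases i <;> fin_cases j <;> first | exact absurd hlt (by decide) | skip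
      · show (1 : F) ≠ ω; exact h01
      · show (1 : F) ≠ ω ^ 2; exact h02
      · show ω ≠ ω ^ 2; exact h12
    intro i j hij
    rcases lt_trichotomy i j with h | h | h
    · exact absurd hij (key i j h)
    · exact h
    · exact absurd hij.symm (key j i h)
  obtain ⟨D, hD⟩ : ∃ D : Matrix.SpecialLinearGroup (Fin 3) F,
      (D : Matrix (Fin 3) (Fin 3) F) = Matrix.diagonal ![1, ω, ω ^ 2] :=
    ⟨⟨Matrix.diagonal ![1, ω, ω ^ 2], by
      rw [Matrix.det_diagonal, Fin.prod_univ_three]; simp; linear_combination (ω - 1) * hω⟩, rfl⟩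
  intro hord
  obtain ⟨x, rfl⟩ := QuotientGroup.mk_surjective g
  have hg15 : x ^ 15 ∈ Subgroup.center (Matrix.SpecialLinearGroup (Fin 3) F) := by
    rw [← QuotientGroup.eq_one_iff, QuotientGroup.mk_pow]
    have := pow_orderOf_eq_one (x : Matrix.ProjectiveSpecialLinearGroup (Fin 3) F)
    rwa [hord] at this
  by_cases hx : x ^ 5 ∈ Subgroup.center (Matrix.SpecialLinearGroup (Fin 3) F)
  · have h5 : (x : Matrix.ProjectiveSpecialLinearGroup (Fin 3) F) ^ 5 = 1 := by
      rw [← QuotientGroup.mk_pow]; exact (QuotientGroup.eq_one_iff _).mpr hx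
    have hdvd := orderOf_dvd_of_pow_eq_one h5
    rw [hord] at hdvd
    omega
  · have hx3 : (x ^ 5) ^ 3 ∈ Subgroup.center (Matrix.SpecialLinearGroup (Fin 3) F) := by
      rw [← pow_mul]; exact hg15
    obtain ⟨h, hh⟩ := Cfsg.Agent.S2739.exists_sl_conj hF3 ω hω D hD (x ^ 5) hx3 hx
    obtain ⟨k, hk⟩ : ∃ k : Matrix.SpecialLinearGroup (Fin 3) F, k = h⁻¹ * x * h := ⟨_, rfl⟩
    have hkD : k * D = D * k := by
      have hcomm : x * x ^ 5 = x ^ 5 * x := (Commute.pow_right (Commute.refl x) 5).eq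
      have hD' : D = h⁻¹ * x ^ 5 * h := by rw [hh]; group
      rw [hk, hD']
      calc h⁻¹ * x * h * (h⁻¹ * x ^ 5 * h) = h⁻¹ * (x * x ^ 5) * h := by group
        _ = h⁻¹ * (x ^ 5 * x) * h := by rw [hcomm]
        _ = h⁻¹ * x ^ 5 * h * (h⁻¹ * x * h) := by group
    have hKD : (k : Matrix (Fin 3) (Fin 3) F) * Matrix.diagonal ![1, ω, ω ^ 2]
        = Matrix.diagonal ![1, ω, ω ^ 2] * (k : Matrix (Fin 3) (Fin 3) F) := by
      rw [← hD, ← Matrix.SpecialLinearGroup.coe_mul, ← Matrix.SpecialLinearGroup.coe_mul, hkD]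
    obtain ⟨d, hd⟩ : ∃ d : Fin 3 → F, (k : Matrix (Fin 3) (Fin 3) F) = Matrix.diagonal d :=
      ⟨_, diag_of_commute _ hinj _ hKD⟩
    have hdet := k.det_coe
    rw [hd, Matrix.det_diagonal, Fin.prod_univ_three] at hdet
    have hd0 : d 0 ≠ 0 := by intro h0; rw [h0] at hdet; simp at hdet
    have hd1 : d 1 ≠ 0 := by intro h0; rw [h0] at hdet; simp at hdet
    have hd2 : d 2 ≠ 0 := by intro h0; rw [h0] at hdet; simp at hdet
    have hdne : ∀ i, d i ≠ 0 := by
      intro i
      fin_cases i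
      · exact hd0
      · exact hd1
      · exact hd2
    have hk3 : k ^ 3 = 1 := by
      apply Subtype.ext
      have e : ((k ^ 3 : Matrix.SpecialLinearGroup (Fin 3) F) : Matrix (Fin 3) (Fin 3) F)
          = (k : Matrix (Fin 3) (Fin 3) F) * k * k := by
        rw [pow_succ, pow_two, Matrix.SpecialLinearGroup.coe_mul, Matrix.SpecialLinearGroup.coe_mul]
      rw [e, hd, Matrix.diagonal_mul_diagonal, Matrix.diagonal_mul_diagonal,
        Matrix.SpecialLinearGroup.coe_one, ← Matrix.diagonal_one]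
      congr 1
      funext i
      have := hF3 _ (hdne i)
      rw [← this]; ring
    have hx3' : x ^ 3 = 1 := by
      have e1 : x = h * k * h⁻¹ := by rw [hk]; group
      rw [e1, conj_pow, hk3]; group
    have h3 : (x : Matrix.ProjectiveSpecialLinearGroup (Fin 3) F) ^ 3 = 1 := by
      rw [← QuotientGroup.mk_pow, hx3']; rfl
    have hdvd := orderOf_dvd_of_pow_eq_one h3
    rw [hord] at hdvd
    omega

end Cfsg.Agent.S0819
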