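import Cfsg.Statements.S0820
import Cfsg.Agent.Lib.Helper46.NatSL2

set_option autoImplicit false
open Cfsg

namespace Cfsg.Agent.S0820

theorem exists_conj_transvection {F : Type*} [Field F] [CharP F 2] (M : Matrix (Fin 3) (Fin 3) F)
    (hM : M * M = 1) (hM1 : M ≠ 1) :
    ∃ g : Matrix (Fin 3) (Fin 3) F, g.det = 1 ∧ M * g = g * !![1, 0, 1; 0, 1, 0; 0, 0, 1] := by
  have h2 : (2 : F) = 0 := CharTwo.two_eq_zero
  set N : Matrix (Fin 3) (Fin 3) F := M - 1 with hN
  have hNN : N * N = 0 := by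
    have : N * N = (2 : F) • (1 - M) := by
      rw [hN, Matrix.sub_mul, Matrix.mul_sub, Matrix.mul_sub, hM, Matrix.mul_one, Matrix.one_mul,
        Matrix.one_mul, two_smul]
      abel
    rw [this, h2, zero_smul]
  have hN0 : N ≠ 0 := fun h => hM1 (sub_eq_zero.mp h)
  obtain ⟨w, hw⟩ : ∃ w : Fin 3 → F, N.mulVec w ≠ 0 := by
    by_contra hcon
    push Not at hcon
    apply hN0
    ext i j
    have := congrFun (hcon (Pi.single j 1)) i
    simpa using this
  obtain ⟨u, hu⟩ : ∃ u : Fin 3 → F, u = N.mulVec w := ⟨_, rfl⟩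
  have hu0 : u ≠ 0 := by rw [hu]; exact hw
  have hNu : N.mulVec u = 0 := by rw [hu, Matrix.mulVec_mulVec, hNN, Matrix.zero_mulVec]
  obtain ⟨v, hv, hvu⟩ : ∃ v : Fin 3 → F, N.mulVec v = 0 ∧ v ∉ Submodule.span F {u} := by
    by_contra hcon
    push Not at hcon
    have hle : LinearMap.ker (Matrix.toLin' N) ≤ Submodule.span F {u} :=
      fun v hv => hcon v (by simpa using hv)
    have hrk : LinearMap.range (Matrix.toLin' N) ≤ LinearMap.ker (Matrix.toLin' N) := by
      rintro _ ⟨a, rfl⟩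
      rw [LinearMap.mem_ker, Matrix.toLin'_apply, Matrix.toLin'_apply, Matrix.mulVec_mulVec, hNN,
        Matrix.zero_mulVec]
    have h1 := LinearMap.finrank_range_add_finrank_ker (Matrix.toLin' N)
    have h3 : Module.finrank F (Fin 3 → F) = 3 := by simp
    have h4 := Submodule.finrank_mono hrk
    have h5 := Submodule.finrank_mono hle
    have h6 : Module.finrank F (Submodule.span F {u}) ≤ 1 := by
      have := finrank_span_le_card (R := F) ({u} : Set (Fin 3 → F))
      simpa using this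
    omega
  obtain ⟨g, hg0, hg1, hg2⟩ : ∃ g : Matrix (Fin 3) (Fin 3) F,
      (∀ i, g i 0 = u i) ∧ (∀ i, g i 1 = v i) ∧ (∀ i, g i 2 = w i) :=
    ⟨Matrix.of (fun i j => ![u, v, w] j i), fun _ => rfl, fun _ => rfl, fun _ => rfl⟩
  have hgc : ∀ c : Fin 3 → F, g.mulVec c = c 0 • u + c 1 • v + c 2 • w := by
    intro c
    funext i
    simp [Matrix.mulVec, dotProduct, Fin.sum_univ_three, hg0, hg1, hg2, mul_comm]
  have hdet0 : g.det ≠ 0 := by
    intro hd
    obtain ⟨c, hc0, hc⟩ := Matrix.exists_mulVec_eq_zero_iff.mpr hd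
    rw [hgc] at hc
    have hc2 : c 2 = 0 := by
      have := congrArg N.mulVec hc
      rw [Matrix.mulVec_add, Matrix.mulVec_add, Matrix.mulVec_smul, Matrix.mulVec_smul,
        Matrix.mulVec_smul, hNu, hv, ← hu, Matrix.mulVec_zero, smul_zero, smul_zero, zero_add,
        zero_add] at this
      rcases smul_eq_zero.mp this with h | h
      · exact h
      · exact absurd h hu0
    rw [hc2, zero_smul, add_zero] at hc
    have hc1 : c 1 = 0 := by
      by_contra h1
      apply hvu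
      rw [Submodule.mem_span_singleton]
      refine ⟨-((c 1)⁻¹ * c 0), ?_⟩
      have e1 : v = (c 1)⁻¹ • (c 1 • v) := by rw [smul_smul, inv_mul_cancel₀ h1, one_smul]
      have e2 : c 1 • v = -(c 0 • u) := eq_neg_of_add_eq_zero_right hc
      rw [e1, e2, smul_neg, smul_smul, neg_smul]
    rw [hc1, zero_smul, add_zero] at hc
    have hc0' : c 0 = 0 := by
      rcases smul_eq_zero.mp hc with h | h
      · exact h
      · exact absurd h hu0
    apply hc0
    funext i
    fin_cases i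
    · exact hc0'
    · exact hc1
    · exact hc2
  have hcol : ∀ (i j : Fin 3), (N * g) i j = N.mulVec (fun k => g k j) i := by
    intro i j
    simp [Matrix.mul_apply, Matrix.mulVec, dotProduct]
  have hNg : N * g = g * !![0, 0, 1; 0, 0, 0; 0, 0, 0] := by
    ext i j
    rw [hcol]
    have e0 : (fun k => g k 0) = u := funext hg0
    have e1 : (fun k => g k 1) = v := funext hg1
    have e2 : (fun k => g k 2) = w := funext hg2
    fin_cases j
    · show N.mulVec (fun k => g k 0) i = _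
      rw [e0, hNu]
      simp [Matrix.mul_apply, Fin.sum_univ_three]
    · show N.mulVec (fun k => g k 1) i = _
      rw [e1, hv]
      simp [Matrix.mul_apply, Fin.sum_univ_three]
    · show N.mulVec (fun k => g k 2) i = _
      rw [e2, ← hu]
      simp [Matrix.mul_apply, Fin.sum_univ_three, hg0]
  have hJ : (!![1, 0, 1; 0, 1, 0; 0, 0, 1] : Matrix (Fin 3) (Fin 3) F)
      = !![0, 0, 1; 0, 0, 0; 0, 0, 0] + 1 := by
    ext i j
    fin_cases i <;> fin_cases j <;> simp
  have hMN : M = N + 1 := by rw [hN]; abel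
  have hMg : M * g = g * !![1, 0, 1; 0, 1, 0; 0, 0, 1] := by
    rw [hJ, Matrix.mul_add, Matrix.mul_one, hMN, Matrix.add_mul, hNg, Matrix.one_mul]
  refine ⟨g * Matrix.diagonal ![1, g.det⁻¹, 1], ?_, ?_⟩
  · rw [Matrix.det_mul, Matrix.det_diagonal, Fin.prod_univ_three]
    simp [hdet0]
  · have hcomm : (!![1, 0, 1; 0, 1, 0; 0, 0, 1] : Matrix (Fin 3) (Fin 3) F) *
        Matrix.diagonal ![1, g.det⁻¹, 1] =
        Matrix.diagonal ![1, g.det⁻¹, 1] * !![1, 0, 1; 0, 1, 0; 0, 0, 1] := by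
      ext i j
      fin_cases i <;> fin_cases j <;> simp [Matrix.mul_apply, Fin.sum_univ_three]
    rw [← Matrix.mul_assoc, hMg, Matrix.mul_assoc, hcomm, Matrix.mul_assoc]

theorem exists_sl_conj {F : Type*} [Field F] [CharP F 2] (J : Matrix.SpecialLinearGroup (Fin 3) F)
    (hJ : (J : Matrix (Fin 3) (Fin 3) F) = !![1, 0, 1; 0, 1, 0; 0, 0, 1])
    (x : Matrix.SpecialLinearGroup (Fin 3) F)
    (hx : x ^ 2 ∈ Subgroup.center (Matrix.SpecialLinearGroup (Fin 3) F))
    (hxc : x ∉ Subgroup.center (Matrix.SpecialLinearGroup (Fin 3) F)) :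
    ∃ h z : Matrix.SpecialLinearGroup (Fin 3) F,
      z ∈ Subgroup.center (Matrix.SpecialLinearGroup (Fin 3) F) ∧ x * z = h * J * h⁻¹ := by
  rw [Matrix.SpecialLinearGroup.mem_center_iff] at hx
  obtain ⟨r, hr3, hr⟩ := hx
  have hr3' : r ^ 3 = 1 := by simpa using hr3
  obtain ⟨z, hz⟩ : ∃ z : Matrix.SpecialLinearGroup (Fin 3) F,
      (z : Matrix (Fin 3) (Fin 3) F) = r • (1 : Matrix (Fin 3) (Fin 3) F) :=
    ⟨⟨r • (1 : Matrix (Fin 3) (Fin 3) F), by simp [hr3']⟩, rfl⟩
  have hzc : z ∈ Subgroup.center (Matrix.SpecialLinearGroup (Fin 3) F) := by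
    rw [Matrix.SpecialLinearGroup.mem_center_iff]
    exact ⟨r, hr3, by rw [hz]; simp [Matrix.smul_one_eq_diagonal]⟩
  have hxz : ((x * z : Matrix.SpecialLinearGroup (Fin 3) F) : Matrix (Fin 3) (Fin 3) F)
      = r • (x : Matrix (Fin 3) (Fin 3) F) := by
    rw [Matrix.SpecialLinearGroup.coe_mul, hz, Matrix.mul_smul, Matrix.mul_one]
  have hxx : (x : Matrix (Fin 3) (Fin 3) F) * x = r • (1 : Matrix (Fin 3) (Fin 3) F) := by
    have : ((x ^ 2 : Matrix.SpecialLinearGroup (Fin 3) F) : Matrix (Fin 3) (Fin 3) F)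
        = (x : Matrix (Fin 3) (Fin 3) F) * x := by
      rw [pow_two, Matrix.SpecialLinearGroup.coe_mul]
    rw [← this, ← hr]
    simp [Matrix.smul_one_eq_diagonal]
  have hsq : ((x * z : Matrix.SpecialLinearGroup (Fin 3) F) : Matrix (Fin 3) (Fin 3) F) *
      ((x * z : Matrix.SpecialLinearGroup (Fin 3) F) : Matrix (Fin 3) (Fin 3) F) = 1 := by
    rw [hxz, Matrix.smul_mul, Matrix.mul_smul, smul_smul, hxx, smul_smul]
    have : r * r * r = 1 := by rw [← hr3']; ring
    rw [this, one_smul]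
  have hne : ((x * z : Matrix.SpecialLinearGroup (Fin 3) F) : Matrix (Fin 3) (Fin 3) F) ≠ 1 := by
    intro h
    apply hxc
    have h1 : x * z = 1 := Subtype.ext h
    have h2 : x = z⁻¹ := eq_inv_of_mul_eq_one_left h1
    rw [h2]
    exact inv_mem hzc
  obtain ⟨g, hg, hMg⟩ := exists_conj_transvection _ hsq hne
  obtain ⟨h, hh⟩ : ∃ h : Matrix.SpecialLinearGroup (Fin 3) F,
      (h : Matrix (Fin 3) (Fin 3) F) = g := ⟨⟨g, hg⟩, rfl⟩
  refine ⟨h, z, hzc, ?_⟩
  rw [eq_mul_inv_iff_mul_eq]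
  apply Subtype.ext
  change ((x * z : Matrix.SpecialLinearGroup (Fin 3) F) : Matrix (Fin 3) (Fin 3) F) *
    (h : Matrix (Fin 3) (Fin 3) F) = (h : Matrix (Fin 3) (Fin 3) F) * (J : Matrix (Fin 3) (Fin 3) F)
  rw [hh, hJ]
  exact hMg

/-- Any two elements of order 2 of PSL_3(4) are conjugate. -/
theorem result {F : Type*} [Field F] [Fintype F] (hF : Fintype.card F = 4) (x y : Matrix.ProjectiveSpecialLinearGroup (Fin 3) F) (hx : orderOf x = 2) (hy : orderOf y = 2) : IsConj x y := by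
  classical
  have : Fact (Nat.Prime 2) := ⟨Nat.prime_two⟩
  have : CharP F 2 := Cfsg.Agent.Lib.Helper46.NatSL2.charP_of_card (p := 2) (n := 2)
    (by rw [hF]; norm_num)
  obtain ⟨J, hJ⟩ : ∃ J : Matrix.SpecialLinearGroup (Fin 3) F,
      (J : Matrix (Fin 3) (Fin 3) F) = !![1, 0, 1; 0, 1, 0; 0, 0, 1] :=
    ⟨⟨!![1, 0, 1; 0, 1, 0; 0, 0, 1], by simp [Matrix.det_fin_three]⟩, rfl⟩
  have key : ∀ x : Matrix.ProjectiveSpecialLinearGroup (Fin 3) F, orderOf x = 2 →
      IsConj x (QuotientGroup.mk J : Matrix.ProjectiveSpecialLinearGroup (Fin 3) F) := by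
    intro xb hord
    obtain ⟨x, rfl⟩ := QuotientGroup.mk_surjective xb
    have hx2 : x ^ 2 ∈ Subgroup.center (Matrix.SpecialLinearGroup (Fin 3) F) := by
      rw [← QuotientGroup.eq_one_iff, QuotientGroup.mk_pow]
      have := pow_orderOf_eq_one (x : Matrix.ProjectiveSpecialLinearGroup (Fin 3) F)
      rwa [hord] at this
    have hxc : x ∉ Subgroup.center (Matrix.SpecialLinearGroup (Fin 3) F) := by
      intro h
      have : (x : Matrix.ProjectiveSpecialLinearGroup (Fin 3) F) = 1 :=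
        (QuotientGroup.eq_one_iff x).mpr h
      rw [this, orderOf_one] at hord
      omega
    obtain ⟨h, z, hz, hxz⟩ := exists_sl_conj J hJ x hx2 hxc
    rw [isConj_comm, isConj_iff]
    refine ⟨QuotientGroup.mk h, ?_⟩
    have e1 : (QuotientGroup.mk x : Matrix.ProjectiveSpecialLinearGroup (Fin 3) F)
        = QuotientGroup.mk (x * z) := by
      rw [QuotientGroup.mk_mul, (QuotientGroup.eq_one_iff z).mpr hz, mul_one]
    rw [e1, hxz]
    rfl
  exact (key x hx).trans (key y hy).symm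

end Cfsg.Agent.S0820
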