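import Mathlib
import Cfsg.Statements.S0822
import Cfsg.Agent.S0303
import Cfsg.Agent.Lib.Helper19.CoxDataE6
import Cfsg.Agent.S0283
import Cfsg.Agent.S0301
import Cfsg.Agent.Lib.Helper44.OMat2
import Cfsg.Agent.Lib.Helper44.NegPairs
import Cfsg.Agent.Lib.Helper45.OrthCard
import Cfsg.Agent.Lib.Helper45.OmegaCenter
import Cfsg.Agent.Lib.Helper14.OrthIndex
import Cfsg.Agent.Lib.Helper5.OmegaIso
import Cfsg.Agent.Lib.Helper5.E6Cox

set_option autoImplicit false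
open Cfsg

namespace Cfsg.Agent.S0822

open Module QuadraticMap Matrix
open Cfsg.Agent.Lib.Helper44.QSpace Cfsg.Agent.Lib.Helper44.OGroup Cfsg.Agent.Lib.Helper44.OMat
open Cfsg.Agent.Lib.Helper44.Omega2 Cfsg.Agent.Lib.Helper44.NegPairs
open Cfsg.Agent.Lib.Helper44.Spinor
open Cfsg.Agent.Lib.Helper5.E6Cox
open scoped commutatorElement

section mod2

/-- the six root vectors -/
def u2 : Fin 6 → I6 → ZMod 2 :=
  ![mk6 0 0 0 0 0 1, mk6 0 0 0 1 0 1, mk6 0 0 1 0 1 0, mk6 0 0 1 0 0 1, mk6 0 1 0 1 0 1,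
    mk6 1 1 0 0 0 0]

set_option maxHeartbeats 1000000 in
theorem u2_q : ∀ i, q2 (u2 i) = 1 := by
  decide

set_option maxHeartbeats 1000000 in
theorem u2_p : ∀ i j, i ≠ j →
    q2 (u2 i + u2 j) - q2 (u2 i) - q2 (u2 j) = if adj i j then -1 else 0 := by
  decide

theorem u2_Q : ∀ i, Q2 (u2 i) = 1 := u2_q

theorem u2_P : ∀ i j, i ≠ j →
    polar Q2 (u2 i) (u2 j) = if CoxeterMatrix.E₆ i j = 3 then -1 else 0 := by
  intro i j hij
  rw [polar_Q2, u2_p i j hij]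
  simp [E6_adj]

/-- the non-singular vectors -/
def good : List (I6 → ZMod 2) :=
  [mk6 0 0 0 0 0 1, mk6 0 0 0 1 0 1, mk6 0 0 1 0 1 0, mk6 0 0 1 0 0 1, mk6 0 1 0 1 0 1, mk6 1 1 0 0 0 0, mk6 0 0 1 0 1 1, mk6 0 0 1 1 0 0, mk6 0 0 0 0 1 1, mk6 0 0 0 1 1 0, mk6 0 1 1 1 0 0, mk6 0 0 0 0 1 0, mk6 1 0 0 1 0 1, mk6 0 1 1 0 0 1, mk6 0 1 0 1 1 0, mk6 0 1 0 0 1 1, mk6 0 1 0 1 1 1, mk6 1 0 1 1 0 0, mk6 1 0 1 0 0 1, mk6 1 0 0 1 1 0, mk6 1 0 0 0 1 1, mk6 1 0 0 1 1 1, mk6 0 0 0 1 1 1, mk6 0 1 0 0 1 0, mk6 1 0 0 0 1 0, mk6 0 1 1 0 1 0, mk6 1 0 1 0 1 0, mk6 0 1 1 0 1 1, mk6 1 0 1 0 1 1, mk6 1 1 1 1 1 1, mk6 1 1 1 1 1 0, mk6 0 1 0 0 0 1, mk6 1 0 0 0 0 1, mk6 1 1 0 1 0 0, mk6 1 1 1 0 0 0, mk6 1 1 1 1 0 1]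

set_option maxHeartbeats 4000000 in
theorem good_all : ∀ a b c d e f : ZMod 2, q2 (mk6 a b c d e f) ≠ 0 → mk6 a b c d e f ∈ good := by
  decide

set_option maxHeartbeats 1000000 in
theorem all_mem (H : Subgroup (O Q2)) (h0 : ∀ i, refl Q2 (u2 i) ∈ H) :
    ∀ v, q2 v ≠ 0 → refl Q2 v ∈ H := by
  have h000001 : refl Q2 (mk6 0 0 0 0 0 1) ∈ H := h0 0
  have h000101 : refl Q2 (mk6 0 0 0 1 0 1) ∈ H := h0 1
  have h001010 : refl Q2 (mk6 0 0 1 0 1 0) ∈ H := h0 2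
  have h001001 : refl Q2 (mk6 0 0 1 0 0 1) ∈ H := h0 3
  have h010101 : refl Q2 (mk6 0 1 0 1 0 1) ∈ H := h0 4
  have h110000 : refl Q2 (mk6 1 1 0 0 0 0) ∈ H := h0 5
  have h001011 : refl Q2 (mk6 0 0 1 0 1 1) ∈ H :=
    step H _ _ _ _ _ _ _ _ _ _ _ _ _ _ _ _ _ _ (by decide) (by decide) rfl rfl rfl rfl rfl rfl h000001 h001010
  have h001100 : refl Q2 (mk6 0 0 1 1 0 0) ∈ H :=
    step H _ _ _ _ _ _ _ _ _ _ _ _ _ _ _ _ _ _ (by decide) (by decide) rfl rfl rfl rfl rfl rfl h000101 h001001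
  have h000011 : refl Q2 (mk6 0 0 0 0 1 1) ∈ H :=
    step H _ _ _ _ _ _ _ _ _ _ _ _ _ _ _ _ _ _ (by decide) (by decide) rfl rfl rfl rfl rfl rfl h001010 h001001
  have h000110 : refl Q2 (mk6 0 0 0 1 1 0) ∈ H :=
    step H _ _ _ _ _ _ _ _ _ _ _ _ _ _ _ _ _ _ (by decide) (by decide) rfl rfl rfl rfl rfl rfl h001010 h001100
  have h011100 : refl Q2 (mk6 0 1 1 1 0 0) ∈ H :=
    step H _ _ _ _ _ _ _ _ _ _ _ _ _ _ _ _ _ _ (by decide) (by decide) rfl rfl rfl rfl rfl rfl h001001 h010101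
  have h000010 : refl Q2 (mk6 0 0 0 0 1 0) ∈ H :=
    step H _ _ _ _ _ _ _ _ _ _ _ _ _ _ _ _ _ _ (by decide) (by decide) rfl rfl rfl rfl rfl rfl h001001 h001011
  have h100101 : refl Q2 (mk6 1 0 0 1 0 1) ∈ H :=
    step H _ _ _ _ _ _ _ _ _ _ _ _ _ _ _ _ _ _ (by decide) (by decide) rfl rfl rfl rfl rfl rfl h010101 h110000
  have h011001 : refl Q2 (mk6 0 1 1 0 0 1) ∈ H :=
    step H _ _ _ _ _ _ _ _ _ _ _ _ _ _ _ _ _ _ (by decide) (by decide) rfl rfl rfl rfl rfl rfl h010101 h001100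
  have h010110 : refl Q2 (mk6 0 1 0 1 1 0) ∈ H :=
    step H _ _ _ _ _ _ _ _ _ _ _ _ _ _ _ _ _ _ (by decide) (by decide) rfl rfl rfl rfl rfl rfl h010101 h000011
  have h010011 : refl Q2 (mk6 0 1 0 0 1 1) ∈ H :=
    step H _ _ _ _ _ _ _ _ _ _ _ _ _ _ _ _ _ _ (by decide) (by decide) rfl rfl rfl rfl rfl rfl h010101 h000110
  have h010111 : refl Q2 (mk6 0 1 0 1 1 1) ∈ H :=
    step H _ _ _ _ _ _ _ _ _ _ _ _ _ _ _ _ _ _ (by decide) (by decide) rfl rfl rfl rfl rfl rfl h010101 h000010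
  have h101100 : refl Q2 (mk6 1 0 1 1 0 0) ∈ H :=
    step H _ _ _ _ _ _ _ _ _ _ _ _ _ _ _ _ _ _ (by decide) (by decide) rfl rfl rfl rfl rfl rfl h110000 h011100
  have h101001 : refl Q2 (mk6 1 0 1 0 0 1) ∈ H :=
    step H _ _ _ _ _ _ _ _ _ _ _ _ _ _ _ _ _ _ (by decide) (by decide) rfl rfl rfl rfl rfl rfl h110000 h011001
  have h100110 : refl Q2 (mk6 1 0 0 1 1 0) ∈ H :=
    step H _ _ _ _ _ _ _ _ _ _ _ _ _ _ _ _ _ _ (by decide) (by decide) rfl rfl rfl rfl rfl rfl h110000 h010110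
  have h100011 : refl Q2 (mk6 1 0 0 0 1 1) ∈ H :=
    step H _ _ _ _ _ _ _ _ _ _ _ _ _ _ _ _ _ _ (by decide) (by decide) rfl rfl rfl rfl rfl rfl h110000 h010011
  have h100111 : refl Q2 (mk6 1 0 0 1 1 1) ∈ H :=
    step H _ _ _ _ _ _ _ _ _ _ _ _ _ _ _ _ _ _ (by decide) (by decide) rfl rfl rfl rfl rfl rfl h110000 h010111
  have h000111 : refl Q2 (mk6 0 0 0 1 1 1) ∈ H :=
    step H _ _ _ _ _ _ _ _ _ _ _ _ _ _ _ _ _ _ (by decide) (by decide) rfl rfl rfl rfl rfl rfl h000001 h000110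
  have h010010 : refl Q2 (mk6 0 1 0 0 1 0) ∈ H :=
    step H _ _ _ _ _ _ _ _ _ _ _ _ _ _ _ _ _ _ (by decide) (by decide) rfl rfl rfl rfl rfl rfl h000001 h010011
  have h100010 : refl Q2 (mk6 1 0 0 0 1 0) ∈ H :=
    step H _ _ _ _ _ _ _ _ _ _ _ _ _ _ _ _ _ _ (by decide) (by decide) rfl rfl rfl rfl rfl rfl h000001 h100011
  have h011010 : refl Q2 (mk6 0 1 1 0 1 0) ∈ H :=
    step H _ _ _ _ _ _ _ _ _ _ _ _ _ _ _ _ _ _ (by decide) (by decide) rfl rfl rfl rfl rfl rfl h001001 h010011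
  have h101010 : refl Q2 (mk6 1 0 1 0 1 0) ∈ H :=
    step H _ _ _ _ _ _ _ _ _ _ _ _ _ _ _ _ _ _ (by decide) (by decide) rfl rfl rfl rfl rfl rfl h001001 h100011
  have h011011 : refl Q2 (mk6 0 1 1 0 1 1) ∈ H :=
    step H _ _ _ _ _ _ _ _ _ _ _ _ _ _ _ _ _ _ (by decide) (by decide) rfl rfl rfl rfl rfl rfl h001001 h010010
  have h101011 : refl Q2 (mk6 1 0 1 0 1 1) ∈ H :=
    step H _ _ _ _ _ _ _ _ _ _ _ _ _ _ _ _ _ _ (by decide) (by decide) rfl rfl rfl rfl rfl rfl h001001 h100010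
  have h111111 : refl Q2 (mk6 1 1 1 1 1 1) ∈ H :=
    step H _ _ _ _ _ _ _ _ _ _ _ _ _ _ _ _ _ _ (by decide) (by decide) rfl rfl rfl rfl rfl rfl h010101 h101010
  have h111110 : refl Q2 (mk6 1 1 1 1 1 0) ∈ H :=
    step H _ _ _ _ _ _ _ _ _ _ _ _ _ _ _ _ _ _ (by decide) (by decide) rfl rfl rfl rfl rfl rfl h010101 h101011
  have h010001 : refl Q2 (mk6 0 1 0 0 0 1) ∈ H :=
    step H _ _ _ _ _ _ _ _ _ _ _ _ _ _ _ _ _ _ (by decide) (by decide) rfl rfl rfl rfl rfl rfl h001011 h011010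
  have h100001 : refl Q2 (mk6 1 0 0 0 0 1) ∈ H :=
    step H _ _ _ _ _ _ _ _ _ _ _ _ _ _ _ _ _ _ (by decide) (by decide) rfl rfl rfl rfl rfl rfl h001011 h101010
  have h110100 : refl Q2 (mk6 1 1 0 1 0 0) ∈ H :=
    step H _ _ _ _ _ _ _ _ _ _ _ _ _ _ _ _ _ _ (by decide) (by decide) rfl rfl rfl rfl rfl rfl h001011 h111111
  have h111000 : refl Q2 (mk6 1 1 1 0 0 0) ∈ H :=
    step H _ _ _ _ _ _ _ _ _ _ _ _ _ _ _ _ _ _ (by decide) (by decide) rfl rfl rfl rfl rfl rfl h001100 h110100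
  have h111101 : refl Q2 (mk6 1 1 1 1 0 1) ∈ H :=
    step H _ _ _ _ _ _ _ _ _ _ _ _ _ _ _ _ _ _ (by decide) (by decide) rfl rfl rfl rfl rfl rfl h000011 h111110
  have key : ∀ v ∈ good, refl Q2 v ∈ H := by
    intro v hv
    simp only [good, List.mem_cons, List.not_mem_nil, or_false] at hv
    rcases hv with rfl | rfl | rfl | rfl | rfl | rfl | rfl | rfl | rfl | rfl | rfl | rfl | rfl | rfl | rfl | rfl | rfl | rfl | rfl | rfl | rfl | rfl | rfl | rfl | rfl | rfl | rfl | rfl | rfl | rfl | rfl | rfl | rfl | rfl | rfl | rfl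
    exacts [h000001, h000101, h001010, h001001, h010101, h110000, h001011, h001100, h000011, h000110, h011100, h000010, h100101, h011001, h010110, h010011, h010111, h101100, h101001, h100110, h100011, h100111, h000111, h010010, h100010, h011010, h101010, h011011, h101011, h111111, h111110, h010001, h100001, h110100, h111000, h111101]
  intro v hv
  obtain ⟨a, b, c, d, e, f, rfl⟩ := exists_mk6 v
  exact key _ (good_all a b c d e f hv)

end mod2

section main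

theorem hS2 : Sep Q2 := Cfsg.Agent.Lib.Helper45.OmegaCenter.sep_minusQ' 2 1 1 hab2

theorem hG2 : Cfsg.Agent.Lib.Helper44.CD2a.Good Q2 :=
  Or.inr (Or.inl (by rw [Module.finrank_fintype_fun_eq_card]; decide))

/-- the map from the Coxeter group to the orthogonal group over the field with two elements -/
noncomputable def c2 : CoxeterMatrix.E₆.Group →* O Q2 := cox Q2 u2 1 one_ne_zero u2_Q u2_P

theorem c2_surj : Function.Surjective c2 := by
  intro g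
  have hCD : CDP Q2 := Cfsg.Agent.Lib.Helper44.OMat2.cdp_of_card hS2 (Or.inr (by simp))
  obtain ⟨vs, hvs, hg⟩ := hCD g.1 g.2
  have hall := all_mem c2.range (fun i => ⟨CoxeterMatrix.E₆.simple i, cox_simple _ _ _ _ _ _ i⟩)
  have hmem : (vs.map (refl Q2)).prod ∈ c2.range := by
    apply Subgroup.list_prod_mem
    intro x hx
    rw [List.mem_map] at hx
    obtain ⟨v, hv, rfl⟩ := hx
    exact hall v (hvs v hv)
  obtain ⟨w, hw⟩ := hmem
  refine ⟨w, ?_⟩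
  rw [hw]
  exact Subtype.ext ((coe_prod_refl Q2 vs).trans hg.symm)

theorem card_iso2 : Nat.card ↥(Cfsg.isometryGroup (ZMod 2) q2) = 51840 := by
  have h := Cfsg.Agent.Lib.Helper45.OrthCard.card_minus (F := ZMod 2) (q := 2) (ZMod.card 2) 1 1
    hab2 2
  rw [h]
  simp [Finset.prod_range_succ]

theorem card_O2 : Nat.card (O Q2) = 51840 := by
  rw [← Nat.card_congr (isoEquiv Q2).toEquiv]
  exact card_iso2

theorem c2_bij : Function.Bijective c2 := by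
  have hW : Nat.card CoxeterMatrix.E₆.Group = 51840 := Cfsg.Agent.Lib.Helper19.CoxDataE6.card
  have : Finite CoxeterMatrix.E₆.Group := Nat.finite_of_card_ne_zero (by rw [hW]; norm_num)
  exact Function.Surjective.bijective_of_nat_card_le c2_surj (by rw [hW, card_O2])

/-- the Coxeter group of type `E₆` is the orthogonal group `O₆⁻(2)` -/
noncomputable def e2 : CoxeterMatrix.E₆.Group ≃* O Q2 := MulEquiv.ofBijective c2 c2_bij

end main

section mod3

variable {K : Type*} [Field K]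

/-- a vector from its five coordinates -/
def mk5 {R : Type*} (a b c d e : R) : Unit ⊕ (Fin 2 ⊕ Fin 2) → R
  | Sum.inl _ => a
  | Sum.inr (Sum.inl i) => ![b, c] i
  | Sum.inr (Sum.inr i) => ![d, e] i

theorem mk5_add {R : Type*} [Add R] (a b c d e a' b' c' d' e' : R) :
    mk5 a b c d e + mk5 a' b' c' d' e' = mk5 (a + a') (b + b') (c + c') (d + d') (e + e') := by
  funext k
  rcases k with k | k | k
  · rfl
  · fin_cases k <;> rfl
  · fin_cases k <;> rfl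

theorem q3_mk5 (a b c d e : K) : oddQ 2 K (mk5 a b c d e) = a ^ 2 + (b * d + c * e) := by
  show Cfsg.quadFormOdd 2 K _ = _
  simp [Cfsg.quadFormOdd, mk5, Fin.sum_univ_two]

/-- the six root vectors -/
def u3 (K : Type*) [Field K] : Fin 6 → (Unit ⊕ (Fin 2 ⊕ Fin 2) → K) :=
  ![mk5 0 0 1 0 (-1), mk5 0 1 0 (-1) 0, mk5 1 1 0 1 1, mk5 1 0 1 1 1, mk5 1 0 1 0 1,
    mk5 0 (-1) (-1) (-1) (-1)]

theorem u3_Q (h3 : (3 : K) = 0) : ∀ i, oddQ 2 K (u3 K i) = -1 := by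
  intro i
  fin_cases i <;> simp [u3, q3_mk5] <;> linear_combination h3

theorem u3_P (h3 : (3 : K) = 0) : ∀ i j, i ≠ j →
    polar (oddQ 2 K) (u3 K i) (u3 K j) = if CoxeterMatrix.E₆ i j = 3 then -(-1) else 0 := by
  intro i j hij
  fin_cases i <;> fin_cases j <;>
    simp [polar, u3, mk5_add, q3_mk5, CoxeterMatrix.E₆] at hij ⊢ <;> grind

end mod3

section final

variable {K : Type*} [Field K] [Fintype K]

theorem w0_mem : ⁅CoxeterMatrix.E₆.simple 2, CoxeterMatrix.E₆.simple 0⁆ ∈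
    commutator CoxeterMatrix.E₆.Group := by
  rw [commutator_def]
  exact Subgroup.commutator_mem_commutator (Subgroup.mem_top _) (Subgroup.mem_top _)

theorem card_omega2 : Nat.card ↥(Cfsg.Omega (ZMod 2) q2) = 25920 := by
  have h1 := Subgroup.card_mul_index (Cfsg.Omega (ZMod 2) q2)
  have h2 : (Cfsg.Omega (ZMod 2) q2).index = 2 := by
    have := Cfsg.Agent.Lib.Helper44.OMat2.index_omega_eq Q2
    rw [index_commutator_two hS2 hG2] at this
    exact this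
  rw [h2, card_iso2] at h1
  omega

theorem card_omega3 (hK : Fintype.card K = 3) (h2 : (2 : K) ≠ 0) :
    Nat.card ↥(Cfsg.Omega K (Cfsg.quadFormOdd 2 K)) = 25920 := by
  have h1 := Subgroup.card_mul_index (Cfsg.Omega K (Cfsg.quadFormOdd 2 K))
  have hi : (Cfsg.Omega K (Cfsg.quadFormOdd 2 K)).index = 4 :=
    Cfsg.Agent.Lib.Helper14.OrthIndex.index_omega h2 (oddQ 2 K) (sep_oddQ h2 2) (by simp)
  have hc := Cfsg.Agent.Lib.Helper45.OrthCard.card_odd hK (by decide) 2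
  rw [hi, hc] at h1
  simp [Finset.prod_range_succ] at h1
  omega

theorem main (hK : Fintype.card K = 3)
    (hsimple : IsSimpleGroup (Cfsg.POmega (ZMod 2) q2)) :
    Nonempty (Cfsg.POmega (ZMod 2) q2 ≃* Cfsg.POmega K (Cfsg.quadFormOdd 2 K)) := by
  classical
  have h3 : (3 : K) = 0 := by
    have := Nat.cast_card_eq_zero K
    rw [hK] at this
    exact_mod_cast this
  have h2 : (2 : K) ≠ 0 := by
    intro h
    have : (1 : K) = 0 := by linear_combination h3 - h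
    exact one_ne_zero this
  let c3 : CoxeterMatrix.E₆.Group →* O (oddQ 2 K) :=
    cox (oddQ 2 K) (u3 K) (-1) (neg_ne_zero.mpr one_ne_zero) (u3_Q h3) (u3_P h3)
  let φ : ↥(Cfsg.isometryGroup (ZMod 2) q2) →* ↥(Cfsg.isometryGroup K (Cfsg.quadFormOdd 2 K)) :=
    (isoEquiv (oddQ 2 K)).symm.toMonoidHom.comp
      ((c3.comp e2.symm.toMonoidHom).comp (isoEquiv Q2).toMonoidHom)
  let f : ↥(Cfsg.Omega (ZMod 2) q2) →* ↥(Cfsg.Omega K (Cfsg.quadFormOdd 2 K)) :=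
    (φ.comp (Subgroup.subtype _)).codRestrict _ (fun g => map_mem_commutator φ g.2)
  have hZ : Subgroup.center ↥(Cfsg.Omega (ZMod 2) q2) = ⊥ :=
    Subgroup.card_eq_one.mp
      (Cfsg.Agent.Lib.Helper45.OmegaCenter.card_center_two Q2 hS2 hG2 (by simp))
  have hfin2 : Finite ↥(Cfsg.Omega (ZMod 2) q2) := inferInstance
  have hnt : Nontrivial ↥(Cfsg.Omega (ZMod 2) q2) := by
    rw [← Finite.one_lt_card_iff_nontrivial, card_omega2]
    norm_num
  have hΩ : IsSimpleGroup ↥(Cfsg.Omega (ZMod 2) q2) := by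
    have e : Cfsg.POmega (ZMod 2) q2 ≃* ↥(Cfsg.Omega (ZMod 2) q2) :=
      (QuotientGroup.quotientMulEquivOfEq hZ).trans QuotientGroup.quotientBot
    exact IsSimpleGroup.isSimpleGroup_of_surjective e.toMonoidHom e.surjective
  have hinj : Function.Injective f := by
    rw [← MonoidHom.ker_eq_bot_iff]
    rcases f.normal_ker.eq_bot_or_eq_top with h | h
    · exact h
    · exfalso
      let w0 : CoxeterMatrix.E₆.Group := ⁅CoxeterMatrix.E₆.simple 2, CoxeterMatrix.E₆.simple 0⁆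
      let g0 : ↥(Cfsg.Omega (ZMod 2) q2) := ⟨(isoEquiv Q2).symm (e2 w0),
        map_mem_commutator ((isoEquiv Q2).symm.toMonoidHom.comp e2.toMonoidHom) w0_mem⟩
      have hg0 : g0 ∈ f.ker := by
        rw [h]
        exact Subgroup.mem_top _
      rw [MonoidHom.mem_ker] at hg0
      have h1 : φ g0.1 = 1 := congrArg Subtype.val hg0
      have h2' : φ g0.1 = (isoEquiv (oddQ 2 K)).symm (c3 w0) := by
        show (isoEquiv (oddQ 2 K)).symm
          (c3 (e2.symm (isoEquiv Q2 ((isoEquiv Q2).symm (e2 w0))))) = _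
        rw [MulEquiv.apply_symm_apply, MulEquiv.symm_apply_apply]
      rw [h2'] at h1
      have h3' : c3 w0 = 1 := (isoEquiv (oddQ 2 K)).symm.injective (h1.trans (map_one _).symm)
      exact cox_comm_ne_one _ _ _ _ _ _ h3'
  have hfin3 : Finite ↥(Cfsg.Omega K (Cfsg.quadFormOdd 2 K)) := inferInstance
  have hbij : Function.Bijective f :=
    (Nat.bijective_iff_injective_and_card f).mpr ⟨hinj, by rw [card_omega2, card_omega3 hK h2]⟩
  obtain ⟨e⟩ := Cfsg.Agent.Lib.Helper5.OmegaIso.quot_center_equiv f hbij.2 (fun g hg => by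
    have hc : ∀ h, g * h = h * g := fun h => by
      have h1 := hg h
      rw [MonoidHom.mem_ker] at h1
      have h2 := hbij.1 (h1.trans (map_one f).symm)
      calc g * h = (g * h * g⁻¹ * h⁻¹) * h * g := by group
        _ = h * g := by rw [h2, one_mul]
    exact Subgroup.mem_center_iff.mpr (fun h => (hc h).symm))
  exact ⟨e.symm⟩

end final

/-- PSU_4(2) ≅ PSp_4(3): with |F| = 4 and |K| = 3, the projective special unitary group of the standard Hermitian form on F^4 is isomorphic to PSp_4(K). -/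
theorem result {F K : Type*} [Field F] [Fintype F] [Field K] [Fintype K] (hF : Fintype.card F = 4) (hK : Fintype.card K = 3) : Nonempty (Cfsg.PSU 4 F 2 ≃* Cfsg.PSp 2 K) := by
  obtain ⟨e1⟩ := Cfsg.Agent.S0303.result (F := ZMod 2) (K := F) (q := 2) (ZMod.card 2)
    (by rw [hF]; norm_num) 1 1 hab2
  obtain ⟨e3⟩ := Cfsg.Agent.S0301.result (F := K) (by rw [hK]; decide)
  have hs : IsSimpleGroup (Cfsg.PSU 4 F 2) :=
    Cfsg.Agent.S0283.result (q := 2) (by rw [hF]; norm_num) 4 (by norm_num) (by norm_num)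
  have hnt : Nontrivial (Cfsg.POmega (ZMod 2) q2) := e1.toEquiv.nontrivial
  have hs' : IsSimpleGroup (Cfsg.POmega (ZMod 2) q2) :=
    IsSimpleGroup.isSimpleGroup_of_surjective e1.symm.toMonoidHom e1.symm.surjective
  obtain ⟨e⟩ := main hK hs'
  exact ⟨e1.symm.trans (e.trans e3)⟩

end Cfsg.Agent.S0822
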