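import Cfsg.Statements.S0824
import Mathlib
import Cfsg.Agent.Lib.Helper45.OrthCard
import Cfsg.Agent.S0290

set_option autoImplicit false
open Cfsg

namespace Cfsg.Agent.S0824

open Matrix Cfsg.Agent.Lib.Helper45.OrthStep Cfsg.Agent.Lib.Helper45.OrthCard

section General

variable {F : Type*} [Field F] {J : Type} [Fintype J] [DecidableEq J]
  (Q : QuadraticForm F (J → F))

/-- the action of the isometry group on the nonzero singular vectors -/
noncomputable instance act : MulAction ↥(Cfsg.isometryGroup F (⇑Q)) {v : J → F // v ≠ 0 ∧ Q v = 0} where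
  smul g v := ⟨((g : GL J F) : Matrix J J F) *ᵥ v.1, mulVec_ne_zero g.1 v.1 v.2.1, by
    rw [iso_apply, v.2.2]⟩
  one_smul v := by
    apply Subtype.ext
    show (((1 : ↥(Cfsg.isometryGroup F (⇑Q))) : GL J F) : Matrix J J F) *ᵥ v.1 = v.1
    simp
  mul_smul g g' v := by
    apply Subtype.ext
    show (((g * g' : ↥(Cfsg.isometryGroup F (⇑Q))) : GL J F) : Matrix J J F) *ᵥ v.1 =
      ((g : GL J F) : Matrix J J F) *ᵥ (((g' : GL J F) : Matrix J J F) *ᵥ v.1)
    rw [Subgroup.coe_mul, Units.val_mul, Matrix.mulVec_mulVec]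

theorem smul_val (g : ↥(Cfsg.isometryGroup F (⇑Q))) (v : {v : J → F // v ≠ 0 ∧ Q v = 0}) :
    (g • v).1 = ((g : GL J F) : Matrix J J F) *ᵥ v.1 := rfl

/-- if the singular vectors fixed by `g` span, `g = 1` -/
theorem eq_one_of_fix (g : ↥(Cfsg.isometryGroup F (⇑Q)))
    (h : ∀ j : J, ((g : GL J F) : Matrix J J F) *ᵥ Pi.single j 1 = Pi.single j 1) : g = 1 := by
  apply Subtype.ext
  apply Units.ext
  ext i j
  have := congrFun (h j) i
  simpa [Matrix.one_apply, Pi.single_apply] using this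

end General

section Main

variable {F : Type*} [Field F] [Fintype F]

theorem zero_or_one (hF : Fintype.card F = 2) (x : F) : x = 0 ∨ x = 1 := by
  rw [← Nat.card_eq_fintype_card] at hF
  obtain ⟨a, b, hab, huniv⟩ := Nat.card_eq_two_iff.1 hF
  have h : ∀ y : F, y = a ∨ y = b := by
    intro y
    have : y ∈ (Set.univ : Set F) := Set.mem_univ y
    rw [← huniv] at this
    simpa using this
  rcases h 0 with h0 | h0 <;> rcases h 1 with h1 | h1 <;> rcases h x with hx | hx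
  · exact absurd (h0.trans h1.symm) zero_ne_one
  · exact absurd (h0.trans h1.symm) zero_ne_one
  · exact Or.inl (hx.trans h0.symm)
  · exact Or.inr (hx.trans h1.symm)
  · exact Or.inr (hx.trans h1.symm)
  · exact Or.inl (hx.trans h0.symm)
  · exact absurd (h0.trans h1.symm) zero_ne_one
  · exact absurd (h0.trans h1.symm) zero_ne_one

theorem two_eq_zero (hF : Fintype.card F = 2) : (2 : F) = 0 := by
  rcases zero_or_one hF (1 + 1 : F) with h | h
  · rw [← h]
    norm_num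
  · exfalso
    have : (1 : F) = 0 := by linear_combination h
    exact one_ne_zero this

theorem aniso (hF : Fintype.card F = 2) :
    ∀ z₁ z₂ : F, z₁ ^ 2 + 1 * z₁ * z₂ + 1 * z₂ ^ 2 = 0 → z₁ = 0 ∧ z₂ = 0 := by
  intro z₁ z₂ h
  have h2 := two_eq_zero hF
  rcases zero_or_one hF z₁ with rfl | rfl <;> rcases zero_or_one hF z₂ with rfl | rfl
  · exact ⟨rfl, rfl⟩
  · exfalso
    exact one_ne_zero (α := F) (by linear_combination h)
  · exfalso
    exact one_ne_zero (α := F) (by linear_combination h)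
  · exfalso
    exact one_ne_zero (α := F) (by linear_combination h - h2)

theorem card_group (hF : Fintype.card F = 2) :
    Nat.card ↥(Cfsg.isometryGroup F (⇑(QM 1 (1 : F) 1))) = 120 := by
  rw [QM_coe, card_minus hF 1 1 (aniso hF) 1]
  simp

theorem card_points (hF : Fintype.card F = 2) :
    Nat.card {v : (Fin 1 ⊕ Fin 1) ⊕ Fin 2 → F // v ≠ 0 ∧ QM 1 (1 : F) 1 v = 0} = 5 := by
  have h1 := card_nonzero_zeros (F := F) (⇑(QM 1 (1 : F) 1)) (map_zero _)
  have h2 := Cfsg.Agent.S0290.result hF 2 (by norm_num) 1 1 (aniso hF)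
  change Nat.card {v : (Fin 1 ⊕ Fin 1) ⊕ Fin 2 → F // Cfsg.quadFormMinus 1 F 1 1 v = 0} = _ at h2
  rw [QM_coe, h2] at h1
  have h3 : (2 ^ (2 * 2 - 1) + 2 ^ (2 - 1) - 2 ^ 2 : ℕ) = 6 := by norm_num
  rw [h3] at h1
  rw [QM_coe]
  omega

theorem faithful (hF : Fintype.card F = 2) :
    Function.Injective (MulAction.toPermHom ↥(Cfsg.isometryGroup F (⇑(QM 1 (1 : F) 1)))
      {v : (Fin 1 ⊕ Fin 1) ⊕ Fin 2 → F // v ≠ 0 ∧ QM 1 (1 : F) 1 v = 0}) := by
  classical
  rw [injective_iff_map_eq_one]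
  intro g hg
  have h2 := two_eq_zero hF
  have hfix : ∀ v : (Fin 1 ⊕ Fin 1) ⊕ Fin 2 → F, v ≠ 0 → QM 1 (1 : F) 1 v = 0 →
      ((g : GL ((Fin 1 ⊕ Fin 1) ⊕ Fin 2) F) : Matrix _ _ F) *ᵥ v = v := by
    intro v hv0 hv
    have := congrArg (fun σ => (σ ⟨v, hv0, hv⟩ : {v : (Fin 1 ⊕ Fin 1) ⊕ Fin 2 → F //
      v ≠ 0 ∧ QM 1 (1 : F) 1 v = 0}).1) hg
    exact this
  have hne : ∀ (j : (Fin 1 ⊕ Fin 1) ⊕ Fin 2) (w : (Fin 1 ⊕ Fin 1) ⊕ Fin 2 → F), w j = 1 →
      w ≠ 0 := by
    intro j w hw h0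
    rw [h0] at hw
    exact zero_ne_one hw
  have hu1 := hfix (Pi.single (Sum.inl (Sum.inl 0)) 1) (hne (Sum.inl (Sum.inl 0)) _ (by simp))
    (by rw [QM_apply]; simp [Cfsg.quadFormMinus])
  have hu2 := hfix (Pi.single (Sum.inl (Sum.inr 0)) 1) (hne (Sum.inl (Sum.inr 0)) _ (by simp))
    (by rw [QM_apply]; simp [Cfsg.quadFormMinus])
  have hu3 := hfix (Pi.single (Sum.inl (Sum.inl 0)) 1 + Pi.single (Sum.inl (Sum.inr 0)) 1 +
    Pi.single (Sum.inr 0) 1) (hne (Sum.inr 0) _ (by simp))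
    (by rw [QM_apply]; simp [Cfsg.quadFormMinus]; linear_combination h2)
  have hu4 := hfix (Pi.single (Sum.inl (Sum.inl 0)) 1 + Pi.single (Sum.inl (Sum.inr 0)) 1 +
    Pi.single (Sum.inr 1) 1) (hne (Sum.inr 1) _ (by simp))
    (by rw [QM_apply]; simp [Cfsg.quadFormMinus]; linear_combination h2)
  rw [Matrix.mulVec_add, Matrix.mulVec_add, hu1, hu2] at hu3 hu4
  apply eq_one_of_fix
  rintro ((j | j) | j)
  · obtain rfl : j = 0 := Subsingleton.elim _ _
    exact hu1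
  · obtain rfl : j = 0 := Subsingleton.elim _ _
    exact hu2
  · fin_cases j
    · exact add_left_cancel hu3
    · exact add_left_cancel hu4

end Main

/-- O⁻_4(2) ≅ S_5: the isometry group of the form x y + z_1² + z_1 z_2 + z_2² over the field with 2 elements is isomorphic to the symmetric group on 5 letters. -/
theorem result {F : Type*} [Field F] [Fintype F] (hF : Fintype.card F = 2) : Nonempty (↥(Cfsg.isometryGroup F (Cfsg.quadFormMinus 1 F 1 1)) ≃* Equiv.Perm (Fin 5)) := by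
  rw [← QM_coe]
  have hinj := faithful hF
  have hcardP : Nat.card (Equiv.Perm {v : (Fin 1 ⊕ Fin 1) ⊕ Fin 2 → F //
      v ≠ 0 ∧ QM 1 (1 : F) 1 v = 0}) = 120 := by
    rw [Nat.card_perm, card_points hF]
    rfl
  have hbij : Function.Bijective (MulAction.toPermHom ↥(Cfsg.isometryGroup F (⇑(QM 1 (1 : F) 1)))
      {v : (Fin 1 ⊕ Fin 1) ⊕ Fin 2 → F // v ≠ 0 ∧ QM 1 (1 : F) 1 v = 0}) :=
    hinj.bijective_of_nat_card_le (by rw [hcardP, card_group hF])
  have e : {v : (Fin 1 ⊕ Fin 1) ⊕ Fin 2 → F // v ≠ 0 ∧ QM 1 (1 : F) 1 v = 0} ≃ Fin 5 :=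
    Finite.equivFinOfCardEq (card_points hF)
  exact ⟨(MulEquiv.ofBijective _ hbij).trans e.permCongrHom⟩

end Cfsg.Agent.S0824
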