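-- Statement S0826: the symmetric group on 2n letters embeds in Sp(2n-2, 2).
import Mathlib
import Cfsg.Statements.S0826

set_option autoImplicit false
set_option linter.unusedSimpArgs false
set_option linter.unusedSectionVars false
open Cfsg

namespace Cfsg.Agent.S0826

open Matrix

section general

variable (Y : Type) [Fintype Y] [DecidableEq Y]

/-- permutation matrix on the point set -/
def pm (σ : Equiv.Perm (Y ⊕ Fin 2)) : Matrix (Y ⊕ Fin 2) (Y ⊕ Fin 2) (ZMod 2) :=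
  Matrix.of fun i j => if i = σ j then 1 else 0

theorem pm_apply (σ : Equiv.Perm (Y ⊕ Fin 2)) (i j : Y ⊕ Fin 2) :
    pm Y σ i j = if i = σ j then 1 else 0 := rfl

theorem pm_one : pm Y (1 : Equiv.Perm (Y ⊕ Fin 2)) = 1 := by
  ext i j
  rw [pm_apply, Matrix.one_apply]
  by_cases h : i = j <;> simp [h]

theorem pm_mul (σ τ : Equiv.Perm (Y ⊕ Fin 2)) : pm Y (σ * τ) = pm Y σ * pm Y τ := by
  ext i j
  rw [Matrix.mul_apply, Finset.sum_eq_single (τ j)]
  · rw [pm_apply, pm_apply, pm_apply, Equiv.Perm.mul_apply]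
    by_cases h : i = σ (τ j) <;> simp [h]
  · intro k _ hk
    rw [pm_apply, pm_apply, if_neg hk, mul_zero]
  · simp

theorem pm_mulVec_one (σ : Equiv.Perm (Y ⊕ Fin 2)) :
    pm Y σ *ᵥ (1 : Y ⊕ Fin 2 → ZMod 2) = 1 := by
  ext i
  simp only [Matrix.mulVec, dotProduct, Pi.one_apply, mul_one]
  rw [Finset.sum_eq_single (σ.symm i)]
  · rw [pm_apply]; simp
  · intro k _ hk
    rw [pm_apply, if_neg]
    intro h; apply hk; rw [h]; simp
  · simp

theorem one_vecMul_pm (σ : Equiv.Perm (Y ⊕ Fin 2)) :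
    (1 : Y ⊕ Fin 2 → ZMod 2) ᵥ* pm Y σ = 1 := by
  ext j
  simp only [Matrix.vecMul, dotProduct, Pi.one_apply, one_mul]
  rw [Finset.sum_eq_single (σ j)]
  · rw [pm_apply]; simp
  · intro k _ hk
    rw [pm_apply, if_neg hk]
  · simp

theorem pm_transpose_mul (σ : Equiv.Perm (Y ⊕ Fin 2)) : (pm Y σ)ᵀ * pm Y σ = 1 := by
  ext i j
  rw [Matrix.mul_apply, Finset.sum_eq_single (σ i)]
  · rw [Matrix.transpose_apply, pm_apply, pm_apply, Matrix.one_apply]
    by_cases h : i = j <;> simp [h]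
  · intro k _ hk
    rw [Matrix.transpose_apply, pm_apply, if_neg hk, zero_mul]
  · simp

/-- coordinates: from vectors on points to free coordinates -/
def A0 : Matrix Y (Y ⊕ Fin 2) (ZMod 2) :=
  Matrix.of fun j x =>
    Sum.elim (fun y => if y = j then (1 : ZMod 2) else 0) (fun i => if i = 1 then 1 else 0) x

/-- inclusion: from free coordinates to vectors on points -/
def B0 : Matrix (Y ⊕ Fin 2) Y (ZMod 2) :=
  Matrix.of fun x j =>
    Sum.elim (fun y => if y = j then (1 : ZMod 2) else 0) (fun i => if i = 0 then 1 else 0) x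

theorem A0_inl (j y : Y) : A0 Y j (Sum.inl y) = if y = j then 1 else 0 := rfl
theorem A0_inr (j : Y) (i : Fin 2) : A0 Y j (Sum.inr i) = if i = 1 then 1 else 0 := rfl
theorem B0_inl (j y : Y) : B0 Y (Sum.inl y) j = if y = j then 1 else 0 := rfl
theorem B0_inr (j : Y) (i : Fin 2) : B0 Y (Sum.inr i) j = if i = 0 then 1 else 0 := rfl

theorem two_zmod : (1 : ZMod 2) + 1 = 0 := by decide

theorem A0_mulVec_one : A0 Y *ᵥ (1 : Y ⊕ Fin 2 → ZMod 2) = 0 := by
  ext j
  simp only [Matrix.mulVec, dotProduct, Pi.one_apply, mul_one, Fintype.sum_sum_type, A0_inl,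
    A0_inr, Finset.sum_ite_eq', Finset.mem_univ, if_true, Fin.sum_univ_two, Pi.zero_apply]
  simp [two_zmod]

theorem one_vecMul_B0 : (1 : Y ⊕ Fin 2 → ZMod 2) ᵥ* B0 Y = 0 := by
  ext j
  simp only [Matrix.vecMul, dotProduct, Pi.one_apply, one_mul, Fintype.sum_sum_type, B0_inl,
    B0_inr, Finset.sum_ite_eq', Finset.mem_univ, if_true, Fin.sum_univ_two, Pi.zero_apply]
  simp [two_zmod]

theorem A0_mul_B0 : A0 Y * B0 Y = 1 := by
  ext j j'
  simp only [Matrix.mul_apply, Fintype.sum_sum_type, A0_inl, A0_inr, B0_inl, B0_inr,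
    Fin.sum_univ_two, Matrix.one_apply]
  by_cases h : j = j'
  · simp [h]
  · have h' : ¬ j' = j := fun e => h e.symm
    simp [h, h']

theorem B0_mul_A0 (hY : (Fintype.card Y : ZMod 2) = 0) :
    B0 Y * A0 Y
      = (1 : Matrix (Y ⊕ Fin 2) (Y ⊕ Fin 2) (ZMod 2))
          + Matrix.vecMulVec (1 : Y ⊕ Fin 2 → ZMod 2) (Pi.single (Sum.inr 1) 1)
          + Matrix.vecMulVec (Pi.single (Sum.inr 0) 1) (1 : Y ⊕ Fin 2 → ZMod 2) := by
  ext x x'
  rcases x with y | i <;> rcases x' with y' | i'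
  · simp only [Matrix.mul_apply, B0_inl, A0_inl, Matrix.add_apply, Matrix.one_apply,
      Matrix.vecMulVec_apply]
    by_cases h : y = y' <;> simp [h]
  · fin_cases i' <;>
      simp [Matrix.mul_apply, B0_inl, A0_inr, Matrix.one_apply, Matrix.vecMulVec_apply]
  · fin_cases i <;>
      simp [Matrix.mul_apply, B0_inr, A0_inl, Matrix.one_apply, Matrix.vecMulVec_apply]
  · fin_cases i <;> fin_cases i' <;>
      simp [Matrix.mul_apply, B0_inr, A0_inr, Matrix.one_apply, Matrix.vecMulVec_apply, hY,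
        two_zmod]

/-- action on free coordinates -/
def M0 (σ : Equiv.Perm (Y ⊕ Fin 2)) : Matrix Y Y (ZMod 2) := A0 Y * pm Y σ * B0 Y

theorem M0_one : M0 Y 1 = 1 := by
  rw [M0, pm_one, Matrix.mul_one, A0_mul_B0]

theorem one_vecMul_N (σ : Equiv.Perm (Y ⊕ Fin 2)) :
    (1 : Y ⊕ Fin 2 → ZMod 2) ᵥ* (pm Y σ * B0 Y) = 0 := by
  rw [← Matrix.vecMul_vecMul, one_vecMul_pm, one_vecMul_B0]

theorem B0_mul_M0 (hY : (Fintype.card Y : ZMod 2) = 0) (σ : Equiv.Perm (Y ⊕ Fin 2)) :
    B0 Y * M0 Y σ = pm Y σ * B0 Y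
      + Matrix.vecMulVec (1 : Y ⊕ Fin 2 → ZMod 2)
          ((Pi.single (Sum.inr 1) 1 : Y ⊕ Fin 2 → ZMod 2) ᵥ* (pm Y σ * B0 Y)) := by
  rw [M0, ← Matrix.mul_assoc, ← Matrix.mul_assoc, B0_mul_A0 Y hY, Matrix.mul_assoc,
    Matrix.add_mul, Matrix.add_mul, Matrix.one_mul, Matrix.vecMulVec_mul, Matrix.vecMulVec_mul,
    one_vecMul_N]
  have hz : Matrix.vecMulVec (Pi.single (Sum.inr 0) 1 : Y ⊕ Fin 2 → ZMod 2) (0 : Y → ZMod 2)
      = 0 := by
    ext i j
    simp [Matrix.vecMulVec_apply]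
  rw [hz, add_zero]

theorem M0_mul (hY : (Fintype.card Y : ZMod 2) = 0) (σ τ : Equiv.Perm (Y ⊕ Fin 2)) :
    M0 Y (σ * τ) = M0 Y σ * M0 Y τ := by
  have h1 : M0 Y σ * M0 Y τ = A0 Y * pm Y σ * (B0 Y * M0 Y τ) := by
    rw [M0, Matrix.mul_assoc (A0 Y * pm Y σ)]
  rw [h1, B0_mul_M0 Y hY, Matrix.mul_add, Matrix.mul_vecMulVec, ← Matrix.mulVec_mulVec,
    pm_mulVec_one, A0_mulVec_one]
  rw [M0, pm_mul]
  simp [Matrix.mul_assoc]

theorem M0_invariant (hY : (Fintype.card Y : ZMod 2) = 0) (σ : Equiv.Perm (Y ⊕ Fin 2)) :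
    (M0 Y σ)ᵀ * ((B0 Y)ᵀ * B0 Y) * M0 Y σ = (B0 Y)ᵀ * B0 Y := by
  have h1 : (M0 Y σ)ᵀ * ((B0 Y)ᵀ * B0 Y) * M0 Y σ = (B0 Y * M0 Y σ)ᵀ * (B0 Y * M0 Y σ) := by
    rw [Matrix.transpose_mul]
    simp only [Matrix.mul_assoc]
  rw [h1, B0_mul_M0 Y hY]
  have hN1 := one_vecMul_N Y σ
  have h11 : (1 : Y ⊕ Fin 2 → ZMod 2) ⬝ᵥ 1 = 0 := by
    simp [dotProduct, hY]
    decide
  have hNN : (pm Y σ * B0 Y)ᵀ * (pm Y σ * B0 Y) = (B0 Y)ᵀ * B0 Y := by
    rw [Matrix.transpose_mul, Matrix.mul_assoc, ← Matrix.mul_assoc (pm Y σ)ᵀ, pm_transpose_mul,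
      Matrix.one_mul]
  rw [Matrix.transpose_add, Matrix.add_mul, Matrix.mul_add, Matrix.mul_add,
    Matrix.transpose_vecMulVec, Matrix.vecMulVec_mul, hN1, Matrix.mul_vecMulVec,
    Matrix.mulVec_transpose, hN1, Matrix.vecMulVec_mul_vecMulVec, h11, hNN]
  simp

theorem N_apply (σ : Equiv.Perm (Y ⊕ Fin 2)) (x : Y ⊕ Fin 2) (j : Y) :
    (pm Y σ * B0 Y) x j = B0 Y (σ.symm x) j := by
  rw [Matrix.mul_apply, Finset.sum_eq_single (σ.symm x)]
  · rw [pm_apply]; simp
  · intro k _ hk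
    rw [pm_apply, if_neg, zero_mul]
    intro h; apply hk; rw [h]; simp
  · simp

theorem B0_eq_one_iff (z : Y ⊕ Fin 2) (j : Y) :
    B0 Y z j = 1 ↔ z = Sum.inl j ∨ z = Sum.inr 0 := by
  rcases z with y | i
  · rw [B0_inl]
    by_cases h : y = j <;> simp [h]
  · rw [B0_inr]
    by_cases h : i = 0 <;> simp [h]

theorem zmod2_add_one_eq_zero (a : ZMod 2) (h : a + 1 = 0) : a = 1 := by
  revert h; revert a; decide

theorem M0_eq_one (hY : (Fintype.card Y : ZMod 2) = 0) (hY3 : 3 ≤ Fintype.card Y)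
    (σ : Equiv.Perm (Y ⊕ Fin 2)) (h : M0 Y σ = 1) : σ = 1 := by
  have key : ∀ x j, B0 Y (σ.symm x) j + B0 Y (σ.symm (Sum.inr 1)) j = B0 Y x j := by
    intro x j
    have h1 := B0_mul_M0 Y hY σ
    rw [h, Matrix.mul_one] at h1
    have h2 := congrFun (congrFun h1 x) j
    rw [Matrix.add_apply, N_apply, Matrix.vecMulVec_apply, Pi.one_apply, one_mul,
      Matrix.single_one_vecMul, Matrix.row_apply, N_apply] at h2
    exact h2.symm
  have hinj := σ.symm.injective
  -- two further elements of Y different from a given one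
  have hex : ∀ j : Y, ∃ y₁ y₂ : Y, y₁ ≠ j ∧ y₂ ≠ j ∧ y₁ ≠ y₂ := by
    intro j
    have hc : 1 < (Finset.univ.erase j).card := by
      rw [Finset.card_erase_of_mem (Finset.mem_univ j), Finset.card_univ]
      omega
    obtain ⟨a, ha, b, hb, hab⟩ := Finset.one_lt_card.mp hc
    exact ⟨a, b, Finset.ne_of_mem_erase ha, Finset.ne_of_mem_erase hb, hab⟩
  -- step (i)
  have hr : ∀ j, B0 Y (σ.symm (Sum.inr 1)) j = 0 := by
    intro j
    by_contra hne
    have hc : B0 Y (σ.symm (Sum.inr 1)) j = 1 := by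
      rcases hz : σ.symm (Sum.inr 1) with y | i
      · rw [hz, B0_inl] at hne
        rw [B0_inl]
        by_cases hy : y = j
        · simp [hy]
        · simp [hy] at hne
      · rw [hz, B0_inr] at hne
        rw [B0_inr]
        by_cases hi : i = 0
        · simp [hi]
        · simp [hi] at hne
    obtain ⟨y₁, y₂, h1, h2, h12⟩ := hex j
    have e1 : B0 Y (σ.symm (Sum.inl y₁)) j = 1 := by
      have := key (Sum.inl y₁) j
      rw [hc, B0_inl, if_neg h1] at this
      exact zmod2_add_one_eq_zero _ this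
    have e2 : B0 Y (σ.symm (Sum.inl y₂)) j = 1 := by
      have := key (Sum.inl y₂) j
      rw [hc, B0_inl, if_neg h2] at this
      exact zmod2_add_one_eq_zero _ this
    rw [B0_eq_one_iff] at e1 e2 hc
    have d1 : σ.symm (Sum.inl y₁) ≠ σ.symm (Sum.inl y₂) := fun e => h12 (Sum.inl_injective (hinj e))
    have d2 : σ.symm (Sum.inl y₁) ≠ σ.symm (Sum.inr 1) := fun e => by
      have := hinj e; simp at this
    have d3 : σ.symm (Sum.inl y₂) ≠ σ.symm (Sum.inr 1) := fun e => by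
      have := hinj e; simp at this
    rcases e1 with e1 | e1 <;> rcases e2 with e2 | e2 <;> rcases hc with hc | hc <;>
      simp_all
  have key2 : ∀ x j, B0 Y (σ.symm x) j = B0 Y x j := by
    intro x j
    have := key x j
    rw [hr, add_zero] at this
    exact this
  -- step (ii)
  have hl : ∀ y : Y, σ.symm (Sum.inl y) = Sum.inl y := by
    intro y
    have e1 : B0 Y (σ.symm (Sum.inl y)) y = 1 := by rw [key2, B0_inl, if_pos rfl]
    rcases (B0_eq_one_iff Y _ _).mp e1 with e | e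
    · exact e
    · exfalso
      obtain ⟨y₁, -, h1, -, -⟩ := hex y
      have := key2 (Sum.inl y) y₁
      rw [e, B0_inr, if_pos rfl, B0_inl, if_neg (fun e' => h1 e'.symm)] at this
      exact one_ne_zero this
  -- step (iii)
  have hs : σ.symm (Sum.inr 0) = Sum.inr 0 := by
    obtain ⟨j⟩ : Nonempty Y := by
      rw [← Fintype.card_pos_iff]; omega
    have e1 : B0 Y (σ.symm (Sum.inr 0)) j = 1 := by rw [key2, B0_inr, if_pos rfl]
    rcases (B0_eq_one_iff Y _ _).mp e1 with e | e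
    · exfalso
      rw [← hl j] at e
      have := hinj e
      simp at this
    · exact e
  -- step (iv)
  have ht : σ.symm (Sum.inr 1) = Sum.inr 1 := by
    rcases hz : σ.symm (Sum.inr 1) with y | i
    · exfalso
      rw [← hl y] at hz
      have := hinj hz
      simp at this
    · fin_cases i
      · exfalso
        have hz' : σ.symm (Sum.inr 1) = Sum.inr 0 := hz
        rw [← hs] at hz'
        have := hinj hz'
        simp at this
      · rfl
  have hsymm : σ.symm = 1 := by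
    ext x
    rcases x with y | i
    · rw [hl]; rfl
    · fin_cases i
      · show σ.symm (Sum.inr 0) = Sum.inr 0
        exact hs
      · show σ.symm (Sum.inr 1) = Sum.inr 1
        exact ht
  have : σ = (σ.symm).symm := rfl
  rw [this, hsymm]
  rfl

theorem B0t_B0 : (B0 Y)ᵀ * B0 Y = 1 + Matrix.of (fun _ _ => (1 : ZMod 2)) := by
  ext j j'
  simp only [Matrix.mul_apply, Matrix.transpose_apply, Fintype.sum_sum_type, B0_inl, B0_inr,
    Fin.sum_univ_two, Matrix.add_apply, Matrix.one_apply, Matrix.of_apply]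
  by_cases h : j = j'
  · simp [h]
  · have h' : ¬ j' = j := fun e => h e.symm
    simp [h, h']

end general

section blocks

variable (m : ℕ)

def Um : Matrix (Fin m) (Fin m) (ZMod 2) := Matrix.of fun i j => if i ≤ j then 1 else 0

def Em : Matrix (Fin m) (Fin m) (ZMod 2) := Matrix.of fun _ _ => 1

theorem add_self_mat {a b : Type} (M : Matrix a b (ZMod 2)) : M + M = 0 := by
  ext i j
  exact CharTwo.add_self_eq_zero (M i j)

theorem neg_mat {a b : Type} (M : Matrix a b (ZMod 2)) : -M = M := by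
  ext i j
  exact CharTwo.neg_eq (M i j)

theorem U_add_transpose : Um m + (Um m)ᵀ = Em m + 1 := by
  ext i j
  simp only [Matrix.add_apply, Matrix.transpose_apply, Um, Em, Matrix.of_apply, Matrix.one_apply]
  rcases lt_trichotomy i j with h | h | h
  · simp [h.le, not_le.mpr h, h.ne]
  · subst h; simp
  · simp [h.le, not_le.mpr h, h.ne']

def Rm : Matrix (Fin m ⊕ Fin m) (Fin m ⊕ Fin m) (ZMod 2) :=
  Matrix.fromBlocks (1 + Um m) (Um m) 1 1

def Sm : Matrix (Fin m ⊕ Fin m) (Fin m ⊕ Fin m) (ZMod 2) :=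
  Matrix.fromBlocks 1 (Um m) 1 (Um m + 1)

theorem Rm_mul_Sm : Rm m * Sm m = 1 := by
  rw [Rm, Sm, Matrix.fromBlocks_multiply, ← Matrix.fromBlocks_one]
  congr 1
  · rw [Matrix.mul_one, Matrix.mul_one, add_assoc, add_self_mat, add_zero]
  · rw [Matrix.add_mul, Matrix.mul_add, Matrix.one_mul, Matrix.mul_one,
      add_comm (Um m * Um m) (Um m), add_self_mat]
  · rw [Matrix.mul_one, add_self_mat]
  · rw [Matrix.one_mul, Matrix.one_mul, ← add_assoc, add_self_mat, zero_add]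

theorem Sm_mul_Rm : Sm m * Rm m = 1 := by
  rw [Rm, Sm, Matrix.fromBlocks_multiply, ← Matrix.fromBlocks_one]
  congr 1
  · rw [Matrix.one_mul, Matrix.mul_one, add_assoc, add_self_mat, add_zero]
  · rw [Matrix.one_mul, Matrix.mul_one, add_self_mat]
  · rw [Matrix.one_mul, Matrix.mul_one, add_comm (Um m) 1, add_self_mat]
  · rw [Matrix.one_mul, Matrix.mul_one, ← add_assoc, add_self_mat, zero_add]

theorem two_eq_zero_zmod : (2 : ZMod 2) = 0 := by decide

theorem gram_eq : (Rm m)ᵀ * Matrix.J (Fin m) (ZMod 2) * Rm m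
    = (B0 (Fin m ⊕ Fin m))ᵀ * B0 (Fin m ⊕ Fin m) := by
  have hU := U_add_transpose m
  have hB : (B0 (Fin m ⊕ Fin m))ᵀ * B0 (Fin m ⊕ Fin m)
      = Matrix.fromBlocks (1 + Em m) (Em m) (Em m) (1 + Em m) := by
    rw [B0t_B0]
    ext x y
    rcases x with a | a <;> rcases y with b | b <;>
      simp [Matrix.one_apply, Em]
  rw [hB, Rm, Matrix.J, Matrix.fromBlocks_transpose, Matrix.fromBlocks_multiply,
    Matrix.fromBlocks_multiply]
  simp only [Matrix.transpose_add, Matrix.transpose_one, Matrix.mul_zero, Matrix.mul_one,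
    Matrix.one_mul, zero_add, add_zero, Matrix.mul_neg, neg_mat]
  congr 1
  · ext i j
    have := congrFun (congrFun hU i) j
    simp only [Matrix.add_apply] at this ⊢
    linear_combination this + (1 : Matrix (Fin m) (Fin m) (ZMod 2)) i j * two_eq_zero_zmod
  · ext i j
    have := congrFun (congrFun hU i) j
    simp only [Matrix.add_apply] at this ⊢
    linear_combination this + (1 : Matrix (Fin m) (Fin m) (ZMod 2)) i j * two_eq_zero_zmod
  · ext i j
    have := congrFun (congrFun hU i) j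
    simp only [Matrix.add_apply] at this ⊢
    linear_combination this + (1 : Matrix (Fin m) (Fin m) (ZMod 2)) i j * two_eq_zero_zmod
  · ext i j
    have := congrFun (congrFun hU i) j
    simp only [Matrix.add_apply] at this ⊢
    linear_combination this

end blocks

section final

variable (m : ℕ)

/-- the symplectic matrix of a permutation -/
def rho (σ : Equiv.Perm ((Fin m ⊕ Fin m) ⊕ Fin 2)) :
    Matrix (Fin m ⊕ Fin m) (Fin m ⊕ Fin m) (ZMod 2) :=
  Rm m * M0 (Fin m ⊕ Fin m) σ * Sm m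

theorem cardY : (Fintype.card (Fin m ⊕ Fin m) : ZMod 2) = 0 := by
  rw [Fintype.card_sum, Fintype.card_fin, Nat.cast_add]
  exact CharTwo.add_self_eq_zero _

theorem rho_mem (σ : Equiv.Perm ((Fin m ⊕ Fin m) ⊕ Fin 2)) :
    rho m σ ∈ Matrix.symplecticGroup (Fin m) (ZMod 2) := by
  rw [SymplecticGroup.mem_iff']
  have h1 : (rho m σ)ᵀ * Matrix.J (Fin m) (ZMod 2) * rho m σ
      = (Sm m)ᵀ * ((M0 (Fin m ⊕ Fin m) σ)ᵀ * ((Rm m)ᵀ * Matrix.J (Fin m) (ZMod 2) * Rm m)
          * M0 (Fin m ⊕ Fin m) σ) * Sm m := by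
    simp only [rho, Matrix.transpose_mul, Matrix.mul_assoc]
  rw [h1, gram_eq, M0_invariant _ (cardY m), ← gram_eq]
  have h2 : (Sm m)ᵀ * ((Rm m)ᵀ * Matrix.J (Fin m) (ZMod 2) * Rm m) * Sm m
      = (Rm m * Sm m)ᵀ * Matrix.J (Fin m) (ZMod 2) * (Rm m * Sm m) := by
    simp only [Matrix.transpose_mul, Matrix.mul_assoc]
  rw [h2, Rm_mul_Sm]
  simp

/-- the homomorphism into the symplectic group -/
def rhoHom : Equiv.Perm ((Fin m ⊕ Fin m) ⊕ Fin 2) →* Matrix.symplecticGroup (Fin m) (ZMod 2) where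
  toFun σ := ⟨rho m σ, rho_mem m σ⟩
  map_one' := by
    apply Subtype.ext
    show rho m 1 = 1
    rw [rho, M0_one, Matrix.mul_one, Rm_mul_Sm]
  map_mul' σ τ := by
    apply Subtype.ext
    show rho m (σ * τ) = rho m σ * rho m τ
    rw [rho, rho, rho, M0_mul _ (cardY m)]
    have : Rm m * M0 (Fin m ⊕ Fin m) σ * Sm m * (Rm m * M0 (Fin m ⊕ Fin m) τ * Sm m)
        = Rm m * M0 (Fin m ⊕ Fin m) σ * (Sm m * Rm m) * M0 (Fin m ⊕ Fin m) τ * Sm m := by
      simp only [Matrix.mul_assoc]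
    rw [this, Sm_mul_Rm, Matrix.mul_one]
    simp only [Matrix.mul_assoc]

theorem rhoHom_injective (hm : 2 ≤ m) : Function.Injective (rhoHom m) := by
  rw [injective_iff_map_eq_one]
  intro σ h
  have h' : rho m σ = 1 := congrArg Subtype.val h
  have hM : M0 (Fin m ⊕ Fin m) σ = 1 := by
    have h3 : M0 (Fin m ⊕ Fin m) σ = Sm m * rho m σ * Rm m := by
      rw [rho]
      have : Sm m * (Rm m * M0 (Fin m ⊕ Fin m) σ * Sm m) * Rm m
          = (Sm m * Rm m) * M0 (Fin m ⊕ Fin m) σ * (Sm m * Rm m) := by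
        simp only [Matrix.mul_assoc]
      rw [this, Sm_mul_Rm, Matrix.one_mul, Matrix.mul_one]
    rw [h3, h', Matrix.mul_one, Sm_mul_Rm]
  exact M0_eq_one _ (cardY m) (by rw [Fintype.card_sum, Fintype.card_fin]; omega) σ hM

end final

/-- S_2n ≤ Sp_(2n−2)(2) for n ≥ 3: there is an injective homomorphism from the symmetric group on 2n letters into the symplectic group of degree 2n − 2 over the field with two elements. -/
theorem result (n : ℕ) (hn : 3 ≤ n) : ∃ f : Equiv.Perm (Fin (2 * n)) →* Matrix.symplecticGroup (Fin (n - 1)) (ZMod 2), Function.Injective f := by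
  have hcard : Fintype.card (Fin (2 * n))
      = Fintype.card ((Fin (n - 1) ⊕ Fin (n - 1)) ⊕ Fin 2) := by
    simp only [Fintype.card_sum, Fintype.card_fin]
    omega
  let e : Fin (2 * n) ≃ (Fin (n - 1) ⊕ Fin (n - 1)) ⊕ Fin 2 := Fintype.equivOfCardEq hcard
  refine ⟨(rhoHom (n - 1)).comp (Equiv.permCongrHom e).toMonoidHom, ?_⟩
  rw [MonoidHom.coe_comp]
  exact (rhoHom_injective (n - 1) (by omega)).comp (Equiv.permCongrHom e).injective

end Cfsg.Agent.S0826
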