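import Mathlib
import Cfsg.Statements.S0828
import Cfsg.Agent.Lib.Helper94.Basic

set_option autoImplicit false
open Cfsg

namespace Cfsg.Agent.S0828

open Module Cfsg.Agent.Lib.Helper94.Basic

theorem card_eq_mul_of_fiber {α β : Type*} [Finite α] [Finite β] (f : α → β) (k : ℕ)
    (h : ∀ b, Nat.card {a // f a = b} = k) : Nat.card α = Nat.card β * k := by
  classical
  have := Fintype.ofFinite β
  rw [← Nat.card_congr (Equiv.sigmaFiberEquiv f), Nat.card_sigma]
  simp [h, Nat.card_eq_fintype_card]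

section General

variable {F : Type*} [Field F] [Fintype F] {V : Type*} [AddCommGroup V] [Module F V]
  [FiniteDimensional F V]

theorem card_submodule (W : Submodule F V) : Nat.card W = Fintype.card F ^ finrank F W := by
  rw [Module.natCard_eq_pow_finrank (K := F), Nat.card_eq_fintype_card]

theorem card_diff [Finite V] (W U : Submodule F V) (h : U ≤ W) :
    Nat.card {w : V // w ∈ W ∧ w ∉ U} + Nat.card U = Nat.card W := by
  have h1 : Nat.card {w : V // w ∈ W ∧ w ∉ U} = ((W : Set V) \ (U : Set V)).ncard := rfl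
  have h2 : Nat.card U = (U : Set V).ncard := rfl
  have h3 : Nat.card W = (W : Set V).ncard := rfl
  rw [h1, h2, h3]
  exact Set.ncard_sdiff_add_ncard_of_subset h

variable (B : V →ₗ[F] V →ₗ[F] F)

/-- totally isotropic 2-subspaces through `v`, for an alternating non-degenerate form on a
4-dimensional space -/
theorem card_through (hV : finrank F V = 4) (halt : ∀ x, B x x = 0)
    (hnd : ∀ v, v ≠ 0 → ∃ w, B v w ≠ 0) (v : V) (hv : v ≠ 0) :
    Nat.card {W : Submodule F V // finrank F W = 2 ∧ v ∈ W ∧ ∀ u ∈ W, ∀ w ∈ W, B u w = 0}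
      = Fintype.card F + 1 := by
  have hfin : Finite V := Module.finite_of_finite F
  set q := Fintype.card F with hq
  have hq2 : 2 ≤ q := Fintype.one_lt_card
  have hskew : ∀ x y, B x y = -B y x := by
    intro x y
    have h := halt (x + y)
    simp only [map_add, LinearMap.add_apply, halt, zero_add, add_zero] at h
    linear_combination h
  -- the domain: vectors orthogonal to `v` outside `span {v}`
  have hBv : B v ≠ 0 := by
    obtain ⟨w, hw⟩ := hnd v hv
    intro h
    apply hw
    rw [h]; rfl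
  have hker : finrank F (LinearMap.ker (B v)) = 3 := by
    have := Module.Dual.finrank_ker_add_one_of_ne_zero hBv
    omega
  have hspan_le : Submodule.span F {v} ≤ LinearMap.ker (B v) := by
    rw [Submodule.span_singleton_le_iff_mem, LinearMap.mem_ker]
    exact halt v
  have hcard_span : Nat.card (Submodule.span F {v}) = q := by
    rw [card_submodule, finrank_span_singleton hv, pow_one]
  have hcard_ker : Nat.card (LinearMap.ker (B v)) = q ^ 3 := by
    rw [card_submodule, hker]
  have hD : Nat.card {w : V // w ∈ LinearMap.ker (B v) ∧ w ∉ Submodule.span F {v}} + q = q ^ 3 := by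
    have hd := card_diff _ _ hspan_le
    rw [hcard_span, hcard_ker] at hd
    exact hd
  -- the map `w ↦ span {v, w}`
  have hmap : ∀ w : {w : V // w ∈ LinearMap.ker (B v) ∧ w ∉ Submodule.span F {v}},
      finrank F (Submodule.span F {v, w.1}) = 2 ∧ v ∈ Submodule.span F {v, w.1} ∧
        ∀ u ∈ Submodule.span F {v, w.1}, ∀ x ∈ Submodule.span F {v, w.1}, B u x = 0 := by
    rintro ⟨w, hw1, hw2⟩
    have hvw : B v w = 0 := hw1
    refine ⟨?_, Submodule.subset_span (by simp), ?_⟩
    · have hli : LinearIndependent F ![w, v] := by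
        rw [linearIndependent_fin2]
        refine ⟨hv, fun a ha => hw2 ?_⟩
        rw [Submodule.mem_span_singleton]
        exact ⟨a, ha⟩
      have := finrank_span_eq_card hli
      rw [Matrix.range_cons_cons_empty, Fintype.card_fin] at this
      rw [Set.pair_comm]
      exact this
    · intro u hu x hx
      rw [Submodule.mem_span_pair] at hu hx
      obtain ⟨a, b, rfl⟩ := hu
      obtain ⟨c, d, rfl⟩ := hx
      simp only [map_add, map_smul, LinearMap.add_apply, LinearMap.smul_apply, smul_eq_mul, halt,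
        hvw, hskew w v, neg_zero, mul_zero, add_zero]
  have hfiber : ∀ W : {W : Submodule F V // finrank F W = 2 ∧ v ∈ W ∧ ∀ u ∈ W, ∀ w ∈ W, B u w = 0},
      Nat.card {w : {w : V // w ∈ LinearMap.ker (B v) ∧ w ∉ Submodule.span F {v}} //
        (⟨Submodule.span F {v, w.1}, hmap w⟩ :
          {W : Submodule F V // finrank F W = 2 ∧ v ∈ W ∧ ∀ u ∈ W, ∀ w ∈ W, B u w = 0}) = W} + q
        = q ^ 2 := by
    rintro ⟨W, hW2, hvW, hWti⟩
    have hspanW : Submodule.span F {v} ≤ W := by
      rw [Submodule.span_singleton_le_iff_mem]; exact hvW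
    have hcardW : Nat.card W = q ^ 2 := by rw [card_submodule, hW2]
    have hd := card_diff W _ hspanW
    rw [hcard_span, hcardW] at hd
    rw [← hd]
    congr 1
    apply Nat.card_congr
    refine ⟨fun w => ⟨w.1.1, ?_, w.1.2.2⟩, fun w => ⟨⟨w.1, ?_, w.2.2⟩, ?_⟩, ?_, ?_⟩
    · have h := w.2
      simp only [Subtype.mk.injEq] at h
      exact h.le (Submodule.subset_span (by simp))
    · rw [LinearMap.mem_ker]
      exact hWti v hvW w.1 w.2.1
    · simp only [Subtype.mk.injEq]
      have hle : Submodule.span F {v, w.1} ≤ W := by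
        rw [Submodule.span_le]
        intro x hx
        rcases hx with rfl | rfl
        · exact hvW
        · exact w.2.1
      have hfr := (hmap ⟨w.1, by rw [LinearMap.mem_ker]; exact hWti v hvW w.1 w.2.1, w.2.2⟩).1
      have : FiniteDimensional F W := inferInstance
      exact Submodule.eq_of_le_of_finrank_eq hle (by rw [hfr, hW2])
    · intro w; rfl
    · intro w; rfl
  have hcount := card_eq_mul_of_fiber
    (fun w : {w : V // w ∈ LinearMap.ker (B v) ∧ w ∉ Submodule.span F {v}} =>
      (⟨Submodule.span F {v, w.1}, hmap w⟩ :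
        {W : Submodule F V // finrank F W = 2 ∧ v ∈ W ∧ ∀ u ∈ W, ∀ w ∈ W, B u w = 0}))
    (q ^ 2 - q) (fun W => by have := hfiber W; omega)
  have hD' : Nat.card {w : V // w ∈ LinearMap.ker (B v) ∧ w ∉ Submodule.span F {v}} = q ^ 3 - q := by
    omega
  rw [hD'] at hcount
  have hpos : 0 < q ^ 2 - q := by
    have : q < q ^ 2 := by nlinarith
    omega
  have e1 : q ^ 3 - q = (q + 1) * (q ^ 2 - q) := by
    have h1 : q ≤ q ^ 2 := by nlinarith
    have h2 : q ≤ q ^ 3 := by nlinarith [pow_pos (by omega : 0 < q) 2]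
    zify [h1, h2]
    ring
  rw [e1] at hcount
  exact (Nat.eq_of_mul_eq_mul_right hpos hcount).symm

/-- the number of totally isotropic 2-subspaces -/
theorem card_all (hV : finrank F V = 4) (halt : ∀ x, B x x = 0)
    (hnd : ∀ v, v ≠ 0 → ∃ w, B v w ≠ 0) :
    Nat.card {W : Submodule F V // finrank F W = 2 ∧ ∀ u ∈ W, ∀ w ∈ W, B u w = 0}
      = (Fintype.card F + 1) * (Fintype.card F ^ 2 + 1) := by
  have hfin : Finite V := Module.finite_of_finite F
  set q := Fintype.card F with hq
  have hq2 : 2 ≤ q := Fintype.one_lt_card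
  -- flags (v, W)
  let Fl := {p : V × Submodule F V // p.1 ≠ 0 ∧ p.1 ∈ p.2 ∧ finrank F p.2 = 2 ∧
    ∀ u ∈ p.2, ∀ w ∈ p.2, B u w = 0}
  have hFlfin : Finite Fl := inferInstance
  -- projection to the vector
  have h1 : Nat.card Fl = Nat.card {v : V // v ≠ 0} * (q + 1) := by
    apply card_eq_mul_of_fiber (fun p : Fl => (⟨p.1.1, p.2.1⟩ : {v : V // v ≠ 0}))
    rintro ⟨v, hv⟩
    rw [← card_through B hV halt hnd v hv]
    apply Nat.card_congr
    refine ⟨fun p => ⟨p.1.1.2, p.1.2.2.2.1, ?_, p.1.2.2.2.2⟩,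
      fun W => ⟨⟨(v, W.1), hv, W.2.2.1, W.2.1, W.2.2.2⟩, rfl⟩, ?_, ?_⟩
    · have h := p.2
      simp only [Subtype.mk.injEq] at h
      have h' := p.1.2.2.1
      rw [h] at h'
      exact h'
    · rintro ⟨⟨⟨v', W⟩, hp⟩, hp2⟩
      simp only [Subtype.mk.injEq] at hp2
      subst hp2
      rfl
    · intro W; rfl
  -- projection to the subspace
  have h2 : Nat.card Fl = Nat.card {W : Submodule F V // finrank F W = 2 ∧
      ∀ u ∈ W, ∀ w ∈ W, B u w = 0} * (q ^ 2 - 1) := by
    apply card_eq_mul_of_fiber (fun p : Fl => (⟨p.1.2, p.2.2.2.1, p.2.2.2.2⟩ :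
      {W : Submodule F V // finrank F W = 2 ∧ ∀ u ∈ W, ∀ w ∈ W, B u w = 0}))
    rintro ⟨W, hW2, hWti⟩
    have hcardW : Nat.card W = q ^ 2 := by rw [card_submodule, hW2]
    have hbot : Nat.card (⊥ : Submodule F V) = 1 := by
      rw [card_submodule, finrank_bot, pow_zero]
    have hd := card_diff W ⊥ bot_le
    rw [hbot, hcardW] at hd
    have : Nat.card {w : V // w ∈ W ∧ w ∉ (⊥ : Submodule F V)} = q ^ 2 - 1 := by omega
    rw [← this]
    apply Nat.card_congr
    refine ⟨fun p => ⟨p.1.1.1, ?_, ?_⟩,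
      fun w => ⟨⟨(w.1, W), ?_, w.2.1, hW2, hWti⟩, rfl⟩, ?_, ?_⟩
    · have h := p.2
      simp only [Subtype.mk.injEq] at h
      have h' := p.1.2.2.1
      rw [h] at h'
      exact h'
    · rw [Submodule.mem_bot]
      exact p.1.2.1
    · have := w.2.2
      rwa [Submodule.mem_bot] at this
    · rintro ⟨⟨⟨v', W'⟩, hp⟩, hp2⟩
      simp only [Subtype.mk.injEq] at hp2
      subst hp2
      rfl
    · intro w; rfl
  have hVcard : Nat.card V = q ^ 4 := by
    rw [Module.natCard_eq_pow_finrank (K := F), Nat.card_eq_fintype_card, hV]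
  have hne : Nat.card {v : V // v ≠ 0} = q ^ 4 - 1 := by
    have hd := card_diff (⊤ : Submodule F V) ⊥ bot_le
    have hbot : Nat.card (⊥ : Submodule F V) = 1 := by
      rw [card_submodule, finrank_bot, pow_zero]
    have htop : Nat.card (⊤ : Submodule F V) = q ^ 4 := by
      rw [card_submodule, finrank_top, hV]
    rw [hbot, htop] at hd
    have e : Nat.card {v : V // v ≠ 0} = Nat.card {w : V // w ∈ (⊤ : Submodule F V) ∧ w ∉ (⊥ : Submodule F V)} := by
      apply Nat.card_congr
      exact Equiv.subtypeEquivRight (fun v => by simp)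
    rw [e]; omega
  rw [h1, hne] at h2
  have hpos : 0 < q ^ 2 - 1 := by
    have : 1 < q ^ 2 := by nlinarith
    omega
  have e1 : (q ^ 4 - 1) * (q + 1) = ((q + 1) * (q ^ 2 + 1)) * (q ^ 2 - 1) := by
    have h1 : 1 ≤ q ^ 2 := by nlinarith
    have h2 : 1 ≤ q ^ 4 := Nat.one_le_pow _ _ (by omega)
    zify [h1, h2]
    ring
  rw [e1] at h2
  exact (Nat.eq_of_mul_eq_mul_right hpos h2).symm

end General

/-- the symplectic form as a bilinear map -/
def Bf (F : Type*) [Field F] : (Fin 2 ⊕ Fin 2 → F) →ₗ[F] (Fin 2 ⊕ Fin 2 → F) →ₗ[F] F :=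
  LinearMap.mk₂ F (Cfsg.sympForm 2 F) sympForm_add_left
    (fun c u v => by rw [sympForm_smul_left]; rfl) sympForm_add_right
    (fun c u v => by rw [sympForm_smul_right]; rfl)

theorem Bf_apply {F : Type*} [Field F] (u v : Fin 2 ⊕ Fin 2 → F) :
    Bf F u v = Cfsg.sympForm 2 F u v := rfl

theorem Bf_nondeg {F : Type*} [Field F] (v : Fin 2 ⊕ Fin 2 → F) (hv : v ≠ 0) :
    ∃ w, Bf F v w ≠ 0 := by
  by_contra hcon
  push Not at hcon
  apply hv
  funext k
  rcases k with j | j
  · have h := hcon (Pi.single (Sum.inr j) 1)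
    rw [Bf_apply, sympForm_skew, sympForm_eq] at h
    fin_cases j <;> simpa [Pi.single_apply] using h
  · have h := hcon (Pi.single (Sum.inl j) 1)
    rw [Bf_apply, sympForm_skew, sympForm_eq] at h
    fin_cases j <;> simpa [Pi.single_apply] using h

/-- The symplectic generalised quadrangle over a field with q elements: the number of 2-dimensional subspaces of F^4 on which the symplectic form vanishes is (q + 1)(q² + 1), and every non-zero vector lies in exactly q + 1 of them. -/
theorem result {F : Type*} [Field F] [Fintype F] {q : ℕ} (hF : Fintype.card F = q) : Nat.card {W : Submodule F (Fin 2 ⊕ Fin 2 → F) // Module.finrank F W = 2 ∧ ∀ u ∈ W, ∀ v ∈ W, Cfsg.sympForm 2 F u v = 0} = (q + 1) * (q ^ 2 + 1) ∧ ∀ v : Fin 2 ⊕ Fin 2 → F, v ≠ 0 → Nat.card {W : Submodule F (Fin 2 ⊕ Fin 2 → F) // Module.finrank F W = 2 ∧ v ∈ W ∧ ∀ u ∈ W, ∀ w ∈ W, Cfsg.sympForm 2 F u w = 0} = q + 1 := by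
  subst hF
  have hV : finrank F (Fin 2 ⊕ Fin 2 → F) = 4 := by
    rw [Module.finrank_fintype_fun_eq_card]; rfl
  have halt : ∀ x, Bf F x x = 0 := fun x => sympForm_self x
  constructor
  · exact card_all (Bf F) hV halt Bf_nondeg
  · intro v hv
    exact card_through (Bf F) hV halt Bf_nondeg v hv

end Cfsg.Agent.S0828
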