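import Cfsg.Statements.S0830
import Cfsg.Agent.Lib.Helper14.HermLines
-- import your own Cfsg.Agent.* helpers here

set_option autoImplicit false
open Cfsg

namespace Cfsg.Agent.S0830

/-- The unitary quadrangle of PSU_5(q): with |F| = q², the number of 2-dimensional subspaces of F^5 on which the Hermitian form vanishes is (q³ + 1)(q⁵ + 1). -/
theorem result {F : Type*} [Field F] [Fintype F] {q : ℕ} (hF : Fintype.card F = q ^ 2) : Nat.card {W : Submodule F (Fin 5 → F) // Module.finrank F W = 2 ∧ ∀ u ∈ W, ∀ v ∈ W, Cfsg.hermForm 5 F q u v = 0} = (q ^ 3 + 1) * (q ^ 5 + 1) := by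
  obtain ⟨φ, hφ, hinv⟩ : ∃ φ : F →+* F, (∀ x, φ x = x ^ q) ∧ ∀ x, φ (φ x) = x := by
    obtain ⟨φ, hφ⟩ := Cfsg.Agent.Lib.Helper5.HermCount.exists_ringHom hF
    refine ⟨φ, hφ, fun x => ?_⟩
    rw [hφ, hφ, ← pow_mul, ← sq, ← hF, FiniteField.pow_card]
  have hq := Cfsg.Agent.Lib.Helper5.HermCount.two_le hF
  obtain ⟨iso, a₀, fnz, c₁, c₂, h1, h2, h3, h4, h5, h6⟩ :=
    Cfsg.Agent.Lib.Helper14.HermLines.lines_count hF φ hφ hinv 4
  have hmain := (Cfsg.Agent.Lib.Helper5.HermCount.main hF 5).1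
  show Nat.card {W : Submodule F (Fin (4 + 1) → F) // Module.finrank F W = 2 ∧
    ∀ u ∈ W, ∀ v ∈ W, Cfsg.hermForm (4 + 1) F q u v = 0} = _
  generalize Nat.card {W : Submodule F (Fin (4 + 1) → F) // Module.finrank F W = 2 ∧
    ∀ u ∈ W, ∀ v ∈ W, Cfsg.hermForm (4 + 1) F q u v = 0} = L at h6 ⊢
  have hA : Cfsg.Agent.Lib.Helper5.HermCount.A q (4 + 1) (0 : F) =
      Cfsg.Agent.Lib.Helper5.HermCount.A q 5 (0 : F) := rfl
  rw [hA] at h1 h6
  generalize Cfsg.Agent.Lib.Helper5.HermCount.A q 5 (0 : F) = I0 at h1 h6 hmain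
  zify at h1 h2 h3 h4 h5 h6 hq ⊢
  generalize (q : ℤ) = Q at *
  generalize (I0 : ℤ) = I at *
  generalize (iso : ℤ) = Iso at *
  generalize (a₀ : ℤ) = A0 at *
  generalize (fnz : ℤ) = Fnz at *
  generalize (c₁ : ℤ) = C1 at *
  generalize (c₂ : ℤ) = C2 at *
  generalize (L : ℤ) = Lz at *
  have hQ0 : Q ≠ 0 := by omega
  have hI : I = Q ^ 9 - Q ^ 5 + Q ^ 4 := by
    apply mul_left_cancel₀ hQ0
    rw [hmain]
    ring
  subst hI
  have hIso : Iso = Q ^ 9 - Q ^ 5 + Q ^ 4 - 1 := by linarith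
  subst hIso
  have hA0 : A0 = (Q ^ 9 - Q ^ 5 + Q ^ 4 - 1) * Q ^ 7 := by
    apply mul_right_cancel₀ hQ0
    rw [h2]
    ring
  subst hA0
  have hFnz : Fnz = Q ^ 2 - 1 := by linarith
  subst hFnz
  have hC1 : C1 = Q ^ 4 - 1 := by linear_combination h4
  subst hC1
  have hC2 : C2 = Q ^ 4 - Q ^ 2 := by linear_combination h5
  subst hC2
  have key : Lz * ((Q ^ 4 - 1) * (Q ^ 4 - Q ^ 2)) =
      ((Q ^ 3 + 1) * (Q ^ 5 + 1)) * ((Q ^ 4 - 1) * (Q ^ 4 - Q ^ 2)) := by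
    linear_combination -h6
  have h16 : (16 : ℤ) ≤ Q ^ 4 := by
    calc (16 : ℤ) = 2 ^ 4 := by norm_num
      _ ≤ Q ^ 4 := pow_le_pow_left₀ (by norm_num) hq 4
  have h4' : (4 : ℤ) ≤ Q ^ 2 := by nlinarith
  have hD : (Q ^ 4 - 1) * (Q ^ 4 - Q ^ 2) ≠ 0 := by
    apply mul_ne_zero
    · omega
    · have : Q ^ 4 - Q ^ 2 = Q ^ 2 * (Q ^ 2 - 1) := by ring
      rw [this]
      apply mul_ne_zero
      · omega
      · omega
  exact mul_right_cancel₀ hD key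

end Cfsg.Agent.S0830
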