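import Cfsg.Statements.S0831
import Mathlib
import Cfsg.Agent.S0750

set_option autoImplicit false
open Cfsg

namespace Cfsg.Agent.S0831

open Submodule

section
variable {F : Type*} [Field F]

/-- the plus-type form as a `QuadraticForm` -/
noncomputable def QP (m : ℕ) : QuadraticForm F (Fin m ⊕ Fin m → F) :=
  ∑ i : Fin m, QuadraticMap.proj (Sum.inl i) (Sum.inr i)

theorem QP_apply (m : ℕ) (v : Fin m ⊕ Fin m → F) : QP m v = Cfsg.quadFormPlus m F v := by
  simp [QP, Cfsg.quadFormPlus]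

theorem polar_QP (m : ℕ) (w v : Fin m ⊕ Fin m → F) :
    QuadraticMap.polarBilin (QP m) w v =
      ∑ i : Fin m, (w (Sum.inl i) * v (Sum.inr i) + v (Sum.inl i) * w (Sum.inr i)) := by
  rw [QuadraticMap.polarBilin_apply_apply]
  simp only [QuadraticMap.polar, QP_apply, Cfsg.quadFormPlus, Pi.add_apply]
  rw [← Finset.sum_sub_distrib, ← Finset.sum_sub_distrib]
  apply Finset.sum_congr rfl
  intro i _
  ring

theorem nd_QP (m : ℕ) : (QuadraticMap.polarBilin (QP (F := F) m)).Nondegenerate := by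
  classical
  have key : ∀ w : Fin m ⊕ Fin m → F,
      (∀ v, QuadraticMap.polarBilin (QP m) w v = 0) → w = 0 := by
    intro w hw
    funext j
    rcases j with i | i
    · have h := hw (Pi.single (Sum.inr i) 1)
      rw [polar_QP] at h
      simpa [Pi.single_apply] using h
    · have h := hw (Pi.single (Sum.inl i) 1)
      rw [polar_QP] at h
      simpa [Pi.single_apply] using h
  refine ⟨key, ?_⟩
  intro w hw
  apply key
  intro v
  rw [Cfsg.Agent.S0750.hsymm]
  exact hw v

/-- embedding of the first coordinate block -/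
def Linl (m : ℕ) : (Fin m → F) →ₗ[F] (Fin m ⊕ Fin m → F) where
  toFun a := Sum.elim a (0 : Fin m → F)
  map_add' a b := by
    funext x
    rcases x with i | i <;> simp
  map_smul' c a := by
    funext x
    rcases x with i | i <;> simp

theorem exists_ts (m : ℕ) (U : Submodule F (Fin m ⊕ Fin m → F))
    (hUd : Module.finrank F U ≤ m) (hU : ∀ u ∈ U, QP m u = 0) :
    ∃ W : Submodule F (Fin m ⊕ Fin m → F),
      Module.finrank F W = m ∧ (∀ w ∈ W, QP m w = 0) ∧ U ≤ W := by
  classical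
  have hLinj : Function.Injective (Linl (F := F) m) := by
    intro a b hab
    funext i
    have h1 := congrFun hab (Sum.inl i)
    simpa [Linl] using h1
  have hLQ : ∀ a, QP m (Linl (F := F) m a) = 0 := by
    intro a
    rw [QP_apply, Cfsg.quadFormPlus]
    apply Finset.sum_eq_zero
    intro i _
    simp [Linl]
  obtain ⟨j, hj⟩ : ∃ j : U →ₗ[F] (Fin m → F), Function.Injective j := by
    apply finrank_le_iff_exists_linearMap.1
    rw [Module.finrank_fintype_fun_eq_card, Fintype.card_fin]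
    exact hUd
  obtain ⟨f, hf⟩ := LinearMap.exists_extend ((Linl (F := F) m).comp j)
  have hfU : ∀ u (hu : u ∈ U), f u = Linl m (j ⟨u, hu⟩) := by
    intro u hu
    have h1 := LinearMap.congr_fun hf ⟨u, hu⟩
    simpa using h1
  obtain ⟨g, hgQ, hgf⟩ := Cfsg.Agent.S0750.witt_aux (QP m) (nd_QP m) _ U rfl f
    (fun x hx => by rw [hfU x hx, hLQ, hU x hx])
    (fun x hx h0 => by
      rw [hfU x hx] at h0
      have h1 : j ⟨x, hx⟩ = 0 := hLinj (by rw [h0, map_zero])
      have h2 := hj (h1.trans (map_zero j).symm)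
      exact congrArg Subtype.val h2)
  refine ⟨(LinearMap.range (Linl (F := F) m)).map
    (g.symm : (Fin m ⊕ Fin m → F) →ₗ[F] (Fin m ⊕ Fin m → F)), ?_, ?_, ?_⟩
  · rw [LinearEquiv.finrank_map_eq, LinearMap.finrank_range_of_inj hLinj,
      Module.finrank_fintype_fun_eq_card, Fintype.card_fin]
  · rintro w ⟨y, ⟨a, rfl⟩, rfl⟩
    show QP m (g.symm (Linl m a)) = 0
    rw [← hgQ, LinearEquiv.apply_symm_apply, hLQ]
  · intro u hu
    refine ⟨Linl m (j ⟨u, hu⟩), ⟨_, rfl⟩, ?_⟩
    show g.symm (Linl m (j ⟨u, hu⟩)) = u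
    rw [← hfU u hu, ← hgf u hu, LinearEquiv.symm_apply_apply]

theorem main (m : ℕ) (U : Submodule F (Fin m ⊕ Fin m → F))
    (hUd : Module.finrank F U + 1 = m) (hU0 : ∀ u ∈ U, QP m u = 0) :
    Nat.card {W : Submodule F (Fin m ⊕ Fin m → F) //
      Module.finrank F W = m ∧ (∀ w ∈ W, QP m w = 0) ∧ U ≤ W} = 2 := by
  classical
  obtain ⟨W₁, hW₁d, hW₁Q0, hUW₁⟩ := exists_ts m U (by omega) hU0
  obtain ⟨Q, hQdef⟩ : ∃ Q : QuadraticForm F (Fin m ⊕ Fin m → F), Q = QP m := ⟨_, rfl⟩
  rw [← hQdef]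
  have hU : ∀ u ∈ U, Q u = 0 := by
    rw [hQdef]
    exact hU0
  have hW₁Q : ∀ w ∈ W₁, Q w = 0 := by
    rw [hQdef]
    exact hW₁Q0
  obtain ⟨B, hBdef⟩ : ∃ B : LinearMap.BilinForm F (Fin m ⊕ Fin m → F),
      B = QuadraticMap.polarBilin Q := ⟨_, rfl⟩
  have hnd : B.Nondegenerate := by
    rw [hBdef, hQdef]
    exact nd_QP m
  have hsym : ∀ x y, B x y = B y x := by
    intro x y
    rw [hBdef]
    exact Cfsg.Agent.S0750.hsymm Q x y
  have hrefl : B.IsRefl := fun x y h => by
    rw [hsym]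
    exact h
  have hadd : ∀ x y, Q (x + y) = Q x + Q y + B x y := by
    intro x y
    rw [hBdef]
    exact Cfsg.Agent.S0750.hB Q x y
  have hsm : ∀ (a : F) x, Q (a • x) = a * a * Q x := Cfsg.Agent.S0750.hS Q
  have hBxx : ∀ x, B x x = 2 * Q x := by
    intro x
    rw [hBdef]
    exact Cfsg.Agent.S0750.hBxx Q x
  have hQ3 : ∀ (x p w : Fin m ⊕ Fin m → F) (a b : F), Q (x + a • p + b • w) =
      Q x + a * a * Q p + b * b * Q w + a * B x p + b * B x w + a * b * B p w := by
    rw [hBdef]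
    exact Cfsg.Agent.S0750.Q3 Q
  have hts : ∀ W : Submodule F (Fin m ⊕ Fin m → F), (∀ w ∈ W, Q w = 0) →
      ∀ x ∈ W, ∀ y ∈ W, B x y = 0 := by
    intro W hW x hx y hy
    have h1 := hadd x y
    rw [hW _ (W.add_mem hx hy), hW x hx, hW y hy, zero_add, zero_add] at h1
    exact h1.symm
  obtain ⟨w₁, hw₁W, hw₁U⟩ : ∃ w₁ ∈ W₁, w₁ ∉ U := by
    by_contra hcon
    push Not at hcon
    have hle : W₁ ≤ U := hcon
    have h1 := Submodule.finrank_mono hle
    omega
  have hUw₁ : ∀ u ∈ U, B u w₁ = 0 := fun u hu => hts W₁ hW₁Q u (hUW₁ hu) w₁ hw₁W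
  obtain ⟨x, hxU, hx⟩ : ∃ x, (∀ u ∈ U, B u x = 0) ∧ B w₁ x ≠ 0 := by
    by_contra hcon
    push Not at hcon
    apply hw₁U
    rw [← LinearMap.BilinForm.orthogonal_orthogonal hnd hrefl U]
    rw [LinearMap.BilinForm.mem_orthogonal_iff]
    intro y hy
    rw [LinearMap.BilinForm.mem_orthogonal_iff] at hy
    show B y w₁ = 0
    rw [hsym]
    exact hcon y (fun u hu => hy u hu)
  obtain ⟨x', hx'def⟩ : ∃ x' : Fin m ⊕ Fin m → F, x' = (B w₁ x)⁻¹ • x := ⟨_, rfl⟩
  have hx'U : ∀ u ∈ U, B u x' = 0 := by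
    intro u hu
    rw [hx'def, map_smul, smul_eq_mul, hxU u hu, mul_zero]
  have hx'1 : B w₁ x' = 1 := by
    rw [hx'def, map_smul, smul_eq_mul, inv_mul_cancel₀ hx]
  obtain ⟨w₂, hw₂def⟩ : ∃ w₂ : Fin m ⊕ Fin m → F, w₂ = x' + (-(Q x')) • w₁ := ⟨_, rfl⟩
  have hQw₁ : Q w₁ = 0 := hW₁Q w₁ hw₁W
  have hQw₂ : Q w₂ = 0 := by
    rw [hw₂def, hadd, hsm, hQw₁, map_smul, smul_eq_mul, hsym x' w₁, hx'1]
    ring
  have hB12 : B w₁ w₂ = 1 := by
    rw [hw₂def, map_add, map_smul, smul_eq_mul, hx'1, hBxx, hQw₁]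
    ring
  have hUw₂ : ∀ u ∈ U, B u w₂ = 0 := by
    intro u hu
    rw [hw₂def, map_add, map_smul, smul_eq_mul, hx'U u hu, hUw₁ u hu]
    ring
  have hw₂W₁ : w₂ ∉ W₁ := by
    intro h
    have h1 := hts W₁ hW₁Q w₁ hw₁W w₂ h
    rw [hB12] at h1
    exact one_ne_zero h1
  have hw₂U : w₂ ∉ U := fun h => hw₂W₁ (hUW₁ h)
  obtain ⟨W₂, hW₂def⟩ : ∃ W₂ : Submodule F (Fin m ⊕ Fin m → F),
      W₂ = U ⊔ Submodule.span F {w₂} := ⟨_, rfl⟩
  have hUW₂ : U ≤ W₂ := by
    rw [hW₂def]
    exact le_sup_left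
  have hw₂W₂ : w₂ ∈ W₂ := by
    rw [hW₂def]
    exact Submodule.mem_sup_right (Submodule.mem_span_singleton_self _)
  have hsupQ : ∀ w, Q w = 0 → (∀ u ∈ U, B u w = 0) →
      ∀ v ∈ U ⊔ Submodule.span F {w}, Q v = 0 := by
    intro w hw hUw v hv
    rw [Submodule.mem_sup] at hv
    obtain ⟨u, hu, z, hz, rfl⟩ := hv
    rw [Submodule.mem_span_singleton] at hz
    obtain ⟨a, rfl⟩ := hz
    rw [hadd, hsm, hU u hu, hw, map_smul, smul_eq_mul, hUw u hu]
    ring
  have hsupd : ∀ (P : Submodule F (Fin m ⊕ Fin m → F)) w, w ∉ P →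
      Module.finrank F ↥(P ⊔ Submodule.span F {w}) = Module.finrank F P + 1 := by
    intro P w hw
    have h1 := Submodule.finrank_sup_add_finrank_inf_eq P (Submodule.span F {w})
    have h2 : P ⊓ Submodule.span F {w} = ⊥ := by
      rw [eq_bot_iff]
      intro z hz
      obtain ⟨hz1, hz2⟩ := Submodule.mem_inf.1 hz
      rw [Submodule.mem_span_singleton] at hz2
      obtain ⟨a, rfl⟩ := hz2
      by_cases ha : a = 0
      · rw [ha, zero_smul]
        exact Submodule.zero_mem _
      · exfalso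
        apply hw
        have h3 := P.smul_mem a⁻¹ hz1
        rwa [smul_smul, inv_mul_cancel₀ ha, one_smul] at h3
    have hw0 : w ≠ 0 := fun h => hw (h ▸ P.zero_mem)
    rw [h2, finrank_bot, finrank_span_singleton hw0] at h1
    omega
  have hW₂d : Module.finrank F W₂ = m := by
    rw [hW₂def, hsupd U w₂ hw₂U]
    exact hUd
  have hW₂Q : ∀ w ∈ W₂, Q w = 0 := by
    rw [hW₂def]
    exact hsupQ w₂ hQw₂ hUw₂
  have hne : W₁ ≠ W₂ := fun h => hw₂W₁ (h ▸ hw₂W₂)
  have hW₁eq : W₁ = U ⊔ Submodule.span F {w₁} := by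
    symm
    apply Submodule.eq_of_le_of_finrank_eq
    · exact sup_le hUW₁ ((Submodule.span_singleton_le_iff_mem _ _).2 hw₁W)
    · rw [hsupd U w₁ hw₁U, hW₁d]
      exact hUd
  obtain ⟨M, hM⟩ : ∃ M : Submodule F (Fin m ⊕ Fin m → F),
      M = W₁ ⊔ Submodule.span F {w₂} := ⟨_, rfl⟩
  have hMd : Module.finrank F M = m + 1 := by
    rw [hM, hsupd W₁ w₂ hw₂W₁, hW₁d]
  have hUM : U ≤ B.orthogonal M := by
    intro u hu
    rw [LinearMap.BilinForm.mem_orthogonal_iff]
    intro y hy
    show B y u = 0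
    rw [hM, Submodule.mem_sup] at hy
    obtain ⟨y1, hy1, z, hz, rfl⟩ := hy
    rw [Submodule.mem_span_singleton] at hz
    obtain ⟨c, rfl⟩ := hz
    rw [map_add, LinearMap.add_apply, map_smul, LinearMap.smul_apply, hsym y1 u, hsym w₂ u,
      hts W₁ hW₁Q u (hUW₁ hu) y1 hy1, hUw₂ u hu, smul_zero, add_zero]
  have hMo := LinearMap.BilinForm.finrank_orthogonal hnd M
  have hVd : Module.finrank F (Fin m ⊕ Fin m → F) = m + m := by
    rw [Module.finrank_fintype_fun_eq_card, Fintype.card_sum, Fintype.card_fin]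
  have hUeq : U = B.orthogonal M :=
    Submodule.eq_of_le_of_finrank_eq hUM (by rw [hMo, hVd, hMd]; omega)
  have hclass : ∀ W : Submodule F (Fin m ⊕ Fin m → F), Module.finrank F W = m →
      (∀ w ∈ W, Q w = 0) → U ≤ W → W = W₁ ∨ W = W₂ := by
    intro W hWd hWQ hUW
    obtain ⟨w, hwW, hwU⟩ : ∃ w ∈ W, w ∉ U := by
      by_contra hcon
      push Not at hcon
      have hle : W ≤ U := hcon
      have h1 := Submodule.finrank_mono hle
      omega
    have hWeq : W = U ⊔ Submodule.span F {w} := by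
      symm
      apply Submodule.eq_of_le_of_finrank_eq
      · exact sup_le hUW ((Submodule.span_singleton_le_iff_mem _ _).2 hwW)
      · rw [hsupd U w hwU, hWd]
        exact hUd
    have hUw : ∀ u ∈ U, B u w = 0 := fun u hu => hts W hWQ u (hUW hu) w hwW
    obtain ⟨a, ha⟩ : ∃ a : F, a = B w w₂ := ⟨_, rfl⟩
    obtain ⟨b, hb⟩ : ∃ b : F, b = B w w₁ := ⟨_, rfl⟩
    obtain ⟨w', hw'⟩ : ∃ w' : Fin m ⊕ Fin m → F, w' = w - a • w₁ - b • w₂ := ⟨_, rfl⟩
    have hw'1 : B w' w₁ = 0 := by
      rw [hw', map_sub, map_sub, LinearMap.sub_apply, LinearMap.sub_apply, map_smul, map_smul,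
        LinearMap.smul_apply, LinearMap.smul_apply, smul_eq_mul, smul_eq_mul, hBxx, hQw₁,
        hsym w₂ w₁, hB12, ← hb]
      ring
    have hw'2 : B w' w₂ = 0 := by
      rw [hw', map_sub, map_sub, LinearMap.sub_apply, LinearMap.sub_apply, map_smul, map_smul,
        LinearMap.smul_apply, LinearMap.smul_apply, smul_eq_mul, smul_eq_mul, hBxx, hQw₂,
        hB12, ← ha]
      ring
    have hw'U : ∀ u ∈ U, B u w' = 0 := by
      intro u hu
      rw [hw', map_sub, map_sub, map_smul, map_smul, hUw u hu, hUw₁ u hu, hUw₂ u hu, smul_zero,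
        smul_zero, sub_zero, sub_zero]
    have hw'mem : w' ∈ U := by
      rw [hUeq, LinearMap.BilinForm.mem_orthogonal_iff]
      intro y hy
      show B y w' = 0
      rw [hM, Submodule.mem_sup] at hy
      obtain ⟨y1, hy1, z, hz, rfl⟩ := hy
      rw [Submodule.mem_span_singleton] at hz
      obtain ⟨c, rfl⟩ := hz
      rw [hW₁eq, Submodule.mem_sup] at hy1
      obtain ⟨u, hu, z1, hz1, rfl⟩ := hy1
      rw [Submodule.mem_span_singleton] at hz1
      obtain ⟨c1, rfl⟩ := hz1
      rw [map_add, map_add, LinearMap.add_apply, LinearMap.add_apply, map_smul, map_smul,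
        LinearMap.smul_apply, LinearMap.smul_apply, hw'U u hu, hsym w₁ w', hsym w₂ w', hw'1,
        hw'2, smul_zero, smul_zero, add_zero, add_zero]
    have hwdec : w = w' + a • w₁ + b • w₂ := by
      rw [hw']
      abel
    have hab : a * b = 0 := by
      have h1 := hQ3 w' w₁ w₂ a b
      rw [← hwdec, hWQ w hwW, hU w' hw'mem, hQw₁, hQw₂, hw'1, hw'2, hB12] at h1
      rw [h1]
      ring
    rcases mul_eq_zero.1 hab with ha0 | hb0
    · right
      have hwW₂ : w ∈ W₂ := by
        rw [hwdec, ha0, zero_smul, add_zero]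
        exact W₂.add_mem (hUW₂ hw'mem) (W₂.smul_mem b hw₂W₂)
      apply Submodule.eq_of_le_of_finrank_eq
      · rw [hWeq]
        exact sup_le hUW₂ ((Submodule.span_singleton_le_iff_mem _ _).2 hwW₂)
      · rw [hWd, hW₂d]
    · left
      have hwW₁ : w ∈ W₁ := by
        rw [hwdec, hb0, zero_smul, add_zero]
        exact W₁.add_mem (hUW₁ hw'mem) (W₁.smul_mem a hw₁W)
      apply Submodule.eq_of_le_of_finrank_eq
      · rw [hWeq]
        exact sup_le hUW₁ ((Submodule.span_singleton_le_iff_mem _ _).2 hwW₁)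
      · rw [hWd, hW₁d]
  rw [Nat.card_eq_two_iff]
  refine ⟨⟨W₁, hW₁d, hW₁Q, hUW₁⟩, ⟨W₂, hW₂d, hW₂Q, hUW₂⟩, ?_, ?_⟩
  · intro h
    exact hne (congrArg Subtype.val h)
  · ext ⟨W, hWd, hWQ, hUW⟩
    simp only [Set.mem_insert_iff, Set.mem_singleton_iff, Set.mem_univ, iff_true,
      Subtype.mk.injEq]
    exact hclass W hWd hWQ hUW


variable {m : ℕ}

/-- maximal totally singular subspaces -/
def TS (m : ℕ) (W : Submodule F (Fin m ⊕ Fin m → F)) : Prop :=
  Module.finrank F W = m ∧ ∀ w ∈ W, QP m w = 0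

/-- the polar form -/
noncomputable def BP (m : ℕ) : LinearMap.BilinForm F (Fin m ⊕ Fin m → F) :=
  QuadraticMap.polarBilin (QP m)

theorem BP_symm (x y : Fin m ⊕ Fin m → F) : BP m x y = BP m y x := by
  unfold BP
  exact Cfsg.Agent.S0750.hsymm (QP m) x y

theorem BP_nd : (BP (F := F) m).Nondegenerate := by
  unfold BP
  exact nd_QP m

theorem BP_refl : (BP (F := F) m).IsRefl := fun x y h => by
  rw [BP_symm]
  exact h

theorem Q_add (x y : Fin m ⊕ Fin m → F) : QP m (x + y) = QP m x + QP m y + BP m x y := by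
  unfold BP
  exact Cfsg.Agent.S0750.hB (QP m) x y

theorem Q_smul (a : F) (x : Fin m ⊕ Fin m → F) : QP m (a • x) = a * a * QP m x :=
  Cfsg.Agent.S0750.hS (QP m) a x

theorem ts_B (W : Submodule F (Fin m ⊕ Fin m → F)) (hW : ∀ w ∈ W, QP m w = 0)
    (x : Fin m ⊕ Fin m → F) (hx : x ∈ W) (y : Fin m ⊕ Fin m → F) (hy : y ∈ W) :
    BP m x y = 0 := by
  have h1 := Q_add x y
  rw [hW _ (W.add_mem hx hy), hW x hx, hW y hy, zero_add, zero_add] at h1
  exact h1.symm

theorem finrank_V : Module.finrank F (Fin m ⊕ Fin m → F) = m + m := by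
  rw [Module.finrank_fintype_fun_eq_card, Fintype.card_sum, Fintype.card_fin]

theorem mem_orth (P : Submodule F (Fin m ⊕ Fin m → F)) (x : Fin m ⊕ Fin m → F) :
    x ∈ (BP m).orthogonal P ↔ ∀ n ∈ P, BP m n x = 0 :=
  LinearMap.BilinForm.mem_orthogonal_iff

theorem perp_self (W : Submodule F (Fin m ⊕ Fin m → F)) (hW : TS m W) :
    (BP m).orthogonal W = W := by
  symm
  apply Submodule.eq_of_le_of_finrank_eq
  · intro x hx
    rw [mem_orth]
    intro n hn
    exact ts_B W hW.2 n hn x hx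
  · rw [LinearMap.BilinForm.finrank_orthogonal BP_nd W, finrank_V, hW.1]
    omega

theorem finrank_sup_span (P : Submodule F (Fin m ⊕ Fin m → F)) (w : Fin m ⊕ Fin m → F)
    (hw : w ∉ P) :
    Module.finrank F ↥(P ⊔ Submodule.span F {w}) = Module.finrank F P + 1 := by
  have h1 := Submodule.finrank_sup_add_finrank_inf_eq P (Submodule.span F {w})
  have h2 : P ⊓ Submodule.span F {w} = ⊥ := by
    rw [eq_bot_iff]
    intro z hz
    obtain ⟨hz1, hz2⟩ := Submodule.mem_inf.1 hz
    rw [Submodule.mem_span_singleton] at hz2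
    obtain ⟨a, rfl⟩ := hz2
    by_cases ha : a = 0
    · rw [ha, zero_smul]
      exact Submodule.zero_mem _
    · exfalso
      apply hw
      have h3 := P.smul_mem a⁻¹ hz1
      rwa [smul_smul, inv_mul_cancel₀ ha, one_smul] at h3
  have hw0 : w ≠ 0 := fun h => hw (h ▸ P.zero_mem)
  rw [h2, finrank_bot, finrank_span_singleton hw0] at h1
  omega

theorem Q_sup_span (P : Submodule F (Fin m ⊕ Fin m → F)) (hP : ∀ u ∈ P, QP m u = 0)
    (w : Fin m ⊕ Fin m → F) (hw : QP m w = 0) (hPw : ∀ u ∈ P, BP m u w = 0) :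
    ∀ v ∈ P ⊔ Submodule.span F {w}, QP m v = 0 := by
  intro v hv
  rw [Submodule.mem_sup] at hv
  obtain ⟨u, hu, z, hz, rfl⟩ := hv
  rw [Submodule.mem_span_singleton] at hz
  obtain ⟨a, rfl⟩ := hz
  rw [Q_add, Q_smul, hP u hu, hw, map_smul, smul_eq_mul, hPw u hu]
  ring

theorem at_most_two (H U X W : Submodule F (Fin m ⊕ Fin m → F))
    (hHd : Module.finrank F H + 1 = m) (hH : ∀ u ∈ H, QP m u = 0)
    (hU : TS m U) (hX : TS m X) (hW : TS m W) (hHU : H ≤ U) (hHX : H ≤ X) (hHW : H ≤ W)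
    (hne : U ≠ X) : W = U ∨ W = X := by
  have h := main m H hHd hH
  rw [Nat.card_eq_two_iff] at h
  obtain ⟨A, B, hAB, huniv⟩ := h
  have key : ∀ Y : {W : Submodule F (Fin m ⊕ Fin m → F) //
      Module.finrank F W = m ∧ (∀ w ∈ W, QP m w = 0) ∧ H ≤ W}, Y = A ∨ Y = B := by
    intro Y
    have h1 : Y ∈ ({A, B} : Set _) := by
      rw [huniv]
      exact Set.mem_univ _
    simpa using h1
  have hU' := key ⟨U, hU.1, hU.2, hHU⟩
  have hX' := key ⟨X, hX.1, hX.2, hHX⟩
  have hW' := key ⟨W, hW.1, hW.2, hHW⟩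
  rcases hU' with h1 | h1 <;> rcases hX' with h2 | h2 <;> rcases hW' with h3 | h3
  · exact absurd (congrArg Subtype.val (h1.trans h2.symm)) hne
  · exact absurd (congrArg Subtype.val (h1.trans h2.symm)) hne
  · left
    exact congrArg Subtype.val (h3.trans h1.symm)
  · right
    exact congrArg Subtype.val (h3.trans h2.symm)
  · right
    exact congrArg Subtype.val (h3.trans h2.symm)
  · left
    exact congrArg Subtype.val (h3.trans h1.symm)
  · exact absurd (congrArg Subtype.val (h1.trans h2.symm)) hne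
  · exact absurd (congrArg Subtype.val (h1.trans h2.symm)) hne

theorem inf_orth_eq (W H : Submodule F (Fin m ⊕ Fin m → F)) (hW : TS m W) :
    W ⊓ (BP m).orthogonal H = (BP m).orthogonal (W ⊔ H) := by
  ext x
  rw [Submodule.mem_inf, mem_orth, mem_orth]
  constructor
  · rintro ⟨hxW, hxH⟩ n hn
    rw [Submodule.mem_sup] at hn
    obtain ⟨w, hw, h, hh, rfl⟩ := hn
    rw [map_add, LinearMap.add_apply, ts_B W hW.2 w hw x hxW, hxH h hh, add_zero]
  · intro hx
    constructor
    · rw [← perp_self W hW, mem_orth]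
      intro n hn
      exact hx n (Submodule.mem_sup_left hn)
    · intro n hn
      exact hx n (Submodule.mem_sup_right hn)

/-- dimension formula -/
theorem dim_formula (W H : Submodule F (Fin m ⊕ Fin m → F)) (hW : TS m W) :
    Module.finrank F ↥(W ⊓ (BP m).orthogonal H) + Module.finrank F H =
      m + Module.finrank F ↥(W ⊓ H) := by
  rw [inf_orth_eq W H hW, LinearMap.BilinForm.finrank_orthogonal BP_nd (W ⊔ H), finrank_V]
  have h1 := Submodule.finrank_sup_add_finrank_inf_eq W H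
  have h2 : Module.finrank F ↥(W ⊔ H) ≤ m + m := by
    rw [← finrank_V (F := F) (m := m)]
    exact Submodule.finrank_le _
  rw [hW.1] at h1
  omega

theorem ts_constr (W H : Submodule F (Fin m ⊕ Fin m → F)) (hW : TS m W)
    (hH : ∀ u ∈ H, QP m u = 0) : TS m ((W ⊓ (BP m).orthogonal H) ⊔ H) := by
  constructor
  · have h1 := Submodule.finrank_sup_add_finrank_inf_eq (W ⊓ (BP m).orthogonal H) H
    have h2 : (W ⊓ (BP m).orthogonal H) ⊓ H = W ⊓ H := by
      apply le_antisymm
      · exact inf_le_inf_right H inf_le_left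
      · refine le_inf (le_inf inf_le_left ?_) inf_le_right
        intro x hx
        rw [mem_orth]
        intro n hn
        exact ts_B H hH n hn x (Submodule.mem_inf.1 hx).2
    rw [h2] at h1
    have h3 := dim_formula W H hW
    omega
  · intro v hv
    rw [Submodule.mem_sup] at hv
    obtain ⟨w, hw, h, hh, rfl⟩ := hv
    obtain ⟨hw1, hw2⟩ := Submodule.mem_inf.1 hw
    rw [mem_orth] at hw2
    rw [Q_add, hW.2 w hw1, hH h hh, BP_symm, hw2 h hh]
    ring

theorem adj_aux (U X W : Submodule F (Fin m ⊕ Fin m → F)) (hU : TS m U) (hX : TS m X)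
    (hW : TS m W) (hd : Module.finrank F ↥(U ⊓ X) + 1 = m)
    (heq : (W ⊓ (BP m).orthogonal (U ⊓ X)) ⊔ (U ⊓ X) = U) :
    Module.finrank F ↥(W ⊓ U) = Module.finrank F ↥(W ⊓ X) + 1 := by
  have h1 : W ⊓ U = W ⊓ (BP m).orthogonal (U ⊓ X) := by
    apply le_antisymm
    · refine le_inf inf_le_left ?_
      intro x hx
      rw [mem_orth]
      intro n hn
      exact ts_B U hU.2 n (Submodule.mem_inf.1 hn).1 x (Submodule.mem_inf.1 hx).2
    · refine le_inf inf_le_left ?_
      intro x hx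
      rw [← heq]
      exact Submodule.mem_sup_left hx
  have h2 : W ⊓ X = W ⊓ (U ⊓ X) := by
    apply le_antisymm
    · refine le_inf inf_le_left (le_inf ?_ inf_le_right)
      intro x hx
      have hx1 : x ∈ W ⊓ (BP m).orthogonal (U ⊓ X) := by
        refine Submodule.mem_inf.2 ⟨(Submodule.mem_inf.1 hx).1, ?_⟩
        rw [mem_orth]
        intro n hn
        exact ts_B X hX.2 n (Submodule.mem_inf.1 hn).2 x (Submodule.mem_inf.1 hx).2
      rw [← heq]
      exact Submodule.mem_sup_left hx1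
    · exact inf_le_inf_left W inf_le_right
  rw [h1, h2]
  have h3 := dim_formula W (U ⊓ X) hW
  omega

/-- adjacency lemma -/
theorem adj (U X W : Submodule F (Fin m ⊕ Fin m → F)) (hU : TS m U) (hX : TS m X)
    (hW : TS m W) (hd : Module.finrank F ↥(U ⊓ X) + 1 = m) :
    Module.finrank F ↥(W ⊓ U) = Module.finrank F ↥(W ⊓ X) + 1 ∨
      Module.finrank F ↥(W ⊓ X) = Module.finrank F ↥(W ⊓ U) + 1 := by
  have hH : ∀ u ∈ U ⊓ X, QP m u = 0 := fun u hu => hU.2 u (Submodule.mem_inf.1 hu).1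
  have hne : U ≠ X := by
    intro h
    rw [← h, inf_idem, hU.1] at hd
    omega
  have hW' := ts_constr W (U ⊓ X) hW hH
  rcases at_most_two (U ⊓ X) U X _ hd hH hU hX hW' inf_le_left inf_le_right le_sup_right hne
    with h | h
  · left
    exact adj_aux U X W hU hX hW hd h
  · right
    have hd' : Module.finrank F ↥(X ⊓ U) + 1 = m := by
      rw [inf_comm]
      exact hd
    have h' : (W ⊓ (BP m).orthogonal (X ⊓ U)) ⊔ (X ⊓ U) = X := by
      rw [inf_comm X U]
      exact h
    exact adj_aux X U W hX hU hW hd' h'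

/-- neighbour construction -/
theorem neighbour (U : Submodule F (Fin m ⊕ Fin m → F)) (hU : TS m U)
    (x : Fin m ⊕ Fin m → F) (hx : QP m x = 0) (hxU : x ∉ U) :
    TS m ((U ⊓ (BP m).orthogonal (Submodule.span F {x})) ⊔ Submodule.span F {x}) ∧
      Module.finrank F ↥(U ⊓ ((U ⊓ (BP m).orthogonal (Submodule.span F {x})) ⊔
        Submodule.span F {x})) + 1 = m := by
  obtain ⟨H, hHdef⟩ : ∃ H : Submodule F (Fin m ⊕ Fin m → F),
      H = U ⊓ (BP m).orthogonal (Submodule.span F {x}) := ⟨_, rfl⟩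
  rw [← hHdef]
  have hx0 : x ≠ 0 := fun h => hxU (h ▸ U.zero_mem)
  have hHU : H ≤ U := by
    rw [hHdef]
    exact inf_le_left
  have hHx : ∀ u ∈ H, BP m u x = 0 := by
    intro u hu
    rw [hHdef] at hu
    have h1 := (Submodule.mem_inf.1 hu).2
    rw [mem_orth] at h1
    rw [BP_symm]
    exact h1 x (Submodule.mem_span_singleton_self x)
  have hHne : H ≠ U := by
    intro h
    apply hxU
    rw [← perp_self U hU, mem_orth]
    intro n hn
    rw [← h] at hn
    exact hHx n hn
  have hHd : Module.finrank F H + 1 = m := by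
    have h1 := Submodule.finrank_sup_add_finrank_inf_eq U
      ((BP m).orthogonal (Submodule.span F {x}))
    rw [← hHdef, LinearMap.BilinForm.finrank_orthogonal BP_nd, finrank_V,
      finrank_span_singleton hx0, hU.1] at h1
    have h2 : Module.finrank F ↥(U ⊔ (BP m).orthogonal (Submodule.span F {x})) ≤ m + m := by
      rw [← finrank_V (F := F) (m := m)]
      exact Submodule.finrank_le _
    have h3 := Submodule.finrank_mono hHU
    rw [hU.1] at h3
    have h4 : Module.finrank F H ≠ m := by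
      intro h
      exact hHne (Submodule.eq_of_le_of_finrank_eq hHU (by rw [h, hU.1]))
    omega
  have hxH : x ∉ H := fun h => hxU (hHU h)
  have hTS : TS m (H ⊔ Submodule.span F {x}) := by
    constructor
    · rw [finrank_sup_span H x hxH]
      exact hHd
    · exact Q_sup_span H (fun u hu => hU.2 u (hHU hu)) x hx hHx
  refine ⟨hTS, ?_⟩
  have h1 : H ≤ U ⊓ (H ⊔ Submodule.span F {x}) := le_inf hHU le_sup_left
  have h2 := Submodule.finrank_mono h1
  have h3 : Module.finrank F ↥(U ⊓ (H ⊔ Submodule.span F {x})) ≤ m := by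
    have h4 := Submodule.finrank_mono (inf_le_left : U ⊓ (H ⊔ Submodule.span F {x}) ≤ U)
    rw [hU.1] at h4
    exact h4
  have h4 : Module.finrank F ↥(U ⊓ (H ⊔ Submodule.span F {x})) ≠ m := by
    intro h
    have h5 : U ⊓ (H ⊔ Submodule.span F {x}) = H ⊔ Submodule.span F {x} :=
      Submodule.eq_of_le_of_finrank_eq inf_le_right (by rw [h, hTS.1])
    apply hxU
    have h6 : x ∈ U ⊓ (H ⊔ Submodule.span F {x}) := by
      rw [h5]
      exact Submodule.mem_sup_right (Submodule.mem_span_singleton_self x)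
    exact (Submodule.mem_inf.1 h6).1
  omega

theorem parity : ∀ (d : ℕ) (U X W : Submodule F (Fin m ⊕ Fin m → F)), TS m U → TS m X →
    TS m W → m - Module.finrank F ↥(U ⊓ X) = d →
    Even ((m - Module.finrank F ↥(U ⊓ W)) + (m - Module.finrank F ↥(W ⊓ X)) +
      (m - Module.finrank F ↥(U ⊓ X))) := by
  intro d
  induction d with
  | zero =>
    intro U X W hU hX hW hd
    have h1 : Module.finrank F ↥(U ⊓ X) ≤ m := by
      have h2 := Submodule.finrank_mono (inf_le_left : U ⊓ X ≤ U)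
      rw [hU.1] at h2
      exact h2
    have h2 : Module.finrank F ↥(U ⊓ X) = m := by omega
    have h3 : U ⊓ X = U := Submodule.eq_of_le_of_finrank_eq inf_le_left (by rw [h2, hU.1])
    have h4 : U ⊓ X = X := Submodule.eq_of_le_of_finrank_eq inf_le_right (by rw [h2, hX.1])
    have h5 : U = X := h3.symm.trans h4
    subst h5
    rw [inf_idem, inf_comm W U, hU.1]
    rw [Nat.even_iff]
    omega
  | succ d ih =>
    intro U X W hU hX hW hd
    obtain ⟨x, hxX, hxU⟩ : ∃ x ∈ X, x ∉ U := by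
      by_contra hcon
      push Not at hcon
      have hle : X ≤ U := hcon
      have h1 : X = U := Submodule.eq_of_le_of_finrank_eq hle (by rw [hU.1, hX.1])
      rw [h1, inf_idem, hU.1] at hd
      omega
    obtain ⟨hU', hUU'⟩ := neighbour U hU x (hX.2 x hxX) hxU
    obtain ⟨U', hU'def⟩ : ∃ U' : Submodule F (Fin m ⊕ Fin m → F),
        U' = (U ⊓ (BP m).orthogonal (Submodule.span F {x})) ⊔ Submodule.span F {x} := ⟨_, rfl⟩
    rw [← hU'def] at hU' hUU'
    have hxU' : x ∈ U' := by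
      rw [hU'def]
      exact Submodule.mem_sup_right (Submodule.mem_span_singleton_self x)
    have hge : Module.finrank F ↥(U ⊓ X) + 1 ≤ Module.finrank F ↥(U' ⊓ X) := by
      have hxn : x ∉ U ⊓ X := fun h => hxU (Submodule.mem_inf.1 h).1
      rw [← finrank_sup_span (U ⊓ X) x hxn]
      apply Submodule.finrank_mono
      apply sup_le
      · refine le_inf ?_ inf_le_right
        intro y hy
        rw [hU'def]
        apply Submodule.mem_sup_left
        refine Submodule.mem_inf.2 ⟨(Submodule.mem_inf.1 hy).1, ?_⟩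
        rw [mem_orth]
        intro n hn
        rw [Submodule.mem_span_singleton] at hn
        obtain ⟨c, rfl⟩ := hn
        rw [map_smul, LinearMap.smul_apply, ts_B X hX.2 x hxX y (Submodule.mem_inf.1 hy).2,
          smul_zero]
      · rw [Submodule.span_singleton_le_iff_mem]
        exact Submodule.mem_inf.2 ⟨hxU', hxX⟩
    have hA1 := adj U U' X hU hU' hX hUU'
    have hA2 := adj U U' W hU hU' hW hUU'
    rw [inf_comm X U, inf_comm X U'] at hA1
    rw [inf_comm W U, inf_comm W U'] at hA2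
    have hc' : Module.finrank F ↥(U' ⊓ X) = Module.finrank F ↥(U ⊓ X) + 1 := by omega
    have b1 : Module.finrank F ↥(U ⊓ X) ≤ m := by
      have h2 := Submodule.finrank_mono (inf_le_left : U ⊓ X ≤ U)
      rw [hU.1] at h2
      exact h2
    have b2 : Module.finrank F ↥(U' ⊓ X) ≤ m := by
      have h2 := Submodule.finrank_mono (inf_le_left : U' ⊓ X ≤ U')
      rw [hU'.1] at h2
      exact h2
    have b3 : Module.finrank F ↥(U ⊓ W) ≤ m := by
      have h2 := Submodule.finrank_mono (inf_le_left : U ⊓ W ≤ U)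
      rw [hU.1] at h2
      exact h2
    have b4 : Module.finrank F ↥(U' ⊓ W) ≤ m := by
      have h2 := Submodule.finrank_mono (inf_le_left : U' ⊓ W ≤ U')
      rw [hU'.1] at h2
      exact h2
    have b5 : Module.finrank F ↥(W ⊓ X) ≤ m := by
      have h2 := Submodule.finrank_mono (inf_le_left : W ⊓ X ≤ W)
      rw [hW.1] at h2
      exact h2
    have hih := ih U' X W hU' hX hW (by omega)
    rw [Nat.even_iff] at hih ⊢
    omega

end

/-- The two families of maximal totally singular subspaces of the hyperbolic quadric: for the form Σ x_i y_i on F^(2m), m ≥ 1, and m-dimensional subspaces U, W, X on which it vanishes, the parities of m − dim(U ∩ W), m − dim(W ∩ X) and m − dim(U ∩ X) sum to an even number (so 'even codimension of the intersection' is an equivalence relation), and there exist two such subspaces meeting in codimension 1 (so there are exactly two classes). -/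
theorem result {F : Type*} [Field F] (m : ℕ) (hm : 1 ≤ m) : (∀ U W X : Submodule F (Fin m ⊕ Fin m → F), (Module.finrank F U = m ∧ ∀ w ∈ U, Cfsg.quadFormPlus m F w = 0) → (Module.finrank F W = m ∧ ∀ w ∈ W, Cfsg.quadFormPlus m F w = 0) → (Module.finrank F X = m ∧ ∀ w ∈ X, Cfsg.quadFormPlus m F w = 0) → Even ((m - Module.finrank F ↥(U ⊓ W)) + (m - Module.finrank F ↥(W ⊓ X)) + (m - Module.finrank F ↥(U ⊓ X)))) ∧ ∃ U W : Submodule F (Fin m ⊕ Fin m → F), (Module.finrank F U = m ∧ ∀ w ∈ U, Cfsg.quadFormPlus m F w = 0) ∧ (Module.finrank F W = m ∧ ∀ w ∈ W, Cfsg.quadFormPlus m F w = 0) ∧ Module.finrank F ↥(U ⊓ W) + 1 = m := by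
  classical
  constructor
  · intro U W X hU hW hX
    have hU' : TS m U := ⟨hU.1, fun w hw => by rw [QP_apply]; exact hU.2 w hw⟩
    have hW' : TS m W := ⟨hW.1, fun w hw => by rw [QP_apply]; exact hW.2 w hw⟩
    have hX' : TS m X := ⟨hX.1, fun w hw => by rw [QP_apply]; exact hX.2 w hw⟩
    exact parity _ U X W hU' hX' hW' rfl
  · have hLinj : Function.Injective (Linl (F := F) m) := by
      intro a b hab
      funext i
      have h1 := congrFun hab (Sum.inl i)
      simpa [Linl] using h1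
    have hLQ : ∀ a, QP m (Linl (F := F) m a) = 0 := by
      intro a
      rw [QP_apply, Cfsg.quadFormPlus]
      apply Finset.sum_eq_zero
      intro i _
      simp [Linl]
    have hU : TS m (LinearMap.range (Linl (F := F) m)) := by
      constructor
      · rw [LinearMap.finrank_range_of_inj hLinj, Module.finrank_fintype_fun_eq_card,
          Fintype.card_fin]
      · rintro w ⟨a, rfl⟩
        exact hLQ a
    obtain ⟨x, hxdef⟩ : ∃ x : Fin m ⊕ Fin m → F,
        x = Pi.single (Sum.inr (⟨0, hm⟩ : Fin m)) (1 : F) := ⟨_, rfl⟩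
    have hxQ : QP m x = 0 := by
      rw [QP_apply, Cfsg.quadFormPlus]
      apply Finset.sum_eq_zero
      intro i _
      rw [hxdef, Pi.single_eq_of_ne (by simp), zero_mul]
    have hxU : x ∉ LinearMap.range (Linl (F := F) m) := by
      rintro ⟨a, ha⟩
      have h1 := congrFun ha (Sum.inr (⟨0, hm⟩ : Fin m))
      rw [hxdef, Pi.single_eq_same] at h1
      simp [Linl] at h1
    obtain ⟨h1, h2⟩ := neighbour _ hU x hxQ hxU
    refine ⟨_, _, ⟨hU.1, fun w hw => by rw [← QP_apply]; exact hU.2 w hw⟩,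
      ⟨h1.1, fun w hw => by rw [← QP_apply]; exact h1.2 w hw⟩, h2⟩

end Cfsg.Agent.S0831
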