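import Mathlib
import Cfsg.Statements.S0832
import Cfsg.Agent.Lib.Helper44.QCount

set_option autoImplicit false
open Cfsg

namespace Cfsg.Agent.S0832

open Module

theorem card_eq_mul_of_fiber {α β : Type*} [Finite α] [Finite β] (f : α → β) (k : ℕ)
    (h : ∀ b, Nat.card {a // f a = b} = k) : Nat.card α = Nat.card β * k := by
  classical
  have := Fintype.ofFinite β
  rw [← Nat.card_congr (Equiv.sigmaFiberEquiv f), Nat.card_sigma]
  simp [h, Nat.card_eq_fintype_card]

section General

variable {F : Type*} [Field F] [Fintype F] {V : Type*} [AddCommGroup V] [Module F V]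
  [FiniteDimensional F V]

theorem card_submodule (W : Submodule F V) : Nat.card W = Fintype.card F ^ finrank F W := by
  rw [Module.natCard_eq_pow_finrank (K := F), Nat.card_eq_fintype_card]

omit [Fintype F] [FiniteDimensional F V] in
theorem card_diff [Finite V] (W U : Submodule F V) (h : U ≤ W) :
    Nat.card {w : V // w ∈ W ∧ w ∉ U} + Nat.card U = Nat.card W := by
  have h1 : Nat.card {w : V // w ∈ W ∧ w ∉ U} = ((W : Set V) \ (U : Set V)).ncard := rfl
  have h2 : Nat.card U = (U : Set V).ncard := rfl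
  have h3 : Nat.card W = (W : Set V).ncard := rfl
  rw [h1, h2, h3]
  exact Set.ncard_sdiff_add_ncard_of_subset h

omit [Fintype F] [FiniteDimensional F V] in
/-- the fibres of a non-zero linear functional on a finite space -/
theorem card_fiber_linear [Finite F] [Finite V] (ℓ : V →ₗ[F] F) (hℓ : ℓ ≠ 0) (c : F) :
    Nat.card {u : V // ℓ u = c} * Nat.card F = Nat.card V := by
  obtain ⟨u₀, hu₀⟩ : ∃ u₀, ℓ u₀ ≠ 0 := by
    by_contra h
    push Not at h
    exact hℓ (LinearMap.ext h)
  have hsurj : ∀ d : F, ∃ u, ℓ u = d := fun d =>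
    ⟨(d / ℓ u₀) • u₀, by rw [map_smul, smul_eq_mul, div_mul_cancel₀ _ hu₀]⟩
  have hfib : ∀ d : F, Nat.card {u : V // ℓ u = d} = Nat.card {u : V // ℓ u = c} := by
    intro d
    obtain ⟨t, ht⟩ := hsurj (c - d)
    apply Nat.card_congr
    refine ⟨fun u => ⟨u.1 + t, by rw [map_add, u.2, ht]; ring⟩,
      fun u => ⟨u.1 - t, by rw [map_sub, u.2, ht]; ring⟩, fun u => by simp, fun u => by simp⟩
  have := card_eq_mul_of_fiber (fun u : V => ℓ u) _ hfib
  rw [this, mul_comm]

end General

section Plus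

variable {F : Type*} [Field F] {m : ℕ}

/-- the polar form of `quadFormPlus` -/
def Bp (m : ℕ) (F : Type*) [Field F] : LinearMap.BilinForm F (Fin m ⊕ Fin m → F) :=
  LinearMap.mk₂ F (fun w u => ∑ c : Fin m ⊕ Fin m, w c.swap * u c)
    (fun w w' u => by simp [add_mul, Finset.sum_add_distrib])
    (fun a w u => by
      simp only [Pi.smul_apply, smul_eq_mul, Finset.mul_sum]
      apply Finset.sum_congr rfl
      intro c _
      ring)
    (fun w u u' => by simp [mul_add, Finset.sum_add_distrib])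
    (fun a w u => by
      simp only [Pi.smul_apply, smul_eq_mul, Finset.mul_sum]
      apply Finset.sum_congr rfl
      intro c _
      ring)

theorem Bp_apply (w u : Fin m ⊕ Fin m → F) :
    Bp m F w u = ∑ c : Fin m ⊕ Fin m, w c.swap * u c := rfl

theorem Q_add (w u : Fin m ⊕ Fin m → F) :
    Cfsg.quadFormPlus m F (w + u) =
      Cfsg.quadFormPlus m F w + Cfsg.quadFormPlus m F u + Bp m F w u := by
  simp only [Cfsg.quadFormPlus, Bp_apply, Fintype.sum_sum_type, Sum.swap_inl, Sum.swap_inr,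
    Pi.add_apply, ← Finset.sum_add_distrib]
  apply Finset.sum_congr rfl
  intro i _
  ring

theorem Bp_symm (w u : Fin m ⊕ Fin m → F) : Bp m F w u = Bp m F u w := by
  have h1 := Q_add w u
  have h2 := Q_add u w
  rw [add_comm u w] at h2
  linear_combination h2 - h1

theorem Q_smul (c : F) (w : Fin m ⊕ Fin m → F) :
    Cfsg.quadFormPlus m F (c • w) = c ^ 2 * Cfsg.quadFormPlus m F w := by
  simp only [Cfsg.quadFormPlus, Pi.smul_apply, smul_eq_mul, Finset.mul_sum]
  apply Finset.sum_congr rfl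
  intro i _
  ring

theorem Bp_nondeg : (Bp m F).Nondegenerate := by
  classical
  have key : ∀ w : Fin m ⊕ Fin m → F, (∀ u, Bp m F w u = 0) → w = 0 := by
    intro w hw
    funext c
    have h := hw (Pi.single c.swap 1)
    rw [Bp_apply, Finset.sum_eq_single c.swap] at h
    · simpa using h
    · intro b _ hb
      simp [Pi.single_eq_of_ne hb]
    · intro h'
      exact absurd (Finset.mem_univ _) h'
  constructor
  · exact key
  · intro u hu
    apply key
    intro w
    rw [Bp_symm]
    exact hu w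

end Plus

/-- For the form Σ x_i y_i on F^(2m) over a finite field, m ≥ 1: an (m−1)-dimensional subspace on which the form vanishes is contained in exactly two m-dimensional subspaces on which it vanishes. -/
theorem result {F : Type*} [Field F] [Finite F] (m : ℕ) (hm : 1 ≤ m) (U : Submodule F (Fin m ⊕ Fin m → F)) (hU : Module.finrank F U + 1 = m ∧ ∀ u ∈ U, Cfsg.quadFormPlus m F u = 0) : Nat.card {W : Submodule F (Fin m ⊕ Fin m → F) // Module.finrank F W = m ∧ (∀ w ∈ W, Cfsg.quadFormPlus m F w = 0) ∧ U ≤ W} = 2 := by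
  classical
  have := Fintype.ofFinite F
  obtain ⟨hUdim, hUQ⟩ := hU
  have hq2 : 2 ≤ Fintype.card F := Fintype.one_lt_card
  have hq0 : 0 < Fintype.card F := by omega
  -- the orthogonal complement
  have hUp : ∀ w, w ∈ (Bp m F).orthogonal U ↔ ∀ u ∈ U, Bp m F w u = 0 := by
    intro w
    rw [LinearMap.BilinForm.mem_orthogonal_iff]
    constructor
    · intro h u hu
      rw [Bp_symm]; exact h u hu
    · intro h u hu
      rw [Bp_symm]; exact h u hu
  have hVdim : finrank F (Fin m ⊕ Fin m → F) = 2 * m := by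
    rw [Module.finrank_fintype_fun_eq_card, Fintype.card_sum, Fintype.card_fin]
    omega
  have hUpdim : finrank F ((Bp m F).orthogonal U) = m + 1 := by
    rw [LinearMap.BilinForm.finrank_orthogonal Bp_nondeg, hVdim]
    omega
  have hcU : Nat.card U * Fintype.card F = Fintype.card F ^ m := by
    rw [card_submodule, ← pow_succ, hUdim]
  have hcUpos : 0 < Nat.card U := Nat.card_pos
  have hcUp : Nat.card ((Bp m F).orthogonal U) = Fintype.card F ^ (m + 1) := by
    rw [card_submodule, hUpdim]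
  have hcV : Nat.card (Fin m ⊕ Fin m → F) = Fintype.card F ^ (2 * m) := by
    rw [Nat.card_eq_fintype_card, Fintype.card_fun, Fintype.card_sum, Fintype.card_fin]
    congr 1
    omega
  have hUle : U ≤ (Bp m F).orthogonal U := by
    intro u hu
    rw [hUp]
    intro u' hu'
    have h := Q_add u u'
    rw [hUQ u hu, hUQ u' hu', hUQ _ (add_mem hu hu')] at h
    linear_combination -h
  -- the number of singular vectors
  have hN := Cfsg.Agent.Lib.Helper44.QCount.card_plusForm_mul (F := F) (κ := Fin m) (0 : F)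
  rw [if_pos rfl, Fintype.card_fin] at hN
  have hNeq : Nat.card {v : Fin m ⊕ Fin m → F // Cfsg.Agent.Lib.Helper44.QCount.plusForm v = 0} =
      Nat.card {w : Fin m ⊕ Fin m → F // Cfsg.quadFormPlus m F w = 0} := rfl
  rw [hNeq] at hN
  -- pairs (w, u) with Q (w + u) = 0
  have hP : Nat.card {p : (Fin m ⊕ Fin m → F) × U // Cfsg.quadFormPlus m F (p.1 + p.2.1) = 0} =
      Nat.card U * Nat.card {w : Fin m ⊕ Fin m → F // Cfsg.quadFormPlus m F w = 0} := by
    apply card_eq_mul_of_fiber
      (fun p : {p : (Fin m ⊕ Fin m → F) × U // Cfsg.quadFormPlus m F (p.1 + p.2.1) = 0} => p.1.2)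
    intro u
    apply Nat.card_congr
    refine ⟨fun p => ⟨p.1.1.1 + u.1, ?_⟩, fun w => ⟨⟨(w.1 - u.1, u), ?_⟩, rfl⟩, ?_, ?_⟩
    · have h := p.1.2
      have h2 : p.1.1.2 = u := p.2
      rw [h2] at h
      exact h
    · simp only [sub_add_cancel]
      exact w.2
    · rintro ⟨⟨⟨w, u'⟩, hp⟩, hp2⟩
      simp only at hp2
      subst hp2
      simp
    · intro w
      simp
  -- split according to w ∈ U^⊥
  have hsplit : Nat.card {p : (Fin m ⊕ Fin m → F) × U // Cfsg.quadFormPlus m F (p.1 + p.2.1) = 0} =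
      Nat.card {p : {p : (Fin m ⊕ Fin m → F) × U // Cfsg.quadFormPlus m F (p.1 + p.2.1) = 0} //
        p.1.1 ∈ (Bp m F).orthogonal U} +
      Nat.card {p : {p : (Fin m ⊕ Fin m → F) × U // Cfsg.quadFormPlus m F (p.1 + p.2.1) = 0} //
        ¬ p.1.1 ∈ (Bp m F).orthogonal U} := by
    rw [← Nat.card_sum]
    exact Nat.card_congr (Equiv.sumCompl _).symm
  -- the part inside U^⊥
  have hP2 : Nat.card {p : {p : (Fin m ⊕ Fin m → F) × U //
        Cfsg.quadFormPlus m F (p.1 + p.2.1) = 0} // p.1.1 ∈ (Bp m F).orthogonal U} =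
      Nat.card {w : Fin m ⊕ Fin m → F // w ∈ (Bp m F).orthogonal U ∧
        Cfsg.quadFormPlus m F w = 0} * Nat.card U := by
    rw [← Nat.card_prod]
    apply Nat.card_congr
    refine ⟨fun p => (⟨p.1.1.1, p.2, ?_⟩, p.1.1.2), fun x => ⟨⟨(x.1.1, x.2), ?_⟩, x.1.2.1⟩, ?_, ?_⟩
    · have h := p.1.2
      rw [Q_add, hUQ _ p.1.1.2.2, (hUp _).mp p.2 _ p.1.1.2.2] at h
      linear_combination h
    · simp only
      rw [Q_add, hUQ _ x.2.2, (hUp _).mp x.1.2.1 _ x.2.2, x.1.2.2]
      ring
    · intro p; rfl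
    · intro x; rfl
  -- the part outside U^⊥
  have hcompl : Nat.card {w : Fin m ⊕ Fin m → F // ¬ w ∈ (Bp m F).orthogonal U} +
      Fintype.card F ^ (m + 1) = Fintype.card F ^ (2 * m) := by
    rw [← hcUp, ← hcV, add_comm, ← Nat.card_sum]
    exact Nat.card_congr (Equiv.sumCompl _)
  have hfibre : ∀ w : Fin m ⊕ Fin m → F, ¬ w ∈ (Bp m F).orthogonal U →
      Nat.card {u : U // Cfsg.quadFormPlus m F (w + u.1) = 0} * Fintype.card F = Nat.card U := by
    intro w hw
    have hℓ : (Bp m F w).comp U.subtype ≠ 0 := by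
      intro h0
      apply hw
      rw [hUp]
      intro u hu
      have := LinearMap.congr_fun h0 ⟨u, hu⟩
      simpa using this
    have h := card_fiber_linear ((Bp m F w).comp U.subtype) hℓ (-Cfsg.quadFormPlus m F w)
    rw [Nat.card_eq_fintype_card (α := F)] at h
    rw [← h]
    congr 1
    apply Nat.card_congr
    refine Equiv.subtypeEquivRight (fun u => ?_)
    rw [Q_add, hUQ _ u.2]
    simp only [LinearMap.coe_comp, Submodule.coe_subtype, Function.comp_apply]
    constructor
    · intro h'; linear_combination h'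
    · intro h'; linear_combination h'
  have hP1 : Nat.card {p : {p : (Fin m ⊕ Fin m → F) × U //
        Cfsg.quadFormPlus m F (p.1 + p.2.1) = 0} // ¬ p.1.1 ∈ (Bp m F).orthogonal U} *
        Fintype.card F =
      Nat.card {w : Fin m ⊕ Fin m → F // ¬ w ∈ (Bp m F).orthogonal U} * Nat.card U := by
    have h1 := card_eq_mul_of_fiber
      (fun p : {p : {p : (Fin m ⊕ Fin m → F) × U //
        Cfsg.quadFormPlus m F (p.1 + p.2.1) = 0} // ¬ p.1.1 ∈ (Bp m F).orthogonal U} =>
        (⟨p.1.1.1, p.2⟩ : {w : Fin m ⊕ Fin m → F // ¬ w ∈ (Bp m F).orthogonal U}))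
      (Nat.card U / Fintype.card F) (by
        rintro ⟨w, hw⟩
        have hf := hfibre w hw
        rw [← hf, Nat.mul_div_cancel _ hq0]
        apply Nat.card_congr
        refine ⟨fun p => ⟨p.1.1.1.2, ?_⟩, fun u => ⟨⟨⟨(w, u.1), u.2⟩, hw⟩, rfl⟩, ?_, ?_⟩
        · have h := p.1.1.2
          have h2 : p.1.1.1.1 = w := congrArg Subtype.val p.2
          rw [h2] at h
          exact h
        · rintro ⟨⟨⟨⟨w', u⟩, hp⟩, hp1⟩, hp2⟩
          simp only [Subtype.mk.injEq] at hp2
          subst hp2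
          rfl
        · intro u; rfl)
    rw [h1, mul_assoc]
    by_cases hemp : IsEmpty {w : Fin m ⊕ Fin m → F // ¬ w ∈ (Bp m F).orthogonal U}
    · rw [Nat.card_of_isEmpty, zero_mul, zero_mul]
    · rw [not_isEmpty_iff] at hemp
      obtain ⟨⟨w, hw⟩⟩ := hemp
      have hf := hfibre w hw
      rw [← hf, Nat.mul_div_cancel _ hq0]
  -- singular vectors of U^⊥ outside U
  have hS' : Nat.card {w : Fin m ⊕ Fin m → F // (w ∈ (Bp m F).orthogonal U ∧
        Cfsg.quadFormPlus m F w = 0) ∧ w ∉ U} + Nat.card U =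
      Nat.card {w : Fin m ⊕ Fin m → F // w ∈ (Bp m F).orthogonal U ∧
        Cfsg.quadFormPlus m F w = 0} := by
    have h1 : Nat.card {w : Fin m ⊕ Fin m → F // (w ∈ (Bp m F).orthogonal U ∧
        Cfsg.quadFormPlus m F w = 0) ∧ w ∉ U} =
        ({w : Fin m ⊕ Fin m → F | w ∈ (Bp m F).orthogonal U ∧
          Cfsg.quadFormPlus m F w = 0} \ (U : Set (Fin m ⊕ Fin m → F))).ncard := rfl
    have h2 : Nat.card U = (U : Set (Fin m ⊕ Fin m → F)).ncard := rfl
    have h3 : Nat.card {w : Fin m ⊕ Fin m → F // w ∈ (Bp m F).orthogonal U ∧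
        Cfsg.quadFormPlus m F w = 0} = ({w : Fin m ⊕ Fin m → F | w ∈ (Bp m F).orthogonal U ∧
          Cfsg.quadFormPlus m F w = 0}).ncard := rfl
    rw [h1, h2, h3]
    exact Set.ncard_sdiff_add_ncard_of_subset (fun u hu => ⟨hUle hu, hUQ u hu⟩) (Set.toFinite _)
  -- the map to subspaces
  have hWmap : ∀ w : Fin m ⊕ Fin m → F, ((w ∈ (Bp m F).orthogonal U ∧
        Cfsg.quadFormPlus m F w = 0) ∧ w ∉ U) →
      finrank F (U ⊔ Submodule.span F {w} : Submodule F (Fin m ⊕ Fin m → F)) = m ∧
      (∀ x ∈ U ⊔ Submodule.span F {w}, Cfsg.quadFormPlus m F x = 0) ∧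
      U ≤ U ⊔ Submodule.span F {w} := by
    rintro w ⟨⟨hw1, hw2⟩, hw3⟩
    have hw0 : w ≠ 0 := fun h => hw3 (h ▸ zero_mem U)
    refine ⟨?_, ?_, le_sup_left⟩
    · have hdisj : Disjoint U (Submodule.span F {w}) :=
        (Submodule.disjoint_span_singleton' hw0).mpr hw3
      have h1 := Submodule.finrank_sup_add_finrank_inf_eq U (Submodule.span F {w})
      rw [hdisj.eq_bot, finrank_bot, finrank_span_singleton hw0] at h1
      omega
    · intro x hx
      rw [Submodule.mem_sup] at hx
      obtain ⟨u, hu, y, hy, rfl⟩ := hx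
      rw [Submodule.mem_span_singleton] at hy
      obtain ⟨c, rfl⟩ := hy
      have hb : Bp m F u (c • w) = 0 := by
        rw [map_smul, smul_eq_mul, Bp_symm, (hUp w).mp hw1 u hu, mul_zero]
      rw [Q_add, hUQ u hu, Q_smul, hw2, hb]
      ring
  have hD : ∀ W : Submodule F (Fin m ⊕ Fin m → F), finrank F W = m → U ≤ W →
      Nat.card {w : Fin m ⊕ Fin m → F // w ∈ W ∧ w ∉ U} + Nat.card U = Fintype.card F ^ m := by
    intro W hW1 hW3
    rw [card_diff W U hW3, card_submodule, hW1]
  have hcount := card_eq_mul_of_fiber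
    (fun w : {w : Fin m ⊕ Fin m → F // (w ∈ (Bp m F).orthogonal U ∧
        Cfsg.quadFormPlus m F w = 0) ∧ w ∉ U} =>
      (⟨U ⊔ Submodule.span F {w.1}, hWmap w.1 w.2⟩ :
        {W : Submodule F (Fin m ⊕ Fin m → F) // finrank F W = m ∧
          (∀ w ∈ W, Cfsg.quadFormPlus m F w = 0) ∧ U ≤ W}))
    (Fintype.card F ^ m - Nat.card U) (by
      rintro ⟨W, hW1, hW2, hW3⟩
      have hd := hD W hW1 hW3
      have : Nat.card {w : Fin m ⊕ Fin m → F // w ∈ W ∧ w ∉ U} =
          Fintype.card F ^ m - Nat.card U := by omega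
      rw [← this]
      apply Nat.card_congr
      refine ⟨fun w => ⟨w.1.1, ?_, w.1.2.2⟩, fun w => ⟨⟨w.1, ⟨?_, hW2 _ w.2.1⟩, w.2.2⟩, ?_⟩, ?_, ?_⟩
      · have h := w.2
        simp only [Subtype.mk.injEq] at h
        exact h.le (Submodule.mem_sup_right (Submodule.mem_span_singleton_self _))
      · rw [hUp]
        intro u hu
        have h := Q_add w.1 u
        rw [hW2 _ w.2.1, hW2 _ (hW3 hu), hW2 _ (add_mem w.2.1 (hW3 hu))] at h
        linear_combination -h
      · simp only [Subtype.mk.injEq]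
        have hw0 : w.1 ≠ 0 := fun h => w.2.2 (h ▸ zero_mem U)
        have hle : U ⊔ Submodule.span F {w.1} ≤ W :=
          sup_le hW3 ((Submodule.span_singleton_le_iff_mem _ _).mpr w.2.1)
        have hdisj : Disjoint U (Submodule.span F {w.1}) :=
          (Submodule.disjoint_span_singleton' hw0).mpr w.2.2
        have h1 := Submodule.finrank_sup_add_finrank_inf_eq U (Submodule.span F {w.1})
        rw [hdisj.eq_bot, finrank_bot, finrank_span_singleton hw0] at h1
        exact Submodule.eq_of_le_of_finrank_eq hle (by rw [hW1]; omega)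
      · intro w; rfl
      · intro w; rfl)
  -- arithmetic
  generalize Nat.card {W : Submodule F (Fin m ⊕ Fin m → F) // finrank F W = m ∧
      (∀ w ∈ W, Cfsg.quadFormPlus m F w = 0) ∧ U ≤ W} = L at hcount ⊢
  generalize Nat.card {w : Fin m ⊕ Fin m → F // (w ∈ (Bp m F).orthogonal U ∧
        Cfsg.quadFormPlus m F w = 0) ∧ w ∉ U} = S' at hcount hS'
  generalize Nat.card {w : Fin m ⊕ Fin m → F // w ∈ (Bp m F).orthogonal U ∧
        Cfsg.quadFormPlus m F w = 0} = S at hS' hP2
  generalize Nat.card {p : {p : (Fin m ⊕ Fin m → F) × U //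
        Cfsg.quadFormPlus m F (p.1 + p.2.1) = 0} // ¬ p.1.1 ∈ (Bp m F).orthogonal U} = P1
    at hP1 hsplit
  generalize Nat.card {p : {p : (Fin m ⊕ Fin m → F) × U //
        Cfsg.quadFormPlus m F (p.1 + p.2.1) = 0} // p.1.1 ∈ (Bp m F).orthogonal U} = P2
    at hP2 hsplit
  generalize Nat.card {p : (Fin m ⊕ Fin m → F) × U //
    Cfsg.quadFormPlus m F (p.1 + p.2.1) = 0} = P at hP hsplit
  generalize Nat.card {w : Fin m ⊕ Fin m → F // ¬ w ∈ (Bp m F).orthogonal U} = C at hP1 hcompl
  generalize Nat.card {w : Fin m ⊕ Fin m → F // Cfsg.quadFormPlus m F w = 0} = N at hP hN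
  generalize Nat.card U = a at *
  generalize Fintype.card F = q at *
  -- a * q = q^m ; N * q = q^(m+1) + (q^m - 1) * q^m ; P = a * N ; P = P2 + P1 ; P2 = S * a ;
  -- C + q^(m+1) = q^(2m) ; P1 * q = C * a ; S' + a = S ; S' = L * (q^m - a)
  have e1 : q ^ (m + 1) = a * q * q := by rw [pow_succ, hcU]
  have e2 : q ^ (2 * m) = a * q * (a * q) := by rw [two_mul, pow_add, hcU]
  rw [← hcU] at hcount hN
  rw [e1] at hN hcompl
  rw [e2] at hcompl
  have h1le : 1 ≤ a * q := Nat.mul_pos hcUpos hq0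
  zify [h1le] at hN
  have hle2 : a ≤ a * q := Nat.le_mul_of_pos_right a hq0
  zify [hle2] at hcount
  zify at hP hsplit hP2 hcompl hP1 hS' hcUpos hq2 ⊢
  have haZ : (a : ℤ) ≠ 0 := by omega
  have hqZ : (q : ℤ) ≠ 0 := by omega
  -- S * q = 2 a q^2 - a q
  have hS : (S : ℤ) * q = 2 * a * q * q - a * q := by
    have h : (a : ℤ) * ((S : ℤ) * q) = a * (2 * a * q * q - a * q) := by
      have hPq : (P : ℤ) * q = a * (N * q) := by rw [hP]; ring
      have : (P : ℤ) * q = P2 * q + P1 * q := by rw [hsplit]; ring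
      rw [hP1, hP2] at this
      have hC : (C : ℤ) = a * q * (a * q) - a * q * q := by linarith
      rw [hC] at this
      have hN' : (N : ℤ) * q = a * q * q + (a * q - 1) * (a * q) := hN
      rw [hPq, hN'] at this
      linear_combination -this
    exact mul_left_cancel₀ haZ h
  have hS2 : (S : ℤ) = 2 * a * q - a := by
    apply mul_right_cancel₀ hqZ
    rw [hS]; ring
  have hS3 : (S' : ℤ) = 2 * a * q - 2 * a := by linarith
  have hfin : (L : ℤ) * (a * q - a) = 2 * (a * q - a) := by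
    rw [← hcount, hS3]; ring
  have hne : (a : ℤ) * q - a ≠ 0 := by
    have : (a : ℤ) * q - a = a * (q - 1) := by ring
    rw [this]
    apply mul_ne_zero haZ
    omega
  exact_mod_cast mul_right_cancel₀ hne hfin

end Cfsg.Agent.S0832
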