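-- Statement S0833: tensor product of two alternating forms.
import Mathlib
import Cfsg.Statements.S0833

set_option autoImplicit false
open Cfsg
open scoped TensorProduct

namespace Cfsg.Agent.S0833

section aux

variable {F U W : Type*} [Field F] [AddCommGroup U] [Module F U] [FiniteDimensional F U]
  [AddCommGroup W] [Module F W] [FiniteDimensional F W]

theorem tmul_separatingLeft (B₁ : LinearMap.BilinForm F U) (B₂ : LinearMap.BilinForm F W)
    (h₁ : B₁.Nondegenerate) (h₂ : B₂.Nondegenerate) :
    ∀ x : U ⊗[F] W, (∀ y, (B₁.tmul B₂) x y = 0) → x = 0 := by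
  classical
  intro x hx
  let b₁ := Module.finBasis F U
  let b₂ := Module.finBasis F W
  let d₁ := B₁.dualBasis h₁ b₁
  let d₂ := B₂.dualBasis h₂ b₂
  let T := d₁.tensorProduct d₂
  have key : ∀ q p : Fin (Module.finrank F U) × Fin (Module.finrank F W),
      (B₁.tmul B₂) (T q) (b₁ p.1 ⊗ₜ[F] b₂ p.2) = if p = q then 1 else 0 := by
    intro q p
    rw [Module.Basis.tensorProduct_apply', LinearMap.BilinForm.tensorDistrib_tmul,
      LinearMap.BilinForm.apply_dualBasis_left, LinearMap.BilinForm.apply_dualBasis_left]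
    by_cases h1 : p.1 = q.1 <;> by_cases h2 : p.2 = q.2 <;> simp [h1, h2, Prod.ext_iff]
  have hcoef : ∀ p, T.repr x p = 0 := by
    intro p
    have h := hx (b₁ p.1 ⊗ₜ[F] b₂ p.2)
    rw [← T.sum_repr x] at h
    simp only [map_sum, map_smul, LinearMap.sum_apply, LinearMap.smul_apply, key, smul_eq_mul,
      mul_ite, mul_one, mul_zero, Finset.sum_ite_eq, Finset.mem_univ, if_true] at h
    exact h
  exact (LinearEquiv.map_eq_zero_iff T.repr).mp (Finsupp.ext fun p => hcoef p)

attribute [local ext] TensorProduct.ext in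
theorem tmul_symm_of_alt (B₁ : LinearMap.BilinForm F U) (B₂ : LinearMap.BilinForm F W)
    (hA₁ : B₁.IsAlt) (hA₂ : B₂.IsAlt) : (B₁.tmul B₂).IsSymm := by
  rw [LinearMap.isSymm_iff_eq_flip]
  ext x₁ x₂ y₁ y₂
  have e1 := hA₁.neg_eq x₁ y₁
  have e2 := hA₂.neg_eq x₂ y₂
  show B₂ x₂ y₂ • B₁ x₁ y₁ = B₂ y₂ x₂ • B₁ y₁ x₁
  rw [← e1, ← e2]
  simp

theorem exists_lagrangian (B : LinearMap.BilinForm F U) (hB : B.Nondegenerate) (hA : B.IsAlt)
    (k : ℕ) (hU : Module.finrank F U = 2 * k) :
    ∃ L : Submodule F U, Module.finrank F L = k ∧ ∀ x ∈ L, ∀ y ∈ L, B x y = 0 := by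
  have key : ∀ d : ℕ, ∀ L : Submodule F U, (∀ x ∈ L, ∀ y ∈ L, B x y = 0) →
      k - Module.finrank F L = d →
      ∃ L' : Submodule F U, Module.finrank F L' = k ∧ ∀ x ∈ L', ∀ y ∈ L', B x y = 0 := by
    intro d
    induction d using Nat.strong_induction_on with
    | _ d ih =>
      intro L hL hd
      have hle : L ≤ B.orthogonal L := fun x hx y hy => hL y hy x hx
      have hfin : Module.finrank F (B.orthogonal L) = 2 * k - Module.finrank F L := by
        rw [LinearMap.BilinForm.finrank_orthogonal hB, hU]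
      have hLk : Module.finrank F L ≤ k := by
        have := Submodule.finrank_mono hle
        omega
      by_cases hk : Module.finrank F L = k
      · exact ⟨L, hk, hL⟩
      · have hlt : Module.finrank F L < k := lt_of_le_of_ne hLk hk
        have hne : ¬ (B.orthogonal L ≤ L) := by
          intro hcon
          have := Submodule.finrank_mono hcon
          omega
        obtain ⟨v, hv, hvL⟩ := SetLike.not_le_iff_exists.mp hne
        have hL₁ : ∀ x ∈ L ⊔ Submodule.span F {v}, ∀ y ∈ L ⊔ Submodule.span F {v}, B x y = 0 := by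
          intro x hx y hy
          obtain ⟨a, ha, z, hz, rfl⟩ := Submodule.mem_sup.mp hx
          obtain ⟨a', ha', z', hz', rfl⟩ := Submodule.mem_sup.mp hy
          obtain ⟨c, rfl⟩ := Submodule.mem_span_singleton.mp hz
          obtain ⟨c', rfl⟩ := Submodule.mem_span_singleton.mp hz'
          have h1 : B a v = 0 := hv a ha
          have h2 : B v a' = 0 := by rw [← hA.neg_eq, hv a' ha', neg_zero]
          have h3 : B v v = 0 := hA.self_eq_zero v
          simp [map_add, map_smul, LinearMap.add_apply, LinearMap.smul_apply, hL a ha a' ha', h1,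
            h2, h3]
        have hlt' : L < L ⊔ Submodule.span F {v} := by
          refine lt_of_le_of_ne le_sup_left ?_
          intro heq
          apply hvL
          rw [heq]
          exact Submodule.mem_sup_right (Submodule.mem_span_singleton_self v)
        have := Submodule.finrank_lt_finrank_of_lt hlt'
        exact ih (k - Module.finrank F ↥(L ⊔ Submodule.span F {v})) (by omega) _ hL₁ rfl
  refine key _ ⊥ ?_ rfl
  intro x hx y _
  rw [Submodule.mem_bot] at hx
  subst hx
  simp

end aux

/-- If B₁, B₂ are non-degenerate alternating forms on U (dim 2k) and W (dim 2l), then B₁ ⊗ B₂ on U ⊗ W is symmetric, non-degenerate, and vanishes identically on some subspace of dimension 2kl (half of dim U ⊗ W). -/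
theorem result {F U W : Type*} [Field F] [Fintype F] [AddCommGroup U] [Module F U] [FiniteDimensional F U] [AddCommGroup W] [Module F W] [FiniteDimensional F W] (B₁ : LinearMap.BilinForm F U) (B₂ : LinearMap.BilinForm F W) (h₁ : B₁.Nondegenerate) (h₂ : B₂.Nondegenerate) (hA₁ : B₁.IsAlt) (hA₂ : B₂.IsAlt) (k l : ℕ) (hU : Module.finrank F U = 2 * k) (hW : Module.finrank F W = 2 * l) : (B₁.tmul B₂).IsSymm ∧ (B₁.tmul B₂).Nondegenerate ∧ (∃ X : Submodule F (TensorProduct F U W), Module.finrank F X = 2 * k * l ∧ ∀ x ∈ X, ∀ y ∈ X, (B₁.tmul B₂) x y = 0) := by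
  have hsymm := tmul_symm_of_alt B₁ B₂ hA₁ hA₂
  have hsep := tmul_separatingLeft B₁ B₂ h₁ h₂
  refine ⟨hsymm, ⟨hsep, ?_⟩, ?_⟩
  · intro y hy
    apply hsep y
    intro x
    have e := hsymm.eq x y
    rw [RingHom.id_apply] at e
    rw [← e]
    exact hy x
  · obtain ⟨L, hLk, hL⟩ := exists_lagrangian B₁ h₁ hA₁ k hU
    have hf : Function.Injective (L.subtype.rTensor W) :=
      Module.Flat.rTensor_preserves_injective_linearMap L.subtype L.injective_subtype
    refine ⟨LinearMap.range (L.subtype.rTensor W), ?_, ?_⟩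
    · rw [LinearMap.finrank_range_of_inj hf, Module.finrank_tensorProduct, hLk, hW]
      ring
    · rintro _ ⟨x, rfl⟩ _ ⟨y, rfl⟩
      induction x using TensorProduct.induction_on with
      | zero => simp
      | tmul u w =>
        induction y using TensorProduct.induction_on with
        | zero => simp
        | tmul u' w' =>
          rw [LinearMap.rTensor_tmul, LinearMap.rTensor_tmul, Submodule.subtype_apply,
            Submodule.subtype_apply, LinearMap.BilinForm.tensorDistrib_tmul, hL u u.2 u' u'.2,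
            smul_zero]
        | add y₁ y₂ ih₁ ih₂ => rw [map_add, map_add, ih₁, ih₂, add_zero]
      | add x₁ x₂ ih₁ ih₂ => rw [map_add, map_add, LinearMap.add_apply, ih₁, ih₂, add_zero]

end Cfsg.Agent.S0833
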