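import Cfsg.Statements.S0835
import Cfsg.Agent.Lib.Helper14.TypeCrit
-- import your own Cfsg.Agent.* helpers here

set_option autoImplicit false
open Cfsg

namespace Cfsg.Agent.S0835

/-- Over a finite field with 2 ≠ 0: if B₁ on U (dim 2k, k ≥ 1) is non-degenerate symmetric of minus type (no totally isotropic k-subspace) and B₂ on W (dim 2l + 1) is non-degenerate symmetric, then B₁ ⊗ B₂ (dimension 2k(2l+1)) admits no totally isotropic subspace of dimension k(2l+1) (minus type). -/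
theorem result {F U W : Type*} [Field F] [Fintype F] [AddCommGroup U] [Module F U] [FiniteDimensional F U] [AddCommGroup W] [Module F W] [FiniteDimensional F W] (h2 : (2 : F) ≠ 0) (B₁ : LinearMap.BilinForm F U) (B₂ : LinearMap.BilinForm F W) (h₁ : B₁.Nondegenerate) (h₂ : B₂.Nondegenerate) (hS₁ : B₁.IsSymm) (hS₂ : B₂.IsSymm) (k l : ℕ) (hk : 1 ≤ k) (hU : Module.finrank F U = 2 * k) (hW : Module.finrank F W = 2 * l + 1) (hm₁ : ¬ (∃ X : Submodule F (U), Module.finrank F X = k ∧ ∀ x ∈ X, ∀ y ∈ X, (B₁) x y = 0)) : ¬ (∃ X : Submodule F (TensorProduct F U W), Module.finrank F X = k * (2 * l + 1) ∧ ∀ x ∈ X, ∀ y ∈ X, (B₁.tmul B₂) x y = 0) := by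
  classical
  rintro ⟨X, hX, hti⟩
  let b₁ : Module.Basis (Fin (2 * k)) F U := Module.finBasisOfFinrankEq F U hU
  let b₂ : Module.Basis (Fin (2 * l + 1)) F W := Module.finBasisOfFinrankEq F W hW
  have hdet := Cfsg.Agent.Lib.Helper14.TypeCrit.det_tmul b₁ b₂ B₁ B₂
  rw [Fintype.card_fin, Fintype.card_fin] at hdet
  have hd1 : (LinearMap.BilinForm.toMatrix b₁ B₁).det ≠ 0 :=
    (LinearMap.BilinForm.nondegenerate_iff_det_ne_zero b₁).mp h₁
  have hd2 : (LinearMap.BilinForm.toMatrix b₂ B₂).det ≠ 0 :=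
    (LinearMap.BilinForm.nondegenerate_iff_det_ne_zero b₂).mp h₂
  have hfr : Module.finrank F (TensorProduct F U W) = 2 * (k * (2 * l + 1)) := by
    rw [Module.finrank_tensorProduct, hU, hW]
    ring
  have hsq := Cfsg.Agent.Lib.Helper14.TypeCrit.isSquare_of_isotropic (B₁.tmul B₂)
    (LinearMap.BilinForm.isSymm_iff.mpr (LinearMap.IsSymm.tmul
      (LinearMap.BilinForm.isSymm_iff.mp hS₁) (LinearMap.BilinForm.isSymm_iff.mp hS₂)))
    (k * (2 * l + 1)) hfr (b₁.tensorProduct b₂) X hX hti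
  rw [hdet] at hsq
  apply hm₁
  apply Cfsg.Agent.Lib.Helper14.TypeCrit.exists_isotropic_of_isSquare h2 B₁ hS₁ h₁ k hk hU b₁
  obtain ⟨r, hr⟩ := hsq
  have hx : (-1 : F) ^ k * (LinearMap.BilinForm.toMatrix b₁ B₁).det ≠ 0 :=
    mul_ne_zero (pow_ne_zero _ (by norm_num)) hd1
  have hden : (LinearMap.BilinForm.toMatrix b₂ B₂).det ^ k *
      ((-1 : F) ^ k * (LinearMap.BilinForm.toMatrix b₁ B₁).det) ^ l ≠ 0 :=
    mul_ne_zero (pow_ne_zero _ hd2) (pow_ne_zero _ hx)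
  refine ⟨r / ((LinearMap.BilinForm.toMatrix b₂ B₂).det ^ k *
      ((-1 : F) ^ k * (LinearMap.BilinForm.toMatrix b₁ B₁).det) ^ l), ?_⟩
  rw [div_mul_div_comm, eq_div_iff (mul_ne_zero hden hden), ← hr, pow_mul]
  ring

end Cfsg.Agent.S0835
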