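-- Statement S0836: elementary transvections are commutators in SL_n.
import Mathlib
import Cfsg.Statements.S0836

set_option autoImplicit false
open Cfsg
open scoped commutatorElement

namespace Cfsg.Agent.S0836

theorem comm_of_eq {G : Type*} [Group G] (t g h : G) (e : t * h * g = g * h) :
    t ∈ commutatorSet G := by
  refine ⟨g, h, ?_⟩
  rw [commutatorElement_def, ← e]
  group

/-- For i ≠ j and any scalar c, the elementary transvection 1 + c E_ij is a commutator ⁅g, h⁆ of two elements of SL_n(F) provided n ≥ 3, or n = 2 and F contains x ≠ 0 with x² ≠ 1. -/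
theorem result {F : Type*} [Field F] (n : ℕ) (hn : 3 ≤ n ∨ (n = 2 ∧ ∃ x : F, x ≠ 0 ∧ x ^ 2 ≠ 1)) (i j : Fin n) (hij : i ≠ j) (c : F) (t : Matrix.SpecialLinearGroup (Fin n) F) (ht : (t : Matrix (Fin n) (Fin n) F) = Matrix.transvection i j c) : t ∈ commutatorSet (Matrix.SpecialLinearGroup (Fin n) F) := by
  rcases hn with hn | ⟨rfl, x, hx0, hx1⟩
  · -- n ≥ 3: pick k different from i and j
    have hcard : ({i, j} : Finset (Fin n)).card < (Finset.univ : Finset (Fin n)).card := by
      rw [Finset.card_univ, Fintype.card_fin]
      exact lt_of_le_of_lt Finset.card_le_two (by omega)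
    obtain ⟨k, -, hk⟩ := Finset.exists_mem_notMem_of_card_lt_card hcard
    simp only [Finset.mem_insert, Finset.mem_singleton, not_or] at hk
    obtain ⟨hki, hkj⟩ := hk
    have hik : i ≠ k := fun h => hki h.symm
    have hjk : j ≠ k := fun h => hkj h.symm
    have hji : j ≠ i := fun h => hij h.symm
    apply comm_of_eq t ⟨Matrix.transvection i k c, Matrix.det_transvection_of_ne i k hik c⟩
      ⟨Matrix.transvection k j 1, Matrix.det_transvection_of_ne k j hkj 1⟩
    apply Subtype.ext
    show (t : Matrix (Fin n) (Fin n) F) * Matrix.transvection k j 1 * Matrix.transvection i k c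
      = Matrix.transvection i k c * Matrix.transvection k j 1
    rw [ht]
    simp only [Matrix.transvection, mul_add, add_mul, mul_one, one_mul,
      Matrix.single_mul_single_same, Matrix.single_mul_single_of_ne _ _ _ _ hjk,
      Matrix.single_mul_single_of_ne _ _ _ _ hji, add_zero, zero_mul]
    abel
  · -- n = 2
    have hx2 : x ^ 2 - 1 ≠ 0 := sub_ne_zero.mpr hx1
    have key : ∀ i j : Fin 2, i ≠ j → ∀ t : Matrix.SpecialLinearGroup (Fin 2) F,
        (t : Matrix (Fin 2) (Fin 2) F) = Matrix.transvection i j c →
        t ∈ commutatorSet (Matrix.SpecialLinearGroup (Fin 2) F) := by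
      intro i j hij t ht
      have hdet : (Matrix.diagonal (fun a : Fin 2 => if a = i then x else x⁻¹)).det = 1 := by
        rw [Matrix.det_diagonal, Fin.prod_univ_two]
        fin_cases i <;> fin_cases j <;> simp_all
      apply comm_of_eq t ⟨Matrix.diagonal (fun a : Fin 2 => if a = i then x else x⁻¹), hdet⟩
        ⟨Matrix.transvection i j (c / (x ^ 2 - 1)), Matrix.det_transvection_of_ne i j hij _⟩
      apply Subtype.ext
      show (t : Matrix (Fin 2) (Fin 2) F) * Matrix.transvection i j (c / (x ^ 2 - 1))
          * Matrix.diagonal (fun a : Fin 2 => if a = i then x else x⁻¹)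
        = Matrix.diagonal (fun a : Fin 2 => if a = i then x else x⁻¹)
          * Matrix.transvection i j (c / (x ^ 2 - 1))
      rw [ht]
      ext a b
      fin_cases i <;> fin_cases j <;> fin_cases a <;> fin_cases b <;>
        simp [Matrix.transvection, Matrix.mul_apply, Fin.sum_univ_two, Matrix.single_apply,
          Matrix.diagonal_apply, Matrix.one_apply] at hij ⊢ <;>
        field_simp <;> ring
    exact key i j hij t ht

end Cfsg.Agent.S0836
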