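import Mathlib
import Cfsg.Statements.S0838
import Cfsg.Agent.S2623

set_option autoImplicit false
open Cfsg

namespace Cfsg.Agent.S0838

open QuadraticMap
open Cfsg.Agent.Lib.Helper44.QSpace Cfsg.Agent.Lib.Helper44.FinSq

/-- Over a finite field with 2 ≠ 0 and n odd: two quadratic forms Q₁, Q₂ on F^n with non-degenerate polar forms are similar — there are an invertible linear map g and a scalar c ≠ 0 with Q₂ (g v) = c · Q₁ v for all v. -/
theorem result {F : Type*} [Field F] [Fintype F] (h2 : (2 : F) ≠ 0) {n : ℕ} (hn : Odd n) (Q₁ Q₂ : QuadraticForm F (Fin n → F)) (h₁ : (QuadraticMap.polarBilin Q₁).Nondegenerate) (h₂ : (QuadraticMap.polarBilin Q₂).Nondegenerate) : ∃ (g : (Fin n → F) ≃ₗ[F] (Fin n → F)) (c : F), c ≠ 0 ∧ ∀ v, Q₂ (g v) = c * Q₁ v := by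
  classical
  by_cases hsq : IsSquare ((Matrix.of (fun i j : Fin n => QuadraticMap.polar ⇑Q₁ (Pi.single i 1) (Pi.single j 1))).det * (Matrix.of (fun i j : Fin n => QuadraticMap.polar ⇑Q₂ (Pi.single i 1) (Pi.single j 1))).det)
  · obtain ⟨g, hg⟩ := (Cfsg.Agent.S2623.result h2 Q₁ Q₂ h₁ h₂).mpr hsq
    exact ⟨g, 1, one_ne_zero, fun v => by rw [hg, one_mul]⟩
  · obtain ⟨ζ, hζ⟩ := FiniteField.exists_nonsquare (ringChar_ne_two_of_two_ne_zero h2)
    have hζ0 : ζ ≠ 0 := fun h => hζ (h ▸ IsSquare.zero)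
    have hpol : ∀ x y : Fin n → F, polar (⇑(ζ • Q₁)) x y = ζ * polar (⇑Q₁) x y := by
      intro x y
      simp only [polar, smul_apply, smul_eq_mul]
      ring
    have h₁' : (QuadraticMap.polarBilin (ζ • Q₁)).Nondegenerate := by
      apply nondegenerate_of_sep
      intro x hx
      apply sep_of_nondegenerate h₁ x
      intro y
      have := hx y
      rw [hpol] at this
      rcases mul_eq_zero.mp this with h | h
      · exact absurd h hζ0
      · exact h
    have hd : (Matrix.of (fun i j : Fin n => QuadraticMap.polar ⇑(ζ • Q₁) (Pi.single i 1) (Pi.single j 1))).det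
        = ζ ^ n * (Matrix.of (fun i j : Fin n => QuadraticMap.polar ⇑Q₁ (Pi.single i 1) (Pi.single j 1))).det := by
      have : (Matrix.of (fun i j : Fin n => QuadraticMap.polar ⇑(ζ • Q₁) (Pi.single i 1) (Pi.single j 1)))
          = ζ • (Matrix.of (fun i j : Fin n => QuadraticMap.polar ⇑Q₁ (Pi.single i 1) (Pi.single j 1))) := by
        ext i j
        simp only [Matrix.of_apply, Matrix.smul_apply, smul_eq_mul]
        exact hpol _ _
      rw [this, Matrix.det_smul, Fintype.card_fin]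
    have hsq' := isSquare_mul_of_not_of_not hζ hsq
    obtain ⟨k, hk⟩ := hn
    obtain ⟨r, hr⟩ := hsq'
    obtain ⟨g, hg⟩ := (Cfsg.Agent.S2623.result h2 (ζ • Q₁) Q₂ h₁' h₂).mpr (by
      rw [hd]
      refine ⟨ζ ^ k * r, ?_⟩
      have hpow : ζ ^ n = (ζ ^ k) ^ 2 * ζ := by rw [hk, pow_succ, pow_mul, pow_right_comm]
      rw [hpow]
      linear_combination (ζ ^ k) ^ 2 * hr)
    refine ⟨g, ζ, hζ0, fun v => ?_⟩
    rw [hg, smul_apply, smul_eq_mul]

end Cfsg.Agent.S0838
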