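-- Statement S0839: transvections are conjugate into the first-column group.
import Mathlib
import Cfsg.Statements.S0839

set_option autoImplicit false
open Cfsg

namespace Cfsg.Agent.S0839

open Matrix

theorem rank_one_decomp {F : Type*} [Field F] {ι : Type} [Fintype ι] [DecidableEq ι]
    (N : Matrix ι ι F) (h : N.rank = 1) : ∃ a b : ι → F, N = Matrix.vecMulVec a b := by
  unfold Matrix.rank at h
  obtain ⟨⟨a, ha⟩, -, hspan⟩ := finrank_eq_one_iff'.mp h
  have hcol : ∀ j : ι, ∃ c : F, c • a = N.col j := by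
    intro j
    have hmem : N.col j ∈ LinearMap.range N.mulVecLin := by
      refine ⟨Pi.single j 1, ?_⟩
      rw [Matrix.mulVecLin_apply, Matrix.mulVec_single_one]
    obtain ⟨c, hc⟩ := hspan ⟨N.col j, hmem⟩
    refine ⟨c, ?_⟩
    have := congrArg Subtype.val hc
    simpa using this
  choose b hb using hcol
  refine ⟨a, b, ?_⟩
  ext i j
  have := congrFun (hb j) i
  simp only [Pi.smul_apply, smul_eq_mul, Matrix.col_apply] at this
  rw [Matrix.vecMulVec_apply, ← this, mul_comm]

/-- Every transvection t ∈ SL_(n+2)(F) (rank(t − 1) = 1, (t − 1)² = 0) is conjugate in SL_(n+2)(F) to 1 + v·e_0ᵀ for some column vector v with v_0 = 0 (the group A of matrices that are the identity except in the first column below the diagonal); the dimension is written n + 2 ≥ 2. -/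
theorem result {F : Type*} [Field F] (n : ℕ) (t : Matrix.SpecialLinearGroup (Fin (n + 2)) F) (ht : Cfsg.IsTransvection (t : Matrix (Fin (n + 2)) (Fin (n + 2)) F)) : ∃ (g : Matrix.SpecialLinearGroup (Fin (n + 2)) F) (v : Fin (n + 2) → F), v 0 = 0 ∧ ((g⁻¹ * t * g : Matrix.SpecialLinearGroup (Fin (n + 2)) F) : Matrix (Fin (n + 2)) (Fin (n + 2)) F) = 1 + Matrix.vecMulVec v (Pi.single 0 1) := by
  obtain ⟨hrank, hsq⟩ := ht
  obtain ⟨a, b, hab⟩ := rank_one_decomp _ hrank
  -- the matrix N = a bᵀ is nonzero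
  have hN0 : Matrix.vecMulVec a b ≠ 0 := by
    intro h0
    rw [hab, h0, Matrix.rank_zero] at hrank
    exact zero_ne_one hrank
  have hb0 : b ≠ 0 := by
    rintro rfl
    apply hN0
    ext i j
    simp [Matrix.vecMulVec_apply]
  -- b ⬝ a = 0
  have hba : b ⬝ᵥ a = 0 := by
    rw [hab, Matrix.vecMulVec_mul_vecMulVec, Matrix.vecMulVec_smul] at hsq
    by_contra hne
    exact hN0 ((smul_eq_zero.mp hsq).resolve_left hne)
  -- an element of SL sending the point of b to the point of e_0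
  have he0 : (Pi.single 0 1 : Fin (n + 2) → F) ≠ 0 := by
    intro h
    have := congrFun h 0
    simp at this
  obtain ⟨h, hh⟩ := MulAction.exists_smul_eq (Matrix.SpecialLinearGroup (Fin (n + 2)) F)
    (Projectivization.mk F b hb0) (Projectivization.mk F (Pi.single 0 1) he0)
  rw [Projectivization.smul_mk, Projectivization.mk_eq_mk_iff'] at hh
  obtain ⟨lam, hlam⟩ := hh
  have hlam' : (h : Matrix (Fin (n + 2)) (Fin (n + 2)) F) *ᵥ b = lam • Pi.single 0 1 := hlam.symm
  -- g is the transpose of h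
  let g : Matrix.SpecialLinearGroup (Fin (n + 2)) F := h.transpose
  have hg : (g : Matrix (Fin (n + 2)) (Fin (n + 2)) F) = (h : Matrix (Fin (n + 2)) (Fin (n + 2)) F)ᵀ := rfl
  have hbg : b ᵥ* (g : Matrix (Fin (n + 2)) (Fin (n + 2)) F) = lam • Pi.single 0 1 := by
    rw [hg, Matrix.vecMul_transpose, hlam']
  have hgi : ((g⁻¹ : Matrix.SpecialLinearGroup (Fin (n + 2)) F) : Matrix (Fin (n + 2)) (Fin (n + 2)) F)
      * (g : Matrix (Fin (n + 2)) (Fin (n + 2)) F) = 1 := by
    rw [← Matrix.SpecialLinearGroup.coe_mul, inv_mul_cancel, Matrix.SpecialLinearGroup.coe_one]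
  have hgi' : (g : Matrix (Fin (n + 2)) (Fin (n + 2)) F)
      * ((g⁻¹ : Matrix.SpecialLinearGroup (Fin (n + 2)) F) : Matrix (Fin (n + 2)) (Fin (n + 2)) F) = 1 := by
    rw [← Matrix.SpecialLinearGroup.coe_mul, mul_inv_cancel, Matrix.SpecialLinearGroup.coe_one]
  set gi : Matrix (Fin (n + 2)) (Fin (n + 2)) F :=
    ((g⁻¹ : Matrix.SpecialLinearGroup (Fin (n + 2)) F) : Matrix (Fin (n + 2)) (Fin (n + 2)) F) with hgi_def
  refine ⟨g, lam • (gi *ᵥ a), ?_, ?_⟩
  · -- v 0 = 0
    have h1 : (lam • (gi *ᵥ a)) 0 = (lam • (Pi.single 0 1 : Fin (n + 2) → F)) ⬝ᵥ (gi *ᵥ a) := by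
      simp [dotProduct_comm]
    rw [h1, ← hbg, ← Matrix.dotProduct_mulVec, Matrix.mulVec_mulVec, hgi', Matrix.one_mulVec, hba]
  · have ht' : (t : Matrix (Fin (n + 2)) (Fin (n + 2)) F) = 1 + Matrix.vecMulVec a b := by
      rw [← hab]; abel
    rw [Matrix.SpecialLinearGroup.coe_mul, Matrix.SpecialLinearGroup.coe_mul, ht', mul_add,
      add_mul, mul_one, hgi, Matrix.mul_vecMulVec, Matrix.vecMulVec_mul, hbg,
      Matrix.vecMulVec_smul, Matrix.smul_vecMulVec]

end Cfsg.Agent.S0839
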