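import Mathlib
import Cfsg.Statements.S0840
import Cfsg.Agent.Lib.CT.ClassMult
import Cfsg.Agent.Lib.Helper4.Invol

set_option autoImplicit false
open Cfsg

namespace Cfsg.Agent.S0840

open Cfsg.Agent.Lib.CT.Wedderburn Cfsg.Agent.Lib.CT.ClassMult Cfsg.Agent.Lib.Helper4.Invol
open scoped ComplexConjugate

theorem card_eq_mul_of_fiber {α β : Type*} [Finite α] [Finite β] (f : α → β) (k : ℕ)
    (h : ∀ b, Nat.card {a // f a = b} = k) : Nat.card α = Nat.card β * k := by
  classical
  have := Fintype.ofFinite β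
  rw [← Nat.card_congr (Equiv.sigmaFiberEquiv f), Nat.card_sigma]
  simp [h, Nat.card_eq_fintype_card]

theorem pair_count {G : Type*} [Group G] [Finite G] (a b c : G) :
    Nat.card {q : G × G // q.1 * a * q.1⁻¹ * (q.2 * b * q.2⁻¹) = c} =
      Nat.card {p : G × G // IsConj a p.1 ∧ IsConj b p.2 ∧ p.1 * p.2 = c} *
        (Nat.card (Subgroup.centralizer ({a} : Set G)) *
          Nat.card (Subgroup.centralizer ({b} : Set G))) := by
  apply card_eq_mul_of_fiber
    (fun q : {q : G × G // q.1 * a * q.1⁻¹ * (q.2 * b * q.2⁻¹) = c} =>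
      (⟨(q.1.1 * a * q.1.1⁻¹, q.1.2 * b * q.1.2⁻¹),
        isConj_iff.mpr ⟨q.1.1, rfl⟩, isConj_iff.mpr ⟨q.1.2, rfl⟩, q.2⟩ :
        {p : G × G // IsConj a p.1 ∧ IsConj b p.2 ∧ p.1 * p.2 = c}))
  rintro ⟨⟨x, y⟩, hx, hy, hxy⟩
  rw [← card_conj_fiber a x hx, ← card_conj_fiber b y hy, ← Nat.card_prod]
  apply Nat.card_congr
  refine ⟨fun q => (⟨q.1.1.1, ?_⟩, ⟨q.1.1.2, ?_⟩), fun r => ⟨⟨(r.1.1, r.2.1), ?_⟩, ?_⟩, ?_, ?_⟩
  · have := q.2
    simp only [Subtype.mk.injEq, Prod.mk.injEq] at this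
    exact this.1
  · have := q.2
    simp only [Subtype.mk.injEq, Prod.mk.injEq] at this
    exact this.2
  · simp only
    rw [r.1.2, r.2.2]
    exact hxy
  · simp only [Subtype.mk.injEq, Prod.mk.injEq]
    exact ⟨r.1.2, r.2.2⟩
  · rintro ⟨⟨⟨g, h⟩, hq⟩, hq2⟩
    rfl
  · rintro ⟨⟨g, hg⟩, ⟨h, hh⟩⟩
    rfl

/-- Class multiplication coefficients from the character table: for elements a, b, c of a finite group G, the number of ordered pairs (x, y) with x conjugate to a, y conjugate to b and x * y = c equals the product of the sizes of the conjugacy classes of a and b, divided by the order of G, times the sum over the irreducible characters χ of χ a * χ b * conj (χ c) / χ 1. -/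
theorem result {G : Type*} [Group G] [Finite G] (a b c : G) : (Nat.card {p : G × G // IsConj a p.1 ∧ IsConj b p.2 ∧ p.1 * p.2 = c} : ℂ) = (Nat.card {x : G // IsConj a x} : ℂ) * (Nat.card {x : G // IsConj b x} : ℂ) / (Nat.card G : ℂ) * ∑ᶠ χ : Cfsg.IrrCharacter G, (χ : G → ℂ) a * (χ : G → ℂ) b * conj ((χ : G → ℂ) c) / (χ : G → ℂ) 1 := by
  classical
  have := Fintype.ofFinite G
  have := finite_irrCharacter G
  have := Fintype.ofFinite (IrrCharacter G)
  rw [finsum_eq_sum_of_fintype]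
  have h1 := conj_pair_count a b c
  have h2 := pair_count a b c
  have h3 : (Finset.univ.filter fun p : G × G => p.1 * a * p.1⁻¹ * (p.2 * b * p.2⁻¹) = c).card
      = Nat.card {q : G × G // q.1 * a * q.1⁻¹ * (q.2 * b * q.2⁻¹) = c} := by
    rw [Nat.card_eq_fintype_card, Fintype.card_subtype]
  rw [h3, h2] at h1
  have hA := card_conj_mul_card_centralizer a
  have hB := card_conj_mul_card_centralizer b
  have hG : (Nat.card G : ℂ) ≠ 0 := by
    exact_mod_cast (Nat.card_pos (α := G)).ne'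
  have hCa : (Nat.card (Subgroup.centralizer ({a} : Set G)) : ℂ) ≠ 0 := by
    exact_mod_cast (Nat.card_pos (α := Subgroup.centralizer ({a} : Set G))).ne'
  have hCb : (Nat.card (Subgroup.centralizer ({b} : Set G)) : ℂ) ≠ 0 := by
    exact_mod_cast (Nat.card_pos (α := Subgroup.centralizer ({b} : Set G))).ne'
  have hA' : (Nat.card {v : G // IsConj a v} : ℂ) =
      (Nat.card G : ℂ) / (Nat.card (Subgroup.centralizer ({a} : Set G)) : ℂ) := by
    rw [eq_div_iff hCa]; exact_mod_cast hA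
  have hB' : (Nat.card {v : G // IsConj b v} : ℂ) =
      (Nat.card G : ℂ) / (Nat.card (Subgroup.centralizer ({b} : Set G)) : ℂ) := by
    rw [eq_div_iff hCb]; exact_mod_cast hB
  rw [hA', hB']
  push_cast at h1
  field_simp
  linear_combination h1

end Cfsg.Agent.S0840
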