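import Mathlib
import Cfsg.Statements.S0841

set_option autoImplicit false
open Cfsg
open scoped commutatorElement

namespace Cfsg.Agent.S0841

theorem comm_central_aux {G : Type*} [Group G] (hG : commutator G ≤ Subgroup.center G) (x y : G) :
    (y⁻¹ * x⁻¹ * y * x) ∈ Subgroup.center G := by
  apply hG
  have : y⁻¹ * x⁻¹ * y * x = ⁅y⁻¹, x⁻¹⁆ := by
    rw [commutatorElement_def]; simp
  rw [this]
  exact Subgroup.commutator_mem_commutator (Subgroup.mem_top _) (Subgroup.mem_top _)

theorem pow_swap_aux {G : Type*} [Group G] (x y c : G) (hc : c ∈ Subgroup.center G)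
    (h : y * x = x * y * c) (n : ℕ) : y ^ n * x = x * y ^ n * c ^ n := by
  have hcomm : ∀ g : G, g * c = c * g := fun g => (Subgroup.mem_center_iff.mp hc g)
  induction n with
  | zero => simp
  | succ k ih =>
    calc y ^ (k + 1) * x = y * (y ^ k * x) := by rw [pow_succ', mul_assoc]
      _ = y * (x * y ^ k * c ^ k) := by rw [ih]
      _ = (y * x) * y ^ k * c ^ k := by simp only [mul_assoc]
      _ = x * y * c * y ^ k * c ^ k := by rw [h]
      _ = x * y * (c * y ^ k) * c ^ k := by simp only [mul_assoc]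
      _ = x * y * (y ^ k * c) * c ^ k := by rw [hcomm (y ^ k)]
      _ = x * (y * y ^ k) * (c * c ^ k) := by simp only [mul_assoc]
      _ = x * y ^ (k + 1) * c ^ (k + 1) := by rw [← pow_succ', ← pow_succ']

/-- If the commutator subgroup of G lies in the centre, then for all x, y in G and every natural number n one has (x * y) ^ n = x ^ n * y ^ n * c ^ (n * (n - 1) / 2) with c = y⁻¹ * x⁻¹ * y * x. -/
theorem result {G : Type*} [Group G] (hG : commutator G ≤ Subgroup.center G) (x y : G) (n : ℕ) : (x * y) ^ n = x ^ n * y ^ n * (y⁻¹ * x⁻¹ * y * x) ^ (n * (n - 1) / 2) := by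
  set c := y⁻¹ * x⁻¹ * y * x with hc_def
  have hc : c ∈ Subgroup.center G := comm_central_aux hG x y
  have hcomm : ∀ g : G, g * c = c * g := fun g => (Subgroup.mem_center_iff.mp hc g)
  have hcommpow : ∀ (g : G) (k : ℕ), g * c ^ k = c ^ k * g := by
    intro g k
    have : c ^ k ∈ Subgroup.center G := Subgroup.pow_mem _ hc k
    exact (Subgroup.mem_center_iff.mp this g)
  have hyx : y * x = x * y * c := by
    rw [hc_def]; group
  induction n with
  | zero => simp
  | succ k ih =>
    have hT : (k + 1) * (k + 1 - 1) / 2 = k * (k - 1) / 2 + k := by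
      cases k with
      | zero => simp
      | succ j =>
        simp only [Nat.add_sub_cancel]
        have h1 : (j + 1 + 1) * (j + 1) = (j + 1) * j + 2 * (j + 1) := by ring
        rw [h1, Nat.add_mul_div_left _ _ (by norm_num : 0 < 2)]
    rw [hT, pow_succ, ih]
    calc x ^ k * y ^ k * c ^ (k * (k - 1) / 2) * (x * y)
        = x ^ k * y ^ k * (c ^ (k * (k - 1) / 2) * (x * y)) := by simp only [mul_assoc]
      _ = x ^ k * y ^ k * ((x * y) * c ^ (k * (k - 1) / 2)) := by rw [hcommpow (x * y)]
      _ = x ^ k * (y ^ k * x) * y * c ^ (k * (k - 1) / 2) := by simp only [mul_assoc]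
      _ = x ^ k * (x * y ^ k * c ^ k) * y * c ^ (k * (k - 1) / 2) := by
          rw [pow_swap_aux x y c hc hyx k]
      _ = x ^ k * x * y ^ k * (c ^ k * y) * c ^ (k * (k - 1) / 2) := by simp only [mul_assoc]
      _ = x ^ k * x * y ^ k * (y * c ^ k) * c ^ (k * (k - 1) / 2) := by rw [hcommpow y k]
      _ = (x ^ k * x) * (y ^ k * y) * (c ^ k * c ^ (k * (k - 1) / 2)) := by simp only [mul_assoc]
      _ = x ^ (k + 1) * y ^ (k + 1) * c ^ (k * (k - 1) / 2 + k) := by
          rw [← pow_succ, ← pow_succ, ← pow_add, add_comm (k * (k - 1) / 2) k]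

end Cfsg.Agent.S0841
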