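import Cfsg.Statements.S0845
import Cfsg.Agent.Lib.Helper14.BSKer

set_option autoImplicit false
open Cfsg

namespace Cfsg.Agent.S0845

/-- Suppose a Sylow 2-subgroup S of the finite group G is generalized quaternion of order at least 16. Then G has a normal subgroup M of even order such that G / M is non-abelian, that is, M does not contain the commutator subgroup of G. -/
theorem result {G : Type*} [Group G] [Finite G] (S : Sylow 2 G) (n : ℕ) (e : (S : Subgroup G) ≃* QuaternionGroup (2 ^ (n + 2))) : ∃ M : Subgroup G, M.Normal ∧ Even (Nat.card M) ∧ ¬ commutator G ≤ M := by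
  obtain ⟨M, hM, hinv, hnot⟩ := Cfsg.Agent.Lib.Helper14.BSKer.exists_kernel S n e
  refine ⟨M, hM, ?_, ?_⟩
  · have : Fact (Nat.Prime 2) := ⟨Nat.prime_two⟩
    obtain ⟨a, -, horda, -⟩ := Cfsg.Agent.Lib.Helper14.BSKer.inf_le_zpowers S n e
    have h2 : 2 ∣ Nat.card G := by
      have h := orderOf_dvd_natCard a
      rw [horda] at h
      exact dvd_trans ⟨2 ^ (n + 2), by ring⟩ h
    obtain ⟨z, hz⟩ := exists_prime_orderOf_dvd_card' 2 h2
    have hzM := hinv z hz
    have h3 : orderOf (⟨z, hzM⟩ : M) = 2 := by rw [Subgroup.orderOf_mk, hz]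
    rw [even_iff_two_dvd, ← h3]
    exact orderOf_dvd_natCard _
  · intro hle
    apply hnot
    refine le_trans ?_ hle
    rw [commutator_def]
    exact Subgroup.commutator_mono le_top le_top

end Cfsg.Agent.S0845
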