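import Cfsg.Statements.S0848
import Cfsg.Agent.Lib.Helper14.D8Char

set_option autoImplicit false
open Cfsg

namespace Cfsg.Agent.S0848

/-- If a finite group equals its own commutator subgroup and contains an involution whose centralizer is isomorphic to the dihedral group of order 8, then the group has order 168 or 360. -/
theorem result {G : Type*} [Group G] [Finite G] (hperf : commutator G = ⊤) (t : G) (ht : orderOf t = 2) (e : Subgroup.centralizer ({t} : Set G) ≃* DihedralGroup 4) : Nat.card G = 168 ∨ Nat.card G = 360 := by
  exact Cfsg.Agent.Lib.Helper14.D8Char.main e hperf ht

end Cfsg.Agent.S0848
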