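-- Statement S0849: induced class functions from a trivial-intersection set and products of involutions.
import Mathlib
import Cfsg.Statements.S0849

set_option autoImplicit false
open Cfsg

namespace Cfsg.Agent.S0849

theorem ext_coe {G : Type*} [Group G] (H : Subgroup G) (φ : H → ℂ) (h : H) :
    Cfsg.extendByZero H φ (h : G) = φ h := by
  unfold Cfsg.extendByZero
  exact Subtype.val_injective.extend_apply φ 0 h

theorem ext_not_mem {G : Type*} [Group G] (H : Subgroup G) (φ : H → ℂ) (g : G) (hg : g ∉ H) :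
    Cfsg.extendByZero H φ g = 0 := by
  unfold Cfsg.extendByZero
  rw [Function.extend_apply']
  · rfl
  · rintro ⟨a, rfl⟩
    exact hg a.2

theorem sq_of_conj {G : Type*} [Group G] (u a : G) (hu : orderOf u = 2) (h : IsConj u a) :
    a * a = 1 := by
  obtain ⟨c, hc⟩ := isConj_iff.mp h
  have hu2 : u * u = 1 := by
    have := pow_orderOf_eq_one u
    rw [hu, pow_two] at this
    exact this
  rw [← hc]
  calc c * u * c⁻¹ * (c * u * c⁻¹) = c * (u * u) * c⁻¹ := by group
    _ = 1 := by rw [hu2]; group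

theorem mem_of_ne_zero {G : Type*} [Group G] (H : Subgroup G) (S : Set G)
    (hTI : ∀ g : G, g ∉ H → ∀ s ∈ S, g * s * g⁻¹ ∉ S) (hinv : ∀ s ∈ S, s⁻¹ ∈ S) (φ : H → ℂ)
    (hφS : ∀ x : H, (x : G) ∉ S → φ x = 0) (a b : G) (ha : a * a = 1) (hb : b * b = 1)
    (hne : Cfsg.extendByZero H φ (a * b) ≠ 0) : a ∈ H ∧ b ∈ H := by
  have hab : a * b ∈ H := by
    by_contra hcon
    exact hne (ext_not_mem H φ _ hcon)
  have habS : a * b ∈ S := by
    by_contra hcon
    apply hne
    have := ext_coe H φ ⟨a * b, hab⟩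
    rw [this]
    exact hφS ⟨a * b, hab⟩ hcon
  have hainv : a⁻¹ = a := inv_eq_of_mul_eq_one_left ha
  have hbinv : b⁻¹ = b := inv_eq_of_mul_eq_one_left hb
  have haH : a ∈ H := by
    by_contra hcon
    apply hTI a hcon (a * b) habS
    have : a * (a * b) * a⁻¹ = (a * b)⁻¹ := by
      rw [mul_inv_rev, hainv, hbinv, ← mul_assoc, ha, one_mul]
    rw [this]
    exact hinv _ habS
  refine ⟨haH, ?_⟩
  have : b = a⁻¹ * (a * b) := by group
  rw [this]
  exact H.mul_mem (H.inv_mem haH) hab

/-- Let H be a subgroup of a finite group G and S a subset of H that is mapped to itself under conjugation by H, is disjoint from its conjugate by any element outside H, and is closed under inverses. Let φ be a class function of H vanishing on H away from S, and let u, v be involutions of G. Then the sum of the induced function of φ over all products a * b with a conjugate to u and b conjugate to v equals the index of H times the sum of φ (a * b) over such pairs with a and b in H. -/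
theorem result {G : Type*} [Group G] [Fintype G] (H : Subgroup G) (S : Set G) (hSH : S ⊆ H) (hHS : ∀ h ∈ H, ∀ s ∈ S, h * s * h⁻¹ ∈ S) (hTI : ∀ g : G, g ∉ H → ∀ s ∈ S, g * s * g⁻¹ ∉ S) (hinv : ∀ s ∈ S, s⁻¹ ∈ S) (φ : H → ℂ) (hφ : Cfsg.IsClassFunction H φ) (hφS : ∀ x : H, (x : G) ∉ S → φ x = 0) (u v : G) (hu : orderOf u = 2) (hv : orderOf v = 2) : ∑ᶠ p ∈ {p : G × G | IsConj u p.1 ∧ IsConj v p.2}, Cfsg.indFun H φ (p.1 * p.2) = (H.index : ℂ) * ∑ᶠ p ∈ {p : H × H | IsConj u (p.1 : G) ∧ IsConj v (p.2 : G)}, φ (p.1 * p.2) := by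
  classical
  have _ := hSH
  have _ := hHS
  have _ := hφ
  set C : Set (G × G) := {p : G × G | IsConj u p.1 ∧ IsConj v p.2} with hC
  set D : Set (H × H) := {p : H × H | IsConj u (p.1 : G) ∧ IsConj v (p.2 : G)} with hD
  set A : ℂ := ∑ p ∈ C.toFinset, Cfsg.extendByZero H φ (p.1 * p.2) with hA
  -- Step 1: the left side is |H|⁻¹ * |G| * A
  have hL : ∑ᶠ p ∈ C, Cfsg.indFun H φ (p.1 * p.2)
      = (Nat.card H : ℂ)⁻¹ * ((Fintype.card G : ℂ) * A) := by
    rw [finsum_mem_eq_toFinset_sum]
    unfold Cfsg.indFun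
    rw [← Finset.mul_sum, Finset.sum_comm]
    congr 1
    have hinner : ∀ x : G, ∑ p ∈ C.toFinset, Cfsg.extendByZero H φ (x⁻¹ * (p.1 * p.2) * x) = A := by
      intro x
      rw [hA]
      refine Finset.sum_nbij' (fun p => (x⁻¹ * p.1 * x, x⁻¹ * p.2 * x))
        (fun p => (x * p.1 * x⁻¹, x * p.2 * x⁻¹)) ?_ ?_ ?_ ?_ ?_
      · intro p hp
        rw [Set.mem_toFinset] at hp ⊢
        refine ⟨hp.1.trans (isConj_iff.mpr ⟨x⁻¹, by group⟩),
          hp.2.trans (isConj_iff.mpr ⟨x⁻¹, by group⟩)⟩
      · intro p hp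
        rw [Set.mem_toFinset] at hp ⊢
        refine ⟨hp.1.trans (isConj_iff.mpr ⟨x, by group⟩),
          hp.2.trans (isConj_iff.mpr ⟨x, by group⟩)⟩
      · intro p _
        ext <;> simp <;> group
      · intro p _
        ext <;> simp <;> group
      · intro p _
        congr 1
        simp only
        group
    rw [Finset.sum_congr rfl (fun x _ => hinner x), Finset.sum_const, Finset.card_univ,
      nsmul_eq_mul]
  -- Step 2: A is the sum over pairs in H
  have hR : A = ∑ᶠ p ∈ D, φ (p.1 * p.2) := by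
    rw [finsum_mem_eq_toFinset_sum, hA]
    rw [← Finset.sum_filter_of_ne (p := fun p : G × G => p.1 ∈ H ∧ p.2 ∈ H)]
    · symm
      refine Finset.sum_nbij (fun q : H × H => ((q.1 : G), (q.2 : G))) ?_ ?_ ?_ ?_
      · intro q hq
        rw [Set.mem_toFinset] at hq
        rw [Finset.mem_filter, Set.mem_toFinset]
        exact ⟨hq, q.1.2, q.2.2⟩
      · intro q _ q' _ hqq
        simp only [Prod.mk.injEq] at hqq
        exact Prod.ext (Subtype.ext hqq.1) (Subtype.ext hqq.2)
      · intro p hp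
        rw [Finset.coe_filter] at hp
        obtain ⟨hpC, hp1, hp2⟩ := hp
        rw [Set.mem_toFinset] at hpC
        refine ⟨(⟨p.1, hp1⟩, ⟨p.2, hp2⟩), ?_, rfl⟩
        rw [Finset.mem_coe, Set.mem_toFinset]
        exact hpC
      · intro q _
        have := ext_coe H φ (q.1 * q.2)
        rw [← this]
        rfl
    · intro p hp hne
      rw [Set.mem_toFinset] at hp
      exact mem_of_ne_zero H S hTI hinv φ hφS p.1 p.2 (sq_of_conj u p.1 hu hp.1)
        (sq_of_conj v p.2 hv hp.2) hne
  rw [hL, ← hR]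
  have hcard : (H.index : ℂ) * (Nat.card H : ℂ) = (Fintype.card G : ℂ) := by
    rw [← Nat.cast_mul, Subgroup.index_mul_card, Nat.card_eq_fintype_card]
  have hH0 : (Nat.card H : ℂ) ≠ 0 := by
    rw [Nat.cast_ne_zero]
    exact Nat.card_pos.ne'
  rw [← hcard]
  field_simp

end Cfsg.Agent.S0849
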