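import Cfsg.Statements.S0850
-- import your own Cfsg.Agent.* helpers here
import Mathlib.GroupTheory.PGroup
import Mathlib.GroupTheory.OrderOfElement
import Cfsg.Agent.Lib.CT.FrobRec

set_option autoImplicit false
open Cfsg

namespace Cfsg.Agent.S0850

open Cfsg.Agent.Lib.CT

section Aux

variable {G : Type*} [Group G] (K : Subgroup G)

/-- Conjugation action of the cyclic group generated by a normalizing element on `K`. -/
@[instance_reducible]
def zpowersAction (x : G) (hx : x ∈ Subgroup.normalizer (K : Set G)) :
    MulAction (Subgroup.zpowers x) K where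
  smul u k := ⟨(u : G) * k * (u : G)⁻¹, by
    have hu : (u : G) ∈ Subgroup.normalizer (K : Set G) :=
      (Subgroup.zpowers_le.mpr hx) u.2
    exact (hu k).mp k.2⟩
  one_smul k := by
    apply Subtype.ext
    simp [HSMul.hSMul]
  mul_smul u v k := by
    apply Subtype.ext
    simp [HSMul.hSMul, mul_assoc]

/-- Key step: an element of the normalizer that is conjugate into `K` lies in `K`. -/
theorem mem_of_conj_mem [Finite G]
    (hC : ∀ k ∈ K, k ≠ 1 → Subgroup.centralizer ({k} : Set G) ≤ K) :
    ∀ (n : ℕ) (x : G), orderOf x = n → x ∈ Subgroup.normalizer (K : Set G) →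
      ∀ g : G, g * x * g⁻¹ ∈ K → x ∈ K := by
  intro n
  induction n using Nat.strong_induction_on with
  | _ n ih =>
    intro x hxn hxN g hgx
    by_cases hn1 : n = 1
    · rw [hn1, orderOf_eq_one_iff] at hxn
      rw [hxn]
      exact K.one_mem
    have hnpos : 0 < n := by
      rw [← hxn]
      exact orderOf_pos x
    obtain ⟨p, hp, hpn⟩ := Nat.exists_prime_and_dvd hn1
    -- powers of x by primes dividing n lie in K by induction
    have hpow : ∀ q : ℕ, q.Prime → q ∣ n → x ^ q ∈ K := by
      intro q hq hqn
      have hord : orderOf (x ^ q) = n / q := by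
        rw [orderOf_pow' x hq.ne_zero, hxn, Nat.gcd_eq_right hqn]
      have hlt : n / q < n := Nat.div_lt_self hnpos hq.one_lt
      refine ih (n / q) hlt (x ^ q) hord (Subgroup.pow_mem _ hxN q) g ?_
      have : g * x ^ q * g⁻¹ = (g * x * g⁻¹) ^ q := by
        rw [conj_pow]
      rw [this]
      exact K.pow_mem hgx q
    by_cases hq : ∃ q : ℕ, q.Prime ∧ q ∣ n ∧ q ≠ p
    · obtain ⟨q, hq, hqn, hqp⟩ := hq
      have hcop : Nat.Coprime p q := (Nat.coprime_primes hp hq).mpr (Ne.symm hqp)
      have h1 : x ^ (Nat.gcd p q : ℤ) ∈ K := by
        rw [Nat.gcd_eq_gcd_ab p q, zpow_add, zpow_mul, zpow_mul]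
        apply K.mul_mem
        · exact K.zpow_mem (by simpa using hpow p hp hpn) _
        · exact K.zpow_mem (by simpa using hpow q hq hqn) _
      rw [hcop] at h1
      simpa using h1
    · push Not at hq
      have hnp : n = p ^ n.primeFactorsList.length :=
        Nat.eq_prime_pow_of_unique_prime_dvd hnpos.ne' (fun {d} hd hdn => hq d hd hdn)
      by_contra hxK
      have : Fact p.Prime := ⟨hp⟩
      let _ : MulAction (Subgroup.zpowers x) K := zpowersAction K x hxN
      have hsmul : ∀ (u : Subgroup.zpowers x) (k : K), ((u • k : K) : G) = (u : G) * k * (u : G)⁻¹ :=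
        fun u k => rfl
      have hPG : IsPGroup p (Subgroup.zpowers x) := by
        apply IsPGroup.of_card (n := n.primeFactorsList.length)
        rw [Nat.card_zpowers, hxn]
        exact hnp
      have key := hPG.card_modEq_card_fixedPoints K
      have hfix : Nat.card (MulAction.fixedPoints (Subgroup.zpowers x) K) = 1 := by
        rw [Nat.card_eq_one_iff_unique]
        refine ⟨⟨?_⟩, ⟨⟨1, ?_⟩⟩⟩
        · rintro ⟨a, ha⟩ ⟨b, hb⟩
          have hone : ∀ k : K, k ∈ MulAction.fixedPoints (Subgroup.zpowers x) K → k = 1 := by
            intro k hk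
            by_contra hk1
            apply hxK
            have hk1' : (k : G) ≠ 1 := fun h => hk1 (Subtype.ext h)
            apply hC k k.2 hk1'
            rw [Subgroup.mem_centralizer_iff]
            intro y hy
            rw [Set.mem_singleton_iff] at hy
            subst hy
            have h2 := hk ⟨x, Subgroup.mem_zpowers x⟩
            have h3 := congrArg (Subtype.val) h2
            rw [hsmul] at h3
            exact (mul_inv_eq_iff_eq_mul.mp h3).symm
          have ea := hone a ha
          have eb := hone b hb
          subst ea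
          subst eb
          rfl
        · intro u
          apply Subtype.ext
          rw [hsmul]
          simp
      rw [hfix] at key
      -- but p divides the order of K
      have hdvd : p ∣ Nat.card K := by
        have hy : orderOf (g * x * g⁻¹) = n := by
          have := orderOf_injective (MulAut.conj g).toMonoidHom (MulAut.conj g).injective x
          rw [← hxn, ← this]
          rfl
        have h1 : orderOf (⟨g * x * g⁻¹, hgx⟩ : K) = n := by
          rw [← hy]
          exact (Subgroup.orderOf_mk _ hgx)
        have h2 : n ∣ Nat.card K := by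
          rw [← h1]
          exact orderOf_dvd_natCard _
        exact dvd_trans hpn h2
      have h0 : Nat.card K ≡ 0 [MOD p] := (Nat.modEq_zero_iff_dvd).mpr hdvd
      have h01 : 0 ≡ 1 [MOD p] := h0.symm.trans key
      have := (Nat.modEq_zero_iff_dvd).mp h01.symm
      exact hp.one_lt.ne' (Nat.dvd_one.mp this)

end Aux


/-- Let K be a subgroup of the finite group G that meets each conjugate by an element outside its normalizer N trivially, is properly contained in N, and contains the centralizer of each of its non-identity elements (a T.I. subgroup with Frobenius normalizer). Then no element of N outside K is conjugate in G to an element of K, and for every class function ϑ of N that vanishes on N away from K and at the identity, the function induced from ϑ to G agrees with ϑ on all of N. -/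
theorem result {G : Type*} [Group G] [Fintype G] (K : Subgroup G) (hTI : ∀ g : G, g ∉ Subgroup.normalizer (K : Set G) → ∀ k ∈ K, g * k * g⁻¹ ∈ K → k = 1) (hlt : K < Subgroup.normalizer (K : Set G)) (hC : ∀ k ∈ K, k ≠ 1 → Subgroup.centralizer ({k} : Set G) ≤ K) : (∀ x ∈ Subgroup.normalizer (K : Set G), x ∉ K → ∀ g : G, g * x * g⁻¹ ∉ K) ∧ ∀ (ϑ : Subgroup.normalizer (K : Set G) → ℂ), Cfsg.IsClassFunction (Subgroup.normalizer (K : Set G)) ϑ → (∀ x : Subgroup.normalizer (K : Set G), (x : G) ∉ K → ϑ x = 0) → ϑ 1 = 0 → ∀ x : Subgroup.normalizer (K : Set G), Cfsg.indFun (Subgroup.normalizer (K : Set G)) ϑ x = ϑ x := by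
  classical
  have part1 : ∀ x ∈ Subgroup.normalizer (K : Set G), x ∉ K → ∀ g : G, g * x * g⁻¹ ∉ K := by
    intro x hxN hxK g hg
    exact hxK (mem_of_conj_mem K hC (orderOf x) x rfl hxN g hg)
  refine ⟨part1, ?_⟩
  intro ϑ hcf hvan h1 x
  rw [FrobRec.indFun_apply]
  have hNpos : (Nat.card (Subgroup.normalizer (K : Set G)) : ℂ) ≠ 0 := by
    exact_mod_cast (Nat.card_pos (α := Subgroup.normalizer (K : Set G))).ne'
  by_cases hxK : (x : G) ∈ K
  · by_cases hx1 : x = 1
    · subst hx1
      have h0 : extendByZero (Subgroup.normalizer (K : Set G)) ϑ (1 : G) = 0 := by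
        have := FrobRec.extendByZero_apply_coe (Subgroup.normalizer (K : Set G)) ϑ 1
        rw [Subgroup.coe_one] at this
        rw [this, h1]
      simp [h0, h1]
    · have hx1' : (x : G) ≠ 1 := fun h => hx1 (Subtype.ext h)
      have hterm : ∀ g : G, extendByZero (Subgroup.normalizer (K : Set G)) ϑ (g⁻¹ * (x : G) * g) =
          if g ∈ Subgroup.normalizer (K : Set G) then ϑ x else 0 := by
        intro g
        by_cases hg : g ∈ Subgroup.normalizer (K : Set G)
        · rw [if_pos hg]
          have hmem : g⁻¹ * (x : G) * g ∈ Subgroup.normalizer (K : Set G) :=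
            Subgroup.mul_mem _ (Subgroup.mul_mem _ (Subgroup.inv_mem _ hg) x.2) hg
          rw [FrobRec.extendByZero_apply_of_mem _ _ hmem]
          have := hcf x (⟨g, hg⟩⁻¹ : Subgroup.normalizer (K : Set G))
          rw [← this]
          congr 1
          apply Subtype.ext
          simp
        · rw [if_neg hg]
          have hnotK : g⁻¹ * (x : G) * g ∉ K := by
            intro hmem
            have hg' : g⁻¹ ∉ Subgroup.normalizer (K : Set G) := fun h => hg (by simpa using Subgroup.inv_mem _ h)
            apply hx1'
            apply hTI g⁻¹ hg' (x : G) hxK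
            simpa using hmem
          by_cases hmemN : g⁻¹ * (x : G) * g ∈ Subgroup.normalizer (K : Set G)
          · rw [FrobRec.extendByZero_apply_of_mem _ _ hmemN]
            exact hvan ⟨_, hmemN⟩ hnotK
          · exact FrobRec.extendByZero_apply_of_not_mem _ _ hmemN
      simp_rw [hterm]
      rw [Finset.sum_ite, Finset.sum_const_zero, add_zero, Finset.sum_const, nsmul_eq_mul]
      have hcard : ((Finset.univ.filter (fun g : G => g ∈ Subgroup.normalizer (K : Set G))).card : ℂ) =
          (Nat.card (Subgroup.normalizer (K : Set G)) : ℂ) := by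
        rw [Nat.card_eq_fintype_card, Fintype.card_subtype]
      rw [hcard, ← mul_assoc, inv_mul_cancel₀ hNpos, one_mul]
  · rw [hvan x hxK]
    have : ∀ g : G, extendByZero (Subgroup.normalizer (K : Set G)) ϑ (g⁻¹ * (x : G) * g) = 0 := by
      intro g
      have hnotK : g⁻¹ * (x : G) * g ∉ K := by
        have := part1 (x : G) x.2 hxK g⁻¹
        simpa using this
      by_cases hmemN : g⁻¹ * (x : G) * g ∈ Subgroup.normalizer (K : Set G)
      · rw [FrobRec.extendByZero_apply_of_mem _ _ hmemN]
        exact hvan ⟨_, hmemN⟩ hnotK
      · exact FrobRec.extendByZero_apply_of_not_mem _ _ hmemN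
    simp [this]

end Cfsg.Agent.S0850
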