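import Mathlib
import Cfsg.Statements.S0855
import Cfsg.Agent.S4456
import Cfsg.Agent.S0169
import Cfsg.Agent.S0187
import Cfsg.Agent.Lib.Helper81.CliffCorr
import Cfsg.Agent.Lib.Helper81.Cliff
import Cfsg.Agent.Lib.Helper81.Mult
import Cfsg.Agent.Lib.CT.IndChar
import Cfsg.Agent.Lib.CT.FrobRec
import Cfsg.Agent.Lib.Helper80.Integrality
import Cfsg.Agent.Lib.Helper3.Irr
-- import your own Cfsg.Agent.* helpers here

set_option autoImplicit false
open Cfsg

namespace Cfsg.Agent.S0855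


/-- For a finite group G and a prime p: every irreducible character of G has degree a power of p if and only if G has an abelian normal subgroup whose order is prime to p and whose index is a power of p. -/
theorem result {G : Type*} [Group G] [Finite G] (p : ℕ) (hp : p.Prime) : (∀ χ : Cfsg.IrrCharacter G, ∃ k : ℕ, (χ : G → ℂ) 1 = (p : ℂ) ^ k) ↔ ∃ A : Subgroup G, A.Normal ∧ (∀ a ∈ A, ∀ b ∈ A, a * b = b * a) ∧ Nat.Coprime (Nat.card A) p ∧ ∃ k : ℕ, A.index = p ^ k := by
  classical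
  constructor
  · intro hall
    have hdegpow : ∀ χ : Cfsg.IrrCharacter G, ∃ k : ℕ, Cfsg.charDegree (χ : G → ℂ) = p ^ k := by
      intro χ
      obtain ⟨k, hk⟩ := hall χ
      refine ⟨k, ?_⟩
      have := Cfsg.Agent.Lib.Helper81.CliffCorr.deg_cast χ
      rw [hk] at this
      exact_mod_cast this.symm
    have hdeg : ∀ χ : Cfsg.IrrCharacter G, Cfsg.charDegree (χ : G → ℂ) ≠ 1 →
        p ∣ Cfsg.charDegree (χ : G → ℂ) := by
      intro χ hne
      obtain ⟨k, h1⟩ := hdegpow χ
      rw [h1] at hne ⊢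
      rcases Nat.eq_zero_or_pos k with rfl | hkpos
      · simp at hne
      · exact dvd_pow_self p hkpos.ne'
    obtain ⟨N, hNn, hcop, k, hk⟩ := Cfsg.Agent.S4456.result p hp hdeg
    haveI := hNn
    refine ⟨N, hNn, ?_, hcop, k, hk⟩
    have hab : ∀ a b : N, a * b = b * a := by
      rw [Cfsg.Agent.S0187.result]
      intro θ
      haveI : Fintype G := Fintype.ofFinite G
      haveI : Fintype N := Fintype.ofFinite N
      haveI := Cfsg.Agent.Lib.Helper3.Irr.finite_irrCharacter (G := G)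
      haveI : Fintype (Cfsg.IrrCharacter G) := Fintype.ofFinite _
      haveI := Cfsg.Agent.Lib.Helper3.Irr.finite_irrCharacter (G := N)
      haveI : Fintype (Cfsg.IrrCharacter N) := Fintype.ofFinite _
      have hθc := Cfsg.Agent.Lib.Helper81.Cliff.irr_isCharacter θ
      have hΨ : Cfsg.IsCharacter G (Cfsg.indFun N θ.1) :=
        Cfsg.Agent.Lib.CT.IndChar.isCharacter_indFun N θ.1 hθc
      have hΨdeg : Cfsg.charDegree (Cfsg.indFun N θ.1) ≠ 0 := by
        intro h0
        have h1 := Cfsg.Agent.Lib.Helper80.Integrality.apply_one_eq_charDegree hΨ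
        rw [h0, Cfsg.Agent.Lib.CT.FrobRec.indFun_one,
          Cfsg.Agent.Lib.Helper81.CliffCorr.deg_cast θ] at h1
        have h2 : N.index * Cfsg.charDegree θ.1 = 0 := by exact_mod_cast h1
        rcases Nat.mul_eq_zero.mp h2 with h | h
        · exact Subgroup.index_ne_zero_of_finite h
        · exact (Cfsg.Agent.Lib.Helper81.CliffCorr.deg_pos θ).ne' h
      obtain ⟨χ, hχ⟩ := Cfsg.Agent.Lib.Helper81.CliffCorr.exists_constituent hΨ hΨdeg
      have hm : Cfsg.Agent.Lib.Helper81.Mult.mult (Cfsg.Agent.Lib.Helper81.Cliff.res N χ.1) θ ≠ 0 := by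
        intro h0
        apply hχ
        have h1 := Cfsg.Agent.Lib.Helper81.Mult.mult_cast hΨ χ
        rw [Cfsg.Agent.Lib.Helper81.Cliff.multC_indFun N θ χ,
          ← Cfsg.Agent.Lib.Helper81.Mult.mult_cast
            (Cfsg.Agent.Lib.Helper81.Cliff.isCharacter_res N
              (Cfsg.Agent.Lib.Helper81.Cliff.irr_isCharacter χ)) θ, h0] at h1
        exact_mod_cast h1
      have hdo := Cfsg.Agent.Lib.Helper81.CliffCorr.degree_over N χ θ hm
      obtain ⟨k', h1⟩ := hdegpow χ
      have h2 : Cfsg.charDegree θ.1 ∣ p ^ k' := by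
        rw [← h1, hdo]
        exact Dvd.dvd.mul_left (Dvd.intro_left _ rfl) _
      have h3 : Cfsg.charDegree θ.1 ∣ Nat.card N :=
        Cfsg.Agent.Lib.Helper80.Integrality.charDegree_dvd_card θ
      have h4 : Cfsg.charDegree θ.1 = 1 :=
        Nat.eq_one_of_dvd_coprimes (Nat.Coprime.pow_right k' hcop) h3 h2
      rw [Cfsg.Agent.Lib.Helper81.CliffCorr.deg_cast θ, h4]
      simp
    intro a ha b hb
    exact congrArg Subtype.val (hab ⟨a, ha⟩ ⟨b, hb⟩)
  · rintro ⟨A, hAn, hAab, hcop, k, hk⟩ χ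
    obtain ⟨n, ρ, hρ, hχ⟩ := χ.2
    haveI := hAn
    have h1 : n ∣ A.index := Cfsg.Agent.S0169.ito ρ hρ A hAab
    rw [hk] at h1
    obtain ⟨j, -, hj⟩ := (Nat.dvd_prime_pow hp).mp h1
    refine ⟨j, ?_⟩
    rw [← hχ, Representation.char_one]
    simp [hj]

end Cfsg.Agent.S0855
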