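import Cfsg.Statements.S0856
import Mathlib
import Cfsg.Agent.Lib.Helper78.Gallagher

set_option autoImplicit false
open Cfsg

namespace Cfsg.Agent.S0856

/-- Let N be a normal subgroup of the finite group G and φ, ϑ irreducible characters of N that are invariant under conjugation by G, such that the pointwise product φ * ϑ is irreducible and ϑ is the restriction of an irreducible character χ of G. Then multiplication by χ is a bijection from the set of irreducible characters of G having nonzero inner product with the function induced from φ onto the set of those having nonzero inner product with the function induced from φ * ϑ. -/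
theorem result {G : Type*} [Group G] [Fintype G] (N : Subgroup G) [hN : N.Normal] (φ ϑ : N → ℂ) (hφ : Cfsg.IsIrrCharacter N φ) (hϑ : Cfsg.IsIrrCharacter N ϑ) (hφinv : ∀ (g : G) (n : N), φ ⟨g * n * g⁻¹, hN.conj_mem (n : G) n.2 g⟩ = φ n) (hϑinv : ∀ (g : G) (n : N), ϑ ⟨g * n * g⁻¹, hN.conj_mem (n : G) n.2 g⟩ = ϑ n) (hprod : Cfsg.IsIrrCharacter N (φ * ϑ)) (χ : G → ℂ) (hχ : Cfsg.IsIrrCharacter G χ) (hext : ∀ n : N, χ n = ϑ n) : Set.BijOn (fun β : G → ℂ => β * χ) {β : G → ℂ | Cfsg.IsIrrCharacter G β ∧ Cfsg.classInner (Cfsg.indFun N φ) β ≠ 0} {ψ : G → ℂ | Cfsg.IsIrrCharacter G ψ ∧ Cfsg.classInner (Cfsg.indFun N (φ * ϑ)) ψ ≠ 0} := by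
  classical
  have : Fintype N := Fintype.ofFinite _
  have hfun : (fun n : N => φ n * χ n) = φ * ϑ := by
    funext n
    rw [hext]
    rfl
  have hprod' : Cfsg.IsIrrCharacter N (fun n : N => φ n * χ n) := by
    rw [hfun]
    exact hprod
  obtain ⟨h1, h2, h3⟩ :=
    Cfsg.Agent.Lib.Helper78.Gallagher.gallagher_core N hN φ hφ hφinv χ hχ hprod'
  rw [hfun] at h1 h3
  refine ⟨?_, ?_, ?_⟩
  · rintro β ⟨hβ, hβ'⟩
    exact h1 ⟨β, hβ⟩ hβ'
  · rintro β ⟨hβ, hβ'⟩ β' ⟨hβ1, hβ1'⟩ heq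
    have := h2 ⟨β, hβ⟩ ⟨β', hβ1⟩ hβ' hβ1' heq
    exact congrArg Subtype.val this
  · rintro ψ ⟨hψ, hψ'⟩
    obtain ⟨β, hβ, hβψ⟩ := h3 ⟨ψ, hψ⟩ hψ'
    exact ⟨β, ⟨β.2, hβ⟩, hβψ⟩

end Cfsg.Agent.S0856
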