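import Cfsg.Statements.S0868
-- import your own Cfsg.Agent.* helpers here
import Mathlib
import Cfsg.Agent.Lib.Helper15.CosetAvg
import Cfsg.Agent.Lib.Helper78.Gallagher

set_option autoImplicit false
open scoped ComplexConjugate
open Cfsg

namespace Cfsg.Agent.S0868

open Cfsg.Agent.Lib.CT Cfsg.Agent.Lib.CT.Wedderburn Cfsg.Agent.Lib.Helper15.CliffTools
  Cfsg.Agent.Lib.Helper15.CosetAvg

/-- Let N be a normal subgroup of the finite group G, χ an irreducible character of G whose restriction ϑ to N is irreducible, and ψ an irreducible character of G. Define η on G by η g = (1 / order of N) * Σ over n in N of ψ (n * g) * conj (χ (n * g)). Then: if the restriction of ψ to N has nonzero inner product with ϑ, η is an irreducible character of G; if that inner product is zero, η vanishes identically; and if ψ = χ then η is identically 1. -/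
theorem result {G : Type*} [Group G] [Fintype G] (N : Subgroup G) [N.Normal] [Fintype N] (χ : G → ℂ) (hχ : Cfsg.IsIrrCharacter G χ) (hχN : Cfsg.IsIrrCharacter N (fun n : N => χ n)) (ψ : G → ℂ) (hψ : Cfsg.IsIrrCharacter G ψ) (η : G → ℂ) (hη : η = fun g => (Nat.card N : ℂ)⁻¹ * ∑ n : N, ψ ((n : G) * g) * conj (χ ((n : G) * g))) : (Cfsg.classInner (fun n : N => ψ n) (fun n : N => χ n) ≠ 0 → Cfsg.IsIrrCharacter G η) ∧ (Cfsg.classInner (fun n : N => ψ n) (fun n : N => χ n) = 0 → η = 0) ∧ (ψ = χ → η = fun _ => 1) := by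
  classical
  have hNn : N.Normal := inferInstance
  have := finite_irrCharacter G
  have : Fintype (Cfsg.IrrCharacter G) := Fintype.ofFinite _
  have hψc : Cfsg.IsCharacter G ψ := isCharacter_of_irr hψ
  have hχc : Cfsg.IsCharacter G χ := isCharacter_of_irr hχ
  have hηavg : η = avg N (fun g => ψ g * conj (χ g)) := by
    rw [hη]
    rfl
  have hfcf : Cfsg.IsClassFunction G (fun g => ψ g * conj (χ g)) := by
    intro g h
    simp only
    rw [char_isClassFunction hψc g h, char_isClassFunction hχc g h]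
  have hηcf : Cfsg.IsClassFunction G η := by
    rw [hηavg]
    exact avg_isClassFunction N hfcf
  have hinner : ∀ β : Cfsg.IrrCharacter G, Cfsg.classInner η (β : G → ℂ) =
      if (∀ n : N, (β : G → ℂ) n = (β : G → ℂ) 1) then Cfsg.classInner ψ ((β : G → ℂ) * χ)
      else 0 := by
    intro β
    rw [hηavg, classInner_avg N _ β.2]
    by_cases hβ : ∀ n : N, (β : G → ℂ) n = (β : G → ℂ) 1
    · rw [if_pos hβ, if_pos hβ]
      unfold Cfsg.classInner
      congr 1
      apply Finset.sum_congr rfl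
      intro g _
      simp only [Pi.mul_apply, map_mul]
      ring
    · rw [if_neg hβ, if_neg hβ]
  have hone : Cfsg.IsIrrCharacter N (fun _ : N => (1 : ℂ)) := Ops.isIrrCharacter_one
  have hprod : Cfsg.IsIrrCharacter N (fun n : N => (fun _ : N => (1 : ℂ)) n * χ n) := by
    simpa using hχN
  obtain ⟨hG1, hG2, hG3⟩ := Cfsg.Agent.Lib.Helper78.Gallagher.gallagher_core N hNn
    (fun _ => 1) hone (fun _ _ => rfl) χ hχ hprod
  have hover : ∀ β : Cfsg.IrrCharacter G, (∀ n : N, (β : G → ℂ) n = (β : G → ℂ) 1) →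
      Cfsg.classInner (Cfsg.indFun N (fun _ => 1)) (β : G → ℂ) ≠ 0 := by
    intro β hβ
    rw [FrobRec.frobenius_reciprocity N _ _ (char_isClassFunction (isCharacter_of_irr β.2))]
    unfold Cfsg.classInner
    simp_rw [hβ]
    rw [Finset.sum_const, Finset.card_univ, nsmul_eq_mul, ← Nat.card_eq_fintype_card, one_mul,
      ← mul_assoc, inv_mul_cancel₀ (Nat.cast_ne_zero.mpr Nat.card_pos.ne'), one_mul]
    exact (map_ne_zero _).mpr (irr_apply_one_ne_zero β.2)
  have hover' : ∀ β : Cfsg.IrrCharacter G,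
      Cfsg.classInner (Cfsg.indFun N (fun _ => 1)) (β : G → ℂ) ≠ 0 →
      (∀ n : N, (β : G → ℂ) n = (β : G → ℂ) 1) := by
    intro β h
    by_contra hnt
    apply h
    rw [FrobRec.frobenius_reciprocity N _ _ (char_isClassFunction (isCharacter_of_irr β.2))]
    unfold Cfsg.classInner
    simp only [one_mul]
    rw [← map_sum, sum_subgroup_irr_of_not_trivial N β.2 hnt]
    simp
  have hzero : ∀ β : Cfsg.IrrCharacter G, (∀ n : N, (β : G → ℂ) n = (β : G → ℂ) 1) →
      (β : G → ℂ) * χ ≠ ψ → Cfsg.classInner ψ ((β : G → ℂ) * χ) = 0 := by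
    intro β hβ hne
    have hirr := (hG1 β (hover β hβ)).1
    have h2 := irr_orthonormal (⟨ψ, hψ⟩ : Cfsg.IrrCharacter G) ⟨(β : G → ℂ) * χ, hirr⟩
    rw [if_neg (fun heq => hne (congrArg Subtype.val heq).symm)] at h2
    exact h2
  have key : ∀ β₀ : Cfsg.IrrCharacter G, (∀ n : N, (β₀ : G → ℂ) n = (β₀ : G → ℂ) 1) →
      (β₀ : G → ℂ) * χ = ψ → η = (β₀ : G → ℂ) := by
    intro β₀ hβ₀ hprodψ
    funext g
    rw [Orth.classFunction_expand_sum η hηcf g, Finset.sum_eq_single β₀]
    · rw [hinner, if_pos hβ₀, hprodψ, NormOne.inner_self_eq_one_of_irr hψ, one_mul]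
    · intro β _ hne
      rw [hinner]
      by_cases hβ : ∀ n : N, (β : G → ℂ) n = (β : G → ℂ) 1
      · rw [if_pos hβ, hzero β hβ, zero_mul]
        intro heq
        apply hne
        apply hG2 β β₀ (hover β hβ) (hover β₀ hβ₀)
        rw [hprodψ]
        exact heq
      · rw [if_neg hβ, zero_mul]
    · intro h
      exact absurd (Finset.mem_univ _) h
  refine ⟨?_, ?_, ?_⟩
  · intro hcon
    have h1 : Cfsg.classInner (Cfsg.indFun N (fun n : N => (fun _ : N => (1 : ℂ)) n * χ n))
        ψ ≠ 0 := by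
      rw [FrobRec.frobenius_reciprocity N _ ψ (char_isClassFunction hψc),
        Clifford.classInner_conj_symm]
      simp only [one_mul]
      exact (map_ne_zero _).mpr hcon
    obtain ⟨β₀, hβ₀, hβ₀ψ⟩ := hG3 ⟨ψ, hψ⟩ h1
    rw [key β₀ (hover' β₀ hβ₀) hβ₀ψ]
    exact β₀.2
  · intro hcon
    funext g
    rw [Orth.classFunction_expand_sum η hηcf g]
    apply Finset.sum_eq_zero
    intro β _
    rw [hinner]
    by_cases hβ : ∀ n : N, (β : G → ℂ) n = (β : G → ℂ) 1
    · rw [if_pos hβ, hzero β hβ, zero_mul]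
      intro heq
      have h3 : (fun n : N => ψ n) = ((β : G → ℂ) 1) • (fun n : N => χ n) := by
        funext n
        rw [← heq]
        simp only [Pi.mul_apply, Pi.smul_apply, smul_eq_mul]
        rw [hβ n]
      rw [h3, Orth.classInner_smul_left, NormOne.inner_self_eq_one_of_irr hχN, mul_one] at hcon
      exact irr_apply_one_ne_zero β.2 hcon
    · rw [if_neg hβ, zero_mul]
  · intro hψχ
    have h4 := key ⟨fun _ => 1, Ops.isIrrCharacter_one⟩ (fun _ => rfl) (by
      rw [hψχ]
      funext g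
      simp)
    rw [h4]

end Cfsg.Agent.S0868
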