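import Cfsg.Statements.S0869
import Mathlib
-- import your own Cfsg.Agent.* helpers here

set_option autoImplicit false
open Cfsg

namespace Cfsg.Agent.S0869

/-- A maximal ideal of the integers is generated by a prime natural number. -/
theorem exists_prime_of_ne_top (I : Ideal ℤ) (hI : I ≠ ⊤) :
    ∃ p : ℕ, p.Prime ∧ ∀ a ∈ I, (p : ℤ) ∣ a := by
  obtain ⟨M, hM, hIM⟩ := Ideal.exists_le_maximal I hI
  have hMbot : M ≠ ⊥ := Ring.ne_bot_of_isMaximal_of_not_isField hM Int.not_isField
  have hprime : Prime (Submodule.IsPrincipal.generator M) :=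
    Submodule.IsPrincipal.prime_generator_of_isPrime M hMbot
  refine ⟨(Submodule.IsPrincipal.generator M).natAbs, Int.prime_iff_natAbs_prime.mp hprime, ?_⟩
  intro a ha
  rw [Int.natAbs_dvd]
  have h2 : a ∈ M := hIM ha
  rw [← Ideal.span_singleton_generator M, Ideal.mem_span_singleton] at h2
  exact h2

/-- Let S be a nonempty finite type and R an additive subgroup of the integer-valued functions on S that is closed under pointwise multiplication. If the constant function 1 is not in R, then there exist a point x of S and a prime p such that p divides f x for every f in R. -/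
theorem result {S : Type*} [Finite S] [Nonempty S] (R : AddSubgroup (S → ℤ)) (hmul : ∀ f ∈ R, ∀ g ∈ R, f * g ∈ R) (h1 : (1 : S → ℤ) ∉ R) : ∃ (x : S) (p : ℕ), p.Prime ∧ ∀ f ∈ R, (p : ℤ) ∣ f x := by
  classical
  have := Fintype.ofFinite S
  by_contra hcon
  push Not at hcon
  -- for every point there is a member of R with value one there
  have hex : ∀ x : S, ∃ f ∈ R, f x = 1 := by
    intro x
    let I : Ideal ℤ := AddSubgroup.toIntSubmodule (R.map (Pi.evalAddMonoidHom (fun _ : S => ℤ) x))
    have hmem : ∀ a : ℤ, a ∈ I ↔ ∃ f ∈ R, f x = a := by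
      intro a
      change a ∈ (R.map (Pi.evalAddMonoidHom (fun _ : S => ℤ) x)) ↔ _
      rw [AddSubgroup.mem_map]
      rfl
    by_cases hI : I = ⊤
    · have : (1 : ℤ) ∈ I := by rw [hI]; trivial
      exact (hmem 1).mp this
    · exfalso
      obtain ⟨p, hp, hdiv⟩ := exists_prime_of_ne_top I hI
      obtain ⟨f, hf, hnd⟩ := hcon x p hp
      exact hnd (hdiv (f x) ((hmem (f x)).mpr ⟨f, hf, rfl⟩))
  choose f hfR hf1 using hex
  have key : ∀ s : Finset S, (1 - ∏ x ∈ s, (1 - f x)) ∈ R := by
    intro s
    induction s using Finset.induction_on with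
    | empty => simp
    | insert a s ha ih =>
      rw [Finset.prod_insert ha]
      have h2 : 1 - (1 - f a) * ∏ x ∈ s, (1 - f x) =
          (1 - ∏ x ∈ s, (1 - f x)) + f a - f a * (1 - ∏ x ∈ s, (1 - f x)) := by ring
      rw [h2]
      exact R.sub_mem (R.add_mem ih (hfR a)) (hmul _ (hfR a) _ ih)
  have hzero : ∏ x ∈ (Finset.univ : Finset S), (1 - f x) = 0 := by
    funext y
    rw [Finset.prod_apply]
    apply Finset.prod_eq_zero (Finset.mem_univ y)
    simp [hf1]
  have := key Finset.univ
  rw [hzero, sub_zero] at this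
  exact h1 this

end Cfsg.Agent.S0869
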