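import Cfsg.Statements.S0870
-- import your own Cfsg.Agent.* helpers here
import Mathlib
import Cfsg.Agent.Lib.Helper3.BrauerPerm

set_option autoImplicit false
open Cfsg

namespace Cfsg.Agent.S0870

/-- For subgroups H and K of a finite group G, the pointwise product of the functions induced from the constant function 1 on H and on K is a sum, over subgroups U of H with natural-number coefficients, of the functions induced from the constant function 1 on U. -/
theorem result {G : Type*} [Group G] [Fintype G] (H K : Subgroup G) : ∃ a : Subgroup G → ℕ, (∀ U, a U ≠ 0 → U ≤ H) ∧ Cfsg.indFun H (fun _ => 1) * Cfsg.indFun K (fun _ => 1) = ∑ U : Subgroup G, (a U : ℂ) • Cfsg.indFun U (fun _ => 1) := by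
  classical
  have : Fintype H := Fintype.ofFinite _
  have : Fintype (MulAction.orbitRel.Quotient H (G ⧸ K)) := Fintype.ofFinite _
  let F : MulAction.orbitRel.Quotient H (G ⧸ K) → Subgroup G :=
    fun ω => (MulAction.stabilizer H ω.out).map H.subtype
  refine ⟨fun U => (Finset.univ.filter (fun ω => F ω = U)).card, ?_, ?_⟩
  · intro U hU
    obtain ⟨ω, hω⟩ := Finset.card_ne_zero.mp hU
    rw [Finset.mem_filter] at hω
    rw [← hω.2]
    exact Subgroup.map_subtype_le _
  · rw [Cfsg.Agent.Lib.Helper3.BrauerPerm.indFun_one_mul_indFun_one]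
    change ∑ ω, Cfsg.indFun (F ω) (fun _ => (1 : ℂ)) = _
    rw [← Finset.sum_fiberwise Finset.univ F (fun ω => Cfsg.indFun (F ω) (fun _ => (1 : ℂ)))]
    refine Finset.sum_congr rfl (fun U _ => ?_)
    rw [Finset.sum_congr rfl (fun ω hω => by rw [(Finset.mem_filter.mp hω).2] :
      ∀ ω ∈ Finset.univ.filter (fun ω => F ω = U),
        Cfsg.indFun (F ω) (fun _ => (1 : ℂ)) = Cfsg.indFun U (fun _ => (1 : ℂ)))]
    rw [Finset.sum_const, Nat.cast_smul_eq_nsmul]

end Cfsg.Agent.S0870
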