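import Cfsg.Statements.S0871
-- import your own Cfsg.Agent.* helpers here
import Mathlib
import Cfsg.Agent.Lib.Helper3.BrauerSol

set_option autoImplicit false
open Cfsg

namespace Cfsg.Agent.S0871

open Cfsg.Agent.Lib.Helper3.BrauerPerm Cfsg.Agent.Lib.Helper3.BrauerQE

/-- A quasi-elementary subgroup in the ambient-subgroup form used by the statements. -/
theorem qe_ambient {G : Type*} [Group G] {p : ℕ} (H : Subgroup G) (hH : IsQuasiElementary p H) :
    ∃ C : Subgroup G, C ≤ H ∧ H ≤ Subgroup.normalizer (C : Set G) ∧ IsCyclic C ∧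
      Nat.Coprime (Nat.card C) p ∧ ∃ k : ℕ, C.relIndex H = p ^ k := by
  obtain ⟨C, hCn, hCc, hCp, k, hk⟩ := hH
  refine ⟨C.map H.subtype, Subgroup.map_subtype_le C, ?_, ?_, ?_, k, ?_⟩
  · intro h hh
    rw [Subgroup.mem_normalizer_iff]
    intro y
    constructor
    · rintro ⟨c, hc, rfl⟩
      exact ⟨⟨h, hh⟩ * c * ⟨h, hh⟩⁻¹, hCn.conj_mem c hc ⟨h, hh⟩, rfl⟩
    · rintro ⟨c, hc, hcy⟩
      refine ⟨⟨h, hh⟩⁻¹ * c * ⟨h, hh⟩, ?_, ?_⟩
      · have := hCn.conj_mem c hc ⟨h, hh⟩⁻¹
        simpa using this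
      · have h1 : (c : G) = h * y * h⁻¹ := hcy
        change h⁻¹ * (c : G) * h = y
        rw [h1]
        group
  · have := hCc
    exact isCyclic_of_surjective (C.equivMapOfInjective H.subtype H.subtype_injective)
      (MulEquiv.surjective _)
  · rw [← Nat.card_congr (C.equivMapOfInjective H.subtype H.subtype_injective).toEquiv]
    exact hCp
  · rw [← hk]
    have h1 : (C.map H.subtype).subgroupOf H = C :=
      Subgroup.comap_map_eq_self_of_injective H.subtype_injective C
    change ((C.map H.subtype).subgroupOf H).index = C.index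
    rw [h1]

/-- Let x be an element of the finite group G and p a prime. Then there is a subgroup H having a cyclic normal subgroup C of order prime to p and p-power index in H, such that the value at x of the function induced from the constant function 1 on H is a natural number not divisible by p. -/
theorem result {G : Type*} [Group G] [Fintype G] (x : G) (p : ℕ) (hp : p.Prime) : ∃ H : Subgroup G, (∃ C : Subgroup G, C ≤ H ∧ H ≤ Subgroup.normalizer (C : Set G) ∧ IsCyclic C ∧ Nat.Coprime (Nat.card C) p ∧ ∃ k : ℕ, C.relIndex H = p ^ k) ∧ ∃ n : ℕ, Cfsg.indFun H (fun _ => 1) x = (n : ℂ) ∧ ¬ p ∣ n := by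
  classical
  have hpf : Fact p.Prime := ⟨hp⟩
  obtain ⟨H, hH, n, hn, hpn⟩ := Cfsg.Agent.Lib.Helper3.BrauerSol.exists_qe_indFun (p := p) x
  refine ⟨H, qe_ambient H hH, Nat.card {q : G ⧸ H // x • q = q}, indFun_one_apply H x, ?_⟩
  intro hdvd
  apply hpn
  have h1 : (n : ℂ) = ((Nat.card {q : G ⧸ H // x • q = q} : ℤ) : ℂ) := by
    rw [← hn, indFun_one_apply]
    simp
  have h2 : n = (Nat.card {q : G ⧸ H // x • q = q} : ℤ) := Int.cast_injective h1
  rw [h2]
  exact Int.natCast_dvd_natCast.mpr hdvd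

end Cfsg.Agent.S0871
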