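import Cfsg.Statements.S0872
-- import your own Cfsg.Agent.* helpers here
import Mathlib
import Cfsg.Agent.Lib.Helper3.BrauerSol
import Cfsg.Agent.S0871

set_option autoImplicit false
open Cfsg

namespace Cfsg.Agent.S0872

open Cfsg.Agent.Lib.Helper3.BrauerPerm Cfsg.Agent.Lib.Helper3.BrauerQE
  Cfsg.Agent.Lib.Helper3.BrauerSol

/-- Elements of the span of the quasi-elementary permutation characters, with explicit
coefficients. -/
theorem exists_coeff {G : Type*} [Group G] [Fintype G] [Fintype (Subgroup G)] (p : ℕ)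
    (f : G → ℂ) (hf : f ∈ qeSpan p G) :
    ∃ a : Subgroup G → ℤ, (∀ H, a H ≠ 0 → IsQuasiElementary p H) ∧
      f = ∑ H : Subgroup G, (a H : ℂ) • Cfsg.indFun H (fun _ => (1 : ℂ)) := by
  classical
  refine AddSubgroup.closure_induction (p := fun f _ => ∃ a : Subgroup G → ℤ,
    (∀ H, a H ≠ 0 → IsQuasiElementary p H) ∧
      f = ∑ H : Subgroup G, (a H : ℂ) • Cfsg.indFun H (fun _ => (1 : ℂ))) ?_ ?_ ?_ ?_ hf
  · rintro f ⟨H, hH, rfl⟩
    refine ⟨Pi.single H 1, ?_, ?_⟩
    · intro U hU
      by_cases hUH : U = H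
      · rw [hUH]; exact hH
      · rw [Pi.single_eq_of_ne hUH] at hU
        exact absurd rfl hU
    · rw [Finset.sum_eq_single H]
      · rw [Pi.single_eq_same, Int.cast_one, one_smul]
      · intro U _ hU
        rw [Pi.single_eq_of_ne hU, Int.cast_zero, zero_smul]
      · intro h
        exact absurd (Finset.mem_univ _) h
  · exact ⟨0, fun H h => absurd rfl h, by simp⟩
  · rintro f g _ _ ⟨a, ha, rfl⟩ ⟨b, hb, rfl⟩
    refine ⟨a + b, ?_, ?_⟩
    · intro H hH
      by_cases h1 : a H = 0
      · apply hb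
        intro h2
        apply hH
        rw [Pi.add_apply, h1, h2, add_zero]
      · exact ha H h1
    · rw [← Finset.sum_add_distrib]
      refine Finset.sum_congr rfl (fun H _ => ?_)
      rw [Pi.add_apply, Int.cast_add, add_smul]
  · rintro f _ ⟨a, ha, rfl⟩
    refine ⟨-a, ?_, ?_⟩
    · intro H hH
      apply ha
      intro h1
      apply hH
      rw [Pi.neg_apply, h1, neg_zero]
    · rw [← Finset.sum_neg_distrib]
      refine Finset.sum_congr rfl (fun H _ => ?_)
      rw [Pi.neg_apply, Int.cast_neg, neg_smul]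

/-- For a finite group G and a prime p there are an integer m not divisible by p and a ℤ-linear combination of functions induced from the constant function 1 on subgroups H, each having a cyclic normal subgroup of order prime to p and p-power index in H, that equals the constant function m. -/
theorem result {G : Type*} [Group G] [Fintype G] (p : ℕ) (hp : p.Prime) : ∃ (m : ℤ) (a : Subgroup G → ℤ), ¬ (p : ℤ) ∣ m ∧ (∀ H, a H ≠ 0 → (∃ C : Subgroup G, C ≤ H ∧ H ≤ Subgroup.normalizer (C : Set G) ∧ IsCyclic C ∧ Nat.Coprime (Nat.card C) p ∧ ∃ k : ℕ, C.relIndex H = p ^ k)) ∧ (fun _ : G => (m : ℂ)) = ∑ H : Subgroup G, (a H : ℂ) • Cfsg.indFun H (fun _ => 1) := by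
  classical
  have hpf : Fact p.Prime := ⟨hp⟩
  obtain ⟨m, hm, hmem⟩ := solomon_local (G := G) (p := p)
  obtain ⟨a, ha, hsum⟩ := exists_coeff p _ hmem
  exact ⟨m, a, hm, fun H hH => Cfsg.Agent.S0871.qe_ambient H (ha H hH), hsum⟩

end Cfsg.Agent.S0872
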