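import Cfsg.Statements.S0873
-- import your own Cfsg.Agent.* helpers here
import Mathlib.GroupTheory.PGroup
import Mathlib.GroupTheory.Index
import Cfsg.Agent.Lib.CT.LinChar

set_option autoImplicit false
open Cfsg

namespace Cfsg.Agent.S0873

open Cfsg.Agent.Lib.CT

section Aux

variable {G : Type*} [Group G] (C P : Subgroup G) [hC : C.Normal] (lam : C → ℂ)

/-- Conjugation action of `P` on a fibre of a `G`-invariant function on `C`. -/
@[instance_reducible]
def fibreAction (hinv : ∀ (g : G) (c : C), lam ⟨g * c * g⁻¹, hC.conj_mem (c : G) c.2 g⟩ = lam c)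
    (z : ℂ) : MulAction P {c : C // lam c = z} where
  smul u c := ⟨⟨(u : G) * (c.1 : G) * (u : G)⁻¹, hC.conj_mem (c.1 : G) c.1.2 u⟩, by
    rw [hinv (u : G) c.1]
    exact c.2⟩
  one_smul c := by
    apply Subtype.ext
    apply Subtype.ext
    simp [HSMul.hSMul]
  mul_smul u v c := by
    apply Subtype.ext
    apply Subtype.ext
    simp [HSMul.hSMul, mul_assoc]

end Aux


/-- Let C be a normal subgroup of the finite group G of order prime to p and P a p-subgroup with C ⊔ P = G. Let λ be a character of C of degree 1 invariant under conjugation by G and equal to 1 at every element of C centralized by P. Then λ is identically 1. -/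
theorem result {G : Type*} [Group G] [Finite G] (p : ℕ) [Fact p.Prime] (C P : Subgroup G) [hC : C.Normal] (hP : IsPGroup p P) (hcop : Nat.Coprime (Nat.card C) p) (hCP : C ⊔ P = ⊤) (lam : C → ℂ) (hlam : Cfsg.IsCharacter C lam ∧ lam 1 = 1) (hinv : ∀ (g : G) (c : C), lam ⟨g * c * g⁻¹, hC.conj_mem (c : G) c.2 g⟩ = lam c) (hker : ∀ c : C, (c : G) ∈ Subgroup.centralizer (P : Set G) → lam c = 1) : lam = fun _ => 1 := by
  obtain ⟨f, hf⟩ := (LinChar.isCharacter_linear_iff lam).mp hlam
  have hf' : ∀ c : C, lam c = ((f c : ℂˣ) : ℂ) := fun c => congrFun hf c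
  funext c₀
  let _ : MulAction P {c : C // lam c = lam c₀} := fibreAction C P lam hinv (lam c₀)
  have hsmul : ∀ (u : P) (c : {c : C // lam c = lam c₀}),
      (((u • c : {c : C // lam c = lam c₀}) : C) : G) = (u : G) * (c.1 : G) * (u : G)⁻¹ :=
    fun u c => rfl
  have hcard : Nat.card {c : C // lam c = lam c₀} = Nat.card f.ker := by
    apply Nat.card_congr
    refine
      { toFun := fun x => ⟨c₀⁻¹ * x.1, ?_⟩
        invFun := fun k => ⟨c₀ * k.1, ?_⟩
        left_inv := fun x => by simp
        right_inv := fun k => by simp }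
    · rw [MonoidHom.mem_ker]
      have h1 : ((f x.1 : ℂˣ) : ℂ) = ((f c₀ : ℂˣ) : ℂ) := by
        rw [← hf' x.1, ← hf' c₀]
        exact x.2
      have h2 : f x.1 = f c₀ := Units.ext h1
      rw [map_mul, map_inv, h2, inv_mul_cancel]
    · have h1 := k.2
      rw [MonoidHom.mem_ker] at h1
      rw [hf' (c₀ * k.1), hf' c₀, map_mul, h1, mul_one]
  have hnd : ¬ p ∣ Nat.card {c : C // lam c = lam c₀} := by
    rw [hcard]
    intro hdvd
    have h1 : p ∣ Nat.card C := dvd_trans hdvd (Subgroup.card_subgroup_dvd_card f.ker)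
    have h2 := Nat.Coprime.eq_one_of_dvd hcop.symm h1
    exact (Fact.out : p.Prime).one_lt.ne' h2
  obtain ⟨x, hx⟩ := hP.nonempty_fixed_point_of_prime_not_dvd_card {c : C // lam c = lam c₀} hnd
  have hxc : ((x.1 : C) : G) ∈ Subgroup.centralizer (P : Set G) := by
    rw [Subgroup.mem_centralizer_iff]
    intro u hu
    have h1 := hx ⟨u, hu⟩
    have h2 := congrArg (fun z : {c : C // lam c = lam c₀} => ((z : C) : G)) h1
    simp only [hsmul] at h2
    exact mul_inv_eq_iff_eq_mul.mp h2
  rw [← x.2]
  exact hker x.1 hxc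

end Cfsg.Agent.S0873
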