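import Cfsg.Statements.S0874
import Mathlib
import Cfsg.Agent.Lib.Helper3.BrauerMain

set_option autoImplicit false
open Cfsg

namespace Cfsg.Agent.S0874

open Cfsg.Agent.Lib.Helper3.BrauerMain

universe u

theorem neg_list_sum {G : Type u} [Group G] [Fintype G]
    (l : List ((E : Subgroup G) × ((E → ℂ) × ℤ))) :
    -(l.map fun t => (t.2.2 : ℂ) • Cfsg.indFun t.1 t.2.1).sum
      = (l.map ((fun t : ((E : Subgroup G) × ((E → ℂ) × ℤ)) =>
          (t.2.2 : ℂ) • Cfsg.indFun t.1 t.2.1) ∘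
        (fun t : ((E : Subgroup G) × ((E → ℂ) × ℤ)) =>
          (⟨t.1, (t.2.1, -t.2.2)⟩ : (E : Subgroup G) × ((E → ℂ) × ℤ))))).sum := by
  induction l with
  | nil => simp
  | cons a l ih =>
    rw [List.map_cons, List.sum_cons, List.map_cons, List.sum_cons, neg_add, ih]
    congr 1
    simp

theorem exists_list_of_mem_elemSpan {G : Type u} [Group G] [Fintype G] {p : ℕ} {f : G → ℂ}
    (hf : f ∈ elemSpan p G) :
    ∃ l : List ((E : Subgroup G) × ((E → ℂ) × ℤ)),
      (∀ t ∈ l, Cfsg.IsElementary p t.1 ∧ Cfsg.IsCharacter t.1 t.2.1) ∧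
      f = (l.map fun t => (t.2.2 : ℂ) • Cfsg.indFun t.1 t.2.1).sum := by
  unfold elemSpan at hf
  induction hf using AddSubgroup.closure_induction with
  | mem x hx =>
    obtain ⟨E, ψ, hE, hψ, rfl⟩ := hx
    refine ⟨[⟨E, (ψ, 1)⟩], ?_, ?_⟩
    · intro t ht
      rw [List.mem_singleton] at ht
      subst ht
      exact ⟨hE, hψ⟩
    · simp
  | zero => exact ⟨[], by simp, by simp⟩
  | add x y _ _ hx hy =>
    obtain ⟨l₁, h₁, rfl⟩ := hx
    obtain ⟨l₂, h₂, rfl⟩ := hy
    refine ⟨l₁ ++ l₂, ?_, ?_⟩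
    · intro t ht
      rcases List.mem_append.1 ht with h | h
      · exact h₁ t h
      · exact h₂ t h
    · rw [List.map_append, List.sum_append]
  | neg x _ hx =>
    obtain ⟨l, h₁, rfl⟩ := hx
    refine ⟨l.map (fun t : ((E : Subgroup G) × ((E → ℂ) × ℤ)) =>
      (⟨t.1, (t.2.1, -t.2.2)⟩ : (E : Subgroup G) × ((E → ℂ) × ℤ))), ?_, ?_⟩
    · intro t ht
      obtain ⟨s, hs, rfl⟩ := List.mem_map.1 ht
      exact h₁ s hs
    · rw [List.map_map]
      exact neg_list_sum l

/-- For a finite group G and a prime p there are an integer m not divisible by p and a list of triples (E, φ, c), with E a p-elementary subgroup, φ a character of E and c an integer, such that the constant function m on G equals the sum of the c • (function induced from φ). -/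
theorem result {G : Type*} [Group G] [Fintype G] (p : ℕ) (hp : p.Prime) : ∃ (m : ℤ) (l : List ((E : Subgroup G) × ((E → ℂ) × ℤ))), ¬ (p : ℤ) ∣ m ∧ (∀ t ∈ l, Cfsg.IsElementary p t.1 ∧ Cfsg.IsCharacter t.1 t.2.1) ∧ (fun _ : G => (m : ℂ)) = (l.map fun t => (t.2.2 : ℂ) • Cfsg.indFun t.1 t.2.1).sum := by
  haveI : Fact p.Prime := ⟨hp⟩
  obtain ⟨m, hm, hmem⟩ := brauer_local (G := G) (p := p)
  obtain ⟨l, hl, hsum⟩ := exists_list_of_mem_elemSpan hmem
  exact ⟨m, l, hm, hl, hsum⟩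

end Cfsg.Agent.S0874
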