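import Cfsg.Statements.S0877
import Cfsg.Agent.Lib.Helper80.BrauerSuzuki

set_option autoImplicit false
open Cfsg

namespace Cfsg.Agent.S0877

/-- Let H be a subgroup of the finite group G whose order is coprime to its index. Suppose that elements of H conjugate in G are conjugate in H, and that every subgroup E of G that is elementary for some prime (in the sense used for Brauer's characterisation of characters) and whose order divides the order of H is conjugate to a subgroup of H. Then there is a normal subgroup K with K ⊔ H = ⊤ and K ⊓ H trivial. -/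
theorem result {G : Type*} [Group G] [Finite G] (H : Subgroup G) (hHall : Nat.Coprime (Nat.card H) H.index) (hfus : ∀ x ∈ H, ∀ y ∈ H, IsConj x y → ∃ h ∈ H, h * x * h⁻¹ = y) (helem : ∀ (E : Subgroup G) (p : ℕ), p.Prime → Cfsg.IsElementary p E → Nat.card E ∣ Nat.card H → ∃ g : G, E.map (MulAut.conj g).toMonoidHom ≤ H) : ∃ K : Subgroup G, K.Normal ∧ K ⊔ H = ⊤ ∧ K ⊓ H = ⊥ := by
  exact Cfsg.Agent.Lib.Helper80.BrauerSuzuki.exists_normal_complement H hHall hfus helem

end Cfsg.Agent.S0877
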