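import Cfsg.Statements.S0878
-- import your own Cfsg.Agent.* helpers here
import Mathlib
import Cfsg.Agent.Lib.Helper59.Derange

set_option autoImplicit false
open Cfsg

namespace Cfsg.Agent.S0878

/-- Let G be a Zassenhaus group on the finite set Ω, a a point, and let H be the subgroup of the stabilizer of a consisting of the identity and the elements fixing no point other than a (given here as a subgroup of the stabilizer of order one less than the number of points whose non-identity elements fix only a; it is the Frobenius kernel of the stabilizer). Then an element outside the stabilizer of a conjugates no non-identity element of H into H, and the normalizer of H is exactly the stabilizer of a. -/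
theorem result {G Ω : Type*} [Group G] [Finite G] [MulAction G Ω] [Fintype Ω] (hZ : Cfsg.IsZassenhausGroup G Ω) (a : Ω) (H : Subgroup G) (hHa : H ≤ MulAction.stabilizer G a) (hHcard : Nat.card H + 1 = Fintype.card Ω) (hHfix : ∀ u ∈ H, u ≠ 1 → ∀ c : Ω, u • c = c → c = a) : (∀ g : G, g ∉ MulAction.stabilizer G a → ∀ u ∈ H, g * u * g⁻¹ ∈ H → u = 1) ∧ Subgroup.normalizer (H : Set G) = MulAction.stabilizer G a := by
  classical
  have : Fintype G := Fintype.ofFinite G
  obtain ⟨hfaith, h2, h3, ⟨g₀, hg₀, a', b', hab', hg₀a, hg₀b⟩, -⟩ := hZ
  rw [MulAction.is_two_pretransitive_iff] at h2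
  have part1 : ∀ g : G, g ∉ MulAction.stabilizer G a → ∀ u ∈ H, g * u * g⁻¹ ∈ H → u = 1 := by
    intro g hg u hu hgu
    by_contra hu1
    apply hg
    have hy1 : g * u * g⁻¹ ≠ 1 := by
      intro h
      apply hu1
      calc u = g⁻¹ * (g * u * g⁻¹) * g := by group
        _ = 1 := by rw [h]; group
    have hua : u • a = a := hHa hu
    exact hHfix _ hgu hy1 (g • a) (by rw [mul_smul, mul_smul, inv_smul_smul, hua])
  refine ⟨part1, ?_⟩
  -- at least three points
  have hn3 : 3 ≤ Fintype.card Ω := by
    by_contra hlt
    apply hg₀
    have := hfaith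
    apply eq_of_smul_eq_smul (α := Ω)
    intro c
    rw [one_smul]
    by_contra hc
    have hca : c ≠ a' := fun h => hc (by rw [h]; exact hg₀a)
    have hcb : c ≠ b' := fun h => hc (by rw [h]; exact hg₀b)
    apply hlt
    have h3c : ({a', b', c} : Finset Ω).card = 3 := by
      rw [Finset.card_insert_of_notMem, Finset.card_insert_of_notMem, Finset.card_singleton]
      · simpa using hcb.symm
      · simp only [Finset.mem_insert, Finset.mem_singleton, not_or]
        exact ⟨hab', hca.symm⟩
    calc 3 = ({a', b', c} : Finset Ω).card := h3c.symm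
      _ ≤ Fintype.card Ω := Finset.card_le_univ _
  obtain ⟨u₀, hu₀H, hu₀⟩ : ∃ u ∈ H, u ≠ 1 := by
    have hnt : Nontrivial H := (Finite.one_lt_card_iff_nontrivial).mp (by omega)
    obtain ⟨u, hu⟩ := exists_ne (1 : H)
    exact ⟨u, u.2, fun h => hu (Subtype.ext h)⟩
  apply le_antisymm
  · intro g hg
    by_contra hgS
    exact hu₀ (part1 g hgS u₀ hu₀H ((Subgroup.mem_normalizer_iff.mp hg u₀).mp hu₀H))
  · -- counting
    set S : Subgroup G := MulAction.stabilizer G a with hS
    let Ω' := SubMulAction.ofStabilizer G a
    have hΩ'card : Nat.card Ω' + 1 = Fintype.card Ω := by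
      rw [SubMulAction.nat_card_ofStabilizer_add_one_eq G a, Nat.card_eq_fintype_card]
    have hsmul : ∀ (x : S) (c : Ω'), ((x • c : Ω') : Ω) = (x : G) • (c : Ω) := fun x c => rfl
    obtain ⟨b, hb⟩ : ∃ b : Ω, b ≠ a := by
      by_contra hcon
      rw [not_exists] at hcon
      have hsub : Subsingleton Ω := ⟨fun x y => by
        have hx := not_not.mp (hcon x)
        have hy := not_not.mp (hcon y)
        rw [hx, hy]⟩
      have := Fintype.card_le_one_iff_subsingleton.mpr hsub
      omega
    have hne : Nonempty Ω' := ⟨⟨b, hb⟩⟩
    have htrans : MulAction.IsPretransitive S Ω' := by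
      refine ⟨fun x y => ?_⟩
      obtain ⟨g, hga, hgx⟩ := h2 (a := a) (b := (x : Ω)) (c := a) (d := (y : Ω))
        (Ne.symm x.2) (Ne.symm y.2)
      exact ⟨⟨g, hga⟩, Subtype.ext hgx⟩
    have hsum := Cfsg.Agent.Lib.Helper59.Derange.sum_card_fixedBy_eq_card (G := S) (Ω := Ω')
    let P : S → Prop := fun x => ∀ c : Ω, (x : G) • c = c → c = a
    let A' : Finset S := Finset.univ.filter (fun x => x = 1 ∨ P x)
    let B' : Finset S := Finset.univ.filter (fun x => (x : G) ∈ H)
    have hBA : B' ⊆ A' := by
      intro x hx
      rw [Finset.mem_filter] at hx ⊢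
      refine ⟨Finset.mem_univ _, ?_⟩
      by_cases hx1 : x = 1
      · exact Or.inl hx1
      · exact Or.inr (hHfix (x : G) hx.2 (fun h => hx1 (Subtype.ext h)))
    have hB'card : B'.card = Nat.card H := by
      rw [← Nat.card_eq_finsetCard]
      apply Nat.card_congr
      refine
        { toFun := fun x => ⟨(x.1 : G), (Finset.mem_filter.mp x.2).2⟩
          invFun := fun h => ⟨⟨(h : G), hHa h.2⟩, Finset.mem_filter.mpr ⟨Finset.mem_univ _, h.2⟩⟩
          left_inv := fun x => rfl
          right_inv := fun h => rfl }
    have hbound : ∀ x : S, Nat.card (MulAction.fixedBy Ω' x) ≤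
        (if x = 1 then Nat.card Ω' else 0) + (if x ∈ A' then 0 else 1) := by
      intro x
      by_cases hx1 : x = 1
      · rw [if_pos hx1]
        exact le_trans (Finite.card_subtype_le _) (Nat.le_add_right _ _)
      · rw [if_neg hx1, zero_add]
        by_cases hxA : x ∈ A'
        · rw [if_pos hxA]
          have hP : P x := by
            rcases (Finset.mem_filter.mp hxA).2 with h | h
            · exact absurd h hx1
            · exact h
          have hemp : IsEmpty (MulAction.fixedBy Ω' x) := by
            refine ⟨fun c => ?_⟩
            have h1 : x • (c : Ω') = c := c.2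
            have h2 : (x : G) • ((c : Ω') : Ω) = ((c : Ω') : Ω) := by
              rw [← hsmul, h1]
            exact (c : Ω').2 (hP _ h2)
          rw [Nat.card_of_isEmpty]
        · rw [if_neg hxA]
          have hsub : Subsingleton (MulAction.fixedBy Ω' x) := by
            refine ⟨fun c c' => ?_⟩
            by_contra hcc
            have h1 : (x : G) • ((c : Ω') : Ω) = ((c : Ω') : Ω) := by
              rw [← hsmul]
              exact congrArg Subtype.val c.2
            have h1' : (x : G) • ((c' : Ω') : Ω) = ((c' : Ω') : Ω) := by
              rw [← hsmul]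
              exact congrArg Subtype.val c'.2
            have hcc' : ((c : Ω') : Ω) ≠ ((c' : Ω') : Ω) :=
              fun h => hcc (Subtype.ext (Subtype.ext h))
            have := h3 (x : G) a _ _ (Ne.symm (c : Ω').2) hcc' (Ne.symm (c' : Ω').2) x.2 h1 h1'
            exact hx1 (Subtype.ext this)
          exact Finite.card_le_one_iff_subsingleton.mpr hsub
    have hA'card : A'.card ≤ Nat.card H := by
      have h1 : Nat.card S ≤ ∑ x : S, ((if x = 1 then Nat.card Ω' else 0) +
          (if x ∈ A' then 0 else 1)) := by
        rw [← hsum]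
        exact Finset.sum_le_sum (fun x _ => hbound x)
      rw [Finset.sum_add_distrib, Finset.sum_ite_eq' Finset.univ (1 : S), if_pos (Finset.mem_univ _)]
        at h1
      have h2 : ∑ x : S, (if x ∈ A' then 0 else 1) + A'.card = Nat.card S := by
        rw [Finset.card_eq_sum_ones, ← Finset.sum_filter_add_sum_filter_not Finset.univ (· ∈ A')
          (fun x : S => if x ∈ A' then 0 else 1)]
        have e1 : ∑ x ∈ Finset.univ.filter (· ∈ A'), (if x ∈ A' then 0 else 1) = 0 :=
          Finset.sum_eq_zero (fun x hx => if_pos (Finset.mem_filter.mp hx).2)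
        have e2 : ∑ x ∈ Finset.univ.filter (fun x => ¬ x ∈ A'), (if x ∈ A' then 0 else 1) =
            (Finset.univ.filter (fun x : S => ¬ x ∈ A')).card := by
          rw [Finset.card_eq_sum_ones]
          exact Finset.sum_congr rfl (fun x hx => if_neg (Finset.mem_filter.mp hx).2)
        have e3 : (Finset.univ.filter (fun x : S => ¬ x ∈ A')).card + A'.card = Nat.card S := by
          have := Finset.card_filter_add_card_filter_not (s := (Finset.univ : Finset S))
            (fun x => x ∈ A')
          rw [Finset.filter_mem_eq_inter, Finset.univ_inter, Finset.card_univ,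
            ← Nat.card_eq_fintype_card] at this
          omega
        rw [e1, e2, zero_add, ← Finset.card_eq_sum_ones]
        exact e3
      omega
    have hAB : A' = B' := by
      symm
      apply Finset.eq_of_subset_of_card_le hBA
      rw [hB'card]
      exact hA'card
    -- conjugation by elements of S preserves H
    have hconj : ∀ g ∈ S, ∀ h ∈ H, g * h * g⁻¹ ∈ H := by
      intro g hg h hh
      have hxS : g * h * g⁻¹ ∈ S := S.mul_mem (S.mul_mem hg (hHa hh)) (S.inv_mem hg)
      have hxA : (⟨g * h * g⁻¹, hxS⟩ : S) ∈ A' := by
        rw [Finset.mem_filter]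
        refine ⟨Finset.mem_univ _, ?_⟩
        by_cases hh1 : h = 1
        · left
          apply Subtype.ext
          change g * h * g⁻¹ = 1
          rw [hh1]
          group
        · right
          intro c hc
          change (g * h * g⁻¹) • c = c at hc
          rw [mul_smul, mul_smul, smul_eq_iff_eq_inv_smul] at hc
          have h1 := hHfix h hh hh1 _ hc
          have hga : g • a = a := hg
          rw [inv_smul_eq_iff] at h1
          rw [h1, hga]
      rw [hAB, Finset.mem_filter] at hxA
      exact hxA.2
    intro g hg
    rw [Subgroup.mem_normalizer_iff]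
    intro h
    constructor
    · exact hconj g hg h
    · intro hgh
      have h1 := hconj g⁻¹ (S.inv_mem hg) _ hgh
      have h2 : g⁻¹ * (g * h * g⁻¹) * g⁻¹⁻¹ = h := by group
      rw [h2] at h1
      exact h1

end Cfsg.Agent.S0878
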