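import Cfsg.Statements.S0879
-- import your own Cfsg.Agent.* helpers here
import Mathlib

set_option autoImplicit false
open Cfsg

namespace Cfsg.Agent.S0879

/-- Let G be a Zassenhaus group on the finite set Ω and E the stabilizer of two distinct points a, b. Then an element outside the normalizer of E conjugates no non-identity element of E into E, and E has index 2 in its normalizer. -/
theorem result {G Ω : Type*} [Group G] [Finite G] [MulAction G Ω] [Fintype Ω] (hZ : Cfsg.IsZassenhausGroup G Ω) {a b : Ω} (hab : a ≠ b) : (∀ g : G, g ∉ Subgroup.normalizer ((MulAction.stabilizer G a ⊓ MulAction.stabilizer G b : Subgroup G) : Set G) → ∀ x ∈ (MulAction.stabilizer G a ⊓ MulAction.stabilizer G b : Subgroup G), g * x * g⁻¹ ∈ (MulAction.stabilizer G a ⊓ MulAction.stabilizer G b : Subgroup G) → x = 1) ∧ ((MulAction.stabilizer G a ⊓ MulAction.stabilizer G b : Subgroup G).subgroupOf (Subgroup.normalizer ((MulAction.stabilizer G a ⊓ MulAction.stabilizer G b : Subgroup G) : Set G))).index = 2 :=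 by
  classical
  obtain ⟨hfaith, h2, h3, ⟨g₀, hg₀, a', b', hab', hg₀a, hg₀b⟩, -⟩ := hZ
  rw [MulAction.is_two_pretransitive_iff] at h2
  set E : Subgroup G := MulAction.stabilizer G a ⊓ MulAction.stabilizer G b with hE
  have hEmem : ∀ x : G, x ∈ E ↔ x • a = a ∧ x • b = b := by
    intro x
    rw [hE, Subgroup.mem_inf, MulAction.mem_stabilizer_iff, MulAction.mem_stabilizer_iff]
  -- a non-identity element of E
  obtain ⟨x₀, hx₀E, hx₀⟩ : ∃ x₀ ∈ E, x₀ ≠ 1 := by
    obtain ⟨k, hka, hkb⟩ := h2 (a := a') (b := b') (c := a) (d := b) hab' hab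
    refine ⟨k * g₀ * k⁻¹, ?_, ?_⟩
    · rw [hEmem]
      have h1 : k⁻¹ • a = a' := by rw [inv_smul_eq_iff, hka]
      have h2 : k⁻¹ • b = b' := by rw [inv_smul_eq_iff, hkb]
      constructor
      · rw [mul_smul, mul_smul, h1, hg₀a, hka]
      · rw [mul_smul, mul_smul, h2, hg₀b, hkb]
    · intro h
      apply hg₀
      calc g₀ = k⁻¹ * (k * g₀ * k⁻¹) * k := by group
        _ = 1 := by rw [h]; group
  -- conjugating a non-identity element of E into E forces preserving {a, b}
  have key : ∀ g : G, (∃ x ∈ E, x ≠ 1 ∧ g * x * g⁻¹ ∈ E) →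
      (g • a = a ∧ g • b = b) ∨ (g • a = b ∧ g • b = a) := by
    rintro g ⟨x, hxE, hx1, hgx⟩
    rw [hEmem] at hxE hgx
    have hy1 : g * x * g⁻¹ ≠ 1 := by
      intro h
      apply hx1
      calc x = g⁻¹ * (g * x * g⁻¹) * g := by group
        _ = 1 := by rw [h]; group
    have hya : (g * x * g⁻¹) • (g • a) = g • a := by
      rw [mul_smul, mul_smul, inv_smul_smul, hxE.1]
    have hyb : (g * x * g⁻¹) • (g • b) = g • b := by
      rw [mul_smul, mul_smul, inv_smul_smul, hxE.2]
    have hgab : g • a ≠ g • b := fun h => hab (smul_left_cancel g h)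
    have ha : g • a = a ∨ g • a = b := by
      by_contra hcon
      rw [not_or] at hcon
      exact hy1 (h3 _ a b (g • a) hab (fun h => hcon.2 h.symm) (fun h => hcon.1 h.symm)
        hgx.1 hgx.2 hya)
    have hb : g • b = a ∨ g • b = b := by
      by_contra hcon
      rw [not_or] at hcon
      exact hy1 (h3 _ a b (g • b) hab (fun h => hcon.2 h.symm) (fun h => hcon.1 h.symm)
        hgx.1 hgx.2 hyb)
    rcases ha with ha | ha
    · rcases hb with hb | hb
      · exact absurd (ha.trans hb.symm) hgab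
      · exact Or.inl ⟨ha, hb⟩
    · rcases hb with hb | hb
      · exact Or.inr ⟨ha, hb⟩
      · exact absurd (ha.trans hb.symm) hgab
  -- elements preserving {a, b} normalize E
  have hnorm : ∀ g : G, ((g • a = a ∧ g • b = b) ∨ (g • a = b ∧ g • b = a)) →
      g ∈ Subgroup.normalizer (E : Set G) := by
    intro g hg
    rw [Subgroup.mem_normalizer_iff]
    intro h
    rw [hEmem, hEmem, mul_smul, mul_smul, mul_smul, mul_smul]
    rcases hg with ⟨hga, hgb⟩ | ⟨hga, hgb⟩
    · have h1 : g⁻¹ • a = a := by rw [inv_smul_eq_iff, hga]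
      have h2 : g⁻¹ • b = b := by rw [inv_smul_eq_iff, hgb]
      rw [h1, h2]
      constructor
      · rintro ⟨e1, e2⟩
        rw [e1, e2]
        exact ⟨hga, hgb⟩
      · rintro ⟨e1, e2⟩
        constructor
        · have : h • a = g⁻¹ • a := by rw [eq_inv_smul_iff]; exact e1
          rw [this, h1]
        · have : h • b = g⁻¹ • b := by rw [eq_inv_smul_iff]; exact e2
          rw [this, h2]
    · have h1 : g⁻¹ • a = b := by rw [inv_smul_eq_iff, hgb]
      have h2 : g⁻¹ • b = a := by rw [inv_smul_eq_iff, hga]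
      rw [h1, h2]
      constructor
      · rintro ⟨e1, e2⟩
        rw [e1, e2]
        exact ⟨hgb, hga⟩
      · rintro ⟨e1, e2⟩
        constructor
        · have : h • a = g⁻¹ • b := by rw [eq_inv_smul_iff]; exact e2
          rw [this, h2]
        · have : h • b = g⁻¹ • a := by rw [eq_inv_smul_iff]; exact e1
          rw [this, h1]
  constructor
  · intro g hg x hxE hgx
    by_contra hx1
    exact hg (hnorm g (key g ⟨x, hxE, hx1, hgx⟩))
  · obtain ⟨t, hta, htb⟩ := h2 (a := a) (b := b) (c := b) (d := a) hab hab.symm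
    have htN : t ∈ Subgroup.normalizer (E : Set G) := hnorm t (Or.inr ⟨hta, htb⟩)
    rw [Subgroup.index_eq_two_iff]
    refine ⟨⟨t, htN⟩, fun g => ?_⟩
    rw [Subgroup.mem_subgroupOf, Subgroup.mem_subgroupOf]
    have hgN := g.2
    have hg : ((g : G) • a = a ∧ (g : G) • b = b) ∨ ((g : G) • a = b ∧ (g : G) • b = a) := by
      apply key
      refine ⟨x₀, hx₀E, hx₀, ?_⟩
      exact ((Subgroup.mem_normalizer_iff.mp hgN) x₀).mp hx₀E
    change Xor ((g : G) * t ∈ E) ((g : G) ∈ E)
    rw [hEmem, hEmem, mul_smul, mul_smul, hta, htb]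
    rcases hg with ⟨hga, hgb⟩ | ⟨hga, hgb⟩
    · right
      refine ⟨⟨hga, hgb⟩, ?_⟩
      rintro ⟨e1, -⟩
      rw [hgb] at e1
      exact hab e1.symm
    · left
      refine ⟨⟨hgb, hga⟩, ?_⟩
      rintro ⟨e1, -⟩
      rw [hga] at e1
      exact hab e1.symm

end Cfsg.Agent.S0879
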