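import Cfsg.Statements.S0880
-- import your own Cfsg.Agent.* helpers here
import Mathlib
import Cfsg.Agent.Lib.Helper59.Derange
import Cfsg.Agent.Lib.Helper59.Derange2
import Cfsg.Agent.Lib.Helper13.Zass
import Cfsg.Agent.Lib.Helper17.Classes
import Cfsg.Agent.Lib.Helper67.ClassSize
import Cfsg.Agent.S0157

set_option autoImplicit false
open Cfsg

namespace Cfsg.Agent.S0880

open MulAction

/-- The number of fixed-point-free elements of a Zassenhaus group of degree `n` with two-point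
stabilizer of order `e`, and the order of the group. -/
theorem zass_count {G Ω : Type*} [Group G] [Fintype G] [MulAction G Ω] [Fintype Ω]
    [DecidableEq G]
    (hZ : Cfsg.IsZassenhausGroup G Ω) {a b : Ω} (hab : a ≠ b) :
    Nat.card G = Fintype.card Ω * ((Fintype.card Ω - 1) *
        Nat.card ↥(stabilizer G a ⊓ stabilizer G b : Subgroup G)) ∧
      (2 * ((Finset.univ.filter (fun g : G => Nat.card (fixedBy Ω g) = 0)).card : ℤ) =
        (Nat.card G : ℤ) - ((Fintype.card Ω : ℤ) - 1) * ((Fintype.card Ω : ℤ) - 2)) ∧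
      3 ≤ Fintype.card Ω ∧ 2 ≤ Nat.card ↥(stabilizer G a ⊓ stabilizer G b : Subgroup G) := by
  classical
  obtain ⟨hfaith, h2, h3, ⟨g₀, hg₀, a', b', hab', hg₀a, hg₀b⟩, -⟩ := id hZ
  have h2' := h2
  rw [MulAction.is_two_pretransitive_iff] at h2'
  set E : Subgroup G := stabilizer G a ⊓ stabilizer G b with hE
  set n := Fintype.card Ω with hn
  have htrans : MulAction.IsPretransitive G Ω := by
    refine ⟨fun x y => ?_⟩
    by_cases hxy : x = y
    · exact ⟨1, by rw [one_smul, hxy]⟩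
    · obtain ⟨g, hg, -⟩ := h2' (a := x) (b := y) (c := y) (d := x) hxy (Ne.symm hxy)
      exact ⟨g, hg⟩
  have hne : Nonempty Ω := ⟨a⟩
  have hn3 : 3 ≤ n := by
    by_contra hlt
    apply hg₀
    have := hfaith
    apply eq_of_smul_eq_smul (α := Ω)
    intro c
    rw [one_smul]
    by_contra hc
    have hca : c ≠ a' := fun h => hc (by rw [h]; exact hg₀a)
    have hcb : c ≠ b' := fun h => hc (by rw [h]; exact hg₀b)
    apply hlt
    have h3c : ({a', b', c} : Finset Ω).card = 3 := by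
      rw [Finset.card_insert_of_notMem, Finset.card_insert_of_notMem, Finset.card_singleton]
      · simpa using hcb.symm
      · simp only [Finset.mem_insert, Finset.mem_singleton, not_or]
        exact ⟨hab', hca.symm⟩
    calc 3 = ({a', b', c} : Finset Ω).card := h3c.symm
      _ ≤ Fintype.card Ω := Finset.card_le_univ _
  have hEmem : ∀ x : G, x ∈ E ↔ x • a = a ∧ x • b = b := by
    intro x
    rw [hE, Subgroup.mem_inf, MulAction.mem_stabilizer_iff, MulAction.mem_stabilizer_iff]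
  obtain ⟨x₀, hx₀E, hx₀⟩ : ∃ x₀ ∈ E, x₀ ≠ 1 := by
    obtain ⟨k, hka, hkb⟩ := h2' (a := a') (b := b') (c := a) (d := b) hab' hab
    refine ⟨k * g₀ * k⁻¹, ?_, ?_⟩
    · rw [hEmem]
      have h1 : k⁻¹ • a = a' := by rw [inv_smul_eq_iff, hka]
      have h2 : k⁻¹ • b = b' := by rw [inv_smul_eq_iff, hkb]
      constructor
      · rw [mul_smul, mul_smul, h1, hg₀a, hka]
      · rw [mul_smul, mul_smul, h2, hg₀b, hkb]
    · intro h
      apply hg₀
      calc g₀ = k⁻¹ * (k * g₀ * k⁻¹) * k := by group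
        _ = 1 := by rw [h]; group
  have he2 : 2 ≤ Nat.card E := by
    have hnt : Nontrivial E := ⟨⟨⟨x₀, hx₀E⟩, 1, fun h => hx₀ (congrArg Subtype.val h)⟩⟩
    exact Finite.one_lt_card_iff_nontrivial.mpr hnt
  have hG : Nat.card G = n * ((n - 1) * Nat.card E) := by
    have h1 : (stabilizer G a).index = n := by
      rw [MulAction.index_stabilizer_of_transitive, Nat.card_eq_fintype_card]
    have h2a : Nat.card (stabilizer G a) = (n - 1) * Nat.card E := by
      have h3a := Cfsg.Agent.Lib.Helper59.Derange2.ncard_orbit_eq_relIndex (G := G) a b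
      have h4 : orbit (stabilizer G a) b = ({a} : Set Ω)ᶜ := by
        ext c
        constructor
        · rintro ⟨s, rfl⟩ hc
          have h5 : (s : G) • b = a := hc
          have hs : (s : G) • a = a := s.2
          exact hab (smul_left_cancel (s : G) (h5.trans hs.symm)).symm
        · intro hc
          have hc' : c ≠ a := hc
          obtain ⟨g, hga, hgb⟩ := h2' (a := a) (b := b) (c := a) (d := c) hab (Ne.symm hc')
          exact ⟨⟨g, hga⟩, hgb⟩
      have h5 : (({a} : Set Ω)ᶜ).ncard = n - 1 := by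
        rw [Set.ncard_compl, Set.ncard_singleton, Nat.card_eq_fintype_card]
      rw [h4, h5] at h3a
      have h6 := Cfsg.Agent.Lib.Helper67.ClassSize.card_eq_card_mul_relIndex
        (inf_le_left : E ≤ stabilizer G a)
      rw [← h6, ← h3a, mul_comm]
    rw [← Subgroup.index_mul_card (stabilizer G a), h1, h2a]
  refine ⟨hG, ?_, hn3, he2⟩
  let f : G → ℕ := fun g => Nat.card (fixedBy Ω g)
  have hS1 : ∑ g : G, f g = Nat.card G :=
    Cfsg.Agent.Lib.Helper59.Derange.sum_card_fixedBy_eq_card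
  have hS2 : ∑ g : G, f g ^ 2 = 2 * Nat.card G := by
    have h1 := Cfsg.Agent.Lib.Helper59.Derange.burnside G (Ω × Ω)
    have h2b : Nat.card (Quotient (orbitRel G (Ω × Ω))) = 2 :=
      (Cfsg.Agent.S0157.card_orbits_pairs_eq_two_iff
        (by rw [Nat.card_eq_fintype_card]; omega)).mpr h2
    have h2c : Nat.card (orbitRel.Quotient G (Ω × Ω)) = 2 := h2b
    rw [h2c] at h1
    rw [← h1]
    exact Finset.sum_congr rfl
      (fun g _ => (Cfsg.Agent.Lib.Helper59.Derange.card_fixedBy_prod g).symm)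
  have hf1 : f 1 = n := by
    change Nat.card (fixedBy Ω (1 : G)) = n
    rw [MulAction.fixedBy_one_eq_univ, Nat.card_congr (Equiv.Set.univ Ω),
      Nat.card_eq_fintype_card]
  have hf2 : ∀ g : G, g ≠ 1 → f g ≤ 2 :=
    fun g hg => Cfsg.Agent.Lib.Helper13.Zass.fix_le_two hZ hg
  have h1 : ∑ g : G, (((f g : ℤ) - 1) * ((f g : ℤ) - 2)) = (Nat.card G : ℤ) := by
    have e1 : ∀ g : G, ((f g : ℤ) - 1) * ((f g : ℤ) - 2) =
        (f g : ℤ) ^ 2 - 3 * (f g : ℤ) + 2 := fun g => by ring
    simp_rw [e1]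
    rw [Finset.sum_add_distrib, Finset.sum_sub_distrib, ← Finset.mul_sum]
    have e2 : ∑ g : G, (f g : ℤ) ^ 2 = 2 * (Nat.card G : ℤ) := by exact_mod_cast hS2
    have e3 : ∑ g : G, (f g : ℤ) = (Nat.card G : ℤ) := by exact_mod_cast hS1
    rw [e2, e3, Finset.sum_const, Finset.card_univ, ← Nat.card_eq_fintype_card, nsmul_eq_mul]
    ring
  have h2c : ∑ g : G, (((f g : ℤ) - 1) * ((f g : ℤ) - 2)) =
      ((n : ℤ) - 1) * ((n : ℤ) - 2) +
        ∑ g ∈ Finset.univ.erase (1 : G), (if f g = 0 then (2 : ℤ) else 0) := by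
    rw [← Finset.add_sum_erase Finset.univ _ (Finset.mem_univ (1 : G)), hf1]
    congr 1
    apply Finset.sum_congr rfl
    intro g hg
    have hg1 : g ≠ 1 := Finset.ne_of_mem_erase hg
    have hle := hf2 g hg1
    obtain h | h | h : f g = 0 ∨ f g = 1 ∨ f g = 2 := by omega
    · rw [h]; norm_num
    · rw [h]; norm_num
    · rw [h]; norm_num
  have h3c : ∑ g ∈ Finset.univ.erase (1 : G), (if f g = 0 then (2 : ℤ) else 0) =
      2 * ((Finset.univ.filter (fun g : G => f g = 0)).card : ℤ) := by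
    have hfil : (Finset.univ.erase (1 : G)).filter (fun g => f g = 0) =
        Finset.univ.filter (fun g : G => f g = 0) := by
      ext g
      simp only [Finset.mem_filter, Finset.mem_erase, Finset.mem_univ, and_true, true_and]
      constructor
      · exact fun h => h.2
      · intro h
        refine ⟨?_, h⟩
        intro hg
        rw [hg, hf1] at h
        omega
    rw [← Finset.sum_filter, Finset.sum_const, nsmul_eq_mul, mul_comm, hfil]
  rw [h2c, h3c] at h1
  linarith

/-- Let G be a finite simple Zassenhaus group on Ω with n points whose two-point stabilizer E has odd order less than n - 2. Then there are two elements of G, each fixing no point of Ω, that are not conjugate. -/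
theorem result {G Ω : Type*} [Group G] [Finite G] [MulAction G Ω] [Fintype Ω] (hZ : Cfsg.IsZassenhausGroup G Ω) {a b : Ω} (hab : a ≠ b) [IsSimpleGroup G] (hodd : Odd (Nat.card ↥(MulAction.stabilizer G a ⊓ MulAction.stabilizer G b : Subgroup G))) (hlt : Nat.card ↥(MulAction.stabilizer G a ⊓ MulAction.stabilizer G b : Subgroup G) < Fintype.card Ω - 2) : ∃ x y : G, (∀ c : Ω, x • c ≠ c) ∧ (∀ c : Ω, y • c ≠ c) ∧ ¬ IsConj x y := by
  classical
  have : Fintype G := Fintype.ofFinite G
  obtain ⟨hG, hkey, hn3, he2⟩ := zass_count hZ hab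
  set n := Fintype.card Ω with hn
  set e := Nat.card ↥(stabilizer G a ⊓ stabilizer G b : Subgroup G) with he
  have he3 : 3 ≤ e := by
    obtain ⟨k, hk⟩ := hodd
    omega
  set F₀ : Finset G := Finset.univ.filter (fun g : G => Nat.card (fixedBy Ω g) = 0) with hF₀
  by_contra hcon
  push Not at hcon
  have hfpf : ∀ g : G, g ∈ F₀ ↔ ∀ c : Ω, g • c ≠ c := by
    intro g
    rw [hF₀, Finset.mem_filter]
    simp only [Finset.mem_univ, true_and]
    rw [Nat.card_eq_zero]
    constructor
    · rintro (h | h) c hc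
      · exact h.false ⟨c, hc⟩
      · exact (not_finite (fixedBy Ω g)).elim
    · intro h
      left
      exact ⟨fun c => h c.1 c.2⟩
  have hGZ : (Nat.card G : ℤ) = (n : ℤ) * (((n : ℤ) - 1) * (e : ℤ)) := by
    rw [hG]
    push_cast [Nat.cast_sub (by omega : 1 ≤ n)]
    ring
  have hn3' : (3 : ℤ) ≤ (n : ℤ) := by exact_mod_cast hn3
  have he3' : (3 : ℤ) ≤ (e : ℤ) := by exact_mod_cast he3
  have hpos : 0 < F₀.card := by
    have h1 : ((n : ℤ) - 1) * ((n : ℤ) - 2) < (Nat.card G : ℤ) := by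
      rw [hGZ]
      nlinarith [mul_nonneg (by linarith : (0:ℤ) ≤ (n : ℤ) - 1) (by linarith : (0:ℤ) ≤ (e:ℤ) - 3)]
    have h2 : (0 : ℤ) < 2 * (F₀.card : ℤ) := by rw [hkey]; linarith
    omega
  obtain ⟨x, hx⟩ := Finset.card_pos.mp hpos
  have hxf := (hfpf x).mp hx
  have hclass : F₀.card = Nat.card {h : G // IsConj x h} := by
    rw [← Nat.card_eq_finsetCard]
    apply Nat.card_congr
    refine Equiv.subtypeEquivRight (fun g => ?_)
    rw [hfpf]
    constructor
    · intro hg
      exact hcon x g hxf hg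
    · intro hconj c hc
      obtain ⟨k, hk⟩ := isConj_iff.mp hconj
      apply hxf (k⁻¹ • c)
      rw [← hk, mul_smul, mul_smul, smul_eq_iff_eq_inv_smul] at hc
      exact hc
  have hcc := Cfsg.Agent.Lib.Helper17.Classes.card_conj_mul_card_centralizer x
  rw [← hclass] at hcc
  set c := Nat.card (Subgroup.centralizer ({x} : Set G)) with hc
  have hx1 : x ≠ 1 := by
    intro h
    apply hxf a
    rw [h, one_smul]
  have hc2 : 2 ≤ c := by
    have hnt : Nontrivial (Subgroup.centralizer ({x} : Set G)) :=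
      ⟨⟨⟨x, Subgroup.mem_centralizer_singleton_iff.mpr rfl⟩, 1,
        fun h => hx1 (congrArg Subtype.val h)⟩⟩
    exact Finite.one_lt_card_iff_nontrivial.mpr hnt
  have hc2' : (2 : ℤ) ≤ (c : ℤ) := by exact_mod_cast hc2
  have hccZ : (F₀.card : ℤ) * (c : ℤ) = (n : ℤ) * (((n : ℤ) - 1) * (e : ℤ)) := by
    rw [← hGZ]
    exact_mod_cast hcc
  rw [hGZ] at hkey
  -- 2 n e = c (n e - n + 2)
  have hmain : ((n : ℤ) - 1) * (2 * (n : ℤ) * (e : ℤ) - (c : ℤ) * ((n : ℤ) * (e : ℤ) - (n : ℤ) + 2)) = 0 := by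
    linear_combination (c : ℤ) * hkey - 2 * hccZ
  have hmain' : 2 * (n : ℤ) * (e : ℤ) = (c : ℤ) * ((n : ℤ) * (e : ℤ) - (n : ℤ) + 2) := by
    rcases mul_eq_zero.mp hmain with h | h
    · linarith
    · linarith
  have hpos2 : (0 : ℤ) < (n : ℤ) * (e : ℤ) - (n : ℤ) + 2 := by nlinarith
  rcases eq_or_lt_of_le hc2' with h | h
  · rw [← h] at hmain'
    linarith
  · have h3 : (3 : ℤ) ≤ (c : ℤ) := by linarith
    have h4 : 3 * ((n : ℤ) * (e : ℤ) - (n : ℤ) + 2) ≤ (c : ℤ) * ((n : ℤ) * (e : ℤ) - (n : ℤ) + 2) :=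
      mul_le_mul_of_nonneg_right h3 hpos2.le
    nlinarith [mul_nonneg (by linarith : (0:ℤ) ≤ (n : ℤ)) (by linarith : (0:ℤ) ≤ (e:ℤ) - 3)]

end Cfsg.Agent.S0880
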