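import Cfsg.Statements.S0892
import Cfsg.Agent.Lib.Helper35.AltMult

set_option autoImplicit false
open Cfsg

namespace Cfsg.Agent.S0892

/-- Let n ≥ 4 with n ≠ 6 and n ≠ 7, and let Γ be a finite group with a subgroup Z contained in both the centre and the commutator subgroup of Γ such that Γ / Z is isomorphic to the alternating group on n letters. Then Z has order at most 2. -/
theorem result (n : ℕ) (hn : 4 ≤ n) (h6 : n ≠ 6) (h7 : n ≠ 7) {Γ : Type*} [Group Γ] [Finite Γ] (Z : Subgroup Γ) [Z.Normal] (hZc : Z ≤ Subgroup.center Γ) (hZd : Z ≤ commutator Γ) (e : Γ ⧸ Z ≃* alternatingGroup (Fin n)) : Nat.card Z ≤ 2 := by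
  set σ : Γ →* alternatingGroup (Fin n) := e.toMonoidHom.comp (QuotientGroup.mk' Z) with hσd
  have hker : σ.ker = Z := by
    ext x
    rw [MonoidHom.mem_ker, hσd, MonoidHom.comp_apply]
    constructor
    · intro h
      have h1 : QuotientGroup.mk' Z x = 1 := e.injective (by rw [map_one]; exact h)
      exact (QuotientGroup.eq_one_iff x).mp h1
    · intro h
      have h1 : QuotientGroup.mk' Z x = 1 := (QuotientGroup.eq_one_iff x).mpr h
      rw [h1]
      exact map_one _
  have hσ : Cfsg.IsStemExtension σ :=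
    ⟨e.surjective.comp (QuotientGroup.mk'_surjective Z), by rw [hker]; exact hZc,
      by rw [hker]; exact hZd⟩
  have hdvd : Nat.card σ.ker ∣ 2 :=
    Cfsg.Agent.Lib.Helper35.AltMult.alt_bound n hn h6 h7 σ hσ
  rw [hker] at hdvd
  exact Nat.le_of_dvd (by norm_num) hdvd

end Cfsg.Agent.S0892
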