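import Cfsg.Statements.S0893
-- import your own Cfsg.Agent.* helpers here
import Mathlib
import Cfsg.Agent.S0894
import Cfsg.Agent.Lib.CT.IndChar
import Cfsg.Agent.Lib.CT.FrobRec
import Cfsg.Agent.Lib.CT.NormOne
import Cfsg.Agent.Lib.CT.LinChar

set_option autoImplicit false
open Cfsg

namespace Cfsg.Agent.S0893

open Cfsg.Agent.Lib.CT Cfsg.Agent.Lib.CT.Wedderburn
open scoped ComplexConjugate

/-- A natural-valued function on a finite type with total `1` is an indicator. -/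
theorem exists_unique_of_sum_eq_one {ι : Type*} [Fintype ι] [DecidableEq ι] (m : ι → ℕ)
    (h : ∑ i, m i = 1) : ∃ i₀, m i₀ = 1 ∧ ∀ i, i ≠ i₀ → m i = 0 := by
  have hne : ∑ i, m i ≠ 0 := by rw [h]; exact one_ne_zero
  obtain ⟨i₀, -, hi₀⟩ := Finset.exists_ne_zero_of_sum_ne_zero hne
  have h1 := Finset.add_sum_erase Finset.univ m (Finset.mem_univ i₀)
  rw [h] at h1
  have h2 : m i₀ = 1 := by omega
  refine ⟨i₀, h2, fun i hi => ?_⟩
  have h3 : ∑ j ∈ Finset.univ.erase i₀, m j = 0 := by omega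
  exact (Finset.sum_eq_zero_iff.mp h3) i (Finset.mem_erase.mpr ⟨hi, Finset.mem_univ _⟩)

/-- Let P be an extraspecial p-group of order p ^ (2 * n + 1), A an abelian subgroup of order p ^ (n + 1), and λ a character of A of degree 1 that is not identically 1 on the elements of A lying in the centre of P. Then the function induced from λ to P is an irreducible character of P and vanishes at every element outside the centre. -/
theorem result {P : Type*} [Group P] [Fintype P] (p n : ℕ) [Fact p.Prime] (hP : Cfsg.IsExtraspecial p P) (hcard : Nat.card P = p ^ (2 * n + 1)) (A : Subgroup P) (hab : ∀ a ∈ A, ∀ b ∈ A, a * b = b * a) (hA : Nat.card A = p ^ (n + 1)) (lam : A → ℂ) (hlam : Cfsg.IsCharacter A lam ∧ lam 1 = 1) (hZ : ∃ a : A, (a : P) ∈ Subgroup.center P ∧ lam a ≠ 1) : Cfsg.IsIrrCharacter P (Cfsg.indFun A lam) ∧ ∀ x : P, x ∉ Subgroup.center P → Cfsg.indFun A lam x = 0 := by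
  classical
  obtain ⟨⟨hpg, hfrat, hcomm⟩, hZc⟩ := hP
  have hpp : p.Prime := Fact.out
  have := finite_irrCharacter P
  have : Fintype (Cfsg.IrrCharacter P) := Fintype.ofFinite _
  have : Fintype A := Fintype.ofFinite A
  have hχ : Cfsg.IsCharacter P (Cfsg.indFun A lam) := IndChar.isCharacter_indFun A lam hlam.1
  have hindex : A.index = p ^ n := by
    have h1 := A.index_mul_card
    rw [hA, hcard] at h1
    have h2 : p ^ (2 * n + 1) = p ^ n * p ^ (n + 1) := by rw [← pow_add]; congr 1; ring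
    rw [h2] at h1
    exact Nat.eq_of_mul_eq_mul_right (pow_pos hpp.pos _) h1
  have hχ1 : Cfsg.indFun A lam 1 = ((p ^ n : ℕ) : ℂ) := by
    rw [FrobRec.indFun_one, hindex, hlam.2, mul_one]
  obtain ⟨m, hm, hexp⟩ := NormOne.exists_mult_sum hχ
  -- every constituent is nonlinear
  have hnl : ∀ ψ : Cfsg.IrrCharacter P, m ψ ≠ 0 → (ψ : P → ℂ) 1 ≠ 1 := by
    intro ψ hmψ hψ1
    have hψc : Cfsg.IsCharacter P (ψ : P → ℂ) := isCharacter_of_irr ψ.2
    have h1 : Cfsg.classInner (Cfsg.indFun A lam) (ψ : P → ℂ) ≠ 0 := by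
      rw [hm ψ]
      exact_mod_cast hmψ
    rw [FrobRec.frobenius_reciprocity A lam _ (char_isClassFunction hψc)] at h1
    have hresc : Cfsg.IsCharacter A (fun a : A => (ψ : P → ℂ) a) := Ops.isCharacter_restrict A hψc
    have hres1 : (fun a : A => (ψ : P → ℂ) a) 1 = 1 := by simpa using hψ1
    have hlamirr : Cfsg.IsIrrCharacter A lam := LinChar.isIrrCharacter_of_linear hlam.1 hlam.2
    have hresirr : Cfsg.IsIrrCharacter A (fun a : A => (ψ : P → ℂ) a) :=
      LinChar.isIrrCharacter_of_linear hresc hres1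
    have h2 := irr_orthonormal (⟨lam, hlamirr⟩ : Cfsg.IrrCharacter A) ⟨_, hresirr⟩
    simp only at h2
    have h3 : (⟨lam, hlamirr⟩ : Cfsg.IrrCharacter A) = ⟨_, hresirr⟩ := by
      by_contra hne
      rw [if_neg hne] at h2
      exact h1 h2
    have h4 : lam = fun a : A => (ψ : P → ℂ) a := congrArg Subtype.val h3
    obtain ⟨a, haZ, hane⟩ := hZ
    apply hane
    rw [h4]
    obtain ⟨f, hf⟩ := (LinChar.isCharacter_linear_iff (ψ : P → ℂ)).mp ⟨hψc, hψ1⟩
    have h5 : (a : P) ∈ f.ker := Abelianization.commutator_subset_ker f (by rw [hcomm]; exact haZ)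
    simp only
    rw [hf]
    simp only
    rw [MonoidHom.mem_ker.mp h5]
    simp
  -- degrees
  have hdeg : ∀ ψ : Cfsg.IrrCharacter P, (m ψ : ℂ) * (ψ : P → ℂ) 1 = ((m ψ * p ^ n : ℕ) : ℂ) := by
    intro ψ
    by_cases hmψ : m ψ = 0
    · rw [hmψ]; simp
    · have h1 := Cfsg.Agent.S0894.deg_nonlinear p n hcomm hZc hcard ψ (hnl ψ hmψ)
      rw [← char_natCast_charDegree (isCharacter_of_irr ψ.2), h1]
      push_cast
      ring
  have hsum : ∑ ψ : Cfsg.IrrCharacter P, m ψ = 1 := by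
    have h1 := congrFun hexp 1
    rw [hχ1, Finset.sum_apply] at h1
    simp only [Pi.smul_apply, smul_eq_mul] at h1
    simp_rw [hdeg] at h1
    have h2 : p ^ n = ∑ ψ : Cfsg.IrrCharacter P, m ψ * p ^ n := by exact_mod_cast h1
    rw [← Finset.sum_mul] at h2
    have h3 : 1 * p ^ n = (∑ ψ : Cfsg.IrrCharacter P, m ψ) * p ^ n := by rw [one_mul]; exact h2
    exact (Nat.eq_of_mul_eq_mul_right (pow_pos hpp.pos _) h3).symm
  obtain ⟨ψ₀, hψ₀, hother⟩ := exists_unique_of_sum_eq_one m hsum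
  have heq : Cfsg.indFun A lam = (ψ₀ : P → ℂ) := by
    rw [hexp, Finset.sum_eq_single ψ₀]
    · rw [hψ₀]; simp
    · intro ψ _ hψ
      rw [hother ψ hψ]; simp
    · intro h
      exact absurd (Finset.mem_univ _) h
  rw [heq]
  refine ⟨ψ₀.2, fun x hx => ?_⟩
  exact Cfsg.Agent.S0894.vanish p hcomm hZc ψ₀ (hnl ψ₀ (by rw [hψ₀]; exact one_ne_zero)) x hx

end Cfsg.Agent.S0893
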