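import Cfsg.Statements.S0895
-- import your own Cfsg.Agent.* helpers here
import Mathlib
import Cfsg.Agent.Lib.CT.FSInd

set_option autoImplicit false
open Cfsg

namespace Cfsg.Agent.S0895

/-- Let χ be a real-valued irreducible character of a finite group G whose degree is an odd natural number. Then the average over s in G of χ (s * s) equals 1. -/
theorem result {G : Type*} [Group G] [Fintype G] (χ : G → ℂ) (hχ : Cfsg.IsIrrCharacter G χ) (hreal : ∀ g : G, (χ g).im = 0) (d : ℕ) (hd : χ 1 = d) (hodd : Odd d) : (Nat.card G : ℂ)⁻¹ * ∑ s : G, χ (s * s) = 1 := by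
  obtain ⟨n, ρ, hirr, rfl⟩ := hχ
  have := hirr
  obtain ⟨M, hM0, hM⟩ := Cfsg.Agent.Lib.CT.FSInd.exists_isInvForm_of_im_eq_zero hreal
  obtain ⟨h1, h2⟩ := Cfsg.Agent.Lib.CT.FSInd.fsInd_of_isInvForm hM hM0
  have hnd : n = d := by
    rw [Representation.char_one] at hd
    simp only [Module.finrank_fin_fun] at hd
    exact_mod_cast hd
  subst hnd
  rcases h1 with h1 | h1
  · exact h1
  · exfalso
    rw [h1] at h2
    have hu := Cfsg.Agent.Lib.CT.FSInd.isInvForm_isUnit hM hM0
    have hdet : M.det ≠ 0 := by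
      have := (Matrix.isUnit_iff_isUnit_det M).mp hu
      exact this.ne_zero
    have h3 : M.det = (-1 : ℂ) ^ n * M.det := by
      conv_lhs => rw [← Matrix.det_transpose, h2, Matrix.det_smul]
      simp
    rw [hodd.neg_one_pow] at h3
    apply hdet
    linear_combination h3 / 2

end Cfsg.Agent.S0895
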