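import Cfsg.Statements.S0897
import Mathlib
import Cfsg.Agent.Lib.Helper3.DadeExt
import Cfsg.Agent.Lib.Helper78.ProjLift
import Cfsg.Agent.Lib.Helper15.CliffTools
import Cfsg.Agent.S0177

set_option autoImplicit false
open Cfsg

namespace Cfsg.Agent.S0897

open Cfsg.Agent.Lib.Helper3.Irr Cfsg.Agent.Lib.CT.FrobRec Cfsg.Agent.Lib.CT.Clifford
  Cfsg.Agent.Lib.Helper3.Dade Cfsg.Agent.Lib.Helper3.DadeExt Cfsg.Agent.S0896
open scoped ComplexConjugate Pointwise

/-- Let N be a normal subgroup of the finite group G with the index of N a power of the prime p, and P a Sylow p-subgroup of G such that P ⊓ N lies in the centre of P and every character of degree 1 of P ⊓ N is the restriction of a character of degree 1 of P. Then every irreducible character of N invariant under conjugation by G is the restriction of an irreducible character of G. -/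
theorem result {G : Type*} [Group G] [Fintype G] (p : ℕ) [Fact p.Prime] (N : Subgroup G) [hN : N.Normal] (hind : ∃ k : ℕ, N.index = p ^ k) (P : Sylow p G) (hcent : ∀ x ∈ (P : Subgroup G) ⊓ N, ∀ y ∈ (P : Subgroup G), x * y = y * x) (hlin : ∀ lam : ↥((P : Subgroup G) ⊓ N) → ℂ, Cfsg.IsCharacter ↥((P : Subgroup G) ⊓ N) lam → lam 1 = 1 → ∃ μ : ↥(P : Subgroup G) → ℂ, Cfsg.IsCharacter ↥(P : Subgroup G) μ ∧ μ 1 = 1 ∧ ∀ x : ↥((P : Subgroup G) ⊓ N), μ ⟨(x : G), x.2.1⟩ = lam x) (ϑ : N → ℂ) (hϑ : Cfsg.IsIrrCharacter N ϑ) (hinv : ∀ (g : G) (n : N), ϑ ⟨g * n * g⁻¹, hN.conj_mem (n : G) n.2 g⟩ = ϑ n) : ∃ χ : G → ℂ, Cfsg.IsIrrCharacter G χ ∧ ∀ n : N, χ n = ϑ n := by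
  classical
  have hp : p.Prime := Fact.out
  haveI : Fintype N := Fintype.ofFinite _
  obtain ⟨k, hk⟩ := hind
  obtain ⟨E, hE, hsup, hMidx, hcore⟩ := dade_core hp N hk ϑ hϑ hinv
  haveI : Fintype E := Fintype.ofFinite _
  haveI : Fintype (N.subgroupOf E) := Fintype.ofFinite _
  obtain ⟨φM, hφM, m, hm, hmeq⟩ := hcore
  -- a Sylow subgroup of E and a conjugating element
  obtain ⟨Q⟩ : Nonempty (Sylow p E) := inferInstance
  have hQG : IsPGroup p ((Q : Subgroup E).map E.subtype) := Q.2.map E.subtype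
  obtain ⟨P', hP'⟩ := hQG.exists_le_sylow
  obtain ⟨g, hg⟩ := MulAction.exists_smul_eq G P' P
  have hgQ : ∀ q ∈ (Q : Subgroup E), g * (q : G) * g⁻¹ ∈ (P : Subgroup G) := by
    intro q hq
    have h1 : (q : G) ∈ (P' : Subgroup G) := hP' (Subgroup.mem_map_of_mem E.subtype hq)
    have h2 : MulAut.conj g • (q : G) ∈ MulAut.conj g • (P' : Subgroup G) :=
      Subgroup.smul_mem_pointwise_smul _ _ _ h1
    rw [← Sylow.coe_subgroup_smul, hg] at h2
    simpa using h2
  obtain ⟨hMcen, hMQ⟩ := subgroupOf_le_center N P hcent E hE hMidx Q g hgQ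
  -- φM is linear
  have hφ1 : φM 1 = 1 := Cfsg.Agent.S0177.irr_apply_one_of_comm (fun a b => by
    apply Subtype.ext
    exact Subgroup.mem_center_iff.1 (hMcen (b : E) b.2) (a : E)) hφM
  obtain ⟨fM, hfM⟩ := Cfsg.Agent.Lib.CT.LinChar.exists_hom_of_isCharacter φM
    (IsIrrCharacter.isCharacter hφM) hφ1
  obtain ⟨μ, hμ⟩ := exists_sylow_hom N P hcent hlin E (Q : Subgroup E) g hgQ fM
  obtain ⟨f, hf⟩ := exists_hom_extension (N.subgroupOf E) (Q : Subgroup E) hMcen hMQ fM μ hμ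
  -- the induced character
  have hΞ : IsCharacter G (indFun E (fun e => ((f e : ℂˣ) : ℂ))) :=
    Cfsg.Agent.Lib.CT.IndChar.isCharacter_indFun E _
      (Cfsg.Agent.Lib.CT.LinChar.isCharacter_of_hom f)
  have hinv' : ∀ (g : G) (n : N), conj (ϑ ⟨g * n * g⁻¹, hN.conj_mem (n : G) n.2 g⟩)
      = conj (ϑ n) := fun g n => by rw [hinv g n]
  have hsumΞ : classInner (fun n : N => indFun E (fun e => ((f e : ℂˣ) : ℂ)) n) ϑ = m := by
    unfold classInner
    rw [sum_indFun_mul_invariant N (fun n => conj (ϑ n)) hinv' E]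
    have h1 : ∑ x : N.subgroupOf E, ((f (x : E) : ℂˣ) : ℂ) *
        conj (ϑ ⟨((x : E) : G), Subgroup.mem_subgroupOf.1 x.2⟩)
        = (Nat.card (N.subgroupOf E) : ℂ) * classInner φM (resM N ϑ E) := by
      unfold classInner
      have hM0 : (Nat.card (N.subgroupOf E) : ℂ) ≠ 0 := by exact_mod_cast Nat.card_pos.ne'
      rw [← mul_assoc, mul_inv_cancel₀ hM0, one_mul]
      refine Finset.sum_congr rfl (fun x _ => ?_)
      rw [hf x, ← hfM x]
      rfl
    rw [h1, Cfsg.Agent.Lib.CT.Clifford.classInner_conj_symm φM, hmeq, Complex.conj_natCast]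
    have c1 : (Nat.card G : ℂ) = (Nat.card N : ℂ) * (p ^ k : ℕ) := by
      have e1 := Subgroup.card_mul_index N
      rw [hk] at e1
      rw [← e1]
      push_cast
      ring
    have c2 : (Nat.card E : ℂ) = (Nat.card (N.subgroupOf E) : ℂ) * (p ^ k : ℕ) := by
      have e1 := Subgroup.card_mul_index (N.subgroupOf E)
      rw [hMidx] at e1
      rw [← e1]
      push_cast
      ring
    rw [c1, c2]
    have hN0 : (Nat.card N : ℂ) ≠ 0 := by exact_mod_cast Nat.card_pos.ne'
    have hM0 : (Nat.card (N.subgroupOf E) : ℂ) ≠ 0 := by exact_mod_cast Nat.card_pos.ne'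
    have hp0 : ((p ^ k : ℕ) : ℂ) ≠ 0 := by exact_mod_cast (pow_pos hp.pos k).ne'
    field_simp
  -- decompose the induced character
  have hfin := finite_irrCharacter (G := G)
  haveI : Fintype (IrrCharacter G) := Fintype.ofFinite _
  obtain ⟨c, -, hexp⟩ := Cfsg.Agent.Lib.CT.NormOne.exists_mult_sum hΞ
  choose e he using fun χ : IrrCharacter G => classInner_char_nat
    (Cfsg.Agent.Lib.CT.Ops.isCharacter_restrict N (IsIrrCharacter.isCharacter χ.2))
    (IsIrrCharacter.isCharacter hϑ)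
  have hm' : m = ∑ χ : IrrCharacter G, c χ * e χ := by
    have h1 : (fun n : N => indFun E (fun e => ((f e : ℂˣ) : ℂ)) n)
        = ∑ χ : IrrCharacter G, (c χ : ℂ) • (fun n : N => (χ : G → ℂ) n) := by
      funext n
      have h2 := congrFun hexp (n : G)
      rw [Finset.sum_apply] at h2 ⊢
      exact h2
    rw [h1, classInner_sum_left] at hsumΞ
    have h3 : ∑ χ : IrrCharacter G, classInner ((c χ : ℂ) • (fun n : N => (χ : G → ℂ) n)) ϑ
        = ((∑ χ : IrrCharacter G, c χ * e χ : ℕ) : ℂ) := by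
      rw [Nat.cast_sum]
      refine Finset.sum_congr rfl (fun χ _ => ?_)
      rw [classInner_smul_left, he χ]
      push_cast
      ring
    rw [h3] at hsumΞ
    exact_mod_cast hsumΞ.symm
  obtain ⟨χ, hχ⟩ : ∃ χ : IrrCharacter G, ¬ p ∣ e χ := by
    by_contra hcon
    push Not at hcon
    apply hm
    rw [hm']
    exact Finset.dvd_sum (fun χ _ => Dvd.dvd.mul_left (hcon χ) _)
  have hcon : classInner (fun n : N => (χ : G → ℂ) n) ϑ ≠ 0 := by
    rw [he χ]
    intro h0
    apply hχ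
    have : e χ = 0 := by exact_mod_cast h0
    rw [this]
    exact dvd_zero p
  obtain ⟨e', he'pos, hres, he'eq⟩ :=
    Cfsg.Agent.Lib.Helper15.CliffTools.restrict_eq_smul_of_invariant N hN χ.2 hϑ hinv hcon
  have hee : e' = e χ := by
    rw [he χ] at he'eq
    exact_mod_cast he'eq.symm
  have hresn : ∀ n : N, (χ : G → ℂ) n = (e' : ℂ) * ϑ n := fun n => congrFun hres n
  have hdvd := Cfsg.Agent.Lib.Helper78.ProjLift.dvd_index_of_restrict_eq N (χ : G → ℂ) χ.2 ϑ hϑ e'
    he'pos.ne' hresn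
  rw [hk] at hdvd
  obtain ⟨i, -, hi⟩ := (Nat.dvd_prime_pow hp).1 hdvd
  have hi0 : i = 0 := by
    rcases Nat.eq_zero_or_pos i with h0 | hpos
    · exact h0
    · exfalso
      apply hχ
      rw [← hee, hi]
      exact dvd_pow_self p hpos.ne'
  refine ⟨(χ : G → ℂ), χ.2, fun n => ?_⟩
  rw [hresn n, hi, hi0, pow_zero, Nat.cast_one, one_mul]

end Cfsg.Agent.S0897
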