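import Cfsg.Statements.S0900
import Mathlib
import Cfsg.Agent.Lib.Helper78.CliffordCorr
import Cfsg.Agent.Lib.CT.IndChar

set_option autoImplicit false
open Cfsg

namespace Cfsg.Agent.S0900

open Cfsg.Agent.Lib.CT Cfsg.Agent.Lib.CT.Wedderburn

theorem sum_normSq_irr {K : Type*} [Group K] [Fintype K] {χ : K → ℂ} (hχ : IsIrrCharacter K χ) :
    ∑ k : K, Complex.normSq (χ k) = (Nat.card K : ℝ) := by
  have h := NormOne.inner_self_eq_one_of_irr hχ
  unfold classInner at h
  have hK : (Nat.card K : ℂ) ≠ 0 := Nat.cast_ne_zero.mpr Nat.card_pos.ne'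
  have h2 : ∑ k : K, χ k * (starRingEnd ℂ) (χ k) = (Nat.card K : ℂ) := by
    rw [← mul_one (Nat.card K : ℂ), ← h, ← mul_assoc, mul_inv_cancel₀ hK, one_mul]
  have h3 : ((∑ k : K, Complex.normSq (χ k) : ℝ) : ℂ) = ((Nat.card K : ℝ) : ℂ) := by
    rw [Complex.ofReal_sum]
    simp only [← Complex.mul_conj]
    rw [h2]
    simp
  exact Complex.ofReal_injective h3

open Classical in
theorem sum_split {G : Type*} [Group G] [Fintype G] (N : Subgroup G) [Fintype N] (F : G → ℝ) :
    ∑ g : G, F g = ∑ n : N, F n + ∑ g ∈ Finset.univ.filter (fun g : G => g ∉ N), F g := by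
  classical
  rw [← Finset.sum_filter_add_sum_filter_not Finset.univ (fun g : G => g ∈ N) F]
  congr 1
  exact Finset.sum_subtype (Finset.univ.filter (fun g : G => g ∈ N)) (by simp) F

/-- Let N be a normal subgroup of the finite group G, χ an irreducible character of G and ϑ an irreducible character of N having nonzero inner product with the restriction of χ. Consider: (a) the restriction of χ to N is e • ϑ for a natural number e with e ^ 2 equal to the index of N; (b) χ vanishes outside N and ϑ is invariant under conjugation by G; (c) ϑ is invariant and every irreducible character of G having nonzero inner product with the function induced from ϑ equals χ. Then (a) ↔ (b) and (a) ↔ (c). -/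
theorem result {G : Type*} [Group G] [Fintype G] (N : Subgroup G) [hN : N.Normal] [Fintype N] (χ : G → ℂ) (hχ : Cfsg.IsIrrCharacter G χ) (ϑ : N → ℂ) (hϑ : Cfsg.IsIrrCharacter N ϑ) (hcon : Cfsg.classInner (fun n : N => χ n) ϑ ≠ 0) : ((∃ e : ℕ, (fun n : N => χ n) = (e : ℂ) • ϑ ∧ e ^ 2 = N.index) ↔ ((∀ g : G, g ∉ N → χ g = 0) ∧ ∀ (g : G) (n : N), ϑ ⟨g * n * g⁻¹, hN.conj_mem (n : G) n.2 g⟩ = ϑ n)) ∧ ((∃ e : ℕ, (fun n : N => χ n) = (e : ℂ) • ϑ ∧ e ^ 2 = N.index) ↔ (∀ (g : G) (n : N), ϑ ⟨g * n * g⁻¹, hN.conj_mem (n : G) n.2 g⟩ = ϑ n ∧ ∀ ψ : G → ℂ, Cfsg.IsIrrCharacter G ψ → Cfsg.classInner (Cfsg.indFun N ϑ) ψ ≠ 0 → ψ = χ)) := by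
  classical
  have := finite_irrCharacter G
  have : Fintype (IrrCharacter G) := Fintype.ofFinite _
  have hχchar : IsCharacter G χ := isCharacter_of_irr hχ
  have hϑchar : IsCharacter N ϑ := isCharacter_of_irr hϑ
  have hχcf : IsClassFunction G χ := char_isClassFunction hχchar
  have hidx0 : N.index ≠ 0 := Subgroup.index_ne_zero_of_finite
  have hGN : N.index * Nat.card N = Nat.card G := Subgroup.index_mul_card N
  obtain ⟨e₀, he₀⟩ := Clifford.classInner_char_nat (Ops.isCharacter_restrict N hχchar) hϑchar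
  have he₀0 : e₀ ≠ 0 := by
    rintro rfl
    exact hcon (by rw [he₀]; simp)
  have hF1 : (∀ (g : G) (n : N), ϑ ⟨g * n * g⁻¹, hN.conj_mem (n : G) n.2 g⟩ = ϑ n) →
      (fun n : N => χ n) = (e₀ : ℂ) • ϑ := by
    intro hinv
    have hcl := Clifford.clifford N hN χ hχ ϑ hϑ hcon
    have hconj : {ξ : N → ℂ | ∃ t : G, ξ = fun m : N =>
        ϑ ⟨t * m * t⁻¹, hN.conj_mem m m.2 t⟩} = {ϑ} := by
      ext ξ
      simp only [Set.mem_ofPred_eq, Set.mem_singleton_iff]
      constructor
      · rintro ⟨t, rfl⟩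
        funext m
        exact hinv t m
      · rintro rfl
        refine ⟨1, ?_⟩
        funext m
        exact (hinv 1 m).symm
    rw [hconj, finsum_mem_singleton, he₀] at hcl
    exact hcl
  have hA : (∃ e : ℕ, (fun n : N => χ n) = (e : ℂ) • ϑ ∧ e ^ 2 = N.index) ↔
      ((∀ (g : G) (n : N), ϑ ⟨g * n * g⁻¹, hN.conj_mem (n : G) n.2 g⟩ = ϑ n) ∧
        e₀ ^ 2 = N.index) := by
    constructor
    · rintro ⟨e, hres, hsq⟩
      have he : e ≠ 0 := by
        rintro rfl
        rw [zero_pow two_ne_zero] at hsq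
        exact hidx0 hsq.symm
      have heC : (e : ℂ) ≠ 0 := Nat.cast_ne_zero.mpr he
      have hee : e = e₀ := by
        have h1 : classInner (fun n : N => χ n) ϑ = e := by
          rw [hres, Orth.classInner_smul_left, NormOne.inner_self_eq_one_of_irr hϑ, mul_one]
        rw [he₀] at h1
        exact_mod_cast h1.symm
      refine ⟨?_, hee ▸ hsq⟩
      intro g n
      have h1 := congrFun hres ⟨g * n * g⁻¹, hN.conj_mem (n : G) n.2 g⟩
      have h2 := congrFun hres n
      simp only [Pi.smul_apply, smul_eq_mul] at h1 h2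
      rw [hχcf, h2] at h1
      exact (mul_left_cancel₀ heC h1).symm
    · rintro ⟨hinv, hsq⟩
      exact ⟨e₀, hF1 hinv, hsq⟩
  have hB : ((∀ g : G, g ∉ N → χ g = 0) ∧
      ∀ (g : G) (n : N), ϑ ⟨g * n * g⁻¹, hN.conj_mem (n : G) n.2 g⟩ = ϑ n) ↔
      ((∀ (g : G) (n : N), ϑ ⟨g * n * g⁻¹, hN.conj_mem (n : G) n.2 g⟩ = ϑ n) ∧
        e₀ ^ 2 = N.index) := by
    have hsum : (∀ (g : G) (n : N), ϑ ⟨g * n * g⁻¹, hN.conj_mem (n : G) n.2 g⟩ = ϑ n) →
        (Nat.card G : ℝ) = (e₀ : ℝ) ^ 2 * (Nat.card N : ℝ) +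
          ∑ g ∈ Finset.univ.filter (fun g : G => g ∉ N), Complex.normSq (χ g) := by
      intro hinv
      have hres := hF1 hinv
      rw [← sum_normSq_irr hχ, sum_split N (fun g => Complex.normSq (χ g))]
      congr 1
      have h1 : ∀ n : N, Complex.normSq (χ n) = (e₀ : ℝ) ^ 2 * Complex.normSq (ϑ n) := by
        intro n
        have h2 := congrFun hres n
        simp only [Pi.smul_apply, smul_eq_mul] at h2
        rw [h2, map_mul, Complex.normSq_natCast]
        ring
      rw [Finset.sum_congr rfl (fun n _ => h1 n), ← Finset.mul_sum, sum_normSq_irr hϑ]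
    constructor
    · rintro ⟨hvan, hinv⟩
      refine ⟨hinv, ?_⟩
      have h := hsum hinv
      rw [Finset.sum_eq_zero (fun g hg => by
        rw [hvan g (Finset.mem_filter.mp hg).2, map_zero]), add_zero] at h
      have h' : N.index * Nat.card N = e₀ ^ 2 * Nat.card N := by
        rw [hGN]
        exact_mod_cast h
      exact (Nat.eq_of_mul_eq_mul_right Nat.card_pos h').symm
    · rintro ⟨hinv, hsq⟩
      refine ⟨?_, hinv⟩
      have h := hsum hinv
      have h' : (Nat.card G : ℝ) = (e₀ : ℝ) ^ 2 * (Nat.card N : ℝ) := by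
        rw [← hGN, ← hsq]
        push_cast
        ring
      have h0 : ∑ g ∈ Finset.univ.filter (fun g : G => g ∉ N), Complex.normSq (χ g) = 0 := by
        linarith
      intro g hg
      have h1 := (Finset.sum_eq_zero_iff_of_nonneg
        (fun g _ => Complex.normSq_nonneg (χ g))).mp h0 g
          (Finset.mem_filter.mpr ⟨Finset.mem_univ g, hg⟩)
      exact Complex.normSq_eq_zero.mp h1
  have hC : (∀ (g : G) (n : N), ϑ ⟨g * n * g⁻¹, hN.conj_mem (n : G) n.2 g⟩ = ϑ n ∧
      ∀ ψ : G → ℂ, IsIrrCharacter G ψ → classInner (indFun N ϑ) ψ ≠ 0 → ψ = χ) ↔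
      ((∀ (g : G) (n : N), ϑ ⟨g * n * g⁻¹, hN.conj_mem (n : G) n.2 g⟩ = ϑ n) ∧
        e₀ ^ 2 = N.index) := by
    have hind : IsCharacter G (indFun N ϑ) := IndChar.isCharacter_indFun N ϑ hϑchar
    obtain ⟨m, hm, -, hmdeg, -⟩ := Cfsg.Agent.Lib.Helper80.Restrict.exists_mult hind
    have hmχ : m ⟨χ, hχ⟩ = e₀ := by
      have h1 := hm ⟨χ, hχ⟩
      rw [FrobRec.frobenius_reciprocity N ϑ χ hχcf, Clifford.classInner_conj_symm, he₀,
        Complex.conj_natCast] at h1
      exact_mod_cast h1.symm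
    have hdϑpos : 0 < charDegree ϑ := irr_charDegree_pos hϑ
    have hdegind : charDegree (indFun N ϑ) = N.index * charDegree ϑ := by
      have h : ((charDegree (indFun N ϑ) : ℕ) : ℂ) = ((N.index * charDegree ϑ : ℕ) : ℂ) := by
        rw [char_natCast_charDegree hind, FrobRec.indFun_one]
        push_cast
        rw [char_natCast_charDegree hϑchar]
      exact_mod_cast h
    have hkey : (∀ (g : G) (n : N), ϑ ⟨g * n * g⁻¹, hN.conj_mem (n : G) n.2 g⟩ = ϑ n) →
        N.index * charDegree ϑ = e₀ * (e₀ * charDegree ϑ) +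
          ∑ ψ ∈ (Finset.univ.erase (⟨χ, hχ⟩ : IrrCharacter G)),
            m ψ * charDegree (ψ : G → ℂ) := by
      intro hinv
      have hres := hF1 hinv
      have hdegχ : charDegree χ = e₀ * charDegree ϑ := by
        have h : ((charDegree χ : ℕ) : ℂ) = ((e₀ * charDegree ϑ : ℕ) : ℂ) := by
          rw [char_natCast_charDegree hχchar]
          push_cast
          rw [char_natCast_charDegree hϑchar]
          have h2 := congrFun hres 1
          simp only [Pi.smul_apply, smul_eq_mul] at h2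
          exact h2
        exact_mod_cast h
      rw [← hdegind, hmdeg,
        ← Finset.add_sum_erase Finset.univ _ (Finset.mem_univ (⟨χ, hχ⟩ : IrrCharacter G)),
        hmχ, hdegχ]
    constructor
    · intro hc
      have hinv : ∀ (g : G) (n : N), ϑ ⟨g * n * g⁻¹, hN.conj_mem (n : G) n.2 g⟩ = ϑ n :=
        fun g n => (hc g n).1
      have huniq := (hc 1 1).2
      refine ⟨hinv, ?_⟩
      have h := hkey hinv
      have hrest : ∑ ψ ∈ (Finset.univ.erase (⟨χ, hχ⟩ : IrrCharacter G)),
          m ψ * charDegree (ψ : G → ℂ) = 0 := by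
        apply Finset.sum_eq_zero
        intro ψ hψ
        have hne : ψ ≠ ⟨χ, hχ⟩ := (Finset.mem_erase.mp hψ).1
        have hm0 : m ψ = 0 := by
          by_contra hm0
          apply hne
          apply Subtype.ext
          apply huniq ψ ψ.2
          rw [hm ψ]
          exact_mod_cast hm0
        rw [hm0, zero_mul]
      rw [hrest, add_zero, ← mul_assoc] at h
      have h3 := Nat.eq_of_mul_eq_mul_right hdϑpos h
      rw [h3]
      ring
    · rintro ⟨hinv, hsq⟩ g n
      refine ⟨hinv g n, ?_⟩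
      intro ψ hψ hne
      have h := hkey hinv
      have hrest : ∑ ψ ∈ (Finset.univ.erase (⟨χ, hχ⟩ : IrrCharacter G)),
          m ψ * charDegree (ψ : G → ℂ) = 0 := by
        rw [← hsq] at h
        have h4 : e₀ ^ 2 * charDegree ϑ = e₀ * (e₀ * charDegree ϑ) := by ring
        rw [h4] at h
        exact Nat.add_left_cancel (h.symm.trans (Nat.add_zero _).symm)
      by_contra hψχ
      have hmem : (⟨ψ, hψ⟩ : IrrCharacter G) ∈ Finset.univ.erase (⟨χ, hχ⟩ : IrrCharacter G) := by
        rw [Finset.mem_erase]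
        exact ⟨fun h => hψχ (congrArg Subtype.val h), Finset.mem_univ _⟩
      have h1 := (Finset.sum_eq_zero_iff.mp hrest) _ hmem
      have hdpos : 0 < charDegree ψ := irr_charDegree_pos hψ
      have hm0 : m ⟨ψ, hψ⟩ = 0 := by
        rcases Nat.mul_eq_zero.mp h1 with h | h
        · exact h
        · exact absurd h hdpos.ne'
      apply hne
      rw [hm ⟨ψ, hψ⟩, hm0, Nat.cast_zero]
  exact ⟨hA.trans hB.symm, hA.trans hC.symm⟩

end Cfsg.Agent.S0900
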