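import Cfsg.Statements.S0901
-- import your own Cfsg.Agent.* helpers here
import Mathlib

set_option autoImplicit false
open Cfsg

namespace Cfsg.Agent.S0901

section Aux

open Polynomial

/-- Powers equal to one, transported from `ℂ` to the algebraic integers. -/
theorem pow_eq_one_of_coe (ε : Cfsg.AlgInt) (m : ℕ) (h : (ε : ℂ) ^ m = 1) : ε ^ m = 1 := by
  apply Subtype.ext
  simpa using h

/-- A primitive root of unity among the algebraic integers. -/
theorem exists_primitiveRoot (n : ℕ) (hn : n ≠ 0) : ∃ ζ : Cfsg.AlgInt, IsPrimitiveRoot ζ n := by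
  have h := Complex.isPrimitiveRoot_exp n hn
  have hint : IsIntegral ℤ (Complex.exp (2 * Real.pi * Complex.I / n)) := by
    refine ⟨X ^ n - 1, monic_X_pow_sub_C 1 hn, ?_⟩
    simp [h.pow_eq_one]
  refine ⟨⟨_, hint⟩, ?_⟩
  exact IsPrimitiveRoot.of_map_of_injective (f := (Cfsg.AlgInt).val) h Subtype.val_injective

/-- In the residue field, the image of a natural number prime to `p` is nonzero. -/
theorem natCast_ne_zero_of_coprime (p : ℕ) (M : Ideal Cfsg.AlgInt) (hM : Cfsg.IsPModular p M)
    (m : ℕ) (hm : ¬ p ∣ m) : (m : Cfsg.AlgInt) ∉ M := by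
  obtain ⟨hp, hmax, hpM⟩ := hM
  intro hmM
  have hcop : Nat.Coprime m p := (Nat.Coprime.symm ((Nat.Prime.coprime_iff_not_dvd hp).mpr hm))
  have h1 : ((Nat.gcd m p : ℤ) : Cfsg.AlgInt) ∈ M := by
    rw [Nat.gcd_eq_gcd_ab m p]
    push_cast
    exact M.add_mem (M.mul_mem_right _ hmM) (M.mul_mem_right _ hpM)
  rw [hcop] at h1
  simp only [Nat.cast_one, Int.cast_one] at h1
  exact hmax.ne_top ((Ideal.eq_top_iff_one M).mpr h1)

end Aux


/-- Let M be a maximal ideal of the ring of algebraic integers containing the prime p, and let U be the set of complex roots of unity of order prime to p. Then reduction modulo M is injective on U, and every algebraic integer not in M is congruent modulo M to an element of U (so U maps bijectively onto the nonzero residues). -/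
theorem result (p : ℕ) [Fact p.Prime] (M : Ideal Cfsg.AlgInt) (hM : Cfsg.IsPModular p M) : (∀ ε₁ ε₂ : Cfsg.AlgInt, (∃ m : ℕ, ¬ p ∣ m ∧ (ε₁ : ℂ) ^ m = 1) → (∃ m : ℕ, ¬ p ∣ m ∧ (ε₂ : ℂ) ^ m = 1) → ε₁ - ε₂ ∈ M → ε₁ = ε₂) ∧ (∀ a : Cfsg.AlgInt, a ∉ M → ∃ ε : Cfsg.AlgInt, (∃ m : ℕ, ¬ p ∣ m ∧ (ε : ℂ) ^ m = 1) ∧ a - ε ∈ M) := by
  have hp : p.Prime := hM.1
  have hmax : M.IsMaximal := hM.2.1
  have hpM : (p : Cfsg.AlgInt) ∈ M := hM.2.2
  have hprime : M.IsPrime := hmax.isPrime
  constructor
  · rintro ε₁ ε₂ ⟨m₁, hm₁, h₁⟩ ⟨m₂, hm₂, h₂⟩ hmem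
    by_contra hne
    have hmdvd : ¬ p ∣ m₁ * m₂ := by
      intro h
      rcases (Nat.Prime.dvd_mul hp).mp h with h | h
      · exact hm₁ h
      · exact hm₂ h
    have e₁ : ε₁ ^ (m₁ * m₂) = 1 := by
      rw [pow_mul, pow_eq_one_of_coe ε₁ m₁ h₁, one_pow]
    have e₂ : ε₂ ^ (m₁ * m₂) = 1 := by
      rw [mul_comm, pow_mul, pow_eq_one_of_coe ε₂ m₂ h₂, one_pow]
    set m := m₁ * m₂ with hm
    have hgeom := geom_sum₂_mul ε₁ ε₂ m
    rw [e₁, e₂, sub_self] at hgeom
    have hS : ∑ i ∈ Finset.range m, ε₁ ^ i * ε₂ ^ (m - 1 - i) = 0 := by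
      rcases mul_eq_zero.mp hgeom with h | h
      · exact h
      · exact absurd (sub_eq_zero.mp h) hne
    have hπ : Ideal.Quotient.mk M ε₁ = Ideal.Quotient.mk M ε₂ := by
      rw [Ideal.Quotient.eq]
      exact hmem
    have hS' := congrArg (Ideal.Quotient.mk M) hS
    rw [RingHom.map_geom_sum₂, hπ, geom_sum₂_self, map_zero] at hS'
    have hmM : ((m : Cfsg.AlgInt) * ε₂ ^ (m - 1)) ∈ M := by
      rw [← Ideal.Quotient.eq_zero_iff_mem]
      simpa using hS'
    have hm0 : m ≠ 0 := by
      intro h0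
      apply hmdvd
      rw [h0]
      exact dvd_zero p
    have hmM2 : (m : Cfsg.AlgInt) ∈ M := by
      have h3 := M.mul_mem_right ε₂ hmM
      have h4 : (m : Cfsg.AlgInt) * ε₂ ^ (m - 1) * ε₂ = (m : Cfsg.AlgInt) := by
        rw [mul_assoc, ← pow_succ, Nat.sub_add_cancel (Nat.pos_of_ne_zero hm0), e₂, mul_one]
      rwa [h4] at h3
    exact natCast_ne_zero_of_coprime p M hM m hmdvd hmM2
  · intro a ha
    -- the residue field
    let K := Cfsg.AlgInt ⧸ M
    letI : Field K := Ideal.Quotient.field M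
    have hpK : ((p : ℕ) : K) = 0 := by
      have : Ideal.Quotient.mk M (p : Cfsg.AlgInt) = 0 := Ideal.Quotient.eq_zero_iff_mem.mpr hpM
      simpa using this
    have hchar : ringChar K = p := CharP.ringChar_of_prime_eq_zero hp hpK
    haveI : CharP K p := by
      rw [← hchar]
      exact ringChar.charP K
    letI : Algebra (ZMod p) K := ZMod.algebra K p
    have hint : IsIntegral (ZMod p) (Ideal.Quotient.mk M a) := by
      have ha_int : IsIntegral ℤ a := by
        have h1 : IsIntegral ℤ (a : ℂ) := a.2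
        exact (isIntegral_algebraMap_iff (A := Cfsg.AlgInt) (B := ℂ) Subtype.val_injective).mp h1
      exact ha_int.map_of_comp_eq (Int.castRingHom (ZMod p)) (Ideal.Quotient.mk M)
        (RingHom.ext_int _ _)
    let F := IntermediateField.adjoin (ZMod p) {Ideal.Quotient.mk M a}
    haveI : FiniteDimensional (ZMod p) F := IntermediateField.adjoin.finiteDimensional hint
    haveI : Finite F := Module.finite_of_finite (ZMod p)
    haveI : Fintype F := Fintype.ofFinite F
    haveI : CharP F p := charP_of_injective_algebraMap (algebraMap (ZMod p) F).injective p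
    let x : F := ⟨Ideal.Quotient.mk M a, IntermediateField.mem_adjoin_simple_self _ _⟩
    have hx : x ≠ 0 := by
      intro h0
      have h1 : Ideal.Quotient.mk M a = 0 := congrArg Subtype.val h0
      exact ha (Ideal.Quotient.eq_zero_iff_mem.mp h1)
    have hpow := FiniteField.pow_card_sub_one_eq_one x hx
    obtain ⟨k, -, hk⟩ := FiniteField.card F p
    set n := Fintype.card F - 1 with hn
    have hnp : ¬ p ∣ n := by
      intro hdvd
      have h1 : p ∣ Fintype.card F := by
        rw [hk]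
        exact dvd_pow_self p k.pos.ne'
      have h2 : 1 ≤ Fintype.card F := Fintype.card_pos
      have h3 : p ∣ Fintype.card F - n := Nat.dvd_sub h1 hdvd
      have h4 : Fintype.card F - n = 1 := by omega
      rw [h4] at h3
      exact hp.one_lt.ne' (Nat.dvd_one.mp h3)
    have hn0 : n ≠ 0 := by
      intro h0
      apply hnp
      rw [h0]
      exact dvd_zero p
    have hamem : a ^ n - 1 ∈ M := by
      rw [← Ideal.Quotient.eq_zero_iff_mem, map_sub, map_pow, map_one, sub_eq_zero]
      have := congrArg Subtype.val hpow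
      simpa using this
    obtain ⟨ζ, hζ⟩ := exists_primitiveRoot n hn0
    have hfac := Polynomial.X_pow_sub_one_eq_prod (Nat.pos_of_ne_zero hn0) hζ
    have hev := congrArg (Polynomial.eval a) hfac
    rw [Polynomial.eval_prod] at hev
    simp only [Polynomial.eval_sub, Polynomial.eval_pow, Polynomial.eval_X, Polynomial.eval_one,
      Polynomial.eval_C] at hev
    rw [hev] at hamem
    obtain ⟨ε, hε, hεM⟩ := (Ideal.IsPrime.prod_mem_iff).mp hamem
    refine ⟨ε, ⟨n, hnp, ?_⟩, hεM⟩
    have h1 := (Polynomial.mem_nthRootsFinset (Nat.pos_of_ne_zero hn0) 1).mp hε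
    have h2 := congrArg (Subtype.val) h1
    simpa using h2

end Cfsg.Agent.S0901
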