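-- Statement S0902: block membership does not depend on the maximal ideal over p.
import Cfsg.Statements.S0902
import Mathlib
import Cfsg.Agent.Lib.Helper80.Integrality
import Cfsg.Agent.Lib.Helper80.GaloisRat

set_option autoImplicit false
open Cfsg

namespace Cfsg.Agent.S0902

open Polynomial
open Cfsg.Agent.Lib.Helper80.GaloisRat Cfsg.Agent.Lib.Helper80.Integrality

variable {G : Type*} [Group G] [Finite G]

omit [Finite G] in
/-- the centralizer of `g ^ j` is that of `g` when `j` is prime to the order of `g` -/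
theorem centralizer_pow (g : G) (j : ℕ) (hj' : j.Coprime (orderOf g)) :
    Subgroup.centralizer ({g ^ j} : Set G) = Subgroup.centralizer ({g} : Set G) := by
  obtain ⟨k, hk⟩ : ∃ k : ℕ, (g ^ j) ^ k = g := exists_pow_eq_self_of_coprime hj'
  ext y
  simp only [Subgroup.mem_centralizer_iff, Set.mem_singleton_iff, forall_eq]
  constructor
  · intro h
    have h1 : Commute (g ^ j) y := h
    have h2 : Commute ((g ^ j) ^ k) y := h1.pow_left k
    rw [hk] at h2
    exact h2
  · intro h
    have h1 : Commute g y := h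
    exact h1.pow_left j

/-- the difference of central characters -/
noncomputable def dd (χ ψ : G → ℂ) (h : G) : ℂ := centralChar χ h - centralChar ψ h

theorem dd_mem {χ ψ : G → ℂ} (hχ : IsCharacter G χ) (hψ : IsCharacter G ψ) (m : ℕ) [NeZero m]
    (hm : ∀ g : G, orderOf g ∣ m) (h : G) : dd χ ψ h ∈ cyc m := by
  unfold dd centralChar
  refine sub_mem (div_mem (mul_mem (natCast_mem _ _) (char_mem hχ m h (hm h)))
    (char_mem hχ m 1 (hm 1))) (div_mem (mul_mem (natCast_mem _ _) (char_mem hψ m h (hm h)))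
    (char_mem hψ m 1 (hm 1)))

/-- Galois conjugates of a difference of central characters are again such differences. -/
theorem galois_dd {χ ψ : G → ℂ} (hχ : IsCharacter G χ) (hψ : IsCharacter G ψ) (m : ℕ) [NeZero m]
    (hm : ∀ g : G, orderOf g ∣ m) (σ : cyc m ≃ₐ[ℚ] cyc m) (g : G) :
    ∃ j : ℕ, ((σ ⟨dd χ ψ g, dd_mem hχ hψ m hm g⟩ : cyc m) : ℂ) = dd χ ψ (g ^ j) := by
  obtain ⟨j, hjc, hj⟩ := exists_pow m σ
  refine ⟨j, ?_⟩
  have e1 : (⟨dd χ ψ g, dd_mem hχ hψ m hm g⟩ : cyc m) =
      (((Subgroup.centralizer ({g} : Set G)).index : ℕ) : cyc m) * ⟨χ g, char_mem hχ m g (hm g)⟩ /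
        ⟨χ 1, char_mem hχ m 1 (hm 1)⟩ -
      (((Subgroup.centralizer ({g} : Set G)).index : ℕ) : cyc m) * ⟨ψ g, char_mem hψ m g (hm g)⟩ /
        ⟨ψ 1, char_mem hψ m 1 (hm 1)⟩ := by
    apply Subtype.ext
    simp [dd, centralChar]
  rw [e1, map_sub, map_div₀, map_div₀, map_mul, map_mul, map_natCast]
  have c1 := galois_char hχ m hm σ j hj g
  have c2 := galois_char hχ m hm σ j hj 1
  have c3 := galois_char hψ m hm σ j hj g
  have c4 := galois_char hψ m hm σ j hj 1
  rw [one_pow] at c2 c4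
  have hjo : j.Coprime (orderOf g) := Nat.Coprime.coprime_dvd_right (hm g) hjc
  simp only [dd, centralChar, centralizer_pow g j hjo]
  push_cast
  rw [c1, c2, c3, c4]

/-- An algebraic integer in the local ideal at a prime ideal `M` lies in `M`. -/
theorem mem_of_memLocalIdeal (M : Ideal AlgInt) [M.IsPrime] (z : ℂ) (hz : IsIntegral ℤ z)
    (h : MemLocalIdeal M z) : ∃ r : AlgInt, r ∈ M ∧ (r : ℂ) = z := by
  obtain ⟨a, b, ha, hb, hab⟩ := h
  refine ⟨⟨z, hz⟩, ?_, rfl⟩
  have hb0 : (b : ℂ) ≠ 0 := by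
    intro h0
    apply hb
    have : b = 0 := Subtype.ext h0
    rw [this]
    exact M.zero_mem
  have e : a = (⟨z, hz⟩ : AlgInt) * b := by
    apply Subtype.ext
    show (a : ℂ) = z * (b : ℂ)
    rw [← hab]
    field_simp
  rw [e] at ha
  rcases Ideal.IsPrime.mem_or_mem inferInstance ha with h1 | h1
  · exact h1
  · exact absurd h1 hb

theorem result {G : Type*} [Group G] [Finite G] (p : ℕ) [Fact p.Prime] (M : Ideal Cfsg.AlgInt) (hM : Cfsg.IsPModular p M) (χ ψ : Cfsg.IrrCharacter G) (h : Cfsg.SameBlock M (χ : G → ℂ) (ψ : G → ℂ)) (M' : Ideal Cfsg.AlgInt) (hM' : Cfsg.IsPModular p M') (g : G) : ∃ r : Cfsg.AlgInt, r ∈ M' ∧ (r : ℂ) = Cfsg.centralChar (χ : G → ℂ) g - Cfsg.centralChar (ψ : G → ℂ) g := by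
  classical
  have hMmax : M.IsMaximal := hM.2.1
  have hM'max : M'.IsMaximal := hM'.2.1
  have hMp : M.IsPrime := hMmax.isPrime
  have hM'p : M'.IsPrime := hM'max.isPrime
  obtain ⟨m, hmdef⟩ : ∃ m : ℕ, m = Nat.card G := ⟨_, rfl⟩
  have : NeZero m := ⟨by rw [hmdef]; exact Nat.card_pos.ne'⟩
  have hm : ∀ g : G, orderOf g ∣ m := fun g => by rw [hmdef]; exact orderOf_dvd_natCard g
  have hχ : IsCharacter G (χ : G → ℂ) := isCharacter_of_isIrrCharacter χ.2
  have hψ : IsCharacter G (ψ : G → ℂ) := isCharacter_of_isIrrCharacter ψ.2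
  -- integrality
  have hint : ∀ k : G, IsIntegral ℤ (dd (χ : G → ℂ) (ψ : G → ℂ) k) := fun k =>
    (isIntegral_centralChar χ k).sub (isIntegral_centralChar ψ k)
  -- all the differences lie in M
  have hinM : ∀ k : G, ∃ r : AlgInt, r ∈ M ∧ (r : ℂ) = dd (χ : G → ℂ) (ψ : G → ℂ) k := fun k =>
    mem_of_memLocalIdeal M _ (hint k) (h k)
  set x : ℂ := dd (χ : G → ℂ) (ψ : G → ℂ) g with hxdef
  have hx : IsIntegral ℤ x := hint g
  set x' : cyc m := ⟨x, dd_mem hχ hψ m hm g⟩ with hx'def
  set f : ℤ[X] := minpoly ℤ x with hfdef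
  have hfmon : f.Monic := minpoly.monic hx
  have hfQ : minpoly ℚ x = f.map (algebraMap ℤ ℚ) :=
    minpoly.isIntegrallyClosed_eq_field_fractions' ℚ hx
  have hx'min : minpoly ℚ x' = minpoly ℚ x := by
    have := minpoly.algebraMap_eq (algebraMap (cyc m) ℂ).injective (A := ℚ) x'
    exact this.symm
  have := isGalois_cyc m
  have hnorm : Normal ℚ (cyc m) := inferInstance
  set P : (cyc m)[X] := (minpoly ℚ x').map (algebraMap ℚ (cyc m)) with hPdef
  have hPsplit : P.Splits := hnorm.splits x'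
  have hx'int : IsIntegral ℚ x' := hnorm.isIntegral x'
  have hPmon : P.Monic := (minpoly.monic hx'int).map _
  have hPprod : P = (P.roots.map (X - C ·)).prod := hPsplit.eq_prod_roots_of_monic hPmon
  -- every root lies in M
  have hroot : ∀ β ∈ P.roots, ∃ r : AlgInt, r ∈ M ∧ (r : ℂ) = (β : ℂ) := by
    intro β hβ
    have h1 : aeval β (minpoly ℚ x') = 0 := by
      have h2 := (Polynomial.mem_roots hPmon.ne_zero).mp hβ
      rw [Polynomial.IsRoot.def, hPdef, Polynomial.eval_map] at h2
      rw [Polynomial.aeval_def]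
      exact h2
    have h3 : IsConjRoot ℚ x' β := isConjRoot_of_aeval_eq_zero hx'int h1
    obtain ⟨σ, hσ⟩ := isConjRoot_iff_exists_algEquiv.mp h3
    have h4 : β = σ.symm x' := by
      rw [← hσ]
      simp
    obtain ⟨j, hj⟩ := galois_dd hχ hψ m hm σ.symm g
    obtain ⟨r, hr, hr'⟩ := hinM (g ^ j)
    refine ⟨r, hr, ?_⟩
    rw [hr', h4, ← hj]
  -- lift the roots to AlgInt
  let lift : cyc m → AlgInt := fun β =>
    if hb : ∃ r : AlgInt, r ∈ M ∧ (r : ℂ) = (β : ℂ) then hb.choose else 0
  have hlift1 : ∀ β ∈ P.roots, lift β ∈ M := by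
    intro β hβ
    have hb := hroot β hβ
    simp only [lift, dif_pos hb]
    exact hb.choose_spec.1
  have hlift2 : ∀ β ∈ P.roots, ((lift β : AlgInt) : ℂ) = (β : ℂ) := by
    intro β hβ
    have hb := hroot β hβ
    simp only [lift, dif_pos hb]
    exact hb.choose_spec.2
  set t : Multiset AlgInt := P.roots.map lift with htdef
  set Q : AlgInt[X] := (t.map (X - C ·)).prod with hQdef
  have hinj : Function.Injective (algebraMap AlgInt ℂ) := Subtype.val_injective
  -- Q is the image of f
  have hQf : f.map (algebraMap ℤ AlgInt) = Q := by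
    apply Polynomial.map_injective (algebraMap AlgInt ℂ) hinj
    rw [Polynomial.map_map, ← IsScalarTower.algebraMap_eq]
    have e1 : f.map (algebraMap ℤ ℂ) = P.map (algebraMap (cyc m) ℂ) := by
      rw [hPdef, Polynomial.map_map, ← IsScalarTower.algebraMap_eq, hx'min, hfQ,
        Polynomial.map_map, ← IsScalarTower.algebraMap_eq]
    rw [e1]
    conv_lhs => rw [hPprod]
    rw [hQdef, Polynomial.map_multiset_prod, Polynomial.map_multiset_prod, htdef,
      Multiset.map_map, Multiset.map_map, Multiset.map_map]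
    congr 1
    apply Multiset.map_congr rfl
    intro β hβ
    simp only [Function.comp_apply, Polynomial.map_sub, Polynomial.map_X, Polynomial.map_C]
    congr 2
    exact (hlift2 β hβ).symm
  -- reduce modulo M
  have hQbar : Q.map (Ideal.Quotient.mk M) = X ^ (Multiset.card t) := by
    rw [hQdef, Polynomial.map_multiset_prod, Multiset.map_map]
    have e2 : Multiset.map ((Polynomial.map (Ideal.Quotient.mk M)) ∘ fun r : AlgInt => (X - C r : AlgInt[X])) t
        = Multiset.map (fun _ => (X : (AlgInt ⧸ M)[X])) t := by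
      apply Multiset.map_congr rfl
      intro r hr
      simp only [Function.comp_apply, Polynomial.map_sub, Polynomial.map_X, Polynomial.map_C]
      obtain ⟨β, hβ, rfl⟩ := Multiset.mem_map.mp hr
      rw [Ideal.Quotient.eq_zero_iff_mem.mpr (hlift1 β hβ)]
      simp
    rw [e2, Multiset.map_const', Multiset.prod_replicate]
  have hdeg : Multiset.card t = f.natDegree := by
    have h1 : Q.natDegree = Multiset.card t := by
      rw [hQdef]
      exact Polynomial.natDegree_multiset_prod_X_sub_C_eq_card t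
    rw [← h1, ← hQf]
    exact hfmon.natDegree_map _
  -- the lower coefficients of f are divisible by p
  have hp : p.Prime := Fact.out
  have hcoef : ∀ k, k < f.natDegree → (p : ℤ) ∣ f.coeff k := by
    intro k hk
    have h1 : (Q.map (Ideal.Quotient.mk M)).coeff k = 0 := by
      rw [hQbar, Polynomial.coeff_X_pow, if_neg]
      rw [hdeg]
      exact hk.ne
    rw [← hQf, Polynomial.coeff_map, Polynomial.coeff_map, Ideal.Quotient.eq_zero_iff_mem] at h1
    by_contra hnd
    have hcop : IsCoprime (p : ℤ) (f.coeff k) :=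
      (Nat.prime_iff_prime_int.mp hp).coprime_iff_not_dvd.mpr hnd
    obtain ⟨a, b, hab⟩ := hcop
    have h2 : (1 : AlgInt) ∈ M := by
      have e3 : (1 : AlgInt) = algebraMap ℤ AlgInt a * algebraMap ℤ AlgInt (p : ℤ)
          + algebraMap ℤ AlgInt b * algebraMap ℤ AlgInt (f.coeff k) := by
        rw [← map_mul, ← map_mul, ← map_add, hab, map_one]
      rw [e3]
      refine M.add_mem (M.mul_mem_left _ ?_) (M.mul_mem_left _ h1)
      have : algebraMap ℤ AlgInt (p : ℤ) = (p : AlgInt) := by simp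
      rw [this]
      exact hM.2.2
    exact hMp.ne_top ((Ideal.eq_top_iff_one M).mpr h2)
  -- conclude
  set x0 : AlgInt := ⟨x, hx⟩ with hx0def
  have hroot0 : aeval x0 f = 0 := by
    apply Subtype.ext
    rw [Polynomial.aeval_subalgebra_coe]
    exact minpoly.aeval ℤ x
  rw [Polynomial.aeval_eq_sum_range, Finset.sum_range_succ, hfmon.coeff_natDegree, one_smul] at hroot0
  have hsum : ∑ i ∈ Finset.range f.natDegree, f.coeff i • x0 ^ i ∈ M' := by
    refine Ideal.sum_mem _ fun i hi => ?_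
    obtain ⟨c, hc⟩ := hcoef i (Finset.mem_range.mp hi)
    rw [hc, zsmul_eq_mul]
    push_cast
    exact M'.mul_mem_right _ (M'.mul_mem_right _ hM'.2.2)
  have hpow : x0 ^ f.natDegree ∈ M' := by
    have e4 : x0 ^ f.natDegree = -(∑ i ∈ Finset.range f.natDegree, f.coeff i • x0 ^ i) :=
      eq_neg_of_add_eq_zero_right hroot0
    rw [e4]
    exact M'.neg_mem hsum
  exact ⟨x0, hM'p.mem_of_pow_mem _ hpow, rfl⟩

end Cfsg.Agent.S0902
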