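import Cfsg.Statements.S0903
-- import your own Cfsg.Agent.* helpers here

set_option autoImplicit false
open Cfsg

namespace Cfsg.Agent.S0903

section Action

variable {G : Type*} [Group G] (P : Subgroup G) (c : G) (g h : G)

/-- The set of pairs being counted. -/
abbrev Pairs : Type _ := {xy : G × G // IsConj g xy.1 ∧ IsConj h xy.2 ∧ xy.1 * xy.2 = c}

theorem conj_mem (hc : c ∈ Subgroup.centralizer (P : Set G)) (u : P) (a : Pairs c g h) :
    IsConj g ((u : G) * a.1.1 * (u : G)⁻¹) ∧ IsConj h ((u : G) * a.1.2 * (u : G)⁻¹) ∧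
      ((u : G) * a.1.1 * (u : G)⁻¹) * ((u : G) * a.1.2 * (u : G)⁻¹) = c := by
  obtain ⟨⟨x, y⟩, h1, h2, h3⟩ := a
  refine ⟨h1.trans (isConj_iff.mpr ⟨u, rfl⟩), h2.trans (isConj_iff.mpr ⟨u, rfl⟩), ?_⟩
  simp only at h3 ⊢
  have hcu := (Subgroup.mem_centralizer_iff.mp hc) (u : G) u.2
  calc (u : G) * x * (u : G)⁻¹ * ((u : G) * y * (u : G)⁻¹)
      = (u : G) * (x * y) * (u : G)⁻¹ := by group
    _ = (u : G) * c * (u : G)⁻¹ := by rw [h3]
    _ = c := by rw [hcu, mul_inv_cancel_right]

/-- The conjugation action of `P` on the pairs. -/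
@[instance_reducible]
def pairsAction (hc : c ∈ Subgroup.centralizer (P : Set G)) : MulAction P (Pairs c g h) where
  smul u a := ⟨((u : G) * a.1.1 * (u : G)⁻¹, (u : G) * a.1.2 * (u : G)⁻¹), conj_mem P c g h hc u a⟩
  one_smul a := by
    apply Subtype.ext
    apply Prod.ext <;> simp [HSMul.hSMul]
  mul_smul u v a := by
    apply Subtype.ext
    apply Prod.ext <;> simp [HSMul.hSMul, mul_assoc]

end Action


/-- Let P be a p-subgroup of the finite group G, let c centralize P and let g, h ∈ G. The number of pairs (x, y) with x conjugate to g, y conjugate to h and x * y = c is congruent modulo p to the number of such pairs in which x and y both centralize P. (This is why the Brauer map on class sums is multiplicative.) -/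
theorem result {G : Type*} [Group G] [Finite G] (p : ℕ) [Fact p.Prime] (P : Subgroup G) (hP : IsPGroup p P) (c : G) (hc : c ∈ Subgroup.centralizer (P : Set G)) (g h : G) : Nat.card {xy : G × G // IsConj g xy.1 ∧ IsConj h xy.2 ∧ xy.1 * xy.2 = c} ≡ Nat.card {xy : G × G // IsConj g xy.1 ∧ IsConj h xy.2 ∧ xy.1 * xy.2 = c ∧ xy.1 ∈ Subgroup.centralizer (P : Set G) ∧ xy.2 ∈ Subgroup.centralizer (P : Set G)} [MOD p] := by
  let _ : MulAction P (Pairs c g h) := pairsAction P c g h hc
  have hsmul : ∀ (u : P) (a : Pairs c g h),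
      (u • a).1 = ((u : G) * a.1.1 * (u : G)⁻¹, (u : G) * a.1.2 * (u : G)⁻¹) := fun u a => rfl
  have key := hP.card_modEq_card_fixedPoints (Pairs c g h)
  have hcard : Nat.card (MulAction.fixedPoints P (Pairs c g h)) =
      Nat.card {xy : G × G // IsConj g xy.1 ∧ IsConj h xy.2 ∧ xy.1 * xy.2 = c ∧
        xy.1 ∈ Subgroup.centralizer (P : Set G) ∧ xy.2 ∈ Subgroup.centralizer (P : Set G)} := by
    apply Nat.card_congr
    refine
      { toFun := fun a => ⟨a.1.1, a.1.2.1, a.1.2.2.1, a.1.2.2.2, ?_, ?_⟩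
        invFun := fun b => ⟨⟨b.1, b.2.1, b.2.2.1, b.2.2.2.1⟩, ?_⟩
        left_inv := fun a => rfl
        right_inv := fun b => rfl }
    · rw [Subgroup.mem_centralizer_iff]
      intro u hu
      have h1 := a.2 ⟨u, hu⟩
      have h2 := congrArg (fun z => z.1.1) h1
      simp only [hsmul] at h2
      exact mul_inv_eq_iff_eq_mul.mp h2
    · rw [Subgroup.mem_centralizer_iff]
      intro u hu
      have h1 := a.2 ⟨u, hu⟩
      have h2 := congrArg (fun z => z.1.2) h1
      simp only [hsmul] at h2
      exact mul_inv_eq_iff_eq_mul.mp h2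
    · intro u
      apply Subtype.ext
      rw [hsmul]
      have hx := (Subgroup.mem_centralizer_iff.mp b.2.2.2.2.1) (u : G) u.2
      have hy := (Subgroup.mem_centralizer_iff.mp b.2.2.2.2.2) (u : G) u.2
      apply Prod.ext
      · simp only
        rw [hx, mul_inv_cancel_right]
      · simp only
        rw [hy, mul_inv_cancel_right]
  rw [← hcard]
  exact key

end Cfsg.Agent.S0903
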