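import Cfsg.Statements.S0905
-- import your own Cfsg.Agent.* helpers here
import Mathlib
import Cfsg.Agent.Lib.Helper15.AugNilp
import Cfsg.Agent.Lib.Helper78.Fitting

set_option autoImplicit false
open Cfsg

namespace Cfsg.Agent.S0905

/-- Let F be a field of characteristic p and let g be an element of the finite group G no conjugate of which centralizes O_p(G). Then the class sum of g is a nilpotent element of the group algebra F[G]. -/
theorem result {G : Type*} [Group G] [Finite G] (p : ℕ) [Fact p.Prime] (F : Type*) [Field F] [CharP F p] (g : G) (hg : ∀ x : G, IsConj g x → x ∉ Subgroup.centralizer (Cfsg.pCore p G : Set G)) : IsNilpotent (∑ᶠ x ∈ ConjClasses.carrier (ConjClasses.mk g), MonoidAlgebra.single x (1 : F) : MonoidAlgebra F G) := by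
  classical
  have : Fintype G := Fintype.ofFinite G
  have hn : (Cfsg.pCore p G).Normal := Cfsg.Agent.Lib.Helper78.Fitting.pCore_normal p
  have hQ : IsPGroup p (Cfsg.pCore p G) := Cfsg.Agent.Lib.Helper78.Fitting.pCore_isPGroup p
  have key := Cfsg.Agent.Lib.Helper15.AugNilp.classSum_pow_card_eq_zero p F (Cfsg.pCore p G) hQ g hg
  have e : (∑ᶠ x ∈ ConjClasses.carrier (ConjClasses.mk g), MonoidAlgebra.single x (1 : F) :
      MonoidAlgebra F G) =
      ∑ x : G, (if IsConj g x then (1 : F) else 0) • MonoidAlgebra.of F G x := by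
    rw [finsum_mem_def, finsum_eq_sum_of_fintype]
    apply Finset.sum_congr rfl
    intro x _
    have hx : x ∈ ConjClasses.carrier (ConjClasses.mk g) ↔ IsConj g x := by
      rw [ConjClasses.mem_carrier_iff_mk_eq, ConjClasses.mk_eq_mk_iff_isConj]
      exact isConj_comm
    by_cases h : IsConj g x
    · rw [Set.indicator_of_mem (hx.mpr h), if_pos h, one_smul]
      rfl
    · rw [Set.indicator_of_notMem (fun h' => h (hx.mp h')), if_neg h, zero_smul]
  rw [e]
  exact ⟨Nat.card G, key⟩

end Cfsg.Agent.S0905
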