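import Cfsg.Statements.S0909
-- import your own Cfsg.Agent.* helpers here
import Mathlib
import Cfsg.Agent.Lib.CT.Wedderburn
import Cfsg.Agent.Lib.Helper16.LocalIdeal
import Cfsg.Agent.Lib.Helper16.Grouping

set_option autoImplicit false
open Cfsg

namespace Cfsg.Agent.S0909

open scoped ComplexConjugate in
/-- The block coefficient as a finite sum. -/
theorem blockCoeff_eq_sum {G : Type*} [Group G] [Fintype (Cfsg.IrrCharacter G)]
    (A : Set (Cfsg.IrrCharacter G)) [DecidablePred (· ∈ A)] (g : G) :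
    Cfsg.blockCoeff A g = (Nat.card G : ℂ)⁻¹ *
      ∑ χ ∈ Finset.univ.filter (· ∈ A), (χ : G → ℂ) 1 * conj ((χ : G → ℂ) g) := by
  unfold Cfsg.blockCoeff
  rw [Cfsg.Agent.Lib.Helper16.Grouping.finsum_mem_eq_sum_filter_univ]

/-- The block coefficients are a class function. -/
theorem blockCoeff_conj {G : Type*} [Group G] [Finite G] (A : Set (Cfsg.IrrCharacter G))
    (g h : G) : Cfsg.blockCoeff A (h * g * h⁻¹) = Cfsg.blockCoeff A g := by
  unfold Cfsg.blockCoeff
  congr 1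
  apply finsum_congr
  intro χ
  apply finsum_congr
  intro _
  rw [Cfsg.Agent.Lib.CT.Wedderburn.char_isClassFunction
    (Cfsg.Agent.Lib.CT.Wedderburn.isCharacter_of_irr χ.2) g h]

open scoped ComplexConjugate in
/-- The central character of `φ` applied to the sum of the idempotents of the members of `A`. -/
theorem sum_blockCoeff_mul {G : Type*} [Group G] [Fintype G] [Fintype (Cfsg.IrrCharacter G)]
    (A : Set (Cfsg.IrrCharacter G)) [DecidablePred (· ∈ A)] (φ : Cfsg.IrrCharacter G) :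
    ∑ g : G, Cfsg.blockCoeff A g * ((φ : G → ℂ) g / (φ : G → ℂ) 1) =
      if φ ∈ A then 1 else 0 := by
  classical
  have h1 : ∀ g : G, Cfsg.blockCoeff A g * ((φ : G → ℂ) g / (φ : G → ℂ) 1) =
      ∑ χ ∈ Finset.univ.filter (· ∈ A), (χ : G → ℂ) 1 / (φ : G → ℂ) 1 *
        ((Nat.card G : ℂ)⁻¹ * ((φ : G → ℂ) g * conj ((χ : G → ℂ) g))) := by
    intro g
    rw [blockCoeff_eq_sum, Finset.mul_sum, Finset.sum_mul]
    apply Finset.sum_congr rfl
    intro χ _
    ring
  simp_rw [h1]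
  rw [Finset.sum_comm]
  have h2 : ∀ χ : Cfsg.IrrCharacter G, ∑ g : G, (χ : G → ℂ) 1 / (φ : G → ℂ) 1 *
        ((Nat.card G : ℂ)⁻¹ * ((φ : G → ℂ) g * conj ((χ : G → ℂ) g))) =
      (χ : G → ℂ) 1 / (φ : G → ℂ) 1 * (if φ = χ then 1 else 0) := by
    intro χ
    rw [← Finset.mul_sum, ← Finset.mul_sum]
    congr 1
    exact Cfsg.Agent.Lib.CT.Wedderburn.irr_orthonormal φ χ
  simp_rw [h2]
  have hφ1 : (φ : G → ℂ) 1 ≠ 0 := Cfsg.Agent.Lib.CT.Wedderburn.irr_apply_one_ne_zero φ.2
  by_cases hφ : φ ∈ A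
  · rw [if_pos hφ, Finset.sum_eq_single φ]
    · rw [if_pos rfl, mul_one, div_self hφ1]
    · intro χ _ hne
      rw [if_neg (fun h => hne h.symm), mul_zero]
    · intro h
      exact absurd (Finset.mem_filter.mpr ⟨Finset.mem_univ _, hφ⟩) h
  · rw [if_neg hφ]
    apply Finset.sum_eq_zero
    intro χ hχ
    have hχA : χ ∈ A := (Finset.mem_filter.mp hχ).2
    have hne : φ ≠ χ := fun h => hφ (by rw [h]; exact hχA)
    rw [if_neg hne, mul_zero]

/-- Let A be a set of irreducible characters of the finite group G such that, for every g, the inverse of the group order times the sum over χ ∈ A of χ 1 * conj (χ g) is a local integer at the maximal ideal M (containing the prime p) of the algebraic integers. Then A is a union of blocks relative to M: it contains the whole block of each of its members. -/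
theorem result {G : Type*} [Group G] [Finite G] (p : ℕ) [Fact p.Prime] (M : Ideal Cfsg.AlgInt) (hM : Cfsg.IsPModular p M) (A : Set (Cfsg.IrrCharacter G)) (hA : ∀ g : G, Cfsg.MemLocalRing M (Cfsg.blockCoeff A g)) (χ : Cfsg.IrrCharacter G) (hχ : χ ∈ A) : Cfsg.blockOf M (χ : G → ℂ) ⊆ A := by
  classical
  have : Fintype G := Fintype.ofFinite G
  have := Cfsg.Agent.Lib.CT.Wedderburn.finite_irrCharacter G
  have : Fintype (Cfsg.IrrCharacter G) := Fintype.ofFinite _
  have hmax : M.IsMaximal := hM.2.1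
  intro ψ hψ
  by_contra hψA
  have hψ' : ∀ g : G, Cfsg.MemLocalIdeal M
      (Cfsg.centralChar (χ : G → ℂ) g - Cfsg.centralChar (ψ : G → ℂ) g) := hψ
  have hdiff : Cfsg.MemLocalIdeal M (∑ g : G, Cfsg.blockCoeff A g *
      ((χ : G → ℂ) g / (χ : G → ℂ) 1 - (ψ : G → ℂ) g / (ψ : G → ℂ) 1)) := by
    obtain ⟨R, -, hR⟩ := Cfsg.Agent.Lib.Helper16.Grouping.sum_stable (Finset.univ : Finset G)
      (fun _ _ _ => Finset.mem_univ _) (fun g => Cfsg.blockCoeff A g *
        ((χ : G → ℂ) g / (χ : G → ℂ) 1 - (ψ : G → ℂ) g / (ψ : G → ℂ) 1))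
    rw [hR]
    apply Cfsg.Agent.Lib.Helper16.LocalIdeal.mli_sum hmax
    intro r _
    have e : ∑ x ∈ Cfsg.Agent.Lib.Helper16.CentralChar.conjFinset r, Cfsg.blockCoeff A x *
        ((χ : G → ℂ) x / (χ : G → ℂ) 1 - (ψ : G → ℂ) x / (ψ : G → ℂ) 1) =
        Cfsg.blockCoeff A r *
          (Cfsg.centralChar (χ : G → ℂ) r - Cfsg.centralChar (ψ : G → ℂ) r) := by
      rw [← Cfsg.Agent.Lib.Helper16.Grouping.sum_conjFinset_div (χ : G → ℂ)
          (Cfsg.Agent.Lib.CT.Wedderburn.char_isClassFunction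
            (Cfsg.Agent.Lib.CT.Wedderburn.isCharacter_of_irr χ.2)) r,
        ← Cfsg.Agent.Lib.Helper16.Grouping.sum_conjFinset_div (ψ : G → ℂ)
          (Cfsg.Agent.Lib.CT.Wedderburn.char_isClassFunction
            (Cfsg.Agent.Lib.CT.Wedderburn.isCharacter_of_irr ψ.2)) r,
        ← Finset.sum_sub_distrib, Finset.mul_sum]
      apply Finset.sum_congr rfl
      intro x hx
      obtain ⟨c, hc⟩ := isConj_iff.mp (Cfsg.Agent.Lib.Helper16.CentralChar.mem_conjFinset.mp hx)
      rw [← hc, blockCoeff_conj]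
    rw [e]
    exact Cfsg.Agent.Lib.Helper16.LocalIdeal.mli_mul_left hmax (hA r) (hψ' r)
  have e2 : (∑ g : G, Cfsg.blockCoeff A g *
      ((χ : G → ℂ) g / (χ : G → ℂ) 1 - (ψ : G → ℂ) g / (ψ : G → ℂ) 1)) = 1 := by
    simp_rw [mul_sub]
    rw [Finset.sum_sub_distrib, sum_blockCoeff_mul, sum_blockCoeff_mul, if_pos hχ, if_neg hψA,
      sub_zero]
  rw [e2] at hdiff
  exact Cfsg.Agent.Lib.Helper16.LocalIdeal.not_memLocalIdeal_one hmax hdiff

end Cfsg.Agent.S0909
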