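import Cfsg.Statements.S0914
import Cfsg.Agent.Lib.CT.DefectZeroBlock

set_option autoImplicit false
open Cfsg

namespace Cfsg.Agent.S0914

open Cfsg.Agent.Lib.CT.DefectZeroBlock Cfsg.Agent.Lib.CT.Wedderburn

/-- `p` does not divide `n / d` iff the `p`-parts of `d` and `n` agree, for `d ∣ n`. -/
theorem not_dvd_div_iff {p n d : ℕ} (hp : p.Prime) (hn : n ≠ 0) (hd : d ∣ n) :
    ¬ p ∣ n / d ↔ d.factorization p = n.factorization p := by
  obtain ⟨k, rfl⟩ := hd
  have hd0 : d ≠ 0 := fun h => hn (by rw [h, zero_mul])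
  have hk0 : k ≠ 0 := fun h => hn (by rw [h, mul_zero])
  rw [Nat.mul_div_cancel_left k (Nat.pos_of_ne_zero hd0), Nat.factorization_mul hd0 hk0,
    Finsupp.add_apply]
  constructor
  · intro h
    rw [Nat.factorization_eq_zero_of_not_dvd h, add_zero]
  · intro h hdvd
    have h1 : k.factorization p = 0 := by omega
    rcases (Nat.factorization_eq_zero_iff k p).mp h1 with h2 | h2 | h2
    · exact h2 hp
    · exact h2 hdvd
    · exact hk0 h2

/-- Let χ be an irreducible character of the finite group G, p a prime and M a maximal ideal of the algebraic integers containing p. Then p does not divide the integer (Nat.card G) / χ(1) if and only if the block of χ relative to M consists of χ alone. -/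
theorem result {G : Type*} [Group G] [Finite G] (p : ℕ) [Fact p.Prime] (M : Ideal Cfsg.AlgInt) (hM : Cfsg.IsPModular p M) (χ : Cfsg.IrrCharacter G) : ¬ p ∣ Nat.card G / Cfsg.charDegree (χ : G → ℂ) ↔ Cfsg.blockOf M (χ : G → ℂ) = {χ} := by
  rw [blockOf_eq_singleton_iff hM χ]
  exact not_dvd_div_iff hM.1 Nat.card_pos.ne'
    (Cfsg.Agent.Lib.Helper80.Integrality.charDegree_dvd_card χ)

end Cfsg.Agent.S0914
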