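import Cfsg.Statements.S0915
import Cfsg.Agent.Lib.Helper76.PSolv
import Cfsg.Agent.Lib.Helper77.IdemIn
import Cfsg.Agent.Lib.Helper16.QuotP
import Cfsg.Agent.Lib.Helper16.NormalP
import Cfsg.Agent.Lib.Helper78.Fitting
import Cfsg.Agent.Lib.Helper77.OsimaVanish

set_option autoImplicit false
open Cfsg

namespace Cfsg.Agent.S0915

/-- Let G be a finite p-solvable group with trivial largest normal subgroup of order prime to p. Then any two irreducible characters of G lie in the same block relative to every maximal ideal M of the algebraic integers containing p: G has a single p-block. -/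
theorem result {G : Type*} [Group G] [Finite G] (p : ℕ) [Fact p.Prime] (M : Ideal Cfsg.AlgInt) (hM : Cfsg.IsPModular p M) (hsolv : Cfsg.IsPSolvable p G) (hcore : Cfsg.pPrimeCore p G = ⊥) (χ ψ : Cfsg.IrrCharacter G) : Cfsg.SameBlock M (χ : G → ℂ) (ψ : G → ℂ) := by
  classical
  have hp : p.Prime := Fact.out
  have hMp := Cfsg.Agent.Lib.Helper77.LocalRing.isPrime_of_isPModular hM
  have hQn : (Cfsg.pCore p G).Normal := Cfsg.Agent.Lib.Helper78.Fitting.pCore_normal p
  have hQ : IsPGroup p (Cfsg.pCore p G) := Cfsg.Agent.Lib.Helper78.Fitting.pCore_isPGroup p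
  have hHH := Cfsg.Agent.Lib.Helper76.PSolv.centralizer_pCore_le p hsolv hcore
  have hCn : (Subgroup.centralizer ((Cfsg.pCore p G : Subgroup G) : Set G)).Normal :=
    Subgroup.normal_centralizer
  have hB := Cfsg.Agent.Lib.Helper16.ZR.isPBlock_blockOf (M := M) χ
  have hχ := Cfsg.Agent.Lib.Helper16.ZR.mem_blockOf_self hMp χ
  have hzero : ∀ g : G, g ≠ 1 → Cfsg.blockCoeff (Cfsg.blockOf M (χ : G → ℂ)) g = 0 := by
    intro g hg
    by_cases hgC : g ∈ Subgroup.centralizer ((Cfsg.pCore p G : Subgroup G) : Set G)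
    · apply Cfsg.Agent.Lib.Helper77.OsimaVanish.blockCoeff_eq_zero_of_singular p M hM _ hB g
      obtain ⟨k, hk⟩ := hQ ⟨g, hHH hgC⟩
      have hk' : g ^ p ^ k = 1 := by
        have h2 := congrArg Subtype.val hk
        rw [Subgroup.coe_pow] at h2
        exact h2
      obtain ⟨j, -, hj⟩ := (Nat.dvd_prime_pow hp).mp (orderOf_dvd_of_pow_eq_one hk')
      rcases j with _ | j
      · rw [pow_zero] at hj
        exact absurd (orderOf_eq_one_iff.mp hj) hg
      · rw [hj]
        exact dvd_pow_self p (Nat.succ_ne_zero j)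
    · exact Cfsg.Agent.Lib.Helper77.IdemIn.blockCoeff_eq_zero_of_normal hMp
        (Subgroup.centralizer ((Cfsg.pCore p G : Subgroup G) : Set G))
        (fun φ g hg => Cfsg.Agent.Lib.Helper16.NormalP.centralChar_mem_of_not_centralizer p M hM
          (Cfsg.pCore p G) hQ (φ : G → ℂ) φ.2 g hg) _ hB g hgC
  have hidem : Cfsg.Agent.Lib.Helper77.BlockIdem.blockIdem (Cfsg.blockOf M (χ : G → ℂ))
      = Cfsg.blockCoeff (Cfsg.blockOf M (χ : G → ℂ)) 1 • (1 : MonoidAlgebra ℂ G) := by
    ext g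
    rw [Cfsg.Agent.Lib.Helper77.BlockIdem.coeff_blockIdem]
    by_cases hg : g = 1
    · subst hg
      simp [MonoidAlgebra.one_def]
    · rw [hzero g hg]
      simp [MonoidAlgebra.one_def, hg]
  show ψ ∈ Cfsg.blockOf M (χ : G → ℂ)
  by_contra hψ
  have h1 := Cfsg.Agent.Lib.Helper77.BlockIdem.omega_blockIdem (Cfsg.blockOf M (χ : G → ℂ)) ψ
  rw [if_neg hψ, hidem, Cfsg.Agent.Lib.Helper77.CentralChar.omega_smul,
    Cfsg.Agent.Lib.Helper77.CentralChar.omega_one_irr ψ.2, mul_one] at h1
  exact Cfsg.Agent.Lib.Helper16.QuotP.blockCoeff_one_ne_zero _ χ hχ h1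

end Cfsg.Agent.S0915
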