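import Cfsg.Statements.S0918
import Cfsg.Agent.Lib.Helper16.BrauerCC

set_option autoImplicit false
open Cfsg

namespace Cfsg.Agent.S0918

open Cfsg.Agent.Lib.Helper16.LocalIdeal Cfsg.Agent.Lib.Helper16.BrauerCC

/-- For P·C_G(P) ≤ H ≤ N_G(P) with P a p-subgroup, a block b of H induces the block B of G exactly when the central character of B agrees mod p with the central character of b composed with the Brauer map. -/
theorem result {G : Type*} [Group G] [Finite G] (p : ℕ) [Fact p.Prime] (M : Ideal Cfsg.AlgInt) (hM : Cfsg.IsPModular p M) (P H : Subgroup G) (hP : IsPGroup p P) (hPH : P ≤ H) (hCH : Subgroup.centralizer (P : Set G) ≤ H) (hHN : H ≤ Subgroup.normalizer (P : Set G)) (b : Set (Cfsg.IrrCharacter H)) (hb : Cfsg.IsPBlock M b) (B : Set (Cfsg.IrrCharacter G)) (hB : Cfsg.IsPBlock M B) : Cfsg.IsInducedBlock M H b B ↔ ∀ ξ ∈ b, ∀ χ ∈ B, ∀ g : G, Cfsg.MemLocalIdeal M (Cfsg.brauerCentralChar P H (ξ : H → ℂ) g - Cfsg.centralChar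 (χ : G → ℂ) g) := by
  have key : ∀ (ξ : Cfsg.IrrCharacter H) (g : G), Cfsg.MemLocalIdeal M
      (Cfsg.inducedCentralChar H (ξ : H → ℂ) g - Cfsg.brauerCentralChar P H (ξ : H → ℂ) g) :=
    fun ξ g => induced_sub_brauer_mem p M hM P H hP hPH hHN ξ.1 ξ.2 g
  constructor
  · rintro ⟨_, _, h⟩ ξ hξ χ hχ g
    have h1 := mli_sub hM.2.1 (h ξ hξ χ hχ g) (key ξ g)
    have : Cfsg.inducedCentralChar H (ξ : H → ℂ) g - Cfsg.centralChar (χ : G → ℂ) g -
        (Cfsg.inducedCentralChar H (ξ : H → ℂ) g - Cfsg.brauerCentralChar P H (ξ : H → ℂ) g) =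
        Cfsg.brauerCentralChar P H (ξ : H → ℂ) g - Cfsg.centralChar (χ : G → ℂ) g := by ring
    rwa [this] at h1
  · intro h
    refine ⟨hb, hB, ?_⟩
    intro ξ hξ χ hχ g
    have h1 := mli_add hM.2.1 (h ξ hξ χ hχ g) (key ξ g)
    have : Cfsg.brauerCentralChar P H (ξ : H → ℂ) g - Cfsg.centralChar (χ : G → ℂ) g +
        (Cfsg.inducedCentralChar H (ξ : H → ℂ) g - Cfsg.brauerCentralChar P H (ξ : H → ℂ) g) =
        Cfsg.inducedCentralChar H (ξ : H → ℂ) g - Cfsg.centralChar (χ : G → ℂ) g := by ring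
    rwa [this] at h1

end Cfsg.Agent.S0918
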