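import Cfsg.Statements.S0921
import Cfsg.Agent.Lib.Helper16.Over
import Cfsg.Agent.Lib.Helper75.SelfCentCore

set_option autoImplicit false
open Cfsg

namespace Cfsg.Agent.S0921

/-- Let N = O_p'(G) be the largest normal subgroup of the finite group G of order prime to p, and fix a maximal ideal M of the algebraic integers containing p. If two irreducible characters χ, ψ of G lie in the same block relative to M, then an irreducible character of N occurs in the restriction of χ exactly when it occurs in the restriction of ψ. -/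
theorem result {G : Type*} [Group G] [Finite G] (p : ℕ) [Fact p.Prime] (M : Ideal Cfsg.AlgInt) (hM : Cfsg.IsPModular p M) [Fintype G] (χ ψ : Cfsg.IrrCharacter G) (h : Cfsg.SameBlock M (χ : G → ℂ) (ψ : G → ℂ)) (θ : Cfsg.IrrCharacter (Cfsg.pPrimeCore p G)) [Fintype (Cfsg.pPrimeCore p G)] : Cfsg.classInner (fun n : Cfsg.pPrimeCore p G => (χ : G → ℂ) n) (θ : Cfsg.pPrimeCore p G → ℂ) ≠ 0 ↔ Cfsg.classInner (fun n : Cfsg.pPrimeCore p G => (ψ : G → ℂ) n) (θ : Cfsg.pPrimeCore p G → ℂ) ≠ 0 := by
  have hN := Cfsg.Agent.Lib.Helper75.SelfCentCore.pPrimeCore_normal G p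
  have hpN := Cfsg.Agent.Lib.Helper75.SelfCentCore.pPrimeCore_not_dvd G (Fact.out : p.Prime)
  constructor
  · intro hχ
    exact Cfsg.Agent.Lib.Helper16.Over.constituent_of_sameBlock hM _ hN hpN χ ψ h θ hχ
  · intro hψ
    exact Cfsg.Agent.Lib.Helper16.Over.constituent_of_sameBlock hM _ hN hpN ψ χ
      (Cfsg.Agent.Lib.Helper16.ZR.sameBlock_symm h) θ hψ

end Cfsg.Agent.S0921
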