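import Cfsg.Statements.S0933
import Cfsg.Agent.S0932
import Cfsg.Agent.Lib.Helper16.Induced

set_option autoImplicit false
open Cfsg

namespace Cfsg.Agent.S0933

open Cfsg.Agent.Lib.Helper16.CentralChar Cfsg.Agent.Lib.Helper16.LocalIdeal
  Cfsg.Agent.Lib.Helper16.Induced

/-- If ξ is an irreducible character of H ≤ G whose induced character ξ^G is irreducible, then the block of ξ induces the block of ξ^G. -/
theorem result {G : Type*} [Group G] [Fintype G] (p : ℕ) [Fact p.Prime] (M : Ideal Cfsg.AlgInt) (hM : Cfsg.IsPModular p M) (H : Subgroup G) (ξ : Cfsg.IrrCharacter H) (hind : Cfsg.IsIrrCharacter G (Cfsg.indFun H (ξ : H → ℂ))) : Cfsg.IsInducedBlock M H (Cfsg.blockOf M (ξ : H → ℂ)) (Cfsg.blockOf M (Cfsg.indFun H (ξ : H → ℂ))) := by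
  refine ⟨⟨ξ, rfl⟩, ⟨⟨Cfsg.indFun H (ξ : H → ℂ), hind⟩, rfl⟩, ?_⟩
  intro ξ' hξ' χ hχ g
  have hchar : Cfsg.IsCharacter H (ξ : H → ℂ) := by
    obtain ⟨n, ρ, _, h⟩ := ξ.2
    exact ⟨n, ρ, h⟩
  have h1 := Cfsg.Agent.S0932.result H (ξ : H → ℂ) hchar g
  have h2 := induced_sub_induced_mem hM.2.1 H ξ'.1 ξ.1
    (fun x k => irr_conj ξ'.1 ξ'.2 x k) (fun x k => irr_conj ξ.1 ξ.2 x k)
    (fun x => by
      have := mli_neg (hξ' x)
      rwa [neg_sub] at this) g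
  have h3 : Cfsg.MemLocalIdeal M
      (Cfsg.centralChar (Cfsg.indFun H (ξ : H → ℂ)) g - Cfsg.centralChar (χ : G → ℂ) g) := hχ g
  have h4 := mli_add hM.2.1 h2 h3
  rw [← h1] at h4
  have : Cfsg.inducedCentralChar H (ξ' : H → ℂ) g - Cfsg.inducedCentralChar H (ξ : H → ℂ) g +
      (Cfsg.inducedCentralChar H (ξ : H → ℂ) g - Cfsg.centralChar (χ : G → ℂ) g) =
      Cfsg.inducedCentralChar H (ξ' : H → ℂ) g - Cfsg.centralChar (χ : G → ℂ) g := by ring
  rwa [this] at h4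

end Cfsg.Agent.S0933
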