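import Cfsg.Statements.S0943
import Cfsg.Agent.Lib.Helper16.CentralChar

set_option autoImplicit false
open Cfsg

namespace Cfsg.Agent.S0943

open Cfsg.Agent.Lib.Helper16.CentralChar MonoidAlgebra

/-- If an irreducible character χ takes one value on all products xy with x conjugate to u and y conjugate to v, then χ(u)χ(v) = χ(1)χ(uv). -/
theorem result {G : Type*} [Group G] [Finite G] (χ : Cfsg.IrrCharacter G) (u v : G) (hc : ∀ x y : G, IsConj u x → IsConj v y → (χ : G → ℂ) (x * y) = (χ : G → ℂ) (u * v)) : (χ : G → ℂ) u * (χ : G → ℂ) v = (χ : G → ℂ) 1 * (χ : G → ℂ) (u * v) := by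
  have h1 := lin_mul_central χ.1 χ.2 (of ℂ G u) (classSum ℂ v) (classSum_mem_center ℂ v)
  rw [omega_classSum_irr χ.1 χ.2, lin_of] at h1
  have h2 : lin χ.1 (of ℂ G u * classSum ℂ v) =
      ((Subgroup.centralizer ({v} : Set G)).index : ℂ) * χ.1 (u * v) := by
    unfold classSum
    rw [Finset.mul_sum, map_sum]
    have h3 : ∀ y ∈ conjFinset v, lin χ.1 (of ℂ G u * single y 1) = χ.1 (u * v) := by
      intro y hy
      rw [of_apply, single_mul_single, lin_single, one_mul, one_mul]
      exact hc u y (IsConj.refl u) (mem_conjFinset.mp hy)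
    rw [Finset.sum_congr rfl h3, Finset.sum_const, card_conjFinset, nsmul_eq_mul]
  rw [h2] at h1
  unfold Cfsg.centralChar at h1
  have hidx : ((Subgroup.centralizer ({v} : Set G)).index : ℂ) ≠ 0 := by
    have : (Subgroup.centralizer ({v} : Set G)).index ≠ 0 := Subgroup.index_ne_zero_of_finite
    exact_mod_cast this
  have h1' := apply_one_ne_zero χ.1 χ.2
  field_simp at h1
  linear_combination -h1

end Cfsg.Agent.S0943
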