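import Cfsg.Statements.S0944
import Mathlib

set_option autoImplicit false
open Cfsg

namespace Cfsg.Agent.S0944

theorem trace_invol {n : ℕ} (f : (Fin n → ℂ) →ₗ[ℂ] (Fin n → ℂ)) (hf : f * f = 1) :
    ∃ r : ℕ, LinearMap.trace ℂ (Fin n → ℂ) f = 2 * (r : ℂ) - n := by
  set e : (Fin n → ℂ) →ₗ[ℂ] (Fin n → ℂ) := (1 / 2 : ℂ) • (1 + f) with he
  have hid : IsIdempotentElem e := by
    unfold IsIdempotentElem
    rw [he, smul_mul_smul_comm, mul_add, add_mul, add_mul, hf]
    simp only [mul_one, one_mul]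
    rw [show (1 : (Fin n → ℂ) →ₗ[ℂ] (Fin n → ℂ)) + f + (f + 1) = (2 : ℂ) • (1 + f) by
      rw [two_smul]; abel, smul_smul]
    norm_num
  have htr := (LinearMap.IsIdempotentElem.isProj_range e hid).trace
  refine ⟨Module.finrank ℂ (LinearMap.range e), ?_⟩
  rw [← htr, he]
  simp only [map_smul, map_add, LinearMap.trace_one, Module.finrank_fin_fun, smul_eq_mul]
  ring

/-- The value of an irreducible character at an involution is an integer congruent to the degree modulo 2. -/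
theorem result {G : Type*} [Group G] [Finite G] (χ : Cfsg.IrrCharacter G) (u : G) (hu : orderOf u = 2) : ∃ n : ℤ, (χ : G → ℂ) u = (n : ℂ) ∧ (2 : ℤ) ∣ (Cfsg.charDegree (χ : G → ℂ) : ℤ) - n := by
  obtain ⟨n, ρ, -, hρ⟩ := χ.2
  have hf : ρ u * ρ u = 1 := by
    rw [← map_mul, ← pow_two, ← hu, pow_orderOf_eq_one, map_one]
  obtain ⟨r, hr⟩ := trace_invol (ρ u) hf
  have hdeg : Cfsg.charDegree (χ : G → ℂ) = n := by
    unfold Cfsg.charDegree
    rw [← hρ, Representation.char_one]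
    simp
  refine ⟨2 * (r : ℤ) - n, ?_, ?_⟩
  · rw [← hρ]
    change LinearMap.trace ℂ (Fin n → ℂ) (ρ u) = _
    rw [hr]; push_cast; ring
  · rw [hdeg]
    exact ⟨(n : ℤ) - r, by ring⟩

end Cfsg.Agent.S0944
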