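import Cfsg.Statements.S0946
import Cfsg.Agent.Lib.Helper52.KleinFusion

set_option autoImplicit false
open Cfsg

namespace Cfsg.Agent.S0946

/-- Let P be a Sylow 2-subgroup of the finite group G isomorphic to Z/2^m × Z/2^m with m ≥ 1. Then either P has a normal complement in G, or all involutions of G are conjugate. -/
theorem result {G : Type*} [Group G] [Finite G] (P : Sylow 2 G) (m : ℕ) (hm : 1 ≤ m) (e : (P : Subgroup G) ≃* Multiplicative (ZMod (2 ^ m) × ZMod (2 ^ m))) : (∃ N : Subgroup G, N.Normal ∧ Subgroup.IsComplement' N (P : Subgroup G)) ∨ ∀ s t : G, orderOf s = 2 → orderOf t = 2 → IsConj s t := by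
  obtain ⟨a, b, c, h⟩ := Cfsg.Agent.Lib.Helper52.KleinFusion.omega_of_homocyclic P m hm e
  by_cases hfix : ∀ n ∈ Subgroup.normalizer (P : Set G), n * a * n⁻¹ = a
  · left
    exact Cfsg.Agent.Lib.Helper52.KleinFusion.exists_normal_complement P
      (Cfsg.Agent.Lib.Helper52.KleinFusion.normalizer_le_centralizer h hfix)
  · right
    push Not at hfix
    obtain ⟨n₀, hn₀, hmove⟩ := hfix
    have hc := Cfsg.Agent.Lib.Helper52.KleinFusion.conj_of_move h n₀ hn₀ a h.ha h.oa hmove
    intro s t hs ht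
    exact Cfsg.Agent.Lib.Helper52.KleinFusion.all_conj h hc.1 hc.2.1 s t hs ht

end Cfsg.Agent.S0946
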