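import Cfsg.Statements.S0948
import Cfsg.Agent.Lib.Helper75.KleinFour3

set_option autoImplicit false
open Cfsg

namespace Cfsg.Agent.S0948

/-- Let the finite group G have a Sylow 2-subgroup P that is a Klein four-group, suppose all involutions of G are conjugate, and fix a maximal ideal M of the algebraic integers containing 2. Then the principal block consists of exactly four irreducible characters, the principal character and ζ₂, ζ₃, ζ₄, and there is a sign ε such that for every involution z: ζ₂ z = 1, ζ₃ z = ε, ζ₄ z = -1; moreover ζ₂ 1 ≡ 1, ζ₃ 1 ≡ ε, ζ₄ 1 ≡ -1 (mod 4), and 1 + ζ₂ y + ε ζ₃ y - ζ₄ y = 0 for every y of odd order. -/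
theorem result {G : Type*} [Group G] [Finite G] (M : Ideal Cfsg.AlgInt) (hM : Cfsg.IsPModular 2 M) (P : Sylow 2 G) (hP : IsKleinFour (P : Subgroup G)) (hone : ∀ s t : G, orderOf s = 2 → orderOf t = 2 → IsConj s t) : ∃ ζ₂ ζ₃ ζ₄ : Cfsg.IrrCharacter G, ∃ ε : ℤ, (ε = 1 ∨ ε = -1) ∧ (ζ₂ : G → ℂ) ≠ (fun _ => 1) ∧ (ζ₃ : G → ℂ) ≠ (fun _ => 1) ∧ ζ₂ ≠ ζ₃ ∧ ζ₂ ≠ ζ₄ ∧ ζ₃ ≠ ζ₄ ∧ Cfsg.principalBlock M G = {χ : Cfsg.IrrCharacter G | (χ : G → ℂ) = (fun _ => 1) ∨ χ = ζ₂ ∨ χ = ζ₃ ∨ χ = ζ₄} ∧ (∀ z : G, orderOf z = 2 → (ζ₂ : G → ℂ) z = 1 ∧ (ζ₃ : G → ℂ) z = (ε : ℂ) ∧ (ζ₄ : G → ℂ) z = -1) ∧ (4 : ℤ) ∣ (Cfsg.charDegree (ζ₂ : G → ℂ) : ℤ) - 1 ∧ (4 : ℤ) ∣ (Cfsg.charDegree (ζ₃ : G → ℂ) : ℤ) - ε ∧ (4 : ℤ) ∣ (Cfsg.charDegree (ζ₄ : G → ℂ) : ℤ) + 1 ∧ ∀ y : G, Odd (orderOf y) → 1 + (ζ₂ : G → ℂ) y + (ε : ℂ) * (ζ₃ : G → ℂ) y - (ζ₄ : G → ℂ) y = 0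 := by
  haveI := hP
  have hcard : Nat.card (P : Subgroup G) = 4 := IsKleinFour.card_four
  exact Cfsg.Agent.Lib.Helper75.KleinFour3.principal_structure M hM P hcard
    (fun x hx => congrArg Subtype.val (IsKleinFour.mul_self (⟨x, hx⟩ : (P : Subgroup G)))) hone

end Cfsg.Agent.S0948
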