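import Cfsg.Statements.S0949
import Cfsg.Agent.Lib.Helper77.HomoMain

set_option autoImplicit false
open Cfsg

namespace Cfsg.Agent.S0949

/-- Let the finite group G have a Sylow 2-subgroup P isomorphic to Z/2^m × Z/2^m with m ≥ 2, and suppose G has no nontrivial normal subgroup of odd order. Then P is normal in G, C_G(P) = P, and the index of P is 1 or 3. -/
theorem result {G : Type*} [Group G] [Finite G] (P : Sylow 2 G) (m : ℕ) (hm : 2 ≤ m) (e : (P : Subgroup G) ≃* Multiplicative (ZMod (2 ^ m) × ZMod (2 ^ m))) (hO : ∀ N : Subgroup G, N.Normal → Odd (Nat.card N) → N = ⊥) : (P : Subgroup G).Normal ∧ Subgroup.centralizer (P : Set G) = (P : Subgroup G) ∧ ((P : Subgroup G).index = 1 ∨ (P : Subgroup G).index = 3) := by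
  obtain ⟨a, b, c, h⟩ := Cfsg.Agent.Lib.Helper52.KleinFusion.omega_of_homocyclic P m (by omega) e
  have h8 : 8 ∣ Nat.card P := by
    have hc : Nat.card (P : Subgroup G) = 2 ^ m * 2 ^ m := by
      rw [Nat.card_congr e.toEquiv]
      show Nat.card (ZMod (2 ^ m) × ZMod (2 ^ m)) = _
      rw [Nat.card_prod, Nat.card_zmod]
    have h1 : Nat.card P = Nat.card (P : Subgroup G) := rfl
    have h2 : (8 : ℕ) = 2 ^ 3 := by norm_num
    rw [h1, hc, ← pow_add, h2]
    exact pow_dvd_pow 2 (by omega)
  exact Cfsg.Agent.Lib.Helper77.HomoMain.main P a b c h h8 hO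

end Cfsg.Agent.S0949
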