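import Cfsg.Statements.S0957
import Mathlib
-- import your own Cfsg.Agent.* helpers here

set_option autoImplicit false
open Cfsg

namespace Cfsg.Agent.S0957

/-- If every orbit has size divisible by `k`, so has the whole set. -/
theorem dvd_card_of_dvd_orbits {M X : Type*} [Group M] [MulAction M X] [Finite X] (k : ℕ)
    (h : ∀ x : X, k ∣ Nat.card (MulAction.orbit M x)) : k ∣ Nat.card X := by
  classical
  have e := MulAction.selfEquivSigmaOrbits M X
  rw [Nat.card_congr e]
  have : Fintype (MulAction.orbitRel.Quotient M X) := Fintype.ofFinite _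
  rw [Nat.card_sigma]
  exact Finset.dvd_sum (fun ω _ => h _)

/-- The order of a `p`-subgroup divides the order of a Sylow `p`-subgroup. -/
theorem card_dvd_sylow {G : Type*} [Group G] [Finite G] {p : ℕ} [Fact p.Prime] (Q : Subgroup G)
    (hQ : IsPGroup p Q) (P : Sylow p G) : Nat.card Q ∣ Nat.card P := by
  obtain ⟨P', hP'⟩ := hQ.exists_le_sylow
  have h1 := Subgroup.card_dvd_of_le hP'
  have h2 : Nat.card (P' : Subgroup G) = Nat.card (P : Subgroup G) := by
    rw [Sylow.card_eq_multiplicity, Sylow.card_eq_multiplicity]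
  rw [h2] at h1
  exact h1

/-- The set of pairs. -/
abbrev Pairs {G : Type*} [Group G] {p : ℕ} (P : Sylow p G) (g h : G) : Type _ :=
  {yz : G × G // IsConj g yz.1 ∧ IsConj h yz.2 ∧ yz.2 * yz.1⁻¹ ∈ (P : Subgroup G)}

instance pairsAction {G : Type*} [Group G] {p : ℕ} (P : Sylow p G) (g h : G) :
    MulAction (P : Subgroup G) (Pairs P g h) where
  smul x yz := ⟨((x : G) * yz.1.1 * (x : G)⁻¹, (x : G) * yz.1.2 * (x : G)⁻¹),
    yz.2.1.trans (isConj_iff.mpr ⟨x, rfl⟩), yz.2.2.1.trans (isConj_iff.mpr ⟨x, rfl⟩), by
      have e : (x : G) * yz.1.2 * (x : G)⁻¹ * ((x : G) * yz.1.1 * (x : G)⁻¹)⁻¹ =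
          (x : G) * (yz.1.2 * yz.1.1⁻¹) * (x : G)⁻¹ := by group
      rw [e]
      exact Subgroup.mul_mem _ (Subgroup.mul_mem _ x.2 yz.2.2.2) (Subgroup.inv_mem _ x.2)⟩
  one_smul yz := by
    apply Subtype.ext
    apply Prod.ext <;> simp [HSMul.hSMul]
  mul_smul a b yz := by
    apply Subtype.ext
    apply Prod.ext <;> simp [HSMul.hSMul, mul_assoc]

theorem smul_fst {G : Type*} [Group G] {p : ℕ} (P : Sylow p G) (g h : G)
    (x : (P : Subgroup G)) (yz : Pairs P g h) :
    (x • yz).1.1 = (x : G) * yz.1.1 * (x : G)⁻¹ := rfl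

/-- Let P be a Sylow p-subgroup of the finite group G, let g, h ∈ G and let p ^ d be the order of a Sylow p-subgroup of the centralizer of g. Then the number of pairs (y, z) with y conjugate to g, z conjugate to h and z * y⁻¹ ∈ P is divisible by the order of P divided by p ^ d. -/
theorem result {G : Type*} [Group G] [Finite G] (p : ℕ) [Fact p.Prime] (P : Sylow p G) (g h : G) (S : Sylow p (Subgroup.centralizer ({g} : Set G))) : Nat.card P / Nat.card S ∣ Nat.card {yz : G × G // IsConj g yz.1 ∧ IsConj h yz.2 ∧ yz.2 * yz.1⁻¹ ∈ (P : Subgroup G)} := by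
  have hSP : Nat.card S ∣ Nat.card P := by
    have h1 := card_dvd_sylow ((S : Subgroup (Subgroup.centralizer ({g} : Set G))).map
      (Subgroup.centralizer ({g} : Set G)).subtype) (S.isPGroup'.map _) P
    rwa [Subgroup.card_subtype] at h1
  apply dvd_card_of_dvd_orbits (M := (P : Subgroup G)) (X := Pairs P g h)
  intro pt
  have h1 : (MulAction.stabilizer (P : Subgroup G) pt).index * Nat.card (MulAction.stabilizer (P : Subgroup G) pt)
      = Nat.card (P : Subgroup G) := Subgroup.index_mul_card _
  rw [MulAction.index_stabilizer, ← Nat.card_coe_set_eq] at h1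
  have h2 : Nat.card (MulAction.stabilizer (P : Subgroup G) pt) ∣ Nat.card S := by
    obtain ⟨c, hc⟩ := isConj_iff.mp pt.2.1
    -- injective hom from the stabilizer to the centralizer of g
    let φ : (MulAction.stabilizer (P : Subgroup G) pt) →* (Subgroup.centralizer ({g} : Set G)) :=
      { toFun := fun x => ⟨c⁻¹ * ((x : (P : Subgroup G)) : G) * c, by
          rw [Subgroup.mem_centralizer_iff]
          intro z hz
          rw [Set.mem_singleton_iff] at hz
          subst hz
          have hx := x.2
          rw [MulAction.mem_stabilizer_iff] at hx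
          have hx1 : ((x : (P : Subgroup G)) : G) * pt.1.1 * ((x : (P : Subgroup G)) : G)⁻¹ = pt.1.1 := by
            have := congrArg (fun q : Pairs P z h => q.1.1) hx
            simpa [smul_fst] using this
          rw [← hc] at hx1
          calc z * (c⁻¹ * ((x : (P : Subgroup G)) : G) * c)
              = c⁻¹ * (c * z * c⁻¹) * ((x : (P : Subgroup G)) : G) * c := by group
            _ = c⁻¹ * (((x : (P : Subgroup G)) : G) * (c * z * c⁻¹) * ((x : (P : Subgroup G)) : G)⁻¹) *
                ((x : (P : Subgroup G)) : G) * c := by rw [hx1]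
            _ = c⁻¹ * ((x : (P : Subgroup G)) : G) * c * z := by group⟩
        map_one' := by
          apply Subtype.ext
          simp
        map_mul' := by
          intro a b
          apply Subtype.ext
          simp only [Subgroup.coe_mul]
          group }
    have hφ : Function.Injective φ := by
      intro a b hab
      have h3 : c⁻¹ * ((a : (P : Subgroup G)) : G) * c = c⁻¹ * ((b : (P : Subgroup G)) : G) * c :=
        congrArg Subtype.val hab
      have h4 : ((a : (P : Subgroup G)) : G) = ((b : (P : Subgroup G)) : G) := by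
        have := congrArg (fun z => c * z * c⁻¹) h3
        simpa [mul_assoc] using this
      exact Subtype.ext (Subtype.ext h4)
    have hP' : IsPGroup p (MulAction.stabilizer (P : Subgroup G) pt) :=
      (P.isPGroup').to_subgroup _
    have hrange : IsPGroup p φ.range :=
      hP'.of_surjective φ.rangeRestrict φ.rangeRestrict_surjective
    have h5 := card_dvd_sylow φ.range hrange S
    have h6 : Nat.card φ.range = Nat.card (MulAction.stabilizer (P : Subgroup G) pt) :=
      (Nat.card_congr (MonoidHom.ofInjective hφ).toEquiv).symm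
    rwa [h6] at h5
  -- arithmetic
  obtain ⟨e, he⟩ := h2
  obtain ⟨f, hf⟩ := hSP
  set a := Nat.card (MulAction.orbit (P : Subgroup G) pt) with ha
  set s := Nat.card (MulAction.stabilizer (P : Subgroup G) pt) with hs
  have hSpos : 0 < Nat.card S := Nat.card_pos
  rw [hf, Nat.mul_div_cancel_left _ hSpos]
  have hspos : 0 < s := Nat.card_pos
  have h7 : a * s = s * e * f := by rw [h1, hf, he]
  have h8 : a = e * f := by
    have : s * a = s * (e * f) := by rw [mul_comm, h7, mul_assoc]
    exact Nat.eq_of_mul_eq_mul_left hspos this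
  exact ⟨e, by rw [h8, mul_comm]⟩

end Cfsg.Agent.S0957
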