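import Cfsg.Statements.S0958
import Cfsg.Agent.Lib.Helper16.Idem

set_option autoImplicit false
open Cfsg

namespace Cfsg.Agent.S0958

open Cfsg Cfsg.Agent.Lib.Helper16.Idem

/-- Let P be a p-subgroup of the finite group G and H a subgroup with P ⊔ C_G(P) ≤ H ≤ N_G(P); fix a maximal ideal M of the algebraic integers containing p. Then a block B of G is induced by some block of H if and only if some conjugate of P is contained in a defect group of B. -/
theorem result {G : Type*} [Group G] [Finite G] (p : ℕ) [Fact p.Prime] (M : Ideal Cfsg.AlgInt) (hM : Cfsg.IsPModular p M) (P H : Subgroup G) (hP : IsPGroup p P) (hPH : P ⊔ Subgroup.centralizer (P : Set G) ≤ H) (hHN : H ≤ Subgroup.normalizer (P : Set G)) (B : Set (Cfsg.IrrCharacter G)) (hB : Cfsg.IsPBlock M B) : (∃ b : Set (Cfsg.IrrCharacter H), Cfsg.IsInducedBlock M H b B) ↔ ∃ D : Subgroup G, Cfsg.IsDefectGroup p M B D ∧ ∃ x : G, P.map (MulAut.conj x).toMonoidHom ≤ D := by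
  have hPH' : P ≤ H := le_sup_left.trans hPH
  have hCH : Subgroup.centralizer (P : Set G) ≤ H := le_sup_right.trans hPH
  constructor
  · rintro ⟨b, hind⟩
    obtain ⟨D, hD, hle⟩ := le_defect_of_induced p hM P H hP hPH' hHN B b hind
    refine ⟨D, hD, 1, ?_⟩
    rintro y ⟨u, hu, rfl⟩
    simpa using hle hu
  · rintro ⟨D, hD, x, hx⟩
    exact exists_induced_of_le_defect p hM P H hP hPH' hCH hHN B hB D hD x hx

end Cfsg.Agent.S0958
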