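import Cfsg.Statements.S0962
import Cfsg.Agent.Lib.Helper75.DefectCount

set_option autoImplicit false
open Cfsg

namespace Cfsg.Agent.S0962

open Cfsg Cfsg.Agent.Lib.Helper75.DefectCount Cfsg.Agent.Lib.CT.Wedderburn

/-- Fix a maximal ideal M of the algebraic integers containing the prime p and a natural number d. The number of blocks of the finite group G of defect at least d is at most the number of conjugacy classes of p-regular elements of G of defect at least d, where the defect of a class is the exponent of p in the order of the centralizer of any of its elements. -/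
theorem result {G : Type*} [Group G] [Finite G] (p : ℕ) [Fact p.Prime] (M : Ideal Cfsg.AlgInt) (hM : Cfsg.IsPModular p M) (d : ℕ) : Nat.card {B : Set (Cfsg.IrrCharacter G) // Cfsg.IsPBlock M B ∧ d ≤ Cfsg.blockDefect p B} ≤ Nat.card {C : ConjClasses G // ∃ g : G, ConjClasses.mk g = C ∧ Cfsg.IsPRegular p g ∧ d ≤ (Nat.card (Subgroup.centralizer ({g} : Set G))).factorization p} := by
  classical
  have hfin := finite_irrCharacter G
  have key : ∀ {X Y : Type _} [Finite X] [Finite Y] (f : X → ℕ) (g : Y → ℕ)
      (_ : ∀ σ, Nat.card {x // f x = σ} ≤ Nat.card {y // g y = σ}), Nat.card X ≤ Nat.card Y := by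
    intro X Y _ _ f g h
    have hemb : ∀ σ, Nonempty ({x // f x = σ} ↪ {y // g y = σ}) := by
      intro σ
      have := Fintype.ofFinite {x // f x = σ}
      have := Fintype.ofFinite {y // g y = σ}
      apply Function.Embedding.nonempty_of_card_le
      rw [← Nat.card_eq_fintype_card, ← Nat.card_eq_fintype_card]
      exact h σ
    have e : ∀ σ, {x // f x = σ} ↪ {y // g y = σ} := fun σ => (hemb σ).some
    have hinj : ∀ σ σ' (a : {x // f x = σ}) (a' : {x // f x = σ'}),
        (e σ a).1 = (e σ' a').1 → a.1 = a'.1 := by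
      intro σ σ' a a' hh
      have hσ : σ = σ' := by rw [← (e σ a).2, ← (e σ' a').2, hh]
      subst hσ
      have h1 := (e σ).injective (Subtype.ext hh)
      rw [h1]
    apply Nat.card_le_card_of_injective (fun x => ((e (f x)) ⟨x, rfl⟩).1)
    intro x x' hxx
    exact hinj _ _ ⟨x, rfl⟩ ⟨x', rfl⟩ hxx
  apply key (X := {B : Set (Cfsg.IrrCharacter G) // Cfsg.IsPBlock M B ∧
      d ≤ Cfsg.blockDefect p B})
    (Y := {C : ConjClasses G // ∃ g : G, ConjClasses.mk g = C ∧ Cfsg.IsPRegular p g ∧
      d ≤ (Nat.card (Subgroup.centralizer ({g} : Set G))).factorization p})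
    (fun x => Cfsg.blockDefect p x.1)
    (fun y => (Nat.card (Subgroup.centralizer ({y.1.out} : Set G))).factorization p)
  intro σ
  by_cases hσ : d ≤ σ
  · have hmid := card_blocks_le (G := G) p M hM σ
    refine le_trans ?_ (le_trans hmid ?_)
    · apply Nat.card_le_card_of_injective
        (fun x : {x : {B : Set (Cfsg.IrrCharacter G) // Cfsg.IsPBlock M B ∧
            d ≤ Cfsg.blockDefect p B} // Cfsg.blockDefect p x.1 = σ} =>
          (⟨x.1.1, x.1.2.1, x.2⟩ : {B : Set (Cfsg.IrrCharacter G) //
            Cfsg.IsPBlock M B ∧ Cfsg.blockDefect p B = σ}))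
      intro x x' hxx
      have h1 : x.1.1 = x'.1.1 := congrArg (fun z => z.1) hxx
      exact Subtype.ext (Subtype.ext h1)
    · have hY : ∀ C : {C : ConjClasses G // ∃ g : G, ConjClasses.mk g = C ∧ ¬ p ∣ orderOf g ∧
          (Nat.card (Subgroup.centralizer ({g} : Set G))).factorization p = σ},
          (∃ g : G, ConjClasses.mk g = C.1 ∧ Cfsg.IsPRegular p g ∧
            d ≤ (Nat.card (Subgroup.centralizer ({g} : Set G))).factorization p) ∧
          (Nat.card (Subgroup.centralizer ({C.1.out} : Set G))).factorization p = σ := by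
        rintro ⟨C, g, hg, hpg, hcg⟩
        refine ⟨⟨g, hg, hpg, by rw [hcg]; exact hσ⟩, ?_⟩
        have h1 : IsConj C.out g := by
          rw [← ConjClasses.mk_eq_mk_iff_isConj, hg]
          exact Quotient.out_eq C
        rw [card_centralizer_eq_of_isConj h1, hcg]
      let F : {C : ConjClasses G // ∃ g : G, ConjClasses.mk g = C ∧ ¬ p ∣ orderOf g ∧
          (Nat.card (Subgroup.centralizer ({g} : Set G))).factorization p = σ} →
          {y : {C : ConjClasses G // ∃ g : G, ConjClasses.mk g = C ∧ Cfsg.IsPRegular p g ∧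
            d ≤ (Nat.card (Subgroup.centralizer ({g} : Set G))).factorization p} //
            (Nat.card (Subgroup.centralizer ({y.1.out} : Set G))).factorization p = σ} :=
        fun C => ⟨⟨C.1, (hY C).1⟩, (hY C).2⟩
      have hF : Function.Injective F := by
        intro C C' hCC
        have h1 : C.1 = C'.1 := congrArg (fun z => z.1.1) hCC
        exact Subtype.ext h1
      exact Nat.card_le_card_of_injective F hF
  · have hempty : IsEmpty {x : {B : Set (Cfsg.IrrCharacter G) // Cfsg.IsPBlock M B ∧
        d ≤ Cfsg.blockDefect p B} // Cfsg.blockDefect p x.1 = σ} := by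
      constructor
      rintro ⟨⟨B, hB, hd⟩, hx⟩
      simp only at hx
      omega
    rw [Nat.card_of_isEmpty]
    exact Nat.zero_le _

end Cfsg.Agent.S0962
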