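import Cfsg.Statements.S0965
import Cfsg.Agent.Lib.Helper16.Cover3
import Cfsg.Agent.Lib.Helper16.Induced

set_option autoImplicit false
open Cfsg

namespace Cfsg.Agent.S0965

open Cfsg Cfsg.Agent.Lib.Helper77.LocalRing Cfsg.Agent.Lib.Helper77.CentralChar Cfsg.Agent.Lib.Helper16.ZR Cfsg.Agent.Lib.Helper16.Normal Cfsg.Agent.Lib.Helper16.Cover Cfsg.Agent.Lib.Helper16.Cover3 Cfsg.Agent.Lib.Helper16.Induced

/-- Let N be a normal subgroup of the finite group G and let B, b be blocks of G and of N relative to a maximal ideal M of the algebraic integers containing the prime p. Then some χ ∈ B has a constituent in b on restriction to N if and only if, for all χ ∈ B, θ ∈ b and n ∈ N, the central character of χ at n is congruent modulo the local ideal at M to the sum of θ m / θ 1 over the elements m ∈ N conjugate in G to n. -/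
theorem result {G : Type*} [Group G] [Fintype G] (p : ℕ) [Fact p.Prime] (M : Ideal Cfsg.AlgInt) (hM : Cfsg.IsPModular p M) (N : Subgroup G) [N.Normal] [Fintype N] (B : Set (Cfsg.IrrCharacter G)) (hB : Cfsg.IsPBlock M B) (b : Set (Cfsg.IrrCharacter N)) (hb : Cfsg.IsPBlock M b) : (∃ χ ∈ B, ∃ θ ∈ b, Cfsg.classInner (fun n : N => (χ : G → ℂ) n) (θ : N → ℂ) ≠ 0) ↔ ∀ χ ∈ B, ∀ θ ∈ b, ∀ n : N, Cfsg.MemLocalIdeal M (Cfsg.centralChar (χ : G → ℂ) (n : G) - Cfsg.inducedCentralChar N (θ : N → ℂ) (n : G)) := by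
  classical
  have hNn : N.Normal := inferInstance
  have hMp := isPrime_of_isPModular hM
  constructor
  · rintro ⟨χ₀, hχ₀, θ₀, hθ₀, hcon⟩ χ hχ θ hθ n
    have e1 := centralChar_eq_induced_of_constituent N hNn χ₀ θ₀ hcon n
    have e2 := sameBlock_of_mem hMp hB hχ hχ₀ (n : G)
    have e3 := induced_sub_induced_mem hM.2.1 N (θ₀ : N → ℂ) (θ : N → ℂ)
      (fun x k => irr_conj_inv θ₀ k x) (fun x k => irr_conj_inv θ k x)
      (sameBlock_of_mem hMp hb hθ₀ hθ) (n : G)
    have e4 := memLocalIdeal_add hMp e2 e3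
    rw [e1] at e4
    convert e4 using 1
    ring
  · intro h
    obtain ⟨χ, hχ⟩ := isPBlock_nonempty hMp hB
    obtain ⟨θ, hθ⟩ := isPBlock_nonempty hMp hb
    obtain ⟨θ', hθ'⟩ := exists_constituent N χ
    have e1 := centralChar_eq_induced_of_constituent N hNn χ θ' hθ'
    have hmem : θ' ∈ conjUnion N hNn b := by
      apply mem_conjUnion_of_induced hMp N hNn b hb θ θ' hθ
      intro n
      rw [← e1 n]
      exact h χ hχ θ hθ n
    obtain ⟨g, hg⟩ := hmem
    refine ⟨χ, hχ, cI N hNn g θ', hg, ?_⟩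
    rw [classInner_cI]
    exact hθ'

end Cfsg.Agent.S0965
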