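import Cfsg.Statements.S0967
import Cfsg.Agent.Lib.Helper16.Quot

set_option autoImplicit false
open Cfsg

namespace Cfsg.Agent.S0967

open Cfsg Cfsg.Agent.Lib.Helper77.LocalRing Cfsg.Agent.Lib.Helper77.CentralChar Cfsg.Agent.Lib.Helper16.Quot Cfsg.Agent.Lib.Helper16.Over Cfsg.Agent.Lib.CT.Kernel Cfsg.Agent.Lib.CT.Ops

/-- Let N be a normal subgroup of the finite group G of order prime to p and fix a maximal ideal M of the algebraic integers containing p. If χ is an irreducible character of G ⧸ N and ψ lies in the block of its inflation χ ∘ (quotient map), then ψ is itself inflated from an irreducible character ψ' of G ⧸ N lying in the block of χ. (Over a normal p'-subgroup, blocks of the quotient are whole blocks of G.) -/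
theorem result {G : Type*} [Group G] [Finite G] (p : ℕ) [Fact p.Prime] (M : Ideal Cfsg.AlgInt) (hM : Cfsg.IsPModular p M) (N : Subgroup G) [N.Normal] (hN : ¬ p ∣ Nat.card N) (χ : Cfsg.IrrCharacter (G ⧸ N)) (ψ : Cfsg.IrrCharacter G) (hψ : ψ ∈ Cfsg.blockOf M ((χ : G ⧸ N → ℂ) ∘ QuotientGroup.mk)) : ∃ ψ' : Cfsg.IrrCharacter (G ⧸ N), (ψ : G → ℂ) = (ψ' : G ⧸ N → ℂ) ∘ QuotientGroup.mk ∧ Cfsg.SameBlock M (χ : G ⧸ N → ℂ) (ψ' : G ⧸ N → ℂ) := by
  classical
  have hNn : N.Normal := inferInstance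
  haveI : Fintype N := Fintype.ofFinite N
  have hMp := isPrime_of_isPModular hM
  have hX : IsIrrCharacter G (fun g : G => (χ : G ⧸ N → ℂ) (g : G ⧸ N)) :=
    isIrrCharacter_inflation N χ.2
  have hs : SameBlock M (fun g : G => (χ : G ⧸ N → ℂ) (g : G ⧸ N)) (ψ : G → ℂ) := hψ
  have h1 : classInner (fun n : N => (ψ : G → ℂ) n) (fun _ : N => (1:ℂ)) ≠ 0 := by
    refine constituent_of_sameBlock hM N hNn hN ⟨_, hX⟩ ψ hs ⟨fun _ => 1, isIrrCharacter_one⟩ ?_
    show classInner (fun n : N => (χ : G ⧸ N → ℂ) ((n : G) : G ⧸ N)) (fun _ : N => (1:ℂ)) ≠ 0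
    rw [classInner_inflation_trivial]
    exact irr_one_ne_zero χ.2
  have h2 := apply_eq_of_over_trivial N hNn (ψ : G → ℂ) ψ.2 h1
  obtain ⟨ψb, hψb, hψb'⟩ := exists_quotient_irr N ψ.2 h2
  refine ⟨⟨ψb, hψb⟩, ?_, ?_⟩
  · funext g
    exact (hψb' g).symm
  · apply sameBlock_of_comp_mk hM N hN _ _ χ.2 hψb
    have : (fun g : G => ψb (g : G ⧸ N)) = (ψ : G → ℂ) := funext hψb'
    rw [this]
    exact hs

end Cfsg.Agent.S0967
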