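import Cfsg.Statements.S0971
import Cfsg.Agent.Lib.Helper16.Brauer
import Cfsg.Agent.Lib.Helper16.Cover2

set_option autoImplicit false
open Cfsg

namespace Cfsg.Agent.S0971

/-- Let Q be a normal p-subgroup of the finite group G, let N = Q ⊔ C_G(Q) (a normal subgroup) and let b be a block of N relative to a maximal ideal M of the algebraic integers containing p. Then b induces some block of G, and every block B of G containing a character whose restriction to N has a constituent in b is induced by b. -/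
theorem result {G : Type*} [Group G] [Fintype G] (p : ℕ) [Fact p.Prime] (M : Ideal Cfsg.AlgInt) (hM : Cfsg.IsPModular p M) (Q : Subgroup G) [Q.Normal] (hQ : IsPGroup p Q) [Fintype ↥(Q ⊔ Subgroup.centralizer (Q : Set G))] (b : Set (Cfsg.IrrCharacter ↥(Q ⊔ Subgroup.centralizer (Q : Set G)))) (hb : Cfsg.IsPBlock M b) : Cfsg.InducedBlockDefined M (Q ⊔ Subgroup.centralizer (Q : Set G)) b ∧ ∀ B : Set (Cfsg.IrrCharacter G), Cfsg.IsPBlock M B → (∃ χ ∈ B, ∃ θ ∈ b, Cfsg.classInner (fun n : ↥(Q ⊔ Subgroup.centralizer (Q : Set G)) => (χ : G → ℂ) n) (θ : ↥(Q ⊔ Subgroup.centralizer (Q : Set G)) → ℂ) ≠ 0) → Cfsg.IsInducedBlock M (Q ⊔ Subgroup.centralizer (Q : Set G)) b B := by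
  constructor
  · exact Cfsg.Agent.Lib.Helper16.Brauer.inducedBlockDefined_of_local hM Q _ hQ le_sup_left
      le_sup_right (by rw [Subgroup.normalizer_eq_top]; exact le_top) b hb
  · rintro B hB ⟨χ, hχ, θ, hθ, hcon⟩
    exact Cfsg.Agent.Lib.Helper16.Cover2.isInducedBlock_of_cover hM Q hQ _ le_sup_right b hb B hB
      χ hχ θ hθ hcon

end Cfsg.Agent.S0971
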