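import Cfsg.Statements.S0973
import Cfsg.Agent.Lib.Helper16.ExtFirst

set_option autoImplicit false
open Cfsg

namespace Cfsg.Agent.S0973

open Cfsg.Agent.Lib.Helper16.ExtFirst Cfsg.Agent.Lib.Helper16.Transfer Cfsg.Agent.Lib.Helper77.BPTransport Cfsg.Agent.Lib.Helper16.Normal

/-- Let B be a block of the finite group G with defect group P (relative to a maximal ideal M of the algebraic integers containing p), and let L = P ⊔ C_G(P). Then (i) some block b of L with defect group P (viewed in L) induces B, and (ii) if b and b' are blocks of L both inducing B, there is n ∈ N_G(P) carrying b to b': for every θ ∈ b there is θ' ∈ b' with θ' x = θ (n x n⁻¹) for all x ∈ L. -/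
theorem result {G : Type*} [Group G] [Finite G] (p : ℕ) [Fact p.Prime] (M : Ideal Cfsg.AlgInt) (hM : Cfsg.IsPModular p M) (B : Set (Cfsg.IrrCharacter G)) (hB : Cfsg.IsPBlock M B) (P : Subgroup G) (hP : Cfsg.IsDefectGroup p M B P) : (∃ b : Set (Cfsg.IrrCharacter ↥(P ⊔ Subgroup.centralizer (P : Set G))), Cfsg.IsDefectGroup p M b (P.subgroupOf (P ⊔ Subgroup.centralizer (P : Set G))) ∧ Cfsg.IsInducedBlock M (P ⊔ Subgroup.centralizer (P : Set G)) b B) ∧ ∀ b b' : Set (Cfsg.IrrCharacter ↥(P ⊔ Subgroup.centralizer (P : Set G))), Cfsg.IsInducedBlock M (P ⊔ Subgroup.centralizer (P : Set G)) b B → Cfsg.IsInducedBlock M (P ⊔ Subgroup.centralizer (P : Set G)) b' B → ∃ n ∈ Subgroup.normalizer (P : Set G), ∀ θ ∈ b, ∃ θ' ∈ b', ∀ x : ↥(P ⊔ Subgroup.centralizer (P : Set G)), ∀ hx : n * (x : G) * n⁻¹ ∈ P ⊔ Subgroup.centralizer (P : Set G), (θ' : ↥(P ⊔ Subgroup.centralizer (P : Set G)) → ℂ) x = (θ : ↥(P ⊔ Subgroup.centralizer (P : Set G)) → ℂ) ⟨n * (x : G) * n⁻¹, hx⟩ := by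
  classical
  constructor
  · exact exists_block_centralizer p hM P _ le_sup_left le_sup_right
      (sup_centralizer_le_normalizer P) B hB hP
  · intro b b' h h'
    obtain ⟨g, hg⟩ := conj_of_induced p hM P (P ⊔ Subgroup.centralizer (P : Set G)) le_sup_right
      (sup_centralizer_le_normalizer P) B hB hP b b' h h'
    refine ⟨(g : G), g.2, fun θ hθ => ?_⟩
    obtain ⟨θ', hθ', he⟩ := hg (pull (sIso (P ⊔ Subgroup.centralizer (P : Set G))
      (Subgroup.normalizer (P : Set G)) (sup_centralizer_le_normalizer P)) θ) ⟨θ, hθ, rfl⟩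
    refine ⟨θ', hθ', fun x hx => ?_⟩
    have e1 : (θ' : ↥(P ⊔ Subgroup.centralizer (P : Set G)) → ℂ) x
        = (pull (sIso (P ⊔ Subgroup.centralizer (P : Set G))
          (Subgroup.normalizer (P : Set G)) (sup_centralizer_le_normalizer P)) θ' : _ → ℂ)
          ((sIso (P ⊔ Subgroup.centralizer (P : Set G))
          (Subgroup.normalizer (P : Set G)) (sup_centralizer_le_normalizer P)).symm x) := by
      rw [pull_apply, MulEquiv.apply_symm_apply]
    rw [e1, he, cI_apply, pull_apply]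
    congr 1

end Cfsg.Agent.S0973
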