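import Cfsg.Statements.S0986
import Mathlib

set_option autoImplicit false
open Cfsg

namespace Cfsg.Agent.S0986

open Subgroup

/-- Normalizers grow in `p`-groups. -/
theorem lt_inf_normalizer {G : Type*} [Group G] [Finite G] {p : ℕ} [Fact p.Prime]
    {R D : Subgroup G} (hR : IsPGroup p R) (hD : D < R) :
    D < R ⊓ normalizer (D : Set G) := by
  have : Group.IsNilpotent R := hR.isNilpotent
  have hnc := Group.normalizerCondition_of_isNilpotent (G := R)
  have h1 : D.subgroupOf R < ⊤ := by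
    rw [lt_top_iff_ne_top, Ne, subgroupOf_eq_top]
    exact not_le_of_gt hD
  have h2 := hnc _ h1
  rw [← subgroupOf_normalizer_eq hD.le] at h2
  obtain ⟨x, hx1, hx2⟩ := SetLike.exists_of_lt h2
  refine lt_of_le_of_ne (le_inf hD.le le_normalizer) ?_
  intro h
  apply hx2
  rw [mem_subgroupOf] at hx1 ⊢
  rw [h]
  exact ⟨x.2, hx1⟩

theorem aux {G : Type*} [Group G] [Finite G] (p : ℕ) [Fact p.Prime] (P Q : Sylow p G)
    (hPQ : P ≠ Q) (D : Subgroup G) (hD : D = (P : Subgroup G) ⊓ (Q : Subgroup G))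
    (hmax : ∀ P' Q' : Sylow p G, P' ≠ Q' →
      Nat.card ↥((P' : Subgroup G) ⊓ (Q' : Subgroup G)) ≤ Nat.card D)
    (N : Subgroup G) (hN : N = normalizer (D : Set G)) :
    1 < Nat.card (Sylow p N) ∧
    (∀ S T : Sylow p N, S ≠ T → (S : Subgroup N) ⊓ (T : Subgroup N) = D.subgroupOf N) ∧
    ∀ S : Sylow p N, ∃! T : Sylow p G, (S : Subgroup N).map N.subtype ≤ (T : Subgroup G) := by
  have hDN : D ≤ N := hN ▸ le_normalizer
  have hsyl_eq : ∀ R R' : Sylow p G, (R : Subgroup G) ≤ R' → R = R' := by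
    intro R R' hle
    apply Sylow.ext
    apply Subgroup.eq_of_le_of_card_ge hle
    rw [Sylow.card_eq_multiplicity, Sylow.card_eq_multiplicity]
  have hDP : D < (P : Subgroup G) := by
    refine lt_of_le_of_ne (hD ▸ inf_le_left) ?_
    intro h
    apply hPQ
    apply hsyl_eq
    rw [← h, hD]
    exact inf_le_right
  have hDQ : D < (Q : Subgroup G) := by
    refine lt_of_le_of_ne (hD ▸ inf_le_right) ?_
    intro h
    apply hPQ.symm
    apply hsyl_eq
    rw [← h, hD]
    exact inf_le_left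
  have hnorm : (D.subgroupOf N).Normal := by
    rw [normal_subgroupOf_iff_le_normalizer hDN, hN]
  have hDpg : IsPGroup p D := P.isPGroup'.to_le hDP.le
  have hDpg' : IsPGroup p (D.subgroupOf N) :=
    hDpg.comap_of_injective _ N.subtype_injective
  have F1 : ∀ S : Sylow p N, D.subgroupOf N ≤ (S : Subgroup N) := fun S =>
    hDpg'.le_sylow_of_normal S
  have F1' : ∀ S : Sylow p N, D ≤ (S : Subgroup N).map N.subtype := by
    intro S d hd
    exact ⟨⟨d, hDN hd⟩, F1 S (mem_subgroupOf.mpr hd), rfl⟩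
  have F2 : ∀ R : Subgroup G, IsPGroup p R → D < R → Nat.card D < Nat.card ↥(R ⊓ N) := by
    intro R hR hlt
    have := lt_inf_normalizer hR hlt
    rw [← hN] at this
    by_contra hge
    exact this.ne (Subgroup.eq_of_le_of_card_ge this.le (not_lt.mp hge))
  have hmapcard : ∀ S : Sylow p N, Nat.card ((S : Subgroup N).map N.subtype) = Nat.card (S : Subgroup N) :=
    fun S => Subgroup.card_map_of_injective N.subtype_injective
  have hsubcard : ∀ H : Subgroup G, H ≤ N → Nat.card (H.subgroupOf N) = Nat.card H :=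
    fun H hH => Nat.card_congr (Subgroup.subgroupOfEquivOfLe hH).toEquiv
  -- any Sylow of `N` containing `R ⊓ N`
  have hcover : ∀ R : Subgroup G, IsPGroup p R → ∃ S : Sylow p N,
      R ⊓ N ≤ (S : Subgroup N).map N.subtype := by
    intro R hR
    have h1 : IsPGroup p ((R ⊓ N).subgroupOf N) :=
      (hR.to_le inf_le_left).comap_of_injective _ N.subtype_injective
    obtain ⟨S, hS⟩ := h1.exists_le_sylow
    refine ⟨S, ?_⟩
    intro x hx
    exact ⟨⟨x, hx.2⟩, hS (mem_subgroupOf.mpr hx), rfl⟩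
  have F3 : ∀ S : Sylow p N, Nat.card D < Nat.card (S : Subgroup N) := by
    intro S
    obtain ⟨S₀, hS₀⟩ := hcover P P.isPGroup'
    have h1 := F2 P P.isPGroup' hDP
    have h2 := Subgroup.card_le_of_le hS₀
    rw [hmapcard] at h2
    have h3 : Nat.card (S₀ : Subgroup N) = Nat.card (S : Subgroup N) := by
      rw [Sylow.card_eq_multiplicity, Sylow.card_eq_multiplicity]
    omega
  have F4 : ∀ (S : Sylow p N) (T₁ T₂ : Sylow p G), (S : Subgroup N).map N.subtype ≤ T₁ →
      (S : Subgroup N).map N.subtype ≤ T₂ → T₁ = T₂ := by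
    intro S T₁ T₂ h1 h2
    by_contra hne
    have h3 := hmax T₁ T₂ hne
    have h4 := Subgroup.card_le_of_le (le_inf h1 h2)
    rw [hmapcard] at h4
    have h5 := F3 S
    omega
  have hex : ∀ S : Sylow p N, ∃ T : Sylow p G, (S : Subgroup N).map N.subtype ≤ (T : Subgroup G) := by
    intro S
    exact (S.isPGroup'.map N.subtype).exists_le_sylow
  refine ⟨?_, ?_, ?_⟩
  · by_contra hle
    have hle1 : Nat.card (Sylow p N) ≤ 1 := by omega
    have hsub : Subsingleton (Sylow p N) := (Finite.card_le_one_iff_subsingleton).mp hle1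
    obtain ⟨S₁, hS₁⟩ := hcover P P.isPGroup'
    obtain ⟨S₂, hS₂⟩ := hcover Q Q.isPGroup'
    have hS12 : S₂ = S₁ := Subsingleton.elim _ _
    rw [hS12] at hS₂
    obtain ⟨R, hR⟩ := hex S₁
    have hRP : R = P := by
      by_contra hne
      have h1 := hmax R P hne
      have h2 := Subgroup.card_le_of_le (le_inf (hS₁.trans hR) inf_le_left)
      have h3 := F2 P P.isPGroup' hDP
      omega
    have hRQ : R = Q := by
      by_contra hne
      have h1 := hmax R Q hne
      have h2 := Subgroup.card_le_of_le (le_inf (hS₂.trans hR) inf_le_left)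
      have h3 := F2 Q Q.isPGroup' hDQ
      omega
    exact hPQ (hRP.symm.trans hRQ)
  · intro S T hST
    obtain ⟨T₁, hT₁⟩ := hex S
    obtain ⟨T₂, hT₂⟩ := hex T
    have hne : T₁ ≠ T₂ := by
      intro h
      subst h
      apply hST
      have hpg : IsPGroup p (((T₁ : Subgroup G) ⊓ N).subgroupOf N) :=
        (T₁.isPGroup'.to_le inf_le_left).comap_of_injective _ N.subtype_injective
      have hSle : (S : Subgroup N) ≤ ((T₁ : Subgroup G) ⊓ N).subgroupOf N := by
        intro x hx
        rw [mem_subgroupOf]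
        exact ⟨hT₁ ⟨x, hx, rfl⟩, x.2⟩
      have hTle : (T : Subgroup N) ≤ ((T₁ : Subgroup G) ⊓ N).subgroupOf N := by
        intro x hx
        rw [mem_subgroupOf]
        exact ⟨hT₂ ⟨x, hx, rfl⟩, x.2⟩
      apply Sylow.ext
      rw [← S.is_maximal' hpg hSle, ← T.is_maximal' hpg hTle]
    have hDT : D = (T₁ : Subgroup G) ⊓ (T₂ : Subgroup G) :=
      Subgroup.eq_of_le_of_card_ge (le_inf ((F1' S).trans hT₁) ((F1' T).trans hT₂)) (hmax T₁ T₂ hne)
    apply le_antisymm
    · intro x hx
      rw [mem_subgroupOf, hDT]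
      exact ⟨hT₁ ⟨x, hx.1, rfl⟩, hT₂ ⟨x, hx.2, rfl⟩⟩
    · exact le_inf (F1 S) (F1 T)
  · intro S
    obtain ⟨T, hT⟩ := hex S
    exact ⟨T, hT, fun T' hT' => F4 S T' T hT' hT⟩

/-- Let P and Q be distinct Sylow p-subgroups of a finite group G chosen so that the order of P ∩ Q is as large as possible among intersections of two distinct Sylow p-subgroups, and let N be the normalizer of P ∩ Q. Then N has more than one Sylow p-subgroup, any two distinct Sylow p-subgroups of N intersect exactly in P ∩ Q, and each Sylow p-subgroup of N lies in exactly one Sylow p-subgroup of G. -/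
theorem result {G : Type*} [Group G] [Finite G] (p : ℕ) [Fact p.Prime] (P Q : Sylow p G) (hPQ : P ≠ Q) (hmax : ∀ P' Q' : Sylow p G, P' ≠ Q' → Nat.card ↥((P' : Subgroup G) ⊓ (Q' : Subgroup G)) ≤ Nat.card ↥((P : Subgroup G) ⊓ (Q : Subgroup G))) : 1 < Nat.card (Sylow p ↥(Subgroup.normalizer (((P : Subgroup G) ⊓ (Q : Subgroup G) : Subgroup G) : Set G))) ∧ (∀ S T : Sylow p ↥(Subgroup.normalizer (((P : Subgroup G) ⊓ (Q : Subgroup G) : Subgroup G) : Set G)), S ≠ T → (S : Subgroup _) ⊓ (T : Subgroup _) = ((P : Subgroup G) ⊓ (Q : Subgroup G)).subgroupOf (Subgroup.normalizer (((P : Subgroup G) ⊓ (Q : Subgroup G) : Subgroup G) : Set G))) ∧ ∀ S : Sylow p ↥(Subgroup.normalizer (((P : Subgroup G) ⊓ (Q : Subgroup G) : Subgroup G) : Set G)), ∃! T : Sylow p G, (S : Subgroup _).map (Subgroup.normalizer (((P : Subgroup G) ⊓ (Q : Subgroup G) : Subgroup G) : Set G)).subtype ≤ (T : Subgroup G) := by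
  exact aux p P Q hPQ _ rfl hmax _ rfl

end Cfsg.Agent.S0986
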