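import Cfsg.Statements.S0988
import Mathlib
import Cfsg.Agent.S0144

set_option autoImplicit false
open Cfsg

namespace Cfsg.Agent.S0988

/-- a simple group has no Sylow subgroup with a normal complement by Burnside transfer -/
theorem no_burnside {G : Type*} [Group G] [Finite G] [IsSimpleGroup G] {p : ℕ} [Fact p.Prime]
    (P : Sylow p G) (h1 : (P : Subgroup G) ≠ ⊥) (h2 : (P : Subgroup G) ≠ ⊤)
    (hN : Subgroup.normalizer ((P : Subgroup G) : Set G) ≤ Subgroup.centralizer (P : Set G)) :
    False := by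
  have hc := MonoidHom.ker_transferSylow_isComplement' P hN
  rcases (MonoidHom.normal_ker (MonoidHom.transferSylow P hN)).eq_bot_or_eq_top with h | h
  · rw [h, Subgroup.isComplement'_bot_left] at hc; exact h2 hc
  · rw [h, Subgroup.isComplement'_top_left] at hc; exact h1 hc

theorem sylow_card {G : Type*} [Group G] [Finite G] {l : ℕ} [Fact l.Prime] (P : Sylow l G)
    (k m : ℕ) (hG : Nat.card G = l ^ k * m) (hm : ¬ l ∣ m) : Nat.card (P : Subgroup G) = l ^ k := by
  have hl := (Fact.out : l.Prime)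
  have h1 : l ^ k ∣ Nat.card (P : Subgroup G) :=
    P.pow_dvd_card_of_pow_dvd_card (by rw [hG]; exact dvd_mul_right _ _)
  obtain ⟨j, hj⟩ := P.2.exists_card_eq
  have h2 : l ^ j ∣ l ^ k * m := by rw [← hj, ← hG]; exact Subgroup.card_subgroup_dvd_card _
  have h3 : l ^ j ∣ l ^ k :=
    (Nat.Coprime.pow_left j ((Nat.Prime.coprime_iff_not_dvd hl).2 hm)).dvd_of_dvd_mul_right h2
  rw [hj] at h1 ⊢
  exact Nat.dvd_antisymm h3 h1

theorem sylow_ne {G : Type*} [Group G] [Finite G] {l : ℕ} [Fact l.Prime] (P : Sylow l G)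
    (k m : ℕ) (hk : k ≠ 0) (hG : Nat.card G = l ^ k * m) (hm : ¬ l ∣ m) (hm1 : m ≠ 1) :
    (P : Subgroup G) ≠ ⊥ ∧ (P : Subgroup G) ≠ ⊤ := by
  have hl := (Fact.out : l.Prime)
  have hc := sylow_card P k m hG hm
  constructor
  · intro h
    rw [h, Subgroup.card_bot] at hc
    exact (Nat.one_lt_pow hk hl.one_lt).ne hc
  · intro h
    rw [h, Subgroup.card_top, hG] at hc
    have hpos : 0 < l ^ k := pow_pos hl.pos k
    have : m = 1 := by
      have h3 : l ^ k * m = l ^ k * 1 := by rw [hc, mul_one]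
      exact Nat.eq_of_mul_eq_mul_left hpos h3
    exact hm1 this

theorem prime_card_of_solvable {G : Type*} [Group G] [Finite G] [IsSimpleGroup G]
    (h : Group.IsSolvable G) : (Nat.card G).Prime := by
  have hcomm := IsSimpleGroup.comm_iff_isSolvable.2 h
  let _ : CommGroup G := { (inferInstance : Group G) with mul_comm := hcomm }
  exact IsSimpleGroup.prime_card

theorem mem_of_pow_mem {G : Type*} [Group G] (C : Subgroup G) (x : G) (a b : ℕ)
    (hab : a.Coprime b) (ha : x ^ a ∈ C) (hb : x ^ b ∈ C) : x ∈ C := by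
  have h1 : (x ^ a) ^ (Nat.gcdA a b) * (x ^ b) ^ (Nat.gcdB a b) = x := by
    rw [← zpow_natCast, ← zpow_natCast, ← zpow_mul, ← zpow_mul, ← zpow_add,
      ← Nat.gcd_eq_gcd_ab, hab]
    simp
  rw [← h1]
  exact C.mul_mem (C.zpow_mem ha _) (C.zpow_mem hb _)

/-- an element outside a subgroup has a power of prime power order outside it -/
theorem exists_primepow {G : Type*} [Group G] [Finite G] (C : Subgroup G) :
    ∀ (n : ℕ) (x : G), orderOf x = n → x ∉ C →
      ∃ k : ℕ, x ^ k ∉ C ∧ ∃ l e : ℕ, l.Prime ∧ orderOf (x ^ k) = l ^ e := by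
  intro n
  induction n using Nat.strong_induction_on with
  | _ n ih =>
    intro x hx hxC
    have hn1 : n ≠ 1 := by
      rintro rfl
      rw [orderOf_eq_one_iff] at hx
      exact hxC (hx ▸ C.one_mem)
    have hn0 : n ≠ 0 := by rw [← hx]; exact (orderOf_pos x).ne'
    have hl : n.minFac.Prime := Nat.minFac_prime hn1
    obtain ⟨e, m, hlm, hnm⟩ := Nat.exists_eq_pow_mul_and_not_dvd hn0 n.minFac hl.ne_one
    have hldn : n.minFac ∣ n := Nat.minFac_dvd n
    generalize n.minFac = l at hl hlm hnm hldn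
    have hm0 : m ≠ 0 := by rintro rfl; exact hn0 (by rw [hnm, mul_zero])
    have he0 : e ≠ 0 := by
      rintro rfl
      rw [pow_zero, one_mul] at hnm
      exact hlm (hnm ▸ hldn)
    have hxo : orderOf x = l ^ e * m := by rw [hx, hnm]
    have ho1 : orderOf (x ^ m) = l ^ e := by
      rw [orderOf_pow_of_dvd hm0 (by rw [hxo]; exact dvd_mul_left _ _), hxo]
      exact Nat.mul_div_cancel _ (Nat.pos_of_ne_zero hm0)
    have ho2 : orderOf (x ^ (l ^ e)) = m := by
      rw [orderOf_pow_of_dvd (pow_pos hl.pos e).ne' (by rw [hxo]; exact dvd_mul_right _ _),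
        hxo]
      exact Nat.mul_div_cancel_left _ (pow_pos hl.pos e)
    by_cases h1 : x ^ m ∈ C
    · by_cases h2 : x ^ (l ^ e) ∈ C
      · exfalso
        apply hxC
        exact mem_of_pow_mem C x m (l ^ e)
          (Nat.Coprime.pow_right e
            ((Nat.coprime_comm.1 ((Nat.Prime.coprime_iff_not_dvd hl).2 hlm)))) h1 h2
      · have hlt : m < n := by
          rw [hnm]
          have : 1 < l ^ e := Nat.one_lt_pow he0 hl.one_lt
          have hmpos := Nat.pos_of_ne_zero hm0
          nlinarith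
        obtain ⟨k, hk, l', e', hlp, hord⟩ := ih m hlt (x ^ (l ^ e)) ho2 h2
        refine ⟨l ^ e * k, ?_, l', e', hlp, ?_⟩
        · rw [pow_mul]; exact hk
        · rw [pow_mul]; exact hord
    · exact ⟨m, h1, l, e, hl, ho1⟩

/-- the final step: order `12 t` -/
theorem final {G : Type*} [Group G] [Finite G] [IsSimpleGroup G] (t : ℕ) (ht : t.Prime)
    (ht5 : 5 ≤ t) (hG : Nat.card G = 12 * t) : Nat.card G = 60 := by
  have : Fact t.Prime := ⟨ht⟩
  have hG' : Nat.card G = t ^ 1 * 12 := by rw [hG, pow_one, mul_comm]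
  have ht12 : ¬ t ∣ 12 := by
    intro h
    have := Nat.le_of_dvd (by norm_num) h
    interval_cases t <;> simp_all (config := {decide := true})
  obtain ⟨P⟩ : Nonempty (Sylow t G) := inferInstance
  have hPcard : Nat.card (P : Subgroup G) = t := by
    have := sylow_card P 1 12 hG' ht12
    rwa [pow_one] at this
  obtain ⟨hPbot, hPtop⟩ := sylow_ne P 1 12 one_ne_zero hG' ht12 (by norm_num)
  have hidx : (P : Subgroup G).index = 12 := by
    have h1 := Subgroup.card_mul_index (P : Subgroup G)
    rw [hPcard, hG] at h1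
    have : t * (P : Subgroup G).index = t * 12 := by rw [h1, mul_comm]
    exact Nat.eq_of_mul_eq_mul_left ht.pos this
  have hn1 : Nat.card (Sylow t G) ≡ 1 [MOD t] := card_sylow_modEq_one t G
  have hn2 : Nat.card (Sylow t G) ∣ 12 := hidx ▸ P.card_dvd_index
  have hn3 : Nat.card (Sylow t G) ≠ 1 := by
    intro h
    have hsub : Subsingleton (Sylow t G) := (Nat.card_eq_one_iff_unique.1 h).1
    have hnorm : (P : Subgroup G).Normal := P.normal_of_subsingleton
    rcases hnorm.eq_bot_or_eq_top with h' | h'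
    · exact hPbot h'
    · exact hPtop h'
  have hnle : Nat.card (Sylow t G) ≤ 12 := Nat.le_of_dvd (by norm_num) hn2
  have hnpos : 0 < Nat.card (Sylow t G) := Nat.card_pos
  have hdvd : t ∣ Nat.card (Sylow t G) - 1 := (Nat.modEq_iff_dvd' hnpos).1 hn1.symm
  -- the normalizer
  have hnorm_idx : Nat.card (Sylow t G)
      = (Subgroup.normalizer ((P : Subgroup G) : Set G)).index := P.card_eq_index_normalizer
  set n := Nat.card (Sylow t G) with hn
  have hcases : (n = 6 ∧ t = 5) ∨ (n = 12 ∧ t = 11) := by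
    interval_cases n
    · exact absurd rfl hn3
    · have := Nat.le_of_dvd (by norm_num) hdvd; omega
    · have := Nat.le_of_dvd (by norm_num) hdvd; omega
    · have := Nat.le_of_dvd (by norm_num) hdvd; omega
    · norm_num at hn2
    · left
      have := Nat.le_of_dvd (by norm_num) hdvd
      exact ⟨rfl, by omega⟩
    · norm_num at hn2
    · norm_num at hn2
    · norm_num at hn2
    · norm_num at hn2
    · norm_num at hn2
    · right
      refine ⟨rfl, ?_⟩
      exact (Nat.prime_dvd_prime_iff_eq ht (by norm_num)).1 hdvd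
  rcases hcases with ⟨-, rfl⟩ | ⟨hn12, rfl⟩
  · rw [hG]
  · exfalso
    -- the normalizer has order 11
    have h1 := Subgroup.card_mul_index (Subgroup.normalizer ((P : Subgroup G) : Set G))
    rw [← hnorm_idx, hn12, hG] at h1
    have hNcard : Nat.card (Subgroup.normalizer ((P : Subgroup G) : Set G)) = 11 := by omega
    have hNP : Subgroup.normalizer ((P : Subgroup G) : Set G) = (P : Subgroup G) := by
      symm
      apply Subgroup.eq_of_le_of_card_ge Subgroup.le_normalizer
      rw [hNcard, hPcard]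
    have hcyc : IsCyclic (P : Subgroup G) := isCyclic_of_prime_card hPcard
    have hcomm : IsMulCommutative (P : Subgroup G) := by
      let _ := IsCyclic.commGroup (α := (P : Subgroup G))
      exact ⟨⟨mul_comm⟩⟩
    apply no_burnside P hPbot hPtop
    rw [hNP]
    exact Subgroup.le_centralizer_iff_isMulCommutative.2 hcomm

/-- If a finite simple group has order p^2 * q * r with p, q and r prime, then its order is 60. -/
theorem result {G : Type*} [Group G] [Finite G] [IsSimpleGroup G] (p q r : ℕ) (hp : p.Prime) (hq : q.Prime) (hr : r.Prime) (hG : Nat.card G = p ^ 2 * q * r) : Nat.card G = 60 := by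
  have hnp : ¬ (Nat.card G).Prime := by
    intro h
    rw [hG] at h
    have h1 : p ∣ p ^ 2 * q * r := ⟨p * q * r, by ring⟩
    rcases (Nat.dvd_prime h).1 h1 with h2 | h2
    · exact hp.ne_one h2
    · have h3 : p * 1 = p * (p * q * r) := by rw [mul_one]; nth_rewrite 1 [h2]; ring
      have h4 := Nat.eq_of_mul_eq_mul_left hp.pos h3
      have h5 : 2 ≤ p := hp.two_le
      have h6 : 2 ≤ q := hq.two_le
      have h7 : 2 ≤ r := hr.two_le
      have : 8 ≤ p * q * r := by
        calc 8 = 2 * 2 * 2 := by norm_num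
          _ ≤ p * q * r := Nat.mul_le_mul (Nat.mul_le_mul h5 h6) h7
      omega
  have hns : ¬ Group.IsSolvable G := fun h => hnp (prime_card_of_solvable h)
  have hqr : q ≠ r := by
    rintro rfl
    exact hns (Cfsg.Agent.S0144.result p q 2 2 hp hq (by rw [hG]; ring))
  have hpq : p ≠ q := by
    rintro rfl
    exact hns (Cfsg.Agent.S0144.result p r 3 1 hp hr (by rw [hG]; ring))
  have hpr : p ≠ r := by
    rintro rfl
    exact hns (Cfsg.Agent.S0144.result p q 3 1 hp hq (by rw [hG]; ring))
  have hpq' : ¬ p ∣ q := fun h => hpq ((Nat.prime_dvd_prime_iff_eq hp hq).1 h)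
  have hpr' : ¬ p ∣ r := fun h => hpr ((Nat.prime_dvd_prime_iff_eq hp hr).1 h)
  have hqp' : ¬ q ∣ p := fun h => hpq ((Nat.prime_dvd_prime_iff_eq hq hp).1 h).symm
  have hqr' : ¬ q ∣ r := fun h => hqr ((Nat.prime_dvd_prime_iff_eq hq hr).1 h)
  have hrp' : ¬ r ∣ p := fun h => hpr ((Nat.prime_dvd_prime_iff_eq hr hp).1 h).symm
  have hrq' : ¬ r ∣ q := fun h => hqr ((Nat.prime_dvd_prime_iff_eq hr hq).1 h).symm
  have hGp : Nat.card G = p ^ 2 * (q * r) := by rw [hG]; ring
  have hGq : Nat.card G = q ^ 1 * (p ^ 2 * r) := by rw [hG]; ring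
  have hGr : Nat.card G = r ^ 1 * (p ^ 2 * q) := by rw [hG]; ring
  have hp_m : ¬ p ∣ q * r := fun h => by
    rcases (Nat.Prime.dvd_mul hp).1 h with h | h
    · exact hpq' h
    · exact hpr' h
  have hq_m : ¬ q ∣ p ^ 2 * r := fun h => by
    rcases (Nat.Prime.dvd_mul hq).1 h with h | h
    · exact hqp' (hq.dvd_of_dvd_pow h)
    · exact hqr' h
  have hr_m : ¬ r ∣ p ^ 2 * q := fun h => by
    rcases (Nat.Prime.dvd_mul hr).1 h with h | h
    · exact hrp' (hr.dvd_of_dvd_pow h)
    · exact hrq' h
  have h2p := hp.two_le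
  have h2q := hq.two_le
  have h2r := hr.two_le
  have hm1 : q * r ≠ 1 := by nlinarith
  have hm2 : p ^ 2 * r ≠ 1 := by nlinarith
  have hm3 : p ^ 2 * q ≠ 1 := by nlinarith
  have hcard1 : Nat.card G ≠ 1 := by
    rw [hG]
    have h4 : 2 * 2 ≤ p ^ 2 := by rw [pow_two]; exact Nat.mul_le_mul h2p h2p
    have h44 : 2 * 2 * 2 ≤ p ^ 2 * q := Nat.mul_le_mul h4 h2q
    have h444 : 2 * 2 * 2 * 2 ≤ p ^ 2 * q * r := Nat.mul_le_mul h44 h2r
    omega
  -- the smallest prime divisor is p
  have hmin_dvd : (Nat.card G).minFac ∣ p ^ 2 * q * r := hG ▸ Nat.minFac_dvd _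
  have hminp : (Nat.card G).minFac.Prime := Nat.minFac_prime hcard1
  have hcyc_contra : ∀ (l : ℕ) [Fact l.Prime] (P : Sylow l G), (Nat.card G).minFac = l →
      IsCyclic (P : Subgroup G) → (P : Subgroup G) ≠ ⊥ → (P : Subgroup G) ≠ ⊤ → False := by
    intro l _ P hl hcyc hb htop
    exact no_burnside P hb htop (hcyc.normalizer_le_centralizer hl)
  have hmin : (Nat.card G).minFac = p := by
    rcases (Nat.Prime.dvd_mul hminp).1 hmin_dvd with h | h
    · rcases (Nat.Prime.dvd_mul hminp).1 h with h | h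
      · exact (Nat.prime_dvd_prime_iff_eq hminp hp).1 (hminp.dvd_of_dvd_pow h)
      · exfalso
        have hl := (Nat.prime_dvd_prime_iff_eq hminp hq).1 h
        have : Fact q.Prime := ⟨hq⟩
        obtain ⟨P⟩ : Nonempty (Sylow q G) := inferInstance
        obtain ⟨hb, htop⟩ := sylow_ne P 1 _ one_ne_zero hGq hq_m hm2
        have hc := sylow_card P 1 _ hGq hq_m
        rw [pow_one] at hc
        exact hcyc_contra q P hl (isCyclic_of_prime_card hc) hb htop
    · exfalso
      have hl := (Nat.prime_dvd_prime_iff_eq hminp hr).1 h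
      have : Fact r.Prime := ⟨hr⟩
      obtain ⟨P⟩ : Nonempty (Sylow r G) := inferInstance
      obtain ⟨hb, htop⟩ := sylow_ne P 1 _ one_ne_zero hGr hr_m hm3
      have hc := sylow_card P 1 _ hGr hr_m
      rw [pow_one] at hc
      exact hcyc_contra r P hl (isCyclic_of_prime_card hc) hb htop
  have hpltq : p < q := by
    have := Nat.minFac_le_of_dvd hq.two_le (show q ∣ Nat.card G by rw [hG]; exact ⟨p ^ 2 * r, by ring⟩)
    rw [hmin] at this
    exact lt_of_le_of_ne this hpq
  have hpltr : p < r := by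
    have := Nat.minFac_le_of_dvd hr.two_le (show r ∣ Nat.card G by rw [hG]; exact ⟨p ^ 2 * q, by ring⟩)
    rw [hmin] at this
    exact lt_of_le_of_ne this hpr
  have : Fact p.Prime := ⟨hp⟩
  obtain ⟨P⟩ : Nonempty (Sylow p G) := inferInstance
  obtain ⟨hPb, hPt⟩ := sylow_ne P 2 _ two_ne_zero hGp hp_m hm1
  have hPcard := sylow_card P 2 _ hGp hp_m
  have hPcomm : IsMulCommutative (P : Subgroup G) :=
    IsPGroup.isMulCommutative_of_card_eq_prime_sq hPcard
  have hPle : (P : Subgroup G) ≤ Subgroup.centralizer ((P : Subgroup G) : Set G) :=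
    Subgroup.le_centralizer_iff_isMulCommutative.2 hPcomm
  -- an element of the normalizer outside the centralizer
  have hex : ∃ x₀ ∈ Subgroup.normalizer ((P : Subgroup G) : Set G),
      x₀ ∉ Subgroup.centralizer ((P : Subgroup G) : Set G) := by
    by_contra hcon
    apply no_burnside P hPb hPt
    intro x hx
    by_contra hxC
    exact hcon ⟨x, hx, hxC⟩
  obtain ⟨x₀, hx₀N, hx₀C⟩ := hex
  obtain ⟨k, hkC, l, e, hl, hord⟩ :=
    exists_primepow (Subgroup.centralizer ((P : Subgroup G) : Set G)) _ x₀ rfl hx₀C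
  set x := x₀ ^ k with hx
  have hxN : x ∈ Subgroup.normalizer ((P : Subgroup G) : Set G) := Subgroup.pow_mem _ hx₀N k
  have hx1 : x ≠ 1 := fun h => hkC (h ▸ Subgroup.one_mem _)
  have he0 : e ≠ 0 := by
    rintro rfl
    rw [pow_zero, orderOf_eq_one_iff] at hord
    exact hx1 hord
  have hldvd : l ^ e ∣ p ^ 2 * q * r := by rw [← hG, ← hord]; exact orderOf_dvd_natCard x
  have hlp : l ≠ p := by
    rintro rfl
    -- x is a p-element normalizing P, so x ∈ P
    have hz : IsPGroup l (Subgroup.zpowers x) := by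
      apply IsPGroup.of_card (n := e)
      rw [Nat.card_zpowers, hord]
    have h1 : Subgroup.zpowers x ⊓ Subgroup.normalizer ((P : Subgroup G) : Set G)
        = Subgroup.zpowers x ⊓ (P : Subgroup G) := hz.inf_normalizer_sylow P
    have h2 : x ∈ Subgroup.zpowers x ⊓ Subgroup.normalizer ((P : Subgroup G) : Set G) :=
      ⟨Subgroup.mem_zpowers x, hxN⟩
    rw [h1] at h2
    exact hkC (hPle h2.2)
  have hlqr : (l = q ∨ l = r) ∧ orderOf x = l := by
    have hl1 : l ∣ p ^ 2 * q * r := (dvd_pow_self l he0).trans hldvd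
    have he1 : e = 1 := by
      by_contra hne
      have h2 : l ^ 2 ∣ p ^ 2 * q * r := (pow_dvd_pow l (by omega)).trans hldvd
      have hcop : (l ^ 2).Coprime (p ^ 2) :=
        Nat.Coprime.pow _ _ ((Nat.coprime_primes hl hp).2 hlp)
      have h3 : l ^ 2 ∣ q * r := by
        have : l ^ 2 ∣ p ^ 2 * (q * r) := by rw [← mul_assoc]; exact h2
        exact hcop.dvd_of_dvd_mul_left this
      have h4 : l ∣ q * r := (dvd_pow_self l two_ne_zero).trans h3
      rcases (Nat.Prime.dvd_mul hl).1 h4 with h | h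
      · have hlq := (Nat.prime_dvd_prime_iff_eq hl hq).1 h
        subst hlq
        have : l ^ 2 ∣ l * r := h3
        rw [pow_two] at this
        exact hqr' (Nat.dvd_of_mul_dvd_mul_left hl.pos this)
      · have hlr := (Nat.prime_dvd_prime_iff_eq hl hr).1 h
        subst hlr
        have : l ^ 2 ∣ q * l := h3
        rw [pow_two] at this
        exact hrq' (Nat.dvd_of_mul_dvd_mul_right hl.pos this)
    refine ⟨?_, by rw [hord, he1, pow_one]⟩
    rcases (Nat.Prime.dvd_mul hl).1 hl1 with h | h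
    · rcases (Nat.Prime.dvd_mul hl).1 h with h | h
      · exact absurd ((Nat.prime_dvd_prime_iff_eq hl hp).1 (hl.dvd_of_dvd_pow h)) hlp
      · exact Or.inl ((Nat.prime_dvd_prime_iff_eq hl hq).1 h)
    · exact Or.inr ((Nat.prime_dvd_prime_iff_eq hl hr).1 h)
  obtain ⟨hlqr, hordx⟩ := hlqr
  have hpl : p < l := by rcases hlqr with rfl | rfl <;> assumption
  -- fixed points of conjugation by x on P
  have hconj : ∀ (j : ℕ) (v : G), v ∈ (P : Subgroup G) → x ^ j * v * (x ^ j)⁻¹ ∈ (P : Subgroup G) := by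
    intro j v hv
    have := Subgroup.pow_mem _ hxN j
    rw [Subgroup.mem_normalizer_iff] at this
    exact (this v).1 hv
  have hfin : Fintype (P : Subgroup G) := Fintype.ofFinite _
  have hdec : DecidableEq (P : Subgroup G) := Classical.decEq _
  let f : ↥(P : Subgroup G) → ↥(P : Subgroup G) := fun v => ⟨x * v * x⁻¹, by
    have := hconj 1 v v.2
    simpa using this⟩
  let F : Function.End (P : Subgroup G) := f
  have hfpow : ∀ j : ℕ, ∀ v : (P : Subgroup G), ((F ^ j) v : G) = x ^ j * v * (x ^ j)⁻¹ := by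
    intro j
    induction j with
    | zero =>
      intro v
      rw [pow_zero, pow_zero, one_mul, inv_one, mul_one]
      rfl
    | succ j ih =>
      intro v
      have h1 : (F ^ (j + 1)) v = f ((F ^ j) v) := by rw [pow_succ']; rfl
      rw [h1]
      show x * ((F ^ j) v : G) * x⁻¹ = _
      rw [ih, pow_succ']
      group
  have hf : F ^ l ^ 1 = 1 := by
    funext v
    apply Subtype.ext
    rw [hfpow, pow_one, ← hordx, pow_orderOf_eq_one, one_mul, inv_one, mul_one]
    rfl
  have : Fact l.Prime := ⟨hl⟩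
  have hmod := Equiv.Perm.card_fixedPoints_modEq (f := F) (p := l) (n := 1) hf
  rw [← Nat.card_eq_fintype_card, ← Nat.card_eq_fintype_card, hPcard] at hmod
  -- the fixed points form the subgroup P ⊓ C(x)
  have hfix : Nat.card (Function.fixedPoints f)
      = Nat.card ((P : Subgroup G) ⊓ Subgroup.centralizer ({x} : Set G) : Subgroup G) := by
    apply Nat.card_congr
    refine ⟨fun v => ⟨((v : (P : Subgroup G)) : G), Subgroup.mem_inf.2
        ⟨(v : (P : Subgroup G)).2, ?_⟩⟩,
      fun w => ⟨⟨(w : G), (Subgroup.mem_inf.1 w.2).1⟩, ?_⟩, ?_, ?_⟩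
    · rw [Subgroup.mem_centralizer_singleton_iff]
      have h1 : x * ((v : (P : Subgroup G)) : G) * x⁻¹ = ((v : (P : Subgroup G)) : G) :=
        congrArg Subtype.val v.2
      calc ((v : (P : Subgroup G)) : G) * x = x * ((v : (P : Subgroup G)) : G) * x⁻¹ * x := by rw [h1]
        _ = x * ((v : (P : Subgroup G)) : G) := by group
    · have h1 := Subgroup.mem_centralizer_singleton_iff.1 (Subgroup.mem_inf.1 w.2).2
      show f ⟨(w : G), (Subgroup.mem_inf.1 w.2).1⟩ = ⟨(w : G), (Subgroup.mem_inf.1 w.2).1⟩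
      apply Subtype.ext
      show x * (w : G) * x⁻¹ = (w : G)
      rw [← h1]; group
    · intro v; rfl
    · intro w; rfl
  have hmod' : p ^ 2 ≡ Nat.card (Function.fixedPoints f) [MOD l] := hmod
  rw [hfix] at hmod'
  set D := ((P : Subgroup G) ⊓ Subgroup.centralizer ({x} : Set G) : Subgroup G) with hD
  have hDdvd : Nat.card D ∣ p ^ 2 := by
    rw [← hPcard]; exact Subgroup.card_dvd_of_le inf_le_left
  obtain ⟨i, hi2, hi⟩ := (Nat.dvd_prime_pow hp).1 hDdvd
  have hine2 : i ≠ 2 := by
    rintro rfl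
    have hDP : D = (P : Subgroup G) := by
      apply Subgroup.eq_of_le_of_card_ge inf_le_left
      rw [hi, hPcard]
    apply hkC
    rw [Subgroup.mem_centralizer_iff]
    intro v hv
    have : v ∈ D := by rw [hDP]; exact hv
    exact (Subgroup.mem_centralizer_singleton_iff.1 this.2)
  rw [hi] at hmod'
  have hple : p ^ i ≤ p ^ 2 := Nat.pow_le_pow_right hp.pos hi2
  have hdvd : l ∣ p ^ 2 - p ^ i := (Nat.modEq_iff_dvd' hple).1 hmod'.symm
  have hlp1 : l = p + 1 := by
    have hnot1 : ¬ l ∣ p - 1 := by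
      intro h
      have := Nat.le_of_dvd (by omega) h
      omega
    have hnotp : ¬ l ∣ p := fun h => hlp ((Nat.prime_dvd_prime_iff_eq hl hp).1 h)
    have hi01 : i = 0 ∨ i = 1 := by omega
    rcases hi01 with rfl | rfl
    · have e1 : p ^ 2 - p ^ 0 = (p - 1) * (p + 1) := by
        obtain ⟨c, rfl⟩ : ∃ c, p = c + 1 := ⟨p - 1, by omega⟩
        simp only [pow_zero, Nat.add_sub_cancel]
        have : (c + 1) ^ 2 = c * (c + 1 + 1) + 1 := by ring
        rw [this, Nat.add_sub_cancel]
      rw [e1] at hdvd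
      rcases (Nat.Prime.dvd_mul hl).1 hdvd with h | h
      · exact absurd h hnot1
      · have := Nat.le_of_dvd (by omega) h
        omega
    · exfalso
      have e1 : p ^ 2 - p ^ 1 = p * (p - 1) := by
        obtain ⟨c, rfl⟩ : ∃ c, p = c + 1 := ⟨p - 1, by omega⟩
        simp only [pow_one, Nat.add_sub_cancel]
        have : (c + 1) ^ 2 = (c + 1) * c + (c + 1) := by ring
        rw [this, Nat.add_sub_cancel]
      rw [e1] at hdvd
      rcases (Nat.Prime.dvd_mul hl).1 hdvd with h | h
      · exact hnotp h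
      · exact hnot1 h
  have hp2 : p = 2 := by
    rcases hp.eq_two_or_odd' with h | h
    · exact h
    · exfalso
      have heven : Even l := by rw [hlp1]; exact h.add_one
      have hl2 : l = 2 := (Nat.Prime.even_iff hl).1 heven
      omega
  have hl3 : l = 3 := by omega
  subst hp2
  rcases hlqr with hlq | hlr
  · -- q = 3
    have hq3 : q = 3 := by omega
    subst hq3
    have hr5 : 5 ≤ r := by
      have : r ≠ 4 := by rintro rfl; norm_num at hr
      omega
    exact final r hr hr5 (by rw [hG]; ring)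
  · have hr3 : r = 3 := by omega
    subst hr3
    have hq5 : 5 ≤ q := by
      have : q ≠ 4 := by rintro rfl; norm_num at hq
      omega
    exact final q hq hq5 (by rw [hG]; ring)

end Cfsg.Agent.S0988
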