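import Cfsg.Statements.S0989
import Cfsg.Agent.Lib.Helper17.Sylow
import Cfsg.Agent.Lib.Helper17.Count

set_option autoImplicit false
open Cfsg

namespace Cfsg.Agent.S0989

open Subgroup Nat
open Cfsg.Agent.Lib.Helper17.Sylow Cfsg.Agent.Lib.Helper17.Count

/-- In a symmetric group of degree less than `2p`, the elements of order `p` are the `p`-cycles. -/
theorem orderOf_eq_iff_cycleType {α : Type*} [Fintype α] [DecidableEq α] (p : ℕ) [Fact p.Prime]
    (hα : Fintype.card α < 2 * p) (g : Equiv.Perm α) :
    orderOf g = p ↔ g.cycleType = {p} := by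
  have hp : p.Prime := Fact.out
  constructor
  · intro h
    have hc : g.IsCycle := by
      apply Equiv.Perm.isCycle_of_prime_order
      · rw [h]; exact hp
      · rw [h]
        exact lt_of_le_of_lt (Finset.card_le_univ _) hα
    rw [hc.cycleType, ← hc.orderOf, h]
  · intro h
    rw [← Equiv.Perm.lcm_cycleType, h, Multiset.lcm_singleton]
    simp

theorem card_order {α : Type*} [Fintype α] [DecidableEq α] (p : ℕ) [Fact p.Prime]
    (hα : Fintype.card α < 2 * p) (hα' : p ≤ Fintype.card α) :
    Nat.card {g : Equiv.Perm α // orderOf g = p} = (p - 1)! * (Fintype.card α).choose p := by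
  have hp : p.Prime := Fact.out
  rw [Nat.card_eq_fintype_card, Fintype.card_subtype,
    ← Equiv.Perm.card_of_cycleType_singleton hp.two_le hα']
  congr 1
  ext g
  simp only [Finset.mem_filter, Finset.mem_univ, true_and]
  exact orderOf_eq_iff_cycleType p hα g

/-- In the symmetric group on p or p + 1 letters, p a prime, the normalizer of a Sylow p-subgroup has order p * (p - 1). -/
theorem result {α : Type*} [Fintype α] [DecidableEq α] (p : ℕ) [Fact p.Prime] (hα : Fintype.card α = p ∨ Fintype.card α = p + 1) (P : Sylow p (Equiv.Perm α)) : Nat.card ↥(Subgroup.normalizer ((P : Subgroup (Equiv.Perm α)) : Set (Equiv.Perm α))) = p * (p - 1) := by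
  have hp : p.Prime := Fact.out
  have hp2 := hp.two_le
  have hlt : Fintype.card α < 2 * p := by rcases hα with h | h <;> omega
  have hle : p ≤ Fintype.card α := by rcases hα with h | h <;> omega
  have hcardG : Nat.card (Equiv.Perm α) = (Fintype.card α)! := by
    rw [Nat.card_eq_fintype_card, Fintype.card_perm]
  have hfac : (Fintype.card α)! = (Fintype.card α).choose p * (p * (p - 1)!) := by
    have h1 := Nat.choose_mul_factorial_mul_factorial hle
    have h2 : (Fintype.card α - p)! = 1 := by
      rcases hα with h | h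
      · rw [h, Nat.sub_self, Nat.factorial_zero]
      · rw [h, Nat.add_sub_cancel_left, Nat.factorial_one]
    rw [h2, mul_one] at h1
    rw [← h1]
    have h3 : p ! = p * (p - 1)! := by
      obtain ⟨k, rfl⟩ : ∃ k, p = k + 1 := ⟨p - 1, by omega⟩
      rw [Nat.factorial_succ, Nat.add_sub_cancel]
    rw [h3]
  have hnd : ¬ p ∣ (Fintype.card α).choose p * (p - 1)! := by
    intro h
    rcases (Nat.Prime.dvd_mul hp).mp h with h1 | h1
    · rcases hα with h2 | h2
      · rw [h2, Nat.choose_self] at h1
        exact hp.one_lt.ne' (Nat.dvd_one.mp h1)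
      · rw [h2, Nat.choose_succ_self_right] at h1
        have : p ∣ 1 := (Nat.dvd_add_right (dvd_refl p)).mp h1
        exact hp.one_lt.ne' (Nat.dvd_one.mp this)
    · have := (hp.dvd_factorial).mp h1
      omega
  have hN : Nat.card (Equiv.Perm α) = p ^ 1 * ((Fintype.card α).choose p * (p - 1)!) := by
    rw [hcardG, hfac]; ring
  have hPc : ∀ Q : Sylow p (Equiv.Perm α), Nat.card (Q : Subgroup (Equiv.Perm α)) = p := by
    intro Q
    simpa using card_sylow_subgroup hN hnd Q
  have h1 := card_orderOf_eq_prime (G := Equiv.Perm α) (p := p) hPc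
  rw [card_order p hlt hle] at h1
  have h2 := card_normalizer_mul_card_sylow P
  rw [hcardG, hfac] at h2
  set n := Nat.card (normalizer ((P : Subgroup (Equiv.Perm α)) : Set (Equiv.Perm α))) with hn
  set s := Nat.card (Sylow p (Equiv.Perm α)) with hs
  set c := (Fintype.card α).choose p with hc
  have hcpos : 0 < c := Nat.choose_pos hle
  have hfpos : 0 < (p - 1)! := Nat.factorial_pos _
  have key : ((p - 1)! * c) * n = ((p - 1)! * c) * (p * (p - 1)) := by
    calc ((p - 1)! * c) * n = n * (s * (p - 1)) := by rw [h1]; ring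
      _ = (n * s) * (p - 1) := by ring
      _ = (c * (p * (p - 1)!)) * (p - 1) := by rw [h2]
      _ = ((p - 1)! * c) * (p * (p - 1)) := by ring
  exact Nat.eq_of_mul_eq_mul_left (Nat.mul_pos hfpos hcpos) key

end Cfsg.Agent.S0989
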