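import Cfsg.Statements.S0995
import Cfsg.Agent.Lib.Helper17.Sylow
import Cfsg.Agent.Lib.Helper17.Count
import Cfsg.Agent.Lib.Helper17.Classes
import Cfsg.Agent.Lib.Helper17.SylowConj

set_option autoImplicit false
open Cfsg

namespace Cfsg.Agent.S0995

open Subgroup
open Cfsg.Agent.Lib.Helper17.Sylow Cfsg.Agent.Lib.Helper17.Count Cfsg.Agent.Lib.Helper17.Classes
open Cfsg.Agent.Lib.Helper17.SylowConj

variable {G : Type*} [Group G] [Finite G]

/-- A Sylow subgroup containing a self-centralizing element of order `p` is generated by it. -/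
theorem sylow_eq_zpowers (p : ℕ) [Fact p.Prime] (z : G) (hz : orderOf z = p)
    (hC : centralizer ({z} : Set G) = zpowers z) (P : Sylow p G) (hzP : z ∈ (P : Subgroup G)) :
    (P : Subgroup G) = zpowers z := by
  have hp : p.Prime := Fact.out
  have hz1 : z ≠ 1 := by
    rintro rfl
    rw [orderOf_one] at hz
    exact hp.ne_one hz.symm
  have hnt : Nontrivial (P : Subgroup G) :=
    ⟨⟨⟨z, hzP⟩, 1, fun h => hz1 (congrArg Subtype.val h)⟩⟩
  have hcnt : Nontrivial (center (P : Subgroup G)) := P.isPGroup'.center_nontrivial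
  obtain ⟨c, hc⟩ := exists_ne (1 : center (P : Subgroup G))
  have hc1 : ((c : (P : Subgroup G)) : G) ≠ 1 := by
    intro h
    apply hc
    apply Subtype.ext
    apply Subtype.ext
    exact h
  have hcz : ((c : (P : Subgroup G)) : G) ∈ zpowers z := by
    rw [← hC, mem_centralizer_iff]
    intro y hy
    rw [Set.mem_singleton_iff] at hy
    subst hy
    have := (mem_center_iff.mp c.2) ⟨y, hzP⟩
    exact congrArg Subtype.val this
  have hco : orderOf ((c : (P : Subgroup G)) : G) = p := by
    have h1 : orderOf ((c : (P : Subgroup G)) : G) ∣ p := by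
      have := orderOf_dvd_natCard (⟨_, hcz⟩ : zpowers z)
      rwa [Subgroup.orderOf_mk, Nat.card_zpowers, hz] at this
    rcases (Nat.dvd_prime hp).mp h1 with h | h
    · exact absurd (orderOf_eq_one_iff.mp h) hc1
    · exact h
  have hzc : zpowers ((c : (P : Subgroup G)) : G) = zpowers z := by
    apply Subgroup.eq_of_le_of_card_ge (zpowers_le.mpr hcz)
    rw [Nat.card_zpowers, Nat.card_zpowers, hz, hco]
  apply le_antisymm
  · intro a ha
    rw [← hC, mem_centralizer_iff]
    intro y hy
    rw [Set.mem_singleton_iff] at hy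
    subst hy
    have hzmem : y ∈ zpowers ((c : (P : Subgroup G)) : G) := by rw [hzc]; exact mem_zpowers y
    obtain ⟨k, hk⟩ := mem_zpowers_iff.mp hzmem
    have hca : Commute ((c : (P : Subgroup G)) : G) a := by
      have := (mem_center_iff.mp c.2) ⟨a, ha⟩
      exact (congrArg Subtype.val this).symm
    rw [← hk]
    exact (hca.zpow_left k).eq
  · rw [zpowers_le]; exact hzP

theorem exists_sylow_eq (p : ℕ) [Fact p.Prime] (z : G) (hz : orderOf z = p)
    (hC : centralizer ({z} : Set G) = zpowers z) :
    ∃ P : Sylow p G, (P : Subgroup G) = zpowers z := by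
  have hpg : IsPGroup p (zpowers z) :=
    IsPGroup.of_card (n := 1) (by rw [Nat.card_zpowers, hz, pow_one])
  obtain ⟨P, hP⟩ := hpg.exists_le_sylow
  exact ⟨P, sylow_eq_zpowers p z hz hC P (hP (mem_zpowers z))⟩

theorem card_sylow_eq (p : ℕ) [Fact p.Prime] (z : G) (hz : orderOf z = p)
    (hC : centralizer ({z} : Set G) = zpowers z) (Q : Sylow p G) :
    Nat.card (Q : Subgroup G) = p := by
  obtain ⟨P, hP⟩ := exists_sylow_eq p z hz hC
  have h2 := Sylow.card_eq_multiplicity P
  rw [hP, Nat.card_zpowers, hz] at h2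
  rw [Sylow.card_eq_multiplicity]
  exact h2.symm

/-- Every element of order `p` has a centralizer of order `p`. -/
theorem card_centralizer_eq (p : ℕ) [Fact p.Prime] (z : G) (hz : orderOf z = p)
    (hC : centralizer ({z} : Set G) = zpowers z) (g : G) (hg : orderOf g = p) :
    Nat.card (centralizer ({g} : Set G)) = p := by
  have hp : p.Prime := Fact.out
  obtain ⟨P, hP⟩ := exists_sylow_eq p z hz hC
  have hpg : IsPGroup p (zpowers g) :=
    IsPGroup.of_card (n := 1) (by rw [Nat.card_zpowers, hg, pow_one])
  obtain ⟨Q, hQ⟩ := hpg.exists_le_sylow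
  obtain ⟨a, ha⟩ := MulAction.exists_smul_eq G P Q
  have hgQ : g ∈ (Q : Subgroup G) := hQ (mem_zpowers g)
  rw [← ha, mem_smul_sylow_iff, hP] at hgQ
  have hg'o : orderOf (a⁻¹ * g * a) = p := by
    have := orderOf_conj_eq a⁻¹ g
    rw [inv_inv] at this
    rw [this, hg]
  have hzz : zpowers (a⁻¹ * g * a) = zpowers z := by
    apply Subgroup.eq_of_le_of_card_ge (zpowers_le.mpr hgQ)
    rw [Nat.card_zpowers, Nat.card_zpowers, hg'o, hz]
  have hCg' : centralizer ({a⁻¹ * g * a} : Set G) = zpowers z := by
    rw [centralizer_singleton_eq, hzz, ← centralizer_singleton_eq, hC]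
  have h1 := card_conj_mul_card_centralizer g
  have h2 := card_conj_mul_card_centralizer (a⁻¹ * g * a)
  have hconj : IsConj g (a⁻¹ * g * a) := isConj_iff.mpr ⟨a⁻¹, by simp⟩
  have hcard : Nat.card {h : G // IsConj g h} = Nat.card {h : G // IsConj (a⁻¹ * g * a) h} :=
    Nat.card_congr (Equiv.subtypeEquivRight
      (fun h => ⟨fun h1 => hconj.symm.trans h1, fun h1 => hconj.trans h1⟩))
  rw [hCg', Nat.card_zpowers, hz] at h2
  rw [hcard] at h1
  have hpos : 0 < Nat.card {h : G // IsConj (a⁻¹ * g * a) h} := by
    rcases Nat.eq_zero_or_pos (Nat.card {h : G // IsConj (a⁻¹ * g * a) h}) with h0 | h0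
    · rw [h0, zero_mul] at h2
      exact absurd h2.symm Nat.card_pos.ne'
    · exact h0
  exact Nat.eq_of_mul_eq_mul_left hpos (h1.trans h2.symm)

/-- Counting the elements of order `p` by conjugacy classes. -/
theorem card_order_mul (p : ℕ) [Fact p.Prime] (z : G) (hz : orderOf z = p)
    (hC : centralizer ({z} : Set G) = zpowers z) :
    Nat.card {g : G // orderOf g = p} * p =
      Nat.card {c : ConjClasses G // ∃ g : G, ConjClasses.mk g = c ∧ orderOf g = p} *
        Nat.card G := by
  classical
  have : Fintype {c : ConjClasses G // ∃ g : G, ConjClasses.mk g = c ∧ orderOf g = p} :=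
    Fintype.ofFinite _
  let f : {g : G // orderOf g = p} →
      {c : ConjClasses G // ∃ g : G, ConjClasses.mk g = c ∧ orderOf g = p} :=
    fun g => ⟨ConjClasses.mk g.1, g.1, rfl, g.2⟩
  have hfib : ∀ c : {c : ConjClasses G // ∃ g : G, ConjClasses.mk g = c ∧ orderOf g = p},
      Nat.card {x : {g : G // orderOf g = p} // f x = c} * p = Nat.card G := by
    rintro ⟨c, g0, rfl, hg0⟩
    have e : {x : {g : G // orderOf g = p} // f x = ⟨ConjClasses.mk g0, g0, rfl, hg0⟩} ≃
        {h : G // IsConj g0 h} :=
      { toFun := fun x => ⟨x.1.1, by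
          have := congrArg Subtype.val x.2
          exact (ConjClasses.mk_eq_mk_iff_isConj.mp this).symm⟩
        invFun := fun h => ⟨⟨h.1, (orderOf_eq_of_isConj h.2).trans hg0⟩, by
          apply Subtype.ext
          exact ConjClasses.mk_eq_mk_iff_isConj.mpr h.2.symm⟩
        left_inv := fun x => rfl
        right_inv := fun h => rfl }
    rw [Nat.card_congr e, ← card_centralizer_eq p z hz hC g0 hg0]
    exact card_conj_mul_card_centralizer g0
  rw [← Nat.card_congr (Equiv.sigmaFiberEquiv f), Nat.card_sigma, Finset.sum_mul,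
    Finset.sum_congr rfl (fun c _ => hfib c), Finset.sum_const, Finset.card_univ, smul_eq_mul,
    Nat.card_eq_fintype_card (α := {c : ConjClasses G // ∃ g : G, ConjClasses.mk g = c ∧
      orderOf g = p})]

/-- Let G be a finite perfect group containing an element z of prime order p whose centralizer is the cyclic group it generates. Let t be the number of conjugacy classes of elements of order p. Then t divides p - 1, the number of Sylow p-subgroups has the form 1 + n * p, and |G| * t = (p - 1) * p * (1 + n * p). -/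
theorem result {G : Type*} [Group G] [Finite G] (hperf : commutator G = ⊤) (p : ℕ) [Fact p.Prime] (z : G) (hz : orderOf z = p) (hC : Subgroup.centralizer ({z} : Set G) = Subgroup.zpowers z) : ∃ n t : ℕ, t = Nat.card {c : ConjClasses G // ∃ g : G, ConjClasses.mk g = c ∧ orderOf g = p} ∧ t ∣ p - 1 ∧ Nat.card (Sylow p G) = 1 + n * p ∧ Nat.card G * t = (p - 1) * p * (1 + n * p) := by
  have hp : p.Prime := Fact.out
  have hS := card_orderOf_eq_prime (G := G) (p := p) (card_sylow_eq p z hz hC)
  have hST := card_order_mul p z hz hC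
  obtain ⟨P, hP⟩ := exists_sylow_eq p z hz hC
  have hN := card_normalizer_mul_card_sylow P
  have hpN : p ∣ Nat.card (normalizer ((P : Subgroup G) : Set G)) := by
    have := Subgroup.card_dvd_of_le (le_normalizer (H := (P : Subgroup G)))
    rwa [card_sylow_eq p z hz hC P] at this
  obtain ⟨e, he⟩ := hpN
  have hmod := card_sylow_mod (G := G) p
  have hnp : Nat.card (Sylow p G) = 1 + Nat.card (Sylow p G) / p * p := by
    have := Nat.div_add_mod (Nat.card (Sylow p G)) p
    rw [hmod] at this
    rw [mul_comm]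
    omega
  have hnpos : 0 < Nat.card (Sylow p G) := Nat.card_pos
  set t := Nat.card {c : ConjClasses G // ∃ g : G, ConjClasses.mk g = c ∧ orderOf g = p} with ht
  set np := Nat.card (Sylow p G) with hnp'
  rw [hS] at hST
  have key : np * p * (p - 1) = np * p * (t * e) := by
    have h1 : np * (p - 1) * p = t * (p * e * np) := by rw [hST, ← hN, he]
    calc np * p * (p - 1) = np * (p - 1) * p := by ring
      _ = t * (p * e * np) := h1
      _ = np * p * (t * e) := by ring
  have key2 : p - 1 = t * e := Nat.eq_of_mul_eq_mul_left (Nat.mul_pos hnpos hp.pos) key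
  refine ⟨np / p, t, rfl, ⟨e, key2⟩, hnp, ?_⟩
  rw [← hnp, mul_comm (Nat.card G) t, ← hST]
  ring

end Cfsg.Agent.S0995
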