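import Cfsg.Statements.S1001
import Cfsg.Agent.Lib.Helper76.PQR

set_option autoImplicit false
open Cfsg

namespace Cfsg.Agent.S1001

/-- In a finite simple group whose order has the form p * 3^a * 2^b with p prime, the centralizer of any element of order p is the cyclic group it generates. -/
theorem result {G : Type*} [Group G] [Finite G] [IsSimpleGroup G] (p a b : ℕ) (hp : p.Prime) (hG : Nat.card G = p * 3 ^ a * 2 ^ b) (x : G) (hx : orderOf x = p) : Subgroup.centralizer ({x} : Set G) = Subgroup.zpowers x := by
  exact Cfsg.Agent.Lib.Helper76.PQR.prime_three_two p a b hp hG x hx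

end Cfsg.Agent.S1001
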