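import Cfsg.Statements.S1002
import Cfsg.Agent.Lib.Helper17.ExcSimple
import Cfsg.Agent.Lib.Helper17.Sylow2

set_option autoImplicit false
open Cfsg

namespace Cfsg.Agent.S1002

open Subgroup
open Cfsg.Agent.Lib.Helper17.Sylow Cfsg.Agent.Lib.Helper17.Sylow2
open Cfsg.Agent.Lib.Helper17.ExcSimple

theorem key1 : ∀ n ∈ Nat.divisors 2457, n % 409 = 1 → n ≠ 1 → n = 819 := by
  decide +kernel

theorem key2 : ∀ r ∈ Nat.divisors 408, r ∣ 1227 → r = 1 ∨ r = 3 := by
  decide +kernel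

theorem key3 : ∀ D ∈ Nat.divisors 2457, D ≠ 1 →
    (D % 409 = 1 → D = 819) ∧ (D % 409 = 408 → False) := by
  decide +kernel

theorem dvd_of_mod {D : ℕ} (h : D ∣ 1004913) (hD : D % 409 = 1 ∨ D % 409 = 408) :
    D ∣ 2457 := by
  have hc : Nat.Coprime D 409 := by
    rw [Nat.coprime_comm, Nat.Prime.coprime_iff_not_dvd (by norm_num)]
    omega
  exact hc.dvd_of_dvd_mul_left (by norm_num at h ⊢; exact h)

/-- No finite simple group has order 1004913 = 3^3 * 7 * 13 * 409. -/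
theorem result {G : Type*} [Group G] [Finite G] [IsSimpleGroup G] : Nat.card G ≠ 1004913 := by
  intro h
  have hG : ¬ IsMulCommutative G := not_comm_of_not_prime (by rw [h]; norm_num)
  have : Fact (Nat.Prime 409) := ⟨by norm_num⟩
  have h409 : 409 ∣ Nat.card G := by rw [h]; norm_num
  have hd : Nat.card (Sylow 409 G) ∣ 2457 :=
    card_sylow_dvd (k := 1) (h.trans (by norm_num)) (by norm_num)
  have hm := card_sylow_mod (G := G) 409
  have hne := card_sylow_ne_one hG h409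
  obtain ⟨P⟩ : Nonempty (Sylow 409 G) := inferInstance
  have hP : Nat.card (P : Subgroup G) = 409 := by
    simpa using card_sylow_subgroup (k := 1) (m := 2457) (h.trans (by norm_num)) (by norm_num) P
  have hNn := card_normalizer_mul_card_sylow P
  rw [h] at hNn
  obtain ⟨r, hr1, hr408, hCr, hC409⟩ := sylow_prime_centralizer hG P hP
  have hn := key1 _ (Nat.mem_divisors.mpr ⟨hd, by norm_num⟩) hm hne
  rw [hn] at hNn
  have hN : Nat.card (normalizer ((P : Subgroup G) : Set G)) = 409 * 3 := by omega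
  have hr := key2 r (Nat.mem_divisors.mpr ⟨hr408, by norm_num⟩)
    ⟨Nat.card (centralizer ((P : Subgroup G) : Set G)), by rw [mul_comm, hCr, hN]⟩
  have hC : Nat.card (centralizer ((P : Subgroup G) : Set G)) = 409 := by
    rcases hr with rfl | rfl <;> omega
  obtain ⟨D₁, D₂, d, δ₁, δ₂, ε, hD₁, hD₂, hd', hD₁1, hD₂1, hp₁, hp₂, hpd, hε, hδ₁, hδ₂,
    ⟨a₁, ha₁⟩, ⟨a₂, ha₂⟩, heq⟩ :=
    degrees_three hG (P : Subgroup G) (by norm_num) hP hC hN (by norm_num)
  rw [h] at hD₁ hD₂ hd'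
  have hm₁ : D₁ % 409 = 1 ∨ D₁ % 409 = 408 := by
    rcases hδ₁ with rfl | rfl <;> omega
  have hm₂ : D₂ % 409 = 1 ∨ D₂ % 409 = 408 := by
    rcases hδ₂ with rfl | rfl <;> omega
  have hk₁ := key3 D₁ (Nat.mem_divisors.mpr ⟨dvd_of_mod hD₁ hm₁, by norm_num⟩) hD₁1
  have hk₂ := key3 D₂ (Nat.mem_divisors.mpr ⟨dvd_of_mod hD₂ hm₂, by norm_num⟩) hD₂1
  have e1 : D₁ = 819 := by
    rcases hm₁ with h1 | h1
    · exact hk₁.1 h1
    · exact (hk₁.2 h1).elim
  have e2 : D₂ = 819 := by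
    rcases hm₂ with h1 | h1
    · exact hk₂.1 h1
    · exact (hk₂.2 h1).elim
  have hd3 : d = 1639 := by
    rcases hδ₁ with rfl | rfl <;> rcases hδ₂ with rfl | rfl <;>
      rcases hε with rfl | rfl <;> omega
  rw [hd3] at hd'
  norm_num at hd'

end Cfsg.Agent.S1002
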