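import Cfsg.Statements.S1006
import Cfsg.Agent.Lib.Helper17.G168b

set_option autoImplicit false
open Cfsg

namespace Cfsg.Agent.S1006

open Cfsg.Agent.Lib.Helper17.G168 Cfsg.Agent.Lib.Helper17.G168b

/-- In a simple group of order 168 there are 56 elements of order 3, all conjugate; 42 elements of order 4, all conjugate; and 48 elements of order 7 falling into two conjugacy classes of size 24, an element of order 7 not being conjugate to its inverse. -/
theorem result {G : Type*} [Group G] [Finite G] [IsSimpleGroup G] (h : Nat.card G = 168) : Nat.card {g : G // orderOf g = 3} = 56 ∧ (∀ s t : G, orderOf s = 3 → orderOf t = 3 → IsConj s t) ∧ Nat.card {g : G // orderOf g = 4} = 42 ∧ (∀ s t : G, orderOf s = 4 → orderOf t = 4 → IsConj s t) ∧ Nat.card {g : G // orderOf g = 7} = 48 ∧ ∀ x : G, orderOf x = 7 → Nat.card {g : G // IsConj x g} = 24 ∧ ¬ IsConj x x⁻¹ := by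
  exact ⟨card_order3 h, fun s t hs ht => isConj_order3 h s t hs ht, card_order4 h,
    fun s t hs ht => isConj_order4 h s t hs ht, card_order7 h,
    fun x hx => ⟨card_conj_order7 h x hx, not_isConj_inv_order7 h x hx⟩⟩

end Cfsg.Agent.S1006
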