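import Cfsg.Statements.S1009
import Cfsg.Agent.Lib.Helper17.SylowConj

set_option autoImplicit false
open Cfsg

namespace Cfsg.Agent.S1009

open Cfsg.Agent.Lib.Helper17.SylowConj

/-- Brodkey's Theorem: if a finite group has abelian Sylow p-subgroups, then there are two Sylow p-subgroups whose intersection equals the intersection of all Sylow p-subgroups. -/
theorem result {G : Type*} [Group G] [Finite G] (p : ℕ) [Fact p.Prime] (hab : ∀ P : Sylow p G, IsMulCommutative ↥(P : Subgroup G)) : ∃ P Q : Sylow p G, (P : Subgroup G) ⊓ (Q : Subgroup G) = ⨅ R : Sylow p G, (R : Subgroup G) := by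
  obtain ⟨⟨P, Q⟩, hmin⟩ := Finite.exists_min
    (fun x : Sylow p G × Sylow p G => Nat.card ((x.1 : Subgroup G) ⊓ (x.2 : Subgroup G) : Subgroup G))
  refine ⟨P, Q, ?_⟩
  have hcomm : ∀ (S : Sylow p G) (a b : G), a ∈ (S : Subgroup G) → b ∈ (S : Subgroup G) →
      a * b = b * a := by
    intro S a b ha hb
    have h1 := (isMulCommutative_iff.mp (hab S)) ⟨a, ha⟩ ⟨b, hb⟩
    exact congrArg Subtype.val h1
  set D : Subgroup G := (P : Subgroup G) ⊓ (Q : Subgroup G) with hD
  have hPN : (P : Subgroup G) ≤ Subgroup.normalizer (D : Set G) := by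
    refine le_trans ?_ (Subgroup.centralizer_le_normalizer _)
    intro x hx
    rw [Subgroup.mem_centralizer_iff]
    intro d hd
    exact hcomm P d x hd.1 hx
  have hQN : (Q : Subgroup G) ≤ Subgroup.normalizer (D : Set G) := by
    refine le_trans ?_ (Subgroup.centralizer_le_normalizer _)
    intro x hx
    rw [Subgroup.mem_centralizer_iff]
    intro d hd
    exact hcomm Q d x hd.2 hx
  apply le_antisymm
  · apply le_iInf
    intro R
    obtain ⟨n, hnN, hn⟩ := exists_conj_le_of_le P (Subgroup.normalizer (D : Set G)) hPN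
      ((R : Subgroup G) ⊓ Subgroup.normalizer (D : Set G)) (R.isPGroup'.to_le inf_le_left)
      inf_le_right
    have hle : ((n⁻¹ • R : Sylow p G) : Subgroup G) ⊓ (Q : Subgroup G) ≤ D := by
      intro y hy
      have hy1 : n⁻¹⁻¹ * y * n⁻¹ ∈ (R : Subgroup G) := mem_smul_sylow_iff.mp hy.1
      rw [inv_inv] at hy1
      have hyN : y ∈ Subgroup.normalizer (D : Set G) := hQN hy.2
      have hxN : n * y * n⁻¹ ∈ Subgroup.normalizer (D : Set G) :=
        Subgroup.mul_mem _ (Subgroup.mul_mem _ hnN hyN) (Subgroup.inv_mem _ hnN)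
      have := hn (n * y * n⁻¹) ⟨hy1, hxN⟩
      have h2 : n⁻¹ * (n * y * n⁻¹) * n = y := by group
      rw [h2] at this
      exact ⟨this, hy.2⟩
    have hcard := hmin (n⁻¹ • R, Q)
    have heq : ((n⁻¹ • R : Sylow p G) : Subgroup G) ⊓ (Q : Subgroup G) = D :=
      Subgroup.eq_of_le_of_card_ge hle hcard
    intro d hd
    have hnN' : n⁻¹ ∈ Subgroup.normalizer (D : Set G) := Subgroup.inv_mem _ hnN
    have hd' : n⁻¹ * d * n⁻¹⁻¹ ∈ D := (Subgroup.mem_normalizer_iff.mp hnN' d).mp hd
    rw [← heq] at hd'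
    have h3 := mem_smul_sylow_iff.mp hd'.1
    have h4 : n⁻¹⁻¹ * (n⁻¹ * d * n⁻¹⁻¹) * n⁻¹ = d := by group
    rw [h4] at h3
    exact h3
  · exact le_inf (iInf_le _ P) (iInf_le _ Q)

end Cfsg.Agent.S1009
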