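import Cfsg.Statements.S1014
import Cfsg.Agent.Lib.Helper17.Sylow2
import Cfsg.Agent.Lib.Helper17.Parity

set_option autoImplicit false
open Cfsg

namespace Cfsg.Agent.S1014

open Cfsg.Agent.Lib.Helper17.Sylow Cfsg.Agent.Lib.Helper17.Sylow2 Cfsg.Agent.Lib.Helper17.Parity

/-- No finite simple group has order 1104 = 2^4 * 3 * 23. -/
theorem result {G : Type*} [Group G] [Finite G] [IsSimpleGroup G] : Nat.card G ≠ 1104 := by
  intro h
  have hG : ¬ IsMulCommutative G := not_comm_of_not_prime (by rw [h]; norm_num)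
  have : Fact (Nat.Prime 23) := ⟨by norm_num⟩
  have : Fact (Nat.Prime 2) := ⟨by norm_num⟩
  have h23 : 23 ∣ Nat.card G := by rw [h]; norm_num
  have hd : Nat.card (Sylow 23 G) ∣ 48 :=
    card_sylow_dvd (k := 1) (h.trans (by norm_num)) (by norm_num)
  have hm := card_sylow_mod (G := G) 23
  have hne := card_sylow_ne_one hG h23
  have key : ∀ n ∈ Nat.divisors 48, n % 23 = 1 → n ≠ 1 → n = 24 := by decide
  have hn : Nat.card (Sylow 23 G) = 24 :=
    key _ (Nat.mem_divisors.mpr ⟨hd, by norm_num⟩) hm hne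
  obtain ⟨P⟩ : Nonempty (Sylow 23 G) := inferInstance
  have hP : Nat.card (P : Subgroup G) = 23 := by
    simpa using card_sylow_subgroup (k := 1) (m := 48) (h.trans (by norm_num)) (by norm_num) P
  have hN : Nat.card (Subgroup.normalizer ((P : Subgroup G) : Set G)) = 46 := by
    have := card_normalizer_mul_card_sylow P
    rw [hn, h] at this
    omega
  obtain ⟨r, hr1, hr2, hr3, hr4⟩ := sylow_prime_centralizer hG P hP
  rw [hN] at hr3
  have hC : Nat.card (Subgroup.centralizer ((P : Subgroup G) : Set G)) = 23 := by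
    have key2 : ∀ c ∈ Nat.divisors 46, ∀ r ∈ Nat.divisors 22, r ≠ 1 → c * r = 46 → 23 ∣ c →
        c = 23 := by decide
    exact key2 _ (Nat.mem_divisors.mpr ⟨Dvd.intro _ hr3, by norm_num⟩) r
      (Nat.mem_divisors.mpr ⟨hr2, by norm_num⟩) hr1 hr3 hr4
  obtain ⟨t, htN, ht⟩ := exists_mem_orderOf_eq_prime
    (Subgroup.normalizer ((P : Subgroup G) : Set G)) 2 (by rw [hN]; norm_num)
  have ht2 : t ^ 2 = 1 := by rw [← ht]; exact pow_orderOf_eq_one t
  have htC : t ∉ Subgroup.centralizer ((P : Subgroup G) : Set G) := by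
    intro hc
    have := orderOf_dvd_card_of_mem hc
    rw [ht, hC] at this
    omega
  obtain ⟨f, k, o, hf1, hfo, ho, hfk⟩ := sylow_involution_test hG P hP t ht2 htN htC
  rw [hn] at ho hfk
  omega

end Cfsg.Agent.S1014
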