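import Cfsg.Statements.S1015
import Cfsg.Agent.Lib.Helper17.SylowSub
import Cfsg.Agent.S0985

set_option autoImplicit false
open Cfsg

namespace Cfsg.Agent.S1015

open Cfsg.Agent.Lib.Helper17.Sylow Cfsg.Agent.Lib.Helper17.SylowSub Cfsg.Agent.Lib.Helper17
open Nat

theorem key1 : ∀ n ∈ Nat.divisors 48, n % 5 = 1 → n ≠ 1 → 2 * 1200 ∣ n ! → n = 16 := by
  decide +kernel

theorem key2 : ∀ m ∈ Nat.divisors 1200, ∀ n ∈ Nat.divisors m, n ≠ 1 → n % 5 = 1 → n * 25 ∣ m →
    m ≠ 1200 → ¬ (2 * 1200 ∣ (1200 / m)!) := by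
  decide +kernel

/-- No finite simple group has order 1200 = 2^4 * 3 * 5^2. -/
theorem result {G : Type*} [Group G] [Finite G] [IsSimpleGroup G] : Nat.card G ≠ 1200 := by
  intro h
  have hG : ¬ IsMulCommutative G := not_comm_of_not_prime (by rw [h]; norm_num)
  have : Fact (Nat.Prime 5) := ⟨by norm_num⟩
  have h5 : 5 ∣ Nat.card G := by rw [h]; norm_num
  have hd : Nat.card (Sylow 5 G) ∣ 48 :=
    card_sylow_dvd (k := 2) (h.trans (by norm_num)) (by norm_num)
  have hm := card_sylow_mod (G := G) 5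
  have hne := card_sylow_ne_one hG h5
  have hf := two_mul_card_dvd_factorial_card_sylow hG h5
  rw [h] at hf
  have hn : Nat.card (Sylow 5 G) = 16 :=
    key1 _ (Nat.mem_divisors.mpr ⟨hd, by norm_num⟩) hm hne hf
  have hmod : ¬ Nat.card (Sylow 5 G) ≡ 1 [MOD 5 ^ 2] := by rw [hn]; decide
  obtain ⟨P, R, hPR, hidx⟩ := Cfsg.Agent.S0985.result 5 2 hmod
  have hPc : Nat.card (P : Subgroup G) = 25 := by
    simpa using card_sylow_subgroup (k := 2) (m := 48) (h.trans (by norm_num)) (by norm_num) P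
  have hRc : Nat.card (R : Subgroup G) = 25 := by
    simpa using card_sylow_subgroup (k := 2) (m := 48) (h.trans (by norm_num)) (by norm_num) R
  have hrel : (R : Subgroup G).relIndex (P : Subgroup G) = 5 := by
    have h1 : (R : Subgroup G).relIndex (P : Subgroup G) ∣ 25 := by
      rw [← hPc]
      exact Subgroup.relIndex_dvd_card _ _
    have h2 : (R : Subgroup G).relIndex (P : Subgroup G) ≠ 1 := by
      intro h3
      have hle : (P : Subgroup G) ≤ R := Subgroup.relIndex_eq_one.mp h3
      have := Subgroup.eq_of_le_of_card_ge hle (by rw [hPc, hRc])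
      exact hPR (Sylow.ext this)
    have h3 : (R : Subgroup G).relIndex (P : Subgroup G) ≤ 5 := hidx
    have h4 : (R : Subgroup G).relIndex (P : Subgroup G) ∈ Nat.divisors 25 :=
      Nat.mem_divisors.mpr ⟨h1, by norm_num⟩
    have : ∀ d ∈ Nat.divisors 25, d ≠ 1 → d ≤ 5 → d = 5 := by decide
    exact this _ h4 h2 h3
  set D : Subgroup G := (P : Subgroup G) ⊓ (R : Subgroup G) with hD
  have hDP : D ≤ (P : Subgroup G) := inf_le_left
  have hDR : D ≤ (R : Subgroup G) := inf_le_right
  have hrelD : D.relIndex (P : Subgroup G) = 5 := by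
    rw [hD, Subgroup.inf_relIndex_left, hrel]
  have hDc : Nat.card D = 5 := by
    have := card_mul_relIndex hDP
    rw [hrelD, hPc] at this
    omega
  have hrelD' : D.relIndex (R : Subgroup G) = 5 := by
    have := card_mul_relIndex hDR
    rw [hDc, hRc] at this
    omega
  have hPN : (P : Subgroup G) ≤ Subgroup.normalizer (D : Set G) :=
    le_normalizer_of_relIndex_prime P.isPGroup' hDP hrelD
  have hRN : (R : Subgroup G) ≤ Subgroup.normalizer (D : Set G) :=
    le_normalizer_of_relIndex_prime R.isPGroup' hDR hrelD'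
  have hM : Subgroup.normalizer (D : Set G) ≠ ⊤ := by
    intro htop
    have hnorm : D.Normal := Subgroup.normalizer_eq_top_iff.mp htop
    rcases hnorm.eq_bot_or_eq_top with h1 | h1
    · rw [h1, Subgroup.card_bot] at hDc
      omega
    · rw [h1, Subgroup.card_top, h] at hDc
      omega
  have hfM := Embed.two_mul_card_dvd_factorial hG _ hM
  obtain ⟨hn1, hn2, hn3⟩ := card_sylow_of_two P R hPR _ hPN hRN
  rw [hPc] at hn3
  have hmi := (Subgroup.normalizer (D : Set G)).card_mul_index
  rw [h] at hmi hfM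
  have hmdvd : Nat.card (Subgroup.normalizer (D : Set G)) ∈ Nat.divisors 1200 :=
    Nat.mem_divisors.mpr ⟨Dvd.intro _ hmi, by norm_num⟩
  have hmpos : 0 < Nat.card (Subgroup.normalizer (D : Set G)) := Nat.card_pos
  have hi : (Subgroup.normalizer (D : Set G)).index =
      1200 / Nat.card (Subgroup.normalizer (D : Set G)) :=
    (Nat.div_eq_of_eq_mul_right hmpos hmi.symm).symm
  have hm1200 : Nat.card (Subgroup.normalizer (D : Set G)) ≠ 1200 := by
    intro h1
    apply hM
    apply Subgroup.eq_top_of_card_eq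
    rw [h1, h]
  rw [hi] at hfM
  exact key2 _ hmdvd _ (Nat.mem_divisors.mpr ⟨(Dvd.intro _ rfl).trans hn3, hmpos.ne'⟩)
    hn1 hn2 hn3 hm1200 hfM

end Cfsg.Agent.S1015
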