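import Cfsg.Statements.S1016
import Cfsg.Agent.Lib.Helper17.CentFix

set_option autoImplicit false
open Cfsg

namespace Cfsg.Agent.S1016

open Subgroup MulAction
open Cfsg.Agent.Lib.Helper17.Sylow Cfsg.Agent.Lib.Helper17.Sylow2
open Cfsg.Agent.Lib.Helper17.CentFix Cfsg.Agent.Lib.Helper17.Commuting
open Nat

theorem key1 : ∀ n ∈ Nat.divisors 288, n % 5 = 1 → n ≠ 1 → 2 * 1440 ∣ n ! →
    n = 16 ∨ n = 36 ∨ n = 96 := by
  decide +kernel

theorem key2 : ∀ r ∈ Nat.divisors 4, r = 1 ∨ r = 2 ∨ r = 4 := by
  decide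

/-- No finite simple group has order 1440 = 2^5 * 3^2 * 5. -/
theorem result {G : Type*} [Group G] [Finite G] [IsSimpleGroup G] : Nat.card G ≠ 1440 := by
  intro h
  have hG : ¬ IsMulCommutative G := not_comm_of_not_prime (by rw [h]; norm_num)
  have : Fact (Nat.Prime 5) := ⟨by norm_num⟩
  have : Fact (Nat.Prime 3) := ⟨by norm_num⟩
  have : Fact (Nat.Prime 2) := ⟨by norm_num⟩
  have h5 : 5 ∣ Nat.card G := by rw [h]; norm_num
  have hd : Nat.card (Sylow 5 G) ∣ 288 :=
    card_sylow_dvd (k := 1) (h.trans (by norm_num)) (by norm_num)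
  have hm := card_sylow_mod (G := G) 5
  have hne := card_sylow_ne_one hG h5
  have hf := two_mul_card_dvd_factorial_card_sylow hG h5
  rw [h] at hf
  obtain ⟨P⟩ : Nonempty (Sylow 5 G) := inferInstance
  have hP : Nat.card (P : Subgroup G) = 5 := by
    simpa using card_sylow_subgroup (k := 1) (m := 288) (h.trans (by norm_num)) (by norm_num) P
  have hNn := card_normalizer_mul_card_sylow P
  rw [h] at hNn
  have hidx : (normalizer ((P : Subgroup G) : Set G)).index = Nat.card (Sylow 5 G) :=
    (P.card_eq_index_normalizer).symm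
  obtain ⟨r, hr1, hr4, hCr, hC5⟩ := sylow_prime_centralizer hG P hP
  have hr := key2 r (Nat.mem_divisors.mpr ⟨hr4, by norm_num⟩)
  rcases key1 _ (Nat.mem_divisors.mpr ⟨hd, by norm_num⟩) hm hne hf with hn | hn | hn
  · -- n = 16, |N| = 90, |C| = 45
    rw [hn] at hNn
    have hC : Nat.card (centralizer ((P : Subgroup G) : Set G)) = 45 := by
      rcases hr with rfl | rfl | rfl <;> omega
    obtain ⟨K, hKC, hKc⟩ := exists_subgroup_le_card_pow_prime
      (centralizer ((P : Subgroup G) : Set G)) 3 2 (by rw [hC]; norm_num)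
    have hmod := index_modEq_one_of_cent_subgroup P K hKC (by
      intro u hu hu1
      have h1 := card_fixedBy_mod_of_mem_centralizer P hP u (hKC hu)
      have hu9 : u ^ (3 ^ 2) = 1 := by
        have h2 := orderOf_dvd_card_of_mem hu
        rw [hKc] at h2
        exact orderOf_dvd_iff_pow_eq_one.mp h2
      have h2 := card_modEq_card_fixedBy
        (X := G ⧸ normalizer ((P : Subgroup G) : Set G)) u hu9
      have h3 := card_fixedBy_lt_index _ (normalizer_sylow_ne_top hG h5 P) u hu1
      have hX : Nat.card (G ⧸ normalizer ((P : Subgroup G) : Set G)) = 16 := hidx.trans hn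
      rw [hidx, hn] at h3
      rw [hX, Nat.ModEq] at h2
      omega)
    rw [hKc, hidx, hn] at hmod
    exact absurd hmod (by decide)
  · -- n = 36, |N| = 40, |C| even
    rw [hn] at hNn
    have hCe : Even (Nat.card (centralizer ((P : Subgroup G) : Set G))) := by
      rw [Nat.even_iff]
      rcases hr with rfl | rfl | rfl <;> omega
    have hfix : ∀ t ∈ centralizer ((P : Subgroup G) : Set G), orderOf t = 2 →
        Nat.card (fixedBy (G ⧸ normalizer ((P : Subgroup G) : Set G)) t) = 16 := by
      intro t htC ht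
      obtain ⟨k, h1, h2, h3⟩ := involution_fix_data hG P hP t ht htC
      rw [hidx, hn] at h2 h3
      omega
    obtain ⟨i, m, hi, him⟩ := involution_count P hP 16 hCe hfix (by rw [hidx, hn]; norm_num)
    rw [hidx, hn] at him
    obtain ⟨c, rfl⟩ := hi
    omega
  · -- n = 96, |N| = 15
    rw [hn] at hNn
    rcases hr with rfl | rfl | rfl <;> omega

end Cfsg.Agent.S1016
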