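import Cfsg.Statements.S1017
import Cfsg.Agent.Lib.Helper17.CentFix

set_option autoImplicit false
open Cfsg

namespace Cfsg.Agent.S1017

open Subgroup MulAction
open Cfsg.Agent.Lib.Helper17.Sylow Cfsg.Agent.Lib.Helper17.Sylow2
open Cfsg.Agent.Lib.Helper17.CentFix Cfsg.Agent.Lib.Helper17.Commuting

theorem key1 : ∀ n ∈ Nat.divisors 288, n % 7 = 1 → n ≠ 1 →
    n = 8 ∨ n = 36 ∨ n = 288 := by
  decide +kernel

theorem key2 : ∀ r ∈ Nat.divisors 6, r = 1 ∨ r = 2 ∨ r = 3 ∨ r = 6 := by
  decide

/-- No finite simple group has order 2016 = 2^5 * 3^2 * 7. -/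
theorem result {G : Type*} [Group G] [Finite G] [IsSimpleGroup G] : Nat.card G ≠ 2016 := by
  intro h
  have hG : ¬ IsMulCommutative G := not_comm_of_not_prime (by rw [h]; norm_num)
  have : Fact (Nat.Prime 7) := ⟨by norm_num⟩
  have : Fact (Nat.Prime 2) := ⟨by norm_num⟩
  have h7 : 7 ∣ Nat.card G := by rw [h]; norm_num
  have hd : Nat.card (Sylow 7 G) ∣ 288 :=
    card_sylow_dvd (k := 1) (h.trans (by norm_num)) (by norm_num)
  have hm := card_sylow_mod (G := G) 7
  have hne := card_sylow_ne_one hG h7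
  obtain ⟨P⟩ : Nonempty (Sylow 7 G) := inferInstance
  have hP : Nat.card (P : Subgroup G) = 7 := by
    simpa using card_sylow_subgroup (k := 1) (m := 288) (h.trans (by norm_num)) (by norm_num) P
  have hNn := card_normalizer_mul_card_sylow P
  rw [h] at hNn
  have hidx : (normalizer ((P : Subgroup G) : Set G)).index = Nat.card (Sylow 7 G) :=
    (P.card_eq_index_normalizer).symm
  obtain ⟨r, hr1, hr6, hCr, hC7⟩ := sylow_prime_centralizer hG P hP
  have hr := key2 r (Nat.mem_divisors.mpr ⟨hr6, by norm_num⟩)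
  rcases key1 _ (Nat.mem_divisors.mpr ⟨hd, by norm_num⟩) hm hne with hn | hn | hn
  · -- n = 8, |N| = 252, |C| even
    rw [hn] at hNn
    have hC2 : 2 ∣ Nat.card (centralizer ((P : Subgroup G) : Set G)) := by
      rcases hr with rfl | rfl | rfl | rfl <;> omega
    obtain ⟨t, htC, ht⟩ := exists_mem_orderOf_eq_prime _ 2 hC2
    obtain ⟨k, h1, h2, h3⟩ := involution_fix_data hG P hP t ht htC
    rw [hidx, hn] at h2 h3
    omega
  · -- n = 36, |N| = 56, |C| = 28
    rw [hn] at hNn
    have hCe : Even (Nat.card (centralizer ((P : Subgroup G) : Set G))) := by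
      rw [Nat.even_iff]
      rcases hr with rfl | rfl | rfl | rfl <;> omega
    have hfix : ∀ t ∈ centralizer ((P : Subgroup G) : Set G), orderOf t = 2 →
        Nat.card (fixedBy (G ⧸ normalizer ((P : Subgroup G) : Set G)) t) = 8 := by
      intro t htC ht
      obtain ⟨k, h1, h2, h3⟩ := involution_fix_data hG P hP t ht htC
      rw [hidx, hn] at h2 h3
      omega
    obtain ⟨i, m, hi, him⟩ := involution_count P hP 8 hCe hfix (by rw [hidx, hn]; norm_num)
    rw [hidx, hn] at him
    obtain ⟨c, rfl⟩ := hi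
    omega
  · -- n = 288, |N| = 7
    rw [hn] at hNn
    rcases hr with rfl | rfl | rfl | rfl <;> omega

end Cfsg.Agent.S1017
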