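import Cfsg.Statements.S1018
import Cfsg.Agent.Lib.Helper17.FixedPoints

set_option autoImplicit false
open Cfsg

namespace Cfsg.Agent.S1018

open Cfsg.Agent.Lib.Helper17.FixedPoints

/-- Let P be a Sylow p-subgroup of order p of a finite group G, and consider the action of G on the left cosets of the normalizer N of P. Then every element of order p fixes exactly one coset, and an element of N that does not centralize P fixes at most as many cosets as there are orbits of P. -/
theorem result {G : Type*} [Group G] [Finite G] (p : ℕ) [Fact p.Prime] (P : Sylow p G) (hP : Nat.card ↥(P : Subgroup G) = p) : (∀ y : G, orderOf y = p → Nat.card (MulAction.fixedBy (G ⧸ Subgroup.normalizer ((P : Subgroup G) : Set G)) y) = 1) ∧ ∀ x : G, x ∈ Subgroup.normalizer ((P : Subgroup G) : Set G) → x ∉ Subgroup.centralizer ((P : Subgroup G) : Set G) → Nat.card (MulAction.fixedBy (G ⧸ Subgroup.normalizer ((P : Subgroup G) : Set G)) x) ≤ Nat.card (MulAction.orbitRel.Quotient ↥(P : Subgroup G) (G ⧸ Subgroup.normalizer ((P : Subgroup G) : Set G))) := by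
  exact ⟨fun y hy => card_fixedBy_of_orderOf_eq P hP y hy,
    fun x hxN hxC => card_fixedBy_le_card_orbits P hP x hxN hxC⟩

end Cfsg.Agent.S1018
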