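import Cfsg.Statements.S1019
import Mathlib

set_option autoImplicit false
open Cfsg

namespace Cfsg.Agent.S1019

theorem card_fixedBy_conj {G : Type*} [Group G] [Finite G] (H : Subgroup G) (x y : G)
    (h : IsConj x y) :
    Nat.card (MulAction.fixedBy (G ⧸ H) y) = Nat.card (MulAction.fixedBy (G ⧸ H) x) := by
  obtain ⟨c, hc⟩ := isConj_iff.mp h
  subst hc
  refine Nat.card_congr ⟨fun q => ⟨c⁻¹ • q.1, ?_⟩, fun q => ⟨c • q.1, ?_⟩, ?_, ?_⟩
  · have hq := q.2
    rw [MulAction.mem_fixedBy] at hq ⊢
    have h2 := congrArg (c⁻¹ • ·) hq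
    simpa [← mul_smul, mul_assoc] using h2
  · have hq := q.2
    rw [MulAction.mem_fixedBy] at hq ⊢
    have : (c * x * c⁻¹) • c • q.1 = c • x • q.1 := by
      simp [← mul_smul, mul_assoc]
    rw [this, hq]
  · intro q; ext; simp
  · intro q; ext; simp

theorem card_conj_inter {G : Type*} [Group G] [Finite G] (H : Subgroup G) (x : G) (q : G ⧸ H) :
    Nat.card {y : G // IsConj x y ∧ y • q = q} = Nat.card {g : G // IsConj x g ∧ g ∈ H} := by
  induction q using QuotientGroup.induction_on with
  | H g =>
    refine Nat.card_congr ⟨fun y => ⟨g⁻¹ * y.1 * g, ?_, ?_⟩, fun y => ⟨g * y.1 * g⁻¹, ?_, ?_⟩, ?_, ?_⟩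
    · have := y.2.1
      refine this.trans ?_
      exact isConj_iff.mpr ⟨g⁻¹, by simp⟩
    · have := y.2.2
      rw [MulAction.Quotient.smul_mk, QuotientGroup.eq] at this
      have h2 := H.inv_mem this
      simpa [mul_assoc] using h2
    · have := y.2.1
      refine this.trans ?_
      exact isConj_iff.mpr ⟨g, rfl⟩
    · have := y.2.2
      rw [MulAction.Quotient.smul_mk, QuotientGroup.eq]
      have h2 := H.inv_mem this
      simpa [mul_assoc] using h2
    · intro y; ext; simp [mul_assoc]
    · intro y; ext; simp [mul_assoc]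

/-- Let H be a subgroup of a finite group G and x an element of H. In the action of G on the left cosets of H, the number of cosets fixed by x, multiplied by the size of the conjugacy class of x, equals the index of H multiplied by the number of conjugates of x that lie in H. -/
theorem result {G : Type*} [Group G] [Finite G] (H : Subgroup G) (x : G) (hx : x ∈ H) : Nat.card (MulAction.fixedBy (G ⧸ H) x) * Nat.card {g : G // IsConj x g} = H.index * Nat.card {g : G // IsConj x g ∧ g ∈ H} := by
  classical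
  have : Fintype G := Fintype.ofFinite G
  have : Fintype (G ⧸ H) := Fintype.ofFinite _
  have : Fintype {g : G // IsConj x g} := Fintype.ofFinite _
  have e : (Σ y : {g : G // IsConj x g}, MulAction.fixedBy (G ⧸ H) y.1) ≃
      (Σ q : G ⧸ H, {y : G // IsConj x y ∧ y • q = q}) :=
    ⟨fun p => ⟨p.2.1, ⟨p.1.1, p.1.2, p.2.2⟩⟩, fun p => ⟨⟨p.2.1, p.2.2.1⟩, ⟨p.1, p.2.2.2⟩⟩,
      fun p => rfl, fun p => rfl⟩
  have h1 := Nat.card_congr e
  rw [Nat.card_sigma, Nat.card_sigma] at h1
  rw [Finset.sum_congr rfl (fun y _ => card_fixedBy_conj H x y.1 y.2),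
    Finset.sum_congr rfl (fun q _ => card_conj_inter H x q)] at h1
  simp only [Finset.sum_const, Finset.card_univ, smul_eq_mul] at h1
  rw [mul_comm, Nat.card_eq_fintype_card (α := {g : G // IsConj x g}), h1,
    ← Nat.card_eq_fintype_card]
  rfl

end Cfsg.Agent.S1019
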