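import Cfsg.Statements.S1022
import Cfsg.Agent.Lib.Helper17.CentFix
import Cfsg.Agent.Lib.Helper69.O459b
import Cfsg.Agent.Lib.Helper82.O459648

set_option autoImplicit false
open Cfsg

namespace Cfsg.Agent.S1022

open Subgroup MulAction
open Cfsg.Agent.Lib.Helper17.Sylow Cfsg.Agent.Lib.Helper17.Sylow2
open Cfsg.Agent.Lib.Helper17.CentFix Cfsg.Agent.Lib.Helper17.Commuting

theorem key1 : ∀ n ∈ Nat.divisors 24192, n % 19 = 1 → n ≠ 1 → n = 96 ∨ n = 1008 := by
  decide +kernel

/-- No finite simple group has order 459648 = 2^7 * 3^3 * 7 * 19. -/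
theorem result {G : Type*} [Group G] [Finite G] [IsSimpleGroup G] : Nat.card G ≠ 459648 := by
  intro h
  have hG : ¬ IsMulCommutative G := not_comm_of_not_prime (by rw [h]; norm_num)
  have : Fact (Nat.Prime 19) := ⟨by norm_num⟩
  have : Fact (Nat.Prime 7) := ⟨by norm_num⟩
  have h19 : 19 ∣ Nat.card G := by rw [h]; norm_num
  have hd : Nat.card (Sylow 19 G) ∣ 24192 :=
    card_sylow_dvd (k := 1) (h.trans (by norm_num)) (by norm_num)
  have hm := card_sylow_mod (G := G) 19
  have hne := card_sylow_ne_one hG h19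
  obtain ⟨P⟩ : Nonempty (Sylow 19 G) := inferInstance
  have hP : Nat.card (P : Subgroup G) = 19 := by
    simpa using card_sylow_subgroup (k := 1) (m := 24192) (h.trans (by norm_num)) (by norm_num) P
  have hNn := card_normalizer_mul_card_sylow P
  rw [h] at hNn
  have hidx : (normalizer ((P : Subgroup G) : Set G)).index = Nat.card (Sylow 19 G) :=
    (P.card_eq_index_normalizer).symm
  obtain ⟨r, hr1, hr18, hCr, hC19⟩ := sylow_prime_centralizer hG P hP
  rcases key1 _ (Nat.mem_divisors.mpr ⟨hd, by norm_num⟩) hm hne with hn | hn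
  · -- n = 96, |N| = 4788: an element of order 7 in C(P)
    rw [hn] at hNn
    have hN : Nat.card (normalizer ((P : Subgroup G) : Set G)) = 4788 := by omega
    have h7 : 7 ∣ Nat.card (centralizer ((P : Subgroup G) : Set G)) := by
      rw [hN] at hCr
      have h7' : 7 ∣ Nat.card (centralizer ((P : Subgroup G) : Set G)) * r := by
        rw [hCr]
        norm_num
      rcases (Nat.Prime.dvd_mul (by norm_num : Nat.Prime 7)).mp h7' with h0 | h0
      · exact h0
      · exfalso
        have h18 : r ∣ 18 := hr18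
        have h718 : 7 ∣ 18 := Nat.dvd_trans h0 h18
        omega
    obtain ⟨y, hyC, hy⟩ := exists_mem_orderOf_eq_prime _ 7 h7
    have hy1 : y ≠ 1 := by
      rintro rfl
      rw [orderOf_one] at hy
      omega
    have h1 := card_fixedBy_mod_of_mem_centralizer P hP y hyC
    have hy7 : y ^ (7 ^ 1) = 1 := by
      rw [pow_one, ← hy]
      exact pow_orderOf_eq_one y
    have h2 := card_modEq_card_fixedBy (X := G ⧸ normalizer ((P : Subgroup G) : Set G)) y hy7
    have h3 := card_fixedBy_lt_index _ (normalizer_sylow_ne_top hG h19 P) y hy1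
    have hX : Nat.card (G ⧸ normalizer ((P : Subgroup G) : Set G)) = 96 := hidx.trans hn
    rw [hidx, hn] at h3
    rw [hX, Nat.ModEq] at h2
    omega
  · -- n = 1008, |N| = 456
    rw [hn] at hNn
    have hN : Nat.card (normalizer ((P : Subgroup G) : Set G)) = 456 := by omega
    obtain ⟨hC, hbig⟩ := Cfsg.Agent.Lib.Helper69.O459b.big_centralizer hG h P hP hN
    exact Cfsg.Agent.Lib.Helper82.O459648.final_contra h P hC hbig

end Cfsg.Agent.S1022
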