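import Cfsg.Statements.S1030
import Cfsg.Agent.Lib.Helper19.SL2Chev
import Cfsg.Agent.Lib.Helper19.NegRows
import Cfsg.Agent.Lib.Helper18.All2
import Cfsg.Agent.Lib.Helper36.ChevAll
import Cfsg.Agent.S1023

set_option autoImplicit false
open Cfsg

namespace Cfsg.Agent.S1030

/-- There is a homomorphism `SL₂(F) → GL` with image `⟨X_r, X_{-r}⟩` sending `[[1,t],[0,1]]` to `x_r(t)` and `[[1,0],[t,1]]` to `x_{-r}(t)`. -/
theorem result {F : Type*} [Field F] (D : Cfsg.Lie.ChevalleyDatum) (hD : D ∈ [Cfsg.Lie.chevG2, Cfsg.Lie.chevB2, Cfsg.Lie.chevD4, Cfsg.Lie.chevF4, Cfsg.Lie.chevE6, Cfsg.Lie.chevE7, Cfsg.Lie.chevE8]) (r : ℕ) (hr : r < D.nroots) :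
    ∃ φ : Matrix.SpecialLinearGroup (Fin 2) F →* GL D.Idx F,
      φ.range = D.rootSubgroup F r ⊔ D.rootSubgroup F (D.neg r) ∧
      ∀ (g : Matrix.SpecialLinearGroup (Fin 2) F) (t : F),
        ((g : Matrix (Fin 2) (Fin 2) F) = !![1, t; 0, 1] → ((φ g : GL D.Idx F) : Matrix D.Idx D.Idx F) = D.x F r t) ∧
        ((g : Matrix (Fin 2) (Fin 2) F) = !![1, 0; t, 1] → ((φ g : GL D.Idx F) : Matrix D.Idx D.Idx F) = D.x F (D.neg r) t) := by
  obtain ⟨A, hF⟩ := Cfsg.Agent.Lib.Helper18.All2.exists_afacts D hD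
  exact Cfsg.Agent.Lib.Helper19.SL2Chev.exists_hom hF
    (Cfsg.Agent.Lib.Helper36.ChevAll.weylData D hD)
    (fun q hq t u => Cfsg.Agent.S1023.result D hD q hq t u)
    (fun i hi s hs => (Cfsg.Agent.Lib.Helper19.NegRows.refl_neg D hD i hi s hs).1) r hr

end Cfsg.Agent.S1030
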