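-- Statement S1034: normal form of the elements of the diagonal subgroup H.
import Cfsg.Statements.S1034
import Cfsg.Agent.Lib.Helper18.All2
import Cfsg.Agent.Lib.Helper18.Torus

set_option autoImplicit false
open Cfsg

namespace Cfsg.Agent.S1034

theorem result {F : Type*} [Field F] (D : Cfsg.Lie.ChevalleyDatum) (hD : D ∈ [Cfsg.Lie.chevG2, Cfsg.Lie.chevB2, Cfsg.Lie.chevD4, Cfsg.Lie.chevF4, Cfsg.Lie.chevE6, Cfsg.Lie.chevE7, Cfsg.Lie.chevE8]) (g : GL D.Idx F) (hg : g ∈ D.diagonalSubgroup F) :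
    ∃ c : ℕ → F, (∀ i < D.rank, c i ≠ 0) ∧
      (g : Matrix D.Idx D.Idx F) = D.wordMat F ((List.range D.rank).flatMap fun i => D.hWord (D.simple i) (c i)) := by
  obtain ⟨A, hF⟩ := Cfsg.Agent.Lib.Helper18.All2.exists_afacts D hD
  obtain ⟨c, hc, e⟩ := Cfsg.Agent.Lib.Helper18.Torus.exists_tor_of_mem hF g hg
  exact ⟨c, fun i _ => hc i, by
    rw [e, Cfsg.Agent.Lib.Helper18.Torus.wordMat_simple_eq_tor hF c (fun i _ => hc i)]⟩

end Cfsg.Agent.S1034
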