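-- Statement S1040: U ⊓ N = 1 and B ⊓ N = H.
import Cfsg.Statements.S1040
import Cfsg.Agent.Lib.Helper18.PAll
import Cfsg.Agent.Lib.Helper18.Mono

set_option autoImplicit false
open Cfsg

namespace Cfsg.Agent.S1040

theorem result {F : Type*} [Field F] (D : Cfsg.Lie.ChevalleyDatum) (hD : D ∈ [Cfsg.Lie.chevG2, Cfsg.Lie.chevB2, Cfsg.Lie.chevD4, Cfsg.Lie.chevF4, Cfsg.Lie.chevE6, Cfsg.Lie.chevE7, Cfsg.Lie.chevE8]) :
    D.posUnipotent F ⊓ D.monomialSubgroup F = ⊥ ∧ D.borelSubgroup F ⊓ D.monomialSubgroup F = D.diagonalSubgroup F := by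
  obtain ⟨A, w, hF, hw⟩ := Cfsg.Agent.Lib.Helper18.PAll.exists_pfacts D hD
  exact ⟨Cfsg.Agent.Lib.Helper18.Mono.posUnipotent_inf_monomial hF hw,
    Cfsg.Agent.Lib.Helper18.Mono.borel_inf_monomial hF hw⟩

end Cfsg.Agent.S1040
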