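import Cfsg.Statements.S1046
import Cfsg.Agent.Lib.Helper18.CAll
import Cfsg.Agent.Lib.Helper18.Conj
import Cfsg.Agent.S1023
import Cfsg.Agent.S1024

set_option autoImplicit false
open Cfsg

namespace Cfsg.Agent.S1046

/-- Two elements of `H` conjugate in the Chevalley group are conjugate by an element of `N`. -/
theorem result {F : Type*} [Field F] (D : Cfsg.Lie.ChevalleyDatum) (hD : D ∈ [Cfsg.Lie.chevG2, Cfsg.Lie.chevB2, Cfsg.Lie.chevD4, Cfsg.Lie.chevF4, Cfsg.Lie.chevE6, Cfsg.Lie.chevE7, Cfsg.Lie.chevE8]) (h₁ h₂ g : GL D.Idx F) (h1 : h₁ ∈ D.diagonalSubgroup F) (h2 : h₂ ∈ D.diagonalSubgroup F)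
    (hg : g ∈ D.group F) (hc : g * h₁ * g⁻¹ = h₂) :
    ∃ n ∈ D.monomialSubgroup F, n * h₁ * n⁻¹ = h₂ := by
  obtain ⟨A, X, m, w, hC⟩ := Cfsg.Agent.Lib.Helper18.CAll.exists_cfacts D hD
  exact Cfsg.Agent.Lib.Helper18.Conj.conj_in_N hC
    (fun r hr t u => Cfsg.Agent.S1023.result D hD r hr t u)
    (fun r hr t h => (Cfsg.Agent.S1024.result D hD r hr t).mp h) h1 h2 hg hc

end Cfsg.Agent.S1046
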