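import Cfsg.Statements.S1049
import Cfsg.Agent.Lib.Helper18.ParAll
import Cfsg.Agent.S1023
import Cfsg.Agent.S1024

set_option autoImplicit false
open Cfsg

namespace Cfsg.Agent.S1049

/-- `N_G(U_J) = P_J`: the normaliser of `U_J` inside the Chevalley group is the standard parabolic subgroup. -/
theorem result {F : Type*} [Field F] (D : Cfsg.Lie.ChevalleyDatum) (hD : D ∈ [Cfsg.Lie.chevG2, Cfsg.Lie.chevB2, Cfsg.Lie.chevD4, Cfsg.Lie.chevF4, Cfsg.Lie.chevE6, Cfsg.Lie.chevE7, Cfsg.Lie.chevE8]) (J : Set ℕ) (hJ : ∀ j ∈ J, j < D.rank) :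
    Subgroup.normalizer (D.unipotentRadical F J : Set (GL D.Idx F)) ⊓ D.group F = D.parabolicSubgroup F J := by
  obtain ⟨A, X, m, w, w', N, ord, rnk, bz, c, fw, hC, hR, hU, hn, hDs, hJf⟩ :=
    Cfsg.Agent.Lib.Helper18.ParAll.exists_pfacts D hD
  have hadd : ∀ r < D.nroots, ∀ t u : F, D.x F r t * D.x F r u = D.x F r (t + u) :=
    fun r hr t u => Cfsg.Agent.S1023.result D hD r hr t u
  have hinj : ∀ r < D.nroots, ∀ t : F, D.x F r t = 1 → t = 0 :=
    fun r hr t h => (Cfsg.Agent.S1024.result D hD r hr t).mp h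
  exact Cfsg.Agent.Lib.Helper18.Par4.normalizer_rad hC hR hU hn hDs hJf hadd hinj J

end Cfsg.Agent.S1049
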