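import Cfsg.Statements.S1051
import Cfsg.Agent.Lib.Helper18.LAll
import Cfsg.Agent.Lib.Helper18.Core
import Cfsg.Agent.S1023
import Cfsg.Agent.S1024

set_option autoImplicit false
open Cfsg

namespace Cfsg.Agent.S1051

/-- `⋂_g g B g⁻¹ = 1`: the normal core of `B` in the Chevalley group is trivial. -/
theorem result {F : Type*} [Field F] (D : Cfsg.Lie.ChevalleyDatum) (hD : D ∈ [Cfsg.Lie.chevG2, Cfsg.Lie.chevB2, Cfsg.Lie.chevD4, Cfsg.Lie.chevF4, Cfsg.Lie.chevE6, Cfsg.Lie.chevE7, Cfsg.Lie.chevE8]) : ((D.borelSubgroup F).subgroupOf (D.group F)).normalCore = ⊥ := by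
  obtain ⟨A, X, m, w, small, wd, par, dep, wit, hC, hQ, hsm, hL, hI⟩ :=
    Cfsg.Agent.Lib.Helper18.LAll.exists_lfacts D hD
  exact Cfsg.Agent.Lib.Helper18.Core.core_eq_bot hC
    (fun r hr t u => Cfsg.Agent.S1023.result D hD r hr t u)
    (fun r hr t h => (Cfsg.Agent.S1024.result D hD r hr t).mp h) hL

end Cfsg.Agent.S1051
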