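import Cfsg.Statements.S1061
import Cfsg.Agent.Lib.Helper18.ChainAll
import Cfsg.Agent.S1023
import Cfsg.Agent.S1024
import Cfsg.Agent.S1035

set_option autoImplicit false
open Cfsg

namespace Cfsg.Agent.S1061

/-- `gcd(2, q-1)² · |D₄(q)| = q¹² (q² - 1)(q⁴ - 1)(q⁴ - 1)(q⁶ - 1)`. -/
theorem result {F : Type*} [Field F] [Fintype F] {q : ℕ} (hq : Fintype.card F = q) : Nat.gcd 2 (q - 1) ^ 2 * Nat.card ↥(Cfsg.Lie.chevD4.group F) = q ^ 12 * (q ^ 2 - 1) * (q ^ 4 - 1) * (q ^ 4 - 1) * (q ^ 6 - 1) := by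
  subst hq
  have hD : Cfsg.Lie.chevD4 ∈ [Cfsg.Lie.chevG2, Cfsg.Lie.chevB2, Cfsg.Lie.chevD4, Cfsg.Lie.chevF4,
      Cfsg.Lie.chevE6, Cfsg.Lie.chevE7, Cfsg.Lie.chevE8] := by simp
  have h := Cfsg.Agent.Lib.Helper18.Chain.card_final (F := F) Cfsg.Agent.Lib.Helper18.CAll.cfD4
    Cfsg.Agent.Lib.Helper18.ChainAll.rD4 Cfsg.Agent.Lib.Helper18.UAll.uD4 (by decide)
    (fun r hr t u => Cfsg.Agent.S1023.result _ hD r hr t u)
    (fun r hr t h => (Cfsg.Agent.S1024.result _ hD r hr t).mp h)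
    Cfsg.Agent.Lib.Helper18.ChainAll.stepsD4 Cfsg.Agent.Lib.Helper18.ChainAll.chainD4_ok
  have hH := Cfsg.Agent.S1035.result (F := F) rfl (Cfsg.Lie.chevD4, Nat.gcd 2 (Fintype.card F - 1) ^ 2) (by simp)
  have hq1 : 1 ≤ Fintype.card F := Fintype.card_pos
  have hfin := Cfsg.Agent.Lib.Helper18.Chain.finish h hH
    Cfsg.Agent.Lib.Helper18.ChainAll.polyD4_ok rfl hq1
  simp only [List.map_cons, List.map_nil, List.prod_cons, List.prod_nil, mul_one, one_mul] at hfin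
  rw [hfin]
  ring

end Cfsg.Agent.S1061
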