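import Cfsg.Statements.S1104
import Cfsg.Agent.Lib.Helper19.TwPerf
import Cfsg.Agent.Lib.Helper18.CAll
import Cfsg.Agent.Lib.Helper36.ChevTabE6

set_option autoImplicit false
set_option linter.unusedSimpArgs false
open Cfsg

namespace Cfsg.Agent.S1104

open Cfsg.Lie Cfsg.Agent.Lib.Helper18 Cfsg.Agent.Lib.Helper18.BNPairC
  Cfsg.Agent.Lib.Helper36 Cfsg.Agent.Lib.Helper36.ChevEngine Cfsg.Agent.Lib.Helper36.ChevSound
  Cfsg.Agent.Lib.Helper19.TwCore Cfsg.Agent.Lib.Helper19.TwEngine Cfsg.Agent.Lib.Helper19.TwGlue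
  Cfsg.Agent.Lib.Helper19.TwPerf

variable {K : Type*} [Field K]

/-- the word of `n_{p₂}` -/
def nA (K : Type*) [Field K] : List (ℕ × K) := [(46, 1), (25, -1), (46, 1)]
/-- the word of `n_{p₄}` -/
def nB (K : Type*) [Field K] : List (ℕ × K) := [(39, 1), (32, -1), (39, 1)]
/-- the word of `n_{p₃} n_{p₅}` -/
def nC (K : Type*) [Field K] : List (ℕ × K) :=
  [(42, 1), (37, 1), (29, -1), (34, -1), (42, 1), (37, 1)]
/-- the word of `n_{p₁} n_{p₆}` -/
def nE (K : Type*) [Field K] : List (ℕ × K) :=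
  [(56, 1), (36, 1), (15, -1), (35, -1), (56, 1), (36, 1)]

/-! ### The word identities (roots: `43 = p₃+p₄`, `40 = p₄+p₅`, `44 = p₃+p₄+p₅`, `57 = p₁+p₃`,
`38 = p₅+p₆`) -/

def sL1 : SWord := [(39, cst 1), (32, cst (-1)), (39, cst 1), (42, pt 1), (37, pv 1)]
def sR1 : SWord := [(43, pt 1), (40, pv (-1)), (39, cst 1), (32, cst (-1)), (39, cst 1)]
set_option maxRecDepth 100000 in
theorem chk1 : checkRel ChevTabE6.tab chevE6.rank chevE6.nroots sL1 sR1 = true := by
  decide +kernel

theorem I1 (t v : K) : chevE6.wordMat K (nB K ++ [(42, t), (37, v)]) =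
    chevE6.wordMat K ([(43, t), (40, -v)] ++ nB K) := by
  have h := checkRel_sound (F := K) chevE6 ChevTabE6.tab ChevTabE6.tok sL1 sR1 chk1 t 0 v
  simp only [sL1, sR1, evalWord_cons, evalWord_nil, evalParam_cst, evalParam_pt, evalParam_pu,
    evalParam_pv, evalParam_ptu, evalParam_ptv, evalParam_puv, evalParam_ptuuv, Int.cast_one,
    Int.cast_neg, one_mul, neg_mul] at h
  exact h

def sL2 : SWord := [(42, pt 1), (37, pv 1), (43, pu 1), (40, pu (-1))]
def sR2 : SWord := [(44, ptuuv), (43, pu 1), (40, pu (-1)), (42, pt 1), (37, pv 1)]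
set_option maxRecDepth 100000 in
theorem chk2 : checkRel ChevTabE6.tab chevE6.rank chevE6.nroots sL2 sR2 = true := by
  decide +kernel

theorem I2 (t u v : K) : chevE6.wordMat K ([(42, t), (37, v)] ++ [(43, u), (40, -u)]) =
    chevE6.wordMat K ([(44, t * u + u * v)] ++ [(43, u), (40, -u)] ++ [(42, t), (37, v)]) := by
  have h := checkRel_sound (F := K) chevE6 ChevTabE6.tab ChevTabE6.tok sL2 sR2 chk2 t u v
  simp only [sL2, sR2, evalWord_cons, evalWord_nil, evalParam_cst, evalParam_pt, evalParam_pu,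
    evalParam_pv, evalParam_ptu, evalParam_ptv, evalParam_puv, evalParam_ptuuv, Int.cast_one,
    Int.cast_neg, one_mul, neg_mul] at h
  exact h

def sL3 : SWord := [(42, cst 1), (37, cst 1), (29, cst (-1)), (34, cst (-1)), (42, cst 1),
  (37, cst 1), (44, pt 1)]
def sR3 : SWord := [(39, pt (-1)), (42, cst 1), (37, cst 1), (29, cst (-1)), (34, cst (-1)),
  (42, cst 1), (37, cst 1)]
set_option maxRecDepth 100000 in
theorem chk3 : checkRel ChevTabE6.tab chevE6.rank chevE6.nroots sL3 sR3 = true := by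
  decide +kernel

theorem I3 (t : K) : chevE6.wordMat K (nC K ++ [(44, t)]) =
    chevE6.wordMat K ([(39, -t)] ++ nC K) := by
  have h := checkRel_sound (F := K) chevE6 ChevTabE6.tab ChevTabE6.tok sL3 sR3 chk3 t 0 0
  simp only [sL3, sR3, evalWord_cons, evalWord_nil, evalParam_cst, evalParam_pt, evalParam_pu,
    evalParam_pv, evalParam_ptu, evalParam_ptv, evalParam_puv, evalParam_ptuuv, Int.cast_one,
    Int.cast_neg, one_mul, neg_mul] at h
  exact h

def sL4 : SWord := [(39, cst 1), (32, cst (-1)), (39, cst 1), (39, pt 1)]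
def sR4 : SWord := [(32, pt (-1)), (39, cst 1), (32, cst (-1)), (39, cst 1)]
set_option maxRecDepth 100000 in
theorem chk4 : checkRel ChevTabE6.tab chevE6.rank chevE6.nroots sL4 sR4 = true := by
  decide +kernel

theorem I4 (t : K) : chevE6.wordMat K (nB K ++ [(39, t)]) =
    chevE6.wordMat K ([(32, -t)] ++ nB K) := by
  have h := checkRel_sound (F := K) chevE6 ChevTabE6.tab ChevTabE6.tok sL4 sR4 chk4 t 0 0
  simp only [sL4, sR4, evalWord_cons, evalWord_nil, evalParam_cst, evalParam_pt, evalParam_pu,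
    evalParam_pv, evalParam_ptu, evalParam_ptv, evalParam_puv, evalParam_ptuuv, Int.cast_one,
    Int.cast_neg, one_mul, neg_mul] at h
  exact h

def sL5 : SWord := [(39, cst 1), (32, cst (-1)), (39, cst 1), (46, cst 1), (25, cst (-1)),
  (46, cst 1), (39, pt 1)]
def sR5 : SWord := [(46, pt 1), (39, cst 1), (32, cst (-1)), (39, cst 1), (46, cst 1),
  (25, cst (-1)), (46, cst 1)]
set_option maxRecDepth 100000 in
theorem chk5 : checkRel ChevTabE6.tab chevE6.rank chevE6.nroots sL5 sR5 = true := by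
  decide +kernel

theorem I5 (t : K) : chevE6.wordMat K ((nB K ++ nA K) ++ [(39, t)]) =
    chevE6.wordMat K ([(46, t)] ++ (nB K ++ nA K)) := by
  have h := checkRel_sound (F := K) chevE6 ChevTabE6.tab ChevTabE6.tok sL5 sR5 chk5 t 0 0
  simp only [sL5, sR5, evalWord_cons, evalWord_nil, evalParam_cst, evalParam_pt, evalParam_pu,
    evalParam_pv, evalParam_ptu, evalParam_ptv, evalParam_puv, evalParam_ptuuv, Int.cast_one,
    Int.cast_neg, one_mul, neg_mul] at h
  exact h

def sL6 : SWord := [(46, cst 1), (25, cst (-1)), (46, cst 1), (46, pt 1)]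
def sR6 : SWord := [(25, pt (-1)), (46, cst 1), (25, cst (-1)), (46, cst 1)]
set_option maxRecDepth 100000 in
theorem chk6 : checkRel ChevTabE6.tab chevE6.rank chevE6.nroots sL6 sR6 = true := by
  decide +kernel

theorem I6 (t : K) : chevE6.wordMat K (nA K ++ [(46, t)]) =
    chevE6.wordMat K ([(25, -t)] ++ nA K) := by
  have h := checkRel_sound (F := K) chevE6 ChevTabE6.tab ChevTabE6.tok sL6 sR6 chk6 t 0 0
  simp only [sL6, sR6, evalWord_cons, evalWord_nil, evalParam_cst, evalParam_pt, evalParam_pu,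
    evalParam_pv, evalParam_ptu, evalParam_ptv, evalParam_puv, evalParam_ptuuv, Int.cast_one,
    Int.cast_neg, one_mul, neg_mul] at h
  exact h

def sL7 : SWord := [(39, cst 1), (42, pt 1), (37, pv 1)]
def sR7 : SWord := [(43, pt 1), (40, pv (-1)), (44, ptv 1), (42, pt 1), (37, pv 1), (39, cst 1)]
set_option maxRecDepth 100000 in
theorem chk7 : checkRel ChevTabE6.tab chevE6.rank chevE6.nroots sL7 sR7 = true := by
  decide +kernel

theorem I7 (t v : K) : chevE6.wordMat K ([(39, 1)] ++ [(42, t), (37, v)]) =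
    chevE6.wordMat K (([(43, t), (40, -v)] ++ [(44, t * v)]) ++ [(42, t), (37, v)] ++
      [(39, 1)]) := by
  have h := checkRel_sound (F := K) chevE6 ChevTabE6.tab ChevTabE6.tok sL7 sR7 chk7 t 0 v
  simp only [sL7, sR7, evalWord_cons, evalWord_nil, evalParam_cst, evalParam_pt, evalParam_pu,
    evalParam_pv, evalParam_ptu, evalParam_ptv, evalParam_puv, evalParam_ptuuv, Int.cast_one,
    Int.cast_neg, one_mul, neg_mul] at h
  exact h

def sL8 : SWord := [(42, cst 1), (37, cst 1), (29, cst (-1)), (34, cst (-1)), (42, cst 1),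
  (37, cst 1), (42, pt 1), (37, pv 1)]
def sR8 : SWord := [(29, pt (-1)), (34, pv (-1)), (42, cst 1), (37, cst 1), (29, cst (-1)),
  (34, cst (-1)), (42, cst 1), (37, cst 1)]
set_option maxRecDepth 100000 in
theorem chk8 : checkRel ChevTabE6.tab chevE6.rank chevE6.nroots sL8 sR8 = true := by
  decide +kernel

theorem I8 (t v : K) : chevE6.wordMat K (nC K ++ [(42, t), (37, v)]) =
    chevE6.wordMat K ([(29, -t), (34, -v)] ++ nC K) := by
  have h := checkRel_sound (F := K) chevE6 ChevTabE6.tab ChevTabE6.tok sL8 sR8 chk8 t 0 v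
  simp only [sL8, sR8, evalWord_cons, evalWord_nil, evalParam_cst, evalParam_pt, evalParam_pu,
    evalParam_pv, evalParam_ptu, evalParam_ptv, evalParam_puv, evalParam_ptuuv, Int.cast_one,
    Int.cast_neg, one_mul, neg_mul] at h
  exact h

def sL9 : SWord := [(42, pt 1), (37, pv 1), (56, cst 1), (36, cst 1)]
def sR9 : SWord := [(57, pt 1), (38, pv (-1)), (56, cst 1), (36, cst 1), (42, pt 1), (37, pv 1)]
set_option maxRecDepth 100000 in
theorem chk9 : checkRel ChevTabE6.tab chevE6.rank chevE6.nroots sL9 sR9 = true := by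
  decide +kernel

theorem I9 (t v : K) : chevE6.wordMat K ([(42, t), (37, v)] ++ [(56, 1), (36, 1)]) =
    chevE6.wordMat K ([(57, t), (38, -v)] ++ [(56, 1), (36, 1)] ++ [(42, t), (37, v)]) := by
  have h := checkRel_sound (F := K) chevE6 ChevTabE6.tab ChevTabE6.tok sL9 sR9 chk9 t 0 v
  simp only [sL9, sR9, evalWord_cons, evalWord_nil, evalParam_cst, evalParam_pt, evalParam_pu,
    evalParam_pv, evalParam_ptu, evalParam_ptv, evalParam_puv, evalParam_ptuuv, Int.cast_one,
    Int.cast_neg, one_mul, neg_mul] at h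
  exact h

def sL10 : SWord := [(42, cst 1), (37, cst 1), (29, cst (-1)), (34, cst (-1)), (42, cst 1),
  (37, cst 1), (57, pt 1), (38, pv (-1))]
def sR10 : SWord := [(56, pt (-1)), (36, pv (-1)), (42, cst 1), (37, cst 1), (29, cst (-1)),
  (34, cst (-1)), (42, cst 1), (37, cst 1)]
set_option maxRecDepth 100000 in
theorem chk10 : checkRel ChevTabE6.tab chevE6.rank chevE6.nroots sL10 sR10 = true := by
  decide +kernel

theorem I10 (t v : K) : chevE6.wordMat K (nC K ++ [(57, t), (38, -v)]) =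
    chevE6.wordMat K ([(56, -t), (36, -v)] ++ nC K) := by
  have h := checkRel_sound (F := K) chevE6 ChevTabE6.tab ChevTabE6.tok sL10 sR10 chk10 t 0 v
  simp only [sL10, sR10, evalWord_cons, evalWord_nil, evalParam_cst, evalParam_pt, evalParam_pu,
    evalParam_pv, evalParam_ptu, evalParam_ptv, evalParam_puv, evalParam_ptuuv, Int.cast_one,
    Int.cast_neg, one_mul, neg_mul] at h
  exact h

def sL11 : SWord := [(56, cst 1), (36, cst 1), (15, cst (-1)), (35, cst (-1)), (56, cst 1),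
  (36, cst 1), (56, pt 1), (36, pv 1)]
def sR11 : SWord := [(15, pt (-1)), (35, pv (-1)), (56, cst 1), (36, cst 1), (15, cst (-1)),
  (35, cst (-1)), (56, cst 1), (36, cst 1)]
set_option maxRecDepth 100000 in
theorem chk11 : checkRel ChevTabE6.tab chevE6.rank chevE6.nroots sL11 sR11 = true := by
  decide +kernel

theorem I11 (t v : K) : chevE6.wordMat K (nE K ++ [(56, t), (36, v)]) =
    chevE6.wordMat K ([(15, -t), (35, -v)] ++ nE K) := by
  have h := checkRel_sound (F := K) chevE6 ChevTabE6.tab ChevTabE6.tok sL11 sR11 chk11 t 0 v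
  simp only [sL11, sR11, evalWord_cons, evalWord_nil, evalParam_cst, evalParam_pt, evalParam_pu,
    evalParam_pv, evalParam_ptu, evalParam_ptv, evalParam_puv, evalParam_ptuuv, Int.cast_one,
    Int.cast_neg, one_mul, neg_mul] at h
  exact h

/-- The twisted group ²E₆(q) is perfect. -/
theorem result {K : Type*} [Field K] [Fintype K] {q : ℕ} (hq : IsPrimePow q) (hK : Fintype.card K = q ^ 2) : commutator ↥(Cfsg.Lie.twistedE6 K q) = ⊤ := by
  have hF := CAll.cfE6.af
  have hq2 : 2 ≤ q := hq.two_le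
  have hneg : (-1 : K) ^ q = -1 := neg_one_pow_of_card (n := 2) (by norm_num) hK
  have hfrob : ∀ x y : K, (x + y) ^ q = x ^ q + y ^ q := frob_add (n := 2) (by norm_num) hK
  have hpow : ∀ t : K, (t ^ q) ^ q = t := by
    intro t
    rw [← pow_mul, ← pow_two]
    exact pow_card_pow hK t
  have hnegp : ∀ t : K, (-t) ^ q = -(t ^ q) := by
    intro t
    rw [neg_pow, hneg]
    ring
  show commutator ↥(chevE6.genSubgroup K (e6Words K q)) = ⊤
  set S := e6Words K q with hS
  set G := chevE6.genSubgroup K S with hG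
  -- generators
  have ga : ∀ s : K, s ^ q = s → wU hF [(46, s)] ∈ G := fun s hs =>
    wU_mem_gen hF S (Or.inl ⟨s, hs, e6p2, by simp, rfl⟩)
  have gam : ∀ s : K, s ^ q = s → wU hF [(25, s)] ∈ G := fun s hs =>
    wU_mem_gen hF S (Or.inl ⟨s, hs, e6m2, by simp, rfl⟩)
  have gb : ∀ s : K, s ^ q = s → wU hF [(39, s)] ∈ G := fun s hs =>
    wU_mem_gen hF S (Or.inl ⟨s, hs, e6p4, by simp, rfl⟩)
  have gbm : ∀ s : K, s ^ q = s → wU hF [(32, s)] ∈ G := fun s hs =>
    wU_mem_gen hF S (Or.inl ⟨s, hs, e6m4, by simp, rfl⟩)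
  have gc : ∀ t v : K, v = t ^ q → wU hF [(42, t), (37, v)] ∈ G := by
    intro t v hv
    subst hv
    exact wU_mem_gen hF S (Or.inr ⟨t, (e6p3, e6p5), by simp, rfl⟩)
  have gcm : ∀ t v : K, v = t ^ q → wU hF [(29, t), (34, v)] ∈ G := by
    intro t v hv
    subst hv
    exact wU_mem_gen hF S (Or.inr ⟨t, (e6m3, e6m5), by simp, rfl⟩)
  have ge : ∀ t v : K, v = t ^ q → wU hF [(56, t), (36, v)] ∈ G := by
    intro t v hv
    subst hv
    exact wU_mem_gen hF S (Or.inr ⟨t, (e6p1, e6p6), by simp, rfl⟩)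
  have gem : ∀ t v : K, v = t ^ q → wU hF [(15, t), (35, v)] ∈ G := by
    intro t v hv
    subst hv
    exact wU_mem_gen hF S (Or.inr ⟨t, (e6m1, e6m6), by simp, rfl⟩)
  have h1q : (1 : K) ^ q = 1 := one_pow q
  have hnA : wU hF (nA K) ∈ G := by
    have e : nA K = [(46, 1)] ++ [(25, -1)] ++ [(46, 1)] := rfl
    rw [e, wU_append, wU_append]
    exact Subgroup.mul_mem _ (Subgroup.mul_mem _ (ga 1 h1q) (gam (-1) hneg)) (ga 1 h1q)
  have hnB : wU hF (nB K) ∈ G := by
    have e : nB K = [(39, 1)] ++ [(32, -1)] ++ [(39, 1)] := rfl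
    rw [e, wU_append, wU_append]
    exact Subgroup.mul_mem _ (Subgroup.mul_mem _ (gb 1 h1q) (gbm (-1) hneg)) (gb 1 h1q)
  have hnC : wU hF (nC K) ∈ G := by
    have e : nC K = [(42, 1), (37, 1)] ++ [(29, -1), (34, -1)] ++ [(42, 1), (37, 1)] := rfl
    rw [e, wU_append, wU_append]
    exact Subgroup.mul_mem _ (Subgroup.mul_mem _ (gc 1 1 h1q.symm) (gcm (-1) (-1) hneg.symm))
      (gc 1 1 h1q.symm)
  have hnE : wU hF (nE K) ∈ G := by
    have e : nE K = [(56, 1), (36, 1)] ++ [(15, -1), (35, -1)] ++ [(56, 1), (36, 1)] := rfl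
    rw [e, wU_append, wU_append]
    exact Subgroup.mul_mem _ (Subgroup.mul_mem _ (ge 1 1 h1q.symm) (gem (-1) (-1) hneg.symm))
      (ge 1 1 h1q.symm)
  -- the root element of `p₃+p₄+p₅`
  have hd : ∀ u : K, u ^ q = u → wU hF [(43, u), (40, -u)] ∈ G := fun u hu =>
    step_conj_mem hF G (I1 u u) hnB (gc u u hu.symm)
  have hf1 : ∀ t u : K, u ^ q = u → wU hF [(44, t * u + u * t ^ q)] ∈ Cm G := fun t u hu =>
    step_comm hF G (I2 t u (t ^ q)) (gc t (t ^ q) rfl) (hd u hu)
  obtain ⟨t₀, ht₀⟩ : ∃ t₀ : K, t₀ + t₀ ^ q ≠ 0 := by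
    have hP : (Polynomial.X + Polynomial.X ^ q : Polynomial K) ≠ 0 := by
      intro h
      have h1 := congrArg (fun P : Polynomial K => P.coeff 1) h
      have hq1 : ¬ (1 = q) := by omega
      simp only [Polynomial.coeff_add, Polynomial.coeff_X_one, Polynomial.coeff_X_pow, hq1,
        if_false, add_zero, Polynomial.coeff_zero] at h1
      exact one_ne_zero h1
    have hdeg : (Polynomial.X + Polynomial.X ^ q : Polynomial K).natDegree < Fintype.card K := by
      rw [hK]
      have h1 : (Polynomial.X + Polynomial.X ^ q : Polynomial K).natDegree ≤ q := by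
        apply (Polynomial.natDegree_add_le _ _).trans
        rw [Polynomial.natDegree_X, Polynomial.natDegree_X_pow]
        omega
      have h2 : q < q ^ 2 := by
        rw [pow_two]
        nlinarith
      omega
    obtain ⟨t, ht⟩ := exists_eval_ne_zero _ hP hdeg
    exact ⟨t, by simpa using ht⟩
  have hτ : (t₀ + t₀ ^ q) ^ q = t₀ + t₀ ^ q := by
    rw [hfrob, hpow]
    ring
  have hf : ∀ s : K, s ^ q = s → wU hF [(44, s)] ∈ Cm G := by
    intro s hs
    have h := hf1 t₀ (s / (t₀ + t₀ ^ q)) (by rw [div_pow, hs, hτ])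
    have e : t₀ * (s / (t₀ + t₀ ^ q)) + s / (t₀ + t₀ ^ q) * t₀ ^ q = s := by
      field_simp
    rwa [e] at h
  -- the fixed roots
  have hb : ∀ s : K, s ^ q = s → wU hF [(39, s)] ∈ Cm G := by
    intro s hs
    have h := step_conj hF G (I3 (-s)) hnC (hf (-s) (by rw [hnegp, hs]))
    rwa [neg_neg] at h
  have hbm : ∀ s : K, s ^ q = s → wU hF [(32, s)] ∈ Cm G := by
    intro s hs
    have h := step_conj hF G (I4 (-s)) hnB (hb (-s) (by rw [hnegp, hs]))
    rwa [neg_neg] at h
  have ha : ∀ s : K, s ^ q = s → wU hF [(46, s)] ∈ Cm G := by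
    intro s hs
    have hn : wU hF (nB K ++ nA K) ∈ G := by
      rw [wU_append]
      exact Subgroup.mul_mem _ hnB hnA
    exact step_conj hF G (I5 s) hn (hb s hs)
  have ham : ∀ s : K, s ^ q = s → wU hF [(25, s)] ∈ Cm G := by
    intro s hs
    have h := step_conj hF G (I6 (-s)) hnA (ha (-s) (by rw [hnegp, hs]))
    rwa [neg_neg] at h
  -- the pairs
  have hc : ∀ t : K, wU hF [(42, t), (37, t ^ q)] ∈ Cm G := by
    intro t
    have h1 := step_comm hF G (I7 t (t ^ q)) (gb 1 h1q) (gc t (t ^ q) rfl)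
    have h2 : wU hF [(44, t * t ^ q)] ∈ Cm G := hf _ (by rw [mul_pow, hpow, mul_comm])
    have h3 := step_left hF G h1 h2
    exact step_conj_inv hF G (I1 t (t ^ q)) hnB h3
  have hcm : ∀ t : K, wU hF [(29, t), (34, t ^ q)] ∈ Cm G := by
    intro t
    have h := step_conj hF G (I8 (-t) ((-t) ^ q)) hnC (hc (-t))
    rwa [neg_neg, hnegp, neg_neg] at h
  have he : ∀ t : K, wU hF [(56, t), (36, t ^ q)] ∈ Cm G := by
    intro t
    have h1 := step_comm hF G (I9 (-t) ((-t) ^ q)) (gc (-t) ((-t) ^ q) rfl) (ge 1 1 h1q.symm)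
    have h2 := step_conj hF G (I10 (-t) ((-t) ^ q)) hnC h1
    rwa [neg_neg, hnegp, neg_neg] at h2
  have hem : ∀ t : K, wU hF [(15, t), (35, t ^ q)] ∈ Cm G := by
    intro t
    have h := step_conj hF G (I11 (-t) ((-t) ^ q)) hnE (he (-t))
    rwa [neg_neg, hnegp, neg_neg] at h
  apply commutator_eq_top hF S
  intro wd hwd
  rcases hwd with ⟨t, ht, r, hr, rfl⟩ | ⟨t, rs, hrs, rfl⟩
  · simp only [List.mem_cons, List.not_mem_nil, or_false] at hr
    rcases hr with rfl | rfl | rfl | rfl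
    · exact ha t ht
    · exact ham t ht
    · exact hb t ht
    · exact hbm t ht
  · simp only [List.mem_cons, List.not_mem_nil, or_false] at hrs
    rcases hrs with rfl | rfl | rfl | rfl
    · exact he t
    · exact hem t
    · exact hc t
    · exact hcm t

end Cfsg.Agent.S1104
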