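import Cfsg.Statements.S1105
import Cfsg.Agent.Lib.Helper19.TwGlue
import Cfsg.Agent.Lib.Helper18.CAll
import Cfsg.Agent.Lib.Helper18.LAll
import Cfsg.Agent.Lib.Helper18.HOrderTab
import Cfsg.Agent.Lib.Helper36.ChevTabE6

set_option autoImplicit false
set_option linter.unusedSimpArgs false
open Cfsg

namespace Cfsg.Agent.S1105

open Cfsg.Lie Cfsg.Agent.Lib.Helper18 Cfsg.Agent.Lib.Helper18.BNPairC
  Cfsg.Agent.Lib.Helper18.Long Cfsg.Agent.Lib.Helper18.HOrder Cfsg.Agent.Lib.Helper18.Loop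
  Cfsg.Agent.Lib.Helper36 Cfsg.Agent.Lib.Helper36.ChevEngine Cfsg.Agent.Lib.Helper36.ChevSound
  Cfsg.Agent.Lib.Helper19.TwCore Cfsg.Agent.Lib.Helper19.TwEngine Cfsg.Agent.Lib.Helper19.TwGlue

/-- the blocks of the word of the longest element: `w_{p₂}`, `w_{p₄}`, `w_{p₃} w_{p₅}` and
`w_{p₁} w_{p₆}`, six times -/
def blocks : List (List ℕ) :=
  [[1], [3], [2, 4], [0, 5], [1], [3], [2, 4], [0, 5], [1], [3], [2, 4], [0, 5], [1], [3], [2, 4], [0, 5], [1], [3], [2, 4], [0, 5], [1], [3], [2, 4], [0, 5]]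

def wd : List ℕ := [1, 3, 2, 4, 0, 5, 1, 3, 2, 4, 0, 5, 1, 3, 2, 4, 0, 5, 1, 3, 2, 4, 0, 5, 1, 3, 2, 4, 0, 5, 1, 3, 2, 4, 0, 5]

def wr : List ℕ := [5, 0, 4, 2, 3, 1, 5, 0, 4, 2, 3, 1, 5, 0, 4, 2, 3, 1, 5, 0, 4, 2, 3, 1, 5, 0, 4, 2, 3, 1, 5, 0, 4, 2, 3, 1]

set_option maxRecDepth 100000 in
theorem l_ok : allB 72 (chkL FTabE6.fd WTabE6.X OTabE6.m wd wr) = true := by
  decide +kernel

theorem lfacts : LFacts FTabE6.fd WTabE6.X OTabE6.m wd :=
  LFacts.of_checks (wd' := wr) (by decide) (by decide) (fun r (hr : r < 72) => allB_imp l_ok r hr)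

/-- `x_{p₂}(1)` -/
def zA : List (ℕ × ℤ) := [(46, 1)]

/-- `x_{-p₂}(-1)` -/
def zAm : List (ℕ × ℤ) := [(25, -1)]

/-- `x_{p₄}(1)` -/
def zB : List (ℕ × ℤ) := [(39, 1)]

/-- `x_{-p₄}(-1)` -/
def zBm : List (ℕ × ℤ) := [(32, -1)]

/-- `x_{p₃}(1) x_{p₅}(1)` -/
def zC : List (ℕ × ℤ) := [(42, 1), (37, 1)]

/-- `x_{-p₃}(-1) x_{-p₅}(-1)` -/
def zCm : List (ℕ × ℤ) := [(29, -1), (34, -1)]

/-- `x_{p₁}(1) x_{p₆}(1)` -/
def zE : List (ℕ × ℤ) := [(56, 1), (36, 1)]

/-- `x_{-p₁}(-1) x_{-p₆}(-1)` -/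
def zEm : List (ℕ × ℤ) := [(15, -1), (35, -1)]

/-- the test word of the fundamental root with index `j` -/
def zOf (j : ℕ) : List (ℕ × ℤ) :=
  if j = 1 then zA else if j = 3 then zB else if j = 2 ∨ j = 4 then zC else zE

set_option maxRecDepth 100000 in
theorem chk_a : checkRelP 0 ChevTabE6.tab chevE6.rank chevE6.nroots (symN chevE6 [1])
    (symC [zA, zAm, zA].flatten) = true := by decide +kernel

set_option maxRecDepth 100000 in
theorem chk_b : checkRelP 0 ChevTabE6.tab chevE6.rank chevE6.nroots (symN chevE6 [3])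
    (symC [zB, zBm, zB].flatten) = true := by decide +kernel

set_option maxRecDepth 100000 in
theorem chk_c : checkRelP 0 ChevTabE6.tab chevE6.rank chevE6.nroots (symN chevE6 [2, 4])
    (symC [zC, zCm, zC].flatten) = true := by decide +kernel

set_option maxRecDepth 100000 in
theorem chk_e : checkRelP 0 ChevTabE6.tab chevE6.rank chevE6.nroots (symN chevE6 [0, 5])
    (symC [zE, zEm, zE].flatten) = true := by decide +kernel

set_option maxRecDepth 100000 in
theorem chk_ent : ∀ j < 6, entryOK 0 ChevTabE6.tab chevE6.rank chevE6.nroots (symC (zOf j)) j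
    (chevE6.rank + chevE6.neg (chevE6.simple j)) (cst 1) = true := by decide +kernel

theorem pos_ok : ∀ j < 6, ∀ q ∈ zOf j, chevE6.IsPosRoot q.1 := by decide

/-- The normal core of `B¹ = G¹ ∩ B` in ²E₆(q) is trivial. -/
theorem result {K : Type*} [Field K] [Fintype K] {q : ℕ} (hq : IsPrimePow q) (hK : Fintype.card K = q ^ 2) :
    ((Cfsg.Lie.chevE6.borelSubgroup K ⊓ Cfsg.Lie.twistedE6 K q).subgroupOf (Cfsg.Lie.twistedE6 K q)).normalCore = ⊥ := by
  have h0 : ((0 : ℕ) : K) = 0 := by simp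
  have hneg : (-1 : K) ^ q = -1 := neg_one_pow_of_card (n := 2) (by norm_num) hK
  have hd := HOrderTab.hokE6
  rw [← FTabE6.fd_eq] at hd
  have hzA : castW K zA ∈ e6Words K q :=
    Or.inl ⟨1, one_pow q, e6p2, by simp, by simp [castW, zA, e6p2]⟩
  have hzAm : castW K zAm ∈ e6Words K q :=
    Or.inl ⟨-1, hneg, e6m2, by simp, by simp [castW, zAm, e6m2]⟩
  have hzB : castW K zB ∈ e6Words K q :=
    Or.inl ⟨1, one_pow q, e6p4, by simp, by simp [castW, zB, e6p4]⟩
  have hzBm : castW K zBm ∈ e6Words K q :=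
    Or.inl ⟨-1, hneg, e6m4, by simp, by simp [castW, zBm, e6m4]⟩
  have hzC : castW K zC ∈ e6Words K q :=
    Or.inr ⟨1, (e6p3, e6p5), by simp, by simp [castW, zC, e6p3, e6p5]⟩
  have hzCm : castW K zCm ∈ e6Words K q :=
    Or.inr ⟨-1, (e6m3, e6m5), by simp, by simp [castW, zCm, e6m3, e6m5, hneg]⟩
  have hzE : castW K zE ∈ e6Words K q :=
    Or.inr ⟨1, (e6p1, e6p6), by simp, by simp [castW, zE, e6p1, e6p6]⟩
  have hzEm : castW K zEm ∈ e6Words K q :=
    Or.inr ⟨-1, (e6m1, e6m6), by simp, by simp [castW, zEm, e6m1, e6m6, hneg]⟩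
  show ((chevE6.borelSubgroup K ⊓ chevE6.genSubgroup K (e6Words K q)).subgroupOf
    (chevE6.genSubgroup K (e6Words K q))).normalCore = ⊥
  apply tw_core_of_checks CAll.cfE6 hd blocks lfacts ChevTabE6.tab ChevTabE6.tok
  · intro b hb
    have hb' : b = [1] ∨ b = [3] ∨ b = [2, 4] ∨ b = [0, 5] := by
      simp only [blocks, List.mem_cons, List.not_mem_nil, or_false] at hb
      tauto
    rcases hb' with rfl | rfl | rfl | rfl
    · apply nw_mem_gen CAll.cfE6.af 0 h0 ChevTabE6.tab ChevTabE6.tok _ _ (by decide)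
        [zA, zAm, zA] ?_ chk_a
      intro z hz
      simp only [List.mem_cons, List.not_mem_nil, or_false] at hz
      rcases hz with rfl | rfl | rfl
      · exact hzA
      · exact hzAm
      · exact hzA
    · apply nw_mem_gen CAll.cfE6.af 0 h0 ChevTabE6.tab ChevTabE6.tok _ _ (by decide)
        [zB, zBm, zB] ?_ chk_b
      intro z hz
      simp only [List.mem_cons, List.not_mem_nil, or_false] at hz
      rcases hz with rfl | rfl | rfl
      · exact hzB
      · exact hzBm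
      · exact hzB
    · apply nw_mem_gen CAll.cfE6.af 0 h0 ChevTabE6.tab ChevTabE6.tok _ _ (by decide)
        [zC, zCm, zC] ?_ chk_c
      intro z hz
      simp only [List.mem_cons, List.not_mem_nil, or_false] at hz
      rcases hz with rfl | rfl | rfl
      · exact hzC
      · exact hzCm
      · exact hzC
    · apply nw_mem_gen CAll.cfE6.af 0 h0 ChevTabE6.tab ChevTabE6.tok _ _ (by decide)
        [zE, zEm, zE] ?_ chk_e
      intro z hz
      simp only [List.mem_cons, List.not_mem_nil, or_false] at hz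
      rcases hz with rfl | rfl | rfl
      · exact hzE
      · exact hzEm
      · exact hzE
  · intro j
    have hj : j.val < 6 := j.isLt
    refine ⟨zOf j.val, ?_, pos_ok j.val hj, chk_ent j.val hj⟩
    have h4 : zOf j.val = zA ∨ zOf j.val = zB ∨ zOf j.val = zC ∨ zOf j.val = zE := by
      unfold zOf
      split_ifs
      · exact Or.inl rfl
      · exact Or.inr (Or.inl rfl)
      · exact Or.inr (Or.inr (Or.inl rfl))
      · exact Or.inr (Or.inr (Or.inr rfl))
    rcases h4 with h | h | h | h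
    · rw [h]; exact hzA
    · rw [h]; exact hzB
    · rw [h]; exact hzC
    · rw [h]; exact hzE

end Cfsg.Agent.S1105
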