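import Cfsg.Statements.S1070
import Cfsg.Agent.Lib.Helper18.TwE6B
import Cfsg.Agent.Lib.Helper18.Simple
import Cfsg.Agent.S0319
import Cfsg.Agent.S1050
import Cfsg.Agent.S1104
import Cfsg.Agent.S1105

set_option autoImplicit false
open Cfsg

namespace Cfsg.Agent.S1070

/-- ²E₆(q) is simple for every `q`. -/
theorem result {K : Type*} [Field K] [Fintype K] {q : ℕ} (hq : IsPrimePow q) (hK : Fintype.card K = q ^ 2) :
    IsSimpleGroup ↥(Cfsg.Lie.twistedE6 K q) ∧ ¬ IsMulCommutative ↥(Cfsg.Lie.twistedE6 K q) := by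
  obtain ⟨P, hB, hN, hirr, hS⟩ := Cfsg.Agent.Lib.Helper18.TwE6B.bn_E6 hq hK
  have hperf := Cfsg.Agent.S1104.result hq hK
  have hcore := Cfsg.Agent.S1105.result hq hK
  haveI := Cfsg.Agent.Lib.Helper18.TwSimp.nontrivial_of_bn P hS
  have hsolv : Group.IsSolvable P.B := by
    rw [hB]
    exact Cfsg.Agent.Lib.Helper18.TwSimp.solvable_inf _ _
      (Cfsg.Agent.S1050.result Cfsg.Lie.chevE6 (by simp))
  exact ⟨Cfsg.Agent.S0319.result P hirr hsolv hperf (by rw [hB]; exact hcore),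
    Cfsg.Agent.Lib.Helper18.Simple.not_comm_of_perfect hperf⟩

end Cfsg.Agent.S1070
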