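import Cfsg.Statements.S1108
import Cfsg.Agent.Lib.Helper19.TwPerf
import Cfsg.Agent.Lib.Helper18.CAll
import Cfsg.Agent.Lib.Helper36.ChevTabD4

set_option autoImplicit false
set_option linter.unusedSimpArgs false
open Cfsg

namespace Cfsg.Agent.S1108

open Cfsg.Lie Cfsg.Agent.Lib.Helper18 Cfsg.Agent.Lib.Helper18.BNPairC
  Cfsg.Agent.Lib.Helper36 Cfsg.Agent.Lib.Helper36.ChevEngine Cfsg.Agent.Lib.Helper36.ChevSound
  Cfsg.Agent.Lib.Helper19.TwCore Cfsg.Agent.Lib.Helper19.TwEngine Cfsg.Agent.Lib.Helper19.TwGlue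
  Cfsg.Agent.Lib.Helper19.TwPerf

variable {K : Type*} [Field K]

/-- the word of `n_{p₂}` -/
def nA (K : Type*) [Field K] : List (ℕ × K) := [(14, 1), (9, -1), (14, 1)]
/-- the word of `n_{p₁} n_{p₃} n_{p₄}` -/
def nT (K : Type*) [Field K] : List (ℕ × K) :=
  [(18, 1), (13, 1), (12, 1), (5, -1), (10, -1), (11, -1), (18, 1), (13, 1), (12, 1)]

/-- the parameter `t + u` -/
def ptpu : Param := [⟨1, 1, 0, 0⟩, ⟨1, 0, 1, 0⟩]

theorem evalParam_ptpu (t u v : K) : evalParam t u v ptpu = t + u := by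
  simp [ptpu, evalParam, monoEval]

/-! ### The word identities (roots: `19 = p₁+p₂`, `16 = p₂+p₃`, `15 = p₂+p₄`, `21 = p₁+p₂+p₃`,
`20 = p₁+p₂+p₄`, `17 = p₂+p₃+p₄`, `22 = p₁+p₂+p₃+p₄`, `23` the highest root) -/

def sLE1 : SWord := [(14, cst 1), (9, cst (-1)), (14, cst 1), (18, pt 1), (13, pu 1), (12, pv 1)]
def sRE1 : SWord := [(19, pt 1), (16, pu (-1)), (15, pv (-1)), (14, cst 1), (9, cst (-1)), (14, cst 1)]
set_option maxRecDepth 100000 in
theorem chkE1 : checkRel ChevTabD4.tab chevD4.rank chevD4.nroots sLE1 sRE1 = true := by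
  decide +kernel

theorem E1 (t u v : K) : chevD4.wordMat K (nA K ++ [(18, t), (13, u), (12, v)]) =
    chevD4.wordMat K ([(19, t), (16, -u), (15, -v)] ++ nA K) := by
  have h := checkRel_sound (F := K) chevD4 ChevTabD4.tab ChevTabD4.tok sLE1 sRE1 chkE1 t u v
  simp only [sLE1, sRE1, evalWord_cons, evalWord_nil, evalParam_cst, evalParam_pt, evalParam_pu,
    evalParam_pv, evalParam_ptu, evalParam_ptv, evalParam_puv, evalParam_ptuv, evalParam_pntuv,
    Int.cast_one, Int.cast_neg, one_mul, neg_mul] at h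
  exact h

def sLE2 : SWord := [(18, cst 1), (13, cst 1), (12, cst 1), (5, cst (-1)), (10, cst (-1)), (11, cst (-1)), (18, cst 1), (13, cst 1), (12, cst 1), (19, pt 1), (16, pu (-1)), (15, pv (-1))]
def sRE2 : SWord := [(17, pt 1), (20, pu (-1)), (21, pv (-1)), (18, cst 1), (13, cst 1), (12, cst 1), (5, cst (-1)), (10, cst (-1)), (11, cst (-1)), (18, cst 1), (13, cst 1), (12, cst 1)]
set_option maxRecDepth 100000 in
theorem chkE2 : checkRel ChevTabD4.tab chevD4.rank chevD4.nroots sLE2 sRE2 = true := by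
  decide +kernel

theorem E2 (t u v : K) : chevD4.wordMat K (nT K ++ [(19, t), (16, -u), (15, -v)]) =
    chevD4.wordMat K ([(17, t), (20, -u), (21, -v)] ++ nT K) := by
  have h := checkRel_sound (F := K) chevD4 ChevTabD4.tab ChevTabD4.tok sLE2 sRE2 chkE2 t u v
  simp only [sLE2, sRE2, evalWord_cons, evalWord_nil, evalParam_cst, evalParam_pt, evalParam_pu,
    evalParam_pv, evalParam_ptu, evalParam_ptv, evalParam_puv, evalParam_ptuv, evalParam_pntuv,
    Int.cast_one, Int.cast_neg, one_mul, neg_mul] at h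
  exact h

def sLE3 : SWord := [(14, cst 1), (18, pt 1), (13, pu 1), (12, pv 1)]
def sRE3 : SWord := [(19, pt 1), (16, pu (-1)), (15, pv (-1)), (17, puv (-1)), (20, ptv 1), (21, ptu 1), (22, ptuv 1), (23, ptuv (-1)), (18, pt 1), (13, pu 1), (12, pv 1), (14, cst 1)]
set_option maxRecDepth 100000 in
theorem chkE3 : checkRel ChevTabD4.tab chevD4.rank chevD4.nroots sLE3 sRE3 = true := by
  decide +kernel

theorem E3 (t u v : K) : chevD4.wordMat K ([(14, 1)] ++ [(18, t), (13, u), (12, v)]) =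
    chevD4.wordMat K ([(19, t), (16, -u), (15, -v), (17, -(u * v)), (20, t * v), (21, t * u), (22, t * (u * v)),
      (23, -(t * (u * v)))] ++ [(18, t), (13, u), (12, v)] ++ [(14, 1)]) := by
  have h := checkRel_sound (F := K) chevD4 ChevTabD4.tab ChevTabD4.tok sLE3 sRE3 chkE3 t u v
  simp only [sLE3, sRE3, evalWord_cons, evalWord_nil, evalParam_cst, evalParam_pt, evalParam_pu,
    evalParam_pv, evalParam_ptu, evalParam_ptv, evalParam_puv, evalParam_ptuv, evalParam_pntuv,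
    Int.cast_one, Int.cast_neg, one_mul, neg_mul] at h
  exact h

def sLE4 : SWord := [(19, pt 1), (16, pu (-1)), (15, pv (-1)), (17, cst 1), (20, cst (-1)), (21, cst (-1))]
def sRE4 : SWord := [(23, pntuv), (17, cst 1), (20, cst (-1)), (21, cst (-1)), (19, pt 1), (16, pu (-1)), (15, pv (-1))]
set_option maxRecDepth 100000 in
theorem chkE4 : checkRel ChevTabD4.tab chevD4.rank chevD4.nroots sLE4 sRE4 = true := by
  decide +kernel

theorem E4 (t u v : K) : chevD4.wordMat K ([(19, t), (16, -u), (15, -v)] ++ [(17, 1), (20, -1), (21, -1)]) =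
    chevD4.wordMat K ([(23, -(t + u + v))] ++ [(17, 1), (20, -1), (21, -1)] ++ [(19, t), (16, -u), (15, -v)]) := by
  have h := checkRel_sound (F := K) chevD4 ChevTabD4.tab ChevTabD4.tok sLE4 sRE4 chkE4 t u v
  simp only [sLE4, sRE4, evalWord_cons, evalWord_nil, evalParam_cst, evalParam_pt, evalParam_pu,
    evalParam_pv, evalParam_ptu, evalParam_ptv, evalParam_puv, evalParam_ptuv, evalParam_pntuv,
    Int.cast_one, Int.cast_neg, one_mul, neg_mul] at h
  exact h

def sLE5 : SWord := [(18, cst 1), (13, cst 1), (12, cst 1), (5, cst (-1)), (10, cst (-1)), (11, cst (-1)), (18, cst 1), (13, cst 1), (12, cst 1), (14, cst 1), (9, cst (-1)), (14, cst 1), (23, pt 1)]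
def sRE5 : SWord := [(14, pt (-1)), (18, cst 1), (13, cst 1), (12, cst 1), (5, cst (-1)), (10, cst (-1)), (11, cst (-1)), (18, cst 1), (13, cst 1), (12, cst 1), (14, cst 1), (9, cst (-1)), (14, cst 1)]
set_option maxRecDepth 100000 in
theorem chkE5 : checkRel ChevTabD4.tab chevD4.rank chevD4.nroots sLE5 sRE5 = true := by
  decide +kernel

theorem E5 (s : K) : chevD4.wordMat K ((nT K ++ nA K) ++ [(23, s)]) =
    chevD4.wordMat K ([(14, -s)] ++ (nT K ++ nA K)) := by
  have h := checkRel_sound (F := K) chevD4 ChevTabD4.tab ChevTabD4.tok sLE5 sRE5 chkE5 s 0 0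
  simp only [sLE5, sRE5, evalWord_cons, evalWord_nil, evalParam_cst, evalParam_pt, evalParam_pu,
    evalParam_pv, evalParam_ptu, evalParam_ptv, evalParam_puv, evalParam_ptuv, evalParam_pntuv,
    Int.cast_one, Int.cast_neg, one_mul, neg_mul] at h
  exact h

def sLE6 : SWord := [(14, cst 1), (9, cst (-1)), (14, cst 1), (14, pt 1)]
def sRE6 : SWord := [(9, pt (-1)), (14, cst 1), (9, cst (-1)), (14, cst 1)]
set_option maxRecDepth 100000 in
theorem chkE6 : checkRel ChevTabD4.tab chevD4.rank chevD4.nroots sLE6 sRE6 = true := by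
  decide +kernel

theorem E6 (s : K) : chevD4.wordMat K (nA K ++ [(14, s)]) =
    chevD4.wordMat K ([(9, -s)] ++ nA K) := by
  have h := checkRel_sound (F := K) chevD4 ChevTabD4.tab ChevTabD4.tok sLE6 sRE6 chkE6 s 0 0
  simp only [sLE6, sRE6, evalWord_cons, evalWord_nil, evalParam_cst, evalParam_pt, evalParam_pu,
    evalParam_pv, evalParam_ptu, evalParam_ptv, evalParam_puv, evalParam_ptuv, evalParam_pntuv,
    Int.cast_one, Int.cast_neg, one_mul, neg_mul] at h
  exact h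

def sLE7 : SWord := [(14, cst 1), (9, cst (-1)), (14, cst 1), (23, pt 1)]
def sRE7 : SWord := [(22, pt (-1)), (14, cst 1), (9, cst (-1)), (14, cst 1)]
set_option maxRecDepth 100000 in
theorem chkE7 : checkRel ChevTabD4.tab chevD4.rank chevD4.nroots sLE7 sRE7 = true := by
  decide +kernel

theorem E7 (s : K) : chevD4.wordMat K (nA K ++ [(23, s)]) =
    chevD4.wordMat K ([(22, -s)] ++ nA K) := by
  have h := checkRel_sound (F := K) chevD4 ChevTabD4.tab ChevTabD4.tok sLE7 sRE7 chkE7 s 0 0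
  simp only [sLE7, sRE7, evalWord_cons, evalWord_nil, evalParam_cst, evalParam_pt, evalParam_pu,
    evalParam_pv, evalParam_ptu, evalParam_ptv, evalParam_puv, evalParam_ptuv, evalParam_pntuv,
    Int.cast_one, Int.cast_neg, one_mul, neg_mul] at h
  exact h

def sLE8 : SWord := [(18, cst 1), (13, cst 1), (12, cst 1), (5, cst (-1)), (10, cst (-1)), (11, cst (-1)), (18, cst 1), (13, cst 1), (12, cst 1), (18, pt 1), (13, pu 1), (12, pv 1)]
def sRE8 : SWord := [(5, pt (-1)), (10, pu (-1)), (11, pv (-1)), (18, cst 1), (13, cst 1), (12, cst 1), (5, cst (-1)), (10, cst (-1)), (11, cst (-1)), (18, cst 1), (13, cst 1), (12, cst 1)]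
set_option maxRecDepth 100000 in
theorem chkE8 : checkRel ChevTabD4.tab chevD4.rank chevD4.nroots sLE8 sRE8 = true := by
  decide +kernel

theorem E8 (t u v : K) : chevD4.wordMat K (nT K ++ [(18, t), (13, u), (12, v)]) =
    chevD4.wordMat K ([(5, -t), (10, -u), (11, -v)] ++ nT K) := by
  have h := checkRel_sound (F := K) chevD4 ChevTabD4.tab ChevTabD4.tok sLE8 sRE8 chkE8 t u v
  simp only [sLE8, sRE8, evalWord_cons, evalWord_nil, evalParam_cst, evalParam_pt, evalParam_pu,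
    evalParam_pv, evalParam_ptu, evalParam_ptv, evalParam_puv, evalParam_ptuv, evalParam_pntuv,
    Int.cast_one, Int.cast_neg, one_mul, neg_mul] at h
  exact h

def sLC1 : SWord := [(12, pt 1), (18, pu 1)]
def sRC1 : SWord := [(18, pu 1), (12, pt 1)]
set_option maxRecDepth 100000 in
theorem chkC1 : checkRel ChevTabD4.tab chevD4.rank chevD4.nroots sLC1 sRC1 = true := by
  decide +kernel

theorem C1 (a b : K) : chevD4.x K 12 a * chevD4.x K 18 b = chevD4.x K 18 b * chevD4.x K 12 a := by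
  have h := checkRel_sound (F := K) chevD4 ChevTabD4.tab ChevTabD4.tok sLC1 sRC1 chkC1 a b 0
  simp only [sLC1, sRC1, evalWord_cons, evalWord_nil, evalParam_pt, evalParam_pu,
    Int.cast_one, one_mul, Cfsg.Agent.Lib.Helper18.Sub.wordMat_cons,
    Cfsg.Agent.Lib.Helper18.Sub.wordMat_nil, mul_one] at h
  exact h

def sLC2 : SWord := [(13, pt 1), (18, pu 1)]
def sRC2 : SWord := [(18, pu 1), (13, pt 1)]
set_option maxRecDepth 100000 in
theorem chkC2 : checkRel ChevTabD4.tab chevD4.rank chevD4.nroots sLC2 sRC2 = true := by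
  decide +kernel

theorem C2 (a b : K) : chevD4.x K 13 a * chevD4.x K 18 b = chevD4.x K 18 b * chevD4.x K 13 a := by
  have h := checkRel_sound (F := K) chevD4 ChevTabD4.tab ChevTabD4.tok sLC2 sRC2 chkC2 a b 0
  simp only [sLC2, sRC2, evalWord_cons, evalWord_nil, evalParam_pt, evalParam_pu,
    Int.cast_one, one_mul, Cfsg.Agent.Lib.Helper18.Sub.wordMat_cons,
    Cfsg.Agent.Lib.Helper18.Sub.wordMat_nil, mul_one] at h
  exact h

def sLC3 : SWord := [(12, pt 1), (13, pu 1)]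
def sRC3 : SWord := [(13, pu 1), (12, pt 1)]
set_option maxRecDepth 100000 in
theorem chkC3 : checkRel ChevTabD4.tab chevD4.rank chevD4.nroots sLC3 sRC3 = true := by
  decide +kernel

theorem C3 (a b : K) : chevD4.x K 12 a * chevD4.x K 13 b = chevD4.x K 13 b * chevD4.x K 12 a := by
  have h := checkRel_sound (F := K) chevD4 ChevTabD4.tab ChevTabD4.tok sLC3 sRC3 chkC3 a b 0
  simp only [sLC3, sRC3, evalWord_cons, evalWord_nil, evalParam_pt, evalParam_pu,
    Int.cast_one, one_mul, Cfsg.Agent.Lib.Helper18.Sub.wordMat_cons,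
    Cfsg.Agent.Lib.Helper18.Sub.wordMat_nil, mul_one] at h
  exact h

def sLA18 : SWord := [(18, pt 1), (18, pu 1)]
def sRA18 : SWord := [(18, ptpu)]
set_option maxRecDepth 100000 in
theorem chkA18 : checkRel ChevTabD4.tab chevD4.rank chevD4.nroots sLA18 sRA18 = true := by
  decide +kernel

theorem A18 (a b : K) : chevD4.x K 18 a * chevD4.x K 18 b = chevD4.x K 18 (a + b) := by
  have h := checkRel_sound (F := K) chevD4 ChevTabD4.tab ChevTabD4.tok sLA18 sRA18 chkA18 a b 0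
  simp only [sLA18, sRA18, evalWord_cons, evalWord_nil, evalParam_pt, evalParam_pu, evalParam_ptpu,
    Int.cast_one, one_mul, Cfsg.Agent.Lib.Helper18.Sub.wordMat_cons,
    Cfsg.Agent.Lib.Helper18.Sub.wordMat_nil, mul_one] at h
  exact h

def sLA13 : SWord := [(13, pt 1), (13, pu 1)]
def sRA13 : SWord := [(13, ptpu)]
set_option maxRecDepth 100000 in
theorem chkA13 : checkRel ChevTabD4.tab chevD4.rank chevD4.nroots sLA13 sRA13 = true := by
  decide +kernel

theorem A13 (a b : K) : chevD4.x K 13 a * chevD4.x K 13 b = chevD4.x K 13 (a + b) := by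
  have h := checkRel_sound (F := K) chevD4 ChevTabD4.tab ChevTabD4.tok sLA13 sRA13 chkA13 a b 0
  simp only [sLA13, sRA13, evalWord_cons, evalWord_nil, evalParam_pt, evalParam_pu, evalParam_ptpu,
    Int.cast_one, one_mul, Cfsg.Agent.Lib.Helper18.Sub.wordMat_cons,
    Cfsg.Agent.Lib.Helper18.Sub.wordMat_nil, mul_one] at h
  exact h

def sLA12 : SWord := [(12, pt 1), (12, pu 1)]
def sRA12 : SWord := [(12, ptpu)]
set_option maxRecDepth 100000 in
theorem chkA12 : checkRel ChevTabD4.tab chevD4.rank chevD4.nroots sLA12 sRA12 = true := by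
  decide +kernel

theorem A12 (a b : K) : chevD4.x K 12 a * chevD4.x K 12 b = chevD4.x K 12 (a + b) := by
  have h := checkRel_sound (F := K) chevD4 ChevTabD4.tab ChevTabD4.tok sLA12 sRA12 chkA12 a b 0
  simp only [sLA12, sRA12, evalWord_cons, evalWord_nil, evalParam_pt, evalParam_pu, evalParam_ptpu,
    Int.cast_one, one_mul, Cfsg.Agent.Lib.Helper18.Sub.wordMat_cons,
    Cfsg.Agent.Lib.Helper18.Sub.wordMat_nil, mul_one] at h
  exact h

/-- rearranging a product of two triples of pairwise commuting factors -/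
theorem six {M : Type*} [Monoid M] (a b c a' b' c' : M) (h1 : c * a' = a' * c)
    (h2 : b * a' = a' * b) (h3 : c * b' = b' * c) :
    a * (b * c) * (a' * (b' * c')) = (a * a') * ((b * b') * (c * c')) := by
  calc a * (b * c) * (a' * (b' * c')) = a * (b * (c * a') * (b' * c')) := by
        simp only [mul_assoc]
    _ = a * (b * (a' * c) * (b' * c')) := by rw [h1]
    _ = a * ((b * a') * (c * b') * c') := by simp only [mul_assoc]
    _ = a * ((a' * b) * (b' * c) * c') := by rw [h2, h3]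
    _ = (a * a') * ((b * b') * (c * c')) := by simp only [mul_assoc]

theorem T_mul (hF : AllRoots.AFacts FTabD4.fd chevD4) (t u v t' u' v' : K) :
    wU hF [(18, t), (13, u), (12, v)] * wU hF [(18, t'), (13, u'), (12, v')] =
      wU hF [(18, t + t'), (13, u + u'), (12, v + v')] := by
  apply Units.ext
  rw [Units.val_mul, coe_wU, coe_wU, coe_wU]
  simp only [Cfsg.Agent.Lib.Helper18.Sub.wordMat_cons, Cfsg.Agent.Lib.Helper18.Sub.wordMat_nil,
    mul_one]
  rw [six _ _ _ _ _ _ (C1 v t') (C2 u t') (C3 v u'), A18, A13, A12]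

/-- a polynomial `X - X ^ n` with `1 < n < card K` has a non-root -/
theorem exists_sub_pow_ne {K : Type*} [Field K] [Fintype K] (n : ℕ) (h1 : 1 < n)
    (h2 : n < Fintype.card K) : ∃ t : K, t - t ^ n ≠ 0 := by
  have hP : (Polynomial.X - Polynomial.X ^ n : Polynomial K) ≠ 0 := by
    intro h
    have h1' := congrArg (fun P : Polynomial K => P.coeff 1) h
    have hq1 : ¬ (1 = n) := by omega
    simp only [Polynomial.coeff_sub, Polynomial.coeff_X_one, Polynomial.coeff_X_pow, hq1,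
      if_false, sub_zero, Polynomial.coeff_zero] at h1'
    exact one_ne_zero h1'
  have hdeg : (Polynomial.X - Polynomial.X ^ n : Polynomial K).natDegree < Fintype.card K := by
    have h3 : (Polynomial.X - Polynomial.X ^ n : Polynomial K).natDegree ≤ n := by
      apply (Polynomial.natDegree_sub_le _ _).trans
      rw [Polynomial.natDegree_X, Polynomial.natDegree_X_pow]
      omega
    omega
  obtain ⟨t, ht⟩ := exists_eval_ne_zero _ hP hdeg
  exact ⟨t, by simpa using ht⟩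

/-- a polynomial `X + X ^ m + X ^ n` with `1 < m < n < card K` has a non-root -/
theorem exists_trace_ne {K : Type*} [Field K] [Fintype K] (m n : ℕ) (h1 : 1 < m) (h12 : m < n)
    (h2 : n < Fintype.card K) : ∃ t : K, t + t ^ m + t ^ n ≠ 0 := by
  have hP : (Polynomial.X + Polynomial.X ^ m + Polynomial.X ^ n : Polynomial K) ≠ 0 := by
    intro h
    have h1' := congrArg (fun P : Polynomial K => P.coeff 1) h
    have hq1 : ¬ (1 = m) := by omega
    have hq2 : ¬ (1 = n) := by omega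
    simp only [Polynomial.coeff_add, Polynomial.coeff_X_one, Polynomial.coeff_X_pow, hq1, hq2,
      if_false, add_zero, Polynomial.coeff_zero] at h1'
    exact one_ne_zero h1'
  have hdeg : (Polynomial.X + Polynomial.X ^ m + Polynomial.X ^ n : Polynomial K).natDegree <
      Fintype.card K := by
    have h3 : (Polynomial.X + Polynomial.X ^ m + Polynomial.X ^ n : Polynomial K).natDegree ≤
        n := by
      apply Polynomial.natDegree_add_le_of_degree_le
      · apply Polynomial.natDegree_add_le_of_degree_le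
        · rw [Polynomial.natDegree_X]
          omega
        · rw [Polynomial.natDegree_X_pow]
          omega
      · rw [Polynomial.natDegree_X_pow]
    omega
  obtain ⟨t, ht⟩ := exists_eval_ne_zero _ hP hdeg
  exact ⟨t, by simpa using ht⟩

/-- ³D₄(q) equals its derived subgroup. -/
theorem result {K : Type*} [Field K] [Fintype K] {q : ℕ} (hq : IsPrimePow q) (hK : Fintype.card K = q ^ 3) : commutator ↥(Cfsg.Lie.twistedD4 K q) = ⊤ := by
  have hF := CAll.cfD4.af
  have hq2 : 2 ≤ q := hq.two_le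
  have hneg : (-1 : K) ^ q = -1 := neg_one_pow_of_card (n := 3) (by norm_num) hK
  have hfrob : ∀ x y : K, (x + y) ^ q = x ^ q + y ^ q := frob_add (n := 3) (by norm_num) hK
  have hpow : ∀ t : K, ((t ^ q) ^ q) ^ q = t := by
    intro t
    rw [← pow_mul, ← pow_mul]
    have e : q * (q * q) = q ^ 3 := by ring
    rw [e]
    exact pow_card_pow hK t
  have hnegp : ∀ t : K, (-t) ^ q = -(t ^ q) := by
    intro t
    rw [neg_pow, hneg]
    ring
  have hsubp : ∀ x y : K, (x - y) ^ q = x ^ q - y ^ q := by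
    intro x y
    rw [sub_eq_add_neg, hfrob, hnegp, ← sub_eq_add_neg]
  have hsq : ∀ t : K, t ^ (q ^ 2) = (t ^ q) ^ q := fun t => by rw [pow_two, pow_mul]
  have hqq : q < q * q := by nlinarith
  have hqqq : q * q < Fintype.card K := by
    rw [hK]
    have e : q ^ 3 = q * q * q := by ring
    rw [e]
    nlinarith
  show commutator ↥(chevD4.genSubgroup K (d4Words K q)) = ⊤
  set S := d4Words K q with hS
  set G := chevD4.genSubgroup K S with hG
  -- generators
  have ga : ∀ s : K, s ^ q = s → wU hF [(14, s)] ∈ G := fun s hs =>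
    wU_mem_gen hF S (Or.inl ⟨s, hs, d4p2, by simp, rfl⟩)
  have gam : ∀ s : K, s ^ q = s → wU hF [(9, s)] ∈ G := fun s hs =>
    wU_mem_gen hF S (Or.inl ⟨s, hs, d4m2, by simp, rfl⟩)
  have gT : ∀ t u v : K, u = t ^ q → v = u ^ q → wU hF [(18, t), (13, u), (12, v)] ∈ G := by
    intro t u v hu hv
    subst hu
    subst hv
    have h : wU hF [(18, t), (13, t ^ q), (12, t ^ (q ^ 2))] ∈ G :=
      wU_mem_gen hF S (Or.inr ⟨t, (d4p1, d4p3, d4p4), by simp, rfl⟩)
    rwa [hsq t] at h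
  have gTm : ∀ t u v : K, u = t ^ q → v = u ^ q → wU hF [(5, t), (10, u), (11, v)] ∈ G := by
    intro t u v hu hv
    subst hu
    subst hv
    have h : wU hF [(5, t), (10, t ^ q), (11, t ^ (q ^ 2))] ∈ G :=
      wU_mem_gen hF S (Or.inr ⟨t, (d4m1, d4m3, d4m4), by simp, rfl⟩)
    rwa [hsq t] at h
  have h1q : (1 : K) ^ q = 1 := one_pow q
  have hnA : wU hF (nA K) ∈ G := by
    have e : nA K = [(14, 1)] ++ [(9, -1)] ++ [(14, 1)] := rfl
    rw [e, wU_append, wU_append]
    exact Subgroup.mul_mem _ (Subgroup.mul_mem _ (ga 1 h1q) (gam (-1) hneg)) (ga 1 h1q)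
  have hnT : wU hF (nT K) ∈ G := by
    have e : nT K = [(18, 1), (13, 1), (12, 1)] ++ [(5, -1), (10, -1), (11, -1)] ++
        [(18, 1), (13, 1), (12, 1)] := rfl
    rw [e, wU_append, wU_append]
    exact Subgroup.mul_mem _ (Subgroup.mul_mem _ (gT 1 1 1 h1q.symm h1q.symm)
      (gTm (-1) (-1) (-1) hneg.symm hneg.symm)) (gT 1 1 1 h1q.symm h1q.symm)
  have gS2 : ∀ t u v : K, u = t ^ q → v = u ^ q → wU hF [(19, t), (16, -u), (15, -v)] ∈ G :=
    fun t u v hu hv => step_conj_mem hF G (E1 t u v) hnA (gT t u v hu hv)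
  have gS3 : ∀ t u v : K, u = t ^ q → v = u ^ q → wU hF [(17, t), (20, -u), (21, -v)] ∈ G :=
    fun t u v hu hv => step_conj_mem hF G (E2 t u v) hnT (gS2 t u v hu hv)
  -- the highest root
  have hL2a : ∀ t : K, wU hF [(23, -(t + t ^ q + (t ^ q) ^ q))] ∈ Cm G := fun t =>
    step_comm hF G (E4 t (t ^ q) ((t ^ q) ^ q)) (gS2 t _ _ rfl rfl)
      (gS3 1 1 1 h1q.symm h1q.symm)
  obtain ⟨t₀, τ, hτ, hτ0, hτq⟩ : ∃ t₀ τ : K, τ = t₀ + t₀ ^ q + (t₀ ^ q) ^ q ∧ τ ≠ 0 ∧
      τ ^ q = τ := by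
    obtain ⟨t, ht⟩ := exists_trace_ne (K := K) q (q * q) (by omega) hqq hqqq
    rw [pow_mul] at ht
    refine ⟨t, _, rfl, ht, ?_⟩
    rw [hfrob, hfrob, hpow]
    ring
  have hL2 : ∀ s : K, s ^ q = s → wU hF [(23, s)] ∈ Cm G := by
    intro s hs
    have hb : (-s / τ) ^ q = -s / τ := by rw [div_pow, hnegp, hs, hτq]
    have h := hL2a (-s / τ * t₀)
    have e : -(-s / τ * t₀ + (-s / τ * t₀) ^ q + ((-s / τ * t₀) ^ q) ^ q) = s := by
      rw [mul_pow, mul_pow, hb, hb]
      have e2 : -(-s / τ * t₀ + -s / τ * t₀ ^ q + -s / τ * (t₀ ^ q) ^ q) = s / τ * τ := by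
        rw [hτ]
        ring
      rw [e2, div_mul_cancel₀ _ hτ0]
    rwa [e] at h
  have ha : ∀ s : K, s ^ q = s → wU hF [(14, s)] ∈ Cm G := by
    intro s hs
    have hn : wU hF (nT K ++ nA K) ∈ G := by
      rw [wU_append]
      exact Subgroup.mul_mem _ hnT hnA
    have h := step_conj hF G (E5 (-s)) hn (hL2 (-s) (by rw [hnegp, hs]))
    rwa [neg_neg] at h
  have ham : ∀ s : K, s ^ q = s → wU hF [(9, s)] ∈ Cm G := by
    intro s hs
    have h := step_conj hF G (E6 (-s)) hnA (ha (-s) (by rw [hnegp, hs]))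
    rwa [neg_neg] at h
  have hL1 : ∀ s : K, s ^ q = s → wU hF [(22, s)] ∈ Cm G := by
    intro s hs
    have h := step_conj hF G (E7 (-s)) hnA (hL2 (-s) (by rw [hnegp, hs]))
    rwa [neg_neg] at h
  -- the triples
  have hmix : ∀ t : K, wU hF ([(19, t), (16, -(t ^ q)), (15, -((t ^ q) ^ q))] ++
      [(17, -(t ^ q * (t ^ q) ^ q)), (20, t * (t ^ q) ^ q), (21, t * t ^ q)]) ∈ Cm G := by
    intro t
    have h1 := step_comm hF G (E3 t (t ^ q) ((t ^ q) ^ q)) (ga 1 h1q) (gT t _ _ rfl rfl)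
    have hN : (t * (t ^ q * (t ^ q) ^ q)) ^ q = t * (t ^ q * (t ^ q) ^ q) := by
      rw [mul_pow, mul_pow, hpow]
      ring
    have h2 : wU hF ([(22, t * (t ^ q * (t ^ q) ^ q))] ++
        [(23, -(t * (t ^ q * (t ^ q) ^ q)))]) ∈ Cm G := by
      rw [wU_append]
      exact Subgroup.mul_mem _ (hL1 _ hN) (hL2 _ (by rw [hnegp, hN]))
    exact step_left hF G h1 h2
  have hS2T : ∀ t u v : K, u = t ^ q → v = u ^ q → wU hF [(19, t), (16, -u), (15, -v)] *
      (wU hF [(18, t), (13, u), (12, v)])⁻¹ ∈ Cm G := fun t u v hu hv =>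
    step_cong hF G (E1 t u v) hnA (gT t u v hu hv)
  have hS3S2 : ∀ t u v : K, u = t ^ q → v = u ^ q → wU hF [(17, t), (20, -u), (21, -v)] *
      (wU hF [(19, t), (16, -u), (15, -v)])⁻¹ ∈ Cm G := fun t u v hu hv =>
    step_cong hF G (E2 t u v) hnT (gS2 t u v hu hv)
  have hS3T : ∀ t u v : K, u = t ^ q → v = u ^ q → wU hF [(17, t), (20, -u), (21, -v)] *
      (wU hF [(18, t), (13, u), (12, v)])⁻¹ ∈ Cm G := by
    intro t u v hu hv
    have h := Subgroup.mul_mem _ (hS3S2 t u v hu hv) (hS2T t u v hu hv)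
    have e : ∀ a b c : GL chevD4.Idx K, a * b⁻¹ * (b * c⁻¹) = a * c⁻¹ := by
      intro a b c
      group
    rwa [e] at h
  -- the set of `t` whose triple lies in the derived subgroup
  have hT0 : wU hF [(18, (0 : K)), (13, 0), (12, 0)] = 1 := by
    have h := T_mul hF (0 : K) 0 0 0 0 0
    rw [add_zero] at h
    exact mul_left_cancel (h.trans (mul_one _).symm)
  have hPadd : ∀ t s : K, wU hF [(18, t), (13, t ^ q), (12, (t ^ q) ^ q)] ∈ Cm G →
      wU hF [(18, s), (13, s ^ q), (12, (s ^ q) ^ q)] ∈ Cm G →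
      wU hF [(18, t + s), (13, (t + s) ^ q), (12, ((t + s) ^ q) ^ q)] ∈ Cm G := by
    intro t s h1 h2
    rw [hfrob, hfrob, ← T_mul]
    exact Subgroup.mul_mem _ h1 h2
  have hPneg : ∀ t : K, wU hF [(18, t), (13, t ^ q), (12, (t ^ q) ^ q)] ∈ Cm G →
      wU hF [(18, -t), (13, (-t) ^ q), (12, ((-t) ^ q) ^ q)] ∈ Cm G := by
    intro t h1
    have h := T_mul hF t (t ^ q) ((t ^ q) ^ q) (-t) (-(t ^ q)) (-((t ^ q) ^ q))
    rw [add_neg_cancel, add_neg_cancel, add_neg_cancel, hT0] at h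
    rw [hnegp, hnegp, eq_inv_of_mul_eq_one_right h]
    exact Subgroup.inv_mem _ h1
  have hPsub : ∀ t s : K, wU hF [(18, t), (13, t ^ q), (12, (t ^ q) ^ q)] ∈ Cm G →
      wU hF [(18, s), (13, s ^ q), (12, (s ^ q) ^ q)] ∈ Cm G →
      wU hF [(18, t - s), (13, (t - s) ^ q), (12, ((t - s) ^ q) ^ q)] ∈ Cm G := by
    intro t s h1 h2
    rw [sub_eq_add_neg]
    exact hPadd _ _ h1 (hPneg _ h2)
  have hPA : ∀ t : K, wU hF [(18, t - t ^ q * (t ^ q) ^ q), (13, (t - t ^ q * (t ^ q) ^ q) ^ q),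
      (12, ((t - t ^ q * (t ^ q) ^ q) ^ q) ^ q)] ∈ Cm G := by
    intro t
    have hs1 : (-(t ^ q * (t ^ q) ^ q)) ^ q = -(t * (t ^ q) ^ q) := by
      rw [hnegp, mul_pow, hpow]
      ring
    have hs2 : (-(t * (t ^ q) ^ q)) ^ q = -(t * t ^ q) := by
      rw [hnegp, mul_pow, hpow]
      ring
    have h := hmix t
    rw [wU_append] at h
    have h3 := hS3T (-(t ^ q * (t ^ q) ^ q)) (-(t * (t ^ q) ^ q)) (-(t * t ^ q)) hs1.symm hs2.symm
    rw [neg_neg, neg_neg] at h3
    have h4 := cong_mul (gT t _ _ rfl rfl) (hS2T t _ _ rfl rfl) h3 h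
    rw [T_mul] at h4
    have e1 : (t - t ^ q * (t ^ q) ^ q) ^ q = t ^ q + -(t * (t ^ q) ^ q) := by
      rw [hsubp, mul_pow, hpow]
      ring
    have e2 : (t ^ q + -(t * (t ^ q) ^ q)) ^ q = (t ^ q) ^ q + -(t * t ^ q) := by
      rw [hfrob, hs2]
    rw [e1, e2, sub_eq_add_neg]
    exact h4
  have hPB : ∀ t u : K, wU hF [(18, t ^ q * (u ^ q) ^ q + u ^ q * (t ^ q) ^ q),
      (13, (t ^ q * (u ^ q) ^ q + u ^ q * (t ^ q) ^ q) ^ q),
      (12, ((t ^ q * (u ^ q) ^ q + u ^ q * (t ^ q) ^ q) ^ q) ^ q)] ∈ Cm G := by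
    intro t u
    have h := hPsub _ _ (hPadd _ _ (hPA t) (hPA u)) (hPA (t + u))
    have e : t - t ^ q * (t ^ q) ^ q + (u - u ^ q * (u ^ q) ^ q) -
        (t + u - (t + u) ^ q * ((t + u) ^ q) ^ q) =
        t ^ q * (u ^ q) ^ q + u ^ q * (t ^ q) ^ q := by
      rw [hfrob, hfrob]
      ring
    rwa [e] at h
  have hPC : ∀ s : K, wU hF [(18, s + s ^ q), (13, (s + s ^ q) ^ q),
      (12, ((s + s ^ q) ^ q) ^ q)] ∈ Cm G := by
    intro s
    have h := hPB ((s ^ q) ^ q) 1
    have e : ((s ^ q) ^ q) ^ q * ((1 : K) ^ q) ^ q + (1 : K) ^ q * ((((s ^ q) ^ q) ^ q) ^ q) =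
        s + s ^ q := by
      rw [hpow, one_pow, one_pow]
      ring
    rwa [e] at h
  have hPD : ∀ t u : K, wU hF [(18, t * u ^ q + t ^ q * u), (13, (t * u ^ q + t ^ q * u) ^ q),
      (12, ((t * u ^ q + t ^ q * u) ^ q) ^ q)] ∈ Cm G := by
    intro t u
    have h := hPB ((t ^ q) ^ q) ((u ^ q) ^ q)
    have e : ((t ^ q) ^ q) ^ q * ((((u ^ q) ^ q) ^ q) ^ q) +
        ((u ^ q) ^ q) ^ q * ((((t ^ q) ^ q) ^ q) ^ q) = t * u ^ q + t ^ q * u := by
      simp only [hpow]
      ring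
    rwa [e] at h
  have hPE : ∀ t u : K, wU hF [(18, (t - (t ^ q) ^ q) * u ^ q),
      (13, ((t - (t ^ q) ^ q) * u ^ q) ^ q),
      (12, (((t - (t ^ q) ^ q) * u ^ q) ^ q) ^ q)] ∈ Cm G := by
    intro t u
    have h := hPsub _ _ (hPD t u) (hPC (t ^ q * u))
    have e : t * u ^ q + t ^ q * u - (t ^ q * u + (t ^ q * u) ^ q) =
        (t - (t ^ q) ^ q) * u ^ q := by
      rw [mul_pow]
      ring
    rwa [e] at h
  obtain ⟨t₁, ht₁⟩ : ∃ t₁ : K, t₁ - (t₁ ^ q) ^ q ≠ 0 := by
    obtain ⟨t, ht⟩ := exists_sub_pow_ne (K := K) (q * q) (by omega) hqqq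
    rw [pow_mul] at ht
    exact ⟨t, ht⟩
  have hT : ∀ t : K, wU hF [(18, t), (13, t ^ q), (12, (t ^ q) ^ q)] ∈ Cm G := by
    intro t
    have h := hPE t₁ (((t / (t₁ - (t₁ ^ q) ^ q)) ^ q) ^ q)
    have e : (t₁ - (t₁ ^ q) ^ q) * ((((t / (t₁ - (t₁ ^ q) ^ q)) ^ q) ^ q) ^ q) = t := by
      rw [hpow, mul_div_cancel₀ _ ht₁]
    rwa [e] at h
  have hTm : ∀ t : K, wU hF [(5, t), (10, t ^ q), (11, (t ^ q) ^ q)] ∈ Cm G := by
    intro t
    have h := step_conj hF G (E8 (-t) ((-t) ^ q) (((-t) ^ q) ^ q)) hnT (hT (-t))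
    simp only [hnegp, neg_neg] at h
    exact h
  apply commutator_eq_top hF S
  intro wd hwd
  rcases hwd with ⟨t, ht, r, hr, rfl⟩ | ⟨t, rs, hrs, rfl⟩
  · simp only [List.mem_cons, List.not_mem_nil, or_false] at hr
    rcases hr with rfl | rfl
    · exact ha t ht
    · exact ham t ht
  · simp only [List.mem_cons, List.not_mem_nil, or_false] at hrs
    rcases hrs with rfl | rfl
    · show wU hF [(18, t), (13, t ^ q), (12, t ^ (q ^ 2))] ∈ Cm G
      rw [hsq]
      exact hT t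
    · show wU hF [(5, t), (10, t ^ q), (11, t ^ (q ^ 2))] ∈ Cm G
      rw [hsq]
      exact hTm t

end Cfsg.Agent.S1108
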