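import Cfsg.Statements.S1109
import Cfsg.Agent.Lib.Helper19.TwGlue
import Cfsg.Agent.Lib.Helper18.CAll
import Cfsg.Agent.Lib.Helper18.LAll
import Cfsg.Agent.Lib.Helper18.HOrderTab
import Cfsg.Agent.Lib.Helper36.ChevTabD4

set_option autoImplicit false
set_option linter.unusedSimpArgs false
open Cfsg

namespace Cfsg.Agent.S1109

open Cfsg.Lie Cfsg.Agent.Lib.Helper18 Cfsg.Agent.Lib.Helper18.BNPairC
  Cfsg.Agent.Lib.Helper18.Long Cfsg.Agent.Lib.Helper18.HOrder Cfsg.Agent.Lib.Helper18.Loop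
  Cfsg.Agent.Lib.Helper36 Cfsg.Agent.Lib.Helper36.ChevEngine Cfsg.Agent.Lib.Helper36.ChevSound
  Cfsg.Agent.Lib.Helper19.TwCore Cfsg.Agent.Lib.Helper19.TwEngine Cfsg.Agent.Lib.Helper19.TwGlue

/-- the blocks of the word of the longest element: `w_{p₂}` and `w_{p₁} w_{p₃} w_{p₄}`, three
times -/
def blocks : List (List ℕ) := [[1], [0, 2, 3], [1], [0, 2, 3], [1], [0, 2, 3]]

def wd : List ℕ := [1, 0, 2, 3, 1, 0, 2, 3, 1, 0, 2, 3]

def wr : List ℕ := [3, 2, 0, 1, 3, 2, 0, 1, 3, 2, 0, 1]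

set_option maxRecDepth 100000 in
theorem l_ok : allB 24 (chkL FTabD4.fd WTabD4.X OTabD4.m wd wr) = true := by
  decide +kernel

theorem lfacts : LFacts FTabD4.fd WTabD4.X OTabD4.m wd :=
  LFacts.of_checks (wd' := wr) (by decide) (by decide) (fun r (hr : r < 24) => allB_imp l_ok r hr)

/-- `x_{p₂}(1)` -/
def zA : List (ℕ × ℤ) := [(14, 1)]

/-- `x_{-p₂}(-1)` -/
def zAm : List (ℕ × ℤ) := [(9, -1)]

/-- `x_{p₁}(1) x_{p₃}(1) x_{p₄}(1)` -/
def zT : List (ℕ × ℤ) := [(18, 1), (13, 1), (12, 1)]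

/-- `x_{-p₁}(-1) x_{-p₃}(-1) x_{-p₄}(-1)` -/
def zTm : List (ℕ × ℤ) := [(5, -1), (10, -1), (11, -1)]

/-- the test word of the fundamental root with index `j` -/
def zOf (j : ℕ) : List (ℕ × ℤ) := if j = 1 then zA else zT

set_option maxRecDepth 100000 in
theorem chk_a : checkRelP 0 ChevTabD4.tab chevD4.rank chevD4.nroots (symN chevD4 [1])
    (symC [zA, zAm, zA].flatten) = true := by decide +kernel

set_option maxRecDepth 100000 in
theorem chk_t : checkRelP 0 ChevTabD4.tab chevD4.rank chevD4.nroots (symN chevD4 [0, 2, 3])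
    (symC [zT, zTm, zT].flatten) = true := by decide +kernel

set_option maxRecDepth 100000 in
theorem chk_ent : ∀ j < 4, entryOK 0 ChevTabD4.tab chevD4.rank chevD4.nroots (symC (zOf j)) j
    (chevD4.rank + chevD4.neg (chevD4.simple j)) (cst 1) = true := by decide +kernel

theorem pos_ok : ∀ j < 4, ∀ q ∈ zOf j, chevD4.IsPosRoot q.1 := by decide

/-- The normal core of `B¹ = G¹ ∩ B` in ³D₄(q) is trivial. -/
theorem result {K : Type*} [Field K] [Fintype K] {q : ℕ} (hq : IsPrimePow q) (hK : Fintype.card K = q ^ 3) :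
    ((Cfsg.Lie.chevD4.borelSubgroup K ⊓ Cfsg.Lie.twistedD4 K q).subgroupOf (Cfsg.Lie.twistedD4 K q)).normalCore = ⊥ := by
  have h0 : ((0 : ℕ) : K) = 0 := by simp
  have hneg : (-1 : K) ^ q = -1 := neg_one_pow_of_card (n := 3) (by norm_num) hK
  have hneg2 : (-1 : K) ^ (q ^ 2) = -1 := by rw [pow_two, pow_mul, hneg, hneg]
  have hd := HOrderTab.hokD4
  rw [← FTabD4.fd_eq] at hd
  have hzA : castW K zA ∈ d4Words K q :=
    Or.inl ⟨1, one_pow q, d4p2, by simp, by simp [castW, zA, d4p2]⟩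
  have hzAm : castW K zAm ∈ d4Words K q :=
    Or.inl ⟨-1, hneg, d4m2, by simp, by simp [castW, zAm, d4m2]⟩
  have hzT : castW K zT ∈ d4Words K q :=
    Or.inr ⟨1, (d4p1, d4p3, d4p4), by simp, by simp [castW, zT, d4p1, d4p3, d4p4]⟩
  have hzTm : castW K zTm ∈ d4Words K q :=
    Or.inr ⟨-1, (d4m1, d4m3, d4m4), by simp, by simp [castW, zTm, d4m1, d4m3, d4m4, hneg, hneg2]⟩
  show ((chevD4.borelSubgroup K ⊓ chevD4.genSubgroup K (d4Words K q)).subgroupOf
    (chevD4.genSubgroup K (d4Words K q))).normalCore = ⊥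
  apply tw_core_of_checks CAll.cfD4 hd blocks lfacts ChevTabD4.tab ChevTabD4.tok
  · intro b hb
    have hb' : b = [1] ∨ b = [0, 2, 3] := by
      simp only [blocks, List.mem_cons, List.not_mem_nil, or_false] at hb
      tauto
    rcases hb' with rfl | rfl
    · apply nw_mem_gen CAll.cfD4.af 0 h0 ChevTabD4.tab ChevTabD4.tok _ _ (by decide)
        [zA, zAm, zA] ?_ chk_a
      intro z hz
      simp only [List.mem_cons, List.not_mem_nil, or_false] at hz
      rcases hz with rfl | rfl | rfl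
      · exact hzA
      · exact hzAm
      · exact hzA
    · apply nw_mem_gen CAll.cfD4.af 0 h0 ChevTabD4.tab ChevTabD4.tok _ _ (by decide)
        [zT, zTm, zT] ?_ chk_t
      intro z hz
      simp only [List.mem_cons, List.not_mem_nil, or_false] at hz
      rcases hz with rfl | rfl | rfl
      · exact hzT
      · exact hzTm
      · exact hzT
  · intro j
    have hj : j.val < 4 := j.isLt
    refine ⟨zOf j.val, ?_, pos_ok j.val hj, chk_ent j.val hj⟩
    have h4 : zOf j.val = zA ∨ zOf j.val = zT := by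
      unfold zOf
      split_ifs
      · exact Or.inl rfl
      · exact Or.inr rfl
    rcases h4 with h | h
    · rw [h]; exact hzA
    · rw [h]; exact hzT

end Cfsg.Agent.S1109
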