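import Cfsg.Statements.S1072
import Cfsg.Agent.Lib.Helper19.TwF4S
import Cfsg.Agent.Lib.Helper18.Simple
import Cfsg.Agent.S0319
import Cfsg.Agent.S1050
import Cfsg.Agent.S1112
import Cfsg.Agent.S1113

set_option autoImplicit false
open Cfsg

namespace Cfsg.Agent.S1072

/-- ²F₄(2^(2m+1)) is simple for `m ≥ 1`. -/
theorem result {K : Type*} [Field K] [Fintype K] {m : ℕ} (hm : 1 ≤ m) (hK : Fintype.card K = 2 ^ (2 * m + 1)) :
    IsSimpleGroup ↥(Cfsg.Lie.twistedF4 K (2 ^ m)) ∧ ¬ IsMulCommutative ↥(Cfsg.Lie.twistedF4 K (2 ^ m)) := by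
  obtain ⟨P, hB, hN, hirr, hS⟩ := Cfsg.Agent.Lib.Helper19.TwF4S.bn_irr hK
  have hperf := Cfsg.Agent.S1112.result hK hm
  have hcore := Cfsg.Agent.S1113.result hK
  haveI := Cfsg.Agent.Lib.Helper18.TwSimp.nontrivial_of_bn P hS
  have hsolv : Group.IsSolvable P.B := by
    rw [hB]
    exact Cfsg.Agent.Lib.Helper18.TwSimp.solvable_inf _ _
      (Cfsg.Agent.S1050.result Cfsg.Lie.chevF4 (by simp))
  exact ⟨Cfsg.Agent.S0319.result P hirr hsolv hperf (by rw [hB]; exact hcore),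
    Cfsg.Agent.Lib.Helper18.Simple.not_comm_of_perfect hperf⟩

end Cfsg.Agent.S1072
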