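import Cfsg.Statements.S1074
import Cfsg.Agent.Lib.Helper61.TitsFin

set_option autoImplicit false
open Cfsg

namespace Cfsg.Agent.S1074

open Cfsg.Agent.Lib.Helper61.TitsMain Cfsg.Agent.Lib.Helper61.TitsGrp
open Cfsg.Agent.Lib.Helper61.TitsSimp Cfsg.Agent.Lib.Helper61.TitsG

/-- ²F₄(2)′ has index 2 in ²F₄(2), is simple, and has order `2¹¹ · 3³ · 5² · 13`. -/
theorem result : (commutator ↥(Cfsg.Lie.twistedF4 (ZMod 2) 1)).index = 2 ∧ IsSimpleGroup Cfsg.Lie.TitsGroup ∧ ¬ IsMulCommutative Cfsg.Lie.TitsGroup ∧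
    Nat.card Cfsg.Lie.TitsGroup = 2 ^ 11 * 3 ^ 3 * 5 ^ 2 * 13 := by
  have h := Cfsg.Agent.Lib.Helper61.TitsFin.final G K K_le_G index_two simpleK not_commK
    17971200 cardK
  exact ⟨h.1, h.2.1, h.2.2.1, h.2.2.2.trans (by norm_num)⟩

end Cfsg.Agent.S1074
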