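-- Statement S1080: field automorphisms of Chevalley groups.
import Cfsg.Statements.S1080
import Cfsg.Agent.H18.ChevMap

set_option autoImplicit false
open Cfsg

namespace Cfsg.Agent.S1080

open Cfsg.Lie Cfsg.Agent.H18

/-- Field automorphisms: for every field automorphism `f` there is a group automorphism sending each `x_r(t)` to `x_r(f t)`. -/
theorem result {F : Type*} [Field F] (D : Cfsg.Lie.ChevalleyDatum) (hD : D ∈ [Cfsg.Lie.chevG2, Cfsg.Lie.chevB2, Cfsg.Lie.chevD4, Cfsg.Lie.chevF4, Cfsg.Lie.chevE6, Cfsg.Lie.chevE7, Cfsg.Lie.chevE8]) (f : F ≃+* F) :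
    ∃ α : ↥(D.group F) ≃* ↥(D.group F), ∀ (g : ↥(D.group F)) (r : ℕ) (t : F), r < D.nroots →
      ((g : GL D.Idx F) : Matrix D.Idx D.Idx F) = D.x F r t → ((α g : GL D.Idx F) : Matrix D.Idx D.Idx F) = D.x F r (f t) := by
  let φ : GL D.Idx F ≃* GL D.Idx F := Units.mapEquiv (RingEquiv.mapMatrix f).toMulEquiv
  have hφ : ∀ g : GL D.Idx F,
      ((φ g : GL D.Idx F) : Matrix D.Idx D.Idx F) = (g : Matrix D.Idx D.Idx F).map f := fun g => rfl
  have hφs : ∀ g : GL D.Idx F,
      ((φ.symm g : GL D.Idx F) : Matrix D.Idx D.Idx F) = (g : Matrix D.Idx D.Idx F).map f.symm :=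
    fun g => rfl
  have hmap : (D.group F).map φ.toMonoidHom = D.group F := by
    unfold ChevalleyDatum.group
    rw [MonoidHom.map_closure]
    congr 1
    ext g
    constructor
    · rintro ⟨g', ⟨r, t, hg'⟩, rfl⟩
      refine ⟨r, f t, ?_⟩
      rw [MulEquiv.coe_toMonoidHom, hφ, hg']
      exact xMat_map D (f : F →+* F) r t
    · rintro ⟨r, t, hg⟩
      refine ⟨φ.symm g, ⟨r, f.symm t, ?_⟩, by simp⟩
      rw [hφs, hg]
      exact xMat_map D (f.symm : F →+* F) r t
  refine ⟨(φ.subgroupMap (D.group F)).trans (MulEquiv.subgroupCongr hmap), ?_⟩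
  intro g r t hr hg
  have : (((φ.subgroupMap (D.group F)).trans (MulEquiv.subgroupCongr hmap) g : GL D.Idx F) :
      Matrix D.Idx D.Idx F) = ((g : GL D.Idx F) : Matrix D.Idx D.Idx F).map f := rfl
  rw [this, hg]
  exact x_map D (f : F →+* F) r t

end Cfsg.Agent.S1080
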