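import Cfsg.Statements.S1096
import Cfsg.Agent.Lib.Helper18.All2
import Cfsg.Agent.Lib.Helper36.ChevDG2
import Cfsg.Agent.Lib.Helper36.ChevDB2
import Cfsg.Agent.Lib.Helper36.ChevDD4
import Cfsg.Agent.Lib.Helper36.ChevDF4
import Cfsg.Agent.Lib.Helper36.ChevDE6
import Cfsg.Agent.Lib.Helper36.ChevDE7
import Cfsg.Agent.Lib.Helper36.ChevDE8
import Cfsg.Agent.Lib.Helper19.CoxRootG2
import Cfsg.Agent.Lib.Helper19.CoxRootB2
import Cfsg.Agent.Lib.Helper19.CoxRootD4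
import Cfsg.Agent.Lib.Helper19.CoxRootF4
import Cfsg.Agent.Lib.Helper19.CoxRootE6
import Cfsg.Agent.Lib.Helper19.CoxRootE7
import Cfsg.Agent.Lib.Helper19.CoxRootE8
import Cfsg.Agent.Lib.Helper19.CoxH

set_option autoImplicit false
open Cfsg

namespace Cfsg.Agent.S1096

/-- `n_p h_{p_j}(t) n_p⁻¹ = h_{w_p(p_j)}(t)` for fundamental `p`, `p_j` and `t ≠ 0`, stated as `n_p h_{p_j}(t) = h_{w_p(p_j)}(t) n_p`. -/
theorem result {F : Type*} [Field F] (D : Cfsg.Lie.ChevalleyDatum) (hD : D ∈ [Cfsg.Lie.chevG2, Cfsg.Lie.chevB2, Cfsg.Lie.chevD4, Cfsg.Lie.chevF4, Cfsg.Lie.chevE6, Cfsg.Lie.chevE7, Cfsg.Lie.chevE8]) (i j : ℕ) (hi : i < D.rank) (hj : j < D.rank) (t : F) (ht : t ≠ 0) :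
    D.nMat F (D.simple i) 1 * D.hMat F (D.simple j) t = D.hMat F (D.reflectRoot i (D.simple j)) t * D.nMat F (D.simple i) 1 := by
  simp only [List.mem_cons, List.not_mem_nil, or_false] at hD
  rcases hD with rfl | rfl | rfl | rfl | rfl | rfl | rfl
  · obtain ⟨A, hF⟩ := Cfsg.Agent.Lib.Helper18.All2.exists_afacts Cfsg.Lie.chevG2 (by simp)
    exact Cfsg.Agent.Lib.Helper19.CoxH.n_conj_h_simple hF Cfsg.Agent.Lib.Helper36.ChevDG2.weylData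
      (Cfsg.Agent.Lib.Helper19.CoxH.neg_of_tabCheck _ _ _ Cfsg.Agent.Lib.Helper19.CoxRootG2.htab)
      i j hi hj t ht
  · obtain ⟨A, hF⟩ := Cfsg.Agent.Lib.Helper18.All2.exists_afacts Cfsg.Lie.chevB2 (by simp)
    exact Cfsg.Agent.Lib.Helper19.CoxH.n_conj_h_simple hF Cfsg.Agent.Lib.Helper36.ChevDB2.weylData
      (Cfsg.Agent.Lib.Helper19.CoxH.neg_of_tabCheck _ _ _ Cfsg.Agent.Lib.Helper19.CoxRootB2.htab)
      i j hi hj t ht
  · obtain ⟨A, hF⟩ := Cfsg.Agent.Lib.Helper18.All2.exists_afacts Cfsg.Lie.chevD4 (by simp)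
    exact Cfsg.Agent.Lib.Helper19.CoxH.n_conj_h_simple hF Cfsg.Agent.Lib.Helper36.ChevDD4.weylData
      (Cfsg.Agent.Lib.Helper19.CoxH.neg_of_tabCheck _ _ _ Cfsg.Agent.Lib.Helper19.CoxRootD4.htab)
      i j hi hj t ht
  · obtain ⟨A, hF⟩ := Cfsg.Agent.Lib.Helper18.All2.exists_afacts Cfsg.Lie.chevF4 (by simp)
    exact Cfsg.Agent.Lib.Helper19.CoxH.n_conj_h_simple hF Cfsg.Agent.Lib.Helper36.ChevDF4.weylData
      (Cfsg.Agent.Lib.Helper19.CoxH.neg_of_tabCheck _ _ _ Cfsg.Agent.Lib.Helper19.CoxRootF4.htab)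
      i j hi hj t ht
  · obtain ⟨A, hF⟩ := Cfsg.Agent.Lib.Helper18.All2.exists_afacts Cfsg.Lie.chevE6 (by simp)
    exact Cfsg.Agent.Lib.Helper19.CoxH.n_conj_h_simple hF Cfsg.Agent.Lib.Helper36.ChevDE6.weylData
      (Cfsg.Agent.Lib.Helper19.CoxH.neg_of_tabCheck _ _ _ Cfsg.Agent.Lib.Helper19.CoxRootE6.htab)
      i j hi hj t ht
  · obtain ⟨A, hF⟩ := Cfsg.Agent.Lib.Helper18.All2.exists_afacts Cfsg.Lie.chevE7 (by simp)
    exact Cfsg.Agent.Lib.Helper19.CoxH.n_conj_h_simple hF Cfsg.Agent.Lib.Helper36.ChevDE7.weylData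
      (Cfsg.Agent.Lib.Helper19.CoxH.neg_of_tabCheck _ _ _ Cfsg.Agent.Lib.Helper19.CoxRootE7.htab)
      i j hi hj t ht
  · obtain ⟨A, hF⟩ := Cfsg.Agent.Lib.Helper18.All2.exists_afacts Cfsg.Lie.chevE8 (by simp)
    exact Cfsg.Agent.Lib.Helper19.CoxH.n_conj_h_simple hF Cfsg.Agent.Lib.Helper36.ChevDE8.weylData
      (Cfsg.Agent.Lib.Helper19.CoxH.neg_of_tabCheck _ _ _ Cfsg.Agent.Lib.Helper19.CoxRootE8.htab)
      i j hi hj t ht

end Cfsg.Agent.S1096
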