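import Cfsg.Statements.S1099
import Cfsg.Agent.Lib.Helper19.GraphAutG2
import Cfsg.Agent.Lib.Helper36.ChevUAll
import Cfsg.Agent.S1055

set_option autoImplicit false
open Cfsg

namespace Cfsg.Agent.S1099

/-- Graph automorphism of G₂ in characteristic 3 (K perfect): `x_a(t) ↦ x_b(t³)`, `x_b(t) ↦ x_a(t)`, `x_{-a}(t) ↦ x_{-b}(t³)`, `x_{-b}(t) ↦ x_{-a}(t)` extend to an automorphism of the group. -/
theorem result {K : Type*} [Field K] [CharP K 3] (hperf : ∀ x : K, ∃ y : K, y ^ 3 = x) :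
    ∃ α : ↥(Cfsg.Lie.chevG2.group K) ≃* ↥(Cfsg.Lie.chevG2.group K), ∀ (g : ↥(Cfsg.Lie.chevG2.group K)) (t : K),
      (((g : GL Cfsg.Lie.chevG2.Idx K) : Matrix _ _ K) = Cfsg.Lie.chevG2.x K Cfsg.Lie.g2a t →
        ((α g : GL Cfsg.Lie.chevG2.Idx K) : Matrix _ _ K) = Cfsg.Lie.chevG2.x K Cfsg.Lie.g2b (t ^ 3)) ∧
      (((g : GL Cfsg.Lie.chevG2.Idx K) : Matrix _ _ K) = Cfsg.Lie.chevG2.x K Cfsg.Lie.g2b t →
        ((α g : GL Cfsg.Lie.chevG2.Idx K) : Matrix _ _ K) = Cfsg.Lie.chevG2.x K Cfsg.Lie.g2a t) ∧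
      (((g : GL Cfsg.Lie.chevG2.Idx K) : Matrix _ _ K) = Cfsg.Lie.chevG2.x K Cfsg.Lie.g2ma t →
        ((α g : GL Cfsg.Lie.chevG2.Idx K) : Matrix _ _ K) = Cfsg.Lie.chevG2.x K Cfsg.Lie.g2mb (t ^ 3)) ∧
      (((g : GL Cfsg.Lie.chevG2.Idx K) : Matrix _ _ K) = Cfsg.Lie.chevG2.x K Cfsg.Lie.g2mb t →
        ((α g : GL Cfsg.Lie.chevG2.Idx K) : Matrix _ _ K) = Cfsg.Lie.chevG2.x K Cfsg.Lie.g2ma t) := by
  haveI : Fact (Nat.Prime 3) := ⟨by norm_num⟩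
  have hD : Cfsg.Lie.chevG2 ∈ [Cfsg.Lie.chevG2, Cfsg.Lie.chevB2, Cfsg.Lie.chevD4,
      Cfsg.Lie.chevF4, Cfsg.Lie.chevE6, Cfsg.Lie.chevE7, Cfsg.Lie.chevE8] := by simp
  have hinvx := (Cfsg.Agent.Lib.Helper36.ChevUAll.facts (F := K) Cfsg.Lie.chevG2 hD).inv
  have hA := Cfsg.Agent.Lib.Helper19.GraphAutG2.agrees
  have hInvG := Cfsg.Agent.Lib.Helper19.GraphAut.chev_inv
    (G := Cfsg.Agent.Lib.Helper19.GraphAutG2.gd) hA 3 hinvx
    Cfsg.Agent.Lib.Helper19.GraphAutG2.hI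
  have h2 : (2 : K) ≠ 0 := by
    intro h
    have h3 : ((2 : ℕ) : K) = 0 := by exact_mod_cast h
    have := (CharP.cast_eq_zero_iff K 3 2).mp h3
    omega
  have hsimple := (Cfsg.Agent.S1055.result (F := K) ⟨-1, by simp, by
    intro h
    apply h2
    have e : (2 : K) = 1 - (-1) := by ring
    rw [e, h]
    ring⟩).1
  have hnt : ∃ g ∈ Cfsg.Lie.chevG2.group K,
      Cfsg.Agent.Lib.Helper19.BlockRel.blk
        (Cfsg.Agent.Lib.Helper19.GraphAut.cI Cfsg.Agent.Lib.Helper19.GraphAutG2.gd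
          Cfsg.Lie.chevG2)
        ((g : GL Cfsg.Lie.chevG2.Idx K) : Matrix Cfsg.Lie.chevG2.Idx Cfsg.Lie.chevG2.Idx K)
          ≠ 1 := by
    refine ⟨Cfsg.Agent.Lib.Helper36.ChevGen.xU Cfsg.Lie.chevG2 hinvx 7 1,
      Cfsg.Agent.Lib.Helper36.ChevGen.mem_group Cfsg.Lie.chevG2 _ 7 1 rfl, ?_⟩
    intro h
    have h1 := congrFun (congrFun h ⟨Sum.inr ⟨7, by decide⟩, rfl⟩) ⟨Sum.inr ⟨4, by decide⟩, rfl⟩
    rw [Matrix.one_apply_ne (by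
      intro e
      have := congrArg Subtype.val e
      simp at this)] at h1
    have h4 : Cfsg.Lie.chevG2.x K 7 1 (Sum.inr ⟨7, by decide⟩) (Sum.inr ⟨4, by decide⟩)
        = -1 := by
      rw [Cfsg.Agent.Lib.Helper36.ChevGen.x_lt Cfsg.Lie.chevG2 7 (by decide),
        Cfsg.Agent.Lib.Helper18.XMat.xMat_apply_aux hA ⟨7, by decide⟩ (1 : K)
          (Sum.inr ⟨7, by decide⟩) (Sum.inr ⟨4, by decide⟩) 7 4 rfl rfl]
      have := Cfsg.Agent.Lib.Helper19.GraphAutG2.ent_7_4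
      unfold Cfsg.Agent.Lib.Helper19.GraphAut.ent at this
      rw [this]
      simp
    have h5 : (-1 : K) = 0 := h4.symm.trans h1
    simp at h5
  have hfaith := Cfsg.Agent.Lib.Helper19.GraphRel.faith_of_simple
    (Cfsg.Lie.chevG2.group K) hInvG hsimple hnt
  have hodd : ∀ r < Cfsg.Agent.Lib.Helper18.FTabG2.fd.n,
      Odd (Cfsg.Agent.Lib.Helper19.GraphAutG2.gd.lam r) := by decide
  obtain ⟨α, hα⟩ := Cfsg.Agent.Lib.Helper19.GraphAut.chev_exists_aut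
    (G := Cfsg.Agent.Lib.Helper19.GraphAutG2.gd) hA 3 hinvx
    Cfsg.Agent.Lib.Helper19.GraphAutG2.hsw Cfsg.Agent.Lib.Helper19.GraphAutG2.hbar
    Cfsg.Agent.Lib.Helper19.GraphAutG2.hI Cfsg.Agent.Lib.Helper19.GraphAutG2.hR hperf
    (fun r hr t => (hodd r hr).neg_pow t) hfaith
  refine ⟨α, fun g t => ⟨?_, ?_, ?_, ?_⟩⟩
  · intro hg
    exact hα g Cfsg.Lie.g2a t (by decide) hg
  · intro hg
    have := hα g Cfsg.Lie.g2b t (by decide) hg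
    rw [this]
    show Cfsg.Lie.chevG2.x K 7 (t ^ 1) = Cfsg.Lie.chevG2.x K Cfsg.Lie.g2a t
    rw [pow_one]
    rfl
  · intro hg
    exact hα g Cfsg.Lie.g2ma t (by decide) hg
  · intro hg
    have := hα g Cfsg.Lie.g2mb t (by decide) hg
    rw [this]
    show Cfsg.Lie.chevG2.x K 4 (t ^ 1) = Cfsg.Lie.chevG2.x K Cfsg.Lie.g2ma t
    rw [pow_one]
    rfl

end Cfsg.Agent.S1099
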