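import Cfsg.Statements.S1103
import Cfsg.Agent.Lib.Helper19.TwQuotChev
import Cfsg.Agent.Lib.Helper19.CoxFoldE6
import Cfsg.Agent.Lib.Helper19.CoxRootE6
import Cfsg.Agent.Lib.Helper18.TwE6
import Cfsg.Agent.Lib.Helper36.ChevDE6

set_option autoImplicit false
open Cfsg

namespace Cfsg.Agent.S1103

/-- `N¹/H¹ ≅ W¹`: a surjective homomorphism from `N¹ = G¹ ∩ N` onto the Coxeter group of type F₄ with kernel `H¹`. -/
theorem result {K : Type*} [Field K] [Fintype K] {q : ℕ} (hq : IsPrimePow q) (hK : Fintype.card K = q ^ 2) :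
    ∃ φ : ↥(Cfsg.Lie.chevE6.monomialSubgroup K ⊓ Cfsg.Lie.twistedE6 K q) →* (CoxeterMatrix.F₄).Group, Function.Surjective φ ∧
      φ.ker = (Cfsg.Lie.chevE6.diagonalSubgroup K ⊓ Cfsg.Lie.twistedE6 K q).subgroupOf (Cfsg.Lie.chevE6.monomialSubgroup K ⊓ Cfsg.Lie.twistedE6 K q) := by
  obtain ⟨φ, hφ⟩ := Cfsg.Agent.Lib.Helper18.TwG.exists_frob hq (by norm_num : 0 < 2) hK
  have hC := Cfsg.Agent.Lib.Helper18.CAll.cfE6
  obtain ⟨π, -, hker, hπ⟩ := Cfsg.Agent.Lib.Helper19.CoxRootE6.hom (F := K) hC.af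
    Cfsg.Agent.Lib.Helper36.ChevDE6.weylData
  have hG1 : Cfsg.Lie.twistedE6 K q ≤ Cfsg.Agent.Lib.Helper18.Tw0.fixS
      Cfsg.Agent.Lib.Helper18.TwE6.okP hC.af.agrees φ := by
    rw [Cfsg.Agent.Lib.Helper18.TwE6.twE6_eq φ hφ (Cfsg.Agent.Lib.Helper18.TwG.pow_card_pow hK)]
    exact Cfsg.Agent.Lib.Helper18.Tw4.GamS_le_fix hC Cfsg.Agent.Lib.Helper18.TwE6.okP
      Cfsg.Agent.Lib.Helper18.TwE6.okL φ Cfsg.Agent.Lib.Helper18.TwE6.linvE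
      Cfsg.Agent.Lib.Helper18.TwE6.hlinvE _ Cfsg.Agent.Lib.Helper18.TwE6.blkE
  have hmemG : ∀ S ∈ [Cfsg.Agent.Lib.Helper18.TwE6.b1, Cfsg.Agent.Lib.Helper18.TwE6.b3,
        Cfsg.Agent.Lib.Helper18.TwE6.b24, Cfsg.Agent.Lib.Helper18.TwE6.b05],
      (S.map (Cfsg.Agent.Lib.Helper18.WGroup.ng hC.af K)).prod ∈ Cfsg.Lie.twistedE6 K q := by
    intro S hS
    rw [Cfsg.Agent.Lib.Helper18.TwE6.twE6_eq φ hφ (Cfsg.Agent.Lib.Helper18.TwG.pow_card_pow hK),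
      ← Cfsg.Agent.Lib.Helper18.Tw4.nw_plain_eq_prod hC]
    exact (Cfsg.Agent.Lib.Helper18.Tw4.GamS_gok hC φ Cfsg.Agent.Lib.Helper18.TwE6.linvE _
      Cfsg.Agent.Lib.Helper18.TwE6.blkE hS).nmem
  apply Cfsg.Agent.Lib.Helper19.TwQuotChev.twisted_quot hC Cfsg.Agent.Lib.Helper18.TwE6.okP
    Cfsg.Agent.Lib.Helper18.TwE6.okL φ (Cfsg.Lie.twistedE6 K q) hG1 (n := 6) rfl
    CoxeterMatrix.E₆ π hker hπ Cfsg.Agent.Lib.Helper19.CoxFoldE6.rhoHom (by decide) ?_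
    Cfsg.Agent.Lib.Helper19.CoxFoldE6.psi Cfsg.Agent.Lib.Helper19.CoxFoldE6.psi_injective
    Cfsg.Agent.Lib.Helper19.CoxFoldE6.fix_range
    (Set.range (CoxeterMatrix.F₄).toCoxeterSystem.simple)
    (CoxeterSystem.subgroup_closure_range_simple _) ?_
  · intro i
    exact Cfsg.Agent.Lib.Helper19.CoxFoldE6.rhoHom_simple i
  · rintro s ⟨k, rfl⟩
    fin_cases k
    · refine ⟨[1], by decide, hmemG _ (by simp [Cfsg.Agent.Lib.Helper18.TwE6.b1]), ?_⟩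
      rw [Cfsg.Agent.Lib.Helper19.CoxFoldE6.psi_simple]
      simp [Cfsg.Agent.Lib.Helper19.CoxFoldE6.blocks, Cfsg.Agent.Lib.Helper19.CoxUpper.wd,
        CoxeterSystem.wordProd]
    · refine ⟨[3], by decide, hmemG _ (by simp [Cfsg.Agent.Lib.Helper18.TwE6.b3]), ?_⟩
      rw [Cfsg.Agent.Lib.Helper19.CoxFoldE6.psi_simple]
      simp [Cfsg.Agent.Lib.Helper19.CoxFoldE6.blocks, Cfsg.Agent.Lib.Helper19.CoxUpper.wd,
        CoxeterSystem.wordProd]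
    · refine ⟨[2, 4], by decide, hmemG _ (by simp [Cfsg.Agent.Lib.Helper18.TwE6.b24]), ?_⟩
      rw [Cfsg.Agent.Lib.Helper19.CoxFoldE6.psi_simple]
      simp [Cfsg.Agent.Lib.Helper19.CoxFoldE6.blocks, Cfsg.Agent.Lib.Helper19.CoxUpper.wd,
        CoxeterSystem.wordProd]
    · refine ⟨[0, 5], by decide, hmemG _ (by simp [Cfsg.Agent.Lib.Helper18.TwE6.b05]), ?_⟩
      rw [Cfsg.Agent.Lib.Helper19.CoxFoldE6.psi_simple]
      simp [Cfsg.Agent.Lib.Helper19.CoxFoldE6.blocks, Cfsg.Agent.Lib.Helper19.CoxUpper.wd,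
        CoxeterSystem.wordProd]

end Cfsg.Agent.S1103
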