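import Cfsg.Statements.S1106
import Cfsg.Agent.Lib.Helper18.TwD4H

set_option autoImplicit false
open Cfsg

namespace Cfsg.Agent.S1106

/-- `|H¹| = |G¹ ∩ H|`: `|H¹| = (q - 1) ^ 2 * (q ^ 2 + q + 1)` for ³D₄(q). -/
theorem result {K : Type*} [Field K] [Fintype K] {q : ℕ} (hq : IsPrimePow q) (hK : Fintype.card K = q ^ 3) :
    Nat.card ↥(Cfsg.Lie.chevD4.diagonalSubgroup K ⊓ Cfsg.Lie.twistedD4 K q) = (q - 1) ^ 2 * (q ^ 2 + q + 1) := by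
  rw [Cfsg.Agent.Lib.Helper18.TwD4H.card_H_D4 hq hK]
  obtain ⟨k, rfl⟩ : ∃ k, q = k + 1 := ⟨q - 1, by have := hq.one_lt; omega⟩
  have h1 : (k + 1) ^ 3 - 1 = k * ((k + 1) ^ 2 + (k + 1) + 1) := by
    apply Nat.sub_eq_of_eq_add
    ring
  rw [h1, Nat.add_sub_cancel]
  ring

end Cfsg.Agent.S1106
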