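import Cfsg.Statements.S1111
import Cfsg.Agent.Lib.Helper19.TwSigF4
import Cfsg.Agent.Lib.Helper19.CoxFoldF4
import Cfsg.Agent.Lib.Helper19.CoxRootF4
import Cfsg.Agent.Lib.Helper18.Tw4
import Cfsg.Agent.Lib.Helper36.ChevDF4
import Cfsg.Agent.S1113

set_option autoImplicit false
open Cfsg

namespace Cfsg.Agent.S1111

/-- `N¹/H¹ ≅ W¹`: a surjective homomorphism from `N¹ = G¹ ∩ N` onto the dihedral group of order 16 with kernel `H¹`. -/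
theorem result {K : Type*} [Field K] [Fintype K] {m : ℕ} (hK : Fintype.card K = 2 ^ (2 * m + 1)) :
    ∃ φ : ↥(Cfsg.Lie.chevF4.monomialSubgroup K ⊓ Cfsg.Lie.twistedF4 K (2 ^ m)) →* DihedralGroup 8, Function.Surjective φ ∧
      φ.ker = (Cfsg.Lie.chevF4.diagonalSubgroup K ⊓ Cfsg.Lie.twistedF4 K (2 ^ m)).subgroupOf (Cfsg.Lie.chevF4.monomialSubgroup K ⊓ Cfsg.Lie.twistedF4 K (2 ^ m)) := by
  have hC := Cfsg.Agent.Lib.Helper18.CAll.cfF4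
  obtain ⟨π, -, hker, hπ⟩ := Cfsg.Agent.Lib.Helper19.CoxRootF4.hom (F := K) hC.af
    Cfsg.Agent.Lib.Helper36.ChevDF4.weylData
  obtain ⟨φ, σ, hφ, hσ⟩ := Cfsg.Agent.Lib.Helper19.TwSigF4.exists_sig hK
  have hG1 := Cfsg.Agent.Lib.Helper19.TwSigF4.f4_fix hK hφ hσ
  have h2 : ((2 : ℕ) : K) = 0 :=
    Cfsg.Agent.Lib.Helper19.TwCore.natCast_eq_zero_of_card Nat.prime_two hK
  have h2' : (2 : K) = 0 := by exact_mod_cast h2
  have hx : ∀ x : K, -x = x := by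
    intro x
    linear_combination (-x) * h2'
  have hneg : ∀ r < Cfsg.Lie.chevF4.nroots, ∀ t : K,
      (-t) ^ Cfsg.Agent.Lib.Helper19.GraphAutF4.gd.lam r =
        -(t ^ Cfsg.Agent.Lib.Helper19.GraphAutF4.gd.lam r) := by
    intro r _ t
    rw [hx, hx]
  have he : (2 ^ m : ℕ) ≠ 0 := pow_ne_zero m (by norm_num)
  have hzP : Cfsg.Agent.Lib.Helper19.TwGlue.castW K Cfsg.Agent.S1113.zP ∈
      Cfsg.Lie.f4Words K (2 ^ m) :=
    Or.inl ⟨1, Or.inl (by simp [Cfsg.Agent.Lib.Helper19.TwGlue.castW, Cfsg.Agent.S1113.zP,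
      Cfsg.Lie.f4PairWord, Cfsg.Lie.f4p1, Cfsg.Lie.f4p4])⟩
  have hzPm : Cfsg.Agent.Lib.Helper19.TwGlue.castW K Cfsg.Agent.S1113.zPm ∈
      Cfsg.Lie.f4Words K (2 ^ m) :=
    Or.inl ⟨1, Or.inr (by simp [Cfsg.Agent.Lib.Helper19.TwGlue.castW, Cfsg.Agent.S1113.zPm,
      Cfsg.Lie.f4PairWord, Cfsg.Lie.f4m1, Cfsg.Lie.f4m4])⟩
  have hzU : Cfsg.Agent.Lib.Helper19.TwGlue.castW K Cfsg.Agent.S1113.zU ∈
      Cfsg.Lie.f4Words K (2 ^ m) :=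
    Or.inr ⟨0, 1, Or.inl (by simp [Cfsg.Agent.Lib.Helper19.TwGlue.castW, Cfsg.Agent.S1113.zU,
      Cfsg.Lie.b2ClassWord, Cfsg.Lie.f4a, Cfsg.Lie.f4b, Cfsg.Lie.f4ab, Cfsg.Lie.f4aab, he])⟩
  have hzV : Cfsg.Agent.Lib.Helper19.TwGlue.castW K Cfsg.Agent.S1113.zV ∈
      Cfsg.Lie.f4Words K (2 ^ m) :=
    Or.inr ⟨0, 1, Or.inr (by simp [Cfsg.Agent.Lib.Helper19.TwGlue.castW, Cfsg.Agent.S1113.zV,
      Cfsg.Lie.b2ClassWord, Cfsg.Lie.f4ma, Cfsg.Lie.f4mb, Cfsg.Lie.f4mab, Cfsg.Lie.f4maab, he])⟩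
  have hmemA : Cfsg.Agent.Lib.Helper18.Long.nw hC.af K (Cfsg.Agent.Lib.Helper18.Long.plain [0, 3]) ∈
      Cfsg.Lie.twistedF4 K (2 ^ m) := by
    apply Cfsg.Agent.Lib.Helper19.TwGlue.nw_mem_gen hC.af 2 h2
      Cfsg.Agent.Lib.Helper36.ChevTabF4.tab Cfsg.Agent.Lib.Helper36.ChevTabF4.tok _ _ (by decide)
      [Cfsg.Agent.S1113.zP, Cfsg.Agent.S1113.zPm, Cfsg.Agent.S1113.zP] ?_
      Cfsg.Agent.S1113.chk_pair
    intro z hz
    simp only [List.mem_cons, List.not_mem_nil, or_false] at hz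
    rcases hz with rfl | rfl | rfl
    · exact hzP
    · exact hzPm
    · exact hzP
  have hmemB : Cfsg.Agent.Lib.Helper18.Long.nw hC.af K
      (Cfsg.Agent.Lib.Helper18.Long.plain [1, 2, 1, 2]) ∈ Cfsg.Lie.twistedF4 K (2 ^ m) := by
    apply Cfsg.Agent.Lib.Helper19.TwGlue.nw_mem_gen hC.af 2 h2
      Cfsg.Agent.Lib.Helper36.ChevTabF4.tab Cfsg.Agent.Lib.Helper36.ChevTabF4.tok _ _ (by decide)
      [Cfsg.Agent.S1113.zU, Cfsg.Agent.S1113.zV, Cfsg.Agent.S1113.zU, Cfsg.Agent.S1113.zV,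
        Cfsg.Agent.S1113.zU] ?_ Cfsg.Agent.S1113.chk_b2
    intro z hz
    simp only [List.mem_cons, List.not_mem_nil, or_false] at hz
    rcases hz with rfl | rfl | rfl | rfl | rfl
    · exact hzU
    · exact hzV
    · exact hzU
    · exact hzV
    · exact hzU
  have hrange : ∀ g : (CoxeterMatrix.F₄).Group, Cfsg.Agent.Lib.Helper19.CoxFoldF4.rhoHom g = g →
      g ∈ Cfsg.Agent.Lib.Helper19.CoxFoldF4.fixSub.subtype.range := by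
    intro g hg
    exact ⟨⟨g, (Cfsg.Agent.Lib.Helper19.CoxFoldF4.mem_fixSub g).mpr hg⟩, rfl⟩
  have hA : ∃ wd : List ℕ, (∀ i ∈ wd, i < 4) ∧
      (wd.map (Cfsg.Agent.Lib.Helper18.WGroup.ng hC.af K)).prod ∈ Cfsg.Lie.twistedF4 K (2 ^ m) ∧
      Cfsg.Agent.Lib.Helper19.CoxFoldF4.a =
        (wd.map (fun i => if h : i < 4 then (CoxeterMatrix.F₄).simple ⟨i, h⟩ else 1)).prod := by
    refine ⟨[0, 3], by decide, ?_, ?_⟩
    · rw [← Cfsg.Agent.Lib.Helper18.Tw4.nw_plain_eq_prod hC]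
      exact hmemA
    · simp [Cfsg.Agent.Lib.Helper19.CoxFoldF4.a, Cfsg.Agent.Lib.Helper19.CoxFoldF4.wp,
        Cfsg.Agent.Lib.Helper19.CoxUpper.wd, CoxeterSystem.wordProd]
  have hB : ∃ wd : List ℕ, (∀ i ∈ wd, i < 4) ∧
      (wd.map (Cfsg.Agent.Lib.Helper18.WGroup.ng hC.af K)).prod ∈ Cfsg.Lie.twistedF4 K (2 ^ m) ∧
      Cfsg.Agent.Lib.Helper19.CoxFoldF4.b =
        (wd.map (fun i => if h : i < 4 then (CoxeterMatrix.F₄).simple ⟨i, h⟩ else 1)).prod := by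
    refine ⟨[1, 2, 1, 2], by decide, ?_, ?_⟩
    · rw [← Cfsg.Agent.Lib.Helper18.Tw4.nw_plain_eq_prod hC]
      exact hmemB
    · simp [Cfsg.Agent.Lib.Helper19.CoxFoldF4.b, Cfsg.Agent.Lib.Helper19.CoxFoldF4.wp,
        Cfsg.Agent.Lib.Helper19.CoxUpper.wd, CoxeterSystem.wordProd]
  obtain ⟨φ', hsurj, hker'⟩ := Cfsg.Agent.Lib.Helper19.TwSig.sig_quot hC hσ
    Cfsg.Agent.Lib.Helper19.TwSigF4.hbar hneg (Cfsg.Lie.twistedF4 K (2 ^ m)) hG1 (n := 4) rfl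
    CoxeterMatrix.F₄ π hker hπ Cfsg.Agent.Lib.Helper19.CoxFoldF4.rhoHom
    Cfsg.Agent.Lib.Helper19.CoxFoldF4.lperm Cfsg.Agent.Lib.Helper19.CoxFoldF4.hl
    (fun i => Cfsg.Agent.Lib.Helper19.CoxFoldF4.rhoHom_simple i)
    (fun i hi => Cfsg.Agent.Lib.Helper19.TwSigF4.hls i hi)
    Cfsg.Agent.Lib.Helper19.CoxFoldF4.fixSub.subtype (Subgroup.subtype_injective _)
    hrange _ Cfsg.Agent.Lib.Helper19.CoxFoldF4.closure_eq_top (by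
      intro s hs
      rcases Set.mem_insert_iff.mp hs with h | h
      · rw [h]
        exact hA
      · rw [Set.mem_singleton_iff.mp h]
        exact hB)
  obtain ⟨e⟩ := Cfsg.Agent.Lib.Helper19.CoxFoldF4.fix_iso
  refine ⟨e.toMonoidHom.comp φ', e.surjective.comp hsurj, ?_⟩
  rw [← hker']
  ext x
  simp [MonoidHom.mem_ker]

end Cfsg.Agent.S1111
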