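-- Statement S1124 (helper19).
import Cfsg.Statements.S1124
import Cfsg.Agent.Lib.Helper19.OddInv

set_option autoImplicit false
open scoped Pointwise
open Cfsg

namespace Cfsg.Agent.S1124

/-- Let `t` be an element of order 2 of a finite group normalising a subgroup `X` of odd order, `Y = C_X(t)` and `Z` the set of elements of `X` inverted by `t`. Then `(y, z) ↦ y z` is a bijection `Y × Z → X`, so `|X| = |Y| |Z|`, and the subgroup generated by `Z` is normal in `X`. -/
theorem result {M : Type*} [Group M] [Finite M]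
    (t : M) (ht : orderOf t = 2) (X : Subgroup M) (hodd : Odd (Nat.card X))
    (hnorm : ∀ x ∈ X, t * x * t⁻¹ ∈ X) :
    (∀ x ∈ X, ∃! p : M × M, p.1 ∈ X ⊓ Subgroup.centralizer {t} ∧ p.2 ∈ Cfsg.invertedBy X t ∧ x = p.1 * p.2) ∧
      Nat.card X = Nat.card ↥(X ⊓ Subgroup.centralizer {t}) * Nat.card (Cfsg.invertedBy X t) ∧
      ∀ x ∈ X, MulAut.conj x • Subgroup.closure (Cfsg.invertedBy X t) = Subgroup.closure (Cfsg.invertedBy X t) := by
  have ht2 : t * t = 1 := by
    have := pow_orderOf_eq_one t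
    rwa [ht, pow_two] at this
  refine ⟨fun x hx => Cfsg.Agent.Lib.Helper19.OddInv.exists_unique_factorization ht2 hodd hnorm hx,
    Cfsg.Agent.Lib.Helper19.OddInv.card_eq_card_centralizer_mul_card_invertedBy ht2 hodd hnorm, ?_⟩
  intro x hx
  have key : ∀ y ∈ X, MulAut.conj y • Subgroup.closure (Cfsg.invertedBy X t) ≤ Subgroup.closure (Cfsg.invertedBy X t) := by
    intro y hy w hw
    rw [Subgroup.mem_pointwise_smul_iff_inv_smul_mem] at hw
    have h1 : (MulAut.conj y)⁻¹ • w = y⁻¹ * w * y := by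
      simp [MulAut.smul_def]
    rw [h1] at hw
    have h2 := Cfsg.Agent.Lib.Helper19.OddInv.conj_mem_closure_invertedBy ht2 hodd hnorm hy hw
    simpa [mul_assoc] using h2
  apply le_antisymm (key x hx)
  intro w hw
  rw [Subgroup.mem_pointwise_smul_iff_inv_smul_mem]
  have h1 : (MulAut.conj x)⁻¹ • w = x⁻¹ * w * x := by
    simp [MulAut.smul_def]
  rw [h1]
  have h2 := Cfsg.Agent.Lib.Helper19.OddInv.conj_mem_closure_invertedBy ht2 hodd hnorm (inv_mem hx) hw
  simpa [mul_assoc] using h2

end Cfsg.Agent.S1124
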