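-- Statement S1127 (helper19).
import Cfsg.Statements.S1127
import Cfsg.Agent.Lib.Helper19.RankOne2

set_option autoImplicit false
open Cfsg

namespace Cfsg.Agent.S1127

open MulAction
open Cfsg.Agent.Lib.Helper19.OddInv Cfsg.Agent.Lib.Helper19.OddInv2 Cfsg.Agent.Lib.Helper19.RankOne
open Cfsg.Agent.Lib.Helper19.RankOne2

theorem part1_le {G Ω : Type*} [Group G] [Finite G] [MulAction G Ω] {a : Ω} {t : G} {Q : Subgroup G}
    (hS : Cfsg.IsRankOneSetup G Ω a t Q) {s r : G}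
    (hs : s ∈ Cfsg.involutionsIn (stabilizer G a : Set G)) (hr : r ∈ Q) (h : t * s * t = r⁻¹ * t * r) :
    (stabilizer G a ⊓ stabilizer G (t • a)) ⊓ Subgroup.centralizer {t} ≤
      (stabilizer G a ⊓ stabilizer G (t • a)) ⊓ Subgroup.centralizer {s} := by
  intro d hd
  obtain ⟨hdD, hdt⟩ := Subgroup.mem_inf.mp hd
  refine Subgroup.mem_inf.mpr ⟨hdD, ?_⟩
  have htd : t * d = d * t := (Subgroup.mem_centralizer_iff.mp hdt) t (Set.mem_singleton t)
  have hda : d ∈ stabilizer G a := D_le hS hdD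
  have htd' : d⁻¹ * t = t * d⁻¹ := by
    calc d⁻¹ * t = d⁻¹ * (t * d) * d⁻¹ := by group
      _ = d⁻¹ * (d * t) * d⁻¹ := by rw [htd]
      _ = t * d⁻¹ := by group
  have hs2 : d * s * d⁻¹ ∈ Cfsg.involutionsIn (stabilizer G a : Set G) :=
    ⟨mul_mem (mul_mem hda hs.1) (inv_mem hda), conj_ne_one hs.2.1, conj_mul_self hs.2.2⟩
  have hr2 : d * r * d⁻¹ ∈ Q := hS.conj_mem d hda r hr
  have h2 : t * (d * s * d⁻¹) * t = (d * r * d⁻¹)⁻¹ * t * (d * r * d⁻¹) := by
    calc t * (d * s * d⁻¹) * t = (t * d) * s * (d⁻¹ * t) := by group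
      _ = (d * t) * s * (t * d⁻¹) := by rw [htd, htd']
      _ = d * (t * s * t) * d⁻¹ := by group
      _ = d * (r⁻¹ * t * r) * d⁻¹ := by rw [h]
      _ = d * r⁻¹ * (t * d⁻¹) * d * r * d⁻¹ := by group
      _ = d * r⁻¹ * (d⁻¹ * t) * d * r * d⁻¹ := by rw [htd']
      _ = (d * r * d⁻¹)⁻¹ * t * (d * r * d⁻¹) := by group
  obtain ⟨h3, -⟩ := structure_unique hS hs2 hr2 h2 hs hr h
  rw [Subgroup.mem_centralizer_iff]
  intro x hx
  rw [Set.mem_singleton_iff] at hx
  subst hx
  calc x * d = d * (d⁻¹ * x * d) := by group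
    _ = d * (d⁻¹ * (d * x * d⁻¹) * d) := by rw [h3]
    _ = d * x := by group

theorem part1 {G Ω : Type*} [Group G] [Finite G] [MulAction G Ω] {a : Ω} {t : G} {Q : Subgroup G}
    (hS : Cfsg.IsRankOneSetup G Ω a t Q) {s r : G}
    (hs : s ∈ Cfsg.involutionsIn (stabilizer G a : Set G)) (hr : r ∈ Q) (h : t * s * t = r⁻¹ * t * r) :
    (stabilizer G a ⊓ stabilizer G (t • a)) ⊓ Subgroup.centralizer {t} =
      (stabilizer G a ⊓ stabilizer G (t • a)) ⊓ Subgroup.centralizer {s} := by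
  apply le_antisymm (part1_le hS hs hr h)
  intro d hd
  obtain ⟨hdD, hds⟩ := Subgroup.mem_inf.mp hd
  have hsd : s * d = d * s := (Subgroup.mem_centralizer_iff.mp hds) s (Set.mem_singleton s)
  obtain ⟨p, ⟨hp1, hp2, hp3⟩, -⟩ :=
    exists_unique_factorization hS.mul_self hS.odd_card (fun x hx => t_conj_mem_D hS hx) hdD
  obtain ⟨y, z⟩ := p
  simp only at hp1 hp2 hp3
  have hy := part1_le hS hs hr h hp1
  have hsy : s * y = y * s :=
    (Subgroup.mem_centralizer_iff.mp (Subgroup.mem_inf.mp hy).2) s (Set.mem_singleton s)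
  have hsz : z⁻¹ * s * z = s := by
    have h1 : s * (y * z) = (y * z) * s := by rw [← hp3]; exact hsd
    have h2 : y * (s * z) = y * (z * s) := by
      calc y * (s * z) = (y * s) * z := by group
        _ = (s * y) * z := by rw [hsy]
        _ = s * (y * z) := by group
        _ = (y * z) * s := h1
        _ = y * (z * s) := by group
    have h3 : s * z = z * s := mul_left_cancel h2
    calc z⁻¹ * s * z = z⁻¹ * (s * z) := by group
      _ = z⁻¹ * (z * s) := by rw [h3]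
      _ = s := by group
  have hrel : Rel Q t s 1 := ⟨r⁻¹, inv_mem hr, by rw [h]; group⟩
  have hrel2 := rel_conj hS hp2 hrel
  rw [hsz] at hrel2
  have h1K : (1 : G) ∈ Cfsg.invertedBy (stabilizer G a ⊓ stabilizer G (t • a)) t := one_mem_invertedBy _
  have h4 := rel_unique_right hS h1K (mul_mul_mem_invertedBy hp2 h1K) hrel hrel2
  have hz1 : z = 1 := by
    apply sq_inj_of_odd hS.odd_card hp2.1 (one_mem _)
    rw [pow_two, one_pow]
    calc z * z = z * 1 * z := by group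
      _ = 1 := h4.symm
  rw [hp3, hz1, mul_one]
  exact hp1

/-- In the rank-one set-up (`G` finite and doubly transitive on `Ω`, `t` an involution moving `a`, `Q` normal in `G_a` with `G_a = Q D`, `Q ⊓ D = 1` for the two-point stabiliser `D = G_a ⊓ G_{t • a}`, `|Q|` even, `|D|` odd): if `s` is an involution of `G_a` and `r ∈ Q` satisfy `t s t = r⁻¹ t r`, then `C_D(t) = C_D(s)`; moreover `C_D(t) ⊓ C_D(K) = C_D(I ∩ G_a)`, where `K` is the set of elements of `D` inverted by `t` and `I ∩ G_a` the set of involutions of `G_a`. -/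
theorem result {G Ω : Type*} [Group G] [Finite G] [MulAction G Ω] {a : Ω} {t : G} {Q : Subgroup G}
    (hS : Cfsg.IsRankOneSetup G Ω a t Q) :
    (∀ s r : G, s ∈ Cfsg.involutionsIn (MulAction.stabilizer G a : Set G) → r ∈ Q → t * s * t = r⁻¹ * t * r →
        (MulAction.stabilizer G a ⊓ MulAction.stabilizer G (t • a)) ⊓ Subgroup.centralizer {t} = (MulAction.stabilizer G a ⊓ MulAction.stabilizer G (t • a)) ⊓ Subgroup.centralizer {s}) ∧
      (MulAction.stabilizer G a ⊓ MulAction.stabilizer G (t • a)) ⊓ Subgroup.centralizer {t} ⊓ Subgroup.centralizer (Cfsg.invertedBy (MulAction.stabilizer G a ⊓ MulAction.stabilizer G (t • a)) t) =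
        (MulAction.stabilizer G a ⊓ MulAction.stabilizer G (t • a)) ⊓ Subgroup.centralizer (Cfsg.involutionsIn (MulAction.stabilizer G a : Set G)) := by
  refine ⟨fun s r hs hr h => part1 hS hs hr h, ?_⟩
  obtain ⟨s₀, r₀, hs₀, hr₀, h₀⟩ := structure_exists hS
  have hP1 := part1 hS hs₀ hr₀ h₀
  apply le_antisymm
  · intro d hd
    obtain ⟨hd1, hdK⟩ := Subgroup.mem_inf.mp hd
    have hdD : d ∈ stabilizer G a ⊓ stabilizer G (t • a) := (Subgroup.mem_inf.mp hd1).1
    refine Subgroup.mem_inf.mpr ⟨hdD, ?_⟩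
    rw [hP1] at hd1
    have hs₀d : s₀ * d = d * s₀ :=
      (Subgroup.mem_centralizer_iff.mp (Subgroup.mem_inf.mp hd1).2) s₀ (Set.mem_singleton s₀)
    rw [Subgroup.mem_centralizer_iff]
    intro s hs
    obtain ⟨k, hk, hks⟩ := exists_conj_invertedBy hS hs₀ hs
    have hkd : k * d = d * k := (Subgroup.mem_centralizer_iff.mp hdK) k hk
    have hkd' : k⁻¹ * d = d * k⁻¹ := by
      calc k⁻¹ * d = k⁻¹ * (d * k) * k⁻¹ := by group
        _ = k⁻¹ * (k * d) * k⁻¹ := by rw [hkd]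
        _ = d * k⁻¹ := by group
    rw [← hks]
    calc k⁻¹ * s₀ * k * d = k⁻¹ * s₀ * (k * d) := by group
      _ = k⁻¹ * (s₀ * d) * k := by rw [hkd]; group
      _ = (k⁻¹ * d) * s₀ * k := by rw [hs₀d]; group
      _ = d * (k⁻¹ * s₀ * k) := by rw [hkd']; group
  · intro d hd
    obtain ⟨hdD, hdI⟩ := Subgroup.mem_inf.mp hd
    have hdI' := Subgroup.mem_centralizer_iff.mp hdI
    have hs₀d : s₀ * d = d * s₀ := hdI' s₀ hs₀
    have hdt : d ∈ (stabilizer G a ⊓ stabilizer G (t • a)) ⊓ Subgroup.centralizer {t} := by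
      rw [hP1]
      refine Subgroup.mem_inf.mpr ⟨hdD, ?_⟩
      rw [Subgroup.mem_centralizer_iff]
      intro x hx
      rw [Set.mem_singleton_iff] at hx
      subst hx
      exact hs₀d
    refine Subgroup.mem_inf.mpr ⟨hdt, ?_⟩
    have htd : t * d = d * t :=
      (Subgroup.mem_centralizer_iff.mp (Subgroup.mem_inf.mp hdt).2) t (Set.mem_singleton t)
    have htd2 : t * d * t⁻¹ = d := by rw [htd]; group
    rw [Subgroup.mem_centralizer_iff]
    intro k hk
    have hs₁ := conj_mem_involutionsIn hS hs₀ (D_le hS hk.1)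
    have hs₁d : k⁻¹ * s₀ * k * d = d * (k⁻¹ * s₀ * k) := hdI' _ hs₁
    -- `k d k⁻¹` commutes with `s₀`
    have h1 : s₀ * (k * d * k⁻¹) = (k * d * k⁻¹) * s₀ := by
      calc s₀ * (k * d * k⁻¹) = k * (k⁻¹ * s₀ * k * d) * k⁻¹ := by group
        _ = k * (d * (k⁻¹ * s₀ * k)) * k⁻¹ := by rw [hs₁d]
        _ = (k * d * k⁻¹) * s₀ := by group
    have h2 : k * d * k⁻¹ ∈ (stabilizer G a ⊓ stabilizer G (t • a)) ⊓ Subgroup.centralizer {t} := by
      rw [hP1]
      refine Subgroup.mem_inf.mpr ⟨mul_mem (mul_mem hk.1 hdD) (inv_mem hk.1), ?_⟩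
      rw [Subgroup.mem_centralizer_iff]
      intro x hx
      rw [Set.mem_singleton_iff] at hx
      subst hx
      exact h1
    have h3 : t * (k * d * k⁻¹) = (k * d * k⁻¹) * t :=
      (Subgroup.mem_centralizer_iff.mp (Subgroup.mem_inf.mp h2).2) t (Set.mem_singleton t)
    have h4 : k⁻¹ * d * k = k * d * k⁻¹ := by
      calc k⁻¹ * d * k = (t * k * t⁻¹) * (t * d * t⁻¹) * (t * k * t⁻¹)⁻¹ := by rw [hk.2, htd2]; group
        _ = t * (k * d * k⁻¹) * t⁻¹ := by group
        _ = k * d * k⁻¹ := by rw [h3]; group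
    have h5 : Commute (k ^ 2) d := by
      unfold Commute SemiconjBy
      rw [pow_two]
      calc k * k * d = k * (k * d * k⁻¹) * k := by group
        _ = k * (k⁻¹ * d * k) * k := by rw [h4]
        _ = d * (k * k) := by group
    exact (commute_of_commute_sq hS.odd_card hk.1 h5).eq

end Cfsg.Agent.S1127
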