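-- Statement S1134 (helper19).
import Cfsg.Statements.S1134
import Cfsg.Agent.Lib.Helper19.RankOne4

set_option autoImplicit false
set_option linter.unusedVariables false
open Cfsg

namespace Cfsg.Agent.S1134

open MulAction
open Cfsg.Agent.Lib.Helper19.OddInv Cfsg.Agent.Lib.Helper19.RankOne
open Cfsg.Agent.Lib.Helper19.RankOne2 Cfsg.Agent.Lib.Helper19.RankOne3

/-- In the rank-one set-up (`G` finite and doubly transitive on `Ω`, `t` an involution moving `a`, `Q` normal in `G_a` with `G_a = Q D`, `Q ⊓ D = 1` for the two-point stabiliser `D = G_a ⊓ G_{t • a}`, `|Q|` even, `|D|` odd), with the action faithful and `G` containing two distinct commuting involutions, with `V = C_D(t)`: subsets of `V` conjugate in `G` are conjugate in `V`. -/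
theorem result {G Ω : Type*} [Group G] [Finite G] [MulAction G Ω] [FaithfulSMul G Ω] {a : Ω} {t : G} {Q : Subgroup G}
    (hS : Cfsg.IsRankOneSetup G Ω a t Q)
    (h2 : ∃ x y : G, x ≠ 1 ∧ y ≠ 1 ∧ x ≠ y ∧ x * x = 1 ∧ y * y = 1 ∧ x * y = y * x)
    (X : Set G) (hX : X ⊆ (((MulAction.stabilizer G a ⊓ MulAction.stabilizer G (t • a)) ⊓ Subgroup.centralizer {t} : Subgroup G) : Set G)) (g : G)
    (hY : (fun x => g * x * g⁻¹) '' X ⊆ (((MulAction.stabilizer G a ⊓ MulAction.stabilizer G (t • a)) ⊓ Subgroup.centralizer {t} : Subgroup G) : Set G)) :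
    ∃ v ∈ (MulAction.stabilizer G a ⊓ MulAction.stabilizer G (t • a)) ⊓ Subgroup.centralizer {t}, (fun x => v * x * v⁻¹) '' X = (fun x => g * x * g⁻¹) '' X := by
  have hXD : X ⊆ ((stabilizer G a ⊓ stabilizer G (t • a) : Subgroup G) : Set G) :=
    fun x hx => (Subgroup.mem_inf.mp (hX hx)).1
  have hXt : ∀ x ∈ X, x * t = t * x := fun x hx =>
    ((Subgroup.mem_centralizer_iff.mp (Subgroup.mem_inf.mp (hX hx)).2) t (Set.mem_singleton t)).symm
  have ha : ∀ x ∈ X, x • a = a := fix_a hXD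
  have hb : ∀ x ∈ X, x • (t • a) = t • a := fix_b hXD
  obtain ⟨c, hc, hca⟩ := exists_fixed_t hS
  have hcb : c ≠ t • a := by
    intro h
    rw [h, t_smul_t_smul hS] at hc
    exact t_smul_ne hS hc.symm
  have hcfix : ∀ x ∈ X, x • c = c := fun x hx =>
    smul_eq_of_commute hS hS.ne_one hS.mul_self (hXt x hx) hc
  have h3 : ∃ b c d : Ω, b ≠ c ∧ b ≠ d ∧ c ≠ d ∧ ∀ x ∈ X, x • b = b ∧ x • c = c ∧ x • d = d :=
    ⟨a, t • a, c, (t_smul_ne hS).symm, hca.symm, hcb.symm, fun x hx => ⟨ha x hx, hb x hx, hcfix x hx⟩⟩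
  have hYD : ∀ x ∈ X, g * x * g⁻¹ ∈ (stabilizer G a ⊓ stabilizer G (t • a)) ⊓ Subgroup.centralizer {t} :=
    fun x hx => hY ⟨x, hx, rfl⟩
  have hga : ∀ x ∈ X, x • (g⁻¹ • a) = g⁻¹ • a := by
    intro x hx
    have h1 : (g * x * g⁻¹) • a = a :=
      mem_stabilizer_iff.mp (Subgroup.mem_inf.mp (Subgroup.mem_inf.mp (hYD x hx)).1).1
    rw [mul_smul, mul_smul] at h1
    calc x • (g⁻¹ • a) = g⁻¹ • (g • (x • (g⁻¹ • a))) := (inv_smul_smul g _).symm
      _ = g⁻¹ • a := by rw [h1]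
  have hgb : ∀ x ∈ X, x • (g⁻¹ • (t • a)) = g⁻¹ • (t • a) := by
    intro x hx
    have h1 : (g * x * g⁻¹) • (t • a) = t • a :=
      mem_stabilizer_iff.mp (Subgroup.mem_inf.mp (Subgroup.mem_inf.mp (hYD x hx)).1).2
    rw [mul_smul, mul_smul] at h1
    calc x • (g⁻¹ • (t • a)) = g⁻¹ • (g • (x • (g⁻¹ • (t • a)))) := (inv_smul_smul g _).symm
      _ = g⁻¹ • (t • a) := by rw [h1]
  have hne : g⁻¹ • a ≠ g⁻¹ • (t • a) := fun h => (t_smul_ne hS) (smul_left_cancel g⁻¹ h).symm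
  obtain ⟨c₀, hc₀, e1, e2⟩ :=
    exists_centralizer_smul_smul hS h3 ha hb hga hgb (t_smul_ne hS).symm hne
  have hdD : g * c₀ ∈ stabilizer G a ⊓ stabilizer G (t • a) := by
    refine Subgroup.mem_inf.mpr ⟨?_, ?_⟩
    · rw [mem_stabilizer_iff, mul_smul, e1, smul_inv_smul]
    · rw [mem_stabilizer_iff, mul_smul, e2, smul_inv_smul]
  have hdx : ∀ x ∈ X, (g * c₀) * x * (g * c₀)⁻¹ = g * x * g⁻¹ := by
    intro x hx
    have h1 : x * c₀ = c₀ * x := (Subgroup.mem_centralizer_iff.mp hc₀) x hx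
    calc (g * c₀) * x * (g * c₀)⁻¹ = g * (c₀ * x) * c₀⁻¹ * g⁻¹ := by group
      _ = g * (x * c₀) * c₀⁻¹ * g⁻¹ := by rw [h1]
      _ = g * x * g⁻¹ := by group
  obtain ⟨p, ⟨hp1, hp2, hp3⟩, -⟩ :=
    exists_unique_factorization hS.mul_self hS.odd_card (fun x hx => t_conj_mem_D hS hx) hdD
  obtain ⟨v, k⟩ := p
  simp only at hp1 hp2 hp3
  refine ⟨v, hp1, ?_⟩
  apply Set.image_congr
  intro x hx
  have hxV := hX hx
  have hxt : t * x * t⁻¹ = x := by
    rw [← hXt x hx]; group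
  -- `k x k⁻¹ ∈ V`
  have hkx : k * x * k⁻¹ ∈ (stabilizer G a ⊓ stabilizer G (t • a)) ⊓ Subgroup.centralizer {t} := by
    have h1 : k * x * k⁻¹ = v⁻¹ * (g * x * g⁻¹) * v := by
      rw [← hdx x hx, hp3]; group
    rw [h1]
    exact mul_mem (mul_mem (inv_mem hp1) (hYD x hx)) hp1
  have hkxt : t * (k * x * k⁻¹) = (k * x * k⁻¹) * t :=
    (Subgroup.mem_centralizer_iff.mp (Subgroup.mem_inf.mp hkx).2) t (Set.mem_singleton t)
  have h4 : k⁻¹ * x * k = k * x * k⁻¹ := by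
    calc k⁻¹ * x * k = (t * k * t⁻¹) * (t * x * t⁻¹) * (t * k * t⁻¹)⁻¹ := by rw [hp2.2, hxt]; group
      _ = t * (k * x * k⁻¹) * t⁻¹ := by group
      _ = k * x * k⁻¹ := by rw [hkxt]; group
  have h5 : Commute (k ^ 2) x := by
    unfold Commute SemiconjBy
    rw [pow_two]
    calc k * k * x = k * (k * x * k⁻¹) * k := by group
      _ = k * (k⁻¹ * x * k) * k := by rw [h4]
      _ = x * (k * k) := by group
  have h6 : k * x = x * k := (commute_of_commute_sq hS.odd_card hp2.1 h5).eq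
  show v * x * v⁻¹ = g * x * g⁻¹
  rw [← hdx x hx, hp3]
  calc v * x * v⁻¹ = v * (x * k) * k⁻¹ * v⁻¹ := by group
    _ = v * (k * x) * k⁻¹ * v⁻¹ := by rw [h6]
    _ = (v * k) * x * (v * k)⁻¹ := by group

end Cfsg.Agent.S1134
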