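import Cfsg.Statements.S1139
import Cfsg.Agent.S1137
import Cfsg.Agent.Lib.Helper63.FieldAct
import Cfsg.Agent.Lib.Helper63.TypeARecog

set_option autoImplicit false
open Cfsg

namespace Cfsg.Agent.S1139

open Cfsg.Agent.Lib.Helper63 Cfsg.Agent.Lib.Helper63.Suzuki2

variable {P : Type*} [Group P]

/-- The automorphisms in `K` have no non-trivial fixed points. -/
theorem fpf (h2 : IsPGroup 2 P) {K : Subgroup (MulAut P)} (hS : Setup P K)
    (k : MulAut P) (hk : k ∈ K) (x : P) (hx : k x = x) (hx1 : x ≠ 1) : k = 1 := by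
  classical
  obtain ⟨m, hm⟩ := h2 x
  have hex : ∃ r, x ^ (2 ^ r) = 1 := ⟨m, hm⟩
  obtain ⟨r, hr, hrmin⟩ : ∃ r, x ^ (2 ^ r) = 1 ∧ ∀ q < r, x ^ (2 ^ q) ≠ 1 :=
    ⟨Nat.find hex, Nat.find_spec hex, fun q hq => Nat.find_min hex hq⟩
  have hr0 : r ≠ 0 := by
    rintro rfl
    rw [pow_zero, pow_one] at hr
    exact hx1 hr
  obtain ⟨q, rfl⟩ : ∃ q, r = q + 1 := ⟨r - 1, by omega⟩
  have h1 : x ^ (2 ^ q) ≠ 1 := hrmin q (by omega)
  have h2' : x ^ (2 ^ q) * x ^ (2 ^ q) = 1 := by
    rw [← pow_add, ← two_mul, ← pow_succ']; exact hr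
  exact hS.free k hk _ h1 h2' (by rw [map_pow, hx])

/-- Coordinates on a Suzuki 2-group of order `|Z|²`. -/
theorem coords [Finite P] (h2 : IsPGroup 2 P) {K : Subgroup (MulAut P)} (hS : Setup P K)
    (hZ : ∀ x : P, x ∈ Subgroup.center P ↔ x * x = 1)
    (hcard : Nat.card P = Nat.card (Subgroup.center P) ^ 2) (hnc : ∃ g h : P, g * h ≠ h * g) :
    ∃ (F : Type) (_ : Field F) (_ : Fintype F) (a : P → F) (γ : F → P) (N : F → F),
      Fintype.card F = Nat.card (Subgroup.center P) ∧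
      (∀ g h, a (g * h) = a g + a h) ∧ Function.Surjective a ∧
      (∀ w w', γ (w + w') = γ w * γ w') ∧ Function.Injective γ ∧
      (∀ g, a g = 0 ↔ ∃ w, γ w = g) ∧ (∀ w g, γ w * g = g * γ w) ∧
      (∀ x y, N (x * y) = N x * N y) ∧ Function.Injective N ∧ (∀ g, g * g = γ (N (a g))) := by
  classical
  have hZc : ∀ z ∈ Subgroup.center P, ∀ g : P, g * z = z * g :=
    fun z hz g => Subgroup.mem_center_iff.1 hz g
  have hKZ : ∀ k : MulAut P, ∀ x, x ∈ Subgroup.center P ↔ k x ∈ Subgroup.center P := by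
    intro k x
    rw [hZ, hZ, ← map_mul]
    constructor
    · intro h
      rw [h, map_one]
    · intro h
      exact k.injective (h.trans (map_one k).symm)
  have hK2 : ∀ k ∈ K, ∀ x, x⁻¹ * k x ∈ Subgroup.center P → x ∉ Subgroup.center P → k = 1 := by
    intro k hk x hxz hxZ
    by_contra hk1
    let ψ : Subgroup.center P → Subgroup.center P := fun w =>
      ⟨(w : P) * (k w)⁻¹, mul_mem w.2 (inv_mem ((hKZ k w).1 w.2))⟩
    have hψinj : Function.Injective ψ := by
      intro w w' h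
      have h1 : (w : P) * (k w)⁻¹ = (w' : P) * (k w')⁻¹ := congrArg Subtype.val h
      have h3 : k ((w' : P)⁻¹ * w) = (w' : P)⁻¹ * w := by
        rw [map_mul, map_inv]
        calc (k w')⁻¹ * k w = (w' : P)⁻¹ * ((w' : P) * (k w')⁻¹) * k w := by group
          _ = (w' : P)⁻¹ * ((w : P) * (k w)⁻¹) * k w := by rw [h1]
          _ = (w' : P)⁻¹ * w := by group
      have h4 : (w' : P)⁻¹ * w = 1 := by
        by_contra h
        exact hk1 (fpf h2 hS k hk _ h3 h)
      exact Subtype.ext (inv_mul_eq_one.1 h4).symm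
    have hψsurj := Finite.injective_iff_surjective.1 hψinj
    obtain ⟨w, hw⟩ := hψsurj ⟨x⁻¹ * k x, hxz⟩
    have hw' : (w : P) * (k w)⁻¹ = x⁻¹ * k x := congrArg Subtype.val hw
    have h5 : k (x * w) = x * w := by
      rw [map_mul]
      have h6 : k x = x * ((w : P) * (k w)⁻¹) := by rw [hw']; group
      rw [h6]; group
    have h6 : x * w = 1 := by
      by_contra h
      exact hk1 (fpf h2 hS k hk _ h5 h)
    apply hxZ
    have h7 : x = (w : P)⁻¹ := eq_inv_of_mul_eq_one_left h6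
    rw [h7]
    exact inv_mem w.2
  obtain ⟨x₀, h₀, hgh⟩ := hnc
  have hx₀ : x₀ ∉ Subgroup.center P := fun h => hgh (hZc x₀ h h₀).symm
  -- every element outside the centre is `k x₀ * z`
  have hsurj : ∀ g, g ∉ Subgroup.center P → ∃ k ∈ K, ∃ z ∈ Subgroup.center P, g = k x₀ * z := by
    have hnt : Nontrivial P := ⟨⟨x₀, 1, fun h => hx₀ (h ▸ Subgroup.one_mem _)⟩⟩
    have hfact : Fact (Nat.Prime 2) := ⟨Nat.prime_two⟩
    have hcen : Nontrivial (Subgroup.center P) := h2.center_nontrivial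
    obtain ⟨⟨z₁, hz₁⟩, hz₁ne⟩ := exists_ne (1 : Subgroup.center P)
    have hz₁1 : z₁ ≠ 1 := fun h => hz₁ne (Subtype.ext h)
    have hz₁2 : z₁ * z₁ = 1 := (hZ z₁).1 hz₁
    let S₁ : Set (Subgroup.center P) := {1}ᶜ
    have hκ : ∀ y : S₁, ∃ k ∈ K, k z₁ = ((y : Subgroup.center P) : P) := by
      intro y
      have hy1 : ((y : Subgroup.center P) : P) ≠ 1 := fun h => y.2 (Subtype.ext h)
      exact hS.reg z₁ _ hz₁1 hz₁2 hy1 ((hZ _).1 (y : Subgroup.center P).2)
    choose κ hκK hκz using hκ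
    let Φ : S₁ × Subgroup.center P → P := fun p => κ p.1 x₀ * (p.2 : P)
    have hΦinj : Function.Injective Φ := by
      rintro ⟨y, z⟩ ⟨y', z'⟩ h
      have h1 : κ y x₀ * (z : P) = κ y' x₀ * (z' : P) := h
      have hj : (κ y')⁻¹ * κ y ∈ K := K.mul_mem (K.inv_mem (hκK y')) (hκK y)
      have h2' : x₀⁻¹ * ((κ y')⁻¹ * κ y) x₀ = (κ y')⁻¹ ((z' : P) * (z : P)⁻¹) := by
        have h3 : κ y x₀ = κ y' x₀ * ((z' : P) * (z : P)⁻¹) := by
          rw [← mul_assoc, ← h1]; group
        rw [MulAut.mul_apply, h3, map_mul, MulAut.inv_apply_self]; group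
      have h4 : x₀⁻¹ * ((κ y')⁻¹ * κ y) x₀ ∈ Subgroup.center P := by
        rw [h2']
        exact (hKZ _ _).1 (mul_mem z'.2 (inv_mem z.2))
      have h5 := hK2 _ hj x₀ h4 hx₀
      have h6 : κ y = κ y' := (inv_mul_eq_one.1 h5).symm
      have h7 : ((y : Subgroup.center P) : P) = ((y' : Subgroup.center P) : P) := by
        rw [← hκz y, ← hκz y', h6]
      have h8 : y = y' := Subtype.ext (Subtype.ext h7)
      have h9 : (z : P) = (z' : P) := by
        rw [h6] at h1
        exact mul_left_cancel h1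
      rw [h8, Subtype.ext h9]
    have hsub : Set.range Φ ⊆ ((Subgroup.center P : Set P))ᶜ := by
      rintro _ ⟨⟨y, z⟩, rfl⟩ hmem
      have hmem' : κ y x₀ * (z : P) ∈ Subgroup.center P := hmem
      have h1 : κ y x₀ ∈ Subgroup.center P := by
        have := mul_mem hmem' (inv_mem z.2)
        rwa [mul_inv_cancel_right] at this
      exact hx₀ ((hKZ _ _).2 h1)
    have hq : 0 < Nat.card (Subgroup.center P) := Nat.card_pos
    have hc1 : (Set.range Φ).ncard = (Nat.card (Subgroup.center P) - 1) * Nat.card (Subgroup.center P) := by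
      rw [Set.ncard_range_of_injective hΦinj, Nat.card_prod, Nat.card_coe_set_eq, Set.ncard_compl,
        Set.ncard_singleton]
    have hc2 : (((Subgroup.center P : Set P))ᶜ).ncard
        = Nat.card P - Nat.card (Subgroup.center P) := by
      rw [Set.ncard_compl, ← Nat.card_coe_set_eq (Subgroup.center P : Set P)]
      rfl
    have heq : Set.range Φ = ((Subgroup.center P : Set P))ᶜ := by
      apply Set.eq_of_subset_of_ncard_le hsub
      rw [hc1, hc2, hcard, Nat.sub_mul, one_mul, sq]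
    intro g hg
    have hg' : g ∈ Set.range Φ := by
      rw [heq]
      exact hg
    obtain ⟨⟨y, z⟩, rfl⟩ := hg'
    exact ⟨κ y, hκK y, z, z.2, rfl⟩
  have hsqform : ∀ (k : MulAut P), ∀ z ∈ Subgroup.center P,
      (k x₀ * z) * (k x₀ * z) = k (x₀ * x₀) := by
    intro k z hz
    have c := hZc z hz (k x₀)
    calc (k x₀ * z) * (k x₀ * z) = k x₀ * (z * k x₀) * z := by group
      _ = k x₀ * (k x₀ * z) * z := by rw [← c]
      _ = k x₀ * k x₀ * (z * z) := by group
      _ = k (x₀ * x₀) := by rw [(hZ z).1 hz, mul_one, map_mul]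
  have hx₀sq : x₀ * x₀ ∈ Subgroup.center P := by
    by_contra hcon
    have hstep : ∀ g, g ∉ Subgroup.center P → g * g ∉ Subgroup.center P := by
      intro g hg
      obtain ⟨k, hk, z, hz, rfl⟩ := hsurj g hg
      rw [hsqform k z hz]
      exact fun h => hcon ((hKZ k _).2 h)
    have hpow : ∀ n : ℕ, x₀ ^ (2 ^ n) ∉ Subgroup.center P := by
      intro n
      induction n with
      | zero => rw [pow_zero, pow_one]; exact hx₀
      | succ n ih =>
        have h := hstep _ ih
        rwa [← pow_add, ← two_mul, ← pow_succ'] at h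
    obtain ⟨m, hm⟩ := h2 x₀
    exact hpow m (hm ▸ Subgroup.one_mem _)
  have hsqZ : ∀ g : P, g * g ∈ Subgroup.center P := by
    intro g
    by_cases hg : g ∈ Subgroup.center P
    · rw [(hZ g).1 hg]
      exact Subgroup.one_mem _
    · obtain ⟨k, hk, z, hz, rfl⟩ := hsurj g hg
      rw [hsqform k z hz]
      exact (hKZ k _).1 hx₀sq
  have hz₀1 : x₀ * x₀ ≠ 1 := fun h => hx₀ ((hZ x₀).2 h)
  have hz₀2 : (x₀ * x₀) * (x₀ * x₀) = 1 := (hZ _).1 hx₀sq
  -- the field, from the action on the centre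
  let ρZ : K → Subgroup.center P → Subgroup.center P :=
    fun k z => ⟨(k : MulAut P) z, (hKZ k z).1 z.2⟩
  obtain ⟨F, instF, instFt, γZ, ιZ, hZbij, hZadd₀, hZ1₀, hιZne, hιZsurj, hιZmul, hZact⟩ :=
    @FieldAct.exists_field (Subgroup.center P)
      { (inferInstance : Group (Subgroup.center P)) with
        mul_comm := fun a b => Subtype.ext (hZc b b.2 a) } _ K _ ρZ
      (fun k a b => Subtype.ext (map_mul (k : MulAut P) (a : P) (b : P)))
      (fun k k' a => Subtype.ext rfl) (fun a => Subtype.ext rfl)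
      (fun k k' a => Subtype.ext (DFunLike.congr_fun (hS.comm _ k.2 _ k'.2) (a : P)))
      ⟨x₀ * x₀, hx₀sq⟩ (fun h => hz₀1 (congrArg Subtype.val h))
      (by
        intro a ha
        have ha1 : (a : P) ≠ 1 := fun h => ha (Subtype.ext h)
        obtain ⟨k, hk, hkx⟩ := hS.reg (x₀ * x₀) a hz₀1 hz₀2 ha1 ((hZ a).1 a.2)
        exact ⟨⟨k, hk⟩, Subtype.ext hkx⟩)
  have hZadd : ∀ x y, γZ (x + y) = γZ x * γZ y := hZadd₀
  have hZ1 : γZ 1 = ⟨x₀ * x₀, hx₀sq⟩ := hZ1₀
  have hFcard : Fintype.card F = Nat.card (Subgroup.center P) := by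
    rw [Fintype.card_eq_nat_card]
    exact Nat.card_congr (Equiv.ofBijective γZ hZbij)
  -- the quotient by the centre
  have hVcomm : ∀ v w : P ⧸ Subgroup.center P, v * w = w * v := by
    intro v w
    refine QuotientGroup.induction_on v (fun g => ?_)
    refine QuotientGroup.induction_on w (fun h => ?_)
    rw [← QuotientGroup.mk_mul, ← QuotientGroup.mk_mul, QuotientGroup.eq]
    have e : (g * h)⁻¹ * (h * g) = (h⁻¹ * h⁻¹) * ((h * g⁻¹) * (h * g⁻¹)) * (g * g) := by group
    rw [e]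
    exact mul_mem (mul_mem (hsqZ _) (hsqZ _)) (hsqZ _)
  have hle : ∀ k : K, Subgroup.center P ≤ (Subgroup.center P).comap ((k : MulAut P) : P →* P) :=
    fun k z hz => (hKZ k z).1 hz
  let ρV : K → P ⧸ Subgroup.center P → P ⧸ Subgroup.center P := fun k =>
    QuotientGroup.map (Subgroup.center P) (Subgroup.center P) ((k : MulAut P) : P →* P) (hle k)
  have hρV : ∀ (k : K) (g : P), ρV k (g : P ⧸ Subgroup.center P)
      = (((k : MulAut P) g : P) : P ⧸ Subgroup.center P) := fun k g => rfl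
  have hcardV : Fintype.card F = Nat.card (P ⧸ Subgroup.center P) := by
    rw [hFcard]
    have h1 := Subgroup.card_eq_card_quotient_mul_card_subgroup (Subgroup.center P)
    rw [hcard, sq] at h1
    exact Nat.eq_of_mul_eq_mul_right Nat.card_pos h1
  obtain ⟨γV, ιV, hVbij, hVadd, hV1, hιVne, hιVsurj, hιVmul, hVact⟩ :=
    @FieldAct.exists_coord (P ⧸ Subgroup.center P)
      { (inferInstance : Group (P ⧸ Subgroup.center P)) with mul_comm := hVcomm } _ K _ ρV
      (fun k a b => map_mul _ a b)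
      (fun k k' v => QuotientGroup.induction_on v (fun g => rfl))
      (fun v => QuotientGroup.induction_on v (fun g => rfl))
      (fun k k' v => QuotientGroup.induction_on v (fun g => by
        rw [hρV, hρV, hρV, hρV]
        exact congrArg _ (DFunLike.congr_fun (hS.comm _ k.2 _ k'.2) g)))
      (x₀ : P ⧸ Subgroup.center P) (fun h => hx₀ ((QuotientGroup.eq_one_iff x₀).1 h))
      (by
        intro v
        refine QuotientGroup.induction_on v (fun g => ?_)
        intro hg
        have hg' : g ∉ Subgroup.center P := fun h => hg ((QuotientGroup.eq_one_iff g).2 h)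
        obtain ⟨k, hk, z, hz, rfl⟩ := hsurj g hg'
        refine ⟨⟨k, hk⟩, ?_⟩
        rw [hρV, QuotientGroup.mk_mul, (QuotientGroup.eq_one_iff z).2 hz, mul_one])
      F _ _ hcardV
  have hVadd' : ∀ x y, γV (x + y) = γV x * γV y := hVadd
  have hV1' : γV 1 = (x₀ : P ⧸ Subgroup.center P) := hV1
  have hVact' : ∀ k x, ρV k (γV x) = γV (ιV k * x) := hVact
  have γV0 : γV 0 = 1 := by
    have h := hVadd' 0 0
    rw [add_zero] at h
    exact (left_eq_mul.1 h)
  have γZ0 : γZ 0 = 1 := by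
    have h := hZadd 0 0
    rw [add_zero] at h
    exact (left_eq_mul.1 h)
  let eV : F ≃ (P ⧸ Subgroup.center P) := Equiv.ofBijective γV hVbij
  let eZ : F ≃ Subgroup.center P := Equiv.ofBijective γZ hZbij
  let a : P → F := fun g => eV.symm (g : P ⧸ Subgroup.center P)
  have ha_spec : ∀ g, γV (a g) = (g : P ⧸ Subgroup.center P) := fun g => eV.apply_symm_apply _
  have ha : ∀ g h, a (g * h) = a g + a h := by
    intro g h
    apply hVbij.1
    rw [ha_spec, hVadd', ha_spec, ha_spec]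
    rfl
  have hasurj : Function.Surjective a := by
    intro x
    obtain ⟨g, hg⟩ := QuotientGroup.mk_surjective (γV x)
    exact ⟨g, hVbij.1 (by rw [ha_spec, hg])⟩
  have ha0 : ∀ g, a g = 0 ↔ g ∈ Subgroup.center P := by
    intro g
    rw [← QuotientGroup.eq_one_iff, ← ha_spec g]
    constructor
    · intro h
      rw [h, γV0]
    · intro h
      exact hVbij.1 (h.trans γV0.symm)
  have hsqwd : ∀ g h, a g = a h → g * g = h * h := by
    intro g h hgh
    have h1 : (g : P ⧸ Subgroup.center P) = h := by rw [← ha_spec g, ← ha_spec h, hgh]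
    have hz : g⁻¹ * h ∈ Subgroup.center P := QuotientGroup.eq.1 h1
    have c := hZc _ hz g
    have s := (hZ _).1 hz
    calc g * g = g * ((g⁻¹ * h) * (g⁻¹ * h)) * g := by rw [s, mul_one]
      _ = (g * (g⁻¹ * h)) * ((g⁻¹ * h) * g) := by group
      _ = (g * (g⁻¹ * h)) * (g * (g⁻¹ * h)) := by rw [← c]
      _ = h * h := by group
  have hr : ∀ x, ∃ g, a g = x := hasurj
  choose r hr using hr
  let N : F → F := fun x => eZ.symm ⟨r x * r x, hsqZ _⟩
  have hN : ∀ g, γZ (N (a g)) = ⟨g * g, hsqZ g⟩ := by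
    intro g
    have h1 : γZ (N (a g)) = ⟨r (a g) * r (a g), hsqZ _⟩ := eZ.apply_symm_apply _
    rw [h1]
    exact Subtype.ext (hsqwd _ _ (hr (a g)))
  have hNact : ∀ (k : K) (y : F), N (ιV k * y) = ιZ k * N y := by
    intro k y
    have h1 : a ((k : MulAut P) (r y)) = ιV k * y := by
      apply hVbij.1
      rw [ha_spec, ← hVact', ← hρV]
      congr 1
      rw [← ha_spec (r y), hr]
    apply hZbij.1
    rw [← h1, hN, ← hZact]
    have h2 : γZ (N y) = ⟨r y * r y, hsqZ _⟩ := by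
      have := hN (r y)
      rwa [hr] at this
    rw [h2]
    exact Subtype.ext (map_mul (k : MulAut P) (r y) (r y)).symm
  have hN1 : N 1 = 1 := by
    have h1 : a x₀ = 1 := hVbij.1 (by rw [ha_spec, hV1'])
    apply hZbij.1
    have h2 := hN x₀
    rw [h1] at h2
    rw [h2, hZ1]
  have hNι : ∀ k, N (ιV k) = ιZ k := by
    intro k
    have h := hNact k 1
    rwa [mul_one, hN1, mul_one] at h
  have hN0 : N 0 = 0 := by
    have h1 : a 1 = 0 := (ha0 1).2 (Subgroup.one_mem _)
    apply hZbij.1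
    have h2 := hN 1
    rw [h1] at h2
    rw [h2, γZ0]
    exact Subtype.ext (mul_one 1)
  have hNmul : ∀ x y, N (x * y) = N x * N y := by
    intro x y
    by_cases hx : x = 0
    · rw [hx, zero_mul, hN0, zero_mul]
    · obtain ⟨k, rfl⟩ := hιVsurj x hx
      rw [hNact, hNι]
  have hιZinj : Function.Injective ιZ := by
    intro k k' h
    have h1 : ρZ k ⟨x₀ * x₀, hx₀sq⟩ = ρZ k' ⟨x₀ * x₀, hx₀sq⟩ := by
      rw [← hZ1, hZact, hZact, h]
    have h2 : (k : MulAut P) (x₀ * x₀) = (k' : MulAut P) (x₀ * x₀) := congrArg Subtype.val h1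
    have h3 : ((k' : MulAut P)⁻¹ * k) (x₀ * x₀) = x₀ * x₀ := by
      rw [MulAut.mul_apply, h2, MulAut.inv_apply_self]
    have h4 := hS.free _ (K.mul_mem (K.inv_mem k'.2) k.2) _ hz₀1 hz₀2 h3
    exact Subtype.ext (inv_mul_eq_one.1 h4).symm
  have hNinj : Function.Injective N := by
    intro x y hxy
    by_cases hx : x = 0
    · by_cases hy : y = 0
      · rw [hx, hy]
      · obtain ⟨k, rfl⟩ := hιVsurj y hy
        rw [hx, hN0, hNι] at hxy
        exact absurd hxy.symm (hιZne k)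
    · obtain ⟨k, rfl⟩ := hιVsurj x hx
      by_cases hy : y = 0
      · rw [hy, hN0, hNι] at hxy
        exact absurd hxy (hιZne k)
      · obtain ⟨k', rfl⟩ := hιVsurj y hy
        rw [hNι, hNι] at hxy
        rw [hιZinj hxy]
  refine ⟨F, instF, instFt, a, fun w => (γZ w : P), N, hFcard, ha, fun x => ⟨r x, hr x⟩, ?_,
    Subtype.val_injective.comp hZbij.1, ?_, ?_, hNmul, hNinj, ?_⟩
  · intro w w'
    show ((γZ (w + w') : Subgroup.center P) : P) = (γZ w : P) * (γZ w' : P)
    rw [hZadd]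
    rfl
  · intro g
    rw [ha0]
    constructor
    · intro h
      obtain ⟨w, hw⟩ := hZbij.2 ⟨g, h⟩
      exact ⟨w, congrArg Subtype.val hw⟩
    · rintro ⟨w, rfl⟩
      exact (γZ w).2
  · intro w g
    exact (hZc _ (γZ w).2 g).symm
  · intro g
    exact (congrArg Subtype.val (hN g)).symm

/-- A Suzuki 2-group `P` with `|P| = |Z(P)|²` is of type A: for some finite field `F` with `|F| = |Z(P)|` and some field automorphism `φ ≠ 1` of odd order, `P` is isomorphic to the group of lower unitriangular matrices with rows `(1,0,0)`, `(x,1,0)`, `(y, φ x, 1)`. -/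
theorem result {P : Type*} [Group P] (hP : Cfsg.IsSuzukiTwoGroup P)
    (hcard : Nat.card P = Nat.card (Subgroup.center P) ^ 2) :
    ∃ (F : Type) (_ : Field F) (_ : Fintype F) (φ : F ≃+* F), Fintype.card F = Nat.card (Subgroup.center P) ∧
      φ ≠ RingEquiv.refl F ∧ Odd (orderOf φ) ∧ Nonempty (P ≃* Cfsg.suzukiTypeA F (φ : F →+* F)) := by
  obtain ⟨K, hS⟩ := Cfsg.Agent.S1137.setup_of_suzuki hP
  have h37 := Cfsg.Agent.S1137.result hP
  obtain ⟨hfin, h2, hnc, -, -⟩ := hP
  have : Finite P := hfin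
  have hZ : ∀ x : P, x ∈ Subgroup.center P ↔ x * x = 1 := by
    intro x
    constructor
    · exact h37.2 x
    · intro hx
      by_cases hx1 : x = 1
      · rw [hx1]
        exact Subgroup.one_mem _
      · exact ((h37.1 x).1 ⟨hx1, hx⟩).1
  obtain ⟨F, instF, instFt, a, γ, N, hFcard, ha, hasurj, hγ, hγinj, hker, hcen, hNmul, hNinj, hsq⟩ :=
    coords h2 hS hZ hcard hnc
  obtain ⟨φ, h1, h2', h3⟩ :=
    Cfsg.Agent.Lib.Helper63.TypeARecog.recog a γ N ha hasurj hγ hγinj hker hcen hNmul hNinj hsq hnc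
  exact ⟨F, instF, instFt, φ, hFcard, h1, h2', h3⟩

end Cfsg.Agent.S1139
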