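import Cfsg.Statements.S1141
import Cfsg.Agent.Lib.Helper46.SU3Syl

set_option autoImplicit false
open Cfsg

namespace Cfsg.Agent.S1141

open Cfsg.Agent.Lib.Helper46.SU3Coord Cfsg.Agent.Lib.Helper46.SU3Syl


/-- Let `q = 2^n ≥ 4` and `|F| = q²`. A Sylow 2-subgroup `S` of `PSU₃(q)` has order `q³`, its centre has order `q`, and `S` is a Suzuki 2-group. -/
theorem result {F : Type*} [Field F] [Fintype F] {n : ℕ} (hn : 2 ≤ n)
    (hF : Fintype.card F = (2 ^ n) ^ 2) (S : Sylow 2 (Cfsg.PSU 3 F (2 ^ n))) :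
    Nat.card S = (2 ^ n) ^ 3 ∧ Nat.card (Subgroup.center ↥(S : Subgroup (Cfsg.PSU 3 F (2 ^ n)))) = 2 ^ n ∧
      Cfsg.IsSuzukiTwoGroup ↥(S : Subgroup (Cfsg.PSU 3 F (2 ^ n))) := by
  obtain ⟨φ, hφ, hinv, h2, -, hP⟩ := exists_coord (q := 2 ^ n) (n := n) rfl (by omega) hF
  obtain ⟨C⟩ := hP S
  have h3 : 3 ≤ 2 ^ n := by
    have := Nat.pow_le_pow_right (show 0 < 2 by norm_num) hn
    omega
  exact ⟨card_eq hF C hφ hinv, card_center hF C h2 hφ hinv, isSuzuki hF C h2 hφ hinv h3 n rfl⟩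

end Cfsg.Agent.S1141
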