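import Mathlib
import Cfsg.Statements.S1160
import Cfsg.Agent.S0126
import Cfsg.Agent.Lib.Helper53.PGroupBasics
import Cfsg.Agent.Lib.Helper63.PFrattini

set_option autoImplicit false
open Cfsg

namespace Cfsg.Agent.S1160

open MulAction

section nrm

variable {P E : Type*} [Group P] [AddCommGroup E] [DistribMulAction P E]

/-- The norm operator of `g` of length `p`. -/
def nrm (p : ℕ) (g : P) (v : E) : E := ∑ k ∈ Finset.range p, g ^ k • v

theorem nrm_zero (p : ℕ) (g : P) : nrm p g (0 : E) = 0 := by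
  simp [nrm]

theorem nrm_add (p : ℕ) (g : P) (v w : E) : nrm p g (v + w) = nrm p g v + nrm p g w := by
  simp [nrm, smul_add, Finset.sum_add_distrib]

theorem smul_nrm (p : ℕ) (h g : P) (v : E) :
    h • nrm p g v = nrm p (h * g * h⁻¹) (h • v) := by
  unfold nrm
  rw [Finset.smul_sum]
  apply Finset.sum_congr rfl
  intro k _
  rw [conj_pow, smul_smul, smul_smul]
  congr 1
  group

theorem pow_fixed (g : P) (v : E) (hv : g • v = v) (k : ℕ) : g ^ k • v = v := by
  induction k with
  | zero => simp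
  | succ k ih => rw [pow_succ, mul_smul, hv, ih]

theorem nrm_fixed (p : ℕ) (g : P) (hg : g ^ p = 1) (v : E) : g • nrm p g v = nrm p g v := by
  unfold nrm
  rw [Finset.smul_sum]
  have h1 : ∀ k, g • g ^ k • v = g ^ (k + 1) • v := by
    intro k; rw [smul_smul, pow_succ']
  simp_rw [h1]
  have h2 := Finset.sum_range_succ' (fun k => g ^ k • v) p
  have h3 := Finset.sum_range_succ (fun k => g ^ k • v) p
  rw [h3] at h2
  simp only [hg, pow_zero, one_smul] at h2
  exact (add_right_cancel h2).symm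

theorem nrm_of_fixed (p : ℕ) (g : P) (v : E) (hv : g • v = v) : nrm p g v = p • v := by
  unfold nrm
  simp [pow_fixed g v hv]

theorem nrm_mul_of_fixed (p : ℕ) (u w : P) (hc : u * w = w * u) (v : E) (hv : u • v = v) :
    nrm p (u * w) v = nrm p w v := by
  unfold nrm
  apply Finset.sum_congr rfl
  intro k _
  have hc' : Commute u w := hc
  rw [hc'.mul_pow, (hc'.pow_pow k k).eq, mul_smul, pow_fixed u v hv]

variable [Finite P] {p : ℕ}
  (hconst : ∀ a b : E, a ≠ 0 → b ≠ 0 →
    Nat.card (stabilizer P a) = Nat.card (stabilizer P b))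
  (hfaith : ∀ g : P, (∀ v : E, g • v = v) → g = 1)
  (hpE : ∀ a : E, p • a = 0 → a = 0)
include hconst hfaith hpE

theorem central_fpf (u : P) (hu : ∀ h : P, h * u = u * h) (hup : u ^ p = 1) (hu1 : u ≠ 1)
    (a : E) (ha : u • a = a) : a = 0 := by
  have key : ∀ b : E, nrm p u b ≠ 0 → u • b = b := by
    intro b hb
    have hb0 : b ≠ 0 := by
      rintro rfl; exact hb (nrm_zero p u)
    have hle : stabilizer P b ≤ stabilizer P (nrm p u b) := by
      intro h hh
      rw [mem_stabilizer_iff] at hh ⊢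
      rw [smul_nrm, hh]
      congr 1
      rw [hu h, mul_inv_cancel_right]
    have heq : stabilizer P b = stabilizer P (nrm p u b) :=
      Subgroup.eq_of_le_of_card_ge hle (hconst _ _ hb hb0).le
    have : u ∈ stabilizer P (nrm p u b) := nrm_fixed p u hup b
    rw [← heq] at this
    exact this
  by_contra ha0
  obtain ⟨b, hb⟩ : ∃ b : E, u • b ≠ b := by
    by_contra hcon
    push Not at hcon
    exact hu1 (hfaith u hcon)
  have h1 : nrm p u b = 0 := by
    by_contra h; exact hb (key b h)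
  have h2 : nrm p u (a + b) = 0 := by
    by_contra h
    have := key _ h
    rw [smul_add, ha] at this
    exact hb (add_left_cancel this)
  rw [nrm_add, h1, add_zero, nrm_of_fixed p u a ha] at h2
  exact ha0 (hpE a h2)

theorem central_nrm (u : P) (hu : ∀ h : P, h * u = u * h) (hup : u ^ p = 1) (hu1 : u ≠ 1)
    (b : E) : nrm p u b = 0 :=
  central_fpf hconst hfaith hpE u hu hup hu1 _ (nrm_fixed p u hup b)

theorem sum_nrm [Fact p.Prime] (x z : P) (hz : ∀ h : P, h * z = z * h) (hzp : z ^ p = 1) (hz1 : z ≠ 1)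
    (v : E) : ∑ i ∈ Finset.range p, nrm p (x * z ^ i) v = p • v := by
  have hp : p.Prime := Fact.out
  have h1 : ∀ i k : ℕ, (x * z ^ i) ^ k • v = x ^ k • (z ^ k) ^ i • v := by
    intro i k
    have hc : Commute x (z ^ i) := Commute.pow_right (hz x) i
    rw [hc.mul_pow, mul_smul, ← pow_mul, ← pow_mul, mul_comm]
  unfold nrm
  simp_rw [h1]
  rw [Finset.sum_comm]
  simp_rw [← Finset.smul_sum]
  have h2 : ∀ k ∈ Finset.range p, k ≠ 0 →
      x ^ k • ∑ i ∈ Finset.range p, (z ^ k) ^ i • v = 0 := by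
    intro k hk hk0
    have : nrm p (z ^ k) v = 0 := by
      apply central_nrm hconst hfaith hpE
      · intro h; exact Commute.pow_right (hz h) k
      · rw [← pow_mul, mul_comm, pow_mul, hzp, one_pow]
      · intro h
        have ho : orderOf z = p := orderOf_eq_prime hzp hz1
        have := orderOf_dvd_of_pow_eq_one h
        rw [ho] at this
        exact hk0 (Nat.eq_zero_of_dvd_of_lt this (Finset.mem_range.mp hk))
    unfold nrm at this
    rw [this, smul_zero]
  rw [Finset.sum_eq_single 0]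
  · simp
  · intro k hk hk0; exact h2 k hk hk0
  · intro h; exfalso; exact h (Finset.mem_range.mpr hp.pos)

theorem final [Fact p.Prime] (hp2 : p ≠ 2) (W : Subgroup P)
    (hWc : ∀ w ∈ W, ∀ h : P, h * w = w * h) (hWp : ∀ w ∈ W, w ^ p = 1)
    (x : P) (hxW : ∀ h : P, h * x * h⁻¹ * x⁻¹ ∈ W)
    (a : E) (ha0 : a ≠ 0) (hxa : x • a = a)
    (g : P) (hg : g * x * g⁻¹ ≠ x) : False := by
  have hp : p.Prime := Fact.out
  obtain ⟨y, hy⟩ : ∃ y : P, y = g * x * g⁻¹ * x⁻¹ := ⟨_, rfl⟩
  have hyW : y ∈ W := hy ▸ hxW g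
  have hy1 : y ≠ 1 := by
    intro h
    apply hg
    rw [h] at hy
    exact (mul_inv_eq_one.mp hy.symm)
  have hgx : g * x * g⁻¹ = y * x := by rw [hy]; group
  have nrmW : ∀ w ∈ W, w ≠ 1 → ∀ v : E, nrm p w v = 0 := fun w hw hw1 v =>
    central_nrm hconst hfaith hpE w (hWc w hw) (hWp w hw) hw1 v
  have hpsm : ∀ (h : P) (v : E), h • (p • v) = p • (h • v) := fun h v => smul_comm h p v
  have hp0 : ∀ (h : P) (v : E), p • (h • v) = 0 → v = 0 := by
    intro h v hv
    have := hpE _ hv
    have h2 := congrArg (fun t => h⁻¹ • t) this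
    simpa using h2
  have T1 : ∀ w ∈ W, nrm p (w * x) a = nrm p w a := by
    intro w hw
    rw [← hWc w hw x]
    exact nrm_mul_of_fixed p x w (hWc w hw x) a hxa
  have hfix : (y * x) • g • a = g • a := by
    rw [← hgx, smul_smul]
    have : g * x * g⁻¹ * g = g * x := by group
    rw [this, mul_smul, hxa]
  have T2 : ∀ w ∈ W, nrm p (w * x) (g • a) = nrm p (w * y⁻¹) (g • a) := by
    intro w hw
    have hwy : w * y⁻¹ ∈ W := W.mul_mem hw (W.inv_mem hyW)
    have e : w * x = (y * x) * (w * y⁻¹) := by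
      have h1 := hWc _ hwy x
      calc w * x = y * (w * y⁻¹) * x := by
            rw [hWc _ hwy y]; group
        _ = y * (x * (w * y⁻¹)) := by rw [mul_assoc, ← h1]
        _ = (y * x) * (w * y⁻¹) := by group
    rw [e]
    apply nrm_mul_of_fixed p (y * x) (w * y⁻¹) _ (g • a) hfix
    rw [← hWc _ hwy (y * x)]
  obtain ⟨b, hb⟩ : ∃ b : E, b = a + g • a := ⟨_, rfl⟩
  have T3 : ∀ w ∈ W, nrm p (w * x) b = nrm p w a + nrm p (w * y⁻¹) (g • a) := by
    intro w hw
    rw [hb, nrm_add, T1 w hw, T2 w hw]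
  have hyinv1 : y⁻¹ ≠ 1 := by
    intro h; exact hy1 (inv_eq_one.mp h)
  have hA : nrm p x b = p • a := by
    have := T3 1 W.one_mem
    rw [one_mul, one_mul, nrmW y⁻¹ (W.inv_mem hyW) hyinv1, add_zero,
      nrm_of_fixed p 1 a (one_smul _ _)] at this
    exact this
  have hB : nrm p (y * x) b = p • g • a := by
    have := T3 y hyW
    rw [mul_inv_cancel, nrmW y hyW hy1, zero_add, nrm_of_fixed p 1 _ (one_smul _ _)] at this
    exact this
  have hyy : y * y ≠ 1 := by
    intro h
    have h1 : orderOf y ∣ 2 := orderOf_dvd_of_pow_eq_one (by rw [sq]; exact h)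
    have h2 : orderOf y ∣ p := orderOf_dvd_of_pow_eq_one (hWp y hyW)
    have hcop : Nat.Coprime 2 p := (Nat.coprime_primes Nat.prime_two hp).mpr (Ne.symm hp2)
    have h3 : orderOf y ∣ 1 := by
      have := Nat.dvd_gcd h1 h2
      rwa [hcop.gcd_eq_one] at this
    exact hy1 (orderOf_eq_one_iff.mp (Nat.dvd_one.mp h3))
  have hstab : ∀ h : P, h • b = b → h • a = a := by
    intro h hhb
    obtain ⟨w, hw⟩ : ∃ w : P, w = h * x * h⁻¹ * x⁻¹ := ⟨_, rfl⟩
    have hwW : w ∈ W := hw ▸ hxW h
    have hhx : h * x * h⁻¹ = w * x := by rw [hw]; group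
    have e1 : h • (p • a) = nrm p (w * x) b := by
      rw [← hA, smul_nrm, hhx, hhb]
    by_cases hw1 : w = 1
    · rw [hw1, one_mul, hA, hpsm] at e1
      have h3 : p • (h • a - a) = 0 := by rw [smul_sub, e1, sub_self]
      exact sub_eq_zero.mp (hpE _ h3)
    · exfalso
      by_cases hwy : w = y
      · have e2 : h • (p • g • a) = nrm p (h * (y * x) * h⁻¹) b := by
          rw [← hB, smul_nrm, hhb]
        have e3 : h * (y * x) * h⁻¹ = (y * y) * x := by
          calc h * (y * x) * h⁻¹ = (h * y) * x * h⁻¹ := by group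
            _ = (y * h) * x * h⁻¹ := by rw [hWc y hyW h]
            _ = y * (h * x * h⁻¹) := by group
            _ = y * (w * x) := by rw [hhx]
            _ = (y * y) * x := by rw [hwy]; group
        rw [e3, T3 (y * y) (W.mul_mem hyW hyW), nrmW (y * y) (W.mul_mem hyW hyW) hyy,
          (show y * y * y⁻¹ = y by group), nrmW y hyW hy1, add_zero, hpsm] at e2
        exact ha0 ((smul_eq_zero_iff_eq g).mp (hp0 h _ e2))
      · have hwy1 : w * y⁻¹ ≠ 1 := by
          intro h; exact hwy (mul_inv_eq_one.mp h)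
        rw [T3 w hwW, nrmW w hwW hw1, nrmW _ (W.mul_mem hwW (W.inv_mem hyW)) hwy1, add_zero,
          hpsm] at e1
        exact ha0 (hp0 h a e1)
  have hb0 : b ≠ 0 := by
    intro h
    rw [h, nrm_zero] at hA
    exact ha0 (hpE a hA.symm)
  have hle : stabilizer P b ≤ stabilizer P a := fun h hh => hstab h hh
  have heq : stabilizer P b = stabilizer P a :=
    Subgroup.eq_of_le_of_card_ge hle (hconst a b ha0 hb0).le
  have hxb : x • b = b := by
    have : x ∈ stabilizer P b := by rw [heq]; exact hxa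
    exact this
  rw [hb, smul_add, hxa] at hxb
  have hxga : x • g • a = g • a := add_left_cancel hxb
  have hyga : y • g • a = g • a := by
    have := hfix
    rw [mul_smul, hxga] at this
    exact this
  have := central_fpf hconst hfaith hpE y (hWc y hyW) (hWp y hyW) hy1 _ hyga
  have h2 := congrArg (fun t => g⁻¹ • t) this
  simp at h2
  exact ha0 h2

end nrm

theorem quot_lemma {P : Type*} [Group P] [Finite P] {p : ℕ} [Fact p.Prime] (hP : IsPGroup p P)
    (A : Subgroup P) [hAn : A.Normal] (hAcard : Nat.card A = p ^ 2)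
    (z : P) (hzA : z ∈ A) (hzc : z ∈ Subgroup.center P) (hzo : orderOf z = p)
    (x : P) (hx : x ∈ A) (h : P) : h * x * h⁻¹ * x⁻¹ ∈ Subgroup.zpowers z := by
  have hp : p.Prime := Fact.out
  obtain ⟨K, hK⟩ : ∃ K : Subgroup P, K = Subgroup.zpowers z := ⟨_, rfl⟩
  rw [← hK]
  have hKc : K ≤ Subgroup.center P := by
    rw [hK, Subgroup.zpowers_le]; exact hzc
  have hKn : K.Normal := by
    constructor
    intro n hn g
    have := Subgroup.mem_center_iff.mp (hKc hn) g
    rw [this, mul_inv_cancel_right]; exact hn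
  have hKA : K ≤ A := by
    rw [hK, Subgroup.zpowers_le]; exact hzA
  have hKcard : Nat.card K = p := by rw [hK, Nat.card_zpowers, hzo]
  have hNn : (A.map (QuotientGroup.mk' K)).Normal :=
    Subgroup.Normal.map hAn _ (QuotientGroup.mk'_surjective K)
  have hNcard : Nat.card (A.map (QuotientGroup.mk' K)) = p := by
    have h1 : (A.map (QuotientGroup.mk' K)).index = A.index := by
      rw [Subgroup.index_map, QuotientGroup.ker_mk', sup_of_le_left hKA,
        MonoidHom.range_eq_top_of_surjective _ (QuotientGroup.mk'_surjective K),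
        Subgroup.index_top, mul_one]
    have h2 := Subgroup.card_mul_index (A.map (QuotientGroup.mk' K))
    have h3 := Subgroup.card_mul_index A
    have h4 := Subgroup.card_eq_card_quotient_mul_card_subgroup K
    rw [h1] at h2
    rw [hKcard] at h4
    rw [hAcard] at h3
    have h5 : 0 < A.index := Nat.pos_of_ne_zero Subgroup.index_ne_zero_of_finite
    have h6 : Nat.card (A.map (QuotientGroup.mk' K)) * A.index * p = p * A.index * p := by
      rw [h2, ← h4]
      rw [← h3]; ring
    have h7 := Nat.eq_of_mul_eq_mul_right hp.pos h6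
    exact Nat.eq_of_mul_eq_mul_right h5 h7
  have hQ : IsPGroup p (P ⧸ K) := hP.to_quotient K
  have hle := Cfsg.Agent.Lib.Helper63.PFrattini.normal_card_prime_le_center hQ
    (A.map (QuotientGroup.mk' K)) hNcard
  have hπx : QuotientGroup.mk' K x ∈ Subgroup.center (P ⧸ K) :=
    hle (Subgroup.mem_map_of_mem _ hx)
  have h8 : QuotientGroup.mk' K (h * x * h⁻¹ * x⁻¹) = 1 := by
    rw [map_mul, map_mul, map_mul, map_inv, map_inv]
    have := Subgroup.mem_center_iff.mp hπx (QuotientGroup.mk' K h)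
    rw [this]; group
  rwa [← MonoidHom.mem_ker, QuotientGroup.ker_mk'] at h8

theorem noncyclic_false {P E : Type*} [Group P] [Finite P]
    [AddCommGroup E] [DistribMulAction P E]
    {p : ℕ} [Fact p.Prime] (hp2 : p ≠ 2) (hP : IsPGroup p P)
    (hconst : ∀ a b : E, a ≠ 0 → b ≠ 0 →
      Nat.card (MulAction.stabilizer P a) = Nat.card (MulAction.stabilizer P b))
    (hfaith : ∀ g : P, (∀ v : E, g • v = v) → g = 1)
    (hpE : ∀ a : E, p • a = 0 → a = 0)
    (a0 : E) (ha0 : a0 ≠ 0) (hnc : ¬ IsCyclic P) : False := by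
  have hp : p.Prime := Fact.out
  obtain ⟨A, hAn, ⟨hAc, hAe⟩, hAcard⟩ := Cfsg.Agent.S0126.result hp2 hP hnc
  have hAne : A ≠ ⊥ := by
    intro h
    rw [h, Subgroup.card_bot] at hAcard
    have : 1 < p ^ 2 := Nat.one_lt_pow (by norm_num) hp.one_lt
    omega
  obtain ⟨z, hzA, hz1, hzc⟩ :=
    Cfsg.Agent.Lib.Helper53.PGroupBasics.exists_center_mem_normal hP A hAne
  have hzp : z ^ p = 1 := hAe z hzA
  have hzo : orderOf z = p := orderOf_eq_prime hzp hz1
  have hzc' : ∀ h : P, h * z = z * h := fun h => Subgroup.mem_center_iff.mp hzc h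
  have hWc : ∀ w ∈ Subgroup.zpowers z, ∀ h : P, h * w = w * h := by
    rintro w ⟨k, rfl⟩ h
    exact Commute.zpow_right (hzc' h) k
  have hWp : ∀ w ∈ Subgroup.zpowers z, w ^ p = 1 := by
    rintro w ⟨k, rfl⟩
    show (z ^ k) ^ p = 1
    rw [← zpow_natCast, ← zpow_mul, mul_comm, zpow_mul, zpow_natCast, hzp, one_zpow]
  have hquot : ∀ x ∈ A, ∀ h : P, h * x * h⁻¹ * x⁻¹ ∈ Subgroup.zpowers z :=
    fun x hx h => quot_lemma hP A hAcard z hzA hzc hzo x hx h
  obtain ⟨x, hxA, hxW⟩ : ∃ x ∈ A, x ∉ Subgroup.zpowers z := by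
    by_contra hcon
    push Not at hcon
    have hle : A ≤ Subgroup.zpowers z := hcon
    have := Subgroup.card_le_of_le hle
    rw [hAcard, Nat.card_zpowers, hzo] at this
    have h2 := hp.two_le
    nlinarith
  have hsum := sum_nrm hconst hfaith hpE x z hzc' hzp hz1 a0
  obtain ⟨i, hi, hne⟩ : ∃ i ∈ Finset.range p, nrm p (x * z ^ i) a0 ≠ 0 := by
    by_contra hcon
    push Not at hcon
    rw [Finset.sum_eq_zero hcon] at hsum
    exact ha0 (hpE a0 hsum.symm)
  have hx'A : x * z ^ i ∈ A := A.mul_mem hxA (A.pow_mem hzA i)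
  have hx'p : (x * z ^ i) ^ p = 1 := hAe _ hx'A
  have hxa : (x * z ^ i) • nrm p (x * z ^ i) a0 = nrm p (x * z ^ i) a0 :=
    nrm_fixed p _ hx'p a0
  have hnc' : ∃ g : P, g * (x * z ^ i) * g⁻¹ ≠ x * z ^ i := by
    by_contra hcon
    push Not at hcon
    have hx'1 : x * z ^ i ≠ 1 := by
      intro h
      apply hxW
      have : x = (z ^ i)⁻¹ := eq_inv_of_mul_eq_one_left h
      rw [this]
      exact Subgroup.inv_mem _ (Subgroup.pow_mem _ (Subgroup.mem_zpowers z) i)
    exact hne (central_fpf hconst hfaith hpE (x * z ^ i)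
      (fun h => mul_inv_eq_iff_eq_mul.mp (hcon h)) hx'p hx'1 _ hxa)
  obtain ⟨g, hg⟩ := hnc'
  exact final hconst hfaith hpE hp2 (Subgroup.zpowers z) hWc hWp (x * z ^ i)
    (hquot _ hx'A) _ hne hxa g hg

theorem result {P E : Type*} [Group P] [Finite P]
    [AddCommGroup E] [Finite E] [DistribMulAction P E] [FaithfulSMul P E]
    {p q : ℕ} [Fact p.Prime] (hp2 : p ≠ 2) (hP : IsPGroup p P) (hq : q.Prime) (hE : ∀ e : E, q • e = 0)
    (hconst : ∀ a b : E, a ≠ 0 → b ≠ 0 →
      Nat.card (MulAction.stabilizer P a) = Nat.card (MulAction.stabilizer P b)) :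
    IsCyclic P ∧ ∀ g : P, g ≠ 1 → ∀ a : E, g • a = a → a = 0 := by
  have hp : p.Prime := Fact.out
  have hfaith : ∀ g : P, (∀ v : E, g • v = v) → g = 1 := by
    intro g hg
    apply FaithfulSMul.eq_of_smul_eq_smul (α := E)
    intro v; rw [hg v, one_smul]
  have htriv : (∀ g : P, g = 1) →
      (IsCyclic P ∧ ∀ g : P, g ≠ 1 → ∀ a : E, g • a = a → a = 0) := by
    intro hs
    have : Subsingleton P := ⟨fun g h => by rw [hs g, hs h]⟩
    exact ⟨inferInstance, fun g hg => absurd (hs g) hg⟩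
  by_cases hE0 : ∀ a : E, a = 0
  · apply htriv
    intro g
    exact hfaith g (fun v => (hE0 (g • v)).trans (hE0 v).symm)
  push Not at hE0
  obtain ⟨a0, ha0⟩ := hE0
  by_cases hqp : q = p
  · apply htriv
    have hdvd : p ∣ Nat.card E := by
      have : addOrderOf a0 = p := addOrderOf_eq_prime (hqp ▸ hE a0) ha0
      rw [← this]; exact addOrderOf_dvd_natCard a0
    obtain ⟨b, hb, hb0⟩ := hP.exists_fixed_point_of_prime_dvd_card_of_fixed_point E hdvd
      (a := 0) (by intro g; exact smul_zero g)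
    have hall : ∀ a : E, a ≠ 0 → ∀ g : P, g • a = a := by
      intro a ha g
      have h1 : stabilizer P b = ⊤ := by
        rw [eq_top_iff]; intro g _; exact hb g
      have h2 : Nat.card (stabilizer P a) = Nat.card P := by
        rw [hconst a b ha (Ne.symm hb0), h1]; exact Subgroup.card_top
      have h3 : stabilizer P a = ⊤ := (Subgroup.card_eq_iff_eq_top _).mp h2
      have : g ∈ stabilizer P a := by rw [h3]; trivial
      exact this
    intro g
    apply hfaith
    intro v
    by_cases hv : v = 0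
    · rw [hv, smul_zero]
    · exact hall v hv g
  have hpE : ∀ a : E, p • a = 0 → a = 0 := by
    intro a ha
    have hcop : Nat.Coprime p q := (Nat.coprime_primes hp hq).mpr (Ne.symm hqp)
    have h1 : addOrderOf a ∣ p := addOrderOf_dvd_of_nsmul_eq_zero ha
    have h2 : addOrderOf a ∣ q := addOrderOf_dvd_of_nsmul_eq_zero (hE a)
    have h3 : addOrderOf a ∣ 1 := by
      have := Nat.dvd_gcd h1 h2
      rwa [hcop.gcd_eq_one] at this
    exact AddMonoid.addOrderOf_eq_one_iff.mp (Nat.dvd_one.mp h3)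
  have hcyc : IsCyclic P := by
    by_contra hnc
    exact noncyclic_false hp2 hP hconst hfaith hpE a0 ha0 hnc
  refine ⟨hcyc, ?_⟩
  intro g hg a hga
  obtain ⟨k, hk⟩ := hP g
  obtain ⟨m, -, hm⟩ := (Nat.dvd_prime_pow hp).mp (orderOf_dvd_of_pow_eq_one hk)
  have hm0 : m ≠ 0 := by
    rintro rfl
    rw [pow_zero, orderOf_eq_one_iff] at hm
    exact hg hm
  obtain ⟨m', rfl⟩ := Nat.exists_eq_succ_of_ne_zero hm0
  have hwp : (g ^ (p ^ m')) ^ p = 1 := by
    rw [← pow_mul, ← pow_succ, ← hm, pow_orderOf_eq_one]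
  have hw1 : g ^ (p ^ m') ≠ 1 := by
    intro h
    have := orderOf_dvd_of_pow_eq_one h
    rw [hm] at this
    have := (Nat.pow_dvd_pow_iff_le_right hp.one_lt).mp this
    omega
  have hwc : ∀ h : P, h * g ^ (p ^ m') = g ^ (p ^ m') * h := by
    intro h
    obtain ⟨c, hc⟩ := IsCyclic.exists_generator (α := P)
    obtain ⟨i, hi⟩ := Subgroup.mem_zpowers_iff.mp (hc h)
    obtain ⟨j, hj⟩ := Subgroup.mem_zpowers_iff.mp (hc (g ^ (p ^ m')))
    rw [← hj, ← hi]
    exact (Commute.refl c).zpow_zpow i j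
  exact central_fpf hconst hfaith hpE _ hwc hwp hw1 a (pow_fixed g a hga _)

end Cfsg.Agent.S1160
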