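import Cfsg.Statements.S1165
import Cfsg.Agent.Lib.Helper20.RankOne

set_option autoImplicit false
open Cfsg

namespace Cfsg.Agent.S1165

/-- In the rank-one set-up (`G` finite and doubly transitive on `Ω`, `t` an involution moving `a`, `Q` normal in `G_a` with `G_a = Q D`, `Q ⊓ D = 1` for the two-point stabiliser `D = G_a ⊓ G_{t • a}`, `|Q|` even, `|D|` odd): every `x ∈ Q`, `x ≠ 1`, determines unique `g, f ∈ Q`, `h ∈ D` with `t x t = g h t f` (a consequence of the canonical form). For these: (H1) the `f`-part of `x⁻¹` is `g⁻¹`; (H2) the `f`-part of `f` is `x`; (H3) for `a ∈ D` the `f`-part of `a⁻¹ x a` is `(t a t)⁻¹ f (t a t)`; (H4) the `h`-part of `a⁻¹ x a` is `(t a t)⁻¹ h a`, that of `x⁻¹` is `t h⁻¹ t`, and that of `f` is `h⁻¹`. -/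
theorem result {G Ω : Type*} [Group G] [Finite G] [MulAction G Ω] {a : Ω} {t : G} {Q : Subgroup G}
    (hS : Cfsg.IsRankOneSetup G Ω a t Q)
    (x g h f : G) (hx : x ∈ Q) (hx1 : x ≠ 1) (hg : g ∈ Q) (hh : h ∈ (MulAction.stabilizer G a ⊓ MulAction.stabilizer G (t • a))) (hf : f ∈ Q)
    (heq : t * x * t = g * h * t * f) :
    (∀ g₁ h₁ f₁ : G, g₁ ∈ Q → h₁ ∈ (MulAction.stabilizer G a ⊓ MulAction.stabilizer G (t • a)) → f₁ ∈ Q → t * x⁻¹ * t = g₁ * h₁ * t * f₁ →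
        f₁ = g⁻¹ ∧ h₁ = t * h⁻¹ * t) ∧
      (∀ g₂ h₂ f₂ : G, g₂ ∈ Q → h₂ ∈ (MulAction.stabilizer G a ⊓ MulAction.stabilizer G (t • a)) → f₂ ∈ Q → t * f * t = g₂ * h₂ * t * f₂ →
        f₂ = x ∧ h₂ = h⁻¹) ∧
      ∀ c ∈ (MulAction.stabilizer G a ⊓ MulAction.stabilizer G (t • a)), ∀ g₃ h₃ f₃ : G, g₃ ∈ Q → h₃ ∈ (MulAction.stabilizer G a ⊓ MulAction.stabilizer G (t • a)) → f₃ ∈ Q →
        t * (c⁻¹ * x * c) * t = g₃ * h₃ * t * f₃ →
          f₃ = (t * c * t)⁻¹ * f * (t * c * t) ∧ h₃ = (t * c * t)⁻¹ * h * c := by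
  have hti := Lib.Helper20.RankOne.t_inv hS
  have htt := hS.mul_self
  have hDa : ∀ {d : G}, d ∈ (MulAction.stabilizer G a ⊓ MulAction.stabilizer G (t • a)) →
      d ∈ MulAction.stabilizer G a := fun hd => (Subgroup.mem_inf.mp hd).1
  have hQc : ∀ {d q : G}, d ∈ (MulAction.stabilizer G a ⊓ MulAction.stabilizer G (t • a)) → q ∈ Q →
      d⁻¹ * q * d ∈ Q := by
    intro d q hd hq
    have := hS.conj_mem d⁻¹ (Subgroup.inv_mem _ (hDa hd)) q hq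
    rwa [inv_inv] at this
  refine ⟨?_, ?_, ?_⟩
  · intro g₁ h₁ f₁ hg₁ hh₁ hf₁ e
    have e₁ : t * x⁻¹ * t = f⁻¹ * (t * h⁻¹ * t) * t * g⁻¹ := by
      calc t * x⁻¹ * t = (t⁻¹ * x * t⁻¹)⁻¹ := by group
        _ = (t * x * t)⁻¹ := by rw [hti]
        _ = (g * h * t * f)⁻¹ := by rw [heq]
        _ = f⁻¹ * (t⁻¹ * h⁻¹ * t) * t⁻¹ * g⁻¹ := by group
        _ = f⁻¹ * (t * h⁻¹ * t) * t * g⁻¹ := by rw [hti]
    have hmem : t * h⁻¹ * t ∈ (MulAction.stabilizer G a ⊓ MulAction.stabilizer G (t • a)) :=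
      Lib.Helper20.RankOne.conj_t_mem hS (Subgroup.inv_mem _ hh)
    obtain ⟨-, h2, h3⟩ := Lib.Helper20.RankOne.canonical_unique hS (Q.inv_mem hf) hmem (Q.inv_mem hg)
      hg₁ hh₁ hf₁ (e₁.symm.trans e)
    exact ⟨h3.symm, h2.symm⟩
  · intro g₂ h₂ f₂ hg₂ hh₂ hf₂ e
    have e₂ : t * f * t = (h⁻¹ * g⁻¹ * h) * h⁻¹ * t * x := by
      calc t * f * t = t * ((g * h * t)⁻¹ * (g * h * t * f)) * t := by group
        _ = t * ((g * h * t)⁻¹ * (t * x * t)) * t := by rw [heq]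
        _ = (t * t⁻¹) * h⁻¹ * g⁻¹ * t * x * (t * t) := by group
        _ = (h⁻¹ * g⁻¹ * h) * h⁻¹ * t * x := by rw [htt]; group
    obtain ⟨-, h2, h3⟩ := Lib.Helper20.RankOne.canonical_unique hS (hQc hh (Q.inv_mem hg))
      (Subgroup.inv_mem _ hh) hx hg₂ hh₂ hf₂ (e₂.symm.trans e)
    exact ⟨h3.symm, h2.symm⟩
  · intro c hc g₃ h₃ f₃ hg₃ hh₃ hf₃ e
    have hdmem : t * c * t ∈ (MulAction.stabilizer G a ⊓ MulAction.stabilizer G (t • a)) :=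
      Lib.Helper20.RankOne.conj_t_mem hS hc
    set d := t * c * t with hd
    have h2 : c * t = t * d := by
      rw [hd, ← mul_assoc, ← mul_assoc, htt, one_mul]
    have h1 : t * c⁻¹ = d⁻¹ * t := by
      have : (c * t)⁻¹ = (t * d)⁻¹ := by rw [h2]
      rw [mul_inv_rev, mul_inv_rev, hti] at this
      exact this
    have e₃ : t * (c⁻¹ * x * c) * t = (d⁻¹ * g * d) * (d⁻¹ * h * c) * t * (d⁻¹ * f * d) := by
      calc t * (c⁻¹ * x * c) * t = (t * c⁻¹) * x * (c * t) := by group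
        _ = (d⁻¹ * t) * x * (t * d) := by rw [h1, h2]
        _ = d⁻¹ * (t * x * t) * d := by group
        _ = d⁻¹ * (g * h * t * f) * d := by rw [heq]
        _ = (d⁻¹ * g * d) * (d⁻¹ * h) * (t * d) * (d⁻¹ * f * d) := by group
        _ = (d⁻¹ * g * d) * (d⁻¹ * h) * (c * t) * (d⁻¹ * f * d) := by rw [h2]
        _ = (d⁻¹ * g * d) * (d⁻¹ * h * c) * t * (d⁻¹ * f * d) := by group
    have hmem : d⁻¹ * h * c ∈ (MulAction.stabilizer G a ⊓ MulAction.stabilizer G (t • a)) :=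
      Subgroup.mul_mem _ (Subgroup.mul_mem _ (Subgroup.inv_mem _ hdmem) hh) hc
    obtain ⟨-, h2', h3⟩ := Lib.Helper20.RankOne.canonical_unique hS (hQc hdmem hg) hmem
      (hQc hdmem hf) hg₃ hh₃ hf₃ (e₃.symm.trans e)
    exact ⟨h3.symm, h2'.symm⟩

end Cfsg.Agent.S1165
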