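import Cfsg.Statements.S1166
import Cfsg.Agent.Lib.Helper20.RankOne

set_option autoImplicit false
open Cfsg

namespace Cfsg.Agent.S1166

/-- In the rank-one set-up (`G` finite and doubly transitive on `Ω`, `t` an involution moving `a`, `Q` normal in `G_a` with `G_a = Q D`, `Q ⊓ D = 1` for the two-point stabiliser `D = G_a ⊓ G_{t • a}`, `|Q|` even, `|D|` odd), with `t x t = g_x h_x t f_x` and `t y t = g_y h_y t f_y` (`g, f ∈ Q`, `h ∈ D`) for `x, y ∈ Q ∖ 1` with `x y ≠ 1`: then `z = f_x g_y ≠ 1`, and if `t z t = g_z h_z t f_z` and `t (x y) t = g' h' t f'` then `f' = (t h_y t)⁻¹ f_z (t h_y t) f_y` and `h' = h_x h_z h_y` (H6). -/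
theorem result {G Ω : Type*} [Group G] [Finite G] [MulAction G Ω] {a : Ω} {t : G} {Q : Subgroup G}
    (hS : Cfsg.IsRankOneSetup G Ω a t Q)
    (x y gx hx fx gy hy fy : G) (hxQ : x ∈ Q) (hx1 : x ≠ 1) (hyQ : y ∈ Q) (hy1 : y ≠ 1) (hxy : x * y ≠ 1)
    (hgx : gx ∈ Q) (hhx : hx ∈ (MulAction.stabilizer G a ⊓ MulAction.stabilizer G (t • a))) (hfx : fx ∈ Q) (ex : t * x * t = gx * hx * t * fx)
    (hgy : gy ∈ Q) (hhy : hy ∈ (MulAction.stabilizer G a ⊓ MulAction.stabilizer G (t • a))) (hfy : fy ∈ Q) (ey : t * y * t = gy * hy * t * fy) :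
    fx * gy ≠ 1 ∧
      ∀ gz hz fz g' h' f' : G, gz ∈ Q → hz ∈ (MulAction.stabilizer G a ⊓ MulAction.stabilizer G (t • a)) → fz ∈ Q → t * (fx * gy) * t = gz * hz * t * fz →
        g' ∈ Q → h' ∈ (MulAction.stabilizer G a ⊓ MulAction.stabilizer G (t • a)) → f' ∈ Q → t * (x * y) * t = g' * h' * t * f' →
          f' = (t * hy * t)⁻¹ * fz * (t * hy * t) * fy ∧ h' = hx * hz * hy := by
  have hti := Lib.Helper20.RankOne.t_inv hS
  have htt := hS.mul_self
  have hDa : ∀ {d : G}, d ∈ (MulAction.stabilizer G a ⊓ MulAction.stabilizer G (t • a)) →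
      d ∈ MulAction.stabilizer G a := fun hd => (Subgroup.mem_inf.mp hd).1
  have hQc : ∀ {d q : G}, d ∈ (MulAction.stabilizer G a ⊓ MulAction.stabilizer G (t • a)) → q ∈ Q →
      d⁻¹ * q * d ∈ Q := by
    intro d q hd hq
    have := hS.conj_mem d⁻¹ (Subgroup.inv_mem _ (hDa hd)) q hq
    rwa [inv_inv] at this
  have e0 : t * (x * y) * t = gx * hx * t * (fx * gy) * hy * t * fy := by
    calc t * (x * y) * t = t * x * (t * t) * y * t := by rw [htt]; group
      _ = (t * x * t) * (t * y * t) := by group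
      _ = (gx * hx * t * fx) * (gy * hy * t * fy) := by rw [ex, ey]
      _ = _ := by group
  have hdmem : t * hy * t ∈ (MulAction.stabilizer G a ⊓ MulAction.stabilizer G (t • a)) :=
    Lib.Helper20.RankOne.conj_t_mem hS hhy
  refine ⟨?_, ?_⟩
  · intro h1
    rw [h1] at e0
    have hmem : t * (x * y) * t ∈ MulAction.stabilizer G a := by
      rw [e0]
      have e' : gx * hx * t * 1 * hy * t * fy = gx * hx * (t * hy * t) * fy := by group
      rw [e']
      exact Subgroup.mul_mem _ (Subgroup.mul_mem _ (Subgroup.mul_mem _ (hS.le hgx) (hDa hhx))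
        (hDa hdmem)) (hS.le hfy)
    rw [MulAction.mem_stabilizer_iff, mul_smul, mul_smul] at hmem
    have h2 : (x * y) • t • a = t • a := by
      have h4 : t • t • (x * y) • t • a = t • a := congrArg (fun b => t • b) hmem
      rwa [Lib.Helper20.RankOne.tt_smul hS] at h4
    have h3 : x * y ∈ Q ⊓ MulAction.stabilizer G (t • a) :=
      Subgroup.mem_inf.mpr ⟨Q.mul_mem hxQ hyQ, MulAction.mem_stabilizer_iff.mpr h2⟩
    rw [hS.inf_eq_bot, Subgroup.mem_bot] at h3
    exact hxy h3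
  · intro gz hz fz g' h' f' hgz hhz hfz ez hg' hh' hf' e
    set d := t * hy * t with hd
    have htd : t * d = hy * t := by
      rw [hd, ← mul_assoc, ← mul_assoc, htt, one_mul]
    have e1 : t * (x * y) * t
        = (gx * (hx * gz * hx⁻¹)) * (hx * hz * hy) * t * (d⁻¹ * fz * d * fy) := by
      calc t * (x * y) * t = gx * hx * t * (fx * gy) * hy * t * fy := e0
        _ = gx * hx * (t * (fx * gy) * t) * (t⁻¹ * hy * t) * fy := by group
        _ = gx * hx * (gz * hz * t * fz) * d * fy := by rw [ez, hti]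
        _ = (gx * (hx * gz * hx⁻¹)) * (hx * hz) * (t * d) * (d⁻¹ * fz * d * fy) := by group
        _ = (gx * (hx * gz * hx⁻¹)) * (hx * hz) * (hy * t) * (d⁻¹ * fz * d * fy) := by rw [htd]
        _ = (gx * (hx * gz * hx⁻¹)) * (hx * hz * hy) * t * (d⁻¹ * fz * d * fy) := by group
    have m1 : gx * (hx * gz * hx⁻¹) ∈ Q := Q.mul_mem hgx (hS.conj_mem hx (hDa hhx) gz hgz)
    have m2 : hx * hz * hy ∈ (MulAction.stabilizer G a ⊓ MulAction.stabilizer G (t • a)) :=
      Subgroup.mul_mem _ (Subgroup.mul_mem _ hhx hhz) hhy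
    have m3 : d⁻¹ * fz * d * fy ∈ Q := Q.mul_mem (hQc hdmem hfz) hfy
    obtain ⟨-, h2, h3⟩ := Lib.Helper20.RankOne.canonical_unique hS m1 m2 m3 hg' hh' hf' (e1.symm.trans e)
    exact ⟨h3.symm, h2.symm⟩

end Cfsg.Agent.S1166
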