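import Cfsg.Statements.S1176
import Cfsg.Agent.Lib.Helper20.Dihedral

set_option autoImplicit false
open Cfsg

namespace Cfsg.Agent.S1176

open scoped commutatorElement

/-- Let x₀ be an involution of the finite group G and D its conjugacy class. Assume (a) for each x ∈ D the subgroup W(x) generated by the members of D commuting with x is a 2-group of nilpotency class at most 2, and (b) the product of two distinct commuting members of D again lies in D. Then for all x, y ∈ D, if xy has even order greater than 2, its order is 4. -/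
theorem result {G : Type*} [Group G] [Finite G] (x₀ : G) (hx₀ : orderOf x₀ = 2) (ha : ∀ x : G, IsConj x₀ x → IsPGroup 2 ↥(Subgroup.closure {y : G | IsConj x₀ y ∧ Commute y x}) ∧ ⁅⁅Subgroup.closure {y : G | IsConj x₀ y ∧ Commute y x}, Subgroup.closure {y : G | IsConj x₀ y ∧ Commute y x}⁆, Subgroup.closure {y : G | IsConj x₀ y ∧ Commute y x}⁆ = ⊥) (hb : ∀ x y : G, IsConj x₀ x → IsConj x₀ y → x ≠ y → Commute x y → IsConj x₀ (x * y)) (x y : G) (hx : IsConj x₀ x) (hy : IsConj x₀ y) (heven : Even (orderOf (x * y))) (hgt : 2 < orderOf (x * y)) : orderOf (x * y) = 4 := by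
  have hinv : ∀ v : G, IsConj x₀ v → v * v = 1 := by
    intro v hv
    obtain ⟨c, hc⟩ := isConj_iff.mp hv
    have h0 : x₀ * x₀ = 1 := by rw [← pow_two, ← hx₀, pow_orderOf_eq_one]
    rw [← hc]
    calc c * x₀ * c⁻¹ * (c * x₀ * c⁻¹) = c * (x₀ * x₀) * c⁻¹ := by group
      _ = 1 := by rw [h0]; group
  have hxx := hinv x hx
  have hyy := hinv y hy
  have hxi := Lib.Helper20.Dihedral.inv_eq_self hxx
  have hyi := Lib.Helper20.Dihedral.inv_eq_self hyy
  set r := x * y with hr
  have hxr : x * r * x⁻¹ = r⁻¹ := Lib.Helper20.Dihedral.conj_mul_left hxx hyy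
  have hyr : y * r * y⁻¹ = r⁻¹ := Lib.Helper20.Dihedral.conj_mul_right hxx hyy
  obtain ⟨m, hm⟩ := heven
  set u := r ^ m with hu
  have hu1 : u ≠ 1 := by
    intro h
    have := orderOf_dvd_of_pow_eq_one h
    have := Nat.le_of_dvd (by omega) this
    omega
  have huu : u * u = 1 := by rw [hu, ← pow_add, ← hm, pow_orderOf_eq_one]
  have hui := Lib.Helper20.Dihedral.inv_eq_self huu
  have hxu : x * u = u * x := by
    have := Lib.Helper20.Dihedral.conj_pow_of_inv hxr m
    rw [← hu, hui, mul_inv_eq_iff_eq_mul] at this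
    exact this
  have hyu : y * u = u * y := by
    have := Lib.Helper20.Dihedral.conj_pow_of_inv hyr m
    rw [← hu, hui, mul_inv_eq_iff_eq_mul] at this
    exact this
  -- u * x is conjugate to x₀
  have hux : IsConj x₀ (u * x) := by
    rcases Lib.Helper20.Dihedral.pow_mul_conj hxx hyy m with ⟨h, hh⟩ | ⟨h, hh⟩
    · rw [← hr, ← hu] at hh
      rw [← hh]
      exact hx.trans (isConj_iff.mpr ⟨h, rfl⟩)
    · rw [← hr, ← hu] at hh
      rw [← hh]
      exact hy.trans (isConj_iff.mpr ⟨h, rfl⟩)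
  have hne : x ≠ u * x := by
    intro h
    apply hu1
    have : u * x = 1 * x := by rw [one_mul]; exact h.symm
    exact mul_right_cancel this
  have hcomm : Commute x (u * x) := by
    unfold Commute SemiconjBy
    rw [← mul_assoc, hxu]
  have huconj : IsConj x₀ u := by
    have := hb x (u * x) hx hux hne hcomm
    have e : x * (u * x) = u := by rw [← mul_assoc, hxu, mul_assoc, hxx, mul_one]
    rwa [e] at this
  obtain ⟨-, hW⟩ := ha u huconj
  set W := Subgroup.closure {y : G | IsConj x₀ y ∧ Commute y u} with hWdef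
  have hxW : x ∈ W := Subgroup.subset_closure ⟨hx, hxu⟩
  have hyW : y ∈ W := Subgroup.subset_closure ⟨hy, hyu⟩
  have h1 : ⁅⁅x, y⁆, x⁆ ∈ ⁅⁅W, W⁆, W⁆ :=
    Subgroup.commutator_mem_commutator (Subgroup.commutator_mem_commutator hxW hyW) hxW
  rw [hW, Subgroup.mem_bot] at h1
  have e1 : ⁅x, y⁆ = r ^ 2 := by
    rw [commutatorElement_def, hxi, hyi, pow_two, hr]; group
  have e2 : ⁅r ^ 2, x⁆ = r ^ 4 := by
    rw [commutatorElement_def]
    have := Lib.Helper20.Dihedral.conj_pow_of_inv hxr 2
    calc r ^ 2 * x * (r ^ 2)⁻¹ * x⁻¹ = r ^ 2 * (x * r ^ 2 * x⁻¹)⁻¹ := by group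
      _ = r ^ 2 * r ^ 2 := by rw [this, inv_inv]
      _ = r ^ 4 := by rw [← pow_add]
  rw [e1, e2] at h1
  have hdvd : orderOf r ∣ 4 := orderOf_dvd_of_pow_eq_one h1
  have hle := Nat.le_of_dvd (by norm_num) hdvd
  interval_cases h3 : orderOf r
  · omega
  · rfl

end Cfsg.Agent.S1176
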