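import Cfsg.Statements.S1177
import Mathlib

set_option autoImplicit false
open Cfsg

namespace Cfsg.Agent.S1177

lemma map_conj_conj {G : Type*} [Group G] (A : Subgroup G) (s t : G) :
    (A.map (MulAut.conj s).toMonoidHom).map (MulAut.conj t).toMonoidHom
      = A.map (MulAut.conj (t * s)).toMonoidHom := by
  rw [Subgroup.map_map]
  congr 1
  ext x
  simp [mul_assoc]

lemma mem_map_conj {G : Type*} [Group G] (A : Subgroup G) (s x : G) :
    x ∈ A.map (MulAut.conj s).toMonoidHom ↔ s⁻¹ * x * s ∈ A := by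
  constructor
  · rintro ⟨a, ha, rfl⟩
    have : s⁻¹ * ((MulAut.conj s).toMonoidHom a) * s = a := by simp [mul_assoc]
    rw [this]; exact ha
  · intro h
    exact ⟨s⁻¹ * x * s, h, by simp [mul_assoc]⟩

lemma conj_mem_map_conj {G : Type*} [Group G] (A : Subgroup G) (s a : G) (ha : a ∈ A) :
    s * a * s⁻¹ ∈ A.map (MulAut.conj s).toMonoidHom := ⟨a, ha, by simp⟩


/-- Let A be a nontrivial elementary abelian 2-subgroup of a finite group G which is a T.I. set (each conjugate of A meets A trivially or equals A) and which does not commute elementwise with any conjugate of A other than A itself. Then for every a ∈ A, a ≠ 1, every conjugate of A contained in C_G(a) is equal to A (A is weakly closed in C_G(a)). -/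
theorem result {G : Type*} [Group G] [Finite G] (A : Subgroup G) (hA : Cfsg.IsElementaryAbelian 2 A) (hA1 : A ≠ ⊥) (hTI : ∀ g : G, A.map (MulAut.conj g).toMonoidHom ⊓ A = ⊥ ∨ A.map (MulAut.conj g).toMonoidHom = A) (hb : ∀ g : G, (∀ a ∈ A, ∀ b ∈ A.map (MulAut.conj g).toMonoidHom, a * b = b * a) → A.map (MulAut.conj g).toMonoidHom = A) (a : G) (ha : a ∈ A) (ha1 : a ≠ 1) (g : G) (hg : A.map (MulAut.conj g).toMonoidHom ≤ Subgroup.centralizer ({a} : Set G)) : A.map (MulAut.conj g).toMonoidHom = A := by
  classical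
  -- transfer of the hypotheses to arbitrary pairs of conjugates
  have TI' : ∀ u v : G, A.map (MulAut.conj u).toMonoidHom ⊓ A.map (MulAut.conj v).toMonoidHom = ⊥ ∨
      A.map (MulAut.conj u).toMonoidHom = A.map (MulAut.conj v).toMonoidHom := by
    intro u v
    have e : (A.map (MulAut.conj (v⁻¹ * u)).toMonoidHom).map (MulAut.conj v).toMonoidHom
        = A.map (MulAut.conj u).toMonoidHom := by
      rw [map_conj_conj]; congr 3; group
    rcases hTI (v⁻¹ * u) with h | h
    · left
      rw [← e, ← Subgroup.map_inf _ _ _ (MulAut.conj v).injective, h, Subgroup.map_bot]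
    · right
      rw [← e, h]
  have COMM' : ∀ u v : G, (∀ x ∈ A.map (MulAut.conj u).toMonoidHom,
      ∀ y ∈ A.map (MulAut.conj v).toMonoidHom, x * y = y * x) →
      A.map (MulAut.conj u).toMonoidHom = A.map (MulAut.conj v).toMonoidHom := by
    intro u v huv
    have e : (A.map (MulAut.conj (v⁻¹ * u)).toMonoidHom).map (MulAut.conj v).toMonoidHom
        = A.map (MulAut.conj u).toMonoidHom := by
      rw [map_conj_conj]; congr 3; group
    have := hb (v⁻¹ * u) ?_
    · rw [← e, this]
    · intro a₁ ha₁ b₁ hb₁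
      rw [mem_map_conj] at hb₁
      have h1 : v * b₁ * v⁻¹ ∈ A.map (MulAut.conj u).toMonoidHom := by
        rw [mem_map_conj]
        have : u⁻¹ * (v * b₁ * v⁻¹) * u = (v⁻¹ * u)⁻¹ * b₁ * (v⁻¹ * u) := by group
        rw [this]; exact hb₁
      have h2 : v * a₁ * v⁻¹ ∈ A.map (MulAut.conj v).toMonoidHom := conj_mem_map_conj A v a₁ ha₁
      have h3 := huv _ h1 _ h2
      have h4 : v * (b₁ * a₁) * v⁻¹ = v * (a₁ * b₁) * v⁻¹ := by
        calc v * (b₁ * a₁) * v⁻¹ = v * b₁ * v⁻¹ * (v * a₁ * v⁻¹) := by group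
          _ = v * a₁ * v⁻¹ * (v * b₁ * v⁻¹) := h3
          _ = _ := by group
      have h5 := mul_left_cancel (mul_right_cancel h4)
      exact h5.symm
  have hmap1 : A.map (MulAut.conj (1 : G)).toMonoidHom = A := by
    ext x; rw [mem_map_conj]; simp
  set B := A.map (MulAut.conj g).toMonoidHom with hB
  -- Step 1: B normalizes A
  have hBA : ∀ b ∈ B, ∀ a' ∈ A, b * a' * b⁻¹ ∈ A := by
    intro b hbB a' ha'
    have hba : b * a = a * b := by
      have := hg hbB
      rw [Subgroup.mem_centralizer_singleton_iff] at this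
      exact this
    have h1 : A.map (MulAut.conj b).toMonoidHom = A := by
      rcases hTI b with h | h
      · exfalso
        have : a ∈ A.map (MulAut.conj b).toMonoidHom ⊓ A := by
          refine Subgroup.mem_inf.mpr ⟨?_, ha⟩
          rw [mem_map_conj]
          have : b⁻¹ * a * b = a := by rw [mul_assoc, ← hba]; group
          rw [this]; exact ha
        rw [h, Subgroup.mem_bot] at this
        exact ha1 this
      · exact h
    rw [← h1]
    exact conj_mem_map_conj A b a' ha'
  have hA2 : IsPGroup 2 A := by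
    intro x
    refine ⟨1, ?_⟩
    have := hA.2 x x.2
    ext
    simpa using this
  have hB2 : IsPGroup 2 B := hA2.map _
  have hBn : B ≤ Subgroup.normalizer (A : Set G) := by
    intro b hbB
    rw [Subgroup.mem_normalizer_iff]
    intro n
    constructor
    · intro hn; exact hBA b hbB n hn
    · intro hn
      have hbi : b⁻¹ ∈ B := B.inv_mem hbB
      have := hBA b⁻¹ hbi _ hn
      have e : b⁻¹ * (b * n * b⁻¹) * b⁻¹⁻¹ = n := by group
      rwa [e] at this
  set P : Subgroup G := B ⊔ A with hP
  have hP2 : IsPGroup 2 P := IsPGroup.to_sup_of_normal_right' hB2 hA2 hBn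
  have hBP : B ≤ P := le_sup_left
  have hAP : A ≤ P := le_sup_right
  -- Step 3: A normalizes B
  have hAB : ∀ a' ∈ A, ∀ b ∈ B, a' * b * a'⁻¹ ∈ B := by
    have : Fact (Nat.Prime 2) := ⟨Nat.prime_two⟩
    have : Group.IsNilpotent P := hP2.isNilpotent
    have hnc : NormalizerCondition P := Group.normalizerCondition_of_isNilpotent
    set BP : Subgroup P := B.subgroupOf P with hBPdef
    by_cases htop : Subgroup.normalizer (BP : Set P) = ⊤
    · intro a' ha' b hbB
      have h1 : (⟨a', hAP ha'⟩ : P) ∈ Subgroup.normalizer (BP : Set P) := by rw [htop]; trivial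
      rw [Subgroup.mem_normalizer_iff] at h1
      have h2 := (h1 ⟨b, hBP hbB⟩).mp (by rw [hBPdef, Subgroup.mem_subgroupOf]; exact hbB)
      rw [hBPdef, Subgroup.mem_subgroupOf] at h2
      simpa using h2
    · exfalso
      set M : Subgroup P := Subgroup.normalizer (BP : Set P) with hM
      have hMlt : M < ⊤ := lt_top_iff_ne_top.mpr htop
      have hlt := hnc M hMlt
      obtain ⟨x, hxN, hxM⟩ := SetLike.exists_of_lt hlt
      -- x normalizes M but not BP
      have hBPM : BP ≤ M := Subgroup.le_normalizer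
      have hxN' := Subgroup.mem_normalizer_iff.mp hxN
      have hxiN' := Subgroup.mem_normalizer_iff.mp (Subgroup.inv_mem _ hxN)
      set B' := A.map (MulAut.conj ((x : G) * g)).toMonoidHom with hB'
      have hB'eq : B' = B.map (MulAut.conj (x : G)).toMonoidHom := by
        rw [hB', hB, map_conj_conj]
      -- B' normalizes B
      have h1 : ∀ b' ∈ B', ∀ b ∈ B, b' * b * b'⁻¹ ∈ B := by
        intro b' hb' b hbB
        rw [hB'eq, mem_map_conj] at hb'
        -- b₀ = x⁻¹ b' x ∈ B
        set b₀ : P := ⟨(x : G)⁻¹ * b' * x, hBP hb'⟩ with hb₀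
        have hb₀M : b₀ ∈ M := hBPM (by rw [hBPdef, Subgroup.mem_subgroupOf]; exact hb')
        have h2 : x * b₀ * x⁻¹ ∈ M := (hxN' b₀).mp hb₀M
        rw [hM, Subgroup.mem_normalizer_iff] at h2
        have h3 := (h2 ⟨b, hBP hbB⟩).mp (by rw [hBPdef, Subgroup.mem_subgroupOf]; exact hbB)
        rw [hBPdef, Subgroup.mem_subgroupOf] at h3
        have e : ((x * b₀ * x⁻¹ * ⟨b, hBP hbB⟩ * (x * b₀ * x⁻¹)⁻¹ : P) : G) = b' * b * b'⁻¹ := by
          simp only [Subgroup.coe_mul, Subgroup.coe_inv, hb₀]
          group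
        rw [e] at h3
        exact h3
      -- B normalizes B'
      have h2 : ∀ b ∈ B, ∀ b' ∈ B', b * b' * b⁻¹ ∈ B' := by
        intro b hbB b' hb'
        rw [hB'eq, mem_map_conj] at hb' ⊢
        set bP : P := ⟨b, hBP hbB⟩ with hbP
        have hbM : bP ∈ M := hBPM (by rw [hBPdef, Subgroup.mem_subgroupOf]; exact hbB)
        have h3 : x⁻¹ * bP * x⁻¹⁻¹ ∈ M := (hxiN' bP).mp hbM
        rw [hM, Subgroup.mem_normalizer_iff] at h3
        have h4 := (h3 ⟨(x : G)⁻¹ * b' * x, hBP hb'⟩).mp
          (by rw [hBPdef, Subgroup.mem_subgroupOf]; exact hb')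
        rw [hBPdef, Subgroup.mem_subgroupOf] at h4
        have e : ((x⁻¹ * bP * x⁻¹⁻¹ * ⟨(x : G)⁻¹ * b' * x, hBP hb'⟩ * (x⁻¹ * bP * x⁻¹⁻¹)⁻¹ : P) : G)
            = (x : G)⁻¹ * (b * b' * b⁻¹) * x := by
          simp only [Subgroup.coe_mul, Subgroup.coe_inv, hbP]
          group
        rw [e] at h4
        exact h4
      -- B' ≠ B
      have hne : B' ≠ B := by
        intro h
        apply hxM
        rw [hM, Subgroup.mem_normalizer_iff]
        intro n
        rw [hBPdef, Subgroup.mem_subgroupOf, Subgroup.mem_subgroupOf]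
        constructor
        · intro hn
          have : (x : G) * n * (x : G)⁻¹ ∈ B' := by
            rw [hB'eq]; exact conj_mem_map_conj B x n hn
          rw [h] at this
          simpa using this
        · intro hn
          have hn' : (x : G) * n * (x : G)⁻¹ ∈ B' := by
            rw [h]; simpa using hn
          rw [hB'eq, mem_map_conj] at hn'
          have e : (x : G)⁻¹ * ((x : G) * n * (x : G)⁻¹) * x = n := by group
          rwa [e] at hn'
      rcases TI' ((x : G) * g) g with h | h
      · -- trivial intersection: the two commute elementwise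
        apply hne
        apply COMM' ((x : G) * g) g
        intro b' hb' b hbB
        have hc : b' * b * b'⁻¹ * b⁻¹ ∈ B' ⊓ B := by
          refine Subgroup.mem_inf.mpr ⟨?_, ?_⟩
          · have := h2 b hbB b'⁻¹ (B'.inv_mem hb')
            have e : b' * b * b'⁻¹ * b⁻¹ = b' * (b * b'⁻¹ * b⁻¹) := by group
            rw [e]
            exact B'.mul_mem hb' this
          · exact B.mul_mem (h1 b' hb' b hbB) (B.inv_mem hbB)
        rw [h, Subgroup.mem_bot] at hc
        have : b' * b = b * b' := by
          calc b' * b = b' * b * b'⁻¹ * b⁻¹ * (b * b') := by group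
            _ = b * b' := by rw [hc, one_mul]
        exact this
      · exact hne h
  -- Step 4
  rcases hTI g with h | h
  · apply hb g
    intro a' ha' b hbB
    have hc : a' * b * a'⁻¹ * b⁻¹ ∈ B ⊓ A := by
      refine Subgroup.mem_inf.mpr ⟨?_, ?_⟩
      · exact B.mul_mem (hAB a' ha' b hbB) (B.inv_mem hbB)
      · have := hBA b hbB a'⁻¹ (A.inv_mem ha')
        have e : a' * b * a'⁻¹ * b⁻¹ = a' * (b * a'⁻¹ * b⁻¹) := by group
        rw [e]
        exact A.mul_mem ha' this
    rw [h, Subgroup.mem_bot] at hc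
    calc a' * b = a' * b * a'⁻¹ * b⁻¹ * (b * a') := by group
      _ = b * a' := by rw [hc, one_mul]
  · exact h

end Cfsg.Agent.S1177
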