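import Cfsg.Statements.S1178


set_option autoImplicit false
open Cfsg

namespace Cfsg.Agent.S1178

/-- Let A be a subgroup of a Sylow 2-subgroup S of the finite group G which is weakly closed in S. If a conjugate g A g⁻¹ commutes elementwise with A, then g A g⁻¹ = A. -/
theorem result {G : Type*} [Group G] [Finite G] (S : Sylow 2 G) (A : Subgroup G) (hW : Cfsg.IsWeaklyClosed A (S : Subgroup G)) (g : G) (hc : ∀ a ∈ A, ∀ b ∈ A.map (MulAut.conj g).toMonoidHom, a * b = b * a) : A.map (MulAut.conj g).toMonoidHom = A := by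
  set B := A.map (MulAut.conj g).toMonoidHom with hB
  have hS2 : IsPGroup 2 (S : Subgroup G) := S.isPGroup'
  have hA2 : IsPGroup 2 A := hS2.to_le hW.1
  have hB2 : IsPGroup 2 B := hA2.map _
  have hBn : B ≤ Subgroup.normalizer (A : Set G) := by
    intro b hb
    rw [Subgroup.mem_normalizer_iff]
    intro a
    constructor
    · intro ha
      have := hc a ha b hb
      have e : b * a * b⁻¹ = a := by rw [← this]; group
      rw [e]; exact ha
    · intro ha
      have h3 : b * a * b⁻¹ * b = b * (b * a * b⁻¹) := hc _ ha b hb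
      have h4 : b * a = b * (b * a * b⁻¹) := by rw [← h3]; group
      have h5 : a = b * a * b⁻¹ := mul_left_cancel h4
      rw [h5]; exact ha
  have hAB : IsPGroup 2 (B ⊔ A : Subgroup G) := IsPGroup.to_sup_of_normal_right' hB2 hA2 hBn
  obtain ⟨Q, hQ⟩ := hAB.exists_le_sylow
  obtain ⟨h, hh⟩ := MulAction.exists_smul_eq G Q S
  have hconj : ∀ x ∈ (Q : Subgroup G), h * x * h⁻¹ ∈ (S : Subgroup G) := by
    intro x hx
    rw [← hh, Sylow.coe_subgroup_smul]
    have := Subgroup.smul_mem_pointwise_smul x (MulAut.conj h) (Q : Subgroup G) hx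
    simpa [MulAut.smul_def] using this
  have h1 : A.map (MulAut.conj h).toMonoidHom ≤ (S : Subgroup G) := by
    rintro _ ⟨a, ha, rfl⟩
    exact hconj a (hQ (le_sup_right (a := B) ha))
  have h2 : A.map (MulAut.conj (h * g)).toMonoidHom ≤ (S : Subgroup G) := by
    rintro _ ⟨a, ha, rfl⟩
    have hb : g * a * g⁻¹ ∈ B := ⟨a, ha, by simp⟩
    have := hconj _ (hQ (le_sup_left (b := A) hb))
    simpa [mul_assoc] using this
  have e1 := hW.2 h h1
  have e2 := hW.2 (h * g) h2
  have e3 : B.map (MulAut.conj h).toMonoidHom = A.map (MulAut.conj (h * g)).toMonoidHom := by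
    rw [hB, Subgroup.map_map]
    congr 1
    ext x
    simp [mul_assoc]
  have e4 : B.map (MulAut.conj h).toMonoidHom = A.map (MulAut.conj h).toMonoidHom := by
    rw [e3, e2, e1]
  exact Subgroup.map_injective (MulAut.conj h).injective e4

end Cfsg.Agent.S1178
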