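import Cfsg.Statements.S1180
import Cfsg.Agent.Lib.Helper20.Isolated

set_option autoImplicit false
open Cfsg

namespace Cfsg.Agent.S1180

/-- Let z be an isolated involution of the finite group G and H a subgroup containing z. Then every conjugate g z g⁻¹ that lies in H is conjugate to z by an element of H. -/
theorem result {G : Type*} [Group G] [Finite G] (z : G) (hz : Cfsg.IsIsolatedInvolution z) (H : Subgroup G) (hzH : z ∈ H) (g : G) (hg : g * z * g⁻¹ ∈ H) : ∃ h ∈ H, h * z * h⁻¹ = g * z * g⁻¹ := by
  refine ⟨Lib.Helper20.Isolated.isoK z g, ?_, Lib.Helper20.Isolated.isoK_conj hz g⟩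
  exact (Subgroup.zpowers_le.mpr (H.mul_mem hg hzH)) (Lib.Helper20.Isolated.isoK_mem z g)

end Cfsg.Agent.S1180
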