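import Cfsg.Statements.S1183
import Mathlib
import Cfsg.Agent.Lib.Helper20.Isolated
import Cfsg.Agent.Lib.Helper20.Transfer
import Cfsg.Agent.S1182

set_option autoImplicit false
open Cfsg

namespace Cfsg.Agent.S1183

/-- Let z be an isolated involution of the finite group G and C = C_G(z). Then the subgroup of G generated by its elements of odd order is all of G if and only if the subgroup of C generated by its elements of odd order is all of C. -/
theorem result {G : Type*} [Group G] [Finite G] (z : G) (hz : Cfsg.IsIsolatedInvolution z) : Cfsg.pResidual 2 G = ⊤ ↔ Cfsg.pResidual 2 ↥(Subgroup.centralizer ({z} : Set G)) = ⊤ := by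
  classical
  have hzz := Lib.Helper20.Isolated.isolated_mul_self hz
  have hzi := Lib.Helper20.Isolated.isolated_inv hz
  set C := Subgroup.centralizer ({z} : Set G) with hC
  constructor
  · intro hG
    by_contra hM
    set M := Cfsg.pResidual 2 C with hMdef
    have hMn : M.Normal := by
      have : M = Subgroup.normalClosure {g : C | Nat.Coprime (orderOf g) 2} := by
        rw [hMdef]; unfold Cfsg.pResidual Subgroup.normalClosure
        congr 1
        apply Set.Subset.antisymm Group.subset_conjugatesOfSet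
        intro x hx
        obtain ⟨a, ha, hax⟩ := Group.mem_conjugatesOfSet_iff.mp hx
        obtain ⟨c, hc⟩ := isConj_iff.mp hax
        show Nat.Coprime (orderOf x) 2
        rw [← hc]
        have : c * a * c⁻¹ = MulAut.conj c a := by simp
        rw [this, MulEquiv.orderOf_eq]; exact ha
      rw [this]; infer_instance
    have hQ2 : IsPGroup 2 (C ⧸ M) := by
      intro q
      obtain ⟨c, rfl⟩ := QuotientGroup.mk_surjective q
      obtain ⟨k, m, hm, hkm⟩ := Nat.exists_eq_two_pow_mul_odd (orderOf_pos c).ne'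
      refine ⟨k, ?_⟩
      rw [← QuotientGroup.mk_pow, QuotientGroup.eq_one_iff]
      apply Subgroup.subset_closure
      show Nat.Coprime (orderOf (c ^ 2 ^ k)) 2
      rw [Nat.coprime_two_right]
      have : (c ^ 2 ^ k) ^ m = 1 := by rw [← pow_mul, ← hkm, pow_orderOf_eq_one]
      exact Odd.of_dvd_nat hm (orderOf_dvd_of_pow_eq_one this)
    have : Fact (Nat.Prime 2) := ⟨Nat.prime_two⟩
    have hnt : Nontrivial (C ⧸ M) := by
      obtain ⟨c, hc⟩ : ∃ c : C, c ∉ M := by
        by_contra hcon
        exact hM (eq_top_iff.mpr fun c _ => not_not.mp (fun h => hcon ⟨c, h⟩))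
      exact ⟨⟨(c : C ⧸ M), 1, fun h => hc ((QuotientGroup.eq_one_iff c).mp h)⟩⟩
    have : Group.IsNilpotent (C ⧸ M) := hQ2.isNilpotent
    have hcomm : commutator (C ⧸ M) < ⊤ := Group.IsSolvable.commutator_lt_top_of_nontrivial (C ⧸ M)
    obtain ⟨q, -, hq⟩ := SetLike.exists_of_lt hcomm
    obtain ⟨c₀, rfl⟩ := QuotientGroup.mk_surjective q
    let φ : C →* Abelianization (C ⧸ M) := Abelianization.of.comp (QuotientGroup.mk' M)
    have hφ0 : φ c₀ ≠ 1 := by
      intro h
      apply hq
      exact (QuotientGroup.eq_one_iff _).mp h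
    have hA2 : ∀ x : Abelianization (C ⧸ M), ∃ k : ℕ, x ^ 2 ^ k = 1 := by
      intro x
      have hsurj : Function.Surjective (Abelianization.of : (C ⧸ M) →* Abelianization (C ⧸ M)) :=
        QuotientGroup.mk_surjective
      obtain ⟨q, rfl⟩ := hsurj x
      obtain ⟨k, hk⟩ := hQ2 q
      exact ⟨k, by rw [← map_pow, hk, map_one]⟩
    -- the index of C is odd
    have hodd : Odd C.index := by
      have hz2 : IsPGroup 2 (Subgroup.zpowers z) := by
        apply IsPGroup.of_card (n := 1)
        rw [Nat.card_zpowers, hz.1]; norm_num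
      obtain ⟨S, hS⟩ := hz2.exists_le_sylow
      have hSC : (S : Subgroup G) ≤ C := by
        intro s hs
        have hzS : z ∈ (S : Subgroup G) := hS (Subgroup.mem_zpowers z)
        have hr : z * (s * z * s⁻¹) ∈ (S : Subgroup G) :=
          Subgroup.mul_mem _ hzS (Subgroup.mul_mem _ (Subgroup.mul_mem _ hs hzS) (Subgroup.inv_mem _ hs))
        have ho := Lib.Helper20.Isolated.isolated_odd_order hz s
        obtain ⟨k, hk⟩ := S.isPGroup' ⟨_, hr⟩
        have hk' : (z * (s * z * s⁻¹)) ^ 2 ^ k = 1 := by
          have := congrArg Subtype.val hk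
          simpa using this
        have h1 := Lib.Helper20.Transfer.eq_one_of_odd_of_pow_two ho k hk'
        refine Subgroup.mem_centralizer_singleton_iff.mpr ?_
        have h2 : s * z * s⁻¹ = z := by
          have : s * z * s⁻¹ = z⁻¹ := eq_inv_of_mul_eq_one_right h1
          rw [this, hzi]
        calc s * z = (s * z * s⁻¹) * s := by group
          _ = z * s := by rw [h2]
      have h1 : C.index ∣ (S : Subgroup G).index := Subgroup.index_dvd_of_le hSC
      have h2 : ¬ 2 ∣ (S : Subgroup G).index := S.not_dvd_index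
      rw [← Nat.not_even_iff_odd, even_iff_two_dvd]
      exact fun h => h2 (h.trans h1)
    have hV : MonoidHom.transfer φ (c₀ : G) = φ c₀ ^ C.index := by
      have := Lib.Helper20.Transfer.transfer_eq_pow_of_fusion φ (c₀ : G) c₀.2 ?_
      · exact this
      · intro k g₀ hk
        have hxz : Commute ((c₀ : G) ^ k) z :=
          Subgroup.mem_centralizer_singleton_iff.mp (C.pow_mem c₀.2 k)
        have hyz : Commute (g₀⁻¹ * (c₀ : G) ^ k * g₀) z :=
          Subgroup.mem_centralizer_singleton_iff.mp hk
        obtain ⟨c, -, hcz, hc⟩ := Cfsg.Agent.S1182.result z hz ⊤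
          (Subgroup.mem_normalizer_iff.mpr fun n => by simp) ((c₀ : G) ^ k)
          (g₀⁻¹ * (c₀ : G) ^ k * g₀) (Subgroup.mem_top _) (Subgroup.mem_top _) hxz hyz g₀⁻¹
          (Subgroup.mem_top _) (by simp)
        have hcC : c ∈ C := Subgroup.mem_centralizer_singleton_iff.mpr hcz.eq
        have e : (⟨g₀⁻¹ * (c₀ : G) ^ k * g₀, hk⟩ : C) = ⟨c, hcC⟩ * c₀ ^ k * ⟨c, hcC⟩⁻¹ := by
          apply Subtype.ext
          simp only [Subgroup.coe_mul, Subgroup.coe_pow, Subgroup.coe_inv]
          exact hc.symm
        rw [e, map_mul, map_mul, map_inv, map_pow, mul_comm, inv_mul_cancel_left]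
    have hker : Cfsg.pResidual 2 G ≤ (MonoidHom.transfer φ).ker := by
      unfold Cfsg.pResidual
      rw [Subgroup.closure_le]
      intro g hg
      have hg' : Odd (orderOf g) := Nat.coprime_two_right.mp hg
      rw [SetLike.mem_coe, MonoidHom.mem_ker]
      obtain ⟨k, hk⟩ := hA2 (MonoidHom.transfer φ g)
      have h1 : (MonoidHom.transfer φ g) ^ orderOf g = 1 := by
        rw [← map_pow, pow_orderOf_eq_one, map_one]
      exact Lib.Helper20.Transfer.eq_one_of_pow_odd_of_pow_two hg' h1 k hk
    have h1 : MonoidHom.transfer φ (c₀ : G) = 1 := by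
      have : (c₀ : G) ∈ Cfsg.pResidual 2 G := by rw [hG]; trivial
      exact hker this
    rw [hV] at h1
    obtain ⟨k, hk⟩ := hA2 (φ c₀)
    exact hφ0 (Lib.Helper20.Transfer.eq_one_of_pow_odd_of_pow_two hodd h1 k hk)
  · intro hCtop
    rw [eq_top_iff]
    intro g _
    have hk := Lib.Helper20.Isolated.isoK_odd hz g
    have h1 : Lib.Helper20.Isolated.isoK z g ∈ Cfsg.pResidual 2 G :=
      Subgroup.subset_closure (Nat.coprime_two_right.mpr hk)
    have hc' : (Lib.Helper20.Isolated.isoK z g)⁻¹ * g ∈ C := by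
      have h1 := Subgroup.inv_mem _ (Lib.Helper20.Isolated.isoK_coset hz g)
      rw [mul_inv_rev, inv_inv] at h1
      exact h1
    have h2 : (Lib.Helper20.Isolated.isoK z g)⁻¹ * g ∈ Cfsg.pResidual 2 G := by
      have hmem : (⟨_, hc'⟩ : C) ∈ Cfsg.pResidual 2 C := by rw [hCtop]; trivial
      have hle : (Cfsg.pResidual 2 C).map C.subtype ≤ Cfsg.pResidual 2 G := by
        unfold Cfsg.pResidual
        rw [MonoidHom.map_closure, Subgroup.closure_le]
        rintro _ ⟨c, hc, rfl⟩
        apply Subgroup.subset_closure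
        show Nat.Coprime (orderOf (c : G)) 2
        rw [Subgroup.orderOf_coe]; exact hc
      exact hle ⟨_, hmem, rfl⟩
    have := Subgroup.mul_mem _ h1 h2
    simpa using this

end Cfsg.Agent.S1183
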