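import Cfsg.Statements.S1184
import Cfsg.Agent.Lib.Helper20.Isolated

set_option autoImplicit false
open Cfsg

namespace Cfsg.Agent.S1184

/-- Let z be an isolated involution of the finite group G. If s and t are distinct conjugates of z, then st does not commute with z. -/
theorem result {G : Type*} [Group G] [Finite G] (z : G) (hz : Cfsg.IsIsolatedInvolution z) (g h : G) (hne : g * z * g⁻¹ ≠ h * z * h⁻¹) : ¬ Commute (g * z * g⁻¹ * (h * z * h⁻¹)) z := by
  intro hcomm
  have hzz := Lib.Helper20.Isolated.isolated_mul_self hz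
  have hzi := Lib.Helper20.Isolated.isolated_inv hz
  set s := g * z * g⁻¹ with hs
  set t := h * z * h⁻¹ with ht
  have hss : s * s = 1 := Lib.Helper20.Isolated.conj_mul_self_of_isolated hz g
  have htt : t * t = 1 := Lib.Helper20.Isolated.conj_mul_self_of_isolated hz h
  set r := s * t with hr
  have hsr : s * r * s⁻¹ = r⁻¹ := Lib.Helper20.Isolated.invol_conj_mul hss htt
  -- r has odd order
  have hodd : Odd (orderOf r) := by
    have := Lib.Helper20.Isolated.isolated_odd_order (Lib.Helper20.Isolated.isolated_conj hz g) (h * g⁻¹)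
    have e : h * g⁻¹ * (g * z * g⁻¹) * (h * g⁻¹)⁻¹ = h * z * h⁻¹ := by group
    rwa [e] at this
  -- k conjugates z to s and is a power of s * z
  set k := Lib.Helper20.Isolated.isoK z g with hk
  have hkconj : k * z * k⁻¹ = s := Lib.Helper20.Isolated.isoK_conj hz g
  have hzr : z * r * z⁻¹ = r := by
    rw [mul_inv_eq_iff_eq_mul]; exact hcomm.eq.symm
  have hu : (s * z) * r * (s * z)⁻¹ = r⁻¹ := by
    calc (s * z) * r * (s * z)⁻¹ = s * (z * r * z⁻¹) * s⁻¹ := by group
      _ = r⁻¹ := by rw [hzr, hsr]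
  have hpow : ∀ n : ℕ, (s * z) ^ n * r * ((s * z) ^ n)⁻¹ = r ∨ (s * z) ^ n * r * ((s * z) ^ n)⁻¹ = r⁻¹ := by
    intro n
    induction n with
    | zero => left; simp
    | succ n ih =>
      have e : (s * z) ^ (n + 1) * r * ((s * z) ^ (n + 1))⁻¹
          = (s * z) * ((s * z) ^ n * r * ((s * z) ^ n)⁻¹) * (s * z)⁻¹ := by
        rw [pow_succ', mul_inv_rev]; simp only [mul_assoc]
      rcases ih with ih | ih
      · right; rw [e, ih, hu]
      · left; rw [e, ih]
        have : (s * z) * r⁻¹ * (s * z)⁻¹ = ((s * z) * r * (s * z)⁻¹)⁻¹ := by group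
        rw [this, hu, inv_inv]
  have hkr : k * r * k⁻¹ = r ∨ k * r * k⁻¹ = r⁻¹ := hpow _
  have hkr' : k⁻¹ * r * k = r ∨ k⁻¹ * r * k = r⁻¹ := by
    rcases hkr with h1 | h1
    · left
      calc k⁻¹ * r * k = k⁻¹ * (k * r * k⁻¹) * k := by rw [h1]
        _ = r := by group
    · right
      have : r = k⁻¹ * r⁻¹ * k := by
        calc r = k⁻¹ * (k * r * k⁻¹) * k := by group
          _ = _ := by rw [h1]
      calc k⁻¹ * r * k = (k⁻¹ * r⁻¹ * k)⁻¹ := by group
        _ = r⁻¹ := by rw [← this]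
  have hzr' : z * r⁻¹ * z⁻¹ = r⁻¹ := by
    calc z * r⁻¹ * z⁻¹ = (z * r * z⁻¹)⁻¹ := by group
      _ = r⁻¹ := by rw [hzr]
  have hsr2 : s * r * s⁻¹ = r := by
    rw [← hkconj]
    have e : k * z * k⁻¹ * r * (k * z * k⁻¹)⁻¹ = k * (z * (k⁻¹ * r * k) * z⁻¹) * k⁻¹ := by group
    rw [e]
    rcases hkr' with h1 | h1
    · rw [h1, hzr]
      calc k * r * k⁻¹ = k * (k⁻¹ * r * k) * k⁻¹ := by rw [h1]
        _ = r := by group
    · rw [h1, hzr']
      calc k * r⁻¹ * k⁻¹ = k * (k⁻¹ * r * k) * k⁻¹ := by rw [h1]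
        _ = r := by group
  have hr2 : r ^ 2 = 1 := by
    have : r = r⁻¹ := hsr2.symm.trans hsr
    rw [pow_two]
    nth_rewrite 1 [this]
    group
  have hr1 : r = 1 := Lib.Helper20.Isolated.eq_one_of_sq_eq_one_of_odd hodd hr2
  apply hne
  have : s = t⁻¹ := eq_inv_of_mul_eq_one_left hr1
  rw [this, Lib.Helper20.Isolated.inv_eq_self_of_mul_self htt]

end Cfsg.Agent.S1184
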