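import Cfsg.Statements.S1231
-- import your own Cfsg.Agent.* helpers here

set_option autoImplicit false
open Cfsg

namespace Cfsg.Agent.S1231

section helpers
variable {G : Type*} [Group G]

/-- rank witness inside a subgroup of `G` -/
def Rk (p j : ℕ) (Y : Subgroup G) : Prop :=
  ∃ A : Subgroup G, A ≤ Y ∧ IsMulCommutative A ∧ (∀ a ∈ A, a ^ p = 1) ∧ p ^ j < Nat.card A

theorem rk_iff (p j : ℕ) (Y : Subgroup G) : ¬ Cfsg.PRankLE p j ↥Y ↔ Rk p j Y := by
  unfold Cfsg.PRankLE Rk
  constructor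
  · intro h
    push Not at h
    obtain ⟨A, hc, he, hcard⟩ := h
    refine ⟨A.map Y.subtype, Subgroup.map_subtype_le _, inferInstance, ?_, ?_⟩
    · rintro _ ⟨a, ha, rfl⟩
      have := he a ha
      simpa using congrArg (Y.subtype) this
    · rw [Subgroup.card_map_of_injective Y.subtype_injective]
      exact hcard
  · rintro ⟨A, hAY, hc, he, hcard⟩ h
    have h1 := h (A.subgroupOf Y) inferInstance (by
      intro a ha
      apply Subtype.ext
      simpa using he (a : G) (Subgroup.mem_subgroupOf.mp ha))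
    rw [Nat.card_congr (Subgroup.subgroupOfEquivOfLe hAY).toEquiv] at h1
    omega

theorem rk_mono {p j : ℕ} {Y Z : Subgroup G} (h : Y ≤ Z) (hY : Rk p j Y) : Rk p j Z := by
  obtain ⟨A, hAY, hc, he, hcard⟩ := hY
  exact ⟨A, hAY.trans h, hc, he, hcard⟩

theorem rk_conj {p j : ℕ} {Y : Subgroup G} (a : G) (hY : Rk p j Y) :
    Rk p j (Y.map (MulAut.conj a).toMonoidHom) := by
  obtain ⟨A, hAY, hc, he, hcard⟩ := hY
  refine ⟨A.map (MulAut.conj a).toMonoidHom, Subgroup.map_mono hAY, inferInstance, ?_, ?_⟩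
  · rintro _ ⟨x, hx, rfl⟩
    rw [← map_pow, he x hx, map_one]
  · rw [Subgroup.card_map_of_injective (MulAut.conj a).injective]
    exact hcard

theorem conj_mem_normalizer (Y : Subgroup G) (a n : G) (hn : n ∈ Subgroup.normalizer (Y : Set G)) :
    a * n * a⁻¹ ∈ Subgroup.normalizer ((Y.map (MulAut.conj a).toMonoidHom : Subgroup G) : Set G) := by
  rw [← Subgroup.map_equiv_normalizer_eq]
  exact ⟨n, hn, by simp⟩

theorem propA [Finite G] {p : ℕ} [Fact p.Prime] (j : ℕ) (H : Subgroup G) (P : Sylow p ↥H)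
    (hN : ∀ X : Subgroup G, X ≤ (P : Subgroup ↥H).map H.subtype → Rk p j X →
      Subgroup.normalizer (X : Set G) ≤ H)
    (Y : Subgroup G) (hYH : Y ≤ H) (hY2 : IsPGroup p Y) (hY1 : Rk p j Y) :
    Subgroup.normalizer (Y : Set G) ≤ H := by
  have hY2' : IsPGroup p (Y.subgroupOf H) := hY2.comap_subtype
  obtain ⟨Q, hQ⟩ := hY2'.exists_le_sylow
  obtain ⟨h, hh⟩ := MulAction.exists_smul_eq H Q P
  have hXP : Y.map (MulAut.conj (h : G)).toMonoidHom ≤ (P : Subgroup ↥H).map H.subtype := by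
    rintro _ ⟨y, hy, rfl⟩
    have hyQ : (⟨y, hYH hy⟩ : H) ∈ (Q : Subgroup H) :=
      hQ (by rw [Subgroup.mem_subgroupOf]; exact hy)
    have hmem : h * ⟨y, hYH hy⟩ * h⁻¹ ∈ ((h • Q : Sylow p H) : Subgroup H) := by
      rw [Sylow.smul_def, Sylow.pointwise_smul_def]
      exact Subgroup.smul_mem_pointwise_smul _ (MulAut.conj h) _ hyQ
    rw [hh] at hmem
    refine ⟨h * ⟨y, hYH hy⟩ * h⁻¹, hmem, ?_⟩
    simp
  have hNX := hN _ hXP (rk_conj (h : G) hY1)
  intro n hn
  have h1 : (h : G) * n * (h : G)⁻¹ ∈ H := hNX (conj_mem_normalizer Y h n hn)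
  have h2 : (h : G)⁻¹ * ((h : G) * n * (h : G)⁻¹) * (h : G) ∈ H :=
    H.mul_mem (H.mul_mem (H.inv_mem h.2) h1) h.2
  simpa [mul_assoc] using h2

end helpers


/-- Let H be a subgroup of the finite group G, p a prime, k ≥ 1, and P a Sylow p-subgroup of H whose p-rank is at least k. Then N_G(X) ≤ H for every subgroup X of P of p-rank at least k if and only if H ∩ gHg⁻¹ has p-rank less than k for every g ∉ H. -/
theorem result {G : Type*} [Group G] [Finite G] {p : ℕ} [Fact p.Prime] (k : ℕ) (hk : 1 ≤ k) (H : Subgroup G) (P : Sylow p ↥H) (hP : ¬ Cfsg.PRankLE p (k - 1) ↥(P : Subgroup ↥H)) : (∀ X : Subgroup G, X ≤ (P : Subgroup ↥H).map H.subtype → ¬ Cfsg.PRankLE p (k - 1) ↥X → Subgroup.normalizer (X : Set G) ≤ H) ↔ (∀ g : G, g ∉ H → Cfsg.PRankLE p (k - 1) ↥(H ⊓ H.map (MulAut.conj g).toMonoidHom)) := by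
  simp only [rk_iff]
  constructor
  · intro hN g hg
    by_contra hrk
    rw [rk_iff] at hrk
    set D := H ⊓ H.map (MulAut.conj g).toMonoidHom with hD
    obtain ⟨A, hAD, hc, he, hcard⟩ := hrk
    have hAp : IsPGroup p A := by
      intro a
      refine ⟨1, ?_⟩
      apply Subtype.ext
      simpa using he (a : G) a.2
    have hAp' : IsPGroup p (A.subgroupOf D) := hAp.comap_subtype
    obtain ⟨T0, hT0⟩ := hAp'.exists_le_sylow
    set T := (T0 : Subgroup D).map D.subtype with hT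
    have hAT : A ≤ T := by
      intro a ha
      exact ⟨⟨a, hAD ha⟩, hT0 (by rw [Subgroup.mem_subgroupOf]; exact ha), rfl⟩
    have hT1 : Rk p (k - 1) T := ⟨A, hAT, hc, he, hcard⟩
    have hT2 : IsPGroup p T := T0.isPGroup'.map _
    have hTD : T ≤ D := Subgroup.map_subtype_le _
    have hTH : T ≤ H := hTD.trans inf_le_left
    have hNH : Subgroup.normalizer (T : Set G) ≤ H := propA (k - 1) H P hN T hTH hT2 hT1
    have hT'H : T.map (MulAut.conj g⁻¹).toMonoidHom ≤ H := by
      rintro _ ⟨t, ht, rfl⟩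
      obtain ⟨x, hx, hxt⟩ := (hTD ht).2
      simp only [MulEquiv.toMonoidHom_eq_coe, MonoidHom.coe_coe, MulAut.conj_apply] at hxt ⊢
      rw [← hxt]
      simpa [mul_assoc] using hx
    have hNH' : Subgroup.normalizer ((T.map (MulAut.conj g⁻¹).toMonoidHom : Subgroup G) : Set G) ≤ H :=
      propA (k - 1) H P hN _ hT'H (hT2.map _) (rk_conj g⁻¹ hT1)
    have hND : Subgroup.normalizer (T : Set G) ≤ D := by
      intro n hn
      refine ⟨hNH hn, ?_⟩
      have h1 := hNH' (conj_mem_normalizer T g⁻¹ n hn)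
      refine ⟨g⁻¹ * n * g⁻¹⁻¹, h1, ?_⟩
      simp [mul_assoc]
    have hidx : ¬ p ∣ T.index := by
      obtain ⟨m, hm⟩ := hT2.exists_card_eq
      have hmod := Sylow.card_quotient_normalizer_modEq_card_quotient (p := p) hm
      have e1 : T.relIndex (Subgroup.normalizer (T : Set G)) * (Subgroup.normalizer (T : Set G)).relIndex D
          = T.relIndex D := Subgroup.relIndex_mul_relIndex _ _ _ Subgroup.le_normalizer hND
      have e2 : T.relIndex D = (T0 : Subgroup D).index := by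
        rw [Subgroup.relIndex, hT]
        congr 1
        exact Subgroup.comap_map_eq_self_of_injective (Subgroup.subtype_injective D) _
      have h3 : ¬ p ∣ T.relIndex (Subgroup.normalizer (T : Set G)) := by
        intro h
        exact T0.not_dvd_index (e2 ▸ e1 ▸ (Dvd.dvd.mul_right h _))
      intro h
      exact h3 ((Nat.ModEq.dvd_iff hmod (dvd_refl p)).mpr h)
    set T1 : Sylow p G := hT2.toSylow hidx with hT1def
    have hT1coe : (T1 : Subgroup G) = T := IsPGroup.toSylow_coe hT2 hidx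
    have hle1 : (T1 : Subgroup G) ≤ H := hT1coe ▸ hTH
    have hle2 : ((g⁻¹ • T1 : Sylow p G) : Subgroup G) ≤ H := by
      intro x hx
      rw [Sylow.smul_def, Sylow.pointwise_smul_def, Subgroup.mem_pointwise_smul_iff_inv_smul_mem] at hx
      have hx' : g * x * g⁻¹ ∈ T := by
        rw [← hT1coe]
        simpa [MulAut.smul_def] using hx
      have := hT'H ⟨g * x * g⁻¹, hx', rfl⟩
      simpa [mul_assoc] using this
    obtain ⟨h, hh⟩ := MulAction.exists_smul_eq H ((g⁻¹ • T1).subtype hle2) (T1.subtype hle1)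
    simp_rw [Sylow.smul_subtype, Subgroup.smul_def, smul_smul] at hh
    have hmem : (h : G) * g⁻¹ ∈ Subgroup.normalizer ((T1 : Subgroup G) : Set G) :=
      Sylow.smul_eq_iff_mem_normalizer.mp (Sylow.subtype_injective hh)
    rw [hT1coe] at hmem
    have h3 : (h : G) * g⁻¹ ∈ H := hNH hmem
    have h4 : g⁻¹ ∈ H := by
      have := H.mul_mem (H.inv_mem h.2) h3
      simpa using this
    exact hg (by simpa using H.inv_mem h4)
  · intro hI X hXP hX g hg
    by_contra hgH
    have h1 := hI g hgH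
    refine ((rk_iff _ _ _).mpr ?_) h1
    refine rk_mono ?_ hX
    apply le_inf (hXP.trans (Subgroup.map_subtype_le _))
    intro x hx
    have hx' : g⁻¹ * x * g⁻¹⁻¹ ∈ X := by
      have := Subgroup.inv_mem _ hg
      rw [Subgroup.mem_normalizer_iff] at this
      exact (this x).mp hx
    refine ⟨g⁻¹ * x * g⁻¹⁻¹, (hXP.trans (Subgroup.map_subtype_le _)) hx', ?_⟩
    simp [mul_assoc]

end Cfsg.Agent.S1231
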