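import Cfsg.Statements.S1236
-- import your own Cfsg.Agent.* helpers here

set_option autoImplicit false
open Cfsg

namespace Cfsg.Agent.S1236

open Subgroup

theorem commute_zpowers {S : Type*} [Group S] {a b b' : S} (hb : b ∈ zpowers a)
    (hb' : b' ∈ zpowers a) : Commute b b' := by
  obtain ⟨i, rfl⟩ := mem_zpowers_iff.1 hb
  obtain ⟨j, rfl⟩ := mem_zpowers_iff.1 hb'
  exact ((Commute.refl a).zpow_right j).zpow_left i

/-- A finite cyclic group has at most one involution. -/
theorem invol_unique {B : Type*} [Group B] [Finite B] [IsCyclic B] {b c : B} (hb : b ^ 2 = 1)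
    (hc : c ^ 2 = 1) (hb1 : b ≠ 1) (hc1 : c ≠ 1) : b = c := by
  classical
  have := Fintype.ofFinite B
  by_contra hne
  have h := IsCyclic.card_pow_eq_one_le (α := B) (n := 2) (by norm_num)
  have h2 : 2 < (Finset.univ.filter (fun a : B => a ^ 2 = 1)).card :=
    Finset.two_lt_card.2 ⟨1, by simp, b, by simp [hb], c, by simp [hc], Ne.symm hb1,
      Ne.symm hc1, hne⟩
  have h3 : (Finset.univ.filter (fun a : B => a ^ 2 = 1)).card ≤ 2 := by convert h
  omega

/-- In a group with a cyclic subgroup `B` "of index two" such that elements outside `B` only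
centralize involutions of `B`, every elementary abelian subgroup of order `4` is
self-centralizing. -/
theorem four_selfcentralizing {S : Type*} [Group S] [Finite S] (B : Subgroup S)
    (hBc : IsCyclic B) (hB2 : ∀ u w : S, u ∉ B → w ∉ B → u⁻¹ * w ∈ B)
    (hcent : ∀ u : S, u ∉ B → ∀ b ∈ B, u * b = b * u → b ^ 2 = 1)
    (V : Subgroup S) (hV4 : Nat.card V = 4)
    (hV2 : ∀ v ∈ V, v ^ 2 = 1) (w : S) (hw : ∀ v ∈ V, w * v = v * w) : w ∈ V := by
  classical
  have := Fintype.ofFinite V
  have h3 : 2 < Fintype.card V := by rw [← Nat.card_eq_fintype_card, hV4]; norm_num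
  obtain ⟨a, b, c, hab, hac, hbc⟩ := Fintype.two_lt_card_iff.1 h3
  -- uniqueness of involutions of `B`
  have huniq : ∀ b c : S, b ∈ B → c ∈ B → b ^ 2 = 1 → c ^ 2 = 1 → b ≠ 1 → c ≠ 1 → b = c := by
    intro b c hb hc hb2 hc2 hb1 hc1
    have := invol_unique (B := B) (b := ⟨b, hb⟩) (c := ⟨c, hc⟩) (Subtype.ext hb2)
      (Subtype.ext hc2) (fun h => hb1 (congrArg Subtype.val h))
      (fun h => hc1 (congrArg Subtype.val h))
    exact congrArg Subtype.val this
  -- some element of `V` lies outside `B`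
  obtain ⟨u, huV, huB⟩ : ∃ u ∈ V, u ∉ B := by
    by_contra hall
    push Not at hall
    have heq : ∀ x y : V, x ≠ 1 → y ≠ 1 → x = y := by
      intro x y hx hy
      apply Subtype.ext
      exact huniq x y (hall x x.2) (hall y y.2) (hV2 x x.2) (hV2 y y.2)
        (fun h => hx (Subtype.ext h)) (fun h => hy (Subtype.ext h))
    by_cases ha : a = 1
    · exact hbc (heq b c (fun h => hab (ha.trans h.symm)) (fun h => hac (ha.trans h.symm)))
    · by_cases hb : b = 1
      · exact hac (heq a c ha (fun h => hbc (hb.trans h.symm)))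
      · exact hab (heq a b ha hb)
  -- an involution of `V` inside `B`
  obtain ⟨z, hzV, hzB, hz1⟩ : ∃ z ∈ V, z ∈ B ∧ z ≠ 1 := by
    obtain ⟨v, hvV, hv1, hvu⟩ : ∃ v ∈ V, v ≠ 1 ∧ v ≠ u := by
      by_cases ha : (a : S) ≠ 1 ∧ (a : S) ≠ u
      · exact ⟨a, a.2, ha.1, ha.2⟩
      by_cases hb : (b : S) ≠ 1 ∧ (b : S) ≠ u
      · exact ⟨b, b.2, hb.1, hb.2⟩
      by_cases hc : (c : S) ≠ 1 ∧ (c : S) ≠ u
      · exact ⟨c, c.2, hc.1, hc.2⟩
      exfalso
      have ha' : (a : S) = 1 ∨ (a : S) = u := by tauto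
      have hb' : (b : S) = 1 ∨ (b : S) = u := by tauto
      have hc' : (c : S) = 1 ∨ (c : S) = u := by tauto
      have hab' : (a : S) ≠ b := fun h => hab (Subtype.ext h)
      have hac' : (a : S) ≠ c := fun h => hac (Subtype.ext h)
      have hbc' : (b : S) ≠ c := fun h => hbc (Subtype.ext h)
      rcases ha' with h1 | h1 <;> rcases hb' with h2 | h2 <;> rcases hc' with h3 | h3 <;>
        simp_all
    by_cases hvB : v ∈ B
    · exact ⟨v, hvV, hvB, hv1⟩
    · refine ⟨u⁻¹ * v, mul_mem (inv_mem huV) hvV, hB2 u v huB hvB, ?_⟩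
      intro h
      exact hvu (inv_mul_eq_one.1 h).symm
  have hz2 : z ^ 2 = 1 := hV2 z hzV
  have hT : ∀ b ∈ B, b ^ 2 = 1 → b ∈ V := by
    intro b hb hb2
    by_cases hb1 : b = 1
    · rw [hb1]; exact one_mem _
    · rw [huniq b z hb hzB hb2 hz2 hb1 hz1]; exact hzV
  by_cases hwB : w ∈ B
  · exact hT w hwB (hcent u huB w hwB (hw u huV).symm)
  · have h1 : u⁻¹ * w ∈ B := hB2 u w huB hwB
    have h2 : u * (u⁻¹ * w) = (u⁻¹ * w) * u := by
      rw [mul_inv_cancel_left, mul_assoc, hw u huV, inv_mul_cancel_left]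
    have h3 := hT _ h1 (hcent u huB _ h1 h2)
    have h4 : w = u * (u⁻¹ * w) := by rw [mul_inv_cancel_left]
    rw [h4]; exact mul_mem huV h3

open DihedralGroup in
/-- Elementary abelian subgroups of order `4` of a dihedral group are self-centralizing. -/
theorem dihedral_four (m : ℕ) [Finite (DihedralGroup m)] (V : Subgroup (DihedralGroup m))
    (hV4 : Nat.card V = 4) (hV2 : ∀ v ∈ V, v ^ 2 = 1) (w : DihedralGroup m)
    (hw : ∀ v ∈ V, w * v = v * w) : w ∈ V := by
  have hr : ∀ i : ZMod m, r i ∈ zpowers (r (1 : ZMod m)) := by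
    intro i
    rw [mem_zpowers_iff]
    exact ⟨i.cast, by rw [r_one_zpow, ZMod.intCast_zmod_cast]⟩
  have hsr : ∀ i : ZMod m, sr i ∉ zpowers (r (1 : ZMod m)) := by
    intro i h
    obtain ⟨k, hk⟩ := mem_zpowers_iff.1 h
    rw [r_one_zpow] at hk
    exact absurd hk (by simp)
  apply four_selfcentralizing (zpowers (r (1 : ZMod m))) inferInstance ?_ ?_ V hV4 hV2 w hw
  · intro u w hu hw
    rcases u with i | i
    · exact absurd (hr i) hu
    rcases w with j | j
    · exact absurd (hr j) hw
    rw [inv_sr, sr_mul_sr]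
    exact hr _
  · intro u hu b hb hub
    rcases u with i | i
    · exact absurd (hr i) hu
    rcases b with j | j
    · rw [sr_mul_r, r_mul_sr] at hub
      have h1 : i + j = i - j := by simpa using hub
      have h2 : j + j = 0 := by
        have h3 : j = -j := by
          have := congrArg (fun t => t - i) h1
          simpa using this
        calc j + j = j + -j := by rw [← h3]
          _ = 0 := add_neg_cancel j
      rw [pow_two, r_mul_r, h2, r_zero]
    · exact absurd hb (hsr j)

/-- Elementary abelian subgroups of order `4` of a quasi-dihedral group are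
self-centralizing. -/
theorem qd_four {S : Type*} [Group S] [Finite S] (hS : Cfsg.IsQuasiDihedral S) (V : Subgroup S)
    (hV4 : Nat.card V = 4) (hV2 : ∀ v ∈ V, v ^ 2 = 1) (w : S)
    (hw : ∀ v ∈ V, w * v = v * w) : w ∈ V := by
  obtain ⟨n, hn, hcard, x, y, hx, hy, hyx⟩ := hS
  obtain ⟨k, rfl⟩ : ∃ k, n = k + 3 := ⟨n - 3, by omega⟩
  have hN : 1 ≤ 2 ^ k := Nat.one_le_two_pow
  have e1 : 2 ^ (k + 3 - 1) - 1 = 2 * (2 * 2 ^ k - 1) + 1 := by
    have : 2 ^ (k + 3 - 1) = 4 * 2 ^ k := by
      rw [show k + 3 - 1 = k + 2 by omega, pow_add]; ring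
    omega
  have e2 : 2 ^ (k + 3) = 8 * 2 ^ k := by rw [pow_add]; ring
  have hidx2 : (zpowers x).index = 2 := by
    have h1 := Subgroup.card_mul_index (zpowers x)
    rw [Nat.card_zpowers, hx, hcard, pow_succ] at h1
    exact Nat.eq_of_mul_eq_mul_left (by positivity) h1
  have hconj : ∀ b ∈ zpowers x, y * b * y⁻¹ = b ^ (2 ^ (k + 3 - 1) - 1) := by
    intro b hb
    obtain ⟨j, rfl⟩ := mem_zpowers_iff.1 hb
    rw [← conj_zpow, hyx, ← zpow_natCast, ← zpow_natCast, ← zpow_mul, ← zpow_mul, mul_comm]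
  -- an element of `zpowers x` fixed by `y` is an involution
  have hfix : ∀ b ∈ zpowers x, y * b * y⁻¹ = b → b ^ 2 = 1 := by
    intro b hb hfixb
    rw [hconj b hb, e1] at hfixb
    have h1 : (b ^ 2) ^ (2 * 2 ^ k - 1) = 1 := by
      rw [pow_succ, pow_mul] at hfixb
      exact mul_eq_right.1 hfixb
    have h2 : (b ^ 2) ^ (2 ^ (k + 3)) = 1 := by
      obtain ⟨j, rfl⟩ := mem_zpowers_iff.1 hb
      have h : (x ^ j) ^ 2 ^ (k + 3) = 1 := by
        rw [← zpow_natCast, ← zpow_mul, mul_comm, zpow_mul, zpow_natCast, ← hx,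
          pow_orderOf_eq_one, one_zpow]
      rw [← pow_mul, mul_comm, pow_mul, h, one_pow]
    have h3 : orderOf (b ^ 2) ∣ Nat.gcd (2 * 2 ^ k - 1) (2 ^ (k + 3)) :=
      Nat.dvd_gcd (orderOf_dvd_of_pow_eq_one h1) (orderOf_dvd_of_pow_eq_one h2)
    have h4 : Nat.gcd (2 * 2 ^ k - 1) (2 ^ (k + 3)) = 1 := by
      apply Nat.Coprime.pow_right
      rw [Nat.coprime_two_right]
      exact ⟨2 ^ k - 1, by omega⟩
    rw [h4, Nat.dvd_one, orderOf_eq_one_iff] at h3
    exact h3
  have hyB : y ∉ zpowers x := by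
    intro hyB
    have h1 : y * x * y⁻¹ = x := by
      rw [(Cfsg.Agent.S1236.commute_zpowers hyB (mem_zpowers x)).eq, mul_inv_cancel_right]
    have h2 := hfix x (mem_zpowers x) h1
    have h3 := orderOf_dvd_of_pow_eq_one h2
    rw [hx, e2] at h3
    have := Nat.le_of_dvd (by norm_num) h3
    omega
  apply four_selfcentralizing (zpowers x) inferInstance ?_ ?_ V hV4 hV2 w hw
  · intro u w hu hw
    rw [Subgroup.mul_mem_iff_of_index_two hidx2]
    constructor
    · intro h; exact absurd (inv_mem_iff.1 h) hu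
    · intro h; exact absurd h hw
  · intro u hu b hb hub
    have h1 : y⁻¹ * u ∈ zpowers x := by
      rw [Subgroup.mul_mem_iff_of_index_two hidx2]
      constructor
      · intro h; exact absurd (inv_mem_iff.1 h) hyB
      · intro h; exact absurd h hu
    set b₀ := y⁻¹ * u with hb₀
    have hu' : u = y * b₀ := by rw [hb₀]; group
    apply hfix b hb
    have h2 : b₀ * b = b * b₀ := (Cfsg.Agent.S1236.commute_zpowers h1 hb).eq
    have h3 : y * b₀ * b = b * (y * b₀) := by rw [← hu']; exact hub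
    calc y * b * y⁻¹ = (y * b₀ * b) * b₀⁻¹ * y⁻¹ := by rw [mul_assoc y b₀ b, h2]; group
      _ = b := by rw [h3]; group

/-- If R is a finite group, t a central involution of R with R/⟨t⟩ dihedral or quasi-dihedral, and A an elementary abelian subgroup of order 8 containing t, then C_R(A) = A. -/
theorem result {R : Type*} [Group R] [Finite R] (t : R) (ht : orderOf t = 2) (htz : t ∈ Subgroup.center R) [(Subgroup.zpowers t).Normal] (hq : (∃ m : ℕ, 2 ≤ m ∧ Nonempty (R ⧸ Subgroup.zpowers t ≃* DihedralGroup m)) ∨ Cfsg.IsQuasiDihedral (R ⧸ Subgroup.zpowers t)) (A : Subgroup R) (hA : Cfsg.IsElementaryAbelian 2 A) (hA8 : Nat.card A = 8) (htA : t ∈ A) : Subgroup.centralizer (A : Set R) = A := by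
  obtain ⟨hAc, hA2⟩ := hA
  have hcomm : ∀ a ∈ A, ∀ b ∈ A, a * b = b * a := fun a ha b hb =>
    congrArg Subtype.val (hAc.is_comm.comm ⟨a, ha⟩ ⟨b, hb⟩)
  apply le_antisymm
  · intro w hw
    rw [mem_centralizer_iff] at hw
    set π := QuotientGroup.mk' (zpowers t) with hπ
    have hZA : zpowers t ≤ A := zpowers_le.2 htA
    -- the image of `A`
    have hker : (π.comp A.subtype).ker = (zpowers t).subgroupOf A := by
      ext a
      rw [MonoidHom.mem_ker, mem_subgroupOf]
      show π (a : R) = 1 ↔ _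
      rw [hπ, QuotientGroup.mk'_apply, QuotientGroup.eq_one_iff]
    have hrange : (π.comp A.subtype).range = A.map π := by
      rw [MonoidHom.range_comp, Subgroup.range_subtype]
    have hV4 : Nat.card (A.map π) = 4 := by
      have h1 := Subgroup.card_mul_index (π.comp A.subtype).ker
      rw [Subgroup.index_ker, hrange, hker, Nat.card_congr (subgroupOfEquivOfLe hZA).toEquiv,
        Nat.card_zpowers, ht, hA8] at h1
      omega
    have hV2 : ∀ v ∈ A.map π, v ^ 2 = 1 := by
      rintro v ⟨a, ha, rfl⟩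
      rw [← map_pow, hA2 a ha, map_one]
    have hwV : ∀ v ∈ A.map π, π w * v = v * π w := by
      rintro v ⟨a, ha, rfl⟩
      rw [← map_mul, ← map_mul, hw a ha]
    have hmem : π w ∈ A.map π := by
      rcases hq with ⟨m, -, ⟨e⟩⟩ | hQD
      · have : Finite (DihedralGroup m) := Finite.of_equiv _ e.toEquiv
        have h1 := dihedral_four m ((A.map π).map e.toMonoidHom)
          (by rw [Subgroup.card_map_of_injective e.injective]; exact hV4)
          (by
            rintro v ⟨v', hv', rfl⟩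
            show e v' ^ 2 = 1
            rw [← map_pow, hV2 v' hv', map_one])
          (e (π w))
          (by
            rintro v ⟨v', hv', rfl⟩
            show e (π w) * e v' = e v' * e (π w)
            rw [← map_mul, ← map_mul, hwV v' hv'])
        obtain ⟨v', hv', hv'e⟩ := h1
        have : v' = π w := e.injective hv'e
        rw [← this]; exact hv'
      · exact qd_four hQD (A.map π) hV4 hV2 (π w) hwV
    obtain ⟨a, ha, haw⟩ := hmem
    have h1 : a⁻¹ * w ∈ zpowers t := by
      rw [← QuotientGroup.eq]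
      exact haw
    have h2 : w = a * (a⁻¹ * w) := by group
    rw [h2]; exact mul_mem ha (hZA h1)
  · intro a ha
    rw [mem_centralizer_iff]
    intro b hb
    exact hcomm b hb a ha

end Cfsg.Agent.S1236
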