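import Cfsg.Statements.S1241
-- import your own Cfsg.Agent.* helpers here
import Mathlib

set_option autoImplicit false
open Cfsg

namespace Cfsg.Agent.S1241

open scoped IsMulCommutative in
/-- Transfer into an abelian target, when the conjugates of powers of `g` lying in `H` have the
same image as the powers themselves. -/
theorem transfer_eq_pow_of_ctrl {G : Type*} [Group G] {H : Subgroup G} [H.FiniteIndex]
    {A : Type*} [Group A] [IsMulCommutative A] (ϕ : H →* A) (g : G) (hg : g ∈ H)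
    (key : ∀ (k : ℕ) (g₀ : G) (hk : g₀⁻¹ * g ^ k * g₀ ∈ H),
      ϕ ⟨g₀⁻¹ * g ^ k * g₀, hk⟩ = ϕ ⟨g, hg⟩ ^ k) :
    MonoidHom.transfer ϕ g = ϕ ⟨g, hg⟩ ^ H.index := by
  have : Fintype (Quotient (MulAction.orbitRel (Subgroup.zpowers g) (G ⧸ H))) :=
    Fintype.ofFinite _
  rw [Subgroup.index_eq_sum_minimalPeriod H g, ← Finset.prod_pow_eq_pow_sum,
    MonoidHom.transfer_eq_prod_quotient_orbitRel_zpowers_quot]
  apply Finset.prod_congr rfl
  intro q _
  exact key _ _ _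

open scoped IsMulCommutative in
/-- Let G be a finite group, p a prime, H a subgroup of index prime to p, K a subgroup of H normal in H with H/K commutative, and g ∈ H ∖ K an element of p-power order such that for all integers m and all a ∈ G with a g^m a⁻¹ ∈ H one has a g^m a⁻¹ ∈ g^m K. Then g ∉ G'. -/
theorem result {G : Type*} [Group G] [Finite G] {p : ℕ} [Fact p.Prime] (H K : Subgroup G) (hHK : K ≤ H) (hKn : (K.subgroupOf H).Normal) (hab : ∀ x ∈ H, ∀ y ∈ H, x * y * x⁻¹ * y⁻¹ ∈ K) (hidx : Nat.Coprime p H.index) (g : G) (hgH : g ∈ H) (hgK : g ∉ K) (hgp : ∃ k : ℕ, orderOf g = p ^ k) (hctrl : ∀ (m : ℤ) (a : G), a * g ^ m * a⁻¹ ∈ H → (a * g ^ m * a⁻¹) * (g ^ m)⁻¹ ∈ K) : g ∉ commutator G := by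
  intro hgc
  have := hKn
  have hcomm : IsMulCommutative (↥H ⧸ K.subgroupOf H) := by
    refine ⟨⟨fun a b => ?_⟩⟩
    induction a using QuotientGroup.induction_on with | _ a => ?_
    induction b using QuotientGroup.induction_on with | _ b => ?_
    rw [← QuotientGroup.mk_mul, ← QuotientGroup.mk_mul, QuotientGroup.eq]
    rw [Subgroup.mem_subgroupOf]
    have h1 := hab (b : G)⁻¹ (H.inv_mem b.2) (a : G)⁻¹ (H.inv_mem a.2)
    have h2 : (((a * b)⁻¹ * (b * a) : ↥H) : G) = (b : G)⁻¹ * (a : G)⁻¹ * (b : G)⁻¹⁻¹ * (a : G)⁻¹⁻¹ := by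
      simp [mul_assoc]
    rw [h2]; exact h1
  set ϕ : ↥H →* ↥H ⧸ K.subgroupOf H := QuotientGroup.mk' (K.subgroupOf H) with hϕ
  have key : ∀ (k : ℕ) (g₀ : G) (hk : g₀⁻¹ * g ^ k * g₀ ∈ H),
      ϕ ⟨g₀⁻¹ * g ^ k * g₀, hk⟩ = ϕ ⟨g, hgH⟩ ^ k := by
    intro k g₀ hk
    have h1 := hctrl (k : ℤ) g₀⁻¹ (by simpa using hk)
    rw [← map_pow, ← mul_inv_eq_one, ← map_inv, ← map_mul]
    rw [hϕ, QuotientGroup.mk'_apply, QuotientGroup.eq_one_iff, Subgroup.mem_subgroupOf]
    simpa using h1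
  have h1 := transfer_eq_pow_of_ctrl ϕ g hgH key
  have h2 : MonoidHom.transfer ϕ g = 1 := by
    have hk : g ∈ (MonoidHom.transfer ϕ).ker := Abelianization.commutator_subset_ker _ hgc
    exact hk
  rw [h2, ← map_pow, hϕ, QuotientGroup.mk'_apply] at h1
  have h3 : g ^ H.index ∈ K := by
    have := (QuotientGroup.eq_one_iff _).mp h1.symm
    rw [Subgroup.mem_subgroupOf] at this
    simpa using this
  obtain ⟨k, hk⟩ := hgp
  have hcop : Nat.Coprime (orderOf g) H.index := by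
    rw [hk]; exact Nat.Coprime.pow_left k hidx
  obtain ⟨m, hm⟩ := exists_pow_eq_self_of_coprime hcop.symm
  exact hgK (hm ▸ K.pow_mem h3 m)

end Cfsg.Agent.S1241
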