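import Cfsg.Statements.S1242
-- import your own Cfsg.Agent.* helpers here
import Cfsg.Agent.S1241
import Mathlib

set_option autoImplicit false
open Cfsg

namespace Cfsg.Agent.S1242

/-- `O^p(A)` is a normal subgroup. -/
theorem pRes_normal (p : ℕ) (A : Type*) [Group A] : (Cfsg.pResidual p A).Normal := by
  constructor
  intro n hn g
  induction hn using Subgroup.closure_induction with
  | mem x hx =>
    apply Subgroup.subset_closure
    show Nat.Coprime (orderOf (g * x * g⁻¹)) p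
    have h1 : orderOf (g * x * g⁻¹) = orderOf x := by
      have := MulEquiv.orderOf_eq (MulAut.conj g) x
      simpa using this
    rw [h1]
    exact hx
  | one => simp
  | mul x y _ _ hx hy =>
    have : g * (x * y) * g⁻¹ = (g * x * g⁻¹) * (g * y * g⁻¹) := by group
    rw [this]
    exact Subgroup.mul_mem _ hx hy
  | inv x _ hx =>
    have : g * x⁻¹ * g⁻¹ = (g * x * g⁻¹)⁻¹ := by group
    rw [this]
    exact Subgroup.inv_mem _ hx

/-- Splitting of the order of an element into its `p`-part and `p'`-part. -/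
theorem exists_order_split (p : ℕ) [Fact p.Prime] {A : Type*} [Group A] [Finite A] (g : A) :
    ∃ k m : ℕ, ¬ p ∣ m ∧ orderOf g = p ^ k * m ∧ orderOf (g ^ p ^ k) = m ∧ orderOf (g ^ m) = p ^ k := by
  have hp : p.Prime := Fact.out
  have hpos : orderOf g ≠ 0 := (orderOf_pos g).ne'
  obtain ⟨k, m, hm, hkm⟩ := Nat.exists_eq_pow_mul_and_not_dvd hpos p hp.ne_one
  have hm0 : m ≠ 0 := by
    rintro rfl
    exact hm (dvd_zero p)
  refine ⟨k, m, hm, hkm, ?_, ?_⟩
  · rw [orderOf_pow' g (pow_ne_zero k hp.ne_zero), hkm]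
    have h2 : Nat.gcd (p ^ k * m) (p ^ k) = p ^ k := Nat.gcd_eq_right (Dvd.intro _ rfl)
    rw [h2, Nat.mul_div_cancel_left _ (pow_pos hp.pos k)]
  · rw [orderOf_pow' g hm0, hkm]
    have h2 : Nat.gcd (p ^ k * m) m = m := Nat.gcd_eq_right (Dvd.intro_left _ rfl)
    rw [h2, Nat.mul_div_cancel _ (Nat.pos_of_ne_zero hm0)]

open scoped IsMulCommutative in
/-- Let G be a finite group, p a prime and H a subgroup of index prime to p such that any two elements of H of p-power order that are conjugate in G are conjugate in H. Then (O^p(G)·G') ∩ H = O^p(H)·H', where O^p denotes the subgroup generated by the elements of order prime to p. -/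
theorem result {G : Type*} [Group G] [Finite G] {p : ℕ} [Fact p.Prime] (H : Subgroup G) (hidx : Nat.Coprime p H.index) (hfus : ∀ g ∈ H, (∃ k : ℕ, orderOf g = p ^ k) → ∀ a : G, a * g * a⁻¹ ∈ H → ∃ h ∈ H, h * g * h⁻¹ = a * g * a⁻¹) : (Cfsg.pResidual p G ⊔ commutator G) ⊓ H = (Cfsg.pResidual p ↥H ⊔ commutator ↥H).map H.subtype := by
  have hp : p.Prime := Fact.out
  have hN1 : (Cfsg.pResidual p ↥H).Normal := pRes_normal p ↥H
  set N : Subgroup ↥H := Cfsg.pResidual p ↥H ⊔ commutator ↥H with hN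
  have hNn : N.Normal := by rw [hN]; infer_instance
  apply le_antisymm
  · -- the transfer argument
    have hcomm : IsMulCommutative (↥H ⧸ N) :=
      Subgroup.Normal.quotient_commutative_iff_commutator_le.mpr le_sup_right
    set ϕ : ↥H →* ↥H ⧸ N := QuotientGroup.mk' N with hϕ
    -- the quotient is a p-group
    have hAp : ∀ a : ↥H ⧸ N, ∃ j : ℕ, a ^ p ^ j = 1 := by
      intro a
      obtain ⟨h, rfl⟩ := QuotientGroup.mk_surjective a
      obtain ⟨k, m, hm, -, hk, -⟩ := exists_order_split p h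
      refine ⟨k, ?_⟩
      rw [← QuotientGroup.mk_pow, QuotientGroup.eq_one_iff]
      apply (le_sup_left : Cfsg.pResidual p ↥H ≤ N)
      apply Subgroup.subset_closure
      show Nat.Coprime (orderOf (h ^ p ^ k)) p
      rw [hk]
      exact (Nat.Coprime.symm ((Nat.Prime.coprime_iff_not_dvd hp).mpr hm))
    -- the transfer kills O^p(G) G'
    have hker : Cfsg.pResidual p G ⊔ commutator G ≤ (MonoidHom.transfer ϕ).ker := by
      apply sup_le
      · unfold Cfsg.pResidual
        rw [Subgroup.closure_le]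
        intro g hg
        have hg' : Nat.Coprime (orderOf g) p := hg
        show g ∈ (MonoidHom.transfer ϕ).ker
        rw [MonoidHom.mem_ker]
        obtain ⟨j, hj⟩ := hAp (MonoidHom.transfer ϕ g)
        have h1 : orderOf (MonoidHom.transfer ϕ g) ∣ p ^ j := orderOf_dvd_of_pow_eq_one hj
        have h2 : orderOf (MonoidHom.transfer ϕ g) ∣ orderOf g := orderOf_map_dvd _ g
        have h3 : orderOf (MonoidHom.transfer ϕ g) ∣ Nat.gcd (orderOf g) (p ^ j) :=
          Nat.dvd_gcd h2 h1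
        have h4 : Nat.gcd (orderOf g) (p ^ j) = 1 := Nat.Coprime.pow_right j hg'
        rw [h4] at h3
        exact orderOf_eq_one_iff.mp (Nat.dvd_one.mp h3)
      · exact Abelianization.commutator_subset_ker _
    rintro x ⟨hx1, hxH⟩
    have hxH' : x ∈ H := hxH
    have hVx : MonoidHom.transfer ϕ x = 1 := MonoidHom.mem_ker.mp (hker hx1)
    obtain ⟨k, m, hm, hkm, -, hk⟩ := exists_order_split p x
    have hgH : x ^ m ∈ H := H.pow_mem hxH' m
    have key : ∀ (i : ℕ) (g₀ : G) (hi : g₀⁻¹ * (x ^ m) ^ i * g₀ ∈ H),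
        ϕ ⟨g₀⁻¹ * (x ^ m) ^ i * g₀, hi⟩ = ϕ ⟨x ^ m, hgH⟩ ^ i := by
      intro i g₀ hi
      have ho : ∃ k' : ℕ, orderOf ((x ^ m) ^ i) = p ^ k' := by
        have h1 : orderOf ((x ^ m) ^ i) ∣ p ^ k := by
          rw [← hk]; exact orderOf_pow_dvd i
        obtain ⟨k', -, hk'⟩ := (Nat.dvd_prime_pow hp).mp h1
        exact ⟨k', hk'⟩
      obtain ⟨h, hh, hconj⟩ := hfus ((x ^ m) ^ i) (H.pow_mem hgH i) ho g₀⁻¹ (by simpa using hi)
      have h1 : (⟨g₀⁻¹ * (x ^ m) ^ i * g₀, hi⟩ : ↥H) = ⟨h, hh⟩ * ⟨x ^ m, hgH⟩ ^ i * ⟨h, hh⟩⁻¹ := by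
        apply Subtype.ext
        simp only [Subgroup.coe_mul, Subgroup.coe_pow, Subgroup.coe_inv]
        rw [hconj, inv_inv]
      rw [h1, map_mul, map_mul, map_inv, map_pow]
      rw [mul_comm (ϕ ⟨h, hh⟩), mul_inv_cancel_right]
    have h1 := Cfsg.Agent.S1241.transfer_eq_pow_of_ctrl ϕ (x ^ m) hgH key
    have h2 : MonoidHom.transfer ϕ (x ^ m) = 1 := by rw [map_pow, hVx, one_pow]
    rw [h2] at h1
    have h3 : (ϕ ⟨x, hxH'⟩) ^ (m * H.index) = 1 := by
      rw [pow_mul, ← map_pow]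
      have : (⟨x, hxH'⟩ : ↥H) ^ m = ⟨x ^ m, hgH⟩ := Subtype.ext (by simp)
      rw [this]; exact h1.symm
    obtain ⟨j, hj⟩ := hAp (ϕ ⟨x, hxH'⟩)
    have h4 : orderOf (ϕ ⟨x, hxH'⟩) ∣ Nat.gcd (m * H.index) (p ^ j) :=
      Nat.dvd_gcd (orderOf_dvd_of_pow_eq_one h3) (orderOf_dvd_of_pow_eq_one hj)
    have h5 : Nat.gcd (m * H.index) (p ^ j) = 1 := by
      apply Nat.Coprime.pow_right
      apply Nat.Coprime.mul_left
      · exact (Nat.Coprime.symm ((Nat.Prime.coprime_iff_not_dvd hp).mpr hm))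
      · exact hidx.symm
    rw [h5] at h4
    have h6 : ϕ ⟨x, hxH'⟩ = 1 := orderOf_eq_one_iff.mp (Nat.dvd_one.mp h4)
    have h7 : (⟨x, hxH'⟩ : ↥H) ∈ N := by
      rw [hϕ, QuotientGroup.mk'_apply, QuotientGroup.eq_one_iff] at h6
      exact h6
    exact ⟨⟨x, hxH'⟩, h7, rfl⟩
  · -- the easy inclusion
    apply le_inf
    · rw [hN, Subgroup.map_sup]
      apply sup_le_sup
      · rw [Subgroup.map_le_iff_le_comap]
        unfold Cfsg.pResidual
        rw [Subgroup.closure_le]
        intro y hy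
        have hy' : Nat.Coprime (orderOf y) p := hy
        show (y : G) ∈ Subgroup.closure {g : G | Nat.Coprime (orderOf g) p}
        apply Subgroup.subset_closure
        show Nat.Coprime (orderOf (y : G)) p
        rw [Subgroup.orderOf_coe]
        exact hy'
      · rw [Subgroup.map_subtype_commutator, commutator_def]
        exact Subgroup.commutator_mono le_top le_top
    · exact Subgroup.map_subtype_le _

end Cfsg.Agent.S1242
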