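import Cfsg.Statements.S1243

set_option autoImplicit false
open Cfsg

namespace Cfsg.Agent.S1243

theorem exists_conj_into_sylow {G : Type*} [Group G] [Finite G] {p : ℕ} [Fact p.Prime]
    (T : Sylow p G) (R : Subgroup G) (hR : IsPGroup p R) :
    ∃ k : G, ∀ r ∈ R, k * r * k⁻¹ ∈ (T : Subgroup G) := by
  obtain ⟨Q, hQ⟩ := hR.exists_le_sylow
  obtain ⟨k, hk⟩ := MulAction.exists_smul_eq G Q T
  refine ⟨k, fun r hr => ?_⟩
  rw [← hk, Sylow.smul_def, Sylow.pointwise_smul_def,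
    Subgroup.mem_pointwise_smul_iff_inv_smul_mem]
  simpa [MulAut.smul_def, mul_assoc] using hQ hr

theorem conj_mem_iff_of_weaklyClosed {G : Type*} [Group G] (W P : Subgroup G)
    (hW : Cfsg.IsWeaklyClosed W P) (k : G) (hk : ∀ w ∈ W, k * w * k⁻¹ ∈ P) (x : G) :
    k * x * k⁻¹ ∈ W ↔ x ∈ W := by
  have h1 : W.map (MulAut.conj k).toMonoidHom ≤ P := by
    rintro _ ⟨w, hw, rfl⟩
    simpa using hk w hw
  have h2 := hW.2 k h1
  constructor
  · intro h
    rw [← h2] at h
    obtain ⟨w, hw, hwe⟩ := h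
    have : w = x := by
      have : k * w * k⁻¹ = k * x * k⁻¹ := by simpa using hwe
      simpa using this
    rw [← this]; exact hw
  · intro h
    rw [← h2]
    exact ⟨x, h, by simp⟩

/-- Let T be a Sylow p-subgroup of the finite group G and W ≤ T a subgroup weakly closed in T. If d and g d g⁻¹ both centralize W, then g d g⁻¹ = h d h⁻¹ for some h ∈ N_G(W). -/
theorem result {G : Type*} [Group G] [Finite G] {p : ℕ} [Fact p.Prime] (T : Sylow p G) (W : Subgroup G) (hW : Cfsg.IsWeaklyClosed W (T : Subgroup G)) (d g : G) (hd : d ∈ Subgroup.centralizer (W : Set G)) (hgd : g * d * g⁻¹ ∈ Subgroup.centralizer (W : Set G)) : ∃ h ∈ Subgroup.normalizer (W : Set G), h * d * h⁻¹ = g * d * g⁻¹ := by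
  classical
  set e := g * d * g⁻¹ with he
  set C := Subgroup.centralizer ({e} : Set G) with hC
  have hWp : IsPGroup p W := T.isPGroup'.to_le hW.1
  -- W ≤ C
  have hWC : ∀ w ∈ W, w ∈ C := by
    intro w hw
    rw [hC, Subgroup.mem_centralizer_singleton_iff]
    exact (Subgroup.mem_centralizer_iff.1 hgd w hw)
  -- g W g⁻¹ ≤ C
  have hWgC : ∀ w ∈ W, g * w * g⁻¹ ∈ C := by
    intro w hw
    rw [hC, Subgroup.mem_centralizer_singleton_iff]
    have := Subgroup.mem_centralizer_iff.1 hd w hw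
    -- this : w * d = d * w
    rw [he]
    calc g * w * g⁻¹ * (g * d * g⁻¹) = g * (w * d) * g⁻¹ := by group
      _ = g * (d * w) * g⁻¹ := by rw [this]
      _ = g * d * g⁻¹ * (g * w * g⁻¹) := by group
  have hp1 : IsPGroup p (W.subgroupOf C) := hWp.comap_subtype
  have hp2 : IsPGroup p ((W.map (MulAut.conj g).toMonoidHom).subgroupOf C) := by
    apply IsPGroup.comap_subtype
    exact hWp.map _
  obtain ⟨P₁, hP₁⟩ := hp1.exists_le_sylow
  obtain ⟨P₂, hP₂⟩ := hp2.exists_le_sylow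
  obtain ⟨c, hc⟩ := MulAction.exists_smul_eq C P₂ P₁
  have hR : IsPGroup p ((P₁ : Subgroup C).map C.subtype) := P₁.isPGroup'.map _
  obtain ⟨k, hk⟩ := exists_conj_into_sylow T _ hR
  have h1 : ∀ w ∈ W, k * w * k⁻¹ ∈ (T : Subgroup G) := by
    intro w hw
    apply hk
    exact ⟨⟨w, hWC w hw⟩, hP₁ (by simpa [Subgroup.mem_subgroupOf] using hw), rfl⟩
  have h2 : ∀ w ∈ W, (k * (c : G) * g) * w * (k * (c : G) * g)⁻¹ ∈ (T : Subgroup G) := by
    intro w hw
    have hmem : (⟨g * w * g⁻¹, hWgC w hw⟩ : C) ∈ (P₂ : Subgroup C) := by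
      apply hP₂
      rw [Subgroup.mem_subgroupOf]
      exact ⟨w, hw, by simp⟩
    have hmem2 : c * (⟨g * w * g⁻¹, hWgC w hw⟩ : C) * c⁻¹ ∈ (P₁ : Subgroup C) := by
      rw [← hc, Sylow.smul_def, Sylow.pointwise_smul_def,
        Subgroup.mem_pointwise_smul_iff_inv_smul_mem]
      simpa [MulAut.smul_def, mul_assoc] using hmem
    have := hk _ ⟨_, hmem2, rfl⟩
    simpa [mul_assoc] using this
  have hc_comm : (c : G) * e = e * (c : G) := by
    have h3 : (c : G) ∈ Subgroup.centralizer ({e} : Set G) := c.2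
    exact Subgroup.mem_centralizer_singleton_iff.1 h3
  refine ⟨(c : G) * g, ?_, ?_⟩
  · rw [Subgroup.mem_normalizer_iff]
    intro x
    rw [← conj_mem_iff_of_weaklyClosed W _ hW (k * (c : G) * g) h2 x,
      ← conj_mem_iff_of_weaklyClosed W _ hW k h1 ((c : G) * g * x * ((c : G) * g)⁻¹)]
    simp [mul_assoc]
  · calc (c : G) * g * d * ((c : G) * g)⁻¹ = (c : G) * e * (c : G)⁻¹ := by rw [he]; group
      _ = e := by rw [hc_comm]; group

end Cfsg.Agent.S1243
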