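import Cfsg.Statements.S1244
import Cfsg.Agent.Lib.Helper52.AbSylow

set_option autoImplicit false
open Cfsg

namespace Cfsg.Agent.S1244

open scoped IsMulCommutative
open Cfsg.Agent.Lib.Helper52.AbSylow

theorem card_V {G : Type*} [Group G] [Finite G] (S : Sylow 2 G)
    [hS : IsMulCommutative (S : Subgroup G)] (r : ℕ) (hr1 : 1 ≤ r)
    (hSr : Cfsg.PRankLE 2 r (S : Subgroup G) ∧ ¬ Cfsg.PRankLE 2 (r - 1) (S : Subgroup G)) :
    Nat.card (powMonoidHom 2 : ↥(S : Subgroup G) →* ↥(S : Subgroup G)).ker = 2 ^ r := by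
  have hV2 : ∀ a ∈ (powMonoidHom 2 : ↥(S : Subgroup G) →* ↥(S : Subgroup G)).ker,
      a ^ 2 = 1 := fun a ha => by
    have := MonoidHom.mem_ker.1 ha
    simpa using this
  have hVc : IsMulCommutative (powMonoidHom 2 : ↥(S : Subgroup G) →* ↥(S : Subgroup G)).ker :=
    ⟨⟨fun a b => Subtype.ext (mul_comm _ _)⟩⟩
  have h1 : Nat.card (powMonoidHom 2 : ↥(S : Subgroup G) →* ↥(S : Subgroup G)).ker ≤ 2 ^ r :=
    hSr.1 _ hVc hV2
  have h2 : 2 ^ (r - 1) <
      Nat.card (powMonoidHom 2 : ↥(S : Subgroup G) →* ↥(S : Subgroup G)).ker := by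
    have := hSr.2
    unfold Cfsg.PRankLE at this
    push Not at this
    obtain ⟨A₀, hA₀c, hA₀2, hA₀card⟩ := this
    have hle : A₀ ≤ (powMonoidHom 2 : ↥(S : Subgroup G) →* ↥(S : Subgroup G)).ker :=
      fun a ha => by
        rw [MonoidHom.mem_ker]; simpa using hA₀2 a ha
    exact lt_of_lt_of_le hA₀card (Subgroup.card_le_of_le hle)
  obtain ⟨j, hj⟩ := IsPGroup.iff_card.1 (S.isPGroup'.to_subgroup
    (powMonoidHom 2 : ↥(S : Subgroup G) →* ↥(S : Subgroup G)).ker)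
  rw [hj] at h1 h2 ⊢
  have h3 : j ≤ r := (Nat.pow_le_pow_iff_right (by norm_num)).1 h1
  have h4 : r - 1 < j := (Nat.pow_lt_pow_iff_right (by norm_num)).1 h2
  congr 1; omega

theorem card_K {G : Type*} [Group G] [Finite G] (S : Sylow 2 G)
    [hS : IsMulCommutative (S : Subgroup G)] (r : ℕ) (hr1 : 1 ≤ r) (R : Subgroup G)
    (hRS : R ≤ (S : Subgroup G))
    (hRr : Cfsg.PRankLE 2 (r - 1) R ∧ (r = 1 ∨ ¬ Cfsg.PRankLE 2 (r - 2) R)) :
    Nat.card ↥(R.subgroupOf (S : Subgroup G) ⊓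
      (powMonoidHom 2 : ↥(S : Subgroup G) →* ↥(S : Subgroup G)).ker) = 2 ^ (r - 1) := by
  have hι : Function.Injective (Subgroup.inclusion hRS) := Subgroup.inclusion_injective hRS
  have hmap : ((powMonoidHom 2 : ↥(S : Subgroup G) →* ↥(S : Subgroup G)).ker.comap
      (Subgroup.inclusion hRS)).map (Subgroup.inclusion hRS) =
      R.subgroupOf (S : Subgroup G) ⊓
        (powMonoidHom 2 : ↥(S : Subgroup G) →* ↥(S : Subgroup G)).ker := by
    rw [Subgroup.map_comap_eq, Subgroup.inclusion_range]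
  have hcard : Nat.card ↥(R.subgroupOf (S : Subgroup G) ⊓
      (powMonoidHom 2 : ↥(S : Subgroup G) →* ↥(S : Subgroup G)).ker) =
      Nat.card ((powMonoidHom 2 : ↥(S : Subgroup G) →* ↥(S : Subgroup G)).ker.comap
        (Subgroup.inclusion hRS)) := by
    rw [← hmap]; exact Subgroup.card_map_of_injective hι
  have hB2 : ∀ a ∈ (powMonoidHom 2 : ↥(S : Subgroup G) →* ↥(S : Subgroup G)).ker.comap
      (Subgroup.inclusion hRS), a ^ 2 = 1 := by
    intro a ha
    have h1 : Subgroup.inclusion hRS a ∈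
        (powMonoidHom 2 : ↥(S : Subgroup G) →* ↥(S : Subgroup G)).ker := ha
    have h2 : (Subgroup.inclusion hRS a) ^ 2 = 1 := by
      have := MonoidHom.mem_ker.1 h1; simpa using this
    apply hι
    rw [map_pow, map_one]; exact h2
  have hBc : IsMulCommutative ((powMonoidHom 2 : ↥(S : Subgroup G) →* ↥(S : Subgroup G)).ker.comap
      (Subgroup.inclusion hRS)) := ⟨⟨fun a b => by
    have : (a : ↥R) * (b : ↥R) = (b : ↥R) * (a : ↥R) :=
      hι (by rw [map_mul, map_mul, mul_comm])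
    exact Subtype.ext this⟩⟩
  have h1 : Nat.card ((powMonoidHom 2 : ↥(S : Subgroup G) →* ↥(S : Subgroup G)).ker.comap
      (Subgroup.inclusion hRS)) ≤ 2 ^ (r - 1) := hRr.1 _ hBc hB2
  obtain ⟨j, hj⟩ := IsPGroup.iff_card.1 ((S.isPGroup'.to_le hRS).to_subgroup
    ((powMonoidHom 2 : ↥(S : Subgroup G) →* ↥(S : Subgroup G)).ker.comap
      (Subgroup.inclusion hRS)))
  rw [hcard]
  rcases hRr.2 with hr | hr
  · subst hr
    rw [hj] at h1 ⊢
    have h3 : j ≤ 1 - 1 := (Nat.pow_le_pow_iff_right (by norm_num)).1 h1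
    congr 1; omega
  · unfold Cfsg.PRankLE at hr
    push Not at hr
    obtain ⟨A₁, hA₁c, hA₁2, hA₁card⟩ := hr
    have hle : A₁ ≤ (powMonoidHom 2 : ↥(S : Subgroup G) →* ↥(S : Subgroup G)).ker.comap
        (Subgroup.inclusion hRS) := fun a ha => by
      show Subgroup.inclusion hRS a ∈
        (powMonoidHom 2 : ↥(S : Subgroup G) →* ↥(S : Subgroup G)).ker
      rw [MonoidHom.mem_ker, powMonoidHom_apply, ← map_pow, hA₁2 a ha, map_one]
    have h2 := lt_of_lt_of_le hA₁card (Subgroup.card_le_of_le hle)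
    rw [hj] at h1 h2 ⊢
    have h3 : j ≤ r - 1 := (Nat.pow_le_pow_iff_right (by norm_num)).1 h1
    have h4 : r - 2 < j := (Nat.pow_lt_pow_iff_right (by norm_num)).1 h2
    congr 1; omega

theorem index_two {G : Type*} [Group G] [Finite G] (S : Sylow 2 G)
    [hS : IsMulCommutative (S : Subgroup G)] (r : ℕ) (hr1 : 1 ≤ r)
    (hSr : Cfsg.PRankLE 2 r (S : Subgroup G) ∧ ¬ Cfsg.PRankLE 2 (r - 1) (S : Subgroup G))
    (R : Subgroup G) (hRS : R ≤ (S : Subgroup G))
    (hRr : Cfsg.PRankLE 2 (r - 1) R ∧ (r = 1 ∨ ¬ Cfsg.PRankLE 2 (r - 2) R)) :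
    ∀ a ∈ (powMonoidHom 2 : ↥(S : Subgroup G) →* ↥(S : Subgroup G)).ker,
      ∀ b ∈ (powMonoidHom 2 : ↥(S : Subgroup G) →* ↥(S : Subgroup G)).ker,
      a ∉ R.subgroupOf (S : Subgroup G) → b ∉ R.subgroupOf (S : Subgroup G) →
      a * b ∈ R.subgroupOf (S : Subgroup G) := by
  have c1 := card_V S r hr1 hSr
  have c2 := card_K S r hr1 R hRS hRr
  have hidx : ((R.subgroupOf (S : Subgroup G) ⊓
      (powMonoidHom 2 : ↥(S : Subgroup G) →* ↥(S : Subgroup G)).ker).subgroupOf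
      (powMonoidHom 2 : ↥(S : Subgroup G) →* ↥(S : Subgroup G)).ker).index = 2 := by
    have h1 := ((R.subgroupOf (S : Subgroup G) ⊓
      (powMonoidHom 2 : ↥(S : Subgroup G) →* ↥(S : Subgroup G)).ker).subgroupOf
      (powMonoidHom 2 : ↥(S : Subgroup G) →* ↥(S : Subgroup G)).ker).index_mul_card
    have h2 : Nat.card ((R.subgroupOf (S : Subgroup G) ⊓
        (powMonoidHom 2 : ↥(S : Subgroup G) →* ↥(S : Subgroup G)).ker).subgroupOf
        (powMonoidHom 2 : ↥(S : Subgroup G) →* ↥(S : Subgroup G)).ker) =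
        Nat.card ↥(R.subgroupOf (S : Subgroup G) ⊓
        (powMonoidHom 2 : ↥(S : Subgroup G) →* ↥(S : Subgroup G)).ker) :=
      Nat.card_congr (Subgroup.subgroupOfEquivOfLe inf_le_right).toEquiv
    rw [h2, c2, c1] at h1
    have h3 : 2 ^ r = 2 * 2 ^ (r - 1) := by rw [← pow_succ']; congr 1; omega
    rw [h3] at h1
    exact Nat.eq_of_mul_eq_mul_right (by positivity) h1
  intro a ha b hb hna hnb
  have key := Subgroup.mul_mem_iff_of_index_two hidx
    (a := (⟨a, ha⟩ : (powMonoidHom 2 : ↥(S : Subgroup G) →* ↥(S : Subgroup G)).ker))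
    (b := ⟨b, hb⟩)
  have ma : (⟨a, ha⟩ : (powMonoidHom 2 : ↥(S : Subgroup G) →* ↥(S : Subgroup G)).ker) ∉
      (R.subgroupOf (S : Subgroup G) ⊓
      (powMonoidHom 2 : ↥(S : Subgroup G) →* ↥(S : Subgroup G)).ker).subgroupOf
      (powMonoidHom 2 : ↥(S : Subgroup G) →* ↥(S : Subgroup G)).ker :=
    fun h => hna (Subgroup.mem_subgroupOf.1 h).1
  have mb : (⟨b, hb⟩ : (powMonoidHom 2 : ↥(S : Subgroup G) →* ↥(S : Subgroup G)).ker) ∉
      (R.subgroupOf (S : Subgroup G) ⊓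
      (powMonoidHom 2 : ↥(S : Subgroup G) →* ↥(S : Subgroup G)).ker).subgroupOf
      (powMonoidHom 2 : ↥(S : Subgroup G) →* ↥(S : Subgroup G)).ker :=
    fun h => hnb (Subgroup.mem_subgroupOf.1 h).1
  have := key.2 ⟨fun h => absurd h ma, fun h => absurd h mb⟩
  exact (Subgroup.mem_subgroupOf.1 this).1

/-- Let G be a finite group with no subgroup of index 2 whose Sylow 2-subgroup S is commutative, and let R ≤ S be a subgroup whose 2-rank is exactly one less than the 2-rank r of S. Then every involution of S is conjugate, by an element of N_G(S), to an element of R. -/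
theorem result {G : Type*} [Group G] [Finite G] (hG : ∀ H : Subgroup G, H.index ≠ 2) (S : Sylow 2 G) (hS : IsMulCommutative (S : Subgroup G)) (r : ℕ) (hr1 : 1 ≤ r) (hSr : Cfsg.PRankLE 2 r (S : Subgroup G) ∧ ¬ Cfsg.PRankLE 2 (r - 1) (S : Subgroup G)) (R : Subgroup G) (hRS : R ≤ S) (hRr : Cfsg.PRankLE 2 (r - 1) R ∧ (r = 1 ∨ ¬ Cfsg.PRankLE 2 (r - 2) R)) (t : G) (ht : orderOf t = 2) (htS : t ∈ S) : ∃ n ∈ Subgroup.normalizer ((S : Subgroup G) : Set G), n * t * n⁻¹ ∈ R := by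
  by_contra hcon
  push Not at hcon
  have htS' : t ∈ (S : Subgroup G) := htS
  have hRS' : R ≤ (S : Subgroup G) := hRS
  have ht2 : t * t = 1 := by rw [← pow_two, ← ht, pow_orderOf_eq_one]
  have hodd : Odd ((S : Subgroup G).relIndex (Subgroup.normalizer (S : Set G))) := by
    have h1 : (S : Subgroup G).relIndex (Subgroup.normalizer (S : Set G)) ∣
        (S : Subgroup G).index := Subgroup.relIndex_dvd_index_of_le Subgroup.le_normalizer
    have h2 : ¬ 2 ∣ (S : Subgroup G).index := S.not_dvd_index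
    rw [← Nat.not_even_iff_odd, even_iff_two_dvd]
    exact fun h => h2 (h.trans h1)
  have hmem : ∀ n : Subgroup.normalizer (S : Set G),
      conjP S n ⟨t, htS'⟩ ∈ (powMonoidHom 2 : ↥(S : Subgroup G) →* ↥(S : Subgroup G)).ker ∧
      conjP S n ⟨t, htS'⟩ ∉ R.subgroupOf (S : Subgroup G) := by
    intro n
    constructor
    · rw [MonoidHom.mem_ker, powMonoidHom_apply]
      apply Subtype.ext
      show ((n : G) * t * (n : G)⁻¹) ^ 2 = 1
      rw [pow_two]
      calc (n : G) * t * (n : G)⁻¹ * ((n : G) * t * (n : G)⁻¹)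
          = (n : G) * (t * t) * (n : G)⁻¹ := by group
        _ = 1 := by rw [ht2]; group
    · intro h
      rw [Subgroup.mem_subgroupOf] at h
      exact hcon n n.2 h
  obtain ⟨hw1, hw2⟩ := nu_parity S ⟨t, htS'⟩ (R.subgroupOf (S : Subgroup G))
    (powMonoidHom 2 : ↥(S : Subgroup G) →* ↥(S : Subgroup G)).ker hodd hmem
    (index_two S r hr1 hSr R hRS' hRr)
  have hw_ne : nu S ⟨t, htS'⟩ ≠ 1 := fun h => hw2 (h ▸ one_mem _)
  have hw_sq : (nu S ⟨t, htS'⟩) ^ 2 = 1 := by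
    have := MonoidHom.mem_ker.1 hw1; simpa using this
  have hcen : ∀ n ∈ Subgroup.normalizer (S : Set G),
      n * ((nu S ⟨t, htS'⟩ : ↥(S : Subgroup G)) : G) * n⁻¹ =
        ((nu S ⟨t, htS'⟩ : ↥(S : Subgroup G)) : G) := by
    intro n hn
    exact congrArg Subtype.val (nu_fixed S ⟨n, hn⟩ ⟨t, htS'⟩)
  have htr := transfer_central S _ (nu S ⟨t, htS'⟩).2 hcen
  have hne : MonoidHom.transfer (MonoidHom.id ↥(S : Subgroup G))
      ((nu S ⟨t, htS'⟩ : ↥(S : Subgroup G)) : G) ≠ 1 := by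
    intro h
    rw [h] at htr
    have h2 : ¬ 2 ∣ (S : Subgroup G).index := S.not_dvd_index
    obtain ⟨k, hk⟩ : Odd (S : Subgroup G).index := by
      rw [← Nat.not_even_iff_odd, even_iff_two_dvd]; exact h2
    have hw : ((nu S ⟨t, htS'⟩ : ↥(S : Subgroup G)) : G) ^ (S : Subgroup G).index =
        ((nu S ⟨t, htS'⟩ : ↥(S : Subgroup G)) : G) := by
      have hsq : ((nu S ⟨t, htS'⟩ : ↥(S : Subgroup G)) : G) ^ 2 = 1 := by
        have := congrArg Subtype.val hw_sq
        simpa using this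
      rw [hk, pow_succ, pow_mul, hsq, one_pow, one_mul]
    rw [hw] at htr
    apply hw_ne
    apply Subtype.ext
    exact htr.symm
  obtain ⟨H, hH⟩ := exists_index_two_of_hom S.isPGroup'
    (MonoidHom.transfer (MonoidHom.id ↥(S : Subgroup G))) _ hne
  exact hG H hH

end Cfsg.Agent.S1244
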