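import Cfsg.Statements.S1248
import Cfsg.Agent.Lib.Helper46.SU3Syl

set_option autoImplicit false
open Cfsg

namespace Cfsg.Agent.S1248

open Cfsg.Agent.Lib.Helper46.SU3Coord Cfsg.Agent.Lib.Helper46.SU3Syl


/-- Let F be a field with 16 elements and S a Sylow 2-subgroup of PSU(3) over F (the unitary group U₃(4)). Then |S| = 64; the centre Z(S) is a Klein four-group and coincides with the subgroup generated by the involutions of S and with the derived subgroup; and every element of S ⧸ Z(S) squares to the identity, S ⧸ Z(S) having order 16. -/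
theorem result {F : Type*} [Field F] [Fintype F] (hF : Fintype.card F = 16) (S : Sylow 2 (Cfsg.PSU 3 F 4)) : Nat.card S = 64 ∧ IsKleinFour (Subgroup.center (S : Subgroup (Cfsg.PSU 3 F 4))) ∧ Subgroup.center (S : Subgroup (Cfsg.PSU 3 F 4)) = Subgroup.closure {x : (S : Subgroup (Cfsg.PSU 3 F 4)) | orderOf x = 2} ∧ Subgroup.center (S : Subgroup (Cfsg.PSU 3 F 4)) = commutator (S : Subgroup (Cfsg.PSU 3 F 4)) ∧ Nat.card ((S : Subgroup (Cfsg.PSU 3 F 4)) ⧸ Subgroup.center (S : Subgroup (Cfsg.PSU 3 F 4))) = 16 ∧ ∀ x : (S : Subgroup (Cfsg.PSU 3 F 4)) ⧸ Subgroup.center (S : Subgroup (Cfsg.PSU 3 F 4)), x ^ 2 = 1 := by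
  have hF' : Fintype.card F = 4 ^ 2 := by rw [hF]; norm_num
  obtain ⟨φ, hφ, hinv, h2, -, hP⟩ := exists_coord (q := 4) (n := 2) (by norm_num) (by norm_num) hF'
  obtain ⟨C⟩ := hP S
  have htr := htr_of hF' hφ hinv
  have hl := hl_of hF' hφ
  have hcard : Nat.card ↥(S : Subgroup (Cfsg.PSU 3 F 4)) = 4 ^ 3 := card_eq hF' C hφ hinv
  have hcz : Nat.card (Subgroup.center ↥(S : Subgroup (Cfsg.PSU 3 F 4))) = 4 :=
    card_center hF' C h2 hφ hinv
  refine ⟨hcard.trans (by norm_num), ⟨hcz, ?_⟩, center_eq_closure C h2 hinv htr hl,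
    center_eq_commutator C h2 hinv htr hl, ?_, quot_sq C h2 hinv htr hl⟩
  · have hdvd : Monoid.exponent (Subgroup.center ↥(S : Subgroup (Cfsg.PSU 3 F 4))) ∣ 2 := by
      apply Monoid.exponent_dvd_of_forall_pow_eq_one
      intro z
      apply Subtype.ext
      rw [pow_two]
      exact center_sq C h2 hinv htr hl z.1 z.2
    have hne : Monoid.exponent (Subgroup.center ↥(S : Subgroup (Cfsg.PSU 3 F 4))) ≠ 1 := by
      intro h
      haveI := Monoid.exp_eq_one_iff.mp h
      rw [Nat.card_of_subsingleton (1 : Subgroup.center ↥(S : Subgroup (Cfsg.PSU 3 F 4)))] at hcz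
      omega
    rcases (Nat.dvd_prime Nat.prime_two).mp hdvd with h | h
    · exact absurd h hne
    · exact h
  · have h := Subgroup.card_eq_card_quotient_mul_card_subgroup
      (Subgroup.center ↥(S : Subgroup (Cfsg.PSU 3 F 4)))
    rw [hcard, hcz] at h
    omega

end Cfsg.Agent.S1248
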