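import Cfsg.Statements.S1272
import Cfsg.Agent.Lib.Helper22.PComp

set_option autoImplicit false
open Cfsg

namespace Cfsg.Agent.S1272

open Cfsg.Agent.Lib.Helper22.PComp


/-- Let X be finite and Q = X / O_{p'}(X). For every component Kbar of Q there is a unique p-component K of X whose image in Q is Kbar; and the image of the p-layer L_{p'}(X) in Q is E(Q). -/
theorem result {X : Type*} [Group X] [Finite X] (p : ℕ) [Fact p.Prime] : (∀ Kbar : Subgroup (X ⧸ Cfsg.pPrimeCore p X), Cfsg.IsComponent Kbar → ∃! K : Subgroup X, Cfsg.IsPComponent p K ∧ K.map (QuotientGroup.mk' (Cfsg.pPrimeCore p X)) = Kbar) ∧ (Cfsg.pLayer p X).map (QuotientGroup.mk' (Cfsg.pPrimeCore p X)) = Cfsg.layer (X ⧸ Cfsg.pPrimeCore p X) := by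
  constructor
  · intro Kbar hKbar
    obtain ⟨K, hK, hKmap⟩ := exists_isPComponent_map_eq p Kbar hKbar
    refine ⟨K, ⟨hK, hKmap⟩, ?_⟩
    rintro K' ⟨hK', hK'map⟩
    exact isPComponent_unique p hK' hK (hK'map.trans hKmap.symm)
  · apply le_antisymm
    · rw [Subgroup.map_le_iff_le_comap]
      apply sSup_le
      intro K hK
      rw [← Subgroup.map_le_iff_le_comap]
      exact le_sSup hK.2.1
    · apply sSup_le
      intro Kbar hKbar
      obtain ⟨K, hK, hKmap⟩ := exists_isPComponent_map_eq p Kbar hKbar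
      rw [← hKmap]
      exact Subgroup.map_mono (le_sSup hK)

end Cfsg.Agent.S1272
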