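import Cfsg.Statements.S1273
import Cfsg.Agent.Lib.Helper22.PComp

set_option autoImplicit false
open Cfsg

namespace Cfsg.Agent.S1273

open Cfsg.Agent.Lib.Helper22.PComp Cfsg.Agent.Lib.Helper21 Cfsg.Agent.Lib.Helper23.Cores


/-- Let K be a p-component of the finite group X and N a normal subgroup of K whose index in K is prime to p. Then N = K. -/
theorem result {X : Type*} [Group X] [Finite X] (p : ℕ) [Fact p.Prime] (K : Subgroup X) (hK : Cfsg.IsPComponent p K) (N : Subgroup ↥K) [N.Normal] (hidx : (N.index).Coprime p) : N = ⊤ := by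
  set π := QuotientGroup.mk' (Cfsg.pPrimeCore p X) with hπdef
  let φ : ↥K →* ↥(K.map π) := π.subgroupMap K
  have hφ : Function.Surjective φ := π.subgroupMap_surjective K
  have hNn : (N.map φ).Normal := Subgroup.Normal.map inferInstance φ hφ
  have hsub : (N.map K.subtype).IsSubnormal := by
    refine Subgroup.IsSubnormal.step _ K (Subgroup.map_subtype_le N) hK.1 ?_
    have : (N.map K.subtype).subgroupOf K = N := by
      rw [Subgroup.subgroupOf, Subgroup.comap_map_eq_self_of_injective K.subtype_injective]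
    rw [this]; infer_instance
  rcases Quasi.normal_eq_top_or_le_center hK.2.1.2 (N.map φ) with h | h
  · have h1 : N.map K.subtype = K := by
      apply hK.2.2 _ hsub (Subgroup.map_subtype_le N)
      apply le_antisymm (Subgroup.map_mono (Subgroup.map_subtype_le N))
      intro y hy
      have hy' : (⟨y, hy⟩ : ↥(K.map π)) ∈ N.map φ := by rw [h]; trivial
      obtain ⟨n, hn, hn'⟩ := hy'
      exact ⟨(n : X), ⟨n, hn, rfl⟩, congrArg Subtype.val hn'⟩
    rw [eq_top_iff]
    intro x _
    have hx : (x : X) ∈ N.map K.subtype := by rw [h1]; exact x.2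
    obtain ⟨n, hn, hn'⟩ := hx
    have : n = x := Subtype.ext hn'
    rw [← this]; exact hn
  · exfalso
    obtain ⟨S₁⟩ : Nonempty (Sylow p ↥K) := inferInstance
    apply no_central_sylow p (K.map π) hK.2.1 (S₁.mapSurjective hφ)
    refine le_trans ?_ h
    rintro _ ⟨x, hx, rfl⟩
    refine ⟨x, ?_, rfl⟩
    obtain ⟨a, ha⟩ := (IsPGroup.iff_orderOf.1 S₁.isPGroup') ⟨x, hx⟩
    have ha' : orderOf x = p ^ a := by
      rw [← ha]; exact (Subgroup.orderOf_mk x hx).symm
    have h1 : orderOf (QuotientGroup.mk' N x) ∣ orderOf x := orderOf_map_dvd _ x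
    have h2 : orderOf (QuotientGroup.mk' N x) ∣ N.index := orderOf_dvd_natCard _
    have hc : (orderOf (QuotientGroup.mk' N x)).Coprime (orderOf (QuotientGroup.mk' N x)) := by
      refine Nat.Coprime.coprime_dvd_left h2 (Nat.Coprime.coprime_dvd_right h1 ?_)
      rw [ha']
      exact Nat.Coprime.pow_right a hidx
    have h3 : orderOf (QuotientGroup.mk' N x) = 1 := (Nat.coprime_self _).1 hc
    rw [orderOf_eq_one_iff] at h3
    exact (QuotientGroup.eq_one_iff x).1 h3

end Cfsg.Agent.S1273
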