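import Mathlib
import Cfsg.Statements.S1281
import Cfsg.Agent.Lib.Helper31.SigBasic

set_option autoImplicit false
open Cfsg

namespace Cfsg.Agent.S1281

/-- Let θ be a solvable A-signalizer functor on the finite group G (A a noncyclic elementary abelian p-subgroup) and N a normal subgroup of order prime to p. Then for all non-identity a, b ∈ A, the image of θ a in G / N meets the centralizer of the image of b inside the image of θ b. -/
theorem result {G : Type*} [Group G] [Finite G] (p : ℕ) [Fact p.Prime] (A : Subgroup G) (hA : Cfsg.IsElementaryAbelian p A) (hA2 : p ^ 2 ≤ Nat.card ↥A) (θ : G → Subgroup G) (hθ : Cfsg.IsSolvableSignalizerFunctor p A θ) (N : Subgroup G) [N.Normal] (hN : ¬ p ∣ Nat.card ↥N) (a b : G) (ha : a ∈ A) (ha1 : a ≠ 1) (hb : b ∈ A) (hb1 : b ≠ 1) : (θ a).map (QuotientGroup.mk' N) ⊓ Subgroup.centralizer {QuotientGroup.mk' N b} ≤ (θ b).map (QuotientGroup.mk' N) := by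
  intro g hg
  obtain ⟨⟨x, hx, rfl⟩, hgb⟩ := Subgroup.mem_inf.mp hg
  have hcomm : QuotientGroup.mk' N x * QuotientGroup.mk' N b =
      QuotientGroup.mk' N b * QuotientGroup.mk' N x :=
    Subgroup.mem_centralizer_singleton_iff.mp hgb
  have hbx : b * x * b⁻¹ ∈ θ a := hθ.1.2.2.1 a ha ha1 b hb x hx
  -- x⁻¹ (b x b⁻¹) ∈ N ⊓ θ a
  have hkeyN : x⁻¹ * (b * x * b⁻¹) ∈ N := by
    rw [← QuotientGroup.eq_one_iff, ← QuotientGroup.mk'_apply]
    simp only [map_mul, map_inv]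
    rw [← hcomm]
    group
  have hkey : x⁻¹ * (b * x * b⁻¹) ∈ N ⊓ θ a :=
    ⟨hkeyN, Subgroup.mul_mem _ (Subgroup.inv_mem _ hx) hbx⟩
  have hM : ¬ p ∣ Nat.card ↥(N ⊓ θ a) :=
    fun h => hN (h.trans (Subgroup.card_dvd_of_le inf_le_left))
  have hbM : ∀ n ∈ N ⊓ θ a, b * n * b⁻¹ ∈ N ⊓ θ a := fun n hn =>
    ⟨Subgroup.Normal.conj_mem inferInstance n hn.1 b, hθ.1.2.2.1 a ha ha1 b hb n hn.2⟩
  obtain ⟨n, hn, hcom⟩ := Cfsg.Agent.Lib.Helper31.SigBasic.exists_commute_in_coset b (hA.2 b hb)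
    (N ⊓ θ a) hM hbM x hkey
  have hxn : x * n ∈ θ b :=
    hθ.1.2.2.2 a ha ha1 b hb hb1 ⟨Subgroup.mul_mem _ hx hn.2,
      Subgroup.mem_centralizer_singleton_iff.mpr hcom.symm⟩
  refine ⟨x * n, hxn, ?_⟩
  rw [map_mul]
  have h1 : QuotientGroup.mk' N n = 1 := by
    rw [QuotientGroup.mk'_apply, QuotientGroup.eq_one_iff]; exact hn.1
  rw [h1, mul_one]

end Cfsg.Agent.S1281
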