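import Mathlib
import Cfsg.Statements.S1283
import Cfsg.Agent.Lib.Helper31.InvSylow

set_option autoImplicit false
open Cfsg

namespace Cfsg.Agent.S1283

open Cfsg.Agent.Lib.Helper31.SigBasic Cfsg.Agent.Lib.Helper31.InvSylow

variable {G : Type*} [Group G]

/-- `Q` is maximal among the `q`-subgroups in the family of `θ`. -/
def IsMaxQ (p : ℕ) (A : Subgroup G) (θ : G → Subgroup G) (q : ℕ) (Q : Subgroup G) : Prop :=
  Q ∈ Cfsg.signalizerFamily p A θ ∧ IsPGroup q ↥Q ∧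
    ∀ R ∈ Cfsg.signalizerFamily p A θ, IsPGroup q ↥R → Q ≤ R → R = Q

theorem map_conj_mul (Q : Subgroup G) (x y : G) :
    Q.map (MulAut.conj (x * y)).toMonoidHom =
      (Q.map (MulAut.conj y).toMonoidHom).map (MulAut.conj x).toMonoidHom := by
  rw [Subgroup.map_map]
  congr 1
  ext g
  simp [MulAut.conj_apply, mul_assoc]

theorem map_conj_one (Q : Subgroup G) : Q.map (MulAut.conj (1 : G)).toMonoidHom = Q := by
  ext g
  simp

theorem map_conj_inv_cancel (Q : Subgroup G) (c : G) :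
    (Q.map (MulAut.conj c⁻¹).toMonoidHom).map (MulAut.conj c).toMonoidHom = Q := by
  rw [← map_conj_mul, mul_inv_cancel, map_conj_one]

theorem map_conj_cancel_inv (Q : Subgroup G) (c : G) :
    (Q.map (MulAut.conj c).toMonoidHom).map (MulAut.conj c⁻¹).toMonoidHom = Q := by
  rw [← map_conj_mul, inv_mul_cancel, map_conj_one]

/-- Every `q`-member of the family lies in a maximal one. -/
theorem exists_max_ge [Finite G] (p : ℕ) (A : Subgroup G) (θ : G → Subgroup G) (q : ℕ)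
    (R : Subgroup G) (hR : R ∈ Cfsg.signalizerFamily p A θ) (hRq : IsPGroup q ↥R) :
    ∃ Q, IsMaxQ p A θ q Q ∧ R ≤ Q := by
  suffices h : ∀ (d : ℕ) (R : Subgroup G), Nat.card G - Nat.card R ≤ d →
      R ∈ Cfsg.signalizerFamily p A θ → IsPGroup q ↥R → ∃ Q, IsMaxQ p A θ q Q ∧ R ≤ Q from
    h _ R le_rfl hR hRq
  intro d
  induction d with
  | zero =>
    intro R hd hR hRq
    refine ⟨R, ⟨hR, hRq, fun R' hR' _ hle => ?_⟩, le_rfl⟩
    have h1 : Nat.card R' ≤ Nat.card G := Subgroup.card_le_card_group R'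
    exact (Subgroup.eq_of_le_of_card_ge hle (by omega)).symm
  | succ d ih =>
    intro R hd hR hRq
    by_cases hmax : ∀ R' ∈ Cfsg.signalizerFamily p A θ, IsPGroup q ↥R' → R ≤ R' → R' = R
    · exact ⟨R, ⟨hR, hRq, hmax⟩, le_rfl⟩
    · push Not at hmax
      obtain ⟨R', hR', hR'q, hle, hne⟩ := hmax
      have hlt : Nat.card R < Nat.card R' := by
        by_contra hcon
        exact hne (Subgroup.eq_of_le_of_card_ge hle (not_lt.mp hcon)).symm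
      have h1 : Nat.card R' ≤ Nat.card G := Subgroup.card_le_card_group R'
      obtain ⟨Q, hQ, hR'Q⟩ := ih R' (by omega) hR' hR'q
      exact ⟨Q, hQ, hle.trans hR'Q⟩

/-- Conjugation by an element of `θ(C(A))` preserves maximal `q`-members. -/
theorem isMaxQ_conj [Finite G] {p : ℕ} (A : Subgroup G) (θ : G → Subgroup G)
    (hθ : Cfsg.IsSignalizerFunctor p A θ) (q : ℕ) (c : G) (hc : c ∈ Cfsg.signalizerInf A θ)
    (Q : Subgroup G) (hQ : IsMaxQ p A θ q Q) :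
    IsMaxQ p A θ q (Q.map (MulAut.conj c).toMonoidHom) := by
  obtain ⟨hQW, hQq, hQmax⟩ := hQ
  refine ⟨family_conj A θ hθ c hc Q hQW, hQq.map _, fun R hR hRq hle => ?_⟩
  have hc' : c⁻¹ ∈ Cfsg.signalizerInf A θ := Subgroup.inv_mem _ hc
  have h1 : Q ≤ R.map (MulAut.conj c⁻¹).toMonoidHom := by
    have h2 := Subgroup.map_mono (f := (MulAut.conj c⁻¹).toMonoidHom) hle
    rwa [map_conj_cancel_inv] at h2
  have h3 := hQmax _ (family_conj A θ hθ c⁻¹ hc' R hR) (hRq.map _) h1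
  rw [← h3, map_conj_inv_cancel]

/-- Transitivity theorem, induction form. -/
theorem transitivity [Finite G] (p : ℕ) [Fact p.Prime] (A : Subgroup G)
    (hA : Cfsg.IsElementaryAbelian p A) (hA3 : p ^ 3 ≤ Nat.card ↥A) (θ : G → Subgroup G)
    (hθ : Cfsg.IsSolvableSignalizerFunctor p A θ) (q : ℕ) [Fact q.Prime] :
    ∀ (d : ℕ) (Q₁ Q₂ : Subgroup G), IsMaxQ p A θ q Q₁ → IsMaxQ p A θ q Q₂ →
      Nat.card G - Nat.card ↥(Q₁ ⊓ Q₂) = d →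
      ∃ c ∈ Cfsg.signalizerInf A θ, Q₁.map (MulAut.conj c).toMonoidHom = Q₂ := by
  have hp : p.Prime := Fact.out
  have hAc : ∀ x ∈ A, ∀ y ∈ A, x * y = y * x := fun x hx y hy =>
    congrArg Subtype.val ((hA.1.is_comm).comm ⟨x, hx⟩ ⟨y, hy⟩)
  have hApg : IsPGroup p A := fun g => ⟨1, by
    rw [pow_one]; exact Subtype.ext (by simpa using hA.2 g g.2)⟩
  intro d
  induction d using Nat.strong_induction_on with
  | _ d ih =>
  intro Q₁ Q₂ hQ₁ hQ₂ hd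
  obtain ⟨hQ₁W, hQ₁q, hQ₁max⟩ := hQ₁
  obtain ⟨hQ₂W, hQ₂q, hQ₂max⟩ := hQ₂
  by_cases hD₁ : Q₁ ⊓ Q₂ = Q₁
  · have hle : Q₁ ≤ Q₂ := inf_eq_left.mp hD₁
    have heq := hQ₁max Q₂ hQ₂W hQ₂q hle
    exact ⟨1, Subgroup.one_mem _, by rw [map_conj_one, heq]⟩
  by_cases hD₂ : Q₁ ⊓ Q₂ = Q₂
  · have hle : Q₂ ≤ Q₁ := inf_eq_right.mp hD₂
    have heq := hQ₂max Q₁ hQ₁W hQ₁q hle
    exact ⟨1, Subgroup.one_mem _, by rw [map_conj_one, heq]⟩
  -- now `D = Q₁ ⊓ Q₂` is different from both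
  have hqp : q ≠ p := by
    rintro rfl
    apply hD₁
    obtain ⟨n, hn⟩ := hQ₁q.exists_card_eq
    have hn0 : n = 0 := by
      by_contra hn0
      exact hQ₁W.2.1 (hn ▸ dvd_pow_self q hn0)
    rw [hn0, pow_zero] at hn
    have hbot : Q₁ = ⊥ := Subgroup.card_eq_one.mp hn
    rw [hbot]; exact bot_inf_eq _
  have hA₁ : A ≤ Subgroup.normalizer (Q₁ : Set G) := le_normalizer_of_conj_mem A Q₁ hQ₁W.2.2.1
  have hA₂ : A ≤ Subgroup.normalizer (Q₂ : Set G) := le_normalizer_of_conj_mem A Q₂ hQ₂W.2.2.1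
  obtain ⟨a, ha, ha1, hU₁, hU₂⟩ := Cfsg.Agent.S1282.result p A hA hA3 q hqp Q₁ Q₂ hQ₁q hQ₂q
    hA₁ hA₂ hD₁ hD₂
  set D : Subgroup G := Q₁ ⊓ Q₂ with hDdef
  have hDA : ∀ b ∈ A, ∀ u ∈ D, b * u * b⁻¹ ∈ D := fun b hb u hu =>
    ⟨hQ₁W.2.2.1 b hb u hu.1, hQ₂W.2.2.1 b hb u hu.2⟩
  have hDW : D ∈ Cfsg.signalizerFamily p A θ := family_of_le A θ Q₁ D hQ₁W inf_le_left hDA
  have hAD : A ≤ Subgroup.normalizer (D : Set G) := le_normalizer_of_conj_mem A D hDA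
  set H : Subgroup G := θ a ⊓ Subgroup.normalizer (D : Set G) with hHdef
  have hHA : ∀ b ∈ A, ∀ u ∈ H, b * u * b⁻¹ ∈ H := fun b hb u hu =>
    ⟨hθ.1.2.2.1 a ha ha1 b hb u hu.1, Subgroup.mul_mem _ (Subgroup.mul_mem _ (hAD hb) hu.2)
      (Subgroup.inv_mem _ (hAD hb))⟩
  have hHW : H ∈ Cfsg.signalizerFamily p A θ :=
    family_of_le A θ (θ a) H (theta_mem_family A θ hθ a ha ha1) inf_le_left hHA
  have hKW : D ⊔ H ∈ Cfsg.signalizerFamily p A θ :=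
    family_sup A hA.2 θ D H hDW hHW inf_le_right
  set K : Subgroup G := D ⊔ H with hKdef
  have hKp : ¬ p ∣ Nat.card K := hKW.2.1
  have hKA : ∀ b ∈ A, ∀ u ∈ K, b * u * b⁻¹ ∈ K := hKW.2.2.1
  -- the subgroups `Q_i ⊓ K`
  have hUK : ∀ Q : Subgroup G, Q ∈ Cfsg.signalizerFamily p A θ →
      Subgroup.normalizer (D : Set G) ⊓ Q ⊓ Subgroup.centralizer {a} ≤ Q ⊓ K := by
    intro Q hQW u hu
    obtain ⟨⟨huN, huQ⟩, hua⟩ := hu
    exact ⟨huQ, Subgroup.mem_sup_right ⟨hQW.2.2.2 a ha ha1 ⟨huQ, hua⟩, huN⟩⟩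
  have hlt : ∀ Q : Subgroup G, Q ∈ Cfsg.signalizerFamily p A θ → D ≤ Q →
      ¬ (Subgroup.normalizer (D : Set G) ⊓ Q ⊓ Subgroup.centralizer {a} ≤ D) →
      Nat.card D < Nat.card ↥(Q ⊓ K) := by
    intro Q hQW hDQ hU
    by_contra hcon
    have hle : D ≤ Q ⊓ K := le_inf hDQ le_sup_left
    have heq := Subgroup.eq_of_le_of_card_ge hle (not_lt.mp hcon)
    exact hU ((hUK Q hQW).trans heq.symm.le)
  have hlt₁ := hlt Q₁ hQ₁W inf_le_left hU₁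
  have hlt₂ := hlt Q₂ hQ₂W inf_le_right hU₂
  have hinvA : ∀ Q : Subgroup G, Q ∈ Cfsg.signalizerFamily p A θ →
      ∀ b ∈ A, ∀ u ∈ Q ⊓ K, b * u * b⁻¹ ∈ Q ⊓ K := fun Q hQW b hb u hu =>
    ⟨hQW.2.2.1 b hb u hu.1, hKA b hb u hu.2⟩
  obtain ⟨R₁, hR₁ge, hR₁K, hR₁c, hR₁A⟩ := exists_invariant_sylow_ge A K hApg hKp hKA q
    (Q₁ ⊓ K) inf_le_right (hQ₁q.to_le inf_le_left) (hinvA Q₁ hQ₁W)
  obtain ⟨R₂, hR₂ge, hR₂K, hR₂c, hR₂A⟩ := exists_invariant_sylow_ge A K hApg hKp hKA q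
    (Q₂ ⊓ K) inf_le_right (hQ₂q.to_le inf_le_left) (hinvA Q₂ hQ₂W)
  obtain ⟨c, hcK, hcA, hcR⟩ := invariant_sylow_conj A K hApg hKp hKA q R₁ R₂ hR₁K hR₂K
    hR₁c hR₂c hR₁A hR₂A
  have hcC : c ∈ Cfsg.signalizerInf A θ := by
    rw [mem_signalizerInf_iff]
    intro b hb hb1
    exact hKW.2.2.2 b hb hb1 ⟨hcK, Subgroup.mem_centralizer_singleton_iff.mpr (hcA b hb).symm⟩
  have hR₁W : R₁ ∈ Cfsg.signalizerFamily p A θ := family_of_le A θ K R₁ hKW hR₁K hR₁A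
  have hR₂W : R₂ ∈ Cfsg.signalizerFamily p A θ := family_of_le A θ K R₂ hKW hR₂K hR₂A
  obtain ⟨S', hS', hRS'⟩ := exists_max_ge p A θ q R₁ hR₁W (IsPGroup.of_card hR₁c)
  obtain ⟨T', hT', hRT'⟩ := exists_max_ge p A θ q R₂ hR₂W (IsPGroup.of_card hR₂c)
  have hcardG : ∀ X : Subgroup G, Nat.card X ≤ Nat.card G := fun X => Subgroup.card_le_card_group X
  -- first step: `Q₁` and `S'`
  have h1 : Nat.card D < Nat.card ↥(Q₁ ⊓ S') :=
    lt_of_lt_of_le hlt₁ (Subgroup.card_le_of_le (le_inf inf_le_left (hR₁ge.trans hRS')))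
  obtain ⟨c₁, hc₁, hc₁e⟩ := ih (Nat.card G - Nat.card ↥(Q₁ ⊓ S'))
    (by have := hcardG (Q₁ ⊓ S'); have := hcardG D; omega) Q₁ S' ⟨hQ₁W, hQ₁q, hQ₁max⟩ hS' rfl
  -- second step: `S'^c` and `T'`
  have hS'' := isMaxQ_conj A θ hθ.1 q c hcC S' hS'
  have hR₂S'' : R₂ ≤ S'.map (MulAut.conj c).toMonoidHom := by
    rw [← hcR]; exact Subgroup.map_mono hRS'
  have h2 : Nat.card D < Nat.card ↥(S'.map (MulAut.conj c).toMonoidHom ⊓ T') :=
    lt_of_lt_of_le hlt₂ (Subgroup.card_le_of_le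
      (le_inf (hR₂ge.trans hR₂S'') (hR₂ge.trans hRT')))
  obtain ⟨c₂, hc₂, hc₂e⟩ := ih (Nat.card G - Nat.card ↥(S'.map (MulAut.conj c).toMonoidHom ⊓ T'))
    (by have := hcardG (S'.map (MulAut.conj c).toMonoidHom ⊓ T'); have := hcardG D; omega)
    _ T' hS'' hT' rfl
  -- third step: `T'` and `Q₂`
  have h3 : Nat.card D < Nat.card ↥(T' ⊓ Q₂) :=
    lt_of_lt_of_le hlt₂ (Subgroup.card_le_of_le (le_inf (hR₂ge.trans hRT') inf_le_left))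
  obtain ⟨c₃, hc₃, hc₃e⟩ := ih (Nat.card G - Nat.card ↥(T' ⊓ Q₂))
    (by have := hcardG (T' ⊓ Q₂); have := hcardG D; omega) T' Q₂ hT' ⟨hQ₂W, hQ₂q, hQ₂max⟩ rfl
  refine ⟨c₃ * (c₂ * (c * c₁)), Subgroup.mul_mem _ hc₃ (Subgroup.mul_mem _ hc₂
    (Subgroup.mul_mem _ hcC hc₁)), ?_⟩
  rw [map_conj_mul, map_conj_mul, map_conj_mul, hc₁e, hc₂e, hc₃e]

/-- Transitivity Theorem. Let θ be a solvable A-signalizer functor on the finite group G, A elementary abelian of rank at least 3, and q a prime dividing |θ a| for some non-identity a ∈ A. If Q₁ and Q₂ are q-subgroups in the family of θ, each maximal among the q-subgroups in the family, then Q₂ = c Q₁ c⁻¹ for some c in the intersection of the θ a, a ∈ A non-identity. -/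
theorem result {G : Type*} [Group G] [Finite G] (p : ℕ) [Fact p.Prime] (A : Subgroup G) (hA : Cfsg.IsElementaryAbelian p A) (hA3 : p ^ 3 ≤ Nat.card ↥A) (θ : G → Subgroup G) (hθ : Cfsg.IsSolvableSignalizerFunctor p A θ) (q : ℕ) [Fact q.Prime] (hq : ∃ a ∈ A, a ≠ 1 ∧ q ∣ Nat.card ↥(θ a)) (Q₁ Q₂ : Subgroup G) (hQ₁W : Q₁ ∈ Cfsg.signalizerFamily p A θ) (hQ₁q : IsPGroup q ↥Q₁) (hQ₁max : ∀ R ∈ Cfsg.signalizerFamily p A θ, IsPGroup q ↥R → Q₁ ≤ R → R = Q₁) (hQ₂W : Q₂ ∈ Cfsg.signalizerFamily p A θ) (hQ₂q : IsPGroup q ↥Q₂) (hQ₂max : ∀ R ∈ Cfsg.signalizerFamily p A θ, IsPGroup q ↥R → Q₂ ≤ R → R = Q₂) : ∃ c ∈ Cfsg.signalizerInf A θ, Q₁.map (MulAut.conj c).toMonoidHom = Q₂ :=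
  transitivity p A hA hA3 θ hθ q _ Q₁ Q₂ ⟨hQ₁W, hQ₁q, hQ₁max⟩ ⟨hQ₂W, hQ₂q, hQ₂max⟩ rfl

end Cfsg.Agent.S1283
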