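import Mathlib
import Cfsg.Statements.S1284
import Cfsg.Agent.S1283

set_option autoImplicit false
open Cfsg

namespace Cfsg.Agent.S1284

open Cfsg.Agent.Lib.Helper31.SigBasic Cfsg.Agent.Lib.Helper31.InvSylow

/-- A subgroup of `H` of Sylow order gives a Sylow subgroup of `H`. -/
theorem sylow_of_card {G : Type*} [Group G] [Finite G] (q : ℕ) [Fact q.Prime] (H R : Subgroup G)
    (hRH : R ≤ H) (hc : Nat.card R = q ^ (Nat.card H).factorization q) :
    ∃ S : Sylow q ↥H, (S : Subgroup ↥H).map H.subtype = R := by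
  have e : Nat.card (R.subgroupOf H) = q ^ (Nat.card H).factorization q := by
    rw [Nat.card_congr (Subgroup.subgroupOfEquivOfLe hRH).toEquiv]; exact hc
  refine ⟨Sylow.ofCard (R.subgroupOf H) e, ?_⟩
  rw [Sylow.coe_ofCard]
  exact Subgroup.map_subgroupOf_eq_of_le hRH

/-- Part (a), with the Sylow subgroup given by its order. -/
theorem part_a {G : Type*} [Group G] [Finite G] (p : ℕ) [Fact p.Prime] (A : Subgroup G)
    (hA : Cfsg.IsElementaryAbelian p A) (hA3 : p ^ 3 ≤ Nat.card ↥A) (θ : G → Subgroup G)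
    (hθ : Cfsg.IsSolvableSignalizerFunctor p A θ) (q : ℕ) [Fact q.Prime] (Q : Subgroup G)
    (hQ : Cfsg.Agent.S1283.IsMaxQ p A θ q Q) (H : Subgroup G)
    (hH : H ∈ Cfsg.signalizerFamily p A θ) :
    ∃ c ∈ Cfsg.signalizerInf A θ,
      Nat.card ↥(Q.map (MulAut.conj c).toMonoidHom ⊓ H) = q ^ (Nat.card H).factorization q := by
  have hApg : IsPGroup p A := fun g => ⟨1, by
    rw [pow_one]; exact Subtype.ext (by simpa using hA.2 g g.2)⟩
  obtain ⟨R, hRH, hRc, hRA⟩ := exists_invariant_sylow A H hApg hH.2.1 hH.2.2.1 q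
  have hRW : R ∈ Cfsg.signalizerFamily p A θ := family_of_le A θ H R hH hRH hRA
  obtain ⟨Q', hQ', hRQ'⟩ := Cfsg.Agent.S1283.exists_max_ge p A θ q R hRW (IsPGroup.of_card hRc)
  obtain ⟨c, hc, hcQ⟩ := Cfsg.Agent.S1283.transitivity p A hA hA3 θ hθ q _ Q Q' hQ hQ' rfl
  refine ⟨c, hc, ?_⟩
  rw [hcQ]
  have h1 : R ≤ Q' ⊓ H := le_inf hRQ' hRH
  have h2 : Nat.card ↥(Q' ⊓ H) ≤ q ^ (Nat.card H).factorization q :=
    card_le_of_isPGroup (Q' ⊓ H) H (hQ'.2.1.to_le inf_le_left) inf_le_right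
  have h3 := Subgroup.eq_of_le_of_card_ge h1 (by rw [hRc]; exact h2)
  rw [← h3]; exact hRc

/-- Let θ be a solvable A-signalizer functor on the finite group G, A elementary abelian of rank at least 3, q a prime dividing some |θ a|, and Q maximal among the q-subgroups in the family of θ. Then (a) for every member H of the family, some c in the intersection of the θ a (a ∈ A non-identity) makes c Q c⁻¹ ∩ H a Sylow q-subgroup of H; and (b) for every nontrivial subgroup B ≤ A, C_Q(B) is a Sylow q-subgroup of the intersection of the θ b over the non-identity b ∈ B. -/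
theorem result {G : Type*} [Group G] [Finite G] (p : ℕ) [Fact p.Prime] (A : Subgroup G) (hA : Cfsg.IsElementaryAbelian p A) (hA3 : p ^ 3 ≤ Nat.card ↥A) (θ : G → Subgroup G) (hθ : Cfsg.IsSolvableSignalizerFunctor p A θ) (q : ℕ) [Fact q.Prime] (hq : ∃ a ∈ A, a ≠ 1 ∧ q ∣ Nat.card ↥(θ a)) (Q : Subgroup G) (hQW : Q ∈ Cfsg.signalizerFamily p A θ) (hQq : IsPGroup q ↥Q) (hQmax : ∀ R ∈ Cfsg.signalizerFamily p A θ, IsPGroup q ↥R → Q ≤ R → R = Q) : (∀ H : Subgroup G, H ∈ Cfsg.signalizerFamily p A θ → ∃ c ∈ Cfsg.signalizerInf A θ, ∃ S : Sylow q ↥H, (S : Subgroup ↥H).map H.subtype = Q.map (MulAut.conj c).toMonoidHom ⊓ H) ∧ (∀ B : Subgroup G, B ≤ A → B ≠ ⊥ → ∃ S : Sylow q ↥(Cfsg.signalizerInf B θ), (S : Subgroup ↥(Cfsg.signalizerInf B θ)).map (Cfsg.signalizerInf B θ).subtype = Q ⊓ Subgroup.centralizer (B : Set G)) := by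
  have hQ : Cfsg.Agent.S1283.IsMaxQ p A θ q Q := ⟨hQW, hQq, hQmax⟩
  refine ⟨fun H hH => ?_, fun B hBA hB => ?_⟩
  · obtain ⟨c, hc, hcard⟩ := part_a p A hA hA3 θ hθ q Q hQ H hH
    exact ⟨c, hc, sylow_of_card q H _ inf_le_right hcard⟩
  · -- `θ(B)` is in the family
    obtain ⟨b₀, hb₀B, hb₀1⟩ : ∃ b ∈ B, b ≠ 1 := by
      by_contra hcon
      apply hB
      rw [Subgroup.eq_bot_iff_forall]
      intro b hb
      by_contra hb1
      exact hcon ⟨b, hb, hb1⟩
    have hle₀ : Cfsg.signalizerInf B θ ≤ θ b₀ := fun x hx =>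
      (mem_signalizerInf_iff B θ x).mp hx b₀ hb₀B hb₀1
    have hinv : ∀ a ∈ A, ∀ u ∈ Cfsg.signalizerInf B θ, a * u * a⁻¹ ∈ Cfsg.signalizerInf B θ := by
      intro a ha u hu
      rw [mem_signalizerInf_iff] at hu ⊢
      intro b hb hb1
      exact hθ.1.2.2.1 b (hBA hb) hb1 a ha u (hu b hb hb1)
    have hHW : Cfsg.signalizerInf B θ ∈ Cfsg.signalizerFamily p A θ :=
      family_of_le A θ (θ b₀) _ (theta_mem_family A θ hθ b₀ (hBA hb₀B) hb₀1) hle₀ hinv
    obtain ⟨c, hc, hcard⟩ := part_a p A hA hA3 θ hθ q Q hQ _ hHW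
    -- `c ∈ θ(B)`
    have hcB : c ∈ Cfsg.signalizerInf B θ := by
      rw [mem_signalizerInf_iff] at hc ⊢
      intro b hb hb1
      exact hc b (hBA hb) hb1
    -- `Q ⊓ C(B) = Q ⊓ θ(B)`
    have heq : Q ⊓ Subgroup.centralizer (B : Set G) = Q ⊓ Cfsg.signalizerInf B θ := by
      apply le_antisymm
      · refine le_inf inf_le_left ?_
        intro x hx
        rw [mem_signalizerInf_iff]
        intro b hb hb1
        exact hQW.2.2.2 b (hBA hb) hb1 ⟨hx.1, Subgroup.centralizer_le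
          (Set.singleton_subset_iff.mpr hb) hx.2⟩
      · refine le_inf inf_le_left ?_
        intro x hx
        have hx2 := (mem_signalizerInf_iff B θ x).mp hx.2
        rw [Subgroup.mem_centralizer_iff]
        intro b hb
        by_cases hb1 : b = 1
        · subst hb1; simp
        · exact (Subgroup.mem_centralizer_singleton_iff.mp
            (hθ.1.1 b (hBA hb) hb1 (hx2 b hb hb1))).symm
    rw [heq]
    -- the order of `Q ⊓ θ(B)`
    have hge : Nat.card ↥(Q.map (MulAut.conj c).toMonoidHom ⊓ Cfsg.signalizerInf B θ) ≤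
        Nat.card ↥(Q ⊓ Cfsg.signalizerInf B θ) := by
      have hmaps : (Q.map (MulAut.conj c).toMonoidHom ⊓ Cfsg.signalizerInf B θ).map
          (MulAut.conj c⁻¹).toMonoidHom ≤ Q ⊓ Cfsg.signalizerInf B θ := by
        rintro _ ⟨y, ⟨⟨x, hx, rfl⟩, hy2⟩, rfl⟩
        have e : (MulAut.conj c⁻¹).toMonoidHom ((MulAut.conj c).toMonoidHom x) = x := by
          show c⁻¹ * (c * x * c⁻¹) * c⁻¹⁻¹ = x
          group
        refine ⟨by rw [e]; exact hx, ?_⟩
        show c⁻¹ * ((MulAut.conj c).toMonoidHom x) * c⁻¹⁻¹ ∈ Cfsg.signalizerInf B θ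
        exact Subgroup.mul_mem _ (Subgroup.mul_mem _ (Subgroup.inv_mem _ hcB) hy2)
          (Subgroup.inv_mem _ (Subgroup.inv_mem _ hcB))
      have h1 := Subgroup.card_le_of_le hmaps
      rwa [Subgroup.card_map_of_injective (MulAut.conj c⁻¹).injective] at h1
    have hle : Nat.card ↥(Q ⊓ Cfsg.signalizerInf B θ) ≤
        q ^ (Nat.card ↥(Cfsg.signalizerInf B θ)).factorization q :=
      card_le_of_isPGroup _ _ (hQq.to_le inf_le_left) inf_le_right
    exact sylow_of_card q _ _ inf_le_right (le_antisymm hle (hcard ▸ hge))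

end Cfsg.Agent.S1284
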