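import Mathlib
import Cfsg.Statements.S1285
import Cfsg.Agent.S1283

set_option autoImplicit false
open Cfsg

namespace Cfsg.Agent.S1285

open Cfsg.Agent.Lib.Helper31.SigBasic Cfsg.Agent.Lib.Helper31.InvSylow

/-- The trivial subgroup is in the family. -/
theorem bot_mem_family {G : Type*} [Group G] [Finite G] (p : ℕ) [Fact p.Prime] (A : Subgroup G)
    (θ : G → Subgroup G) : (⊥ : Subgroup G) ∈ Cfsg.signalizerFamily p A θ := by
  refine ⟨inferInstance, ?_, ?_, ?_⟩
  · rw [Subgroup.card_bot]; exact (Fact.out : p.Prime).one_lt.ne' ∘ Nat.dvd_one.mp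
  · intro b _ u hu
    rw [Subgroup.mem_bot] at hu ⊢
    subst hu; group
  · intro a _ _
    exact inf_le_left.trans bot_le

/-- Let θ be a solvable A-signalizer functor on the finite group G with A elementary abelian of rank at least 3, and suppose that for some prime q every θ a (a ∈ A non-identity) is a q-group. Then θ is complete. -/
theorem result {G : Type*} [Group G] [Finite G] (p : ℕ) [Fact p.Prime] (A : Subgroup G) (hA : Cfsg.IsElementaryAbelian p A) (hA3 : p ^ 3 ≤ Nat.card ↥A) (θ : G → Subgroup G) (hθ : Cfsg.IsSolvableSignalizerFunctor p A θ) (q : ℕ) [Fact q.Prime] (hq : ∀ a ∈ A, a ≠ 1 → IsPGroup q ↥(θ a)) : Cfsg.IsCompleteSignalizerFunctor p A θ := by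
  obtain ⟨Q, hQ, -⟩ := Cfsg.Agent.S1283.exists_max_ge p A θ q ⊥ (bot_mem_family p A θ)
    (IsPGroup.of_bot)
  have hle : ∀ a ∈ A, a ≠ 1 → θ a ≤ Q := by
    intro a ha ha1
    obtain ⟨Qa, hQa, hθQa⟩ := Cfsg.Agent.S1283.exists_max_ge p A θ q (θ a)
      (theta_mem_family A θ hθ a ha ha1) (hq a ha ha1)
    obtain ⟨c, hc, hcQ⟩ := Cfsg.Agent.S1283.transitivity p A hA hA3 θ hθ q _ Q Qa hQ hQa rfl
    have hca : c ∈ θ a := (mem_signalizerInf_iff A θ c).mp hc a ha ha1
    intro x hx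
    have h1 : c * x * c⁻¹ ∈ Qa := hθQa (Subgroup.mul_mem _ (Subgroup.mul_mem _ hca hx)
      (Subgroup.inv_mem _ hca))
    rw [← hcQ] at h1
    obtain ⟨y, hy, hyx⟩ := h1
    have h2 : c * y * c⁻¹ = c * x * c⁻¹ := hyx
    have h3 : y = x := by
      have h4 : c⁻¹ * (c * y * c⁻¹) * c = c⁻¹ * (c * x * c⁻¹) * c := by rw [h2]
      have e1 : c⁻¹ * (c * y * c⁻¹) * c = y := by group
      have e2 : c⁻¹ * (c * x * c⁻¹) * c = x := by group
      rw [e1, e2] at h4
      exact h4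
    rw [← h3]; exact hy
  refine ⟨hθ.1, Q, hQ.1.2.2.1, hQ.1.2.1, fun a ha ha1 => le_antisymm (hQ.1.2.2.2 a ha ha1)
    (le_inf (hle a ha ha1) (hθ.1.1 a ha ha1))⟩

end Cfsg.Agent.S1285
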