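import Cfsg.Statements.S1286
import Mathlib

set_option autoImplicit false
open Cfsg

namespace Cfsg.Agent.S1286

open Equiv

abbrev X5 := Equiv.Perm (Fin 5)

def a1 : X5 := swap 0 1
def a2 : X5 := swap 2 3
def sElt : X5 := swap 2 3 * swap 3 4
def tElt : X5 := swap 0 1 * swap 1 4

/-- The four-group generated by the transpositions `(0 1)` and `(2 3)`. -/
def A4 : Subgroup X5 where
  carrier := {g | g = 1 ∨ g = a1 ∨ g = a2 ∨ g = a1 * a2}
  mul_mem' := by
    rintro x y (rfl | rfl | rfl | rfl) (rfl | rfl | rfl | rfl) <;>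
      (change _ = (1 : X5) ∨ _ = a1 ∨ _ = a2 ∨ _ = a1 * a2; decide)
  one_mem' := Or.inl rfl
  inv_mem' := by
    rintro x (rfl | rfl | rfl | rfl) <;>
      (change _ = (1 : X5) ∨ _ = a1 ∨ _ = a2 ∨ _ = a1 * a2; decide)

theorem mem_A4 {g : X5} : g ∈ A4 ↔ g = 1 ∨ g = a1 ∨ g = a2 ∨ g = a1 * a2 := Iff.rfl

/-- The functor. -/
def θ5 : X5 → Subgroup X5 := fun g =>
  if g = a1 then Subgroup.zpowers sElt else if g = a2 then Subgroup.zpowers tElt else ⊥

theorem θ5_a1 : θ5 a1 = Subgroup.zpowers sElt := by
  unfold θ5; rw [if_pos rfl]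

theorem θ5_a2 : θ5 a2 = Subgroup.zpowers tElt := by
  unfold θ5; rw [if_neg (by decide), if_pos rfl]

theorem θ5_a3 : θ5 (a1 * a2) = ⊥ := by
  unfold θ5; rw [if_neg (by decide), if_neg (by decide)]

theorem orderOf_sElt : orderOf sElt = 3 := by
  have : Fact (Nat.Prime 3) := ⟨Nat.prime_three⟩
  exact orderOf_eq_prime (by decide) (by decide)

theorem orderOf_tElt : orderOf tElt = 3 := by
  have : Fact (Nat.Prime 3) := ⟨Nat.prime_three⟩
  exact orderOf_eq_prime (by decide) (by decide)

/-- Elements of a cyclic group of order 3. -/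
theorem mem_zpowers_three {G : Type*} [Group G] {s x : G} (hs : orderOf s = 3)
    (hx : x ∈ Subgroup.zpowers s) : x = 1 ∨ x = s ∨ x = s⁻¹ := by
  obtain ⟨k, rfl⟩ := Subgroup.mem_zpowers_iff.1 hx
  have h1 : s ^ k = s ^ (k % 3) := by
    have := zpow_mod_orderOf s k
    rw [hs] at this
    exact this.symm
  have h3 : s ^ (3 : ℕ) = 1 := by rw [← hs]; exact pow_orderOf_eq_one s
  have hk0 : 0 ≤ k % 3 := Int.emod_nonneg k (by norm_num)
  have hk3 : k % 3 < 3 := Int.emod_lt_of_pos k (by norm_num)
  rw [h1]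
  have h : k % 3 = 0 ∨ k % 3 = 1 ∨ k % 3 = 2 := by omega
  rcases h with h | h | h
  · left; rw [h, zpow_zero]
  · right; left; rw [h, zpow_one]
  · right; right
    rw [h]
    have : s ^ (2 : ℤ) = s ^ (2 : ℕ) := by norm_cast
    rw [this]
    apply eq_inv_of_mul_eq_one_left
    rw [← pow_succ]
    exact h3

theorem card_zpowers_sElt : Nat.card (Subgroup.zpowers sElt) = 3 := by
  rw [Nat.card_zpowers, orderOf_sElt]

theorem card_zpowers_tElt : Nat.card (Subgroup.zpowers tElt) = 3 := by
  rw [Nat.card_zpowers, orderOf_tElt]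

theorem conj_mem_zpowers {G : Type*} [Group G] {s b x : G}
    (hb : b * s * b⁻¹ = s ∨ b * s * b⁻¹ = s⁻¹) (hx : x ∈ Subgroup.zpowers s) :
    b * x * b⁻¹ ∈ Subgroup.zpowers s := by
  obtain ⟨k, rfl⟩ := Subgroup.mem_zpowers_iff.1 hx
  have h1 : b * s ^ k * b⁻¹ = (b * s * b⁻¹) ^ k := by
    have := map_zpow (MulAut.conj b) s k
    simp only [MulAut.conj_apply] at this
    exact this
  rw [h1]
  rcases hb with h | h
  · rw [h]; exact Subgroup.zpow_mem_zpowers s k
  · rw [h]; exact Subgroup.zpow_mem _ (Subgroup.inv_mem _ (Subgroup.mem_zpowers s)) k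

theorem solvable_of_card_three {G : Type*} [Group G] (h : Nat.card G = 3) : Group.IsSolvable G := by
  have : Fact (Nat.Prime 3) := ⟨Nat.prime_three⟩
  have : Finite G := Nat.finite_of_card_ne_zero (by rw [h]; norm_num)
  have hp : IsPGroup 3 G := IsPGroup.of_card (n := 1) (by rw [h, pow_one])
  have := hp.isNilpotent
  infer_instance

theorem θ5_signalizer : Cfsg.IsSignalizerFunctor 2 A4 θ5 := by
  refine ⟨?_, ?_, ?_, ?_⟩
  · intro a ha ha1
    rcases mem_A4.1 ha with rfl | rfl | rfl | rfl
    · exact absurd rfl ha1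
    · rw [θ5_a1, Subgroup.zpowers_le, Subgroup.mem_centralizer_singleton_iff]; decide
    · rw [θ5_a2, Subgroup.zpowers_le, Subgroup.mem_centralizer_singleton_iff]; decide
    · rw [θ5_a3]; exact bot_le
  · intro a ha ha1
    rcases mem_A4.1 ha with rfl | rfl | rfl | rfl
    · exact absurd rfl ha1
    · rw [θ5_a1, card_zpowers_sElt]; decide
    · rw [θ5_a2, card_zpowers_tElt]; decide
    · rw [θ5_a3, Subgroup.card_bot]; decide
  · intro a ha ha1 b hb x hx
    rcases mem_A4.1 ha with rfl | rfl | rfl | rfl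
    · exact absurd rfl ha1
    · rw [θ5_a1] at hx ⊢
      apply conj_mem_zpowers _ hx
      rcases mem_A4.1 hb with rfl | rfl | rfl | rfl <;> decide
    · rw [θ5_a2] at hx ⊢
      apply conj_mem_zpowers _ hx
      rcases mem_A4.1 hb with rfl | rfl | rfl | rfl <;> decide
    · rw [θ5_a3] at hx ⊢
      rw [Subgroup.mem_bot] at hx ⊢
      rw [hx]; group
  · intro a ha ha1 b hb hb1
    rcases mem_A4.1 ha with rfl | rfl | rfl | rfl
    · exact absurd rfl ha1
    · rw [θ5_a1]
      rcases mem_A4.1 hb with rfl | rfl | rfl | rfl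
      · exact absurd rfl hb1
      · rw [θ5_a1]; exact inf_le_left
      · intro x hx'
        obtain ⟨hx, hxc⟩ := Subgroup.mem_inf.1 hx'
        rw [Subgroup.mem_centralizer_singleton_iff] at hxc
        rcases mem_zpowers_three orderOf_sElt hx with rfl | rfl | rfl
        · exact Subgroup.one_mem _
        · exact absurd hxc (by decide)
        · exact absurd hxc (by decide)
      · intro x hx'
        obtain ⟨hx, hxc⟩ := Subgroup.mem_inf.1 hx'
        rw [Subgroup.mem_centralizer_singleton_iff] at hxc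
        rcases mem_zpowers_three orderOf_sElt hx with rfl | rfl | rfl
        · exact Subgroup.one_mem _
        · exact absurd hxc (by decide)
        · exact absurd hxc (by decide)
    · rw [θ5_a2]
      rcases mem_A4.1 hb with rfl | rfl | rfl | rfl
      · exact absurd rfl hb1
      · intro x hx'
        obtain ⟨hx, hxc⟩ := Subgroup.mem_inf.1 hx'
        rw [Subgroup.mem_centralizer_singleton_iff] at hxc
        rcases mem_zpowers_three orderOf_tElt hx with rfl | rfl | rfl
        · exact Subgroup.one_mem _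
        · exact absurd hxc (by decide)
        · exact absurd hxc (by decide)
      · rw [θ5_a2]; exact inf_le_left
      · intro x hx'
        obtain ⟨hx, hxc⟩ := Subgroup.mem_inf.1 hx'
        rw [Subgroup.mem_centralizer_singleton_iff] at hxc
        rcases mem_zpowers_three orderOf_tElt hx with rfl | rfl | rfl
        · exact Subgroup.one_mem _
        · exact absurd hxc (by decide)
        · exact absurd hxc (by decide)
    · rw [θ5_a3]; exact inf_le_left.trans bot_le


/-- There exist a finite group X, an elementary abelian subgroup A of order 4 and a solvable A-signalizer functor θ on X for the prime 2 which is not complete. -/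
theorem result : ∃ (X : Type) (_ : Group X) (_ : Finite X) (A : Subgroup X) (θ : X → Subgroup X), Cfsg.IsElementaryAbelian 2 A ∧ Nat.card ↥A = 4 ∧ Cfsg.IsSolvableSignalizerFunctor 2 A θ ∧ ¬ Cfsg.IsCompleteSignalizerFunctor 2 A θ := by
  refine ⟨X5, inferInstance, inferInstance, A4, θ5, ⟨?_, ?_⟩, ?_, ⟨θ5_signalizer, ?_⟩, ?_⟩
  · refine ⟨⟨fun x y => ?_⟩⟩
    apply Subtype.ext
    rcases mem_A4.1 x.2 with h | h | h | h <;> rcases mem_A4.1 y.2 with h' | h' | h' | h' <;>
      rw [Subgroup.coe_mul, Subgroup.coe_mul, h, h'] <;> decide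
  · intro a ha
    rcases mem_A4.1 ha with rfl | rfl | rfl | rfl <;> decide
  · have h1 : (A4 : Set X5) = {1, a1, a2, a1 * a2} := by
      ext g
      simp only [SetLike.mem_coe, mem_A4, Set.mem_insert_iff, Set.mem_singleton_iff]
    rw [← SetLike.coe_sort_coe, Nat.card_coe_set_eq, h1]
    rw [Set.ncard_insert_of_notMem, Set.ncard_insert_of_notMem, Set.ncard_insert_of_notMem,
      Set.ncard_singleton]
    · simp only [Set.mem_singleton_iff]; decide
    · simp only [Set.mem_insert_iff, Set.mem_singleton_iff]; decide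
    · simp only [Set.mem_insert_iff, Set.mem_singleton_iff]; decide
  · intro a ha ha1
    rcases mem_A4.1 ha with rfl | rfl | rfl | rfl
    · exact absurd rfl ha1
    · rw [θ5_a1]; exact solvable_of_card_three card_zpowers_sElt
    · rw [θ5_a2]; exact solvable_of_card_three card_zpowers_tElt
    · rw [θ5_a3]; infer_instance
  · rintro ⟨-, X', -, hodd, hX'⟩
    have h1 := hX' a1 (by rw [mem_A4]; right; left; rfl) (by decide)
    have h2 := hX' a2 (by rw [mem_A4]; right; right; left; rfl) (by decide)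
    rw [θ5_a1] at h1
    rw [θ5_a2] at h2
    have hs : sElt ∈ X' := by
      have : sElt ∈ X' ⊓ Subgroup.centralizer ({a1} : Set X5) := by
        rw [h1]; exact Subgroup.mem_zpowers sElt
      exact this.1
    have ht : tElt ∈ X' := by
      have : tElt ∈ X' ⊓ Subgroup.centralizer ({a2} : Set X5) := by
        rw [h2]; exact Subgroup.mem_zpowers tElt
      exact this.1
    have hw : sElt * tElt * sElt * tElt⁻¹ ∈ X' :=
      X'.mul_mem (X'.mul_mem (X'.mul_mem hs ht) hs) (X'.inv_mem ht)
    have ho : orderOf (sElt * tElt * sElt * tElt⁻¹) = 2 :=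
      orderOf_eq_prime (by decide) (by decide)
    apply hodd
    rw [← ho]
    exact Subgroup.orderOf_dvd_natCard X' hw

end Cfsg.Agent.S1286
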