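import Cfsg.Statements.S1287
import Mathlib
import Cfsg.Agent.Lib.Helper22.BrauerWielandt
import Cfsg.Agent.Lib.Helper50.CD
import Cfsg.Agent.Lib.Helper31.SigBasic

set_option autoImplicit false
open scoped Pointwise
open Cfsg

namespace Cfsg.Agent.S1287

open Cfsg.Agent.Lib.Helper22.BrauerWielandt
open Cfsg.Agent.Lib.Helper31.SigBasic
open Cfsg.Agent.Lib.Helper50.CD

/-- Conjugation by `b` preserves `L ∩ C(a)` when `b` normalizes `L` and commutes with `a`. -/
theorem conj_mem_inf_centralizer {H : Type*} [Group H] {a b : H} (hab : a * b = b * a)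
    (L : Subgroup H) (hLb : ∀ l ∈ L, b * l * b⁻¹ ∈ L) :
    ∀ l ∈ L ⊓ Subgroup.centralizer {a}, b * l * b⁻¹ ∈ L ⊓ Subgroup.centralizer {a} := by
  intro l hl
  obtain ⟨hl1, hl2⟩ := Subgroup.mem_inf.mp hl
  refine Subgroup.mem_inf.mpr ⟨hLb l hl1, ?_⟩
  rw [Subgroup.mem_centralizer_singleton_iff] at hl2 ⊢
  have h3 : b⁻¹ * a = a * b⁻¹ := by
    rw [inv_mul_eq_iff_eq_mul, ← mul_assoc, ← hab, mul_inv_cancel_right]
  calc b * l * b⁻¹ * a = b * l * (b⁻¹ * a) := by group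
    _ = b * (l * a) * b⁻¹ := by rw [h3]; group
    _ = (b * a) * l * b⁻¹ := by rw [hl2]; group
    _ = a * (b * l * b⁻¹) := by rw [← hab]; group

/-- Fixed points of a product: if `b` (of order dividing `p`) normalizes the `p'`-subgroups
`U`, `V`, then every element of `U V` commuting with `b` is a product of elements of `U` and
`V` commuting with `b`. -/
theorem mem_mul_centralizer {H : Type*} [Group H] [Finite H] {p : ℕ} [Fact p.Prime] (b : H)
    (hbp : b ^ p = 1) (U V : Subgroup H) (hU : ¬ p ∣ Nat.card U)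
    (hbU : ∀ u ∈ U, b * u * b⁻¹ ∈ U) (hbV : ∀ v ∈ V, b * v * b⁻¹ ∈ V)
    (x y : H) (hx : x ∈ U) (hy : y ∈ V) (hg : x * y * b = b * (x * y)) :
    x * y ∈ ((U ⊓ Subgroup.centralizer {b} : Subgroup H) : Set H)
      * ((V ⊓ Subgroup.centralizer {b} : Subgroup H) : Set H) := by
  have hW : ¬ p ∣ Nat.card ↥(U ⊓ V) :=
    fun h => hU (h.trans (Subgroup.card_dvd_of_le inf_le_left))
  have hbW : ∀ n ∈ U ⊓ V, b * n * b⁻¹ ∈ U ⊓ V := by
    intro n hn
    exact Subgroup.mem_inf.mpr ⟨hbU n (Subgroup.mem_inf.mp hn).1, hbV n (Subgroup.mem_inf.mp hn).2⟩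
  have h5 : b * (x * y) * b⁻¹ = x * y := by rw [← hg, mul_inv_cancel_right]
  have e2 : x⁻¹ * (b * x * b⁻¹) = y * (b * y * b⁻¹)⁻¹ := by
    calc x⁻¹ * (b * x * b⁻¹) = x⁻¹ * (b * (x * y) * b⁻¹) * (b * y * b⁻¹)⁻¹ := by group
      _ = x⁻¹ * (x * y) * (b * y * b⁻¹)⁻¹ := by rw [h5]
      _ = y * (b * y * b⁻¹)⁻¹ := by group
  have hxW : x⁻¹ * (b * x * b⁻¹) ∈ U ⊓ V := by
    refine Subgroup.mem_inf.mpr ⟨mul_mem (inv_mem hx) (hbU x hx), ?_⟩
    rw [e2]
    exact mul_mem hy (inv_mem (hbV y hy))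
  obtain ⟨n, hn, hcomm⟩ := exists_commute_in_coset b hbp (U ⊓ V) hW hbW x hxW
  obtain ⟨hn1, hn2⟩ := Subgroup.mem_inf.mp hn
  refine Set.mem_mul.mpr ⟨x * n, ?_, n⁻¹ * y, ?_, by group⟩
  · refine Subgroup.mem_inf.mpr ⟨mul_mem hx hn1, ?_⟩
    rw [Subgroup.mem_centralizer_singleton_iff]
    exact hcomm.symm
  · refine Subgroup.mem_inf.mpr ⟨mul_mem (inv_mem hn2) hy, ?_⟩
    rw [Subgroup.mem_centralizer_singleton_iff]
    have hinv : (x * n)⁻¹ * b = b * (x * n)⁻¹ := by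
      rw [inv_mul_eq_iff_eq_mul, ← mul_assoc, ← hcomm, mul_inv_cancel_right]
    have e : n⁻¹ * y = (x * n)⁻¹ * (x * y) := by group
    rw [e]
    calc (x * n)⁻¹ * (x * y) * b = (x * n)⁻¹ * (b * (x * y)) := by rw [mul_assoc, hg]
      _ = ((x * n)⁻¹ * b) * (x * y) := by group
      _ = (b * (x * n)⁻¹) * (x * y) := by rw [hinv]
      _ = b * ((x * n)⁻¹ * (x * y)) := by group



/-- Let A be a noncyclic elementary abelian p-subgroup of a finite group H normalizing a subgroup K of order prime to p, and X, Y ≤ K subgroups normalized by A with C_K(a) = C_X(a) C_Y(a) (as sets) for every non-identity a ∈ A, where X is also normalized by C_K(A). Then K = XY as sets. -/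
theorem result {H : Type*} [Group H] [Finite H] (p : ℕ) [Fact p.Prime] (A K X Y : Subgroup H) (hA : Cfsg.IsElementaryAbelian p A) (hA2 : p ^ 2 ≤ Nat.card ↥A) (hK : ¬ p ∣ Nat.card ↥K) (hAK : A ≤ Subgroup.normalizer (K : Set H)) (hX : X ≤ K) (hY : Y ≤ K) (hAX : A ≤ Subgroup.normalizer (X : Set H)) (hAY : A ≤ Subgroup.normalizer (Y : Set H)) (hCX : K ⊓ Subgroup.centralizer (A : Set H) ≤ Subgroup.normalizer (X : Set H)) (hfac : ∀ a ∈ A, a ≠ 1 → ((K ⊓ Subgroup.centralizer {a} : Subgroup H) : Set H) = ((X ⊓ Subgroup.centralizer {a} : Subgroup H) : Set H) * ((Y ⊓ Subgroup.centralizer {a} : Subgroup H) : Set H)) : (K : Set H) = (X : Set H) * (Y : Set H) := by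
  classical
  have hpr : p.Prime := Fact.out
  obtain ⟨hAcomm, hAexp⟩ := hA
  have hAc : ∀ x ∈ A, ∀ y ∈ A, x * y = y * x := by
    intro x hx y hy
    have h := isMulCommutative_iff.mp hAcomm ⟨x, hx⟩ ⟨y, hy⟩
    exact congrArg Subtype.val h
  have hAp : IsPGroup p A := by
    intro x
    exact ⟨1, by rw [pow_one]; exact Subtype.ext (hAexp x x.2)⟩
  have hAK' : ∀ e ∈ A, ∀ k ∈ K, e * k * e⁻¹ ∈ K :=
    fun e he k hk => (Subgroup.mem_normalizer_iff.mp (hAK he) k).mp hk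
  have hAX' : ∀ e ∈ A, ∀ k ∈ X, e * k * e⁻¹ ∈ X :=
    fun e he k hk => (Subgroup.mem_normalizer_iff.mp (hAX he) k).mp hk
  have hAY' : ∀ e ∈ A, ∀ k ∈ Y, e * k * e⁻¹ ∈ Y :=
    fun e he k hk => (Subgroup.mem_normalizer_iff.mp (hAY he) k).mp hk
  have hAW' : ∀ e ∈ A, ∀ k ∈ X ⊓ Y, e * k * e⁻¹ ∈ X ⊓ Y := by
    intro e he k hk
    exact Subgroup.mem_inf.mpr ⟨hAX' e he k (Subgroup.mem_inf.mp hk).1,
      hAY' e he k (Subgroup.mem_inf.mp hk).2⟩
  -- choose `a`, `b`
  have hA1 : 1 < Nat.card A := by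
    have : 1 < p ^ 2 := by nlinarith [hpr.two_le]
    omega
  obtain ⟨b, hbA, hb1⟩ : ∃ b ∈ A, b ≠ 1 := by
    have : Nontrivial A := Finite.one_lt_card_iff_nontrivial.mp hA1
    obtain ⟨⟨b, hb⟩, hne⟩ := exists_ne (1 : A)
    exact ⟨b, hb, fun h => hne (Subtype.ext h)⟩
  obtain ⟨a, haA, hab⟩ : ∃ a ∈ A, a ∉ Subgroup.zpowers b := by
    by_contra hcon
    push Not at hcon
    have hle : A ≤ Subgroup.zpowers b := hcon
    have h1 : Nat.card A ≤ Nat.card (Subgroup.zpowers b) := Subgroup.card_le_of_le hle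
    have h2 : Nat.card (Subgroup.zpowers b) = orderOf b := Nat.card_zpowers b
    have h3 : orderOf b ∣ p := orderOf_dvd_of_pow_eq_one (hAexp b hbA)
    have h4 : orderOf b ≤ p := Nat.le_of_dvd hpr.pos h3
    have h5 : p < p ^ 2 := by nlinarith [hpr.two_le]
    omega
  have ha1 : a ≠ 1 := fun h => hab (h ▸ one_mem _)
  have hne : ∀ j : ℕ, a * b ^ j ≠ 1 := by
    intro j h
    apply hab
    have h1 : a = (b ^ j)⁻¹ := eq_inv_of_mul_eq_one_left h
    rw [h1]
    exact inv_mem (pow_mem (Subgroup.mem_zpowers b) j)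
  have hcomm : a * b = b * a := hAc a haA b hbA
  have hKd : ∀ L : Subgroup H, L ≤ K → ¬ p ∣ Nat.card L :=
    fun L hL h => hK (h.trans (Subgroup.card_dvd_of_le hL))
  have bwK := bw_ambient A K hAp hAc hK hAK' a b haA hbA (hAexp a haA) (hAexp b hbA)
  have bwX := bw_ambient A X hAp hAc (hKd X hX) hAX' a b haA hbA (hAexp a haA) (hAexp b hbA)
  have bwY := bw_ambient A Y hAp hAc (hKd Y hY) hAY' a b haA hbA (hAexp a haA) (hAexp b hbA)
  have bwW := bw_ambient A (X ⊓ Y) hAp hAc (hKd _ (inf_le_left.trans hX)) hAW' a b haA hbA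
    (hAexp a haA) (hAexp b hbA)
  -- single elements
  have hcnt : ∀ d ∈ A, d ≠ 1 →
      Nat.card ↥(K ⊓ Subgroup.centralizer {d}) * Nat.card ↥(X ⊓ Y ⊓ Subgroup.centralizer {d})
        = Nat.card ↥(X ⊓ Subgroup.centralizer {d}) * Nat.card ↥(Y ⊓ Subgroup.centralizer {d}) := by
    intro d hd hd1
    have h1 := card_mul_card_inf (X ⊓ Subgroup.centralizer {d}) (Y ⊓ Subgroup.centralizer {d})
    rw [← hfac d hd hd1] at h1
    have h2 : (X ⊓ Subgroup.centralizer {d}) ⊓ (Y ⊓ Subgroup.centralizer {d})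
        = X ⊓ Y ⊓ Subgroup.centralizer {d} := by
      ext g
      simp only [Subgroup.mem_inf]
      tauto
    rw [h2] at h1
    exact h1
  -- the pair
  have hfac2 : ((K ⊓ Subgroup.centralizer {a} ⊓ Subgroup.centralizer {b} : Subgroup H) : Set H)
      = ((X ⊓ Subgroup.centralizer {a} ⊓ Subgroup.centralizer {b} : Subgroup H) : Set H)
        * ((Y ⊓ Subgroup.centralizer {a} ⊓ Subgroup.centralizer {b} : Subgroup H) : Set H) := by
    apply Set.Subset.antisymm
    · intro g hg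
      obtain ⟨hg1, hgb⟩ := Subgroup.mem_inf.mp hg
      have hg2 : g ∈ ((K ⊓ Subgroup.centralizer {a} : Subgroup H) : Set H) := hg1
      rw [hfac a haA ha1] at hg2
      obtain ⟨x, hx, y, hy, rfl⟩ := Set.mem_mul.mp hg2
      exact mem_mul_centralizer b (hAexp b hbA) (X ⊓ Subgroup.centralizer {a})
        (Y ⊓ Subgroup.centralizer {a}) (hKd _ (inf_le_left.trans hX))
        (conj_mem_inf_centralizer hcomm X (hAX' b hbA))
        (conj_mem_inf_centralizer hcomm Y (hAY' b hbA)) x y hx hy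
        (Subgroup.mem_centralizer_singleton_iff.mp hgb)
    · rintro _ ⟨x, hx, y, hy, rfl⟩
      have hx' : x ∈ K ⊓ Subgroup.centralizer {a} ⊓ Subgroup.centralizer {b} :=
        (inf_le_inf_right _ (inf_le_inf_right _ hX)) hx
      have hy' : y ∈ K ⊓ Subgroup.centralizer {a} ⊓ Subgroup.centralizer {b} :=
        (inf_le_inf_right _ (inf_le_inf_right _ hY)) hy
      exact mul_mem hx' hy'
  have hcnt2 : Nat.card ↥(K ⊓ Subgroup.centralizer {a} ⊓ Subgroup.centralizer {b})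
      * Nat.card ↥(X ⊓ Y ⊓ Subgroup.centralizer {a} ⊓ Subgroup.centralizer {b})
      = Nat.card ↥(X ⊓ Subgroup.centralizer {a} ⊓ Subgroup.centralizer {b})
        * Nat.card ↥(Y ⊓ Subgroup.centralizer {a} ⊓ Subgroup.centralizer {b}) := by
    have h1 := card_mul_card_inf (X ⊓ Subgroup.centralizer {a} ⊓ Subgroup.centralizer {b})
      (Y ⊓ Subgroup.centralizer {a} ⊓ Subgroup.centralizer {b})
    rw [← hfac2] at h1
    have h2 : (X ⊓ Subgroup.centralizer {a} ⊓ Subgroup.centralizer {b})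
        ⊓ (Y ⊓ Subgroup.centralizer {a} ⊓ Subgroup.centralizer {b})
        = X ⊓ Y ⊓ Subgroup.centralizer {a} ⊓ Subgroup.centralizer {b} := by
      ext g
      simp only [Subgroup.mem_inf]
      tauto
    rw [h2] at h1
    exact h1
  have hP : (∏ j ∈ Finset.range p, Nat.card ↥(K ⊓ Subgroup.centralizer {a * b ^ j}))
      * (∏ j ∈ Finset.range p, Nat.card ↥(X ⊓ Y ⊓ Subgroup.centralizer {a * b ^ j}))
      = (∏ j ∈ Finset.range p, Nat.card ↥(X ⊓ Subgroup.centralizer {a * b ^ j}))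
        * (∏ j ∈ Finset.range p, Nat.card ↥(Y ⊓ Subgroup.centralizer {a * b ^ j})) := by
    rw [← Finset.prod_mul_distrib, ← Finset.prod_mul_distrib]
    exact Finset.prod_congr rfl (fun j _ => hcnt _ (mul_mem haA (pow_mem hbA j)) (hne j))
  have hcb := hcnt b hbA hb1
  have key : ∀ (k w x y kab wab xab yab kb wb xb yb Pk Pw Px Py : ℕ),
      k * kab ^ p = kb * Pk → x * xab ^ p = xb * Px → y * yab ^ p = yb * Py →
      w * wab ^ p = wb * Pw → kb * wb = xb * yb → kab * wab = xab * yab →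
      Pk * Pw = Px * Py → 0 < kab → 0 < wab → k * w = x * y := by
    intro k w x y kab wab xab yab kb wb xb yb Pk Pw Px Py h1 h2 h3 h4 h5 h6 h7 h8 h9
    have e : (k * w) * (kab * wab) ^ p = (x * y) * (kab * wab) ^ p := by
      calc (k * w) * (kab * wab) ^ p = (k * kab ^ p) * (w * wab ^ p) := by ring
        _ = (kb * Pk) * (wb * Pw) := by rw [h1, h4]
        _ = (kb * wb) * (Pk * Pw) := by ring
        _ = (xb * yb) * (Px * Py) := by rw [h5, h7]
        _ = (xb * Px) * (yb * Py) := by ring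
        _ = (x * xab ^ p) * (y * yab ^ p) := by rw [h2, h3]
        _ = (x * y) * (xab * yab) ^ p := by ring
        _ = (x * y) * (kab * wab) ^ p := by rw [h6]
    exact Nat.eq_of_mul_eq_mul_right (pow_pos (Nat.mul_pos h8 h9) p) e
  have hkw : Nat.card K * Nat.card ↥(X ⊓ Y) = Nat.card X * Nat.card Y :=
    key _ _ _ _ _ _ _ _ _ _ _ _ _ _ _ _ bwK bwX bwY bwW hcb hcnt2 hP Nat.card_pos Nat.card_pos
  have hXY := card_mul_card_inf X Y
  rw [← hkw] at hXY
  have hcard : Nat.card ↥((X : Set H) * (Y : Set H)) = Nat.card K :=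
    Nat.eq_of_mul_eq_mul_right Nat.card_pos hXY
  have hsub : (X : Set H) * (Y : Set H) ⊆ (K : Set H) := by
    rintro _ ⟨x, hx, y, hy, rfl⟩
    exact mul_mem (hX hx) (hY hy)
  have hle : (K : Set H).ncard ≤ ((X : Set H) * (Y : Set H)).ncard := by
    rw [← Nat.card_coe_set_eq, ← Nat.card_coe_set_eq, hcard]
    exact le_rfl
  exact (Set.eq_of_subset_of_ncard_le hsub hle (Set.toFinite _)).symm

end Cfsg.Agent.S1287
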