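import Cfsg.Statements.S1288
import Cfsg.Agent.Lib.Helper22.PPrimeP
import Cfsg.Agent.Lib.Helper22.Balance
import Cfsg.Agent.Lib.Helper31.CoprimeGen
import Cfsg.Agent.Lib.Helper55.SolvCore
import Cfsg.Agent.S0023

set_option autoImplicit false
open Cfsg

namespace Cfsg.Agent.S1288

open Cfsg.Agent.Lib.Helper22.PPrimeP Cfsg.Agent.Lib.Helper22.Balance Cfsg.Agent.Lib.Helper78
open scoped commutatorElement

/-- A `p`-group of order `p^n` has a subgroup of index `p` inside each subgroup of order at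
least `p^(n-1)`. -/
theorem exists_hyperplane_le {H : Type*} [Group H] [Finite H] (p : ℕ) [Fact p.Prime]
    (A D : Subgroup H) (hAp : IsPGroup p A) (n : ℕ) (hn : Nat.card A = p ^ n) (hn1 : 1 ≤ n)
    (hDA : D ≤ A) (hD : p ^ (n - 1) ≤ Nat.card D) :
    ∃ B : Subgroup H, B ≤ D ∧ B ≤ A ∧ B.relIndex A = p := by
  have hp : p.Prime := Fact.out
  obtain ⟨j, hj⟩ := (hAp.to_le hDA).exists_card_eq
  have hjn : n - 1 ≤ j := by
    rw [hj] at hD
    exact (Nat.pow_le_pow_iff_right hp.one_lt).1 hD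
  have hdvd : p ^ (n - 1) ∣ Nat.card D := by
    rw [hj]; exact pow_dvd_pow p hjn
  obtain ⟨B', hB'⟩ := Sylow.exists_subgroup_card_pow_prime p hdvd
  refine ⟨B'.map D.subtype, Subgroup.map_subtype_le _, (Subgroup.map_subtype_le _).trans hDA, ?_⟩
  have hBcard : Nat.card (B'.map D.subtype) = p ^ (n - 1) := by
    rw [Subgroup.card_map_of_injective D.subtype_injective, hB']
  have h1 := Subgroup.relIndex_mul_relIndex ⊥ (B'.map D.subtype) A bot_le
    ((Subgroup.map_subtype_le _).trans hDA)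
  rw [Subgroup.relIndex_bot_left, Subgroup.relIndex_bot_left, hBcard, hn] at h1
  have h2 : p ^ n = p ^ (n - 1) * p := by
    rw [← pow_succ, Nat.sub_add_cancel hn1]
  rw [h2] at h1
  exact Nat.eq_of_mul_eq_mul_left (pow_pos hp.pos _) h1


/-- Let A be a noncyclic elementary abelian p-subgroup of a finite group H normalizing a solvable subgroup K of order prime to p, q a prime dividing |K|, and U ≤ K a subgroup of order prime to q such that ⁅U, C_K(B)⁆ has order prime to q for every subgroup B of index p in A. Then U ≤ O_{q'}(K). -/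
theorem result {H : Type*} [Group H] [Finite H] (p : ℕ) [Fact p.Prime] (A K : Subgroup H) (hA : Cfsg.IsElementaryAbelian p A) (hA2 : p ^ 2 ≤ Nat.card ↥A) (hK : ¬ p ∣ Nat.card ↥K) (hKs : Group.IsSolvable ↥K) (hAK : A ≤ Subgroup.normalizer (K : Set H)) (q : ℕ) [Fact q.Prime] (hqK : q ∣ Nat.card ↥K) (U : Subgroup H) (hU : U ≤ K) (hUq : ¬ q ∣ Nat.card ↥U) (hcomm : ∀ B : Subgroup H, B ≤ A → B.relIndex A = p → ¬ q ∣ Nat.card ↥⁅U, K ⊓ Subgroup.centralizer (B : Set H)⁆) : U ≤ (Cfsg.pPrimeCore q ↥K).map K.subtype := by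
  obtain ⟨hAc, hAp⟩ := hA
  have hp : p.Prime := Fact.out
  have hq : q.Prime := Fact.out
  have hAcomm : ∀ x ∈ A, ∀ y ∈ A, x * y = y * x := by
    intro x hx y hy
    have := hAc.is_comm.comm (⟨x, hx⟩ : A) ⟨y, hy⟩
    exact (show x * y = y * x from congrArg Subtype.val this)
  have hApg : IsPGroup p A := fun g => ⟨1, by
    rw [pow_one]; exact Subtype.ext (by simpa using hAp g g.2)⟩
  obtain ⟨n, hn⟩ := hApg.exists_card_eq
  have hn2 : 2 ≤ n := by
    by_contra h
    have h1 : p ^ n ≤ p ^ 1 := Nat.pow_le_pow_right hp.pos (by omega)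
    have h2 : p ^ 1 < p ^ 2 := Nat.pow_lt_pow_right hp.one_lt (by norm_num)
    rw [hn] at hA2
    omega
  obtain ⟨L, hL⟩ : ∃ L : Subgroup H, L = (Cfsg.pPrimePCore q ↥K).map K.subtype := ⟨_, rfl⟩
  have hLK : L ≤ K := by rw [hL]; exact Subgroup.map_subtype_le _
  have hAL : A ≤ Subgroup.normalizer (L : Set H) := by
    rw [hL]; exact hAK.trans (normalizer_le_normalizer_pPrimePCore_map q K)
  have hcopK : (Nat.card A).Coprime (Nat.card K) := by
    rw [hn]; exact Nat.Coprime.pow_left n ((Nat.Prime.coprime_iff_not_dvd hp).2 hK)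
  have hcopL : (Nat.card A).Coprime (Nat.card L) :=
    Nat.Coprime.coprime_dvd_right (Subgroup.card_dvd_of_le hLK) hcopK
  have hLs : Group.IsSolvable ↥L :=
    Group.isSolvable_of_isSolvable_injective (Subgroup.inclusion_injective hLK)
  obtain ⟨P, hP⟩ := Cfsg.Agent.S0023.result A L hAL hcopL (Or.inr hLs) q
  obtain ⟨R, hR⟩ : ∃ R : Subgroup H, R = (P : Subgroup ↥L).map L.subtype := ⟨_, rfl⟩
  rw [← hR] at hP
  have hRL : R ≤ L := by rw [hR]; exact Subgroup.map_subtype_le _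
  have hRp : ¬ p ∣ Nat.card R :=
    fun h => hK (h.trans (Subgroup.card_dvd_of_le (hRL.trans hLK)))
  have hgen := Cfsg.Agent.Lib.Helper31.CoprimeGen.elementary_generation A R hAcomm hAp hRp hP (n - 1)
    (by rw [Nat.sub_add_cancel (by omega), hn])
  have hOn : (Cfsg.pCore q (↥K ⧸ Cfsg.pPrimeCore q ↥K)).Normal := Fitting.pCore_normal q
  have hOp : IsPGroup q (Cfsg.pCore q (↥K ⧸ Cfsg.pPrimeCore q ↥K)) := Fitting.pCore_isPGroup q
  intro u hu
  have huK : u ∈ K := hU hu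
  obtain ⟨u', hu'⟩ : ∃ u' : ↥K, (u' : H) = u := ⟨⟨u, huK⟩, rfl⟩
  have hcommute : ∀ x : ↥K, (x : H) ∈ R →
      QuotientGroup.mk' (Cfsg.pPrimeCore q ↥K) x * QuotientGroup.mk' (Cfsg.pPrimeCore q ↥K) u' =
      QuotientGroup.mk' (Cfsg.pPrimeCore q ↥K) u' * QuotientGroup.mk' (Cfsg.pPrimeCore q ↥K) x := by
    let Z : Subgroup H :=
      ((Subgroup.centralizer {QuotientGroup.mk' (Cfsg.pPrimeCore q ↥K) u'}).comap
        (QuotientGroup.mk' (Cfsg.pPrimeCore q ↥K))).map K.subtype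
    have hRZ : R ≤ Z := by
      refine hgen.trans (iSup_le ?_)
      rintro ⟨D, hDA, hDcard⟩
      obtain ⟨B, hBD, hBA, hBidx⟩ := exists_hyperplane_le p A D hApg n hn (by omega) hDA hDcard
      have hq' := hcomm B hBA hBidx
      intro x hx
      obtain ⟨hxR, hxC⟩ := Subgroup.mem_inf.1 hx
      have hxL : x ∈ L := hRL hxR
      have hxK : x ∈ K := hLK hxL
      have hxB : x ∈ K ⊓ Subgroup.centralizer (B : Set H) :=
        ⟨hxK, Subgroup.centralizer_le (SetLike.coe_subset_coe.2 hBD) hxC⟩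
      have hc : ⁅u, x⁆ ∈ ⁅U, K ⊓ Subgroup.centralizer (B : Set H)⁆ :=
        Subgroup.commutator_mem_commutator hu hxB
      obtain ⟨x', hx'⟩ : ∃ x' : ↥K, (x' : H) = x := ⟨⟨x, hxK⟩, rfl⟩
      refine ⟨x', ?_, hx'⟩
      rw [SetLike.mem_coe, Subgroup.mem_comap, Subgroup.mem_centralizer_singleton_iff]
      have hx'L : x' ∈ Cfsg.pPrimePCore q ↥K := by
        rw [hL] at hxL
        obtain ⟨y, hy, hyx⟩ := hxL
        have : y = x' := Subtype.ext (hyx.trans hx'.symm)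
        rwa [this] at hy
      have hπx : QuotientGroup.mk' (Cfsg.pPrimeCore q ↥K) x' ∈
          Cfsg.pCore q (↥K ⧸ Cfsg.pPrimeCore q ↥K) := hx'L
      have hcq : ⁅QuotientGroup.mk' (Cfsg.pPrimeCore q ↥K) u',
          QuotientGroup.mk' (Cfsg.pPrimeCore q ↥K) x'⁆ ∈ Cfsg.pCore q (↥K ⧸ Cfsg.pPrimeCore q ↥K) := by
        rw [commutatorElement_def]
        exact mul_mem (hOn.conj_mem _ hπx _) (inv_mem hπx)
      obtain ⟨k, hk⟩ := hOp ⟨_, hcq⟩
      have hk' : ⁅QuotientGroup.mk' (Cfsg.pPrimeCore q ↥K) u',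
          QuotientGroup.mk' (Cfsg.pPrimeCore q ↥K) x'⁆ ^ (q ^ k) = 1 := congrArg Subtype.val hk
      have hm : ⁅QuotientGroup.mk' (Cfsg.pPrimeCore q ↥K) u',
          QuotientGroup.mk' (Cfsg.pPrimeCore q ↥K) x'⁆ ^
            Nat.card ↥⁅U, K ⊓ Subgroup.centralizer (B : Set H)⁆ = 1 := by
        have h1 : (⁅u, x⁆ : H) ^ Nat.card ↥⁅U, K ⊓ Subgroup.centralizer (B : Set H)⁆ = 1 := by
          have := pow_card_eq_one' (G := ↥⁅U, K ⊓ Subgroup.centralizer (B : Set H)⁆) (x := ⟨_, hc⟩)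
          exact congrArg Subtype.val this
        have h2 : (⁅u', x'⁆ : ↥K) ^ Nat.card ↥⁅U, K ⊓ Subgroup.centralizer (B : Set H)⁆ = 1 := by
          apply Subtype.ext
          rw [Subgroup.coe_pow, Subgroup.coe_one, ← h1, ← hu', ← hx']
          rfl
        rw [← map_commutatorElement, ← map_pow, h2, map_one]
      have hcop : (Nat.card ↥⁅U, K ⊓ Subgroup.centralizer (B : Set H)⁆).Coprime q :=
        Nat.Coprime.symm ((Nat.Prime.coprime_iff_not_dvd hq).2 hq')
      have h1 := eq_one_of_pow_of_coprime hk' hm hcop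
      exact (commutatorElement_eq_one_iff_commute.1 h1).eq.symm
    intro x hxR
    obtain ⟨x2, hx2, hx2eq⟩ := hRZ hxR
    have : x2 = x := Subtype.ext hx2eq
    rw [this, SetLike.mem_coe, Subgroup.mem_comap, Subgroup.mem_centralizer_singleton_iff] at hx2
    exact hx2
  have hcent : QuotientGroup.mk' (Cfsg.pPrimeCore q ↥K) u' ∈
      Subgroup.centralizer ((Cfsg.pCore q (↥K ⧸ Cfsg.pPrimeCore q ↥K) : Subgroup _) : Set _) := by
    rw [Subgroup.mem_centralizer_iff]
    intro z hz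
    obtain ⟨x, hxR, hxz⟩ := exists_mem_sylow_of_mem_pCore q K L hL P z hz
    rw [← hR] at hxR
    rw [← hxz]
    exact hcommute x hxR
  have hle := Cfsg.Agent.Lib.Helper55.SolvCore.centralizer_le_of_solvable q
    (inferInstance : Group.IsSolvable (↥K ⧸ Cfsg.pPrimeCore q ↥K))
    (fun M hMn hMc => Cfsg.Agent.Lib.Helper55.SolvCore.quotient_pPrimeCore_core_trivial q M hMn hMc)
    (Cfsg.pCore q (↥K ⧸ Cfsg.pPrimeCore q ↥K)) (fun M hMn hMp => Fitting.le_pCore hMn hMp)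
  obtain ⟨k, hk⟩ := hOp ⟨_, hle hcent⟩
  have hk' : (QuotientGroup.mk' (Cfsg.pPrimeCore q ↥K) u') ^ (q ^ k) = 1 := congrArg Subtype.val hk
  have hm : (QuotientGroup.mk' (Cfsg.pPrimeCore q ↥K) u') ^ Nat.card U = 1 := by
    have h1 : u ^ Nat.card U = 1 := by
      have := pow_card_eq_one' (G := ↥U) (x := ⟨u, hu⟩)
      exact congrArg Subtype.val this
    have h2 : u' ^ Nat.card U = 1 := by
      apply Subtype.ext
      rw [Subgroup.coe_pow, hu', h1]; rfl
    rw [← map_pow, h2, map_one]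
  have hcop : (Nat.card U).Coprime q := Nat.Coprime.symm ((Nat.Prime.coprime_iff_not_dvd hq).2 hUq)
  have h1 := eq_one_of_pow_of_coprime hk' hm hcop
  exact ⟨u', (QuotientGroup.eq_one_iff u').1 h1, hu'⟩

end Cfsg.Agent.S1288
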