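import Cfsg.Statements.S1289
import Cfsg.Agent.Lib.Helper22.PComp

set_option autoImplicit false
open Cfsg

namespace Cfsg.Agent.S1289

open Cfsg.Agent.Lib.Helper22.PComp Cfsg.Agent.Lib.Helper21 Cfsg.Agent.Lib.Helper23.Cores

/-- A p-component K of the finite group X is subnormal, perfect, of order divisible by p, and minimal among the subnormal perfect subgroups of X of order divisible by p. -/
theorem result {X : Type*} [Group X] [Finite X] (p : ℕ) [Fact p.Prime] (K : Subgroup X) (hK : Cfsg.IsPComponent p K) : K.IsSubnormal ∧ ⁅K, K⁆ = K ∧ p ∣ Nat.card ↥K ∧ ∀ H : Subgroup X, H ≤ K → H.IsSubnormal → ⁅H, H⁆ = H → p ∣ Nat.card ↥H → H = K := by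
  refine ⟨hK.1, isPComponent_commutator_self p hK, isPComponent_dvd_card p hK, ?_⟩
  intro H hHK hHs hHperf hpH
  have hπ := QuotientGroup.mk'_surjective (Cfsg.pPrimeCore p X)
  have hle : H.map (QuotientGroup.mk' (Cfsg.pPrimeCore p X)) ≤
      K.map (QuotientGroup.mk' (Cfsg.pPrimeCore p X)) := Subgroup.map_mono hHK
  have hsub : ((H.map (QuotientGroup.mk' (Cfsg.pPrimeCore p X))).subgroupOf
      (K.map (QuotientGroup.mk' (Cfsg.pPrimeCore p X)))).IsSubnormal := (hHs.map hπ).subgroupOf
  rcases Quasi.subnormal_eq_top_or_le_center hK.2.1.2 _ hsub with h | h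
  · apply hK.2.2 H hHs hHK
    exact le_antisymm hle (Subgroup.subgroupOf_eq_top.1 h)
  · exfalso
    have hcomm : ⁅H.map (QuotientGroup.mk' (Cfsg.pPrimeCore p X)),
        H.map (QuotientGroup.mk' (Cfsg.pPrimeCore p X))⁆ = ⊥ := by
      rw [Subgroup.commutator_eq_bot_iff_le_centralizer]
      intro a ha b hb
      have ha' : (⟨a, hle ha⟩ : ↥(K.map (QuotientGroup.mk' (Cfsg.pPrimeCore p X)))) ∈
          Subgroup.center _ := h (by rw [Subgroup.mem_subgroupOf]; exact ha)
      have := Subgroup.mem_center_iff.1 ha' ⟨b, hle hb⟩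
      exact congrArg Subtype.val this
    rw [← Subgroup.map_commutator, hHperf] at hcomm
    have hHO : H ≤ Cfsg.pPrimeCore p X := by
      intro x hx
      have h2 : QuotientGroup.mk' (Cfsg.pPrimeCore p X) x ∈
          H.map (QuotientGroup.mk' (Cfsg.pPrimeCore p X)) := ⟨x, hx, rfl⟩
      rw [hcomm, Subgroup.mem_bot] at h2
      exact (QuotientGroup.eq_one_iff x).1 h2
    have hc : (Nat.card ↥H).Coprime p :=
      Nat.Coprime.coprime_dvd_left (Subgroup.card_dvd_of_le hHO) (pPrimeCore_card_coprime p)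
    have hp : p.Prime := Fact.out
    exact hp.one_lt.ne' (Nat.Coprime.eq_one_of_dvd (Nat.coprime_comm.1 hc) hpH)

end Cfsg.Agent.S1289
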