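import Cfsg.Statements.S1299
import Mathlib
import Cfsg.Agent.Lib.Helper22.SolvSig
import Cfsg.Agent.Lib.Helper22.Balance
import Cfsg.Agent.Lib.Helper31.CoprimeGen

set_option autoImplicit false
open Cfsg

namespace Cfsg.Agent.S1299

open Cfsg.Agent.Lib.Helper22.Balance
open Cfsg.Agent.Lib.Helper22.SolvSig (main_sub)
open Cfsg.Agent.Lib.Helper31.CoprimeGen (card_sup_zpowers_le)

section aux

variable {G : Type*} [Group G]

/-- `X(E₀)`: generated by the `Δ(D)`, `E₀ ≤ D ≤ A`, `|D| = p^k`. -/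
def XX (p k : ℕ) (A E₀ : Subgroup G) : Subgroup G :=
  ⨆ D : {D : Subgroup G // E₀ ≤ D ∧ D ≤ A ∧ Nat.card D = p ^ k},
    signalizerDelta p (D : Subgroup G)

/-- The functor of the statement. -/
def TH (p k : ℕ) (A : Subgroup G) (a : G) : Subgroup G :=
  ⨆ D : {D : Subgroup G // D ≤ A ∧ Nat.card ↥D = p ^ k},
    Cfsg.signalizerDelta p (D : Subgroup G) ⊓ Subgroup.centralizer {a}

theorem delta_le_core (p : ℕ) (D : Subgroup G) {d : G} (hd : d ∈ D) (hd1 : d ≠ 1) :
    signalizerDelta p D ≤ centralizerPPrimeCore p d :=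
  iInf_le (fun a : {a : G // a ∈ D ∧ a ≠ 1} => centralizerPPrimeCore p (a : G)) ⟨d, hd, hd1⟩

theorem delta_le_cent (p : ℕ) (D : Subgroup G) {d : G} (hd : d ∈ D) :
    signalizerDelta p D ≤ Subgroup.centralizer {d} := by
  by_cases hd1 : d = 1
  · subst hd1
    intro x _
    exact Subgroup.mem_centralizer_singleton_iff.mpr (by simp)
  · exact (delta_le_core p D hd hd1).trans (centralizerPPrimeCore_le p d)

theorem delta_conj (p : ℕ) (D : Subgroup G) {b x : G} (hb : ∀ d ∈ D, b * d = d * b)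
    (hx : x ∈ signalizerDelta p D) : b * x * b⁻¹ ∈ signalizerDelta p D := by
  unfold signalizerDelta at hx ⊢
  rw [Subgroup.mem_iInf] at hx ⊢
  intro d
  exact conj_mem_centralizerPPrimeCore p
    (Subgroup.mem_centralizer_singleton_iff.mpr (hb d.1 d.2.1)) (hx d)

theorem delta_up [Finite G] (p k : ℕ) [Fact p.Prime] (hbal : IsKBalanced p k G)
    (A : Subgroup G) (hcomm : ∀ a ∈ A, ∀ b ∈ A, a * b = b * a) (hAp : ∀ a ∈ A, a ^ p = 1)
    (D : Subgroup G) (hDA : D ≤ A) (hD : Nat.card D = p ^ k) (D' : Subgroup G) (hD'A : D' ≤ A)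
    {x : G} (hx : x ∈ signalizerDelta p D) (hxD' : D' ≤ Subgroup.centralizer {x}) :
    x ∈ signalizerDelta p D' := by
  have hp : p.Prime := Fact.out
  have hDel : IsElementaryAbelian p D :=
    ⟨⟨⟨fun a b => Subtype.ext (hcomm a (hDA a.2) b (hDA b.2))⟩⟩, fun a ha => hAp a (hDA ha)⟩
  unfold signalizerDelta
  rw [Subgroup.mem_iInf]
  rintro ⟨d', hd', hd'1⟩
  have hord : orderOf d' = p := orderOf_eq_prime (hAp d' (hD'A hd')) hd'1
  refine hbal D hDel hD d' hord (fun a ha => hcomm a (hDA ha) d' (hD'A hd')) ⟨hx, ?_⟩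
  have h1 := Subgroup.mem_centralizer_singleton_iff.mp (hxD' hd')
  exact Subgroup.mem_centralizer_singleton_iff.mpr h1.symm

theorem exists_between [Finite G] (p k : ℕ) [Fact p.Prime] (T : Subgroup G)
    (hTp : ∀ t ∈ T, t ^ p = 1) (hT : p ^ k ≤ Nat.card T) (E₁ : Subgroup G) (hE₁T : E₁ ≤ T)
    (hE₁ : Nat.card E₁ ≤ p ^ k) :
    ∃ D' : Subgroup G, E₁ ≤ D' ∧ D' ≤ T ∧ Nat.card D' = p ^ k := by
  have hp : p.Prime := Fact.out
  have hTP : IsPGroup p ↥T := fun t => ⟨1, Subtype.ext (by simpa using hTp t t.2)⟩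
  obtain ⟨t, ht⟩ := IsPGroup.iff_card.mp hTP
  have hkt : k ≤ t := by
    rw [ht] at hT
    exact (Nat.pow_le_pow_iff_right hp.one_lt).mp hT
  have hdvd : p ^ k ∣ Nat.card ↥T := by rw [ht]; exact pow_dvd_pow p hkt
  have hHP : IsPGroup p ↥(E₁.subgroupOf T) := hTP.to_subgroup _
  obtain ⟨n, hn⟩ := IsPGroup.iff_card.mp hHP
  have hcardH : Nat.card ↥(E₁.subgroupOf T) = Nat.card E₁ :=
    Nat.card_congr (Subgroup.subgroupOfEquivOfLe hE₁T).toEquiv
  have hnk : n ≤ k := by
    rw [← hcardH, hn] at hE₁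
    exact (Nat.pow_le_pow_iff_right hp.one_lt).mp hE₁
  obtain ⟨K, hK, hHK⟩ :=
    Sylow.exists_subgroup_card_pow_prime_le p hdvd (E₁.subgroupOf T) hn hnk
  refine ⟨K.map T.subtype, ?_, Subgroup.map_subtype_le K, ?_⟩
  · rw [← Subgroup.map_subgroupOf_eq_of_le hE₁T]
    exact Subgroup.map_mono hHK
  · rw [Subgroup.card_map_of_injective T.subtype_injective, hK]

theorem XX_anti (p k : ℕ) (A : Subgroup G) {E₀ E₁ : Subgroup G} (h : E₀ ≤ E₁) :
    XX p k A E₁ ≤ XX p k A E₀ :=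
  iSup_le fun D => le_iSup (fun D : {D : Subgroup G // E₀ ≤ D ∧ D ≤ A ∧ Nat.card D = p ^ k} =>
    signalizerDelta p (D : Subgroup G)) ⟨D.1, h.trans D.2.1, D.2.2⟩

theorem delta_le_XX (p k : ℕ) (A E₀ D : Subgroup G) (h1 : E₀ ≤ D) (h2 : D ≤ A)
    (h3 : Nat.card D = p ^ k) : signalizerDelta p D ≤ XX p k A E₀ :=
  le_iSup (fun D : {D : Subgroup G // E₀ ≤ D ∧ D ≤ A ∧ Nat.card D = p ^ k} =>
    signalizerDelta p (D : Subgroup G)) ⟨D, h1, h2, h3⟩

theorem XX_le_cent (p k : ℕ) (A E₀ : Subgroup G) {e : G} (he : e ∈ E₀) :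
    XX p k A E₀ ≤ Subgroup.centralizer {e} :=
  iSup_le fun D => delta_le_cent p D.1 (D.2.1 he)

theorem XX_le_core (p k : ℕ) (A E₀ : Subgroup G) {e : G} (he : e ∈ E₀) (he1 : e ≠ 1) :
    XX p k A E₀ ≤ centralizerPPrimeCore p e :=
  iSup_le fun D => delta_le_core p D.1 (D.2.1 he) he1

theorem XX_conj (p k : ℕ) (A E₀ : Subgroup G) (hcomm : ∀ a ∈ A, ∀ b ∈ A, a * b = b * a)
    {b x : G} (hb : b ∈ A) (hx : x ∈ XX p k A E₀) : b * x * b⁻¹ ∈ XX p k A E₀ := by
  have h : XX p k A E₀ ≤ (XX p k A E₀).comap (MulAut.conj b).toMonoidHom :=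
    iSup_le fun D => fun y hy => Subgroup.mem_comap.mpr
      (delta_le_XX p k A E₀ D.1 D.2.1 D.2.2.1 D.2.2.2
        (delta_conj p D.1 (fun d hd => hcomm b hb d (D.2.2.1 hd)) hy))
  exact h hx

theorem XX_top [Finite G] (p k : ℕ) (A E₀ : Subgroup G) (hE₀ : Nat.card E₀ = p ^ k) :
    XX p k A E₀ ≤ signalizerDelta p E₀ := by
  refine iSup_le fun D => ?_
  have h : E₀ = D.1 := Subgroup.eq_of_le_of_card_ge D.2.1 (by rw [hE₀, D.2.2.2])
  rw [← h]

theorem L_up [Finite G] (p k : ℕ) [Fact p.Prime] (hbal : IsKBalanced p k G) (A : Subgroup G)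
    (hcomm : ∀ a ∈ A, ∀ b ∈ A, a * b = b * a) (hAp : ∀ a ∈ A, a ^ p = 1)
    (D : Subgroup G) (hDA : D ≤ A) (hD : Nat.card D = p ^ k) {x : G}
    (hx : x ∈ signalizerDelta p D) (T : Subgroup G) (hTA : T ≤ A)
    (hxT : T ≤ Subgroup.centralizer {x}) (hT : p ^ k ≤ Nat.card T) (E₁ : Subgroup G)
    (hE₁T : E₁ ≤ T) (hE₁ : Nat.card E₁ ≤ p ^ k) : x ∈ XX p k A E₁ := by
  obtain ⟨D', h1, h2, h3⟩ := exists_between p k T (fun t ht => hAp t (hTA ht)) hT E₁ hE₁T hE₁
  exact delta_le_XX p k A E₁ D' h1 (h2.trans hTA) h3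
    (delta_up p k hbal A hcomm hAp D hDA hD D' (h2.trans hTA) hx (h2.trans hxT))

theorem sup_le_cent (p : ℕ) (D : Subgroup G) (f x : G) (hx1 : x ∈ signalizerDelta p D)
    (hx2 : x ∈ Subgroup.centralizer {f}) :
    D ⊔ Subgroup.zpowers f ≤ Subgroup.centralizer {x} := by
  refine sup_le (fun e he => ?_) ?_
  · have h := delta_le_cent p D he hx1
    exact Subgroup.mem_centralizer_singleton_iff.mpr
      (Subgroup.mem_centralizer_singleton_iff.mp h).symm
  · rw [Subgroup.zpowers_le]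
    exact Subgroup.mem_centralizer_singleton_iff.mpr
      (Subgroup.mem_centralizer_singleton_iff.mp hx2).symm

theorem P_all [Finite G] (p k : ℕ) [Fact p.Prime] (hbal : IsKBalanced p k G) (A : Subgroup G)
    (hcomm : ∀ a ∈ A, ∀ b ∈ A, a * b = b * a) (hAp : ∀ a ∈ A, a ^ p = 1)
    (hAk : p ^ (k + 2) ≤ Nat.card ↥A)
    (hsolv : ∀ a ∈ A, a ≠ 1 → Group.IsSolvable ↥(centralizerPPrimeCore p a)) :
    ∀ n : ℕ, ∀ E₀ : Subgroup G, E₀ ≤ A → E₀ ≠ ⊥ → Nat.card E₀ ≤ p ^ k →
      p ^ k - Nat.card E₀ < n →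
      ∀ f ∈ A, ∀ E₁ : Subgroup G, E₁ ≤ E₀ ⊔ Subgroup.zpowers f → Nat.card E₁ ≤ p ^ k →
        XX p k A E₀ ⊓ Subgroup.centralizer {f} ≤ XX p k A E₁ := by
  have hp : p.Prime := Fact.out
  intro n
  induction n with
  | zero => intro E₀ _ _ _ h; exact absurd h (Nat.not_lt_zero _)
  | succ n ih =>
    intro E₀ hE₀A hE₀0 hE₀k hn f hf E₁ hE₁ hE₁k
    have hfA : Subgroup.zpowers f ≤ A := by rw [Subgroup.zpowers_le]; exact hf
    have hTA : E₀ ⊔ Subgroup.zpowers f ≤ A := sup_le hE₀A hfA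
    by_cases hcard : Nat.card E₀ = p ^ k
    · rintro x ⟨hx1, hx2⟩
      have hxΔ : x ∈ signalizerDelta p E₀ := XX_top p k A E₀ hcard hx1
      have hxT := sup_le_cent p E₀ f x hxΔ hx2
      exact L_up p k hbal A hcomm hAp E₀ hE₀A hcard hxΔ (E₀ ⊔ Subgroup.zpowers f) hTA hxT
        (hcard ▸ Subgroup.card_le_of_le le_sup_left) E₁ hE₁ hE₁k
    · have hlt : Nat.card E₀ < p ^ k := lt_of_le_of_ne hE₀k hcard
      by_cases hfE : f ∈ E₀
      · have hle : E₁ ≤ E₀ :=
          hE₁.trans (sup_le le_rfl (by rw [Subgroup.zpowers_le]; exact hfE))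
        exact inf_le_left.trans (XX_anti p k A hle)
      · have hE₀P : IsPGroup p ↥E₀ :=
          fun t => ⟨1, Subtype.ext (by simpa using hAp t (hE₀A t.2))⟩
        obtain ⟨m, hm⟩ := IsPGroup.iff_card.mp hE₀P
        have hmk : m < k := by
          rw [hm] at hlt
          exact (Nat.pow_lt_pow_iff_right hp.one_lt).mp hlt
        have hpm : p ^ (m + 1) ≤ p ^ k := Nat.pow_le_pow_right hp.pos hmk
        have hcard_sup : ∀ e ∈ A, e ∉ E₀ →
            Nat.card ↥(E₀ ⊔ Subgroup.zpowers e) ≤ p ^ k ∧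
              Nat.card E₀ < Nat.card ↥(E₀ ⊔ Subgroup.zpowers e) := by
          intro e he heE
          constructor
          · have h1 := card_sup_zpowers_le E₀ e p hp.pos (hAp e he)
              (fun d hd => hcomm d (hE₀A hd) e he)
            rw [hm] at h1
            calc Nat.card ↥(E₀ ⊔ Subgroup.zpowers e) ≤ p ^ m * p := h1
              _ = p ^ (m + 1) := (pow_succ p m).symm
              _ ≤ p ^ k := hpm
          · refine lt_of_le_of_ne (Subgroup.card_le_of_le le_sup_left) (fun h => heE ?_)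
            have h2 : E₀ = E₀ ⊔ Subgroup.zpowers e :=
              Subgroup.eq_of_le_of_card_ge le_sup_left h.ge
            rw [h2]
            exact (le_sup_right : Subgroup.zpowers e ≤ E₀ ⊔ Subgroup.zpowers e)
              (Subgroup.mem_zpowers e)
        obtain ⟨e₀, he₀, he₀1⟩ : ∃ e₀ ∈ E₀, e₀ ≠ 1 := by
          obtain ⟨⟨e, he⟩, h1⟩ := Subgroup.ne_bot_iff_exists_ne_one.mp hE₀0
          exact ⟨e, he, fun h => h1 (Subtype.ext h)⟩
        have hWle : XX p k A E₀ ≤ centralizerPPrimeCore p e₀ := XX_le_core p k A E₀ he₀ he₀1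
        have hWsolv : Group.IsSolvable ↥(XX p k A E₀) :=
          have := hsolv e₀ (hE₀A he₀) he₀1
          Group.isSolvable_of_isSolvable_injective (Subgroup.inclusion_injective hWle)
        have hWp : ¬ p ∣ Nat.card ↥(XX p k A E₀) := by
          intro hd
          have h1 := centralizerPPrimeCore_card_coprime (G := G) p e₀
          have h2 := hd.trans (Subgroup.card_dvd_of_le hWle)
          exact hp.one_lt.ne' (Nat.Coprime.eq_one_of_dvd (Nat.coprime_comm.1 h1) h2)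
        have hE3 : p ^ 3 * Nat.card E₀ ≤ Nat.card A := by
          rw [hm]
          calc p ^ 3 * p ^ m = p ^ (m + 1 + 2) := by ring
            _ ≤ p ^ (k + 2) := Nat.pow_le_pow_right hp.pos (by omega)
            _ ≤ Nat.card A := hAk
        have key := main_sub A hcomm hAp E₀ hE3 hE₀A
          (fun e => XX p k A (E₀ ⊔ Subgroup.zpowers e))
          (fun a ha haE => XX_le_cent p k A _
            ((le_sup_right : Subgroup.zpowers a ≤ E₀ ⊔ Subgroup.zpowers a)
              (Subgroup.mem_zpowers a)))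
          (fun a ha haE b hb x hx => XX_conj p k A _ hcomm hb hx)
          (fun a ha haE b hb hbE => by
            have h1 := hcard_sup a ha haE
            have h2 := hcard_sup b hb hbE
            exact ih (E₀ ⊔ Subgroup.zpowers a)
              (sup_le hE₀A (by rw [Subgroup.zpowers_le]; exact ha))
              (fun h => hE₀0 (eq_bot_iff.mpr (h ▸ le_sup_left))) h1.1 (by omega) b hb
              (E₀ ⊔ Subgroup.zpowers b)
              (sup_le (le_sup_left.trans le_sup_left) le_sup_right) h2.1)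
          (XX p k A E₀) (fun a ha haE => XX_anti p k A le_sup_left) hWsolv hWp f hf hfE
        have hsup : XX p k A E₀ ≤
            ⨆ e : {e : G // e ∈ A ∧ e ∉ E₀}, XX p k A (E₀ ⊔ Subgroup.zpowers (e : G)) := by
          refine iSup_le fun D => ?_
          have hlt' : E₀ < D.1 := lt_of_le_of_ne D.2.1 (fun h => by
            have h3 := D.2.2.2
            rw [← h] at h3
            exact hcard h3)
          obtain ⟨e, heD, heE⟩ := SetLike.exists_of_lt hlt'
          refine le_trans ?_ (le_iSup (fun e : {e : G // e ∈ A ∧ e ∉ E₀} =>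
            XX p k A (E₀ ⊔ Subgroup.zpowers (e : G))) ⟨e, D.2.2.1 heD, heE⟩)
          exact delta_le_XX p k A _ D.1
            (sup_le D.2.1 (by rw [Subgroup.zpowers_le]; exact heD)) D.2.2.1 D.2.2.2
        exact (inf_le_inf_right _ hsup).trans (key.trans (XX_anti p k A hE₁))

end aux


/-- Let G be finite and k-balanced for the prime p (k ≥ 1), A an elementary abelian p-subgroup of order at least p^(k+2) such that O_{p'}(C_G(a)) is solvable for every non-identity a ∈ A. For a ∈ A put θ a = the subgroup generated by the Δ_G(D) ∩ C_G(a) over the subgroups D ≤ A of order p^k. Then θ is an A-signalizer functor. -/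
theorem result {G : Type*} [Group G] [Finite G] (p k : ℕ) [Fact p.Prime] (hk : 1 ≤ k) (hbal : Cfsg.IsKBalanced p k G) (A : Subgroup G) (hA : Cfsg.IsElementaryAbelian p A) (hAk : p ^ (k + 2) ≤ Nat.card ↥A) (hsolv : ∀ a ∈ A, a ≠ 1 → Group.IsSolvable ↥(Cfsg.centralizerPPrimeCore p a)) : Cfsg.IsSignalizerFunctor p A (fun a => ⨆ D : {D : Subgroup G // D ≤ A ∧ Nat.card ↥D = p ^ k}, Cfsg.signalizerDelta p (D : Subgroup G) ⊓ Subgroup.centralizer {a}) := by
  have hp : p.Prime := Fact.out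
  obtain ⟨hAc, hAp⟩ := hA
  have hcomm : ∀ a ∈ A, ∀ b ∈ A, a * b = b * a := by
    intro a ha b hb
    have h := hAc.is_comm.comm (⟨a, ha⟩ : A) ⟨b, hb⟩
    exact (show a * b = b * a from congrArg Subtype.val h)
  show Cfsg.IsSignalizerFunctor p A (TH p k A)
  have hθcore : ∀ a ∈ A, a ≠ 1 → TH p k A a ≤ centralizerPPrimeCore p a := by
    intro a ha ha1
    refine iSup_le fun D => ?_
    have hDel : IsElementaryAbelian p D.1 :=
      ⟨⟨⟨fun x y => Subtype.ext (hcomm x (D.2.1 x.2) y (D.2.1 y.2))⟩⟩,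
        fun x hx => hAp x (D.2.1 hx)⟩
    exact hbal D.1 hDel D.2.2 a (orderOf_eq_prime (hAp a ha) ha1)
      (fun d hd => hcomm d (D.2.1 hd) a ha)
  have hcarda : ∀ a ∈ A, a ≠ 1 → Nat.card (Subgroup.zpowers a) ≤ p ^ k := by
    intro a ha ha1
    rw [Nat.card_zpowers, orderOf_eq_prime (hAp a ha) ha1]
    calc p = p ^ 1 := (pow_one p).symm
      _ ≤ p ^ k := Nat.pow_le_pow_right hp.pos hk
  have hθX : ∀ a ∈ A, a ≠ 1 → TH p k A a ≤ XX p k A (Subgroup.zpowers a) := by
    intro a ha ha1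
    refine iSup_le fun D => ?_
    rintro x ⟨hx1, hx2⟩
    have hxT := sup_le_cent p D.1 a x hx1 hx2
    exact L_up p k hbal A hcomm hAp D.1 D.2.1 D.2.2 hx1 (D.1 ⊔ Subgroup.zpowers a)
      (sup_le D.2.1 (by rw [Subgroup.zpowers_le]; exact ha)) hxT
      (le_of_eq_of_le D.2.2.symm (Subgroup.card_le_of_le le_sup_left)) (Subgroup.zpowers a) le_sup_right
      (hcarda a ha ha1)
  have hXθ : ∀ a ∈ A, XX p k A (Subgroup.zpowers a) ≤ TH p k A a := by
    intro a ha
    refine iSup_le fun D => ?_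
    refine le_trans ?_ (le_iSup (fun D : {D : Subgroup G // D ≤ A ∧ Nat.card ↥D = p ^ k} =>
      Cfsg.signalizerDelta p (D : Subgroup G) ⊓ Subgroup.centralizer {a})
      ⟨D.1, D.2.2.1, D.2.2.2⟩)
    exact le_inf le_rfl (delta_le_cent p D.1 (D.2.1 (Subgroup.mem_zpowers a)))
  refine ⟨?_, ?_, ?_, ?_⟩
  · intro a ha ha1
    exact iSup_le fun D => inf_le_right
  · intro a ha ha1 hd
    have h1 := centralizerPPrimeCore_card_coprime (G := G) p a
    have h2 := hd.trans (Subgroup.card_dvd_of_le (hθcore a ha ha1))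
    exact hp.one_lt.ne' (Nat.Coprime.eq_one_of_dvd (Nat.coprime_comm.1 h1) h2)
  · intro a ha ha1 b hb x hx
    have h : TH p k A a ≤ (TH p k A a).comap (MulAut.conj b).toMonoidHom := by
      refine iSup_le fun D => fun y hy => Subgroup.mem_comap.mpr ?_
      refine (le_iSup (fun D : {D : Subgroup G // D ≤ A ∧ Nat.card ↥D = p ^ k} =>
        Cfsg.signalizerDelta p (D : Subgroup G) ⊓ Subgroup.centralizer {a}) D) ?_
      refine ⟨delta_conj p D.1 (fun d hd => hcomm b hb d (D.2.1 hd)) hy.1, ?_⟩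
      have hya : Commute y a := Subgroup.mem_centralizer_singleton_iff.mp hy.2
      have hba : Commute b a := hcomm b hb a ha
      exact Subgroup.mem_centralizer_singleton_iff.mpr
        ((hba.mul_left hya).mul_left hba.inv_left).eq
    exact h hx
  · intro a ha ha1 b hb hb1
    have ha0 : Subgroup.zpowers a ≠ ⊥ := by
      intro h
      exact ha1 (Subgroup.zpowers_eq_bot.mp h)
    have hP := P_all p k hbal A hcomm hAp hAk hsolv (p ^ k + 1) (Subgroup.zpowers a)
      (by rw [Subgroup.zpowers_le]; exact ha) ha0 (hcarda a ha ha1) (by omega) b hb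
      (Subgroup.zpowers b) le_sup_right (hcarda b hb hb1)
    exact (inf_le_inf_right _ (hθX a ha ha1)).trans (hP.trans (hXθ b hb))

end Cfsg.Agent.S1299
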