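-- Statement S1300.
import Cfsg.Statements.S1300
import Mathlib

set_option autoImplicit false
open Cfsg

namespace Cfsg.Agent.S1300

theorem core_le_centralizer {G : Type*} [Group G] (x : G) :
    Cfsg.centralizerPPrimeCore 2 x ≤ Subgroup.centralizer {x} := by
  unfold Cfsg.centralizerPPrimeCore
  intro g hg
  obtain ⟨y, _, rfl⟩ := hg
  exact y.2

/-- For a finite group G, balance in the sense of commuting involutions is the same as 1-balance for the prime 2. -/
theorem result {G : Type*} [Group G] [Finite G] : Cfsg.IsBalanced G ↔ Cfsg.IsKBalanced 2 1 G := by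
  constructor
  · intro hbal A hA hcard b hb hcomm
    -- pick a nonidentity element of A
    have hA2 : Nat.card A = 2 := by simpa using hcard
    have : ∃ a : A, a ≠ 1 := by
      by_contra hcon
      push Not at hcon
      have hsub : Subsingleton A := ⟨fun u v => by rw [hcon u, hcon v]⟩
      have : Nat.card A = 1 := Nat.card_unique
      omega
    obtain ⟨⟨a, haA⟩, ha1⟩ := this
    have ha1' : a ≠ 1 := fun h => ha1 (Subtype.ext h)
    have ha2 : a ^ 2 = 1 := hA.2 a haA
    have hoa : orderOf a = 2 := orderOf_eq_prime ha2 ha1'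
    have hle : Cfsg.signalizerDelta 2 A ≤ Cfsg.centralizerPPrimeCore 2 a := by
      unfold Cfsg.signalizerDelta
      exact iInf_le (fun a : {a : G // a ∈ A ∧ a ≠ 1} => Cfsg.centralizerPPrimeCore 2 (a : G)) ⟨a, haA, ha1'⟩
    have heq := hbal a b hoa hb (hcomm a haA)
    calc Cfsg.signalizerDelta 2 A ⊓ Subgroup.centralizer {b}
        ≤ Cfsg.centralizerPPrimeCore 2 a ⊓ Subgroup.centralizer {b} := inf_le_inf_right _ hle
      _ = Cfsg.centralizerPPrimeCore 2 b ⊓ Subgroup.centralizer {a} := heq
      _ ≤ Cfsg.centralizerPPrimeCore 2 b := inf_le_left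
  · intro hk
    have key : ∀ x y : G, orderOf x = 2 → orderOf y = 2 → x * y = y * x →
        Cfsg.centralizerPPrimeCore 2 x ⊓ Subgroup.centralizer {y} ≤
          Cfsg.centralizerPPrimeCore 2 y ⊓ Subgroup.centralizer {x} := by
      intro x y hx hy hxy
      have hx2 : x ^ 2 = 1 := by rw [← hx]; exact pow_orderOf_eq_one x
      have hmem : ∀ a ∈ Subgroup.zpowers x, a = 1 ∨ a = x := by
        intro a ha
        obtain ⟨k, rfl⟩ := ha
        rcases Int.even_or_odd' k with ⟨m, rfl | rfl⟩
        · left
          show x ^ (2 * m) = 1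
          rw [zpow_mul, zpow_ofNat, hx2, one_zpow]
        · right
          show x ^ (2 * m + 1) = x
          rw [zpow_add, zpow_mul, zpow_ofNat, hx2, one_zpow, one_mul, zpow_one]
      have hEA : Cfsg.IsElementaryAbelian 2 (Subgroup.zpowers x) := by
        refine ⟨inferInstance, ?_⟩
        intro a ha
        rcases hmem a ha with rfl | rfl
        · simp
        · exact hx2
      have hcard : Nat.card (Subgroup.zpowers x) = 2 ^ 1 := by
        rw [Nat.card_zpowers, hx]; rfl
      have hcomm : ∀ a ∈ Subgroup.zpowers x, a * y = y * a := by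
        intro a ha
        rcases hmem a ha with rfl | rfl
        · simp
        · exact hxy
      have h1 := hk (Subgroup.zpowers x) hEA hcard y hy hcomm
      have hle : Cfsg.centralizerPPrimeCore 2 x ≤ Cfsg.signalizerDelta 2 (Subgroup.zpowers x) := by
        unfold Cfsg.signalizerDelta
        refine le_iInf ?_
        rintro ⟨a, haA, ha1⟩
        rcases hmem a haA with rfl | rfl
        · exact absurd rfl ha1
        · exact le_refl _
      refine le_inf ?_ ?_
      · exact le_trans (inf_le_inf_right _ hle) h1
      · exact le_trans inf_le_left (core_le_centralizer x)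
    intro x y hx hy hxy
    exact le_antisymm (key x y hx hy hxy) (key y x hy hx hxy.symm)

end Cfsg.Agent.S1300
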