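import Cfsg.Statements.S1303
import Cfsg.Agent.Lib.Helper22.PCons
import Cfsg.Agent.S0257

set_option autoImplicit false
open Cfsg

namespace Cfsg.Agent.S1303

open Matrix
open Cfsg.Agent.Lib.Helper21

def A₃ : Matrix (Fin 2) (Fin 2) (ZMod 3) := !![0, -1; 1, 0]

set_option maxRecDepth 1000000 in
theorem d3 : ∀ M : Matrix (Fin 2) (Fin 2) (ZMod 3), M.det = 1 → M * M = 1 → M ≠ 1 → M = -1 := by
  decide

set_option maxRecDepth 1000000 in
theorem d1 : ∀ M : Matrix (Fin 2) (Fin 2) (ZMod 3), M.det = 1 → M ≠ 1 →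
    (M = -1 ∨ M * M = -1 ∨ M * M * M = -1 ∨
      (M.adjugate * (A₃ * M * A₃.adjugate)) * (M.adjugate * (A₃ * M * A₃.adjugate)) = -1) := by
  decide

/-- The element `-1` of `SL(2,3)`. -/
def negOne : Matrix.SpecialLinearGroup (Fin 2) (ZMod 3) := ⟨-1, by decide⟩

/-- An element of order 4 of `SL(2,3)`. -/
def aElt : Matrix.SpecialLinearGroup (Fin 2) (ZMod 3) := ⟨A₃, by decide⟩

/-- An element of order 3 of `SL(2,3)`. -/
def uElt : Matrix.SpecialLinearGroup (Fin 2) (ZMod 3) := ⟨!![1, 1; 0, 1], by decide⟩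

theorem orderOf_negOne : orderOf negOne = 2 := by
  apply orderOf_eq_prime
  · apply Subtype.ext
    rw [pow_two, Matrix.SpecialLinearGroup.coe_mul]
    decide
  · intro h
    have := congrArg Subtype.val h
    revert this
    decide

theorem orderOf_uElt : orderOf uElt = 3 := by
  have : Fact (Nat.Prime 3) := ⟨Nat.prime_three⟩
  apply orderOf_eq_prime
  · apply Subtype.ext
    rw [pow_succ, pow_two, Matrix.SpecialLinearGroup.coe_mul, Matrix.SpecialLinearGroup.coe_mul]
    decide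
  · intro h
    have := congrArg Subtype.val h
    revert this
    decide

/-- Every nontrivial normal subgroup of `SL(2,3)` contains `-1`. -/
theorem negOne_mem_of_normal (N : Subgroup (Matrix.SpecialLinearGroup (Fin 2) (ZMod 3)))
    (hN : N.Normal) (hne : N ≠ ⊥) : negOne ∈ N := by
  obtain ⟨x, hx1⟩ := (Subgroup.ne_bot_iff_exists_ne_one).1 hne
  have hx : (x : Matrix.SpecialLinearGroup (Fin 2) (ZMod 3)) ∈ N := x.2
  have hx1' : (x.1 : Matrix (Fin 2) (Fin 2) (ZMod 3)) ≠ 1 := by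
    intro h
    exact hx1 (Subtype.ext (Subtype.ext h))
  have hy : (x : Matrix.SpecialLinearGroup (Fin 2) (ZMod 3))⁻¹ * (aElt * x * aElt⁻¹) ∈ N :=
    N.mul_mem (N.inv_mem hx) (hN.conj_mem _ hx _)
  rcases d1 x.1.1 x.1.2 hx1' with h | h | h | h
  · have : (x : Matrix.SpecialLinearGroup (Fin 2) (ZMod 3)) = negOne := Subtype.ext h
    rw [← this]; exact hx
  · have : (x : Matrix.SpecialLinearGroup (Fin 2) (ZMod 3)) * x = negOne := Subtype.ext h
    rw [← this]; exact N.mul_mem hx hx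
  · have : (x : Matrix.SpecialLinearGroup (Fin 2) (ZMod 3)) * x * x = negOne := Subtype.ext h
    rw [← this]; exact N.mul_mem (N.mul_mem hx hx) hx
  · have : ((x : Matrix.SpecialLinearGroup (Fin 2) (ZMod 3))⁻¹ * (aElt * x * aElt⁻¹)) *
        ((x : Matrix.SpecialLinearGroup (Fin 2) (ZMod 3))⁻¹ * (aElt * x * aElt⁻¹)) = negOne := by
      apply Subtype.ext
      simp only [Matrix.SpecialLinearGroup.coe_mul, Matrix.SpecialLinearGroup.coe_inv]
      exact h
    rw [← this]; exact N.mul_mem hy hy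

theorem pPrimeCore_eq_bot :
    Cfsg.pPrimeCore 2 (Matrix.SpecialLinearGroup (Fin 2) (ZMod 3)) = ⊥ := by
  rw [eq_bot_iff]
  apply sSup_le
  rintro N ⟨hN, hc⟩
  by_contra hne
  have hne' : N ≠ ⊥ := fun h => hne (h ▸ le_rfl)
  have h1 := negOne_mem_of_normal N hN hne'
  have h2 : 2 ∣ Nat.card N := by
    have h3 := Subgroup.orderOf_dvd_natCard N h1
    rwa [orderOf_negOne] at h3
  have := Nat.Coprime.eq_one_of_dvd (Nat.coprime_comm.1 hc) h2
  omega

theorem sl23_solvable : Group.IsSolvable (Matrix.SpecialLinearGroup (Fin 2) (ZMod 3)) := by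
  have hF : Fintype.card (ZMod 3) = 3 := ZMod.card 3
  obtain ⟨⟨Q, hQn, hQi, ⟨e⟩⟩, -⟩ := Cfsg.Agent.S0257.result hF
  have hQc : Nat.card Q = 2 ^ 3 := by
    rw [Nat.card_congr e.toEquiv, Nat.card_eq_fintype_card, QuaternionGroup.card]
    norm_num
  have hQp : IsPGroup 2 Q := IsPGroup.of_card hQc
  have : Fact (Nat.Prime 2) := ⟨Nat.prime_two⟩
  have hQs : Group.IsSolvable Q := by
    have := hQp.isNilpotent
    infer_instance
  have : Fact (Nat.Prime 3) := ⟨Nat.prime_three⟩
  have hcyc : IsCyclic (Matrix.SpecialLinearGroup (Fin 2) (ZMod 3) ⧸ Q) :=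
    isCyclic_of_prime_card (p := 3) hQi
  have hqs : Group.IsSolvable (Matrix.SpecialLinearGroup (Fin 2) (ZMod 3) ⧸ Q) := by
    let _ := IsCyclic.commGroup (α := Matrix.SpecialLinearGroup (Fin 2) (ZMod 3) ⧸ Q)
    exact Group.isSolvable_of_comm (fun a b => mul_comm a b)
  apply Group.isSolvable_of_ker_le_range Q.subtype (QuotientGroup.mk' Q)
  rw [QuotientGroup.ker_mk', Subgroup.range_subtype]

/-- A finite solvable group has trivial `p`-layer. -/
theorem pLayer_eq_bot_of_isSolvable {X : Type*} [Group X] [Finite X] (p : ℕ)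
    (hs : Group.IsSolvable X) : Cfsg.pLayer p X = ⊥ := by
  rw [eq_bot_iff]
  apply sSup_le
  intro K hK
  exfalso
  have h1 : Group.IsSolvable ↥(K.map (QuotientGroup.mk' (Cfsg.pPrimeCore p X))) := inferInstance
  exact Quasi.not_isSolvable hK.2.1.2 h1


/-- The group X = SL(2, 3): it is 2-constrained, O_{2'}(X) = 1, its centre A = Z(X) contains every involution of X = C_X(A), and X has a subgroup of order 3 (normalized by A) not contained in O_{2'}(X). -/
theorem result : Cfsg.IsPConstrained 2 (Matrix.SpecialLinearGroup (Fin 2) (ZMod 3)) ∧ Cfsg.pPrimeCore 2 (Matrix.SpecialLinearGroup (Fin 2) (ZMod 3)) = ⊥ ∧ (∀ t : Matrix.SpecialLinearGroup (Fin 2) (ZMod 3), orderOf t = 2 → t ∈ Subgroup.center (Matrix.SpecialLinearGroup (Fin 2) (ZMod 3))) ∧ ∃ Q : Subgroup (Matrix.SpecialLinearGroup (Fin 2) (ZMod 3)), Nat.card ↥Q = 3 ∧ ¬ (Q ≤ Cfsg.pPrimeCore 2 (Matrix.SpecialLinearGroup (Fin 2) (ZMod 3))) := by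
  have : Fact (Nat.Prime 2) := ⟨Nat.prime_two⟩
  refine ⟨?_, pPrimeCore_eq_bot, ?_, ?_⟩
  · rw [Cfsg.Agent.Lib.Helper22.PCons.isPConstrained_iff]
    exact pLayer_eq_bot_of_isSolvable 2 sl23_solvable
  · intro t ht
    have ht2 : t * t = 1 := by
      have := pow_orderOf_eq_one t
      rwa [ht, pow_two] at this
    have ht1 : t ≠ 1 := by
      intro h
      rw [h, orderOf_one] at ht
      omega
    have h1 : (t.1 : Matrix (Fin 2) (Fin 2) (ZMod 3)) = -1 := by
      apply d3 t.1 t.2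
      · have := congrArg Subtype.val ht2
        rwa [Matrix.SpecialLinearGroup.coe_mul] at this
      · intro h
        exact ht1 (Subtype.ext h)
    rw [Subgroup.mem_center_iff]
    intro g
    apply Subtype.ext
    rw [Matrix.SpecialLinearGroup.coe_mul, Matrix.SpecialLinearGroup.coe_mul]
    change (g.1 : Matrix (Fin 2) (Fin 2) (ZMod 3)) * t.1 = t.1 * g.1
    rw [h1]
    simp
  · refine ⟨Subgroup.zpowers uElt, ?_, ?_⟩
    · rw [Nat.card_zpowers, orderOf_uElt]
    · rw [pPrimeCore_eq_bot]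
      intro h
      have h1 : uElt = 1 := by
        have := h (Subgroup.mem_zpowers uElt)
        rwa [Subgroup.mem_bot] at this
      have h2 := orderOf_uElt
      rw [h1, orderOf_one] at h2
      omega

end Cfsg.Agent.S1303
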