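-- Statement S1304.
import Cfsg.Statements.S1304
import Mathlib

set_option autoImplicit false
open Cfsg
open scoped commutatorElement

namespace Cfsg.Agent.S1304

/-- Let X be a perfect group and α an automorphism of X with α(x) x⁻¹ central for every x. Then α is the identity. -/
theorem result {X : Type*} [Group X] (hperf : commutator X = ⊤) (α : X ≃* X) (h : ∀ x : X, α x * x⁻¹ ∈ Subgroup.center X) : ∀ x : X, α x = x := by
  have key : ∀ x y : X, α ⁅x, y⁆ = ⁅x, y⁆ := by
    intro x y
    have hx := h x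
    have hy := h y
    rw [Subgroup.mem_center_iff] at hx hy
    have ex : α x = (α x * x⁻¹) * x := by group
    have ey : α y = (α y * y⁻¹) * y := by group
    set zx := α x * x⁻¹ with hzx
    set zy := α y * y⁻¹ with hzy
    simp only [commutatorElement_def, map_mul, map_inv]
    rw [ex, ey]
    have a1 : ∀ g, zx * g = g * zx := fun g => (hx g).symm
    have a2 : ∀ g, zy * g = g * zy := fun g => (hy g).symm
    calc zx * x * (zy * y) * (zx * x)⁻¹ * (zy * y)⁻¹
        = zx * (x * zy * y * x⁻¹) * zx⁻¹ * y⁻¹ * zy⁻¹ := by group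
      _ = (x * zy * y * x⁻¹) * zx * zx⁻¹ * y⁻¹ * zy⁻¹ := by rw [a1]
      _ = x * (zy * (y * x⁻¹ * y⁻¹)) * zy⁻¹ := by group
      _ = x * ((y * x⁻¹ * y⁻¹) * zy) * zy⁻¹ := by rw [a2]
      _ = x * y * x⁻¹ * y⁻¹ := by group
  have hle : commutator X ≤ (α.toMonoidHom.eqLocus (MonoidHom.id X)) := by
    rw [commutator_eq_closure, Subgroup.closure_le]
    rintro g ⟨x, y, rfl⟩
    exact key x y
  intro x
  have hx : x ∈ commutator X := by rw [hperf]; trivial
  exact hle hx

end Cfsg.Agent.S1304
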