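-- Statement S1306.
import Cfsg.Statements.S1306
import Cfsg.Agent.Lib.Helper22.Basic

set_option autoImplicit false
open Cfsg

namespace Cfsg.Agent.S1306

open Subgroup
open Cfsg.Agent.Lib.Helper21
open Cfsg.Agent.Lib.Helper22.Basic

/-- Key step: an involution `y` centralizing `L` with `g⁻¹ y g` centralizing `L` forces `L^g = L`. -/
theorem key {G : Type*} [Group G] [Finite G] (L : Subgroup G)
    (hne : ∀ y : G, orderOf y = 2 → y ∈ Subgroup.centralizer (L : Set G) → L ≤ Subgroup.centralizer ({y} : Set G) ∧ Cfsg.IsComponent (L.subgroupOf (Subgroup.centralizer ({y} : Set G))))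
    (hnc : ∀ g : G, L.map (MulAut.conj g).toMonoidHom ≠ L → ⁅L, L.map (MulAut.conj g).toMonoidHom⁆ ≠ ⊥)
    (g y : G) (hy : orderOf y = 2) (hyL : y ∈ Subgroup.centralizer (L : Set G))
    (hgy : g⁻¹ * y * g ∈ Subgroup.centralizer (L : Set G)) :
    L.map (MulAut.conj g).toMonoidHom = L := by
  by_contra hcon
  have h1 := hne y hy hyL
  have hy' : orderOf (g⁻¹ * y * g) = 2 := by
    have h0 := orderOf_injective (MulAut.conj g⁻¹).toMonoidHom (MulAut.conj g⁻¹).injective y
    have : (MulAut.conj g⁻¹).toMonoidHom y = g⁻¹ * y * g := by simp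
    rw [this] at h0
    rw [h0, hy]
  have h2 := hne (g⁻¹ * y * g) hy' hgy
  have hC : Subgroup.centralizer ({y} : Set G) =
      (Subgroup.centralizer ({g⁻¹ * y * g} : Set G)).map (MulAut.conj g).toMonoidHom := by
    rw [← centralizer_singleton_conj]
    congr 2
    group
  have h3 := isComponent_subgroupOf_conj g h2.2 hC
  have hLg : L.map (MulAut.conj g).toMonoidHom ≤ Subgroup.centralizer ({y} : Set G) := by
    rw [hC]
    exact Subgroup.map_mono h2.1
  have hne' : L.subgroupOf (Subgroup.centralizer ({y} : Set G)) ≠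
      (L.map (MulAut.conj g).toMonoidHom).subgroupOf (Subgroup.centralizer ({y} : Set G)) := by
    intro heq
    rw [Subgroup.subgroupOf_inj, inf_eq_left.2 h1.1, inf_eq_left.2 hLg] at heq
    exact hcon heq.symm
  have h4 := Comp.components_commute _ _ h1.2 h3 hne'
  rw [Comp.commutator_subgroupOf_eq_bot_iff h1.1 hLg] at h4
  exact hnc g hcon h4

/-- Let G be finite, x an involution and L ≤ C_G(x) a component of C_G(x). Suppose L is a component of C_G(y) for every involution y ∈ C_G(L), and ⁅L, g L g⁻¹⁆ ≠ 1 whenever g L g⁻¹ ≠ L. Then L is a standard subgroup of G. -/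
theorem result {G : Type*} [Group G] [Finite G] (x : G) (hx : orderOf x = 2) (L : Subgroup G) (hLx : L ≤ Subgroup.centralizer ({x} : Set G)) (hL : Cfsg.IsComponent (L.subgroupOf (Subgroup.centralizer ({x} : Set G)))) (hne : ∀ y : G, orderOf y = 2 → y ∈ Subgroup.centralizer (L : Set G) → L ≤ Subgroup.centralizer ({y} : Set G) ∧ Cfsg.IsComponent (L.subgroupOf (Subgroup.centralizer ({y} : Set G)))) (hnc : ∀ g : G, L.map (MulAut.conj g).toMonoidHom ≠ L → ⁅L, L.map (MulAut.conj g).toMonoidHom⁆ ≠ ⊥) : Cfsg.IsStandardSubgroup L := by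
  have hxL : x ∈ Subgroup.centralizer (L : Set G) := by
    rw [mem_centralizer_iff]
    intro l hl
    have := hLx hl
    rw [mem_centralizer_iff] at this
    exact (this x rfl).symm
  refine ⟨?_, ⟨?_, ?_⟩, hnc, ?_⟩
  · exact Quasi.of_mulEquiv (subgroupOfEquivOfLe hLx) hL.2
  · -- even order
    have h2 : orderOf (⟨x, hxL⟩ : Subgroup.centralizer (L : Set G)) = 2 := by
      rw [← hx]
      exact (Subgroup.orderOf_mk x hxL)
    have := orderOf_dvd_natCard (⟨x, hxL⟩ : Subgroup.centralizer (L : Set G))
    rw [h2] at this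
    exact even_iff_two_dvd.2 this
  · intro g hg
    by_contra hodd
    rw [Nat.not_odd_iff_even] at hodd
    have h2 : 2 ∣ Nat.card ↥(Subgroup.centralizer (L : Set G) ⊓
        (Subgroup.centralizer (L : Set G)).map (MulAut.conj g).toMonoidHom) := even_iff_two_dvd.1 hodd
    have : Fact (Nat.Prime 2) := ⟨Nat.prime_two⟩
    obtain ⟨y, hy⟩ := exists_prime_orderOf_dvd_card' 2 h2
    have hy2 : orderOf (y : G) = 2 := by rw [Subgroup.orderOf_coe]; exact hy
    have hy1 : (y : G) ∈ Subgroup.centralizer (L : Set G) := y.2.1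
    have hy3 : g⁻¹ * (y : G) * g ∈ Subgroup.centralizer (L : Set G) := by
      have h5 : (y : G) ∈ (Subgroup.centralizer (L : Set G)).map (MulAut.conj g).toMonoidHom := y.2.2
      rwa [mem_map_conj_iff] at h5
    have hk := key L hne hnc g y hy2 hy1 hy3
    exact hg (mem_normalizer_centralizer_of_map_conj_eq hk)
  · apply le_antisymm
    · intro g hg
      exact mem_normalizer_centralizer_of_map_conj_eq (map_conj_eq_iff_mem_normalizer.2 hg)
    · intro g hg
      rw [← map_conj_eq_iff_mem_normalizer]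
      apply key L hne hnc g x hx hxL
      have hg' : g⁻¹ ∈ Subgroup.normalizer ((Subgroup.centralizer (L : Set G) : Subgroup G) : Set G) :=
        inv_mem hg
      rw [Subgroup.mem_normalizer_iff] at hg'
      have := (hg' x).1 hxL
      simpa using this

end Cfsg.Agent.S1306
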