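import Cfsg.Statements.S1307
import Mathlib
import Cfsg.Agent.S0201
import Cfsg.Agent.Lib.Helper4.TwoRankOne
import Cfsg.Agent.Lib.Helper21.Quasi

set_option autoImplicit false
open Cfsg

namespace Cfsg.Agent.S1307

open Cfsg.Agent.Lib.Helper4.TwoRankOne
open Cfsg.Agent.Lib.Helper21
open scoped commutatorElement

/-- In a quasisimple group of even order, every normal subgroup of odd order is central. -/
theorem odd_normal_le_center {X : Type*} [Group X] [Finite X] (hX : Cfsg.IsQuasisimple X)
    (heven : Even (Nat.card X)) (N : Subgroup X) (hN : N.Normal) (hodd : Odd (Nat.card N)) :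
    N ≤ Subgroup.center X := by
  rcases Quasi.normal_eq_top_or_le_center hX N with h | h
  · exfalso
    rw [h, Subgroup.card_top] at hodd
    exact (Nat.not_even_iff_odd.mpr hodd) heven
  · exact h

/-- An element whose commutators with everything are central is central in a perfect group. -/
theorem mem_center_of_comm_mem_center {X : Type*} [Group X] (hperf : Group.IsPerfect X) (z : X)
    (hz : ∀ g : X, z * g * z⁻¹ * g⁻¹ ∈ Subgroup.center X) : z ∈ Subgroup.center X := by
  have hconj : ∀ g : X, z * g * z⁻¹ = g * (z * g * z⁻¹ * g⁻¹) := by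
    intro g
    have h := Subgroup.mem_center_iff.mp (hz g) g
    rw [h]; group
  have key : ∀ a b : X, z * ⁅a, b⁆ * z⁻¹ = ⁅a, b⁆ := by
    intro a b
    have h1 : z * ⁅a, b⁆ * z⁻¹ = ⁅z * a * z⁻¹, z * b * z⁻¹⁆ := by
      simp only [commutatorElement_def]; group
    rw [h1, hconj a, hconj b, Quasi.commutatorElement_mul_central_left _ _ _ (hz a),
      Quasi.commutatorElement_mul_central_right _ _ _ (hz b)]
  have hle : commutator X ≤ Subgroup.centralizer {z} := by
    rw [commutator_def, Subgroup.commutator_le]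
    intro a _ b _
    rw [Subgroup.mem_centralizer_singleton_iff]
    have h2 := key a b
    calc ⁅a, b⁆ * z = (z * ⁅a, b⁆ * z⁻¹) * z := by rw [h2]
      _ = z * ⁅a, b⁆ := by group
  rw [Subgroup.mem_center_iff]
  intro g
  have hg : g ∈ Subgroup.centralizer {z} := hle (by rw [hperf.commutator_eq_top]; trivial)
  exact Subgroup.mem_centralizer_singleton_iff.mp hg


/-- Let G be finite, x an involution and L ≤ C_G(x) a component of C_G(x) of even order and 2-rank 1, such that L is a component of C_G(y) for every involution y ∈ C_G(L). Then some involution of L is a classical involution of G. -/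
theorem result {G : Type*} [Group G] [Finite G] (x : G) (hx : orderOf x = 2) (L : Subgroup G) (hLx : L ≤ Subgroup.centralizer ({x} : Set G)) (hL : Cfsg.IsComponent (L.subgroupOf (Subgroup.centralizer ({x} : Set G)))) (heven : Even (Nat.card ↥L)) (hrk : Cfsg.PRankLE 2 1 ↥L) (hne : ∀ y : G, orderOf y = 2 → y ∈ Subgroup.centralizer (L : Set G) → L ≤ Subgroup.centralizer ({y} : Set G) ∧ Cfsg.IsComponent (L.subgroupOf (Subgroup.centralizer ({y} : Set G)))) : ∃ t ∈ L, Cfsg.IsClassicalInvolution t := by
  haveI : Fact (Nat.Prime 2) := ⟨Nat.prime_two⟩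
  have hQS : Cfsg.IsQuasisimple ↥L :=
    Quasi.of_mulEquiv (Subgroup.subgroupOfEquivOfLe hLx) hL.2
  have hrank : ∀ E : Subgroup ↥L, ¬ IsKleinFour E := by
    intro E hE
    have hexp : ∀ a ∈ E, a ^ 2 = 1 := by
      intro a ha
      have h := Monoid.pow_exponent_eq_one (⟨a, ha⟩ : E)
      rw [hE.exponent_two] at h
      exact congrArg Subtype.val h
    have hcomm : IsMulCommutative E :=
      ⟨⟨fun a b => mul_comm_of_exponent_two hE.exponent_two a b⟩⟩
    have h := hrk E hcomm hexp
    rw [hE.card_four] at h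
    norm_num at h
  obtain ⟨S⟩ : Nonempty (Sylow 2 ↥L) := inferInstance
  have hS : (S : Subgroup ↥L) ≠ ⊥ := S.ne_bot_of_dvd_card heven.two_dvd
  have hquat : ∃ n : ℕ, Nonempty ((S : Subgroup ↥L) ≃* QuaternionGroup (2 ^ (n + 1))) := by
    rcases cyclic_or_quat hrank S hS with hc | h
    · exfalso
      apply Quasi.center_ne_top hQS
      rw [eq_top_iff]
      intro z _
      obtain ⟨N, hNn, hNodd, hN⟩ := cyclic_case heven S hc z
      exact mem_center_of_comm_mem_center hQS.1 z
        (fun g => odd_normal_le_center hQS heven N hNn hNodd (hN g))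
    · exact h
  obtain ⟨z, hz2, N, hNn, hNodd, hN⟩ :=
    main (fun H _ _ S n e hO => Cfsg.Agent.S0201.result S n e hO) heven hrank
  have hzc : z ∈ Subgroup.center ↥L := mem_center_of_comm_mem_center hQS.1 z
    (fun g => odd_normal_le_center hQS heven N hNn hNodd (hN g))
  have hzG : orderOf (z : G) = 2 := by rw [Subgroup.orderOf_coe]; exact hz2
  have hzcent : (z : G) ∈ Subgroup.centralizer (L : Set G) := by
    rw [Subgroup.mem_centralizer_iff]
    intro l hl
    have h := Subgroup.mem_center_iff.mp hzc ⟨l, hl⟩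
    exact congrArg Subtype.val h
  obtain ⟨hLz, hLcomp⟩ := hne (z : G) hzG hzcent
  obtain ⟨n, hn⟩ := hquat
  exact ⟨(z : G), z.2, hzG, L, hLz, z.2, hLcomp.1, S, n, hn⟩

end Cfsg.Agent.S1307
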