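import Cfsg.Statements.S1314
import Cfsg.Agent.Lib.Helper21.Layer

set_option autoImplicit false
open Cfsg

namespace Cfsg.Agent.S1314

open scoped commutatorElement

theorem comm_mul_left {G : Type*} [Group G] (a z b : G) (h : z * b = b * z) : ⁅a * z, b⁆ = ⁅a, b⁆ := by
  rw [commutatorElement_def, commutatorElement_def]
  have e : a * z * b * (a * z)⁻¹ * b⁻¹ = a * (z * b) * z⁻¹ * a⁻¹ * b⁻¹ := by group
  rw [e, h]
  group

theorem comm_mul_right {G : Type*} [Group G] (a b z : G) (h : z * a = a * z) : ⁅a, b * z⁆ = ⁅a, b⁆ := by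
  rw [commutatorElement_def, commutatorElement_def]
  have h' : z * a⁻¹ = a⁻¹ * z := by
    calc z * a⁻¹ = a⁻¹ * (a * z) * a⁻¹ := by group
      _ = a⁻¹ * (z * a) * a⁻¹ := by rw [h]
      _ = a⁻¹ * z := by group
  have e : a * (b * z) * a⁻¹ * (b * z)⁻¹ = a * b * (z * a⁻¹) * z⁻¹ * b⁻¹ := by group
  rw [e, h']
  group


/-- Let x be an involution of a group G and L a perfect subgroup with ⁅L, x L x⁻¹⁆ = 1. Then l ↦ l (x l x⁻¹) is a group homomorphism π from L to G whose kernel is central in L and whose image lies in C_G(x); and the commutator subgroup of C_{L ⊔ xLx⁻¹}(x) equals the image of π. -/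
theorem result {G : Type*} [Group G] [Finite G] (x : G) (hx : orderOf x = 2) (L : Subgroup G) (hperf : ⁅L, L⁆ = L) (hcomm : ⁅L, L.map (MulAut.conj x).toMonoidHom⁆ = ⊥) : ∃ π : ↥L →* G, (∀ l : ↥L, π l = (l : G) * (x * (l : G) * x⁻¹)) ∧ π.ker ≤ Subgroup.center ↥L ∧ π.range ≤ Subgroup.centralizer ({x} : Set G) ∧ ⁅(L ⊔ L.map (MulAut.conj x).toMonoidHom) ⊓ Subgroup.centralizer ({x} : Set G), (L ⊔ L.map (MulAut.conj x).toMonoidHom) ⊓ Subgroup.centralizer ({x} : Set G)⁆ = π.range := by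
  have hx2 : x * x = 1 := by
    have := pow_orderOf_eq_one x
    rw [hx, pow_two] at this
    exact this
  have hxinv : x⁻¹ = x := inv_eq_of_mul_eq_one_left hx2
  set Lx := L.map (MulAut.conj x).toMonoidHom with hLx
  have hmem : ∀ l ∈ L, x * l * x⁻¹ ∈ Lx := fun l hl => ⟨l, hl, by simp [MulAut.conj_apply]⟩
  have hc : ∀ a ∈ L, ∀ b ∈ Lx, a * b = b * a := by
    have h1 := (Subgroup.commutator_eq_bot_iff_le_centralizer).1 hcomm
    intro a ha b hb
    exact (Subgroup.mem_centralizer_iff.1 (h1 ha) b hb).symm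
  let π : ↥L →* G :=
    { toFun := fun l => (l : G) * (x * (l : G) * x⁻¹)
      map_one' := by simp
      map_mul' := by
        intro l m
        have h1 := hc m m.2 (x * l * x⁻¹) (hmem l l.2)
        change ((l * m : ↥L) : G) * (x * ((l * m : ↥L) : G) * x⁻¹) =
          (l : G) * (x * (l : G) * x⁻¹) * ((m : G) * (x * (m : G) * x⁻¹))
        rw [Subgroup.coe_mul]
        calc (l : G) * m * (x * ((l : G) * m) * x⁻¹)
            = l * ((m : G) * (x * l * x⁻¹)) * (x * m * x⁻¹) := by group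
          _ = l * ((x * l * x⁻¹) * (m : G)) * (x * m * x⁻¹) := by rw [h1]
          _ = (l : G) * (x * (l : G) * x⁻¹) * ((m : G) * (x * (m : G) * x⁻¹)) := by group }
  have hπ : ∀ l : ↥L, π l = (l : G) * (x * (l : G) * x⁻¹) := fun l => rfl
  have hrx : π.range ≤ Subgroup.centralizer ({x} : Set G) := by
    rintro _ ⟨l, rfl⟩
    rw [Subgroup.mem_centralizer_singleton_iff, hπ]
    have h1 := hc l l.2 (x * l * x⁻¹) (hmem l l.2)
    refine Eq.symm ?_
    calc x * ((l : G) * (x * l * x⁻¹)) = x * ((x * l * x⁻¹) * (l : G)) := by rw [h1]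
      _ = (x * x) * l * x * l := by rw [hxinv]; group
      _ = l * x * l := by rw [hx2, one_mul]
      _ = (l : G) * (x * l * x⁻¹) * x := by group
  have hrsup : π.range ≤ L ⊔ Lx := by
    rintro _ ⟨l, rfl⟩
    rw [hπ]
    exact mul_mem (Subgroup.mem_sup_left l.2) (Subgroup.mem_sup_right (hmem l l.2))
  have hrC : π.range ≤ (L ⊔ Lx) ⊓ Subgroup.centralizer ({x} : Set G) := le_inf hrsup hrx
  refine ⟨π, hπ, ?_, hrx, ?_⟩
  · intro l hl
    rw [MonoidHom.mem_ker, hπ] at hl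
    have h2 : x * (l : G) * x⁻¹ = (l : G)⁻¹ := eq_inv_of_mul_eq_one_right hl
    rw [Subgroup.mem_center_iff]
    intro m
    have h1 := hc m m.2 (x * l * x⁻¹) (hmem l l.2)
    rw [h2] at h1
    apply Subtype.ext
    rw [Subgroup.coe_mul, Subgroup.coe_mul]
    calc (m : G) * l = l * ((l : G)⁻¹ * m) * l := by group
      _ = l * ((m : G) * (l : G)⁻¹) * l := by rw [h1]
      _ = l * m := by group
  · -- decomposition of elements of C
    have hdec : ∀ c ∈ (L ⊔ Lx) ⊓ Subgroup.centralizer ({x} : Set G), ∃ b : ↥L, ∃ z : G,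
        c = π b * z ∧ z ∈ L ⊔ Lx ∧ ∀ g ∈ L ⊔ Lx, z * g = g * z := by
      intro c hcC
      obtain ⟨hcs, hcx⟩ := Subgroup.mem_inf.1 hcC
      obtain ⟨a, ha, b, hb, rfl⟩ := Cfsg.Agent.Lib.Helper21.Layer.mem_sup_of_commute hc hcs
      obtain ⟨b', hb', rfl⟩ := hb
      have hbx : (MulAut.conj x).toMonoidHom b' = x * b' * x⁻¹ := by simp [MulAut.conj_apply]
      rw [hbx] at hcx hcs ⊢
      rw [Subgroup.mem_centralizer_singleton_iff] at hcx
      have h1 := hc b' hb' (x * a * x⁻¹) (hmem a ha)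
      -- b'⁻¹ * a ∈ Lx
      have hz : b'⁻¹ * a = x * (a * b'⁻¹) * x⁻¹ := by
        have e1 : x * (a * (x * b' * x⁻¹)) * x⁻¹ = a * (x * b' * x⁻¹) := by
          rw [← hcx]; group
        have e2 : x * (a * (x * b' * x⁻¹)) * x⁻¹ = (x * a * x⁻¹) * b' := by
          calc x * (a * (x * b' * x⁻¹)) * x⁻¹ = (x * a * x⁻¹) * ((x * x) * b' * (x⁻¹ * x⁻¹)) := by group
            _ = (x * a * x⁻¹) * b' := by rw [hx2, hxinv, hx2, one_mul, mul_one]
        have e3 : b' * (x * a * x⁻¹) = a * (x * b' * x⁻¹) := by rw [h1, ← e2, e1]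
        calc b'⁻¹ * a = b'⁻¹ * (a * (x * b' * x⁻¹)) * (x * b'⁻¹ * x⁻¹) := by group
          _ = b'⁻¹ * (b' * (x * a * x⁻¹)) * (x * b'⁻¹ * x⁻¹) := by rw [e3]
          _ = x * (a * b'⁻¹) * x⁻¹ := by group
      have hzL : b'⁻¹ * a ∈ L := mul_mem (inv_mem hb') ha
      have hzLx : b'⁻¹ * a ∈ Lx := by
        rw [hz]; exact hmem _ (mul_mem ha (inv_mem hb'))
      have hzc : ∀ g ∈ L ⊔ Lx, (b'⁻¹ * a) * g = g * (b'⁻¹ * a) := by
        have : L ⊔ Lx ≤ Subgroup.centralizer ({b'⁻¹ * a} : Set G) := by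
          apply sup_le
          · intro g hg
            rw [Subgroup.mem_centralizer_singleton_iff]
            exact hc g hg _ hzLx
          · intro g hg
            rw [Subgroup.mem_centralizer_singleton_iff]
            exact (hc _ hzL g hg).symm
        intro g hg
        have := this hg
        rw [Subgroup.mem_centralizer_singleton_iff] at this
        exact this.symm
      refine ⟨⟨b', hb'⟩, b'⁻¹ * a, ?_, Subgroup.mem_sup_left hzL, hzc⟩
      rw [hπ]
      have h3 := hzc (x * b' * x⁻¹) (Subgroup.mem_sup_right (hmem b' hb'))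
      change a * (x * b' * x⁻¹) = b' * (x * b' * x⁻¹) * (b'⁻¹ * a)
      calc a * (x * b' * x⁻¹) = b' * ((b'⁻¹ * a) * (x * b' * x⁻¹)) := by group
        _ = b' * ((x * b' * x⁻¹) * (b'⁻¹ * a)) := by rw [h3]
        _ = b' * (x * b' * x⁻¹) * (b'⁻¹ * a) := by group
    apply le_antisymm
    · rw [Subgroup.commutator_le]
      intro g₁ hg₁ g₂ hg₂
      obtain ⟨b₁, z₁, rfl, hz₁, hz₁c⟩ := hdec g₁ hg₁
      obtain ⟨b₂, z₂, rfl, hz₂, hz₂c⟩ := hdec g₂ hg₂
      have hp₁ : π b₁ ∈ L ⊔ Lx := hrsup ⟨b₁, rfl⟩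
      have hp₂ : π b₂ ∈ L ⊔ Lx := hrsup ⟨b₂, rfl⟩
      rw [comm_mul_left _ _ _ (hz₁c _ (mul_mem hp₂ hz₂)), comm_mul_right _ _ _ (hz₂c _ hp₁)]
      exact ⟨⁅b₁, b₂⁆, by rw [map_commutatorElement]⟩
    · have hperf' : ⁅(⊤ : Subgroup ↥L), (⊤ : Subgroup ↥L)⁆ = ⊤ := by
        have hP : Group.IsPerfect ↥L := Subgroup.isPerfect_iff.2 hperf
        have h9 : commutator ↥L = ⊤ := (Group.isPerfect_def (G := ↥L)).1 hP
        rwa [commutator_def] at h9
      rw [MonoidHom.range_eq_map, ← hperf', Subgroup.map_commutator, ← MonoidHom.range_eq_map]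
      exact Subgroup.commutator_mono hrC hrC

end Cfsg.Agent.S1314
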