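-- Statement S1316.
import Cfsg.Statements.S1316
import Cfsg.Agent.Lib.Helper22.Layer

set_option autoImplicit false
open Cfsg

namespace Cfsg.Agent.S1316

open Subgroup
open Cfsg.Agent.Lib.Helper21
open Cfsg.Agent.Lib.Helper29
open Cfsg.Agent.Lib.Helper78
open Cfsg.Agent.Lib.Helper22

/-- For a finite group X, E(X) equals the intersection of the derived series of F*(X) (its last term). -/
theorem result {X : Type*} [Group X] [Finite X] : (⨅ n : ℕ, (derivedSeries ↥(Cfsg.generalizedFittingSubgroup X) n).map (Cfsg.generalizedFittingSubgroup X).subtype) = Cfsg.layer X := by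
  have hEn : (Cfsg.layer X).Normal := Basic.layer_normal X
  have hEF : Cfsg.layer X ≤ Cfsg.generalizedFittingSubgroup X := Layer.layer_le_genFitting
  have hFF : Cfsg.fittingSubgroup X ≤ Cfsg.generalizedFittingSubgroup X := Layer.fitting_le_genFitting
  apply le_antisymm
  · -- the quotient F* / E is solvable
    have hE'n : ((Cfsg.layer X).subgroupOf (Cfsg.generalizedFittingSubgroup X)).Normal :=
      hEn.subgroupOf _
    have hnil := Fitting.fitting_isNilpotent (G := X)
    have hsolvF : Group.IsSolvable ↥(Cfsg.fittingSubgroup X) := inferInstance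
    let ψ : ↥(Cfsg.fittingSubgroup X) →*
        ↥(Cfsg.generalizedFittingSubgroup X) ⧸
          ((Cfsg.layer X).subgroupOf (Cfsg.generalizedFittingSubgroup X)) :=
      (QuotientGroup.mk' _).comp (Subgroup.inclusion hFF)
    have hψ : Function.Surjective ψ := by
      intro q
      obtain ⟨x, rfl⟩ := QuotientGroup.mk'_surjective _ q
      have hx : (x : X) ∈ Cfsg.fittingSubgroup X ⊔ Cfsg.layer X := by
        rw [sup_comm]; exact x.2
      rw [mem_sup_of_normal_right] at hx
      obtain ⟨f, hf, e, he, hef⟩ := hx
      refine ⟨⟨f, hf⟩, ?_⟩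
      show QuotientGroup.mk' _ (Subgroup.inclusion hFF ⟨f, hf⟩) = QuotientGroup.mk' _ x
      rw [QuotientGroup.mk'_eq_mk']
      refine ⟨⟨e, hEF he⟩, ?_, ?_⟩
      · simpa [mem_subgroupOf] using he
      · apply Subtype.ext
        simp only [Subgroup.coe_mul, Subgroup.coe_inclusion]
        exact hef
    have hsolvQ : Group.IsSolvable
        (↥(Cfsg.generalizedFittingSubgroup X) ⧸
          ((Cfsg.layer X).subgroupOf (Cfsg.generalizedFittingSubgroup X))) :=
      Group.isSolvable_of_surjective hψ
    obtain ⟨n, hn⟩ := hsolvQ.solvable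
    have hmap := map_derivedSeries_eq
      (f := QuotientGroup.mk' ((Cfsg.layer X).subgroupOf (Cfsg.generalizedFittingSubgroup X)))
      (QuotientGroup.mk'_surjective _) n
    rw [hn] at hmap
    refine (iInf_le _ n).trans ?_
    rintro x ⟨y, hy, rfl⟩
    have h1 : QuotientGroup.mk' ((Cfsg.layer X).subgroupOf (Cfsg.generalizedFittingSubgroup X)) y
        ∈ (⊥ : Subgroup _) := by
      rw [← hmap]
      exact ⟨y, hy, rfl⟩
    rw [mem_bot, QuotientGroup.mk'_apply, QuotientGroup.eq_one_iff] at h1
    simpa [mem_subgroupOf] using h1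
  · refine le_iInf ?_
    intro n
    induction n with
    | zero =>
      rw [derivedSeries_zero, ← MonoidHom.range_eq_map, range_subtype]
      exact hEF
    | succ n ih =>
      rw [derivedSeries_succ, map_commutator]
      calc Cfsg.layer X = ⁅Cfsg.layer X, Cfsg.layer X⁆ := Layer.layer_commutator_self.symm
        _ ≤ _ := commutator_mono ih ih

end Cfsg.Agent.S1316
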