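-- Statement S1317.
import Cfsg.Statements.S1317
import Cfsg.Agent.Lib.Helper22.Layer

set_option autoImplicit false
open Cfsg

namespace Cfsg.Agent.S1317

open Subgroup
open Cfsg.Agent.Lib.Helper21
open Cfsg.Agent.Lib.Helper29
open Cfsg.Agent.Lib.Helper78
open Cfsg.Agent.Lib.Helper22

/-- The centre of the layer, as a subgroup of `X`, lies in the Fitting subgroup. -/
theorem center_layer_le_fitting {X : Type*} [Group X] :
    (Subgroup.center ↥(Cfsg.layer X)).map (Cfsg.layer X).subtype ≤ Cfsg.fittingSubgroup X := by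
  have hEn : (Cfsg.layer X).Normal := Basic.layer_normal X
  have hn : ((Subgroup.center ↥(Cfsg.layer X)).map (Cfsg.layer X).subtype).Normal := inferInstance
  have hnil0 : Group.IsNilpotent ↥(Subgroup.center ↥(Cfsg.layer X)) :=
    Basic.isNilpotent_of_isMulCommutative _
  have hnil : Group.IsNilpotent ↥((Subgroup.center ↥(Cfsg.layer X)).map (Cfsg.layer X).subtype) :=
    Group.nilpotent_of_mulEquiv
      ((Subgroup.center ↥(Cfsg.layer X)).equivMapOfInjective (Cfsg.layer X).subtype
        (Cfsg.layer X).subtype_injective)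
  exact Fitting.le_fitting hn hnil

/-- For a finite group X, the centre of the layer E(X) is F(X) ∩ E(X). -/
theorem result {X : Type*} [Group X] [Finite X] : (Subgroup.center ↥(Cfsg.layer X)).map (Cfsg.layer X).subtype = Cfsg.fittingSubgroup X ⊓ Cfsg.layer X := by
  apply le_antisymm
  · exact le_inf center_layer_le_fitting (map_subtype_le _)
  · intro x hx
    have hxF : x ∈ Cfsg.fittingSubgroup X := hx.1
    have hxE : x ∈ Cfsg.layer X := hx.2
    refine ⟨⟨x, hxE⟩, ?_, rfl⟩
    show (⟨x, hxE⟩ : Cfsg.layer X) ∈ center (Cfsg.layer X)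
    rw [mem_center_iff]
    intro e
    have h1 := Layer.fitting_le_centralizer_layer hxF
    rw [mem_centralizer_iff] at h1
    exact Subtype.ext (h1 e e.2)

end Cfsg.Agent.S1317
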