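-- Statement S1318.
import Cfsg.Statements.S1318
import Cfsg.Agent.Lib.Helper22.Layer2

set_option autoImplicit false
open Cfsg

namespace Cfsg.Agent.S1318

open Subgroup
open Cfsg.Agent.Lib.Helper21
open Cfsg.Agent.Lib.Helper29
open Cfsg.Agent.Lib.Helper22

/-- Let X be finite and S ≤ F*(X) a subgroup subnormal in F*(X). Then F(S) = F(X) ∩ S (inside X) and S = F(S)E(S). -/
theorem result {X : Type*} [Group X] [Finite X] (S : Subgroup X) (hS : S ≤ Cfsg.generalizedFittingSubgroup X) (hsn : (S.subgroupOf (Cfsg.generalizedFittingSubgroup X)).IsSubnormal) : (Cfsg.fittingSubgroup ↥S).map S.subtype = Cfsg.fittingSubgroup X ⊓ S ∧ Cfsg.fittingSubgroup ↥S ⊔ Cfsg.layer ↥S = ⊤ := by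
  have hFn : (Cfsg.generalizedFittingSubgroup X).Normal := Basic.generalizedFittingSubgroup_normal X
  have hSsn : S.IsSubnormal := by
    have := hsn.trans' hFn.isSubnormal
    rwa [map_subgroupOf_eq_of_le hS] at this
  have h1 := Layer2.fitting_map_subtype_of_subnormal hSsn
  refine ⟨h1, ?_⟩
  rw [eq_top_iff]
  intro s _
  obtain ⟨e, he, m, hm, hsem⟩ := Layer2.subnormal_le_genFitting_decomp hSsn hS s.2
  have hE1 : sSup {K : Subgroup X | Cfsg.IsComponent K ∧ K ≤ S} ≤
      (Cfsg.layer ↥S).map S.subtype := by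
    refine sSup_le ?_
    intro K hK
    have h2 : K.subgroupOf S ≤ Cfsg.layer ↥S :=
      Layer.le_layer (Comp.isComponent_subgroupOf hK.1 hK.2)
    have h3 := map_mono (f := S.subtype) h2
    rwa [map_subgroupOf_eq_of_le hK.2] at h3
  obtain ⟨e', he', hee'⟩ := hE1 he
  rw [← h1] at hm
  obtain ⟨m', hm', hmm'⟩ := hm
  have hs : s = e' * m' := by
    apply Subtype.ext
    rw [Subgroup.coe_mul]
    rw [hsem]
    have a1 : (e' : X) = e := hee'
    have a2 : (m' : X) = m := hmm'
    rw [a1, a2]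
  rw [hs]
  exact mul_mem (mem_sup_right he') (mem_sup_left hm')

end Cfsg.Agent.S1318
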