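-- Statement S1319.
import Cfsg.Statements.S1319
import Cfsg.Agent.Lib.Helper22.Layer

set_option autoImplicit false
open Cfsg

namespace Cfsg.Agent.S1319

open Subgroup
open Cfsg.Agent.Lib.Helper21
open Cfsg.Agent.Lib.Helper29
open Cfsg.Agent.Lib.Helper22

/-- Let A be a subnormal subgroup of the finite group X with E(A) = A. Then A ≤ E(X) and A is normal in E(X). -/
theorem result {X : Type*} [Group X] [Finite X] (A : Subgroup X) (hsn : A.IsSubnormal) (hA : Cfsg.layer ↥A = ⊤) : A ≤ Cfsg.layer X ∧ (A.subgroupOf (Cfsg.layer X)).Normal := by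
  have h1 : A ≤ Cfsg.layer X := by
    have h2 : A = (⊤ : Subgroup A).map A.subtype := by
      rw [← MonoidHom.range_eq_map, range_subtype]
    rw [h2, ← hA, map_le_iff_le_comap]
    refine sSup_le ?_
    intro K hK
    rw [← map_le_iff_le_comap]
    exact le_sSup (Comp.isComponent_map_subtype hsn hK)
  refine ⟨h1, ?_⟩
  rw [normal_subgroupOf_iff_le_normalizer h1]
  refine sSup_le ?_
  intro L hL
  rcases Comp.component_subnormal_cases L A hL hsn with h | h
  · exact h.trans le_normalizer
  · rw [commutator_eq_bot_iff_le_centralizer] at h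
    exact h.trans (centralizer_le_normalizer _)

end Cfsg.Agent.S1319
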