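-- Statement S1320.
import Cfsg.Statements.S1320
import Cfsg.Agent.Lib.Helper22.Layer2

set_option autoImplicit false
open Cfsg

namespace Cfsg.Agent.S1320

open Subgroup
open Cfsg.Agent.Lib.Helper21
open Cfsg.Agent.Lib.Helper29
open Cfsg.Agent.Lib.Helper22

/-- Let B be a normal subgroup of the finite group A. Then F*(A) ∩ B = F*(B). -/
theorem result {A : Type*} [Group A] [Finite A] (B : Subgroup A) [B.Normal] : Cfsg.generalizedFittingSubgroup A ⊓ B = (Cfsg.generalizedFittingSubgroup ↥B).map B.subtype := by
  have hBn : B.Normal := inferInstance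
  have hBsn : B.IsSubnormal := hBn.isSubnormal
  have hfit := Layer2.fitting_map_subtype_of_subnormal hBsn
  have hlayer : ∀ T : Subgroup A, T ≤ B →
      sSup {K : Subgroup A | Cfsg.IsComponent K ∧ K ≤ T} ≤ (Cfsg.layer ↥B).map B.subtype := by
    intro T hT
    refine sSup_le ?_
    intro K hK
    have hKB : K ≤ B := hK.2.trans hT
    have h2 : K.subgroupOf B ≤ Cfsg.layer ↥B :=
      Layer.le_layer (Comp.isComponent_subgroupOf hK.1 hKB)
    have h3 := map_mono (f := B.subtype) h2
    rwa [map_subgroupOf_eq_of_le hKB] at h3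
  have hgen : (Cfsg.generalizedFittingSubgroup ↥B).map B.subtype =
      (Cfsg.layer ↥B).map B.subtype ⊔ (Cfsg.fittingSubgroup ↥B).map B.subtype := by
    unfold Cfsg.generalizedFittingSubgroup
    rw [Subgroup.map_sup]
  apply le_antisymm
  · intro t ht
    have hFn : (Cfsg.generalizedFittingSubgroup A).Normal := Basic.generalizedFittingSubgroup_normal A
    have hTn : (Cfsg.generalizedFittingSubgroup A ⊓ B).Normal := inferInstance
    obtain ⟨e, he, m, hm, htem⟩ :=
      Layer2.subnormal_le_genFitting_decomp hTn.isSubnormal inf_le_left ht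
    rw [hgen, htem]
    refine mul_mem (mem_sup_left (hlayer _ inf_le_right he)) (mem_sup_right ?_)
    rw [hfit]
    exact ⟨hm.1, hm.2.2⟩
  · rw [hgen]
    refine le_inf ?_ (sup_le (map_subtype_le _) (map_subtype_le _))
    refine sup_le ?_ ?_
    · refine le_trans ?_ Layer.layer_le_genFitting
      rw [map_le_iff_le_comap]
      refine sSup_le ?_
      intro K hK
      rw [← map_le_iff_le_comap]
      exact le_sSup (Comp.isComponent_map_subtype hBsn hK)
    · rw [hfit]
      exact inf_le_left.trans Layer.fitting_le_genFitting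

end Cfsg.Agent.S1320
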