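-- Statement S1321.
import Cfsg.Statements.S1321
import Cfsg.Agent.Lib.Helper22.Layer

set_option autoImplicit false
open Cfsg

namespace Cfsg.Agent.S1321

open Subgroup
open scoped commutatorElement
open Cfsg.Agent.Lib.Helper21
open Cfsg.Agent.Lib.Helper29
open Cfsg.Agent.Lib.Helper22

/-- If `H` normalizes ... : `H` normalizes `⁅H, U⁆`. -/
theorem le_normalizer_commutator {G : Type*} [Group G] (H U : Subgroup G) :
    H ≤ normalizer ((⁅H, U⁆ : Subgroup G) : Set G) := by
  rw [Subgroup.commutator_def, le_normalizer_closure_iff]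
  rintro h hh g ⟨a, ha, u, hu, rfl⟩
  have key : h * ⁅a, u⁆ * h⁻¹ = ⁅h * a, u⁆ * ⁅h, u⁆⁻¹ := by
    simp only [commutatorElement_def]
    group
  rw [key]
  rw [← Subgroup.commutator_def]
  exact mul_mem (commutator_mem_commutator (mul_mem hh ha) hu)
    (inv_mem (commutator_mem_commutator hh hu))

/-- Let X be finite and U ≤ X. Then E(X) is generated by C_{E(X)}(U) together with ⁅E(X), U⁆ (indeed it is their product, ⁅E(X), U⁆ being normal in E(X)). -/
theorem result {X : Type*} [Group X] [Finite X] (U : Subgroup X) : Cfsg.layer X = (Cfsg.layer X ⊓ Subgroup.centralizer (U : Set X)) ⊔ ⁅Cfsg.layer X, U⁆ ∧ ⁅Cfsg.layer X, U⁆ ≤ Cfsg.layer X := by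
  have hEn : (Cfsg.layer X).Normal := Basic.layer_normal X
  have h2 : ⁅Cfsg.layer X, U⁆ ≤ Cfsg.layer X := commutator_le_left _ _
  refine ⟨le_antisymm ?_ (sup_le inf_le_left h2), h2⟩
  refine sSup_le ?_
  intro K hK
  have hKE : K ≤ Cfsg.layer X := Layer.le_layer hK
  by_cases hU : U ≤ normalizer (K : Set X)
  · -- U normalizes K
    have hKU : ⁅K, U⁆ ≤ K := le_normalizer_iff_commutator_le_left.1 hU
    have hn : ((⁅K, U⁆ : Subgroup X).subgroupOf K).Normal := by
      rw [normal_subgroupOf_iff_le_normalizer hKU]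
      exact le_normalizer_commutator K U
    rcases Quasi.normal_eq_top_or_le_center hK.2 ((⁅K, U⁆ : Subgroup X).subgroupOf K) with h | h
    · have : K ≤ ⁅K, U⁆ := subgroupOf_eq_top.1 h
      exact (this.trans (commutator_mono hKE le_rfl)).trans le_sup_right
    · have h3 : ⁅⁅K, U⁆, K⁆ = ⊥ := by
        rw [commutator_eq_bot_iff_le_centralizer]
        intro x hx
        rw [mem_centralizer_iff]
        intro k hk
        have hxc : (⟨x, hKU hx⟩ : K) ∈ center K := h (by simpa [mem_subgroupOf] using hx)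
        have := (mem_center_iff.1 hxc) ⟨k, hk⟩
        exact congrArg Subtype.val this
      have h4 : ⁅⁅U, K⁆, K⁆ = ⊥ := by rwa [commutator_comm U K]
      have h5 : ⁅⁅K, K⁆, U⁆ = ⊥ := commutator_commutator_eq_bot_of_rotate h3 h4
      rw [Comp.commutator_self hK.2] at h5
      have h6 : K ≤ centralizer (U : Set X) := commutator_eq_bot_iff_le_centralizer.1 h5
      exact (le_inf hKE h6).trans le_sup_left
  · -- some u ∈ U moves K
    rw [SetLike.not_le_iff_exists] at hU
    obtain ⟨u, huU, hu⟩ := hU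
    have hne : K ≠ K.map (MulAut.conj u).toMonoidHom := by
      intro h
      exact hu (mem_normalizer_iff_map_conj_eq.2 h.symm)
    have hcomm := Comp.components_commute K _ hK (Basic.isComponent_map_conj hK u) hne
    rw [commutator_eq_bot_iff_le_centralizer] at hcomm
    have hN : K ≤ normalizer ((⁅Cfsg.layer X, U⁆ : Subgroup X) : Set X) :=
      hKE.trans (le_normalizer_commutator _ U)
    have hle : ⁅K, K⁆ ≤ ⁅Cfsg.layer X, U⁆ := by
      rw [commutator_le]
      intro k' hk' k hk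
      -- c = u k⁻¹ u⁻¹ centralizes K
      have hc : u * k⁻¹ * u⁻¹ ∈ K.map (MulAut.conj u).toMonoidHom :=
        ⟨k⁻¹, inv_mem hk, by simp [MulAut.conj_apply]⟩
      have hcc : ∀ y ∈ K, (u * k⁻¹ * u⁻¹) * y = y * (u * k⁻¹ * u⁻¹) := by
        intro y hy
        have := hcomm hy
        rw [mem_centralizer_iff] at this
        exact (this _ hc)
      have hx : ⁅k, u⁆ ∈ ⁅Cfsg.layer X, U⁆ := commutator_mem_commutator (hKE hk) huU
      have hx' : k' * ⁅k, u⁆ * k'⁻¹ ∈ ⁅Cfsg.layer X, U⁆ := by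
        have := hN hk'
        rw [mem_normalizer_iff] at this
        exact (this _).1 hx
      have hkey : ⁅k', k⁆ = (k' * ⁅k, u⁆ * k'⁻¹) * ⁅k, u⁆⁻¹ := by
        have e1 : ⁅k, u⁆ = k * (u * k⁻¹ * u⁻¹) := by
          simp only [commutatorElement_def]; group
        rw [e1]
        have e2 := hcc k'⁻¹ (inv_mem hk')
        simp only [commutatorElement_def]
        calc k' * k * k'⁻¹ * k⁻¹ = k' * k * (k'⁻¹ * (u * k⁻¹ * u⁻¹)) * (u * k⁻¹ * u⁻¹)⁻¹ * k⁻¹ := by group
          _ = k' * k * ((u * k⁻¹ * u⁻¹) * k'⁻¹) * (u * k⁻¹ * u⁻¹)⁻¹ * k⁻¹ := by rw [e2]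
          _ = k' * (k * (u * k⁻¹ * u⁻¹)) * k'⁻¹ * (k * (u * k⁻¹ * u⁻¹))⁻¹ := by group
      rw [hkey]
      exact mul_mem hx' (inv_mem hx)
    rw [Comp.commutator_self hK.2] at hle
    exact hle.trans le_sup_right

end Cfsg.Agent.S1321
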