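import Mathlib
import Cfsg.Statements.S1324
import Cfsg.Agent.Lib.Helper31.CoprimeGen

set_option autoImplicit false
open Cfsg

namespace Cfsg.Agent.S1324

/-- Let A be a noncyclic elementary abelian p-subgroup of a finite group H normalizing a subgroup X of order prime to p. Then X is generated by the subgroups X ∩ C_H(B), B ranging over the subgroups of A of index at most p. -/
theorem result {H : Type*} [Group H] [Finite H] (p : ℕ) [Fact p.Prime] (A X : Subgroup H) (hA : Cfsg.IsElementaryAbelian p A) (hA2 : p ^ 2 ≤ Nat.card ↥A) (hX : ¬ p ∣ Nat.card ↥X) (hAX : A ≤ Subgroup.normalizer (X : Set H)) : X = ⨆ B : {B : Subgroup H // B ≤ A ∧ B.relIndex A ≤ p}, X ⊓ Subgroup.centralizer ((B : Subgroup H) : Set H) := by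
  have hp : p.Prime := Fact.out
  have hAc : ∀ x ∈ A, ∀ y ∈ A, x * y = y * x := fun x hx y hy =>
    congrArg Subtype.val ((hA.1.is_comm).comm ⟨x, hx⟩ ⟨y, hy⟩)
  have hApg : IsPGroup p A := fun g => ⟨1, by
    rw [pow_one]; exact Subtype.ext (by simpa using hA.2 g g.2)⟩
  obtain ⟨n, hn⟩ := hApg.exists_card_eq
  have hn2 : 2 ≤ n := by
    rw [hn] at hA2; exact (Nat.pow_le_pow_iff_right hp.one_lt).mp hA2
  obtain ⟨k, rfl⟩ : ∃ k, n = k + 1 := ⟨n - 1, by omega⟩
  apply le_antisymm
  · refine (Cfsg.Agent.Lib.Helper31.CoprimeGen.elementary_generation A X hAc hA.2 hX hAX k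
      (by rw [hn])).trans ?_
    refine iSup_le ?_
    rintro ⟨D, hDA, hDcard⟩
    have hrel : D.relIndex A ≤ p := by
      have h1 : Nat.card (D.subgroupOf A) * (D.subgroupOf A).index = Nat.card A :=
        Subgroup.card_mul_index _
      have h2 : Nat.card (D.subgroupOf A) = Nat.card D :=
        Nat.card_congr (Subgroup.subgroupOfEquivOfLe hDA).toEquiv
      rw [h2, hn, pow_succ] at h1
      have h3 : p ^ k * D.relIndex A ≤ p ^ k * p := by
        calc p ^ k * D.relIndex A ≤ Nat.card D * D.relIndex A := Nat.mul_le_mul_right _ hDcard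
          _ = p ^ k * p := h1
      exact Nat.le_of_mul_le_mul_left h3 (pow_pos hp.pos k)
    exact le_iSup (fun B : {B : Subgroup H // B ≤ A ∧ B.relIndex A ≤ p} =>
      X ⊓ Subgroup.centralizer ((B : Subgroup H) : Set H)) ⟨D, hDA, hrel⟩
  · exact iSup_le fun B => inf_le_left

end Cfsg.Agent.S1324
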