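-- Statement S1326.
import Cfsg.Statements.S1326
import Cfsg.Agent.Lib.Helper22.Layer

set_option autoImplicit false
open Cfsg

namespace Cfsg.Agent.S1326

open Subgroup
open Cfsg.Agent.Lib.Helper21
open Cfsg.Agent.Lib.Helper78
open Cfsg.Agent.Lib.Helper22

/-- For a finite group X: the Fitting subgroup contains its centralizer if and only if the layer of X is trivial. -/
theorem result {X : Type*} [Group X] [Finite X] : Subgroup.centralizer (Cfsg.fittingSubgroup X : Set X) ≤ Cfsg.fittingSubgroup X ↔ Cfsg.layer X = ⊥ := by
  constructor
  · intro h
    have hempty : ∀ K : Subgroup X, ¬ Cfsg.IsComponent K := by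
      intro K hK
      have h1 : K ≤ Cfsg.fittingSubgroup X :=
        (Layer.le_layer hK).trans (Layer.layer_le_centralizer_fitting.trans h)
      have hnil := Fitting.fitting_isNilpotent (G := X)
      have hsolv : Group.IsSolvable (Cfsg.fittingSubgroup X) := inferInstance
      have : Group.IsSolvable K :=
        Group.isSolvable_of_isSolvable_injective (f := Subgroup.inclusion h1)
          (Subgroup.inclusion_injective h1)
      exact Quasi.not_isSolvable hK.2 this
    unfold Cfsg.layer
    rw [eq_bot_iff]
    exact sSup_le (fun K hK => absurd hK (hempty K))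
  · intro h
    have h1 : Cfsg.generalizedFittingSubgroup X = Cfsg.fittingSubgroup X := by
      unfold Cfsg.generalizedFittingSubgroup
      rw [h, bot_sup_eq]
    have h2 := Layer.centralizer_genFitting_le (G := X)
    rwa [h1] at h2

end Cfsg.Agent.S1326
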