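import Mathlib
import Cfsg.Statements.S1331
import Cfsg.Agent.Lib.Helper31.SigBasic

set_option autoImplicit false
open Cfsg

namespace Cfsg.Agent.S1331

/-- Let θ be a solvable A-signalizer functor on the finite group G for the prime p, A elementary abelian of rank at least 3, X a member of the family of θ, and B ≤ A with |B| ≥ p². Then X is generated by the subgroups X ∩ ⋂_{d ∈ D, d ≠ 1} θ d, D ranging over the subgroups of index p in B. -/
theorem result {G : Type*} [Group G] [Finite G] (p : ℕ) [Fact p.Prime] (A : Subgroup G) (hA : Cfsg.IsElementaryAbelian p A) (hA3 : p ^ 3 ≤ Nat.card ↥A) (θ : G → Subgroup G) (hθ : Cfsg.IsSolvableSignalizerFunctor p A θ) (X : Subgroup G) (hX : X ∈ Cfsg.signalizerFamily p A θ) (B : Subgroup G) (hB : B ≤ A) (hB2 : p ^ 2 ≤ Nat.card ↥B) : X = ⨆ D : {D : Subgroup G // D ≤ B ∧ D.relIndex B = p}, X ⊓ Cfsg.signalizerInf (D : Subgroup G) θ := by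
  have hp : p.Prime := Fact.out
  obtain ⟨hXs, hXp, hXA, hXθ⟩ := hX
  have hBc : ∀ x ∈ B, ∀ y ∈ B, x * y = y * x := fun x hx y hy =>
    congrArg Subtype.val ((hA.1.is_comm).comm ⟨x, hB hx⟩ ⟨y, hB hy⟩)
  have hBp : ∀ x ∈ B, x ^ p = 1 := fun x hx => hA.2 x (hB hx)
  have hBpg : IsPGroup p B := fun g => ⟨1, by
    rw [pow_one]; exact Subtype.ext (by simpa using hBp g g.2)⟩
  obtain ⟨n, hn⟩ := hBpg.exists_card_eq
  have hn2 : 2 ≤ n := by
    rw [hn] at hB2; exact (Nat.pow_le_pow_iff_right hp.one_lt).mp hB2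
  obtain ⟨k, rfl⟩ : ∃ k, n = k + 1 := ⟨n - 1, by omega⟩
  have hBX : B ≤ Subgroup.normalizer (X : Set G) :=
    Cfsg.Agent.Lib.Helper31.SigBasic.le_normalizer_of_conj_mem B X (fun b hb => hXA b (hB hb))
  have hrel : ∀ D : Subgroup G, D ≤ B → Nat.card D = p ^ k → D.relIndex B = p := by
    intro D hDB hD
    have h1 : Nat.card (D.subgroupOf B) * (D.subgroupOf B).index = Nat.card B :=
      Subgroup.card_mul_index _
    have h2 : Nat.card (D.subgroupOf B) = Nat.card D :=
      Nat.card_congr (Subgroup.subgroupOfEquivOfLe hDB).toEquiv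
    rw [h2, hn, hD, pow_succ] at h1
    exact Nat.eq_of_mul_eq_mul_left (pow_pos hp.pos k) h1
  have hkey : ∀ D : Subgroup G, D ≤ B →
      X ⊓ Subgroup.centralizer (D : Set G) ≤ X ⊓ Cfsg.signalizerInf D θ := by
    intro D hDB
    refine le_inf inf_le_left ?_
    unfold Cfsg.signalizerInf
    refine le_iInf ?_
    rintro ⟨d, hdD, hd1⟩
    exact (inf_le_inf_left _ (Subgroup.centralizer_le (Set.singleton_subset_iff.mpr hdD))).trans
      (hXθ d (hB (hDB hdD)) hd1)
  obtain ⟨D₀, hD₀B, hD₀card⟩ : ∃ D₀ : Subgroup G, D₀ ≤ B ∧ Nat.card D₀ = p ^ k := by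
    obtain ⟨K, hK⟩ := Sylow.exists_subgroup_card_pow_prime p (G := B) (n := k)
      (by rw [hn]; exact pow_dvd_pow p (Nat.le_succ k))
    refine ⟨K.map B.subtype, Subgroup.map_subtype_le K, ?_⟩
    rw [Subgroup.card_map_of_injective (Subgroup.subtype_injective B)]
    exact hK
  apply le_antisymm
  · refine (Cfsg.Agent.Lib.Helper31.CoprimeGen.elementary_generation B X hBc hBp hXp hBX k
      (by rw [hn])).trans (iSup_le ?_)
    rintro ⟨D, hDB, hDcard⟩
    obtain ⟨m, hm⟩ := (hBpg.to_le hDB).exists_card_eq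
    have hkm : k ≤ m := by
      rw [hm] at hDcard; exact (Nat.pow_le_pow_iff_right hp.one_lt).mp hDcard
    by_cases hmk : m = k
    · rw [hmk] at hm
      exact (hkey D hDB).trans (le_iSup (fun D : {D : Subgroup G // D ≤ B ∧ D.relIndex B = p} =>
        X ⊓ Cfsg.signalizerInf (D : Subgroup G) θ) ⟨D, hDB, hrel D hDB hm⟩)
    · have hDB' : D = B := Subgroup.eq_of_le_of_card_ge hDB (by
        rw [hm, hn]; exact Nat.pow_le_pow_right hp.pos (by omega))
      have hD₀D : (D₀ : Set G) ⊆ (D : Set G) := by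
        rw [hDB']; exact hD₀B
      refine le_trans ?_ ((hkey D₀ hD₀B).trans
        (le_iSup (fun D : {D : Subgroup G // D ≤ B ∧ D.relIndex B = p} =>
          X ⊓ Cfsg.signalizerInf (D : Subgroup G) θ) ⟨D₀, hD₀B, hrel D₀ hD₀B hD₀card⟩))
      exact inf_le_inf_left _ (Subgroup.centralizer_le hD₀D)
  · exact iSup_le fun D => inf_le_left

end Cfsg.Agent.S1331
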