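-- Statement S1336.
import Cfsg.Statements.S1336
import Mathlib

set_option autoImplicit false
open Cfsg

namespace Cfsg.Agent.S1336

/-- The edge relation of the commuting graph on nontrivial elementary abelian `p`-subgroups. -/
def Adj {G : Type*} [Group G] (p : ℕ) (A B : Subgroup G) : Prop :=
  Cfsg.IsElementaryAbelian p A ∧ p ^ 1 ≤ Nat.card ↥A ∧ Cfsg.IsElementaryAbelian p B ∧
    p ^ 1 ≤ Nat.card ↥B ∧ ∀ a ∈ A, ∀ b ∈ B, a * b = b * a

/-- Vertices. -/
def Vtx {G : Type*} [Group G] (p : ℕ) (A : Subgroup G) : Prop :=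
  Cfsg.IsElementaryAbelian p A ∧ p ^ 1 ≤ Nat.card ↥A

theorem adj_symm {G : Type*} [Group G] (p : ℕ) {A B : Subgroup G} (h : Adj p A B) : Adj p B A :=
  ⟨h.2.2.1, h.2.2.2.1, h.1, h.2.1, fun b hb a ha => (h.2.2.2.2 a ha b hb).symm⟩

theorem conn_symm {G : Type*} [Group G] (p : ℕ) {A B : Subgroup G}
    (h : Relation.ReflTransGen (Adj p) A B) : Relation.ReflTransGen (Adj p) B A := by
  induction h with
  | refl => exact Relation.ReflTransGen.refl
  | tail _ hbc ih => exact Relation.ReflTransGen.head (adj_symm p hbc) ih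

theorem vtx_conj {G : Type*} [Group G] (p : ℕ) {A : Subgroup G} (h : Vtx p A) (g : G) :
    Vtx p (A.map (MulAut.conj g).toMonoidHom) := by
  obtain ⟨⟨hc, he⟩, hcard⟩ := h
  refine ⟨⟨inferInstance, ?_⟩, ?_⟩
  · rintro _ ⟨a, ha, rfl⟩
    rw [← map_pow, he a ha, map_one]
  · rw [Subgroup.card_map_of_injective (MulAut.conj g).injective]
    exact hcard

theorem adj_conj {G : Type*} [Group G] (p : ℕ) {A B : Subgroup G} (h : Adj p A B) (g : G) :
    Adj p (A.map (MulAut.conj g).toMonoidHom) (B.map (MulAut.conj g).toMonoidHom) := by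
  have hA := vtx_conj p (⟨h.1, h.2.1⟩ : Vtx p A) g
  have hB := vtx_conj p (⟨h.2.2.1, h.2.2.2.1⟩ : Vtx p B) g
  refine ⟨hA.1, hA.2, hB.1, hB.2, ?_⟩
  rintro _ ⟨a, ha, rfl⟩ _ ⟨b, hb, rfl⟩
  show (MulAut.conj g) a * (MulAut.conj g) b = (MulAut.conj g) b * (MulAut.conj g) a
  rw [← map_mul, ← map_mul, h.2.2.2.2 a ha b hb]

theorem conn_conj {G : Type*} [Group G] (p : ℕ) {A B : Subgroup G}
    (h : Relation.ReflTransGen (Adj p) A B) (g : G) :
    Relation.ReflTransGen (Adj p) (A.map (MulAut.conj g).toMonoidHom)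
      (B.map (MulAut.conj g).toMonoidHom) := by
  induction h with
  | refl => exact Relation.ReflTransGen.refl
  | tail _ hbc ih => exact Relation.ReflTransGen.tail ih (adj_conj p hbc g)

theorem map_conj_mul {G : Type*} [Group G] (A : Subgroup G) (m h : G) :
    A.map (MulAut.conj (m * h)).toMonoidHom =
      (A.map (MulAut.conj h).toMonoidHom).map (MulAut.conj m).toMonoidHom := by
  rw [Subgroup.map_map]
  congr 1
  ext y
  simp [MulAut.conj_apply, mul_assoc]

theorem map_conj_one {G : Type*} [Group G] (A : Subgroup G) :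
    A.map (MulAut.conj (1 : G)).toMonoidHom = A := by
  ext x
  simp

/-- A vertex is a `p`-group containing an element of order `p`. -/
theorem vtx_exists_order {G : Type*} [Group G] [Finite G] (p : ℕ) [hp : Fact p.Prime]
    {A : Subgroup G} (h : Vtx p A) : ∃ a ∈ A, orderOf a = p := by
  obtain ⟨⟨hc, he⟩, hcard⟩ := h
  have h1 : 1 < Nat.card ↥A := lt_of_lt_of_le hp.1.one_lt (by simpa using hcard)
  have : Nontrivial ↥A := Finite.one_lt_card_iff_nontrivial.1 h1
  obtain ⟨⟨a, ha⟩, hne⟩ := exists_ne (1 : ↥A)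
  refine ⟨a, ha, ?_⟩
  have ha1 : a ≠ 1 := fun h => hne (Subtype.ext h)
  exact orderOf_eq_prime (he a ha) ha1

theorem vtx_isPGroup {G : Type*} [Group G] (p : ℕ) {A : Subgroup G} (h : Vtx p A) :
    IsPGroup p ↥A := by
  intro a
  refine ⟨1, ?_⟩
  apply Subtype.ext
  rw [pow_one, Subgroup.coe_pow, h.1.2 a a.2, Subgroup.coe_one]

theorem vtx_zpowers {G : Type*} [Group G] (p : ℕ) (z : G)
    (hz : orderOf z = p) : Vtx p (Subgroup.zpowers z) := by
  refine ⟨⟨inferInstance, ?_⟩, ?_⟩
  · rintro _ ⟨k, rfl⟩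
    rw [← zpow_natCast, ← zpow_mul, mul_comm, zpow_mul, zpow_natCast, ← hz, pow_orderOf_eq_one,
      one_zpow]
  · rw [Nat.card_zpowers, hz, pow_one]

/-- Two vertices inside a common `p`-subgroup are connected (through a central element). -/
theorem conn_of_le_pGroup {G : Type*} [Group G] [Finite G] (p : ℕ) [hp : Fact p.Prime]
    (S : Subgroup G) (hS : IsPGroup p ↥S) {A B : Subgroup G} (hA : Vtx p A) (hB : Vtx p B)
    (hAS : A ≤ S) (hBS : B ≤ S) : Relation.ReflTransGen (Adj p) A B := by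
  obtain ⟨a, ha, hao⟩ := vtx_exists_order p hA
  have hnt : Nontrivial ↥S := by
    refine ⟨⟨⟨a, hAS ha⟩, 1, ?_⟩⟩
    intro h
    have h1 : a = 1 := congrArg Subtype.val h
    rw [h1, orderOf_one] at hao
    exact hp.1.one_lt.ne hao
  have hcn := hS.center_nontrivial
  have hcp : IsPGroup p ↥(Subgroup.center ↥S) := hS.to_subgroup _
  obtain ⟨n, hn, hcard⟩ := (hcp.nontrivial_iff_card).1 hcn
  have hdvd : p ∣ Nat.card ↥(Subgroup.center ↥S) := by
    rw [hcard]; exact dvd_pow_self p hn.ne'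
  obtain ⟨z, hz⟩ := exists_prime_orderOf_dvd_card' p hdvd
  have hzo : orderOf ((z : ↥S) : G) = p := by
    rw [Subgroup.orderOf_coe, Subgroup.orderOf_coe, hz]
  have hZ := vtx_zpowers p ((z : ↥S) : G) hzo
  have hcomm : ∀ x ∈ S, ∀ b ∈ Subgroup.zpowers ((z : ↥S) : G), x * b = b * x := by
    rintro x hx _ ⟨k, rfl⟩
    have h1 : (⟨x, hx⟩ : ↥S) * (z : ↥S) = (z : ↥S) * ⟨x, hx⟩ :=
      (Subgroup.mem_center_iff.1 z.2) ⟨x, hx⟩
    have h2 : x * ((z : ↥S) : G) = ((z : ↥S) : G) * x := congrArg Subtype.val h1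
    exact ((Commute.zpow_right h2 k) : x * ((z : ↥S) : G) ^ k = ((z : ↥S) : G) ^ k * x)
  have e1 : Adj p A (Subgroup.zpowers ((z : ↥S) : G)) :=
    ⟨hA.1, hA.2, hZ.1, hZ.2, fun x hx b hb => hcomm x (hAS hx) b hb⟩
  have e2 : Adj p (Subgroup.zpowers ((z : ↥S) : G)) B :=
    ⟨hZ.1, hZ.2, hB.1, hB.2, fun b hb x hx => (hcomm x (hBS hx) b hb).symm⟩
  exact Relation.ReflTransGen.tail (Relation.ReflTransGen.single e1) e2

/-- The stabilizer of the connected component of `E`. -/
def stab {G : Type*} [Group G] (p : ℕ) (E : Subgroup G) : Subgroup G where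
  carrier := {g | Relation.ReflTransGen (Adj p) E (E.map (MulAut.conj g).toMonoidHom)}
  one_mem' := by
    show Relation.ReflTransGen (Adj p) E (E.map (MulAut.conj (1 : G)).toMonoidHom)
    rw [map_conj_one]
  mul_mem' := by
    intro a b ha hb
    show Relation.ReflTransGen (Adj p) E (E.map (MulAut.conj (a * b)).toMonoidHom)
    rw [map_conj_mul]
    exact Relation.ReflTransGen.trans ha (conn_conj p hb a)
  inv_mem' := by
    intro a ha
    show Relation.ReflTransGen (Adj p) E (E.map (MulAut.conj a⁻¹).toMonoidHom)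
    have h1 := conn_conj p ha a⁻¹
    rw [← map_conj_mul, inv_mul_cancel, map_conj_one] at h1
    exact conn_symm p h1

theorem mem_stab {G : Type*} [Group G] (p : ℕ) (E : Subgroup G) (g : G) :
    g ∈ stab p E ↔ Relation.ReflTransGen (Adj p) E (E.map (MulAut.conj g).toMonoidHom) :=
  Iff.rfl

/-- Let G be finite and p prime. Then G has a proper subgroup H with p ∣ |H| and p ∤ |H ∩ gHg⁻¹| for every g ∉ H (a strongly p-embedded subgroup) if and only if G is not 1-connected for p. -/
theorem result {G : Type*} [Group G] [Finite G] (p : ℕ) [Fact p.Prime] : (∃ H : Subgroup G, H ≠ ⊤ ∧ p ∣ Nat.card ↥H ∧ ∀ g : G, g ∉ H → ¬ p ∣ Nat.card ↥(H ⊓ H.map (MulAut.conj g).toMonoidHom)) ↔ ¬ Cfsg.IsKConnected p 1 G := by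
  classical
  constructor
  · rintro ⟨H, hHtop, hpH, hH⟩ hconn
    obtain ⟨e, he⟩ := exists_prime_orderOf_dvd_card' p hpH
    have heo : orderOf (e : G) = p := by rw [Subgroup.orderOf_coe, he]
    have hE := vtx_zpowers p (e : G) heo
    have hEH : Subgroup.zpowers (e : G) ≤ H := Subgroup.zpowers_le.2 e.2
    obtain ⟨g, hg⟩ : ∃ g : G, g ∉ H := by
      by_contra hall
      push_neg at hall
      exact hHtop (top_le_iff.1 (fun x _ => hall x))
    have hE' := vtx_conj p hE g
    have hchain : Relation.ReflTransGen (Adj p) (Subgroup.zpowers (e : G))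
        ((Subgroup.zpowers (e : G)).map (MulAut.conj g).toMonoidHom) :=
      hconn _ _ hE.1 hE.2 hE'.1 hE'.2
    have hall : ∀ B : Subgroup G, Relation.ReflTransGen (Adj p) (Subgroup.zpowers (e : G)) B →
        B ≤ H := by
      intro B hB
      induction hB with
      | refl => exact hEH
      | @tail A B _ hbc ih =>
        intro b hb
        by_contra hbH
        apply hH b hbH
        obtain ⟨a, ha, hao⟩ := vtx_exists_order p (⟨hbc.1, hbc.2.1⟩ : Vtx p A)
        have hamem : a ∈ H ⊓ H.map (MulAut.conj b).toMonoidHom := by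
          refine ⟨ih ha, a, ih ha, ?_⟩
          show b * a * b⁻¹ = a
          rw [← hbc.2.2.2.2 a ha b hb, mul_inv_cancel_right]
        have h9 : orderOf a ∣ Nat.card ↥(H ⊓ H.map (MulAut.conj b).toMonoidHom) :=
          Subgroup.orderOf_dvd_natCard _ hamem
        rwa [hao] at h9
    have hgeg : g * (e : G) * g⁻¹ ∈ H := hall _ hchain ⟨(e : G), Subgroup.mem_zpowers _, rfl⟩
    apply hH g hg
    have hmem : g * (e : G) * g⁻¹ ∈ H ⊓ H.map (MulAut.conj g).toMonoidHom :=
      ⟨hgeg, (e : G), e.2, rfl⟩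
    have ho : orderOf (g * (e : G) * g⁻¹) = p := by
      have h8 := (MulAut.conj g).orderOf_eq (e : G)
      rw [MulAut.conj_apply] at h8
      rw [h8]; exact heo
    have h9 : orderOf (g * (e : G) * g⁻¹) ∣ Nat.card ↥(H ⊓ H.map (MulAut.conj g).toMonoidHom) :=
      Subgroup.orderOf_dvd_natCard _ hmem
    rwa [ho] at h9
  · intro hnc
    unfold Cfsg.IsKConnected at hnc
    push_neg at hnc
    obtain ⟨E, E', hE1, hE2, hE'1, hE'2, hnot⟩ := hnc
    have hE : Vtx p E := ⟨hE1, hE2⟩
    have hE' : Vtx p E' := ⟨hE'1, hE'2⟩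
    have hnot' : ¬ Relation.ReflTransGen (Adj p) E E' := hnot
    have hEstab : E ≤ stab p E := by
      intro x hx
      rw [mem_stab]
      have h1 : E.map (MulAut.conj x).toMonoidHom = E :=
        Subgroup.mem_normalizer_iff_map_conj_eq.1 (Subgroup.le_normalizer hx)
      rw [h1]
    -- any vertex inside the stabilizer is connected to E
    have hin : ∀ B : Subgroup G, Vtx p B → B ≤ stab p E → Relation.ReflTransGen (Adj p) B E := by
      intro B hB hBH
      have hBp : IsPGroup p ↥(B.subgroupOf (stab p E)) :=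
        (vtx_isPGroup p hB).comap_of_injective _ (Subgroup.subtype_injective _)
      have hEp : IsPGroup p ↥(E.subgroupOf (stab p E)) :=
        (vtx_isPGroup p hE).comap_of_injective _ (Subgroup.subtype_injective _)
      obtain ⟨PB, hPB⟩ := hBp.exists_le_sylow
      obtain ⟨PE, hPE⟩ := hEp.exists_le_sylow
      obtain ⟨h, hh⟩ := MulAction.exists_smul_eq ↥(stab p E) PB PE
      have h1 : (PE : Subgroup ↥(stab p E)) =
          (PB : Subgroup ↥(stab p E)).map (MulAut.conj h).toMonoidHom := by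
        rw [← hh]; rfl
      -- B^h and E lie in the p-subgroup PE (viewed in G)
      have hS : IsPGroup p ↥((PE : Subgroup ↥(stab p E)).map (stab p E).subtype) :=
        PE.isPGroup'.map _
      have hEle : E ≤ (PE : Subgroup ↥(stab p E)).map (stab p E).subtype := by
        intro x hx
        exact ⟨⟨x, hEstab hx⟩, hPE (by rw [Subgroup.mem_subgroupOf]; exact hx), rfl⟩
      have hBle : B.map (MulAut.conj (h : G)).toMonoidHom ≤
          (PE : Subgroup ↥(stab p E)).map (stab p E).subtype := by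
        rintro _ ⟨b, hb, rfl⟩
        refine ⟨h * ⟨b, hBH hb⟩ * h⁻¹, ?_, rfl⟩
        rw [h1]
        exact ⟨⟨b, hBH hb⟩, hPB (by rw [Subgroup.mem_subgroupOf]; exact hb), rfl⟩
      have hc1 := conn_of_le_pGroup p _ hS (vtx_conj p hB (h : G)) hE hBle hEle
      -- conjugate back by h⁻¹
      have hc2 := conn_conj p hc1 (h : G)⁻¹
      rw [← map_conj_mul, inv_mul_cancel, map_conj_one] at hc2
      have hc3 : Relation.ReflTransGen (Adj p) E (E.map (MulAut.conj (h : G)⁻¹).toMonoidHom) :=
        (mem_stab p E _).1 ((stab p E).inv_mem h.2)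
      exact Relation.ReflTransGen.trans hc2 (conn_symm p hc3)
    refine ⟨stab p E, ?_, ?_, ?_⟩
    · intro htop
      apply hnot'
      obtain ⟨S₁, hS₁⟩ := (vtx_isPGroup p hE).exists_le_sylow
      obtain ⟨S₂, hS₂⟩ := (vtx_isPGroup p hE').exists_le_sylow
      obtain ⟨g, hg⟩ := MulAction.exists_smul_eq G S₂ S₁
      have h1 : (S₁ : Subgroup G) = (S₂ : Subgroup G).map (MulAut.conj g).toMonoidHom := by
        rw [← hg]; rfl
      have hE'le : E'.map (MulAut.conj g).toMonoidHom ≤ S₁ := by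
        rw [h1]
        exact Subgroup.map_mono hS₂
      have hc1 := conn_of_le_pGroup p _ S₁.isPGroup' hE (vtx_conj p hE' g) hS₁ hE'le
      have hc2 := conn_conj p hc1 g⁻¹
      rw [← map_conj_mul, inv_mul_cancel, map_conj_one] at hc2
      have hc3 : Relation.ReflTransGen (Adj p) E (E.map (MulAut.conj g⁻¹).toMonoidHom) := by
        rw [← mem_stab, htop]; trivial
      exact Relation.ReflTransGen.trans hc3 hc2
    · obtain ⟨a, ha, hao⟩ := vtx_exists_order p hE
      have h9 : orderOf a ∣ Nat.card ↥(stab p E) := Subgroup.orderOf_dvd_natCard _ (hEstab ha)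
      rwa [hao] at h9
    · intro g hg hdvd
      apply hg
      obtain ⟨x, hx⟩ := exists_prime_orderOf_dvd_card' p hdvd
      have hxo : orderOf (x : G) = p := by rw [Subgroup.orderOf_coe, hx]
      have hX := vtx_zpowers p (x : G) hxo
      have hXH : Subgroup.zpowers (x : G) ≤ stab p E := Subgroup.zpowers_le.2 x.2.1
      have hXg : (Subgroup.zpowers (x : G)).map (MulAut.conj g⁻¹).toMonoidHom ≤ stab p E := by
        rw [Subgroup.map_le_iff_le_comap, Subgroup.zpowers_le]
        obtain ⟨y, hy, hyx⟩ := x.2.2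
        rw [Subgroup.mem_comap]
        have h2 : (MulAut.conj g⁻¹).toMonoidHom (x : G) = y := by
          rw [← hyx]
          simp [MulAut.conj_apply, mul_assoc]
        rw [h2]
        exact hy
      have hc1 := hin _ hX hXH
      have hc2 := hin _ (vtx_conj p hX g⁻¹) hXg
      have hc3 := conn_conj p hc2 g
      rw [← map_conj_mul, mul_inv_cancel, map_conj_one] at hc3
      rw [mem_stab]
      exact Relation.ReflTransGen.trans (conn_symm p hc1) hc3

end Cfsg.Agent.S1336
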