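import Cfsg.Statements.S1337
import Cfsg.Agent.Lib.Helper23.RankTwo

set_option autoImplicit false
open Cfsg

namespace Cfsg.Agent.S1337

open Cfsg.Agent.Lib.Helper23.RankTwo Cfsg.Agent.Lib.Helper53.ElemAb

/-- Let P be a finite p-group of p-rank greater than 2. Then P has a normal elementary abelian subgroup U of order p², and for every elementary abelian X ≤ P with |X| ≥ p²: X is joined to U by a chain of pairwise commuting elementary abelian subgroups of order ≥ p² if and only if C_P(X) has p-rank greater than 2. -/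
theorem result {P : Type*} [Group P] [Finite P] (p : ℕ) [Fact p.Prime] (hP : IsPGroup p P) (hrk : ¬ Cfsg.PRankLE p 2 P) : ∃ U : Subgroup P, U.Normal ∧ Cfsg.IsElementaryAbelian p U ∧ Nat.card ↥U = p ^ 2 ∧ ∀ X : Subgroup P, Cfsg.IsElementaryAbelian p X → p ^ 2 ≤ Nat.card ↥X → (Relation.ReflTransGen (fun A B : Subgroup P => Cfsg.IsElementaryAbelian p A ∧ p ^ 2 ≤ Nat.card ↥A ∧ Cfsg.IsElementaryAbelian p B ∧ p ^ 2 ≤ Nat.card ↥B ∧ ∀ a ∈ A, ∀ b ∈ B, a * b = b * a) X U ↔ ¬ Cfsg.PRankLE p 2 ↥(Subgroup.centralizer (X : Set P))) := by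
  have hpr : p.Prime := Fact.out
  have hrk' := hrk
  unfold Cfsg.PRankLE at hrk'
  push Not at hrk'
  obtain ⟨E, hE1, hE2, hEc⟩ := hrk'
  have hE : Cfsg.IsElementaryAbelian p E := ⟨hE1, hE2⟩
  obtain ⟨U, hUn, hU, hUc⟩ := exists_normal_elemAb_sq hP E hE hEc
  refine ⟨U, hUn, hU, hUc, fun X hX hXc => ?_⟩
  rw [not_pRankLE_centralizer_iff hX]
  constructor
  · intro h
    induction h using Relation.ReflTransGen.head_induction_on with
    | refl => exact good_of_normal hP U hU hUc E hE hEc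
    | head hab _ ih =>
      obtain ⟨hA, hAc, hB, hBc, hcomm⟩ := hab
      exact good_step hA hAc hB hBc hcomm (ih hB hBc)
  · rintro ⟨B, hXB, hB, hBc⟩
    have hB' := (elemAb_iff p B).mp hB
    have hcard := card_le_mul_card_inf_centralizer hP U hU hUc B
    have hB₀c : p ^ 2 ≤ Nat.card ↥(B ⊓ Subgroup.centralizer (U : Set P)) := by
      apply sq_le_card_of_lt hP
      by_contra hcon
      push Not at hcon
      have : p * Nat.card ↥(B ⊓ Subgroup.centralizer (U : Set P)) ≤ p * p :=
        Nat.mul_le_mul_left p hcon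
      nlinarith
    have hB₀ : Cfsg.IsElementaryAbelian p (B ⊓ Subgroup.centralizer (U : Set P)) :=
      elemAb_of_le hB inf_le_left
    refine Relation.ReflTransGen.head (b := B) ⟨hX, hXc, hB, hBc.le, ?_⟩ ?_
    · intro a ha b hb
      exact hB'.1 a (hXB ha) b hb
    refine Relation.ReflTransGen.head (b := B ⊓ Subgroup.centralizer (U : Set P))
      ⟨hB, hBc.le, hB₀, hB₀c, ?_⟩ ?_
    · intro a ha b hb
      exact hB'.1 a ha b hb.1
    refine Relation.ReflTransGen.single ⟨hB₀, hB₀c, hU, hUc.ge, ?_⟩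
    intro a ha b hb
    exact (Subgroup.mem_centralizer_iff.mp ha.2 b hb).symm

end Cfsg.Agent.S1337
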