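-- Statement S1341.
import Cfsg.Statements.S1341
import Cfsg.Agent.Lib.Helper23.PLayer

set_option autoImplicit false
open Cfsg

namespace Cfsg.Agent.S1341

open Cfsg.Agent.Lib.Helper23.PLayer

/-- Let X be finite and T a Sylow 2-subgroup of L_{2'}(X) O_{2',2}(X). Then L*_{2'}(X) = L_{2'}(X) ⊔ O(X) ⊔ O(C_X(T)). -/
theorem result {X : Type*} [Group X] [Finite X] (T : Sylow 2 ↥(Cfsg.pLayer 2 X ⊔ Cfsg.pPrimePCore 2 X)) : Cfsg.extendedTwoLayer X = Cfsg.pLayer 2 X ⊔ Cfsg.oddCore X ⊔ ((Cfsg.oddCore ↥(Subgroup.centralizer (((T : Subgroup ↥(Cfsg.pLayer 2 X ⊔ Cfsg.pPrimePCore 2 X)).map (Cfsg.pLayer 2 X ⊔ Cfsg.pPrimePCore 2 X).subtype : Subgroup X) : Set X))).map (Subgroup.centralizer (((T : Subgroup ↥(Cfsg.pLayer 2 X ⊔ Cfsg.pPrimePCore 2 X)).map (Cfsg.pLayer 2 X ⊔ Cfsg.pPrimePCore 2 X).subtype : Subgroup X) : Set X)).subtype) := by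
  have : Fact (Nat.Prime 2) := ⟨Nat.prime_two⟩
  unfold extendedTwoLayer
  apply le_antisymm
  · apply sup_le le_sup_left
    apply iSup_le
    intro T'
    obtain ⟨m, hm, hT'⟩ := sylow_conj_decomp 2 T T'
    rw [hT']
    show (pPrimeCore 2 _).map _ ≤ _
    rw [pPrimeCore_centralizer_conj]
    rintro _ ⟨d, hd, rfl⟩
    show m * d * m⁻¹ ∈ _
    exact Subgroup.mul_mem _ (Subgroup.mul_mem _ (Subgroup.mem_sup_left hm) (Subgroup.mem_sup_right hd))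
      (Subgroup.inv_mem _ (Subgroup.mem_sup_left hm))
  · apply sup_le_sup_left
    exact le_iSup (fun T' : Sylow 2 ↥(Cfsg.pLayer 2 X ⊔ Cfsg.pPrimePCore 2 X) =>
      ((Cfsg.oddCore ↥(Subgroup.centralizer (((T' : Subgroup ↥(Cfsg.pLayer 2 X ⊔ Cfsg.pPrimePCore 2 X)).map (Cfsg.pLayer 2 X ⊔ Cfsg.pPrimePCore 2 X).subtype : Subgroup X) : Set X))).map (Subgroup.centralizer (((T' : Subgroup ↥(Cfsg.pLayer 2 X ⊔ Cfsg.pPrimePCore 2 X)).map (Cfsg.pLayer 2 X ⊔ Cfsg.pPrimePCore 2 X).subtype : Subgroup X) : Set X)).subtype)) T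

end Cfsg.Agent.S1341
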