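-- Statement S1342.
import Cfsg.Statements.S1342
import Cfsg.Agent.Lib.Helper23.PLayer
import Cfsg.Agent.S1341

set_option autoImplicit false
open Cfsg

namespace Cfsg.Agent.S1342

open Cfsg.Agent.Lib.Helper23.PLayer
open Cfsg.Agent.Lib.Helper23.Cores

/-- For a finite group X, L*_{2'}(X) is normal in X. -/
theorem result {X : Type*} [Group X] [Finite X] : (Cfsg.extendedTwoLayer X).Normal := by
  classical
  have hfact : Fact (Nat.Prime 2) := ⟨Nat.prime_two⟩
  obtain ⟨T⟩ : Nonempty (Sylow 2 ↥(pLayer 2 X ⊔ pPrimePCore 2 X)) := inferInstance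
  have hNn : (pLayer 2 X ⊔ pPrimePCore 2 X).Normal := pLayer_sup_pPrimePCore_normal 2 X
  have hLn := pLayer_normal 2 X
  constructor
  intro n hn g
  let T'' : Sylow 2 ↥(pLayer 2 X ⊔ pPrimePCore 2 X) :=
    (MulAut.conjNormal g : MulAut ↥(pLayer 2 X ⊔ pPrimePCore 2 X)) • T
  have hT'' : (T'' : Subgroup ↥(pLayer 2 X ⊔ pPrimePCore 2 X)).map
      (pLayer 2 X ⊔ pPrimePCore 2 X).subtype =
      ((T : Subgroup ↥(pLayer 2 X ⊔ pPrimePCore 2 X)).map
        (pLayer 2 X ⊔ pPrimePCore 2 X).subtype).map (MulAut.conj g).toMonoidHom := by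
    have h1 : (T'' : Subgroup ↥(pLayer 2 X ⊔ pPrimePCore 2 X)) =
        (T : Subgroup ↥(pLayer 2 X ⊔ pPrimePCore 2 X)).map
          (MulAut.conjNormal g : MulAut ↥(pLayer 2 X ⊔ pPrimePCore 2 X)).toMonoidHom := rfl
    rw [h1, Subgroup.map_map, Subgroup.map_map]
    congr 1
  have e1 := Cfsg.Agent.S1341.result T
  have e2 := Cfsg.Agent.S1341.result T''
  rw [hT''] at e2
  have e3 := pPrimeCore_centralizer_conj 2 ((T : Subgroup ↥(pLayer 2 X ⊔ pPrimePCore 2 X)).map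
        (pLayer 2 X ⊔ pPrimePCore 2 X).subtype) g
  rw [e3] at e2
  rw [e2]
  rw [e1] at hn
  have h4 : g * n * g⁻¹ ∈ (pLayer 2 X ⊔ oddCore X ⊔
      (oddCore ↥(Subgroup.centralizer (((T : Subgroup ↥(pLayer 2 X ⊔ pPrimePCore 2 X)).map
        (pLayer 2 X ⊔ pPrimePCore 2 X).subtype : Subgroup X) : Set X))).map
        (Subgroup.centralizer (((T : Subgroup ↥(pLayer 2 X ⊔ pPrimePCore 2 X)).map
        (pLayer 2 X ⊔ pPrimePCore 2 X).subtype : Subgroup X) : Set X)).subtype).map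
        (MulAut.conj g).toMonoidHom := ⟨n, hn, rfl⟩
  rw [Subgroup.map_sup, Subgroup.map_sup, map_conj_of_normal, map_conj_of_normal] at h4
  exact h4

end Cfsg.Agent.S1342
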