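-- Statement S1343.
import Cfsg.Statements.S1343
import Cfsg.Agent.Lib.Helper23.PLayer
import Cfsg.Agent.S1341

set_option autoImplicit false
open Cfsg

namespace Cfsg.Agent.S1343

open Cfsg.Agent.Lib.Helper23.PLayer
open Cfsg.Agent.Lib.Helper23.Cores

/-- Let X be finite. Then L*_{2'}(X) = L_{2'}(X) ⊔ F for some subgroup F of odd order normalized by a Sylow 2-subgroup of X. -/
theorem result {X : Type*} [Group X] [Finite X] : ∃ F : Subgroup X, Odd (Nat.card ↥F) ∧ (∃ S : Sylow 2 X, (S : Subgroup X) ≤ Subgroup.normalizer (F : Set X)) ∧ Cfsg.extendedTwoLayer X = Cfsg.pLayer 2 X ⊔ F := by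
  classical
  have hfact : Fact (Nat.Prime 2) := ⟨Nat.prime_two⟩
  obtain ⟨T⟩ : Nonempty (Sylow 2 ↥(pLayer 2 X ⊔ pPrimePCore 2 X)) := inferInstance
  have hNn : (pLayer 2 X ⊔ pPrimePCore 2 X).Normal := pLayer_sup_pPrimePCore_normal 2 X
  have hres := Cfsg.Agent.S1341.result T
  revert hres
  generalize hThat : (T : Subgroup ↥(pLayer 2 X ⊔ pPrimePCore 2 X)).map
    (pLayer 2 X ⊔ pPrimePCore 2 X).subtype = That
  intro hres
  refine ⟨oddCore X ⊔ (oddCore ↥(Subgroup.centralizer (That : Set X))).map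
    (Subgroup.centralizer (That : Set X)).subtype, ?_, ?_, ?_⟩
  · have h1 := card_sup_dvd_mul ((oddCore ↥(Subgroup.centralizer (That : Set X))).map
      (Subgroup.centralizer (That : Set X)).subtype) (oddCore X)
    rw [sup_comm]
    apply Odd.of_dvd_nat _ h1
    apply Odd.mul
    · rw [Subgroup.card_map_of_injective (Subgroup.subtype_injective _)]
      exact Nat.coprime_two_right.1 (pPrimeCore_card_coprime 2)
    · exact Nat.coprime_two_right.1 (pPrimeCore_card_coprime 2)
  · have hTp : IsPGroup 2 ↥That := by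
      rw [← hThat]; exact T.isPGroup'.map _
    obtain ⟨S, hS⟩ := hTp.exists_le_sylow
    refine ⟨S, ?_⟩
    have hSN : (S : Subgroup X) ⊓ (pLayer 2 X ⊔ pPrimePCore 2 X) = That := by
      have hpg : IsPGroup 2 ↥(((S : Subgroup X) ⊓ (pLayer 2 X ⊔ pPrimePCore 2 X)).subgroupOf
          (pLayer 2 X ⊔ pPrimePCore 2 X)) := by
        have h1 : IsPGroup 2 ↥((S : Subgroup X) ⊓ (pLayer 2 X ⊔ pPrimePCore 2 X)) :=
          S.isPGroup'.to_le inf_le_left
        exact h1.comap_of_injective (Subgroup.subtype _) (Subgroup.subtype_injective _)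
      have hle : (T : Subgroup ↥(pLayer 2 X ⊔ pPrimePCore 2 X)) ≤
          ((S : Subgroup X) ⊓ (pLayer 2 X ⊔ pPrimePCore 2 X)).subgroupOf
            (pLayer 2 X ⊔ pPrimePCore 2 X) := by
        intro x hx
        rw [Subgroup.mem_subgroupOf]
        refine ⟨hS ?_, x.2⟩
        rw [← hThat]
        exact ⟨x, hx, rfl⟩
      have heq := T.is_maximal' hpg hle
      apply le_antisymm
      · intro x hx
        have hxN : x ∈ pLayer 2 X ⊔ pPrimePCore 2 X := hx.2
        have h2 : (⟨x, hxN⟩ : ↥(pLayer 2 X ⊔ pPrimePCore 2 X)) ∈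
            ((S : Subgroup X) ⊓ (pLayer 2 X ⊔ pPrimePCore 2 X)).subgroupOf
              (pLayer 2 X ⊔ pPrimePCore 2 X) := by
          rw [Subgroup.mem_subgroupOf]; exact hx
        rw [heq] at h2
        rw [← hThat]
        exact ⟨⟨x, hxN⟩, h2, rfl⟩
      · apply le_inf hS
        rw [← hThat]
        rintro x ⟨y, _, rfl⟩
        exact y.2
    intro s hs
    have h2 : That.map (MulAut.conj s).toMonoidHom = That := by
      rw [← hSN]
      apply le_antisymm
      · rintro _ ⟨y, hy, rfl⟩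
        exact ⟨Subgroup.mul_mem _ (Subgroup.mul_mem _ hs hy.1) (Subgroup.inv_mem _ hs),
          hNn.conj_mem y hy.2 s⟩
      · intro y hy
        refine ⟨s⁻¹ * y * s, ⟨?_, ?_⟩, ?_⟩
        · exact Subgroup.mul_mem _ (Subgroup.mul_mem _ (Subgroup.inv_mem _ hs) hy.1) hs
        · have := hNn.conj_mem y hy.2 s⁻¹
          simpa using this
        · simp [MulAut.conj_apply, mul_assoc]
    have h3 := pPrimeCore_centralizer_conj 2 That s
    rw [h2] at h3
    rw [Subgroup.mem_normalizer_iff_map_conj_eq]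
    show (oddCore X ⊔ (oddCore ↥(Subgroup.centralizer (That : Set X))).map
      (Subgroup.centralizer (That : Set X)).subtype).map (MulAut.conj s).toMonoidHom = _
    rw [Subgroup.map_sup, map_conj_of_normal]
    congr 1
    exact h3.symm
  · rw [hres, sup_assoc]

end Cfsg.Agent.S1343
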