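-- Statement S1344.
import Cfsg.Statements.S1344
import Cfsg.Agent.Lib.Helper23.TwoComp
import Cfsg.Agent.S1341

set_option autoImplicit false
open Cfsg

namespace Cfsg.Agent.S1344

open Cfsg.Agent.Lib.Helper23.PLayer
open Cfsg.Agent.Lib.Helper23.Cores
open Cfsg.Agent.Lib.Helper23.TwoComp
open Cfsg.Agent.Lib.Helper21
open Cfsg.Agent.Lib.Helper29.Basic

/-- Let K be a 2-component of the finite group X. Then K ≤ L*_{2'}(X) and K is normal in L*_{2'}(X). -/
theorem result {X : Type*} [Group X] [Finite X] (K : Subgroup X) (hK : Cfsg.IsPComponent 2 K) : K ≤ Cfsg.extendedTwoLayer X ∧ (K.subgroupOf (Cfsg.extendedTwoLayer X)).Normal := by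
  classical
  have hfact : Fact (Nat.Prime 2) := ⟨Nat.prime_two⟩
  have hKL : K ≤ pLayer 2 X := le_sSup hK
  have hLN : pLayer 2 X ≤ pLayer 2 X ⊔ pPrimePCore 2 X := le_sup_left
  obtain ⟨S₀⟩ : Nonempty (Sylow 2 ↥K) := inferInstance
  have hS₀p : IsPGroup 2 ↥(((S₀ : Subgroup ↥K).map K.subtype).subgroupOf
      (pLayer 2 X ⊔ pPrimePCore 2 X)) :=
    (S₀.isPGroup'.map K.subtype).comap_of_injective (Subgroup.subtype _)
      (Subgroup.subtype_injective _)
  obtain ⟨T, hT⟩ := hS₀p.exists_le_sylow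
  have hres := Cfsg.Agent.S1341.result T
  have hKle : K ≤ extendedTwoLayer X := by
    rw [hres]
    exact hKL.trans (le_sup_left.trans le_sup_left)
  refine ⟨hKle, ?_⟩
  rw [Subgroup.normal_subgroupOf_iff_le_normalizer hKle, hres]
  have key : ∀ g : X, (K.map (QuotientGroup.mk' (pPrimeCore 2 X))).map
      (MulAut.conj (QuotientGroup.mk' (pPrimeCore 2 X) g)).toMonoidHom =
      K.map (QuotientGroup.mk' (pPrimeCore 2 X)) → g ∈ Subgroup.normalizer (K : Set X) :=
    fun g h => Subgroup.mem_normalizer_iff_map_conj_eq.2 (isPComponent_map_conj_eq hK g h)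
  apply sup_le (sup_le ?_ ?_) ?_
  · apply sSup_le
    intro K' hK' g hg
    apply key
    apply Subgroup.mem_normalizer_iff_map_conj_eq.1
    by_cases heq : K'.map (QuotientGroup.mk' (pPrimeCore 2 X)) =
        K.map (QuotientGroup.mk' (pPrimeCore 2 X))
    · have hgK : QuotientGroup.mk' (pPrimeCore 2 X) g ∈
          K.map (QuotientGroup.mk' (pPrimeCore 2 X)) := heq ▸ ⟨g, hg, rfl⟩
      exact Subgroup.le_normalizer hgK
    · have hcomm := Comp.components_commute (K'.map (QuotientGroup.mk' (pPrimeCore 2 X)))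
        (K.map (QuotientGroup.mk' (pPrimeCore 2 X))) hK'.2.1 hK.2.1 heq
      rw [Subgroup.commutator_eq_bot_iff_le_centralizer] at hcomm
      exact Subgroup.centralizer_le_normalizer _ (hcomm ⟨g, hg, rfl⟩)
  · intro g hg
    apply key
    apply Subgroup.mem_normalizer_iff_map_conj_eq.1
    have h1 : QuotientGroup.mk' (pPrimeCore 2 X) g = 1 := (QuotientGroup.eq_one_iff g).2 hg
    rw [h1]
    exact Subgroup.one_mem _
  · rintro _ ⟨⟨g, hgc⟩, hgD, rfl⟩
    apply key
    by_contra hne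
    have hcomp' : IsComponent ((K.map (QuotientGroup.mk' (pPrimeCore 2 X))).map
        (MulAut.conj (QuotientGroup.mk' (pPrimeCore 2 X) g)).toMonoidHom) :=
      isComponent_map_conj hK.2.1 _
    have hcomm := Comp.components_commute _ (K.map (QuotientGroup.mk' (pPrimeCore 2 X)))
      hcomp' hK.2.1 hne
    rw [Subgroup.commutator_eq_bot_iff_le_centralizer] at hcomm
    apply no_central_sylow (K.map (QuotientGroup.mk' (pPrimeCore 2 X))) hK.2.1
      (S₀.mapSurjective ((QuotientGroup.mk' (pPrimeCore 2 X)).subgroupMap_surjective K))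
    rintro _ ⟨x, hx, rfl⟩
    rw [Subgroup.mem_center_iff]
    intro y
    have hxT : (x : X) ∈ (T : Subgroup ↥(pLayer 2 X ⊔ pPrimePCore 2 X)).map
        (Subgroup.subtype _) := by
      have h2 : (⟨(x : X), hLN (hKL x.2)⟩ : ↥(pLayer 2 X ⊔ pPrimePCore 2 X)) ∈
          (T : Subgroup ↥(pLayer 2 X ⊔ pPrimePCore 2 X)) := by
        apply hT
        rw [Subgroup.mem_subgroupOf]
        exact ⟨x, hx, rfl⟩
      exact ⟨_, h2, rfl⟩
    have hgx : (x : X) * g = g * (x : X) := (Subgroup.mem_centralizer_iff.1 hgc) (x : X) hxT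
    have hmem : QuotientGroup.mk' (pPrimeCore 2 X) (x : X) ∈
        (K.map (QuotientGroup.mk' (pPrimeCore 2 X))).map
          (MulAut.conj (QuotientGroup.mk' (pPrimeCore 2 X) g)).toMonoidHom := by
      refine ⟨QuotientGroup.mk' (pPrimeCore 2 X) (x : X), ⟨(x : X), x.2, rfl⟩, ?_⟩
      show QuotientGroup.mk' (pPrimeCore 2 X) g * QuotientGroup.mk' (pPrimeCore 2 X) (x : X) *
        (QuotientGroup.mk' (pPrimeCore 2 X) g)⁻¹ = QuotientGroup.mk' (pPrimeCore 2 X) (x : X)
      rw [← map_mul, ← hgx, map_mul, mul_inv_cancel_right]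
    have hcen := hcomm hmem
    have h3 := (Subgroup.mem_centralizer_iff.1 hcen) (y : X ⧸ pPrimeCore 2 X) y.2
    apply Subtype.ext
    exact h3

end Cfsg.Agent.S1344
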