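import Cfsg.Statements.S1348
import Cfsg.Agent.Lib.Helper5.BlockLast
import Cfsg.Agent.Lib.Helper5.QuasiComm
import Cfsg.Agent.Lib.Helper21.Quasi
import Cfsg.Agent.S0248
import Cfsg.Agent.S0249

set_option autoImplicit false
open Cfsg

namespace Cfsg.Agent.S1348

open Cfsg.Agent.Lib.Helper5.BlockLast
open Cfsg.Agent.Lib.Helper21
open scoped commutatorElement

section

variable {F : Type*} [Field F] {m : ℕ}

/-- the block subgroup `SL_m` of `SL_{m+1}`. -/
def E (m : ℕ) (F : Type*) [Field F] : Subgroup (Matrix.SpecialLinearGroup (Fin (m + 1)) F) :=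
  (emb : Matrix.SpecialLinearGroup (Fin m) F →* _).range

lemma mem_E_iff (g : Matrix.SpecialLinearGroup (Fin (m + 1)) F) :
    g ∈ E m F ↔ IsBlk g.1 ∧ g.1 (Fin.last m) (Fin.last m) = 1 := by
  constructor
  · rintro ⟨S, rfl⟩
    rw [emb_coe]
    exact ⟨isBlk_blk _ _, blk_ll _ _⟩
  · rintro ⟨h1, h2⟩
    obtain ⟨S, hS⟩ := exists_of_isBlk h1 h2 g.2
    exact ⟨S, Subtype.ext hS⟩

lemma dfun_eq :
    (fun i : Fin (m + 1) => if (i : ℕ) + 1 = m + 1 then (1 : F) else -1)
      = Fin.lastCases (1 : F) (fun _ => (-1 : F)) := by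
  funext i
  induction i using Fin.lastCases with
  | last => simp
  | cast i =>
    have hi : ((Fin.castSucc i : Fin (m + 1)) : ℕ) + 1 ≠ m + 1 := by
      simp only [Fin.val_castSucc]; omega
    rw [Fin.lastCases_castSucc, if_neg hi]

lemma t_coe {t : Matrix.SpecialLinearGroup (Fin (m + 1)) F}
    (ht : (t : Matrix (Fin (m + 1)) (Fin (m + 1)) F)
      = Matrix.diagonal (fun i : Fin (m + 1) => if (i : ℕ) + 1 = m + 1 then (1 : F) else -1)) :
    t.1 = blk ((-1 : F) • (1 : Matrix (Fin m) (Fin m) F)) 1 := by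
  rw [ht, dfun_eq, blk_smul_one]

lemma isBlk_of_comm (h2 : (2 : F) ≠ 0) {t g : Matrix.SpecialLinearGroup (Fin (m + 1)) F}
    (ht : t.1 = blk ((-1 : F) • (1 : Matrix (Fin m) (Fin m) F)) 1)
    (hg : g * t = t * g) : IsBlk g.1 := by
  apply isBlk_of_commute (d := Fin.lastCases (1 : F) (fun _ => (-1 : F)))
  · have := congrArg Subtype.val hg
    rw [Matrix.SpecialLinearGroup.coe_mul, Matrix.SpecialLinearGroup.coe_mul, ht,
      blk_smul_one] at this
    exact this
  · intro i
    simp only [Fin.lastCases_castSucc, Fin.lastCases_last]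
    intro h
    apply h2
    linear_combination (-1 : F) * h

lemma inv_comm {G : Type*} [Group G] {g t : G} (hg : g * t = t * g) : g⁻¹ * t = t * g⁻¹ := by
  calc g⁻¹ * t = g⁻¹ * (t * g) * g⁻¹ := by group
    _ = g⁻¹ * (g * t) * g⁻¹ := by rw [hg]
    _ = t * g⁻¹ := by group

lemma coe_mul_inv (g : Matrix.SpecialLinearGroup (Fin (m + 1)) F) : g.1 * (g⁻¹).1 = 1 := by
  rw [← Matrix.SpecialLinearGroup.coe_mul, mul_inv_cancel]; rfl

lemma coe_inv_mul (g : Matrix.SpecialLinearGroup (Fin (m + 1)) F) : (g⁻¹).1 * g.1 = 1 := by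
  rw [← Matrix.SpecialLinearGroup.coe_mul, inv_mul_cancel]; rfl

lemma conj_mem_E (h2 : (2 : F) ≠ 0) {t g : Matrix.SpecialLinearGroup (Fin (m + 1)) F}
    (ht : t.1 = blk ((-1 : F) • (1 : Matrix (Fin m) (Fin m) F)) 1)
    (hg : g * t = t * g) {h : Matrix.SpecialLinearGroup (Fin (m + 1)) F} (hh : h ∈ E m F) :
    g * h * g⁻¹ ∈ E m F := by
  rw [mem_E_iff] at hh ⊢
  have := conj_blk (isBlk_of_comm h2 ht hg) (isBlk_of_comm h2 ht (inv_comm hg)) hh.1 hh.2
    (coe_mul_inv g)
  rw [Matrix.SpecialLinearGroup.coe_mul, Matrix.SpecialLinearGroup.coe_mul]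
  exact this

lemma comm_blk {x x' y y' : Matrix (Fin (m + 1)) (Fin (m + 1)) F} (hx : IsBlk x) (hx' : IsBlk x')
    (hy : IsBlk y) (hy' : IsBlk y') (hxx : x * x' = 1) (hyy : y * y' = 1) :
    IsBlk (x * y * x' * y') ∧ (x * y * x' * y') (Fin.last m) (Fin.last m) = 1 := by
  have e1 := hxx
  have e2 := hyy
  rw [hx.eq_blk, hx'.eq_blk, blk_mul, ← blk_one] at e1
  rw [hy.eq_blk, hy'.eq_blk, blk_mul, ← blk_one] at e2
  have f1 := (blk_inj e1).2
  have f2 := (blk_inj e2).2
  rw [hx.eq_blk, hx'.eq_blk, hy.eq_blk, hy'.eq_blk, blk_mul, blk_mul, blk_mul]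
  refine ⟨isBlk_blk _ _, ?_⟩
  rw [blk_ll]
  calc x (Fin.last m) (Fin.last m) * y (Fin.last m) (Fin.last m) * x' (Fin.last m) (Fin.last m)
        * y' (Fin.last m) (Fin.last m)
      = (x (Fin.last m) (Fin.last m) * x' (Fin.last m) (Fin.last m))
        * (y (Fin.last m) (Fin.last m) * y' (Fin.last m) (Fin.last m)) := by ring
    _ = 1 := by rw [f1, f2, mul_one]

lemma mem_cent_iff (hm : 2 ≤ m) (g : Matrix.SpecialLinearGroup (Fin (m + 1)) F) :
    g ∈ Subgroup.centralizer (E m F : Set (Matrix.SpecialLinearGroup (Fin (m + 1)) F))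
      ↔ ∃ b a : F, g.1 = blk (b • (1 : Matrix (Fin m) (Fin m) F)) a := by
  constructor
  · intro hg
    apply cent_emb hm
    intro S
    have h1 := hg (emb S) ⟨S, rfl⟩
    have h2 := congrArg Subtype.val h1
    rw [Matrix.SpecialLinearGroup.coe_mul, Matrix.SpecialLinearGroup.coe_mul, emb_coe] at h2
    exact h2.symm
  · rintro ⟨b, a, hg⟩
    rw [Subgroup.mem_centralizer_iff]
    rintro _ ⟨S, rfl⟩
    apply Subtype.ext
    rw [Matrix.SpecialLinearGroup.coe_mul, Matrix.SpecialLinearGroup.coe_mul, emb_coe, hg,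
      blk_mul, blk_mul]
    simp

lemma comm_of_blk {x y : Matrix.SpecialLinearGroup (Fin (m + 1)) F} {b a : F}
    (hx : x.1 = blk (b • (1 : Matrix (Fin m) (Fin m) F)) a) (hy : IsBlk y.1) : x * y = y * x := by
  apply Subtype.ext
  rw [Matrix.SpecialLinearGroup.coe_mul, Matrix.SpecialLinearGroup.coe_mul, hx, hy.eq_blk,
    blk_mul, blk_mul]
  simp [mul_comm]

lemma zero_block_false (hm : 2 ≤ m) (g : Matrix.SpecialLinearGroup (Fin (m + 1)) F)
    (hz : ∀ k l : Fin m, g.1 (Fin.castSucc k) (Fin.castSucc l) = 0) : False := by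
  have hBg := coe_inv_mul g
  have e00 := congrFun (congrFun hBg (Fin.castSucc ⟨0, by omega⟩)) (Fin.castSucc ⟨0, by omega⟩)
  have e01 := congrFun (congrFun hBg (Fin.castSucc ⟨0, by omega⟩)) (Fin.castSucc ⟨1, by omega⟩)
  have e11 := congrFun (congrFun hBg (Fin.castSucc ⟨1, by omega⟩)) (Fin.castSucc ⟨1, by omega⟩)
  simp only [Matrix.mul_apply, Fin.sum_univ_castSucc, hz, mul_zero, Finset.sum_const_zero,
    zero_add, Matrix.one_apply_eq] at e00 e01 e11
  have h01 : (1 : Matrix (Fin (m + 1)) (Fin (m + 1)) F) (Fin.castSucc ⟨0, by omega⟩)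
      (Fin.castSucc ⟨1, by omega⟩) = 0 := by
    rw [Matrix.one_apply, if_neg]
    simp [Fin.ext_iff]
  rw [h01] at e01
  rcases mul_eq_zero.1 e01 with h | h
  · rw [h, zero_mul] at e00; exact zero_ne_one e00
  · rw [h, mul_zero] at e11; exact zero_ne_one e11

lemma conj_eq (hm : 2 ≤ m) {x y g : Matrix.SpecialLinearGroup (Fin (m + 1)) F} {b a b' a' : F}
    (hx : x.1 = blk (b • (1 : Matrix (Fin m) (Fin m) F)) a)
    (hy : y.1 = blk (b' • (1 : Matrix (Fin m) (Fin m) F)) a') (h : g * y = x * g) : y = x := by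
  have h1 := congrArg Subtype.val h
  rw [Matrix.SpecialLinearGroup.coe_mul, Matrix.SpecialLinearGroup.coe_mul, hx, hy, blk_smul_one,
    blk_smul_one] at h1
  have key : ∀ i j, g.1 i j * (Fin.lastCases a' (fun _ => b') : Fin (m + 1) → F) j
      = (Fin.lastCases a (fun _ => b) : Fin (m + 1) → F) i * g.1 i j := fun i j => by
    have := congrFun (congrFun h1 i) j
    simpa [Matrix.mul_diagonal, Matrix.diagonal_mul] using this
  have hb : b' = b := by
    by_contra hne
    apply zero_block_false hm g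
    intro k l
    have := key (Fin.castSucc k) (Fin.castSucc l)
    simp only [Fin.lastCases_castSucc] at this
    have h3 : g.1 (Fin.castSucc k) (Fin.castSucc l) * (b' - b) = 0 := by linear_combination this
    rcases mul_eq_zero.1 h3 with h4 | h4
    · exact h4
    · exact absurd (sub_eq_zero.1 h4) hne
  subst hb
  have dx : b' ^ m * a = 1 := by
    have := x.2
    rw [hx, det_blk, Matrix.det_smul, Matrix.det_one, Fintype.card_fin, mul_one] at this
    exact this
  have dy : b' ^ m * a' = 1 := by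
    have := y.2
    rw [hy, det_blk, Matrix.det_smul, Matrix.det_one, Fintype.card_fin, mul_one] at this
    exact this
  have hbm : b' ^ m ≠ 0 := by
    intro h0; rw [h0, zero_mul] at dx; exact zero_ne_one dx
  have ha : a' = a := mul_left_cancel₀ hbm (dy.trans dx.symm)
  subst ha
  exact Subtype.ext (hy.trans hx.symm)

lemma blk_scalar (b : F) :
    blk (b • (1 : Matrix (Fin m) (Fin m) F)) b = b • (1 : Matrix (Fin (m + 1)) (Fin (m + 1)) F) := by
  rw [blk_smul_one]
  have : (Fin.lastCases b (fun _ => b) : Fin (m + 1) → F) = fun _ => b := by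
    funext i
    induction i using Fin.lastCases with
    | last => simp
    | cast i => simp
  rw [this]
  ext i j
  simp [Matrix.diagonal_apply, Matrix.one_apply]

end

section fin

variable {F : Type*} [Field F] [Fintype F] [DecidableEq F] {m : ℕ}

lemma quasi_SL (hm : 3 ≤ m) : IsQuasisimple (Matrix.SpecialLinearGroup (Fin m) F) :=
  ⟨⟨Cfsg.Agent.S0248.result m hm⟩, Cfsg.Agent.S0249.result m hm⟩

lemma layer_eq_E (h2 : (2 : F) ≠ 0) (hm : 3 ≤ m) (t : Matrix.SpecialLinearGroup (Fin (m + 1)) F)
    (ht : t.1 = blk ((-1 : F) • (1 : Matrix (Fin m) (Fin m) F)) 1) :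
    (Cfsg.layer ↥(Subgroup.centralizer ({t} : Set (Matrix.SpecialLinearGroup (Fin (m + 1)) F)))).map
      (Subgroup.centralizer ({t} : Set (Matrix.SpecialLinearGroup (Fin (m + 1)) F))).subtype
      = E m F := by
  set C := Subgroup.centralizer ({t} : Set (Matrix.SpecialLinearGroup (Fin (m + 1)) F)) with hC
  have htc : t ∈ Subgroup.centralizer (E m F : Set (Matrix.SpecialLinearGroup (Fin (m + 1)) F)) :=
    (mem_cent_iff (by omega) t).2 ⟨-1, 1, ht⟩
  have hmemC : ∀ S : Matrix.SpecialLinearGroup (Fin m) F, emb S ∈ C := by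
    intro S
    rw [hC, Subgroup.mem_centralizer_iff]
    intro h hh
    rw [Set.mem_singleton_iff] at hh
    subst hh
    exact (htc (emb S) ⟨S, rfl⟩).symm
  let ψ : Matrix.SpecialLinearGroup (Fin m) F →* ↥C := emb.codRestrict C hmemC
  have hψinj : Function.Injective ψ := by
    intro S T hST
    apply emb_injective
    exact congrArg Subtype.val hST
  have hcomm : commutator ↥C = ψ.range := by
    apply le_antisymm
    · rw [commutator_def, Subgroup.commutator_le]
      intro x _ y _
      have hx : (x : Matrix.SpecialLinearGroup (Fin (m + 1)) F) * t = t * x :=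
        (Subgroup.mem_centralizer_iff.1 x.2 t rfl).symm
      have hy : (y : Matrix.SpecialLinearGroup (Fin (m + 1)) F) * t = t * y :=
        (Subgroup.mem_centralizer_iff.1 y.2 t rfl).symm
      have key := comm_blk (isBlk_of_comm h2 ht hx) (isBlk_of_comm h2 ht (inv_comm hx))
        (isBlk_of_comm h2 ht hy) (isBlk_of_comm h2 ht (inv_comm hy))
        (coe_mul_inv x.1) (coe_mul_inv y.1)
      have hmem : (x.1 * y.1 * x.1⁻¹ * y.1⁻¹ : Matrix.SpecialLinearGroup (Fin (m + 1)) F) ∈ E m F := by
        rw [mem_E_iff]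
        simp only [Matrix.SpecialLinearGroup.coe_mul]
        exact key
      obtain ⟨S, hS⟩ := hmem
      refine ⟨S, ?_⟩
      apply Subtype.ext
      rw [commutatorElement_def]
      exact hS
    · rw [MonoidHom.range_eq_map, ← Cfsg.Agent.S0248.result m hm, commutator_def,
        Subgroup.map_commutator, commutator_def]
      exact Subgroup.commutator_mono le_top le_top
  have hQ : IsQuasisimple ↥(commutator ↥C) := by
    rw [hcomm]
    exact Quasi.of_mulEquiv (MonoidHom.ofInjective hψinj) (quasi_SL hm)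
  rw [Cfsg.Agent.Lib.Helper5.QuasiComm.layer_eq hQ, hcomm, MonoidHom.map_range]
  rfl

theorem main (h2 : (2 : F) ≠ 0) (hm : 3 ≤ m) (hodd : Odd (m + 1))
    (t : Matrix.SpecialLinearGroup (Fin (m + 1)) F)
    (ht : t.1 = blk ((-1 : F) • (1 : Matrix (Fin m) (Fin m) F)) 1) :
    Cfsg.IsStandardSubgroup ((Cfsg.layer ↥(Subgroup.centralizer
      ({t} : Set (Matrix.SpecialLinearGroup (Fin (m + 1)) F)))).map
      (Subgroup.centralizer ({t} : Set (Matrix.SpecialLinearGroup (Fin (m + 1)) F))).subtype) := by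
  rw [layer_eq_E h2 hm t ht]
  have hm2 : 2 ≤ m := by omega
  have hQ : IsQuasisimple ↥(E m F) :=
    Quasi.of_mulEquiv (MonoidHom.ofInjective emb_injective) (quasi_SL hm)
  have htc : t ∈ Subgroup.centralizer (E m F : Set (Matrix.SpecialLinearGroup (Fin (m + 1)) F)) :=
    (mem_cent_iff hm2 t).2 ⟨-1, 1, ht⟩
  -- an element of the centralizer of `E` commuting with a non-normalizing `g`-conjugate is scalar
  have hnorm_of_blk : ∀ g : Matrix.SpecialLinearGroup (Fin (m + 1)) F, IsBlk g.1 →
      g ∈ Subgroup.normalizer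
        (Subgroup.centralizer (E m F : Set (Matrix.SpecialLinearGroup (Fin (m + 1)) F)) : Set _) := by
    intro g hg
    have hcen : ∀ z ∈ Subgroup.centralizer (E m F : Set (Matrix.SpecialLinearGroup (Fin (m + 1)) F)),
        g * z * g⁻¹ = z := by
      intro z hz
      obtain ⟨b, a, hz'⟩ := (mem_cent_iff hm2 z).1 hz
      rw [← comm_of_blk hz' hg]
      group
    rw [Subgroup.mem_normalizer_iff]
    intro z
    constructor
    · intro hz
      rw [hcen z hz]; exact hz
    · intro hz
      have hw := hcen _ hz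
      have h4 : g * z * g⁻¹ = z := by
        have := congrArg (fun u => g⁻¹ * u * g) hw
        simpa [mul_assoc] using this
      rw [← h4]; exact hz
  refine ⟨hQ, ⟨?_, ?_⟩, ?_, ?_⟩
  · -- even order
    have ht2 : orderOf t = 2 := by
      apply orderOf_eq_prime
      · apply Subtype.ext
        rw [pow_two, Matrix.SpecialLinearGroup.coe_mul, ht, blk_mul]
        simp [blk_one]
      · intro h1
        have := congrArg Subtype.val h1
        rw [ht] at this
        have h3 := congrFun (congrFun this (Fin.castSucc ⟨0, by omega⟩))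
          (Fin.castSucc ⟨0, by omega⟩)
        rw [blk_cc] at h3
        simp at h3
        apply h2
        linear_combination (-1 : F) * h3
    have := Subgroup.orderOf_dvd_natCard _ htc
    rw [ht2] at this
    exact even_iff_two_dvd.2 this
  · intro g hg
    have hexp : ∀ x ∈ Subgroup.centralizer
          (E m F : Set (Matrix.SpecialLinearGroup (Fin (m + 1)) F)) ⊓
        (Subgroup.centralizer (E m F : Set (Matrix.SpecialLinearGroup (Fin (m + 1)) F))).map
          (MulAut.conj g).toMonoidHom, x ^ (m + 1) = 1 := by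
      rintro x ⟨hx1, hx2⟩
      obtain ⟨b, a, hx⟩ := (mem_cent_iff hm2 x).1 hx1
      obtain ⟨y, hy1, hy2⟩ := hx2
      obtain ⟨b', a', hy⟩ := (mem_cent_iff hm2 y).1 hy1
      have hgy : g * y = x * g := by
        rw [← hy2]; simp [MulAut.conj_apply]
      have hyx := conj_eq hm2 hx hy hgy
      subst hyx
      have hab : a = b := by
        by_contra hne
        apply hg
        apply hnorm_of_blk
        apply isBlk_of_commute (d := Fin.lastCases a (fun _ => b))
        · have := congrArg Subtype.val hgy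
          rw [Matrix.SpecialLinearGroup.coe_mul, Matrix.SpecialLinearGroup.coe_mul, hx,
            blk_smul_one] at this
          exact this
        · intro i
          simp only [Fin.lastCases_castSucc, Fin.lastCases_last]
          exact fun h => hne h.symm
      subst hab
      rw [blk_scalar] at hx
      apply Subtype.ext
      rw [Matrix.SpecialLinearGroup.coe_pow, hx, smul_pow, one_pow]
      have hd := y.2
      rw [hx, Matrix.det_smul, Matrix.det_one, Fintype.card_fin, mul_one] at hd
      rw [hd, one_smul]; rfl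
    by_contra hodd'
    rw [Nat.not_odd_iff_even, even_iff_two_dvd] at hodd'
    have : Fact (Nat.Prime 2) := ⟨Nat.prime_two⟩
    obtain ⟨x, hx⟩ := exists_prime_orderOf_dvd_card' 2 hodd'
    have h1 : x ^ (m + 1) = 1 := Subtype.ext (by rw [Subgroup.coe_pow]; exact hexp x.1 x.2)
    have h3 := orderOf_dvd_of_pow_eq_one h1
    rw [hx] at h3
    exact (Nat.not_even_iff_odd.2 hodd) (even_iff_two_dvd.2 h3)
  · intro g hne hcomm
    rw [Subgroup.commutator_eq_bot_iff_le_centralizer] at hcomm
    apply Quasi.center_ne_top hQ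
    rw [eq_top_iff]
    intro x _
    rw [Subgroup.mem_center_iff]
    intro y
    apply Subtype.ext
    have hcen : ∀ y ∈ E m F, g * y * g⁻¹ ∈ Subgroup.centralizer
        (E m F : Set (Matrix.SpecialLinearGroup (Fin (m + 1)) F)) := by
      intro y hy
      rw [Subgroup.mem_centralizer_iff]
      intro e he
      have h5 : g * y * g⁻¹ ∈ ((E m F).map (MulAut.conj g).toMonoidHom : Set _) :=
        ⟨y, hy, by simp [MulAut.conj_apply]⟩
      exact (Subgroup.mem_centralizer_iff.1 (hcomm he) _ h5).symm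
    obtain ⟨b, a, h6⟩ := (mem_cent_iff hm2 _).1 (hcen x.1 x.2)
    obtain ⟨b', a', h7⟩ := (mem_cent_iff hm2 _).1 (hcen y.1 y.2)
    have h8 := comm_of_blk h6 (h7 ▸ isBlk_blk _ _)
    have h9 : g * (x.1 * y.1) * g⁻¹ = g * (y.1 * x.1) * g⁻¹ := by
      simpa [mul_assoc] using h8
    exact (mul_left_cancel (mul_right_cancel h9)).symm
  · ext g
    constructor
    · intro hg
      rw [Subgroup.mem_normalizer_iff] at hg ⊢
      intro z
      constructor
      · intro hz
        rw [Subgroup.mem_centralizer_iff]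
        intro e he
        have he' : g⁻¹ * e * g ∈ E m F := by
          rw [hg]; simpa [mul_assoc] using he
        have := Subgroup.mem_centralizer_iff.1 hz _ he'
        calc e * (g * z * g⁻¹) = g * ((g⁻¹ * e * g) * z) * g⁻¹ := by group
          _ = g * (z * (g⁻¹ * e * g)) * g⁻¹ := by rw [this]
          _ = g * z * g⁻¹ * e := by group
      · intro hz
        rw [Subgroup.mem_centralizer_iff]
        intro e he
        have he' : g * e * g⁻¹ ∈ E m F := (hg e).1 he
        have := Subgroup.mem_centralizer_iff.1 hz _ he'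
        have h5 : g * (e * z) * g⁻¹ = g * (z * e) * g⁻¹ := by simpa [mul_assoc] using this
        exact mul_left_cancel (mul_right_cancel h5)
    · intro hg
      have h1 : g * t * g⁻¹ ∈ Subgroup.centralizer
          (E m F : Set (Matrix.SpecialLinearGroup (Fin (m + 1)) F)) :=
        (Subgroup.mem_normalizer_iff.1 hg t).1 htc
      obtain ⟨b, a, hx⟩ := (mem_cent_iff hm2 _).1 h1
      have hgt : g * t = (g * t * g⁻¹) * g := by group
      have heq := conj_eq hm2 hx ht hgt
      have hgt' : g * t = t * g := by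
        calc g * t = (g * t * g⁻¹) * g := by group
          _ = t * g := by rw [← heq]
      rw [Subgroup.mem_normalizer_iff]
      intro h
      constructor
      · intro hh
        exact conj_mem_E h2 ht hgt' hh
      · intro hh
        have := conj_mem_E h2 ht (inv_comm hgt') hh
        simpa [mul_assoc] using this

end fin

/-- Let F be a finite field of odd order, n ≥ 7 odd, and t ∈ SL(n, F) the diagonal matrix with entries −1, …, −1, 1. Then E(C(t)) is a standard subgroup of SL(n, F). -/
theorem result {F : Type*} [Field F] [Fintype F] [DecidableEq F] (hF : Odd (Fintype.card F)) (n : ℕ) (hn : 7 ≤ n) (hodd : Odd n) (t : Matrix.SpecialLinearGroup (Fin n) F) (ht : (t : Matrix (Fin n) (Fin n) F) = Matrix.diagonal (fun i : Fin n => if (i : ℕ) + 1 = n then (1 : F) else -1)) : Cfsg.IsStandardSubgroup ((Cfsg.layer ↥(Subgroup.centralizer ({t} : Set (Matrix.SpecialLinearGroup (Fin n) F)))).map (Subgroup.centralizer ({t} : Set (Matrix.SpecialLinearGroup (Fin n) F))).subtype) := by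
  obtain ⟨m, rfl⟩ : ∃ m, n = m + 1 := ⟨n - 1, by omega⟩
  have h2 : (2 : F) ≠ 0 := by
    intro h20
    have hch : ringChar F = 2 := CharP.ringChar_of_prime_eq_zero Nat.prime_two h20
    have := FiniteField.even_card_of_char_two hch
    rcases hF with ⟨k, hk⟩
    omega
  exact main h2 (by omega) hodd t (t_coe ht)

end Cfsg.Agent.S1348
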