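-- Statement S1386.
import Cfsg.Statements.S1386
import Mathlib

set_option autoImplicit false
open Cfsg
open scoped commutatorElement

namespace Cfsg.Agent.S1386

theorem mem_zpowers_of_pow_orderOf_eq_one {C : Type*} [Group C] [Finite C] [IsCyclic C] (b w : C)
    (h : b ^ orderOf w = 1) : b ∈ Subgroup.zpowers w := by
  classical
  have := Fintype.ofFinite C
  have hm : 0 < orderOf w := orderOf_pos w
  have h1 := IsCyclic.card_pow_eq_one_le (α := C) hm
  have hsub : (Finset.univ.filter (fun x : C => x ∈ Subgroup.zpowers w)) ⊆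
      Finset.univ.filter (fun a : C => a ^ orderOf w = 1) := by
    intro x hx
    simp only [Finset.mem_filter, Finset.mem_univ, true_and] at hx ⊢
    obtain ⟨k, rfl⟩ := hx
    rw [← zpow_natCast, ← zpow_mul, mul_comm, zpow_mul, zpow_natCast, pow_orderOf_eq_one, one_zpow]
  have hcard : (Finset.univ.filter (fun x : C => x ∈ Subgroup.zpowers w)).card = orderOf w := by
    rw [← Nat.card_zpowers, Nat.card_eq_fintype_card, Fintype.card_subtype]
  have heq := Finset.eq_of_subset_of_card_le hsub (by rw [hcard]; exact h1)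
  have hb : b ∈ Finset.univ.filter (fun a : C => a ^ orderOf w = 1) := by simp [h]
  rw [← heq] at hb
  simpa using hb

/-- Let G be a finite group, W₁, W₂ subgroups forming a self-normalizing cyclic pair, S a subgroup with W₂ ≤ S and W₁ a complement to S' in S, and (W₁, U, W₂') type-P data for S. Then W₂' = W₂ (that is, C_{S'}(W₁) = W₂). -/
theorem result {G : Type*} [Group G] [Finite G] (W₁ W₂ S U W₂' : Subgroup G) (hW : Cfsg.IsSelfNormalizingCyclic W₁ W₂)
    (hSW : Cfsg.IsComplIn ⁅S, S⁆ W₁ S) (hW₂S : W₂ ≤ S) (hP : Cfsg.IsTypePWith S W₁ U W₂') :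
    W₂' = W₂ := by
  obtain ⟨hW1ne, hW2ne, hinf, hcomm, hcyc, hnorm⟩ := hW
  obtain ⟨hS'S, hW1S, hS'W1, hprod⟩ := hSW
  have hconj : ∀ s ∈ S, ∀ c ∈ ⁅S, S⁆, s * c * s⁻¹ ∈ ⁅S, S⁆ := by
    intro s hs c hc
    have h1 : ⁅s, c⁆ ∈ ⁅S, S⁆ := Subgroup.commutator_mem_commutator hs (hS'S hc)
    have h2 : s * c * s⁻¹ = ⁅s, c⁆ * c := by simp [commutatorElement_def]
    rw [h2]; exact mul_mem h1 hc
  -- Step 1: W₂ ≤ ⁅S, S⁆
  have hW2S' : W₂ ≤ ⁅S, S⁆ := by
    intro w hw
    obtain ⟨a, ha, b, hb, hwab⟩ := hprod w (hW₂S hw)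
    have key : ∀ n : ℕ, (a * b) ^ n * (b ^ n)⁻¹ ∈ ⁅S, S⁆ := by
      intro n
      induction n with
      | zero => simp
      | succ n ih =>
        have h3 : (a * b) ^ (n + 1) * (b ^ (n + 1))⁻¹ =
            ((a * b) ^ n * (b ^ n)⁻¹) * (b ^ n * a * (b ^ n)⁻¹) := by
          rw [pow_succ, pow_succ]; group
        rw [h3]
        exact mul_mem ih (hconj _ (pow_mem (hW1S hb) n) a ha)
    have hbn : b ^ orderOf w = 1 := by
      have h4 := key (orderOf w)
      rw [← hwab, pow_orderOf_eq_one, one_mul] at h4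
      have h5 : b ^ orderOf w ∈ ⁅S, S⁆ ⊓ W₁ := ⟨by simpa using inv_mem h4, pow_mem hb _⟩
      rw [hS'W1] at h5
      simpa using h5
    have hb2 : b ∈ W₂ := by
      have hbC : b ∈ W₁ ⊔ W₂ := Subgroup.mem_sup_left hb
      have hwC : w ∈ W₁ ⊔ W₂ := Subgroup.mem_sup_right hw
      have h6 : (⟨b, hbC⟩ : ↥(W₁ ⊔ W₂)) ^ orderOf (⟨w, hwC⟩ : ↥(W₁ ⊔ W₂)) = 1 := by
        apply Subtype.ext
        rw [Subgroup.coe_pow, Subgroup.coe_one]
        have h7 : orderOf (⟨w, hwC⟩ : ↥(W₁ ⊔ W₂)) = orderOf w := by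
          rw [← Subgroup.orderOf_coe]
        rw [h7]; exact hbn
      have h8 := mem_zpowers_of_pow_orderOf_eq_one _ _ h6
      obtain ⟨k, hk⟩ := h8
      have h9 : w ^ k = b := by
        have := congrArg Subtype.val hk
        simpa using this
      rw [← h9]
      exact zpow_mem hw k
    have hb1 : b = 1 := by
      have h10 : b ∈ W₁ ⊓ W₂ := ⟨hb, hb2⟩
      rw [hinf] at h10
      simpa using h10
    rw [hwab, hb1, mul_one]
    exact ha
  obtain ⟨⟨x, hx⟩, hx1'⟩ := (Subgroup.ne_bot_iff_exists_ne_one).1 hW1ne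
  have hx1 : x ≠ 1 := fun h => hx1' (Subtype.ext h)
  obtain ⟨⟨y, hy⟩, hy1'⟩ := (Subgroup.ne_bot_iff_exists_ne_one).1 hW2ne
  have hy1 : y ≠ 1 := fun h => hy1' (Subtype.ext h)
  have hcent := hP.W₂_centralizer x hx hx1
  have hle1 : W₂ ≤ W₂' := by
    intro w hw
    rw [← hcent]
    refine Subgroup.mem_inf.2 ⟨hW2S' hw, ?_⟩
    rw [Subgroup.mem_centralizer_iff]
    intro h hh
    rw [Set.mem_singleton_iff] at hh
    subst hh
    exact hcomm h hx w hw
  apply le_antisymm _ hle1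
  intro v hv
  -- W₂' is commutative
  have hcyc' : IsCyclic ↥(W₁ ⊔ W₂') := hP.selfNormalizing.2.2.2.2.1
  have hvy : v * y = y * v := by
    have hvC : v ∈ W₁ ⊔ W₂' := Subgroup.mem_sup_right hv
    have hyC : y ∈ W₁ ⊔ W₂' := Subgroup.mem_sup_right (hle1 hy)
    obtain ⟨g, hg⟩ := hcyc'.exists_generator
    obtain ⟨i, hi⟩ := hg ⟨v, hvC⟩
    obtain ⟨j, hj⟩ := hg ⟨y, hyC⟩
    have h11 : (⟨v, hvC⟩ : ↥(W₁ ⊔ W₂')) * ⟨y, hyC⟩ = ⟨y, hyC⟩ * ⟨v, hvC⟩ := by
      rw [← hi, ← hj]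
      simp only
      rw [← zpow_add, ← zpow_add, add_comm]
    exact congrArg Subtype.val h11
  have hvx : x * v = v * x := by
    have h12 : v ∈ ⁅S, S⁆ ⊓ Subgroup.centralizer ({x} : Set G) := by rw [hcent]; exact hv
    exact (Subgroup.mem_centralizer_iff.1 h12.2) x rfl
  have hvS' : v ∈ ⁅S, S⁆ := by
    have h12 : v ∈ ⁅S, S⁆ ⊓ Subgroup.centralizer ({x} : Set G) := by rw [hcent]; exact hv
    exact h12.1
  have hXsub : ({x * y} : Set G) ⊆ (↑(W₁ ⊔ W₂) : Set G) \ (↑W₁ ∪ ↑W₂) := by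
    intro z hz
    rw [Set.mem_singleton_iff] at hz
    subst hz
    refine ⟨Subgroup.mul_mem_sup hx hy, ?_⟩
    rintro (h | h)
    · apply hy1
      have h13 : y ∈ W₁ ⊓ W₂ := by
        refine ⟨?_, hy⟩
        have := W₁.mul_mem (W₁.inv_mem hx) h
        simpa using this
      rw [hinf] at h13
      simpa using h13
    · apply hx1
      have h13 : x ∈ W₁ ⊓ W₂ := by
        refine ⟨hx, ?_⟩
        have := W₂.mul_mem h (W₂.inv_mem hy)
        simpa using this
      rw [hinf] at h13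
      simpa using h13
  have hN := hnorm {x * y} hXsub (Set.singleton_nonempty _)
  have hvN : v ∈ W₁ ⊔ W₂ := by
    rw [← hN, Subgroup.mem_set_normalizer_iff]
    intro n
    have h14 : v * (x * y) * v⁻¹ = x * y := by
      rw [mul_inv_eq_iff_eq_mul, ← mul_assoc, ← hvx, mul_assoc, hvy, mul_assoc]
    simp only [Set.mem_singleton_iff]
    constructor
    · intro hn; rw [hn]; exact h14
    · intro hn
      have h15 : n = v⁻¹ * (x * y) * v := by rw [← hn]; group
      rw [h15]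
      calc v⁻¹ * (x * y) * v = v⁻¹ * (v * (x * y) * v⁻¹) * v := by rw [h14]
        _ = x * y := by group
  have hle : W₁ ≤ Subgroup.normalizer (W₂ : Set G) := by
    intro a ha
    rw [Subgroup.mem_normalizer_iff]
    intro n
    constructor
    · intro hn
      have : a * n * a⁻¹ = n := by rw [hcomm a ha n hn]; group
      rw [this]; exact hn
    · intro hn
      have h16 : a * (a * n * a⁻¹) = (a * n * a⁻¹) * a := hcomm a ha _ hn
      have h17 : n = a * n * a⁻¹ := by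
        calc n = a⁻¹ * ((a * n * a⁻¹) * a) := by group
          _ = a⁻¹ * (a * (a * n * a⁻¹)) := by rw [h16]
          _ = a * n * a⁻¹ := by group
      rw [h17]; exact hn
  have hset := Subgroup.coe_mul_of_left_le_normalizer_right W₁ W₂ hle
  have hv' : v ∈ (↑(W₁ ⊔ W₂) : Set G) := hvN
  rw [hset] at hv'
  obtain ⟨w₁, hw₁, w₂, hw₂, hvw0⟩ := hv'
  have hvw : w₁ * w₂ = v := hvw0
  have hw₁ : w₁ ∈ W₁ := hw₁
  have hw₂ : w₂ ∈ W₂ := hw₂
  have hw₁' : w₁ ∈ ⁅S, S⁆ ⊓ W₁ := by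
    refine ⟨?_, hw₁⟩
    have h20 : w₁ = v * w₂⁻¹ := by rw [← hvw]; group
    rw [h20]
    exact Subgroup.mul_mem _ hvS' (Subgroup.inv_mem _ (hW2S' hw₂))
  rw [hS'W1] at hw₁'
  have hw₁1 : w₁ = 1 := by simpa using hw₁'
  rw [← hvw, hw₁1, one_mul]
  exact hw₂

end Cfsg.Agent.S1386
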