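-- Statement S1387.
import Cfsg.Statements.S1387
import Cfsg.Agent.Lib.Helper23.TypeP

set_option autoImplicit false
open Cfsg

namespace Cfsg.Agent.S1387

open Cfsg.Agent.Lib.Helper23.TypeP

/-- Let M be a subgroup of a finite group G with type-P data (W₁, U, W₂) and H = M_F. Then the Fitting subgroup F(M) is generated by H and the centralizer of H in U. -/
theorem result {G : Type*} [Group G] [Finite G] (M W₁ U W₂ : Subgroup G) (hP : Cfsg.IsTypePWith M W₁ U W₂) :
    Cfsg.fittingOf M = Cfsg.fittingHallOf M ⊔ (U ⊓ Subgroup.centralizer (Cfsg.fittingHallOf M : Set G)) := by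
  obtain ⟨hHM', hUM', hHU, hprod⟩ := hP.U_compl
  have hM'M : ⁅M, M⁆ ≤ M := Subgroup.commutator_le_self M
  have hUM : U ≤ M := hUM'.trans hM'M
  rw [← hP.fitting_eq]
  apply le_antisymm
  · apply sup_le le_sup_left
    intro c hc
    have hcF : c ∈ fittingOf M := by rw [← hP.fitting_eq]; exact Subgroup.mem_sup_right hc
    obtain ⟨h, hh, u, hu, rfl⟩ := hprod c (hP.fitting_le hcF)
    have hcc := Subgroup.mem_centralizer_iff.1 hc.2
    have hucent : ∀ x ∈ fittingHallOf M, u * x = x * u := by
      apply centralizes_of_inner (fittingHallOf M) u h⁻¹ (Subgroup.inv_mem _ hh)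
      · intro x hx
        have h1 := hcc x hx
        calc u * x * u⁻¹ = h⁻¹ * (h * u * x) * u⁻¹ := by group
          _ = h⁻¹ * (x * (h * u)) * u⁻¹ := by rw [h1]
          _ = h⁻¹ * x * h⁻¹⁻¹ := by group
      · rw [orderOf_inv]
        exact coprime_orderOf_fittingHallOf M U hUM hHU h u hh hu
    apply Subgroup.mul_mem_sup hh
    exact ⟨hu, Subgroup.mem_centralizer_iff.2 (fun x hx => (hucent x hx).symm)⟩
  · exact sup_le_sup_left (inf_le_inf_right _ hUM) _

end Cfsg.Agent.S1387
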