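-- Statement S1388.
import Cfsg.Statements.S1388
import Cfsg.Agent.Lib.Helper23.TypeP

set_option autoImplicit false
open Cfsg
open scoped commutatorElement

namespace Cfsg.Agent.S1388

open Cfsg.Agent.Lib.Helper23.TypeP

/-- Let M be a subgroup of a finite group G with type-P data (W₁, U, W₂) and H = M_F. Then the derived subgroup of U centralizes H, and if U ≠ 1 then U does not centralize H. -/
theorem result {G : Type*} [Group G] [Finite G] (M W₁ U W₂ : Subgroup G) (hP : Cfsg.IsTypePWith M W₁ U W₂) :
    ⁅U, U⁆ ≤ Subgroup.centralizer (Cfsg.fittingHallOf M : Set G) ∧ (U ≠ ⊥ → ¬ U ≤ Subgroup.centralizer (Cfsg.fittingHallOf M : Set G)) := by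
  obtain ⟨hHM', hUM', hHU, hprod⟩ := hP.U_compl
  have hM'M : ⁅M, M⁆ ≤ M := Subgroup.commutator_le_self M
  have hUM : U ≤ M := hUM'.trans hM'M
  have hcop := coprime_card_fittingHallOf M U hUM hHU
  constructor
  · intro w hw
    have hwU : w ∈ U := Subgroup.commutator_le_self U hw
    have hwM'' : w ∈ ⁅⁅M, M⁆, ⁅M, M⁆⁆ := Subgroup.commutator_mono hUM' hUM' hw
    have hw2 := hP.derived_two_le hwM''
    have hnorm : M ⊓ Subgroup.centralizer (fittingHallOf M : Set G) ≤
        Subgroup.normalizer (fittingHallOf M : Set G) :=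
      inf_le_right.trans (Subgroup.centralizer_le_normalizer _)
    have hset := Subgroup.coe_mul_of_right_le_normalizer_left (fittingHallOf M)
      (M ⊓ Subgroup.centralizer (fittingHallOf M : Set G)) hnorm
    have hw3 : w ∈ (↑(fittingHallOf M ⊔ (M ⊓ Subgroup.centralizer (fittingHallOf M : Set G))) : Set G) := hw2
    rw [hset] at hw3
    obtain ⟨h, hh, c, hc, hhc⟩ := hw3
    have hh' : h ∈ fittingHallOf M := hh
    have hc' : c ∈ M ⊓ Subgroup.centralizer (fittingHallOf M : Set G) := hc
    have hw4 : h * c = w := hhc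
    rw [Subgroup.mem_centralizer_iff]
    intro x hx
    have hcc := Subgroup.mem_centralizer_iff.1 hc'.2
    have h5 := centralizes_of_inner (fittingHallOf M) w h hh' (by
      intro y hy
      have h1 := hcc y hy
      rw [← hw4]
      calc h * c * y * (h * c)⁻¹ = h * (c * y) * c⁻¹ * h⁻¹ := by group
        _ = h * (y * c) * c⁻¹ * h⁻¹ := by rw [h1]
        _ = h * y * h⁻¹ := by group)
      (coprime_orderOf_fittingHallOf M U hUM hHU h w hh' hwU) x hx
    exact h5.symm
  · intro hUne hUcent
    apply hUne
    -- conjugation by M preserves the derived subgroup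
    have hconj : ∀ s ∈ M, ∀ c ∈ ⁅M, M⁆, s * c * s⁻¹ ∈ ⁅M, M⁆ := by
      intro s hs c hc
      have h1 : ⁅s, c⁆ ∈ ⁅M, M⁆ := Subgroup.commutator_mem_commutator hs (hM'M hc)
      have h2 : s * c * s⁻¹ = ⁅s, c⁆ * c := by simp [commutatorElement_def]
      rw [h2]; exact mul_mem h1 hc
    have hnormal : (U.subgroupOf M).Normal := by
      constructor
      rintro ⟨u, huM⟩ hu ⟨m, hm⟩
      have hu' : u ∈ U := hu
      show m * u * m⁻¹ ∈ U
      obtain ⟨h, hh, u', hu'', heq⟩ := hprod (m * u * m⁻¹) (hconj m hm u (hUM' hu'))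
      have hcomm : Commute h u' := (Subgroup.mem_centralizer_iff.1 (hUcent hu'')) h hh
      have hpow : (m * u * m⁻¹) ^ orderOf u = 1 := by
        rw [conj_pow, pow_orderOf_eq_one]; group
      rw [heq, hcomm.mul_pow] at hpow
      have hhn : h ^ orderOf u ∈ fittingHallOf M ⊓ U := by
        refine ⟨Subgroup.pow_mem _ hh _, ?_⟩
        have h3 : h ^ orderOf u = (u' ^ orderOf u)⁻¹ := eq_inv_of_mul_eq_one_left hpow
        rw [h3]
        exact Subgroup.inv_mem _ (Subgroup.pow_mem _ hu'' _)
      rw [hHU] at hhn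
      have hhn1 : h ^ orderOf u = 1 := by simpa using hhn
      have hdvd : orderOf h ∣ orderOf u := orderOf_dvd_of_pow_eq_one hhn1
      have hcop2 := coprime_orderOf_fittingHallOf M U hUM hHU h u hh hu'
      have hone : orderOf h = 1 := Nat.Coprime.eq_one_of_dvd hcop2 hdvd
      have hh1 : h = 1 := orderOf_eq_one_iff.1 hone
      rw [heq, hh1, one_mul]
      exact hu''
    have hnil : Group.IsNilpotent ↥(U.subgroupOf M) := by
      have := hP.U_nilpotent
      exact Group.nilpotent_of_mulEquiv (Subgroup.subgroupOfEquivOfLe hUM).symm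
    have hhall : (Nat.card ↥(U.subgroupOf M)).Coprime (U.subgroupOf M).index := by
      have hcardU : Nat.card (U.subgroupOf M) = Nat.card U :=
        Nat.card_congr (Subgroup.subgroupOfEquivOfLe hUM).toEquiv
      rw [hcardU]
      have hcM' := card_of_isComplIn hP.U_compl
      have hcM := card_of_isComplIn hP.W₁_compl
      have hW1M : W₁ ≤ M := hP.W₁_compl.2.1
      have hidxU : Nat.card U * U.relIndex M = Nat.card M := by
        rw [← Subgroup.relIndex_bot_left U, ← Subgroup.relIndex_bot_left M]
        exact Subgroup.relIndex_mul_relIndex ⊥ U M bot_le hUM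
      have hidxW : Nat.card W₁ * W₁.relIndex M = Nat.card M := by
        rw [← Subgroup.relIndex_bot_left W₁, ← Subgroup.relIndex_bot_left M]
        exact Subgroup.relIndex_mul_relIndex ⊥ W₁ M bot_le hW1M
      have hposU : 0 < Nat.card U := Nat.card_pos
      have hposW : 0 < Nat.card W₁ := Nat.card_pos
      have h1 : U.relIndex M = Nat.card (fittingHallOf M) * Nat.card W₁ := by
        apply Nat.eq_of_mul_eq_mul_left hposU
        rw [hidxU, hcM, hcM']; ring
      have h2 : W₁.relIndex M = Nat.card (fittingHallOf M) * Nat.card U := by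
        apply Nat.eq_of_mul_eq_mul_left hposW
        rw [hidxW, hcM, hcM']; ring
      have h3 : (Nat.card W₁).Coprime (Nat.card U) := by
        have h4 := hP.W₁_hall
        rw [h2] at h4
        exact Nat.Coprime.coprime_mul_left_right h4
      show (Nat.card U).Coprime (U.relIndex M)
      rw [h1]
      exact Nat.Coprime.mul_right hcop h3.symm
    have key : U.subgroupOf M ≤ fittingHall M := le_sSup ⟨hnormal, hnil, hhall⟩
    have hUH : U ≤ fittingHallOf M := by
      intro u hu
      exact ⟨⟨u, hUM hu⟩, key hu, rfl⟩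
    rw [eq_bot_iff, ← hHU]
    exact le_inf hUH le_rfl

end Cfsg.Agent.S1388
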