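import Cfsg.Statements.S1393
import Cfsg.Agent.Lib.Helper23.Transitivity2

set_option autoImplicit false
open Cfsg

namespace Cfsg.Agent.S1393

open Cfsg.Agent.Lib.Helper23.Transitivity Cfsg.Agent.Lib.Helper23.Transitivity2

/-- Let G be a minimal simple group of odd order, A a subgroup satisfying the transitivity hypothesis whose centre has rank at least 3, K = O_{π(A)'}(C_G(A)), and q a prime not dividing the order of A. Then any two maximal A-invariant q-subgroups of G are conjugate by an element of K. -/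
theorem result {G : Type*} [Group G] [Finite G] (hG : Cfsg.IsMinSimpleOddOrder G)
    (A : Subgroup G) (hA : Cfsg.TransitivityHypothesis A) (hZ : ¬ Cfsg.RankLE 2 ↥(A ⊓ Subgroup.centralizer (A : Set G)))
    (q : ℕ) (hq : q.Prime) (hqA : ¬ q ∣ Nat.card A) :
    ∀ Q₁ ∈ Cfsg.maxInvSubgroups ⊤ A {q}, ∀ Q₂ ∈ Cfsg.maxInvSubgroups ⊤ A {q}, ∃ k ∈ Cfsg.piCoreOf (Cfsg.primesNotDvd (Nat.card A)) (Subgroup.centralizer (A : Set G)), Q₂ = Q₁.map (MulAut.conj k).toMonoidHom := by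
  intro Q₁ h₁ Q₂ h₂
  obtain ⟨p, hp, B, hBZ, hBc, hBp, hBcard⟩ := exists_elemAb_of_not_rankLE hZ
  have hF : Fact p.Prime := ⟨hp⟩
  by_cases hQ₁ : Q₁ = ⊥
  · have : Q₂ = Q₁ := h₁.2 Q₂ h₂.1 (hQ₁ ▸ bot_le)
    exact ⟨1, one_mem _, by rw [map_conj_one, this]⟩
  by_cases hQ₂ : Q₂ = ⊥
  · have : Q₁ = Q₂ := h₂.2 Q₁ h₁.1 (hQ₂ ▸ bot_le)
    exact ⟨1, one_mem _, by rw [map_conj_one, this]⟩
  obtain ⟨D₁, hD₁B, hD₁c, hD₁⟩ := exists_centralizer_ne_bot hq hqA (hBZ.trans inf_le_left)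
    hBc hBp 2 hBcard.ge h₁.1 hQ₁
  obtain ⟨D₂, hD₂B, hD₂c, hD₂⟩ := exists_centralizer_ne_bot hq hqA (hBZ.trans inf_le_left)
    hBc hBp 2 hBcard.ge h₂.1 hQ₂
  have hD : D₁ ⊓ D₂ ≠ ⊥ := by
    intro h
    have hinj : Function.Injective (fun x : D₁ × D₂ =>
        (⟨(x.1 : G) * (x.2 : G), B.mul_mem (hD₁B x.1.2) (hD₂B x.2.2)⟩ : B)) := by
      rintro ⟨x, y⟩ ⟨x', y'⟩ hxy
      have hxy' : (x : G) * y = x' * y' := congrArg Subtype.val hxy
      have h1 : (x' : G)⁻¹ * x = y' * (y : G)⁻¹ := by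
        rw [inv_mul_eq_iff_eq_mul, ← mul_assoc, ← hxy', mul_inv_cancel_right]
      have h2 : (x' : G)⁻¹ * x ∈ D₁ ⊓ D₂ :=
        ⟨D₁.mul_mem (D₁.inv_mem x'.2) x.2, by rw [h1]; exact D₂.mul_mem y'.2 (D₂.inv_mem y.2)⟩
      rw [h, Subgroup.mem_bot] at h2
      have hx : (x : G) = x' := (inv_mul_eq_one.mp h2).symm
      have hy : (y : G) = y' := by
        rw [hx] at hxy'
        exact mul_left_cancel hxy'
      exact Prod.ext (Subtype.ext hx) (Subtype.ext hy)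
    have hcard := Nat.card_le_card_of_injective _ hinj
    rw [Nat.card_prod, hBcard] at hcard
    have h4 : p ^ 2 * p ^ 2 ≤ p ^ (2 + 1) := (Nat.mul_le_mul hD₁c hD₂c).trans hcard
    have hp2 := hp.two_le
    have h5 : p ^ (2 + 1) < p ^ 2 * p ^ 2 := by
      rw [← pow_add]
      exact Nat.pow_lt_pow_right hp.one_lt (by norm_num)
    omega
  obtain ⟨b, hb, hb1⟩ : ∃ b ∈ D₁ ⊓ D₂, b ≠ 1 := by
    by_contra hcon
    push Not at hcon
    exact hD ((Subgroup.eq_bot_iff_forall _).mpr hcon)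
  have hH : Subgroup.centralizer ({b} : Set G) ≠ ⊤ := centralizer_singleton_ne_top hG hb1
  have hbZ : b ∈ A ⊓ Subgroup.centralizer (A : Set G) := hBZ (hD₁B hb.1)
  have hAH : A ≤ Subgroup.centralizer ({b} : Set G) := by
    intro a ha
    refine Subgroup.mem_centralizer_iff.mpr ?_
    intro x hx
    rw [Set.mem_singleton_iff.mp hx]
    exact (Subgroup.mem_centralizer_iff.mp hbZ.2 a ha).symm
  have hH₁ : Subgroup.centralizer ({b} : Set G) ⊓ Q₁ ≠ ⊥ := by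
    intro h
    apply hD₁
    rw [eq_bot_iff, ← h]
    exact le_inf (inf_le_right.trans
      (Subgroup.centralizer_le (Set.singleton_subset_iff.mpr hb.1))) inf_le_left
  have hH₂ : Subgroup.centralizer ({b} : Set G) ⊓ Q₂ ≠ ⊥ := by
    intro h
    apply hD₂
    rw [eq_bot_iff, ← h]
    exact le_inf (inf_le_right.trans
      (Subgroup.centralizer_le (Set.singleton_subset_iff.mpr hb.2))) inf_le_left
  exact kConj_of_meet hG hA hq hqA h₁ h₂ hH hAH hH₁ hH₂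

end Cfsg.Agent.S1393
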