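import Cfsg.Statements.S1394
import Cfsg.Agent.Lib.Helper23.Transitivity2

set_option autoImplicit false
open Cfsg

namespace Cfsg.Agent.S1394

open Cfsg.Agent.Lib.Helper23.Transitivity Cfsg.Agent.Lib.Helper23.Transitivity2

/-- Let G be a minimal simple group of odd order, A a subgroup satisfying the transitivity hypothesis whose centre has rank at least 2, K = O_{π(A)'}(C_G(A)), and q a prime dividing the order of C_G(A) but not that of A. Then any two maximal A-invariant q-subgroups of G are conjugate by an element of K. -/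
theorem result {G : Type*} [Group G] [Finite G] (hG : Cfsg.IsMinSimpleOddOrder G)
    (A : Subgroup G) (hA : Cfsg.TransitivityHypothesis A) (hZ : ¬ Cfsg.RankLE 1 ↥(A ⊓ Subgroup.centralizer (A : Set G)))
    (q : ℕ) (hq : q.Prime) (hqA : ¬ q ∣ Nat.card A) (hqC : q ∣ Nat.card (Subgroup.centralizer (A : Set G))) :
    ∀ Q₁ ∈ Cfsg.maxInvSubgroups ⊤ A {q}, ∀ Q₂ ∈ Cfsg.maxInvSubgroups ⊤ A {q}, ∃ k ∈ Cfsg.piCoreOf (Cfsg.primesNotDvd (Nat.card A)) (Subgroup.centralizer (A : Set G)), Q₂ = Q₁.map (MulAut.conj k).toMonoidHom := by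
  obtain ⟨p, hp, B, hBZ, hBc, hBp, hBcard⟩ := exists_elemAb_of_not_rankLE hZ
  have hF : Fact p.Prime := ⟨hp⟩
  have hFq : Fact q.Prime := ⟨hq⟩
  obtain ⟨y, hy⟩ := exists_prime_orderOf_dvd_card' q hqC
  have hy1 : (y : G) ≠ 1 := by
    intro h
    have : y = 1 := Subtype.ext h
    rw [this, orderOf_one] at hy
    exact hq.one_lt.ne hy
  have hQ₀ : Subgroup.zpowers (y : G) ∈ Cfsg.invSubgroups ⊤ A {q} := by
    rw [mem_inv_iff A q hq]
    constructor
    · apply IsPGroup.of_card (n := 1)
      rw [Nat.card_zpowers, pow_one, Subgroup.orderOf_coe, hy]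
    · apply le_normalizer_of_conj_mem
      intro a ha z hz
      have hzC : z ∈ Subgroup.centralizer (A : Set G) := (Subgroup.zpowers_le.mpr y.2) hz
      have := Subgroup.mem_centralizer_iff.mp hzC a ha
      rw [this, mul_inv_cancel_right]
      exact hz
  obtain ⟨S, hS, hQ₀S⟩ := exists_maxInv_ge hQ₀
  have key : ∀ Q ∈ Cfsg.maxInvSubgroups ⊤ A {q},
      KConj (Cfsg.piCoreOf (Cfsg.primesNotDvd (Nat.card A)) (Subgroup.centralizer (A : Set G)))
        Q S := by
    intro Q hQ
    have hQne : Q ≠ ⊥ := by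
      intro h
      have := hQ.2 _ hQ₀ (h ▸ bot_le)
      rw [h] at this
      exact hy1 (Subgroup.zpowers_eq_bot.mp this)
    obtain ⟨D, hDB, hDc, hD⟩ := exists_centralizer_ne_bot hq hqA (hBZ.trans inf_le_left)
      hBc hBp 1 hBcard.ge hQ.1 hQne
    obtain ⟨b, hb, hb1⟩ : ∃ b ∈ D, b ≠ 1 := by
      by_contra hcon
      push Not at hcon
      have : D = ⊥ := (Subgroup.eq_bot_iff_forall _).mpr hcon
      rw [this, Subgroup.card_bot, pow_one] at hDc
      exact absurd hDc (not_le.mpr hp.one_lt)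
    have hH := centralizer_singleton_ne_top hG hb1
    have hbZ : b ∈ A ⊓ Subgroup.centralizer (A : Set G) := hBZ (hDB hb)
    have hAH : A ≤ Subgroup.centralizer ({b} : Set G) := by
      intro a ha
      refine Subgroup.mem_centralizer_iff.mpr ?_
      intro x hx
      rw [Set.mem_singleton_iff.mp hx]
      exact (Subgroup.mem_centralizer_iff.mp hbZ.2 a ha).symm
    have hH₁ : Subgroup.centralizer ({b} : Set G) ⊓ Q ≠ ⊥ := by
      intro h
      apply hD
      rw [eq_bot_iff, ← h]
      exact le_inf (inf_le_right.trans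
        (Subgroup.centralizer_le (Set.singleton_subset_iff.mpr hb))) inf_le_left
    have hH₂ : Subgroup.centralizer ({b} : Set G) ⊓ S ≠ ⊥ := by
      intro h
      apply hy1
      have hyb : (y : G) ∈ Subgroup.centralizer ({b} : Set G) := by
        refine Subgroup.mem_centralizer_iff.mpr ?_
        intro x hx
        rw [Set.mem_singleton_iff.mp hx]
        exact Subgroup.mem_centralizer_iff.mp y.2 b hbZ.1
      have : (y : G) ∈ Subgroup.centralizer ({b} : Set G) ⊓ S :=
        ⟨hyb, hQ₀S (Subgroup.mem_zpowers _)⟩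
      rw [h, Subgroup.mem_bot] at this
      exact this
    exact kConj_of_meet hG hA hq hqA hQ hS hH hAH hH₁ hH₂
  intro Q₁ h₁ Q₂ h₂
  exact kConj_trans (key Q₁ h₁) (kConj_symm (key Q₂ h₂))

end Cfsg.Agent.S1394
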