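import Cfsg.Statements.S1395
import Cfsg.Agent.Lib.Helper23.Transitivity3

set_option autoImplicit false
open Cfsg

namespace Cfsg.Agent.S1395

open Cfsg.Agent.Lib.Helper23.Transitivity Cfsg.Agent.Lib.Helper23.Transitivity2
  Cfsg.Agent.Lib.Helper23.Transitivity3

/-- Let G be a minimal simple group of odd order, A a subgroup satisfying the transitivity hypothesis with K = O_{π(A)'}(C_G(A)), q a prime not dividing the order of A, and P a proper subgroup all of whose prime divisors divide the order of A, containing A as a subnormal subgroup, such that any two maximal A-invariant q-subgroups are conjugate under K. Then (a) K ∩ C_G(P) = O_{π(A)'}(C_G(P)); (b) any two maximal P-invariant q-subgroups are conjugate under O_{π(A)'}(C_G(P)); (c) every maximal P-invariant q-subgroup is a maximal A-invariant q-subgroup; (d) for every maximal P-invariant q-subgroup Q, P ∩ N_G(P)' ≤ N_G(Q)' and N_G(P) is generated by O_{π(A)'}(C_G(P))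 and N_G(P) ∩ N_G(Q). -/
theorem result {G : Type*} [Group G] [Finite G] (hG : Cfsg.IsMinSimpleOddOrder G)
    (A : Subgroup G) (hA : Cfsg.TransitivityHypothesis A) (q : ℕ) (hq : q.Prime) (hqA : ¬ q ∣ Nat.card A)
    (P : Subgroup G) (hP : P ≠ ⊤) (hPπ : (∀ r : ℕ, r.Prime → r ∣ Nat.card P → r ∣ Nat.card A)) (hAP : A ≤ P) (hsn : (A.subgroupOf P).IsSubnormal)
    (htr : ∀ Q₁ ∈ Cfsg.maxInvSubgroups ⊤ A {q}, ∀ Q₂ ∈ Cfsg.maxInvSubgroups ⊤ A {q}, ∃ k ∈ Cfsg.piCoreOf (Cfsg.primesNotDvd (Nat.card A)) (Subgroup.centralizer (A : Set G)), Q₂ = Q₁.map (MulAut.conj k).toMonoidHom) :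
    Cfsg.piCoreOf (Cfsg.primesNotDvd (Nat.card A)) (Subgroup.centralizer (A : Set G)) ⊓ Subgroup.centralizer (P : Set G) = Cfsg.piCoreOf (Cfsg.primesNotDvd (Nat.card A)) (Subgroup.centralizer (P : Set G)) ∧
      (∀ Q₁ ∈ Cfsg.maxInvSubgroups ⊤ P {q}, ∀ Q₂ ∈ Cfsg.maxInvSubgroups ⊤ P {q}, ∃ k ∈ Cfsg.piCoreOf (Cfsg.primesNotDvd (Nat.card A)) (Subgroup.centralizer (P : Set G)), Q₂ = Q₁.map (MulAut.conj k).toMonoidHom) ∧
      Cfsg.maxInvSubgroups ⊤ P {q} ⊆ Cfsg.maxInvSubgroups ⊤ A {q} ∧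
      ∀ Q ∈ Cfsg.maxInvSubgroups ⊤ P {q},
        P ⊓ ⁅Subgroup.normalizer (P : Set G), Subgroup.normalizer (P : Set G)⁆ ≤ ⁅Subgroup.normalizer (Q : Set G), Subgroup.normalizer (Q : Set G)⁆ ∧
        Subgroup.normalizer (P : Set G) = Cfsg.piCoreOf (Cfsg.primesNotDvd (Nat.card A)) (Subgroup.centralizer (P : Set G)) ⊔ (Subgroup.normalizer (P : Set G) ⊓ Subgroup.normalizer (Q : Set G)) := by
  have hS : IsSimpleGroup G := hG.2.1
  have hyp : Hyp (Cfsg.primesNotDvd (Nat.card A)) A := hyp_of_transitivityHypothesis hA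
  have hcopP : Cop (Cfsg.primesNotDvd (Nat.card A)) P := by
    intro n hn
    apply Nat.coprime_of_dvd
    intro r hr hrP hrn
    exact (hn r hr hrn).2 (hPπ r hr hrP)
  have hqπ : q ∈ Cfsg.primesNotDvd (Nat.card A) := ⟨hq, hqA⟩
  have htr' : Tr (Cfsg.primesNotDvd (Nat.card A)) q A := fun Q₁ h₁ Q₂ h₂ => htr Q₁ h₁ Q₂ h₂
  obtain ⟨hincl, htrP⟩ := chain_induction hG hq hqπ hAP hP hyp hcopP hsn htr'
  refine ⟨?_, fun Q₁ h₁ Q₂ h₂ => htrP Q₁ h₁ Q₂ h₂, hincl, fun Q hQ =>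
    ⟨inf_commutator_le hq hcopP htrP hQ, normalizer_eq_sup hq htrP hQ⟩⟩
  apply le_antisymm
  · exact K_inf_centralizer_le _ hAP
  · apply le_inf
    · apply le_K hS hA
      · exact (piCoreOf_le _ _).trans (Subgroup.centralizer_le hAP)
      · exact isPiNum_card_piCoreOf _ _
    · exact piCoreOf_le _ _

end Cfsg.Agent.S1395
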