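import Cfsg.Statements.S1441

set_option autoImplicit false
open Cfsg
open scoped commutatorElement

namespace Cfsg.Agent.S1441

/-- If `z` commutes with `a`, `h * a * h⁻¹ = z * a`, and the orders are coprime, then `z = 1`. -/
theorem comm_trick {G : Type*} [Group G] (a h z : G) (N : ℕ) (hz : z ^ N = 1)
    (hcop : (orderOf a).Coprime N) (hza : z * a = a * z) (hconj : h * a * h⁻¹ = z * a) : z = 1 := by
  have h1 : (h * a * h⁻¹) ^ orderOf a = 1 := by
    rw [conj_pow, pow_orderOf_eq_one, mul_one, mul_inv_cancel]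
  rw [hconj, (show Commute z a from hza).mul_pow, pow_orderOf_eq_one, mul_one] at h1
  have h2 : orderOf z ∣ orderOf a := orderOf_dvd_of_pow_eq_one h1
  have h3 : orderOf z ∣ N := orderOf_dvd_of_pow_eq_one hz
  have h4 : orderOf z = 1 := Nat.eq_one_of_dvd_coprimes hcop h2 h3
  exact orderOf_eq_one_iff.mp h4

theorem result {G : Type*} [Group G] [Finite G] (H A : Subgroup G) (hH : Group.IsSolvable H) (hA : (A ≤ Subgroup.normalizer (H : Set G)))
    (n : ℕ) (c : Fin (n + 1) → Subgroup G) (hc0 : c 0 = H) (hcn : c (Fin.last n) = ⊥) (hanti : Antitone c)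
    (hcN : ∀ i, H ≤ Subgroup.normalizer ((c i : Subgroup G) : Set G)) (hcA : ∀ i, A ≤ Subgroup.normalizer ((c i : Subgroup G) : Set G))
    (htriv : ∀ i : Fin n, ⁅c i.castSucc, A⁆ ≤ c i.succ) :
    ∀ p : ℕ, p.Prime → p ∣ (A ⊓ Subgroup.centralizer (H : Set G)).relIndex A → p ∣ Nat.card H := by
  -- key: elements of A of order coprime to |H| centralize H
  have key : ∀ a ∈ A, (orderOf a).Coprime (Nat.card H) → ∀ i : Fin (n + 1), ∀ h ∈ c i, h * a = a * h := by
    intro a haA hcop i
    induction i using Fin.reverseInduction with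
    | last =>
      intro h hh
      rw [hcn, Subgroup.mem_bot] at hh
      subst hh; simp
    | cast i ih =>
      intro h hh
      have hz : ⁅h, a⁆ ∈ c i.succ := htriv i (Subgroup.commutator_mem_commutator hh haA)
      have hzH : ⁅h, a⁆ ∈ H := by
        have := hanti (Fin.zero_le i.succ) hz
        rwa [hc0] at this
      have hzN : ⁅h, a⁆ ^ Nat.card H = 1 := by
        have := congrArg (fun y : H => (y : G)) (pow_card_eq_one' (G := H) (x := ⟨⁅h, a⁆, hzH⟩))
        exact this
      have hza : ⁅h, a⁆ * a = a * ⁅h, a⁆ := ih _ hz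
      have hconj : h * a * h⁻¹ = ⁅h, a⁆ * a := by
        simp [commutatorElement_def]
      have := comm_trick a h ⁅h, a⁆ (Nat.card H) hzN hcop hza hconj
      rw [commutatorElement_eq_one_iff_mul_comm] at this
      exact this
  intro p hp hdvd
  by_contra hnd
  have : Fact p.Prime := ⟨hp⟩
  obtain ⟨P⟩ : Nonempty (Sylow p A) := inferInstance
  have hPle : (P : Subgroup A) ≤ (A ⊓ Subgroup.centralizer (H : Set G)).subgroupOf A := by
    intro x hx
    rw [Subgroup.mem_subgroupOf]
    refine ⟨x.2, ?_⟩
    refine Subgroup.mem_centralizer_iff.mpr ?_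
    intro h hh
    have hxo : (orderOf (x : G)).Coprime (Nat.card H) := by
      obtain ⟨k, hk⟩ := P.isPGroup' ⟨x, hx⟩
      have h1 : orderOf (x : G) ∣ p ^ k := by
        apply orderOf_dvd_of_pow_eq_one
        have := congrArg (fun y : (P : Subgroup A) => ((y : A) : G)) hk
        simpa using this
      have h2 : (p ^ k).Coprime (Nat.card H) :=
        Nat.Coprime.pow_left k ((Nat.Prime.coprime_iff_not_dvd hp).mpr hnd)
      exact Nat.Coprime.coprime_dvd_left h1 h2
    have := key x x.2 hxo 0 h (by rw [hc0]; exact hh)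
    exact this
  have h1 : ((A ⊓ Subgroup.centralizer (H : Set G)).subgroupOf A).index ∣ (P : Subgroup A).index :=
    Subgroup.index_dvd_of_le hPle
  exact P.not_dvd_index (hdvd.trans h1)

end Cfsg.Agent.S1441
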