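import Cfsg.Statements.S1442

set_option autoImplicit false
open Cfsg
open scoped commutatorElement

namespace Cfsg.Agent.S1442

/-- If `z` commutes with `a`, `h * a * h⁻¹ = z * a`, and the orders are coprime, then `z = 1`. -/
theorem comm_trick {G : Type*} [Group G] (a h z : G) (N : ℕ) (hz : z ^ N = 1)
    (hcop : (orderOf a).Coprime N) (hza : z * a = a * z) (hconj : h * a * h⁻¹ = z * a) : z = 1 := by
  have h1 : (h * a * h⁻¹) ^ orderOf a = 1 := by
    rw [conj_pow, pow_orderOf_eq_one, mul_one, mul_inv_cancel]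
  rw [hconj, (show Commute z a from hza).mul_pow, pow_orderOf_eq_one, mul_one] at h1
  have h2 : orderOf z ∣ orderOf a := orderOf_dvd_of_pow_eq_one h1
  have h3 : orderOf z ∣ N := orderOf_dvd_of_pow_eq_one hz
  have h4 : orderOf z = 1 := Nat.eq_one_of_dvd_coprimes hcop h2 h3
  exact orderOf_eq_one_iff.mp h4

theorem result {G : Type*} [Group G] [Finite G] (H A : Subgroup G) (hH : Group.IsNilpotent H) (hA : (A ≤ Subgroup.normalizer (H : Set G))) (hcop : (Nat.card A).Coprime (Nat.card H))
    (hC : H ⊓ Subgroup.centralizer (((H ⊓ Subgroup.centralizer (A : Set G)) : Subgroup G) : Set G) ≤ (H ⊓ Subgroup.centralizer (A : Set G))) :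
    A ≤ Subgroup.centralizer (H : Set G) := by
  set C : Subgroup G := H ⊓ Subgroup.centralizer (A : Set G) with hCdef
  -- elements of H normalizing C lie in C
  have key : ∀ n ∈ H, (∀ c ∈ C, n⁻¹ * c * n ∈ C) → n ∈ C := by
    intro n hn hnC
    have hcomm : ∀ a ∈ A, n * a = a * n := by
      intro a ha
      have hzH : ⁅n, a⁆ ∈ H := by
        have h1 : a * n⁻¹ * a⁻¹ ∈ H := by
          have := (Subgroup.mem_normalizer_iff.mp (hA ha) n⁻¹).mp (H.inv_mem hn)
          exact this
        have h2 : ⁅n, a⁆ = n * (a * n⁻¹ * a⁻¹) := by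
          simp [commutatorElement_def, mul_assoc]
        rw [h2]
        exact H.mul_mem hn h1
      have hzC : ⁅n, a⁆ ∈ Subgroup.centralizer (C : Set G) := by
        refine Subgroup.mem_centralizer_iff.mpr ?_
        intro c hc
        have hca : a * c = c * a := by
          have := Subgroup.mem_centralizer_iff.mp hc.2 a ha
          exact this
        have hca' : a * (n⁻¹ * c * n) = (n⁻¹ * c * n) * a := by
          have := Subgroup.mem_centralizer_iff.mp (hnC c hc).2 a ha
          exact this
        have hca2 : a⁻¹ * c = c * a⁻¹ := by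
          rw [eq_mul_inv_iff_mul_eq, mul_assoc, ← hca, inv_mul_cancel_left]
        show c * ⁅n, a⁆ = ⁅n, a⁆ * c
        rw [commutatorElement_def]
        calc c * (n * a * n⁻¹ * a⁻¹) = n * ((n⁻¹ * c * n) * a) * n⁻¹ * a⁻¹ := by group
          _ = n * (a * (n⁻¹ * c * n)) * n⁻¹ * a⁻¹ := by rw [hca']
          _ = n * a * n⁻¹ * (c * a⁻¹) := by group
          _ = n * a * n⁻¹ * (a⁻¹ * c) := by rw [hca2]
          _ = n * a * n⁻¹ * a⁻¹ * c := by group
      have hz : ⁅n, a⁆ ∈ C := hC ⟨hzH, hzC⟩
      have hzN : ⁅n, a⁆ ^ Nat.card H = 1 :=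
        congrArg (fun y : H => (y : G)) (pow_card_eq_one' (G := H) (x := ⟨⁅n, a⁆, hzH⟩))
      have hza : ⁅n, a⁆ * a = a * ⁅n, a⁆ := by
        have := Subgroup.mem_centralizer_iff.mp hz.2 a ha
        exact this.symm
      have hconj : n * a * n⁻¹ = ⁅n, a⁆ * a := by
        simp [commutatorElement_def]
      have hoa : (orderOf a).Coprime (Nat.card H) := by
        have h1 : orderOf a ∣ Nat.card A := by
          have := orderOf_dvd_natCard (⟨a, ha⟩ : A)
          rwa [Subgroup.orderOf_mk] at this
        exact Nat.Coprime.coprime_dvd_left h1 hcop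
      have := comm_trick a n ⁅n, a⁆ (Nat.card H) hzN hoa hza hconj
      rw [commutatorElement_eq_one_iff_mul_comm] at this
      exact this
    refine ⟨hn, Subgroup.mem_centralizer_iff.mpr ?_⟩
    intro a ha
    exact (hcomm a ha).symm
  -- normalizer condition in H
  have hCH : C.subgroupOf H = ⊤ := by
    by_contra hne
    have hlt : C.subgroupOf H < ⊤ := lt_top_iff_ne_top.mpr hne
    have hnc := Group.normalizerCondition_of_isNilpotent (G := H) (C.subgroupOf H) hlt
    obtain ⟨x, hxN, hxC⟩ := SetLike.exists_of_lt hnc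
    apply hxC
    rw [Subgroup.mem_subgroupOf]
    apply key x x.2
    intro c hc
    have hcH : c ∈ H := hc.1
    have := (Subgroup.mem_normalizer_iff.mp (Subgroup.inv_mem _ hxN) ⟨c, hcH⟩).mp (by
      rw [Subgroup.mem_subgroupOf]; exact hc)
    rw [Subgroup.mem_subgroupOf] at this
    simpa using this
  have hHC : H ≤ C := by
    intro h hh
    have : (⟨h, hh⟩ : H) ∈ C.subgroupOf H := by rw [hCH]; trivial
    rwa [Subgroup.mem_subgroupOf] at this
  intro a ha
  refine Subgroup.mem_centralizer_iff.mpr ?_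
  intro h hh
  have := Subgroup.mem_centralizer_iff.mp (hHC hh).2 a ha
  exact this.symm

end Cfsg.Agent.S1442
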