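-- Statement S1443.
import Cfsg.Statements.S1443
import Cfsg.Agent.Lib.Helper24.Coprime

set_option autoImplicit false
open Cfsg

namespace Cfsg.Agent.S1443

open Cfsg.Agent.Lib.Helper24.Coprime in
/-- Let G be a finite group, p an odd prime, H a p-subgroup, E an elementary abelian subgroup of H, and A a subgroup of order coprime to p normalizing H. If A centralizes every element of order p in H ∩ C_G(E), then A centralizes H. -/
theorem result {G : Type*} [Group G] [Finite G] (p : ℕ) [Fact p.Prime] (hp : p ≠ 2) (H E A : Subgroup G) (hH : IsPGroup p H) (hE : E ≤ H) (hEe : Cfsg.IsElementaryAbelian p E)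
    (hA : (A ≤ Subgroup.normalizer (H : Set G))) (hcop : (Nat.card A).Coprime p)
    (hfix : ∀ x ∈ (H ⊓ Subgroup.centralizer (E : Set G)), orderOf x = p → A ≤ Subgroup.centralizer ({x} : Set G)) :
    A ≤ Subgroup.centralizer (H : Set G) := by
  intro a ha
  have hpr : p.Prime := Fact.out
  have ho : (orderOf a).Coprime p := by
    have h1 : orderOf a ∣ Nat.card A := by
      have := orderOf_dvd_natCard (⟨a, ha⟩ : A)
      rwa [Subgroup.orderOf_mk] at this
    exact Nat.Coprime.coprime_dvd_left h1 hcop
  have haH : a ∈ Subgroup.normalizer (H : Set G) := hA ha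
  -- `a` commutes with the elements `x` of `C_H(E)` with `x ^ p = 1`
  have hC₀ : ∀ x ∈ H ⊓ Subgroup.centralizer (E : Set G), x ^ p = 1 → x * a = a * x := by
    intro x hx hxp
    by_cases hx1 : x = 1
    · subst hx1; simp
    · have hox : orderOf x = p := by
        have := orderOf_dvd_of_pow_eq_one hxp
        rcases (Nat.dvd_prime hpr).mp this with h | h
        · exact absurd (orderOf_eq_one_iff.mp h) hx1
        · exact h
      have := Subgroup.mem_centralizer_iff.mp (hfix x hx hox ha) x rfl
      exact this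
  have hEcomm : ∀ x ∈ E, ∀ y ∈ E, x * y = y * x := by
    intro x hx y hy
    have h := isMulCommutative_iff.mp hEe.1 (⟨x, hx⟩ : E) ⟨y, hy⟩
    exact congrArg Subtype.val h
  have hEle : E ≤ H ⊓ Subgroup.centralizer (E : Set G) := by
    intro x hx
    refine ⟨hE hx, Subgroup.mem_centralizer_iff.mpr ?_⟩
    intro y hy
    exact hEcomm y hy x hx
  have haE : ∀ b ∈ E, b * a = a * b := fun b hb => hC₀ b (hEle hb) (hEe.2 b hb)
  -- `a` normalizes `C_H(E)`
  have haC : a ∈ Subgroup.normalizer ((H ⊓ Subgroup.centralizer (E : Set G) : Subgroup G) : Set G) := by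
    rw [Subgroup.mem_normalizer_iff]
    intro x
    have hiff := Subgroup.mem_normalizer_iff.mp haH x
    constructor
    · rintro ⟨hxH, hxE⟩
      refine ⟨hiff.mp hxH, Subgroup.mem_centralizer_iff.mpr ?_⟩
      intro e he
      have h1 : e * x = x * e := Subgroup.mem_centralizer_iff.mp hxE e he
      have h2 : e * a = a * e := haE e he
      have h3 : e * a⁻¹ = a⁻¹ * e := by
        rw [eq_inv_mul_iff_mul_eq, ← mul_assoc, ← h2, mul_inv_cancel_right]
      calc e * (a * x * a⁻¹) = (e * a) * x * a⁻¹ := by group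
        _ = a * (e * x) * a⁻¹ := by rw [h2]; group
        _ = a * x * (e * a⁻¹) := by rw [h1]; group
        _ = a * x * a⁻¹ * e := by rw [h3]; group
    · rintro ⟨hxH, hxE⟩
      refine ⟨hiff.mpr hxH, Subgroup.mem_centralizer_iff.mpr ?_⟩
      intro e he
      have h1 : e * (a * x * a⁻¹) = (a * x * a⁻¹) * e := Subgroup.mem_centralizer_iff.mp hxE e he
      have h2 : e * a = a * e := haE e he
      have h3 : e * a⁻¹ = a⁻¹ * e := by
        rw [eq_inv_mul_iff_mul_eq, ← mul_assoc, ← h2, mul_inv_cancel_right]
      calc e * x = a⁻¹ * ((a * e) * x * a⁻¹) * a := by group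
        _ = a⁻¹ * (e * (a * x * a⁻¹)) * a := by rw [← h2]; group
        _ = a⁻¹ * ((a * x * a⁻¹) * e) * a := by rw [h1]
        _ = x * (a⁻¹ * e) * a := by group
        _ = x * (e * a⁻¹) * a := by rw [h3]
        _ = x * e := by group
  -- `a` centralizes `C_H(E)`
  have hC₁ : ∀ x ∈ H ⊓ Subgroup.centralizer (E : Set G), x * a = a * x :=
    centralizes_of_centralizes_omega p hp a ho _ (hH.to_le inf_le_left) haC hC₀
  -- Thompson's lemma
  have hfin : ∀ x ∈ H, x * a = a * x := by
    refine thompson_AxB p H hH E hE a ho haE H le_rfl haH (hE.trans Subgroup.le_normalizer) ?_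
    intro x hx hxE
    apply hC₁ x
    refine ⟨hx, Subgroup.mem_centralizer_iff.mpr ?_⟩
    intro e he
    exact hxE e he
  refine Subgroup.mem_centralizer_iff.mpr ?_
  intro h hh
  exact hfin h hh

end Cfsg.Agent.S1443
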