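-- Statement S1452.
import Cfsg.Statements.S1452
import Cfsg.Agent.Lib.Helper24.PGroupBasic

set_option autoImplicit false
open Cfsg

namespace Cfsg.Agent.S1452

open Cfsg.Agent.Lib.Helper24.PGroupBasic in
/-- Let p be an odd prime and R a finite p-group containing an elementary abelian subgroup of order p ^ 3. If E is a normal elementary abelian subgroup of R of order p ^ 2, then E ≤ A for some normal subgroup A of R with C_R(A) = A that contains an elementary abelian subgroup of order p ^ 3. -/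
theorem result {R : Type*} [Group R] [Finite R] (p : ℕ) [Fact p.Prime] (hp : p ≠ 2) (hR : IsPGroup p R) (hr : ¬ Cfsg.PRankLE p 2 R)
    (E : Subgroup R) [E.Normal] (hE : Cfsg.IsElementaryAbelian p E) (hE2 : Nat.card E = p ^ 2) :
    ∃ A : Subgroup R, E ≤ A ∧ A.Normal ∧ Subgroup.centralizer (A : Set R) = A ∧ ¬ Cfsg.PRankLE p 2 A := by
  have hRnil : Group.IsNilpotent R := hR.isNilpotent
  have hEc : ∀ a ∈ E, ∀ b ∈ E, a * b = b * a := fun a ha b hb =>
    congrArg Subtype.val (isMulCommutative_iff.mp hE.1 ⟨a, ha⟩ ⟨b, hb⟩)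
  -- a maximal normal elementary abelian subgroup containing `E`
  obtain ⟨A₀, ⟨hA₀n, hA₀c, hA₀e⟩, hEA₀, hA₀max⟩ := exists_maximal_subgroup
    (fun A : Subgroup R => A.Normal ∧ (∀ a ∈ A, ∀ b ∈ A, a * b = b * a) ∧ ∀ a ∈ A, a ^ p = 1) E
    ⟨inferInstance, hEc, hE.2⟩
  have hcard : ¬ Nat.card A₀ ≤ p ^ 2 := by
    intro hcard
    apply hr
    intro X hXc hXe
    refine card_le_of_max_normal_elementary hp hR A₀ hA₀c hA₀e ?_ hcard X ?_ hXe
    · intro B hBn hBc hBe hAB
      exact hA₀max B ⟨hBn, hBc, hBe⟩ hAB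
    · intro a ha b hb
      exact congrArg Subtype.val (isMulCommutative_iff.mp hXc ⟨a, ha⟩ ⟨b, hb⟩)
  -- a maximal normal abelian subgroup containing `A₀`
  obtain ⟨A, ⟨hAn, hAc⟩, hA₀A, hAmax⟩ := exists_maximal_subgroup
    (fun A : Subgroup R => A.Normal ∧ (∀ a ∈ A, ∀ b ∈ A, a * b = b * a)) A₀ ⟨hA₀n, hA₀c⟩
  refine ⟨A, hEA₀.trans hA₀A, hAn, ?_, ?_⟩
  · exact centralizer_eq_of_max_normal_abelian A hAc (fun M hMn hMc hAM => hAmax M ⟨hMn, hMc⟩ hAM)
  · intro hrank
    apply hcard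
    have h1 := hrank (A₀.subgroupOf A)
      (isMulCommutative_iff.mpr (fun a b => Subtype.ext (Subtype.ext
        (hA₀c a.1.1 (Subgroup.mem_subgroupOf.mp a.2) b.1.1 (Subgroup.mem_subgroupOf.mp b.2)))))
      (fun a ha => Subtype.ext (hA₀e a.1 (Subgroup.mem_subgroupOf.mp ha)))
    rwa [Nat.card_congr (Subgroup.subgroupOfEquivOfLe hA₀A).toEquiv] at h1

end Cfsg.Agent.S1452
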