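import Cfsg.Statements.S1459
import Cfsg.Agent.S0055
import Cfsg.Agent.Lib.Helper23.StabBound
import Cfsg.Agent.Lib.Helper23.Cores
import Cfsg.Agent.Lib.Helper50.Cores

set_option autoImplicit false
open Cfsg

namespace Cfsg.Agent.S1459

open scoped commutatorElement

variable {G : Type*} [Group G]

/-- `[H, K]` is normal when `H` is normal and `H ⊔ K = ⊤`. -/
theorem commutator_normal_of_sup [Finite G] (H K : Subgroup G) [hHn : H.Normal]
    (hsup : H ⊔ K = ⊤) : (⁅H, K⁆).Normal := by
  have hle : ∀ g : G, (g ∈ H ∨ g ∈ K) →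
      (⁅H, K⁆).map (MulAut.conj g).toMonoidHom ≤ ⁅H, K⁆ := by
    intro g hg
    rw [Subgroup.map_le_iff_le_comap, Subgroup.commutator_le]
    intro h hh k hk
    rw [Subgroup.mem_comap]
    show g * ⁅h, k⁆ * g⁻¹ ∈ ⁅H, K⁆
    rcases hg with hg | hg
    · have e : g * ⁅h, k⁆ * g⁻¹ = ⁅g * h, k⁆ * (⁅g, k⁆)⁻¹ := by
        simp only [commutatorElement_def]; group
      rw [e]
      exact mul_mem (Subgroup.commutator_mem_commutator (mul_mem hg hh) hk)
        (inv_mem (Subgroup.commutator_mem_commutator hg hk))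
    · have e : g * ⁅h, k⁆ * g⁻¹ = ⁅g * h * g⁻¹, g * k * g⁻¹⁆ := by
        simp only [commutatorElement_def]; group
      rw [e]
      exact Subgroup.commutator_mem_commutator (hHn.conj_mem h hh g)
        (mul_mem (mul_mem hg hk) (inv_mem hg))
  have hnorm : ∀ g : G, (g ∈ H ∨ g ∈ K) →
      g ∈ Subgroup.normalizer ((⁅H, K⁆ : Subgroup G) : Set G) := by
    intro g hg
    rw [Subgroup.mem_normalizer_iff_map_conj_eq]
    apply Subgroup.eq_of_le_of_card_ge (hle g hg)
    rw [Subgroup.card_map_of_injective (MulAut.conj g).injective]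
  have h1 : H ⊔ K ≤ Subgroup.normalizer ((⁅H, K⁆ : Subgroup G) : Set G) :=
    sup_le (fun g hg => hnorm g (Or.inl hg)) (fun g hg => hnorm g (Or.inr hg))
  rw [hsup, top_le_iff] at h1
  exact Subgroup.normalizer_eq_top_iff.1 h1

/-- First half of (a). -/
theorem le_commutator_of_complement [Finite G] [Group.IsSolvable G] (H K : Subgroup G)
    [hHn : H.Normal] (hcop : (Nat.card H).Coprime (Nat.card K)) (hsup : H ⊔ K = ⊤)
    (hle : H ≤ commutator G) : H ≤ ⁅H, K⁆ := by
  have hNn : (⁅H, K⁆).Normal := commutator_normal_of_sup H K hsup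
  obtain ⟨N, hN⟩ : ∃ N : Subgroup G, N = ⁅H, K⁆ := ⟨_, rfl⟩
  rw [← hN]
  have hNn' : N.Normal := hN ▸ hNn
  obtain ⟨π, hπdef⟩ : ∃ π : G →* G ⧸ N, π = QuotientGroup.mk' N := ⟨_, rfl⟩
  have hπ : Function.Surjective π := hπdef ▸ QuotientGroup.mk'_surjective N
  have hπker : ∀ x : G, π x = 1 ↔ x ∈ N := by
    intro x
    rw [hπdef]
    exact QuotientGroup.eq_one_iff x
  obtain ⟨HQ, hHQ⟩ : ∃ HQ : Subgroup (G ⧸ N), HQ = H.map π := ⟨_, rfl⟩
  obtain ⟨KQ, hKQ⟩ : ∃ KQ : Subgroup (G ⧸ N), KQ = K.map π := ⟨_, rfl⟩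
  have hcomm : ∀ a ∈ HQ, ∀ b ∈ KQ, Commute a b := by
    intro a ha b hb
    rw [hHQ] at ha
    rw [hKQ] at hb
    obtain ⟨h, hh, rfl⟩ := ha
    obtain ⟨k, hk, rfl⟩ := hb
    have h1 : ⁅h, k⁆ ∈ N := hN ▸ Subgroup.commutator_mem_commutator hh hk
    have h2 : π ⁅h, k⁆ = 1 := (hπker _).2 h1
    rw [map_commutatorElement] at h2
    exact commutatorElement_eq_one_iff_commute.1 h2
  have hinf : HQ ⊓ KQ = ⊥ := by
    have h1 : Nat.card HQ ∣ Nat.card H := hHQ ▸ Subgroup.card_map_dvd H π
    have h2 : Nat.card KQ ∣ Nat.card K := hKQ ▸ Subgroup.card_map_dvd K π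
    exact (Subgroup.disjoint_of_coprime_natCard
      (Nat.Coprime.coprime_dvd_left h1 (Nat.Coprime.coprime_dvd_right h2 hcop))).eq_bot
  obtain ⟨φ, hφdef⟩ : ∃ φ : HQ × KQ →* G ⧸ N, φ = MonoidHom.noncommCoprod HQ.subtype KQ.subtype
      (fun m n => show Commute (HQ.subtype m) (KQ.subtype n) from hcomm m m.2 n n.2) :=
    ⟨_, rfl⟩
  have hφ : Function.Surjective φ := by
    rw [← MonoidHom.range_eq_top, hφdef, MonoidHom.noncommCoprod_range, Subgroup.range_subtype,
      Subgroup.range_subtype, hHQ, hKQ, ← Subgroup.map_sup, hsup, ← MonoidHom.range_eq_map,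
      MonoidHom.range_eq_top.2 hπ]
  have hφapp : ∀ u : HQ, ∀ v : KQ, φ (u, v) = (u : G ⧸ N) * (v : G ⧸ N) := by
    intro u v
    rw [hφdef]
    rfl
  have hcQ : commutator (G ⧸ N) = (commutator (HQ × KQ)).map φ := by
    rw [commutator_def, commutator_def, Subgroup.map_commutator, ← MonoidHom.range_eq_map,
      MonoidHom.range_eq_top.2 hφ]
  have hprod : commutator (HQ × KQ) = (commutator HQ).prod (commutator KQ) := by
    rw [commutator_def, commutator_def, commutator_def, ← Subgroup.top_prod_top,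
      Subgroup.commutator_prod_prod]
  have hperf : commutator HQ = ⊤ := by
    rw [eq_top_iff]
    intro x _
    have hx : (x : G ⧸ N) ∈ commutator (G ⧸ N) := by
      have hx2 : (x : G ⧸ N) ∈ H.map π := hHQ ▸ x.2
      obtain ⟨h, hh, hhx⟩ := hx2
      rw [← hhx]
      have h3 : π h ∈ (commutator G).map π := Subgroup.mem_map_of_mem π (hle hh)
      rw [commutator_def, Subgroup.map_commutator] at h3
      rw [commutator_def]
      exact Subgroup.commutator_mono le_top le_top h3
    rw [hcQ, hprod] at hx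
    obtain ⟨⟨u, v⟩, huv, hφuv⟩ := hx
    have hu : u ∈ commutator HQ := huv.1
    have h3 : (u : G ⧸ N) * (v : G ⧸ N) = (x : G ⧸ N) := by
      rw [← hφapp]; exact hφuv
    have hv1 : (v : G ⧸ N) ∈ HQ ⊓ KQ := by
      refine Subgroup.mem_inf.2 ⟨?_, v.2⟩
      have h4 : (v : G ⧸ N) = (u : G ⧸ N)⁻¹ * x := by rw [← h3]; group
      rw [h4]
      exact HQ.mul_mem (HQ.inv_mem u.2) x.2
    rw [hinf, Subgroup.mem_bot] at hv1
    have h5 : x = u := by
      apply Subtype.ext
      rw [← h3, hv1, mul_one]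
    rw [h5]
    exact hu
  have htriv : HQ = ⊥ := by
    by_contra hne
    have hnt : Nontrivial HQ := (Subgroup.nontrivial_iff_ne_bot HQ).2 hne
    have h6 := Group.IsSolvable.commutator_lt_top_of_nontrivial HQ
    rw [hperf] at h6
    exact lt_irrefl _ h6
  intro h hh
  have h7 : π h ∈ HQ := hHQ ▸ Subgroup.mem_map_of_mem π hh
  rw [htriv, Subgroup.mem_bot] at h7
  exact (hπker h).1 h7

/-- Second half of (a). -/
theorem cent_le_derived [Finite G] (H K : Subgroup G) [hHn : H.Normal]
    (hcop : (Nat.card H).Coprime (Nat.card K)) (hHK : H = ⁅H, K⁆) :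
    H ⊓ Subgroup.centralizer (K : Set G) ≤ ⁅H, H⁆ := by
  obtain ⟨D, hD⟩ : ∃ D : Subgroup G, D = ⁅H, H⁆ := ⟨_, rfl⟩
  rw [← hD]
  have hDn : D.Normal := hD ▸ (inferInstance : (⁅H, H⁆).Normal)
  obtain ⟨π, hπdef⟩ : ∃ π : G →* G ⧸ D, π = QuotientGroup.mk' D := ⟨_, rfl⟩
  have hπ : Function.Surjective π := hπdef ▸ QuotientGroup.mk'_surjective D
  have hπker : ∀ x : G, π x = 1 ↔ x ∈ D := by
    intro x
    rw [hπdef]
    exact QuotientGroup.eq_one_iff x
  have hVn : (H.map π).Normal := Subgroup.Normal.map hHn π hπ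
  have hVc : IsMulCommutative (H.map π) := by
    refine ⟨⟨fun a b => Subtype.ext ?_⟩⟩
    obtain ⟨h₁, hh₁, ha⟩ := a.2
    obtain ⟨h₂, hh₂, hb⟩ := b.2
    show (a : G ⧸ D) * (b : G ⧸ D) = (b : G ⧸ D) * (a : G ⧸ D)
    rw [← ha, ← hb, ← commutatorElement_eq_one_iff_mul_comm, ← map_commutatorElement, hπker, hD]
    exact Subgroup.commutator_mem_commutator hh₁ hh₂
  have hAV : K.map π ≤ Subgroup.normalizer ((H.map π : Subgroup (G ⧸ D)) : Set (G ⧸ D)) := by
    rw [Subgroup.normalizer_eq_top_iff.2 hVn]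
    exact le_top
  have hcop' : (Nat.card (K.map π)).Coprime (Nat.card (H.map π)) :=
    Nat.Coprime.coprime_dvd_left (Subgroup.card_map_dvd K π)
      (Nat.Coprime.coprime_dvd_right (Subgroup.card_map_dvd H π) hcop.symm)
  have h0 := Cfsg.Agent.S0055.inter_eq_bot (K.map π) (H.map π) hAV hcop'
  have hVA : ⁅H.map π, K.map π⁆ = H.map π := by
    rw [← Subgroup.map_commutator, ← hHK]
  rw [hVA] at h0
  intro x hx
  have h1 : π x ∈ (H.map π ⊓ Subgroup.centralizer ((K.map π : Subgroup (G ⧸ D)) : Set (G ⧸ D)))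
      ⊓ H.map π := by
    refine Subgroup.mem_inf.2 ⟨Subgroup.mem_inf.2 ⟨Subgroup.mem_map_of_mem π hx.1, ?_⟩,
      Subgroup.mem_map_of_mem π hx.1⟩
    rw [Subgroup.mem_centralizer_iff]
    rintro _ ⟨k, hk, rfl⟩
    rw [← map_mul, ← map_mul, Subgroup.mem_centralizer_iff.1 hx.2 k hk]
  rw [h0, Subgroup.mem_bot] at h1
  exact (hπker x).1 h1

/-- A nilpotent group with a homomorphism to a cyclic group whose kernel lies in the derived
subgroup is commutative. -/
theorem comm_of_cyclic_quot [Group.IsNilpotent G] {C : Type*} [Group C] [IsCyclic C]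
    (f : G →* C) (hker : f.ker ≤ commutator G) : ∀ a b : G, a * b = b * a := by
  obtain ⟨D₃, hD₃⟩ : ∃ D₃ : Subgroup G, D₃ = ⁅commutator G, (⊤ : Subgroup G)⁆ := ⟨_, rfl⟩
  have hD₃n : D₃.Normal := hD₃ ▸ (inferInstance : (⁅commutator G, (⊤ : Subgroup G)⁆).Normal)
  have hD₃le : D₃ ≤ commutator G := hD₃ ▸ Subgroup.commutator_le_left _ _
  have hcomm_le : commutator G ≤ f.ker := by
    rw [commutator_def, Subgroup.commutator_le]
    intro a _ b _
    rw [MonoidHom.mem_ker, map_commutatorElement, commutatorElement_eq_one_iff_mul_comm]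
    exact IsCyclic.commGroup.mul_comm (f a) (f b)
  obtain ⟨f₃, hf₃⟩ : ∃ f₃ : G ⧸ D₃ →* C, ∀ x : G, f₃ (x : G ⧸ D₃) = f x :=
    ⟨QuotientGroup.lift D₃ f (fun x hx => MonoidHom.mem_ker.1 (hcomm_le (hD₃le hx))),
      fun x => rfl⟩
  have hker₃ : f₃.ker ≤ Subgroup.center (G ⧸ D₃) := by
    intro y hy
    obtain ⟨x, rfl⟩ := QuotientGroup.mk_surjective y
    have hx : x ∈ f.ker := by
      rw [MonoidHom.mem_ker, ← hf₃]
      exact MonoidHom.mem_ker.1 hy
    have hxD : x ∈ commutator G := hker hx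
    rw [Subgroup.mem_center_iff]
    intro z
    obtain ⟨g, rfl⟩ := QuotientGroup.mk_surjective z
    have h1 : ⁅g, x⁆ ∈ D₃ := by
      have h0 : ⁅x, g⁆ ∈ D₃ := hD₃ ▸ Subgroup.commutator_mem_commutator hxD (Subgroup.mem_top g)
      have e : ⁅g, x⁆ = (⁅x, g⁆)⁻¹ := by
        simp only [commutatorElement_def]; group
      rw [e]; exact inv_mem h0
    have h2 : ((⁅g, x⁆ : G) : G ⧸ D₃) = 1 := (QuotientGroup.eq_one_iff _).2 h1
    have h3 : ⁅(g : G ⧸ D₃), (x : G ⧸ D₃)⁆ = 1 := by
      rw [← h2]; rfl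
    exact commutatorElement_eq_one_iff_mul_comm.1 h3
  have hab : ∀ a b : G ⧸ D₃, a * b = b * a := fun a b =>
    (f₃.isMulCommutative_of_isCyclic_of_ker_le_center hker₃).is_comm.comm a b
  have hle : commutator G ≤ D₃ := by
    rw [commutator_def, Subgroup.commutator_le]
    intro a _ b _
    rw [← QuotientGroup.eq_one_iff]
    have h4 : ((⁅a, b⁆ : G) : G ⧸ D₃) = ⁅(a : G ⧸ D₃), (b : G ⧸ D₃)⁆ := rfl
    rw [h4, commutatorElement_eq_one_iff_mul_comm]
    exact hab _ _
  have heq : ⁅commutator G, (⊤ : Subgroup G)⁆ = commutator G :=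
    le_antisymm (Subgroup.commutator_le_left _ _) (hD₃ ▸ hle)
  have hbot : commutator G = ⊥ := by
    by_contra hne
    exact Cfsg.Agent.Lib.Helper23.StabBound.commutator_top_ne (commutator G) hne heq
  intro a b
  have h5 : ⁅a, b⁆ ∈ commutator G := by
    rw [commutator_def]
    exact Subgroup.commutator_mem_commutator (Subgroup.mem_top a) (Subgroup.mem_top b)
  rw [hbot, Subgroup.mem_bot] at h5
  exact commutatorElement_eq_one_iff_mul_comm.1 h5

/-- First half of (b). -/
theorem coprime_of_nilpotent [Finite G] (hnil : Group.IsNilpotent ↥(commutator G))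
    (hp : (commutator G).index.Prime) :
    (Nat.card ↥(commutator G)).Coprime (commutator G).index := by
  obtain ⟨p, hpdef⟩ : ∃ p, p = (commutator G).index := ⟨_, rfl⟩
  rw [← hpdef] at hp ⊢
  haveI : Fact p.Prime := ⟨hp⟩
  obtain ⟨Q, hQ⟩ : ∃ Q : Subgroup G, Q = Cfsg.pPrimeCore p G := ⟨_, rfl⟩
  have hQn : Q.Normal := hQ ▸ Cfsg.Agent.Lib.Helper50.Cores.pPrimeCore_normal p
  have hQcop : (Nat.card Q).Coprime p := hQ ▸ Cfsg.Agent.Lib.Helper23.Cores.pPrimeCore_card_coprime p
  have hcardq : Nat.card (G ⧸ commutator G) = p := by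
    rw [← Subgroup.index_eq_card, hpdef]
  have hQle : Q ≤ commutator G := by
    intro x hx
    rw [← QuotientGroup.eq_one_iff]
    have h1 : orderOf ((x : G ⧸ commutator G)) ∣ p := by
      have h0 := orderOf_dvd_natCard (x : G ⧸ commutator G)
      rwa [hcardq] at h0
    have h2 : orderOf ((x : G ⧸ commutator G)) ∣ Nat.card Q := by
      have h3 : orderOf ((x : G ⧸ commutator G)) ∣ orderOf x :=
        orderOf_map_dvd (QuotientGroup.mk' (commutator G)) x
      exact h3.trans (Subgroup.orderOf_dvd_natCard Q hx)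
    have h4 : orderOf ((x : G ⧸ commutator G)) ∣ 1 := by
      have h5 := Nat.dvd_gcd h2 h1
      rwa [Nat.Coprime.gcd_eq_one hQcop] at h5
    exact orderOf_eq_one_iff.1 (Nat.dvd_one.1 h4)
  have hidx : ∀ q : ℕ, q.Prime → q ∣ Q.index → q = p := by
    intro q hq hqd
    by_contra hne
    haveI : Fact q.Prime := ⟨hq⟩
    obtain ⟨T⟩ : Nonempty (Sylow q ↥(commutator G)) := inferInstance
    have hTn : (T : Subgroup ↥(commutator G)).Normal :=
      Sylow.normal_of_normalizerCondition Group.normalizerCondition_of_isNilpotent T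
    haveI hTc : (T : Subgroup ↥(commutator G)).Characteristic :=
      Sylow.characteristic_of_normal T hTn
    have hT'n : ((T : Subgroup ↥(commutator G)).map (commutator G).subtype).Normal :=
      ConjAct.normal_of_characteristic_of_normal
    have hT'card : Nat.card ↥((T : Subgroup ↥(commutator G)).map (commutator G).subtype)
        = q ^ (Nat.card ↥(commutator G)).factorization q := by
      rw [Subgroup.card_map_of_injective (Subgroup.subtype_injective _), Sylow.card_eq_multiplicity]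
    have hT'le : (T : Subgroup ↥(commutator G)).map (commutator G).subtype ≤ Q := by
      rw [hQ]
      apply Cfsg.Agent.Lib.Helper23.Cores.le_pPrimeCore p _ hT'n
      rw [hT'card]
      exact Nat.Coprime.pow_left _ ((Nat.coprime_primes hq hp).2 hne)
    have h5 : ¬ q ∣ ((T : Subgroup ↥(commutator G)).map (commutator G).subtype).index := by
      rw [Subgroup.index_map_subtype, ← hpdef]
      intro hdiv
      rcases (Nat.Prime.dvd_mul hq).1 hdiv with h | h
      · exact T.not_dvd_index h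
      · exact hne ((Nat.prime_dvd_prime_iff_eq hq hp).1 h)
    exact h5 (hqd.trans (Subgroup.index_dvd_of_le hT'le))
  have hpg : IsPGroup p (G ⧸ Q) := by
    have hQidx0 : Q.index ≠ 0 := Subgroup.index_ne_zero_of_finite
    have h6 := Nat.eq_prime_pow_of_unique_prime_dvd hQidx0 (fun {m} hm hmd => hidx m hm hmd)
    exact IsPGroup.of_card (by rw [← Subgroup.index_eq_card]; exact h6)
  haveI : Group.IsNilpotent (G ⧸ Q) := hpg.isNilpotent
  obtain ⟨f, hf⟩ : ∃ f : G ⧸ Q →* G ⧸ commutator G,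
      ∀ x : G, f (x : G ⧸ Q) = (x : G ⧸ commutator G) :=
    ⟨QuotientGroup.map Q (commutator G) (MonoidHom.id G) hQle, fun x => rfl⟩
  haveI : IsCyclic (G ⧸ commutator G) := isCyclic_of_prime_card (p := p) hcardq
  have hker : f.ker ≤ commutator (G ⧸ Q) := by
    intro y hy
    obtain ⟨x, rfl⟩ := QuotientGroup.mk_surjective y
    have hx : x ∈ commutator G := by
      rw [← QuotientGroup.eq_one_iff, ← hf]
      exact MonoidHom.mem_ker.1 hy
    have h7 : (QuotientGroup.mk' Q) x ∈ (commutator G).map (QuotientGroup.mk' Q) :=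
      Subgroup.mem_map_of_mem _ hx
    rw [commutator_def, Subgroup.map_commutator] at h7
    rw [commutator_def]
    exact Subgroup.commutator_mono le_top le_top h7
  have hab := comm_of_cyclic_quot f hker
  have hG'Q : commutator G ≤ Q := by
    rw [commutator_def, Subgroup.commutator_le]
    intro a _ b _
    rw [← QuotientGroup.eq_one_iff]
    have h8 : ((⁅a, b⁆ : G) : G ⧸ Q) = ⁅(a : G ⧸ Q), (b : G ⧸ Q)⁆ := rfl
    rw [h8, commutatorElement_eq_one_iff_mul_comm]
    exact hab _ _
  exact Nat.Coprime.coprime_dvd_left (Subgroup.card_dvd_of_le hG'Q) hQcop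

/-- Let G be a finite solvable group. (a) If H is a normal subgroup of order coprime to its index, K is a complement to H, and H ≤ G', then H = [H, K] and H ∩ C_G(K) ≤ [H, H]. (b) If G' is nilpotent and has prime index in G, then the order of G' is coprime to its index and G' = [G, K] (the subgroup generated by commutators of elements of G with elements of K) for every complement K of G'. -/
theorem result {G : Type*} [Group G] [Finite G] [Group.IsSolvable G] :
    (∀ (H K : Subgroup G), H.Normal → (Nat.card H).Coprime H.index → Subgroup.IsComplement' H K → H ≤ commutator G →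
        H = ⁅H, K⁆ ∧ H ⊓ Subgroup.centralizer (K : Set G) ≤ ⁅H, H⁆) ∧
      (Group.IsNilpotent ↥(commutator G) → (commutator G).index.Prime →
        (Nat.card ↥(commutator G)).Coprime (commutator G).index ∧
        ∀ K : Subgroup G, Subgroup.IsComplement' (commutator G) K → commutator G = ⁅(⊤ : Subgroup G), K⁆) := by
  refine ⟨fun H K hHn hcop hc hle => ?_, fun hnil hp => ?_⟩
  · haveI := hHn
    have hK : H.index = Nat.card K := hc.symm.index_eq_card
    have hcop' : (Nat.card H).Coprime (Nat.card K) := hK ▸ hcop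
    have h1 : H = ⁅H, K⁆ :=
      le_antisymm (le_commutator_of_complement H K hcop' hc.sup_eq_top hle)
        (Subgroup.commutator_le_left H K)
    exact ⟨h1, cent_le_derived H K hcop' h1⟩
  · have hcop := coprime_of_nilpotent hnil hp
    refine ⟨hcop, fun K hc => ?_⟩
    have hK : (commutator G).index = Nat.card K := hc.symm.index_eq_card
    have h1 := le_commutator_of_complement (commutator G) K (hK ▸ hcop) hc.sup_eq_top le_rfl
    apply le_antisymm
    · exact h1.trans (Subgroup.commutator_mono le_top le_rfl)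
    · rw [commutator_def]
      exact Subgroup.commutator_mono le_rfl le_top

end Cfsg.Agent.S1459
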