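import Cfsg.Statements.S1460
import Cfsg.Agent.S0001
import Cfsg.Agent.Lib.Helper91.Hall
import Mathlib

set_option autoImplicit false
open Pointwise
open Cfsg

namespace Cfsg.Agent.S1460

open Cfsg.Agent.S0001 Cfsg.Agent.Lib.Helper91.Hall

/-- an element of `K` normalising `H` centralises `H` when `K ⊓ H = ⊥` and `K` is normal. -/
theorem centralizes_of_normalizes {G : Type*} [Group G] (K H : Subgroup G) [hKn : K.Normal]
    (hKH : K ⊓ H = ⊥) (c : G) (hc : c ∈ K) (hn : ∀ h ∈ H, c * h * c⁻¹ ∈ H) :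
    c ∈ Subgroup.centralizer (H : Set G) := by
  rw [Subgroup.mem_centralizer_iff]
  intro h hh
  have h1 : c * h * c⁻¹ * h⁻¹ ∈ H := H.mul_mem (hn h hh) (H.inv_mem hh)
  have h2 : c * h * c⁻¹ * h⁻¹ ∈ K := by
    have := hKn.conj_mem c⁻¹ (K.inv_mem hc) h
    have h3 := K.mul_mem hc this
    have e : c * (h * c⁻¹ * h⁻¹) = c * h * c⁻¹ * h⁻¹ := by group
    rwa [e] at h3
  have h3 : c * h * c⁻¹ * h⁻¹ ∈ K ⊓ H := ⟨h2, h1⟩
  rw [hKH, Subgroup.mem_bot] at h3
  have : c * h = h * c := by
    calc c * h = (c * h * c⁻¹ * h⁻¹) * (h * c) := by group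
      _ = h * c := by rw [h3, one_mul]
  exact this.symm

/-- part (c). -/
theorem part_c {G : Type*} [Group G] [Finite G] [Group.IsSolvable G] (K U H : Subgroup G)
    [hKn : K.Normal] (hKU : K ⊔ U = ⊤) (hH : H ≤ U) (hcop : (Nat.card H).Coprime (Nat.card K))
    (g : G) (hg : ∀ h ∈ H, g * h * g⁻¹ ∈ U) :
    ∃ u ∈ U, ∃ c ∈ K ⊓ Subgroup.centralizer (H : Set G), g = u * c := by
  -- decompose g
  have hgm : g ∈ ((U ⊔ K : Subgroup G) : Set G) := by
    rw [sup_comm, hKU]; trivial
  rw [Subgroup.mul_normal, Set.mem_mul] at hgm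
  obtain ⟨u₁, hu₁, k, hk, rfl⟩ := hgm
  have hkU : ∀ h ∈ H, k * h * k⁻¹ ∈ U := by
    intro h hh
    have := U.mul_mem (U.mul_mem (U.inv_mem hu₁) (hg h hh)) hu₁
    have e : u₁⁻¹ * (u₁ * k * h * (u₁ * k)⁻¹) * u₁ = k * h * k⁻¹ := by group
    rwa [e] at this
  have hKH : K ⊓ H = ⊥ := Subgroup.inf_eq_bot_of_coprime hcop.symm
  -- the subgroup Y
  set Y : Subgroup G := (K ⊓ U) ⊔ H with hY
  have hYU : Y ≤ U := sup_le inf_le_right hH
  have hHY : H ≤ Y := le_sup_right
  have hH₁Y : MulAut.conj k • H ≤ Y := by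
    intro z hz
    rw [mem_conj_smul] at hz
    have e : z = (k * (k⁻¹ * z * k) * k⁻¹ * (k⁻¹ * z * k)⁻¹) * (k⁻¹ * z * k) := by group
    rw [e]
    apply Y.mul_mem
    · apply Subgroup.mem_sup_left
      constructor
      · have := hKn.conj_mem k⁻¹ (K.inv_mem hk) (k⁻¹ * z * k)
        have h3 := K.mul_mem hk this
        have e2 : k * (k⁻¹ * z * k * k⁻¹ * (k⁻¹ * z * k)⁻¹) =
            k * (k⁻¹ * z * k) * k⁻¹ * (k⁻¹ * z * k)⁻¹ := by group
        rwa [e2] at h3
      · exact U.mul_mem (hkU _ hz) (U.inv_mem (hH hz))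
    · exact Subgroup.mem_sup_right hz
  -- complements inside Y
  have hN : (K ⊓ U).subgroupOf Y = K.subgroupOf Y := by
    ext x
    simp only [Subgroup.mem_subgroupOf, Subgroup.mem_inf]
    exact ⟨fun h => h.1, fun h => ⟨h, hYU x.2⟩⟩
  have hsup : K.subgroupOf Y ⊔ H.subgroupOf Y = ⊤ := by
    rw [← hN, ← Subgroup.subgroupOf_sup le_sup_left hHY]
    exact Subgroup.subgroupOf_self _
  have hinf : K.subgroupOf Y ⊓ H.subgroupOf Y = ⊥ := by
    ext x
    simp only [Subgroup.mem_inf, Subgroup.mem_subgroupOf, Subgroup.mem_bot]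
    constructor
    · rintro ⟨h1, h2⟩
      have : (x : G) ∈ K ⊓ H := ⟨h1, h2⟩
      rw [hKH, Subgroup.mem_bot] at this
      exact Subtype.ext this
    · rintro rfl
      exact ⟨K.one_mem, H.one_mem⟩
  have hcardA : Nat.card (H.subgroupOf Y) = Nat.card H := card_subgroupOf_of_le hHY
  have hcardB : Nat.card ((MulAut.conj k • H).subgroupOf Y) = Nat.card H := by
    rw [card_subgroupOf_of_le hH₁Y, card_conj]
  have hcardN : Nat.card (K.subgroupOf Y) ∣ Nat.card K := card_subgroupOf_dvd K Y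
  have hcardY : Nat.card (K.subgroupOf Y) * Nat.card (H.subgroupOf Y) = Nat.card Y := by
    rw [← card_sup_normal (K.subgroupOf Y) (H.subgroupOf Y) hinf, hsup, Subgroup.card_top]
  have hcop' : (Nat.card (K.subgroupOf Y)).Coprime (Nat.card H) :=
    (hcop.symm).coprime_dvd_left hcardN
  have hA : Subgroup.IsComplement' (K.subgroupOf Y) (H.subgroupOf Y) :=
    Subgroup.isComplement'_of_coprime hcardY (by rw [hcardA]; exact hcop')
  have hB : Subgroup.IsComplement' (K.subgroupOf Y) ((MulAut.conj k • H).subgroupOf Y) :=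
    Subgroup.isComplement'_of_coprime (by rw [hcardB, ← hcardA]; exact hcardY)
      (by rw [hcardB]; exact hcop')
  obtain ⟨n, hn, hconj⟩ := sz_conj_mem (K.subgroupOf Y) (H.subgroupOf Y)
    ((MulAut.conj k • H).subgroupOf Y) hA hB (by rw [hcardA]; exact hcop') (Or.inl inferInstance)
  have hconj' : MulAut.conj (n : G) • H = MulAut.conj k • H :=
    conj_of_subgroupOf n hHY hH₁Y hconj
  have hnK : (n : G) ∈ K := Subgroup.mem_subgroupOf.mp hn
  have hnU : (n : G) ∈ U := hYU n.2
  -- c := n⁻¹ * k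
  have hcK : (n : G)⁻¹ * k ∈ K := K.mul_mem (K.inv_mem hnK) hk
  have hcN : ∀ h ∈ H, ((n : G)⁻¹ * k) * h * ((n : G)⁻¹ * k)⁻¹ ∈ H := by
    intro h hh
    have h1 : k * h * k⁻¹ ∈ MulAut.conj k • H := by
      rw [mem_conj_smul]
      have e : k⁻¹ * (k * h * k⁻¹) * k = h := by group
      rw [e]; exact hh
    rw [← hconj', mem_conj_smul] at h1
    have e : ((n : G)⁻¹ * k) * h * ((n : G)⁻¹ * k)⁻¹ = (n : G)⁻¹ * (k * h * k⁻¹) * (n : G) := by
      group
    rw [e]; exact h1
  refine ⟨u₁ * (n : G), U.mul_mem hu₁ hnU, (n : G)⁻¹ * k,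
    ⟨hcK, centralizes_of_normalizes K H hKH _ hcK hcN⟩, ?_⟩
  group

/-- part (a). -/
theorem part_a {G : Type*} [Group G] [Finite G] (K U H : Subgroup G)
    [hKn : K.Normal] (hKU : K ⊔ U = ⊤) (hH : H ≤ U) (hcop : (Nat.card H).Coprime (Nat.card K)) :
    H ⊓ commutator G = H ⊓ ⁅U, U⁆ := by
  apply le_antisymm
  · rintro h ⟨hh, hc⟩
    refine ⟨hh, ?_⟩
    have h1 : commutator G ≤ ⁅U, U⁆ ⊔ K := by
      have hmap : (⊤ : Subgroup G).map (QuotientGroup.mk' K) = U.map (QuotientGroup.mk' K) := by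
        rw [← hKU, Subgroup.map_sup]
        have hb : K.map (QuotientGroup.mk' K) = ⊥ := by
          rw [Subgroup.map_eq_bot_iff, QuotientGroup.ker_mk']
        rw [hb, bot_sup_eq]
      have h2 : (commutator G).map (QuotientGroup.mk' K) = (⁅U, U⁆).map (QuotientGroup.mk' K) := by
        rw [commutator_def, Subgroup.map_commutator, Subgroup.map_commutator, hmap]
      calc commutator G ≤ ((commutator G).map (QuotientGroup.mk' K)).comap (QuotientGroup.mk' K) :=
            Subgroup.le_comap_map _ _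
        _ = ((⁅U, U⁆).map (QuotientGroup.mk' K)).comap (QuotientGroup.mk' K) := by rw [h2]
        _ = ⁅U, U⁆ ⊔ K := by rw [Subgroup.comap_map_eq, QuotientGroup.ker_mk']
    have h4 : h ∈ ((⁅U, U⁆ ⊔ K : Subgroup G) : Set G) := h1 hc
    rw [Subgroup.mul_normal, Set.mem_mul] at h4
    obtain ⟨a, ha, k, hk, rfl⟩ := h4
    have ha' : a ∈ ⁅U, U⁆ := ha
    have hk' : k ∈ K := hk
    have haU : a ∈ U := Subgroup.commutator_le_self U ha'
    have hkU : k ∈ U := by
      have := U.mul_mem (U.inv_mem haU) (hH hh)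
      simpa using this
    have hφa : (Abelianization.of : ↥U →* Abelianization ↥U) ⟨a, haU⟩ = 1 := by
      rw [← MonoidHom.mem_ker, Abelianization.ker_of]
      have h5 := ha'
      rw [← Subgroup.map_subtype_commutator] at h5
      obtain ⟨a', ha'', h6⟩ := h5
      have : a' = ⟨a, haU⟩ := Subtype.ext h6
      rw [← this]; exact ha''
    have hφ : (Abelianization.of : ↥U →* Abelianization ↥U) ⟨a * k, hH hh⟩ =
        (Abelianization.of : ↥U →* Abelianization ↥U) ⟨k, hkU⟩ := by
      have : (⟨a * k, hH hh⟩ : U) = ⟨a, haU⟩ * ⟨k, hkU⟩ := rfl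
      rw [this, map_mul, hφa, one_mul]
    have ho1 : orderOf ((Abelianization.of : ↥U →* Abelianization ↥U) ⟨a * k, hH hh⟩) ∣
        Nat.card H := by
      apply orderOf_dvd_of_pow_eq_one
      rw [← map_pow]
      have : (⟨a * k, hH hh⟩ : U) ^ Nat.card H = 1 := by
        have e : (a * k) ^ Nat.card H = 1 :=
          orderOf_dvd_iff_pow_eq_one.mp (Subgroup.orderOf_dvd_natCard H hh)
        apply Subtype.ext
        simpa using e
      rw [this, map_one]
    have ho2 : orderOf ((Abelianization.of : ↥U →* Abelianization ↥U) ⟨a * k, hH hh⟩) ∣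
        Nat.card K := by
      rw [hφ]
      apply orderOf_dvd_of_pow_eq_one
      rw [← map_pow]
      have : (⟨k, hkU⟩ : U) ^ Nat.card K = 1 := by
        have e : k ^ Nat.card K = 1 :=
          orderOf_dvd_iff_pow_eq_one.mp (Subgroup.orderOf_dvd_natCard K hk')
        apply Subtype.ext
        simpa using e
      rw [this, map_one]
    have ho := Nat.eq_one_of_dvd_coprimes hcop ho1 ho2
    rw [orderOf_eq_one_iff, ← MonoidHom.mem_ker, Abelianization.ker_of] at ho
    rw [← Subgroup.map_subtype_commutator]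
    exact ⟨_, ho, rfl⟩
  · refine inf_le_inf_left H ?_
    rw [commutator_def]
    exact Subgroup.commutator_mono le_top le_top

/-- Let G be a finite solvable group, K a normal subgroup and U a subgroup with G = KU, and H ≤ U a subgroup whose order is coprime to that of K. Then H ∩ G' = H ∩ U'; N_G(H) is generated by K ∩ C_G(H) and U ∩ N_G(H); and if gHg⁻¹ ≤ U for some g ∈ G then g = u c with u ∈ U and c ∈ K ∩ C_G(H). -/
theorem result {G : Type*} [Group G] [Finite G] [Group.IsSolvable G] (K U H : Subgroup G) [K.Normal] (hKU : K ⊔ U = ⊤) (hH : H ≤ U) (hcop : (Nat.card H).Coprime (Nat.card K)) :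
    H ⊓ commutator G = H ⊓ ⁅U, U⁆ ∧
      Subgroup.normalizer (H : Set G) = (K ⊓ Subgroup.centralizer (H : Set G)) ⊔ (U ⊓ Subgroup.normalizer (H : Set G)) ∧
      ∀ g : G, H.map (MulAut.conj g).toMonoidHom ≤ U → ∃ u ∈ U, ∃ c ∈ K ⊓ Subgroup.centralizer (H : Set G), g = u * c := by
  refine ⟨part_a K U H hKU hH hcop, ?_, ?_⟩
  · apply le_antisymm
    · intro g hg
      have hg' := hg
      rw [Subgroup.mem_normalizer_iff] at hg'
      obtain ⟨u, hu, c, hc, rfl⟩ := part_c K U H hKU hH hcop g (fun h hh => hH ((hg' h).1 hh))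
      have hcN : c ∈ Subgroup.normalizer (H : Set G) := Subgroup.centralizer_le_normalizer _ hc.2
      have huN : u ∈ Subgroup.normalizer (H : Set G) := by
        have := (Subgroup.normalizer (H : Set G)).mul_mem hg (inv_mem hcN)
        simpa using this
      rw [sup_comm]
      exact Subgroup.mul_mem_sup ⟨hu, huN⟩ hc
    · apply sup_le
      · exact inf_le_right.trans (Subgroup.centralizer_le_normalizer _)
      · exact inf_le_right
  · intro g hg
    apply part_c K U H hKU hH hcop g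
    intro h hh
    have := hg (Subgroup.mem_map_of_mem _ hh)
    simpa using this

end Cfsg.Agent.S1460
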