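import Cfsg.Statements.S1461
import Cfsg.Agent.S1460
import Cfsg.Agent.Lib.Helper76.PSolv
import Cfsg.Agent.Lib.Helper91.Hall
import Mathlib

set_option autoImplicit false
open Pointwise
open Cfsg

namespace Cfsg.Agent.S1461

open Cfsg.Agent.Lib.Helper76.PSolv Cfsg.Agent.Lib.Helper91.Hall

/-- the structure of a group of `p`-length one: a normal `p'`-subgroup `K` with `G = K N_G(S)`. -/
theorem exists_K {G : Type*} [Group G] [Finite G] (p : ℕ) [hp : Fact p.Prime]
    (hpl : Cfsg.PLengthLE p 1 G) (S : Sylow p G) :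
    ∃ K : Subgroup G, K.Normal ∧ (Nat.card K).Coprime p ∧
      K ⊔ Subgroup.normalizer ((S : Subgroup G) : Set G) = ⊤ := by
  unfold Cfsg.PLengthLE at hpl
  have e0 : (upperPSeries p G 0).1 = ⊥ := by rw [upperPSeries]
  have e1 : (upperPSeries p G 1).1 =
      (pPrimeCore p (G ⧸ (upperPSeries p G 0).1)).comap (QuotientGroup.mk' _) := by
    rw [upperPSeries]; simp
  have e2 : (upperPSeries p G 2).1 =
      (pCore p (G ⧸ (upperPSeries p G 1).1)).comap (QuotientGroup.mk' _) := by
    rw [upperPSeries]; simp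
  have e3 : (upperPSeries p G 3).1 =
      (pPrimeCore p (G ⧸ (upperPSeries p G 2).1)).comap (QuotientGroup.mk' _) := by
    rw [upperPSeries]; simp
  have hpl' : (upperPSeries p G 3).1 = ⊤ := hpl
  -- P1
  have hP1 : (Nat.card (upperPSeries p G 1).1).Coprime p := by
    rw [e1, card_comap_mk]
    have h0 : Nat.card (upperPSeries p G 0).1 = 1 := by
      rw [e0]; exact Subgroup.card_bot
    rw [h0, mul_one]
    exact pPrimeCore_coprime p
  -- P2
  have hle12 : (upperPSeries p G 1).1 ≤ (upperPSeries p G 2).1 := by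
    rw [e2]
    intro x hx
    rw [Subgroup.mem_comap]
    have : (QuotientGroup.mk' (upperPSeries p G 1).1) x = 1 := by
      rw [← MonoidHom.mem_ker, QuotientGroup.ker_mk']; exact hx
    rw [this]; exact Subgroup.one_mem _
  have hP2 : ∃ k : ℕ, ((upperPSeries p G 1).1).relIndex (upperPSeries p G 2).1 = p ^ k := by
    obtain ⟨k, hk⟩ := (IsPGroup.iff_card).mp (pCore_isPGroup (G := G ⧸ (upperPSeries p G 1).1) p)
    refine ⟨k, ?_⟩
    have h1 := card_eq_card_mul_relIndex hle12
    have h2 : Nat.card (upperPSeries p G 2).1 = p ^ k * Nat.card (upperPSeries p G 1).1 := by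
      rw [← hk, ← card_comap_mk, ← e2]
    rw [h2, mul_comm] at h1
    exact (Nat.eq_of_mul_eq_mul_left Nat.card_pos h1).symm
  -- P3
  have hP3 : ((upperPSeries p G 2).1).index.Coprime p := by
    have h1 : pPrimeCore p (G ⧸ (upperPSeries p G 2).1) = ⊤ := by
      have h2 := congrArg (Subgroup.map (QuotientGroup.mk' (upperPSeries p G 2).1)) (e3.symm.trans hpl')
      rw [Subgroup.map_comap_eq_self_of_surjective (QuotientGroup.mk'_surjective _),
        Subgroup.map_top_of_surjective _ (QuotientGroup.mk'_surjective _)] at h2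
      exact h2
    have h3 := pPrimeCore_coprime (G := G ⧸ (upperPSeries p G 2).1) p
    rw [h1, Subgroup.card_top] at h3
    rw [Subgroup.index_eq_card]
    exact h3
  -- Q1
  have hQ1 : (S : Subgroup G) ≤ (upperPSeries p G 2).1 := by
    intro x hx
    obtain ⟨k, hk⟩ := S.isPGroup' ⟨x, hx⟩
    have hk' : x ^ p ^ k = 1 := by
      have := congrArg Subtype.val hk
      simpa using this
    have ho1 : orderOf ((QuotientGroup.mk' (upperPSeries p G 2).1) x) ∣ p ^ k := by
      apply orderOf_dvd_of_pow_eq_one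
      rw [← map_pow, hk', map_one]
    have ho2 : orderOf ((QuotientGroup.mk' (upperPSeries p G 2).1) x) ∣
        ((upperPSeries p G 2).1).index := by
      rw [Subgroup.index_eq_card]
      exact orderOf_dvd_natCard _
    have hc : (p ^ k).Coprime ((upperPSeries p G 2).1).index :=
      Nat.Coprime.pow_left k hP3.symm
    have ho := Nat.eq_one_of_dvd_coprimes hc ho1 ho2
    rw [orderOf_eq_one_iff, ← MonoidHom.mem_ker, QuotientGroup.ker_mk'] at ho
    exact ho
  -- Q2
  have hQ2 : (upperPSeries p G 2).1 ≤ (upperPSeries p G 1).1 ⊔ (S : Subgroup G) := by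
    rw [← Subgroup.relIndex_eq_one]
    obtain ⟨k, hk⟩ := hP2
    have h1 : ((upperPSeries p G 1).1 ⊔ (S : Subgroup G)).relIndex (upperPSeries p G 2).1 ∣ p ^ k := by
      rw [← hk]
      exact Subgroup.relIndex_dvd_of_le_left _ le_sup_left
    have h2 : ((upperPSeries p G 1).1 ⊔ (S : Subgroup G)).relIndex (upperPSeries p G 2).1 ∣
        (S : Subgroup G).index := by
      refine (Subgroup.relIndex_dvd_of_le_left (upperPSeries p G 2).1
        (le_sup_right : (S : Subgroup G) ≤ (upperPSeries p G 1).1 ⊔ (S : Subgroup G))).trans ?_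
      exact Dvd.intro _ (Subgroup.relIndex_mul_index hQ1)
    have h3 : ((S : Subgroup G).index).Coprime p :=
      ((Nat.Prime.coprime_iff_not_dvd hp.out).mpr S.not_dvd_index).symm
    have h4 : (((upperPSeries p G 1).1 ⊔ (S : Subgroup G)).relIndex
        (upperPSeries p G 2).1).Coprime (p ^ k) :=
      Nat.Coprime.pow_right k (Nat.Coprime.coprime_dvd_left h2 h3)
    exact Nat.Coprime.eq_one_of_dvd h4 h1
  refine ⟨(upperPSeries p G 1).1, inferInstance, hP1, ?_⟩
  have hF := Sylow.normalizer_sup_eq_top' S hQ1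
  rw [eq_top_iff, ← hF]
  apply sup_le
  · exact le_sup_right
  · refine hQ2.trans (sup_le le_sup_left ?_)
    exact (Subgroup.le_normalizer).trans le_sup_right

/-- Let G be a finite solvable group, p a prime with G = O_{p',p,p'}(G), and S a Sylow p-subgroup. Then: if S ≤ G' then S ≤ [N_G(S), N_G(S)]; if Y ⊆ S and xYx⁻¹ ⊆ S then x = g c for some g ∈ N_G(S) and c centralizing Y; and for every p-subgroup Q there is x ∈ C_G(Q ∩ S) with xQx⁻¹ ≤ S. -/
theorem result {G : Type*} [Group G] [Finite G] [Group.IsSolvable G] (p : ℕ) [Fact p.Prime] (hpl : Cfsg.PLengthLE p 1 G) (S : Sylow p G) :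
    ((S : Subgroup G) ≤ commutator G → (S : Subgroup G) ≤ ⁅Subgroup.normalizer ((S : Subgroup G) : Set G), Subgroup.normalizer ((S : Subgroup G) : Set G)⁆) ∧
      (∀ (Y : Set G) (x : G), Y ⊆ (S : Subgroup G) → (fun y => x * y * x⁻¹) '' Y ⊆ (S : Subgroup G) →
        ∃ g ∈ Subgroup.normalizer ((S : Subgroup G) : Set G), ∃ c ∈ Subgroup.centralizer Y, g * c = x) ∧
      ∀ Q : Subgroup G, IsPGroup p Q → ∃ x ∈ Subgroup.centralizer ((Q ⊓ (S : Subgroup G) : Subgroup G) : Set G), Q.map (MulAut.conj x).toMonoidHom ≤ (S : Subgroup G) := by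
  obtain ⟨K, hKn, hKp, hKU⟩ := exists_K p hpl S
  haveI := hKn
  have hSN : (S : Subgroup G) ≤ Subgroup.normalizer ((S : Subgroup G) : Set G) :=
    Subgroup.le_normalizer
  have hcopS : ∀ H : Subgroup G, H ≤ (S : Subgroup G) → (Nat.card H).Coprime (Nat.card K) := by
    intro H hH
    obtain ⟨k, hk⟩ := (IsPGroup.iff_card).mp (S.isPGroup'.to_le hH)
    rw [hk]
    exact Nat.Coprime.pow_left k hKp.symm
  refine ⟨?_, ?_, ?_⟩
  · intro hS
    have h1 := Cfsg.Agent.S1460.part_a K (Subgroup.normalizer ((S : Subgroup G) : Set G))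
      (S : Subgroup G) hKU hSN (hcopS _ le_rfl)
    have h2 : (S : Subgroup G) ≤ (S : Subgroup G) ⊓ commutator G := le_inf le_rfl hS
    rw [h1] at h2
    exact h2.trans inf_le_right
  · intro Y x hY hx
    have hcl : Subgroup.closure Y ≤ (S : Subgroup G) := (Subgroup.closure_le _).mpr hY
    have hconj : ∀ h ∈ Subgroup.closure Y,
        x * h * x⁻¹ ∈ Subgroup.normalizer ((S : Subgroup G) : Set G) := by
      intro h hh
      apply hSN
      have h3 : Subgroup.closure Y ≤ (S : Subgroup G).comap (MulAut.conj x).toMonoidHom := by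
        rw [Subgroup.closure_le]
        intro y hy
        show x * y * x⁻¹ ∈ (S : Subgroup G)
        exact hx ⟨y, hy, rfl⟩
      exact h3 hh
    obtain ⟨u, hu, c, hc, rfl⟩ := Cfsg.Agent.S1460.part_c K
      (Subgroup.normalizer ((S : Subgroup G) : Set G)) (Subgroup.closure Y) hKU
      (hcl.trans hSN) (hcopS _ hcl) x hconj
    exact ⟨u, hu, c, Subgroup.centralizer_le Subgroup.subset_closure hc.2, rfl⟩
  · intro Q hQ
    obtain ⟨P, hQP⟩ := hQ.exists_le_sylow
    obtain ⟨y, hy⟩ := MulAction.exists_smul_eq G P S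
    have h1 : ∀ q ∈ Q, y * q * y⁻¹ ∈ (S : Subgroup G) := by
      intro q hq
      rw [← hy, Sylow.coe_subgroup_smul, mem_conj_smul]
      have e : y⁻¹ * (y * q * y⁻¹) * y = q := by group
      rw [e]
      exact hQP hq
    have hym : y ∈ ((Subgroup.normalizer ((S : Subgroup G) : Set G) ⊔ K : Subgroup G) : Set G) := by
      rw [sup_comm, hKU]; trivial
    rw [Subgroup.mul_normal, Set.mem_mul] at hym
    obtain ⟨n, hn, k, hk, rfl⟩ := hym
    have h2 : ∀ q ∈ Q, k * q * k⁻¹ ∈ (S : Subgroup G) := by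
      intro q hq
      have h3 := h1 q hq
      have hn' := (Subgroup.mem_normalizer_iff.mp hn) (k * q * k⁻¹)
      rw [hn']
      have e : n * (k * q * k⁻¹) * n⁻¹ = n * k * q * (n * k)⁻¹ := by group
      rw [e]; exact h3
    obtain ⟨u, hu, c, hc, hkuc⟩ := Cfsg.Agent.S1460.part_c K
      (Subgroup.normalizer ((S : Subgroup G) : Set G)) (Q ⊓ (S : Subgroup G)) hKU
      (inf_le_right.trans hSN) (hcopS _ inf_le_right) k (fun h hh => hSN (h2 h hh.1))
    refine ⟨c, hc.2, ?_⟩
    rintro _ ⟨q, hq, rfl⟩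
    have hu' := (Subgroup.mem_normalizer_iff''.mp hu) (k * q * k⁻¹)
    have h4 := hu'.mp (h2 q hq)
    simp only [MulEquiv.coe_toMonoidHom, MulAut.conj_apply]
    have e : c * q * c⁻¹ = u⁻¹ * (k * q * k⁻¹) * u := by
      rw [hkuc]; group
    rw [e]; exact h4

end Cfsg.Agent.S1461
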