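import Cfsg.Statements.S1462
-- import your own Cfsg.Agent.* helpers here
import Cfsg.Agent.S1461
import Cfsg.Agent.Lib.Helper24.Coprime
import Cfsg.Agent.Lib.Helper11.Thompson
import Cfsg.Agent.Lib.Helper11.PConstr
import Cfsg.Agent.Lib.Helper76.PSolv
import Mathlib

set_option autoImplicit false
open Cfsg

namespace Cfsg.Agent.S1462

open Cfsg.Agent.Lib.Helper76.PSolv Cfsg.Agent.Lib.Helper11.PConstr
open Cfsg.Agent.Lib.Helper24.Coprime Cfsg.Agent.Lib.Helper11.Thompson

/-- An element of a `p`-group killed by an exponent prime to `p` is trivial. -/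
theorem eq_one_of_pow_coprime {Q : Type*} [Group Q] {p : ℕ} [Fact p.Prime] {T : Subgroup Q}
    (hT : IsPGroup p T) {x : Q} (hx : x ∈ T) {m : ℕ} (hm : m.Coprime p) (hxm : x ^ m = 1) :
    x = 1 := by
  obtain ⟨k, hk⟩ := hT ⟨x, hx⟩
  have hk' : x ^ p ^ k = 1 := by
    have := congrArg Subtype.val hk
    simpa using this
  have h1 : orderOf x ∣ p ^ k := orderOf_dvd_of_pow_eq_one hk'
  have h2 : orderOf x ∣ m := orderOf_dvd_of_pow_eq_one hxm
  have h3 : orderOf x = 1 := Nat.eq_one_of_dvd_coprimes (hm.pow_right k) h2 h1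
  exact orderOf_eq_one_iff.mp h3

/-- In a finite group with trivial `p'`-core and a normal Sylow `p`-subgroup `T`, a `p'`-element
centralizing `T` is trivial. -/
theorem eq_one_of_centralizes_normal_sylow {Q : Type*} [Group Q] [Finite Q] {p : ℕ}
    [Fact p.Prime] (T : Subgroup Q) [hTn : T.Normal] (hTp : IsPGroup p T)
    (hidx : ¬ p ∣ T.index) (hcore : pPrimeCore p Q = ⊥) (a : Q)
    (ha : ∀ x ∈ T, x * a = a * x) (ho : (orderOf a).Coprime p) : a = 1 := by
  have hpr : p.Prime := Fact.out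
  set C := Subgroup.centralizer (T : Set Q) with hC
  have hCn : C.Normal := Subgroup.normal_centralizer
  set N : Subgroup ↥C := T.subgroupOf C with hN
  have hNn : N.Normal := hTn.subgroupOf C
  have hNp : IsPGroup p N := hTp.comap_subtype
  have hNidx : N.index.Coprime p := by
    have h1 : N.index ∣ T.index := Subgroup.relIndex_dvd_index_of_normal T C
    rw [Nat.coprime_comm, Nat.Prime.coprime_iff_not_dvd hpr]
    exact fun h => hidx (h.trans h1)
  have hcop : Nat.Coprime (Nat.card N) N.index := by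
    obtain ⟨k, hk⟩ := hNp.exists_card_eq
    rw [hk]
    exact (hNidx.pow_right k).symm
  obtain ⟨H, hH⟩ := Subgroup.exists_right_complement'_of_coprime hcop
  have hHcard : Nat.card H = N.index := hH.symm.index_eq_card.symm
  have hHc : (Nat.card H).Coprime p := by rw [hHcard]; exact hNidx
  -- every `p'`-element of `C` lies in `H`
  have claim : ∀ c : ↥C, (orderOf c).Coprime p → c ∈ H := by
    intro c hc
    obtain ⟨⟨n, h⟩, hnh, -⟩ := (Subgroup.isComplement_iff_existsUnique.mp hH) c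
    have hnh' : (n : ↥C) * (h : ↥C) = c := hnh
    have hcomm : Commute (n : ↥C) (h : ↥C) := by
      have hnT : ((n : ↥C) : Q) ∈ T := Subgroup.mem_subgroupOf.mp n.2
      have h1 := Subgroup.mem_centralizer_iff.mp (h : ↥C).2 _ hnT
      apply Subtype.ext
      exact h1
    have key : ∀ M : ℕ, c ^ M = 1 → (h : ↥C) ^ M = 1 → (n : ↥C) ^ M = 1 := by
      intro M h1 h2
      rw [← hnh', hcomm.mul_pow, h2, mul_one] at h1
      exact h1
    have hpow : (n : ↥C) ^ (orderOf c * Nat.card H) = 1 := by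
      apply key
      · rw [pow_mul, pow_orderOf_eq_one, one_pow]
      · rw [mul_comm, pow_mul]
        have : (h : ↥C) ^ Nat.card H = 1 :=
          (Subgroup.coe_pow H h _).symm.trans
            ((congrArg Subtype.val (pow_card_eq_one' (G := ↥H) (x := h))).trans
              (Subgroup.coe_one H))
        rw [this, one_pow]
    have hn1 : (n : ↥C) = 1 :=
      eq_one_of_pow_coprime hNp n.2 (Nat.Coprime.mul_left hc hHc) hpow
    rw [hn1, one_mul] at hnh'
    rw [← hnh']
    exact h.2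
  -- `H` (inside `Q`) is a normal `p'`-subgroup
  have hHQn : (H.map C.subtype).Normal := by
    constructor
    rintro _ ⟨h, hh, rfl⟩ g
    have hgC : g * (h : Q) * g⁻¹ ∈ C := hCn.conj_mem _ h.2 g
    refine ⟨⟨g * (h : Q) * g⁻¹, hgC⟩, ?_, rfl⟩
    apply claim
    have h1 : orderOf (⟨g * (h : Q) * g⁻¹, hgC⟩ : ↥C) = orderOf h := by
      rw [← Subgroup.orderOf_coe, ← Subgroup.orderOf_coe]
      exact (MulAut.conj g).orderOf_eq (h : Q)
    rw [h1]
    have h2 : orderOf h ∣ Nat.card H := Subgroup.orderOf_dvd_natCard H hh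
    exact Nat.Coprime.coprime_dvd_left h2 hHc
  have hHQc : (Nat.card (H.map C.subtype)).Coprime p := by
    rw [Subgroup.card_map_of_injective C.subtype_injective]
    exact hHc
  have hle : H.map C.subtype ≤ pPrimeCore p Q := le_pPrimeCore hHQn hHQc
  rw [hcore] at hle
  have haC : a ∈ C := by
    rw [hC, Subgroup.mem_centralizer_iff]
    exact ha
  have haH : (⟨a, haC⟩ : ↥C) ∈ H := by
    apply claim
    rw [← Subgroup.orderOf_coe]
    exact ho
  have : a ∈ H.map C.subtype := ⟨⟨a, haC⟩, haH, rfl⟩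
  exact Subgroup.mem_bot.mp (hle this)

/-- In a solvable group of p-length one (p odd), a p'-subgroup normalized by a maximal elementary abelian p-subgroup lies in O_{p'}(G). -/
theorem result {G : Type*} [Group G] [Finite G] [Group.IsSolvable G] (p : ℕ) [Fact p.Prime] (hp : p ≠ 2) (hpl : Cfsg.PLengthLE p 1 G) (E L : Subgroup G) (hE : Cfsg.IsElementaryAbelian p E)
    (hEmax : ∀ B : Subgroup G, Cfsg.IsElementaryAbelian p B → E ≤ B → B = E) (hL : (Nat.card L).Coprime p) (hEL : E ≤ Subgroup.normalizer (L : Set G)) :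
    L ≤ Cfsg.pPrimeCore p G := by
  have hpr : p.Prime := Fact.out
  have hEp : IsPGroup p E := by
    intro x
    refine ⟨1, ?_⟩
    apply Subtype.ext
    simpa using hE.2 x x.2
  obtain ⟨S, hES⟩ := hEp.exists_le_sylow
  obtain ⟨K₀, hK₀n, hK₀c, hK₀S⟩ := Cfsg.Agent.S1461.exists_K p hpl S
  have hKn : (pPrimeCore p G).Normal := (pPrimeCore_mem p).1
  have hKc : (Nat.card (pPrimeCore p G)).Coprime p := pPrimeCore_coprime p
  have hK₀K : K₀ ≤ pPrimeCore p G := le_pPrimeCore hK₀n hK₀c
  let π := QuotientGroup.mk' (pPrimeCore p G)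
  have hπs : Function.Surjective π := QuotientGroup.mk'_surjective _
  have hKb : pPrimeCore p (G ⧸ pPrimeCore p G) = ⊥ := pPrimeCore_quotient p
  set Sb : Subgroup (G ⧸ pPrimeCore p G) := (S : Subgroup G).map π with hSb
  have hSbp : IsPGroup p Sb := S.isPGroup'.map π
  have hSbN : Sb.Normal := by
    constructor
    rintro _ ⟨s, hs, rfl⟩ gb
    obtain ⟨g, rfl⟩ := hπs gb
    have hg : g ∈ K₀ ⊔ Subgroup.normalizer ((S : Subgroup G) : Set G) := by
      rw [hK₀S]; trivial
    obtain ⟨k, hk, n, hn, rfl⟩ := Subgroup.mem_sup_of_normal_left.mp hg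
    have hk1 : π k = 1 := (QuotientGroup.eq_one_iff k).mpr (hK₀K hk)
    refine ⟨n * s * n⁻¹, (Subgroup.mem_normalizer_iff.mp hn s).mp hs, ?_⟩
    simp [map_mul, hk1]
  have hSbI : ¬ p ∣ Sb.index := (S.mapSurjective hπs).not_dvd_index
  have hSK : (S : Subgroup G) ⊓ pPrimeCore p G = ⊥ := by
    obtain ⟨n, hn⟩ := IsPGroup.iff_card.mp S.isPGroup'
    apply (Subgroup.disjoint_of_coprime_natCard _).eq_bot
    rw [hn]
    exact (hKc.pow_right n).symm
  have hEb : E.map π ≤ Sb := Subgroup.map_mono hES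
  -- (1) the image of `L` commutes with the image of `E`
  have hcomm : ∀ l ∈ L, ∀ e ∈ E, π e * π l = π l * π e := by
    intro l hl e he
    have hc1 : l * (e * l⁻¹ * e⁻¹) ∈ L :=
      L.mul_mem hl ((Subgroup.mem_normalizer_iff.mp (hEL he) l⁻¹).mp (L.inv_mem hl))
    have he' : π e ∈ Sb := ⟨e, hES he, rfl⟩
    have hc2 : π (l * (e * l⁻¹ * e⁻¹)) ∈ Sb := by
      have : π (l * (e * l⁻¹ * e⁻¹)) = (π l * π e * (π l)⁻¹) * (π e)⁻¹ := by
        simp [mul_assoc]
      rw [this]
      exact Sb.mul_mem (hSbN.conj_mem _ he' _) (Sb.inv_mem he')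
    have hc3 : π (l * (e * l⁻¹ * e⁻¹)) ^ Nat.card L = 1 := by
      rw [← map_pow]
      have : (l * (e * l⁻¹ * e⁻¹)) ^ Nat.card L = 1 :=
        (Subgroup.coe_pow L ⟨_, hc1⟩ _).symm.trans
          ((congrArg Subtype.val (pow_card_eq_one' (G := ↥L) (x := ⟨_, hc1⟩))).trans
            (Subgroup.coe_one L))
      rw [this, map_one]
    have hc4 := eq_one_of_pow_coprime hSbp hc2 hL hc3
    have hc5 : π l * π e * (π l)⁻¹ * (π e)⁻¹ = 1 := by
      rw [← hc4]; simp [mul_assoc]
    calc π e * π l = (π l * π e * (π l)⁻¹ * (π e)⁻¹)⁻¹ * (π l * π e) := by group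
      _ = π l * π e := by rw [hc5, inv_one, one_mul]
  -- (2) the image of `E` contains every element of order `p` of `Sb` centralizing it
  have hmaxb : ∀ xb ∈ Sb, (∀ eb ∈ E.map π, eb * xb = xb * eb) → xb ^ p = 1 → xb ∈ E.map π := by
    rintro _ ⟨x, hx, rfl⟩ hcen hxp
    have hxp' : x ^ p = 1 := by
      have h1 : x ^ p ∈ (S : Subgroup G) ⊓ pPrimeCore p G := by
        refine Subgroup.mem_inf.mpr ⟨(S : Subgroup G).pow_mem hx p, ?_⟩
        rw [← QuotientGroup.eq_one_iff]
        show π (x ^ p) = 1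
        rw [map_pow]; exact hxp
      rw [hSK, Subgroup.mem_bot] at h1; exact h1
    have hxe : ∀ e ∈ E, e * x = x * e := by
      intro e he
      have h1 : e * x * e⁻¹ * x⁻¹ ∈ (S : Subgroup G) ⊓ pPrimeCore p G := by
        refine Subgroup.mem_inf.mpr ⟨?_, ?_⟩
        · exact (S : Subgroup G).mul_mem ((S : Subgroup G).mul_mem
            ((S : Subgroup G).mul_mem (hES he) hx) ((S : Subgroup G).inv_mem (hES he)))
            ((S : Subgroup G).inv_mem hx)
        · rw [← QuotientGroup.eq_one_iff]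
          show π (e * x * e⁻¹ * x⁻¹) = 1
          have h2 := hcen (π e) ⟨e, he, rfl⟩
          rw [map_mul, map_mul, map_mul, map_inv, map_inv, h2]; group
      rw [hSK, Subgroup.mem_bot] at h1
      calc e * x = (e * x * e⁻¹ * x⁻¹) * x * e := by group
        _ = x * e := by rw [h1, one_mul]
    have hB := isElementaryAbelian_closure_insert p E hE x hxe hxp'
    have hEB : E ≤ Subgroup.closure ((E : Set G) ∪ {x}) :=
      fun y hy => Subgroup.subset_closure (Or.inl hy)
    have h3 := hEmax _ hB hEB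
    have hxE : x ∈ E := by
      rw [← h3]; exact Subgroup.subset_closure (Or.inr rfl)
    exact ⟨x, hxE, rfl⟩
  -- (3) each element of the image of `L` centralizes `Sb`, hence is trivial
  intro l hl
  rw [← QuotientGroup.eq_one_iff]
  show π l = 1
  have ho : (orderOf (π l)).Coprime p := by
    have h1 : orderOf (π l) ∣ orderOf l := orderOf_map_dvd π l
    have h2 : orderOf l ∣ Nat.card L := Subgroup.orderOf_dvd_natCard L hl
    exact Nat.Coprime.coprime_dvd_left (h1.trans h2) hL
  have haB : ∀ b ∈ E.map π, b * π l = π l * b := by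
    rintro _ ⟨e, he, rfl⟩
    exact hcomm l hl e he
  have haSb : π l ∈ Subgroup.normalizer (Sb : Set (G ⧸ pPrimeCore p G)) :=
    mem_normalizer_of_conj_mem' Sb _ (fun x hx => hSbN.conj_mem x hx _)
  have hEbN : E.map π ≤ Subgroup.normalizer (Sb : Set (G ⧸ pPrimeCore p G)) :=
    fun b _ => mem_normalizer_of_conj_mem' Sb _ (fun x hx => hSbN.conj_mem x hx _)
  set Q' : Subgroup (G ⧸ pPrimeCore p G) :=
    Sb ⊓ Subgroup.centralizer ((E.map π : Subgroup (G ⧸ pPrimeCore p G)) : Set (G ⧸ pPrimeCore p G))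
    with hQ'
  have hQ'p : IsPGroup p Q' := hSbp.to_le inf_le_left
  have haQ' : π l ∈ Subgroup.normalizer (Q' : Set (G ⧸ pPrimeCore p G)) := by
    apply mem_normalizer_of_conj_mem'
    intro x hx
    refine Subgroup.mem_inf.mpr ⟨hSbN.conj_mem x hx.1 _, ?_⟩
    rw [Subgroup.mem_centralizer_iff]
    intro b hb
    have h1 := Subgroup.mem_centralizer_iff.mp hx.2 b hb
    have h2 := haB b hb
    calc b * (π l * x * (π l)⁻¹) = (b * π l) * x * (π l)⁻¹ := by group
      _ = π l * (b * x) * (π l)⁻¹ := by rw [h2]; group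
      _ = π l * (x * b) * (π l)⁻¹ := by rw [h1]
      _ = π l * x * (π l)⁻¹ * ((π l) * b * (π l)⁻¹) := by group
      _ = π l * x * (π l)⁻¹ * b := by rw [← h2]; group
  have hC' : ∀ x ∈ Q', x ^ p = 1 → x * π l = π l * x := by
    intro x hx hxp
    have h1 : x ∈ E.map π :=
      hmaxb x hx.1 (fun eb heb => Subgroup.mem_centralizer_iff.mp hx.2 eb heb) hxp
    exact haB x h1
  have hcenQ' := centralizes_of_centralizes_omega p hp (π l) ho Q' hQ'p haQ' hC'
  have hcenSb := thompson_AxB p Sb hSbp (E.map π) hEb (π l) ho haB Sb le_rfl haSb hEbN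
    (fun x hx hxb => hcenQ' x ⟨hx, Subgroup.mem_centralizer_iff.mpr hxb⟩)
  exact eq_one_of_centralizes_normal_sylow Sb hSbp hSbI hKb (π l) hcenSb ho

end Cfsg.Agent.S1462
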