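import Cfsg.Statements.S1466
import Cfsg.Agent.S1467
import Mathlib

set_option autoImplicit false
open Cfsg

namespace Cfsg.Agent.S1466

theorem exists_center_mem_of_normal {Q : Type*} [Group Q] [Finite Q] (p : ℕ) [Fact p.Prime]
    (hQ : IsPGroup p Q) (N : Subgroup Q) [N.Normal] (hN : N ≠ ⊥) :
    ∃ b ∈ N, b ≠ 1 ∧ b ∈ Subgroup.center Q := by
  have hdvd : p ∣ Nat.card N := by
    rcases (hQ.to_subgroup N).card_eq_or_dvd with h | h
    · exact absurd (Subgroup.card_eq_one.mp h) hN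
    · exact h
  have hfix : (1 : N) ∈ MulAction.fixedPoints (ConjAct Q) N := by
    intro g
    exact smul_one g
  obtain ⟨b, hb, hb1⟩ :=
    (hQ.of_equiv ConjAct.toConjAct).exists_fixed_point_of_prime_dvd_card_of_fixed_point N hdvd hfix
  refine ⟨b, b.2, ?_, ?_⟩
  · intro h; exact hb1 (Subtype.ext h.symm)
  · rw [Subgroup.mem_center_iff]
    intro g
    have h1 := hb (ConjAct.toConjAct g)
    have h2 := congrArg Subtype.val h1
    rw [ConjAct.Subgroup.val_conj_smul, ConjAct.smul_def] at h2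
    simp only [ConjAct.ofConjAct_toConjAct] at h2
    exact mul_inv_eq_iff_eq_mul.mp h2

theorem exists_selfCentralizing {R : Type*} [Group R] [Finite R] (p : ℕ) [Fact p.Prime]
    (hR : IsPGroup p R) :
    ∃ A : Subgroup R, A.Normal ∧ IsMulCommutative A ∧ Subgroup.centralizer (A : Set R) ≤ A := by
  obtain ⟨A, ⟨hAn, hAc⟩, hmax⟩ := Set.exists_max_image
    {A : Subgroup R | A.Normal ∧ IsMulCommutative A}
    (fun A => Nat.card A) (Set.toFinite _)
    ⟨⊥, inferInstance, ⟨⟨fun a b => Subsingleton.elim _ _⟩⟩⟩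
  refine ⟨A, hAn, hAc, ?_⟩
  by_contra hnot
  obtain ⟨c, hc, hcA⟩ := SetLike.not_le_iff_exists.mp hnot
  haveI := hAn
  have hQ : IsPGroup p (R ⧸ A) := hR.to_quotient A
  set N : Subgroup (R ⧸ A) := (Subgroup.centralizer (A : Set R)).map (QuotientGroup.mk' A) with hNdef
  haveI : N.Normal := Subgroup.Normal.map inferInstance _ (QuotientGroup.mk'_surjective A)
  have hN : N ≠ ⊥ := by
    intro h
    have hm : QuotientGroup.mk' A c ∈ N := Subgroup.mem_map_of_mem _ hc
    rw [h, Subgroup.mem_bot] at hm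
    exact hcA ((QuotientGroup.eq_one_iff c).mp hm)
  obtain ⟨b, hbN, hb1, hbZ⟩ := exists_center_mem_of_normal p hQ N hN
  obtain ⟨x, hx, rfl⟩ := hbN
  have hxA : x ∉ A := fun h => hb1 ((QuotientGroup.eq_one_iff x).mpr h)
  have hcomm : ∀ r : R, r * x * r⁻¹ * x⁻¹ ∈ A := by
    intro r
    rw [← QuotientGroup.eq_one_iff]
    have h1 := Subgroup.mem_center_iff.mp hbZ (QuotientGroup.mk' A r)
    simp only [QuotientGroup.mk'_apply] at h1
    rw [QuotientGroup.mk_mul, QuotientGroup.mk_mul, QuotientGroup.mk_mul, QuotientGroup.mk_inv,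
      QuotientGroup.mk_inv, h1]
    group
  set B : Subgroup R := Subgroup.closure ((A : Set R) ∪ {x}) with hB
  have hBc : IsMulCommutative B := by
    apply Subgroup.isMulCommutative_closure
    rintro y (hy | hy) z (hz | hz)
    · exact setLike_mul_comm hy hz
    · rw [Set.mem_singleton_iff] at hz; subst hz
      exact (Subgroup.mem_centralizer_iff.mp hx y hy)
    · rw [Set.mem_singleton_iff] at hy; subst hy
      exact (Subgroup.mem_centralizer_iff.mp hx z hz).symm
    · rw [Set.mem_singleton_iff] at hy hz; subst hy; subst hz; rfl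
  have hBn : B.Normal := by
    rw [← Subgroup.normalizer_eq_top_iff, eq_top_iff, hB, Subgroup.le_normalizer_closure_iff]
    rintro r - y (hy | hy)
    · exact Subgroup.subset_closure (Or.inl (hAn.conj_mem y hy r))
    · rw [Set.mem_singleton_iff] at hy; subst hy
      have e : r * y * r⁻¹ = (r * y * r⁻¹ * y⁻¹) * y := by group
      rw [e]
      exact Subgroup.mul_mem _ (Subgroup.subset_closure (Or.inl (hcomm r)))
        (Subgroup.subset_closure (Or.inr rfl))
  have hAB : A ≤ B := fun y hy => Subgroup.subset_closure (Or.inl hy)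
  have hxB : x ∈ B := Subgroup.subset_closure (Or.inr rfl)
  have hcard := hmax B ⟨hBn, hBc⟩
  have hEq := Subgroup.eq_of_le_of_card_ge hAB hcard
  exact hxA (hEq ▸ hxB)

theorem seq2_le {R : Type*} [Group R] (i : ℕ) (hi : 0 < i) :
    Cfsg.puigSeq R 2 ≤ Cfsg.puigSeq R i := by
  rcases Nat.even_or_odd' i with ⟨m, rfl | rfl⟩
  · have h1 : 1 ≤ m := by omega
    have := Cfsg.Agent.S1467.even_mono (G := R) h1
    simpa using this
  · have := Cfsg.Agent.S1467.even_le_odd (G := R) 1 m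
    simpa using this

/-- Let p be a prime and R a nontrivial finite p-group. Then for every i > 0, Z(R) ≤ C_R(L_i(R)) ≤ L_i(R); likewise Z(R) ≤ C_R(L_*(R)) ≤ L_*(R) and Z(R) ≤ C_R(L(R)) ≤ L(R); and L(R) ≠ 1, L_*(R) ≠ 1. -/
theorem result {R : Type*} [Group R] [Finite R] (p : ℕ) [Fact p.Prime] (hR : IsPGroup p R) [Nontrivial R] :
    (∀ i : ℕ, 0 < i → Subgroup.center R ≤ Subgroup.centralizer ((Cfsg.puigSeq R i : Subgroup R) : Set R) ∧
        Subgroup.centralizer ((Cfsg.puigSeq R i : Subgroup R) : Set R) ≤ Cfsg.puigSeq R i) ∧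
      (Subgroup.center R ≤ Subgroup.centralizer ((Cfsg.puigLower R : Subgroup R) : Set R) ∧ Subgroup.centralizer ((Cfsg.puigLower R : Subgroup R) : Set R) ≤ Cfsg.puigLower R) ∧
      (Subgroup.center R ≤ Subgroup.centralizer ((Cfsg.puigSubgroup R : Subgroup R) : Set R) ∧ Subgroup.centralizer ((Cfsg.puigSubgroup R : Subgroup R) : Set R) ≤ Cfsg.puigSubgroup R) ∧
      Cfsg.puigSubgroup R ≠ ⊥ ∧ Cfsg.puigLower R ≠ ⊥ := by
  obtain ⟨A, hAn, hAc, hCA⟩ := exists_selfCentralizing p hR
  have hA2 : A ≤ Cfsg.puigSeq R 2 := by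
    show A ≤ Cfsg.puigStep (Cfsg.puigSeq R 1)
    unfold Cfsg.puigStep
    apply le_sSup
    refine ⟨hAc, ?_⟩
    rw [Subgroup.normalizer_eq_top_iff.mpr hAn]; exact le_top
  have key : ∀ i : ℕ, 0 < i →
      Subgroup.center R ≤ Subgroup.centralizer ((Cfsg.puigSeq R i : Subgroup R) : Set R) ∧
      Subgroup.centralizer ((Cfsg.puigSeq R i : Subgroup R) : Set R) ≤ Cfsg.puigSeq R i := by
    intro i hi
    refine ⟨Subgroup.center_le_centralizer _, ?_⟩
    have h2 := seq2_le (R := R) i hi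
    calc Subgroup.centralizer ((Cfsg.puigSeq R i : Subgroup R) : Set R)
        ≤ Subgroup.centralizer (A : Set R) := Subgroup.centralizer_le (hA2.trans h2)
      _ ≤ A := hCA
      _ ≤ Cfsg.puigSeq R i := hA2.trans h2
  obtain ⟨k, hk⟩ := Cfsg.Agent.S1467.stab (G := R)
  have hkL := (hk (k + 1) (Nat.le_succ k)).1
  have hkS := (hk (k + 1) (Nat.le_succ k)).2
  have hL := key (2 * (k + 1)) (by omega)
  have hS := key (2 * (k + 1) + 1) (by omega)
  rw [hkL] at hL; rw [hkS] at hS
  have hbot : ∀ X : Subgroup R, Subgroup.centralizer (X : Set R) ≤ X → X ≠ ⊥ := by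
    intro X hX h
    rw [h] at hX
    obtain ⟨x, hx⟩ := exists_ne (1 : R)
    have hxc : x ∈ Subgroup.centralizer (((⊥ : Subgroup R) : Subgroup R) : Set R) := by
      rw [Subgroup.mem_centralizer_iff]
      intro y hy
      have hy1 : y = 1 := Subgroup.mem_bot.mp hy
      rw [hy1]; simp
    exact hx (Subgroup.mem_bot.mp (hX hxc))
  exact ⟨key, hL, hS, hbot _ hS.2, hbot _ hL.2⟩

end Cfsg.Agent.S1466
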