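import Cfsg.Statements.S1485
import Cfsg.Agent.Lib.CT.FrobRec
import Cfsg.Agent.Lib.CT.Clifford
import Mathlib

set_option autoImplicit false
open Cfsg

namespace Cfsg.Agent.S1485

open Cfsg.Agent.Lib.CT.FrobRec Cfsg.Agent.Lib.CT

/-- Let H be a normal subgroup of the finite group G and θ an irreducible character of H. On H, the function induced from θ equals r times the sum of the distinct G-conjugates of θ, where r is the number of elements of G fixing θ under conjugation divided by the order of H (the index of H in the inertia group). -/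
theorem result {G : Type*} [Group G] [Fintype G] (H : Subgroup G) [hN : H.Normal] (θ : H → ℂ) (hθ : Cfsg.IsIrrCharacter H θ) : (fun h : H => Cfsg.indFun H θ h) = ((Nat.card {g : G // ∀ h : H, θ ⟨g * h * g⁻¹, hN.conj_mem h h.2 g⟩ = θ h} : ℂ) / (Nat.card H : ℂ)) • ∑ᶠ ψ ∈ {ψ : H → ℂ | ∃ g : G, ψ = fun h : H => θ ⟨g * h * g⁻¹, hN.conj_mem h h.2 g⟩}, ψ := by
  classical
  set c : G → (H → ℂ) := fun g => Clifford.conjFun H hN θ g with hc
  have hS : {ψ : H → ℂ | ∃ g : G, ψ = fun h : H => θ ⟨g * h * g⁻¹, hN.conj_mem h h.2 g⟩} =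
      ((Finset.univ.image c : Finset (H → ℂ)) : Set (H → ℂ)) := by
    ext ψ
    simp only [Set.mem_setOf_eq, Finset.coe_image, Finset.coe_univ, Set.image_univ, Set.mem_range]
    constructor
    · rintro ⟨g, rfl⟩
      exact ⟨g, rfl⟩
    · rintro ⟨g, rfl⟩
      exact ⟨g, rfl⟩
  rw [hS, finsum_mem_coe_finset]
  -- the fibres
  have hfib : ∀ ψ ∈ Finset.univ.image c,
      (Finset.univ.filter (fun g : G => c g = ψ)).card =
        Nat.card {g : G // ∀ h : H, θ ⟨g * h * g⁻¹, hN.conj_mem h h.2 g⟩ = θ h} := by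
    intro ψ hψ
    obtain ⟨g₀, -, rfl⟩ := Finset.mem_image.mp hψ
    rw [Nat.card_eq_fintype_card, Fintype.card_subtype]
    apply Finset.card_equiv (Equiv.mulRight g₀⁻¹)
    intro g
    simp only [Finset.mem_filter, Finset.mem_univ, true_and, Equiv.coe_mulRight]
    constructor
    · intro h
      have h1 : Clifford.conjFun H hN θ (g * g₀⁻¹) = θ := by
        rw [← Clifford.conjFun_conjFun]
        show Clifford.conjFun H hN (c g) g₀⁻¹ = θ
        rw [h]
        show Clifford.conjFun H hN (Clifford.conjFun H hN θ g₀) g₀⁻¹ = θ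
        rw [Clifford.conjFun_conjFun, mul_inv_cancel, Clifford.conjFun_one]
      intro x
      exact congrFun h1 x
    · intro h
      have h1 : Clifford.conjFun H hN θ (g * g₀⁻¹) = θ := funext h
      have h2 : c g = Clifford.conjFun H hN (Clifford.conjFun H hN θ (g * g₀⁻¹)) g₀ := by
        rw [Clifford.conjFun_conjFun, inv_mul_cancel_right]
      rw [h2, h1]
  have hsum : ∑ g : G, c g =
      (Nat.card {g : G // ∀ h : H, θ ⟨g * h * g⁻¹, hN.conj_mem h h.2 g⟩ = θ h} : ℂ) •
        ∑ ψ ∈ Finset.univ.image c, ψ := by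
    rw [← Finset.sum_fiberwise_of_maps_to (s := Finset.univ) (t := Finset.univ.image c) (g := c)
      (fun g _ => Finset.mem_image_of_mem c (Finset.mem_univ g)) (fun g => c g), Finset.smul_sum]
    apply Finset.sum_congr rfl
    intro ψ hψ
    have h1 : ∀ g ∈ Finset.univ.filter (fun g : G => c g = ψ), c g = ψ := by
      intro g hg
      exact (Finset.mem_filter.mp hg).2
    rw [Finset.sum_congr rfl h1, Finset.sum_const, hfib ψ hψ, Nat.cast_smul_eq_nsmul]
  funext n
  rw [Clifford.indFun_restrict H hN θ n]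
  have h3 : ∑ x : G, Clifford.conjFun H hN θ x⁻¹ n = (∑ g : G, c g) n := by
    rw [Finset.sum_apply]
    exact Fintype.sum_equiv (Equiv.inv G) _ _ (fun x => rfl)
  rw [h3, hsum]
  simp only [Pi.smul_apply, smul_eq_mul]
  ring

end Cfsg.Agent.S1485
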