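import Cfsg.Statements.S1487
import Cfsg.Agent.Lib.Helper3.Irr
import Cfsg.Agent.Lib.CT.FrobRec
import Mathlib

set_option autoImplicit false
open Cfsg

namespace Cfsg.Agent.S1487

open Cfsg.Agent.Lib.Helper3.Irr Cfsg.Agent.Lib.CT.FrobRec

/-- Let A ≤ H be normal subgroups of the finite group G and θ an irreducible character of H. Then θ takes the value θ 1 on all of A if and only if the function induced from θ to G takes its value at 1 on all of A. -/
theorem result {G : Type*} [Group G] [Fintype G] (A H : Subgroup G) [A.Normal] [H.Normal] (hAH : A ≤ H) (θ : H → ℂ) (hθ : Cfsg.IsIrrCharacter H θ) : (∀ a : H, (a : G) ∈ A → θ a = θ 1) ↔ (∀ a : G, a ∈ A → Cfsg.indFun H θ a = Cfsg.indFun H θ 1) := by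
  classical
  have hθc := IsIrrCharacter.isCharacter hθ
  have hcard : (Nat.card H : ℂ) ≠ 0 := Nat.cast_ne_zero.mpr Nat.card_pos.ne'
  have hconj : ∀ (a : G), a ∈ A → ∀ x : G, x⁻¹ * a * x ∈ A := fun a ha x => by
    have := ‹A.Normal›.conj_mem a ha x⁻¹
    rwa [inv_inv] at this
  have h1 : Cfsg.indFun H θ 1 = (Nat.card H : ℂ)⁻¹ * ∑ x : G, θ 1 := by
    rw [indFun_apply]
    congr 1
    apply Finset.sum_congr rfl
    intro x _
    rw [mul_one, inv_mul_cancel]
    exact extendByZero_apply_of_mem H θ (one_mem H)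
  have ha : ∀ a (ha : a ∈ A), Cfsg.indFun H θ a =
      (Nat.card H : ℂ)⁻¹ * ∑ x : G, θ ⟨x⁻¹ * a * x, hAH (hconj a ha x)⟩ := by
    intro a ha
    rw [indFun_apply]
    congr 1
    apply Finset.sum_congr rfl
    intro x _
    exact extendByZero_apply_of_mem H θ (hAH (hconj a ha x))
  constructor
  · intro h a ha'
    rw [ha a ha', h1]
    congr 1
    apply Finset.sum_congr rfl
    intro x _
    exact h ⟨_, _⟩ (hconj a ha' x)
  · intro h a ha'
    have e := h a ha'
    rw [ha a ha', h1] at e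
    have e2 := mul_left_cancel₀ (inv_ne_zero hcard) e
    have e3 := congrArg Complex.re e2
    rw [Complex.re_sum, Complex.re_sum] at e3
    have hle : ∀ x ∈ (Finset.univ : Finset G),
        (θ ⟨x⁻¹ * (a : G) * x, hAH (hconj a ha' x)⟩).re ≤ (θ 1).re :=
      fun x _ => (Complex.re_le_norm _).trans (IsCharacter.norm_le hθc _)
    have e4 := (Finset.sum_eq_sum_iff_of_le hle).1 e3 1 (Finset.mem_univ 1)
    have e5 : (⟨1⁻¹ * (a : G) * 1, hAH (hconj a ha' 1)⟩ : H) = a := Subtype.ext (by simp)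
    rw [e5] at e4
    have hn := IsCharacter.norm_le hθc a
    obtain ⟨n, hn1⟩ := IsCharacter.exists_apply_one hθc
    have him : (θ a).im = 0 := by
      have k1 : ‖θ a‖ ≤ (θ a).re := by rw [e4]; exact hn
      have k2 : ‖θ a‖ ^ 2 = (θ a).re * (θ a).re + (θ a).im * (θ a).im := by
        rw [Complex.sq_norm, Complex.normSq_apply]
      have k3 : 0 ≤ ‖θ a‖ := norm_nonneg _
      have k4 : (θ a).im * (θ a).im ≤ 0 := by nlinarith
      exact mul_self_eq_zero.mp (le_antisymm k4 (mul_self_nonneg _))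
    apply Complex.ext
    · exact e4
    · rw [him, hn1]; simp

end Cfsg.Agent.S1487
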