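import Cfsg.Statements.S1488
import Cfsg.Agent.Lib.CT.FrobRec
import Mathlib

set_option autoImplicit false
open Cfsg

namespace Cfsg.Agent.S1488

open Cfsg.Agent.Lib.CT.FrobRec

/-- summing a function of the coset over the group. -/
theorem sum_comp_mk {G : Type*} [Group G] [Fintype G] (A : Subgroup G) [Fintype (G ⧸ A)]
    (F : G ⧸ A → ℂ) :
    ∑ x : G, F (x : G ⧸ A) = (Nat.card A : ℂ) * ∑ y : G ⧸ A, F y := by
  classical
  rw [← Finset.sum_fiberwise (Finset.univ : Finset G) (fun x : G => (x : G ⧸ A))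
    (fun x => F (x : G ⧸ A)), Finset.mul_sum]
  apply Finset.sum_congr rfl
  intro y _
  have h1 : ∀ x ∈ Finset.univ.filter (fun x : G => (x : G ⧸ A) = y), F (x : G ⧸ A) = F y := by
    intro x hx
    rw [(Finset.mem_filter.mp hx).2]
  rw [Finset.sum_congr rfl h1, Finset.sum_const, nsmul_eq_mul]
  congr 2
  have h2 := QuotientGroup.card_preimage_mk A ({y} : Set (G ⧸ A))
  rw [Nat.card_eq_fintype_card, Fintype.card_subtype] at h2
  simp only [Set.mem_preimage, Set.mem_singleton_iff, Nat.card_unique, mul_one] at h2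
  exact h2

/-- Let A be a normal subgroup of the finite group G contained in the subgroup H, let θ be a function on H and θ₁ a function on the image of H in G ⧸ A whose composite with the projection is θ. Then the function induced from θ₁ to G ⧸ A, composed with the projection G → G ⧸ A, equals the function induced from θ to G. -/
theorem result {G : Type*} [Group G] [Fintype G] (A H : Subgroup G) [A.Normal] (hAH : A ≤ H) [Fintype (G ⧸ A)] [Fintype ↥(H.map (QuotientGroup.mk' A))] (θ : H → ℂ) (θ₁ : ↥(H.map (QuotientGroup.mk' A)) → ℂ) (hθ : ∀ x : H, θ₁ ⟨QuotientGroup.mk' A x, Subgroup.mem_map_of_mem _ x.2⟩ = θ x) (g : G) : Cfsg.indFun (H.map (QuotientGroup.mk' A)) θ₁ (QuotientGroup.mk' A g) = Cfsg.indFun H θ g := by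
  classical
  have hmem : ∀ z : G, QuotientGroup.mk' A z ∈ H.map (QuotientGroup.mk' A) ↔ z ∈ H := by
    intro z
    constructor
    · rintro ⟨h, hh, hz⟩
      have h1 : h⁻¹ * z ∈ A := by
        rw [← QuotientGroup.eq]
        exact hz
      have h2 : h * (h⁻¹ * z) ∈ H := mul_mem hh (hAH h1)
      simpa using h2
    · intro hz
      exact Subgroup.mem_map_of_mem _ hz
  have step1 : ∀ x : G, Cfsg.extendByZero H θ (x⁻¹ * g * x) =
      Cfsg.extendByZero (H.map (QuotientGroup.mk' A)) θ₁
        ((x : G ⧸ A)⁻¹ * QuotientGroup.mk' A g * (x : G ⧸ A)) := by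
    intro x
    have e : ((x : G ⧸ A)⁻¹ * QuotientGroup.mk' A g * (x : G ⧸ A)) =
        QuotientGroup.mk' A (x⁻¹ * g * x) := by
      simp
    rw [e]
    by_cases hz : x⁻¹ * g * x ∈ H
    · rw [extendByZero_apply_of_mem H θ hz,
        extendByZero_apply_of_mem _ θ₁ ((hmem _).2 hz)]
      exact (hθ ⟨_, hz⟩).symm
    · rw [extendByZero_apply_of_not_mem H θ hz,
        extendByZero_apply_of_not_mem _ θ₁ (fun h => hz ((hmem _).1 h))]
  have hcard : Nat.card H = Nat.card A * Nat.card ↥(H.map (QuotientGroup.mk' A)) := by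
    have h2 := QuotientGroup.card_preimage_mk A
      ((H.map (QuotientGroup.mk' A) : Subgroup (G ⧸ A)) : Set (G ⧸ A))
    refine Eq.trans ?_ h2
    apply Nat.card_congr
    refine Equiv.subtypeEquivRight ?_
    intro z
    exact (hmem z).symm
  rw [indFun_apply, indFun_apply]
  simp_rw [step1]
  rw [sum_comp_mk A (fun y : G ⧸ A => Cfsg.extendByZero (H.map (QuotientGroup.mk' A)) θ₁
        (y⁻¹ * QuotientGroup.mk' A g * y)), hcard]
  have hA : (Nat.card A : ℂ) ≠ 0 := Nat.cast_ne_zero.mpr Nat.card_pos.ne'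
  have hH : (Nat.card ↥(H.map (QuotientGroup.mk' A)) : ℂ) ≠ 0 :=
    Nat.cast_ne_zero.mpr Nat.card_pos.ne'
  push_cast
  field_simp

end Cfsg.Agent.S1488
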