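import Cfsg.Statements.S1489
import Cfsg.Agent.Lib.Helper25.CliffordCorr
import Mathlib

set_option autoImplicit false
open Cfsg

namespace Cfsg.Agent.S1489

open Cfsg.Agent.Lib.Helper25.CliffordCorr Cfsg.Agent.Lib.Helper3.Irr Cfsg.Agent.Lib.CT.FrobRec

/-- translating the hypothesis "ψ lies over θ" from the induced form to the restricted form. -/
theorem lies_over {G : Type*} [Group G] [Fintype G] (H T : Subgroup G) [Fintype H] [Fintype T]
    (θ : H → ℂ) (hHT : H ≤ T) (ψ : T → ℂ) (hψ : Cfsg.IsIrrCharacter T ψ)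
    (hc : Cfsg.classInner (Cfsg.indFun (H.subgroupOf T)
      (fun x => θ ⟨(x : T), Subgroup.mem_subgroupOf.mp x.2⟩)) ψ ≠ 0) :
    Cfsg.classInner (fun h : H => ψ ⟨h, hHT h.2⟩) θ ≠ 0 := by
  classical
  haveI : Fintype (H.subgroupOf T) := Fintype.ofFinite _
  rw [frobenius_reciprocity (H.subgroupOf T) _ ψ (IsIrrCharacter.isClassFunction hψ)] at hc
  apply classInner_ne_zero_symm
  have h1 := classInner_comp_equiv (Subgroup.subgroupOfEquivOfLe hHT) θ
    (fun h : H => ψ ⟨h, hHT h.2⟩)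
  rw [← h1]
  exact hc

/-- Let H be a normal subgroup of the finite group G, θ an irreducible character of H, and T the inertia group of θ (the elements g with θ(g h g⁻¹) = θ(h) for all h ∈ H). If ψ and ψ' are irreducible characters of T having nonzero inner product with the function induced from θ to T, then the function induced from ψ to G is an irreducible character of G, and it equals the one induced from ψ' only if ψ = ψ'. -/
theorem result {G : Type*} [Group G] [Fintype G] (H T : Subgroup G) [hN : H.Normal] [Fintype T] (θ : H → ℂ) (hθ : Cfsg.IsIrrCharacter H θ) (hT : ∀ g : G, g ∈ T ↔ ∀ h : H, θ ⟨g * h * g⁻¹, hN.conj_mem h h.2 g⟩ = θ h) (hHT : H ≤ T) (ψ ψ' : T → ℂ) (hψ : Cfsg.IsIrrCharacter T ψ) (hψ' : Cfsg.IsIrrCharacter T ψ') (hc : Cfsg.classInner (Cfsg.indFun (H.subgroupOf T) (fun x => θ ⟨(x : T), Subgroup.mem_subgroupOf.mp x.2⟩)) ψ ≠ 0) (hc' : Cfsg.classInner (Cfsg.indFun (H.subgroupOf T) (fun x => θ ⟨(x : T), Subgroup.mem_subgroupOf.mp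 x.2⟩)) ψ' ≠ 0) : Cfsg.IsIrrCharacter G (Cfsg.indFun T ψ) ∧ (Cfsg.indFun T ψ = Cfsg.indFun T ψ' → ψ = ψ') := by
  classical
  haveI : Fintype H := Fintype.ofFinite H
  have h1 := lies_over H T θ hHT ψ hψ hc
  have h2 := lies_over H T θ hHT ψ' hψ' hc'
  obtain ⟨hirr, hinj⟩ := ind_irr_inj H T hHT θ hθ hT
  exact ⟨hirr ψ hψ h1, hinj ψ ψ' hψ hψ' h1 h2⟩

end Cfsg.Agent.S1489
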