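import Cfsg.Statements.S1490
import Cfsg.Agent.Lib.Helper25.CliffordCorr2
import Mathlib

set_option autoImplicit false
open Cfsg

namespace Cfsg.Agent.S1490

open Cfsg.Agent.Lib.Helper25.CliffordCorr Cfsg.Agent.Lib.Helper25.CliffordCorr2
open Cfsg.Agent.Lib.Helper3.Irr Cfsg.Agent.Lib.CT Cfsg.Agent.Lib.CT.FrobRec

/-- Let H be a normal subgroup of the finite group G, θ an irreducible character of H with inertia group T, and suppose the commutator of any two elements of T lies in H (T/H abelian). Then there are a positive integer e and a finite set C of irreducible characters of G with e ^ 2 * |C| * |H| = |T|, such that the function induced from θ is e times the sum of the members of C and every member of C has degree [G:T] * e * θ(1). -/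
theorem result {G : Type*} [Group G] [Fintype G] (H T : Subgroup G) [hN : H.Normal] (θ : H → ℂ) (hθ : Cfsg.IsIrrCharacter H θ) (hT : ∀ g : G, g ∈ T ↔ ∀ h : H, θ ⟨g * h * g⁻¹, hN.conj_mem h h.2 g⟩ = θ h) (hab : ∀ x ∈ T, ∀ y ∈ T, x * y * x⁻¹ * y⁻¹ ∈ H) : ∃ (e : ℕ) (C : Finset (G → ℂ)), 0 < e ∧ (∀ χ ∈ C, Cfsg.IsIrrCharacter G χ) ∧ e ^ 2 * C.card * Nat.card H = Nat.card T ∧ Cfsg.indFun H θ = (e : ℂ) • ∑ χ ∈ C, χ ∧ ∀ χ ∈ C, χ 1 = (T.index : ℂ) * e * θ 1 := by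
  classical
  haveI : Fintype H := Fintype.ofFinite H
  haveI : Fintype T := Fintype.ofFinite T
  have hθc := IsIrrCharacter.isCharacter hθ
  have hθ1 := IsIrrCharacter.apply_one_ne_zero hθ
  have hHT : H ≤ T := by
    intro g hg
    rw [hT]
    intro h
    exact IsCharacter.isClassFunction hθc h ⟨g, hg⟩
  haveI : Finite (Cfsg.IrrCharacter T) := finite_irrCharacter
  haveI : Fintype (Cfsg.IrrCharacter T) := Fintype.ofFinite _
  have hresc : ∀ ξ : Cfsg.IrrCharacter T,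
      Cfsg.IsCharacter H (fun h : H => (ξ : T → ℂ) ⟨h, hHT h.2⟩) :=
    fun ξ => Ops.isCharacter_comp_hom (Subgroup.inclusion hHT) (IsIrrCharacter.isCharacter ξ.2)
  choose k hk using fun ξ : Cfsg.IrrCharacter T => Clifford.classInner_char_nat (hresc ξ) hθc
  have hdec := ind_decomp H T hHT θ hθc
  simp_rw [hk] at hdec
  have hdec' : Cfsg.indFun H θ = ∑ ξ ∈ Finset.univ.filter (fun ξ : Cfsg.IrrCharacter T => k ξ ≠ 0),
      (k ξ : ℂ) • Cfsg.indFun T (ξ : T → ℂ) := by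
    rw [hdec, Finset.sum_filter]
    apply Finset.sum_congr rfl
    intro ξ _
    by_cases h : k ξ = 0 <;> simp [h]
  have hTidx : (T.index : ℂ) ≠ 0 := Nat.cast_ne_zero.mpr (Subgroup.index_ne_zero_of_finite)
  have hHidx : (H.index : ℂ) ≠ 0 := Nat.cast_ne_zero.mpr (Subgroup.index_ne_zero_of_finite)
  have hne : (Finset.univ.filter (fun ξ : Cfsg.IrrCharacter T => k ξ ≠ 0)).Nonempty := by
    by_contra h
    rw [Finset.not_nonempty_iff_eq_empty] at h
    rw [h, Finset.sum_empty] at hdec'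
    have h1 := congrFun hdec' 1
    rw [indFun_one] at h1
    simp only [Pi.zero_apply] at h1
    exact (mul_ne_zero hHidx hθ1) h1
  obtain ⟨ξ₀, hξ₀⟩ := hne
  have hk₀ : k ξ₀ ≠ 0 := (Finset.mem_filter.mp hξ₀).2
  have hres : ∀ ξ ∈ Finset.univ.filter (fun ξ : Cfsg.IrrCharacter T => k ξ ≠ 0),
      (fun h : H => (ξ : T → ℂ) ⟨h, hHT h.2⟩) = (k ξ : ℂ) • θ := by
    intro ξ hξ
    have := res_eq_smul H T hHT θ hθ (fun g hg => (hT g).1 hg) (ξ : T → ℂ) ξ.2
      (by rw [hk]; exact_mod_cast (Finset.mem_filter.mp hξ).2)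
    rwa [hk] at this
  have hkeq : ∀ ξ ∈ Finset.univ.filter (fun ξ : Cfsg.IrrCharacter T => k ξ ≠ 0), k ξ = k ξ₀ := by
    intro ξ hξ
    have := ram_eq_of_abelian H T hHT hab θ hθ (ξ : T → ℂ) (ξ₀ : T → ℂ) ξ.2 ξ₀.2 (k ξ) (k ξ₀)
      (by exact_mod_cast (Finset.mem_filter.mp hξ).2) (by exact_mod_cast hk₀)
      (hres ξ hξ) (hres ξ₀ hξ₀)
    exact_mod_cast this
  obtain ⟨hirr, hinj⟩ := ind_irr_inj H T hHT θ hθ hT
  have hlie : ∀ ξ ∈ Finset.univ.filter (fun ξ : Cfsg.IrrCharacter T => k ξ ≠ 0),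
      Cfsg.classInner (fun h : H => (ξ : T → ℂ) ⟨h, hHT h.2⟩) θ ≠ 0 := by
    intro ξ hξ
    rw [hk]
    exact_mod_cast (Finset.mem_filter.mp hξ).2
  have hinjOn : Set.InjOn (fun ξ : Cfsg.IrrCharacter T => Cfsg.indFun T (ξ : T → ℂ))
      (Finset.univ.filter (fun ξ : Cfsg.IrrCharacter T => k ξ ≠ 0) : Set (Cfsg.IrrCharacter T)) := by
    intro a ha b hb hab'
    exact Subtype.ext (hinj a b a.2 b.2 (hlie a ha) (hlie b hb) hab')
  have hdeg : ∀ ξ ∈ Finset.univ.filter (fun ξ : Cfsg.IrrCharacter T => k ξ ≠ 0),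
      Cfsg.indFun T (ξ : T → ℂ) 1 = (T.index : ℂ) * (k ξ₀ : ℂ) * θ 1 := by
    intro ξ hξ
    rw [indFun_one]
    have h1 := congrFun (hres ξ hξ) 1
    simp only [Pi.smul_apply, smul_eq_mul] at h1
    have h2 : (ξ : T → ℂ) 1 = (k ξ : ℂ) * θ 1 := h1
    rw [h2, hkeq ξ hξ]
    ring
  refine ⟨k ξ₀, (Finset.univ.filter (fun ξ : Cfsg.IrrCharacter T => k ξ ≠ 0)).image
    (fun ξ : Cfsg.IrrCharacter T => Cfsg.indFun T (ξ : T → ℂ)), Nat.pos_of_ne_zero hk₀, ?_, ?_, ?_, ?_⟩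
  · intro χ hχ
    obtain ⟨ξ, hξ, rfl⟩ := Finset.mem_image.mp hχ
    exact hirr (ξ : T → ℂ) ξ.2 (hlie ξ hξ)
  · rw [Finset.card_image_of_injOn hinjOn]
    have h1 := congrFun hdec' 1
    rw [indFun_one, Finset.sum_apply] at h1
    have h2 : ∑ ξ ∈ Finset.univ.filter (fun ξ : Cfsg.IrrCharacter T => k ξ ≠ 0),
        ((k ξ : ℂ) • Cfsg.indFun T (ξ : T → ℂ)) 1 =
        ((Finset.univ.filter (fun ξ : Cfsg.IrrCharacter T => k ξ ≠ 0)).card : ℂ) *
          ((k ξ₀ : ℂ) * ((T.index : ℂ) * (k ξ₀ : ℂ) * θ 1)) := by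
      rw [Finset.sum_congr rfl (fun ξ hξ => by
        rw [Pi.smul_apply, smul_eq_mul, hdeg ξ hξ, hkeq ξ hξ])]
      rw [Finset.sum_const, nsmul_eq_mul]
    rw [h2] at h1
    have h3 : (H.index : ℂ) = ((k ξ₀ ^ 2 *
        (Finset.univ.filter (fun ξ : Cfsg.IrrCharacter T => k ξ ≠ 0)).card * T.index : ℕ) : ℂ) := by
      push_cast
      apply mul_right_cancel₀ hθ1
      rw [h1]; ring
    have h4 : H.index = k ξ₀ ^ 2 *
        (Finset.univ.filter (fun ξ : Cfsg.IrrCharacter T => k ξ ≠ 0)).card * T.index := by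
      exact_mod_cast h3
    have h5 := Subgroup.card_mul_index H
    have h6 := Subgroup.card_mul_index T
    have h7 : T.index ≠ 0 := Subgroup.index_ne_zero_of_finite
    have h8 : T.index * (k ξ₀ ^ 2 *
        (Finset.univ.filter (fun ξ : Cfsg.IrrCharacter T => k ξ ≠ 0)).card * Nat.card H) =
        T.index * Nat.card T := by
      rw [mul_comm T.index (Nat.card T), h6, ← h5, h4]; ring
    exact Nat.eq_of_mul_eq_mul_left (Nat.pos_of_ne_zero h7) h8
  · rw [Finset.sum_image hinjOn, hdec', Finset.smul_sum]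
    apply Finset.sum_congr rfl
    intro ξ hξ
    rw [hkeq ξ hξ]
  · intro χ hχ
    obtain ⟨ξ, hξ, rfl⟩ := Finset.mem_image.mp hχ
    exact hdeg ξ hξ

end Cfsg.Agent.S1490
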