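import Cfsg.Statements.S1491
import Mathlib
import Cfsg.Agent.S1490
import Cfsg.Agent.S0867
import Cfsg.Agent.Lib.Helper25.CliffordCorr
import Cfsg.Agent.Lib.Helper80.Integrality

set_option autoImplicit false
open Cfsg

namespace Cfsg.Agent.S1491

open Cfsg.Agent.Lib.CT Cfsg.Agent.Lib.CT.Wedderburn

/-- Let H be a normal subgroup of the finite group G and θ an irreducible character of H with inertia group T, where T/H is abelian (commutators of T lie in H) and the index of H in T is coprime to the order of H. Then the function induced from θ is the sum of a set of exactly [T:H] irreducible characters of G, each of degree [G:T] * θ(1). -/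
theorem result {G : Type*} [Group G] [Fintype G] (H T : Subgroup G) [hN : H.Normal] (θ : H → ℂ) (hθ : Cfsg.IsIrrCharacter H θ) (hT : ∀ g : G, g ∈ T ↔ ∀ h : H, θ ⟨g * h * g⁻¹, hN.conj_mem h h.2 g⟩ = θ h) (hab : ∀ x ∈ T, ∀ y ∈ T, x * y * x⁻¹ * y⁻¹ ∈ H) (hcop : Nat.Coprime (Nat.card H) (H.relIndex T)) : ∃ C : Finset (G → ℂ), (∀ χ ∈ C, Cfsg.IsIrrCharacter G χ) ∧ C.card = H.relIndex T ∧ Cfsg.indFun H θ = ∑ χ ∈ C, χ ∧ ∀ χ ∈ C, χ 1 = (T.index : ℂ) * θ 1 := by
  classical
  have : Fintype H := Fintype.ofFinite H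
  have : Fintype T := Fintype.ofFinite T
  have hθchar : IsCharacter H θ := isCharacter_of_irr hθ
  have hθcf : IsClassFunction H θ := char_isClassFunction hθchar
  have hHT : H ≤ T := by
    intro h hh
    rw [hT]
    intro n
    have h1 := hθcf n ⟨h, hh⟩
    have e : (⟨h * n * h⁻¹, hN.conj_mem n n.2 h⟩ : H) = ⟨h, hh⟩ * n * ⟨h, hh⟩⁻¹ :=
      Subtype.ext (by simp)
    rw [e]
    exact h1
  obtain ⟨e, C, he, hCirr, hcard, hind, hdeg⟩ := Cfsg.Agent.S1490.result H T θ hθ hT hab
  let H' : Subgroup T := H.subgroupOf T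
  have hH' : H'.Normal := inferInstance
  let ι : H' ≃* H := Subgroup.subgroupOfEquivOfLe hHT
  let θ' : H' → ℂ := fun n' => θ (ι n')
  have hθ' : IsIrrCharacter H' θ' := Ops.isIrrCharacter_comp_mulEquiv ι hθ
  have hinv' : ∀ (t : T) (n : H'), θ' ⟨t * n * t⁻¹, hH'.conj_mem (n : T) n.2 t⟩ = θ' n := by
    intro t n
    show θ (ι ⟨t * n * t⁻¹, _⟩) = θ (ι n)
    have h1 := (hT (t : G)).1 t.2 (ι n)
    rw [← h1]
    congr 1
  have hd' : θ' 1 = (charDegree θ : ℕ) := by
    show θ (ι 1) = _
    rw [map_one]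
    exact (char_natCast_charDegree hθchar).symm
  have hcardH' : Nat.card H' = Nat.card H := Nat.card_congr ι.toEquiv
  have hdet_dvd : detOrder θ' ∣ Nat.card H := by
    rw [← hcardH']
    exact LinChar.orderOf_linear_dvd_card (Cfsg.Agent.S0867.detChar_linear hθ')
  have hd_dvd : charDegree θ ∣ Nat.card H :=
    Cfsg.Agent.Lib.Helper80.Integrality.charDegree_dvd_card ⟨θ, hθ⟩
  have hcop' : Nat.Coprime H'.index (detOrder θ' * charDegree θ) := by
    have h1 : Nat.Coprime (H.relIndex T) (Nat.card H) := hcop.symm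
    exact Nat.Coprime.mul_right (Nat.Coprime.coprime_dvd_right hdet_dvd h1)
      (Nat.Coprime.coprime_dvd_right hd_dvd h1)
  obtain ⟨χh, ⟨hχh, hχhN, -⟩, -⟩ :=
    Cfsg.Agent.S0867.result H' θ' hθ' hinv' (charDegree θ) hd' hcop'
  have hres : (fun h : H => χh ⟨h, hHT h.2⟩) = (1 : ℂ) • θ := by
    funext h
    have h1 := hχhN (ι.symm h)
    rw [one_smul]
    have e1 : ((ι.symm h : H') : T) = ⟨h, hHT h.2⟩ := Subtype.ext rfl
    rw [e1] at h1
    rw [h1]
    show θ (ι (ι.symm h)) = θ h
    rw [MulEquiv.apply_symm_apply]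
  have hover : classInner (fun h : H => χh ⟨h, hHT h.2⟩) θ ≠ 0 := by
    rw [hres, Orth.classInner_smul_left, NormOne.inner_self_eq_one_of_irr hθ]
    simp
  have hχ₀ : IsIrrCharacter G (indFun T χh) :=
    (Cfsg.Agent.Lib.Helper25.CliffordCorr.ind_irr_inj H T hHT θ hθ hT).1 χh hχh hover
  have hχ₀H : classInner (fun h : H => indFun T χh (h : G)) θ = 1 :=
    Cfsg.Agent.Lib.Helper25.CliffordCorr.inner_ind_res H T hHT θ hθ hT χh 1 hres
  have hmem : indFun T χh ∈ C := by
    by_contra hnot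
    have h0 : classInner (indFun H θ) (indFun T χh) = 0 := by
      rw [hind, Orth.classInner_smul_left, Orth.classInner_sum_left, Finset.sum_eq_zero,
        mul_zero]
      intro χ hχ
      have h2 := irr_orthonormal (⟨χ, hCirr χ hχ⟩ : IrrCharacter G) ⟨indFun T χh, hχ₀⟩
      rw [if_neg] at h2
      · exact h2
      · intro heq
        apply hnot
        have heq' : χ = indFun T χh := congrArg Subtype.val heq
        rw [← heq']
        exact hχ
    rw [FrobRec.frobenius_reciprocity H θ _ (char_isClassFunction (isCharacter_of_irr hχ₀)),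
      Clifford.classInner_conj_symm, hχ₀H] at h0
    simp at h0
  have he1 : e = 1 := by
    have h1 := hdeg _ hmem
    rw [FrobRec.indFun_one] at h1
    have h2 : χh 1 = θ 1 := by
      have h3 := congrFun hres 1
      rw [one_smul] at h3
      exact h3
    rw [h2] at h1
    have hT0 : (T.index : ℂ) ≠ 0 := Nat.cast_ne_zero.mpr Subgroup.index_ne_zero_of_finite
    have hθ1 : θ 1 ≠ 0 := irr_apply_one_ne_zero hθ
    have h3 : (T.index : ℂ) * θ 1 * (e : ℂ) = (T.index : ℂ) * θ 1 * 1 := by
      linear_combination (-1 : ℂ) * h1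
    have h4 : (e : ℂ) = 1 := mul_left_cancel₀ (mul_ne_zero hT0 hθ1) h3
    exact_mod_cast h4
  subst he1
  refine ⟨C, hCirr, ?_, ?_, ?_⟩
  · have h1 : H.relIndex T * Nat.card H = Nat.card T := by
      have h2 := Subgroup.index_mul_card H'
      rw [hcardH'] at h2
      exact h2
    have h2 : C.card * Nat.card H = H.relIndex T * Nat.card H := by
      rw [h1, ← hcard]
      ring
    exact Nat.eq_of_mul_eq_mul_right Nat.card_pos h2
  · rw [hind, Nat.cast_one, one_smul]
  · intro χ hχ
    rw [hdeg χ hχ, Nat.cast_one, mul_one]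

end Cfsg.Agent.S1491
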