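import Cfsg.Statements.S1493
import Cfsg.Agent.Lib.Helper76.GaloisConj
import Mathlib

set_option autoImplicit false
open Cfsg

namespace Cfsg.Agent.S1493

/-- Let G be a finite group of order a * b with a and b coprime, let k be coprime to a, and let χ be a character of G. Then there is a character χ' of G such that χ'(g) = χ(g ^ k) whenever the order of g divides a and χ'(g) = χ(g) whenever the order of g is coprime to a; moreover χ' is irreducible if χ is. -/
theorem result {G : Type*} [Group G] [Finite G] (a b k : ℕ) (hab : Nat.card G = a * b) (hcop : Nat.Coprime a b) (hk : Nat.Coprime k a) (χ : G → ℂ) (hχ : Cfsg.IsCharacter G χ) : ∃ χ' : G → ℂ, Cfsg.IsCharacter G χ' ∧ (Cfsg.IsIrrCharacter G χ → Cfsg.IsIrrCharacter G χ') ∧ (∀ g : G, orderOf g ∣ a → χ' g = χ (g ^ k)) ∧ (∀ g : G, Nat.Coprime (orderOf g) a → χ' g = χ g) := by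
  obtain ⟨m, hma, hmb⟩ := Nat.chineseRemainder hcop k 1
  have hm1 : m.Coprime a := by
    have h1 : Nat.gcd m a = Nat.gcd k a := Nat.ModEq.gcd_eq hma
    rw [Nat.Coprime, h1]
    exact hk
  have hm2 : m.Coprime b := by
    have h1 : Nat.gcd m b = Nat.gcd 1 b := Nat.ModEq.gcd_eq hmb
    rw [Nat.Coprime, h1]
    exact Nat.gcd_one_left b
  have hm : m.Coprime (Nat.card G) := by
    rw [hab]
    exact Nat.Coprime.mul_right hm1 hm2
  refine ⟨fun g => χ (g ^ m), Cfsg.Agent.Lib.Helper76.GaloisConj.isCharacter_pow hχ m hm,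
    fun hirr => Cfsg.Agent.Lib.Helper76.GaloisConj.isIrrCharacter_pow hirr m hm, ?_, ?_⟩
  · intro g hg
    have h1 : g ^ m = g ^ k := by
      rw [pow_eq_pow_iff_modEq]
      exact Nat.ModEq.of_dvd hg hma
    show χ (g ^ m) = χ (g ^ k)
    rw [h1]
  · intro g hg
    have hdvd : orderOf g ∣ b := by
      have h1 : orderOf g ∣ a * b := hab ▸ orderOf_dvd_natCard g
      exact Nat.Coprime.dvd_of_dvd_mul_left hg h1
    have h1 : g ^ m = g ^ 1 := by
      rw [pow_eq_pow_iff_modEq]
      exact Nat.ModEq.of_dvd hdvd hmb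
    show χ (g ^ m) = χ g
    rw [h1, pow_one]

end Cfsg.Agent.S1493
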