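import Cfsg.Statements.S1494
import Cfsg.Agent.S0187
import Cfsg.Agent.Lib.CT.NormOne
import Cfsg.Agent.Lib.CT.LinChar
import Cfsg.Agent.Lib.Helper80.Integrality

set_option autoImplicit false
open Cfsg

namespace Cfsg.Agent.S1494

open Cfsg.Agent.Lib.Helper80.Integrality

/-- A `p`-th root of unity minus one is a multiple of `1 - ε` in the algebraic integers. -/
theorem root_sub_one (p : ℕ) (hp : p.Prime) (ζ : ℂ) (hζ : ζ ^ p = 1) :
    ∃ ω : ℂ, IsIntegral ℤ ω ∧
      ζ - 1 = (1 - Complex.exp (2 * Real.pi * Complex.I / p)) * ω := by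
  have hprim := Complex.isPrimitiveRoot_exp p hp.ne_zero
  have : NeZero p := ⟨hp.ne_zero⟩
  obtain ⟨k, -, rfl⟩ := hprim.eq_pow_of_pow_eq_one hζ
  refine ⟨-∑ j ∈ Finset.range k, (Complex.exp (2 * Real.pi * Complex.I / p)) ^ j, ?_, ?_⟩
  · apply IsIntegral.neg
    apply IsIntegral.sum
    intro j _
    exact (hprim.isIntegral hp.pos).pow j
  · rw [← mul_geom_sum]
    ring

/-- The congruence for a character of a commutative group. -/
theorem char_abelian {A : Type*} [Group A] [Finite A] (hA : ∀ a b : A, a * b = b * a)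
    {ψ : A → ℂ} (hψ : IsCharacter A ψ) (p : ℕ) (hp : p.Prime) (x y : A) (hx : x ^ p = 1) :
    ∃ ω : ℂ, IsIntegral ℤ ω ∧
      ψ (x * y) - ψ y = (1 - Complex.exp (2 * Real.pi * Complex.I / p)) * ω := by
  classical
  have : Fintype A := Fintype.ofFinite A
  have := Cfsg.Agent.Lib.CT.Wedderburn.finite_irrCharacter A
  have : Fintype (IrrCharacter A) := Fintype.ofFinite _
  obtain ⟨m, -, hexp⟩ := Cfsg.Agent.Lib.CT.NormOne.exists_mult hψ
  have hexp' : ∀ g, ψ g = ∑ μ : IrrCharacter A, (m μ : ℂ) * (μ : A → ℂ) g := by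
    intro g
    rw [hexp g, finsum_eq_sum_of_fintype]
  have hlin : ∀ μ : IrrCharacter A, (μ : A → ℂ) 1 = 1 := Cfsg.Agent.S0187.result.1 hA
  have hc : ∀ μ : IrrCharacter A, IsCharacter A (μ : A → ℂ) := fun μ =>
    isCharacter_of_isIrrCharacter μ.2
  have hω : ∀ μ : IrrCharacter A, ∃ ω : ℂ, IsIntegral ℤ ω ∧
      (μ : A → ℂ) x - 1 = (1 - Complex.exp (2 * Real.pi * Complex.I / p)) * ω := fun μ =>
    root_sub_one p hp _ (by
      rw [← Cfsg.Agent.Lib.CT.LinChar.linear_pow (hc μ) (hlin μ), hx, hlin μ])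
  choose w hw1 hw2 using hω
  refine ⟨∑ μ : IrrCharacter A, (m μ : ℂ) * ((μ : A → ℂ) y * w μ), ?_, ?_⟩
  · apply IsIntegral.sum
    intro μ _
    have hm : IsIntegral ℤ ((m μ : ℕ) : ℂ) := by
      have := isIntegral_algebraMap (R := ℤ) (A := ℂ) (x := (m μ : ℤ))
      simpa using this
    exact hm.mul ((isIntegral_of_isCharacter (hc μ) y).mul (hw1 μ))
  · rw [hexp', hexp', ← Finset.sum_sub_distrib, Finset.mul_sum]
    refine Finset.sum_congr rfl (fun μ _ => ?_)
    rw [Cfsg.Agent.Lib.CT.LinChar.linear_mul (hc μ) (hlin μ)]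
    have := hw2 μ
    linear_combination (m μ : ℂ) * (μ : A → ℂ) y * this

/-- Let χ be a generalized character of the finite group G, p a prime, x an element of order p and y an element commuting with x. Then χ(x * y) − χ(y) = (1 − ε) * ω for some algebraic integer ω, where ε = exp(2πi/p). -/
theorem result {G : Type*} [Group G] [Finite G] (χ : G → ℂ) (hχ : Cfsg.IsGeneralizedCharacter G χ) (p : ℕ) (hp : p.Prime) (x y : G) (hx : orderOf x = p) (hxy : x * y = y * x) : ∃ ω : ℂ, IsIntegral ℤ ω ∧ χ (x * y) - χ y = (1 - Complex.exp (2 * Real.pi * Complex.I / p)) * ω := by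
  obtain ⟨χ₁, χ₂, h1, h2, rfl⟩ := hχ
  have hcomm : ∀ a ∈ ({x, y} : Set G), ∀ b ∈ ({x, y} : Set G), a * b = b * a := by
    intro a ha b hb
    rcases ha with rfl | rfl <;> rcases hb with rfl | rfl
    · rfl
    · exact hxy
    · exact hxy.symm
    · rfl
  let A : Subgroup G := Subgroup.closure {x, y}
  have hA : ∀ a b : A, a * b = b * a := fun a b =>
    (Subgroup.isMulCommutative_closure hcomm).is_comm.comm a b
  have hxA : x ∈ A := Subgroup.subset_closure (by simp)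
  have hyA : y ∈ A := Subgroup.subset_closure (by simp)
  have hxp : (⟨x, hxA⟩ : A) ^ p = 1 := by
    apply Subtype.ext
    show x ^ p = 1
    rw [← hx]; exact pow_orderOf_eq_one x
  obtain ⟨ω₁, hω₁, e₁⟩ := char_abelian hA
    (Cfsg.Agent.Lib.CT.Ops.isCharacter_restrict A h1) p hp ⟨x, hxA⟩ ⟨y, hyA⟩ hxp
  obtain ⟨ω₂, hω₂, e₂⟩ := char_abelian hA
    (Cfsg.Agent.Lib.CT.Ops.isCharacter_restrict A h2) p hp ⟨x, hxA⟩ ⟨y, hyA⟩ hxp
  refine ⟨ω₁ - ω₂, hω₁.sub hω₂, ?_⟩
  have e₁' : χ₁ (x * y) - χ₁ y = (1 - Complex.exp (2 * Real.pi * Complex.I / p)) * ω₁ := e₁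
  have e₂' : χ₂ (x * y) - χ₂ y = (1 - Complex.exp (2 * Real.pi * Complex.I / p)) * ω₂ := e₂
  simp only [Pi.sub_apply]
  linear_combination e₁' - e₂'

end Cfsg.Agent.S1494
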