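import Cfsg.Statements.S1495
import Mathlib

set_option autoImplicit false
open Cfsg

namespace Cfsg.Agent.S1495

/-- Let p be a prime, ε = exp(2πi/p), and n an integer such that n = (1 − ε) * ω for some algebraic integer ω. Then p divides n. -/
theorem result (p : ℕ) (hp : p.Prime) (n : ℤ) (ω : ℂ) (hω : IsIntegral ℤ ω) (h : (n : ℂ) = (1 - Complex.exp (2 * Real.pi * Complex.I / p)) * ω) : (p : ℤ) ∣ n := by
  set ε := Complex.exp (2 * Real.pi * Complex.I / p) with hε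
  have hprim : IsPrimitiveRoot ε p := Complex.isPrimitiveRoot_exp p hp.ne_zero
  have hεint : IsIntegral ℤ ε := hprim.isIntegral hp.pos
  have hp1 : p - 1 + 1 = p := Nat.sub_add_cancel hp.pos
  have hprod : ∏ k ∈ Finset.range (p - 1), (1 - ε ^ (k + 1)) = (p : ℂ) := by
    have h1 := IsPrimitiveRoot.prod_one_sub_pow_eq_order (n := p - 1) (μ := ε)
      (by rw [hp1]; exact hprim)
    rw [h1]
    have : ((p - 1 : ℕ) : ℂ) + 1 = ((p - 1 + 1 : ℕ) : ℂ) := by push_cast; ring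
    rw [this, hp1]
  have hs : ∀ k : ℕ, ∃ s : ℂ, IsIntegral ℤ s ∧ (k < p - 1 → (1 - ε ^ (k + 1)) * s = 1 - ε) := by
    intro k
    by_cases hk : k < p - 1
    · have hcop : Nat.Coprime (k + 1) p := by
        apply Nat.Coprime.symm
        rw [hp.coprime_iff_not_dvd]
        intro hd
        have := Nat.le_of_dvd (Nat.succ_pos k) hd
        omega
      obtain ⟨m, -, hm⟩ := Nat.exists_mul_mod_eq_one_of_coprime hcop hp.one_lt
      refine ⟨∑ i ∈ Finset.range m, (ε ^ (k + 1)) ^ i, ?_, fun _ => ?_⟩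
      · exact IsIntegral.sum _ (fun i _ => (hεint.pow _).pow _)
      · rw [mul_neg_geom_sum, ← pow_mul, pow_eq_pow_mod _ hprim.pow_eq_one, hm, pow_one]
    · exact ⟨0, isIntegral_zero, fun h => absurd h hk⟩
  choose s hsI hsE using hs
  have hpow : (1 - ε) ^ (p - 1) = (p : ℂ) * ∏ k ∈ Finset.range (p - 1), s k := by
    rw [← hprod, ← Finset.prod_mul_distrib]
    have : (1 - ε) ^ (p - 1) = ∏ _k ∈ Finset.range (p - 1), (1 - ε) := by
      rw [Finset.prod_const, Finset.card_range]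
    rw [this]
    apply Finset.prod_congr rfl
    intro k hk
    exact (hsE k (Finset.mem_range.mp hk)).symm
  set t : ℂ := (∏ k ∈ Finset.range (p - 1), s k) * ω ^ (p - 1) with ht
  have htI : IsIntegral ℤ t := (IsIntegral.prod _ (fun k _ => hsI k)).mul (hω.pow _)
  have hn : ((n : ℂ)) ^ (p - 1) = (p : ℂ) * t := by
    rw [h, mul_pow, hpow, ht]; ring
  have hpC : (p : ℂ) ≠ 0 := Nat.cast_ne_zero.mpr hp.ne_zero
  have hpQ : (p : ℚ) ≠ 0 := Nat.cast_ne_zero.mpr hp.ne_zero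
  have hq : t = (((n : ℚ) ^ (p - 1) / (p : ℚ) : ℚ) : ℂ) := by
    push_cast
    rw [eq_div_iff hpC, mul_comm, ← hn]
  rw [hq, ← eq_ratCast (algebraMap ℚ ℂ)] at htI
  have htQ : IsIntegral ℤ ((n : ℚ) ^ (p - 1) / (p : ℚ)) :=
    (isIntegral_algebraMap_iff (algebraMap ℚ ℂ).injective).mp htI
  obtain ⟨m, hm⟩ := IsIntegrallyClosed.isIntegral_iff.mp htQ
  have hdvd : (p : ℤ) ∣ n ^ (p - 1) := by
    refine ⟨m, ?_⟩
    have h3 : (n : ℚ) ^ (p - 1) = (p : ℚ) * m := by
      rw [eq_div_iff hpQ] at hm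
      rw [← hm]
      simp [mul_comm]
    exact_mod_cast h3
  exact (Nat.prime_iff_prime_int.mp hp).dvd_of_dvd_pow hdvd

end Cfsg.Agent.S1495
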