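import Cfsg.Statements.S1497
import Mathlib

set_option autoImplicit false
open Cfsg

namespace Cfsg.Agent.S1497

/-- Let A be a nonempty subset of the finite group G not containing 1 and L a subgroup. Then A is a TI-subset whose normaliser is L if and only if the Dade hypothesis holds for A, L and the constant choice H(a) = ⊥. -/
theorem result {G : Type*} [Group G] [Finite G] (A : Set G) (hA : A.Nonempty) (h1 : (1 : G) ∉ A) (L : Subgroup G) : (Cfsg.IsTISubset A ∧ Subgroup.normalizer A = L) ↔ Cfsg.DadeHypothesis A L (fun _ => ⊥) := by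
  constructor
  · rintro ⟨hTI, rfl⟩
    have hAN : ∀ a ∈ A, a ∈ Subgroup.normalizer A := by
      intro a ha
      by_contra hn
      have := hTI a hn a ha (by simpa using ha)
      exact h1 (this ▸ ha)
    have hCN : ∀ a ∈ A, ∀ c : G, c * a = a * c → c ∈ Subgroup.normalizer A := by
      intro a ha c hc
      by_contra hn
      have e : c * a * c⁻¹ = a := by rw [hc]; group
      have := hTI c hn a ha (by rw [e]; exact ha)
      exact h1 (this ▸ ha)
    refine ⟨h1, hAN, ?_, ?_, ?_, ?_, ?_, ?_, ?_⟩
    · intro x hx a ha
      exact (Subgroup.mem_set_normalizer_iff.mp hx a).mp ha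
    · intro a ha g hg
      by_cases hgn : g ∈ Subgroup.normalizer A
      · exact ⟨g, hgn, rfl⟩
      · exact absurd (hTI g hgn a ha hg ▸ ha) h1
    · intro a ha; exact bot_le
    · intro a ha c hc u hu
      rw [Subgroup.mem_bot] at hu ⊢
      subst hu; group
    · intro a ha; exact bot_inf_eq _
    · intro a ha
      rw [bot_sup_eq]
      apply inf_eq_right.mpr
      intro c hc
      rw [Subgroup.mem_centralizer_singleton_iff] at hc
      exact hCN a ha c hc
    · intro a ha b hb
      simp
  · intro hD
    have hLN : L ≤ Subgroup.normalizer A := by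
      intro x hx
      rw [Subgroup.mem_set_normalizer_iff]
      intro a
      constructor
      · intro ha; exact hD.conj_mem x hx a ha
      · intro ha
        have := hD.conj_mem x⁻¹ (L.inv_mem hx) _ ha
        simpa [mul_assoc] using this
    have hCL : ∀ a ∈ A, ∀ c : G, a * c = c * a → c ∈ L := by
      intro a ha c hc
      have h := hD.sup_eq a ha
      rw [bot_sup_eq] at h
      have hc' : c ∈ Subgroup.centralizer ({a} : Set G) :=
        Subgroup.mem_centralizer_singleton_iff.mpr hc.symm
      rw [← h] at hc'
      exact hc'.1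
    have key : ∀ a ∈ A, ∀ g : G, g * a * g⁻¹ ∈ A → g ∈ L := by
      intro a ha g hg
      obtain ⟨x, hx, hxe⟩ := hD.fusion a ha g hg
      have hm : x⁻¹ * g ∈ L := by
        apply hCL a ha
        have e : a = x⁻¹ * (g * a * g⁻¹) * x := by rw [← hxe]; group
        calc a * (x⁻¹ * g) = (x⁻¹ * (g * a * g⁻¹) * x) * (x⁻¹ * g) := by rw [← e]
          _ = x⁻¹ * g * a := by group
      have := L.mul_mem hx hm
      simpa using this
    constructor
    · intro g hg x hx hgx
      exact absurd (hLN (key x hx g hgx)) hg
    · apply le_antisymm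
      · intro g hg
        obtain ⟨a, ha⟩ := hA
        exact key a ha g ((Subgroup.mem_set_normalizer_iff.mp hg a).mp ha)
      · exact hLN

end Cfsg.Agent.S1497
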