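import Cfsg.Statements.S1501
import Cfsg.Agent.Lib.Helper25.DadeExp2

set_option autoImplicit false
open Cfsg

namespace Cfsg.Agent.S1501

/-- Under the Dade hypothesis for (A, L, H): if α is a generalized character of L vanishing outside A, then its image under the Dade map is a generalized character of G. -/
theorem result {G : Type*} [Group G] [Fintype G] (A : Set G) (L : Subgroup G) [Fintype L] (H : G → Subgroup G) (hD : Cfsg.DadeHypothesis A L H) (α : L → ℂ) (hα : Cfsg.IsGeneralizedCharacter L α) (hαA : ∀ x : L, (x : G) ∉ A → α x = 0) : Cfsg.IsGeneralizedCharacter G (Cfsg.dadeIsometry A L H α) := by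
  classical
  have hαc : IsClassFunction L α := by
    obtain ⟨χ₁, χ₂, h1, h2, rfl⟩ := hα
    intro g h
    simp only [Pi.sub_apply]
    rw [Cfsg.Agent.Lib.Helper3.Irr.IsCharacter.isClassFunction h1 g h,
      Cfsg.Agent.Lib.Helper3.Irr.IsCharacter.isClassFunction h2 g h]
  have hθ := Cfsg.Agent.Lib.Helper25.DadeExp2.theta_genChar A L H hD α hα hαc
  have hθc : IsClassFunction G (Cfsg.Agent.Lib.Helper25.DadeExp2.theta A L H hD α) := by
    obtain ⟨χ₁, χ₂, h1, h2, he⟩ := hθ
    intro g h
    rw [he]
    simp only [Pi.sub_apply]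
    rw [Cfsg.Agent.Lib.Helper3.Irr.IsCharacter.isClassFunction h1 g h,
      Cfsg.Agent.Lib.Helper3.Irr.IsCharacter.isClassFunction h2 g h]
  have heq : dadeIsometry A L H α = Cfsg.Agent.Lib.Helper25.DadeExp2.theta A L H hD α := by
    obtain ⟨d, hd⟩ : ∃ d : G → ℂ, d = dadeIsometry A L H α -
      Cfsg.Agent.Lib.Helper25.DadeExp2.theta A L H hD α := ⟨_, rfl⟩
    have hdc : IsClassFunction G d := by
      intro g h
      rw [hd]
      simp only [Pi.sub_apply]
      rw [Cfsg.Agent.S1500.dade_class A L H hD α hαc g h, hθc g h]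
    have h1 := Cfsg.Agent.Lib.Helper3.Irr.classInner_sub_left (dadeIsometry A L H α)
      (Cfsg.Agent.Lib.Helper25.DadeExp2.theta A L H hD α) d
    rw [← hd] at h1
    have h2 : classInner (dadeIsometry A L H α) d =
        classInner (Cfsg.Agent.Lib.Helper25.DadeExp2.theta A L H hD α) d := by
      rw [Cfsg.Agent.S1500.part_ii A L H hD α hαc hαA d
        (fun a : L => (Nat.card (H a) : ℂ)⁻¹ * ∑ u : G, if u ∈ H (a : G) then d (a * u) else 0) hdc
        (fun a _ => by rw [Cfsg.Agent.S1500.finsum_mem_eq]),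
        Cfsg.Agent.Lib.Helper25.DadeExp2.inner_theta A L H hD α hαA d hdc]
      unfold classInner
      congr 1
      rw [Cfsg.Agent.Lib.CT.FrobRec.sum_extendByZero_mul L α
        (fun l => (Nat.card (H l) : ℂ)⁻¹ * ∑ u : G, if u ∈ H l then
          (starRingEnd ℂ) (d (l * u)) else 0)]
      apply Finset.sum_congr rfl
      intro a _
      congr 1
      rw [map_mul, map_inv₀, map_natCast, map_sum]
      congr 1
      apply Finset.sum_congr rfl
      intro u _
      by_cases hu : u ∈ H (a : G)
      · rw [if_pos hu, if_pos hu]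
      · rw [if_neg hu, if_neg hu, map_zero]
    rw [h2, sub_self] at h1
    have := Cfsg.Agent.Lib.Helper26.GenChar.eq_zero_of_classInner_self_eq_zero h1
    rw [hd] at this
    exact sub_eq_zero.mp this
  rw [heq]
  exact hθ

end Cfsg.Agent.S1501
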