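import Cfsg.Statements.S1502
import Cfsg.Agent.Lib.Helper25.Sunflower5
import Cfsg.Agent.Lib.Helper25.CycTI3
import Cfsg.Agent.Lib.CT.IndChar
import Cfsg.Agent.Lib.CT.Ops

set_option autoImplicit false
open Cfsg

namespace Cfsg.Agent.S1502

open Cfsg.Agent.Lib.Helper25.CycTI1 Cfsg.Agent.Lib.Helper25.CycTI2
open Cfsg.Agent.Lib.CT.FrobRec Cfsg.Agent.Lib.Helper3.Irr
open Cfsg.Agent.Lib.Helper26.GenChar (exists_int_mult eq_irr_or_neg_of_norm_one
  isGeneralizedCharacter_sub isGeneralizedCharacter_of_irr)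

theorem ite_iff' (P Q : Prop) {dP : Decidable P} {dQ : Decidable Q} (h : P ↔ Q) :
    (if P then (1 : ℂ) else 0) = if Q then 1 else 0 := by
  by_cases hp : P
  · rw [if_pos hp, if_pos (h.mp hp)]
  · rw [if_neg hp, if_neg (fun hq => hp (h.mpr hq))]

theorem ite_alg (P1 P2 P3 P4 : Prop) {d1 : Decidable P1} {d2 : Decidable P2} {d3 : Decidable P3}
    {d4 : Decidable P4} {d13 : Decidable (P1 ∧ P3)} {d23 : Decidable (P2 ∧ P3)}
    {d14 : Decidable (P1 ∧ P4)} {d24 : Decidable (P2 ∧ P4)} :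
    (if P1 ∧ P3 then (1 : ℂ) else 0) - (if P2 ∧ P3 then 1 else 0) - (if P1 ∧ P4 then 1 else 0)
      + (if P2 ∧ P4 then 1 else 0)
      = ((if P1 then 1 else 0) - (if P2 then 1 else 0)) *
        ((if P3 then 1 else 0) - (if P4 then 1 else 0)) := by
  by_cases h1 : P1 <;> by_cases h2 : P2 <;> by_cases h3 : P3 <;> by_cases h4 : P4 <;>
    simp [h1, h2, h3, h4]

open Classical in
theorem exists_X {G : Type*} [Group G] [Fintype G] (W₁ W₂ : Subgroup G)
    (hW : Cfsg.IsSelfNormalizingCyclic W₁ W₂) (hodd : Odd (Nat.card ↥(W₁ ⊔ W₂)))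
    [Fintype ↥(W₁ ⊔ W₂)] [Fintype (↥W₁ →* ℂˣ)] [Fintype (↥W₂ →* ℂˣ)]
    (e : (↥W₁ × ↥W₂) ≃* ↥(W₁ ⊔ W₂))
    (E : (↥W₁ →* ℂˣ) × (↥W₂ →* ℂˣ) ≃ (↥(W₁ ⊔ W₂) →* ℂˣ))
    (he : ∀ p : ↥W₁ × ↥W₂, ((e p : ↥(W₁ ⊔ W₂)) : G) = p.1 * p.2)
    (hE : ∀ (α : ↥W₁ →* ℂˣ) (β : ↥W₂ →* ℂˣ) (a : ↥W₁) (b : ↥W₂),
      E (α, β) (e (a, b)) = α a * β b) :
    ∃ x : (↥W₁ →* ℂˣ) → (↥W₂ →* ℂˣ) → (G → ℂ),
      x 1 1 = (fun _ => 1) ∧
      (∀ i j, IsGeneralizedCharacter G (x i j)) ∧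
      (∀ i j i' j', classInner (x i j) (x i' j') = if i = i' ∧ j = j' then 1 else 0) ∧
      (∀ i j, i ≠ 1 → j ≠ 1 → indFun (W₁ ⊔ W₂) (Cfsg.Agent.Lib.Helper25.CycTI2.alpha E i j)
        = fun g => 1 - x i 1 g - x 1 j g + x i j g) := by
  classical
  have : Finite (IrrCharacter G) := finite_irrCharacter
  haveI : Fintype (IrrCharacter G) := Fintype.ofFinite _
  have hD := dade W₁ W₂ hW
  obtain ⟨hc1', hc2', hc5⟩ := cards W₁ W₂ hW hodd
  obtain ⟨h1, h2, hdisj, hcomm, hcyc, -⟩ := hW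
  have hWcomm := Cfsg.Agent.S1511.cyclic_comm (W₁ ⊔ W₂) hcyc
  have hcf : ∀ f : ↥(W₁ ⊔ W₂) → ℂ, IsClassFunction ↥(W₁ ⊔ W₂) f :=
    isClassFunction_of_comm (W₁ ⊔ W₂) hWcomm
  have hK1 : ∀ a ∈ W₁, ∀ b ∈ W₁, a * b = b * a := fun a ha b hb =>
    hWcomm a (Subgroup.mem_sup_left ha) b (Subgroup.mem_sup_left hb)
  have hK2 : ∀ a ∈ W₂, ∀ b ∈ W₂, a * b = b * a := fun a ha b hb =>
    hWcomm a (Subgroup.mem_sup_right ha) b (Subgroup.mem_sup_right hb)
  have cI : Fintype.card (↥W₁ →* ℂˣ) = Nat.card W₁ := by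
    rw [← Nat.card_eq_fintype_card]
    exact Cfsg.Agent.S1507.card_hom_sub W₁ hK1
  have cJ : Fintype.card (↥W₂ →* ℂˣ) = Nat.card W₂ := by
    rw [← Nat.card_eq_fintype_card]
    exact Cfsg.Agent.S1507.card_hom_sub W₂ hK2
  obtain ⟨β, hβ⟩ : ∃ β : (↥W₁ →* ℂˣ) → (↥W₂ →* ℂˣ) → (G → ℂ),
      β = fun i j => indFun (W₁ ⊔ W₂) (Cfsg.Agent.Lib.Helper25.CycTI2.alpha E i j) := ⟨_, rfl⟩
  have hβgen : ∀ i j, IsGeneralizedCharacter G (β i j) := by
    intro i j
    have hl : ∀ ω : ↥(W₁ ⊔ W₂) →* ℂˣ, IsCharacter G (indFun (W₁ ⊔ W₂) (lin ω)) := fun ω =>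
      Cfsg.Agent.Lib.CT.IndChar.isCharacter_indFun (H := W₁ ⊔ W₂) _
        (Cfsg.Agent.Lib.CT.LinChar.isCharacter_of_hom ω)
    refine ⟨indFun (W₁ ⊔ W₂) (lin (E (1, 1))) + indFun (W₁ ⊔ W₂) (lin (E (i, j))),
      indFun (W₁ ⊔ W₂) (lin (E (i, 1))) + indFun (W₁ ⊔ W₂) (lin (E (1, j))),
      Cfsg.Agent.Lib.CT.Ops.isCharacter_add (hl _) (hl _),
      Cfsg.Agent.Lib.CT.Ops.isCharacter_add (hl _) (hl _), ?_⟩
    rw [hβ]
    show indFun (W₁ ⊔ W₂) (Cfsg.Agent.Lib.Helper25.CycTI2.alpha E i j) = _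
    rw [alpha_eq e E hE, indFun_add, indFun_sub, indFun_sub]
    abel
  have hββ : ∀ i j i' j', i ≠ 1 → j ≠ 1 → i' ≠ 1 → j' ≠ 1 →
      classInner (β i j) (β i' j') = (if i = i' then 1 else 0) + (if j = j' then 1 else 0)
        + (if i = i' ∧ j = j' then 1 else 0) + 1 := by
    intro i j i' j' hi hj hi' hj'
    rw [hβ]
    show classInner (indFun (W₁ ⊔ W₂) (Cfsg.Agent.Lib.Helper25.CycTI2.alpha E i j)) (indFun (W₁ ⊔ W₂) (Cfsg.Agent.Lib.Helper25.CycTI2.alpha E i' j')) = _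
    rw [Cfsg.Agent.Lib.Helper25.TIInd.ind_isometry (tiSet W₁ W₂) (W₁ ⊔ W₂) hD _ _ (hcf _)
      (alpha_vanish e E he hE hdisj i j) (hcf _) (alpha_vanish e E he hE hdisj i' j')]
    exact alpha_inner e E hE i j i' j' hi hj hi' hj'
  have hone : IsClassFunction G (fun _ : G => (1 : ℂ)) := fun _ _ => rfl
  have hβ1 : ∀ i j, i ≠ 1 → j ≠ 1 → classInner (β i j) (fun _ => 1) = 1 := by
    intro i j hi hj
    rw [hβ]
    show classInner (indFun (W₁ ⊔ W₂) (Cfsg.Agent.Lib.Helper25.CycTI2.alpha E i j)) (fun _ => 1) = 1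
    rw [frobenius_reciprocity (W₁ ⊔ W₂) (Cfsg.Agent.Lib.Helper25.CycTI2.alpha E i j) (fun _ => 1) hone]
    exact alpha_one_inner e E hE i j hi hj
  have h1β : ∀ i j, i ≠ 1 → j ≠ 1 → classInner (fun _ : G => (1 : ℂ)) (β i j) = 1 := by
    intro i j hi hj
    rw [← classInner_conj_symm, hβ1 i j hi hj, map_one]
  have h11 : classInner (fun _ : G => (1 : ℂ)) (fun _ => 1) = 1 :=
    irr_inner_self ⟨_, Cfsg.Agent.Lib.CT.Ops.isIrrCharacter_one⟩
  have hβone : ∀ i j, β i j 1 = 0 := by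
    intro i j
    rw [hβ]
    show indFun (W₁ ⊔ W₂) (Cfsg.Agent.Lib.Helper25.CycTI2.alpha E i j) 1 = 0
    rw [indFun_one, alpha_at_one, mul_zero]
  have hγgen : ∀ i j, IsGeneralizedCharacter G (β i j - fun _ => 1) := fun i j =>
    isGeneralizedCharacter_sub (hβgen i j)
      (isGeneralizedCharacter_of_irr Cfsg.Agent.Lib.CT.Ops.isIrrCharacter_one)
  choose c hc hce using fun i j => exists_int_mult (hγgen i j)
  choose d hdpos hd using fun ψ : IrrCharacter G => IsIrrCharacter.exists_apply_one_pos ψ.2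
  have hG : ∀ i j i' j', i ≠ 1 → j ≠ 1 → i' ≠ 1 → j' ≠ 1 →
      dotProduct (c i j) (c i' j') = (if i = i' then 1 else 0) + (if j = j' then 1 else 0)
        + (if i = i' ∧ j = j' then 1 else 0) := by
    intro i j i' j' hi hj hi' hj'
    have h := inner_sum_int (c i j) (c i' j')
    rw [← hce i j, ← hce i' j', classInner_sub_left,
      Cfsg.Agent.Lib.Helper26.GenChar.classInner_sub_right,
      Cfsg.Agent.Lib.Helper26.GenChar.classInner_sub_right, hββ i j i' j' hi hj hi' hj',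
      hβ1 i j hi hj, h1β i' j' hi' hj', h11] at h
    have h' : ((dotProduct (c i j) (c i' j') : ℤ) : ℂ) = (((if i = i' then 1 else 0)
        + (if j = j' then 1 else 0) + (if i = i' ∧ j = j' then 1 else 0) : ℤ) : ℂ) := by
      rw [← h]
      push_cast
      ring
    exact_mod_cast h'
  have hdeg : ∀ i j, dotProduct (c i j) (fun ψ => (d ψ : ℤ)) = -1 := by
    intro i j
    have h := congrFun (hce i j) 1
    rw [Pi.sub_apply, hβone, Finset.sum_apply] at h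
    have h' : ((dotProduct (c i j) (fun ψ => (d ψ : ℤ)) : ℤ) : ℂ) = ((-1 : ℤ) : ℂ) := by
      unfold dotProduct
      push_cast
      rw [show (-1 : ℂ) = 0 - 1 by norm_num, h]
      refine Finset.sum_congr rfl (fun ψ _ => ?_)
      rw [Pi.smul_apply, hd ψ, smul_eq_mul]
    exact_mod_cast h'
  have hz : ∀ i j, i ≠ 1 → j ≠ 1 →
      c i j ⟨fun _ => 1, Cfsg.Agent.Lib.CT.Ops.isIrrCharacter_one⟩ = 0 := by
    intro i j hi hj
    have h := hc i j ⟨fun _ => 1, Cfsg.Agent.Lib.CT.Ops.isIrrCharacter_one⟩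
    rw [classInner_sub_left, hβ1 i j hi hj, h11, sub_self] at h
    exact_mod_cast h.symm
  have key : ∃ X : (↥W₁ →* ℂˣ) → (↥W₂ →* ℂˣ) → IrrCharacter G → ℤ,
      X 1 1 = Pi.single ⟨fun _ => 1, Cfsg.Agent.Lib.CT.Ops.isIrrCharacter_one⟩ 1 ∧
      (∀ i j i' j', dotProduct (X i j) (X i' j') = if i = i' ∧ j = j' then 1 else 0) ∧
      ∀ i j, i ≠ 1 → j ≠ 1 → c i j = - X i 1 - X 1 j + X i j := by
    rcases hc5 with h5 | h5
    · obtain ⟨X, hX1, hX2, hX3⟩ := Cfsg.Agent.Lib.Helper25.Sunflower.main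
        (I := ↥W₂ →* ℂˣ) (J := ↥W₁ →* ℂˣ) 1 1 (by rw [cJ]; exact hc2') (by rw [cI]; exact h5)
        (fun ψ => (d ψ : ℤ)) (fun ψ => by exact_mod_cast (hdpos ψ).ne')
        ⟨fun _ => 1, Cfsg.Agent.Lib.CT.Ops.isIrrCharacter_one⟩ (fun j i => c i j)
        (fun j i j' i' hj hi hj' hi' => by
          rw [hG i j i' j' hi hj hi' hj']
          by_cases q1 : i = i' <;> by_cases q2 : j = j' <;> simp [q1, q2])
        (fun j i j' i' _ _ _ _ => by rw [hdeg, hdeg])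
        (fun j i hj hi => hz i j hi hj)
      refine ⟨fun i j => X j i, hX1, fun i j i' j' => ?_, fun i j hi hj => ?_⟩
      · rw [hX2]
        by_cases q1 : i = i' <;> by_cases q2 : j = j' <;> simp [q1, q2]
      · have h := hX3 j i hj hi
        rw [h]
        funext ψ
        simp only [Pi.add_apply, Pi.sub_apply, Pi.neg_apply]
        ring
    · exact Cfsg.Agent.Lib.Helper25.Sunflower.main
        (I := ↥W₁ →* ℂˣ) (J := ↥W₂ →* ℂˣ) 1 1 (by rw [cI]; exact hc1') (by rw [cJ]; exact h5)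
        (fun ψ => (d ψ : ℤ)) (fun ψ => by exact_mod_cast (hdpos ψ).ne')
        ⟨fun _ => 1, Cfsg.Agent.Lib.CT.Ops.isIrrCharacter_one⟩ c hG
        (fun i j i' j' _ _ _ _ => by rw [hdeg, hdeg]) hz
  obtain ⟨X, hX1, hX2, hX3⟩ := key
  refine ⟨fun i j => ∑ ψ : IrrCharacter G, (X i j ψ : ℂ) • (ψ : G → ℂ), ?_,
    fun i j => isGeneralizedCharacter_sum_int _, fun i j i' j' => ?_, fun i j hi hj => ?_⟩
  · show (∑ ψ : IrrCharacter G, (X 1 1 ψ : ℂ) • (ψ : G → ℂ)) = fun _ => 1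
    rw [hX1]
    funext g
    rw [Finset.sum_apply]
    simp only [Pi.smul_apply, smul_eq_mul]
    rw [Finset.sum_eq_single
      (⟨fun _ => 1, Cfsg.Agent.Lib.CT.Ops.isIrrCharacter_one⟩ : IrrCharacter G)]
    · simp
    · intro ψ _ hψ
      rw [Pi.single_eq_of_ne hψ]
      simp
    · intro h
      exact absurd (Finset.mem_univ _) h
  · show classInner (∑ ψ : IrrCharacter G, (X i j ψ : ℂ) • (ψ : G → ℂ))
      (∑ ψ : IrrCharacter G, (X i' j' ψ : ℂ) • (ψ : G → ℂ)) = _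
    rw [inner_sum_int, hX2]
    split_ifs <;> simp
  · have h := hce i j
    rw [hX3 i j hi hj] at h
    have h4 : β i j = (fun _ => 1) + ∑ ψ : IrrCharacter G,
        (((- X i 1 - X 1 j + X i j) ψ : ℤ) : ℂ) • (ψ : G → ℂ) := by
      rw [← h]
      abel
    rw [hβ] at h4
    have h5 : indFun (W₁ ⊔ W₂) (Cfsg.Agent.Lib.Helper25.CycTI2.alpha E i j) = (fun _ => 1) + ∑ ψ : IrrCharacter G,
        (((- X i 1 - X 1 j + X i j) ψ : ℤ) : ℂ) • (ψ : G → ℂ) := h4
    rw [h5]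
    funext g
    beta_reduce
    simp only [Pi.add_apply, Finset.sum_apply, Pi.smul_apply, Pi.sub_apply, Pi.neg_apply,
      smul_eq_mul, Int.cast_add, Int.cast_sub, Int.cast_neg, add_mul, sub_mul, neg_mul,
      Finset.sum_add_distrib, Finset.sum_sub_distrib, Finset.sum_neg_distrib]
    ring

/-- Let W₁, W₂ be nontrivial subgroups of the finite group G generating a cyclic subgroup W = W₁ ⊔ W₂ of odd order that is the normaliser of every nonempty set of its elements outside W₁ ∪ W₂. Then there is a family attaching to each linear character ω of W an irreducible character of G up to sign, orthonormal, sending the trivial character to the principal character, with χ ω = ω on W outside W₁ ∪ W₂, and such that inducing (1 − φ)(1 − ψ) to G gives 1 − χ φ − χ ψ + χ (φψ) whenever φ ≠ 1 is trivial on W₂ and ψ ≠ 1 is trivial on W₁. -/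
theorem result {G : Type*} [Group G] [Fintype G] (W₁ W₂ : Subgroup G) (hW : Cfsg.IsSelfNormalizingCyclic W₁ W₂) (hodd : Odd (Nat.card ↥(W₁ ⊔ W₂))) : ∃ χ : (↥(W₁ ⊔ W₂) →* ℂˣ) → (G → ℂ), Cfsg.IsCyclicTIFamily W₁ W₂ χ := by
  classical
  haveI : Fintype ↥(W₁ ⊔ W₂) := Fintype.ofFinite _
  have hW' := hW
  obtain ⟨h1, h2, hdisj, hcomm, hcyc, -⟩ := hW
  have hWcomm := Cfsg.Agent.S1511.cyclic_comm (W₁ ⊔ W₂) hcyc
  have hK1 : ∀ a ∈ W₁, ∀ b ∈ W₁, a * b = b * a := fun a ha b hb =>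
    hWcomm a (Subgroup.mem_sup_left ha) b (Subgroup.mem_sup_left hb)
  have hK2 : ∀ a ∈ W₂, ∀ b ∈ W₂, a * b = b * a := fun a ha b hb =>
    hWcomm a (Subgroup.mem_sup_right ha) b (Subgroup.mem_sup_right hb)
  have : Finite (↥W₁ →* ℂˣ) := Cfsg.Agent.Lib.Helper25.CyclicTI.finite_hom_sub W₁ hK1
  haveI : Fintype (↥W₁ →* ℂˣ) := Fintype.ofFinite _
  have : Finite (↥W₂ →* ℂˣ) := Cfsg.Agent.Lib.Helper25.CyclicTI.finite_hom_sub W₂ hK2
  haveI : Fintype (↥W₂ →* ℂˣ) := Fintype.ofFinite _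
  obtain ⟨e, E, he, hE⟩ := Cfsg.Agent.Lib.Helper25.CyclicTI.exists_param W₁ W₂ hdisj hcomm
  obtain ⟨x, hx1, hxgen, hxorth, hxind⟩ := exists_X W₁ W₂ hW' hodd e E he hE
  refine ⟨fun ω => x (E.symm ω).1 (E.symm ω).2, ?_⟩
  have hE1 : E.symm 1 = (1, 1) := by
    rw [Equiv.symm_apply_eq]
    exact (E_one e E hE).symm
  constructor
  · intro ω
    obtain ⟨μ, hμ, h | h⟩ := eq_irr_or_neg_of_norm_one (hxgen (E.symm ω).1 (E.symm ω).2)
      (by rw [hxorth]; simp)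
    · left
      show IsIrrCharacter G (x (E.symm ω).1 (E.symm ω).2)
      rw [h]
      exact hμ
    · right
      show IsIrrCharacter G (-x (E.symm ω).1 (E.symm ω).2)
      rw [h, neg_neg]
      exact hμ
  · intro ω ω'
    show classInner (x (E.symm ω).1 (E.symm ω).2) (x (E.symm ω').1 (E.symm ω').2) = _
    rw [hxorth]
    refine ite_iff' _ _ ⟨fun h => ?_, fun h => ?_⟩
    · exact E.symm.injective (Prod.ext h.1 h.2)
    · rw [h]
      exact ⟨rfl, rfl⟩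
  · show x (E.symm 1).1 (E.symm 1).2 = fun _ => 1
    rw [hE1]
    exact hx1
  · intro ω w hw1 hw2
    show x (E.symm ω).1 (E.symm ω).2 (w : G) = ((ω w : ℂˣ) : ℂ)
    obtain ⟨⟨a, b⟩, rfl⟩ := e.surjective w
    obtain ⟨⟨i₁, j₁⟩, rfl⟩ := E.surjective ω
    rw [Equiv.symm_apply_apply]
    have ha : a ≠ 1 := by
      rintro rfl
      apply hw2
      rw [he]
      simp
    have hb : b ≠ 1 := by
      rintro rfl
      apply hw1
      rw [he]
      simp
    rw [value_formula e E hE hK1 hK2 (x i₁ j₁) (isClassFunction_of_gen (hxgen _ _)) a b ha hb]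
    have hβ : ∀ k l, classInner (x i₁ j₁) (indFun (W₁ ⊔ W₂) (Cfsg.Agent.Lib.Helper25.CycTI2.alpha E k l))
        = ((if i₁ = 1 then 1 else 0) - (if i₁ = k then 1 else 0)) *
          ((if j₁ = 1 then 1 else 0) - (if j₁ = l then 1 else 0)) := by
      intro k l
      by_cases hk : k = 1
      · rw [hk, alpha_left_one e E hE, indFun_zero,
          Cfsg.Agent.Lib.Helper26.GenChar.classInner_zero_right]
        simp
      by_cases hl : l = 1
      · rw [hl, alpha_right_one e E hE, indFun_zero,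
          Cfsg.Agent.Lib.Helper26.GenChar.classInner_zero_right]
        simp
      rw [hxind k l hk hl]
      have hfun : (fun g => 1 - x k 1 g - x 1 l g + x k l g) = x 1 1 - x k 1 - x 1 l + x k l := by
        funext g
        simp [hx1]
      rw [hfun, Cfsg.Agent.Lib.Helper26.GenChar.classInner_add_right,
        Cfsg.Agent.Lib.Helper26.GenChar.classInner_sub_right,
        Cfsg.Agent.Lib.Helper26.GenChar.classInner_sub_right, hxorth, hxorth, hxorth, hxorth]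
      exact ite_alg _ _ _ _
    simp only [hβ, hE, Units.val_mul]
    have hfac : ∀ (k : ↥W₁ →* ℂˣ) (l : ↥W₂ →* ℂˣ),
        (((k a : ℂˣ) : ℂ) * ((l b : ℂˣ) : ℂ)) *
          (((if i₁ = 1 then 1 else 0) - (if i₁ = k then 1 else 0)) *
          ((if j₁ = 1 then 1 else 0) - (if j₁ = l then 1 else 0)))
        = (((k a : ℂˣ) : ℂ) * ((if i₁ = 1 then 1 else 0) - (if i₁ = k then 1 else 0))) *
          (((l b : ℂˣ) : ℂ) * ((if j₁ = 1 then 1 else 0) - (if j₁ = l then 1 else 0))) := by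
      intro k l
      ring
    simp only [hfac]
    have hprod := Finset.sum_mul_sum (Finset.univ : Finset (↥W₁ →* ℂˣ))
      (Finset.univ : Finset (↥W₂ →* ℂˣ))
      (fun k : ↥W₁ →* ℂˣ => ((k a : ℂˣ) : ℂ) *
        ((if i₁ = 1 then (1 : ℂ) else 0) - (if i₁ = k then 1 else 0)))
      (fun l : ↥W₂ →* ℂˣ => ((l b : ℂˣ) : ℂ) *
        ((if j₁ = 1 then (1 : ℂ) else 0) - (if j₁ = l then 1 else 0)))
    beta_reduce at hprod
    rw [← hprod]
    have hS1 : ∑ k : ↥W₁ →* ℂˣ, ((k a : ℂˣ) : ℂ) *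
        ((if i₁ = 1 then (1 : ℂ) else 0) - (if i₁ = k then 1 else 0)) = -((i₁ a : ℂˣ) : ℂ) := by
      have hrw : ∀ k : ↥W₁ →* ℂˣ, ((k a : ℂˣ) : ℂ) *
          ((if i₁ = 1 then (1 : ℂ) else 0) - (if i₁ = k then 1 else 0))
          = (if i₁ = 1 then (1 : ℂ) else 0) * ((k a : ℂˣ) : ℂ)
            - (if i₁ = k then ((k a : ℂˣ) : ℂ) else 0) := by
        intro k
        by_cases q : i₁ = k
        · rw [if_pos q, if_pos q]; ring
        · rw [if_neg q, if_neg q]; ring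
      simp only [hrw, Finset.sum_sub_distrib, ← Finset.mul_sum, Finset.sum_ite_eq,
        Finset.mem_univ, if_true]
      rw [Cfsg.Agent.Lib.Helper25.CyclicTI.sum_hom_sub W₁ hK1 a, if_neg ha]
      simp
    have hS2 : ∑ l : ↥W₂ →* ℂˣ, ((l b : ℂˣ) : ℂ) *
        ((if j₁ = 1 then (1 : ℂ) else 0) - (if j₁ = l then 1 else 0)) = -((j₁ b : ℂˣ) : ℂ) := by
      have hrw : ∀ l : ↥W₂ →* ℂˣ, ((l b : ℂˣ) : ℂ) *
          ((if j₁ = 1 then (1 : ℂ) else 0) - (if j₁ = l then 1 else 0))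
          = (if j₁ = 1 then (1 : ℂ) else 0) * ((l b : ℂˣ) : ℂ)
            - (if j₁ = l then ((l b : ℂˣ) : ℂ) else 0) := by
        intro l
        by_cases q : j₁ = l
        · rw [if_pos q, if_pos q]; ring
        · rw [if_neg q, if_neg q]; ring
      simp only [hrw, Finset.sum_sub_distrib, ← Finset.mul_sum, Finset.sum_ite_eq,
        Finset.mem_univ, if_true]
      rw [Cfsg.Agent.Lib.Helper25.CyclicTI.sum_hom_sub W₂ hK2 b, if_neg hb]
      simp
    rw [hS1, hS2]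
    ring
  · intro φ ψ hφ hψ hφ2 hψ1
    obtain ⟨⟨i, i2⟩, rfl⟩ := E.surjective φ
    obtain ⟨⟨j1, j⟩, rfl⟩ := E.surjective ψ
    have hi2 : i2 = 1 := by
      apply MonoidHom.ext
      intro b
      have h := hφ2 (e (1, b)) (by rw [he]; simp)
      rw [hE] at h
      simpa using h
    have hj1 : j1 = 1 := by
      apply MonoidHom.ext
      intro a
      have h := hψ1 (e (a, 1)) (by rw [he]; simp)
      rw [hE] at h
      simpa using h
    subst hi2 hj1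
    have hi : i ≠ 1 := by
      rintro rfl
      exact hφ (E_one e E hE)
    have hj : j ≠ 1 := by
      rintro rfl
      exact hψ (E_one e E hE)
    have hmul : E (i, 1) * E (1, j) = E (i, j) := by
      apply MonoidHom.ext
      intro w
      rw [MonoidHom.mul_apply]
      exact (E_apply_mul e E hE i j w).symm
    rw [hmul]
    simp only [Equiv.symm_apply_apply]
    exact hxind i j hi hj

end Cfsg.Agent.S1502
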