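import Cfsg.Statements.S1503
import Cfsg.Agent.Lib.Helper25.CyclicTI
import Cfsg.Agent.S1506
import Mathlib

set_option autoImplicit false
open Cfsg

namespace Cfsg.Agent.S1503

open Cfsg.Agent.Lib.Helper25.CyclicTI Cfsg.Agent.Lib.Helper3.Irr Cfsg.Agent.Lib.CT.FrobRec
open scoped ComplexConjugate

/-- the character sum `∑ α, α(a₀⁻¹) (1 - α a)` over the dual of a commutative subgroup. -/
theorem sum_dual {G : Type*} [Group G] [Finite G] (K : Subgroup G)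
    (hK : ∀ a ∈ K, ∀ b ∈ K, a * b = b * a) [Fintype (↥K →* ℂˣ)] [DecidableEq ↥K]
    (a₀ a : K) (ha₀ : a₀ ≠ 1) :
    ∑ α : ↥K →* ℂˣ, conj ((α a₀⁻¹ : ℂˣ) : ℂ) * conj (1 - ((α a : ℂˣ) : ℂ)) =
      -(if a = a₀ then (Nat.card K : ℂ) else 0) := by
  have h1 : ∀ α : ↥K →* ℂˣ, conj ((α a₀⁻¹ : ℂˣ) : ℂ) * conj (1 - ((α a : ℂˣ) : ℂ)) =
      conj (((α a₀⁻¹ : ℂˣ) : ℂ) - ((α (a₀⁻¹ * a) : ℂˣ) : ℂ)) := by
    intro α
    rw [← map_mul, map_mul α, Units.val_mul]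
    congr 1
    ring
  simp_rw [h1]
  rw [← map_sum, Finset.sum_sub_distrib, sum_hom_sub K hK, sum_hom_sub K hK]
  have h2 : a₀⁻¹ ≠ 1 := by
    intro h
    exact ha₀ (inv_eq_one.mp h)
  rw [if_neg h2]
  by_cases h3 : a = a₀
  · rw [if_pos h3, if_pos (by rw [h3]; exact inv_mul_cancel a₀)]
    simp
  · rw [if_neg h3, if_neg (by
      intro h
      apply h3
      exact (inv_mul_eq_one.mp h).symm)]
    simp

/-- Let W₁, W₂ ≤ G with W = W₁ ⊔ W₂ and let χ an orthonormal family of irreducible characters of G up to sign, indexed by the linear characters ω of W, with χ_1 = 1, χ_ω = ω on W outside W₁ ∪ W₂, and the induction identity for (1 − φ)(1 − ψ). If θ is an irreducible character of G orthogonal to χ ω for every linear character ω of W, then θ vanishes at every element of W lying outside W₁ ∪ W₂. -/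
theorem result {G : Type*} [Group G] [Fintype G] (W₁ W₂ : Subgroup G) (hW : Cfsg.IsSelfNormalizingCyclic W₁ W₂) (χ : (↥(W₁ ⊔ W₂) →* ℂˣ) → (G → ℂ)) (hχ : Cfsg.IsCyclicTIFamily W₁ W₂ χ) (θ : G → ℂ) (hθ : Cfsg.IsIrrCharacter G θ) (horth : ∀ ω, Cfsg.classInner θ (χ ω) = 0) (w : ↥(W₁ ⊔ W₂)) (hw₁ : (w : G) ∉ W₁) (hw₂ : (w : G) ∉ W₂) : θ w = 0 := by
  classical
  obtain ⟨hW1, hW2, hdisj, hcomm, hcyc, -⟩ := hW
  obtain ⟨e, E, he, hE⟩ := exists_param W₁ W₂ hdisj hcomm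
  have hWcomm : ∀ a ∈ W₁ ⊔ W₂, ∀ b ∈ W₁ ⊔ W₂, a * b = b * a := by
    intro a ha b hb
    letI := hcyc
    letI : CommGroup ↥(W₁ ⊔ W₂) := IsCyclic.commGroup
    have := mul_comm (⟨a, ha⟩ : ↥(W₁ ⊔ W₂)) ⟨b, hb⟩
    exact congrArg Subtype.val this
  have hK1 : ∀ a ∈ W₁, ∀ b ∈ W₁, a * b = b * a :=
    fun a ha b hb => hWcomm a (Subgroup.mem_sup_left ha) b (Subgroup.mem_sup_left hb)
  have hK2 : ∀ a ∈ W₂, ∀ b ∈ W₂, a * b = b * a :=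
    fun a ha b hb => hWcomm a (Subgroup.mem_sup_right ha) b (Subgroup.mem_sup_right hb)
  haveI : Finite (↥W₁ →* ℂˣ) := finite_hom_sub W₁ hK1
  haveI : Fintype (↥W₁ →* ℂˣ) := Fintype.ofFinite _
  haveI : Finite (↥W₂ →* ℂˣ) := finite_hom_sub W₂ hK2
  haveI : Fintype (↥W₂ →* ℂˣ) := Fintype.ofFinite _
  haveI : Fintype ↥(W₁ ⊔ W₂) := Fintype.ofFinite _
  haveI : Fintype ↥W₁ := Fintype.ofFinite _
  haveI : Fintype ↥W₂ := Fintype.ofFinite _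
  have hθcf := IsIrrCharacter.isClassFunction hθ
  have h11 : E (1, 1) = 1 := by
    ext w
    obtain ⟨⟨a, b⟩, rfl⟩ := e.surjective w
    rw [hE]; simp
  have hF : ∀ (α : ↥W₁ →* ℂˣ) (β : ↥W₂ →* ℂˣ) (p : ↥W₁ × ↥W₂),
      1 - ((E (α, 1) (e p) : ℂˣ) : ℂ) - ((E (1, β) (e p) : ℂˣ) : ℂ) +
        ((E (α, 1) (e p) : ℂˣ) : ℂ) * ((E (1, β) (e p) : ℂˣ) : ℂ) =
      (1 - ((α p.1 : ℂˣ) : ℂ)) * (1 - ((β p.2 : ℂˣ) : ℂ)) := by
    rintro α β ⟨a, b⟩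
    rw [hE, hE]
    simp only [MonoidHom.one_apply, mul_one, one_mul]
    ring
  -- the inner products vanish
  have hT : ∀ (α : ↥W₁ →* ℂˣ) (β : ↥W₂ →* ℂˣ),
      Cfsg.classInner (fun w : ↥(W₁ ⊔ W₂) => θ w)
        (fun w => 1 - ((E (α, 1) w : ℂˣ) : ℂ) - ((E (1, β) w : ℂˣ) : ℂ) +
          ((E (α, 1) w : ℂˣ) : ℂ) * ((E (1, β) w : ℂ))) = 0 := by
    intro α β
    by_cases h1 : α = 1
    · have hz : (fun w : ↥(W₁ ⊔ W₂) => 1 - ((E (α, 1) w : ℂˣ) : ℂ) - ((E (1, β) w : ℂˣ) : ℂ) +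
          ((E (α, 1) w : ℂˣ) : ℂ) * ((E (1, β) w : ℂ))) = fun _ => 0 := by
        funext w
        obtain ⟨p, rfl⟩ := e.surjective w
        rw [hF, h1]; simp
      rw [hz]; simp [Cfsg.classInner]
    by_cases h2 : β = 1
    · have hz : (fun w : ↥(W₁ ⊔ W₂) => 1 - ((E (α, 1) w : ℂˣ) : ℂ) - ((E (1, β) w : ℂˣ) : ℂ) +
          ((E (α, 1) w : ℂˣ) : ℂ) * ((E (1, β) w : ℂ))) = fun _ => 0 := by
        funext w
        obtain ⟨p, rfl⟩ := e.surjective w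
        rw [hF, h2]; simp
      rw [hz]; simp [Cfsg.classInner]
    have hφ : E (α, 1) ≠ 1 := by
      intro h
      apply h1
      have := E.injective (h.trans h11.symm)
      exact (Prod.mk.inj this).1
    have hψ : E (1, β) ≠ 1 := by
      intro h
      apply h2
      have := E.injective (h.trans h11.symm)
      exact (Prod.mk.inj this).2
    have hφ2 : ∀ w : ↥(W₁ ⊔ W₂), (w : G) ∈ W₂ → E (α, 1) w = 1 := by
      intro w hw
      have : w = e (1, ⟨w, hw⟩) := Subtype.ext (by rw [he]; simp)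
      rw [this, hE]; simp
    have hψ1 : ∀ w : ↥(W₁ ⊔ W₂), (w : G) ∈ W₁ → E (1, β) w = 1 := by
      intro w hw
      have : w = e (⟨w, hw⟩, 1) := Subtype.ext (by rw [he]; simp)
      rw [this, hE]; simp
    have hind := hχ.induced_eq (E (α, 1)) (E (1, β)) hφ hψ hφ2 hψ1
    have hfr := frobenius_reciprocity' (W₁ ⊔ W₂)
      (fun w => 1 - ((E (α, 1) w : ℂˣ) : ℂ) - ((E (1, β) w : ℂˣ) : ℂ) +
          ((E (α, 1) w : ℂˣ) : ℂ) * ((E (1, β) w : ℂ))) θ hθcf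
    rw [hind, Cfsg.Agent.S1506.inner_expand4] at hfr
    rw [← hfr]
    have h1' : Cfsg.classInner θ (fun _ => 1) = 0 := by
      have := horth 1
      rwa [hχ.map_one] at this
    rw [h1', horth, horth, horth]; ring
  have hzero : ∀ (α : ↥W₁ →* ℂˣ) (β : ↥W₂ →* ℂˣ),
      ∑ p : ↥W₁ × ↥W₂, θ (e p) * conj ((1 - ((α p.1 : ℂˣ) : ℂ)) * (1 - ((β p.2 : ℂˣ) : ℂ))) = 0 := by
    intro α β
    have h := hT α β
    unfold Cfsg.classInner at h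
    have hc : (Nat.card ↥(W₁ ⊔ W₂) : ℂ)⁻¹ ≠ 0 :=
      inv_ne_zero (Nat.cast_ne_zero.mpr Nat.card_pos.ne')
    have h' := (mul_eq_zero.mp h).resolve_left hc
    rw [← h']
    refine Fintype.sum_equiv e.toEquiv _ _ (fun p => ?_)
    simp only [MulEquiv.toEquiv_eq_coe, MulEquiv.coe_toEquiv]
    rw [hF]
  obtain ⟨⟨a₀, b₀⟩, rfl⟩ := e.surjective w
  have ha₀ : a₀ ≠ 1 := by
    rintro rfl
    apply hw₂
    rw [he]; simp
  have hb₀ : b₀ ≠ 1 := by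
    rintro rfl
    apply hw₁
    rw [he]; simp
  have hcomb : ∑ p : ↥W₁ × ↥W₂, θ (e p) *
      ((∑ α : ↥W₁ →* ℂˣ, conj ((α a₀⁻¹ : ℂˣ) : ℂ) * conj (1 - ((α p.1 : ℂˣ) : ℂ))) *
       (∑ β : ↥W₂ →* ℂˣ, conj ((β b₀⁻¹ : ℂˣ) : ℂ) * conj (1 - ((β p.2 : ℂˣ) : ℂ)))) = 0 := by
    have h1 : ∀ p : ↥W₁ × ↥W₂, θ (e p) *
      ((∑ α : ↥W₁ →* ℂˣ, conj ((α a₀⁻¹ : ℂˣ) : ℂ) * conj (1 - ((α p.1 : ℂˣ) : ℂ))) *
       (∑ β : ↥W₂ →* ℂˣ, conj ((β b₀⁻¹ : ℂˣ) : ℂ) * conj (1 - ((β p.2 : ℂˣ) : ℂ)))) =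
       ∑ α : ↥W₁ →* ℂˣ, ∑ β : ↥W₂ →* ℂˣ, conj ((α a₀⁻¹ : ℂˣ) : ℂ) * conj ((β b₀⁻¹ : ℂˣ) : ℂ) *
         (θ (e p) * conj ((1 - ((α p.1 : ℂˣ) : ℂ)) * (1 - ((β p.2 : ℂˣ) : ℂ)))) := by
      intro p
      rw [Finset.sum_mul_sum, Finset.mul_sum]
      apply Finset.sum_congr rfl
      intro α _
      rw [Finset.mul_sum]
      apply Finset.sum_congr rfl
      intro β _
      rw [map_mul]
      ring
    simp_rw [h1]
    rw [Finset.sum_comm]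
    apply Finset.sum_eq_zero
    intro α _
    rw [Finset.sum_comm]
    apply Finset.sum_eq_zero
    intro β _
    rw [← Finset.mul_sum, hzero α β, mul_zero]
  simp_rw [sum_dual W₁ hK1 a₀ _ ha₀, sum_dual W₂ hK2 b₀ _ hb₀] at hcomb
  rw [Finset.sum_eq_single (a₀, b₀)] at hcomb
  · simp only [if_true, neg_mul_neg] at hcomb
    have hc1 : (Nat.card W₁ : ℂ) ≠ 0 := Nat.cast_ne_zero.mpr Nat.card_pos.ne'
    have hc2 : (Nat.card W₂ : ℂ) ≠ 0 := Nat.cast_ne_zero.mpr Nat.card_pos.ne'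
    rcases mul_eq_zero.mp hcomb with h | h
    · exact h
    · exact absurd h (mul_ne_zero hc1 hc2)
  · rintro ⟨a, b⟩ _ hne
    by_cases h1 : a = a₀
    · have h2 : b ≠ b₀ := by
        intro h2
        apply hne
        rw [h1, h2]
      simp [h2]
    · simp [h1]
  · intro h
    exact absurd (Finset.mem_univ _) h

end Cfsg.Agent.S1503
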