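import Cfsg.Statements.S1509
import Cfsg.Agent.Lib.Helper3.Irr
import Mathlib

set_option autoImplicit false
open Cfsg

namespace Cfsg.Agent.S1509

open Cfsg.Agent.Lib.Helper3.Irr
open scoped ComplexConjugate

theorem sign_irr {X : Type*} [Group X] (α : X → ℂ)
    (h : Cfsg.IsIrrCharacter X α ∨ Cfsg.IsIrrCharacter X (-α)) :
    ∃ (ε : ℂ) (A : Cfsg.IrrCharacter X), (ε = 1 ∨ ε = -1) ∧ α = ε • (A : X → ℂ) := by
  rcases h with h | h
  · exact ⟨1, ⟨α, h⟩, Or.inl rfl, by simp⟩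
  · exact ⟨-1, ⟨-α, h⟩, Or.inr rfl, by simp⟩

open Classical in
theorem inner_sign {X : Type*} [Group X] [Fintype X] (ε ε' : ℂ) (hε' : ε' = 1 ∨ ε' = -1)
    (A C : Cfsg.IrrCharacter X) :
    Cfsg.classInner (ε • (A : X → ℂ)) (ε' • (C : X → ℂ)) = ε * ε' * (if A = C then 1 else 0) := by
  rw [classInner_smul_left, classInner_smul_right, irr_orthonormal]
  rcases hε' with rfl | rfl <;> simp

theorem inner_expand {X : Type*} [Group X] [Fintype X] (α β γ δ : X → ℂ) (u v : ℝ) :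
    Cfsg.classInner (α - β) ((u : ℂ) • γ - (v : ℂ) • δ) =
      u * Cfsg.classInner α γ - v * Cfsg.classInner α δ - u * Cfsg.classInner β γ
        + v * Cfsg.classInner β δ := by
  unfold Cfsg.classInner
  simp only [Pi.sub_apply, Pi.smul_apply, smul_eq_mul, map_sub, map_mul, Complex.conj_ofReal]
  have e : ∀ g : X, (α g - β g) * ((u : ℂ) * conj (γ g) - (v : ℂ) * conj (δ g)) =
      (u : ℂ) * (α g * conj (γ g)) - (v : ℂ) * (α g * conj (δ g)) - (u : ℂ) * (β g * conj (γ g))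
        + (v : ℂ) * (β g * conj (δ g)) := by
    intro g; ring
  simp_rw [e, Finset.sum_add_distrib, Finset.sum_sub_distrib, ← Finset.mul_sum]
  ring

/-- Let α, β, γ, δ be functions on a finite group X each of which is an irreducible character or the negative of one, and u, v nonzero real numbers. Suppose ⟨α, β⟩ = ⟨γ, δ⟩ = 0, ⟨α − β, uγ − vδ⟩ = 0, α 1 = β 1 and u γ 1 = v δ 1. Then also ⟨α, γ⟩ = ⟨α, δ⟩ = ⟨β, γ⟩ = ⟨β, δ⟩ = 0. -/
theorem result {X : Type*} [Group X] [Fintype X] (α β γ δ : X → ℂ) (hα : Cfsg.IsIrrCharacter X α ∨ Cfsg.IsIrrCharacter X (-α)) (hβ : Cfsg.IsIrrCharacter X β ∨ Cfsg.IsIrrCharacter X (-β)) (hγ : Cfsg.IsIrrCharacter X γ ∨ Cfsg.IsIrrCharacter X (-γ)) (hδ : Cfsg.IsIrrCharacter X δ ∨ Cfsg.IsIrrCharacter X (-δ)) (u v : ℝ) (hu : u ≠ 0) (hv : v ≠ 0) (hab : Cfsg.classInner α β = 0) (hcd : Cfsg.classInner γ δ = 0) (hmix : Cfsg.classInner (α - β) ((u : ℂ) • γ - (v : ℂ) • δ) = 0) (h1 : α 1 = β 1) (h2 : (u :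 ℂ) * γ 1 = (v : ℂ) * δ 1) : Cfsg.classInner α γ = 0 ∧ Cfsg.classInner α δ = 0 ∧ Cfsg.classInner β γ = 0 ∧ Cfsg.classInner β δ = 0 := by
  classical
  obtain ⟨εa, A, hεa, rfl⟩ := sign_irr α hα
  obtain ⟨εb, B, hεb, rfl⟩ := sign_irr β hβ
  obtain ⟨εc, C, hεc, rfl⟩ := sign_irr γ hγ
  obtain ⟨εd, D, hεd, rfl⟩ := sign_irr δ hδ
  have sa : εa * εa = 1 := by rcases hεa with rfl | rfl <;> norm_num
  have sb : εb * εb = 1 := by rcases hεb with rfl | rfl <;> norm_num
  have na : εa ≠ 0 := by rcases hεa with rfl | rfl <;> norm_num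
  have nb : εb ≠ 0 := by rcases hεb with rfl | rfl <;> norm_num
  have nc : εc ≠ 0 := by rcases hεc with rfl | rfl <;> norm_num
  have nd : εd ≠ 0 := by rcases hεd with rfl | rfl <;> norm_num
  have nu : (u : ℂ) ≠ 0 := Complex.ofReal_ne_zero.mpr hu
  have nv : (v : ℂ) ≠ 0 := Complex.ofReal_ne_zero.mpr hv
  have hA1 : (A : X → ℂ) 1 ≠ 0 := IsIrrCharacter.apply_one_ne_zero A.2
  have hB1 : (B : X → ℂ) 1 ≠ 0 := IsIrrCharacter.apply_one_ne_zero B.2
  rw [inner_sign _ _ hεb] at hab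
  rw [inner_sign _ _ hεd] at hcd
  have hAB : A ≠ B := by
    intro h
    rw [if_pos h, mul_one] at hab
    exact mul_ne_zero na nb hab
  have hCD : C ≠ D := by
    intro h
    rw [if_pos h, mul_one] at hcd
    exact mul_ne_zero nc nd hcd
  rw [inner_expand, inner_sign _ _ hεc, inner_sign _ _ hεd, inner_sign _ _ hεc,
    inner_sign _ _ hεd] at hmix
  simp only [Pi.smul_apply, smul_eq_mul] at h1 h2
  have hk : ∀ (P Q : Cfsg.IrrCharacter X), εa * (P : X → ℂ) 1 = εb * (Q : X → ℂ) 1 →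
      εa * (Q : X → ℂ) 1 = εb * (P : X → ℂ) 1 := by
    intro P Q h
    linear_combination (-(εa * εb)) * h + (εb * (P : X → ℂ) 1) * sa - (εa * (Q : X → ℂ) 1) * sb
  have hAC : A ≠ C := by
    intro hAC
    have hAD : A ≠ D := fun h => hCD (hAC.symm.trans h)
    have hBC : B ≠ C := fun h => hAB (hAC.trans h.symm)
    rw [if_pos hAC, if_neg hAD, if_neg hBC] at hmix
    by_cases hBD : B = D
    · rw [if_pos hBD] at hmix
      subst hAC; subst hBD
      have hk' := hk A B h1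
      have h3 : 2 * (u : ℂ) * εa * εc * (A : X → ℂ) 1 = 0 := by
        linear_combination (A : X → ℂ) 1 * hmix + εa * h2 + ((v : ℂ) * εd) * hk'
      have h4 : 2 * (u : ℂ) * εa * εc * (A : X → ℂ) 1 ≠ 0 :=
        mul_ne_zero (mul_ne_zero (mul_ne_zero (mul_ne_zero two_ne_zero nu) na) nc) hA1
      exact h4 h3
    · rw [if_neg hBD] at hmix
      have h3 : (u : ℂ) * εa * εc = 0 := by linear_combination hmix
      exact mul_ne_zero (mul_ne_zero nu na) nc h3
  have hAD : A ≠ D := by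
    intro hAD
    have hBD : B ≠ D := fun h => hAB (hAD.trans h.symm)
    rw [if_neg hAC, if_pos hAD, if_neg hBD] at hmix
    by_cases hBC : B = C
    · rw [if_pos hBC] at hmix
      subst hAD; subst hBC
      have hk' := hk A B h1
      have h3 : 2 * (v : ℂ) * εa * εd * (A : X → ℂ) 1 = 0 := by
        linear_combination (-(A : X → ℂ) 1) * hmix - εa * h2 + ((u : ℂ) * εc) * hk'
      have h4 : 2 * (v : ℂ) * εa * εd * (A : X → ℂ) 1 ≠ 0 :=
        mul_ne_zero (mul_ne_zero (mul_ne_zero (mul_ne_zero two_ne_zero nv) na) nd) hA1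
      exact h4 h3
    · rw [if_neg hBC] at hmix
      have h3 : (v : ℂ) * εa * εd = 0 := by linear_combination -hmix
      exact mul_ne_zero (mul_ne_zero nv na) nd h3
  rw [if_neg hAC, if_neg hAD] at hmix
  have hBC : B ≠ C := by
    intro hBC
    have hBD : B ≠ D := fun h => hCD (hBC.symm.trans h)
    rw [if_pos hBC, if_neg hBD] at hmix
    have h3 : (u : ℂ) * εb * εc = 0 := by linear_combination -hmix
    exact mul_ne_zero (mul_ne_zero nu nb) nc h3
  have hBD : B ≠ D := by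
    intro hBD
    rw [if_neg hBC, if_pos hBD] at hmix
    have h3 : (v : ℂ) * εb * εd = 0 := by linear_combination hmix
    exact mul_ne_zero (mul_ne_zero nv nb) nd h3
  refine ⟨?_, ?_, ?_, ?_⟩
  · rw [inner_sign _ _ hεc, if_neg hAC, mul_zero]
  · rw [inner_sign _ _ hεd, if_neg hAD, mul_zero]
  · rw [inner_sign _ _ hεc, if_neg hBC, mul_zero]
  · rw [inner_sign _ _ hεd, if_neg hBD, mul_zero]

end Cfsg.Agent.S1509
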