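import Cfsg.Statements.S1510
import Mathlib

set_option autoImplicit false
open Cfsg

namespace Cfsg.Agent.S1510

theorem zpowers_comm {L : Type*} [Group L] (c x y : L) (hx : x ∈ Subgroup.zpowers c)
    (hy : y ∈ Subgroup.zpowers c) : x * y = y * x := by
  obtain ⟨i, rfl⟩ := Subgroup.mem_zpowers_iff.mp hx
  obtain ⟨j, rfl⟩ := Subgroup.mem_zpowers_iff.mp hy
  exact ((Commute.refl c).zpow_zpow i j).eq

/-- Let L be a finite group with a normal subgroup K and a nontrivial cyclic subgroup W₁ of order coprime to its index, K ⊓ W₁ = ⊥ and K ⊔ W₁ = ⊤; let W₂ ≠ ⊥ be a cyclic subgroup of K with K ⊓ C_L(x) = W₂ for every non-identity x ∈ W₁, and suppose W₁ ⊔ W₂ has odd order. Then (W₁, W₂) is a self-normalising cyclic pair in L. -/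
theorem result {L : Type*} [Group L] [Fintype L] (K W₁ W₂ : Subgroup L) [hK : K.Normal] (hKW₁ : K ⊓ W₁ = ⊥) (hKW₁' : K ⊔ W₁ = ⊤) (hW₁ : W₁ ≠ ⊥) (hW₁c : IsCyclic W₁) (hHall : Nat.Coprime (Nat.card W₁) W₁.index) (hW₂ : W₂ ≠ ⊥) (hW₂c : IsCyclic W₂) (hW₂K : W₂ ≤ K) (hC : ∀ x ∈ W₁, x ≠ 1 → K ⊓ Subgroup.centralizer ({x} : Set L) = W₂) (hodd : Odd (Nat.card ↥(W₁ ⊔ W₂))) : Cfsg.IsSelfNormalizingCyclic W₁ W₂ := by
  have hdisj : W₁ ⊓ W₂ = ⊥ := by
    rw [eq_bot_iff, ← hKW₁, inf_comm]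
    exact inf_le_inf_right _ hW₂K
  have hcomm : ∀ a ∈ W₁, ∀ b ∈ W₂, a * b = b * a := by
    intro a ha b hb
    by_cases ha1 : a = 1
    · subst ha1; simp
    · have hb' : b ∈ K ⊓ Subgroup.centralizer ({a} : Set L) := by rw [hC a ha ha1]; exact hb
      have h2 : b ∈ Subgroup.centralizer ({a} : Set L) := hb'.2
      rw [Subgroup.mem_centralizer_singleton_iff] at h2
      exact h2.symm
  obtain ⟨g₁, hg₁⟩ := (Subgroup.isCyclic_iff_exists_zpowers_eq_top W₁).mp hW₁c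
  obtain ⟨g₂, hg₂⟩ := (Subgroup.isCyclic_iff_exists_zpowers_eq_top W₂).mp hW₂c
  have hg₁W : g₁ ∈ W₁ := hg₁ ▸ Subgroup.mem_zpowers g₁
  have hg₂W : g₂ ∈ W₂ := hg₂ ▸ Subgroup.mem_zpowers g₂
  have hcompl : Subgroup.IsComplement' K W₁ := by
    apply Subgroup.isComplement'_of_disjoint_and_mul_eq_univ (disjoint_iff.mpr hKW₁)
    rw [← Subgroup.normal_mul, hKW₁']; rfl
  have hidx : W₁.index = Nat.card K := hcompl.index_eq_card
  have hcop : Nat.Coprime (Nat.card W₁) (Nat.card W₂) := by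
    rw [hidx] at hHall
    exact hHall.coprime_dvd_right (Subgroup.card_dvd_of_le hW₂K)
  have ho₁ : orderOf g₁ = Nat.card W₁ := by rw [← Nat.card_zpowers, hg₁]
  have ho₂ : orderOf g₂ = Nat.card W₂ := by rw [← Nat.card_zpowers, hg₂]
  have hc12 : Commute g₁ g₂ := hcomm g₁ hg₁W g₂ hg₂W
  have hWeq : W₁ ⊔ W₂ = Subgroup.zpowers (g₁ * g₂) := by
    apply le_antisymm
    · apply sup_le
      · rw [← hg₁, Subgroup.zpowers_le]
        obtain ⟨m, hm⟩ := exists_pow_eq_self_of_coprime (x := g₁) (n := orderOf g₂)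
          (by rw [ho₁, ho₂]; exact hcop.symm)
        have e : (g₁ * g₂) ^ orderOf g₂ = g₁ ^ orderOf g₂ := by
          rw [hc12.mul_pow, pow_orderOf_eq_one, mul_one]
        have hmem : ((g₁ * g₂) ^ orderOf g₂) ^ m ∈ Subgroup.zpowers (g₁ * g₂) :=
          Subgroup.pow_mem _ (Subgroup.pow_mem _ (Subgroup.mem_zpowers _) _) _
        rw [e, hm] at hmem
        exact hmem
      · rw [← hg₂, Subgroup.zpowers_le]
        obtain ⟨m, hm⟩ := exists_pow_eq_self_of_coprime (x := g₂) (n := orderOf g₁)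
          (by rw [ho₁, ho₂]; exact hcop)
        have e : (g₁ * g₂) ^ orderOf g₁ = g₂ ^ orderOf g₁ := by
          rw [hc12.mul_pow, pow_orderOf_eq_one, one_mul]
        have hmem : ((g₁ * g₂) ^ orderOf g₁) ^ m ∈ Subgroup.zpowers (g₁ * g₂) :=
          Subgroup.pow_mem _ (Subgroup.pow_mem _ (Subgroup.mem_zpowers _) _) _
        rw [e, hm] at hmem
        exact hmem
    · rw [Subgroup.zpowers_le]
      exact Subgroup.mul_mem _ (Subgroup.mem_sup_left hg₁W) (Subgroup.mem_sup_right hg₂W)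
  have hcyc : IsCyclic ↥(W₁ ⊔ W₂) := by rw [hWeq]; infer_instance
  have hWcomm : ∀ x ∈ W₁ ⊔ W₂, ∀ y ∈ W₁ ⊔ W₂, x * y = y * x := by
    intro x hx y hy
    rw [hWeq] at hx hy
    exact zpowers_comm _ x y hx hy
  have hW₁comm : ∀ x ∈ W₁, ∀ y ∈ W₁, x * y = y * x := by
    intro x hx y hy
    rw [← hg₁] at hx hy
    exact zpowers_comm _ x y hx hy
  obtain ⟨e, he1, he0⟩ := Nat.chineseRemainder hcop 1 0
  have hpow₁ : ∀ x ∈ W₁, x ^ e = x := by
    intro x hx
    have h1 : x ^ e = x ^ 1 := by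
      rw [pow_eq_pow_iff_modEq]
      exact he1.of_dvd (Subgroup.orderOf_dvd_natCard W₁ hx)
    simpa using h1
  have hpow₂ : ∀ y ∈ W₂, y ^ e = 1 := by
    intro y hy
    apply orderOf_dvd_iff_pow_eq_one.mp
    exact (Subgroup.orderOf_dvd_natCard W₂ hy).trans ((Nat.modEq_zero_iff_dvd).mp he0)
  have hdecomp : ∀ w ∈ W₁ ⊔ W₂, ∃ a ∈ W₁, ∃ b ∈ W₂, w = a * b := by
    intro w hw
    rw [hWeq] at hw
    obtain ⟨n, rfl⟩ := Subgroup.mem_zpowers_iff.mp hw
    exact ⟨g₁ ^ n, Subgroup.zpow_mem _ hg₁W n, g₂ ^ n, Subgroup.zpow_mem _ hg₂W n, hc12.mul_zpow n⟩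
  refine ⟨hW₁, hW₂, hdisj, hcomm, hcyc, ?_⟩
  intro X hX hXne
  apply le_antisymm
  · intro g hg
    rw [Subgroup.mem_set_normalizer_iff] at hg
    obtain ⟨w, hwX⟩ := hXne
    have hw := hX hwX
    have hw' := hX ((hg w).mp hwX)
    obtain ⟨a, haW, b, hbW, rfl⟩ := hdecomp w hw.1
    obtain ⟨a', haW', b', hbW', hab'⟩ := hdecomp _ hw'.1
    have ha1 : a ≠ 1 := by
      rintro rfl
      apply hw.2
      right
      simpa using hbW
    have hwe : (a * b) ^ e = a := by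
      rw [(show Commute a b from hcomm a haW b hbW).mul_pow, hpow₁ a haW, hpow₂ b hbW, mul_one]
    have hwe' : (g * (a * b) * g⁻¹) ^ e = a' := by
      rw [hab', (show Commute a' b' from hcomm a' haW' b' hbW').mul_pow, hpow₁ a' haW',
        hpow₂ b' hbW', mul_one]
    rw [conj_pow, hwe] at hwe'
    have hgL : g ∈ ((K ⊔ W₁ : Subgroup L) : Set L) := by rw [hKW₁']; trivial
    rw [Subgroup.normal_mul] at hgL
    obtain ⟨k, hk, u, hu, rfl⟩ := Set.mem_mul.mp hgL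
    have hka : k * a * k⁻¹ = a' := by
      have hu' : u * a * u⁻¹ = a := by
        rw [hW₁comm u hu a haW]; group
      calc k * a * k⁻¹ = k * (u * a * u⁻¹) * k⁻¹ := by rw [hu']
        _ = k * u * a * (k * u)⁻¹ := by group
        _ = a' := hwe'
    have ht : k * a * k⁻¹ * a⁻¹ ∈ K ⊓ W₁ := by
      constructor
      · have h1 : a * k⁻¹ * a⁻¹ ∈ K := hK.conj_mem _ (K.inv_mem hk) a
        have h2 := K.mul_mem hk h1
        have e2 : k * (a * k⁻¹ * a⁻¹) = k * a * k⁻¹ * a⁻¹ := by group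
        rwa [e2] at h2
      · rw [hka]; exact W₁.mul_mem haW' (W₁.inv_mem haW)
    rw [hKW₁, Subgroup.mem_bot] at ht
    have hkc : k * a = a * k := by
      have : k * a = (k * a * k⁻¹ * a⁻¹) * (a * k) := by group
      rw [this, ht, one_mul]
    have hkW₂ : k ∈ W₂ := by
      rw [← hC a haW ha1]
      exact ⟨hk, Subgroup.mem_centralizer_singleton_iff.mpr hkc⟩
    exact Subgroup.mul_mem _ (Subgroup.mem_sup_right hkW₂) (Subgroup.mem_sup_left hu)
  · intro g hg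
    rw [Subgroup.mem_set_normalizer_iff]
    intro h
    constructor
    · intro hh
      have : g * h * g⁻¹ = h := by
        rw [hWcomm g hg h (hX hh).1]; group
      rw [this]; exact hh
    · intro hh
      have hhW : h ∈ W₁ ⊔ W₂ := by
        have := Subgroup.mul_mem _ (Subgroup.mul_mem _ (Subgroup.inv_mem _ hg) (hX hh).1) hg
        have e : g⁻¹ * (g * h * g⁻¹) * g = h := by group
        rwa [e] at this
      have : g * h * g⁻¹ = h := by
        rw [hWcomm g hg h hhW]; group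
      rw [this] at hh; exact hh

end Cfsg.Agent.S1510
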