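import Cfsg.Statements.S1512
import Cfsg.Agent.S1496
import Mathlib

set_option autoImplicit false
open Cfsg

namespace Cfsg.Agent.S1512

theorem exists_rep {L : Type*} [Group L] [Finite L] (K W₂ : Subgroup L) [hK : K.Normal] (x : L)
    (hx1 : x ≠ 1) (hx : Nat.Coprime (orderOf x) (Nat.card K))
    (hC : ∀ y ∈ Subgroup.zpowers x, y ≠ 1 → K ⊓ Subgroup.centralizer ({y} : Set L) = W₂)
    (C : ConjClasses K)
    (hCx : ConjClasses.map (MulEquiv.toMonoidHom ((MulAut.conjNormal x : MulAut K))) C = C) :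
    ∃ w : W₂, ∃ hw : (w : L) ∈ K, ConjClasses.mk (⟨w, hw⟩ : K) = C := by
  classical
  obtain ⟨k, rfl⟩ := ConjClasses.mk_surjective C
  have hmap : ConjClasses.map (MulEquiv.toMonoidHom ((MulAut.conjNormal x : MulAut K)))
      (ConjClasses.mk k) = ConjClasses.mk ((MulAut.conjNormal x : MulAut K) k) := rfl
  rw [hmap, ConjClasses.mk_eq_mk_iff_isConj, isConj_iff] at hCx
  obtain ⟨u, hu⟩ := hCx
  have hu' : (u : L) * (x * (k : L) * x⁻¹) * (u : L)⁻¹ = (k : L) := by
    have := congrArg (fun t : K => (t : L)) hu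
    simpa [MulAut.conjNormal_apply] using this
  have hxN : x ∈ Subgroup.normalizer (K : Set L) := by
    rw [Subgroup.normalizer_eq_top]; exact Subgroup.mem_top x
  obtain ⟨t, ht, c, hc, hcx, htc⟩ := Cfsg.Agent.S1496.result K x hxN hx (u : L) u.2
  -- c * x centralizes t k t⁻¹
  have hcen : (c * x) * (t * (k : L) * t⁻¹) = (t * (k : L) * t⁻¹) * (c * x) := by
    rw [← htc]
    have e1 : t * ((u : L) * x) * t⁻¹ * (t * (k : L) * t⁻¹) =
        t * ((u : L) * (x * (k : L) * x⁻¹) * (u : L)⁻¹) * ((u : L) * x) * t⁻¹ := by group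
    rw [e1, hu']
    group
  obtain ⟨j, hj1, hj0⟩ : ∃ j : ℕ, j ≡ 1 [MOD orderOf x] ∧ j ≡ 0 [MOD Nat.card K] :=
    ⟨(Nat.chineseRemainder hx 1 0 : ℕ), (Nat.chineseRemainder hx 1 0).2.1,
      (Nat.chineseRemainder hx 1 0).2.2⟩
  have hxj : x ^ j = x := by
    have := pow_eq_pow_iff_modEq.mpr hj1
    rw [this, pow_one]
  have hcj : c ^ j = 1 := by
    obtain ⟨s, hs⟩ := (Nat.modEq_zero_iff_dvd.mp hj0)
    have h2 : (⟨c, hc⟩ : K) ^ Nat.card K = 1 := pow_card_eq_one'
    have h3 : c ^ Nat.card K = 1 := congrArg (fun k : K => (k : L)) h2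
    rw [hs, pow_mul, h3, one_pow]
  have hpow : (c * x) ^ j = x := by
    have hcomm : Commute c x := hcx
    rw [hcomm.mul_pow, hcj, hxj, one_mul]
  have hcen2 : Commute (c * x) (t * (k : L) * t⁻¹) := hcen
  have hcen3 : Commute x (t * (k : L) * t⁻¹) := by
    have := hcen2.pow_left j
    rwa [hpow] at this
  have htk : t * (k : L) * t⁻¹ ∈ K := K.mul_mem (K.mul_mem ht k.2) (K.inv_mem ht)
  have hmem : t * (k : L) * t⁻¹ ∈ K ⊓ Subgroup.centralizer ({x} : Set L) := by
    refine Subgroup.mem_inf.mpr ⟨htk, ?_⟩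
    rw [Subgroup.mem_centralizer_singleton_iff]
    exact hcen3.eq.symm
  rw [hC x (Subgroup.mem_zpowers x) hx1] at hmem
  refine ⟨⟨t * (k : L) * t⁻¹, hmem⟩, htk, ?_⟩
  rw [ConjClasses.mk_eq_mk_iff_isConj, isConj_comm, isConj_iff]
  exact ⟨⟨t, ht⟩, rfl⟩

/-- Let K be a normal subgroup of the finite group L and x a non-identity element whose order is coprime to the order of K, such that K ⊓ C_L(y) = W₂ for every non-identity element y of the cyclic group generated by x. Then the number of conjugacy classes of K mapped to themselves by conjugation by x is at most Nat.card W₂. -/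
theorem result {L : Type*} [Group L] [Finite L] (K W₂ : Subgroup L) [hK : K.Normal] (x : L) (hx1 : x ≠ 1) (hx : Nat.Coprime (orderOf x) (Nat.card K)) (hC : ∀ y ∈ Subgroup.zpowers x, y ≠ 1 → K ⊓ Subgroup.centralizer ({y} : Set L) = W₂) : Nat.card {C : ConjClasses K // ConjClasses.map (MulEquiv.toMonoidHom ((MulAut.conjNormal x : MulAut K))) C = C} ≤ Nat.card W₂ := by
  classical
  have hex := fun C : {C : ConjClasses K // ConjClasses.map (MulEquiv.toMonoidHom ((MulAut.conjNormal x : MulAut K))) C = C} =>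
    exists_rep K W₂ x hx1 hx hC C.1 C.2
  choose F hF1 hF2 using hex
  apply Nat.card_le_card_of_injective F
  intro C C' hCC'
  apply Subtype.ext
  rw [← hF2 C, ← hF2 C']
  congr 1
  apply Subtype.ext
  exact congrArg (fun w : W₂ => (w : L)) hCC'

end Cfsg.Agent.S1512
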