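import Cfsg.Statements.S1513
import Cfsg.Agent.S1496
import Cfsg.Agent.S0886
import Cfsg.Agent.Lib.Helper81.GlaubCount
import Cfsg.Agent.Lib.Helper78.CliffordCorr
import Cfsg.Agent.Lib.Helper25.CliffordCorr
import Cfsg.Agent.Lib.Helper25.CliffordCorr2
import Cfsg.Agent.Lib.CT.LinChar
import Cfsg.Agent.Lib.Helper26.GenChar
import Mathlib

set_option autoImplicit false
open Cfsg

namespace Cfsg.Agent.S1513

open scoped ComplexConjugate
open Cfsg.Agent.Lib.Helper81.GlaubCount Cfsg.Agent.Lib.Helper81.BrauerPerm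
open Cfsg.Agent.Lib.Helper78.CliffordCorr Cfsg.Agent.Lib.Helper3.Irr

/-- the number of elements of `K` centralising `g * k` is `|W₂|` -/
theorem centCount_eq {L : Type*} [Group L] [Finite L] (K W₂ : Subgroup L) [hK : K.Normal] (g : L)
    (hcop : Nat.Coprime (orderOf g) (Nat.card K))
    (hC : K ⊓ Subgroup.centralizer ({g} : Set L) = W₂)
    (hW₂comm : ∀ a ∈ W₂, ∀ b ∈ W₂, a * b = b * a) (k : L) (hk : k ∈ K) :
    centCount K (g * k) = (Nat.card W₂ : ℂ) := by
  have hh : g * k * g⁻¹ ∈ K := hK.conj_mem k hk g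
  obtain ⟨x, hx, c, hc, hcg, hconj⟩ := Cfsg.Agent.S1496.normal_case K g hcop (g * k * g⁻¹) hh
  have e1 : g * k * g⁻¹ * g = g * k := by group
  rw [e1] at hconj
  rw [← centCount_conj K (g * k) x, hconj]
  have hcW : c ∈ W₂ := by
    rw [← hC]
    exact Subgroup.mem_inf.mpr ⟨hc, Subgroup.mem_centralizer_singleton_iff.mpr hcg⟩
  have hW₂K : W₂ ≤ K := by rw [← hC]; exact inf_le_left
  have hW₂g : ∀ w ∈ W₂, w * g = g * w := by
    intro w hw
    rw [← hC] at hw
    exact Subgroup.mem_centralizer_singleton_iff.mp hw.2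
  obtain ⟨e, he1, he0⟩ := Nat.chineseRemainder hcop 1 0
  have hpow : (c * g) ^ e = g := by
    have hcomm : Commute c g := hcg
    rw [hcomm.mul_pow]
    have h1 : c ^ e = 1 := by
      have : orderOf c ∣ e :=
        (Subgroup.orderOf_dvd_natCard K hc).trans ((Nat.modEq_zero_iff_dvd).mp he0)
      exact orderOf_dvd_iff_pow_eq_one.mp this
    have h2 : g ^ e = g := by
      have : g ^ e = g ^ 1 := by
        rw [pow_eq_pow_iff_modEq]; exact he1
      simpa using this
    rw [h1, h2, one_mul]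
  unfold centCount
  congr 1
  apply Nat.card_congr
  exact
    { toFun := fun y => ⟨(y.1 : L), by
        rw [← hC]
        refine Subgroup.mem_inf.mpr ⟨y.1.2, ?_⟩
        rw [Subgroup.mem_centralizer_singleton_iff]
        have hy : Commute (y.1 : L) (c * g) := y.2.symm
        have := hy.pow_right e
        rw [hpow] at this
        exact this.eq⟩
      invFun := fun w => ⟨⟨(w : L), hW₂K w.2⟩, by
        show c * g * (w : L) = (w : L) * (c * g)
        have h1 := hW₂comm c hcW w w.2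
        have h2 := hW₂g w w.2
        calc c * g * (w : L) = c * (g * w) := by group
          _ = c * (w * g) := by rw [h2]
          _ = (c * w) * g := by group
          _ = (w * c) * g := by rw [h1]
          _ = w * (c * g) := by group⟩
      left_inv := fun y => rfl
      right_inv := fun w => rfl }

/-- the number of irreducible characters of `K` fixed by `x` is `|W₂|` -/
theorem card_fixed {L : Type*} [Group L] [Fintype L] (K W₂ : Subgroup L) [hK : K.Normal] (x : L)
    (hcop : Nat.Coprime (orderOf x) (Nat.card K))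
    (hC : K ⊓ Subgroup.centralizer ({x⁻¹} : Set L) = W₂)
    (hW₂comm : ∀ a ∈ W₂, ∀ b ∈ W₂, a * b = b * a) :
    Nat.card {θ : IrrCharacter K // (fun k : K => (θ : K → ℂ)
      ⟨x * k * x⁻¹, hK.conj_mem (k : L) k.2 x⟩) = θ} = Nat.card W₂ := by
  classical
  have hfin := finite_irrCharacter (G := ↥K)
  haveI : Fintype (IrrCharacter ↥K) := Fintype.ofFinite _
  let β : ↥K → ↥K := fun k => ⟨x * k * x⁻¹, hK.conj_mem (k : L) k.2 x⟩
  have hβ : ∀ χ : IrrCharacter ↥K, IsIrrCharacter ↥K (fun y => χ.1 (β y)) := fun χ =>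
    Cfsg.Agent.Lib.Helper81.Irr.isIrrCharacter_comp χ.2
      (MulAut.conjNormal x : ↥K ≃* ↥K).toMonoidHom (MulEquiv.surjective _)
  have hb := brauer_perm β hβ
  have hpair : (Nat.card {pr : ↥K × ↥K // pr.2 * pr.1 * pr.2⁻¹ = β pr.1} : ℂ) =
      ∑ k : ↥K, centCount K (x⁻¹ * k) := by
    rw [natCard_subtype_eq_sum, Fintype.sum_prod_type, Finset.sum_comm]
    apply Finset.sum_congr rfl
    intro k _
    unfold centCount
    rw [natCard_subtype_eq_sum]
    apply Finset.sum_congr rfl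
    intro y _
    have hiff : (k * y * k⁻¹ = β y) ↔
        (x⁻¹ * (k : L) * (y : L) = (y : L) * (x⁻¹ * (k : L))) := by
      constructor
      · intro h
        have h1 : (k : L) * (y : L) * (k : L)⁻¹ = x * (y : L) * x⁻¹ := congrArg Subtype.val h
        calc x⁻¹ * (k : L) * (y : L) = x⁻¹ * ((k : L) * (y : L) * (k : L)⁻¹) * (k : L) := by group
          _ = x⁻¹ * (x * (y : L) * x⁻¹) * (k : L) := by rw [h1]
          _ = (y : L) * (x⁻¹ * (k : L)) := by group
      · intro h
        apply Subtype.ext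
        show (k : L) * (y : L) * (k : L)⁻¹ = x * (y : L) * x⁻¹
        calc (k : L) * (y : L) * (k : L)⁻¹ = x * (x⁻¹ * (k : L) * (y : L)) * (k : L)⁻¹ := by group
          _ = x * ((y : L) * (x⁻¹ * (k : L))) * (k : L)⁻¹ := by rw [h]
          _ = x * (y : L) * x⁻¹ := by group
    by_cases h : k * y * k⁻¹ = β y
    · rw [if_pos h, if_pos (hiff.1 h)]
    · rw [if_neg h, if_neg (fun h' => h (hiff.2 h'))]
  have hcop' : Nat.Coprime (orderOf x⁻¹) (Nat.card K) := by rw [orderOf_inv]; exact hcop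
  have hsum : ∑ k : ↥K, centCount K (x⁻¹ * k) = (Nat.card K : ℂ) * (Nat.card W₂ : ℂ) := by
    rw [Finset.sum_congr rfl (fun (k : ↥K) _ => centCount_eq K W₂ x⁻¹ hcop' hC hW₂comm (k : L) k.2)]
    simp [Nat.card_eq_fintype_card]
  rw [hpair, hsum] at hb
  have hK0 : (Nat.card K : ℂ) ≠ 0 := by exact_mod_cast Nat.card_pos.ne'
  have h3 := mul_left_cancel₀ hK0 hb
  exact_mod_cast h3


/-- Let L be a finite group with K normal with complement W₁ ≠ 1 a cyclic Hall subgroup, and W₂ ≠ 1 a cyclic subgroup of K equal to C_K(x) for every non-identity x ∈ W₁, with W₁W₂ of odd order. For an irreducible character θ of K: if θ is not fixed under conjugation by some element of W₁, then the function induced from θ to L is an irreducible character of L; and the irreducible characters of K fixed by all of W₁ are exactly Nat.card W₂ in number, each inducing to the sum of Nat.card W₁ pairwise distinct irreducible characters of L. -/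
theorem result {L : Type*} [Group L] [Fintype L] (K W₁ W₂ : Subgroup L) [hK : K.Normal] (hKW₁ : K ⊓ W₁ = ⊥) (hKW₁' : K ⊔ W₁ = ⊤) (hW₁ : W₁ ≠ ⊥) (hW₁c : IsCyclic W₁) (hHall : Nat.Coprime (Nat.card W₁) W₁.index) (hW₂ : W₂ ≠ ⊥) (hW₂c : IsCyclic W₂) (hW₂K : W₂ ≤ K) (hC : ∀ x ∈ W₁, x ≠ 1 → K ⊓ Subgroup.centralizer ({x} : Set L) = W₂) (hodd : Odd (Nat.card ↥(W₁ ⊔ W₂))) : (∀ θ : K → ℂ, Cfsg.IsIrrCharacter K θ → (∃ x ∈ W₁, (fun k : K => θ ⟨x * k * x⁻¹, hK.conj_mem (k : L) k.2 x⟩) ≠ θ) → Cfsg.IsIrrCharacter L (Cfsg.indFun K θ)) ∧ Nat.card {θ : Cfsg.IrrCharacter K // ∀ x ∈ W₁, (fun k : K => (θ : K → ℂ) ⟨x * k * x⁻¹, hK.conj_mem (k : L) k.2 x⟩) = θ} = Nat.card W₂ ∧ (∀ θ : K → ℂ, Cfsg.IsIrrCharacter K θ → (∀ x ∈ W₁, (fun k : K => θ ⟨x * k * x⁻¹, hK.conj_mem (k : L) k.2 x⟩) = θ) → ∃ C : Finset (L → ℂ), C.card = Nat.card W₁ ∧ (∀ μ ∈ C, Cfsg.IsIrrCharacter L μ) ∧ Cfsg.indFun K θ = ∑ μ ∈ C, μ) := by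
  classical
  have hcompl : Subgroup.IsComplement' K W₁ := by
    apply Subgroup.isComplement'_of_disjoint_and_mul_eq_univ (disjoint_iff.mpr hKW₁)
    rw [← Subgroup.normal_mul, hKW₁']; rfl
  have hidx : W₁.index = Nat.card K := hcompl.index_eq_card
  have hidxK : K.index = Nat.card W₁ := hcompl.symm.index_eq_card
  have hcopx : ∀ x ∈ W₁, Nat.Coprime (orderOf x) (Nat.card K) := by
    intro x hx
    rw [← hidx]
    exact hHall.coprime_dvd_left (Subgroup.orderOf_dvd_natCard W₁ hx)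
  have hW₂comm : ∀ a ∈ W₂, ∀ b ∈ W₂, a * b = b * a := by
    obtain ⟨g₂, hg₂⟩ := (Subgroup.isCyclic_iff_exists_zpowers_eq_top W₂).mp hW₂c
    intro a ha b hb
    rw [← hg₂] at ha hb
    obtain ⟨i, rfl⟩ := Subgroup.mem_zpowers_iff.mp ha
    obtain ⟨j, rfl⟩ := Subgroup.mem_zpowers_iff.mp hb
    exact ((Commute.refl g₂).zpow_zpow i j).eq
  obtain ⟨g₁, hg₁⟩ := (Subgroup.isCyclic_iff_exists_zpowers_eq_top W₁).mp hW₁c
  have hg₁W : g₁ ∈ W₁ := hg₁ ▸ Subgroup.mem_zpowers g₁
  have hg₁1 : g₁ ≠ 1 := by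
    rintro rfl
    apply hW₁
    rw [← hg₁]
    simp
  have hdecomp : ∀ g : L, ∃ k ∈ K, ∃ w ∈ W₁, k * w = g := by
    intro g
    have hgtop : g ∈ K ⊔ W₁ := by rw [hKW₁']; exact Subgroup.mem_top g
    rw [← SetLike.mem_coe, Subgroup.normal_mul, Set.mem_mul] at hgtop
    exact hgtop
  have hfinI := finite_irrCharacter (G := ↥K)
  have hcount : ∀ x ∈ W₁, x ≠ 1 → Nat.card {θ : IrrCharacter K // (fun k : K => (θ : K → ℂ)
      ⟨x * k * x⁻¹, hK.conj_mem (k : L) k.2 x⟩) = θ} = Nat.card W₂ := by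
    intro x hx hx1
    exact card_fixed K W₂ x (hcopx x hx) (hC x⁻¹ (W₁.inv_mem hx) (by simpa using hx1)) hW₂comm
  have hgen : ∀ θ : K → ℂ,
      (fun k : K => θ ⟨g₁ * k * g₁⁻¹, hK.conj_mem (k : L) k.2 g₁⟩) = θ →
      ∀ x ∈ W₁, (fun k : K => θ ⟨x * k * x⁻¹, hK.conj_mem (k : L) k.2 x⟩) = θ := by
    intro θ h x hx
    have h1 : g₁ ∈ inertia K hK θ := (mem_inertia K hK θ g₁).mpr (fun n => congrFun h n)
    have h2 : x ∈ inertia K hK θ := by
      have hle : Subgroup.zpowers g₁ ≤ inertia K hK θ := (Subgroup.zpowers_le).mpr h1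
      rw [hg₁] at hle
      exact hle hx
    funext n
    exact (mem_inertia K hK θ x).mp h2 n
  have hfix : ∀ θ : IrrCharacter K, ∀ x ∈ W₁, x ≠ 1 →
      (fun k : K => (θ : K → ℂ) ⟨x * k * x⁻¹, hK.conj_mem (k : L) k.2 x⟩) = θ →
      (fun k : K => (θ : K → ℂ) ⟨g₁ * k * g₁⁻¹, hK.conj_mem (k : L) k.2 g₁⟩) = θ := by
    intro θ x hx hx1 hθx
    let incl : {θ : IrrCharacter K // (fun k : K => (θ : K → ℂ)
        ⟨g₁ * k * g₁⁻¹, hK.conj_mem (k : L) k.2 g₁⟩) = θ} →
        {θ : IrrCharacter K // (fun k : K => (θ : K → ℂ)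
        ⟨x * k * x⁻¹, hK.conj_mem (k : L) k.2 x⟩) = θ} := fun θ' => ⟨θ'.1, hgen _ θ'.2 x hx⟩
    have hinj : Function.Injective incl := by
      intro a b hab
      apply Subtype.ext
      have h := congrArg Subtype.val hab
      exact h
    have hcard : Nat.card {θ : IrrCharacter K // (fun k : K => (θ : K → ℂ)
        ⟨g₁ * k * g₁⁻¹, hK.conj_mem (k : L) k.2 g₁⟩) = θ} =
        Nat.card {θ : IrrCharacter K // (fun k : K => (θ : K → ℂ)
        ⟨x * k * x⁻¹, hK.conj_mem (k : L) k.2 x⟩) = θ} := by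
      rw [hcount g₁ hg₁W hg₁1, hcount x hx hx1]
    have hbij : Function.Bijective incl :=
      (Nat.bijective_iff_injective_and_card incl).mpr ⟨hinj, hcard⟩
    obtain ⟨θ', hθ'⟩ := hbij.2 ⟨θ, hθx⟩
    have e : θ'.1 = θ := congrArg Subtype.val hθ'
    rw [← e]
    exact θ'.2
  refine ⟨?_, ?_, ?_⟩
  · -- part 1
    rintro θ hθ ⟨x, hx, hne⟩
    have hcf : IsClassFunction K θ := IsCharacter.isClassFunction (IsIrrCharacter.isCharacter hθ)
    have hT : ∀ g : L, g ∈ K ↔ ∀ h : K, θ ⟨g * h * g⁻¹, hK.conj_mem h h.2 g⟩ = θ h := by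
      intro g
      constructor
      · intro hg
        exact (mem_inertia K hK θ g).mp (le_inertia K hK hcf hg)
      · intro hg
        by_contra hgK
        obtain ⟨k, hk, w, hw, rfl⟩ := hdecomp g
        have hw1 : w ≠ 1 := by
          rintro rfl
          exact hgK (by simpa using hk)
        have hkw : k * w ∈ inertia K hK θ := (mem_inertia K hK θ _).mpr hg
        have hkI : k ∈ inertia K hK θ := le_inertia K hK hcf hk
        have hwI : w ∈ inertia K hK θ := by
          have := (inertia K hK θ).mul_mem ((inertia K hK θ).inv_mem hkI) hkw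
          simpa using this
        have hwfix : (fun n : K => θ ⟨w * n * w⁻¹, hK.conj_mem (n : L) n.2 w⟩) = θ :=
          funext ((mem_inertia K hK θ w).mp hwI)
        have hg₁fix := hfix ⟨θ, hθ⟩ w hw hw1 hwfix
        exact hne (hgen θ hg₁fix x hx)
    have h1 := (Cfsg.Agent.Lib.Helper25.CliffordCorr.ind_irr_inj K K le_rfl θ hθ hT).1 θ hθ
    apply h1
    have h2 : classInner θ θ = 1 := irr_inner_self (⟨θ, hθ⟩ : IrrCharacter K)
    show classInner θ θ ≠ 0
    rw [h2]
    exact one_ne_zero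
  · -- part 2
    rw [← hcount g₁ hg₁W hg₁1]
    apply Nat.card_congr
    apply Equiv.subtypeEquivRight
    intro θ
    exact ⟨fun h => h g₁ hg₁W, fun h => hgen _ h⟩
  · -- part 3
    intro θ hθ hfixall
    have hcf : IsClassFunction K θ := IsCharacter.isClassFunction (IsIrrCharacter.isCharacter hθ)
    have hinv : ∀ (g : L) (n : K), θ ⟨g * n * g⁻¹, hK.conj_mem (n : L) n.2 g⟩ = θ n := by
      intro g
      have hg : g ∈ inertia K hK θ := by
        have hle : K ⊔ W₁ ≤ inertia K hK θ := sup_le (le_inertia K hK hcf)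
          (fun w hw => (mem_inertia K hK θ w).mpr (fun n => congrFun (hfixall w hw) n))
        exact hle (by rw [hKW₁']; exact Subgroup.mem_top g)
      exact (mem_inertia K hK θ g).mp hg
    have hcyc : IsCyclic (L ⧸ K) := by
      let f : ↥W₁ →* L ⧸ K := (QuotientGroup.mk' K).comp W₁.subtype
      have hf : Function.Surjective f := by
        intro q
        obtain ⟨g, rfl⟩ := QuotientGroup.mk_surjective q
        obtain ⟨k, hk, w, hw, rfl⟩ := hdecomp g
        refine ⟨⟨w, hw⟩, ?_⟩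
        show ((w : L) : L ⧸ K) = ((k * w : L) : L ⧸ K)
        rw [QuotientGroup.eq]
        have e : w⁻¹ * (k * w) = w⁻¹ * k * w⁻¹⁻¹ := by group
        rw [e]
        exact hK.conj_mem k hk w⁻¹
      exact isCyclic_of_surjective f hf
    obtain ⟨χ, hχ, hχθ⟩ := Cfsg.Agent.S0886.result K hcyc θ hθ hinv
    letI : CommGroup (L ⧸ K) := IsCyclic.commGroup
    haveI : Finite ((L ⧸ K) →* ℂˣ) := Cfsg.Agent.Lib.Helper25.CliffordCorr2.finite_hom
    haveI : Fintype ((L ⧸ K) →* ℂˣ) := Fintype.ofFinite _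
    let μ : ((L ⧸ K) →* ℂˣ) → (L → ℂ) := fun f g => ((f (g : L ⧸ K) : ℂˣ) : ℂ) * χ g
    have hμirr : ∀ f, IsIrrCharacter L (μ f) := by
      intro f
      have h1 := Cfsg.Agent.Lib.CT.LinChar.isIrrCharacter_linear_mul
        (Cfsg.Agent.Lib.CT.LinChar.isCharacter_of_hom (f.comp (QuotientGroup.mk' K)))
        (by simp) hχ
      exact h1
    have hind : indFun K θ = ∑ f, μ f := by
      funext g
      rw [Finset.sum_apply]
      show _ = ∑ f : (L ⧸ K) →* ℂˣ, ((f (g : L ⧸ K) : ℂˣ) : ℂ) * χ g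
      rw [← Finset.sum_mul, Cfsg.Agent.Lib.Helper25.CliffordCorr2.sum_hom_apply]
      by_cases hg : g ∈ K
      · rw [if_pos ((QuotientGroup.eq_one_iff g).mpr hg)]
        have h1 := Cfsg.Agent.Lib.Helper78.Gallagher.indFun_apply_of_invariant K hK θ hinv ⟨g, hg⟩
        have h2 := hχθ ⟨g, hg⟩
        simp only at h1 h2
        rw [h1, h2, Subgroup.index_eq_card]
      · rw [if_neg (fun h => hg ((QuotientGroup.eq_one_iff g).mp h)), zero_mul]
        exact Cfsg.Agent.Lib.CT.FrobRec.indFun_eq_zero_of_normal K θ g hg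
    have hcardF : Fintype.card ((L ⧸ K) →* ℂˣ) = K.index := by
      haveI : NeZero (Monoid.exponent (L ⧸ K)) := ⟨Monoid.exponent_ne_zero_of_finite⟩
      haveI : NeZero ((Monoid.exponent (L ⧸ K) : ℕ) : ℂ) :=
        ⟨Nat.cast_ne_zero.mpr (NeZero.ne _)⟩
      rw [← Nat.card_eq_fintype_card, Subgroup.index_eq_card]
      exact CommGroup.card_monoidHom_of_hasEnoughRootsOfUnity (L ⧸ K) ℂ
    have hμinj : Function.Injective μ := by
      intro f₀ f₁ h01
      by_contra hne
      have hnorm : classInner (indFun K θ) (indFun K θ) = (K.index : ℂ) := by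
        rw [Cfsg.Agent.Lib.Helper78.Gallagher.classInner_indFun_self K hK θ hinv,
          irr_inner_self (⟨θ, hθ⟩ : IrrCharacter K), mul_one]
      rw [hind, classInner_sum_left] at hnorm
      have h2 : ∀ f, classInner (μ f) (∑ f', μ f') =
          ∑ f', (if μ f = μ f' then (1 : ℂ) else 0) := by
        intro f
        rw [Cfsg.Agent.Lib.Helper26.GenChar.classInner_sum_right]
        apply Finset.sum_congr rfl
        intro f' _
        have h3 : classInner (μ f) (μ f') = _ :=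
          irr_orthonormal (⟨μ f, hμirr f⟩ : IrrCharacter L) ⟨μ f', hμirr f'⟩
        rw [h3]
        by_cases h : μ f = μ f'
        · rw [if_pos h, if_pos (Subtype.ext h)]
        · rw [if_neg h, if_neg (fun h' => h (congrArg Subtype.val h'))]
      rw [Finset.sum_congr rfl (fun f _ => h2 f)] at hnorm
      have hnat : ∑ f : (L ⧸ K) →* ℂˣ, ∑ f' : (L ⧸ K) →* ℂˣ,
          (if μ f = μ f' then 1 else 0 : ℕ) = K.index := by
        have h4 : ((∑ f : (L ⧸ K) →* ℂˣ, ∑ f' : (L ⧸ K) →* ℂˣ,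
            (if μ f = μ f' then 1 else 0 : ℕ) : ℕ) : ℂ) = (K.index : ℂ) := by
          rw [← hnorm]
          push_cast
          rfl
        exact_mod_cast h4
      have hlt : ∑ f : (L ⧸ K) →* ℂˣ, 1 < ∑ f : (L ⧸ K) →* ℂˣ, ∑ f' : (L ⧸ K) →* ℂˣ,
          (if μ f = μ f' then 1 else 0 : ℕ) := by
        apply Finset.sum_lt_sum
        · intro f _
          have h5 : (if μ f = μ f then 1 else 0 : ℕ) ≤ ∑ f' : (L ⧸ K) →* ℂˣ,
              (if μ f = μ f' then 1 else 0 : ℕ) :=
            Finset.single_le_sum (f := fun f' => (if μ f = μ f' then 1 else 0 : ℕ))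
              (fun _ _ => Nat.zero_le _) (Finset.mem_univ f)
          rw [if_pos rfl] at h5
          exact h5
        · refine ⟨f₀, Finset.mem_univ _, ?_⟩
          have h6 : ∑ f' ∈ ({f₀, f₁} : Finset ((L ⧸ K) →* ℂˣ)),
              (if μ f₀ = μ f' then 1 else 0 : ℕ) ≤
              ∑ f' : (L ⧸ K) →* ℂˣ, (if μ f₀ = μ f' then 1 else 0 : ℕ) :=
            Finset.sum_le_sum_of_subset (Finset.subset_univ _)
          rw [Finset.sum_pair hne, if_pos rfl, if_pos h01] at h6
          omega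
      rw [hnat, Finset.sum_const, Finset.card_univ, hcardF] at hlt
      simp at hlt
    refine ⟨Finset.univ.image μ, ?_, ?_, ?_⟩
    · rw [Finset.card_image_of_injective _ hμinj, Finset.card_univ, hcardF, hidxK]
    · intro ν hν
      obtain ⟨f, _, rfl⟩ := Finset.mem_image.mp hν
      exact hμirr f
    · rw [Finset.sum_image (fun a _ b _ h => hμinj h)]
      exact hind

end Cfsg.Agent.S1513
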