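import Cfsg.Statements.S1515
import Cfsg.Agent.Lib.Helper26.GenChar
import Cfsg.Agent.Lib.CT.Clifford
import Cfsg.Agent.Lib.CT.Orth
import Mathlib

set_option autoImplicit false
open Cfsg

namespace Cfsg.Agent.S1515

open scoped ComplexConjugate
open Cfsg.Agent.Lib.Helper26.GenChar Cfsg.Agent.Lib.CT.Orth

/-- Let (S, τ, R) be a coherence system from L to G, χ ∈ S, and ψ an integer combination of S with ⟨χ, ψ⟩ = ⟨conj χ, ψ⟩ = 0. Let τ₁ be a linear isometry on the integer combinations of χ − ψ and χ − conj χ, with virtual-character values, agreeing with τ on integer multiples of χ − conj χ. Then the sum over α ∈ R χ of the squared absolute values of ⟨τ₁(χ − ψ), α⟩ is at least ⟨χ, χ⟩; and if ⟨τ₁(χ − ψ), τ₁(χ − ψ)⟩ minus that sum is at least ⟨ψ, ψ⟩, then the sum equals ⟨χ, χ⟩ and every ⟨τ₁(χ − ψ), α⟩ with α ∈ R χ is 0 or 1. -/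
theorem result {L : Type*} [Group L] [Fintype L] {G : Type*} [Group G] [Fintype G] (S : Set (L → ℂ)) (τ : (L → ℂ) → (G → ℂ)) (R : (L → ℂ) → Finset (G → ℂ)) (hS : Cfsg.IsCoherenceSystem S τ R) (χ : L → ℂ) (hχ : χ ∈ S) (ψ : L → ℂ) (hψ : ψ ∈ Cfsg.zspan S) (h1 : Cfsg.classInner χ ψ = 0) (h2 : Cfsg.classInner (Cfsg.conjFun χ) ψ = 0) (τ₁ : (L → ℂ) → (G → ℂ)) (hτ₁ : Cfsg.IsLinearIsometryOn (Cfsg.zspan {χ - ψ, χ - Cfsg.conjFun χ}) τ₁) (hagree : ∀ n : ℤ, τ₁ (n • (χ - Cfsg.conjFun χ)) = τ (n • (χ - Cfsg.conjFun χ))) : (Cfsg.classInner χ χ).re ≤ ∑ α ∈ R χ, ‖Cfsg.classInner (τ₁ (χ - ψ)) α‖ ^ 2 ∧ ((Cfsg.classInner ψ ψ).re ≤ (Cfsg.classInner (τ₁ (χ - ψ)) (τ₁ (χ - ψ))).re - ∑ α ∈ R χ, ‖Cfsg.classInner (τ₁ (χ - ψ)) α‖ ^ 2 → (∑ α ∈ R χ, ‖Cfsg.classInner (τ₁ (χ - ψ)) α‖ ^ 2 = (Cfsg.classInner χ χ).re ∧ ∀ α ∈ R χ, Cfsg.classInner (τ₁ (χ - ψ)) α = 0 ∨ Cfsg.classInner (τ₁ (χ - ψ)) α = 1)) := by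
  classical
  set Θ := τ₁ (χ - ψ) with hΘ
  have hm1 : χ - ψ ∈ zspan {χ - ψ, χ - conjFun χ} :=
    Submodule.subset_span (Set.mem_insert _ _)
  have hm2 : χ - conjFun χ ∈ zspan {χ - ψ, χ - conjFun χ} :=
    Submodule.subset_span (Set.mem_insert_of_mem _ rfl)
  have hΘgen : IsGeneralizedCharacter G Θ := hτ₁.2.2.2 _ hm1
  have hτeq : τ₁ (χ - conjFun χ) = ∑ α ∈ R χ, α := by
    have := hagree 1
    rw [one_smul] at this
    rw [this, hS.sum_eq χ hχ]
  have h3 : classInner ψ χ = 0 := by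
    rw [Cfsg.Agent.Lib.CT.Clifford.classInner_conj_symm, h1, map_zero]
  have h4 : classInner ψ (conjFun χ) = 0 := by
    rw [Cfsg.Agent.Lib.CT.Clifford.classInner_conj_symm, h2, map_zero]
  have h5 : classInner χ (conjFun χ) = 0 :=
    hS.orthogonal χ hχ _ (hS.conj_mem χ hχ) (hS.conj_ne χ hχ).symm
  -- the integers a_α
  have hint : ∀ α ∈ R χ, ∃ z : ℤ, classInner Θ α = z := fun α hα =>
    classInner_genChar_int hΘgen (hS.virtual χ hχ α hα)
  choose! z hz using hint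
  have hsum : ∑ α ∈ R χ, (z α : ℂ) = classInner χ χ := by
    have e1 : classInner Θ (τ₁ (χ - conjFun χ)) = classInner (χ - ψ) (χ - conjFun χ) :=
      hτ₁.2.2.1 _ hm1 _ hm2
    rw [hτeq, classInner_sum_right, classInner_sub_left, classInner_sub_right,
      classInner_sub_right, h3, h4, h5] at e1
    rw [← Finset.sum_congr rfl (fun α hα => hz α hα), e1]
    ring
  have hsumR : ((∑ α ∈ R χ, z α : ℤ) : ℝ) = (classInner χ χ).re := by
    rw [← hsum]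
    push_cast
    rw [Complex.re_sum]
    apply Finset.sum_congr rfl
    intro α _
    simp
  have hsq : ∑ α ∈ R χ, ‖classInner Θ α‖ ^ 2 = ((∑ α ∈ R χ, z α ^ 2 : ℤ) : ℝ) := by
    push_cast
    apply Finset.sum_congr rfl
    intro α hα
    rw [hz α hα, Complex.norm_intCast, sq_abs]
  have hle : ∀ α ∈ R χ, z α ≤ z α ^ 2 := by
    intro α _
    nlinarith [sq_nonneg (z α), sq_nonneg (z α - 1)]
  have hleZ : ∑ α ∈ R χ, z α ≤ ∑ α ∈ R χ, z α ^ 2 := Finset.sum_le_sum hle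
  refine ⟨?_, ?_⟩
  · rw [hsq, ← hsumR]
    exact_mod_cast hleZ
  · intro hyp
    have hnorm : classInner Θ Θ = classInner χ χ + classInner ψ ψ := by
      rw [hΘ, hτ₁.2.2.1 _ hm1 _ hm1, classInner_sub_left, classInner_sub_right,
        classInner_sub_right, h1, h3]
      ring
    rw [hnorm, Complex.add_re, hsq, ← hsumR] at hyp
    have hge : ((∑ α ∈ R χ, z α ^ 2 : ℤ) : ℝ) ≤ ((∑ α ∈ R χ, z α : ℤ) : ℝ) := by linarith
    have hgeZ : ∑ α ∈ R χ, z α ^ 2 ≤ ∑ α ∈ R χ, z α := by exact_mod_cast hge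
    have heqZ : ∑ α ∈ R χ, z α = ∑ α ∈ R χ, z α ^ 2 := le_antisymm hleZ hgeZ
    refine ⟨?_, ?_⟩
    · rw [hsq, ← hsumR, heqZ]
    · intro α hα
      have hterm : z α = z α ^ 2 := by
        by_contra hne
        have hlt : z α < z α ^ 2 := lt_of_le_of_ne (hle α hα) hne
        have := Finset.sum_lt_sum hle ⟨α, hα, hlt⟩
        omega
      rw [hz α hα]
      have h01 : z α = 0 ∨ z α = 1 := by
        have : z α * (z α - 1) = 0 := by nlinarith
        rcases mul_eq_zero.mp this with h | h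
        · left; exact h
        · right; omega
      rcases h01 with h | h
      · left; rw [h]; simp
      · right; rw [h]; simp

end Cfsg.Agent.S1515
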