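import Cfsg.Statements.S1518
import Cfsg.Agent.S1501
import Cfsg.Agent.S0170
import Mathlib

set_option autoImplicit false
open Cfsg

namespace Cfsg.Agent.S1518

open Cfsg.Agent.Lib.Helper3.Irr
open scoped ComplexConjugate

/-- the complex conjugate of an irreducible character is irreducible -/
theorem irr_conjFun {G : Type*} [Group G] [Finite G] {χ : G → ℂ} (h : IsIrrCharacter G χ) :
    IsIrrCharacter G (conjFun χ) := by
  have h1 := Cfsg.Agent.Lib.CT.Ops.isIrrCharacter_inv_arg h
  have h2 : (fun g => χ g⁻¹) = conjFun χ := by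
    funext g
    exact IsCharacter.apply_inv (IsIrrCharacter.isCharacter h) g
  rwa [h2] at h1

section

variable {G : Type*} [Group G] [Fintype G] (A : Set G) (L : Subgroup G) (H : G → Subgroup G)

theorem dade_conj (β : L → ℂ) :
    dadeIsometry A L H (conjFun β) = conjFun (dadeIsometry A L H β) := by
  funext g
  show dadeIsometry A L H (conjFun β) g = conj (dadeIsometry A L H β g)
  by_cases h : ∃ a : ↥L, (a : G) ∈ A ∧ ∃ x : G, ∃ u ∈ H (a : G), x * g * x⁻¹ = (a : G) * u
  · unfold dadeIsometry
    rw [dif_pos h, dif_pos h]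
    rfl
  · rw [Cfsg.Agent.S1500.dade_zero A L H _ g h, Cfsg.Agent.S1500.dade_zero A L H _ g h, map_zero]

theorem dade_neg (β : L → ℂ) : dadeIsometry A L H (-β) = - dadeIsometry A L H β := by
  funext g
  show dadeIsometry A L H (-β) g = - dadeIsometry A L H β g
  by_cases h : ∃ a : ↥L, (a : G) ∈ A ∧ ∃ x : G, ∃ u ∈ H (a : G), x * g * x⁻¹ = (a : G) * u
  · unfold dadeIsometry
    rw [dif_pos h, dif_pos h]
    rfl
  · rw [Cfsg.Agent.S1500.dade_zero A L H _ g h, Cfsg.Agent.S1500.dade_zero A L H _ g h, neg_zero]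

theorem dade_zero_fun : dadeIsometry A L H (0 : L → ℂ) = 0 := by
  funext g
  unfold dadeIsometry
  split_ifs <;> simp

theorem dade_one (hD : DadeHypothesis A L H) (β : L → ℂ) : dadeIsometry A L H β 1 = 0 := by
  apply Cfsg.Agent.S1500.dade_zero
  rintro ⟨a, ha, x, u, hu, hx⟩
  have h1 : (a : G) * u = 1 := by rw [← hx]; group
  have h2 : (a : G) ∈ H (a : G) := by
    have : (a : G) = u⁻¹ := eq_inv_of_mul_eq_one_left h1
    rw [this]
    rw [this] at hu
    exact (H _).inv_mem hu
  have h3 : (a : G) ∈ H (a : G) ⊓ (L ⊓ Subgroup.centralizer ({(a : G)} : Set G)) :=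
    Subgroup.mem_inf.mpr ⟨h2, Subgroup.mem_inf.mpr ⟨a.2,
      Subgroup.mem_centralizer_singleton_iff.mpr rfl⟩⟩
  rw [hD.inf_eq_bot _ ha, Subgroup.mem_bot] at h3
  rw [h3] at ha
  exact hD.one_not_mem ha

end

/-- Under the Dade hypothesis for (A, L, H): if χ is an irreducible character of L vanishing at every non-identity element of L outside A, then the Dade image of χ − conj χ equals μ − conj μ for some irreducible character μ of G. -/
theorem result {G : Type*} [Group G] [Fintype G] (A : Set G) (L : Subgroup G) [Fintype L] (H : G → Subgroup G) (hD : Cfsg.DadeHypothesis A L H) (χ : L → ℂ) (hχ : Cfsg.IsIrrCharacter L χ) (hsupp : ∀ x : L, x ≠ 1 → (x : G) ∉ A → χ x = 0) : ∃ μ : G → ℂ, Cfsg.IsIrrCharacter G μ ∧ Cfsg.dadeIsometry A L H (χ - Cfsg.conjFun χ) = μ - Cfsg.conjFun μ := by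
  classical
  have hχc : IsIrrCharacter L (conjFun χ) := irr_conjFun hχ
  by_cases hreal : conjFun χ = χ
  · refine ⟨fun _ => 1, Cfsg.Agent.Lib.CT.Ops.isIrrCharacter_one, ?_⟩
    rw [hreal, sub_self, dade_zero_fun]
    funext g
    simp [conjFun]
  · obtain ⟨α, hα⟩ : ∃ α : L → ℂ, α = χ - conjFun χ := ⟨_, rfl⟩
    have hαg : IsGeneralizedCharacter L α :=
      ⟨χ, conjFun χ, IsIrrCharacter.isCharacter hχ, IsIrrCharacter.isCharacter hχc, hα⟩
    have hαc : IsClassFunction L α := by
      intro g h
      rw [hα]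
      simp only [Pi.sub_apply]
      rw [IsCharacter.isClassFunction (IsIrrCharacter.isCharacter hχ) g h,
        IsCharacter.isClassFunction (IsIrrCharacter.isCharacter hχc) g h]
    have hαA : ∀ x : L, (x : G) ∉ A → α x = 0 := by
      intro x hx
      rw [hα]
      show χ x - conj (χ x) = 0
      by_cases h1 : x = 1
      · rw [h1]
        obtain ⟨n, _, hn⟩ := IsIrrCharacter.exists_apply_one_pos hχ
        rw [hn, Complex.conj_natCast, sub_self]
      · rw [hsupp x h1 hx, map_zero, sub_zero]
    have hnorm : classInner α α = 2 := by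
      rw [hα]
      rw [classInner_sub_left, Cfsg.Agent.Lib.Helper26.GenChar.classInner_sub_right,
        Cfsg.Agent.Lib.Helper26.GenChar.classInner_sub_right]
      have h1 : classInner χ χ = 1 := irr_inner_self (⟨χ, hχ⟩ : IrrCharacter L)
      have h2 : classInner (conjFun χ) (conjFun χ) = 1 :=
        irr_inner_self (⟨conjFun χ, hχc⟩ : IrrCharacter L)
      have h3 : classInner χ (conjFun χ) = 0 :=
        irr_inner_ne (χ := (⟨χ, hχ⟩ : IrrCharacter L)) (ψ := ⟨conjFun χ, hχc⟩)
          (fun h => hreal (congrArg Subtype.val h).symm)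
      have h4 : classInner (conjFun χ) χ = 0 :=
        irr_inner_ne (χ := (⟨conjFun χ, hχc⟩ : IrrCharacter L)) (ψ := ⟨χ, hχ⟩)
          (fun h => hreal (congrArg Subtype.val h))
      rw [h1, h2, h3, h4]
      norm_num
    have hθg := Cfsg.Agent.S1501.result A L H hD α hαg hαA
    have hθn : classInner (dadeIsometry A L H α) (dadeIsometry A L H α) = 2 := by
      rw [(Cfsg.Agent.S1500.result A L H hD α hαc hαA).1 α hαc hαA, hnorm]
    have hθ1 : dadeIsometry A L H α 1 = 0 := dade_one A L H hD α
    have hθconj : conjFun (dadeIsometry A L H α) = - dadeIsometry A L H α := by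
      rw [← dade_conj, ← dade_neg]
      congr 1
      rw [hα]
      funext x
      simp [conjFun]
    have := finite_irrCharacter (G := G)
    haveI : Fintype (IrrCharacter G) := Fintype.ofFinite _
    obtain ⟨c, hc, he⟩ := Cfsg.Agent.Lib.Helper26.GenChar.exists_int_mult hθg
    have hsq := Cfsg.Agent.Lib.Helper26.GenChar.classInner_self_eq_sum_sq c hc he
    rw [hθn] at hsq
    have hsq' : ∑ ψ : IrrCharacter G, c ψ * c ψ = 2 := by exact_mod_cast hsq.symm
    choose d hdpos hd using fun ψ : IrrCharacter G => IsIrrCharacter.exists_apply_one_pos ψ.2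
    have h0 : ∑ ψ : IrrCharacter G, c ψ * (d ψ : ℤ) = 0 := by
      have h1 : dadeIsometry A L H α 1 = ∑ ψ : IrrCharacter G, (c ψ : ℂ) * (d ψ : ℂ) := by
        conv_lhs => rw [he]
        rw [Finset.sum_apply]
        refine Finset.sum_congr rfl (fun ψ _ => ?_)
        rw [Pi.smul_apply, hd ψ, smul_eq_mul]
      rw [hθ1] at h1
      exact_mod_cast h1.symm
    obtain ⟨a, b, hab, hw⟩ := Cfsg.Agent.S0170.norm_two c (fun ψ => (d ψ : ℤ))
      (fun ψ => by exact_mod_cast hdpos ψ) hsq' h0
    have hθab : dadeIsometry A L H α = (a : G → ℂ) - (b : G → ℂ) := by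
      conv_lhs => rw [he]
      rw [hw]
      push_cast
      simp only [sub_smul, ite_smul, one_smul, zero_smul, Finset.sum_sub_distrib,
        Finset.sum_ite_eq', Finset.mem_univ, if_true]
    have hbc : conjFun (b : G → ℂ) = (a : G → ℂ) := by
      by_contra hne
      have hac : IsIrrCharacter G (conjFun (a : G → ℂ)) := irr_conjFun a.2
      have hbcI : IsIrrCharacter G (conjFun (b : G → ℂ)) := irr_conjFun b.2
      have h1 : conjFun (a : G → ℂ) - conjFun (b : G → ℂ) = (b : G → ℂ) - (a : G → ℂ) := by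
        have := hθconj
        rw [hθab] at this
        rw [← neg_sub (a : G → ℂ) b, ← this]
        funext g
        simp [conjFun]
      have h2 := congrArg (fun f => classInner f (a : G → ℂ)) h1
      rw [classInner_sub_left, classInner_sub_left] at h2
      have h3 : classInner (conjFun (b : G → ℂ)) (a : G → ℂ) = 0 :=
        irr_inner_ne (χ := ⟨_, hbcI⟩) (ψ := a) (fun h => hne (congrArg Subtype.val h))
      have h4 : classInner (b : G → ℂ) (a : G → ℂ) = 0 := irr_inner_ne (fun h => hab h.symm)
      have h5 := irr_inner_self a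
      have h6 : classInner (conjFun (a : G → ℂ)) (a : G → ℂ) = _ :=
        irr_orthonormal (⟨_, hac⟩ : IrrCharacter G) a
      rw [h3, h4, h5, h6] at h2
      split_ifs at h2 <;> norm_num at h2
    refine ⟨a, a.2, ?_⟩
    rw [← hα, hθab]
    congr 1
    rw [← hbc]
    funext g
    simp [conjFun]

end Cfsg.Agent.S1518
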