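import Cfsg.Statements.S1525
import Cfsg.Agent.S1500
import Mathlib

set_option autoImplicit false
open Cfsg

namespace Cfsg.Agent.S1525

open scoped ComplexConjugate

open Classical in
theorem finsum_mem_eq_sum {α : Type*} [Fintype α] (S : Set α) (f : α → ℝ) :
    ∑ᶠ a ∈ S, f a = ∑ a : α, if a ∈ S then f a else 0 := by
  rw [finsum_mem_def, finsum_eq_sum_of_fintype]
  apply Finset.sum_congr rfl
  intro u _
  simp [Set.indicator_apply]

open Classical in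
/-- real form of the double counting identity -/
theorem key_real {G : Type*} [Group G] [Fintype G] (A : Set G) (L : Subgroup G)
    (H : G → Subgroup G) (hD : DadeHypothesis A L H) (r : G → ℝ)
    (hr : ∀ g h : G, r (h * g * h⁻¹) = r g)
    (hr0 : ∀ g : G, (¬ ∃ a ∈ A, ∃ x : G, ∃ u ∈ H a, x * g * x⁻¹ = a * u) → r g = 0) :
    (Nat.card L : ℝ) * ∑ g : G, r g =
      (Nat.card G : ℝ) * ∑ a : G, if a ∈ A then ((Nat.card (H a) : ℝ))⁻¹ *
        ∑ u : G, (if u ∈ H a then r (a * u) else 0) else 0 := by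
  have hk := Cfsg.Agent.S1500.key A L H hD (fun g => ((r g : ℝ) : ℂ))
    (fun g h => by
      show ((r (h * g * h⁻¹) : ℝ) : ℂ) = ((r g : ℝ) : ℂ)
      rw [hr g h])
    (fun g hg => by
      show ((r g : ℝ) : ℂ) = 0
      rw [hr0 g hg]; simp)
  have e1 : ∀ a : G, (if a ∈ A then ((Nat.card (H a) : ℂ))⁻¹ *
      ∑ u : G, (if u ∈ H a then ((r (a * u) : ℝ) : ℂ) else 0) else 0) =
      (((if a ∈ A then ((Nat.card (H a) : ℝ))⁻¹ *
        ∑ u : G, (if u ∈ H a then r (a * u) else 0) else 0 : ℝ)) : ℂ) := by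
    intro a
    by_cases ha : a ∈ A
    · rw [if_pos ha, if_pos ha]
      push_cast
      congr 1
      apply Finset.sum_congr rfl
      intro u _
      by_cases hu : u ∈ H a
      · rw [if_pos hu, if_pos hu]
      · rw [if_neg hu, if_neg hu]; simp
    · rw [if_neg ha, if_neg ha]; simp
  simp only [e1] at hk
  rw [← Complex.ofReal_sum, ← Complex.ofReal_sum] at hk
  exact_mod_cast hk

/-- Under the Dade hypothesis for (A, L, H), let χ be a class function of G and let ψ be a function on L whose value at each a ∈ A is the average of χ over the coset a·H(a). Then (1/|G|) Σ |χ g|² over the elements g of G conjugate into some coset a·H(a) with a ∈ A is at least (1/|L|) Σ_{a ∈ A ∩ L} |ψ a|². -/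
theorem result {G : Type*} [Group G] [Fintype G] (A : Set G) (L : Subgroup G) [Fintype L] (H : G → Subgroup G) (hD : Cfsg.DadeHypothesis A L H) (χ : G → ℂ) (hχ : Cfsg.IsClassFunction G χ) (ψ : L → ℂ) (hψ : ∀ a : L, (a : G) ∈ A → ψ a = (Nat.card (H a) : ℂ)⁻¹ * ∑ᶠ u ∈ (H a : Set G), χ (a * u)) : (Nat.card L : ℝ)⁻¹ * ∑ᶠ a ∈ {a : L | (a : G) ∈ A}, ‖ψ a‖ ^ 2 ≤ (Nat.card G : ℝ)⁻¹ * ∑ᶠ g ∈ {g : G | ∃ a ∈ A, ∃ u ∈ H a, ∃ x : G, x * g * x⁻¹ = a * u}, ‖χ g‖ ^ 2 := by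
  classical
  -- the function r
  set r : G → ℝ := fun g =>
    if (∃ a ∈ A, ∃ u ∈ H a, ∃ x : G, x * g * x⁻¹ = a * u) then ‖χ g‖ ^ 2 else 0 with hrdef
  have hsupp : ∀ g h : G, (∃ a ∈ A, ∃ u ∈ H a, ∃ x : G, x * g * x⁻¹ = a * u) →
      (∃ a ∈ A, ∃ u ∈ H a, ∃ x : G, x * (h * g * h⁻¹) * x⁻¹ = a * u) := by
    rintro g h ⟨a, ha, u, hu, x, hx⟩
    exact ⟨a, ha, u, hu, x * h⁻¹, by rw [← hx]; group⟩
  have hr : ∀ g h : G, r (h * g * h⁻¹) = r g := by
    intro g h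
    simp only [hrdef]
    by_cases hg : ∃ a ∈ A, ∃ u ∈ H a, ∃ x : G, x * g * x⁻¹ = a * u
    · rw [if_pos hg, if_pos (hsupp g h hg), hχ g h]
    · rw [if_neg hg, if_neg]
      intro hcon
      apply hg
      have := hsupp (h * g * h⁻¹) h⁻¹ hcon
      have e : h⁻¹ * (h * g * h⁻¹) * h⁻¹⁻¹ = g := by group
      rwa [e] at this
  have hr0 : ∀ g : G, (¬ ∃ a ∈ A, ∃ x : G, ∃ u ∈ H a, x * g * x⁻¹ = a * u) → r g = 0 := by
    intro g hg
    simp only [hrdef]
    rw [if_neg]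
    rintro ⟨a, ha, u, hu, x, hx⟩
    exact hg ⟨a, ha, x, u, hu, hx⟩
  have hkey := key_real A L H hD r hr hr0
  have hL : (0 : ℝ) < (Nat.card L : ℝ) := by exact_mod_cast Nat.card_pos
  have hG : (0 : ℝ) < (Nat.card G : ℝ) := by exact_mod_cast Nat.card_pos
  -- r on the cosets
  have hrau : ∀ a ∈ A, ∀ u ∈ H a, r (a * u) = ‖χ (a * u)‖ ^ 2 := by
    intro a ha u hu
    simp only [hrdef]
    rw [if_pos ⟨a, ha, u, hu, 1, by group⟩]
  -- Cauchy-Schwarz per a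
  have hCS : ∀ a : L, (a : G) ∈ A → ‖ψ a‖ ^ 2 ≤ ((Nat.card (H a) : ℝ))⁻¹ *
      ∑ u : G, (if u ∈ H a then r ((a : G) * u) else 0) := by
    intro a ha
    rw [hψ a ha, Cfsg.Agent.S1500.finsum_mem_eq]
    have hHpos : (0 : ℝ) < (Nat.card (H a) : ℝ) := by exact_mod_cast Nat.card_pos
    have hcard : ((Finset.univ.filter (fun u : G => u ∈ H a)).card : ℝ) =
        (Nat.card (H a) : ℝ) := by
      rw [Nat.card_eq_fintype_card, Fintype.card_subtype]
    rw [← Finset.sum_filter, ← Finset.sum_filter]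
    have h1 : ‖∑ u ∈ Finset.univ.filter (fun u : G => u ∈ H a), χ ((a : G) * u)‖ ≤
        ∑ u ∈ Finset.univ.filter (fun u : G => u ∈ H a), ‖χ ((a : G) * u)‖ := norm_sum_le _ _
    have h2 := sq_sum_le_card_mul_sum_sq (s := Finset.univ.filter (fun u : G => u ∈ H a))
      (f := fun u => ‖χ ((a : G) * u)‖)
    rw [hcard] at h2
    have h3 : ∑ u ∈ Finset.univ.filter (fun u : G => u ∈ H a), r ((a : G) * u) =
        ∑ u ∈ Finset.univ.filter (fun u : G => u ∈ H a), ‖χ ((a : G) * u)‖ ^ 2 := by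
      apply Finset.sum_congr rfl
      intro u hu
      exact hrau a ha u (Finset.mem_filter.mp hu).2
    rw [h3, norm_mul, norm_inv, Complex.norm_natCast, mul_pow]
    have h4 : ‖∑ u ∈ Finset.univ.filter (fun u : G => u ∈ H a), χ ((a : G) * u)‖ ^ 2 ≤
        (Nat.card (H a) : ℝ) *
          ∑ u ∈ Finset.univ.filter (fun u : G => u ∈ H a), ‖χ ((a : G) * u)‖ ^ 2 :=
      le_trans (pow_le_pow_left₀ (norm_nonneg _) h1 2) h2
    calc ((Nat.card (H a) : ℝ))⁻¹ ^ 2 *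
          ‖∑ u ∈ Finset.univ.filter (fun u : G => u ∈ H a), χ ((a : G) * u)‖ ^ 2
        ≤ ((Nat.card (H a) : ℝ))⁻¹ ^ 2 * ((Nat.card (H a) : ℝ) *
          ∑ u ∈ Finset.univ.filter (fun u : G => u ∈ H a), ‖χ ((a : G) * u)‖ ^ 2) :=
          mul_le_mul_of_nonneg_left h4 (by positivity)
      _ = ((Nat.card (H a) : ℝ))⁻¹ *
          ∑ u ∈ Finset.univ.filter (fun u : G => u ∈ H a), ‖χ ((a : G) * u)‖ ^ 2 := by
          field_simp
  -- sum over a
  have hsumL : ∑ a : L, (if (a : G) ∈ A then ‖ψ a‖ ^ 2 else 0) ≤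
      ∑ a : G, if a ∈ A then ((Nat.card (H a) : ℝ))⁻¹ *
        ∑ u : G, (if u ∈ H a then r (a * u) else 0) else 0 := by
    rw [← Finset.sum_filter_of_ne (s := (Finset.univ : Finset G)) (p := fun a : G => a ∈ L)
      (fun a _ hne => by
        by_contra hcon
        exact hne (if_neg (fun h => hcon (hD.subset h))))]
    rw [Finset.sum_subtype (p := fun a : G => a ∈ L) _ (by simp)]
    apply Finset.sum_le_sum
    intro a _
    by_cases ha : (a : G) ∈ A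
    · rw [if_pos ha, if_pos ha]; exact hCS a ha
    · rw [if_neg ha, if_neg ha]
  have hgoal : ∑ᶠ g ∈ {g : G | ∃ a ∈ A, ∃ u ∈ H a, ∃ x : G, x * g * x⁻¹ = a * u},
      ‖χ g‖ ^ 2 = ∑ g : G, r g := by
    rw [finsum_mem_eq_sum]
    apply Finset.sum_congr rfl
    intro g _
    by_cases hg : g ∈ {g : G | ∃ a ∈ A, ∃ u ∈ H a, ∃ x : G, x * g * x⁻¹ = a * u}
    · rw [if_pos hg]; simp only [hrdef]
      have hg' : ∃ a ∈ A, ∃ u ∈ H a, ∃ x : G, x * g * x⁻¹ = a * u := hg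
      rw [if_pos hg']
    · rw [if_neg hg]; simp only [hrdef]
      have hg' : ¬ ∃ a ∈ A, ∃ u ∈ H a, ∃ x : G, x * g * x⁻¹ = a * u := hg
      rw [if_neg hg']
  have hgoal2 : ∑ᶠ a ∈ {a : L | (a : G) ∈ A}, ‖ψ a‖ ^ 2 =
      ∑ a : L, (if (a : G) ∈ A then ‖ψ a‖ ^ 2 else 0) := by
    rw [finsum_mem_eq_sum]
    apply Finset.sum_congr rfl
    intro a _
    by_cases ha : a ∈ {a : L | (a : G) ∈ A}
    · have ha' : (a : G) ∈ A := ha
      rw [if_pos ha, if_pos ha']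
    · have ha' : (a : G) ∉ A := ha
      rw [if_neg ha, if_neg ha']
  rw [hgoal, hgoal2]
  have h5 : (Nat.card L : ℝ) * ∑ g : G, r g ≥ (Nat.card G : ℝ) *
      ∑ a : L, (if (a : G) ∈ A then ‖ψ a‖ ^ 2 else 0) := by
    rw [hkey]
    exact mul_le_mul_of_nonneg_left hsumL hG.le
  rw [inv_mul_le_iff₀ hL, ← mul_assoc, mul_comm (Nat.card L : ℝ), mul_assoc,
    le_inv_mul_iff₀ hG]
  exact h5

end Cfsg.Agent.S1525
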