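import Cfsg.Statements.S1527
import Mathlib

set_option autoImplicit false
open Cfsg

namespace Cfsg.Agent.S1527

/-- The number of non-identity elements conjugate into a TI-subgroup. -/
private theorem card_conj_union {G : Type*} [Group G] [Finite G] (H : Subgroup G)
    (hTI : Cfsg.IsTISubset (H : Set G)) :
    Nat.card {g : G // g ≠ 1 ∧ ∃ x : G, x * g * x⁻¹ ∈ H} =
      (Subgroup.normalizer (H : Set G)).index * (Nat.card H - 1) := by
  classical
  set N := Subgroup.normalizer (H : Set G) with hN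
  have hcardH : Nat.card {h : G // h ∈ H ∧ h ≠ 1} = Nat.card H - 1 := by
    have e : {h : G // h ∈ H ∧ h ≠ 1} ≃ {h : H // h ≠ 1} :=
      { toFun := fun h => ⟨⟨h.1, h.2.1⟩, fun hh => h.2.2 (congrArg Subtype.val hh)⟩
        invFun := fun h => ⟨h.1.1, h.1.2, fun hh => h.2 (Subtype.ext hh)⟩
        left_inv := fun h => rfl
        right_inv := fun h => rfl }
    rw [Nat.card_congr e]
    have := Fintype.ofFinite H
    rw [Nat.card_eq_fintype_card, Nat.card_eq_fintype_card, Fintype.card_subtype_compl,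
      Fintype.card_subtype_eq]
  rw [← hcardH, Subgroup.index, ← Nat.card_prod]
  symm
  let f : (G ⧸ N) × {h : G // h ∈ H ∧ h ≠ 1} → {g : G // g ≠ 1 ∧ ∃ x : G, x * g * x⁻¹ ∈ H} :=
    fun ch => ⟨ch.1.out * ch.2.1 * ch.1.out⁻¹, by
      constructor
      · intro h
        apply ch.2.2.2
        have : ch.2.1 = ch.1.out⁻¹ * (ch.1.out * ch.2.1 * ch.1.out⁻¹) * ch.1.out := by group
        rw [this, h]; group
      · refine ⟨ch.1.out⁻¹, ?_⟩
        have : ch.1.out⁻¹ * (ch.1.out * ch.2.1 * ch.1.out⁻¹) * ch.1.out⁻¹⁻¹ = ch.2.1 := by group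
        rw [this]; exact ch.2.2.1⟩
  apply Nat.card_congr
  refine Equiv.ofBijective f ⟨?_, ?_⟩
  · rintro ⟨c, h, hH, h1⟩ ⟨c', h', hH', h1'⟩ heq
    have heq' : c.out * h * c.out⁻¹ = c'.out * h' * c'.out⁻¹ := congrArg Subtype.val heq
    -- (c'.out⁻¹ * c.out) conjugates h into H
    have hconj : (c'.out⁻¹ * c.out) * h * (c'.out⁻¹ * c.out)⁻¹ = h' := by
      have : (c'.out⁻¹ * c.out) * h * (c'.out⁻¹ * c.out)⁻¹ = c'.out⁻¹ * (c.out * h * c.out⁻¹) * c'.out := by
        group
      rw [this, heq']; group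
    have hmem : c'.out⁻¹ * c.out ∈ N := by
      by_contra hn
      exact h1 (hTI _ hn h hH (by rw [hconj]; exact hH'))
    have hc : c = c' := by
      have h1 : (QuotientGroup.mk c'.out : G ⧸ N) = QuotientGroup.mk c.out :=
        QuotientGroup.eq.mpr hmem
      rw [QuotientGroup.out_eq', QuotientGroup.out_eq'] at h1
      exact h1.symm
    subst hc
    have hh : h = h' := by
      have : c.out⁻¹ * c.out * h * (c.out⁻¹ * c.out)⁻¹ = h := by group
      rw [← this]; exact hconj
    subst hh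
    rfl
  · rintro ⟨g, hg1, x, hx⟩
    -- g = x⁻¹ * (x g x⁻¹) * x ; the coset of x⁻¹
    set c : G ⧸ N := QuotientGroup.mk x⁻¹ with hc
    have hn : (x⁻¹)⁻¹ * c.out ∈ N := by
      have : (QuotientGroup.mk x⁻¹ : G ⧸ N) = QuotientGroup.mk c.out := by
        rw [QuotientGroup.out_eq']
      exact QuotientGroup.eq.mp this
    set n := (x⁻¹)⁻¹ * c.out with hndef
    have hout : c.out = x⁻¹ * n := by rw [hndef]; group
    -- h = n⁻¹ * (x g x⁻¹) * n ∈ H
    have hmemH : n⁻¹ * (x * g * x⁻¹) * n ∈ H := by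
      have hn' : n⁻¹ ∈ N := inv_mem hn
      have := (Subgroup.mem_set_normalizer_iff.mp hn' (x * g * x⁻¹)).mp hx
      simpa using this
    have hne : n⁻¹ * (x * g * x⁻¹) * n ≠ 1 := by
      intro h
      apply hg1
      have : g = (n⁻¹ * x)⁻¹ * (n⁻¹ * (x * g * x⁻¹) * n) * (n⁻¹ * x) := by group
      rw [this, h]; group
    refine ⟨(c, ⟨n⁻¹ * (x * g * x⁻¹) * n, hmemH, hne⟩), ?_⟩
    apply Subtype.ext
    show c.out * (n⁻¹ * (x * g * x⁻¹) * n) * c.out⁻¹ = g
    rw [hout]; group

/-- Let G be a finite group and H i (i in a finite index type) subgroups of pairwise coprime orders, each of whose underlying sets is a TI-subset of G, such that every non-identity element of G is conjugate to an element of some H i. Then Nat.card G − 1 = Σ_i [G : N_G(H i)] · (Nat.card (H i) − 1). -/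
theorem result {G : Type*} [Group G] [Finite G] {ι : Type*} [Fintype ι] (H : ι → Subgroup G) (hcop : ∀ i j, i ≠ j → Nat.Coprime (Nat.card (H i)) (Nat.card (H j))) (hTI : ∀ i, Cfsg.IsTISubset (H i : Set G)) (hcover : ∀ g : G, g ≠ 1 → ∃ i, ∃ x : G, x * g * x⁻¹ ∈ H i) : Nat.card G - 1 = ∑ i, (Subgroup.normalizer (H i : Set G)).index * (Nat.card (H i) - 1) := by
  classical
  have hG : Nat.card {g : G // g ≠ 1} = Nat.card G - 1 := by
    have := Fintype.ofFinite G
    rw [Nat.card_eq_fintype_card, Nat.card_eq_fintype_card, Fintype.card_subtype_compl,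
      Fintype.card_subtype_eq]
  rw [← hG]
  have hsum : ∑ i, (Subgroup.normalizer (H i : Set G)).index * (Nat.card (H i) - 1) =
      ∑ i, Nat.card {g : G // g ≠ 1 ∧ ∃ x : G, x * g * x⁻¹ ∈ H i} := by
    apply Finset.sum_congr rfl
    intro i _
    exact (card_conj_union (H i) (hTI i)).symm
  rw [hsum, ← Nat.card_sigma]
  apply Nat.card_congr
  -- uniqueness of the index
  have huniq : ∀ g : G, g ≠ 1 → ∀ i j, (∃ x : G, x * g * x⁻¹ ∈ H i) → (∃ x : G, x * g * x⁻¹ ∈ H j) →
      i = j := by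
    intro g hg i j ⟨x, hx⟩ ⟨y, hy⟩
    by_contra hij
    have h1 : orderOf g ∣ Nat.card (H i) := by
      have : orderOf (x * g * x⁻¹) = orderOf g :=
        orderOf_injective (MulAut.conj x).toMonoidHom (MulAut.conj x).injective g
      rw [← this]
      have h2 : orderOf (⟨x * g * x⁻¹, hx⟩ : H i) = orderOf (x * g * x⁻¹) :=
        Subgroup.orderOf_mk _ _
      rw [← h2]
      exact orderOf_dvd_natCard _
    have h2 : orderOf g ∣ Nat.card (H j) := by
      have : orderOf (y * g * y⁻¹) = orderOf g :=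
        orderOf_injective (MulAut.conj y).toMonoidHom (MulAut.conj y).injective g
      rw [← this]
      have h2 : orderOf (⟨y * g * y⁻¹, hy⟩ : H j) = orderOf (y * g * y⁻¹) :=
        Subgroup.orderOf_mk _ _
      rw [← h2]
      exact orderOf_dvd_natCard _
    have h3 : orderOf g ∣ 1 := by
      have := Nat.dvd_gcd h1 h2
      rwa [Nat.Coprime.gcd_eq_one (hcop i j hij)] at this
    exact hg (orderOf_eq_one_iff.mp (Nat.dvd_one.mp h3))
  exact
    { toFun := fun g => ⟨Classical.choose (hcover g.1 g.2), ⟨g.1, g.2, Classical.choose_spec (hcover g.1 g.2)⟩⟩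
      invFun := fun s => ⟨s.2.1, s.2.2.1⟩
      left_inv := fun g => rfl
      right_inv := by
        rintro ⟨i, g, hg1, hx⟩
        have hi : Classical.choose (hcover g hg1) = i :=
          huniq g hg1 _ _ (Classical.choose_spec (hcover g hg1)) hx
        subst hi
        rfl }

end Cfsg.Agent.S1527
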