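import Cfsg.Statements.S1530
import Cfsg.Agent.Lib.Helper26.Coherence

set_option autoImplicit false
open Cfsg

namespace Cfsg.Agent.S1530

open Cfsg.Agent.Lib.CT Cfsg.Agent.Lib.CT.Wedderburn Cfsg.Agent.Lib.Helper26.GenChar
  Cfsg.Agent.Lib.Helper26.Coherence
open scoped ComplexConjugate

private theorem isGeneralizedCharacter_sum' {G : Type*} [Group G] {ι : Type*} (s : Finset ι)
    (F : ι → G → ℂ) (h : ∀ i ∈ s, IsGeneralizedCharacter G (F i)) :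
    IsGeneralizedCharacter G (∑ i ∈ s, F i) := by
  classical
  induction s using Finset.induction_on with
  | empty => simpa using (isGeneralizedCharacter_zero (G := G))
  | insert i s hi ih =>
    rw [Finset.sum_insert hi]
    exact isGeneralizedCharacter_add (h i (Finset.mem_insert_self _ _))
      (ih fun j hj => h j (Finset.mem_insert_of_mem hj))

private theorem arith {m a D y k : ℤ} (hm : 0 < m) (ha : 0 < a) (hD : 2 * a * m ^ 2 < D)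
    (hk : 0 ≤ k) (h : m ^ 2 * k = m ^ 2 - y ^ 2 * D + 2 * a * m ^ 2 * y) :
    y = 0 ∨ (y = 1 ∧ k = 0) := by
  have hm2 : 0 < m ^ 2 := by positivity
  by_cases h0 : y = 0
  · exact Or.inl h0
  by_cases h1 : y = 1
  · right
    refine ⟨h1, ?_⟩
    subst h1
    have h2 : m ^ 2 * k < m ^ 2 * 1 := by nlinarith
    have h3 : k < 1 := lt_of_mul_lt_mul_left h2 hm2.le
    omega
  · exfalso
    have hy : 2 ≤ y ∨ y ≤ -1 := by omega
    have hyy : y ^ 2 ≥ y + 2 := by rcases hy with h | h <;> nlinarith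
    have h2 : y ^ 2 * D ≥ y ^ 2 * (2 * a * m ^ 2 + 1) := by
      have : 0 ≤ y ^ 2 := by positivity
      nlinarith
    have h3 : y ^ 2 * (2 * a * m ^ 2) ≥ (y + 2) * (2 * a * m ^ 2) := by
      have : 0 ≤ 2 * a * m ^ 2 := by positivity
      nlinarith
    have h4 : m ^ 2 * k ≥ 0 := by positivity
    have h5 : a * m ^ 2 ≥ m ^ 2 := by nlinarith
    nlinarith

/-- Let N be a subgroup of the finite group G and S₀ a finite set of irreducible characters of N, χ an irreducible character of N not in S₀, with degrees ξ 1 = d ξ. Let τ be a linear isometry on the integer combinations of S₀ ∪ {χ} vanishing at 1, with values virtual characters of G vanishing at 1, such that (S₀, N minus 1, τ) is coherent. If some ψ ∈ S₀ has d ψ dividing d χ and 2 · d ψ · d χ < Σ_{ξ ∈ S₀} (d ξ)², then (S₀ ∪ {χ}, N minus 1, τ) is coherent. -/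
theorem result {G : Type*} [Group G] [Fintype G] (N : Subgroup G) [Fintype N] (S₀ : Finset (N → ℂ)) (χ : N → ℂ) (hirr : ∀ ξ ∈ S₀, Cfsg.IsIrrCharacter N ξ) (hχ : Cfsg.IsIrrCharacter N χ) (hχS : χ ∉ S₀) (d : (N → ℂ) → ℕ) (hd : ∀ ξ ∈ insert χ S₀, ξ 1 = (d ξ : ℂ)) (τ : (N → ℂ) → (G → ℂ)) (hτ : Cfsg.IsLinearIsometryOn (Cfsg.zspanOn (↑(insert χ S₀) : Set (N → ℂ)) {1}ᶜ) τ) (hτ1 : ∀ α ∈ Cfsg.zspanOn (↑(insert χ S₀) : Set (N → ℂ)) {1}ᶜ, τ α 1 = 0) (hcoh : Cfsg.IsCoherent (↑S₀ : Set (N → ℂ)) {1}ᶜ τ) (ψ : N → ℂ) (hψ : ψ ∈ S₀) (hdvd : d ψ ∣ d χ) (hlt : 2 * d ψ * d χ < ∑ ξ ∈ S₀, d ξ ^ 2) : Cfsg.IsCoherent (↑(insert χ S₀) : Set (N → ℂ)) {1}ᶜ τ := by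
  classical
  have hS₀T : (↑S₀ : Set (N → ℂ)) ⊆ ↑(insert χ S₀) := by
    rw [Finset.coe_insert]; exact Set.subset_insert _ _
  have hχT : χ ∈ (↑(insert χ S₀) : Set (N → ℂ)) := by
    rw [Finset.coe_insert]; exact Set.mem_insert _ _
  obtain ⟨⟨α₁, hα₁, hα₁0⟩, τ₁, hτ₁, hτ₁τ⟩ := hcoh
  refine ⟨⟨α₁, zspanOn_mono hS₀T hα₁, hα₁0⟩, ?_⟩
  have hES := isZSub_zspan (↑S₀ : Set (N → ℂ))
  have hET := isZSub_zspanOn (↑(insert χ S₀) : Set (N → ℂ))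
  -- degrees
  have hdψ : ψ 1 = (d ψ : ℂ) := hd ψ (Finset.mem_insert_of_mem hψ)
  have hdχ : χ 1 = (d χ : ℂ) := hd χ (Finset.mem_insert_self _ _)
  have hdS : ∀ ξ ∈ S₀, ξ 1 = (d ξ : ℂ) := fun ξ hξ => hd ξ (Finset.mem_insert_of_mem hξ)
  have hmpos : 0 < d ψ := by
    obtain ⟨n, hn, hn1⟩ := irr_exists_apply_one_pos (hirr ψ hψ)
    have h : (d ψ : ℂ) = n := by rw [← hdψ, hn1]
    have h' : d ψ = n := by exact_mod_cast h
    omega
  have hχpos : 0 < d χ := by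
    obtain ⟨n, hn, hn1⟩ := irr_exists_apply_one_pos hχ
    have h : (d χ : ℂ) = n := by rw [← hdχ, hn1]
    have h' : d χ = n := by exact_mod_cast h
    omega
  obtain ⟨a, ha⟩ := hdvd
  have hapos : 0 < a := by
    rcases Nat.eq_zero_or_pos a with h | h
    · rw [h, mul_zero] at ha; omega
    · exact h
  have hmC : (d ψ : ℂ) ≠ 0 := by exact_mod_cast hmpos.ne'
  -- membership facts
  have hξz : ∀ ξ ∈ S₀, ξ ∈ zspan (↑S₀ : Set (N → ℂ)) :=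
    fun ξ hξ => subset_zspan (Finset.mem_coe.mpr hξ)
  have hψz : ψ ∈ zspan (↑S₀ : Set (N → ℂ)) := hξz ψ hψ
  have hχz : χ ∈ zspan (↑(insert χ S₀) : Set (N → ℂ)) := subset_zspan hχT
  have hβ : χ - (a : ℤ) • ψ ∈ zspanOn (↑(insert χ S₀) : Set (N → ℂ)) {1}ᶜ := by
    refine mem_zspanOn.mpr ⟨sub_mem_zspan hχz (zsmul_mem_zspan _ (zspan_mono hS₀T hψz)), ?_⟩
    rw [Pi.sub_apply, zsmul_apply, hdχ, hdψ, ha]
    push_cast
    ring
  -- orthogonality of χ and S₀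
  have hχS' : ∀ ξ ∈ S₀, classInner χ ξ = 0 := fun ξ hξ =>
    irr_inner_ne hχ (hirr ξ hξ) (fun h => hχS (h ▸ hξ))
  have hχS'' : ∀ ξ ∈ S₀, classInner ξ χ = 0 := fun ξ hξ =>
    irr_inner_ne (hirr ξ hξ) hχ (fun h => hχS (h ▸ hξ))
  obtain ⟨θ, hθdef⟩ : ∃ θ, θ = τ (χ - (a : ℤ) • ψ) := ⟨_, rfl⟩
  have hθgen : IsGeneralizedCharacter G θ := by rw [hθdef]; exact iso_gen hτ hβ
  have hθ1 : θ 1 = 0 := by rw [hθdef]; exact hτ1 _ hβ
  have hθθ : classInner θ θ = 1 + (a : ℂ) ^ 2 := by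
    rw [hθdef, iso_inner hτ hβ hβ]
    simp only [Orth.classInner_sub_left, classInner_sub_right, classInner_intCast_smul_left,
      classInner_intCast_smul_right, irr_inner_self hχ, irr_inner_self (hirr ψ hψ), hχS' ψ hψ,
      hχS'' ψ hψ]
    push_cast
    ring
  -- facts on τ₁
  have hT1 : ∀ ξ ∈ S₀, ∀ η ∈ S₀, classInner (τ₁ ξ) (τ₁ η) = if ξ = η then 1 else 0 := by
    intro ξ hξ η hη
    rw [iso_inner hτ₁ (hξz ξ hξ) (hξz η hη), irr_inner (hirr ξ hξ) (hirr η hη)]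
  have hT2 : ∀ ξ ∈ S₀, IsGeneralizedCharacter G (τ₁ ξ) := fun ξ hξ => iso_gen hτ₁ (hξz ξ hξ)
  have hγ : ∀ ξ ∈ S₀, ((d ψ : ℤ) • ξ - (d ξ : ℤ) • ψ) ∈ zspanOn (↑S₀ : Set (N → ℂ)) {1}ᶜ := by
    intro ξ hξ
    refine mem_zspanOn.mpr
      ⟨sub_mem_zspan (zsmul_mem_zspan _ (hξz ξ hξ)) (zsmul_mem_zspan _ hψz), ?_⟩
    rw [Pi.sub_apply, zsmul_apply, zsmul_apply, hdS ξ hξ, hdψ]
    push_cast
    ring
  have hT3 : ∀ ξ ∈ S₀, τ ((d ψ : ℤ) • ξ - (d ξ : ℤ) • ψ) =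
      (d ψ : ℤ) • τ₁ ξ - (d ξ : ℤ) • τ₁ ψ := by
    intro ξ hξ
    rw [← hτ₁τ _ (hγ ξ hξ), iso_sub hES hτ₁ (zsmul_mem_zspan _ (hξz ξ hξ)) (zsmul_mem_zspan _ hψz),
      iso_zsmul hτ₁ _ (hξz ξ hξ), iso_zsmul hτ₁ _ hψz]
  have hT4 : ∀ ξ ∈ S₀, (d ψ : ℂ) * classInner θ (τ₁ ξ) - (d ξ : ℂ) * classInner θ (τ₁ ψ)
      = (a : ℂ) * d ξ - a * d ψ * (if ξ = ψ then 1 else 0) := by
    intro ξ hξ
    have h := iso_inner hτ hβ (zspanOn_mono hS₀T (hγ ξ hξ))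
    rw [hT3 ξ hξ, ← hθdef] at h
    simp only [Orth.classInner_sub_left, classInner_sub_right, classInner_intCast_smul_left,
      classInner_intCast_smul_right, hχS' ξ hξ, hχS' ψ hψ, irr_inner_self (hirr ψ hψ),
      irr_inner (hirr ψ hψ) (hirr ξ hξ)] at h
    push_cast at h
    by_cases hc : ξ = ψ
    · subst hc
      rw [if_pos rfl]; ring
    · have hc' : ¬ ψ = ξ := fun h => hc h.symm
      rw [if_neg hc'] at h
      rw [if_neg hc]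
      linear_combination h
  have hT5 : ∀ ξ ∈ S₀, (d ψ : ℂ) * τ₁ ξ 1 = (d ξ : ℂ) * τ₁ ψ 1 := by
    intro ξ hξ
    have h := hτ1 _ (zspanOn_mono hS₀T (hγ ξ hξ))
    rw [hT3 ξ hξ, Pi.sub_apply, zsmul_apply, zsmul_apply] at h
    push_cast at h
    linear_combination h
  -- integrality
  have hint : ∀ ξ, ∃ n : ℤ, ξ ∈ S₀ → classInner θ (τ₁ ξ) = n := by
    intro ξ
    by_cases hξ : ξ ∈ S₀
    · obtain ⟨n, hn⟩ := classInner_genChar_int hθgen (hT2 ξ hξ)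
      exact ⟨n, fun _ => hn⟩
    · exact ⟨0, fun h => absurd h hξ⟩
  choose c hc using hint
  have hrelC : ∀ ξ ∈ S₀, (d ψ : ℂ) * (c ξ : ℂ) =
      d ξ * ((a : ℂ) + c ψ) - a * d ψ * (if ξ = ψ then 1 else 0) := by
    intro ξ hξ
    have h := hT4 ξ hξ
    rw [hc ξ hξ, hc ψ hψ] at h
    linear_combination h
  have hrel : ∀ ξ ∈ S₀, (d ψ : ℤ) * c ξ =
      d ξ * ((a : ℤ) + c ψ) - a * d ψ * (if ξ = ψ then 1 else 0) := by
    intro ξ hξ
    have h := hrelC ξ hξ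
    by_cases hc' : ξ = ψ
    · rw [if_pos hc'] at h ⊢
      exact_mod_cast h
    · rw [if_neg hc'] at h ⊢
      exact_mod_cast h
  -- the projection
  obtain ⟨U, hU⟩ : ∃ U, U = ∑ ξ ∈ S₀, c ξ • τ₁ ξ := ⟨_, rfl⟩
  have hUgen : IsGeneralizedCharacter G U := by
    rw [hU]
    exact isGeneralizedCharacter_sum' _ _ (fun ξ hξ => isGeneralizedCharacter_zsmul (hT2 ξ hξ) _)
  have hθU : classInner θ U = ((∑ ξ ∈ S₀, c ξ ^ 2 : ℤ) : ℂ) := by
    rw [hU, classInner_sum_right]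
    push_cast
    refine Finset.sum_congr rfl fun ξ hξ => ?_
    rw [classInner_intCast_smul_right, hc ξ hξ]; ring
  have hUθ : classInner U θ = ((∑ ξ ∈ S₀, c ξ ^ 2 : ℤ) : ℂ) := by
    rw [Clifford.classInner_conj_symm, hθU, map_intCast]
  have hUU : classInner U U = ((∑ ξ ∈ S₀, c ξ ^ 2 : ℤ) : ℂ) := by
    rw [hU, Orth.classInner_sum_left]
    push_cast
    refine Finset.sum_congr rfl fun ξ hξ => ?_
    rw [classInner_intCast_smul_left, classInner_sum_right, Finset.sum_eq_single ξ]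
    · rw [classInner_intCast_smul_right, hT1 ξ hξ ξ hξ, if_pos rfl]; ring
    · intro η hη hne
      rw [classInner_intCast_smul_right, hT1 ξ hξ η hη, if_neg (Ne.symm hne)]; ring
    · intro h; exact absurd hξ h
  have hWW : classInner (θ - U) (θ - U) = 1 + (a : ℂ) ^ 2 - ((∑ ξ ∈ S₀, c ξ ^ 2 : ℤ) : ℂ) := by
    simp only [Orth.classInner_sub_left, classInner_sub_right, hθθ, hθU, hUθ, hUU]
    ring
  obtain ⟨k, hk⟩ := exists_nat_norm (isGeneralizedCharacter_sub hθgen hUgen)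
  have hkz : (k : ℤ) = 1 + (a : ℤ) ^ 2 - ∑ ξ ∈ S₀, c ξ ^ 2 := by
    rw [hWW] at hk
    have h : ((1 + (a : ℤ) ^ 2 - ∑ ξ ∈ S₀, c ξ ^ 2 : ℤ) : ℂ) = ((k : ℤ) : ℂ) := by
      push_cast
      push_cast at hk
      exact hk
    exact_mod_cast h.symm
  have hsum : (d ψ : ℤ) ^ 2 * ∑ ξ ∈ S₀, c ξ ^ 2 =
      ((a : ℤ) + c ψ) ^ 2 * (∑ ξ ∈ S₀, (d ξ : ℤ) ^ 2) - 2 * a * (d ψ : ℤ) ^ 2 * ((a : ℤ) + c ψ)
        + (a : ℤ) ^ 2 * (d ψ : ℤ) ^ 2 := by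
    rw [Finset.mul_sum]
    have h1 : ∀ ξ ∈ S₀, (d ψ : ℤ) ^ 2 * c ξ ^ 2 = ((a : ℤ) + c ψ) ^ 2 * (d ξ : ℤ) ^ 2 -
        (if ξ = ψ then 2 * a * (d ψ : ℤ) ^ 2 * ((a : ℤ) + c ψ) - (a : ℤ) ^ 2 * (d ψ : ℤ) ^ 2
          else 0) := by
      intro ξ hξ
      have h := hrel ξ hξ
      have h2 : (d ψ : ℤ) ^ 2 * c ξ ^ 2 = ((d ψ : ℤ) * c ξ) ^ 2 := by ring
      rw [h2, h]
      by_cases hc' : ξ = ψ
      · subst hc'; rw [if_pos rfl, if_pos rfl]; ring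
      · rw [if_neg hc', if_neg hc']; ring
    rw [Finset.sum_congr rfl h1, Finset.sum_sub_distrib, Finset.sum_ite_eq' S₀ ψ, if_pos hψ,
      Finset.mul_sum]
    ring
  have hD : 2 * (a : ℤ) * (d ψ : ℤ) ^ 2 < ∑ ξ ∈ S₀, (d ξ : ℤ) ^ 2 := by
    have h : ((2 * d ψ * d χ : ℕ) : ℤ) < ((∑ ξ ∈ S₀, d ξ ^ 2 : ℕ) : ℤ) := by exact_mod_cast hlt
    rw [ha] at h
    push_cast at h
    have e : 2 * (d ψ : ℤ) * ((d ψ : ℤ) * a) = 2 * (a : ℤ) * (d ψ : ℤ) ^ 2 := by ring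
    rw [e] at h
    exact h
  have hcases := arith (m := (d ψ : ℤ)) (a := (a : ℤ)) (D := ∑ ξ ∈ S₀, (d ξ : ℤ) ^ 2)
    (y := (a : ℤ) + c ψ) (k := (k : ℤ)) (by exact_mod_cast hmpos) (by exact_mod_cast hapos) hD
    (by positivity) (by rw [hkz, mul_sub, hsum]; ring)
  rcases hcases with hy0 | ⟨hy1, hk0⟩
  swap
  · -- the case y = 1 is contradictory
    exfalso
    have hk0' : k = 0 := by exact_mod_cast hk0
    have hW0 : θ - U = 0 := eq_zero_of_classInner_self_eq_zero (by rw [hk, hk0']; simp)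
    have hθU' : θ = U := sub_eq_zero.mp hW0
    have hnorm : classInner (τ₁ ψ) (τ₁ ψ) = 1 := by rw [hT1 ψ hψ ψ hψ, if_pos rfl]
    obtain ⟨μ, hμ, hμ'⟩ := eq_irr_or_neg_of_norm_one (hT2 ψ hψ) hnorm
    obtain ⟨t, ht, ht1⟩ := irr_exists_apply_one_pos hμ
    have htC : (t : ℂ) ≠ 0 := by exact_mod_cast ht.ne'
    have htne : τ₁ ψ 1 ≠ 0 := by
      rcases hμ' with h | h
      · rw [h, ht1]; exact htC
      · rw [h, Pi.neg_apply, ht1]; exact neg_ne_zero.mpr htC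
    have hy1C : (a : ℂ) + (c ψ : ℂ) = 1 := by exact_mod_cast hy1
    have hU1 : U 1 = ∑ ξ ∈ S₀, (c ξ : ℂ) * τ₁ ξ 1 := by
      rw [hU, Finset.sum_apply]
      refine Finset.sum_congr rfl fun ξ _ => ?_
      rw [zsmul_apply]
    have h0 : (d ψ : ℂ) ^ 2 * U 1 =
        τ₁ ψ 1 * ((∑ ξ ∈ S₀, (d ξ : ℂ) ^ 2) - a * (d ψ : ℂ) ^ 2) := by
      rw [hU1, Finset.mul_sum]
      have h1 : ∀ ξ ∈ S₀, (d ψ : ℂ) ^ 2 * ((c ξ : ℂ) * τ₁ ξ 1) = τ₁ ψ 1 * (d ξ : ℂ) ^ 2 -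
          (if ξ = ψ then τ₁ ψ 1 * (a * (d ψ : ℂ) ^ 2) else 0) := by
        intro ξ hξ
        have h := hrelC ξ hξ
        rw [hy1C] at h
        have h5 := hT5 ξ hξ
        have e : (d ψ : ℂ) ^ 2 * ((c ξ : ℂ) * τ₁ ξ 1) = ((d ψ : ℂ) * c ξ) * ((d ψ : ℂ) * τ₁ ξ 1) := by
          ring
        rw [e, h, h5]
        by_cases hc' : ξ = ψ
        · subst hc'; rw [if_pos rfl, if_pos rfl]; ring
        · rw [if_neg hc', if_neg hc']; ring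
      rw [Finset.sum_congr rfl h1, Finset.sum_sub_distrib, Finset.sum_ite_eq' S₀ ψ, if_pos hψ,
        mul_sub, Finset.mul_sum]
    rw [← hθU', hθ1, mul_zero] at h0
    have h1 : (∑ ξ ∈ S₀, (d ξ : ℂ) ^ 2) - a * (d ψ : ℂ) ^ 2 = 0 := by
      rcases mul_eq_zero.mp h0.symm with h | h
      · exact absurd h htne
      · exact h
    have h2 : ((∑ ξ ∈ S₀, (d ξ : ℤ) ^ 2 : ℤ) : ℂ) = (((a : ℤ) * (d ψ : ℤ) ^ 2 : ℤ) : ℂ) := by
      push_cast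
      linear_combination h1
    have h3 : ∑ ξ ∈ S₀, (d ξ : ℤ) ^ 2 = (a : ℤ) * (d ψ : ℤ) ^ 2 := by exact_mod_cast h2
    have h4 : (0 : ℤ) ≤ (a : ℤ) * (d ψ : ℤ) ^ 2 := by positivity
    linarith
  -- the case y = 0
  have hy0C : (a : ℂ) + (c ψ : ℂ) = 0 := by exact_mod_cast hy0
  have hcξ : ∀ ξ ∈ S₀, (c ξ : ℂ) = -(a : ℂ) * (if ξ = ψ then 1 else 0) := by
    intro ξ hξ
    have h := hrelC ξ hξ
    rw [hy0C] at h
    apply mul_left_cancel₀ hmC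
    rw [h]; ring
  obtain ⟨Δ, hΔ⟩ : ∃ Δ, Δ = θ + (a : ℤ) • τ₁ ψ := ⟨_, rfl⟩
  have hΔgen : IsGeneralizedCharacter G Δ := by
    rw [hΔ]
    exact isGeneralizedCharacter_add hθgen (isGeneralizedCharacter_zsmul (hT2 ψ hψ) _)
  have hΔξ : ∀ ξ ∈ S₀, classInner Δ (τ₁ ξ) = 0 := by
    intro ξ hξ
    rw [hΔ, Orth.classInner_add_left, classInner_intCast_smul_left, hc ξ hξ, hcξ ξ hξ,
      hT1 ψ hψ ξ hξ]
    by_cases hc' : ξ = ψ
    · subst hc'; rw [if_pos rfl]; push_cast; ring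
    · rw [if_neg hc', if_neg (fun h => hc' h.symm)]; ring
  have hΔΔ : classInner Δ Δ = 1 := by
    have h1 : classInner θ (τ₁ ψ) = -(a : ℂ) := by
      rw [hc ψ hψ, hcξ ψ hψ, if_pos rfl, mul_one]
    have h2 : classInner (τ₁ ψ) θ = -(a : ℂ) := by
      rw [Clifford.classInner_conj_symm, h1, map_neg, Complex.conj_natCast]
    rw [hΔ]
    simp only [Orth.classInner_add_left, classInner_add_right, classInner_intCast_smul_left,
      classInner_intCast_smul_right, hθθ, h1, h2, hT1 ψ hψ ψ hψ]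
    push_cast
    ring
  have hΔperp : ∀ α₀ ∈ zspan (↑S₀ : Set (N → ℂ)), classInner Δ (τ₁ α₀) = 0 := by
    intro α₀ hα₀
    induction hα₀ using Submodule.span_induction with
    | mem x hx => exact hΔξ x (Finset.mem_coe.mp hx)
    | zero => rw [iso_zero hES hτ₁]; exact classInner_zero_right _
    | add x y hx' hy' hx hy => rw [iso_add hτ₁ hx' hy', classInner_add_right, hx, hy, add_zero]
    | smul n x hx' hx => rw [iso_zsmul hτ₁ n hx', classInner_intCast_smul_right, hx, mul_zero]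
  have hΔperp' : ∀ α₀ ∈ zspan (↑S₀ : Set (N → ℂ)), classInner (τ₁ α₀) Δ = 0 := by
    intro α₀ hα₀
    rw [Clifford.classInner_conj_symm, hΔperp α₀ hα₀, map_zero]
  have hχperp : ∀ α₀ ∈ zspan (↑S₀ : Set (N → ℂ)), classInner α₀ χ = 0 := by
    intro α₀ hα₀
    induction hα₀ using Submodule.span_induction with
    | mem x hx => exact hχS'' x (Finset.mem_coe.mp hx)
    | zero => exact Orth.classInner_zero_left _
    | add x y _ _ hx hy => rw [Orth.classInner_add_left, hx, hy, add_zero]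
    | smul n x _ hx => rw [classInner_intCast_smul_left, hx, mul_zero]
  have hχperp' : ∀ α₀ ∈ zspan (↑S₀ : Set (N → ℂ)), classInner χ α₀ = 0 := by
    intro α₀ hα₀
    rw [Clifford.classInner_conj_symm, hχperp α₀ hα₀, map_zero]
  have hdecomp : ∀ α ∈ zspan (↑(insert χ S₀) : Set (N → ℂ)), ∃ n : ℤ,
      ∃ α₀ ∈ zspan (↑S₀ : Set (N → ℂ)), α = n • χ + α₀ := by
    intro α hα
    rw [mem_zspan, Finset.coe_insert, Submodule.mem_span_insert] at hα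
    obtain ⟨n, z, hz, rfl⟩ := hα
    exact ⟨n, z, hz, rfl⟩
  let ρ : (N → ℂ) → (G → ℂ) := fun α => classInner α χ • Δ + τ₁ (α - classInner α χ • χ)
  have hρ : ∀ (n : ℤ), ∀ α₀ ∈ zspan (↑S₀ : Set (N → ℂ)), ρ (n • χ + α₀) = n • Δ + τ₁ α₀ := by
    intro n α₀ hα₀
    have h1 : classInner (n • χ + α₀) χ = n := by
      rw [Orth.classInner_add_left, classInner_intCast_smul_left, irr_inner_self hχ,
        hχperp α₀ hα₀, mul_one, add_zero]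
    show classInner (n • χ + α₀) χ • Δ + τ₁ (n • χ + α₀ - classInner (n • χ + α₀) χ • χ) = _
    rw [h1, ← zsmul_eq_smul, ← zsmul_eq_smul, add_sub_cancel_left]
  refine ⟨ρ, ⟨?_, ?_, ?_, ?_⟩, ?_⟩
  · intro α hα α' hα'
    obtain ⟨n, α₀, hα₀, rfl⟩ := hdecomp α hα
    obtain ⟨n', α₀', hα₀', rfl⟩ := hdecomp α' hα'
    have e : n • χ + α₀ + (n' • χ + α₀') = (n + n') • χ + (α₀ + α₀') := by module
    rw [e, hρ _ _ (add_mem_zspan hα₀ hα₀'), hρ n α₀ hα₀, hρ n' α₀' hα₀', iso_add hτ₁ hα₀ hα₀']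
    module
  · intro α hα j
    obtain ⟨n, α₀, hα₀, rfl⟩ := hdecomp α hα
    have e : j • (n • χ + α₀) = (j * n) • χ + j • α₀ := by module
    rw [e, hρ _ _ (zsmul_mem_zspan j hα₀), hρ n α₀ hα₀, iso_zsmul hτ₁ j hα₀]
    module
  · intro α hα α' hα'
    obtain ⟨n, α₀, hα₀, rfl⟩ := hdecomp α hα
    obtain ⟨n', α₀', hα₀', rfl⟩ := hdecomp α' hα'
    rw [hρ n α₀ hα₀, hρ n' α₀' hα₀']
    simp only [Orth.classInner_add_left, classInner_add_right, classInner_intCast_smul_left,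
      classInner_intCast_smul_right, hΔΔ, hΔperp α₀' hα₀', hΔperp' α₀ hα₀, irr_inner_self hχ,
      hχperp α₀ hα₀, hχperp' α₀' hα₀', iso_inner hτ₁ hα₀ hα₀']
  · intro α hα
    obtain ⟨n, α₀, hα₀, rfl⟩ := hdecomp α hα
    rw [hρ n α₀ hα₀]
    exact isGeneralizedCharacter_add (isGeneralizedCharacter_zsmul hΔgen _) (iso_gen hτ₁ hα₀)
  · intro α hα
    obtain ⟨hα1, hα2⟩ := mem_zspanOn.mp hα
    obtain ⟨n, α₀, hα₀, rfl⟩ := hdecomp α hα1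
    rw [hρ n α₀ hα₀]
    have hγ' : (α₀ + (n * a) • ψ) ∈ zspanOn (↑S₀ : Set (N → ℂ)) {1}ᶜ := by
      refine mem_zspanOn.mpr ⟨add_mem_zspan hα₀ (zsmul_mem_zspan _ hψz), ?_⟩
      rw [Pi.add_apply, zsmul_apply, hdχ, ha] at hα2
      rw [Pi.add_apply, zsmul_apply, hdψ]
      push_cast at hα2 ⊢
      linear_combination hα2
    have e : n • χ + α₀ = n • (χ - (a : ℤ) • ψ) + (α₀ + (n * a) • ψ) := by module
    rw [e, iso_add hτ (hET.zsmul n _ hβ) (zspanOn_mono hS₀T hγ'), iso_zsmul hτ n hβ, ← hθdef,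
      ← hτ₁τ _ hγ', iso_add hτ₁ hα₀ (zsmul_mem_zspan _ hψz), iso_zsmul hτ₁ _ hψz, hΔ]
    module

end Cfsg.Agent.S1530
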