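import Cfsg.Statements.S1546
import Mathlib

set_option autoImplicit false
open Cfsg

namespace Cfsg.Agent.S1546

private theorem geom_eq (p q : ℕ) (hp : 2 ≤ p) : (p ^ q - 1) / (p - 1) = ∑ i ∈ Finset.range q, p ^ i :=
  (Nat.geomSum_eq hp q).symm

private theorem geom_mod (p q m : ℕ) (h : p % m = 1 % m) :
    (∑ i ∈ Finset.range q, p ^ i) % m = q % m := by
  have h1 : ∀ i, p ^ i % m = 1 % m := by
    intro i
    have : p ^ i ≡ 1 ^ i [MOD m] := Nat.ModEq.pow i h
    rw [one_pow] at this
    exact this
  have : (∑ i ∈ Finset.range q, p ^ i) ≡ ∑ i ∈ Finset.range q, 1 [MOD m] := by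
    induction q with
    | zero => simp [Nat.ModEq]
    | succ n ih =>
      rw [Finset.sum_range_succ, Finset.sum_range_succ]
      exact Nat.ModEq.add ih (h1 n)
  simpa [Nat.ModEq] using this

/-- Let p and q be odd primes and N = (p ^ q − 1) / (p − 1) = 1 + p + ⋯ + p^(q−1). Then N is odd; if p ≡ 1 (mod q) then q ∣ N; and if p is not ≡ 1 (mod q) then N is coprime to p − 1 and every divisor of N is ≡ 1 (mod q). -/
theorem result (p q : ℕ) (hp : p.Prime) (hq : q.Prime) (hp2 : p ≠ 2) (hq2 : q ≠ 2) : Odd ((p ^ q - 1) / (p - 1)) ∧ (p % q = 1 → q ∣ (p ^ q - 1) / (p - 1)) ∧ (p % q ≠ 1 → Nat.Coprime ((p ^ q - 1) / (p - 1)) (p - 1) ∧ ∀ x : ℕ, x ∣ (p ^ q - 1) / (p - 1) → x % q = 1) := by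
  have hp2' : 2 ≤ p := hp.two_le
  have hq3 : 3 ≤ q := by
    have := hq.two_le
    omega
  have hpodd : Odd p := hp.odd_of_ne_two hp2
  have hqodd : Odd q := hq.odd_of_ne_two hq2
  rw [geom_eq p q hp2']
  set N := ∑ i ∈ Finset.range q, p ^ i with hN
  have hNpos : 0 < N := by
    rw [hN]
    have : q = (q - 1) + 1 := by omega
    rw [this, Finset.sum_range_succ']
    simp
  refine ⟨?_, ?_, ?_⟩
  · -- N odd
    rw [Nat.odd_iff]
    have h := geom_mod p q 2 (by rw [Nat.odd_iff.mp hpodd])
    rw [h]
    exact Nat.odd_iff.mp hqodd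
  · intro hpq
    have h := geom_mod p q q (by rw [hpq, Nat.mod_eq_of_lt (by omega : 1 < q)])
    rw [Nat.mod_self] at h
    exact Nat.dvd_of_mod_eq_zero h
  · intro hpq
    have key : ∀ r : ℕ, r.Prime → r ∣ N → p % r = 1 % r → r = q := by
      intro r hr hrN hpr
      have h := geom_mod p q r hpr
      rw [Nat.mod_eq_zero_of_dvd hrN] at h
      have : r ∣ q := Nat.dvd_of_mod_eq_zero h.symm
      exact (Nat.prime_dvd_prime_iff_eq hr hq).mp this
    constructor
    · -- coprime
      rw [Nat.coprime_iff_gcd_eq_one]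
      by_contra hne
      obtain ⟨r, hr, hrd⟩ := Nat.exists_prime_and_dvd hne
      have hrN : r ∣ N := hrd.trans (Nat.gcd_dvd_left _ _)
      have hrp : r ∣ p - 1 := hrd.trans (Nat.gcd_dvd_right _ _)
      have hpr : p % r = 1 % r := by
        have : (1 : ℕ) ≡ p [MOD r] := (Nat.modEq_iff_dvd' (by omega)).mpr hrp
        exact this.symm
      have hrq := key r hr hrN hpr
      subst hrq
      rw [Nat.mod_eq_of_lt (by omega : 1 < r)] at hpr
      exact hpq hpr
    · -- every divisor is 1 mod q
      have prime_case : ∀ r : ℕ, r.Prime → r ∣ N → r % q = 1 := by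
        intro r hr hrN
        have : Fact r.Prime := ⟨hr⟩
        -- p ^ q = 1 in ZMod r
        have hpq1 : (p : ZMod r) ^ q = 1 := by
          have h1 : r ∣ p ^ q - 1 := by
            have : (p - 1) * N = p ^ q - 1 := by
              rw [hN, mul_comm]
              exact geom_sum_mul_of_one_le (by omega) q
            rw [← this]
            exact Dvd.dvd.mul_left hrN _
          have h2 : ((p ^ q - 1 : ℕ) : ZMod r) = 0 := (ZMod.natCast_eq_zero_iff _ _).mpr h1
          have h3 : 1 ≤ p ^ q := Nat.one_le_pow _ _ (by omega)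
          rw [Nat.cast_sub h3] at h2
          push_cast at h2
          exact sub_eq_zero.mp h2
        have hp1 : (p : ZMod r) ≠ 1 := by
          intro h
          have hpr : p % r = 1 % r := by
            have : ((p : ℕ) : ZMod r) = ((1 : ℕ) : ZMod r) := by simpa using h
            exact (ZMod.natCast_eq_natCast_iff' _ _ _).mp this
          have hrq := key r hr hrN hpr
          subst hrq
          rw [Nat.mod_eq_of_lt (by omega : 1 < r)] at hpr
          exact hpq hpr
        have hqf : Fact q.Prime := ⟨hq⟩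
        have hord : orderOf (p : ZMod r) = q := orderOf_eq_prime hpq1 hp1
        have hp0 : (p : ZMod r) ≠ 0 := by
          intro h
          rw [h, zero_pow (by omega)] at hpq1
          exact zero_ne_one hpq1
        have hdvd : q ∣ r - 1 := by
          rw [← hord]
          exact ZMod.orderOf_dvd_card_sub_one (p := r) hp0
        have hr1 : 1 ≤ r := hr.one_lt.le
        have : (1 : ℕ) ≡ r [MOD q] := (Nat.modEq_iff_dvd' hr1).mpr hdvd
        have h2 : r % q = 1 % q := this.symm
        rwa [Nat.mod_eq_of_lt (by omega : 1 < q)] at h2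
      intro x
      induction x using Nat.strong_induction_on with
      | _ x ih =>
        intro hx
        by_cases hx1 : x = 1
        · subst hx1
          exact Nat.mod_eq_of_lt (by omega)
        · obtain ⟨r, hr, hrx⟩ := Nat.exists_prime_and_dvd hx1
          obtain ⟨y, rfl⟩ := hrx
          have hy0 : y ≠ 0 := by
            rintro rfl
            simp at hx
            omega
          have hylt : y < r * y := by
            have := hr.one_lt
            nlinarith [Nat.pos_of_ne_zero hy0]
          have hy := ih y hylt ((Dvd.intro_left r rfl).trans hx)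
          have hrr := prime_case r hr ((Dvd.intro y rfl).trans hx)
          rw [Nat.mul_mod, hrr, hy]
          exact Nat.mod_eq_of_lt (by omega)

end Cfsg.Agent.S1546
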