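import Cfsg.Statements.S1550
import Cfsg.Agent.Lib.Helper26.Sextet

set_option autoImplicit false
open scoped Pointwise
open Cfsg

namespace Cfsg.Agent.S1550

open Cfsg.Agent.Lib.Helper27.Bits Cfsg.Agent.Lib.Helper27.Golay Cfsg.Agent.Lib.Helper27.Fast
  Cfsg.Agent.Lib.Helper27.Coset Cfsg.Agent.Lib.Helper26.SextetTab Cfsg.Agent.Lib.Helper26.Sextet

/-- Every 4-element set of the 24 points is a tetrad of exactly one sextet, and the sextets number 1771. -/
theorem result : (∀ t : Finset Cfsg.GolayPt, t.card = 4 → ∃! S : Finset (Finset Cfsg.GolayPt), S ∈ Cfsg.sextets ∧ t ∈ S) ∧ Cfsg.sextets.ncard = 1771 := by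
  refine ⟨?_, ncard_sextets⟩
  intro t ht
  obtain ⟨a, ha, rfl⟩ := exists_setOf t
  have ha4 : pcF a = 4 := by rw [← card_setOf_F]; exact ht
  refine ⟨sextet (syn a), ⟨sextet_mem (syn_lt ha) (heavy_of_four ha ha4), mem_sextet_syn ha ha4⟩, ?_⟩
  rintro S ⟨hS, hmem⟩
  exact sextet_unique hS ha ha4 hmem

end Cfsg.Agent.S1550
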