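import Cfsg.Statements.S1554
import Cfsg.Agent.Lib.Helper26.OctadStab2

set_option autoImplicit false
open scoped Pointwise
open Cfsg

namespace Cfsg.Agent.S1554

open Cfsg.Agent.Lib.Helper26.OctadStab Cfsg.Agent.Lib.Helper26.OctadStab2

/-- An octad stabiliser is a split extension: the joint stabiliser of the octad and a point outside it is a complement to the pointwise stabiliser of the octad, and is isomorphic to the alternating group of degree 8. -/
theorem result (o : Finset Cfsg.GolayPt) (ho : o ∈ Cfsg.octads) (p : Cfsg.GolayPt) (hp : p ∉ o) : (Cfsg.M24 ⊓ fixingSubgroup (Equiv.Perm Cfsg.GolayPt) (o : Set Cfsg.GolayPt)) ⊓ (Cfsg.M24 ⊓ MulAction.stabilizer (Equiv.Perm Cfsg.GolayPt) o ⊓ MulAction.stabilizer (Equiv.Perm Cfsg.GolayPt) p) = ⊥ ∧ (Cfsg.M24 ⊓ fixingSubgroup (Equiv.Perm Cfsg.GolayPt) (o : Set Cfsg.GolayPt)) ⊔ (Cfsg.M24 ⊓ MulAction.stabilizer (Equiv.Perm Cfsg.GolayPt) o ⊓ MulAction.stabilizer (Equiv.Perm Cfsg.GolayPt) p) = (Cfsg.M24 ⊓ MulAction.stabilizer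 (Equiv.Perm Cfsg.GolayPt) o) ∧ Nonempty (↥(Cfsg.M24 ⊓ MulAction.stabilizer (Equiv.Perm Cfsg.GolayPt) o ⊓ MulAction.stabilizer (Equiv.Perm Cfsg.GolayPt) p) ≃* alternatingGroup (Fin 8)) := by
  refine ⟨?_, ?_, ?_⟩
  · show fix o ⊓ (stab o ⊓ MulAction.stabilizer (Equiv.Perm GolayPt) p) = ⊥
    rw [eq_bot_iff]
    rintro g ⟨hg1, -, hg2⟩
    exact eq_one_of_mem_fix ho hp hg1 hg2
  · show fix o ⊔ (stab o ⊓ MulAction.stabilizer (Equiv.Perm GolayPt) p) = stab o
    apply le_antisymm
    · exact sup_le (fix_le_stab o) inf_le_left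
    · intro s hs
      have hsp : s p ∉ o := fun h => hp ((apply_mem_iff hs.2 p).mp h)
      obtain ⟨k, hk, hkp⟩ := fix_trans ho hsp hp
      have h1 : k * s ∈ stab o ⊓ MulAction.stabilizer (Equiv.Perm GolayPt) p :=
        ⟨Subgroup.mul_mem _ (fix_le_stab o hk) hs, by
          show (k * s) p = p
          rw [Equiv.Perm.mul_apply, hkp]⟩
      have h2 : s = k⁻¹ * (k * s) := by group
      rw [h2]
      exact Subgroup.mul_mem _ (Subgroup.inv_mem _ (Subgroup.mem_sup_left hk))
        (Subgroup.mem_sup_right h1)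
  · show Nonempty (↥(stab o ⊓ MulAction.stabilizer (Equiv.Perm GolayPt) p) ≃* alternatingGroup (Fin 8))
    have hle : stab o ⊓ MulAction.stabilizer (Equiv.Perm GolayPt) p ≤ stab o := inf_le_left
    have hinj : Function.Injective ((resHom o).comp (Subgroup.inclusion hle)) := by
      rw [injective_iff_map_eq_one]
      intro a ha
      have h1 : Subgroup.inclusion hle a ∈ (resHom o).ker := ha
      rw [ker_resHom, Subgroup.mem_subgroupOf] at h1
      have h2 : (a : Equiv.Perm GolayPt) = 1 := eq_one_of_mem_fix ho hp h1 a.2.2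
      exact Subtype.ext h2
    have hrange : ((resHom o).comp (Subgroup.inclusion hle)).range = alternatingGroup ↥o := by
      rw [← range_resHom ho]
      apply le_antisymm
      · rintro _ ⟨a, rfl⟩
        exact ⟨_, rfl⟩
      · rintro _ ⟨s, rfl⟩
        have hsp : (s : Equiv.Perm GolayPt) p ∉ o := fun h => hp ((apply_mem_iff s.2.2 p).mp h)
        obtain ⟨k, hk, hkp⟩ := fix_trans ho hsp hp
        refine ⟨⟨k * s, Subgroup.mul_mem _ (fix_le_stab o hk) s.2, by
          show (k * (s : Equiv.Perm GolayPt)) p = p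
          rw [Equiv.Perm.mul_apply, hkp]⟩, ?_⟩
        apply Equiv.ext
        rintro ⟨y, hy⟩
        apply Subtype.ext
        show (k * (s : Equiv.Perm GolayPt)) y = (s : Equiv.Perm GolayPt) y
        rw [Equiv.Perm.mul_apply]
        exact (mem_fix.mp hk).2 _ ((apply_mem_iff s.2.2 y).mpr hy)
    have e : ↥o ≃ Fin 8 := Fintype.equivFinOfCardEq (by rw [Fintype.card_coe, ho.2])
    exact ⟨(MonoidHom.ofInjective hinj).trans
      ((MulEquiv.subgroupCongr hrange).trans (Equiv.altCongrHom e))⟩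

end Cfsg.Agent.S1554
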