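import Cfsg.Statements.S1555
import Cfsg.Agent.Lib.Helper27.Oct

set_option autoImplicit false
open scoped Pointwise
open Cfsg

namespace Cfsg.Agent.S1555

open Cfsg.Agent.Lib.Helper27.Bits Cfsg.Agent.Lib.Helper27.Golay Cfsg.Agent.Lib.Helper27.M24
  Cfsg.Agent.Lib.Helper27.Cert Cfsg.Agent.Lib.Helper27.Trans Cfsg.Agent.Lib.Helper27.Fast
  Cfsg.Agent.Lib.Helper27.Oct

/-- number of octads meeting the base octad exactly in the mask `m` -/
noncomputable def cnt (m : ℕ) : ℕ :=
  countB 4096 (fun c => Nat.beq (pcF (cw c)) 8 && Nat.beq (m0 &&& cw c) m)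

theorem tab : allB 8192 (fun m => !(Nat.beq (m &&& m0) m) ||
    ((!(Nat.beq (pcF m) 2) || Nat.beq (cnt m) 16) && (!(Nat.beq (pcF m) 4) || Nat.beq (cnt m) 4)))
    = true := by
  decide +kernel

theorem count (m : ℕ) (hm : m < 2 ^ 24) :
    {t : Finset GolayPt | t ∈ octads ∧ fsOf m0 ∩ t = fsOf m}.ncard = cnt m := by
  apply ncard_octads_filter
  intro c hc
  rw [← setOf_and]
  have hlt : m0 &&& cw c < 2 ^ 24 := lt_of_le_of_lt Nat.and_le_right (cw_lt c)
  constructor
  · intro h
    rw [setOf_injOn hlt hm h]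
    exact Nat.beq_refl _
  · intro h
    rw [Nat.eq_of_beq_eq_true h]

theorem base (m : ℕ) (hm : m < 2 ^ 24) (hsub : fsOf m ⊆ fsOf m0) :
    ((fsOf m).card = 2 → cnt m = 16) ∧ ((fsOf m).card = 4 → cnt m = 4) := by
  have h1 : m &&& m0 = m := by
    apply setOf_injOn (lt_of_le_of_lt Nat.and_le_left hm) hm
    rw [setOf_and]
    exact Finset.inter_eq_left.mpr hsub
  have h2 : m < 8192 := by
    have h3 : m ≤ m0 := by
      rw [← h1]; exact Nat.and_le_right
    have h4 : m0 < 8192 := by decide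
    omega
  have h := (allB_iff _ _).mp tab m h2
  rw [h1] at h
  simp only [Nat.beq_refl, Bool.not_true, Bool.false_or, Bool.and_eq_true, Bool.or_eq_true,
    Bool.not_eq_true'] at h
  rw [card_setOf_F]
  constructor
  · intro hc
    rcases h.1 with h' | h'
    · rw [hc] at h'; exact absurd h' (by decide)
    · exact Nat.eq_of_beq_eq_true h'
  · intro hc
    rcases h.2 with h' | h'
    · rw [hc] at h'; exact absurd h' (by decide)
    · exact Nat.eq_of_beq_eq_true h'

/-- Bottom row of the Leech triangle: an octad is met in a prescribed pair of its points by exactly 16 octads and in a prescribed 4-subset by exactly 4 octads. -/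
theorem result (o : Finset Cfsg.GolayPt) (ho : o ∈ Cfsg.octads) (s : Finset Cfsg.GolayPt) (hs : s ⊆ o) : (s.card = 2 → {o' : Finset Cfsg.GolayPt | o' ∈ Cfsg.octads ∧ o ∩ o' = s}.ncard = 16) ∧ (s.card = 4 → {o' : Finset Cfsg.GolayPt | o' ∈ Cfsg.octads ∧ o ∩ o' = s}.ncard = 4) := by
  obtain ⟨g, hg, rfl⟩ := octad_trans o ho
  have hsub : g⁻¹ • s ⊆ fsOf m0 := by
    have := Finset.smul_finset_subset_smul_finset (a := g⁻¹) hs
    rwa [inv_smul_smul] at this
  obtain ⟨m, hm, hms⟩ := exists_setOf (g⁻¹ • s)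
  have hcard : (fsOf m).card = s.card := by rw [hms, Finset.card_smul_finset]
  have htr : {o' : Finset GolayPt | o' ∈ octads ∧ g • fsOf m0 ∩ o' = s}.ncard =
      {t : Finset GolayPt | t ∈ octads ∧ fsOf m0 ∩ t = fsOf m}.ncard := by
    apply ncard_congr_smul g
    intro t
    rw [octads_smul_iff hg, ← Finset.smul_finset_inter, hms, smul_eq_iff_eq_inv_smul]
  rw [← hms] at hsub
  rw [htr, count m hm, ← hcard]
  exact base m hm hsub

end Cfsg.Agent.S1555
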