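import Cfsg.Statements.S1557
import Cfsg.Agent.H26.GolayFacts

set_option autoImplicit false
open Cfsg

namespace Cfsg.Agent.S1557

open Cfsg.Agent.H26

private theorem compl_union_mem {o o' : Finset GolayPt} (ho : o ∈ octads) (ho' : o' ∈ octads)
    (hd : Disjoint o o') : (o ∪ o')ᶜ ∈ octads := by
  have h1 : symmDiff o o' = o ∪ o' := by
    rw [symmDiff_def, Finset.sup_eq_union, Finset.sdiff_eq_self_of_disjoint hd,
      Finset.sdiff_eq_self_of_disjoint hd.symm]
  refine ⟨?_, ?_⟩
  · have := compl_mem_GC (symmDiff_mem_GC ho.1 ho'.1)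
    rwa [h1] at this
  · rw [Finset.card_compl, Finset.card_union_of_disjoint hd, octad_card ho, octad_card ho',
      card_golayPt]

private theorem octad_nonempty {o : Finset GolayPt} (ho : o ∈ octads) : o.Nonempty := by
  rw [← Finset.card_pos, octad_card ho]
  norm_num

/-- The trio determined by an ordered pair of disjoint octads. -/
private def phi (x : Finset GolayPt × Finset GolayPt) : Finset (Finset GolayPt) :=
  {x.1, x.2, (x.1 ∪ x.2)ᶜ}

private theorem third_eq {T : Finset (Finset GolayPt)} (hT : T ∈ trios) {a b : Finset GolayPt}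
    (ha : a ∈ T) (hb : b ∈ T) (hab : a ≠ b) : phi (a, b) = T := by
  obtain ⟨hc3, hoct, hdisj⟩ := hT
  have hao := hoct a ha
  have hbo := hoct b hb
  have hd : Disjoint a b := hdisj a ha b hb hab
  -- a third element
  have hlt : ({a, b} : Finset (Finset GolayPt)).card < T.card := by
    rw [hc3, Finset.card_pair hab]
    norm_num
  obtain ⟨c, hcT, hcab⟩ := Finset.exists_mem_notMem_of_card_lt_card hlt
  have hca : c ≠ a := fun h => hcab (by simp [h])
  have hcb : c ≠ b := fun h => hcab (by simp [h])
  have hco := hoct c hcT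
  have hdca : Disjoint c a := hdisj c hcT a ha hca
  have hdcb : Disjoint c b := hdisj c hcT b hb hcb
  have hc : c = (a ∪ b)ᶜ := by
    apply Finset.eq_of_subset_of_card_le
    · intro x hx
      rw [Finset.mem_compl, Finset.mem_union]
      rintro (h | h)
      · exact Finset.disjoint_left.mp hdca hx h
      · exact Finset.disjoint_left.mp hdcb hx h
    · rw [Finset.card_compl, Finset.card_union_of_disjoint hd, octad_card hao, octad_card hbo,
        octad_card hco, card_golayPt]
  have hsub : phi (a, b) ⊆ T := by
    intro x hx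
    simp only [phi, Finset.mem_insert, Finset.mem_singleton] at hx
    rcases hx with rfl | rfl | rfl
    · exact ha
    · exact hb
    · rw [← hc]; exact hcT
  apply Finset.eq_of_subset_of_card_le hsub
  rw [hc3]
  have hac : a ≠ (a ∪ b)ᶜ := by rw [← hc]; exact hca.symm
  have hbc : b ≠ (a ∪ b)ᶜ := by rw [← hc]; exact hcb.symm
  have : (phi (a, b)).card = 3 := by
    simp only [phi]
    rw [Finset.card_insert_of_notMem, Finset.card_pair hbc]
    simp only [Finset.mem_insert, Finset.mem_singleton, not_or]
    exact ⟨hab, hac⟩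
  rw [this]

private theorem phi_mem_trios {a b : Finset GolayPt} (ha : a ∈ octads) (hb : b ∈ octads)
    (hd : Disjoint a b) : phi (a, b) ∈ trios := by
  have hc := compl_union_mem ha hb hd
  have hab : a ≠ b := by
    rintro rfl
    exact (octad_nonempty ha).ne_empty (Finset.disjoint_self_iff_empty a |>.mp hd)
  have hdac : Disjoint a (a ∪ b)ᶜ := by
    rw [Finset.disjoint_left]
    intro x hx hx'
    exact (Finset.mem_compl.mp hx') (Finset.mem_union_left _ hx)
  have hdbc : Disjoint b (a ∪ b)ᶜ := by
    rw [Finset.disjoint_left]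
    intro x hx hx'
    exact (Finset.mem_compl.mp hx') (Finset.mem_union_right _ hx)
  have hac : a ≠ (a ∪ b)ᶜ := by
    intro h
    rw [← h] at hdac
    exact (octad_nonempty ha).ne_empty (Finset.disjoint_self_iff_empty a |>.mp hdac)
  have hbc : b ≠ (a ∪ b)ᶜ := by
    intro h
    rw [← h] at hdbc
    exact (octad_nonempty hb).ne_empty (Finset.disjoint_self_iff_empty b |>.mp hdbc)
  refine ⟨?_, ?_, ?_⟩
  · simp only [phi]
    rw [Finset.card_insert_of_notMem, Finset.card_pair hbc]
    simp only [Finset.mem_insert, Finset.mem_singleton, not_or]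
    exact ⟨hab, hac⟩
  · intro o ho
    simp only [phi, Finset.mem_insert, Finset.mem_singleton] at ho
    rcases ho with rfl | rfl | rfl
    · exact ha
    · exact hb
    · exact hc
  · intro o ho o' ho' hne
    simp only [phi, Finset.mem_insert, Finset.mem_singleton] at ho ho'
    rcases ho with rfl | rfl | rfl <;> rcases ho' with rfl | rfl | rfl
    · exact absurd rfl hne
    · exact hd
    · exact hdac
    · exact hd.symm
    · exact absurd rfl hne
    · exact hdbc
    · exact hdac.symm
    · exact hdbc.symm
    · exact absurd rfl hne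

/-- The complement of the union of two disjoint octads is an octad, and the code has exactly 3795 trios of pairwise disjoint octads. -/
theorem result : (∀ o o' : Finset Cfsg.GolayPt, o ∈ Cfsg.octads → o' ∈ Cfsg.octads → Disjoint o o' → (o ∪ o')ᶜ ∈ Cfsg.octads) ∧ Cfsg.trios.ncard = 3795 := by
  classical
  refine ⟨fun o o' ho ho' hd => compl_union_mem ho ho' hd, ?_⟩
  -- ordered pairs of disjoint octads
  let P : Finset (Finset GolayPt × Finset GolayPt) :=
    (octadFinset ×ˢ octadFinset).filter (fun x => Disjoint x.1 x.2)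
  have hP : ∀ x, x ∈ P ↔ x.1 ∈ octads ∧ x.2 ∈ octads ∧ Disjoint x.1 x.2 := by
    intro x
    simp only [P, Finset.mem_filter, Finset.mem_product, mem_octadFinset, and_assoc]
  have hPcard : P.card = 22770 := by
    have h1 : P.card = ∑ o ∈ octadFinset, (P.filter (fun x => x.1 = o)).card :=
      Finset.card_eq_sum_card_fiberwise (f := fun x => x.1) (s := P) (t := octadFinset)
        (fun x hx => mem_octadFinset.mpr ((hP x).mp hx).1)
    have h2 : ∀ o ∈ octadFinset, (P.filter (fun x => x.1 = o)).card = 30 := by
      intro o ho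
      rw [← card_octads_disjoint (mem_octadFinset.mp ho)]
      apply Finset.card_bij (fun x _ => x.2)
      · intro x hx
        rw [Finset.mem_filter] at hx
        obtain ⟨hx1, rfl⟩ := hx
        rw [Finset.mem_filter, mem_octadFinset]
        exact ⟨((hP x).mp hx1).2.1, ((hP x).mp hx1).2.2⟩
      · intro x hx y hy hxy
        rw [Finset.mem_filter] at hx hy
        exact Prod.ext (hx.2.trans hy.2.symm) hxy
      · intro o' ho'
        rw [Finset.mem_filter, mem_octadFinset] at ho'
        refine ⟨(o, o'), ?_, rfl⟩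
        rw [Finset.mem_filter]
        exact ⟨(hP _).mpr ⟨mem_octadFinset.mp ho, ho'.1, ho'.2⟩, rfl⟩
    rw [h1, Finset.sum_congr rfl h2, Finset.sum_const, card_octadFinset]
    rfl
  let TF : Finset (Finset (Finset GolayPt)) := P.image phi
  have hTF : (TF : Set (Finset (Finset GolayPt))) = trios := by
    ext T
    simp only [TF, Finset.coe_image, Set.mem_image, Finset.mem_coe]
    constructor
    · rintro ⟨x, hx, rfl⟩
      obtain ⟨h1, h2, h3⟩ := (hP x).mp hx
      exact phi_mem_trios h1 h2 h3
    · intro hT
      have hc3 := hT.1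
      obtain ⟨a, b, c, hab, hac, hbc, rfl⟩ := Finset.card_eq_three.mp hc3
      have ha : a ∈ ({a, b, c} : Finset (Finset GolayPt)) := by simp
      have hb : b ∈ ({a, b, c} : Finset (Finset GolayPt)) := by simp
      refine ⟨(a, b), (hP _).mpr ⟨hT.2.1 a ha, hT.2.1 b hb, hT.2.2 a ha b hb hab⟩, ?_⟩
      exact third_eq hT ha hb hab
  have hfib : ∀ T ∈ TF, (P.filter (fun x => phi x = T)).card = 6 := by
    intro T hT
    have hT' : T ∈ trios := by rw [← hTF]; exact hT
    have e : P.filter (fun x => phi x = T) = T.offDiag := by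
      ext x
      rw [Finset.mem_filter, Finset.mem_offDiag, hP]
      constructor
      · rintro ⟨⟨h1, h2, h3⟩, rfl⟩
        refine ⟨by simp [phi], by simp [phi], ?_⟩
        intro h
        rw [h] at h3
        exact (octad_nonempty h2).ne_empty (Finset.disjoint_self_iff_empty _ |>.mp h3)
      · rintro ⟨h1, h2, h3⟩
        exact ⟨⟨hT'.2.1 _ h1, hT'.2.1 _ h2, hT'.2.2 _ h1 _ h2 h3⟩, third_eq hT' h1 h2 h3⟩
    rw [e, Finset.offDiag_card, hT'.1]
  have hcount : P.card = ∑ T ∈ TF, (P.filter (fun x => phi x = T)).card :=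
    Finset.card_eq_sum_card_fiberwise (f := phi) (s := P) (t := TF)
      (fun x hx => Finset.mem_image_of_mem _ hx)
  rw [Finset.sum_congr rfl hfib, Finset.sum_const, hPcard, smul_eq_mul] at hcount
  rw [← hTF, Set.ncard_coe_finset]
  omega

end Cfsg.Agent.S1557
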