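import Cfsg.Statements.S1560
import Cfsg.Agent.Lib.Helper27.Dod

set_option autoImplicit false
open scoped Pointwise
open Cfsg

namespace Cfsg.Agent.S1560

open Cfsg.Agent.Lib.Helper27.Bits Cfsg.Agent.Lib.Helper27.Golay Cfsg.Agent.Lib.Helper27.M24
  Cfsg.Agent.Lib.Helper27.Cert Cfsg.Agent.Lib.Helper27.Trans Cfsg.Agent.Lib.Helper27.Fast
  Cfsg.Agent.Lib.Helper27.Oct Cfsg.Agent.Lib.Helper27.Dod

theorem sizes : allB 4096 (fun c => !(Nat.beq (pcF (cw c)) 12) || (Nat.beq (cw c) d0 ||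
    (Nat.beq (pcF (d0 &&& cw c)) 0 || (Nat.beq (pcF (d0 &&& cw c)) 4 ||
    (Nat.beq (pcF (d0 &&& cw c)) 6 || Nat.beq (pcF (d0 &&& cw c)) 8))))) = true := by
  decide +kernel

theorem count (j : ℕ) : {d' : Finset GolayPt | d' ∈ dodecads ∧ (fsOf d0 ∩ d').card = j}.ncard =
    countB 4096 (fun c => Nat.beq (pcF (cw c)) 12 && Nat.beq (pcF (d0 &&& cw c)) j) := by
  apply ncard_dodecads_filter
  intro c hc
  rw [← setOf_and, card_setOf_F]
  exact ⟨fun h => by rw [h]; exact Nat.beq_refl _, Nat.eq_of_beq_eq_true⟩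

theorem count4 : countB 4096 (fun c => Nat.beq (pcF (cw c)) 12 && Nat.beq (pcF (d0 &&& cw c)) 4)
    = 495 := by decide +kernel

theorem count6 : countB 4096 (fun c => Nat.beq (pcF (cw c)) 12 && Nat.beq (pcF (d0 &&& cw c)) 6)
    = 1584 := by decide +kernel

theorem count8 : countB 4096 (fun c => Nat.beq (pcF (cw c)) 12 && Nat.beq (pcF (d0 &&& cw c)) 8)
    = 495 := by decide +kernel

theorem transfer {g : Equiv.Perm GolayPt} (hg : g ∈ M24) (j : ℕ) :
    {d' : Finset GolayPt | d' ∈ dodecads ∧ (g • fsOf d0 ∩ d').card = j}.ncard =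
      {d' : Finset GolayPt | d' ∈ dodecads ∧ (fsOf d0 ∩ d').card = j}.ncard := by
  apply ncard_congr_smul g
  intro s
  rw [dodecads_smul_iff hg, ← Finset.smul_finset_inter, Finset.card_smul_finset]

/-- Intersection numbers of dodecads: a dodecad meets every other dodecad in 0, 4, 6 or 8 points, meeting 495 of them in 4 points, 1584 in 6 points and 495 in 8 points. -/
theorem result (d : Finset Cfsg.GolayPt) (hd : d ∈ Cfsg.dodecads) : (∀ d' ∈ Cfsg.dodecads, d' ≠ d → (d ∩ d').card = 0 ∨ (d ∩ d').card = 4 ∨ (d ∩ d').card = 6 ∨ (d ∩ d').card = 8) ∧ {d' : Finset Cfsg.GolayPt | d' ∈ Cfsg.dodecads ∧ (d ∩ d').card = 4}.ncard = 495 ∧ {d' : Finset Cfsg.GolayPt | d' ∈ Cfsg.dodecads ∧ (d ∩ d').card = 6}.ncard = 1584 ∧ {d' : Finset Cfsg.GolayPt | d' ∈ Cfsg.dodecads ∧ (d ∩ d').card = 8}.ncard = 495 := by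
  obtain ⟨g, hg, rfl⟩ := dodecad_trans d hd
  refine ⟨?_, ?_, ?_, ?_⟩
  · intro d' hd' hne
    have e : (g • fsOf d0 ∩ d').card = (fsOf d0 ∩ g⁻¹ • d').card := by
      rw [← Finset.card_smul_finset g (fsOf d0 ∩ g⁻¹ • d'), Finset.smul_finset_inter,
        smul_inv_smul]
    have hd'' : g⁻¹ • d' ∈ dodecads := (dodecads_smul_iff (M24.inv_mem hg) _).mpr hd'
    obtain ⟨c, hc, hc1, hc2⟩ := (mem_dodecads_cw _).mp hd''
    have hs := (allB_iff _ _).mp sizes c hc
    rw [e, hc1, ← setOf_and, card_setOf_F]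
    simp only [Bool.or_eq_true, Bool.not_eq_true'] at hs
    rcases hs with h | h | h | h | h | h
    · rw [hc2] at h
      exact absurd h (by decide)
    · exfalso
      apply hne
      have h' : cw c = d0 := Nat.eq_of_beq_eq_true h
      rw [h'] at hc1
      rw [← hc1, smul_inv_smul]
    · exact Or.inl (Nat.eq_of_beq_eq_true h)
    · exact Or.inr (Or.inl (Nat.eq_of_beq_eq_true h))
    · exact Or.inr (Or.inr (Or.inl (Nat.eq_of_beq_eq_true h)))
    · exact Or.inr (Or.inr (Or.inr (Nat.eq_of_beq_eq_true h)))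
  · rw [transfer hg, count, count4]
  · rw [transfer hg, count, count6]
  · rw [transfer hg, count, count8]

end Cfsg.Agent.S1560
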