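import Cfsg.Statements.S1562
import Cfsg.Agent.Lib.Helper27.Tri

set_option autoImplicit false
open scoped Pointwise
open Cfsg

namespace Cfsg.Agent.S1562

open Cfsg.Agent.Lib.Helper27.Bits Cfsg.Agent.Lib.Helper27.Golay Cfsg.Agent.Lib.Helper27.M24
  Cfsg.Agent.Lib.Helper27.Cert Cfsg.Agent.Lib.Helper27.Trans Cfsg.Agent.Lib.Helper27.Fast
  Cfsg.Agent.Lib.Helper27.Oct Cfsg.Agent.Lib.Helper27.Coset Cfsg.Agent.Lib.Helper27.Sub3
  Cfsg.Agent.Lib.Helper27.Tri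

theorem cnt0 : countB 13824 (fun c => sorted3 c &&
    (Nat.beq (pcF (t0 &&& mask3 c)) 0 && octSup (t0 ||| mask3 c))) = 210 := by
  decide +kernel

theorem cnt1 : countB 13824 (fun c => sorted3 c &&
    (Nat.beq (pcF (t0 &&& mask3 c)) 0 && !octSup (t0 ||| mask3 c))) = 1120 := by
  decide +kernel

/-- the statement for a triple -/
def P (T : Finset GolayPt) : Prop :=
  {U : Finset GolayPt | U.card = 3 ∧ Disjoint T U ∧ (∃ o ∈ octads, T ∪ U ⊆ o)}.ncard = 210 ∧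
  {U : Finset GolayPt | U.card = 3 ∧ Disjoint T U ∧ ¬ (∃ o ∈ octads, T ∪ U ⊆ o)}.ncard = 1120 ∧
  ∀ U U' : Finset GolayPt, U.card = 3 → U'.card = 3 → Disjoint T U → Disjoint T U' →
    ((∃ o ∈ octads, T ∪ U ⊆ o) ↔ (∃ o ∈ octads, T ∪ U' ⊆ o)) →
    ∃ g : Equiv.Perm GolayPt, g ∈ M24 ∧ g • T = T ∧ g • U = U'

theorem disj_smul (g : Equiv.Perm GolayPt) (A B : Finset GolayPt) :
    Disjoint (g • A) (g • B) ↔ Disjoint A B := by
  rw [Finset.disjoint_iff_inter_eq_empty, Finset.disjoint_iff_inter_eq_empty,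
    ← Finset.smul_finset_inter, Finset.smul_finset_eq_empty]

theorem oct_smul {g : Equiv.Perm GolayPt} (hg : g ∈ M24) (A B : Finset GolayPt) :
    (∃ o ∈ octads, g • A ∪ g • B ⊆ o) ↔ (∃ o ∈ octads, A ∪ B ⊆ o) := by
  rw [← Finset.smul_finset_union]
  constructor
  · rintro ⟨o, ho, hsub⟩
    refine ⟨g⁻¹ • o, (octads_smul_iff (M24.inv_mem hg) o).mpr ho, ?_⟩
    rw [← Finset.smul_finset_subset_smul_finset_iff (a := g), smul_inv_smul]
    exact hsub
  · rintro ⟨o, ho, hsub⟩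
    exact ⟨g • o, (octads_smul_iff hg o).mpr ho, Finset.smul_finset_subset_smul_finset hsub⟩

theorem transport {g : Equiv.Perm GolayPt} (hg : g ∈ M24) (T : Finset GolayPt)
    (h : P T) : P (g • T) := by
  obtain ⟨h0, h1, hT⟩ := h
  refine ⟨?_, ?_, ?_⟩
  · rw [← h0]
    apply ncard_congr_smul g (fun U => U.card = 3 ∧ Disjoint T U ∧ (∃ o ∈ octads, T ∪ U ⊆ o))
      (fun U => U.card = 3 ∧ Disjoint (g • T) U ∧ (∃ o ∈ octads, g • T ∪ U ⊆ o))
    intro U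
    rw [Finset.card_smul_finset, disj_smul, oct_smul hg]
  · rw [← h1]
    apply ncard_congr_smul g (fun U => U.card = 3 ∧ Disjoint T U ∧ ¬ (∃ o ∈ octads, T ∪ U ⊆ o))
      (fun U => U.card = 3 ∧ Disjoint (g • T) U ∧ ¬ (∃ o ∈ octads, g • T ∪ U ⊆ o))
    intro U
    rw [Finset.card_smul_finset, disj_smul, oct_smul hg]
  · intro U U' hU hU' hd hd' hiff
    have e : ∀ V : Finset GolayPt, (∃ o ∈ octads, T ∪ g⁻¹ • V ⊆ o) ↔ (∃ o ∈ octads, g • T ∪ V ⊆ o) := by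
      intro V
      rw [← oct_smul hg T (g⁻¹ • V), smul_inv_smul]
    have d : ∀ V : Finset GolayPt, Disjoint (g • T) V → Disjoint T (g⁻¹ • V) := by
      intro V hV
      rw [← disj_smul g, smul_inv_smul]
      exact hV
    obtain ⟨k, hk, hkT, hkU⟩ := hT (g⁻¹ • U) (g⁻¹ • U')
      (by rw [Finset.card_smul_finset]; exact hU) (by rw [Finset.card_smul_finset]; exact hU')
      (d U hd) (d U' hd') (by rw [e, e]; exact hiff)
    refine ⟨g * k * g⁻¹, M24.mul_mem (M24.mul_mem hg hk) (M24.inv_mem hg), ?_, ?_⟩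
    · rw [mul_smul, mul_smul, inv_smul_smul, hkT]
    · rw [mul_smul, mul_smul, hkU, smul_inv_smul]

theorem base : P (fsOf t0) := by
  refine ⟨?_, ?_, ?_⟩
  · rw [ncard_three (fun U => Disjoint (fsOf t0) U ∧ (∃ o ∈ octads, fsOf t0 ∪ U ⊆ o))
      (fun c => Nat.beq (pcF (t0 &&& mask3 c)) 0 && octSup (t0 ||| mask3 c)), cnt0]
    intro c hc hs
    rw [disjoint_iff_pcF, ← setOf_or, Bool.and_eq_true, Nat.beq_eq]
    constructor
    · rintro ⟨hd, ho⟩
      have h6 := pcF_or t0 (mask3 c)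
      have h3 := pcF_mask3 hc hs
      have h3' : pcF t0 = 3 := by decide +kernel
      exact ⟨hd, (octSup_iff (Nat.or_lt_two_pow (by decide) (mask3_lt hc)) (by omega)).mp ho⟩
    · rintro ⟨hd, ho⟩
      have h6 := pcF_or t0 (mask3 c)
      have h3 := pcF_mask3 hc hs
      have h3' : pcF t0 = 3 := by decide +kernel
      exact ⟨hd, (octSup_iff (Nat.or_lt_two_pow (by decide) (mask3_lt hc)) (by omega)).mpr ho⟩
  · rw [ncard_three (fun U => Disjoint (fsOf t0) U ∧ ¬ (∃ o ∈ octads, fsOf t0 ∪ U ⊆ o))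
      (fun c => Nat.beq (pcF (t0 &&& mask3 c)) 0 && !octSup (t0 ||| mask3 c)), cnt1]
    intro c hc hs
    rw [disjoint_iff_pcF, ← setOf_or, Bool.and_eq_true, Nat.beq_eq]
    constructor
    · rintro ⟨hd, ho⟩
      have h6 := pcF_or t0 (mask3 c)
      have h3 := pcF_mask3 hc hs
      have h3' : pcF t0 = 3 := by decide +kernel
      refine ⟨hd, ?_⟩
      rw [octSup_iff (Nat.or_lt_two_pow (by decide) (mask3_lt hc)) (by omega)] at ho
      simpa using ho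
    · rintro ⟨hd, ho⟩
      have h6 := pcF_or t0 (mask3 c)
      have h3 := pcF_mask3 hc hs
      have h3' : pcF t0 = 3 := by decide +kernel
      refine ⟨hd, ?_⟩
      rw [octSup_iff (Nat.or_lt_two_pow (by decide) (mask3_lt hc)) (by omega)]
      simpa using ho
  · intro U U' hU hU' hd hd' hiff
    apply tri_class_trans U U' hU hU'
    by_cases ho : ∃ o ∈ octads, fsOf t0 ∪ U ⊆ o
    · rw [(clsT_eq_zero_iff _ _).mpr ⟨hd, ho⟩, (clsT_eq_zero_iff _ _).mpr ⟨hd', hiff.mp ho⟩]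
    · rw [(clsT_eq_one_iff _ _).mpr ⟨hd, ho⟩, (clsT_eq_one_iff _ _).mpr ⟨hd', fun h => ho (hiff.mpr h)⟩]

/-- Orbits of a triad stabiliser on the triads disjoint from it: the 210 triads inside a common octad with it form one orbit and the remaining 1120 another. -/
theorem result (T : Finset Cfsg.GolayPt) (hT : T.card = 3) : {U : Finset Cfsg.GolayPt | U.card = 3 ∧ Disjoint T U ∧ (∃ o ∈ Cfsg.octads, T ∪ U ⊆ o)}.ncard = 210 ∧ {U : Finset Cfsg.GolayPt | U.card = 3 ∧ Disjoint T U ∧ ¬ (∃ o ∈ Cfsg.octads, T ∪ U ⊆ o)}.ncard = 1120 ∧ ∀ U U' : Finset Cfsg.GolayPt, U.card = 3 → U'.card = 3 → Disjoint T U → Disjoint T U' → ((∃ o ∈ Cfsg.octads, T ∪ U ⊆ o) ↔ (∃ o ∈ Cfsg.octads, T ∪ U' ⊆ o)) → ∃ g : Equiv.Perm Cfsg.GolayPt, g ∈ Cfsg.M24 ∧ g • T = T ∧ g • U = U' := by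
  obtain ⟨g, hg, rfl⟩ := triple_trans T hT
  exact transport hg _ base

end Cfsg.Agent.S1562
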