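import Cfsg.Statements.S1568
import Cfsg.Agent.Lib.Helper92.Shells

set_option autoImplicit false
open Cfsg

namespace Cfsg.Agent.S1568

open Cfsg.Agent.Lib.Helper92.LeechCore Cfsg.Agent.Lib.Helper92.MinVec
open Cfsg.Agent.Lib.Helper92.Orbit48 Cfsg.Agent.Lib.Helper92.Families
open Cfsg.Agent.Lib.Helper92.Families2 Cfsg.Agent.Lib.Helper92.Shells

theorem abs_tw (c : Finset GolayPt) (w : GolayPt → ℤ) (i : GolayPt) : |tw c w i| = |w i| := by
  unfold tw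
  split_ifs
  · exact abs_neg _
  · rfl

theorem abs_w33 (J : Finset GolayPt) (i : GolayPt) : |w33 J i| = if i ∈ J then 3 else 1 := by
  unfold w33
  split_ifs <;> rfl

theorem abs_w5 (j i : GolayPt) : |w5 j i| = if i = j then 5 else 1 := by
  unfold w5
  split_ifs <;> rfl

theorem abs_gv {c e p e' : Finset GolayPt} (he : e ⊆ c) (he' : e' ⊆ p) (hd : Disjoint c p)
    (i : GolayPt) : |gv c e p e' i| = if i ∈ c then 2 else if i ∈ p then 4 else 0 := by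
  by_cases h1 : i ∈ c
  · rw [gv_apply_c he' hd h1, shape2_val h1, if_pos h1]
    split_ifs <;> rfl
  · by_cases h2 : i ∈ p
    · rw [gv_apply_p he hd h2, shape4_val h2, if_neg h1, if_pos h2]
      split_ifs <;> rfl
    · rw [gv_apply_out he he' h1 h2, if_neg h1, if_neg h2]
      rfl

theorem cases48 {x : GolayPt → ℤ} (hx : x ∈ leechLattice) (hn : sqNorm x = 48) :
    x ∈ FOdd (W33 3) ∨ x ∈ FOdd W5 ∨ x ∈ FG 12 0 ∨ x ∈ FG 8 1 := by
  have h : x ∈ shell 48 := mem_shell.mpr ⟨hx, hn⟩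
  rw [shell48_eq] at h
  unfold L48 at h
  simp only [Finset.mem_union] at h
  tauto

theorem mem48 {x : GolayPt → ℤ}
    (h : x ∈ FOdd (W33 3) ∨ x ∈ FOdd W5 ∨ x ∈ FG 12 0 ∨ x ∈ FG 8 1) :
    x ∈ leechLattice ∧ sqNorm x = 48 := by
  apply L48_spec
  unfold L48
  simp only [Finset.mem_union]
  tauto

theorem prof33 {x : GolayPt → ℤ} (h : x ∈ FOdd (W33 3)) :
    (∀ i, |x i| = 3 ∨ |x i| = 1) ∧
      ∃ i j k, i ≠ j ∧ j ≠ k ∧ i ≠ k ∧ |x i| = 3 ∧ |x j| = 3 ∧ |x k| = 3 := by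
  obtain ⟨c, w, -, hw, rfl⟩ := mem_FOdd.mp h
  obtain ⟨J, hJ, rfl⟩ := mem_W33.mp hw
  constructor
  · intro i
    rw [abs_tw, abs_w33]
    split_ifs
    · exact Or.inl rfl
    · exact Or.inr rfl
  · obtain ⟨i, j, k, hij, hik, hjk, rfl⟩ := Finset.card_eq_three.mp hJ
    refine ⟨i, j, k, hij, hjk, hik, ?_, ?_, ?_⟩
    · rw [abs_tw, abs_w33, if_pos (by simp)]
    · rw [abs_tw, abs_w33, if_pos (by simp)]
    · rw [abs_tw, abs_w33, if_pos (by simp)]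

theorem prof5 {x : GolayPt → ℤ} (h : x ∈ FOdd W5) :
    (∀ i, |x i| = 5 ∨ |x i| = 1) ∧ ∃ i, |x i| = 5 := by
  obtain ⟨c, w, -, hw, rfl⟩ := mem_FOdd.mp h
  obtain ⟨j, rfl⟩ := mem_W5.mp hw
  constructor
  · intro i
    rw [abs_tw, abs_w5]
    split_ifs
    · exact Or.inl rfl
    · exact Or.inr rfl
  · exact ⟨j, by rw [abs_tw, abs_w5, if_pos rfl]⟩

theorem prof12 {x : GolayPt → ℤ} (h : x ∈ FG 12 0) : ∀ i, x i = 0 ∨ x i = 2 ∨ x i = -2 := by
  obtain ⟨c, e, p, e', -, ⟨he, -⟩, ⟨hp, hp0⟩, he', rfl⟩ := mem_FG.mp h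
  have hp0 : p = ∅ := Finset.card_eq_zero.mp hp0
  subst hp0
  intro i
  have := abs_gv he he' (disj_of_compl hp) i
  by_cases h1 : i ∈ c
  · rw [if_pos h1] at this
    rcases abs_eq (by norm_num : (0 : ℤ) ≤ 2) |>.mp this with h | h
    · exact Or.inr (Or.inl h)
    · exact Or.inr (Or.inr h)
  · rw [if_neg h1, if_neg (Finset.notMem_empty i)] at this
    exact Or.inl (abs_eq_zero.mp this)

theorem prof8 {x : GolayPt → ℤ} (h : x ∈ FG 8 1) :
    (∀ i, |x i| = 0 ∨ |x i| = 2 ∨ |x i| = 4) ∧ ∃ i, |x i| = 4 := by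
  obtain ⟨c, e, p, e', -, ⟨he, -⟩, ⟨hp, hp1⟩, he', rfl⟩ := mem_FG.mp h
  have hd := disj_of_compl hp
  constructor
  · intro i
    rw [abs_gv he he' hd]
    split_ifs
    · exact Or.inr (Or.inl rfl)
    · exact Or.inr (Or.inr rfl)
    · exact Or.inl rfl
  · obtain ⟨i, rfl⟩ := Finset.card_eq_one.mp hp1
    refine ⟨i, ?_⟩
    have hi : i ∉ c := Finset.disjoint_right.mp hd (Finset.mem_singleton_self i)
    rw [abs_gv he he' hd, if_neg hi, if_pos (Finset.mem_singleton_self i)]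

theorem setA : {x : GolayPt → ℤ | x ∈ leechLattice ∧ sqNorm x = 48 ∧
    ∀ i, x i = 0 ∨ x i = 2 ∨ x i = -2} = ↑(FG 12 0) := by
  ext x
  rw [Set.mem_setOf_eq, Finset.mem_coe]
  constructor
  · rintro ⟨hx, hn, hA⟩
    have h0 : |x none| = 0 ∨ |x none| = 2 := by
      rcases hA none with h | h | h <;> rw [h]
      · exact Or.inl rfl
      · exact Or.inr rfl
      · exact Or.inr rfl
    rcases cases48 hx hn with h | h | h | h
    · rcases (prof33 h).1 none with h1 | h1 <;> omega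
    · rcases (prof5 h).1 none with h1 | h1 <;> omega
    · exact h
    · obtain ⟨i, hi⟩ := (prof8 h).2
      rcases hA i with h1 | h1 | h1 <;> rw [h1] at hi <;> norm_num at hi
  · intro h
    obtain ⟨h1, h2⟩ := mem48 (Or.inr (Or.inr (Or.inl h)))
    exact ⟨h1, h2, prof12 h⟩

theorem setB : {x : GolayPt → ℤ | x ∈ leechLattice ∧ sqNorm x = 48 ∧
    ∃ i j k, i ≠ j ∧ j ≠ k ∧ i ≠ k ∧ |x i| = 3 ∧ |x j| = 3 ∧ |x k| = 3} = ↑(FOdd (W33 3)) := by
  ext x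
  rw [Set.mem_setOf_eq, Finset.mem_coe]
  constructor
  · rintro ⟨hx, hn, i, -, -, -, -, -, hi, -, -⟩
    rcases cases48 hx hn with h | h | h | h
    · exact h
    · rcases (prof5 h).1 i with h1 | h1 <;> omega
    · rcases prof12 h i with h1 | h1 | h1 <;> rw [h1] at hi <;> norm_num at hi
    · rcases (prof8 h).1 i with h1 | h1 | h1 <;> omega
  · intro h
    obtain ⟨h1, h2⟩ := mem48 (Or.inl h)
    exact ⟨h1, h2, (prof33 h).2⟩

theorem setC : {x : GolayPt → ℤ | x ∈ leechLattice ∧ sqNorm x = 48 ∧ ∃ i, |x i| = 4}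
    = ↑(FG 8 1) := by
  ext x
  rw [Set.mem_setOf_eq, Finset.mem_coe]
  constructor
  · rintro ⟨hx, hn, i, hi⟩
    rcases cases48 hx hn with h | h | h | h
    · rcases (prof33 h).1 i with h1 | h1 <;> omega
    · rcases (prof5 h).1 i with h1 | h1 <;> omega
    · rcases prof12 h i with h1 | h1 | h1 <;> rw [h1] at hi <;> norm_num at hi
    · exact h
  · intro h
    obtain ⟨h1, h2⟩ := mem48 (Or.inr (Or.inr (Or.inr h)))
    exact ⟨h1, h2, (prof8 h).2⟩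

theorem setD : {x : GolayPt → ℤ | x ∈ leechLattice ∧ sqNorm x = 48 ∧ ∃ i, |x i| = 5}
    = ↑(FOdd W5) := by
  ext x
  rw [Set.mem_setOf_eq, Finset.mem_coe]
  constructor
  · rintro ⟨hx, hn, i, hi⟩
    rcases cases48 hx hn with h | h | h | h
    · rcases (prof33 h).1 i with h1 | h1 <;> omega
    · exact h
    · rcases prof12 h i with h1 | h1 | h1 <;> rw [h1] at hi <;> norm_num at hi
    · rcases (prof8 h).1 i with h1 | h1 | h1 <;> omega
  · intro h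
    obtain ⟨h1, h2⟩ := mem48 (Or.inr (Or.inl h))
    exact ⟨h1, h2, (prof5 h).2⟩

/-- Shape census of the lattice vectors of sum of squares 48 (customary norm 6): the four families (2^12, 0^12), (±3^3, ±1^21), (±4, ±2^8, 0^15) and (±5, ±1^23) have 5275648, 8290304, 3108864 and 98304 members. -/
theorem result : {x : Cfsg.GolayPt → ℤ | x ∈ Cfsg.leechLattice ∧ Cfsg.sqNorm x = 48 ∧ ∀ i, x i = 0 ∨ x i = 2 ∨ x i = -2}.ncard = 5275648 ∧ {x : Cfsg.GolayPt → ℤ | x ∈ Cfsg.leechLattice ∧ Cfsg.sqNorm x = 48 ∧ ∃ i j k, i ≠ j ∧ j ≠ k ∧ i ≠ k ∧ |x i| = 3 ∧ |x j| = 3 ∧ |x k| = 3}.ncard = 8290304 ∧ {x : Cfsg.GolayPt → ℤ | x ∈ Cfsg.leechLattice ∧ Cfsg.sqNorm x = 48 ∧ ∃ i, |x i| = 4}.ncard = 3108864 ∧ {x : Cfsg.GolayPt → ℤ | x ∈ Cfsg.leechLattice ∧ Cfsg.sqNorm x = 48 ∧ ∃ i, |x i| = 5}.ncard = 98304 := by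
  rw [setA, setB, setC, setD, Set.ncard_coe_finset, Set.ncard_coe_finset, Set.ncard_coe_finset,
    Set.ncard_coe_finset]
  exact ⟨card_FG_12_0, card_FOdd_W33_3, card_FG_8_1, card_FOdd_W5⟩

end Cfsg.Agent.S1568
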