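import Cfsg.Statements.S1572
import Cfsg.Agent.Lib.Helper92.MaxChain

set_option autoImplicit false
open scoped Pointwise
open Cfsg

namespace Cfsg.Agent.S1572

/-- The stabiliser of the standard cross is a maximal proper subgroup of the lattice's automorphism group. -/
theorem result (H : Subgroup ↥Cfsg.Co0) (hH : (H : Set ↥Cfsg.Co0) = {g : ↥Cfsg.Co0 | (∀ v : ↥Cfsg.leechLattice, (v : Cfsg.GolayPt → ℤ) ∈ Cfsg.stdCross → ((g • v : ↥Cfsg.leechLattice) : Cfsg.GolayPt → ℤ) ∈ Cfsg.stdCross)}) : IsCoatom H := by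
  have hmem : ∀ g : ↥Cfsg.Co0, g ∈ H ↔ g • Cfsg.Agent.Lib.Helper92.ActQ.c0
      = Cfsg.Agent.Lib.Helper92.ActQ.c0 := by
    intro g
    rw [Cfsg.Agent.Lib.Helper92.ActQ.stab_iff, ← SetLike.mem_coe, hH]
    rfl
  refine ⟨?_, ?_⟩
  · intro htop
    have h1 : MulAction.stabilizer ↥Cfsg.Co0 Cfsg.Agent.Lib.Helper92.ActQ.c0 = ⊤ := by
      rw [eq_top_iff]
      intro g _
      rw [MulAction.mem_stabilizer_iff, ← hmem, htop]
      exact Subgroup.mem_top g
    have h2 := Cfsg.Agent.Lib.Helper92.ActQ.card_stab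
    rw [h1, Subgroup.card_top, Cfsg.Agent.Lib.Helper92.ActQ.card_Co0] at h2
    norm_num at h2
  · intro K hK
    obtain ⟨k, hkK, hkH⟩ := SetLike.exists_of_lt hK
    exact Cfsg.Agent.Lib.Helper92.MaxChain.maximal_aux K
      (fun g hg => hK.le ((hmem g).mpr hg)) ⟨k, hkK, fun h => hkH ((hmem k).mpr h)⟩

end Cfsg.Agent.S1572
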