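import Cfsg.Statements.S1578
import Cfsg.Agent.Lib.Helper92.Counts48

set_option autoImplicit false
open Cfsg

namespace Cfsg.Agent.S1578

/-- A lattice vector of customary norm 6 is the sum of an unordered pair of minimal vectors in exactly 276 ways (552 ordered summands). -/
theorem result (u : ↥Cfsg.leechLattice) (hu : Cfsg.sqNorm (u : Cfsg.GolayPt → ℤ) = 48) : {v : ↥Cfsg.leechLattice | Cfsg.sqNorm (v : Cfsg.GolayPt → ℤ) = 32 ∧ Cfsg.sqNorm ((u - v) : Cfsg.GolayPt → ℤ) = 32}.ncard = 552 := by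
  have h1 : {v : ↥Cfsg.leechLattice | Cfsg.sqNorm (v : Cfsg.GolayPt → ℤ) = 32 ∧
      Cfsg.sqNorm ((u - v) : Cfsg.GolayPt → ℤ) = 32}
      = {v : ↥Cfsg.leechLattice | Cfsg.sqNorm (v : Cfsg.GolayPt → ℤ) = 32 ∧
          Cfsg.dotInt (u : Cfsg.GolayPt → ℤ) (v : Cfsg.GolayPt → ℤ) = 24} := by
    ext v
    simp only [Set.mem_setOf_eq]
    constructor
    · rintro ⟨a, b⟩
      exact ⟨a, (Cfsg.Agent.Lib.Helper92.Counts48.sub_min_iff _ _ hu a).mp b⟩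
    · rintro ⟨a, b⟩
      exact ⟨a, (Cfsg.Agent.Lib.Helper92.Counts48.sub_min_iff _ _ hu a).mpr b⟩
  rw [h1, Cfsg.Agent.Lib.Helper92.CensusSpec.ncard_subtype
    (fun w => Cfsg.sqNorm w = 32 ∧ Cfsg.dotInt (u : Cfsg.GolayPt → ℤ) w = 24)]
  exact Cfsg.Agent.Lib.Helper92.Counts48.count48_24 u u.2 hu

end Cfsg.Agent.S1578
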