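import Cfsg.Statements.S1580
import Cfsg.Agent.Lib.Helper27.CoStd

set_option autoImplicit false
open Cfsg

namespace Cfsg.Agent.S1580

open Cfsg.Agent.Lib.Helper27 Cfsg.Agent.Lib.Helper27.Bits Cfsg.Agent.Lib.Helper27.Pk
open Cfsg.Agent.Lib.Helper27.MinTab Cfsg.Agent.Lib.Helper27.MinEnum Cfsg.Agent.Lib.Helper27.MinFast
open Cfsg.Agent.Lib.Helper27.MinAll Cfsg.Agent.Lib.Helper27.LDot Cfsg.Agent.Lib.Helper27.LMat
open Cfsg.Agent.Lib.Helper27.Spread Cfsg.Agent.Lib.Helper27.Co0Act Cfsg.Agent.Lib.Helper27.LApp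
open Cfsg.Agent.Lib.Helper27.OrbCert Cfsg.Agent.Lib.Helper27.CoGlue
open Cfsg.Agent.Lib.Helper27.CertBase Cfsg.Agent.Lib.Helper27.CoStd


/-- The McLaughlin configuration: for u of customary norm 6 and v minimal with u − v minimal, there are 275 further such summands x of customary inner product 2 with v, permuted transitively by the stabiliser of u and v. -/
theorem result (u v : ↥Cfsg.leechLattice) (hu : Cfsg.sqNorm (u : Cfsg.GolayPt → ℤ) = 48) (hv : Cfsg.sqNorm (v : Cfsg.GolayPt → ℤ) = 32 ∧ Cfsg.sqNorm ((u - v) : Cfsg.GolayPt → ℤ) = 32) : {x : ↥Cfsg.leechLattice | Cfsg.sqNorm (x : Cfsg.GolayPt → ℤ) = 32 ∧ Cfsg.sqNorm ((u - x) : Cfsg.GolayPt → ℤ) = 32 ∧ Cfsg.dotInt (v : Cfsg.GolayPt → ℤ) (x : Cfsg.GolayPt → ℤ) = 16}.ncard = 275 ∧ ∀ x ∈ {x : ↥Cfsg.leechLattice | Cfsg.sqNorm (x : Cfsg.GolayPt → ℤ) = 32 ∧ Cfsg.sqNorm ((u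 - x) : Cfsg.GolayPt → ℤ) = 32 ∧ Cfsg.dotInt (v : Cfsg.GolayPt → ℤ) (x : Cfsg.GolayPt → ℤ) = 16}, ∀ x' ∈ {x : ↥Cfsg.leechLattice | Cfsg.sqNorm (x : Cfsg.GolayPt → ℤ) = 32 ∧ Cfsg.sqNorm ((u - x) : Cfsg.GolayPt → ℤ) = 32 ∧ Cfsg.dotInt (v : Cfsg.GolayPt → ℤ) (x : Cfsg.GolayPt → ℤ) = 16}, ∃ g : ↥Cfsg.Co0, g • u = u ∧ g • v = v ∧ g • x = x' := by

  obtain ⟨g0, h1, h2⟩ := std_uv u v hu hv
  refine ⟨?_, ?_⟩
  · rw [ncard_om_smul g0 CertMcL.cP _ (mem_P g0 hu h1 h2)]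
    exact CertMcL.cardP
  · intro x hx x' hx'
    obtain ⟨g, h3, h4⟩ := trans_smul CertMcL.transP g0 ((mem_P g0 hu h1 h2 x).mp hx)
      ((mem_P g0 hu h1 h2 x').mp hx')
    exact ⟨g, h4 u ⟨U0, by simp, by rw [h1]; rfl⟩, h4 v ⟨V0, by simp, by rw [h2]; rfl⟩, h3⟩

end Cfsg.Agent.S1580
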