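import Cfsg.Statements.S1581
import Cfsg.Agent.Lib.Helper27.CoStd
import Cfsg.Agent.Lib.Helper27.CertU43

set_option autoImplicit false
open Cfsg

namespace Cfsg.Agent.S1581

open Cfsg.Agent.Lib.Helper27 Cfsg.Agent.Lib.Helper27.Bits Cfsg.Agent.Lib.Helper27.Pk
open Cfsg.Agent.Lib.Helper27.MinTab Cfsg.Agent.Lib.Helper27.MinEnum Cfsg.Agent.Lib.Helper27.MinFast
open Cfsg.Agent.Lib.Helper27.MinAll Cfsg.Agent.Lib.Helper27.LDot Cfsg.Agent.Lib.Helper27.LMat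
open Cfsg.Agent.Lib.Helper27.Spread Cfsg.Agent.Lib.Helper27.Co0Act Cfsg.Agent.Lib.Helper27.LApp
open Cfsg.Agent.Lib.Helper27.OrbCert Cfsg.Agent.Lib.Helper27.CoGlue
open Cfsg.Agent.Lib.Helper27.CertBase Cfsg.Agent.Lib.Helper27.CoStd

/-- A vector of the set of 275 is the standard one or has inner product 8 or 16 with it. -/
theorem cover (z : GolayPt → ℤ) (hz : z ∈ Om CertMcL.cP) :
    z = vecB XA ∨ dotInt (vecB XA) z = 8 ∨ dotInt (vecB XA) z = 16 := by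
  have hq : ∀ k, CertU43.qP k = true → k = 104 ∨
      ∃ v ∈ [((8 : ℕ), (0 : ℕ)), (16, 0)], condOK XA v.1 v.2 (mvB k) = true := by
    intro k hk
    unfold CertU43.qP at hk
    rw [Bool.or_eq_true, Bool.or_eq_true] at hk
    rcases hk with (hk | hk) | hk
    · left
      exact Nat.eq_of_beq_eq_true hk
    · right
      exact ⟨(8, 0), by simp, hk⟩
    · right
      exact ⟨(16, 0), by simp, hk⟩
  rcases cover_of CertMcL.tabP CertMcL.hcP XA 104 CertU43.qP [(8, 0), (16, 0)] valid_XA hq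
    CertU43.coverP z hz with h | ⟨v, hv, h⟩
  · left
    rw [h, vecB_mv XA_eq (by decide) (by decide)]
  · simp only [List.mem_cons, List.not_mem_nil, or_false] at hv
    rcases hv with rfl | rfl
    · right
      left
      rw [h]
      norm_num
    · right
      right
      rw [h]
      norm_num


/-- The McLaughlin group acts with rank 3 and subdegrees 1, 112, 162 on its 275 points: the point stabiliser has two orbits on the remaining points, distinguished by customary inner product 1 or 2 with the fixed point. -/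
theorem result (u v x : ↥Cfsg.leechLattice) (hu : Cfsg.sqNorm (u : Cfsg.GolayPt → ℤ) = 48) (hv : Cfsg.sqNorm (v : Cfsg.GolayPt → ℤ) = 32 ∧ Cfsg.sqNorm ((u - v) : Cfsg.GolayPt → ℤ) = 32) (hx : x ∈ {x : ↥Cfsg.leechLattice | Cfsg.sqNorm (x : Cfsg.GolayPt → ℤ) = 32 ∧ Cfsg.sqNorm ((u - x) : Cfsg.GolayPt → ℤ) = 32 ∧ Cfsg.dotInt (v : Cfsg.GolayPt → ℤ) (x : Cfsg.GolayPt → ℤ) = 16}) : {y : ↥Cfsg.leechLattice | y ∈ {x : ↥Cfsg.leechLattice | Cfsg.sqNorm (x : Cfsg.GolayPt → ℤ) = 32 ∧ Cfsg.sqNorm ((u - x) : Cfsg.GolayPt → ℤ) = 32 ∧ Cfsg.dotInt (v : Cfsg.GolayPt → ℤ) (x : Cfsg.GolayPt → ℤ) = 16} ∧ Cfsg.dotInt (x : Cfsg.GolayPt → ℤ) (y : Cfsg.GolayPt → ℤ) = 8}.ncard = 112 ∧ {y : ↥Cfsg.leechLattice | y ∈ {x : ↥Cfsg.leechLattice | Cfsg.sqNorm (x : Cfsg.GolayPt → ℤ) = 32 ∧ Cfsg.sqNorm ((u - x) : Cfsg.GolayPt → ℤ) = 32 ∧ Cfsg.dotInt (v : Cfsg.GolayPt → ℤ) (x : Cfsg.GolayPt → ℤ) =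 16} ∧ y ≠ x ∧ Cfsg.dotInt (x : Cfsg.GolayPt → ℤ) (y : Cfsg.GolayPt → ℤ) = 16}.ncard = 162 ∧ ∀ y ∈ {x : ↥Cfsg.leechLattice | Cfsg.sqNorm (x : Cfsg.GolayPt → ℤ) = 32 ∧ Cfsg.sqNorm ((u - x) : Cfsg.GolayPt → ℤ) = 32 ∧ Cfsg.dotInt (v : Cfsg.GolayPt → ℤ) (x : Cfsg.GolayPt → ℤ) = 16}, ∀ y' ∈ {x : ↥Cfsg.leechLattice | Cfsg.sqNorm (x : Cfsg.GolayPt → ℤ) = 32 ∧ Cfsg.sqNorm ((u - x) : Cfsg.GolayPt → ℤ) = 32 ∧ Cfsg.dotInt (v : Cfsg.GolayPt → ℤ) (x : Cfsg.GolayPt → ℤ) = 16}, y ≠ x → y' ≠ x → Cfsg.dotInt (x : Cfsg.GolayPt → ℤ) (y : Cfsg.GolayPt → ℤ) = Cfsg.dotInt (x : Cfsg.GolayPt → ℤ) (y' : Cfsg.GolayPt → ℤ) → ∃ g : ↥Cfsg.Co0, g • u = u ∧ g • v = v ∧ g • x = x ∧ g • y = y' := by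

  obtain ⟨g0, h1, h2, h3⟩ := std_uvx u v x hu hv hx
  have hxn : sqNorm (x : GolayPt → ℤ) = 32 := hx.1
  have hxb : ((g0 • x : leechLattice) : GolayPt → ℤ) = vecB XA := by
    rw [h3]
    rfl
  have e : ∀ z : leechLattice, dotInt (vecB XA) ((g0 • z : leechLattice) : GolayPt → ℤ)
      = dotInt (x : GolayPt → ℤ) (z : GolayPt → ℤ) := by
    intro z
    rw [← smul_dot g0 x z, h3]
    rfl
  have hfix : ∀ g : Co0, (∀ a : leechLattice, (∃ b ∈ [U0, V0, W0, XA],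
      ((g0 • a : leechLattice) : GolayPt → ℤ) = vecB b) → g • a = a) →
      g • u = u ∧ g • v = v ∧ g • x = x := by
    intro g hg
    exact ⟨hg u ⟨U0, by simp, by rw [h1]; rfl⟩, hg v ⟨V0, by simp, by rw [h2]; rfl⟩,
      hg x ⟨XA, by simp, hxb⟩⟩
  refine ⟨?_, ?_, ?_⟩
  · exact (ncard_om_smul g0 CertU43.cR1 _
      (mem_sub g0 (mem_P g0 hu h1 h2) hxb 8 0 8 (by norm_num))).trans CertU43.cardR1
  · refine (ncard_om_smul g0 CertU43.cR2 _ ?_).trans CertU43.cardR2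
    intro y
    refine Iff.trans ?_ (mem_sub g0 (mem_P g0 hu h1 h2) hxb 16 0 16 (by norm_num) y)
    constructor
    · rintro ⟨ho, -, hd⟩
      exact ⟨ho, hd⟩
    · rintro ⟨ho, hd⟩
      refine ⟨ho, ?_, hd⟩
      rintro rfl
      rw [← sqNorm_eq_dot, hxn] at hd
      norm_num at hd
  · intro y hy y' hy' hne hne' hdd
    rcases cover _ ((mem_P g0 hu h1 h2 y).mp hy) with hc | hc | hc
    · exfalso
      apply hne
      have e2 : g0 • y = g0 • x := by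
        rw [h3]
        exact Subtype.ext hc
      exact smul_left_cancel g0 e2
    · rw [e] at hc
      have hc' : dotInt (x : GolayPt → ℤ) (y' : GolayPt → ℤ) = 8 := by
        rw [← hdd]
        exact hc
      obtain ⟨g, hg1, hg2⟩ := trans_smul CertU43.transR1 g0
        ((mem_sub g0 (mem_P g0 hu h1 h2) hxb 8 0 8 (by norm_num) y).mp ⟨hy, hc⟩)
        ((mem_sub g0 (mem_P g0 hu h1 h2) hxb 8 0 8 (by norm_num) y').mp ⟨hy', hc'⟩)
      obtain ⟨a1, a2, a3⟩ := hfix g hg2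
      exact ⟨g, a1, a2, a3, hg1⟩
    · rw [e] at hc
      have hc' : dotInt (x : GolayPt → ℤ) (y' : GolayPt → ℤ) = 16 := by
        rw [← hdd]
        exact hc
      obtain ⟨g, hg1, hg2⟩ := trans_smul CertU43.transR2 g0
        ((mem_sub g0 (mem_P g0 hu h1 h2) hxb 16 0 16 (by norm_num) y).mp ⟨hy, hc⟩)
        ((mem_sub g0 (mem_P g0 hu h1 h2) hxb 16 0 16 (by norm_num) y').mp ⟨hy', hc'⟩)
      obtain ⟨a1, a2, a3⟩ := hfix g hg2
      exact ⟨g, a1, a2, a3, hg1⟩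

end Cfsg.Agent.S1581
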