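import Cfsg.Statements.S1585
import Cfsg.Agent.Lib.Helper27.CoStd

set_option autoImplicit false
open Cfsg

namespace Cfsg.Agent.S1585

open Cfsg.Agent.Lib.Helper27 Cfsg.Agent.Lib.Helper27.Bits Cfsg.Agent.Lib.Helper27.Pk
open Cfsg.Agent.Lib.Helper27.MinTab Cfsg.Agent.Lib.Helper27.MinEnum Cfsg.Agent.Lib.Helper27.MinFast
open Cfsg.Agent.Lib.Helper27.MinAll Cfsg.Agent.Lib.Helper27.LDot Cfsg.Agent.Lib.Helper27.LMat
open Cfsg.Agent.Lib.Helper27.Spread Cfsg.Agent.Lib.Helper27.Co0Act Cfsg.Agent.Lib.Helper27.LApp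
open Cfsg.Agent.Lib.Helper27.OrbCert Cfsg.Agent.Lib.Helper27.CoGlue
open Cfsg.Agent.Lib.Helper27.CertBase Cfsg.Agent.Lib.Helper27.CoStd


/-- Two vectors of customary norm 6 with inner product −4 are exchanged by some automorphism of the lattice. -/
theorem result (v w : ↥Cfsg.leechLattice) (hv : Cfsg.sqNorm (v : Cfsg.GolayPt → ℤ) = 48) (hw : Cfsg.sqNorm (w : Cfsg.GolayPt → ℤ) = 48) (hvw : Cfsg.dotInt (v : Cfsg.GolayPt → ℤ) (w : Cfsg.GolayPt → ℤ) = -32) : ∃ g : ↥Cfsg.Co0, g • v = w ∧ g • w = v := by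

  obtain ⟨g1, h1, h2⟩ := std_vw v w hv hw hvw
  obtain ⟨g2, h3, h4⟩ := std_vw w v hw hv (by rw [dot_comm]; exact hvw)
  have e1 := std_vw_w g1 h1 h2
  have e2 := std_vw_w g2 h3 h4
  refine ⟨g2⁻¹ * g1, ?_, ?_⟩
  · rw [mul_smul, h1, inv_smul_eq_iff, h3]
  · rw [mul_smul, e1, inv_smul_eq_iff, e2]

end Cfsg.Agent.S1585
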