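import Cfsg.Statements.S1587

set_option autoImplicit false
open Matrix
open Cfsg

namespace Cfsg.Agent.S1587

lemma q_ge_four (B : Matrix (Fin 24) (Fin 24) ℤ)
    (hpos : ∀ x : Fin 24 → ℤ, x ≠ 0 → 0 < x ⬝ᵥ (B *ᵥ x))
    (heven : ∀ x : Fin 24 → ℤ, (2 : ℤ) ∣ x ⬝ᵥ (B *ᵥ x))
    (h2 : ∀ x : Fin 24 → ℤ, x ⬝ᵥ (B *ᵥ x) ≠ 2) (z : Fin 24 → ℤ) (hz : z ≠ 0) :
    4 ≤ z ⬝ᵥ (B *ᵥ z) := by
  have h1 := hpos z hz
  have h3 := heven z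
  have h4 := h2 z
  omega

/-- First step of the characterisation of the rank-24 lattice: in an even lattice without roots, norm-8 vectors congruent modulo 2 are equal, opposite or orthogonal. -/
theorem result (B : Matrix (Fin 24) (Fin 24) ℤ) (hsymm : B.IsSymm) (hpos : ∀ x : Fin 24 → ℤ, x ≠ 0 → 0 < x ⬝ᵥ (B *ᵥ x)) (heven : ∀ x : Fin 24 → ℤ, (2 : ℤ) ∣ x ⬝ᵥ (B *ᵥ x)) (h2 : ∀ x : Fin 24 → ℤ, x ⬝ᵥ (B *ᵥ x) ≠ 2) (x y : Fin 24 → ℤ) (hx : x ⬝ᵥ (B *ᵥ x) = 8) (hy : y ⬝ᵥ (B *ᵥ y) = 8) (hc : ∀ i, (2 : ℤ) ∣ (x - y) i) : y = x ∨ y = -x ∨ x ⬝ᵥ (B *ᵥ y) = 0 := by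
  by_cases h1 : y = x
  · exact Or.inl h1
  by_cases h3 : y = -x
  · exact Or.inr (Or.inl h3)
  right; right
  -- z with x - y = 2 z
  obtain ⟨z, hz⟩ : ∃ z : Fin 24 → ℤ, x - y = 2 • z := by
    choose z hz using hc
    exact ⟨z, funext fun i => by simpa using hz i⟩
  have hsym : y ⬝ᵥ (B *ᵥ x) = x ⬝ᵥ (B *ᵥ y) := by
    rw [Matrix.dotProduct_mulVec, ← Matrix.mulVec_transpose, hsymm.eq, dotProduct_comm]
  have hz0 : z ≠ 0 := by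
    rintro rfl
    apply h1
    have : x - y = 0 := by simpa using hz
    exact (sub_eq_zero.mp this).symm
  have hw0 : z + y ≠ 0 := by
    intro h
    apply h3
    have hxy : x = 2 • z + y := by rw [← hz]; abel
    have : z = -y := eq_neg_of_add_eq_zero_left h
    rw [hxy, this]; ext i; simp; ring
  have e1 := q_ge_four B hpos heven h2 z hz0
  have e2 := q_ge_four B hpos heven h2 (z + y) hw0
  have hxy : x = 2 • z + y := by rw [← hz]; abel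
  have k1 : x ⬝ᵥ (B *ᵥ x) = 4 * (z ⬝ᵥ (B *ᵥ z)) + 2 * (z ⬝ᵥ (B *ᵥ y)) + 2 * (y ⬝ᵥ (B *ᵥ z)) + y ⬝ᵥ (B *ᵥ y) := by
    rw [hxy]
    simp only [Matrix.mulVec_add, Matrix.mulVec_smul, add_dotProduct, dotProduct_add, smul_dotProduct, dotProduct_smul]
    simp only [smul_eq_mul, nsmul_eq_mul]
    push_cast
    ring
  have k2 : x ⬝ᵥ (B *ᵥ y) = 2 * (z ⬝ᵥ (B *ᵥ y)) + y ⬝ᵥ (B *ᵥ y) := by
    rw [hxy]
    simp only [add_dotProduct, smul_dotProduct]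
    simp only [smul_eq_mul, nsmul_eq_mul]
    push_cast
    ring
  have k3 : y ⬝ᵥ (B *ᵥ x) = 2 * (y ⬝ᵥ (B *ᵥ z)) + y ⬝ᵥ (B *ᵥ y) := by
    rw [hxy]
    simp only [Matrix.mulVec_add, Matrix.mulVec_smul, dotProduct_add, dotProduct_smul]
    simp only [smul_eq_mul, nsmul_eq_mul]
    push_cast
    ring
  have k4 : (z + y) ⬝ᵥ (B *ᵥ (z + y)) = z ⬝ᵥ (B *ᵥ z) + z ⬝ᵥ (B *ᵥ y) + y ⬝ᵥ (B *ᵥ z) + y ⬝ᵥ (B *ᵥ y) := by
    simp only [Matrix.mulVec_add, add_dotProduct, dotProduct_add]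
    ring
  linarith

end Cfsg.Agent.S1587
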