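import Cfsg.Statements.S1588
import Cfsg.Agent.Lib.Helper8.SelfDual24Leaders

set_option autoImplicit false
open Matrix
open Cfsg

namespace Cfsg.Agent.S1588

open Finset

/-- Class of a vector modulo 2. -/
def cls (x : Fin 24 → ℤ) : Fin 24 → ZMod 2 := fun i => (x i : ZMod 2)

lemma cls_eq_iff (x y : Fin 24 → ℤ) : cls x = cls y ↔ ∀ i, (2 : ℤ) ∣ (x - y) i := by
  constructor
  · intro h i
    have h1 := congrFun h i
    simp only [cls] at h1
    have h2 : ((x i - y i : ℤ) : ZMod 2) = 0 := by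
      rw [Int.cast_sub, h1, sub_self]
    have h3 := (ZMod.intCast_zmod_eq_zero_iff_dvd (x i - y i) 2).1 h2
    simpa using h3
  · intro h
    funext i
    have h1 := h i
    simp only [Pi.sub_apply] at h1
    have h2 : ((x i - y i : ℤ) : ZMod 2) = 0 :=
      (ZMod.intCast_zmod_eq_zero_iff_dvd (x i - y i) 2).2 (by simpa using h1)
    rw [Int.cast_sub, sub_eq_zero] at h2
    exact h2

lemma q_ge_four (B : Matrix (Fin 24) (Fin 24) ℤ)
    (hpos : ∀ x : Fin 24 → ℤ, x ≠ 0 → 0 < x ⬝ᵥ (B *ᵥ x))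
    (heven : ∀ x : Fin 24 → ℤ, (2 : ℤ) ∣ x ⬝ᵥ (B *ᵥ x))
    (h2 : ∀ x : Fin 24 → ℤ, x ⬝ᵥ (B *ᵥ x) ≠ 2) (z : Fin 24 → ℤ) (hz : z ≠ 0) :
    4 ≤ z ⬝ᵥ (B *ᵥ z) := by
  have h1 := hpos z hz
  have h3 := heven z
  have h4 := h2 z
  omega

lemma q_neg (B : Matrix (Fin 24) (Fin 24) ℤ) (x : Fin 24 → ℤ) :
    (-x) ⬝ᵥ (B *ᵥ (-x)) = x ⬝ᵥ (B *ᵥ x) := by
  simp [Matrix.mulVec_neg]

lemma q_zero (B : Matrix (Fin 24) (Fin 24) ℤ) :
    (0 : Fin 24 → ℤ) ⬝ᵥ (B *ᵥ (0 : Fin 24 → ℤ)) = 0 := by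
  simp

/-- Two vectors of norm at most 8 in the same class which are neither equal nor opposite. -/
lemma pair (B : Matrix (Fin 24) (Fin 24) ℤ) (hsymm : B.IsSymm)
    (hpos : ∀ x : Fin 24 → ℤ, x ≠ 0 → 0 < x ⬝ᵥ (B *ᵥ x))
    (heven : ∀ x : Fin 24 → ℤ, (2 : ℤ) ∣ x ⬝ᵥ (B *ᵥ x))
    (h2 : ∀ x : Fin 24 → ℤ, x ⬝ᵥ (B *ᵥ x) ≠ 2) (x y : Fin 24 → ℤ)
    (hx : x ⬝ᵥ (B *ᵥ x) ≤ 8) (hy : y ⬝ᵥ (B *ᵥ y) ≤ 8) (hc : cls x = cls y)
    (h1 : y ≠ x) (h3 : y ≠ -x) :
    x ⬝ᵥ (B *ᵥ x) = 8 ∧ y ⬝ᵥ (B *ᵥ y) = 8 ∧ x ⬝ᵥ (B *ᵥ y) = 0 := by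
  rw [cls_eq_iff] at hc
  obtain ⟨z, hz⟩ : ∃ z : Fin 24 → ℤ, x - y = 2 • z := by
    choose z hz using hc
    exact ⟨z, funext fun i => by simpa using hz i⟩
  have hsym : y ⬝ᵥ (B *ᵥ z) = z ⬝ᵥ (B *ᵥ y) := by
    rw [Matrix.dotProduct_mulVec, ← Matrix.mulVec_transpose, hsymm.eq, dotProduct_comm]
  have hz0 : z ≠ 0 := by
    rintro rfl
    apply h1
    have : x - y = 0 := by simpa using hz
    exact (sub_eq_zero.mp this).symm
  have hw0 : z + y ≠ 0 := by
    intro h
    apply h3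
    have hxy : x = 2 • z + y := by rw [← hz]; abel
    have : z = -y := eq_neg_of_add_eq_zero_left h
    rw [hxy, this]; ext i; simp; ring
  have e1 := q_ge_four B hpos heven h2 z hz0
  have e2 := q_ge_four B hpos heven h2 (z + y) hw0
  have hxy : x = 2 • z + y := by rw [← hz]; abel
  have k1 : x ⬝ᵥ (B *ᵥ x) = 4 * (z ⬝ᵥ (B *ᵥ z)) + 2 * (z ⬝ᵥ (B *ᵥ y)) + 2 * (y ⬝ᵥ (B *ᵥ z))
      + y ⬝ᵥ (B *ᵥ y) := by
    rw [hxy]
    simp only [Matrix.mulVec_add, Matrix.mulVec_smul, add_dotProduct, dotProduct_add,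
      smul_dotProduct, dotProduct_smul]
    simp only [nsmul_eq_mul]
    push_cast
    ring
  have k2 : x ⬝ᵥ (B *ᵥ y) = 2 * (z ⬝ᵥ (B *ᵥ y)) + y ⬝ᵥ (B *ᵥ y) := by
    rw [hxy]
    simp only [add_dotProduct, smul_dotProduct]
    simp only [nsmul_eq_mul]
    push_cast
    ring
  have k4 : (z + y) ⬝ᵥ (B *ᵥ (z + y)) = z ⬝ᵥ (B *ᵥ z) + z ⬝ᵥ (B *ᵥ y) + y ⬝ᵥ (B *ᵥ z)
      + y ⬝ᵥ (B *ᵥ y) := by
    simp only [Matrix.mulVec_add, add_dotProduct, dotProduct_add]
    ring
  refine ⟨by linarith, by linarith, by linarith⟩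

/-- An orthogonal family of vectors of nonzero norm has at most 24 members. -/
lemma card_le_of_orth (B : Matrix (Fin 24) (Fin 24) ℤ) (E : Finset (Fin 24 → ℤ))
    (hQ : ∀ x ∈ E, x ⬝ᵥ (B *ᵥ x) ≠ 0)
    (horth : ∀ x ∈ E, ∀ y ∈ E, x ≠ y → x ⬝ᵥ (B *ᵥ y) = 0) : E.card ≤ 24 := by
  have hli : LinearIndependent ℤ (fun e : E => (e : Fin 24 → ℤ)) := by
    rw [linearIndependent_iff']
    intro s g hg i hi
    have h1 := congrArg (fun v => v ⬝ᵥ (B *ᵥ (i : Fin 24 → ℤ))) hg
    simp only [sum_dotProduct, smul_dotProduct, zero_dotProduct] at h1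
    rw [Finset.sum_eq_single i] at h1
    · have h2 := hQ i i.2
      simpa [h2] using h1
    · intro j _ hji
      rw [horth j j.2 i i.2 (fun h => hji (Subtype.ext h)), smul_zero]
    · intro h
      exact absurd hi h
  have h3 := hli.fintype_card_le_finrank
  simpa using h3

/-- A family of vectors which are pairwise equal, opposite or orthogonal contains an orthogonal
subfamily covering it up to sign. -/
lemma exists_frame (B : Matrix (Fin 24) (Fin 24) ℤ) (T : Finset (Fin 24 → ℤ)) :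
    (∀ x ∈ T, ∀ y ∈ T, y = x ∨ y = -x ∨ x ⬝ᵥ (B *ᵥ y) = 0) →
    ∃ E : Finset (Fin 24 → ℤ), E ⊆ T ∧ (∀ x ∈ E, ∀ y ∈ E, x ≠ y → x ⬝ᵥ (B *ᵥ y) = 0)
      ∧ T ⊆ E ∪ E.image (fun x => -x) := by
  classical
  induction T using Finset.induction_on with
  | empty =>
    intro _
    exact ⟨∅, by simp, by simp, by simp⟩
  | insert a T' ha ih =>
    intro hT
    obtain ⟨E, hE1, hE2, hE3⟩ := ih (fun x hx y hy =>
      hT x (mem_insert_of_mem hx) y (mem_insert_of_mem hy))
    by_cases hmem : a ∈ E ∪ E.image (fun x => -x)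
    · refine ⟨E, hE1.trans (subset_insert _ _), hE2, ?_⟩
      intro x hx
      rw [mem_insert] at hx
      rcases hx with rfl | hx
      · exact hmem
      · exact hE3 hx
    · have haE : a ∉ E := fun h => hmem (mem_union_left _ h)
      have haE' : ∀ y ∈ E, a ≠ -y := by
        intro y hy h
        exact hmem (mem_union_right _ (mem_image.2 ⟨y, hy, h.symm⟩))
      refine ⟨insert a E, insert_subset_insert a hE1, ?_, ?_⟩
      · intro x hx y hy hxy
        rw [mem_insert] at hx hy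
        rcases hx with rfl | hx
        · rcases hy with rfl | hy
          · exact absurd rfl hxy
          · rcases hT x (mem_insert_self _ _) y (mem_insert_of_mem (hE1 hy)) with h | h | h
            · exact absurd (h ▸ hy) haE
            · exact absurd (by rw [h, neg_neg]) (haE' y hy)
            · exact h
        · rcases hy with rfl | hy
          · rcases hT x (mem_insert_of_mem (hE1 hx)) y (mem_insert_self _ _) with h | h | h
            · exact absurd (h ▸ hx) haE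
            · exact absurd h (haE' x hx)
            · exact h
          · exact hE2 x hx y hy hxy
      · intro x hx
        rw [mem_insert] at hx
        rcases hx with rfl | hx
        · exact mem_union_left _ (mem_insert_self _ _)
        · have := hE3 hx
          rw [mem_union] at this ⊢
          rcases this with h | h
          · exact Or.inl (mem_insert_of_mem h)
          · right
            rw [mem_image] at h ⊢
            obtain ⟨e, he, hxe⟩ := h
            exact ⟨e, mem_insert_of_mem he, hxe⟩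

lemma frame_bound (B : Matrix (Fin 24) (Fin 24) ℤ) (T : Finset (Fin 24 → ℤ))
    (hQ : ∀ x ∈ T, x ⬝ᵥ (B *ᵥ x) = 8)
    (hT : ∀ x ∈ T, ∀ y ∈ T, y = x ∨ y = -x ∨ x ⬝ᵥ (B *ᵥ y) = 0) : T.card ≤ 48 := by
  classical
  obtain ⟨E, hE1, hE2, hE3⟩ := exists_frame B T hT
  have h24 := card_le_of_orth B E (fun x hx => by rw [hQ x (hE1 hx)]; norm_num) hE2
  have h1 := card_le_card hE3
  have h2 := card_union_le E (E.image (fun x => -x))
  have h3 := card_image_le (s := E) (f := fun x : Fin 24 → ℤ => -x)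
  omega

lemma total {ι : Type*} [DecidableEq ι] (s : Finset ι) (c0 : ι) (hc0 : c0 ∈ s)
    (a b d : ι → ℕ) (A B' D : ℕ) (ha : ∑ c ∈ s, a c = A) (hb : ∑ c ∈ s, b c = B')
    (hd : ∑ c ∈ s, d c = D) :
    ∑ c ∈ s, (48 * (if c = c0 then 1 else 0) + 24 * a c + 24 * b c + d c)
      = 48 + 24 * A + 24 * B' + D := by
  rw [sum_add_distrib, sum_add_distrib, sum_add_distrib, ← mul_sum, ← mul_sum, ← mul_sum,
    ha, hb, hd, Finset.sum_ite_eq' s c0 (fun _ => 1), if_pos hc0, mul_one]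

lemma sum_fib (F : Finset (Fin 24 → ℤ)) :
    ∑ c : Fin 24 → ZMod 2, (F.filter (fun x => cls x = c)).card = F.card :=
  (Finset.card_eq_sum_card_fiberwise (f := cls) (s := F) (t := univ)
    (fun _ _ => mem_univ _)).symm

/-- Second step of the characterisation: under the vector counts of the rank-24 lattice, the norm-8 vectors fall into congruence classes of exactly 48 modulo twice the lattice. -/
theorem result (B : Matrix (Fin 24) (Fin 24) ℤ) (hsymm : B.IsSymm) (hpos : ∀ x : Fin 24 → ℤ, x ≠ 0 → 0 < x ⬝ᵥ (B *ᵥ x)) (heven : ∀ x : Fin 24 → ℤ, (2 : ℤ) ∣ x ⬝ᵥ (B *ᵥ x)) (h2 : ∀ x : Fin 24 → ℤ, x ⬝ᵥ (B *ᵥ x) ≠ 2) (h4 : {x : Fin 24 → ℤ | x ⬝ᵥ (B *ᵥ x) = 4}.ncard = 196560) (h6 : {x : Fin 24 → ℤ | x ⬝ᵥ (B *ᵥ x) = 6}.ncard = 16773120) (h8 : {x : Fin 24 → ℤ | x ⬝ᵥ (B *ᵥ x) = 8}.ncard = 398034000) (x : Fin 24 → ℤ) (hx : x ⬝ᵥ (B *ᵥ x) = 8) : {y : Fin 24 → ℤ | y ⬝ᵥ (B *ᵥ y) = 8 ∧ ∀ i, (2 : ℤ) ∣ (x - y) i}.ncard = 48 := by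
  classical
  have hf4 : {x : Fin 24 → ℤ | x ⬝ᵥ (B *ᵥ x) = 4}.Finite :=
    Set.finite_of_ncard_ne_zero (by rw [h4]; norm_num)
  have hf6 : {x : Fin 24 → ℤ | x ⬝ᵥ (B *ᵥ x) = 6}.Finite :=
    Set.finite_of_ncard_ne_zero (by rw [h6]; norm_num)
  have hf8 : {x : Fin 24 → ℤ | x ⬝ᵥ (B *ᵥ x) = 8}.Finite :=
    Set.finite_of_ncard_ne_zero (by rw [h8]; norm_num)
  have c4 : hf4.toFinset.card = 196560 := (Set.ncard_eq_toFinset_card _ hf4).symm.trans h4
  have c6 : hf6.toFinset.card = 16773120 := (Set.ncard_eq_toFinset_card _ hf6).symm.trans h6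
  have c8 : hf8.toFinset.card = 398034000 := (Set.ncard_eq_toFinset_card _ hf8).symm.trans h8
  have m4 : ∀ y, y ∈ hf4.toFinset ↔ y ⬝ᵥ (B *ᵥ y) = 4 := fun y => by simp
  have m6 : ∀ y, y ∈ hf6.toFinset ↔ y ⬝ᵥ (B *ᵥ y) = 6 := fun y => by simp
  have m8 : ∀ y, y ∈ hf8.toFinset ↔ y ⬝ᵥ (B *ᵥ y) = 8 := fun y => by simp
  generalize hf4.toFinset = F4 at c4 m4
  generalize hf6.toFinset = F6 at c6 m6
  generalize hf8.toFinset = F8 at c8 m8
  -- consequences of the pair lemma
  have hp : ∀ u v : Fin 24 → ℤ, u ⬝ᵥ (B *ᵥ u) ≤ 8 → v ⬝ᵥ (B *ᵥ v) ≤ 8 → cls u = cls v →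
      v = u ∨ v = -u ∨ (u ⬝ᵥ (B *ᵥ u) = 8 ∧ v ⬝ᵥ (B *ᵥ v) = 8 ∧ u ⬝ᵥ (B *ᵥ v) = 0) := by
    intro u v hu hv huv
    by_cases h1 : v = u
    · exact Or.inl h1
    by_cases h3 : v = -u
    · exact Or.inr (Or.inl h3)
    exact Or.inr (Or.inr (pair B hsymm hpos heven h2 u v hu hv huv h1 h3))
  have hcls0 : cls (0 : Fin 24 → ℤ) = 0 := by
    funext i
    simp [cls]
  -- a nonzero vector of norm at most 8 is not in the class of zero
  have hzero : ∀ u : Fin 24 → ℤ, u ⬝ᵥ (B *ᵥ u) ≤ 8 → u ⬝ᵥ (B *ᵥ u) ≠ 0 → cls u ≠ 0 := by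
    intro u hu hu0 hc
    have h0 := q_zero B
    rcases hp u 0 hu (by rw [h0]; norm_num) (by rw [hc, hcls0]) with h | h | h
    · rw [← h, h0] at hu0
      exact hu0 rfl
    · have : u = 0 := by
        have := congrArg Neg.neg h
        simpa using this.symm
      rw [this, h0] at hu0
      exact hu0 rfl
    · rw [h0] at h
      omega
  have hbound : ∀ c ∈ (univ : Finset (Fin 24 → ZMod 2)),
      48 * (if c = 0 then 1 else 0) + 24 * (F4.filter (fun x => cls x = c)).card
        + 24 * (F6.filter (fun x => cls x = c)).card + (F8.filter (fun x => cls x = c)).card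
        ≤ 48 := by
    intro c _
    by_cases hc0 : c = 0
    · have e4 : F4.filter (fun x => cls x = c) = ∅ := by
        rw [eq_empty_iff_forall_notMem]
        intro u hu
        rw [mem_filter, m4] at hu
        exact hzero u (by rw [hu.1]; norm_num) (by rw [hu.1]; norm_num) (by rw [hu.2, hc0])
      have e6 : F6.filter (fun x => cls x = c) = ∅ := by
        rw [eq_empty_iff_forall_notMem]
        intro u hu
        rw [mem_filter, m6] at hu
        exact hzero u (by rw [hu.1]; norm_num) (by rw [hu.1]; norm_num) (by rw [hu.2, hc0])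
      have e8 : F8.filter (fun x => cls x = c) = ∅ := by
        rw [eq_empty_iff_forall_notMem]
        intro u hu
        rw [mem_filter, m8] at hu
        exact hzero u (by rw [hu.1]) (by rw [hu.1]; norm_num) (by rw [hu.2, hc0])
      rw [e4, e6, e8, if_pos hc0]
      simp
    · rw [if_neg hc0]
      by_cases hex : ∃ u : Fin 24 → ℤ, cls u = c ∧
          (u ⬝ᵥ (B *ᵥ u) = 4 ∨ u ⬝ᵥ (B *ᵥ u) = 6)
      · obtain ⟨u, huc, hu⟩ := hex
        have hu8 : u ⬝ᵥ (B *ᵥ u) ≤ 8 := by omega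
        have hu8' : u ⬝ᵥ (B *ᵥ u) ≠ 8 := by omega
        have hall : ∀ v : Fin 24 → ℤ, v ⬝ᵥ (B *ᵥ v) ≤ 8 → cls v = c → v = u ∨ v = -u := by
          intro v hv hvc
          rcases hp u v hu8 hv (by rw [huc, hvc]) with h | h | h
          · exact Or.inl h
          · exact Or.inr h
          · exact absurd h.1 hu8'
        have e8 : F8.filter (fun x => cls x = c) = ∅ := by
          rw [eq_empty_iff_forall_notMem]
          intro v hv
          rw [mem_filter, m8] at hv
          rcases hall v (by rw [hv.1]) hv.2 with h | h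
          · rw [h] at hv
            exact hu8' hv.1
          · rw [h, q_neg] at hv
            exact hu8' hv.1
        have hsub : F4.filter (fun x => cls x = c) ∪ F6.filter (fun x => cls x = c)
            ⊆ {u, -u} := by
          intro v hv
          rw [mem_union, mem_filter, mem_filter, m4, m6] at hv
          rw [mem_insert, mem_singleton]
          rcases hv with hv | hv
          · exact hall v (by rw [hv.1]; norm_num) hv.2
          · exact hall v (by rw [hv.1]; norm_num) hv.2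
        have hdisj : Disjoint (F4.filter (fun x => cls x = c))
            (F6.filter (fun x => cls x = c)) := by
          rw [Finset.disjoint_left]
          intro v hv hv'
          rw [mem_filter, m4] at hv
          rw [mem_filter, m6] at hv'
          omega
        have h1 := card_le_card hsub
        rw [card_union_of_disjoint hdisj] at h1
        have h2 : ({u, -u} : Finset (Fin 24 → ℤ)).card ≤ 2 := Finset.card_le_two
        rw [e8, card_empty]
        omega
      · have e4 : F4.filter (fun x => cls x = c) = ∅ := by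
          rw [eq_empty_iff_forall_notMem]
          intro u hu
          rw [mem_filter, m4] at hu
          exact hex ⟨u, hu.2, Or.inl hu.1⟩
        have e6 : F6.filter (fun x => cls x = c) = ∅ := by
          rw [eq_empty_iff_forall_notMem]
          intro u hu
          rw [mem_filter, m6] at hu
          exact hex ⟨u, hu.2, Or.inr hu.1⟩
        rw [e4, e6, card_empty]
        have h48 : (F8.filter (fun x => cls x = c)).card ≤ 48 := by
          apply frame_bound B
          · intro u hu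
            rw [mem_filter, m8] at hu
            exact hu.1
          · intro u hu v hv
            rw [mem_filter, m8] at hu hv
            rcases hp u v (by rw [hu.1]) (by rw [hv.1]) (by rw [hu.2, hv.2]) with h | h | h
            · exact Or.inl h
            · exact Or.inr (Or.inl h)
            · exact Or.inr (Or.inr h.2.2)
        omega
  have hsum : ∑ c ∈ (univ : Finset (Fin 24 → ZMod 2)),
      (48 * (if c = 0 then 1 else 0) + 24 * (F4.filter (fun x => cls x = c)).card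
        + 24 * (F6.filter (fun x => cls x = c)).card + (F8.filter (fun x => cls x = c)).card)
        = 48 * 16777216 := by
    rw [total univ 0 (mem_univ _) _ _ _ 196560 16773120 398034000
      ((sum_fib F4).trans c4) ((sum_fib F6).trans c6) ((sum_fib F8).trans c8)]
  have hall := Cfsg.Agent.Lib.Helper8.SelfDual24Leaders.eq_of_sum_eq univ _ 48 16777216
    Cfsg.Agent.Lib.Helper8.SelfDual24Leaders.card_univ_V hbound hsum (cls x) (mem_univ _)
  have hx0 : cls x ≠ 0 := hzero x (by rw [hx]) (by rw [hx]; norm_num)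
  have e4 : F4.filter (fun y => cls y = cls x) = ∅ := by
    rw [eq_empty_iff_forall_notMem]
    intro u hu
    rw [mem_filter, m4] at hu
    rcases hp x u (by rw [hx]) (by rw [hu.1]; norm_num) hu.2.symm with h | h | h
    · rw [h, hx] at hu
      omega
    · rw [h, q_neg, hx] at hu
      omega
    · omega
  have e6 : F6.filter (fun y => cls y = cls x) = ∅ := by
    rw [eq_empty_iff_forall_notMem]
    intro u hu
    rw [mem_filter, m6] at hu
    rcases hp x u (by rw [hx]) (by rw [hu.1]; norm_num) hu.2.symm with h | h | h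
    · rw [h, hx] at hu
      omega
    · rw [h, q_neg, hx] at hu
      omega
    · omega
  rw [e4, e6, if_neg hx0, card_empty] at hall
  have hset : {y : Fin 24 → ℤ | y ⬝ᵥ (B *ᵥ y) = 8 ∧ ∀ i, (2 : ℤ) ∣ (x - y) i}
      = ↑(F8.filter (fun y => cls y = cls x)) := by
    ext y
    rw [Set.mem_ofPred_eq, mem_coe, mem_filter, m8, ← cls_eq_iff]
    constructor
    · rintro ⟨h1, h2⟩
      exact ⟨h1, h2.symm⟩
    · rintro ⟨h1, h2⟩
      exact ⟨h1, h2.symm⟩
  rw [hset, Set.ncard_coe_finset]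
  omega

end Cfsg.Agent.S1588
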