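import Cfsg.Statements.S1589
import Cfsg.Agent.Lib.Helper8.Idx276
import Cfsg.Agent.Lib.Helper8.Idx759
import Cfsg.Agent.Lib.Helper8.Idx253
import Cfsg.Agent.Lib.Helper8.Idx1771
import Cfsg.Agent.Lib.Helper26.SextetStab

set_option autoImplicit false
open scoped Pointwise
open Cfsg

namespace Cfsg.Agent.S1589

/-- Subgroups of the group of the length-24 code of index 759, 276 and 1771 are exactly the octad, duad and sextet stabilisers, and no subgroup has index 253. -/
theorem result : (∀ H : Subgroup ↥Cfsg.M24, H.index = 759 → ∃ o ∈ Cfsg.octads, H = MulAction.stabilizer Cfsg.M24 o) ∧ (∀ H : Subgroup ↥Cfsg.M24, H.index = 276 → ∃ s : Finset Cfsg.GolayPt, s.card = 2 ∧ H = MulAction.stabilizer Cfsg.M24 s) ∧ (∀ H : Subgroup ↥Cfsg.M24, H.index = 1771 → ∃ S ∈ Cfsg.sextets, H = MulAction.stabilizer Cfsg.M24 S) ∧ ∀ H : Subgroup ↥Cfsg.M24, H.index ≠ 253 := by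
  classical
  have hKmem : ∀ (H : Subgroup ↥M24) (h : ↥M24), h ∈ H →
      (h : Equiv.Perm GolayPt) ∈ H.map M24.subtype := fun H h hh => Subgroup.mem_map_of_mem _ hh
  have hKle : ∀ H : Subgroup ↥M24, H.map M24.subtype ≤ M24 := by
    rintro H _ ⟨a, _, rfl⟩
    exact a.2
  have hcK : ∀ H : Subgroup ↥M24, Nat.card ↥(H.map M24.subtype) = Nat.card H :=
    fun H => Subgroup.card_map_of_injective (Subgroup.subtype_injective _)
  have hcH : ∀ (H : Subgroup ↥M24) (n m : ℕ), H.index = n → n * m = 244823040 → 0 < n →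
      Nat.card H = m := by
    intro H n m hn hnm hpos
    have h1 := Subgroup.card_mul_index H
    rw [hn, Cfsg.Agent.Lib.Helper7.M24Main.card_M24, ← hnm] at h1
    exact Nat.eq_of_mul_eq_mul_right hpos (by rw [h1, mul_comm])
  have hstab : ∀ (H : Subgroup ↥M24) (Z : Finset GolayPt),
      (∀ k ∈ H.map M24.subtype, ∀ y ∈ Z, k y ∈ Z) → H ≤ MulAction.stabilizer M24 Z := by
    intro H Z hinv h hh
    rw [MulAction.mem_stabilizer_iff]
    apply Finset.eq_of_subset_of_card_le
    · intro z hz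
      obtain ⟨y, hy, rfl⟩ := Finset.mem_smul_finset.mp hz
      exact hinv _ (hKmem H h hh) y hy
    · rw [Finset.card_smul_finset]
  refine ⟨?_, ?_, ?_, ?_⟩
  · intro H hH
    have hc := hcH H 759 322560 hH (by norm_num) (by norm_num)
    obtain ⟨o, ho, hinv⟩ := Cfsg.Agent.Lib.Helper8.Idx759.idx759 (hKle H) (by rw [hcK H, hc])
    refine ⟨o, ho, ?_⟩
    apply Subgroup.eq_of_le_of_card_ge (hstab H o hinv)
    rw [hc]
    have h1 : (MulAction.stabilizer M24 o).map M24.subtype ≤
        Cfsg.Agent.Lib.Helper26.OctadStab.stab o := by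
      rintro _ ⟨g, hg, rfl⟩
      exact Cfsg.Agent.Lib.Helper26.OctadStab.mem_stab.mpr
        ⟨g.2, MulAction.mem_stabilizer_iff.mp hg⟩
    have h2 := Subgroup.card_le_of_le h1
    rw [hcK, Cfsg.Agent.Lib.Helper26.OctadStab.card_stab ho] at h2
    exact h2
  · intro H hH
    have hc := hcH H 276 887040 hH (by norm_num) (by norm_num)
    obtain ⟨s, hs, hinv⟩ := Cfsg.Agent.Lib.Helper8.Idx276.idx276 (hKle H) (by rw [hcK H, hc])
    refine ⟨s, hs, ?_⟩
    apply Subgroup.eq_of_le_of_card_ge (hstab H s hinv)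
    rw [hc]
    have hinv' : Cfsg.Agent.Lib.Helper8.OrbTools.Inv
        ((MulAction.stabilizer M24 s).map M24.subtype) s := by
      rintro _ ⟨g, hg, rfl⟩ y hy
      have h1 : g • s = s := MulAction.mem_stabilizer_iff.mp hg
      have h2 : g • y ∈ g • s := Finset.smul_mem_smul_finset hy
      rw [h1] at h2
      exact h2
    have h3 := Cfsg.Agent.Lib.Helper8.OrbTools.inv_bnd (hKle _) s hinv' (by rw [hs]; norm_num)
      (by rw [hs]; norm_num)
    have e : Cfsg.Agent.Lib.Helper8.OrbTools.bnd 2 = 887040 := rfl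
    rw [hs, hcK, e] at h3
    exact Nat.le_of_dvd (by norm_num) h3
  · intro H hH
    have hc := hcH H 1771 138240 hH (by norm_num) (by norm_num)
    obtain ⟨S, hS, hinv⟩ := Cfsg.Agent.Lib.Helper8.Idx1771.idx1771 (hKle H) (by rw [hcK H, hc])
    refine ⟨S, hS, ?_⟩
    have hle : H ≤ MulAction.stabilizer M24 S := by
      intro h hh
      rw [MulAction.mem_stabilizer_iff]
      apply Finset.eq_of_subset_of_card_le
      · intro t ht
        obtain ⟨u, hu, rfl⟩ := Finset.mem_smul_finset.mp ht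
        exact hinv _ (hKmem H h hh) u hu
      · rw [Finset.card_smul_finset]
    apply Subgroup.eq_of_le_of_card_ge hle
    rw [hc, Cfsg.Agent.Lib.Helper26.SextetStab.card_stab hS]
  · intro H hH
    have hc := hcH H 253 967680 hH (by norm_num) (by norm_num)
    exact Cfsg.Agent.Lib.Helper8.Idx253.idx253 (hKle H) (by rw [hcK H, hc])

end Cfsg.Agent.S1589
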