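import Cfsg.Statements.S1592
import Cfsg.Agent.Lib.Helper8.TernaryGolay

set_option autoImplicit false
open Cfsg

namespace Cfsg.Agent.S1592

/-- The supports of the weight-6 words of the length-12 ternary code form a Steiner system S(5, 6, 12) with 132 blocks. -/
theorem result : Cfsg.IsSteinerSystem 5 6 {h : Finset Cfsg.ArrayPt | ∃ x ∈ Cfsg.ternaryGolayCode, Cfsg.ternarySupport x = h ∧ h.card = 6} ∧ {h : Finset Cfsg.ArrayPt | ∃ x ∈ Cfsg.ternaryGolayCode, Cfsg.ternarySupport x = h ∧ h.card = 6}.ncard = 132 := by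
  have hB : {h : Finset Cfsg.ArrayPt | ∃ x ∈ Cfsg.ternaryGolayCode,
      Cfsg.ternarySupport x = h ∧ h.card = 6}
      = ↑Cfsg.Agent.Lib.Helper8.TernaryGolay.blocksF := by
    ext h
    rw [Set.mem_ofPred_eq, Finset.mem_coe, Cfsg.Agent.Lib.Helper8.TernaryGolay.mem_blocksF]
  rw [hB]
  refine ⟨⟨?_, ?_⟩, ?_⟩
  · intro b hb
    obtain ⟨x, hx, rfl, h6⟩ :=
      Cfsg.Agent.Lib.Helper8.TernaryGolay.mem_blocksF.1 (Finset.mem_coe.1 hb)
    exact h6
  · intro s hs
    have h1 := Cfsg.Agent.Lib.Helper8.TernaryGolay.blocks_through s hs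
    obtain ⟨b, hb⟩ := Finset.card_eq_one.1 h1
    have hbm : b ∈ Cfsg.Agent.Lib.Helper8.TernaryGolay.blocksF.filter (fun b => s ⊆ b) := by
      rw [hb]
      exact Finset.mem_singleton_self b
    rw [Finset.mem_filter] at hbm
    refine ⟨b, ⟨Finset.mem_coe.2 hbm.1, hbm.2⟩, ?_⟩
    rintro b' ⟨hb'1, hb'2⟩
    have : b' ∈ Cfsg.Agent.Lib.Helper8.TernaryGolay.blocksF.filter (fun b => s ⊆ b) := by
      rw [Finset.mem_filter]
      exact ⟨Finset.mem_coe.1 hb'1, hb'2⟩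
    rw [hb, Finset.mem_singleton] at this
    exact this
  · rw [Set.ncard_coe_finset]
    exact Cfsg.Agent.Lib.Helper8.TernaryGolay.card_blocksF

end Cfsg.Agent.S1592
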