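import Cfsg.Statements.S1593
import Cfsg.Agent.Lib.Helper8.TernaryGolay

set_option autoImplicit false
open Cfsg

namespace Cfsg.Agent.S1593

/-- The only sign changes preserving the length-12 ternary code are the identity and negation of all coordinates. -/
theorem result (c : Cfsg.ArrayPt → (ZMod 3)ˣ) (h : (∀ x ∈ Cfsg.ternaryGolayCode, Cfsg.monomialMap 1 c x ∈ Cfsg.ternaryGolayCode)) : (∀ p, c p = 1) ∨ (∀ p, c p = -1) := by
  have h' : ∀ x ∈ Cfsg.ternaryGolayCode,
      (fun i => (c i : ZMod 3) * x i) ∈ Cfsg.ternaryGolayCode := by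
    intro x hx
    have e : Cfsg.monomialMap 1 c x = fun i => (c i : ZMod 3) * x i := by
      funext i
      rfl
    rw [← e]
    exact h x hx
  have hconst := Cfsg.Agent.Lib.Helper8.TernaryGolay.same_sign h'
  rcases Cfsg.Agent.Lib.Helper8.TernaryGolay.unit_cases (c (0, 0)) with h0 | h0
  · left
    intro p
    rw [hconst p (0, 0), h0]
  · right
    intro p
    rw [hconst p (0, 0), h0]

end Cfsg.Agent.S1593
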