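import Cfsg.Statements.S1594
import Cfsg.Agent.Lib.Helper26.M12Data
import Cfsg.Agent.S1593

set_option autoImplicit false
open Cfsg
open scoped Pointwise

namespace Cfsg.Agent.S1594

open Cfsg.Agent.Lib.Helper8.TernaryGolay Cfsg.Agent.Lib.Helper26.M12Data

/-! ### monomial maps -/

/-- the monomial map preserves the code -/
def Pres (σ : Equiv.Perm ArrayPt) (c : ArrayPt → (ZMod 3)ˣ) : Prop :=
  ∀ x ∈ ternaryGolayCode, monomialMap σ c x ∈ ternaryGolayCode

/-- the permutation is the permutation part of a monomial map preserving the code -/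
def InP (σ : Equiv.Perm ArrayPt) : Prop := ∃ c, Pres σ c

theorem pres_of_tab {σ : Equiv.Perm ArrayPt} {c : ArrayPt → (ZMod 3)ˣ}
    (h : ∀ a : Inf, monomialMap σ c (wdp a) = wdp (info (monomialMap σ c (wdp a)))) :
    Pres σ c := by
  intro x hx
  rw [← wdp_info hx, h]
  exact wdp_mem _

theorem mono_mul (σ τ : Equiv.Perm ArrayPt) (c d : ArrayPt → (ZMod 3)ˣ) (x : ArrayPt → ZMod 3) :
    monomialMap σ c (monomialMap τ d x) =
      monomialMap (σ * τ) (fun i => c i * d (σ.symm i)) x := by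
  funext i
  show ((c i : (ZMod 3)ˣ) : ZMod 3) * (((d (σ.symm i) : (ZMod 3)ˣ) : ZMod 3) *
    x (τ.symm (σ.symm i))) = ((c i * d (σ.symm i) : (ZMod 3)ˣ) : ZMod 3) * x (τ.symm (σ.symm i))
  rw [Units.val_mul, mul_assoc]

theorem inP_one : InP 1 := by
  refine ⟨fun _ => 1, fun x hx => ?_⟩
  have e : monomialMap 1 (fun _ => (1 : (ZMod 3)ˣ)) x = x := by
    funext i
    show (((1 : (ZMod 3)ˣ) : (ZMod 3)ˣ) : ZMod 3) * x i = x i
    rw [Units.val_one, one_mul]
  rw [e]
  exact hx

theorem inP_mul {σ τ : Equiv.Perm ArrayPt} (h1 : InP σ) (h2 : InP τ) : InP (σ * τ) := by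
  obtain ⟨c, hc⟩ := h1
  obtain ⟨d, hd⟩ := h2
  refine ⟨fun i => c i * d (σ.symm i), fun x hx => ?_⟩
  rw [← mono_mul]
  exact hc _ (hd x hx)

theorem inP_gen (j : Fin 2) : InP (gen j) := by
  fin_cases j
  · exact ⟨c1, pres_of_tab pres1⟩
  · exact ⟨c2, pres_of_tab pres2⟩

theorem inP_prod (l : List (Fin 2)) : InP ((l.map gen).prod) := by
  induction l with
  | nil => exact inP_one
  | cons a l ih =>
    rw [List.map_cons, List.prod_cons]
    exact inP_mul (inP_gen a) ih

/-- the permutation parts are transitive on the ordered sets of five points -/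
theorem trans5 (t : Fin 5 → ArrayPt) (ht : Function.Injective t) :
    ∃ σ, InP σ ∧ ∀ i : Fin 5, σ (pp i) = t i := by
  have key : ∀ n : ℕ, n ≤ 5 → ∃ σ, InP σ ∧ ∀ i : Fin 5, (i : ℕ) < n → σ (pp i) = t i := by
    intro n
    induction n with
    | zero =>
      intro _
      exact ⟨1, inP_one, fun i hi => absurd hi (Nat.not_lt_zero _)⟩
    | succ n ih =>
      intro hn
      obtain ⟨σ, hσ, h⟩ := ih (by omega)
      have hq : ∀ i : Fin 5, i < (⟨n, by omega⟩ : Fin 5) →
          σ.symm (t ⟨n, by omega⟩) ≠ pp i := by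
        intro i hi e
        have h1 := h i hi
        rw [← e, Equiv.apply_symm_apply] at h1
        exact absurd (ht h1) (ne_of_gt hi)
      obtain ⟨w1, w2⟩ := chain ⟨n, by omega⟩ (σ.symm (t ⟨n, by omega⟩)) hq
      refine ⟨σ * welt ⟨n, by omega⟩ (σ.symm (t ⟨n, by omega⟩)),
        inP_mul hσ (inP_prod _), ?_⟩
      intro i hi
      rcases Nat.lt_succ_iff_lt_or_eq.mp hi with h3 | h3
      · rw [Equiv.Perm.mul_apply, w2 i h3]
        exact h i h3
      · have e : i = ⟨n, by omega⟩ := Fin.ext h3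
        rw [e, Equiv.Perm.mul_apply, w1, Equiv.apply_symm_apply]
  obtain ⟨σ, hσ, h⟩ := key 5 le_rfl
  exact ⟨σ, hσ, fun i => h i i.2⟩

/-! ### the hexads -/

/-- the hexads -/
abbrev Hx : Set (Finset ArrayPt) :=
  {h | ∃ x ∈ ternaryGolayCode, ternarySupport x = h ∧ h.card = 6}

theorem supp_mono (σ : Equiv.Perm ArrayPt) (c : ArrayPt → (ZMod 3)ˣ) (x : ArrayPt → ZMod 3) :
    ternarySupport (monomialMap σ c x) = σ • ternarySupport x := by
  ext p
  rw [← Finset.inv_smul_mem_iff]
  unfold ternarySupport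
  simp only [Finset.mem_filter, Finset.mem_univ, true_and]
  show ((c p : (ZMod 3)ˣ) : ZMod 3) * x (σ.symm p) ≠ 0 ↔ x (σ.symm p) ≠ 0
  rw [Ne, Units.mul_right_eq_zero]

theorem pres_aut {σ : Equiv.Perm ArrayPt} {c : ArrayPt → (ZMod 3)ˣ} (h : Pres σ c) :
    σ ∈ setSystemAut Hx := by
  show σ • Hx = Hx
  have hsub : σ • Hx ⊆ Hx := by
    rintro _ ⟨b, ⟨x, hx, rfl, h6⟩, rfl⟩
    exact ⟨monomialMap σ c x, h x hx, supp_mono σ c x, by
      rw [Finset.card_smul_finset]
      exact h6⟩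
  have hfin : Hx.Finite := by
    have e : Hx = ↑blocksF := by
      ext b
      exact mem_blocksF.symm
    rw [e]
    exact Finset.finite_toSet _
  apply Set.eq_of_subset_of_ncard_le hsub _ hfin
  rw [← Set.image_smul, Set.ncard_image_of_injective _ (MulAction.injective σ)]

theorem aut_smul {g : Equiv.Perm ArrayPt} (hg : g ∈ setSystemAut Hx) {b : Finset ArrayPt}
    (hb : b ∈ blocksF) : g • b ∈ blocksF := by
  have h1 : g • Hx = Hx := hg
  have h2 : g • b ∈ g • Hx := Set.smul_mem_smul_set (mem_blocksF.mp hb)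
  rw [h1] at h2
  exact mem_blocksF.mpr h2

theorem h0_mem : h0 ∈ blocksF := mem_blocksF.mpr ⟨wdp t0, wdp_mem t0, rfl, base_facts.1⟩

/-! ### an automorphism of the hexads fixing the five base points is trivial -/

theorem fix_h0 {g : Equiv.Perm ArrayPt} (hg : g ∈ setSystemAut Hx)
    (hfix : ∀ i : Fin 5, g (pp i) = pp i) : ∀ z ∈ h0, g z = z := by
  obtain ⟨-, hp, hp6, hall, hne, hinj⟩ := base_facts
  have hsub : Finset.univ.image pp ⊆ g • h0 ∩ h0 := by
    intro z hz
    obtain ⟨i, -, rfl⟩ := Finset.mem_image.mp hz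
    rw [Finset.mem_inter]
    refine ⟨?_, hp i⟩
    have h1 : g • pp i ∈ g • h0 := Finset.smul_mem_smul_finset (hp i)
    rw [Equiv.Perm.smul_def, hfix i] at h1
    exact h1
  have hc : (Finset.univ.image pp).card = 5 := by
    rw [Finset.card_image_of_injective _ (fun i j h => hinj i j h)]
    rfl
  have heq : g • h0 = h0 :=
    blocks_unique (aut_smul hg h0_mem) h0_mem (by rw [← hc]; exact Finset.card_le_card hsub)
  have h6 : g p6 = p6 := by
    have h1 : g • p6 ∈ g • h0 := Finset.smul_mem_smul_finset hp6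
    rw [heq, Equiv.Perm.smul_def] at h1
    rcases hall _ h1 with h2 | ⟨i, h2⟩
    · exact h2
    · rw [← hfix i] at h2
      exact absurd (g.injective h2) (hne i)
  intro z hz
  rcases hall z hz with rfl | ⟨i, rfl⟩
  · exact h6
  · exact hfix i

theorem notMem_h0 {g : Equiv.Perm ArrayPt} (hfix : ∀ z ∈ h0, g z = z) {x : ArrayPt}
    (hx : x ∉ h0) : g x ∉ h0 := by
  intro h
  have h1 := g.injective (hfix _ h)
  rw [h1] at h
  exact hx h

theorem par_comm {g : Equiv.Perm ArrayPt} (hg : g ∈ setSystemAut Hx)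
    (hfix : ∀ z ∈ h0, g z = z) (k : Fin 5) {x : ArrayPt} (hx : x ∉ h0) :
    g (par k x) = par k (g x) := by
  have hy := notMem_h0 hfix hx
  obtain ⟨hF, hF4⟩ := par_facts1 k
  obtain ⟨w6, px, pne⟩ := par_facts2 k x hx
  obtain ⟨w6', -, -⟩ := par_facts2 k (g x) hy
  have hmem := par_facts3 k x hx
  have hmem' := par_facts3 k (g x) hy
  have hb1 : ternarySupport (wdp (wit k x)) ∈ blocksF :=
    mem_blocksF.mpr ⟨_, wdp_mem _, rfl, w6⟩
  have hb2 : ternarySupport (wdp (wit k (g x))) ∈ blocksF :=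
    mem_blocksF.mpr ⟨_, wdp_mem _, rfl, w6'⟩
  have hsm : ∀ z ∈ ternarySupport (wdp (wit k x)),
      g z ∈ g • ternarySupport (wdp (wit k x)) := by
    intro z hz
    have h1 : g • z ∈ g • ternarySupport (wdp (wit k x)) := Finset.smul_mem_smul_finset hz
    exact h1
  have hsub : insert (g x) (Fk k) ⊆
      g • ternarySupport (wdp (wit k x)) ∩ ternarySupport (wdp (wit k (g x))) := by
    intro z hz
    rw [Finset.mem_inter]
    rcases Finset.mem_insert.mp hz with rfl | hz
    · exact ⟨hsm x ((hmem x).mpr (Or.inl rfl)), (hmem' _).mpr (Or.inl rfl)⟩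
    · refine ⟨?_, (hmem' z).mpr (Or.inr (Or.inr hz))⟩
      have h1 := hsm z ((hmem z).mpr (Or.inr (Or.inr hz)))
      rw [hfix z (hF hz)] at h1
      exact h1
  have hc : (insert (g x) (Fk k)).card = 5 := by
    rw [Finset.card_insert_of_notMem (fun h => hy (hF h)), hF4]
  have heq := blocks_unique (aut_smul hg hb1) hb2
    (by rw [← hc]; exact Finset.card_le_card hsub)
  have h1 := hsm _ ((hmem _).mpr (Or.inr (Or.inl rfl)))
  rw [heq] at h1
  rcases (hmem' _).mp h1 with h2 | h2 | h2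
  · exact absurd (g.injective h2) pne
  · exact h2
  · exfalso
    have h4 := g.injective (hfix _ (hF h2))
    rw [h4] at h2
    exact px (hF h2)

theorem sharp {g : Equiv.Perm ArrayPt} (hg : g ∈ setSystemAut Hx)
    (hfix : ∀ i : Fin 5, g (pp i) = pp i) : g = 1 := by
  have hf := fix_h0 hg hfix
  apply Equiv.ext
  intro x
  show g x = x
  by_cases hx : x ∈ h0
  · exact hf x hx
  · by_contra hne
    obtain ⟨k1, k2, e1, e2⟩ := sep_facts x (g x) hx (notMem_h0 hf hx) (fun h => hne h.symm)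
    apply e2
    rw [← par_comm hg hf k1 hx, ← par_comm hg hf k2 hx, e1]

/-- the images of the five base points -/
def ev (σ : Equiv.Perm ArrayPt) : Fin 5 → ArrayPt := fun i => σ (pp i)

theorem ev_injective (σ : Equiv.Perm ArrayPt) : Function.Injective (ev σ) := by
  intro i j h
  exact base_facts.2.2.2.2.2 i j (σ.injective h)

theorem ev_inj {g g' : Equiv.Perm ArrayPt} (hg : g ∈ setSystemAut Hx)
    (hg' : g' ∈ setSystemAut Hx) (h : ev g = ev g') : g = g' := by
  have h1 : g⁻¹ * g' = 1 := by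
    apply sharp (Subgroup.mul_mem _ (Subgroup.inv_mem _ hg) hg')
    intro i
    have h2 : g (pp i) = g' (pp i) := congrFun h i
    rw [Equiv.Perm.mul_apply, ← h2]
    exact g.symm_apply_apply (pp i)
  exact inv_mul_eq_one.mp h1

theorem aut_inP {σ : Equiv.Perm ArrayPt} (h : σ ∈ setSystemAut Hx) : InP σ := by
  obtain ⟨σ', ⟨c, hc⟩, h'⟩ := trans5 (ev σ) (ev_injective σ)
  have e : σ' = σ := ev_inj (pres_aut hc) h (funext h')
  rw [← e]
  exact ⟨c, hc⟩

/-! ### the signs -/

theorem mono_inj (σ : Equiv.Perm ArrayPt) (c : ArrayPt → (ZMod 3)ˣ) :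
    Function.Injective (monomialMap σ c) := by
  intro x y h
  funext i
  have h1 : ((c (σ i) : (ZMod 3)ˣ) : ZMod 3) * x (σ.symm (σ i)) =
      ((c (σ i) : (ZMod 3)ˣ) : ZMod 3) * y (σ.symm (σ i)) := congrFun h (σ i)
  rw [Equiv.symm_apply_apply] at h1
  exact (Units.mul_right_inj _).mp h1

theorem mono_surj {σ : Equiv.Perm ArrayPt} {c : ArrayPt → (ZMod 3)ˣ} (h : Pres σ c)
    {x : ArrayPt → ZMod 3} (hx : x ∈ ternaryGolayCode) :
    ∃ z ∈ ternaryGolayCode, monomialMap σ c z = x := by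
  have hinj : Function.Injective
      (fun z : ↥ternaryGolayCode => (⟨monomialMap σ c z, h z z.2⟩ : ↥ternaryGolayCode)) :=
    fun a b hab => Subtype.ext (mono_inj σ c (congrArg Subtype.val hab))
  obtain ⟨z, hz⟩ := (Finite.injective_iff_surjective.mp hinj) ⟨x, hx⟩
  exact ⟨z, z.2, congrArg Subtype.val hz⟩

theorem pres_neg {σ : Equiv.Perm ArrayPt} {c : ArrayPt → (ZMod 3)ˣ} (h : Pres σ c) :
    Pres σ (fun i => -c i) := by
  intro x hx
  have e : monomialMap σ (fun i => -c i) x = -monomialMap σ c x := by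
    funext i
    show ((-c i : (ZMod 3)ˣ) : ZMod 3) * x (σ.symm i) =
      -(((c i : (ZMod 3)ˣ) : ZMod 3) * x (σ.symm i))
    rw [Units.val_neg, neg_mul]
  rw [e]
  exact Submodule.neg_mem _ (h x hx)

theorem fiber {σ : Equiv.Perm ArrayPt} {c c' : ArrayPt → (ZMod 3)ˣ} (h : Pres σ c)
    (h' : Pres σ c') : c' = c ∨ c' = fun i => -c i := by
  have hd : ∀ x ∈ ternaryGolayCode,
      monomialMap 1 (fun i => c' i * (c i)⁻¹) x ∈ ternaryGolayCode := by
    intro x hx
    obtain ⟨z, hz, rfl⟩ := mono_surj h hx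
    have e : monomialMap 1 (fun i => c' i * (c i)⁻¹) (monomialMap σ c z) =
        monomialMap σ c' z := by
      funext i
      show ((c' i * (c i)⁻¹ : (ZMod 3)ˣ) : ZMod 3) *
        (((c i : (ZMod 3)ˣ) : ZMod 3) * z (σ.symm i)) =
          ((c' i : (ZMod 3)ˣ) : ZMod 3) * z (σ.symm i)
      rw [← mul_assoc, ← Units.val_mul, inv_mul_cancel_right]
    rw [e]
    exact h' z hz
  rcases Cfsg.Agent.S1593.result _ hd with h1 | h1
  · left
    funext i
    exact mul_inv_eq_one.mp (h1 i)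
  · right
    funext i
    have h2 := h1 i
    rw [mul_inv_eq_iff_eq_mul] at h2
    rw [h2, neg_one_mul]

/-! ### counting -/

theorem card_inj : Nat.card {t : Fin 5 → ArrayPt // Function.Injective t} = 95040 := by
  rw [Nat.card_congr (Equiv.subtypeInjectiveEquivEmbedding (Fin 5) ArrayPt),
    Nat.card_eq_fintype_card, Fintype.card_embedding_eq, Fintype.card_fin, Fintype.card_prod,
    Fintype.card_fin, ZMod.card]
  decide

theorem card_units : Nat.card (ZMod 3)ˣ = 2 := by
  rw [Nat.card_eq_fintype_card]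
  decide

/-- the monomial maps preserving the code -/
abbrev Mon : Type :=
  {f : Equiv.Perm ArrayPt × (ArrayPt → (ZMod 3)ˣ) //
    ∀ x ∈ ternaryGolayCode, monomialMap f.1 f.2 x ∈ ternaryGolayCode}

/-- the images of the base points and the sign at the first point -/
def Phi (f : Mon) : {t : Fin 5 → ArrayPt // Function.Injective t} × (ZMod 3)ˣ :=
  (⟨ev f.1.1, ev_injective f.1.1⟩, f.1.2 (0, 0))

theorem Phi_bij : Function.Bijective Phi := by
  constructor
  · rintro ⟨⟨σ, c⟩, h⟩ ⟨⟨σ', c'⟩, h'⟩ e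
    have e1 : ev σ = ev σ' := congrArg (fun y => (y.1 : Fin 5 → ArrayPt)) e
    have e2 : c (0, 0) = c' (0, 0) := congrArg Prod.snd e
    have e3 : σ = σ' := ev_inj (pres_aut h) (pres_aut h') e1
    subst e3
    have hc : Pres σ c := h
    have hc' : Pres σ c' := h'
    have e4 : c' = c := by
      rcases fiber hc hc' with h3 | h3
      · exact h3
      · exfalso
        rw [h3] at e2
        exact neg_ne _ e2.symm
    subst e4
    rfl
  · rintro ⟨⟨t, ht⟩, u⟩
    obtain ⟨σ, ⟨c, hc⟩, hσ⟩ := trans5 t ht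
    by_cases hu : c (0, 0) = u
    · refine ⟨⟨(σ, c), hc⟩, ?_⟩
      show ((⟨ev σ, ev_injective σ⟩ : {t : Fin 5 → ArrayPt // Function.Injective t}),
        c (0, 0)) = (⟨t, ht⟩, u)
      rw [hu]
      congr 1
      exact Subtype.ext (funext hσ)
    · refine ⟨⟨(σ, fun i => -c i), pres_neg hc⟩, ?_⟩
      have hu' : -c (0, 0) = u := by
        rcases unit_cases (c (0, 0)) with h1 | h1 <;> rcases unit_cases u with h2 | h2
        · exact absurd (h1.trans h2.symm) hu
        · rw [h1, h2]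
        · rw [h1, h2, neg_neg]
        · exact absurd (h1.trans h2.symm) hu
      show ((⟨ev σ, ev_injective σ⟩ : {t : Fin 5 → ArrayPt // Function.Injective t}),
        -c (0, 0)) = (⟨t, ht⟩, u)
      rw [hu']
      congr 1
      exact Subtype.ext (funext hσ)

/-- The monomial automorphism group of the length-12 ternary code has order 190080 and its permutation parts are exactly the automorphisms of its hexad system. -/
theorem result : Nat.card {f : Equiv.Perm Cfsg.ArrayPt × (Cfsg.ArrayPt → (ZMod 3)ˣ) // (∀ x ∈ Cfsg.ternaryGolayCode, Cfsg.monomialMap f.1 f.2 x ∈ Cfsg.ternaryGolayCode)} = 190080 ∧ {σ : Equiv.Perm Cfsg.ArrayPt | ∃ c : Cfsg.ArrayPt → (ZMod 3)ˣ, (∀ x ∈ Cfsg.ternaryGolayCode, Cfsg.monomialMap σ c x ∈ Cfsg.ternaryGolayCode)} = (Cfsg.setSystemAut {h : Finset Cfsg.ArrayPt | ∃ x ∈ Cfsg.ternaryGolayCode, Cfsg.ternarySupport x = h ∧ h.card = 6} : Set (Equiv.Perm Cfsg.ArrayPt)) := by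
  refine ⟨?_, ?_⟩
  · have h := Nat.card_congr (Equiv.ofBijective Phi Phi_bij)
    rw [Nat.card_prod, card_inj, card_units] at h
    exact h
  · ext σ
    constructor
    · rintro ⟨c, hc⟩
      exact pres_aut hc
    · intro h
      exact aut_inP h

end Cfsg.Agent.S1594
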