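import Cfsg.Statements.S1595
import Cfsg.Agent.Lib.Helper8.S5612

set_option autoImplicit false
open Cfsg

namespace Cfsg.Agent.S1595

open Finset Cfsg.Agent.Lib.Helper8.Steiner Cfsg.Agent.Lib.Helper8.S5612

variable {α : Type*} [Fintype α] [DecidableEq α]

lemma inter_ne_one (hα : Fintype.card α = 12) {B : Set (Finset α)}
    (hB : Cfsg.IsSteinerSystem 5 6 B) {b c : Finset α} (hb : b ∈ B) (hc : c ∈ B) (hcb : c ≠ b) :
    (c ∩ b).card ≠ 1 := by
  have hpt : ∀ d ∈ blocks B,
      (if (d ∩ b).card = 1 then 1 else 0) + 2 * (d ∩ b).card.choose 2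
        + 4 * (d ∩ b).card.choose 4
      = (d ∩ b).card + 3 * (d ∩ b).card.choose 3 + (if d = b then 24 else 0) := by
    intro d hd
    rw [mem_blocks] at hd
    by_cases hdb : d = b
    · subst hdb
      have c2 : Nat.choose 6 2 = 15 := by decide
      have c3 : Nat.choose 6 3 = 20 := by decide
      have c4 : Nat.choose 6 4 = 15 := by decide
      simp [hB.1 d hd, c2, c3, c4]
    · have := inter_le_four hB hd hb hdb
      rw [if_neg hdb]
      interval_cases h : (d ∩ b).card <;> decide
  have hs := Finset.sum_congr rfl hpt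
  rw [sum_add_distrib, sum_add_distrib, sum_add_distrib, sum_add_distrib, ← mul_sum, ← mul_sum,
    ← mul_sum, m1 hα hB, m2 hα hB, m3 hα hB, m4 hα hB, sum_ite_eq', sum_boole,
    if_pos (mem_blocks.mpr hb), hB.1 b hb] at hs
  have c2 : Nat.choose 6 2 = 15 := by decide
  have c3 : Nat.choose 6 3 = 20 := by decide
  have c4 : Nat.choose 6 4 = 15 := by decide
  rw [c2, c3, c4] at hs
  simp only [Nat.cast_id] at hs
  have h0 : ((blocks B).filter (fun d => (d ∩ b).card = 1)).card = 0 := by omega
  rw [card_eq_zero] at h0
  intro h1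
  have : c ∈ (blocks B).filter (fun d => (d ∩ b).card = 1) := by
    rw [mem_filter]; exact ⟨mem_blocks.mpr hc, h1⟩
  rw [h0] at this
  exact absurd this (notMem_empty _)

/-- blocks through a subset of a block, and how they meet the rest of the block -/
lemma through_facts {B : Set (Finset α)}
    (hB : Cfsg.IsSteinerSystem 5 6 B) {b s : Finset α} (hb : b ∈ B) (hs : s ⊆ b) :
    (b ∈ (blocks B).filter (fun c => s ⊆ c)) ∧ ((b ∩ (b \ s)).card = 6 - s.card) ∧
    (∀ c ∈ (blocks B).filter (fun c => s ⊆ c), c ≠ b → s.card + (c ∩ (b \ s)).card ≤ 4) ∧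
    ({c : Finset α | c ∈ B ∧ b ∩ c = s}.ncard
      = (((blocks B).filter (fun c => s ⊆ c)).filter (fun c => (c ∩ (b \ s)).card = 0)).card) := by
  refine ⟨?_, ?_, ?_, ?_⟩
  · rw [mem_filter, mem_blocks]; exact ⟨hb, hs⟩
  · rw [inter_eq_right.mpr sdiff_subset, card_sdiff_of_subset hs, hB.1 b hb]
  · intro c hc hcb
    rw [mem_filter, mem_blocks] at hc
    have h4 := inter_le_four hB hc.1 hb hcb
    have hsub : s ∪ (c ∩ (b \ s)) ⊆ c ∩ b := by
      intro x hx
      rw [mem_union] at hx
      rcases hx with hx | hx
      · exact mem_inter.mpr ⟨hc.2 hx, hs hx⟩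
      · rw [mem_inter, mem_sdiff] at hx
        exact mem_inter.mpr ⟨hx.1, hx.2.1⟩
    have hdisj : Disjoint s (c ∩ (b \ s)) := by
      rw [Finset.disjoint_left]
      intro x hx hx2
      rw [mem_inter, mem_sdiff] at hx2
      exact hx2.2.2 hx
    have := card_le_card hsub
    rw [card_union_of_disjoint hdisj] at this
    omega
  · have e : {c : Finset α | c ∈ B ∧ b ∩ c = s}
        = ((((blocks B).filter (fun c => s ⊆ c)).filter (fun c => (c ∩ (b \ s)).card = 0) :
            Finset (Finset α)) : Set (Finset α)) := by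
      ext c
      rw [Finset.mem_coe, mem_filter, mem_filter, mem_blocks, card_eq_zero]
      show (c ∈ B ∧ b ∩ c = s) ↔ _
      constructor
      · rintro ⟨hcB, hbc⟩
        refine ⟨⟨hcB, ?_⟩, ?_⟩
        · rw [← hbc]; exact inter_subset_right
        · rw [← hbc]
          ext x
          simp only [mem_inter, mem_sdiff, notMem_empty, iff_false]
          tauto
      · rintro ⟨⟨hcB, hsc⟩, hemp⟩
        refine ⟨hcB, ?_⟩
        ext x
        constructor
        · intro hx
          rw [mem_inter] at hx
          by_contra hxs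
          have : x ∈ c ∩ (b \ s) := by
            rw [mem_inter, mem_sdiff]; exact ⟨hx.2, hx.1, hxs⟩
          rw [hemp] at this
          exact absurd this (notMem_empty _)
        · intro hx
          exact mem_inter.mpr ⟨hs hx, hsc hx⟩
    rw [e, Set.ncard_coe_finset]

/-- Leech triangle of S(5, 6, 12): blocks meet in 0, 2, 3 or 4 points, and a block is met exactly in a given 2-, 3- or 4-subset by 3, 2, 3 blocks respectively. -/
theorem result {α : Type*} [Fintype α] [DecidableEq α] (hα : Fintype.card α = 12) {B : Set (Finset α)} (hB : Cfsg.IsSteinerSystem 5 6 B) (b : Finset α) (hb : b ∈ B) : (∀ c ∈ B, c ≠ b → (b ∩ c).card = 0 ∨ (b ∩ c).card = 2 ∨ (b ∩ c).card = 3 ∨ (b ∩ c).card = 4) ∧ ∀ s ⊆ b, (s.card = 2 → {c : Finset α | c ∈ B ∧ b ∩ c = s}.ncard = 3) ∧ (s.card = 3 → {c : Finset α | c ∈ B ∧ b ∩ c = s}.ncard = 2) ∧ (s.card = 4 → {c : Finset α | c ∈ B ∧ b ∩ c = s}.ncard = 3) := by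
  refine ⟨?_, ?_⟩
  · intro c hc hcb
    have h1 := inter_ne_one hα hB hb hc hcb
    have h4 := inter_le_four hB hc hb hcb
    rw [inter_comm] at h1 h4
    omega
  · intro s hs
    obtain ⟨hbF, hbm, hle, hcount⟩ := through_facts hB hb hs
    have hdisj : Disjoint s (b \ s) := disjoint_sdiff
    have hcs : (b \ s).card = 6 - s.card := by rw [card_sdiff_of_subset hs, hB.1 b hb]
    refine ⟨?_, ?_, ?_⟩
    · intro h2
      rw [hcount]
      have t0 := moment_through hB s (b \ s) hdisj 0 (by omega)
      have t1 := moment_through hB s (b \ s) hdisj 1 (by omega)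
      have t2 := moment_through hB s (b \ s) hdisj 2 (by omega)
      rw [hcs, h2, hα] at t0 t1 t2
      have c1 : Nat.choose 4 3 = 4 := by decide
      have c2 : Nat.choose 10 3 = 120 := by decide
      have c3 : Nat.choose 3 2 = 3 := by decide
      have c4 : Nat.choose 9 2 = 36 := by decide
      have c5 : Nat.choose 4 2 = 6 := by decide
      simp only [Nat.choose_zero_right, Nat.choose_one_right, Nat.reduceSub, c1, c2, c3, c4, c5,
        sum_const, smul_eq_mul, mul_one, one_mul] at t0 t1 t2
      have hpt : ∀ d ∈ (blocks B).filter (fun c => s ⊆ c),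
          (if (d ∩ (b \ s)).card = 0 then 1 else 0) + (d ∩ (b \ s)).card
            + (if d = b then 3 else 0)
          = 1 + (d ∩ (b \ s)).card.choose 2 := by
        intro d hd
        by_cases hdb : d = b
        · rw [hdb, if_pos rfl, hbm, h2]; decide
        · have := hle d hd hdb
          rw [h2] at this
          have hm : (d ∩ (b \ s)).card ≤ 2 := by omega
          rw [if_neg hdb]
          interval_cases h : (d ∩ (b \ s)).card <;> first | decide | omega
      have hsum := Finset.sum_congr rfl hpt
      rw [sum_add_distrib, sum_add_distrib, sum_add_distrib, sum_ite_eq', sum_boole,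
        if_pos hbF, sum_const] at hsum
      simp only [Nat.cast_id, smul_eq_mul, mul_one] at hsum
      omega
    · intro h3
      rw [hcount]
      have t0 := moment_through hB s (b \ s) hdisj 0 (by omega)
      have t1 := moment_through hB s (b \ s) hdisj 1 (by omega)
      rw [hcs, h3, hα] at t0 t1
      have c1 : Nat.choose 3 2 = 3 := by decide
      have c2 : Nat.choose 9 2 = 36 := by decide
      simp only [Nat.choose_zero_right, Nat.choose_one_right, Nat.reduceSub, c1, c2,
        sum_const, smul_eq_mul, mul_one, one_mul] at t0 t1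
      have hpt : ∀ d ∈ (blocks B).filter (fun c => s ⊆ c),
          (if (d ∩ (b \ s)).card = 0 then 1 else 0) + (d ∩ (b \ s)).card
          = 1 + (if d = b then 2 else 0) := by
        intro d hd
        by_cases hdb : d = b
        · rw [hdb, if_pos rfl, hbm, h3]; decide
        · have := hle d hd hdb
          rw [h3] at this
          have hm : (d ∩ (b \ s)).card ≤ 2 := by omega
          rw [if_neg hdb]
          interval_cases h : (d ∩ (b \ s)).card <;> first | decide | omega
      have hsum := Finset.sum_congr rfl hpt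
      rw [sum_add_distrib, sum_add_distrib, sum_ite_eq', sum_boole,
        if_pos hbF, sum_const] at hsum
      simp only [Nat.cast_id, smul_eq_mul, mul_one] at hsum
      omega
    · intro h4
      rw [hcount]
      have t0 := moment_through hB s (b \ s) hdisj 0 (by omega)
      rw [hcs, h4, hα] at t0
      simp only [Nat.choose_zero_right, Nat.choose_one_right, Nat.reduceSub,
        sum_const, smul_eq_mul, mul_one, one_mul] at t0
      have hpt : ∀ d ∈ (blocks B).filter (fun c => s ⊆ c),
          (if (d ∩ (b \ s)).card = 0 then 1 else 0) + (if d = b then 1 else 0) = 1 := by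
        intro d hd
        by_cases hdb : d = b
        · rw [hdb, if_pos rfl, hbm, h4]; decide
        · have := hle d hd hdb
          rw [h4] at this
          have hm : (d ∩ (b \ s)).card ≤ 2 := by omega
          rw [if_neg hdb]
          interval_cases h : (d ∩ (b \ s)).card <;> first | decide | omega
      have hsum := Finset.sum_congr rfl hpt
      rw [sum_add_distrib, sum_ite_eq', sum_boole, if_pos hbF, sum_const] at hsum
      simp only [Nat.cast_id, smul_eq_mul, mul_one] at hsum
      omega

end Cfsg.Agent.S1595
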