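import Cfsg.Statements.S1606
import Cfsg.Agent.Lib.Helper8.M22Sub
import Cfsg.Agent.S0378

set_option autoImplicit false
open scoped Pointwise
open Cfsg

namespace Cfsg.Agent.S1606

/-- The stabiliser of two points in the group of the length-24 code has no subgroups of index 56 or 210. -/
theorem result (p q : Cfsg.GolayPt) (hpq : p ≠ q) (H : Subgroup ↥(MulAction.stabilizer Cfsg.M24 p ⊓ MulAction.stabilizer Cfsg.M24 q)) : H.index ≠ 56 ∧ H.index ≠ 210 := by
  classical
  have hKle : (H.map (MulAction.stabilizer M24 p ⊓ MulAction.stabilizer M24 q).subtype).map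
      M24.subtype ≤ M24 := by
    rintro _ ⟨a, _, rfl⟩
    exact a.2
  have hKp : ∀ k ∈ (H.map (MulAction.stabilizer M24 p ⊓ MulAction.stabilizer M24 q).subtype).map
      M24.subtype, k p = p := by
    rintro _ ⟨_, ⟨h, _, rfl⟩, rfl⟩
    exact MulAction.mem_stabilizer_iff.mp (Subgroup.mem_inf.mp h.2).1
  have hKq : ∀ k ∈ (H.map (MulAction.stabilizer M24 p ⊓ MulAction.stabilizer M24 q).subtype).map
      M24.subtype, k q = q := by
    rintro _ ⟨_, ⟨h, _, rfl⟩, rfl⟩
    exact MulAction.mem_stabilizer_iff.mp (Subgroup.mem_inf.mp h.2).2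
  have hcK : Nat.card ↥((H.map
      (MulAction.stabilizer M24 p ⊓ MulAction.stabilizer M24 q).subtype).map M24.subtype) =
      Nat.card H := by
    rw [Subgroup.card_map_of_injective (Subgroup.subtype_injective _),
      Subgroup.card_map_of_injective (Subgroup.subtype_injective _)]
  have hidx := Subgroup.card_mul_index H
  rw [Cfsg.Agent.S0378.result p q hpq] at hidx
  constructor
  · intro h56
    rw [h56] at hidx
    exact Cfsg.Agent.Lib.Helper8.M22Sub.no_7920 hKle hpq hKp hKq (by rw [hcK]; omega)
  · intro h210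
    rw [h210] at hidx
    exact Cfsg.Agent.Lib.Helper8.M22Sub.no_2112 hKle hpq hKp hKq (by rw [hcK]; omega)

end Cfsg.Agent.S1606
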