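import Cfsg.Statements.S1609
import Cfsg.Agent.Lib.Helper8.Sub40320
import Cfsg.Agent.S0376

set_option autoImplicit false
open scoped Pointwise
open Cfsg

namespace Cfsg.Agent.S1609

open Cfsg.Agent.Lib.Helper35.M24Fix Cfsg.Agent.Lib.Helper35.PermAut
  Cfsg.Agent.Lib.Helper35.M24Aut Cfsg.Agent.Lib.Helper8.M24Sub Cfsg.Agent.Lib.Helper8.M24Sub2

/-- An element of order 11 or 23 of `M24` fixing `x` cannot preserve a set of at least two and
fewer than eleven points other than `x`. -/
theorem no_big_prime {g : Equiv.Perm GolayPt} (hg : g ∈ M24) {p : ℕ} (hp : p = 11 ∨ p = 23)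
    (hgp : orderOf g = p) {x : GolayPt} (hx : g x = x) (Y : Finset GolayPt)
    (hY : ∀ y ∈ Y, g y ∈ Y) (hxY : x ∉ Y) (h2 : 2 ≤ Y.card) (h11 : Y.card < 11) : False := by
  have hp' : p.Prime := by rcases hp with rfl | rfl <;> norm_num
  have : Fact p.Prime := ⟨hp'⟩
  have h1 := card_fixed_modEq g (p := p) (n := 1) (by rw [pow_one, ← hgp, pow_orderOf_eq_one])
    Y hY
  have hle : (Y.filter (fun y => g y = y)).card ≤ Y.card := Finset.card_filter_le _ _
  have heq : (Y.filter (fun y => g y = y)).card = Y.card := by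
    have h3 : Y.card % p = (Y.filter (fun y => g y = y)).card % p := h1
    rcases hp with rfl | rfl <;> omega
  have hsub : insert x (Y.filter (fun y => g y = y)) ⊆ fixedPts g := by
    intro z hz
    rcases Finset.mem_insert.mp hz with rfl | hz
    · exact mem_fixedPts.mpr hx
    · exact mem_fixedPts.mpr (Finset.mem_filter.mp hz).2
  have hc := Finset.card_le_card hsub
  rw [Finset.card_insert_of_notMem (fun h => hxY (Finset.mem_filter.mp h).1), heq] at hc
  rcases hp with rfl | rfl
  · have := card_fixedPts_11 hg hgp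
    omega
  · have := card_fixedPts_23 hg hgp
    omega

/-- Subgroups of index 253 in the Mathieu group of degree 23 are exactly the duad stabilisers and the heptad stabilisers. -/
theorem result (x : Cfsg.GolayPt) (H : Subgroup ↥(MulAction.stabilizer Cfsg.M24 x)) (hH : H.index = 253) : (∃ s : Finset Cfsg.GolayPt, s.card = 2 ∧ x ∉ s ∧ H = (MulAction.stabilizer Cfsg.M24 s).subgroupOf (MulAction.stabilizer Cfsg.M24 x)) ∨ ∃ o ∈ Cfsg.octads, x ∈ o ∧ H = (MulAction.stabilizer Cfsg.M24 o).subgroupOf (MulAction.stabilizer Cfsg.M24 x) := by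
  classical
  have hKmem : ∀ h ∈ H, ((h : ↥M24) : Equiv.Perm GolayPt) ∈
      (H.map (MulAction.stabilizer M24 x).subtype).map M24.subtype := fun h hh =>
    Subgroup.mem_map_of_mem _ (Subgroup.mem_map_of_mem _ hh)
  have hKle : (H.map (MulAction.stabilizer M24 x).subtype).map M24.subtype ≤ M24 := by
    rintro _ ⟨a, _, rfl⟩
    exact a.2
  have hKx : ∀ k ∈ (H.map (MulAction.stabilizer M24 x).subtype).map M24.subtype, k x = x := by
    rintro _ ⟨_, ⟨h, _, rfl⟩, rfl⟩
    exact MulAction.mem_stabilizer_iff.mp h.2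
  have hcH : Nat.card H = 40320 := by
    have h1 := Subgroup.card_mul_index H
    rw [hH, Cfsg.Agent.S0376.result x] at h1
    omega
  have hcK : Nat.card ↥((H.map (MulAction.stabilizer M24 x).subtype).map M24.subtype) = 40320 := by
    rw [Subgroup.card_map_of_injective (Subgroup.subtype_injective _),
      Subgroup.card_map_of_injective (Subgroup.subtype_injective _), hcH]
  have key : ∀ Z : Finset GolayPt,
      (∀ k ∈ (H.map (MulAction.stabilizer M24 x).subtype).map M24.subtype, ∀ y ∈ Z, k y ∈ Z) →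
      2 ≤ (Z.erase x).card → (Z.erase x).card < 11 →
      H = (MulAction.stabilizer M24 Z).subgroupOf (MulAction.stabilizer M24 x) := by
    intro Z hZ h2 h11
    have hle : H ≤ (MulAction.stabilizer M24 Z).subgroupOf (MulAction.stabilizer M24 x) := by
      intro h hh
      rw [Subgroup.mem_subgroupOf, MulAction.mem_stabilizer_iff]
      apply Finset.eq_of_subset_of_card_le
      · intro z hz
        obtain ⟨y, hy, rfl⟩ := Finset.mem_smul_finset.mp hz
        exact hZ _ (hKmem h hh) y hy
      · rw [Finset.card_smul_finset]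
    apply Subgroup.eq_of_le_of_card_ge hle
    have hd1 : Nat.card H ∣
        Nat.card ↥((MulAction.stabilizer M24 Z).subgroupOf (MulAction.stabilizer M24 x)) :=
      Subgroup.card_dvd_of_le hle
    have hd2 : Nat.card ↥((MulAction.stabilizer M24 Z).subgroupOf (MulAction.stabilizer M24 x))
        ∣ 10200960 := by
      rw [← Cfsg.Agent.S0376.result x]
      exact Subgroup.card_subgroup_dvd_card _
    have hnp : ∀ p, (p = 11 ∨ p = 23) → ¬ p ∣
        Nat.card ↥((MulAction.stabilizer M24 Z).subgroupOf (MulAction.stabilizer M24 x)) := by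
      intro p hp hdvd
      have hp' : p.Prime := by rcases hp with rfl | rfl <;> norm_num
      have : Fact p.Prime := ⟨hp'⟩
      obtain ⟨j, hj⟩ := exists_prime_orderOf_dvd_card'
        (G := ↥((MulAction.stabilizer M24 Z).subgroupOf (MulAction.stabilizer M24 x))) p hdvd
      have hj' : orderOf (((j : ↥(MulAction.stabilizer M24 x)) : ↥M24) : Equiv.Perm GolayPt)
          = p := by
        rw [Subgroup.orderOf_coe, Subgroup.orderOf_coe, Subgroup.orderOf_coe, hj]
      have hjx : (((j : ↥(MulAction.stabilizer M24 x)) : ↥M24) : Equiv.Perm GolayPt) x = x :=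
        MulAction.mem_stabilizer_iff.mp j.1.2
      have hjZ : ∀ y ∈ Z,
          (((j : ↥(MulAction.stabilizer M24 x)) : ↥M24) : Equiv.Perm GolayPt) y ∈ Z := by
        intro y hy
        have h1 : ((j : ↥(MulAction.stabilizer M24 x)) : ↥M24) • Z = Z :=
          MulAction.mem_stabilizer_iff.mp (Subgroup.mem_subgroupOf.mp j.2)
        have h2 : ((j : ↥(MulAction.stabilizer M24 x)) : ↥M24) • y ∈
            ((j : ↥(MulAction.stabilizer M24 x)) : ↥M24) • Z := Finset.smul_mem_smul_finset hy
        rw [h1] at h2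
        exact h2
      exact no_big_prime (j.1.1.2) hp hj' hjx (Z.erase x) (fun y hy => by
        rw [Finset.mem_erase] at hy ⊢
        exact ⟨fun h => hy.1 (Equiv.injective _ (h.trans hjx.symm)), hjZ y hy.2⟩)
        (Finset.notMem_erase x Z) h2 h11
    rw [hcH] at hd1 ⊢
    obtain ⟨m, hm⟩ := hd1
    rw [hm] at hd2 hnp ⊢
    have hm253 : m ∣ 253 :=
      Nat.dvd_of_mul_dvd_mul_left (by norm_num : 0 < 40320) (by simpa using hd2)
    have h11' : ¬ 11 ∣ m := fun h => hnp 11 (Or.inl rfl) (Dvd.dvd.mul_left h _)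
    have h23' : ¬ 23 ∣ m := fun h => hnp 23 (Or.inr rfl) (Dvd.dvd.mul_left h _)
    have hm1 : m = 1 := by
      have hmle : m ≤ 253 := Nat.le_of_dvd (by norm_num) hm253
      interval_cases m <;> omega
    rw [hm1]
  rcases Cfsg.Agent.Lib.Helper8.Sub40320.classify hKle hKx hcK with
    ⟨s, hs2, hxs, hsinv⟩ | ⟨o, ho, hxo, hoinv⟩
  · left
    refine ⟨s, hs2, hxs, key s hsinv ?_ ?_⟩
    · rw [Finset.erase_eq_of_notMem hxs, hs2]
    · rw [Finset.erase_eq_of_notMem hxs, hs2]
      norm_num
  · right
    have hc8 : o.card = 8 := ho.2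
    refine ⟨o, ho, hxo, key o hoinv ?_ ?_⟩
    · rw [Finset.card_erase_of_mem hxo, hc8]
      norm_num
    · rw [Finset.card_erase_of_mem hxo, hc8]
      norm_num

end Cfsg.Agent.S1609
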