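import Cfsg.Statements.S1610


set_option autoImplicit false
open Cfsg

namespace Cfsg.Agent.S1610

section Helpers

/-- a concrete field with four elements -/
abbrev R4 := QuadraticAlgebra (ZMod 2) 1 1

instance instFintypeR4 : Fintype R4 :=
  Fintype.ofEquiv _ (QuadraticAlgebra.equivProd (1 : ZMod 2) 1).symm

/-- the generator of `R4` -/
def w0 : R4 := ⟨0, 1⟩

theorem card_R4 : Fintype.card R4 = 4 := by decide

/-- a field of order four with a chosen primitive cube root of unity is `R4` -/
theorem exists_equiv {F : Type*} [Field F] [Fintype F] (hF : Fintype.card F = 4) (ω : F)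
    (hω : ω ^ 2 + ω + 1 = 0) : ∃ e : R4 ≃+* F, e w0 = ω := by
  classical
  have h2 : (2 : F) = 0 := by
    have h4 : (4 : F) = 0 := by
      have := card_nsmul_eq_zero (G := F) (x := 1)
      rw [hF] at this
      simpa using this
    have h22 : (2 : F) * 2 = 0 := by rw [← h4]; norm_num
    exact mul_self_eq_zero.mp h22
  haveI : CharP F 2 := CharTwo.of_one_ne_zero_of_two_eq_zero one_ne_zero h2
  letI : Algebra (ZMod 2) F := ZMod.algebra F 2
  have hω' : ω * ω = 1 + ω := by linear_combination hω - (1 + ω) * h2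
  have hω0 : ω ≠ 0 := by
    rintro rfl
    simp at hω
  have hω1 : ω ≠ 1 := by
    rintro rfl
    have : (1 : F) = 0 := by linear_combination hω - h2
    exact one_ne_zero this
  let g := QuadraticAlgebra.lift (R := ZMod 2) (a := 1) (b := 1) (A := F)
    ⟨ω, by rw [one_smul, one_smul]; exact hω'⟩
  have hinj : Function.Injective g := by
    rw [injective_iff_map_eq_zero]
    rintro ⟨a, b⟩ h
    have h' : a • (1 : F) + b • ω = 0 := h
    fin_cases a <;> fin_cases b
    · rfl
    · exfalso
      have h'' : (0 : ZMod 2) • (1 : F) + (1 : ZMod 2) • ω = 0 := h'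
      rw [zero_smul, one_smul, zero_add] at h''
      exact hω0 h''
    · exfalso
      have h'' : (1 : ZMod 2) • (1 : F) + (0 : ZMod 2) • ω = 0 := h'
      rw [zero_smul, one_smul, add_zero] at h''
      exact one_ne_zero h''
    · exfalso
      have h'' : (1 : ZMod 2) • (1 : F) + (1 : ZMod 2) • ω = 0 := h'
      rw [one_smul, one_smul] at h''
      apply hω1
      linear_combination h'' - h2
  have hbij : Function.Bijective g :=
    (Fintype.bijective_iff_injective_and_card g).mpr ⟨hinj, by rw [hF, card_R4]⟩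
  refine ⟨RingEquiv.ofBijective g.toRingHom hbij, ?_⟩
  show (0 : ZMod 2) • (1 : F) + (1 : ZMod 2) • ω = ω
  rw [zero_smul, one_smul, zero_add]

variable {K : Type*} [CommRing K]

/-- the hexacode word with information symbols `x0 x1 x2` -/
def sysw (w x0 x1 x2 : K) : Fin 6 → K :=
  ![x0, x1, x2, x0 + x1 + x2, w ^ 2 * x0 + w * x1 + x2, w * x0 + w ^ 2 * x1 + x2]

/-- the parity checks of the hexacode in systematic form -/
def Sys (w : K) (x : Fin 6 → K) : Prop :=
  x 3 = x 0 + x 1 + x 2 ∧ x 4 = w ^ 2 * x 0 + w * x 1 + x 2 ∧ x 5 = w * x 0 + w ^ 2 * x 1 + x 2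

instance instDecSys [DecidableEq K] (w : K) (x : Fin 6 → K) : Decidable (Sys w x) := by
  unfold Sys; infer_instance

/-- the combination of the three generators with coefficients `a b c` -/
def word (w a b c : K) : Fin 6 → K :=
  ![a * w + b * w ^ 2 + c * w ^ 2, a * w ^ 2 + b * w + c * w, a * w ^ 2 + b * w + c * w ^ 2,
    a * w + b * w ^ 2 + c * w, a * w ^ 2 + b * w ^ 2 + c * w, a * w + b * w + c * w ^ 2]

theorem mem_hexacode_iff {K : Type*} [Field K] (w : K) (x : Fin 6 → K) :
    x ∈ Cfsg.hexacode K w ↔ ∃ a b c : K, x = word w a b c := by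
  unfold Cfsg.hexacode
  rw [Submodule.mem_span_triple]
  constructor
  · rintro ⟨a, b, c, rfl⟩
    refine ⟨a, b, c, ?_⟩
    funext i
    fin_cases i <;> simp [word]
  · rintro ⟨a, b, c, rfl⟩
    refine ⟨a, b, c, ?_⟩
    funext i
    fin_cases i <;> simp [word]

theorem sys_iff (w : K) (x : Fin 6 → K) : Sys w x ↔ x = sysw w (x 0) (x 1) (x 2) := by
  constructor
  · rintro ⟨h3, h4, h5⟩
    funext i
    fin_cases i
    · rfl
    · rfl
    · rfl
    · exact h3
    · exact h4
    · exact h5
  · intro h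
    refine ⟨?_, ?_, ?_⟩
    · exact congrFun h 3
    · exact congrFun h 4
    · exact congrFun h 5

theorem sys_sysw (w x0 x1 x2 : K) : Sys w (sysw w x0 x1 x2) := ⟨rfl, rfl, rfl⟩

variable {L : Type*} [CommRing L]

theorem word_map (e : K →+* L) (w a b c : K) :
    (fun i => e (word w a b c i)) = word (e w) (e a) (e b) (e c) := by
  funext i
  fin_cases i <;> simp [word]

theorem sysw_map (e : K →+* L) (w a b c : K) :
    (fun i => e (sysw w a b c i)) = sysw (e w) (e a) (e b) (e c) := by
  funext i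
  fin_cases i <;> simp [sysw]

theorem sys_map (e : K →+* L) (he : Function.Injective e) (w : K) (x : Fin 6 → K) :
    Sys (e w) (fun i => e (x i)) ↔ Sys w x := by
  unfold Sys
  simp only [← map_pow, ← map_mul, ← map_add]
  rw [he.eq_iff, he.eq_iff, he.eq_iff]

theorem sys_word : ∀ a b c : R4, Sys w0 (word w0 a b c) := by decide

theorem word_sysw : ∀ x0 x1 x2 : R4,
    word w0 (w0 * x0 + w0 ^ 2 * x1) (w0 ^ 2 * x0 + w0 ^ 2 * x1 + x2) (x1 + x2)
      = sysw w0 x0 x1 x2 := by decide

theorem wt_four_or_six : ∀ x0 x1 x2 : R4, ¬ (x0 = 0 ∧ x1 = 0 ∧ x2 = 0) →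
    (Finset.univ.filter fun i => sysw w0 x0 x1 x2 i ≠ 0).card = 4 ∨
      (Finset.univ.filter fun i => sysw w0 x0 x1 x2 i ≠ 0).card = 6 := by decide

theorem count_four : (Finset.univ.filter fun t : R4 × R4 × R4 =>
    (Finset.univ.filter fun i => sysw w0 t.1 t.2.1 t.2.2 i ≠ 0).card = 4).card = 45 := by decide

theorem count_six : (Finset.univ.filter fun t : R4 × R4 × R4 =>
    (Finset.univ.filter fun i => sysw w0 t.1 t.2.1 t.2.2 i ≠ 0).card = 6).card = 18 := by decide

section Transport

variable {F : Type*} [Field F] (e : R4 ≃+* F)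

theorem mem_iff_sys (x : Fin 6 → F) : x ∈ Cfsg.hexacode F (e w0) ↔ Sys (e w0) x := by
  rw [mem_hexacode_iff]
  constructor
  · rintro ⟨a, b, c, rfl⟩
    obtain ⟨a, rfl⟩ := e.surjective a
    obtain ⟨b, rfl⟩ := e.surjective b
    obtain ⟨c, rfl⟩ := e.surjective c
    have h := word_map (e : R4 →+* F) w0 a b c
    simp only [RingEquiv.coe_toRingHom] at h
    rw [← h]
    exact (sys_map (e : R4 →+* F) e.injective w0 _).mpr (sys_word a b c)
  · intro h
    rw [sys_iff] at h
    obtain ⟨x0, h0⟩ := e.surjective (x 0)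
    obtain ⟨x1, h1⟩ := e.surjective (x 1)
    obtain ⟨x2, h2⟩ := e.surjective (x 2)
    refine ⟨e (w0 * x0 + w0 ^ 2 * x1), e (w0 ^ 2 * x0 + w0 ^ 2 * x1 + x2), e (x1 + x2), ?_⟩
    have hw := word_map (e : R4 →+* F) w0 (w0 * x0 + w0 ^ 2 * x1)
      (w0 ^ 2 * x0 + w0 ^ 2 * x1 + x2) (x1 + x2)
    simp only [RingEquiv.coe_toRingHom] at hw
    rw [← hw, word_sysw, h, ← h0, ← h1, ← h2]
    have hs := sysw_map (e : R4 →+* F) w0 x0 x1 x2
    simp only [RingEquiv.coe_toRingHom] at hs
    exact hs.symm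

theorem wt_map [DecidableEq F] (x : Fin 6 → R4) :
    (Finset.univ.filter fun i => e (x i) ≠ 0).card = (Finset.univ.filter fun i => x i ≠ 0).card := by
  congr 1
  ext i
  simp

/-- the parametrisation of the hexacode by its information symbols -/
def par (t : R4 × R4 × R4) : Fin 6 → F := fun i => e (sysw w0 t.1 t.2.1 t.2.2 i)

theorem par_inj : Function.Injective (par e) := by
  intro s t h
  have h0 := congrFun h 0
  have h1 := congrFun h 1
  have h2 := congrFun h 2
  simp only [par, sysw] at h0 h1 h2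
  have h0' : s.1 = t.1 := e.injective h0
  have h1' : s.2.1 = t.2.1 := e.injective h1
  have h2' : s.2.2 = t.2.2 := e.injective h2
  exact Prod.ext h0' (Prod.ext h1' h2')

theorem par_mem (t : R4 × R4 × R4) : par e t ∈ Cfsg.hexacode F (e w0) := by
  rw [mem_iff_sys]
  exact (sys_map (e : R4 →+* F) e.injective w0 _).mpr (sys_sysw _ _ _ _)

theorem exists_par (x : Fin 6 → F) (hx : x ∈ Cfsg.hexacode F (e w0)) : ∃ t, par e t = x := by
  rw [mem_iff_sys] at hx
  have hx' : Sys w0 (fun i => e.symm (x i)) := by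
    rw [← sys_map (e : R4 →+* F) e.injective w0]
    simpa using hx
  rw [sys_iff] at hx'
  refine ⟨(e.symm (x 0), e.symm (x 1), e.symm (x 2)), ?_⟩
  funext i
  have := congrFun hx' i
  simp only [par]
  rw [← this]
  simp

end Transport

end Helpers


/-- The hexacode has 64 words, minimum weight 4, and weight distribution 0^1 4^45 6^18. -/
theorem result (F : Type*) [Field F] [Fintype F] [DecidableEq F] (hF : Fintype.card F = 4) (ω : F) (hω : ω ^ 2 + ω + 1 = 0) : Nat.card ↥(Cfsg.hexacode F ω) = 64 ∧ (∀ x ∈ Cfsg.hexacode F ω, x ≠ 0 → (Finset.univ.filter fun i => x i ≠ 0).card = 4 ∨ (Finset.univ.filter fun i => x i ≠ 0).card = 6) ∧ {x : Fin 6 → F | x ∈ Cfsg.hexacode F ω ∧ (Finset.univ.filter fun i => x i ≠ 0).card = 4}.ncard = 45 ∧ {x : Fin 6 → F | x ∈ Cfsg.hexacode F ω ∧ (Finset.univ.filter fun i => x i ≠ 0).card = 6}.ncard = 18 := by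
  obtain ⟨e, rfl⟩ := exists_equiv hF ω hω
  have hcount : ∀ n : ℕ, {x : Fin 6 → F | x ∈ Cfsg.hexacode F (e w0) ∧
      (Finset.univ.filter fun i => x i ≠ 0).card = n}.ncard =
      (Finset.univ.filter fun t : R4 × R4 × R4 =>
        (Finset.univ.filter fun i => sysw w0 t.1 t.2.1 t.2.2 i ≠ 0).card = n).card := by
    intro n
    have hset : {x : Fin 6 → F | x ∈ Cfsg.hexacode F (e w0) ∧
        (Finset.univ.filter fun i => x i ≠ 0).card = n} = par e ''
        ((Finset.univ.filter fun t : R4 × R4 × R4 =>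
          (Finset.univ.filter fun i => sysw w0 t.1 t.2.1 t.2.2 i ≠ 0).card = n) : Set _) := by
      ext x
      simp only [Set.mem_ofPred_eq, Set.mem_image, Finset.coe_filter, Finset.mem_univ, true_and]
      constructor
      · rintro ⟨hx, hn⟩
        obtain ⟨t, rfl⟩ := exists_par e x hx
        refine ⟨t, ?_, rfl⟩
        rw [← hn]
        exact (wt_map e _).symm
      · rintro ⟨t, ht, rfl⟩
        refine ⟨par_mem e t, ?_⟩
        rw [← ht]
        exact wt_map e _
    rw [hset, Set.ncard_image_of_injective _ (par_inj e), Set.ncard_coe_finset]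
  refine ⟨?_, ?_, ?_, ?_⟩
  · have hequiv : (R4 × R4 × R4) ≃ ↥(Cfsg.hexacode F (e w0)) :=
      Equiv.ofBijective (fun t => ⟨par e t, par_mem e t⟩) ⟨fun s t h => par_inj e (Subtype.ext_iff.mp h),
        fun x => by
          obtain ⟨t, ht⟩ := exists_par e x.1 x.2
          exact ⟨t, Subtype.ext ht⟩⟩
    rw [← Nat.card_congr hequiv, Nat.card_eq_fintype_card]
    decide
  · intro x hx hx0
    obtain ⟨t, rfl⟩ := exists_par e x hx
    have h := wt_four_or_six t.1 t.2.1 t.2.2 (by
      rintro ⟨h0, h1, h2⟩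
      apply hx0
      funext i
      simp only [par, h0, h1, h2, sysw]
      fin_cases i <;> simp)
    have hw : (Finset.univ.filter fun i => par e t i ≠ 0).card =
        (Finset.univ.filter fun i => sysw w0 t.1 t.2.1 t.2.2 i ≠ 0).card := wt_map e _
    rw [hw]
    exact h
  · rw [hcount 4]
    exact count_four
  · rw [hcount 6]
    exact count_six

end Cfsg.Agent.S1610
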