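import Cfsg.Statements.S1623
import Cfsg.Agent.Lib.Helper60.J2Perm
import Cfsg.Agent.Lib.Helper66.J2Cent
import Cfsg.Agent.Lib.Helper4.SympA

set_option autoImplicit false
open Quaternion
open Cfsg

namespace Cfsg.Agent.S1623

open Cfsg.Spor Cfsg.Agent.H60J2

/-- Transport of the structure along an isomorphism. -/
theorem transport {K K' : Type*} [Group K] [Group K'] (φ : K ≃* K')
    (h : ∃ (Q : Subgroup K') (_ : Q.Normal), Nat.card Q = 32 ∧ Cfsg.IsExtraspecial 2 Q ∧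
      Nonempty (K' ⧸ Q ≃* alternatingGroup (Fin 5))) :
    ∃ (Q : Subgroup K) (_ : Q.Normal), Nat.card Q = 32 ∧ Cfsg.IsExtraspecial 2 Q ∧
      Nonempty (K ⧸ Q ≃* alternatingGroup (Fin 5)) := by
  obtain ⟨Q', hn', hc', hes', ⟨e'⟩⟩ := h
  have hmap : (Q'.comap (φ : K →* K')).map (φ : K →* K') = Q' :=
    Subgroup.map_comap_eq_self_of_surjective φ.surjective Q'
  have hn : (Q'.comap (φ : K →* K')).Normal := hn'.comap _
  let eQ : ↥(Q'.comap (φ : K →* K')) ≃* ↥Q' :=
    (φ.subgroupMap (Q'.comap (φ : K →* K'))).trans (MulEquiv.subgroupCongr hmap)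
  refine ⟨Q'.comap (φ : K →* K'), hn, ?_, ?_, ?_⟩
  · rw [Nat.card_congr eQ.toEquiv]
    exact hc'
  · exact Cfsg.Agent.Lib.Helper4.SympA.isExtraspecial_of_mulEquiv eQ.symm hes'
  · exact ⟨(QuotientGroup.congr (Q'.comap (φ : K →* K')) Q' φ hmap).trans e'⟩

/-- The conjugation action of the reflection of index `a` on the 315 reflections. -/
noncomputable def R (a : Fin 315) : Equiv.Perm (Fin 315) := rho ⟨GreflF a, GreflF_mem a⟩

theorem tab_lt : ∀ t : Fin 4, ∀ i : Fin 315, (j2Tab.getD (t : ℕ) []).getD (i : ℕ) 0 < 315 := by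
  decide +kernel

theorem hg (t : Fin 4) (i : Fin 315) :
    ((j2Perm t i : Fin 315) : ℕ) = (j2Tab.getD (t : ℕ) []).getD (i : ℕ) 0 := by
  show ((j2Tab.getD t.1 []).getD i.1 0) % 315 = _
  exact Nat.mod_eq_of_lt (tab_lt t i)

theorem R_zero : R 0 = j2Perm 0 := by
  rw [← rho_gen 0]
  have h : genIdx 0 = 0 := Fin.ext genNat_zero
  have h2 : gen 0 = ⟨GreflF 0, GreflF_mem 0⟩ := by
    apply Subtype.ext
    show GreflF (genIdx 0) = GreflF 0
    rw [h]
  rw [h2]
  rfl

theorem R_fix (a : Fin 315) : R a a = a := by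
  show conjIdx ⟨GreflF a, GreflF_mem a⟩ a = a
  apply conjIdx_unique
  show GreflF a * GreflF a * (GreflF a)⁻¹ = GreflF a
  rw [mul_inv_cancel_right]

theorem R_eq (σ : Equiv.Perm (Fin 315)) (hσ : σ ∈ Subgroup.closure (Set.range j2Perm))
    (a : Fin 315) : σ * R a * σ⁻¹ = R (σ a) := by
  rw [← rho_range] at hσ
  obtain ⟨x, rfl⟩ := hσ
  unfold R
  rw [← map_inv, ← map_mul, ← map_mul]
  congr 1
  apply Subtype.ext
  show (x : Equiv.Perm icoLeech) * GreflF a * (x : Equiv.Perm icoLeech)⁻¹ = GreflF (rho x a)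
  exact conjIdx_spec x a

theorem trans0 (a : Fin 315) : ∃ σ ∈ Subgroup.closure (Set.range j2Perm), σ 0 = a := by
  obtain ⟨x, hx, e⟩ := refl_conjugate (GreflF 0) (GreflF a) (isRefl_GreflF 0) (isRefl_GreflF a)
  refine ⟨rho ⟨x, hx⟩, ?_, ?_⟩
  · rw [← rho_range]
    exact ⟨_, rfl⟩
  · show conjIdx ⟨x, hx⟩ 0 = a
    exact conjIdx_unique e

/-- The action of the Hall-Janko group on the 315 reflections. -/
noncomputable def rhoJ : J2 →* Equiv.Perm (Fin 315) :=
  QuotientGroup.lift (Subgroup.center ↥twoJ2) rho (le_of_eq rho_ker.symm)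

theorem rhoJ_mk (x : ↥twoJ2) : rhoJ (QuotientGroup.mk x) = rho x := rfl

theorem rhoJ_inj : Function.Injective rhoJ := by
  rw [injective_iff_map_eq_one]
  intro c hc
  induction c using QuotientGroup.induction_on with
  | H x =>
    have h : x ∈ rho.ker := hc
    rw [rho_ker] at h
    exact (QuotientGroup.eq_one_iff x).mpr h

theorem rhoJ_mem (c : J2) : rhoJ c ∈ Subgroup.closure (Set.range j2Perm) := by
  induction c using QuotientGroup.induction_on with
  | H x =>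
    rw [← rho_range]
    exact ⟨x, rfl⟩

/-- A reflection centraliser in the Hall–Janko group is an extension of an extraspecial group of order 32 by the alternating group of degree 5. -/
theorem result (f : Equiv.Perm ↥Cfsg.Spor.icoLeech) (hf : Cfsg.Spor.IsIcoReflection f) (hfm : f ∈ Cfsg.Spor.twoJ2) : ∃ (Q : Subgroup ↥(Subgroup.centralizer {(QuotientGroup.mk ⟨f, hfm⟩ : Cfsg.Spor.J2)})) (_ : Q.Normal), Nat.card Q = 32 ∧ Cfsg.IsExtraspecial 2 Q ∧ Nonempty (↥(Subgroup.centralizer {(QuotientGroup.mk ⟨f, hfm⟩ : Cfsg.Spor.J2)}) ⧸ Q ≃* alternatingGroup (Fin 5)) := by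
  have hf' : f ∈ Set.range GreflF := by rw [range_GreflF]; exact hf
  obtain ⟨i₀, rfl⟩ := hf'
  obtain ⟨y, hyG, hy0⟩ := trans0 i₀
  have hinjR := Cfsg.Agent.Lib.Helper66.J2Cent.R_inj j2Perm R hg R_zero R_eq R_fix trans0
  have hmain := Cfsg.Agent.Lib.Helper66.J2Cent.main j2Perm R hg R_zero R_eq R_fix
    j2Perm_card trans0
  have hR : rhoJ (QuotientGroup.mk ⟨GreflF i₀, hfm⟩) = R i₀ := rfl
  have hmem : ∀ c : J2, c ∈ Subgroup.centralizer {(QuotientGroup.mk ⟨GreflF i₀, hfm⟩ : J2)} ↔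
      rhoJ c i₀ = i₀ := by
    intro c
    have hcG := rhoJ_mem c
    rw [Subgroup.mem_centralizer_iff]
    constructor
    · intro h
      have h2 := congrArg rhoJ (h _ rfl)
      rw [map_mul, map_mul, hR] at h2
      have h3 := R_eq (rhoJ c) hcG i₀
      rw [← h2, mul_inv_cancel_right] at h3
      exact (hinjR h3).symm
    · intro h x hx
      rw [Set.mem_singleton_iff] at hx
      rw [hx]
      apply rhoJ_inj
      rw [map_mul, map_mul, hR]
      have h3 := R_eq (rhoJ c) hcG i₀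
      rw [h] at h3
      exact (mul_inv_eq_iff_eq_mul.mp h3).symm
  let Φ : ↥(Subgroup.centralizer {(QuotientGroup.mk ⟨GreflF i₀, hfm⟩ : J2)}) →*
      Equiv.Perm (Fin 315) :=
    ((MulAut.conj y⁻¹).toMonoidHom.comp rhoJ).comp (Subgroup.subtype _)
  have hΦ : ∀ c : ↥(Subgroup.centralizer {(QuotientGroup.mk ⟨GreflF i₀, hfm⟩ : J2)}),
      Φ c = y⁻¹ * rhoJ c * y := by
    intro c
    show y⁻¹ * rhoJ c * y⁻¹⁻¹ = _
    rw [inv_inv]
  have hΦinj : Function.Injective Φ := by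
    intro c c' h
    rw [hΦ, hΦ] at h
    have h1 : rhoJ c = rhoJ c' := by
      have := congrArg (fun z => y * z * y⁻¹) h
      simpa [mul_assoc] using this
    exact Subtype.ext (rhoJ_inj h1)
  have hrange : Φ.range = Cfsg.Agent.Lib.Helper66.J2Cent.K' j2Perm := by
    ext σ
    rw [Cfsg.Agent.Lib.Helper66.J2Cent.mem_K']
    constructor
    · rintro ⟨c, rfl⟩
      rw [hΦ]
      refine ⟨mul_mem (mul_mem (inv_mem hyG) (rhoJ_mem c)) hyG, ?_⟩
      have h1 := (hmem c).mp c.2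
      show y⁻¹ (rhoJ c (y 0)) = 0
      rw [hy0, h1, ← hy0]
      simp
    · rintro ⟨hσG, hσ0⟩
      have h1 : y * σ * y⁻¹ ∈ Subgroup.closure (Set.range j2Perm) :=
        mul_mem (mul_mem hyG hσG) (inv_mem hyG)
      rw [← rho_range] at h1
      obtain ⟨x, hx⟩ := h1
      have hc : (QuotientGroup.mk x : J2) ∈
          Subgroup.centralizer {(QuotientGroup.mk ⟨GreflF i₀, hfm⟩ : J2)} := by
        rw [hmem, rhoJ_mk, hx, ← hy0]
        simp [hσ0]
      refine ⟨⟨QuotientGroup.mk x, hc⟩, ?_⟩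
      rw [hΦ]
      show y⁻¹ * rho x * y = σ
      rw [hx]
      group
  exact transport ((MonoidHom.ofInjective hΦinj).trans (MulEquiv.subgroupCongr hrange)) hmain

end Cfsg.Agent.S1623
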