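import Cfsg.Statements.S1624
import Cfsg.Agent.Lib.Helper86.J2U.Main
import Cfsg.Agent.Lib.Helper60.J2Perm

set_option autoImplicit false
open Quaternion
open Cfsg

namespace Cfsg.Agent.S1624

/-- The Hall–Janko group contains PSU(3, 3) with index 100 and acts on the 100 cosets with rank 3 and subdegrees 1, 36, 63. -/
theorem result : ∃ H : Subgroup Cfsg.Spor.J2, H.index = 100 ∧ (∃ (F : Type) (_ : Field F) (_ : Fintype F), Fintype.card F = 9 ∧ Nonempty (↥H ≃* Cfsg.PSU 3 F 3)) ∧ ∃ c₁ c₂ : Cfsg.Spor.J2 ⧸ H, (MulAction.orbit ↥H c₁).ncard = 36 ∧ (MulAction.orbit ↥H c₂).ncard = 63 := by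
  obtain ⟨e⟩ := Cfsg.Agent.H60J2.j2_equiv
  have hinj : Function.Injective
      ((Subgroup.closure (Set.range Cfsg.Agent.H60J2.j2Perm)).subtype.comp e.toMonoidHom) :=
    fun x y h => e.injective (Subtype.ext h)
  refine Cfsg.Agent.Lib.Helper86.J2UMain.main _ hinj Cfsg.Agent.H60J2.J2_card
    (fun t => e.symm ⟨Cfsg.Agent.H60J2.j2Perm t, Subgroup.subset_closure ⟨t, rfl⟩⟩) ?_
  intro t p
  have h : ((Subgroup.closure (Set.range Cfsg.Agent.H60J2.j2Perm)).subtype.comp e.toMonoidHom)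
      (e.symm ⟨Cfsg.Agent.H60J2.j2Perm t, Subgroup.subset_closure ⟨t, rfl⟩⟩) =
      Cfsg.Agent.H60J2.j2Perm t := by
    change ((e (e.symm ⟨Cfsg.Agent.H60J2.j2Perm t, _⟩) :
      ↥(Subgroup.closure (Set.range Cfsg.Agent.H60J2.j2Perm))) : Equiv.Perm (Fin 315)) = _
    rw [e.apply_symm_apply]
  rw [h]
  exact (Cfsg.Agent.Lib.Helper86.J2U.chk_tab t.1 t.2 p.1 p.2).symm

end Cfsg.Agent.S1624
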