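import Cfsg.Statements.S1629
import Cfsg.Agent.Lib.Helper45.Transp3

set_option autoImplicit false
open scoped MatrixGroups
open Cfsg

namespace Cfsg.Agent.S1629

/-- The orthogonal transvections of the plus-type orthogonal group in dimension 2m ≥ 6 over the field with two elements form a generating conjugacy class of 3-transpositions. -/
theorem result (m : ℕ) (hm : 3 ≤ m) : Cfsg.IsThreeTranspositionClass {g : ↥(Cfsg.isometryGroup (ZMod 2) (Cfsg.quadFormPlus m (ZMod 2))) | (((g : GL (Fin m ⊕ Fin m) (ZMod 2)) : Matrix (Fin m ⊕ Fin m) (Fin m ⊕ Fin m) (ZMod 2)) - 1).rank = 1} := by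
  have hS := Cfsg.Agent.Lib.Helper44.NegPairs.sep_plusQ (F := ZMod 2) m
  have hcardι : Fintype.card (Fin m ⊕ Fin m) = 2 * m := by
    simp only [Fintype.card_sum, Fintype.card_fin]; omega
  have : Nonempty (Fin m ⊕ Fin m) := ⟨Sum.inl ⟨0, by omega⟩⟩
  exact Cfsg.Agent.Lib.Helper45.Transp3.isThreeTranspositionClass
    (Cfsg.Agent.Lib.Helper44.NegPairs.plusQ m (ZMod 2)) hS
    (Or.inr (Or.inl (by rw [Module.finrank_fintype_fun_eq_card, hcardι]; omega)))

end Cfsg.Agent.S1629
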