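import Cfsg.Statements.S1630
import Cfsg.Agent.Lib.Helper45.Transp3
import Cfsg.Agent.Lib.Helper45.OmegaCenter

set_option autoImplicit false
open scoped MatrixGroups
open Cfsg

namespace Cfsg.Agent.S1630

/-- The orthogonal transvections of the minus-type orthogonal group in dimension ≥ 6 over the field with two elements form a generating conjugacy class of 3-transpositions. -/
theorem result (m : ℕ) (hm : 2 ≤ m) : Cfsg.IsThreeTranspositionClass {g : ↥(Cfsg.isometryGroup (ZMod 2) (Cfsg.quadFormMinus m (ZMod 2) 1 1)) | (((g : GL ((Fin m ⊕ Fin m) ⊕ Fin 2) (ZMod 2)) : Matrix ((Fin m ⊕ Fin m) ⊕ Fin 2) ((Fin m ⊕ Fin m) ⊕ Fin 2) (ZMod 2)) - 1).rank = 1} := by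
  have hS := Cfsg.Agent.Lib.Helper45.OmegaCenter.sep_minusQ' (F := ZMod 2) m 1 1 (by decide)
  have hcardι : Fintype.card ((Fin m ⊕ Fin m) ⊕ Fin 2) = 2 * m + 2 := by
    simp only [Fintype.card_sum, Fintype.card_fin]; omega
  have : Nonempty ((Fin m ⊕ Fin m) ⊕ Fin 2) := ⟨Sum.inr 0⟩
  exact Cfsg.Agent.Lib.Helper45.Transp3.isThreeTranspositionClass
    (Cfsg.Agent.Lib.Helper44.NegPairs.minusQ m (ZMod 2) 1 1) hS
    (Or.inr (Or.inl (by rw [Module.finrank_fintype_fun_eq_card, hcardι]; omega)))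

end Cfsg.Agent.S1630
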