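import Cfsg.Statements.S2644
import Mathlib
import Cfsg.Agent.S0755
import Cfsg.Agent.S0781
import Cfsg.Agent.S0782
import Cfsg.Agent.S0837
import Cfsg.Agent.Lib.Helper45.GUCard
import Cfsg.Agent.Lib.Helper45.SUCard

set_option autoImplicit false
open Cfsg

namespace Cfsg.Agent.S2644

open Matrix Cfsg.Agent.S0837

section
variable {F : Type*} [Field F] {n : ℕ}

/-- a transvection preserving the Hermitian form is `x ↦ x + l (u, x) u` with `u` isotropic -/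
theorem transv_form (σ : F →+* F) (hσ2 : ∀ a, σ (σ a) = a) (M : Matrix (Fin n) (Fin n) F)
    (hM : ∀ x y, Bh σ n (M *ᵥ x) (M *ᵥ y) = Bh σ n x y) (ht : Cfsg.IsTransvection M) :
    ∃ (u : Fin n → F) (l : F), u ≠ 0 ∧ Bh σ n u u = 0 ∧ l ≠ 0 ∧ l + σ l = 0 ∧
      ∀ x, M *ᵥ x = x + (l * Bh σ n u x) • u := by
  classical
  have hS := Bh_symm σ hσ2 n
  have hnd := Bh_nondeg σ n
  obtain ⟨hrank, hsq⟩ := ht
  obtain ⟨N, hN⟩ : ∃ N : Matrix (Fin n) (Fin n) F, N = M - 1 := ⟨_, rfl⟩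
  rw [← hN] at hrank hsq
  have hMN : ∀ x, M *ᵥ x = x + N *ᵥ x := by
    intro x
    rw [hN, Matrix.sub_mulVec, Matrix.one_mulVec]
    abel
  have hfr : Module.finrank F (LinearMap.range N.mulVecLin) = 1 := hrank
  obtain ⟨⟨u, x₀, hx₀⟩, hu0, hspan⟩ := finrank_eq_one_iff'.1 hfr
  have hu0' : u ≠ 0 := fun h => hu0 (Subtype.ext h)
  have hc : ∀ x, ∃ c : F, N *ᵥ x = c • u := by
    intro x
    obtain ⟨c, hc⟩ := hspan ⟨N *ᵥ x, ⟨x, rfl⟩⟩
    exact ⟨c, (congrArg Subtype.val hc).symm⟩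
  choose cf hcf using hc
  have hNx₀ : N *ᵥ x₀ = u := hx₀
  have hrel : ∀ x y, σ (cf x) * Bh σ n u y + cf y * Bh σ n x u +
      σ (cf x) * cf y * Bh σ n u u = 0 := by
    intro x y
    have h1 := hM x y
    rw [hMN, hMN, hcf x, hcf y] at h1
    simp only [map_add, map_smulₛₗ, LinearMap.add_apply,
      LinearMap.smul_apply, smul_eq_mul, RingHom.id_apply] at h1
    linear_combination h1
  have hcx₀ : cf x₀ = 1 := by
    have h1 := hcf x₀
    rw [hNx₀] at h1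
    have h2 : (cf x₀ - 1) • u = 0 := by
      rw [sub_smul, one_smul, ← h1, sub_self]
    rcases smul_eq_zero.1 h2 with h3 | h3
    · exact sub_eq_zero.1 h3
    · exact absurd h3 hu0'
  obtain ⟨κ, hκ⟩ : ∃ κ : F, κ = Bh σ n x₀ u + Bh σ n u u := ⟨_, rfl⟩
  have hκy : ∀ y, Bh σ n u y + cf y * κ = 0 := by
    intro y
    have h1 := hrel x₀ y
    rw [hcx₀, map_one] at h1
    rw [hκ]
    linear_combination h1
  have hκ0 : κ ≠ 0 := by
    intro h0
    apply hu0'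
    apply hnd.1 u
    intro y
    have h1 := hκy y
    rw [h0, mul_zero, add_zero] at h1
    exact h1
  have hcfy : ∀ y, cf y = -κ⁻¹ * Bh σ n u y := by
    intro y
    have h1 := hκy y
    field_simp
    linear_combination h1
  have hNu : N *ᵥ u = 0 := by
    rw [← hNx₀, Matrix.mulVec_mulVec, hsq, Matrix.zero_mulVec]
  have hcu : cf u = 0 := by
    have h1 := hcf u
    rw [hNu] at h1
    rcases smul_eq_zero.1 h1.symm with h3 | h3
    · exact h3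
    · exact absurd h3 hu0'
  have hl0 : -κ⁻¹ ≠ 0 := neg_ne_zero.2 (inv_ne_zero hκ0)
  have huu : Bh σ n u u = 0 := by
    have h1 := hcfy u
    rw [hcu] at h1
    rcases mul_eq_zero.1 h1.symm with h2 | h2
    · exact absurd h2 hl0
    · exact h2
  refine ⟨u, -κ⁻¹, hu0', huu, hl0, ?_, ?_⟩
  · obtain ⟨y, hy⟩ : ∃ y, Bh σ n u y ≠ 0 := by
      by_contra hno
      push Not at hno
      exact hu0' (hnd.1 u hno)
    have hy' : Bh σ n y u ≠ 0 := by
      rw [← hS.eq u y]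
      exact (map_ne_zero σ).2 hy
    have h1 := hrel y y
    rw [huu, mul_zero, add_zero, hcfy y, map_mul, hS.eq] at h1
    have h2 : (-κ⁻¹ + σ (-κ⁻¹)) * (Bh σ n y u * Bh σ n u y) = 0 := by
      linear_combination h1
    rcases mul_eq_zero.1 h2 with h3 | h3
    · exact h3
    · exact absurd h3 (mul_ne_zero hy' hy)
  · intro x
    rw [hMN, hcf x, hcfy x]

theorem R_det (σ : F →+* F) (w : Fin n → F) (c : F) :
    (Cfsg.Agent.Lib.Helper45.GUCard.R σ w c).det = 1 - c * Bh σ n w w := by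
  have h1 : Cfsg.Agent.Lib.Helper45.GUCard.R σ w c =
      1 + Matrix.vecMulVec ((-c) • w) (fun j => σ (w j)) := by
    unfold Cfsg.Agent.Lib.Helper45.GUCard.R
    ext i j
    simp [Matrix.vecMulVec_apply]
    ring
  rw [h1, Cfsg.Agent.S0781.det_rank_one, Cfsg.Agent.S0781.dot_sigma, LinearMap.map_smul,
    smul_eq_mul]
  ring

theorem main [Fintype F] {q : ℕ} (hF : Fintype.card F = q ^ 2) (hn : 3 ≤ n)
    (A B : Matrix (Fin n) (Fin n) F)
    (hA : ∀ x y, Cfsg.hermForm n F q (A *ᵥ x) (A *ᵥ y) = Cfsg.hermForm n F q x y)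
    (hB : ∀ x y, Cfsg.hermForm n F q (B *ᵥ x) (B *ᵥ y) = Cfsg.hermForm n F q x y)
    (hAt : Cfsg.IsTransvection A) (hBt : Cfsg.IsTransvection B) :
    ∃ G : Matrix (Fin n) (Fin n) F, G.det = 1 ∧
      (∀ x y, Cfsg.hermForm n F q (G *ᵥ x) (G *ᵥ y) = Cfsg.hermForm n F q x y) ∧
      G * A = B * G := by
  classical
  obtain ⟨σ, hσ, hσ2⟩ := Cfsg.Agent.Lib.Helper45.GUCard.exists_conj hF
  have hσne := sigma_ne hF σ hσ
  have hS := Bh_symm σ hσ2 n
  have hA' : ∀ x y, Bh σ n (A *ᵥ x) (A *ᵥ y) = Bh σ n x y := by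
    intro x y
    rw [Bh_herm σ hσ, Bh_herm σ hσ]
    exact hA y x
  have hB' : ∀ x y, Bh σ n (B *ᵥ x) (B *ᵥ y) = Bh σ n x y := by
    intro x y
    rw [Bh_herm σ hσ, Bh_herm σ hσ]
    exact hB y x
  obtain ⟨u, l, hu0, huu, hl0, hl, hAx⟩ := transv_form σ hσ2 A hA' hAt
  obtain ⟨w, d, hw0, hww, hd0, hd, hBx⟩ := transv_form σ hσ2 B hB' hBt
  have hσl : σ l = -l := by linear_combination hl
  have hσd : σ d = -d := by linear_combination hd
  obtain ⟨μ, hμ⟩ := Cfsg.Agent.S0755.norm_surj σ hσne hσ2 (d / l) (div_ne_zero hd0 hl0)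
    (by rw [map_div₀, hσl, hσd, neg_div_neg_eq])
  have hμ0 : μ ≠ 0 := by
    rintro rfl
    rw [zero_mul] at hμ
    exact div_ne_zero hd0 hl0 hμ.symm
  have hσμ0 : σ μ ≠ 0 := (map_ne_zero σ).2 hμ0
  obtain ⟨w', hw'⟩ : ∃ w' : Fin n → F, w' = μ • w := ⟨_, rfl⟩
  have hw'0 : w' ≠ 0 := by
    rw [hw']
    exact smul_ne_zero hμ0 hw0
  have hw'w' : Bh σ n w' w' = 0 := by
    rw [hw']
    simp only [map_smulₛₗ, LinearMap.smul_apply, smul_eq_mul, hww, mul_zero, RingHom.id_apply]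
  obtain ⟨M₀, hM₀, hM₀u⟩ := Cfsg.Agent.S0782.frames_trans hF σ hσ hσ2
    (fun _ : Fin 1 => u) (fun _ : Fin 1 => w')
    (linearIndependent_unique_iff.2 hu0) (linearIndependent_unique_iff.2 hw'0)
    (fun _ _ => huu) (fun _ _ => hw'w')
  have hM₀u' : M₀ *ᵥ u = w' := hM₀u 0
  have hD := Cfsg.Agent.Lib.Helper45.SUCard.det_mul_det_pow σ hσ M₀ hM₀
  obtain ⟨D, hDdef⟩ : ∃ D : F, D = M₀.det := ⟨_, rfl⟩
  rw [← hDdef, ← hσ] at hD
  have hD0 : D ≠ 0 := by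
    rintro rfl
    rw [zero_mul] at hD
    exact zero_ne_one hD
  have hσD : σ D = D⁻¹ := by
    field_simp
    linear_combination hD
  obtain ⟨a, haw, haa⟩ := Cfsg.Agent.S0781.exists_aniso hF σ hσ hσ2 hn w' hw'0 hw'w'
  obtain ⟨ν, hν⟩ : ∃ ν : F, ν = Bh σ n a a := ⟨_, rfl⟩
  rw [← hν] at haa
  have hσν : σ ν = ν := by rw [hν, hS.eq]
  obtain ⟨c₀, hc₀⟩ : ∃ c₀ : F, c₀ = (1 - D⁻¹) / ν := ⟨_, rfl⟩
  have hσc₀ : σ c₀ = (1 - D) / ν := by
    rw [hc₀, map_div₀, map_sub, map_one, map_inv₀, hσD, hσν, inv_inv]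
  have hR : ∀ x y, Cfsg.hermForm n F q (Cfsg.Agent.Lib.Helper45.GUCard.R σ a c₀ *ᵥ x)
      (Cfsg.Agent.Lib.Helper45.GUCard.R σ a c₀ *ᵥ y) = Cfsg.hermForm n F q x y := by
    apply Cfsg.Agent.Lib.Helper45.GUCard.R_preserves σ hσ hσ2
    rw [← Bh_herm σ hσ, ← hν, ← hσ, hσc₀, hc₀]
    field_simp
    ring
  have hRdet : (Cfsg.Agent.Lib.Helper45.GUCard.R σ a c₀).det = D⁻¹ := by
    rw [R_det, ← hν, hc₀]
    field_simp
    ring
  have hRw' : Cfsg.Agent.Lib.Helper45.GUCard.R σ a c₀ *ᵥ w' = w' := by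
    rw [Cfsg.Agent.Lib.Helper45.GUCard.R_mulVec σ hσ, ← Bh_herm σ hσ, ← hS.eq, haw, map_zero,
      mul_zero, zero_smul, sub_zero]
  obtain ⟨G, hG⟩ : ∃ G : Matrix (Fin n) (Fin n) F,
    G = Cfsg.Agent.Lib.Helper45.GUCard.R σ a c₀ * M₀ := ⟨_, rfl⟩
  have hGp : ∀ x y, Cfsg.hermForm n F q (G *ᵥ x) (G *ᵥ y) = Cfsg.hermForm n F q x y := by
    intro x y
    rw [hG, ← Matrix.mulVec_mulVec, ← Matrix.mulVec_mulVec, hR, hM₀]
  have hGp' : ∀ x y, Bh σ n (G *ᵥ x) (G *ᵥ y) = Bh σ n x y := by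
    intro x y
    rw [Bh_herm σ hσ, Bh_herm σ hσ]
    exact hGp y x
  have hGu : G *ᵥ u = μ • w := by
    rw [hG, ← Matrix.mulVec_mulVec, hM₀u', hRw', hw']
  refine ⟨G, ?_, hGp, ?_⟩
  · rw [hG, Matrix.det_mul, hRdet, ← hDdef, inv_mul_cancel₀ hD0]
  · rw [Matrix.ext_iff_mulVec]
    intro x
    rw [← Matrix.mulVec_mulVec, ← Matrix.mulVec_mulVec, hAx, hBx, Matrix.mulVec_add,
      Matrix.mulVec_smul, hGu]
    have h1 : Bh σ n u x = σ μ * Bh σ n w (G *ᵥ x) := by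
      rw [← hGp' u x, hGu, map_smulₛₗ, LinearMap.smul_apply, smul_eq_mul]
    have h2 : l * (μ * σ μ) = d := by
      rw [hμ]
      field_simp
    rw [h1, smul_smul]
    congr 2
    linear_combination (Bh σ n w (G *ᵥ x)) * h2

end

/-- In the special unitary group SU_n(q) with n ≥ 3 (isometries of Σ u_i v_i^q of determinant one over the field with q² elements), any two transvections (elements t with t − 1 of rank one and square zero) are conjugate. -/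
theorem result {K : Type*} [Field K] [Fintype K] {q n : ℕ} (hK : Fintype.card K = q ^ 2) (hn : 3 ≤ n) (s t : ↥(Cfsg.SU n K q)) (hs : Cfsg.IsTransvection (((s : GL (Fin n) K) : Matrix (Fin n) (Fin n) K))) (ht : Cfsg.IsTransvection (((t : GL (Fin n) K) : Matrix (Fin n) (Fin n) K))) : IsConj s t := by
  obtain ⟨G, hGdet, hGp, hGAB⟩ := main hK hn
    (((s : Matrix.SpecialLinearGroup (Fin n) K) : Matrix (Fin n) (Fin n) K))
    (((t : Matrix.SpecialLinearGroup (Fin n) K) : Matrix (Fin n) (Fin n) K))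
    (fun x y => (Cfsg.Agent.Lib.Helper45.SUCard.mem_SU_iff s.1).1 s.2 x y)
    (fun x y => (Cfsg.Agent.Lib.Helper45.SUCard.mem_SU_iff t.1).1 t.2 x y) hs ht
  rw [isConj_iff]
  refine ⟨⟨⟨G, hGdet⟩, fun x y => hGp x y⟩, ?_⟩
  rw [mul_inv_eq_iff_eq_mul]
  apply Subtype.ext
  apply Subtype.ext
  exact hGAB

end Cfsg.Agent.S2644
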