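import Cfsg.Statements.S1631
import Mathlib
import Cfsg.Agent.S0780
import Cfsg.Agent.S2644
import Cfsg.Agent.S5071

set_option autoImplicit false
open Cfsg

namespace Cfsg.Agent.S1631

open Matrix Cfsg.Agent.S0837 Cfsg.Agent.S5071

section general

variable {F : Type*} [Field F] {n q : ℕ}

/-- an isometry `M` with `M - 1` of rank one is `x ↦ x + c (u, x) u` -/
theorem rank_one_form (σ : F →+* F) (hσ2 : ∀ a, σ (σ a) = a) (M : Matrix (Fin n) (Fin n) F)
    (hM : ∀ x y, Bh σ n (M *ᵥ x) (M *ᵥ y) = Bh σ n x y) (hrank : (M - 1).rank = 1) :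
    ∃ (u : Fin n → F) (c : F), u ≠ 0 ∧ c ≠ 0 ∧ ∀ x, M *ᵥ x = x + (c * Bh σ n u x) • u := by
  classical
  have hS := Bh_symm σ hσ2 n
  have hnd := Bh_nondeg σ n
  obtain ⟨N, hN⟩ : ∃ N : Matrix (Fin n) (Fin n) F, N = M - 1 := ⟨_, rfl⟩
  rw [← hN] at hrank
  have hMN : ∀ x, M *ᵥ x = x + N *ᵥ x := by
    intro x
    rw [hN, Matrix.sub_mulVec, Matrix.one_mulVec]
    abel
  have hfr : Module.finrank F (LinearMap.range N.mulVecLin) = 1 := hrank
  obtain ⟨⟨u, x₀, hx₀⟩, hu0, hspan⟩ := finrank_eq_one_iff'.1 hfr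
  have hu0' : u ≠ 0 := fun h => hu0 (Subtype.ext h)
  have hc : ∀ x, ∃ c : F, N *ᵥ x = c • u := by
    intro x
    obtain ⟨c, hc⟩ := hspan ⟨N *ᵥ x, ⟨x, rfl⟩⟩
    exact ⟨c, (congrArg Subtype.val hc).symm⟩
  choose cf hcf using hc
  have hNx₀ : N *ᵥ x₀ = u := hx₀
  have hrel : ∀ x y, σ (cf x) * Bh σ n u y + cf y * Bh σ n x u +
      σ (cf x) * cf y * Bh σ n u u = 0 := by
    intro x y
    have h1 := hM x y
    rw [hMN, hMN, hcf x, hcf y] at h1
    simp only [map_add, map_smulₛₗ, LinearMap.add_apply,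
      LinearMap.smul_apply, smul_eq_mul, RingHom.id_apply] at h1
    linear_combination h1
  have hcx₀ : cf x₀ = 1 := by
    have h1 := hcf x₀
    rw [hNx₀] at h1
    have h2 : (cf x₀ - 1) • u = 0 := by
      rw [sub_smul, one_smul, ← h1, sub_self]
    rcases smul_eq_zero.1 h2 with h3 | h3
    · exact sub_eq_zero.1 h3
    · exact absurd h3 hu0'
  obtain ⟨κ, hκ⟩ : ∃ κ : F, κ = Bh σ n x₀ u + Bh σ n u u := ⟨_, rfl⟩
  have hκy : ∀ y, Bh σ n u y + cf y * κ = 0 := by
    intro y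
    have h1 := hrel x₀ y
    rw [hcx₀, map_one] at h1
    rw [hκ]
    linear_combination h1
  have hκ0 : κ ≠ 0 := by
    intro h0
    apply hu0'
    apply hnd.1 u
    intro y
    have h1 := hκy y
    rw [h0, mul_zero, add_zero] at h1
    exact h1
  have hcfy : ∀ y, cf y = -κ⁻¹ * Bh σ n u y := by
    intro y
    have h1 := hκy y
    field_simp
    linear_combination h1
  exact ⟨u, -κ⁻¹, hu0', neg_ne_zero.2 (inv_ne_zero hκ0), fun x => by rw [hMN, hcf x, hcfy x]⟩

theorem tau_of_rank_one (σ : F →+* F) (hσ : ∀ x, σ x = x ^ q) (hσ2 : ∀ a, σ (σ a) = a)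
    (g : ↥(Cfsg.SU n F q))
    (hrank : (((g : Matrix.SpecialLinearGroup (Fin n) F) : Matrix (Fin n) (Fin n) F) - 1).rank = 1) :
    ∃ (u : Fin n → F) (c : F), u ≠ 0 ∧ c ≠ 0 ∧ Bh σ n u u = 0 ∧ c + σ c = 0 ∧ IsTau σ u c g := by
  have hM : ∀ x y, Bh σ n
      (((g : Matrix.SpecialLinearGroup (Fin n) F) : Matrix (Fin n) (Fin n) F) *ᵥ x)
      (((g : Matrix.SpecialLinearGroup (Fin n) F) : Matrix (Fin n) (Fin n) F) *ᵥ y) =
      Bh σ n x y := fun x y => act_form σ hσ g x y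
  obtain ⟨u, c, hu0, hc0, hx⟩ := rank_one_form σ hσ2 _ hM hrank
  have hS := Bh_symm σ hσ2 n
  have huu : Bh σ n u u = 0 := by
    have h1 : ((g : Matrix.SpecialLinearGroup (Fin n) F) : Matrix (Fin n) (Fin n) F) =
        1 + Matrix.vecMulVec (c • u) (fun j => σ (u j)) := by
      rw [Matrix.ext_iff_mulVec]
      intro x
      rw [hx, Cfsg.Agent.S0781.rank_one_mulVec, Cfsg.Agent.S0781.dot_sigma, smul_smul, mul_comm]
    have h2 : ((g : Matrix.SpecialLinearGroup (Fin n) F) : Matrix (Fin n) (Fin n) F).det = 1 :=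
      g.1.2
    rw [h1, Cfsg.Agent.S0781.det_rank_one, Cfsg.Agent.S0781.dot_sigma, LinearMap.map_smul,
      smul_eq_mul] at h2
    have h3 : c * Bh σ n u u = 0 := by linear_combination h2
    rcases mul_eq_zero.1 h3 with h | h
    · exact absurd h hc0
    · exact h
  refine ⟨u, c, hu0, hc0, huu, ?_, hx⟩
  obtain ⟨y, hy⟩ : ∃ y, Bh σ n u y ≠ 0 := by
    by_contra hno
    push Not at hno
    exact hu0 ((Bh_nondeg σ n).1 u hno)
  have hy' : Bh σ n y u ≠ 0 := by
    rw [← hS.eq u y]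
    exact (map_ne_zero σ).2 hy
  have h1 := hM y y
  rw [hx y] at h1
  simp only [map_add, map_smulₛₗ, LinearMap.add_apply, LinearMap.smul_apply, smul_eq_mul,
    RingHom.id_apply, huu, mul_zero, add_zero, map_mul, hS.eq] at h1
  have h2 : (c + σ c) * (Bh σ n y u * Bh σ n u y) = 0 := by linear_combination h1
  rcases mul_eq_zero.1 h2 with h3 | h3
  · exact h3
  · exact absurd h3 (mul_ne_zero hy' hy)

theorem sub_one_mulVec (σ : F →+* F) (p : Fin n → F) (l : F) (g : ↥(Cfsg.SU n F q))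
    (hg : IsTau σ p l g) (x : Fin n → F) :
    (((g : Matrix.SpecialLinearGroup (Fin n) F) : Matrix (Fin n) (Fin n) F) - 1) *ᵥ x =
      (l * Bh σ n p x) • p := by
  rw [Matrix.sub_mulVec, Matrix.one_mulVec]
  have h1 : ((g : Matrix.SpecialLinearGroup (Fin n) F) : Matrix (Fin n) (Fin n) F) *ᵥ x =
      x + (l * Bh σ n p x) • p := hg x
  rw [h1]
  abel

theorem rank_of_tau (σ : F →+* F) (p : Fin n → F) (hp0 : p ≠ 0) (l : F) (hl : l ≠ 0)
    (g : ↥(Cfsg.SU n F q)) (hg : IsTau σ p l g) :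
    (((g : Matrix.SpecialLinearGroup (Fin n) F) : Matrix (Fin n) (Fin n) F) - 1).rank = 1 := by
  obtain ⟨x₀, hx₀⟩ := exists_pairing σ p hp0
  have hrange : LinearMap.range
      (((g : Matrix.SpecialLinearGroup (Fin n) F) : Matrix (Fin n) (Fin n) F) - 1).mulVecLin =
      Submodule.span F {p} := by
    apply le_antisymm
    · rintro _ ⟨x, rfl⟩
      rw [Matrix.mulVecLin_apply, sub_one_mulVec σ p l g hg]
      exact Submodule.smul_mem _ _ (Submodule.subset_span rfl)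
    · rw [Submodule.span_le, Set.singleton_subset_iff]
      refine ⟨l⁻¹ • x₀, ?_⟩
      rw [Matrix.mulVecLin_apply, sub_one_mulVec σ p l g hg, LinearMap.map_smul, hx₀, smul_eq_mul,
        mul_one, mul_inv_cancel₀ hl, one_smul]
  show Module.finrank F (LinearMap.range
      (((g : Matrix.SpecialLinearGroup (Fin n) F) : Matrix (Fin n) (Fin n) F) - 1).mulVecLin) = 1
  rw [hrange]
  exact finrank_span_singleton hp0

theorem isTransv_of_tau (σ : F →+* F) (p : Fin n → F) (hp0 : p ≠ 0) (hp : Bh σ n p p = 0)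
    (l : F) (hl : l ≠ 0) (g : ↥(Cfsg.SU n F q)) (hg : IsTau σ p l g) :
    Cfsg.IsTransvection
      ((g : Matrix.SpecialLinearGroup (Fin n) F) : Matrix (Fin n) (Fin n) F) := by
  refine ⟨rank_of_tau σ p hp0 l hl g hg, ?_⟩
  rw [Matrix.ext_iff_mulVec]
  intro x
  rw [← Matrix.mulVec_mulVec, sub_one_mulVec σ p l g hg, sub_one_mulVec σ p l g hg,
    LinearMap.map_smul, hp, smul_zero, mul_zero, zero_smul, Matrix.zero_mulVec]

end general

section four

variable {F : Type} [Field F] [Fintype F] {n : ℕ}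

theorem two_eq_zero (hF : Fintype.card F = 4) : (2 : F) = 0 := by
  have h1 : ((Fintype.card F : ℕ) : F) = 0 := FiniteField.cast_card_eq_zero F
  rw [hF] at h1
  have h2 : (2 : F) * 2 = 0 := by
    have h3 : ((4 : ℕ) : F) = 2 * 2 := by norm_num
    rw [← h3]
    exact h1
  exact mul_self_eq_zero.1 h2

theorem cube_eq_one (hF : Fintype.card F = 4) (b : F) (hb : b ≠ 0) : b ^ 3 = 1 := by
  have h1 := FiniteField.pow_card_sub_one_eq_one b hb
  rw [hF] at h1
  exact h1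

theorem mem_D_iff (hF : Fintype.card F = 4) (σ : F →+* F) (hσ : ∀ x, σ x = x ^ 2)
    (hσ2 : ∀ a, σ (σ a) = a) (g : ↥(Cfsg.SU n F 2)) :
    (((g : Matrix.SpecialLinearGroup (Fin n) F) : Matrix (Fin n) (Fin n) F) - 1).rank = 1 ↔
      ∃ u : Fin n → F, u ≠ 0 ∧ Bh σ n u u = 0 ∧ IsTau σ u 1 g := by
  constructor
  · intro h
    obtain ⟨u, c, hu0, hc0, huu, hc, hτ⟩ := tau_of_rank_one σ hσ hσ2 g h
    refine ⟨u, hu0, huu, ?_⟩
    have h2 := two_eq_zero hF
    have h3 : c * (c + 1) = 0 := by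
      rw [hσ] at hc
      linear_combination hc
    have h4 : c = 1 := by
      rcases mul_eq_zero.1 h3 with h5 | h5
      · exact absurd h5 hc0
      · linear_combination h5 - h2
    rw [h4] at hτ
    exact hτ
  · rintro ⟨u, hu0, -, hτ⟩
    exact rank_of_tau σ u hu0 1 one_ne_zero g hτ

theorem tau_sq (hF : Fintype.card F = 4) (σ : F →+* F) (u : Fin n → F)
    (huu : Bh σ n u u = 0) (d : ↥(Cfsg.SU n F 2)) (hd : IsTau σ u 1 d) : d * d = 1 := by
  apply ext_act
  intro x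
  have h1 := IsTau_mul σ u huu 1 1 d d hd hd x
  have h2 : (1 + 1 : F) = 0 := by
    have h3 := two_eq_zero hF
    linear_combination h3
  rw [h1, act_one, h2, zero_mul, zero_smul, add_zero]

theorem tau_three (hF : Fintype.card F = 4) (σ : F →+* F) (hσ : ∀ x, σ x = x ^ 2)
    (hσ2 : ∀ a, σ (σ a) = a) (u v : Fin n → F) (huu : Bh σ n u u = 0) (hvv : Bh σ n v v = 0)
    (d e : ↥(Cfsg.SU n F 2)) (hd : IsTau σ u 1 d) (he : IsTau σ v 1 e) :
    (d * e) ^ 2 = 1 ∨ (d * e) ^ 3 = 1 := by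
  have hS := Bh_symm σ hσ2 n
  have h2 := two_eq_zero hF
  by_cases h : Bh σ n u v = 0
  · left
    have hc := IsTau_comm σ hσ2 u v h 1 1 d e hd he
    rw [pow_two]
    calc d * e * (d * e) = d * (e * d) * e := by group
      _ = d * (d * e) * e := by rw [hc]
      _ = (d * d) * (e * e) := by group
      _ = 1 := by rw [tau_sq hF σ u huu d hd, tau_sq hF σ v hvv e he, one_mul]
  · right
    obtain ⟨β, hβ⟩ : ∃ β, β = Bh σ n u v := ⟨_, rfl⟩
    obtain ⟨s, hs⟩ : ∃ s, s = σ β := ⟨_, rfl⟩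
    have hvu : Bh σ n v u = s := by rw [hs, hβ, hS.eq]
    have hN : β * s = 1 := by
      rw [hs, hσ, ← pow_succ']
      exact cube_eq_one hF β (by rw [hβ]; exact h)
    obtain ⟨P, hPdef⟩ : ∃ P, P = d * e := ⟨_, rfl⟩
    rw [← hPdef]
    have hP : ∀ x, act P x =
        x + (Bh σ n u x + β * Bh σ n v x) • u + Bh σ n v x • v := by
      intro x
      rw [hPdef, act_mul, he x, hd]
      simp only [map_add, map_smul, smul_eq_mul, one_mul, ← hβ]
      module
    apply ext_act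
    intro x
    rw [act_one]
    have e3 : P ^ 3 = P * (P * P) := by rw [pow_succ, pow_two, mul_assoc]
    rw [e3, act_mul, act_mul]
    obtain ⟨X, hX⟩ : ∃ X, X = Bh σ n u x := ⟨_, rfl⟩
    obtain ⟨Y, hY⟩ : ∃ Y, Y = Bh σ n v x := ⟨_, rfl⟩
    obtain ⟨A, hA⟩ : ∃ A, A = (X + β * Y) + (X + Y * β) + β * (Y + (X + β * Y) * s) := ⟨_, rfl⟩
    obtain ⟨B, hB⟩ : ∃ B, B = Y + Y + (X + β * Y) * s := ⟨_, rfl⟩
    have key : act P (act P (act P x)) =
        x + (A + X + B * β + β * (Y + A * s)) • u + (B + Y + A * s) • v := by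
      rw [hP (act P (act P x)), hP (act P x), hP x]
      simp only [map_add, map_smul, smul_eq_mul, huu, hvv, ← hβ, hvu, ← hX, ← hY]
      rw [hA, hB]
      module
    have hC1 : A + X + B * β + β * (Y + A * s) = 0 := by
      rw [hB]
      linear_combination (A + X + 2 * β * Y) * h2 + (A + X + β * Y) * hN
    have hC2 : B + Y + A * s = 0 := by
      rw [hA, hB]
      linear_combination (2 * Y + 2 * (X + β * Y) * s) * h2 + (Y + (X + β * Y) * s) * hN
    rw [key, hC1, hC2, zero_smul, zero_smul, add_zero, add_zero]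

end four

/-- The unitary transvections of SU(n, 2), n ≥ 4, form a generating conjugacy class of 3-transpositions. -/
theorem result (F : Type) [Field F] [Fintype F] [DecidableEq F] (hF : Fintype.card F = 4) (n : ℕ) (hn : 4 ≤ n) : Cfsg.IsThreeTranspositionClass {g : ↥(Cfsg.SU n F 2) | (((g : Matrix.SpecialLinearGroup (Fin n) F) : Matrix (Fin n) (Fin n) F) - 1).rank = 1} := by
  have hF' : Fintype.card F = 2 ^ 2 := by
    rw [hF]
    norm_num
  obtain ⟨σ, hσ, hσ2⟩ := Cfsg.Agent.Lib.Helper45.GUCard.exists_conj hF'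
  obtain ⟨m, rfl⟩ : ∃ m, n = m + 2 := ⟨n - 2, by omega⟩
  have h2 := two_eq_zero hF
  have h11 : (1 : F) + σ 1 = 0 := by
    rw [map_one]
    linear_combination h2
  refine ⟨⟨?_, ?_⟩, ?_, ?_⟩
  · intro d hd
    obtain ⟨u, hu0, huu, hτ⟩ := (mem_D_iff hF σ hσ hσ2 d).1 hd
    apply orderOf_eq_prime
    · rw [pow_two]
      exact tau_sq hF σ u huu d hτ
    · exact IsTau_ne_one σ u hu0 1 one_ne_zero d hτ
  · intro d hd e he
    obtain ⟨u, hu0, huu, hτ⟩ := (mem_D_iff hF σ hσ hσ2 d).1 hd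
    obtain ⟨v, hv0, hvv, hτ'⟩ := (mem_D_iff hF σ hσ hσ2 e).1 he
    exact tau_three hF σ hσ hσ2 u v huu hvv d e hτ hτ'
  · obtain ⟨p₀, hp₀0, hp₀⟩ := exists_iso hF' σ hσ hσ2 m
    obtain ⟨d₀, hd₀⟩ := exists_tau σ hσ hσ2 p₀ hp₀ 1 h11
    refine ⟨d₀, (mem_D_iff hF σ hσ hσ2 d₀).2 ⟨p₀, hp₀0, hp₀, hd₀⟩, ?_⟩
    ext d
    show d ∈ _ ↔ IsConj d₀ d
    constructor
    · intro hd
      obtain ⟨u, hu0, huu, hτ⟩ := (mem_D_iff hF σ hσ hσ2 d).1 hd
      exact Cfsg.Agent.S2644.result hF' (by omega) d₀ d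
        (isTransv_of_tau σ p₀ hp₀0 hp₀ 1 one_ne_zero d₀ hd₀)
        (isTransv_of_tau σ u hu0 huu 1 one_ne_zero d hτ)
    · intro hc
      obtain ⟨g, hg⟩ := isConj_iff.1 hc
      rw [← hg]
      exact (mem_D_iff hF σ hσ hσ2 _).2 ⟨act g p₀, act_ne_zero g p₀ hp₀0,
        by rw [act_form σ hσ, hp₀], IsTau_conj σ hσ p₀ 1 d₀ g hd₀⟩
  · have hgen := Cfsg.Agent.S0780.result hF' (m + 2) (by omega) (by omega)
    rw [eq_top_iff, ← hgen, Subgroup.closure_le]
    rintro A ⟨v, c, hvv, hA⟩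
    have hvv' : Bh σ (m + 2) v v = 0 := by
      rw [Bh_herm σ hσ]
      exact hvv
    have hτ : IsTau σ v c A := by
      intro x
      show ((A : Matrix.SpecialLinearGroup (Fin (m + 2)) F) :
        Matrix (Fin (m + 2)) (Fin (m + 2)) F) *ᵥ x = _
      have hfun : (fun j => v j ^ 2) = fun j => σ (v j) := funext (fun j => (hσ (v j)).symm)
      rw [hA]
      unfold Cfsg.unitaryTransvection
      rw [← Matrix.smul_vecMulVec, Cfsg.Agent.S0781.rank_one_mulVec, smul_smul, hfun,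
        Cfsg.Agent.S0781.dot_sigma, mul_comm]
    by_cases h0 : v = 0 ∨ c = 0
    · have h1 : A = 1 := by
        apply ext_act
        intro x
        rw [hτ x, act_one]
        rcases h0 with h | h
        · rw [h, smul_zero, add_zero]
        · rw [h, zero_mul, zero_smul, add_zero]
      rw [h1]
      exact Subgroup.one_mem _
    · push Not at h0
      exact Subgroup.subset_closure (rank_of_tau σ v h0.1 c h0.2 A hτ)

end Cfsg.Agent.S1631
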