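import Cfsg.Statements.S1634
import Cfsg.Agent.Lib.Helper27.CoStd
import Cfsg.Agent.Lib.Helper27.CertM22b

set_option autoImplicit false
open Cfsg

namespace Cfsg.Agent.S1634

open Cfsg.Agent.Lib.Helper27 Cfsg.Agent.Lib.Helper27.Bits Cfsg.Agent.Lib.Helper27.Pk
open Cfsg.Agent.Lib.Helper27.MinTab Cfsg.Agent.Lib.Helper27.MinEnum Cfsg.Agent.Lib.Helper27.MinFast
open Cfsg.Agent.Lib.Helper27.MinAll Cfsg.Agent.Lib.Helper27.LDot Cfsg.Agent.Lib.Helper27.LMat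
open Cfsg.Agent.Lib.Helper27.Spread Cfsg.Agent.Lib.Helper27.Co0Act Cfsg.Agent.Lib.Helper27.LApp
open Cfsg.Agent.Lib.Helper27.OrbCert Cfsg.Agent.Lib.Helper27.CoGlue
open Cfsg.Agent.Lib.Helper27.CertBase Cfsg.Agent.Lib.Helper27.CoStd


/-- The McLaughlin group acts on 2025 points (minimal vectors orthogonal to v with customary inner product 2 with w) transitively with rank 4 and subdegrees 1, 330, 462, 1232. -/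
theorem result (v w : ↥Cfsg.leechLattice) (hv : Cfsg.sqNorm (v : Cfsg.GolayPt → ℤ) = 32) (hw : Cfsg.sqNorm (w : Cfsg.GolayPt → ℤ) = 32) (hvw : Cfsg.dotInt (v : Cfsg.GolayPt → ℤ) (w : Cfsg.GolayPt → ℤ) = -8) : {x : ↥Cfsg.leechLattice | Cfsg.sqNorm (x : Cfsg.GolayPt → ℤ) = 32 ∧ Cfsg.dotInt (v : Cfsg.GolayPt → ℤ) (x : Cfsg.GolayPt → ℤ) = 0 ∧ Cfsg.dotInt (w : Cfsg.GolayPt → ℤ) (x : Cfsg.GolayPt → ℤ) = 16}.ncard = 2025 ∧ (∀ x ∈ {x : ↥Cfsg.leechLattice | Cfsg.sqNorm (x : Cfsg.GolayPt → ℤ) = 32 ∧ Cfsg.dotInt (v : Cfsg.GolayPt → ℤ) (x : Cfsg.GolayPt → ℤ) = 0 ∧ Cfsg.dotInt (w : Cfsg.GolayPt → ℤ) (x : Cfsg.GolayPt → ℤ) = 16}, ∀ x' ∈ {x : ↥Cfsg.leechLattice | Cfsg.sqNorm (x : Cfsg.GolayPt → ℤ) = 32 ∧ Cfsg.dotInt (v : Cfsg.GolayPt → ℤ) (x : Cfsg.GolayPt → ℤ) = 0 ∧ Cfsg.dotInt (w : Cfsg.GolayPt → ℤ) (x : Cfsg.GolayPt → ℤ) = 16},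 ∃ g : ↥Cfsg.Co0, g • v = v ∧ g • w = w ∧ g • x = x') ∧ ∀ x ∈ {x : ↥Cfsg.leechLattice | Cfsg.sqNorm (x : Cfsg.GolayPt → ℤ) = 32 ∧ Cfsg.dotInt (v : Cfsg.GolayPt → ℤ) (x : Cfsg.GolayPt → ℤ) = 0 ∧ Cfsg.dotInt (w : Cfsg.GolayPt → ℤ) (x : Cfsg.GolayPt → ℤ) = 16}, ∃ y₁ ∈ {x : ↥Cfsg.leechLattice | Cfsg.sqNorm (x : Cfsg.GolayPt → ℤ) = 32 ∧ Cfsg.dotInt (v : Cfsg.GolayPt → ℤ) (x : Cfsg.GolayPt → ℤ) = 0 ∧ Cfsg.dotInt (w : Cfsg.GolayPt → ℤ) (x : Cfsg.GolayPt → ℤ) = 16}, ∃ y₂ ∈ {x : ↥Cfsg.leechLattice | Cfsg.sqNorm (x : Cfsg.GolayPt → ℤ) = 32 ∧ Cfsg.dotInt (v : Cfsg.GolayPt → ℤ) (x : Cfsg.GolayPt → ℤ) = 0 ∧ Cfsg.dotInt (w : Cfsg.GolayPt → ℤ) (x : Cfsg.GolayPt → ℤ) = 16}, ∃ y₃ ∈ {x : ↥Cfsg.leechLattice | Cfsg.sqNorm (x : Cfsg.GolayPt → ℤ) = 32 ∧ Cfsg.dotInt (v : Cfsg.GolayPt → ℤ) (x : Cfsg.GolayPt → ℤ) = 0 ∧ Cfsg.dotInt (w : Cfsg.GolayPt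 → ℤ) (x : Cfsg.GolayPt → ℤ) = 16}, (MulAction.orbit ↥(MulAction.stabilizer ↥Cfsg.Co0 v ⊓ MulAction.stabilizer ↥Cfsg.Co0 w ⊓ MulAction.stabilizer ↥Cfsg.Co0 x) y₁).ncard = 330 ∧ (MulAction.orbit ↥(MulAction.stabilizer ↥Cfsg.Co0 v ⊓ MulAction.stabilizer ↥Cfsg.Co0 w ⊓ MulAction.stabilizer ↥Cfsg.Co0 x) y₂).ncard = 462 ∧ (MulAction.orbit ↥(MulAction.stabilizer ↥Cfsg.Co0 v ⊓ MulAction.stabilizer ↥Cfsg.Co0 w ⊓ MulAction.stabilizer ↥Cfsg.Co0 x) y₃).ncard = 1232 := by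

  obtain ⟨g1, k1, k2⟩ := std_min v w hv hw hvw
  refine ⟨?_, ?_, ?_⟩
  · exact (ncard_om_smul g1 CertMcL.cQ _ (mem_Q g1 k1 k2)).trans CertMcL.cardQ
  · intro x hx x' hx'
    obtain ⟨g, h3, h4⟩ := trans_smul CertMcL.transQ g1 ((mem_Q g1 k1 k2 x).mp hx)
      ((mem_Q g1 k1 k2 x').mp hx')
    exact ⟨g, h4 v ⟨V0, by simp, by rw [k1]; rfl⟩, h4 w ⟨W0, by simp, by rw [k2]; rfl⟩, h3⟩
  · intro x hx
    obtain ⟨g0, h1, h2, h3⟩ := std_min_x v w x hv hw hvw hx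
    have hxb : ((g0 • x : leechLattice) : GolayPt → ℤ) = vecB XB := by
      rw [h3]
      rfl
    have hH : ∀ g : Co0, (∀ a : leechLattice, (∃ b ∈ [U0, V0, W0, XB],
        ((g0 • a : leechLattice) : GolayPt → ℤ) = vecB b) → g • a = a) →
        g ∈ MulAction.stabilizer Co0 v ⊓ MulAction.stabilizer Co0 w ⊓ MulAction.stabilizer Co0 x := by
      intro g hg
      exact Subgroup.mem_inf.mpr ⟨Subgroup.mem_inf.mpr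
        ⟨MulAction.mem_stabilizer_iff.mpr (hg v ⟨V0, by simp, by rw [h1]; rfl⟩),
          MulAction.mem_stabilizer_iff.mpr (hg w ⟨W0, by simp, by rw [h2]; rfl⟩)⟩,
        MulAction.mem_stabilizer_iff.mpr (hg x ⟨XB, by simp, hxb⟩)⟩
    have hinv : ∀ d : ℤ, ∀ h ∈ MulAction.stabilizer Co0 v ⊓ MulAction.stabilizer Co0 w ⊓
        MulAction.stabilizer Co0 x, ∀ a : leechLattice,
        ((sqNorm (a : GolayPt → ℤ) = 32 ∧ dotInt (v : GolayPt → ℤ) (a : GolayPt → ℤ) = 0 ∧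
          dotInt (w : GolayPt → ℤ) (a : GolayPt → ℤ) = 16) ∧
          dotInt (x : GolayPt → ℤ) (a : GolayPt → ℤ) = d) →
        ((sqNorm ((h • a : leechLattice) : GolayPt → ℤ) = 32 ∧
          dotInt (v : GolayPt → ℤ) ((h • a : leechLattice) : GolayPt → ℤ) = 0 ∧
          dotInt (w : GolayPt → ℤ) ((h • a : leechLattice) : GolayPt → ℤ) = 16) ∧
          dotInt (x : GolayPt → ℤ) ((h • a : leechLattice) : GolayPt → ℤ) = d) := by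
      intro d h hh a ha
      obtain ⟨hvw', hx'⟩ := Subgroup.mem_inf.mp hh
      obtain ⟨hv', hw'⟩ := Subgroup.mem_inf.mp hvw'
      rw [MulAction.mem_stabilizer_iff] at hv' hw' hx'
      rw [smul_norm, stab_dot h hv', stab_dot h hw', stab_dot h hx']
      exact ha
    obtain ⟨y1, hy1, -, hn1⟩ := orbit_sub (MulAction.stabilizer Co0 v ⊓ MulAction.stabilizer Co0 w ⊓
      MulAction.stabilizer Co0 x) g0 330 CertM22b.transS1 CertM22b.cardS1 (by norm_num) _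
      (mem_sub g0 (mem_Q g0 h1 h2) hxb 0 0 0 (by norm_num)) (hinv 0) hH
    obtain ⟨y2, hy2, -, hn2⟩ := orbit_sub (MulAction.stabilizer Co0 v ⊓ MulAction.stabilizer Co0 w ⊓
      MulAction.stabilizer Co0 x) g0 462 CertM22b.transS2 CertM22b.cardS2 (by norm_num) _
      (mem_sub g0 (mem_Q g0 h1 h2) hxb 16 0 16 (by norm_num)) (hinv 16) hH
    obtain ⟨y3, hy3, -, hn3⟩ := orbit_sub (MulAction.stabilizer Co0 v ⊓ MulAction.stabilizer Co0 w ⊓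
      MulAction.stabilizer Co0 x) g0 1232 CertM22b.transS3 CertM22b.cardS3 (by norm_num) _
      (mem_sub g0 (mem_Q g0 h1 h2) hxb 8 0 8 (by norm_num)) (hinv 8) hH
    exact ⟨y1, hy1.1, y2, hy2.1, y3, hy3.1, hn1, hn2, hn3⟩

end Cfsg.Agent.S1634
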