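import Cfsg.Statements.S1635
import Cfsg.Agent.Lib.Helper26.SextetTab

set_option autoImplicit false
open scoped Pointwise
open Cfsg

namespace Cfsg.Agent.S1635

open Cfsg.Agent.Lib.Helper27.Bits Cfsg.Agent.Lib.Helper27.Golay Cfsg.Agent.Lib.Helper27.Fast
  Cfsg.Agent.Lib.Helper27.Coset Cfsg.Agent.Lib.Helper26.SextetTab

/-- Coset leaders of the length-24 code: a coset contains a unique word of weight ≤ 3, or else exactly six words of weight 4 and none lighter. -/
theorem result (w : Cfsg.GolayPt → ZMod 2) : ({v : Cfsg.GolayPt → ZMod 2 | hammingNorm v ≤ 4 ∧ w - v ∈ Cfsg.golayCode}.ncard = 1 ∧ ∃ v : Cfsg.GolayPt → ZMod 2, hammingNorm v ≤ 3 ∧ w - v ∈ Cfsg.golayCode) ∨ ({v : Cfsg.GolayPt → ZMod 2 | hammingNorm v ≤ 4 ∧ w - v ∈ Cfsg.golayCode}.ncard = 6 ∧ ∀ v : Cfsg.GolayPt → ZMod 2, w - v ∈ Cfsg.golayCode → hammingNorm v ≤ 4 → hammingNorm v = 4) := by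
  obtain ⟨a, ha, rfl⟩ := exists_wordOf w
  have hk := syn_lt ha
  cases hl : light (syn a)
  · right
    have hset : {v : GolayPt → ZMod 2 | hammingNorm v ≤ 4 ∧ wordOf a - v ∈ golayCode} =
        (fun j => wordOf (sx j (syn a))) '' (Set.Iio 6) := by
      ext v
      constructor
      · rintro ⟨h1, h2⟩
        obtain ⟨b, hb, rfl⟩ := exists_wordOf v
        rw [hammingNorm_wordOf] at h1
        obtain ⟨j, hj, rfl⟩ := eq_sx hk hl hb h1 ((sub_mem_iff ha hb).mp h2).symm
        exact ⟨j, hj, rfl⟩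
      · rintro ⟨j, hj, rfl⟩
        have hj' : j < 6 := hj
        obtain ⟨h1, h2⟩ := sx_mem hk hl hj'
        exact ⟨by rw [hammingNorm_wordOf, h1],
          (sub_mem_iff ha (sx_lt _ _)).mpr h2.symm⟩
    constructor
    · have hinj : Set.InjOn (fun j => wordOf (sx j (syn a))) (Set.Iio 6) := by
        intro i hi j hj h
        by_contra hij
        exact sx_ne hk hl hi hj hij (wordOf_injOn (sx_lt _ _) (sx_lt _ _) h)
      rw [hset, Set.InjOn.ncard_image hinj, ← Finset.coe_Iio, Set.ncard_coe_finset]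
      rfl
    · intro v h2 h1
      obtain ⟨b, hb, rfl⟩ := exists_wordOf v
      rw [hammingNorm_wordOf] at h1 ⊢
      obtain ⟨j, hj, rfl⟩ := eq_sx hk hl hb h1 ((sub_mem_iff ha hb).mp h2).symm
      exact (sx_mem hk hl hj).1
  · left
    obtain ⟨h3, h4⟩ := light_spec hk hl
    have hset : {v : GolayPt → ZMod 2 | hammingNorm v ≤ 4 ∧ wordOf a - v ∈ golayCode} =
        {wordOf (lead (syn a))} := by
      ext v
      constructor
      · rintro ⟨h1, h2⟩
        obtain ⟨b, hb, rfl⟩ := exists_wordOf v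
        rw [hammingNorm_wordOf] at h1
        rw [eq_lead hk hl h1 ((sub_mem_iff ha hb).mp h2).symm]
        rfl
      · intro hv
        rw [Set.mem_singleton_iff] at hv
        rw [hv]
        exact ⟨by rw [hammingNorm_wordOf]; omega, (sub_mem_iff ha (lead_lt _)).mpr h4.symm⟩
    refine ⟨by rw [hset, Set.ncard_singleton], wordOf (lead (syn a)), ?_, ?_⟩
    · rw [hammingNorm_wordOf]
      exact h3
    · exact (sub_mem_iff ha (lead_lt _)).mpr h4.symm

end Cfsg.Agent.S1635
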