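import Cfsg.Statements.S1636
import Cfsg.Agent.Lib.Helper26.Punct

set_option autoImplicit false
open scoped Pointwise
open Cfsg

namespace Cfsg.Agent.S1636

open Cfsg.Agent.Lib.Helper27.Bits Cfsg.Agent.Lib.Helper27.Golay Cfsg.Agent.Lib.Helper27.Fast
  Cfsg.Agent.Lib.Helper27.Coset Cfsg.Agent.Lib.Helper26.SextetTab Cfsg.Agent.Lib.Helper26.Punct

theorem count_wt (n : ℕ) :
    {u : ZMod 23 → ZMod 2 | u ∈ PC ∧ hammingNorm u = n}.ncard =
      countB 4096 (fun c => Nat.beq (pcF (cw c &&& 8388607)) n) := by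
  apply ncard_PC_filter
  intro c _
  rw [norm_punc]
  exact ⟨fun h => by rw [h]; exact Nat.beq_refl n, Nat.eq_of_beq_eq_true⟩

theorem c_all : countB 4096 (fun _ => true) = 4096 := by decide +kernel

theorem c7 : countB 4096 (fun c => Nat.beq (pcF (cw c &&& 8388607)) 7) = 253 := by decide +kernel

theorem c8 : countB 4096 (fun c => Nat.beq (pcF (cw c &&& 8388607)) 8) = 506 := by decide +kernel

theorem c11 : countB 4096 (fun c => Nat.beq (pcF (cw c &&& 8388607)) 11) = 1288 := by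
  decide +kernel

theorem c12 : countB 4096 (fun c => Nat.beq (pcF (cw c &&& 8388607)) 12) = 1288 := by
  decide +kernel

theorem c15 : countB 4096 (fun c => Nat.beq (pcF (cw c &&& 8388607)) 15) = 506 := by
  decide +kernel

theorem c16 : countB 4096 (fun c => Nat.beq (pcF (cw c &&& 8388607)) 16) = 253 := by
  decide +kernel

theorem card_PC : PC.ncard = 4096 := by
  have h := ncard_PC_filter (fun _ => True) (fun _ => true) (fun _ _ => by simp)
  rw [c_all] at h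
  rw [← h]
  congr 1
  ext u
  simp

/-- The punctured length-23 code has weight distribution 0^1 7^253 8^506 11^1288 12^1288 15^506 16^253 23^1. -/
theorem result : {u : ZMod 23 → ZMod 2 | ∃ w ∈ Cfsg.golayCode, ∀ x : ZMod 23, u x = w (some x)}.ncard = 4096 ∧ {u : ZMod 23 → ZMod 2 | u ∈ {u : ZMod 23 → ZMod 2 | ∃ w ∈ Cfsg.golayCode, ∀ x : ZMod 23, u x = w (some x)} ∧ hammingNorm u = 7}.ncard = 253 ∧ {u : ZMod 23 → ZMod 2 | u ∈ {u : ZMod 23 → ZMod 2 | ∃ w ∈ Cfsg.golayCode, ∀ x : ZMod 23, u x = w (some x)} ∧ hammingNorm u = 8}.ncard = 506 ∧ {u : ZMod 23 → ZMod 2 | u ∈ {u : ZMod 23 → ZMod 2 | ∃ w ∈ Cfsg.golayCode, ∀ x : ZMod 23, u x = w (some x)} ∧ hammingNorm u = 11}.ncard = 1288 ∧ {u : ZMod 23 → ZMod 2 | u ∈ {u : ZMod 23 → ZMod 2 | ∃ w ∈ Cfsg.golayCode, ∀ x : ZMod 23, u x = w (some x)} ∧ hammingNorm u = 12}.ncard = 1288 ∧ {u : ZMod 23 → ZMod 2 | u ∈ {u : ZMod 23 → ZMod 2 | ∃ w ∈ Cfsg.golayCode, ∀ x :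 ZMod 23, u x = w (some x)} ∧ hammingNorm u = 15}.ncard = 506 ∧ {u : ZMod 23 → ZMod 2 | u ∈ {u : ZMod 23 → ZMod 2 | ∃ w ∈ Cfsg.golayCode, ∀ x : ZMod 23, u x = w (some x)} ∧ hammingNorm u = 16}.ncard = 253 ∧ ∀ u ∈ {u : ZMod 23 → ZMod 2 | ∃ w ∈ Cfsg.golayCode, ∀ x : ZMod 23, u x = w (some x)}, u ≠ 0 → 7 ≤ hammingNorm u := by
  refine ⟨card_PC, ?_, ?_, ?_, ?_, ?_, ?_, fun u hu h0 => minwt hu h0⟩
  · exact (count_wt 7).trans c7
  · exact (count_wt 8).trans c8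
  · exact (count_wt 11).trans c11
  · exact (count_wt 12).trans c12
  · exact (count_wt 15).trans c15
  · exact (count_wt 16).trans c16

end Cfsg.Agent.S1636
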