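import Cfsg.Statements.S1637
import Cfsg.Agent.Lib.Helper26.Punct

set_option autoImplicit false
open scoped Pointwise
open Cfsg

namespace Cfsg.Agent.S1637

open Cfsg.Agent.Lib.Helper27.Bits Cfsg.Agent.Lib.Helper27.Golay Cfsg.Agent.Lib.Helper27.Fast
  Cfsg.Agent.Lib.Helper27.Coset Cfsg.Agent.Lib.Helper26.SextetTab Cfsg.Agent.Lib.Helper26.Punct

/-- every coset of the code without a word of weight at most 3 has a word of weight 4 through the
extra point -/
theorem heavy_tab : allB 4096 (fun k => light k ||
    !allB 6 (fun j => !Nat.ble (pcF (sx j k &&& 8388607)) 3)) = true := by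
  decide +kernel

/-- every coset has a word whose punctured weight is at most 3 -/
theorem exists_leader {k : ℕ} (hk : k < 4096) :
    ∃ l < 2 ^ 24, syn l = k ∧ hammingNorm (punc (wordOf l)) ≤ 3 := by
  cases hl : light k
  · have h := (allB_iff _ _).mp heavy_tab k hk
    rw [hl, Bool.false_or] at h
    have h2 : ∃ j < 6, ¬ ((!Nat.ble (pcF (sx j k &&& 8388607)) 3) = true) := by
      by_contra hcon
      have h3 : ∀ j < 6, (!Nat.ble (pcF (sx j k &&& 8388607)) 3) = true :=
        fun j hj => by_contra (fun hh => hcon ⟨j, hj, hh⟩)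
      rw [← allB_iff] at h3
      rw [h3] at h
      exact absurd h (by decide)
    obtain ⟨j, hj, h4⟩ := h2
    refine ⟨sx j k, sx_lt _ _, (sx_mem hk hl hj).2, ?_⟩
    rw [norm_punc]
    apply Nat.le_of_ble_eq_true
    cases h5 : Nat.ble (pcF (sx j k &&& 8388607)) 3
    · rw [h5] at h4
      exact absurd rfl h4
    · rfl
  · obtain ⟨h1, h2⟩ := light_spec hk hl
    exact ⟨lead k, lead_lt _, h2, le_trans (norm_punc_le _) h1⟩

theorem dist_eq (x y : ZMod 23 → ZMod 2) : hammingDist x y = hammingNorm (x - y) := by
  rw [hammingDist_eq_hammingNorm]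
  congr 1
  funext i
  show -x i + y i = x i - y i
  rw [CharTwo.neg_eq, CharTwo.sub_eq_add]

/-- The punctured length-23 code is a perfect 3-error-correcting code: each word of length 23 is within distance 3 of exactly one codeword. -/
theorem result (u : ZMod 23 → ZMod 2) : ∃! c : ZMod 23 → ZMod 2, c ∈ {u : ZMod 23 → ZMod 2 | ∃ w ∈ Cfsg.golayCode, ∀ x : ZMod 23, u x = w (some x)} ∧ hammingDist u c ≤ 3 := by
  obtain ⟨b, hb, hb'⟩ := exists_wordOf (fun p : GolayPt => match p with
    | none => (0 : ZMod 2)
    | some x => u x)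
  have hu : u = punc (wordOf b) := by
    rw [hb']
    rfl
  obtain ⟨l, hl, hs, hn⟩ := exists_leader (syn_lt hb)
  have hw : wordOf b - wordOf l ∈ golayCode := (sub_mem_iff hb hl).mpr hs.symm
  refine ⟨punc (wordOf b - wordOf l), ⟨punc_mem hw, ?_⟩, ?_⟩
  · rw [dist_eq, hu]
    have e : punc (wordOf b) - punc (wordOf b - wordOf l) = punc (wordOf l) := by
      funext x
      show wordOf b (some x) - (wordOf b (some x) - wordOf l (some x)) = wordOf l (some x)
      ring
    rw [e]
    exact hn
  · rintro c ⟨hc, hd⟩
    by_contra hne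
    have h1 : c - punc (wordOf b - wordOf l) ∈ PC := sub_mem_PC hc (punc_mem hw)
    have h2 : c - punc (wordOf b - wordOf l) ≠ 0 := fun h => hne (sub_eq_zero.mp h)
    have h3 := minwt h1 h2
    rw [← dist_eq] at h3
    have h4 : hammingDist u (punc (wordOf b - wordOf l)) ≤ 3 := by
      rw [dist_eq, hu]
      have e : punc (wordOf b) - punc (wordOf b - wordOf l) = punc (wordOf l) := by
        funext x
        show wordOf b (some x) - (wordOf b (some x) - wordOf l (some x)) = wordOf l (some x)
        ring
      rw [e]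
      exact hn
    have h5 := hammingDist_triangle c u (punc (wordOf b - wordOf l))
    rw [hammingDist_comm c u] at h5
    omega

end Cfsg.Agent.S1637
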