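import Cfsg.Statements.S1680
import Cfsg.Agent.Lib.Helper28.T1680X

set_option autoImplicit false
open Cfsg
open Cfsg.Agent.Lib.Helper28.TCKernel Cfsg.Agent.Lib.Helper28.TCMain

namespace Cfsg.Agent.S1680

/-- In the presented sporadic Suzuki group, let H be the subgroup generated by the images of a, …, f. Then H has index 1782, H has orbits of sizes 416 and 1365 on the cosets of H other than H itself (with the index 1782 this makes the action rank 3). -/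
theorem result : (((Subgroup.closure ({Cfsg.Spor.Suz.a, Cfsg.Spor.Suz.b, Cfsg.Spor.Suz.c, Cfsg.Spor.Suz.d, Cfsg.Spor.Suz.e, Cfsg.Spor.Suz.f} : Set (FreeGroup Cfsg.Spor.Suz.Gen))).map (PresentedGroup.mk (Cfsg.Spor.coxRelators Cfsg.Spor.Suz.edges ∪ {r | r ∈ Cfsg.Spor.Suz.extra})))).index = 1782 ∧ ∃ q₁ q₂ : Cfsg.Spor.Suz ⧸ (((Subgroup.closure ({Cfsg.Spor.Suz.a, Cfsg.Spor.Suz.b, Cfsg.Spor.Suz.c, Cfsg.Spor.Suz.d, Cfsg.Spor.Suz.e, Cfsg.Spor.Suz.f} : Set (FreeGroup Cfsg.Spor.Suz.Gen))).map (PresentedGroup.mk (Cfsg.Spor.coxRelators Cfsg.Spor.Suz.edges ∪ {r | r ∈ Cfsg.Spor.Suz.extra})))), (MulAction.orbit (((Subgroup.closure ({Cfsg.Spor.Suz.a, Cfsg.Spor.Suz.b, Cfsg.Spor.Suz.c, Cfsg.Spor.Suz.d, Cfsg.Spor.Suz.e, Cfsg.Spor.Suz.f} : Set (FreeGroup Cfsg.Spor.Suz.Gen))).map (PresentedGroup.mk (Cfsg.Spor.coxRelators Cfsg.Spor.Suz.edges ∪ {r | r ∈ Cfsg.Spor.Suz.extra}))))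 q₁).ncard = 416 ∧ (MulAction.orbit (((Subgroup.closure ({Cfsg.Spor.Suz.a, Cfsg.Spor.Suz.b, Cfsg.Spor.Suz.c, Cfsg.Spor.Suz.d, Cfsg.Spor.Suz.e, Cfsg.Spor.Suz.f} : Set (FreeGroup Cfsg.Spor.Suz.Gen))).map (PresentedGroup.mk (Cfsg.Spor.coxRelators Cfsg.Spor.Suz.edges ∪ {r | r ∈ Cfsg.Spor.Suz.extra})))) q₂).ncard = 1365 := by
  have hS : ({Cfsg.Spor.Suz.a, Cfsg.Spor.Suz.b, Cfsg.Spor.Suz.c, Cfsg.Spor.Suz.d, Cfsg.Spor.Suz.e, Cfsg.Spor.Suz.f} : Set (FreeGroup Cfsg.Spor.Suz.Gen)) = {s | s ∈ [Cfsg.Spor.Suz.a, Cfsg.Spor.Suz.b, Cfsg.Spor.Suz.c, Cfsg.Spor.Suz.d, Cfsg.Spor.Suz.e, Cfsg.Spor.Suz.f]} := by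
    ext s
    simp only [Set.mem_insert_iff, Set.mem_singleton_iff, Set.mem_ofPred_eq, List.mem_cons,
      List.not_mem_nil, or_false]
  rw [hS]
  obtain ⟨hidx, ψ, hψ, horb⟩ := Cfsg.Agent.Lib.Helper28.T1680X.final
  refine ⟨hidx, ?_⟩
  have hc : ∀ b, clsOf Cfsg.Agent.Lib.Helper28.T1680LT.roots b = ((if 1 ≤ b then 1 else 0) + ((if 1366 ≤ b then 1 else 0) + 0)) := by
    intro b
    show clsOf [1, 1366] b = _
    rw [clsOf_cons, clsOf_cons, clsOf_nil]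
  obtain ⟨q0, h0⟩ := horb 1366 (by decide) (by decide +kernel)
  have e0 : clsOf Cfsg.Agent.Lib.Helper28.T1680LT.roots 1366 = 2 := by decide +kernel
  have n0 := ncard_orbit ψ hψ _ Cfsg.Agent.Lib.Helper28.T1680LT.roots _ 1366 1782 (by decide) h0 (by
    intro b hb
    rw [e0, hc]
    split_ifs <;> omega)
  obtain ⟨q1, h1⟩ := horb 1 (by decide) (by decide +kernel)
  have e1 : clsOf Cfsg.Agent.Lib.Helper28.T1680LT.roots 1 = 1 := by decide +kernel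
  have n1 := ncard_orbit ψ hψ _ Cfsg.Agent.Lib.Helper28.T1680LT.roots _ 1 1366 (by decide) h1 (by
    intro b hb
    rw [e1, hc]
    split_ifs <;> omega)
  exact ⟨q0, q1, n0, n1⟩

end Cfsg.Agent.S1680
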