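import Cfsg.Statements.S1687
import Cfsg.Agent.Lib.Helper28.T1687X

set_option autoImplicit false
open Cfsg
open Cfsg.Agent.Lib.Helper28.TCKernel Cfsg.Agent.Lib.Helper28.TCMain

namespace Cfsg.Agent.S1687

/-- In the presented Fischer group Fi₂₂, let H be the subgroup generated by the images of a, c, d, e, f, g, h, i and (abcdeh)^5. Then H has index 3510, H has orbits of sizes 693 and 2816 on the cosets of H other than H itself. -/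
theorem result : (((Subgroup.closure ({Cfsg.Spor.Fi22.a, Cfsg.Spor.Fi22.c, Cfsg.Spor.Fi22.d, Cfsg.Spor.Fi22.e, Cfsg.Spor.Fi22.f, Cfsg.Spor.Fi22.g, Cfsg.Spor.Fi22.h, Cfsg.Spor.Fi22.i, (Cfsg.Spor.Fi22.a * Cfsg.Spor.Fi22.b * Cfsg.Spor.Fi22.c * Cfsg.Spor.Fi22.d * Cfsg.Spor.Fi22.e * Cfsg.Spor.Fi22.h) ^ 5} : Set (FreeGroup Cfsg.Spor.Fi22.Gen))).map (PresentedGroup.mk (Cfsg.Spor.coxRelators Cfsg.Spor.Fi22.edges ∪ {r | r ∈ Cfsg.Spor.Fi22.extra})))).index = 3510 ∧ ∃ q₁ q₂ : Cfsg.Spor.Fi22 ⧸ (((Subgroup.closure ({Cfsg.Spor.Fi22.a, Cfsg.Spor.Fi22.c, Cfsg.Spor.Fi22.d, Cfsg.Spor.Fi22.e, Cfsg.Spor.Fi22.f, Cfsg.Spor.Fi22.g, Cfsg.Spor.Fi22.h, Cfsg.Spor.Fi22.i, (Cfsg.Spor.Fi22.a * Cfsg.Spor.Fi22.b * Cfsg.Spor.Fi22.c * Cfsg.Spor.Fi22.d * Cfsg.Spor.Fi22.e * Cfsg.Spor.Fi22.h) ^ 5} : Set (FreeGroup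 Cfsg.Spor.Fi22.Gen))).map (PresentedGroup.mk (Cfsg.Spor.coxRelators Cfsg.Spor.Fi22.edges ∪ {r | r ∈ Cfsg.Spor.Fi22.extra})))), (MulAction.orbit (((Subgroup.closure ({Cfsg.Spor.Fi22.a, Cfsg.Spor.Fi22.c, Cfsg.Spor.Fi22.d, Cfsg.Spor.Fi22.e, Cfsg.Spor.Fi22.f, Cfsg.Spor.Fi22.g, Cfsg.Spor.Fi22.h, Cfsg.Spor.Fi22.i, (Cfsg.Spor.Fi22.a * Cfsg.Spor.Fi22.b * Cfsg.Spor.Fi22.c * Cfsg.Spor.Fi22.d * Cfsg.Spor.Fi22.e * Cfsg.Spor.Fi22.h) ^ 5} : Set (FreeGroup Cfsg.Spor.Fi22.Gen))).map (PresentedGroup.mk (Cfsg.Spor.coxRelators Cfsg.Spor.Fi22.edges ∪ {r | r ∈ Cfsg.Spor.Fi22.extra})))) q₁).ncard = 693 ∧ (MulAction.orbit (((Subgroup.closure ({Cfsg.Spor.Fi22.a, Cfsg.Spor.Fi22.c, Cfsg.Spor.Fi22.d, Cfsg.Spor.Fi22.e, Cfsg.Spor.Fi22.f, Cfsg.Spor.Fi22.g, Cfsg.Spor.Fi22.h, Cfsg.Spor.Fi22.i, (Cfsg.Spor.Fi22.a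 * Cfsg.Spor.Fi22.b * Cfsg.Spor.Fi22.c * Cfsg.Spor.Fi22.d * Cfsg.Spor.Fi22.e * Cfsg.Spor.Fi22.h) ^ 5} : Set (FreeGroup Cfsg.Spor.Fi22.Gen))).map (PresentedGroup.mk (Cfsg.Spor.coxRelators Cfsg.Spor.Fi22.edges ∪ {r | r ∈ Cfsg.Spor.Fi22.extra})))) q₂).ncard = 2816 := by
  have hS : ({Cfsg.Spor.Fi22.a, Cfsg.Spor.Fi22.c, Cfsg.Spor.Fi22.d, Cfsg.Spor.Fi22.e, Cfsg.Spor.Fi22.f, Cfsg.Spor.Fi22.g, Cfsg.Spor.Fi22.h, Cfsg.Spor.Fi22.i, (Cfsg.Spor.Fi22.a * Cfsg.Spor.Fi22.b * Cfsg.Spor.Fi22.c * Cfsg.Spor.Fi22.d * Cfsg.Spor.Fi22.e * Cfsg.Spor.Fi22.h) ^ 5} : Set (FreeGroup Cfsg.Spor.Fi22.Gen)) = {s | s ∈ [Cfsg.Spor.Fi22.a, Cfsg.Spor.Fi22.c, Cfsg.Spor.Fi22.d, Cfsg.Spor.Fi22.e, Cfsg.Spor.Fi22.f, Cfsg.Spor.Fi22.g, Cfsg.Spor.Fi22.h, Cfsg.Spor.Fi22.i, (Cfsg.Spor.Fi22.a * Cfsg.Spor.Fi22.b * Cfsg.Spor.Fi22.c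 * Cfsg.Spor.Fi22.d * Cfsg.Spor.Fi22.e * Cfsg.Spor.Fi22.h) ^ 5]} := by
    ext s
    simp only [Set.mem_insert_iff, Set.mem_singleton_iff, Set.mem_ofPred_eq, List.mem_cons,
      List.not_mem_nil, or_false]
  rw [hS]
  obtain ⟨hidx, ψ, hψ, horb⟩ := Cfsg.Agent.Lib.Helper28.T1687X.final
  refine ⟨hidx, ?_⟩
  obtain ⟨q1, h1⟩ := horb 2817 (by decide) (by decide +kernel)
  obtain ⟨q2, h2⟩ := horb 1 (by decide) (by decide +kernel)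
  have e1 : clsOf Cfsg.Agent.Lib.Helper28.T1687LT.roots 2817 = 2 := by decide +kernel
  have e2 : clsOf Cfsg.Agent.Lib.Helper28.T1687LT.roots 1 = 1 := by decide +kernel
  have hc : ∀ b, clsOf Cfsg.Agent.Lib.Helper28.T1687LT.roots b =
      (if 1 ≤ b then 1 else 0) + ((if 2817 ≤ b then 1 else 0) + 0) := by
    intro b
    show clsOf [1, 2817] b = _
    rw [clsOf_cons, clsOf_cons, clsOf_nil]
  refine ⟨q1, q2, ?_, ?_⟩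
  · refine ncard_orbit ψ hψ _ Cfsg.Agent.Lib.Helper28.T1687LT.roots _ 2817 3510 (by decide) h1 ?_
    intro b hb
    rw [e1, hc]
    split_ifs <;> omega
  · refine ncard_orbit ψ hψ _ Cfsg.Agent.Lib.Helper28.T1687LT.roots _ 1 2817 (by decide) h2 ?_
    intro b hb
    rw [e2, hc]
    split_ifs <;> omega

end Cfsg.Agent.S1687
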