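import Cfsg.Statements.S1689
import Cfsg.Agent.Lib.Helper29.S1689.Up0
import Cfsg.Agent.Lib.Helper29.S1689.Up1
import Cfsg.Agent.Lib.Helper29.S1689.Up2
import Cfsg.Agent.Lib.Helper29.S1689.Up3
import Cfsg.Agent.Lib.Helper29.S1689.Up4
import Cfsg.Agent.Lib.Helper29.S1689.Up5
import Cfsg.Agent.Lib.Helper29.S1689.Up6
import Cfsg.Agent.Lib.Helper29.S1689.Up7
import Cfsg.Agent.Lib.Helper29.S1689.Up8
import Cfsg.Agent.Lib.Helper29.S1689.Up9
import Cfsg.Agent.Lib.Helper29.S1689.Up10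
import Cfsg.Agent.Lib.Helper29.S1689.Up11
import Cfsg.Agent.Lib.Helper29.S1689.Lo0
import Cfsg.Agent.Lib.Helper29.S1689.Lo1
import Cfsg.Agent.Lib.Helper29.S1689.Lo2
import Cfsg.Agent.Lib.Helper29.S1689.Lo3
import Cfsg.Agent.Lib.Helper29.S1689.Lo4
import Cfsg.Agent.Lib.Helper29.S1689.Lo5
import Cfsg.Agent.Lib.Helper29.S1689.Lo6
import Cfsg.Agent.Lib.Helper29.S1689.Lo7
import Cfsg.Agent.Lib.Helper29.S1689.Lo8
import Cfsg.Agent.Lib.Helper29.S1689.Lo9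
import Cfsg.Agent.Lib.Helper29.S1689.Lo10
import Cfsg.Agent.Lib.Helper29.S1689.Lo11

set_option autoImplicit false
open Cfsg

namespace Cfsg.Agent.S1689

open Cfsg.Agent.Lib.Helper29 Cfsg.Agent.Lib.Helper29.TcTrace Cfsg.Agent.Lib.Helper29.TcCert
  Cfsg.Agent.Lib.Helper29.TcPerm Cfsg.Agent.Lib.Helper29.TcCox Cfsg.Agent.Lib.Helper29.S1689 in
theorem upAll : ∀ b, b < 2016 → ∃ J, chkBlk D lay cols 32 64484 b J = true := fun b h =>
  if h0 : b < 168 then up_0_168 b (Nat.zero_le _) h0 else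
  if h1 : b < 336 then up_168_336 b (Nat.le_of_not_lt h0) h1 else
  if h2 : b < 504 then up_336_504 b (Nat.le_of_not_lt h1) h2 else
  if h3 : b < 672 then up_504_672 b (Nat.le_of_not_lt h2) h3 else
  if h4 : b < 840 then up_672_840 b (Nat.le_of_not_lt h3) h4 else
  if h5 : b < 1008 then up_840_1008 b (Nat.le_of_not_lt h4) h5 else
  if h6 : b < 1176 then up_1008_1176 b (Nat.le_of_not_lt h5) h6 else
  if h7 : b < 1344 then up_1176_1344 b (Nat.le_of_not_lt h6) h7 else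
  if h8 : b < 1512 then up_1344_1512 b (Nat.le_of_not_lt h7) h8 else
  if h9 : b < 1680 then up_1512_1680 b (Nat.le_of_not_lt h8) h9 else
  if h10 : b < 1848 then up_1680_1848 b (Nat.le_of_not_lt h9) h10 else
  up_1848_2016 b (Nat.le_of_not_lt h10) h

open Cfsg.Agent.Lib.Helper29 Cfsg.Agent.Lib.Helper29.TcTrace Cfsg.Agent.Lib.Helper29.TcCert
  Cfsg.Agent.Lib.Helper29.TcPerm Cfsg.Agent.Lib.Helper29.TcCox Cfsg.Agent.Lib.Helper29.S1689 in
theorem loAll : ∀ b, b < 1760 → ∃ J, chkPBlk P 5 31 18 31671 b J = true := fun b h =>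
  if h0 : b < 147 then lo_0_147 b (Nat.zero_le _) h0 else
  if h1 : b < 294 then lo_147_294 b (Nat.le_of_not_lt h0) h1 else
  if h2 : b < 441 then lo_294_441 b (Nat.le_of_not_lt h1) h2 else
  if h3 : b < 588 then lo_441_588 b (Nat.le_of_not_lt h2) h3 else
  if h4 : b < 735 then lo_588_735 b (Nat.le_of_not_lt h3) h4 else
  if h5 : b < 882 then lo_735_882 b (Nat.le_of_not_lt h4) h5 else
  if h6 : b < 1029 then lo_882_1029 b (Nat.le_of_not_lt h5) h6 else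
  if h7 : b < 1176 then lo_1029_1176 b (Nat.le_of_not_lt h6) h7 else
  if h8 : b < 1323 then lo_1176_1323 b (Nat.le_of_not_lt h7) h8 else
  if h9 : b < 1470 then lo_1323_1470 b (Nat.le_of_not_lt h8) h9 else
  if h10 : b < 1617 then lo_1470_1617 b (Nat.le_of_not_lt h9) h10 else
  lo_1617_1760 b (Nat.le_of_not_lt h10) h

open Cfsg.Agent.Lib.Helper29 Cfsg.Agent.Lib.Helper29.TcTrace Cfsg.Agent.Lib.Helper29.TcCert
  Cfsg.Agent.Lib.Helper29.TcPerm Cfsg.Agent.Lib.Helper29.TcCox Cfsg.Agent.Lib.Helper29.S1689 in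
theorem ok : CoxOK Cfsg.Spor.Fi23.edges Cfsg.Spor.Fi23.extra
    ({Cfsg.Spor.Fi23.a, Cfsg.Spor.Fi23.b, Cfsg.Spor.Fi23.c, Cfsg.Spor.Fi23.d, Cfsg.Spor.Fi23.e, Cfsg.Spor.Fi23.f, Cfsg.Spor.Fi23.g, Cfsg.Spor.Fi23.h, Cfsg.Spor.Fi23.i} : Set (FreeGroup Cfsg.Spor.Fi23.Gen))
    nodesL extraWords hWords colOf colLetters invL 10 9
    D 21 1354164 31671 8 2097151 VL RL MG MT PAR PL FIN VERT vtree lay cols 32 64484 2016 baseL P 5 31 18 1760 where
  hnodes := by decide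
  hnodes' := by decide
  hextra := by rfl
  hS := by
    intro x
    simp only [Set.mem_insert_iff, Set.mem_singleton_iff, hWords, List.map_cons, List.map_nil,
      List.mem_cons, List.not_mem_nil, or_false]
    exact Iff.rfl
  hcolOf := by rintro ⟨x, y⟩; cases x <;> cases y <;> decide
  hround := by decide
  hinvL := by decide
  hinvinv := by decide
  hnH := by rfl
  hD := by rfl
  hW := by decide
  hWN := by decide
  hN := by decide
  hRL := by decide +kernel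
  hVLlen := by rfl
  hRLlen := by rfl
  hRH := by decide +kernel
  hlive0 := by decide +kernel
  hcols := by decide
  hB := by decide
  hcov := by decide
  hblk := upAll
  hbase := by decide +kernel
  hvtree := by decide +kernel
  hWL := by decide
  hPn := by decide
  hn := by decide
  hPcols := by decide
  hPrels := by decide +kernel
  hPhws := by decide +kernel
  hPtwl := by decide +kernel
  hPnH := by rfl
  hBL := by decide
  hcovL := by decide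
  hblkL := loAll
  hbound1 := by decide
  hbv := by decide +kernel

/-- In the presented Fischer group Fi₂₃, let H be the subgroup generated by the images of a, …, i. Then H has index 31671, H has orbits of sizes 3510 and 28160 on the cosets of H other than H itself. -/
theorem result : (((Subgroup.closure ({Cfsg.Spor.Fi23.a, Cfsg.Spor.Fi23.b, Cfsg.Spor.Fi23.c, Cfsg.Spor.Fi23.d, Cfsg.Spor.Fi23.e, Cfsg.Spor.Fi23.f, Cfsg.Spor.Fi23.g, Cfsg.Spor.Fi23.h, Cfsg.Spor.Fi23.i} : Set (FreeGroup Cfsg.Spor.Fi23.Gen))).map (PresentedGroup.mk (Cfsg.Spor.coxRelators Cfsg.Spor.Fi23.edges ∪ {r | r ∈ Cfsg.Spor.Fi23.extra})))).index = 31671 ∧ ∃ q₁ q₂ : Cfsg.Spor.Fi23 ⧸ (((Subgroup.closure ({Cfsg.Spor.Fi23.a, Cfsg.Spor.Fi23.b, Cfsg.Spor.Fi23.c, Cfsg.Spor.Fi23.d, Cfsg.Spor.Fi23.e, Cfsg.Spor.Fi23.f, Cfsg.Spor.Fi23.g, Cfsg.Spor.Fi23.h, Cfsg.Spor.Fi23.i} : Set (FreeGroup Cfsg.Spor.Fi23.Gen))).map (PresentedGroup.mk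 (Cfsg.Spor.coxRelators Cfsg.Spor.Fi23.edges ∪ {r | r ∈ Cfsg.Spor.Fi23.extra})))), (MulAction.orbit (((Subgroup.closure ({Cfsg.Spor.Fi23.a, Cfsg.Spor.Fi23.b, Cfsg.Spor.Fi23.c, Cfsg.Spor.Fi23.d, Cfsg.Spor.Fi23.e, Cfsg.Spor.Fi23.f, Cfsg.Spor.Fi23.g, Cfsg.Spor.Fi23.h, Cfsg.Spor.Fi23.i} : Set (FreeGroup Cfsg.Spor.Fi23.Gen))).map (PresentedGroup.mk (Cfsg.Spor.coxRelators Cfsg.Spor.Fi23.edges ∪ {r | r ∈ Cfsg.Spor.Fi23.extra})))) q₁).ncard = 3510 ∧ (MulAction.orbit (((Subgroup.closure ({Cfsg.Spor.Fi23.a, Cfsg.Spor.Fi23.b, Cfsg.Spor.Fi23.c, Cfsg.Spor.Fi23.d, Cfsg.Spor.Fi23.e, Cfsg.Spor.Fi23.f, Cfsg.Spor.Fi23.g, Cfsg.Spor.Fi23.h, Cfsg.Spor.Fi23.i} : Set (FreeGroup Cfsg.Spor.Fi23.Gen))).map (PresentedGroup.mk (Cfsg.Spor.coxRelators Cfsg.Spor.Fi23.edges ∪ {r | r ∈ Cfsg.Spor.Fi23.extra})))) q₂).ncard = 28160 := by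
  obtain ⟨hidx, f, hf, horb⟩ := Cfsg.Agent.Lib.Helper29.TcCox.cox_main ok
  refine ⟨hidx, ?_⟩
  obtain ⟨q1, e1⟩ := horb 563220 633420 (by decide) (by decide) (by decide) (by decide)
  obtain ⟨q2, e2⟩ := horb 20 563220 (by decide) (by decide) (by decide) (by decide)
  refine ⟨q1, q2, ?_, ?_⟩
  · exact (Cfsg.Agent.Lib.Helper29.TcIndex.ncard_of_image hf e1 (by decide) (by decide) (by decide)).trans (by decide)
  · exact (Cfsg.Agent.Lib.Helper29.TcIndex.ncard_of_image hf e2 (by decide) (by decide) (by decide)).trans (by decide)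


end Cfsg.Agent.S1689
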