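import Cfsg.Statements.S1690
import Cfsg.Agent.Lib.Helper28.T1690X

set_option autoImplicit false
open Cfsg
open Cfsg.Agent.Lib.Helper28.TCKernel Cfsg.Agent.Lib.Helper28.TCMain

namespace Cfsg.Agent.S1690

/-- In the presented group Fi₂₄ = Fi₂₄′:2, the subgroup generated by the images of a, b, c, d, e, f, g, h, i, j and l (every generator but k) has index 306936. -/
theorem result : (((Subgroup.closure ({Cfsg.Spor.Fi24.a, Cfsg.Spor.Fi24.b, Cfsg.Spor.Fi24.c, Cfsg.Spor.Fi24.d, Cfsg.Spor.Fi24.e, Cfsg.Spor.Fi24.f, Cfsg.Spor.Fi24.g, Cfsg.Spor.Fi24.h, Cfsg.Spor.Fi24.i, Cfsg.Spor.Fi24.j, Cfsg.Spor.Fi24.l} : Set (FreeGroup Cfsg.Spor.Fi24.Gen))).map (PresentedGroup.mk (Cfsg.Spor.coxRelators Cfsg.Spor.Fi24.edges ∪ {r | r ∈ Cfsg.Spor.Fi24.extra})))).index = 306936 := by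
  have hS : ({Cfsg.Spor.Fi24.a, Cfsg.Spor.Fi24.b, Cfsg.Spor.Fi24.c, Cfsg.Spor.Fi24.d, Cfsg.Spor.Fi24.e, Cfsg.Spor.Fi24.f, Cfsg.Spor.Fi24.g, Cfsg.Spor.Fi24.h, Cfsg.Spor.Fi24.i, Cfsg.Spor.Fi24.j, Cfsg.Spor.Fi24.l} : Set (FreeGroup Cfsg.Spor.Fi24.Gen)) = {s | s ∈ [Cfsg.Spor.Fi24.a, Cfsg.Spor.Fi24.b, Cfsg.Spor.Fi24.c, Cfsg.Spor.Fi24.d, Cfsg.Spor.Fi24.e, Cfsg.Spor.Fi24.f, Cfsg.Spor.Fi24.g, Cfsg.Spor.Fi24.h, Cfsg.Spor.Fi24.i, Cfsg.Spor.Fi24.j, Cfsg.Spor.Fi24.l]} := by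
    ext s
    simp only [Set.mem_insert_iff, Set.mem_singleton_iff, Set.mem_ofPred_eq, List.mem_cons,
      List.not_mem_nil, or_false]
  rw [hS]
  exact Cfsg.Agent.Lib.Helper28.T1690X.final.1

end Cfsg.Agent.S1690
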