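import Cfsg.Statements.S1691
import Mathlib

set_option autoImplicit false
open scoped Pointwise
open Cfsg

namespace Cfsg.Agent.S1691

open Cfsg.Spor

/-- the sign homomorphism -/
noncomputable def sgn : Fi24 →* Multiplicative (ZMod 2) :=
  PresentedGroup.toGroup (f := fun _ => Multiplicative.ofAdd (1 : ZMod 2)) (by
    have hs : (Multiplicative.ofAdd (1 : ZMod 2)) * Multiplicative.ofAdd (1 : ZMod 2) = 1 := by
      decide
    intro r hr
    rcases hr with hr | hr
    · obtain ⟨x, _, y, _, rfl⟩ := hr
      simp only [map_pow, map_mul, FreeGroup.lift_apply_of, hs, one_pow]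
    · simp only [Fi24.extra, List.mem_cons, List.not_mem_nil, or_false, Set.mem_setOf_eq] at hr
      rcases hr with rfl | rfl
      · simp only [map_pow, map_mul, map_inv, FreeGroup.lift_apply_of]
        decide
      · simp only [map_pow, map_mul, FreeGroup.lift_apply_of]
        decide)

theorem sgn_of (x : Fi24.Gen) : sgn (PresentedGroup.of x) = Multiplicative.ofAdd (1 : ZMod 2) :=
  PresentedGroup.toGroup.of _

theorem cox_rel (x y : Fi24.Gen) (hx : x ∈ coxNodes Fi24.edges) (hy : y ∈ coxNodes Fi24.edges) :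
    ((PresentedGroup.of x : Fi24) * PresentedGroup.of y) ^ coxLabel Fi24.edges x y = 1 := by
  have h : (FreeGroup.of x * FreeGroup.of y) ^ coxLabel Fi24.edges x y ∈
      (coxRelators Fi24.edges ∪ {r | r ∈ Fi24.extra} : Set (FreeGroup Fi24.Gen)) :=
    Or.inl ⟨x, hx, y, hy, rfl⟩
  have h1 := PresentedGroup.one_of_mem h
  simp only [map_pow, map_mul] at h1
  exact h1

theorem comm_aux {A : Type*} [CommGroup A] (a b : A) (ha : a ^ 2 = 1) (hb : b ^ 2 = 1)
    (hab : (a * b) ^ 3 = 1) : a = b := by
  have h1 : a * b = 1 := by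
    have : (a * b) ^ 3 = (a * b) * (a ^ 2 * b ^ 2) := by
      rw [← mul_pow]; exact pow_succ' (a * b) 2
    rw [this, ha, hb, mul_one, mul_one] at hab
    exact hab
  have h2 : b * b = 1 := by rw [← sq]; exact hb
  calc a = a * (b * b) := by rw [h2, mul_one]
    _ = (a * b) * b := by rw [mul_assoc]
    _ = b := by rw [h1, one_mul]

/-- image of a generator in the abelianisation -/
noncomputable def im (x : Fi24.Gen) : Abelianization Fi24 := Abelianization.of (PresentedGroup.of x)

theorem is_node (x : Fi24.Gen) : x ∈ coxNodes Fi24.edges := by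
  cases x <;> decide

theorem im_sq (x : Fi24.Gen) : im x ^ 2 = 1 := by
  have h := cox_rel x x (is_node x) (is_node x)
  have hl : coxLabel Fi24.edges x x = 1 := by simp [coxLabel]
  rw [hl, pow_one] at h
  unfold im
  rw [sq, ← map_mul, h, map_one]

theorem im_edge (x y : Fi24.Gen) (hl : coxLabel Fi24.edges x y = 3) : im x = im y := by
  have h := cox_rel x y (is_node x) (is_node y)
  rw [hl] at h
  apply comm_aux _ _ (im_sq x) (im_sq y)
  unfold im
  rw [← map_mul, ← map_pow, h, map_one]

theorem im_all (x : Fi24.Gen) : im x = im Fi24.Gen.d := by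
  have h1 : im Fi24.Gen.l = im Fi24.Gen.k := im_edge _ _ (by decide)
  have h2 : im Fi24.Gen.k = im Fi24.Gen.a := im_edge _ _ (by decide)
  have h3 : im Fi24.Gen.a = im Fi24.Gen.b := im_edge _ _ (by decide)
  have h4 : im Fi24.Gen.b = im Fi24.Gen.c := im_edge _ _ (by decide)
  have h5 : im Fi24.Gen.c = im Fi24.Gen.d := im_edge _ _ (by decide)
  have h6 : im Fi24.Gen.d = im Fi24.Gen.e := im_edge _ _ (by decide)
  have h7 : im Fi24.Gen.d = im Fi24.Gen.h := im_edge _ _ (by decide)
  have h8 : im Fi24.Gen.e = im Fi24.Gen.f := im_edge _ _ (by decide)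
  have h9 : im Fi24.Gen.f = im Fi24.Gen.g := im_edge _ _ (by decide)
  have h10 : im Fi24.Gen.g = im Fi24.Gen.j := im_edge _ _ (by decide)
  have h11 : im Fi24.Gen.h = im Fi24.Gen.i := im_edge _ _ (by decide)
  cases x
  · rw [h1, h2, h3, h4, h5]
  · rw [h2, h3, h4, h5]
  · rw [h3, h4, h5]
  · rw [h4, h5]
  · rw [h5]
  · rfl
  · rw [← h6]
  · rw [← h8, ← h6]
  · rw [← h9, ← h8, ← h6]
  · rw [← h10, ← h9, ← h8, ← h6]
  · rw [← h7]
  · rw [← h11, ← h7]

theorem mem_zpowers (q : Abelianization Fi24) : q ∈ Subgroup.zpowers (im Fi24.Gen.d) := by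
  obtain ⟨g, rfl⟩ := QuotientGroup.mk_surjective q
  have := PresentedGroup.generated_by _
    ((Subgroup.zpowers (im Fi24.Gen.d)).comap (Abelianization.of (G := Fi24)))
    (fun z => by
      rw [Subgroup.mem_comap]
      have h := im_all z
      unfold im at h
      rw [h]
      exact Subgroup.mem_zpowers _) g
  exact this

theorem eq_one_or (q : Abelianization Fi24) : q = 1 ∨ q = im Fi24.Gen.d := by
  obtain ⟨k, rfl⟩ := Subgroup.mem_zpowers_iff.mp (mem_zpowers q)
  have h2 := im_sq Fi24.Gen.d
  rcases Int.even_or_odd' k with ⟨m, rfl | rfl⟩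
  · left
    rw [zpow_mul, zpow_ofNat, h2, one_zpow]
  · right
    rw [zpow_add, zpow_mul, zpow_ofNat, h2, one_zpow, one_mul, zpow_one]

theorem result : (commutator Cfsg.Spor.Fi24).index = 2 := by
  show Nat.card (Abelianization Fi24) = 2
  let s' : Abelianization Fi24 →* Multiplicative (ZMod 2) := Abelianization.lift sgn
  have hs' : s' (im Fi24.Gen.d) = Multiplicative.ofAdd (1 : ZMod 2) := by
    show Abelianization.lift sgn (Abelianization.of _) = _
    rw [Abelianization.lift_apply_of, sgn_of]
  have hne : (Multiplicative.ofAdd (1 : ZMod 2)) ≠ 1 := by decide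
  have hbij : Function.Bijective s' := by
    constructor
    · rw [injective_iff_map_eq_one]
      intro q hq
      rcases eq_one_or q with h | h
      · exact h
      · rw [h, hs'] at hq
        exact absurd hq hne
    · intro z
      have hz : z = 1 ∨ z = Multiplicative.ofAdd (1 : ZMod 2) := by
        revert z; decide
      rcases hz with rfl | rfl
      · exact ⟨1, map_one _⟩
      · exact ⟨_, hs'⟩
  rw [Nat.card_congr (Equiv.ofBijective s' hbij)]
  simp [Nat.card_eq_fintype_card]

end Cfsg.Agent.S1691
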