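import Cfsg.Statements.S1693
import Cfsg.Agent.Lib.Helper86.L37.ONSig

set_option autoImplicit false
open Cfsg

namespace Cfsg.Agent.S1693

/-- In the presented O'Nan group, the subgroup H generated by the images of a, …, f has a normal subgroup of index 2 isomorphic to PSL(3, 7). -/
theorem result : ∃ N : Subgroup (((Subgroup.closure ({Cfsg.Spor.ON.a, Cfsg.Spor.ON.b, Cfsg.Spor.ON.c, Cfsg.Spor.ON.d, Cfsg.Spor.ON.e, Cfsg.Spor.ON.f} : Set (FreeGroup Cfsg.Spor.ON.Gen))).map (PresentedGroup.mk (Cfsg.Spor.coxRelators Cfsg.Spor.ON.edges ∪ {r | r ∈ Cfsg.Spor.ON.extra})))), N.Normal ∧ N.index = 2 ∧ Nonempty (N ≃* Matrix.ProjectiveSpecialLinearGroup (Fin 3) (ZMod 7)) := by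
  exact Cfsg.Agent.Lib.Helper86.ONL37.main'

end Cfsg.Agent.S1693
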