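import Cfsg.Statements.S1717

set_option autoImplicit false
open Cfsg

namespace Cfsg.Agent.S1717

/-! ### Matrix part -/

abbrev SL5 := Matrix.SpecialLinearGroup (Fin 5) (ZMod 2)

def tv (i j : Fin 5) (h : i ≠ j) : SL5 :=
  ⟨Matrix.transvection i j 1, Matrix.det_transvection_of_ne i j h 1⟩

theorem comm_transvection {n : Type*} [DecidableEq n] [Fintype n] {R : Type*} [CommRing R]
    (g : Matrix n n R) (i j : n)
    (h : g * Matrix.transvection i j 1 = Matrix.transvection i j 1 * g) :
    (∀ k, k ≠ i → g k i = 0) ∧ (∀ l, l ≠ j → g j l = 0) ∧ g i i = g j j := by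
  have h' : g * Matrix.single i j (1 : R) = Matrix.single i j 1 * g := by
    simpa [Matrix.transvection, mul_add, add_mul] using h
  refine ⟨?_, ?_, ?_⟩
  · intro k hk
    have := congrFun (congrFun h' k) j
    rw [Matrix.mul_single_apply_same, Matrix.single_mul_apply_of_ne _ _ _ _ _ hk] at this
    simpa using this
  · intro l hl
    have := congrFun (congrFun h' i) l
    rw [Matrix.mul_single_apply_of_ne _ _ _ _ _ hl, Matrix.single_mul_apply_same] at this
    simpa using this.symm
  · have := congrFun (congrFun h' i) j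
    rw [Matrix.mul_single_apply_same, Matrix.single_mul_apply_same] at this
    simpa using this

theorem centralizer_lemma (g : Matrix (Fin 5) (Fin 5) (ZMod 2)) (hdet : g.det = 1)
    (h02 : g * Matrix.transvection 0 2 1 = Matrix.transvection 0 2 1 * g)
    (h03 : g * Matrix.transvection 0 3 1 = Matrix.transvection 0 3 1 * g)
    (h04 : g * Matrix.transvection 0 4 1 = Matrix.transvection 0 4 1 * g)
    (h21 : g * Matrix.transvection 2 1 1 = Matrix.transvection 2 1 1 * g)
    (h31 : g * Matrix.transvection 3 1 1 = Matrix.transvection 3 1 1 * g)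
    (h41 : g * Matrix.transvection 4 1 1 = Matrix.transvection 4 1 1 * g) :
    g = 1 ∨ g = Matrix.transvection 0 1 1 := by
  obtain ⟨a1, a2, a3⟩ := comm_transvection g 0 2 h02
  obtain ⟨b1, b2, b3⟩ := comm_transvection g 0 3 h03
  obtain ⟨c1, c2, c3⟩ := comm_transvection g 0 4 h04
  obtain ⟨d1, d2, d3⟩ := comm_transvection g 2 1 h21
  obtain ⟨e1, e2, e3⟩ := comm_transvection g 3 1 h31
  obtain ⟨f1, f2, f3⟩ := comm_transvection g 4 1 h41
  have g10 := a1 1 (by decide)
  have g20 := a1 2 (by decide)
  have g30 := a1 3 (by decide)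
  have g40 := a1 4 (by decide)
  have g21 := a2 1 (by decide)
  have g23 := a2 3 (by decide)
  have g24 := a2 4 (by decide)
  have g31 := b2 1 (by decide)
  have g32 := b2 2 (by decide)
  have g34 := b2 4 (by decide)
  have g41 := c2 1 (by decide)
  have g42 := c2 2 (by decide)
  have g43 := c2 3 (by decide)
  have g02 := d1 0 (by decide)
  have g12 := d1 1 (by decide)
  have g13 := d2 3 (by decide)
  have g14 := d2 4 (by decide)
  have g03 := e1 0 (by decide)
  have g04 := f1 0 (by decide)
  have hcase : ∀ x : ZMod 2, x = 0 ∨ x = 1 := by decide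
  have h11 : g 1 1 = 1 := by
    rcases hcase (g 1 1) with h | h
    · exfalso
      have : g.det = 0 := by
        apply Matrix.det_eq_zero_of_row_eq_zero 1
        intro j
        fin_cases j
        · exact g10
        · exact h
        · exact g12
        · exact g13
        · exact g14
      rw [this] at hdet
      exact zero_ne_one hdet
    · exact h
  have h22 : g 2 2 = 1 := by rw [d3, h11]
  have h00 : g 0 0 = 1 := by rw [a3, h22]
  have h33 : g 3 3 = 1 := by rw [← b3, h00]
  have h44 : g 4 4 = 1 := by rw [← c3, h00]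
  have hg : g = !![1, g 0 1, 0, 0, 0; 0, 1, 0, 0, 0; 0, 0, 1, 0, 0; 0, 0, 0, 1, 0; 0, 0, 0, 0, 1] := by
    ext i j
    fin_cases i <;> fin_cases j <;>
      simp [h00, h11, h22, h33, h44, g10, g20, g30, g40, g21, g23, g24, g31, g32, g34, g41, g42, g43,
        g02, g12, g13, g14, g03, g04]
  rcases hcase (g 0 1) with h | h
  · left
    rw [hg, h]
    decide
  · right
    rw [hg, h]
    decide

theorem tv_comm (i j k l : Fin 5) (hij : i ≠ j) (hkl : k ≠ l) (hjk : j ≠ k) (hli : l ≠ i) :
    tv i j hij * tv k l hkl = tv k l hkl * tv i j hij := by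
  apply Subtype.ext
  show Matrix.transvection i j (1 : ZMod 2) * Matrix.transvection k l 1
    = Matrix.transvection k l 1 * Matrix.transvection i j 1
  simp only [Matrix.transvection, mul_add, add_mul, mul_one, one_mul,
    Matrix.single_mul_single_of_ne _ _ _ _ hjk, Matrix.single_mul_single_of_ne _ _ _ _ hli]
  abel

theorem tv_sq (i j : Fin 5) (hij : i ≠ j) : tv i j hij * tv i j hij = 1 := by
  apply Subtype.ext
  show Matrix.transvection i j (1 : ZMod 2) * Matrix.transvection i j 1 = 1
  rw [Matrix.transvection_mul_transvection_same i j hij]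
  have : (1 : ZMod 2) + 1 = 0 := by decide
  rw [this, Matrix.transvection_zero]

theorem tv_inv (i j : Fin 5) (hij : i ≠ j) : (tv i j hij)⁻¹ = tv i j hij :=
  inv_eq_of_mul_eq_one_left (tv_sq i j hij)

set_option maxRecDepth 100000 in
theorem tv_conj (i : Fin 5) (hi0 : i ≠ 0) (hi1 : i ≠ 1) :
    tv i 1 hi1 * tv 0 i hi0.symm * tv i 1 hi1 = tv 0 i hi0.symm * tv 0 1 (by decide) := by
  fin_cases i
  · exact absurd rfl hi0
  · exact absurd rfl hi1
  · apply Subtype.ext
    show (Matrix.transvection 2 1 (1 : ZMod 2) * Matrix.transvection 0 2 1 * Matrix.transvection 2 1 1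
      : Matrix (Fin 5) (Fin 5) (ZMod 2)) = Matrix.transvection 0 2 1 * Matrix.transvection 0 1 1
    decide
  · apply Subtype.ext
    show (Matrix.transvection 3 1 (1 : ZMod 2) * Matrix.transvection 0 3 1 * Matrix.transvection 3 1 1
      : Matrix (Fin 5) (Fin 5) (ZMod 2)) = Matrix.transvection 0 3 1 * Matrix.transvection 0 1 1
    decide
  · apply Subtype.ext
    show (Matrix.transvection 4 1 (1 : ZMod 2) * Matrix.transvection 0 4 1 * Matrix.transvection 4 1 1
      : Matrix (Fin 5) (Fin 5) (ZMod 2)) = Matrix.transvection 0 4 1 * Matrix.transvection 0 1 1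
    decide

/-- the "row" generators -/
def SA : Set SL5 := {x | ∃ (j : Fin 5) (h : (0 : Fin 5) ≠ j), x = tv 0 j h}

/-- the "column" generators -/
def SB : Set SL5 := {x | ∃ (i : Fin 5) (h : i ≠ 1), i ≠ 0 ∧ x = tv i 1 h}

/-! ### Group-theoretic helpers -/

theorem isPGroup_two_closure {G : Type*} [Group G] (S : Set G)
    (hcomm : ∀ x ∈ S, ∀ y ∈ S, x * y = y * x) (hsq : ∀ x ∈ S, x * x = 1) :
    IsPGroup 2 (Subgroup.closure S) := by
  have hc : IsMulCommutative (Subgroup.closure S) := Subgroup.isMulCommutative_closure hcomm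
  have key : ∀ x (_ : x ∈ Subgroup.closure S), x * x = 1 := by
    intro x hx
    induction hx using Subgroup.closure_induction with
    | mem x hx => exact hsq x hx
    | one => simp
    | mul x y hx hy ihx ihy =>
      have hxy : x * y = y * x :=
        congrArg Subtype.val (mul_comm' (⟨x, hx⟩ : Subgroup.closure S) ⟨y, hy⟩)
      calc x * y * (x * y) = x * (y * x) * y := by group
        _ = x * (x * y) * y := by rw [hxy]
        _ = (x * x) * (y * y) := by group
        _ = 1 := by rw [ihx, ihy, one_mul]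
    | inv x hx ih =>
      rw [← mul_inv_rev, ih, inv_one]
  intro g
  refine ⟨1, ?_⟩
  apply Subtype.ext
  simpa [pow_two] using key g.1 g.2

theorem mem_normalizer_closure {G : Type*} [Group G] (S : Set G) (b : G)
    (h1 : ∀ x ∈ S, b * x * b⁻¹ ∈ Subgroup.closure S)
    (h2 : ∀ x ∈ S, b⁻¹ * x * b ∈ Subgroup.closure S) :
    b ∈ Subgroup.normalizer (Subgroup.closure S : Set G) := by
  have k1 : ∀ x ∈ Subgroup.closure S, b * x * b⁻¹ ∈ Subgroup.closure S := by
    intro x hx
    induction hx using Subgroup.closure_induction with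
    | mem x hx => exact h1 x hx
    | one => simp
    | mul x y hx hy ihx ihy =>
      have : b * (x * y) * b⁻¹ = (b * x * b⁻¹) * (b * y * b⁻¹) := by group
      rw [this]; exact mul_mem ihx ihy
    | inv x hx ih =>
      have : b * x⁻¹ * b⁻¹ = (b * x * b⁻¹)⁻¹ := by group
      rw [this]; exact inv_mem ih
  have k2 : ∀ x ∈ Subgroup.closure S, b⁻¹ * x * b ∈ Subgroup.closure S := by
    intro x hx
    induction hx using Subgroup.closure_induction with
    | mem x hx => exact h2 x hx
    | one => simp
    | mul x y hx hy ihx ihy =>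
      have : b⁻¹ * (x * y) * b = (b⁻¹ * x * b) * (b⁻¹ * y * b) := by group
      rw [this]; exact mul_mem ihx ihy
    | inv x hx ih =>
      have : b⁻¹ * x⁻¹ * b = (b⁻¹ * x * b)⁻¹ := by group
      rw [this]; exact inv_mem ih
  rw [Subgroup.mem_normalizer_iff]
  intro x
  constructor
  · exact k1 x
  · intro hx
    have := k2 _ hx
    have e : b⁻¹ * (b * x * b⁻¹) * b = x := by group
    rwa [e] at this

/-- the 2-subgroup generated by the row and column transvections -/
def U : Subgroup SL5 := Subgroup.closure SA ⊔ Subgroup.closure SB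

theorem U_isPGroup : IsPGroup 2 U := by
  have hA : IsPGroup 2 (Subgroup.closure SA) := by
    apply isPGroup_two_closure
    · rintro x ⟨j, hj, rfl⟩ y ⟨k, hk, rfl⟩
      exact tv_comm 0 j 0 k hj hk hj.symm hk.symm
    · rintro x ⟨j, hj, rfl⟩
      exact tv_sq 0 j hj
  have hB : IsPGroup 2 (Subgroup.closure SB) := by
    apply isPGroup_two_closure
    · rintro x ⟨i, hi, hi0, rfl⟩ y ⟨k, hk, hk0, rfl⟩
      exact tv_comm i 1 k 1 hi hk hk.symm hi.symm
    · rintro x ⟨i, hi, hi0, rfl⟩
      exact tv_sq i 1 hi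
  refine IsPGroup.to_sup_of_normal_left' hA hB ?_
  rw [Subgroup.closure_le]
  rintro b ⟨i, hi, hi0, rfl⟩
  have key : ∀ x ∈ SA, tv i 1 hi * x * tv i 1 hi ∈ Subgroup.closure SA := by
    rintro x ⟨j, hj, rfl⟩
    by_cases hij : j = i
    · subst hij
      rw [tv_conj j hi0 hi]
      exact mul_mem (Subgroup.subset_closure ⟨j, hj, rfl⟩)
        (Subgroup.subset_closure ⟨1, by decide, rfl⟩)
    · rw [tv_comm i 1 0 j hi hj (by decide) hij, mul_assoc, tv_sq, mul_one]
      exact Subgroup.subset_closure ⟨j, hj, rfl⟩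
  apply mem_normalizer_closure
  · intro x hx
    rw [tv_inv]
    exact key x hx
  · intro x hx
    rw [tv_inv]
    exact key x hx

theorem U_le_centralizer (s : SL5) (hs : (s : Matrix (Fin 5) (Fin 5) (ZMod 2)) = Matrix.transvection 0 1 1) :
    U ≤ Subgroup.centralizer ({s} : Set SL5) := by
  have hs' : s = tv 0 1 (by decide) := Subtype.ext hs
  subst hs'
  refine sup_le ?_ ?_
  · rw [Subgroup.closure_le]
    rintro x ⟨j, hj, rfl⟩
    rw [SetLike.mem_coe, Subgroup.mem_centralizer_iff]
    intro h hh
    rw [Set.mem_singleton_iff] at hh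
    subst hh
    exact tv_comm 0 1 0 j (by decide) hj (by decide) hj.symm
  · rw [Subgroup.closure_le]
    rintro x ⟨i, hi, hi0, rfl⟩
    rw [SetLike.mem_coe, Subgroup.mem_centralizer_iff]
    intro h hh
    rw [Set.mem_singleton_iff] at hh
    subst hh
    exact tv_comm 0 1 i 1 (by decide) hi hi.symm (by decide)

theorem centralizer_U (s : SL5) (hs : (s : Matrix (Fin 5) (Fin 5) (ZMod 2)) = Matrix.transvection 0 1 1)
    (g : SL5) (hg : ∀ u ∈ U, g * u = u * g) : g = 1 ∨ g = s := by
  have hA : ∀ (j : Fin 5) (hj : (0 : Fin 5) ≠ j), tv 0 j hj ∈ U := fun j hj =>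
    (le_sup_left : Subgroup.closure SA ≤ U) (Subgroup.subset_closure ⟨j, hj, rfl⟩)
  have hB : ∀ (i : Fin 5) (hi : i ≠ 1) (_ : i ≠ 0), tv i 1 hi ∈ U := fun i hi hi0 =>
    (le_sup_right : Subgroup.closure SB ≤ U) (Subgroup.subset_closure ⟨i, hi, hi0, rfl⟩)
  have m : ∀ (i j : Fin 5) (hij : i ≠ j), tv i j hij ∈ U →
      (g : Matrix (Fin 5) (Fin 5) (ZMod 2)) * Matrix.transvection i j 1
        = Matrix.transvection i j 1 * (g : Matrix (Fin 5) (Fin 5) (ZMod 2)) := by
    intro i j hij hmem
    exact congrArg Subtype.val (hg _ hmem)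
  have := centralizer_lemma (g : Matrix (Fin 5) (Fin 5) (ZMod 2)) g.2
    (m 0 2 (by decide) (hA 2 (by decide))) (m 0 3 (by decide) (hA 3 (by decide)))
    (m 0 4 (by decide) (hA 4 (by decide))) (m 2 1 (by decide) (hB 2 (by decide) (by decide)))
    (m 3 1 (by decide) (hB 3 (by decide) (by decide))) (m 4 1 (by decide) (hB 4 (by decide) (by decide)))
  rcases this with h | h
  · left; exact Subtype.ext h
  · right; exact Subtype.ext (h.trans hs.symm)

/-! ### Sylow argument -/

theorem sylow_of_center {G : Type*} [Group G] [Finite G] (z : G) (hz : orderOf z = 2)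
    (T : Sylow 2 (Subgroup.centralizer ({z} : Set G)))
    (hcenter : ∀ x : Subgroup.centralizer ({z} : Set G), x ∈ (T : Subgroup _) →
      (∀ t ∈ (T : Subgroup (Subgroup.centralizer ({z} : Set G))), t * x = x * t) →
        x = 1 ∨ (x : G) = z) :
    ¬ 2 ∣ ((T : Subgroup (Subgroup.centralizer ({z} : Set G))).map
      (Subgroup.subtype (Subgroup.centralizer ({z} : Set G)))).index := by
  classical
  have hp2 : Fact (Nat.Prime 2) := ⟨Nat.prime_two⟩
  have hzC : z ∈ Subgroup.centralizer ({z} : Set G) := by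
    rw [Subgroup.mem_centralizer_iff]
    intro h hh
    rw [Set.mem_singleton_iff] at hh
    rw [hh]
  have hz1 : z ≠ 1 := by
    rintro rfl
    simp at hz
  -- z lies in T
  have hzT : (⟨z, hzC⟩ : Subgroup.centralizer ({z} : Set G)) ∈
      (T : Subgroup (Subgroup.centralizer ({z} : Set G))) := by
    have hdvd : 2 ∣ Nat.card (Subgroup.centralizer ({z} : Set G)) := by
      have h := orderOf_dvd_natCard (⟨z, hzC⟩ : Subgroup.centralizer ({z} : Set G))
      rwa [← Subgroup.orderOf_coe, hz] at h
    have hTne := T.ne_bot_of_dvd_card hdvd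
    have hnt : Nontrivial (T : Subgroup (Subgroup.centralizer ({z} : Set G))) :=
      (Subgroup.nontrivial_iff_ne_bot _).mpr hTne
    have hcn := T.isPGroup'.center_nontrivial
    obtain ⟨w, hw⟩ := exists_ne (1 : Subgroup.center (T : Subgroup (Subgroup.centralizer ({z} : Set G))))
    have h1 := hcenter w.1.1 w.1.2 (fun t ht => by
      have := Subgroup.mem_center_iff.mp w.2 ⟨t, ht⟩
      exact congrArg Subtype.val this)
    rcases h1 with h1 | h1
    · exfalso
      apply hw
      apply Subtype.ext
      apply Subtype.ext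
      exact h1
    · have : (⟨z, hzC⟩ : Subgroup.centralizer ({z} : Set G)) = w.1.1 := Subtype.ext h1.symm
      rw [this]
      exact w.1.2
  have hTG2 : IsPGroup 2 ((T : Subgroup (Subgroup.centralizer ({z} : Set G))).map
      (Subgroup.subtype (Subgroup.centralizer ({z} : Set G)))) := T.isPGroup'.map _
  obtain ⟨P, hP⟩ := hTG2.exists_le_sylow
  by_cases hEq : (T : Subgroup (Subgroup.centralizer ({z} : Set G))).map
      (Subgroup.subtype (Subgroup.centralizer ({z} : Set G))) = P
  · rw [hEq]
    exact P.not_dvd_index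
  · exfalso
    have hnil : Group.IsNilpotent (P : Subgroup G) := P.isPGroup'.isNilpotent
    have hnc := Group.normalizerCondition_of_isNilpotent (G := (P : Subgroup G))
    have hH : ((T : Subgroup (Subgroup.centralizer ({z} : Set G))).map
        (Subgroup.subtype (Subgroup.centralizer ({z} : Set G)))).subgroupOf (P : Subgroup G) < ⊤ := by
      rw [lt_top_iff_ne_top]
      intro h
      rw [Subgroup.subgroupOf_eq_top] at h
      exact hEq (le_antisymm hP h)
    have hH2 := hnc _ hH
    obtain ⟨x, hxN, hxH⟩ := SetLike.exists_of_lt hH2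
    rw [Subgroup.mem_normalizer_iff] at hxN
    -- x z x⁻¹ lies in the image of T
    have hzTG : z ∈ (T : Subgroup (Subgroup.centralizer ({z} : Set G))).map
        (Subgroup.subtype (Subgroup.centralizer ({z} : Set G))) := ⟨⟨z, hzC⟩, hzT, rfl⟩
    have hconj : ∀ t ∈ (T : Subgroup (Subgroup.centralizer ({z} : Set G))).map
        (Subgroup.subtype (Subgroup.centralizer ({z} : Set G))),
        (x : G) * t * (x : G)⁻¹ ∈ (T : Subgroup (Subgroup.centralizer ({z} : Set G))).map
        (Subgroup.subtype (Subgroup.centralizer ({z} : Set G))) := by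
      intro t ht
      have := (hxN ⟨t, hP ht⟩).mp (by simpa [Subgroup.mem_subgroupOf] using ht)
      simpa [Subgroup.mem_subgroupOf] using this
    have hconj' : ∀ t ∈ (T : Subgroup (Subgroup.centralizer ({z} : Set G))).map
        (Subgroup.subtype (Subgroup.centralizer ({z} : Set G))),
        (x : G)⁻¹ * t * (x : G) ∈ (T : Subgroup (Subgroup.centralizer ({z} : Set G))).map
        (Subgroup.subtype (Subgroup.centralizer ({z} : Set G))) := by
      intro t ht
      have hmem : (x : G)⁻¹ * t * (x : G) ∈ (P : Subgroup G) :=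
        mul_mem (mul_mem (inv_mem x.2) (hP ht)) x.2
      have := (hxN ⟨(x : G)⁻¹ * t * (x : G), hmem⟩).mpr (by
        rw [Subgroup.mem_subgroupOf]
        have e : ((x * ⟨(x : G)⁻¹ * t * (x : G), hmem⟩ * x⁻¹ : (P : Subgroup G)) : G) = t := by
          simp [mul_assoc]
        rw [e]
        exact ht)
      simpa [Subgroup.mem_subgroupOf] using this
    obtain ⟨y, hyT, hy⟩ := hconj z hzTG
    have hycomm : ∀ t ∈ (T : Subgroup (Subgroup.centralizer ({z} : Set G))), t * y = y * t := by
      intro t ht
      apply Subtype.ext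
      have ht' : (t : G) ∈ (T : Subgroup (Subgroup.centralizer ({z} : Set G))).map
          (Subgroup.subtype (Subgroup.centralizer ({z} : Set G))) := ⟨t, ht, rfl⟩
      obtain ⟨t2, ht2T, ht2⟩ := hconj' t ht'
      have hcomm : (t2 : G) * z = z * (t2 : G) := by
        have := Subgroup.mem_centralizer_iff.mp t2.2 z rfl
        exact this.symm
      have hy' : (y : G) = (x : G) * z * (x : G)⁻¹ := hy
      have ht2' : (t2 : G) = (x : G)⁻¹ * (t : G) * (x : G) := ht2
      show (t : G) * (y : G) = (y : G) * (t : G)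
      have e1 : (t : G) = (x : G) * (t2 : G) * (x : G)⁻¹ := by rw [ht2']; group
      rw [hy', e1]
      calc (x : G) * (t2 : G) * (x : G)⁻¹ * ((x : G) * z * (x : G)⁻¹)
          = (x : G) * ((t2 : G) * z) * (x : G)⁻¹ := by group
        _ = (x : G) * (z * (t2 : G)) * (x : G)⁻¹ := by rw [hcomm]
        _ = (x : G) * z * (x : G)⁻¹ * ((x : G) * (t2 : G) * (x : G)⁻¹) := by group
    have hxz : (x : G) * z * (x : G)⁻¹ = z := by
      rcases hcenter y hyT hycomm with h | h
      · exfalso
        have hy' : (y : G) = (x : G) * z * (x : G)⁻¹ := hy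
        rw [h] at hy'
        apply hz1
        have := congrArg (fun w => (x : G)⁻¹ * w * (x : G)) hy'
        simpa [mul_assoc] using this.symm
      · have hy' : (y : G) = (x : G) * z * (x : G)⁻¹ := hy
        rw [← hy', h]
    have hxC : (x : G) ∈ Subgroup.centralizer ({z} : Set G) := by
      rw [Subgroup.mem_centralizer_iff]
      intro h hh
      rw [Set.mem_singleton_iff] at hh
      subst hh
      have := congrArg (· * (x : G)) hxz
      simpa using this.symm
    -- P ⊓ C as a 2-subgroup of C containing T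
    have hN2 : IsPGroup 2 (((P : Subgroup G) ⊓ Subgroup.centralizer ({z} : Set G)).subgroupOf
        (Subgroup.centralizer ({z} : Set G))) :=
      (P.isPGroup'.to_le inf_le_left).comap_subtype
    have hle : (T : Subgroup (Subgroup.centralizer ({z} : Set G))) ≤
        ((P : Subgroup G) ⊓ Subgroup.centralizer ({z} : Set G)).subgroupOf
        (Subgroup.centralizer ({z} : Set G)) := by
      intro t ht
      rw [Subgroup.mem_subgroupOf]
      exact ⟨hP ⟨t, ht, rfl⟩, t.2⟩
    have hmax := T.is_maximal' hN2 hle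
    have hxT : (⟨(x : G), hxC⟩ : Subgroup.centralizer ({z} : Set G)) ∈
        (T : Subgroup (Subgroup.centralizer ({z} : Set G))) := by
      rw [← hmax, Subgroup.mem_subgroupOf]
      exact ⟨x.2, hxC⟩
    apply hxH
    rw [Subgroup.mem_subgroupOf]
    exact ⟨⟨(x : G), hxC⟩, hxT, rfl⟩

/-- Let G be a finite group with an involution z whose centraliser C is isomorphic to the centraliser of a transvection of SL(5, 2). Then a Sylow 2-subgroup of C, viewed in G, is a Sylow 2-subgroup of G (its index in G is odd). -/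
theorem result {G : Type*} [Group G] [Finite G] (s : Matrix.SpecialLinearGroup (Fin 5) (ZMod 2)) (hs : (s : Matrix (Fin 5) (Fin 5) (ZMod 2)) = Matrix.transvection 0 1 1) (z : G) (hz : orderOf z = 2) (e : (Subgroup.centralizer ({z} : Set G)) ≃* Subgroup.centralizer ({s} : Set (Matrix.SpecialLinearGroup (Fin 5) (ZMod 2)))) (T : Sylow 2 (Subgroup.centralizer ({z} : Set G))) : ¬ 2 ∣ ((T : Subgroup (Subgroup.centralizer ({z} : Set G))).map (Subgroup.subtype (Subgroup.centralizer ({z} : Set G)))).index := by
  classical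
  have hp2 : Fact (Nat.Prime 2) := ⟨Nat.prime_two⟩
  apply sylow_of_center z hz T
  have hzC : z ∈ Subgroup.centralizer ({z} : Set G) := by
    rw [Subgroup.mem_centralizer_iff]
    intro h hh
    rw [Set.mem_singleton_iff] at hh
    rw [hh]
  have hz1 : z ≠ 1 := by
    rintro rfl
    simp at hz
  have hUS2 : IsPGroup 2 (U.subgroupOf (Subgroup.centralizer ({s} : Set SL5))) :=
    U_isPGroup.comap_subtype
  have hUC2 : IsPGroup 2 ((U.subgroupOf (Subgroup.centralizer ({s} : Set SL5))).comap
      e.toMonoidHom) :=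
    hUS2.comap_of_injective e.toMonoidHom e.injective
  obtain ⟨T0, hT0⟩ := hUC2.exists_le_sylow
  obtain ⟨c, hc⟩ := MulAction.exists_smul_eq (Subgroup.centralizer ({z} : Set G)) T0 T
  have key : ∀ y : Subgroup.centralizer ({z} : Set G),
      (∀ u ∈ (U.subgroupOf (Subgroup.centralizer ({s} : Set SL5))).comap e.toMonoidHom,
        u * y = y * u) →
      ((e y : Subgroup.centralizer ({s} : Set SL5)) : SL5) = 1 ∨
        ((e y : Subgroup.centralizer ({s} : Set SL5)) : SL5) = s := by
    intro y hy
    apply centralizer_U s hs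
    intro u hu
    have huC : u ∈ Subgroup.centralizer ({s} : Set SL5) := U_le_centralizer s hs hu
    have h1 := hy (e.symm ⟨u, huC⟩) (by
      rw [Subgroup.mem_comap]
      show e (e.symm ⟨u, huC⟩) ∈ _
      rw [MulEquiv.apply_symm_apply, Subgroup.mem_subgroupOf]
      exact hu)
    have h2 := congrArg e h1
    rw [map_mul, map_mul, MulEquiv.apply_symm_apply] at h2
    have h3 := congrArg Subtype.val h2
    exact h3.symm
  have hez : ((e ⟨z, hzC⟩ : Subgroup.centralizer ({s} : Set SL5)) : SL5) = s := by
    rcases key ⟨z, hzC⟩ (fun u _ => by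
        apply Subtype.ext
        have := Subgroup.mem_centralizer_iff.mp u.2 z rfl
        exact this.symm) with h | h
    · exfalso
      have h' : e ⟨z, hzC⟩ = 1 := Subtype.ext h
      have h'' : (⟨z, hzC⟩ : Subgroup.centralizer ({z} : Set G)) = 1 :=
        e.injective (h'.trans (map_one e).symm)
      exact hz1 (congrArg Subtype.val h'')
    · exact h
  intro x hxT hxcomm
  have hy : ∀ u ∈ (U.subgroupOf (Subgroup.centralizer ({s} : Set SL5))).comap e.toMonoidHom,
      u * (c⁻¹ * x * c) = (c⁻¹ * x * c) * u := by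
    intro u hu
    have huT0 : u ∈ (T0 : Subgroup (Subgroup.centralizer ({z} : Set G))) := hT0 hu
    have hcu : c * u * c⁻¹ ∈ (T : Subgroup (Subgroup.centralizer ({z} : Set G))) := by
      rw [← hc, Sylow.coe_subgroup_smul]
      exact Subgroup.smul_mem_pointwise_smul u (MulAut.conj c) _ huT0
    have h1 := hxcomm _ hcu
    calc u * (c⁻¹ * x * c) = c⁻¹ * ((c * u * c⁻¹) * x) * c := by group
      _ = c⁻¹ * (x * (c * u * c⁻¹)) * c := by rw [h1]
      _ = (c⁻¹ * x * c) * u := by group
  rcases key _ hy with h | h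
  · left
    have h' : e (c⁻¹ * x * c) = 1 := Subtype.ext h
    have h'' : c⁻¹ * x * c = 1 := e.injective (h'.trans (map_one e).symm)
    have := congrArg (fun w => c * w * c⁻¹) h''
    simpa [mul_assoc] using this
  · right
    have h' : e (c⁻¹ * x * c) = e ⟨z, hzC⟩ := Subtype.ext (h.trans hez.symm)
    have h'' : c⁻¹ * x * c = ⟨z, hzC⟩ := e.injective h'
    have hx : x = c * ⟨z, hzC⟩ * c⁻¹ := by rw [← h'']; group
    rw [hx]
    have hcz := Subgroup.mem_centralizer_iff.mp c.2 z rfl
    show (c : G) * z * (c : G)⁻¹ = z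
    rw [← hcz]; group

end Cfsg.Agent.S1717
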