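import Cfsg.Statements.S1753

set_option autoImplicit false
universe u
open Cfsg

namespace Cfsg.Agent.S1753

theorem section_card_lt {G : Type u} [Group G] [Finite G] (H : Subgroup G) (hH : H ≠ ⊤)
    (H' : Subgroup H) (N : Subgroup H') [N.Normal] : Nat.card (H' ⧸ N) < Nat.card G := by
  have h1 : Nat.card (H' ⧸ N) ≤ Nat.card H' :=
    Nat.card_le_card_of_surjective (QuotientGroup.mk' N) (QuotientGroup.mk'_surjective N)
  have h2 : Nat.card H' ≤ Nat.card H := Subgroup.card_le_card_group H'
  have h3 : Nat.card H < Nat.card G := by
    have h4 : Nat.card H ≤ Nat.card G := Subgroup.card_le_card_group H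
    rcases lt_or_eq_of_le h4 with h | h
    · exact h
    · exact absurd (Subgroup.eq_top_of_card_eq H h) hH
  omega

/-- Let K be any property of groups. (1) If G is a minimal counterexample relative to K — a finite non-abelian simple group not satisfying K such that every finite non-abelian simple group of smaller order satisfies K — then every proper subgroup of G is a K-group (all its non-abelian simple sections satisfy K), since such sections have smaller order than G. (2) Consequently (induction on the order), if every finite non-abelian simple group all of whose proper subgroups are K-groups satisfies K, then every finite non-abelian simple group satisfies K. -/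
theorem result (K : ∀ (X : Type u) [Group X], Prop) :
    (∀ (G : Type u) [Group G], Cfsg.IsMinCounterexampleWith K G → Cfsg.IsKProperWith K G) ∧
      ((∀ (X : Type u) [Group X] [Finite X], IsSimpleGroup X → ¬ IsMulCommutative X → Cfsg.IsKProperWith K X → K X) →
        ∀ (G : Type u) [Group G] [Finite G], IsSimpleGroup G → ¬ IsMulCommutative G → K G) := by
  refine ⟨?_, ?_⟩
  · intro G _ hG
    obtain ⟨hfin, _, _, _, hmin⟩ := hG
    intro H hH H' N _ hs hna
    haveI : Finite G := hfin
    exact hmin (H' ⧸ N) hs hna (section_card_lt H hH H' N)
  · intro hstep
    have key : ∀ n : ℕ, ∀ (G : Type u) [Group G] [Finite G], Nat.card G = n →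
        IsSimpleGroup G → ¬ IsMulCommutative G → K G := by
      intro n
      induction n using Nat.strong_induction_on with
      | _ n ih =>
        intro G _ _ hn hs hna
        apply hstep G hs hna
        intro H hH H' N _ hs' hna'
        exact ih (Nat.card (H' ⧸ N)) (hn ▸ section_card_lt H hH H' N) (H' ⧸ N) rfl hs' hna'
    intro G _ _ hs hna
    exact key (Nat.card G) G rfl hs hna

end Cfsg.Agent.S1753
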