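import Cfsg.Statements.S1754

set_option autoImplicit false
open Cfsg

namespace Cfsg.Agent.S1754

theorem isQuasisimple_of_mulEquiv {H H' : Type*} [Group H] [Group H'] (e : H ≃* H')
    (h : Cfsg.IsQuasisimple H) : Cfsg.IsQuasisimple H' := by
  obtain ⟨hp, hs⟩ := h
  refine ⟨Group.IsPerfect.ofSurjective (f := e.toMonoidHom) e.surjective, ?_⟩
  have hc : (Subgroup.center H).map e.toMonoidHom = Subgroup.center H' := by
    ext x
    rw [Subgroup.mem_map]
    constructor
    · rintro ⟨y, hy, rfl⟩
      rw [Subgroup.mem_center_iff] at hy ⊢
      intro g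
      obtain ⟨g', rfl⟩ := e.surjective g
      have := congrArg e (hy g')
      simpa using this
    · intro hx
      refine ⟨e.symm x, ?_, by simp⟩
      rw [Subgroup.mem_center_iff] at hx ⊢
      intro g
      apply e.injective
      simp [hx (e g)]
  exact (QuotientGroup.congr _ _ e hc).symm.isSimpleGroup

/-- Let A be a standard subgroup of the finite group G (A quasisimple, C_G(A) tightly embedded of even order, A commuting elementwise with no other conjugate of itself, and N_G(A) = N_G(C_G(A))), and let t be an involution of G centralizing A. Then the centralizer of t lies in the normalizer of A; in particular A, viewed inside C_G(t), is a component of C_G(t). -/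
theorem result {G : Type*} [Group G] [Finite G]
    (A : Subgroup G) (hA : Cfsg.IsStandardSubgroup A) (t : G) (ht : orderOf t = 2) (htA : t ∈ Subgroup.centralizer (A : Set G)) :
    Subgroup.centralizer ({t} : Set G) ≤ Subgroup.normalizer (A : Set G) ∧
      Cfsg.IsComponent (A.subgroupOf (Subgroup.centralizer ({t} : Set G))) := by
  obtain ⟨hq, ⟨heven, hte⟩, hconj, hnorm⟩ := hA
  have h1 : Subgroup.centralizer ({t} : Set G) ≤ Subgroup.normalizer (A : Set G) := by
    intro g hg
    rw [hnorm]
    by_contra hgn
    have hodd := hte g hgn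
    have htmem : t ∈ (Subgroup.centralizer (A : Set G)) ⊓
        (Subgroup.centralizer (A : Set G)).map (MulAut.conj g).toMonoidHom := by
      refine ⟨htA, t, htA, ?_⟩
      have h2 : t * g = g * t := Subgroup.mem_centralizer_iff.mp hg t rfl
      simp [MulAut.conj_apply, ← h2]
    have hdvd : 2 ∣ Nat.card ↥((Subgroup.centralizer (A : Set G)) ⊓
        (Subgroup.centralizer (A : Set G)).map (MulAut.conj g).toMonoidHom) := by
      have := Subgroup.orderOf_dvd_natCard _ htmem
      rwa [ht] at this
    exact (Nat.not_even_iff_odd.mpr hodd) (even_iff_two_dvd.mpr hdvd)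
  have hle : A ≤ Subgroup.centralizer ({t} : Set G) := by
    intro a ha
    rw [Subgroup.mem_centralizer_iff]
    intro x hx
    rw [Set.mem_singleton_iff] at hx
    subst hx
    exact (Subgroup.mem_centralizer_iff.mp htA a ha).symm
  refine ⟨h1, ?_, ?_⟩
  · exact ((Subgroup.normal_subgroupOf_iff_le_normalizer hle).mpr h1).isSubnormal
  · exact isQuasisimple_of_mulEquiv (Subgroup.subgroupOfEquivOfLe hle).symm hq

end Cfsg.Agent.S1754
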