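import Cfsg.Statements.S1755
import Cfsg.Agent.Lib.Helper29.Basic

set_option autoImplicit false
open Cfsg

namespace Cfsg.Agent.S1755

open Cfsg.Agent.Lib.Helper29.Basic

theorem aux {G : Type*} [Group G] [Finite G] (z : G) (hz : orderOf z = 2)
    (C : Subgroup G) (hC : C = Subgroup.centralizer ({z} : Set G))
    (Q : Subgroup C) (hQdef : Q = Cfsg.generalizedFittingSubgroup C)
    (hQ : Cfsg.IsOfSymplecticType Q) (B : Subgroup Q) (hBc : B.Characteristic)
    (hBa : IsMulCommutative B) (g : G) :
    ((B.map Q.subtype).map C.subtype).map (MulAut.conj g).toMonoidHom =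
        (B.map Q.subtype).map C.subtype ∨
      ((B.map Q.subtype).map C.subtype).map (MulAut.conj g).toMonoidHom ⊓
        (B.map Q.subtype).map C.subtype = ⊥ := by
  classical
  have : Fact (Nat.Prime 2) := ⟨Nat.prime_two⟩
  have hQn : Q.Normal := hQdef ▸ generalizedFittingSubgroup_normal C
  have hzC : z ∈ C := by
    rw [hC, Subgroup.mem_centralizer_iff]
    intro h hh
    rw [Set.mem_singleton_iff] at hh
    rw [hh]
  have hzc_center : (⟨z, hzC⟩ : C) ∈ Subgroup.center C := by
    rw [Subgroup.mem_center_iff]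
    intro x
    apply Subtype.ext
    have hx : (x : G) ∈ Subgroup.centralizer ({z} : Set G) := hC ▸ x.2
    have := Subgroup.mem_centralizer_iff.mp hx z rfl
    simpa using this.symm
  have hzQ : (⟨z, hzC⟩ : C) ∈ Q := hQdef ▸ center_le_generalizedFittingSubgroup C hzc_center
  have hzq_order : orderOf (⟨⟨z, hzC⟩, hzQ⟩ : Q) = 2 := by
    rw [← Subgroup.orderOf_coe, ← Subgroup.orderOf_coe]
    exact hz
  have hzq_center : (⟨⟨z, hzC⟩, hzQ⟩ : Q) ∈ Subgroup.center Q := by
    rw [Subgroup.mem_center_iff]
    intro x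
    apply Subtype.ext
    have := (Subgroup.mem_center_iff.mp hzc_center) (x : C)
    simpa using this
  obtain ⟨hQ2, hQsymp⟩ := hQ
  have hBcyc : IsCyclic B := hQsymp B hBc hBa
  have hZcyc : IsCyclic (Subgroup.center Q) :=
    hQsymp _ Subgroup.centerCharacteristic inferInstance
  have hB2 : IsPGroup 2 B := hQ2.to_subgroup B
  -- a nontrivial finite 2-group has an involution
  have invol : ∀ (H : Type _) [Group H] [Finite H], IsPGroup 2 H → Nontrivial H →
      ∃ x : H, orderOf x = 2 := by
    intro H _ _ hH hnt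
    obtain ⟨n, hn⟩ := IsPGroup.iff_card.mp hH
    have hn0 : n ≠ 0 := by
      rintro rfl
      have : Nat.card H = 1 := by simpa using hn
      have h1 : 1 < Nat.card H := Finite.one_lt_card
      omega
    have hdvd : 2 ∣ Nat.card H := by
      rw [hn]
      exact dvd_pow_self 2 hn0
    exact exists_prime_orderOf_dvd_card' 2 hdvd
  -- Key 1: if B is nontrivial then z lies in B
  have key1 : B ≠ ⊥ → (⟨⟨z, hzC⟩, hzQ⟩ : Q) ∈ B := by
    intro hBne
    have hnt : Nontrivial B := (Subgroup.nontrivial_iff_ne_bot B).mpr hBne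
    obtain ⟨u, hu⟩ := invol B hB2 hnt
    have huQ : orderOf (u : Q) = 2 := by rw [Subgroup.orderOf_coe]; exact hu
    have hucenter : (u : Q) ∈ Subgroup.center Q := by
      rw [Subgroup.mem_center_iff]
      intro q
      have hmap := Subgroup.characteristic_iff_map_eq.mp hBc (MulAut.conj q)
      have hmem : (MulAut.conj q) (u : Q) ∈ B := by
        have h0 : (MulAut.conj q) (u : Q) ∈ B.map (MulAut.conj q).toMonoidHom := ⟨u, u.2, rfl⟩
        rwa [hmap] at h0
      have hord : orderOf (⟨(MulAut.conj q) (u : Q), hmem⟩ : B) = 2 := by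
        rw [← Subgroup.orderOf_coe]
        show orderOf ((MulAut.conj q) (u : Q)) = 2
        rw [MulEquiv.orderOf_eq]
        exact huQ
      have heq := eq_of_orderOf_eq_two_of_isCyclic hord hu
      have heq' : (MulAut.conj q) (u : Q) = (u : Q) := congrArg Subtype.val heq
      rw [MulAut.conj_apply] at heq'
      have := congrArg (· * q) heq'
      simpa using this
    have hord1 : orderOf (⟨(u : Q), hucenter⟩ : Subgroup.center Q) = 2 := by
      rw [← Subgroup.orderOf_coe]; exact huQ
    have hord2 : orderOf (⟨⟨⟨z, hzC⟩, hzQ⟩, hzq_center⟩ : Subgroup.center Q) = 2 := by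
      rw [← Subgroup.orderOf_coe]; exact hzq_order
    have heq := eq_of_orderOf_eq_two_of_isCyclic hord1 hord2
    have heq' : (u : Q) = ⟨⟨z, hzC⟩, hzQ⟩ := congrArg Subtype.val heq
    rw [← heq']
    exact u.2
  -- Key 2: z is the only involution of the image of B
  have key2 : B ≠ ⊥ → ∀ w ∈ (B.map Q.subtype).map C.subtype, orderOf w = 2 → w = z := by
    intro hBne w hw hw2
    obtain ⟨c, ⟨b, hb, rfl⟩, rfl⟩ := hw
    have hb2 : orderOf (⟨b, hb⟩ : B) = 2 := by
      rw [← Subgroup.orderOf_coe, ← Subgroup.orderOf_coe, ← Subgroup.orderOf_coe]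
      exact hw2
    have hz2 : orderOf (⟨⟨⟨z, hzC⟩, hzQ⟩, key1 hBne⟩ : B) = 2 := by
      rw [← Subgroup.orderOf_coe]; exact hzq_order
    have heq := eq_of_orderOf_eq_two_of_isCyclic hb2 hz2
    have heq' : b = ⟨⟨z, hzC⟩, hzQ⟩ := congrArg Subtype.val heq
    rw [heq']
    rfl
  by_cases hint : ((B.map Q.subtype).map C.subtype).map (MulAut.conj g).toMonoidHom ⊓
        (B.map Q.subtype).map C.subtype = ⊥
  · right; exact hint
  · left
    have hBne : B ≠ ⊥ := by
      rintro rfl
      apply hint
      simp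
    have hB'2 : IsPGroup 2 ((B.map Q.subtype).map C.subtype) := (hB2.map Q.subtype).map C.subtype
    have hI2 : IsPGroup 2 ↥(((B.map Q.subtype).map C.subtype).map (MulAut.conj g).toMonoidHom ⊓
        (B.map Q.subtype).map C.subtype) :=
      hB'2.to_le inf_le_right
    have hnt : Nontrivial ↥(((B.map Q.subtype).map C.subtype).map (MulAut.conj g).toMonoidHom ⊓
        (B.map Q.subtype).map C.subtype) :=
      (Subgroup.nontrivial_iff_ne_bot _).mpr hint
    obtain ⟨w, hw⟩ := invol _ hI2 hnt
    have hw' : orderOf (w : G) = 2 := by rw [Subgroup.orderOf_coe]; exact hw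
    have hwz : (w : G) = z := key2 hBne _ w.2.2 hw'
    obtain ⟨y, hy, hyw⟩ := w.2.1
    have hyw' : g * y * g⁻¹ = (w : G) := by simpa [MulAut.conj_apply] using hyw
    have hy2 : orderOf y = 2 := by
      have h1 : orderOf ((MulAut.conj g) y) = orderOf y := MulEquiv.orderOf_eq _ _
      rw [← h1, MulAut.conj_apply, hyw']
      exact hw'
    have hyz : y = z := key2 hBne y hy hy2
    have hgC : g ∈ C := by
      rw [hC, Subgroup.mem_centralizer_iff]
      intro h hh
      rw [Set.mem_singleton_iff] at hh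
      subst hh
      rw [hyz, hwz] at hyw'
      have := congrArg (· * g) hyw'
      simpa using this.symm
    have hBmap := Subgroup.characteristic_iff_map_eq.mp hBc (MulAut.conjNormal (⟨g, hgC⟩ : C))
    ext x
    constructor
    · rintro ⟨y, ⟨c, ⟨b, hb, rfl⟩, rfl⟩, rfl⟩
      refine ⟨Q.subtype ((MulAut.conjNormal (⟨g, hgC⟩ : C)) b), ⟨_, ?_, rfl⟩, ?_⟩
      · have h0 : (MulAut.conjNormal (⟨g, hgC⟩ : C)) b ∈
            B.map (MulAut.conjNormal (⟨g, hgC⟩ : C)).toMonoidHom := ⟨b, hb, rfl⟩
        rwa [hBmap] at h0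
      · simp [MulAut.conjNormal_apply, MulAut.conj_apply]
    · rintro ⟨c, ⟨b, hb, rfl⟩, rfl⟩
      rw [← hBmap] at hb
      obtain ⟨b0, hb0, rfl⟩ := hb
      refine ⟨C.subtype (Q.subtype b0), ⟨_, ⟨b0, hb0, rfl⟩, rfl⟩, ?_⟩
      simp [MulAut.conjNormal_apply, MulAut.conj_apply]

/-- Let G be a finite group and let z be an involution of G such that Q, the generalized Fitting subgroup of the centralizer C of z, is a 2-group of symplectic type (every characteristic abelian subgroup of Q is cyclic). Let B be a characteristic abelian subgroup of Q, viewed as a subgroup of G. Then for every g in G, the conjugate of B by g either equals B or meets B trivially. -/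
theorem result {G : Type*} [Group G] [Finite G] (z : G) (hz : orderOf z = 2) (hQ : Cfsg.IsOfSymplecticType ↥(Cfsg.generalizedFittingSubgroup ↥(Subgroup.centralizer ({z} : Set G))))
    (B : Subgroup ↥(Cfsg.generalizedFittingSubgroup ↥(Subgroup.centralizer ({z} : Set G)))) (hBc : B.Characteristic) (hBa : IsMulCommutative ↥B) (g : G) :
    ((B.map (Cfsg.generalizedFittingSubgroup ↥(Subgroup.centralizer ({z} : Set G))).subtype).map (Subgroup.centralizer ({z} : Set G)).subtype).map (MulAut.conj g).toMonoidHom =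
        (B.map (Cfsg.generalizedFittingSubgroup ↥(Subgroup.centralizer ({z} : Set G))).subtype).map (Subgroup.centralizer ({z} : Set G)).subtype ∨
      ((B.map (Cfsg.generalizedFittingSubgroup ↥(Subgroup.centralizer ({z} : Set G))).subtype).map (Subgroup.centralizer ({z} : Set G)).subtype).map (MulAut.conj g).toMonoidHom ⊓
        (B.map (Cfsg.generalizedFittingSubgroup ↥(Subgroup.centralizer ({z} : Set G))).subtype).map (Subgroup.centralizer ({z} : Set G)).subtype = ⊥ := by
  exact aux z hz _ rfl _ rfl hQ B hBc hBa g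

end Cfsg.Agent.S1755
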