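import Cfsg.Statements.S1756
import Mathlib

set_option autoImplicit false
open Cfsg

namespace Cfsg.Agent.S1756

open scoped commutatorElement IsMulCommutative

/-- number of linear characters of a finite group -/
theorem card_hom_units (Q : Type*) [Group Q] [Finite Q] :
    Nat.card (Q →* ℂˣ) = (commutator Q).index := by
  have h1 : Nat.card (Q →* ℂˣ) = Nat.card (Abelianization Q →* ℂˣ) :=
    Nat.card_congr Abelianization.lift
  have hne : NeZero ((Monoid.exponent (Abelianization Q) : ℕ) : ℂ) :=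
    ⟨Nat.cast_ne_zero.mpr Monoid.exponent_ne_zero_of_finite⟩
  rw [h1, CommGroup.card_monoidHom_of_hasEnoughRootsOfUnity (Abelianization Q) ℂ]
  rfl

/-- an injective character of a group of order two -/
theorem exists_injective_hom (Z : Type*) [CommGroup Z] [Finite Z] (hZ : Nat.card Z = 2) :
    ∃ ι : Z →* ℂˣ, Function.Injective ι := by
  classical
  have hne : NeZero ((Monoid.exponent Z : ℕ) : ℂ) :=
    ⟨Nat.cast_ne_zero.mpr Monoid.exponent_ne_zero_of_finite⟩
  have hnt : Nontrivial Z := by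
    rw [← Finite.one_lt_card_iff_nontrivial, hZ]; norm_num
  obtain ⟨c, hc⟩ := exists_ne (1 : Z)
  obtain ⟨φ, hφ⟩ := CommGroup.exists_apply_ne_one_of_hasEnoughRootsOfUnity Z ℂ hc
  refine ⟨φ, ?_⟩
  rw [injective_iff_map_eq_one]
  intro x hx
  by_contra hx1
  have hxc : x ≠ c := by
    rintro rfl
    exact hφ hx
  have := Fintype.ofFinite Z
  have : 2 < Fintype.card Z := Fintype.two_lt_card_iff.mpr ⟨x, 1, c, hx1, hxc, hc.symm⟩
  rw [← Nat.card_eq_fintype_card, hZ] at this
  exact lt_irrefl _ this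

theorem commutator_central {Q : Type*} [Group Q] (hcomm : commutator Q = Subgroup.center Q)
    (g h : Q) : ⁅g, h⁆ ∈ Subgroup.center Q := by
  rw [← hcomm]
  exact Subgroup.commutator_mem_commutator (Subgroup.mem_top g) (Subgroup.mem_top h)

theorem comm_mul_right {Q : Type*} [Group Q] (hcomm : commutator Q = Subgroup.center Q)
    (g h₁ h₂ : Q) : ⁅g, h₁ * h₂⁆ = ⁅g, h₁⁆ * ⁅g, h₂⁆ := by
  have e1 : ⁅g, h₁ * h₂⁆ = ⁅g, h₁⁆ * (h₁ * ⁅g, h₂⁆ * h₁⁻¹) := by
    simp only [commutatorElement_def]; group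
  have e2 : h₁ * ⁅g, h₂⁆ = ⁅g, h₂⁆ * h₁ :=
    Subgroup.mem_center_iff.mp (commutator_central hcomm g h₂) h₁
  rw [e1, e2, mul_inv_cancel_right]

theorem comm_mul_left {Q : Type*} [Group Q] (hcomm : commutator Q = Subgroup.center Q)
    (g₁ g₂ h : Q) : ⁅g₁ * g₂, h⁆ = ⁅g₁, h⁆ * ⁅g₂, h⁆ := by
  have e1 : ⁅g₁ * g₂, h⁆ = (g₁ * ⁅g₂, h⁆ * g₁⁻¹) * ⁅g₁, h⁆ := by
    simp only [commutatorElement_def]; group
  have e2 : g₁ * ⁅g₂, h⁆ = ⁅g₂, h⁆ * g₁ :=
    Subgroup.mem_center_iff.mp (commutator_central hcomm g₂ h) g₁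
  have e3 : ⁅g₁, h⁆ * ⁅g₂, h⁆ = ⁅g₂, h⁆ * ⁅g₁, h⁆ :=
    Subgroup.mem_center_iff.mp (commutator_central hcomm g₂ h) _
  rw [e1, e2, mul_inv_cancel_right, e3]

/-- an automorphism acting trivially modulo the centre is inner, when `Q' = Z(Q)` has order 2 -/
theorem inner_of_central {Q : Type*} [Group Q] [Finite Q]
    (hcomm : commutator Q = Subgroup.center Q) (hcard : Nat.card (Subgroup.center Q) = 2)
    (α : Q ≃* Q) (hcen : ∀ g, g⁻¹ * α g ∈ Subgroup.center Q) :
    ∃ q : Q, ∀ g, α g = q * g * q⁻¹ := by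
  classical
  obtain ⟨ι, hι⟩ := exists_injective_hom (Subgroup.center Q) hcard
  let chi : Q → (Q →* ℂˣ) := fun g =>
    { toFun := fun h => ι ⟨⁅g, h⁆, commutator_central hcomm g h⟩
      map_one' := by
        have : (⟨⁅g, 1⁆, commutator_central hcomm g 1⟩ : Subgroup.center Q) = 1 := by
          apply Subtype.ext; simp
        rw [this, map_one]
      map_mul' := fun h₁ h₂ => by
        rw [← map_mul]
        congr 1
        apply Subtype.ext
        exact comm_mul_right hcomm g h₁ h₂ }
  let Ψ : Q →* (Q →* ℂˣ) :=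
    { toFun := chi
      map_one' := by
        ext h
        have : (⟨⁅(1 : Q), h⁆, commutator_central hcomm 1 h⟩ : Subgroup.center Q) = 1 := by
          apply Subtype.ext; simp
        show ((ι ⟨⁅(1 : Q), h⁆, commutator_central hcomm 1 h⟩ : ℂˣ) : ℂ) = ((1 : ℂˣ) : ℂ)
        rw [this, map_one]
      map_mul' := fun g₁ g₂ => by
        ext h
        show ((ι ⟨⁅g₁ * g₂, h⁆, commutator_central hcomm (g₁ * g₂) h⟩ : ℂˣ) : ℂ)
          = ((ι ⟨⁅g₁, h⁆, commutator_central hcomm g₁ h⟩ * ι ⟨⁅g₂, h⁆, commutator_central hcomm g₂ h⟩ : ℂˣ) : ℂ)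
        rw [← map_mul]
        congr 2
        apply Subtype.ext
        exact comm_mul_left hcomm g₁ g₂ h }
  have hker : Ψ.ker ≤ Subgroup.center Q := by
    intro g hg
    rw [MonoidHom.mem_ker] at hg
    rw [Subgroup.mem_center_iff]
    intro h
    have h1 : Ψ g h = 1 := by rw [hg]; rfl
    have h2 : ι ⟨⁅g, h⁆, commutator_central hcomm g h⟩ = 1 := h1
    have h3 := (injective_iff_map_eq_one ι).mp hι _ h2
    have h4 : ⁅g, h⁆ = 1 := congrArg Subtype.val h3
    exact (commutatorElement_eq_one_iff_mul_comm.mp h4).symm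
  have hsurj : Function.Surjective Ψ := by
    apply MonoidHom.surjective_of_card_ker_le_div
    rw [card_hom_units, hcomm]
    have h1 : Nat.card Ψ.ker ≤ 2 := hcard ▸ Subgroup.card_le_of_le hker
    have h2 : Nat.card (Subgroup.center Q) * (Subgroup.center Q).index = Nat.card Q :=
      Subgroup.card_mul_index _
    rw [hcard] at h2
    have hpos : 0 < (Subgroup.center Q).index :=
      Nat.pos_of_ne_zero Subgroup.index_ne_zero_of_finite
    rw [← h2, Nat.mul_div_cancel _ hpos]
    exact h1
  let lam : Q →* ℂˣ :=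
    { toFun := fun g => ι ⟨g⁻¹ * α g, hcen g⟩
      map_one' := by
        have : (⟨(1 : Q)⁻¹ * α 1, hcen 1⟩ : Subgroup.center Q) = 1 := by
          apply Subtype.ext; simp
        rw [this, map_one]
      map_mul' := fun g h => by
        rw [← map_mul]
        congr 1
        apply Subtype.ext
        show (g * h)⁻¹ * α (g * h) = (g⁻¹ * α g) * (h⁻¹ * α h)
        have e := Subgroup.mem_center_iff.mp (hcen g) h⁻¹
        rw [map_mul, mul_inv_rev]
        calc h⁻¹ * g⁻¹ * (α g * α h) = (h⁻¹ * (g⁻¹ * α g)) * α h := by group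
          _ = ((g⁻¹ * α g) * h⁻¹) * α h := by rw [e]
          _ = (g⁻¹ * α g) * (h⁻¹ * α h) := by group }
  obtain ⟨q, hq⟩ := hsurj lam
  refine ⟨q, fun g => ?_⟩
  have h1 : Ψ q g = lam g := by rw [hq]
  have h2 : (⟨⁅q, g⁆, commutator_central hcomm q g⟩ : Subgroup.center Q) = ⟨g⁻¹ * α g, hcen g⟩ :=
    hι h1
  have h3 : ⁅q, g⁆ = g⁻¹ * α g := congrArg Subtype.val h2
  have h4 := Subgroup.mem_center_iff.mp (hcen g) g
  rw [commutatorElement_def] at h3
  calc α g = g * (g⁻¹ * α g) := by group
    _ = (g⁻¹ * α g) * g := h4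
    _ = (q * g * q⁻¹ * g⁻¹) * g := by rw [h3]
    _ = q * g * q⁻¹ := by group

/-- an involutory automorphism fixing a subgroup of index at most 2 acts trivially modulo the centre -/
theorem central_of_invol {Q : Type*} [Group Q] [Finite Q]
    (α : Q ≃* Q) (hα2 : ∀ g, α (α g) = g) (M : Subgroup Q) (hM : M.index ≤ 2)
    (hfix : ∀ m ∈ M, α m = m) : ∀ g, g⁻¹ * α g ∈ Subgroup.center Q := by
  have hne : M.index ≠ 0 := Subgroup.index_ne_zero_of_finite
  have h12 : M.index = 1 ∨ M.index = 2 := by omega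
  rcases h12 with h1 | h2
  · rw [Subgroup.index_eq_one] at h1
    intro g
    have : α g = g := hfix g (h1 ▸ Subgroup.mem_top g)
    rw [this, inv_mul_cancel]
    exact one_mem _
  · have hnormal : M.Normal := Subgroup.normal_of_index_eq_two h2
    have hnot : ∀ g, g ∉ M → α g ∉ M := by
      intro g hg hαg
      apply hg
      have := hfix _ hαg
      rw [hα2] at this
      rw [this]; exact hαg
    have hcM : ∀ g, g⁻¹ * α g ∈ M := by
      intro g
      by_cases hg : g ∈ M
      · rw [hfix g hg, inv_mul_cancel]; exact one_mem _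
      · rw [Subgroup.mul_mem_iff_of_index_two h2]
        constructor
        · intro h; exact absurd (M.inv_mem_iff.mp h) hg
        · intro h; exact absurd h (hnot g hg)
    obtain ⟨x, hx⟩ : ∃ x, x ∉ M := by
      by_contra hall
      push Not at hall
      have : M = ⊤ := (Subgroup.eq_top_iff' M).mpr hall
      rw [← Subgroup.index_eq_one] at this
      omega
    have hxM : ∀ g, g ∉ M → x⁻¹ * g ∈ M := by
      intro g hg
      rw [Subgroup.mul_mem_iff_of_index_two h2]
      constructor
      · intro h; exact absurd (M.inv_mem_iff.mp h) hx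
      · intro h; exact absurd h hg
    obtain ⟨c, hc⟩ : ∃ c, c = x⁻¹ * α x := ⟨_, rfl⟩
    have hcM' : c ∈ M := hc ▸ hcM x
    have hαc : α c = c := hfix c hcM'
    have hαx : α x = x * c := by rw [hc]; group
    have hc_M : ∀ m ∈ M, c * m = m * c := by
      intro m hm
      have h1 : x * m * x⁻¹ ∈ M := hnormal.conj_mem m hm x
      have h2 := hfix _ h1
      rw [map_mul, map_mul, map_inv, hfix m hm, hαx] at h2
      have h3 := congrArg (fun w => x⁻¹ * w * x * c) h2
      simpa [mul_assoc] using h3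
    have hcc : c * c = 1 := by
      have h1 := hα2 x
      rw [hαx, map_mul, hαx, hαc] at h1
      have := congrArg (fun w => x⁻¹ * w) h1
      simpa [mul_assoc] using this
    have hc_x : c * x = x * c := by
      have hxx : x * x ∈ M := by
        rw [Subgroup.mul_mem_iff_of_index_two h2]
      have h1 := hfix _ hxx
      rw [map_mul, hαx] at h1
      have h2 : c * x * c = x := by
        have := congrArg (fun w => x⁻¹ * w) h1
        simpa [mul_assoc] using this
      calc c * x = c * x * (c * c) := by rw [hcc, mul_one]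
        _ = (c * x * c) * c := by group
        _ = x * c := by rw [h2]
    have hc_center : c ∈ Subgroup.center Q := by
      rw [Subgroup.mem_center_iff]
      intro g
      by_cases hg : g ∈ M
      · exact (hc_M g hg).symm
      · have h1 := hc_M _ (hxM g hg)
        calc g * c = x * ((x⁻¹ * g) * c) := by group
          _ = x * (c * (x⁻¹ * g)) := by rw [h1]
          _ = (x * c) * (x⁻¹ * g) := by group
          _ = (c * x) * (x⁻¹ * g) := by rw [hc_x]
          _ = c * g := by group
    intro g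
    by_cases hg : g ∈ M
    · rw [hfix g hg, inv_mul_cancel]; exact one_mem _
    · have hm := hxM g hg
      have hg' : g = x * (x⁻¹ * g) := by group
      have h1 : α g = x * c * (x⁻¹ * g) := by
        conv_lhs => rw [hg']
        rw [map_mul, hαx, hfix _ hm]
      have h2 := Subgroup.mem_center_iff.mp hc_center (x⁻¹ * g)
      have : g⁻¹ * α g = c := by
        rw [h1]
        calc g⁻¹ * (x * c * (x⁻¹ * g)) = (x⁻¹ * g)⁻¹ * (c * (x⁻¹ * g)) := by group
          _ = (x⁻¹ * g)⁻¹ * ((x⁻¹ * g) * c) := by rw [h2]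
          _ = c := by group
      rw [this]; exact hc_center

/-- Let Q be an extraspecial 2-subgroup of the finite group G (special with centre of order 2) and t an involution of G normalizing Q such that the centralizer of t in Q has index at most 2 in Q. Then t lies in the product of Q with the centralizer of Q. -/
theorem result {G : Type*} [Group G] [Finite G] (Q : Subgroup G)
    (hQ : Cfsg.IsExtraspecial 2 ↥Q) (t : G) (ht : orderOf t = 2) (htN : t ∈ Subgroup.normalizer (Q : Set G))
    (hi : (Subgroup.centralizer ({t} : Set G) ⊓ Q).relIndex Q ≤ 2) :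
    t ∈ Q ⊔ Subgroup.centralizer (Q : Set G) := by
  obtain ⟨⟨hQ2, hfrat, hcomm⟩, hcard⟩ := hQ
  have htt : t * t = 1 := by rw [← pow_two, ← ht]; exact pow_orderOf_eq_one t
  have htinv : t⁻¹ = t := inv_eq_of_mul_eq_one_left htt
  have hN : ∀ q ∈ Q, t * q * t⁻¹ ∈ Q := fun q hq =>
    (Subgroup.mem_normalizer_iff.mp htN q).mp hq
  have hinv : ∀ q : G, t * (t * q * t⁻¹) * t⁻¹ = q := by
    intro q
    rw [htinv]
    calc t * (t * q * t) * t = (t * t) * q * (t * t) := by group
      _ = q := by rw [htt, one_mul, mul_one]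
  let α : Q ≃* Q :=
    { toFun := fun q => ⟨t * q * t⁻¹, hN q q.2⟩
      invFun := fun q => ⟨t * q * t⁻¹, hN q q.2⟩
      left_inv := fun q => Subtype.ext (hinv q)
      right_inv := fun q => Subtype.ext (hinv q)
      map_mul' := fun a b => by
        apply Subtype.ext
        show t * ((a : G) * (b : G)) * t⁻¹ = (t * (a : G) * t⁻¹) * (t * (b : G) * t⁻¹)
        group }
  have hα2 : ∀ g, α (α g) = g := fun q => Subtype.ext (hinv q)
  have hfix : ∀ m ∈ (Subgroup.centralizer ({t} : Set G) ⊓ Q).subgroupOf Q, α m = m := by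
    intro m hm
    rw [Subgroup.mem_subgroupOf] at hm
    have h1 := Subgroup.mem_centralizer_iff.mp hm.1 t rfl
    apply Subtype.ext
    show t * (m : G) * t⁻¹ = (m : G)
    rw [h1, mul_inv_cancel_right]
  obtain ⟨q, hq⟩ := inner_of_central hcomm hcard α
    (central_of_invol α hα2 ((Subgroup.centralizer ({t} : Set G) ⊓ Q).subgroupOf Q) hi hfix)
  have hcent : (q : G)⁻¹ * t ∈ Subgroup.centralizer (Q : Set G) := by
    rw [Subgroup.mem_centralizer_iff]
    intro g hg
    have h1 : t * g * t⁻¹ = (q : G) * g * (q : G)⁻¹ := congrArg Subtype.val (hq ⟨g, hg⟩)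
    have h2 : t * g = (q : G) * g * (q : G)⁻¹ * t := by rw [← h1]; group
    calc g * ((q : G)⁻¹ * t) = (q : G)⁻¹ * ((q : G) * g * (q : G)⁻¹ * t) := by group
      _ = (q : G)⁻¹ * (t * g) := by rw [h2]
      _ = (q : G)⁻¹ * t * g := by group
  have ht' : t = (q : G) * ((q : G)⁻¹ * t) := by group
  rw [ht']
  exact Subgroup.mul_mem_sup q.2 hcent

end Cfsg.Agent.S1756
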