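import Cfsg.Statements.S1757

set_option autoImplicit false
open Cfsg

namespace Cfsg.Agent.S1757

/-- Let p be a prime and A, B p-subgroups of the finite group G, each of which meets every conjugate of itself other than itself trivially. Suppose the order of A is at most that of B, A and B intersect trivially, and B normalizes A. Then A and B commute elementwise. -/
theorem result {G : Type*} [Group G] [Finite G] (p : ℕ) [Fact p.Prime] (A B : Subgroup G)
    (hA : IsPGroup p ↥A) (hB : IsPGroup p ↥B)
    (hAti : ∀ g : G, A.map (MulAut.conj g).toMonoidHom = A ∨ A.map (MulAut.conj g).toMonoidHom ⊓ A = ⊥)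
    (hBti : ∀ g : G, B.map (MulAut.conj g).toMonoidHom = B ∨ B.map (MulAut.conj g).toMonoidHom ⊓ B = ⊥)
    (hle : Nat.card ↥A ≤ Nat.card ↥B) (hAB : A ⊓ B = ⊥) (hN : B ≤ Subgroup.normalizer (A : Set G)) : ⁅A, B⁆ = ⊥ := by
  rw [Subgroup.commutator_eq_bot_iff_le_centralizer]
  intro a ha
  rw [Subgroup.mem_centralizer_iff]
  by_contra hcon
  push_neg at hcon
  obtain ⟨b0, hb0, hne⟩ := hcon
  -- conjugation by elements of B keeps A
  have hconjA : ∀ b ∈ B, ∀ x ∈ A, b * x * b⁻¹ ∈ A := by
    intro b hb x hx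
    exact ((Subgroup.mem_normalizer_iff.mp (hN hb)) x).mp hx
  -- Step 1: no nontrivial element of B centralizes a
  have step1 : ∀ b ∈ B, b * a * b⁻¹ = a → b = 1 := by
    intro b hb hba
    by_contra hb1
    have hcomm : a * b * a⁻¹ = b := by
      have : b * a = a * b := by
        have := congrArg (· * b) hba
        simpa using this
      rw [← this]; group
    have hmem : b ∈ B.map (MulAut.conj a).toMonoidHom ⊓ B := by
      refine ⟨?_, hb⟩
      refine ⟨b, hb, ?_⟩
      simpa using hcomm
    have hBa : B.map (MulAut.conj a).toMonoidHom = B := by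
      rcases hBti a with h | h
      · exact h
      · rw [h] at hmem
        exact absurd (Subgroup.mem_bot.mp hmem) hb1
    have h1 : a * b0 * a⁻¹ ∈ B := by
      rw [← hBa]
      exact ⟨b0, hb0, by simp⟩
    have h2 : a * b0 * a⁻¹ * b0⁻¹ ∈ B := B.mul_mem h1 (B.inv_mem hb0)
    have h3 : a * b0 * a⁻¹ * b0⁻¹ ∈ A := by
      have : a * b0 * a⁻¹ * b0⁻¹ = a * (b0 * a⁻¹ * b0⁻¹) := by group
      rw [this]
      exact A.mul_mem ha (hconjA b0 hb0 _ (A.inv_mem ha))
    have h4 : a * b0 * a⁻¹ * b0⁻¹ ∈ A ⊓ B := ⟨h3, h2⟩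
    rw [hAB] at h4
    have h5 := Subgroup.mem_bot.mp h4
    apply hne
    have : a * b0 = b0 * a := by
      have := congrArg (· * (b0 * a)) h5
      simpa [mul_assoc] using this
    exact this.symm
  have ha1 : a ≠ 1 := by
    rintro rfl
    exact hne (by simp)
  -- Step 2: the injection B → A
  let f : B → A := fun b => ⟨(b : G) * a * (b : G)⁻¹, hconjA b b.2 a ha⟩
  have hf : Function.Injective f := by
    intro b1 b2 h
    have h' : (b1 : G) * a * (b1 : G)⁻¹ = (b2 : G) * a * (b2 : G)⁻¹ := congrArg Subtype.val h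
    have h'' : ((b2 : G)⁻¹ * b1) * a * ((b2 : G)⁻¹ * b1)⁻¹ = a := by
      have : ((b2 : G)⁻¹ * b1) * a * ((b2 : G)⁻¹ * b1)⁻¹
          = (b2 : G)⁻¹ * ((b1 : G) * a * (b1 : G)⁻¹) * b2 := by group
      rw [this, h']; group
    have := step1 _ (B.mul_mem (B.inv_mem b2.2) b1.2) h''
    apply Subtype.ext
    have h3 : (b1 : G) = b2 := by
      have := congrArg (fun x => (b2 : G) * x) this
      simpa using this
    exact h3
  have hns : ¬ Function.Surjective f := by
    intro hs
    obtain ⟨b, hb⟩ := hs 1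
    have h' : (b : G) * a * (b : G)⁻¹ = 1 := congrArg Subtype.val hb
    apply ha1
    have := congrArg (fun x => (b : G)⁻¹ * x * b) h'
    simpa [mul_assoc] using this
  haveI : Fintype A := Fintype.ofFinite A
  haveI : Fintype B := Fintype.ofFinite B
  have hlt := Fintype.card_lt_of_injective_not_surjective f hf hns
  rw [← Nat.card_eq_fintype_card, ← Nat.card_eq_fintype_card] at hlt
  omega

end Cfsg.Agent.S1757
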