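import Cfsg.Statements.S1780

set_option autoImplicit false
open Cfsg

namespace Cfsg.Agent.S1780

/-- Auxiliary: the `t - 1` operator on the elements of order dividing 2, written multiplicatively. -/
theorem aux_two_torsion {A : Type*} [CommGroup A]
    (t : MulAut A) (k : ℕ) (ht : t ^ (2 ^ k) = 1) (hC : ∀ a : A, t (t a) = a → t a = a) :
    ∀ a : A, a ^ 2 = 1 → t a = a := by
  -- d a = a * t a
  set d : A → A := fun a => a * t a with hd
  have hdV : ∀ a : A, a ^ 2 = 1 → (d a) ^ 2 = 1 := by
    intro a ha
    simp only [hd, mul_pow, ← map_pow, ha, map_one, mul_one]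
  have hdVn : ∀ n : ℕ, ∀ a : A, a ^ 2 = 1 → (d^[n] a) ^ 2 = 1 := by
    intro n
    induction n with
    | zero => intro a ha; simpa using ha
    | succ n ih =>
      intro a ha
      rw [Function.iterate_succ_apply']
      exact hdV _ (ih a ha)
  have hfrob : ∀ j : ℕ, ∀ a : A, a ^ 2 = 1 → d^[2 ^ j] a = a * (t ^ (2 ^ j)) a := by
    intro j
    induction j with
    | zero => intro a _; simp [hd]
    | succ j ih =>
      intro a ha
      have h2 : 2 ^ (j + 1) = 2 ^ j + 2 ^ j := by ring
      rw [h2, Function.iterate_add_apply, ih a ha, ih _ (by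
        have := hdVn (2 ^ j) a ha
        rwa [ih a ha] at this)]
      set s := t ^ (2 ^ j) with hs
      have hsa : (s a) ^ 2 = 1 := by rw [← map_pow, ha, map_one]
      rw [pow_add, ← hs, MulAut.mul_apply, map_mul]
      calc a * s a * (s a * s (s a)) = a * (s a) ^ 2 * s (s a) := by rw [pow_two]; ac_rfl
        _ = a * s (s a) := by rw [hsa, mul_one]
  have hkill : ∀ a : A, a ^ 2 = 1 → d^[2 ^ k] a = 1 := by
    intro a ha
    rw [hfrob k a ha, ht, MulAut.one_apply, ← pow_two, ha]
  have hdown : ∀ n : ℕ, (∀ a : A, a ^ 2 = 1 → d^[n + 1] a = 1) → ∀ a : A, a ^ 2 = 1 → d a = 1 := by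
    intro n
    induction n with
    | zero => intro h a ha; simpa using h a ha
    | succ n ih =>
      intro h
      apply ih
      intro a ha
      have h1 := h a ha
      rw [Function.iterate_succ_apply', Function.iterate_succ_apply'] at h1
      rw [Function.iterate_succ_apply']
      set b := d^[n] a with hb
      have hb2 : b ^ 2 = 1 := hdVn n a ha
      have htb2 : (t b) ^ 2 = 1 := by rw [← map_pow, hb2, map_one]
      have h3 : d (d b) = b * t (t b) := by
        simp only [hd, map_mul]
        calc b * t b * (t b * t (t b)) = b * (t b) ^ 2 * t (t b) := by rw [pow_two]; ac_rfl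
          _ = b * t (t b) := by rw [htb2, mul_one]
      rw [h3] at h1
      have h4 : t (t b) = b := by
        have : t (t b) = b⁻¹ := by
          rw [eq_inv_iff_mul_eq_one, mul_comm]; exact h1
        rw [this, inv_eq_iff_mul_eq_one, ← pow_two, hb2]
      have h5 := hC b h4
      show b * t b = 1
      rw [h5, ← pow_two, hb2]
  intro a ha
  have h1 : d a = 1 := by
    rcases Nat.exists_eq_succ_of_ne_zero (show 2 ^ k ≠ 0 by positivity) with ⟨m, hm⟩
    apply hdown m _ a ha
    intro a ha
    have := hkill a ha
    rwa [hm] at this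
  have h2 : a * t a = 1 := h1
  have : t a = a⁻¹ := by
    rw [eq_inv_iff_mul_eq_one, mul_comm]; exact h2
  rw [this, inv_eq_iff_mul_eq_one, ← pow_two, ha]

/-- A general form without finiteness. -/
theorem aux_general {A : Type*} [CommGroup A]
    (hA : IsPGroup 2 A) (t : MulAut A) (k : ℕ) (ht : t ^ (2 ^ k) = 1) (hC : ∀ a : A, t (t a) = a → t a = a) :
    ∀ a : A, t a = a := by
  have h1 := aux_two_torsion t k ht hC
  have h2 : ∀ n : ℕ, ∀ a : A, a ^ (2 ^ n) = 1 → t a = a := by
    intro n
    induction n with
    | zero => intro a ha; simp at ha; simp [ha]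
    | succ n ih =>
      intro a ha
      have ha2 : (a ^ 2) ^ (2 ^ n) = 1 := by rw [← pow_mul, ← pow_succ']; exact ha
      have h3 : t (a ^ 2) = a ^ 2 := ih _ ha2
      set c := a⁻¹ * t a with hc
      have hc2 : c ^ 2 = 1 := by
        rw [hc, mul_pow, ← map_pow, h3, inv_pow, inv_mul_cancel]
      have htc : t c = c := h1 c hc2
      have hta : t a = a * c := by rw [hc, mul_inv_cancel_left]
      apply hC
      rw [hta, map_mul, htc, hta, mul_assoc, ← pow_two, hc2, mul_one]
  intro a
  obtain ⟨n, hn⟩ := hA a
  exact h2 n a hn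

/-- Let A be a finite abelian 2-group and t an automorphism of A whose order is a power of 2. If every element of A fixed by t² is fixed by t, then t fixes every element of A. -/
theorem result {A : Type*} [CommGroup A] [Finite A]
    (hA : IsPGroup 2 A) (t : MulAut A) (ht : ∃ k : ℕ, orderOf t = 2 ^ k) (hC : ∀ a : A, t (t a) = a → t a = a) :
    ∀ a : A, t a = a := by
  obtain ⟨k, hk⟩ := ht
  exact aux_general hA t k (by rw [← hk]; exact pow_orderOf_eq_one t) hC

end Cfsg.Agent.S1780
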