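import Cfsg.Statements.S1781
import Cfsg.Agent.S1780

set_option autoImplicit false
open Cfsg

namespace Cfsg.Agent.S1781

theorem conj_pow_mem {G : Type*} [Group G] (B : Subgroup G) (d : G)
    (hdN : ∀ b ∈ B, d * b * d⁻¹ ∈ B) (n : ℕ) : ∀ b ∈ B, d ^ n * b * (d ^ n)⁻¹ ∈ B := by
  induction n with
  | zero => intro b hb; simpa using hb
  | succ n ih =>
    intro b hb
    have h1 := hdN _ (ih b hb)
    have h2 : d ^ (n + 1) * b * (d ^ (n + 1))⁻¹ = d * (d ^ n * b * (d ^ n)⁻¹) * d⁻¹ := by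
      rw [pow_succ']; group
    rw [h2]; exact h1

/-- An element `d` of `A` normalizing the abelian 2-group `B`, with `d ^ 2 ≠ 1`, centralizes `B`,
provided that the elements of `B` commuting with `d ^ 2` normalize `A` and `A ∩ B = 1`. -/
theorem lemK {G : Type*} [Group G] (A B : Subgroup G)
    (hB2 : IsPGroup 2 ↥B) (hBa : ∀ x ∈ B, ∀ y ∈ B, x * y = y * x)
    (hAB : ∀ x, x ∈ A → x ∈ B → x = 1)
    (d : G) (hdA : d ∈ A) (hdN : ∀ b ∈ B, d * b * d⁻¹ ∈ B) (k : ℕ) (hdk : d ^ (2 ^ k) = 1)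
    (hTI : ∀ b ∈ B, d ^ 2 * b = b * d ^ 2 → ∀ a ∈ A, b * a * b⁻¹ ∈ A) :
    ∀ b ∈ B, d * b = b * d := by
  let _ : CommGroup ↥B :=
    { (inferInstance : Group ↥B) with
      mul_comm := fun x y => Subtype.ext (hBa x x.2 y y.2) }
  have hdinv : d⁻¹ = d ^ (2 ^ k - 1) := by
    have h1 : d ^ (2 ^ k - 1) * d = 1 := by
      rw [← pow_succ, Nat.sub_add_cancel (Nat.one_le_two_pow), hdk]
    exact (eq_inv_of_mul_eq_one_left h1).symm
  have hdN' : ∀ b ∈ B, d⁻¹ * b * d ∈ B := by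
    intro b hb
    have := conj_pow_mem B d hdN (2 ^ k - 1) b hb
    rw [← hdinv, inv_inv] at this
    exact this
  let t : MulAut ↥B :=
    { toFun := fun b => ⟨d * b * d⁻¹, hdN b b.2⟩
      invFun := fun b => ⟨d⁻¹ * b * d, hdN' b b.2⟩
      left_inv := fun b => by apply Subtype.ext; simp [mul_assoc]
      right_inv := fun b => by apply Subtype.ext; simp [mul_assoc]
      map_mul' := fun x y => by apply Subtype.ext; simp [mul_assoc] }
  have ht_apply : ∀ b : ↥B, ((t b : ↥B) : G) = d * b * d⁻¹ := fun b => rfl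
  have htpow : ∀ n : ℕ, ∀ b : ↥B, (((t ^ n) b : ↥B) : G) = d ^ n * b * (d ^ n)⁻¹ := by
    intro n
    induction n with
    | zero => intro b; simp
    | succ n ih =>
      intro b
      rw [pow_succ', MulAut.mul_apply, ht_apply, ih b, pow_succ']
      group
  have ht : t ^ (2 ^ k) = 1 := by
    ext b
    rw [htpow, hdk]
    simp
  have hC : ∀ b : ↥B, t (t b) = b → t b = b := by
    intro b hb
    have h1 : d * (d * (b : G) * d⁻¹) * d⁻¹ = b := by
      have := congrArg (fun x : ↥B => (x : G)) hb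
      simpa [ht_apply] using this
    have h2 : d ^ 2 * (b : G) = b * d ^ 2 := by
      rw [pow_two]
      calc d * d * (b : G) = d * (d * (b : G) * d⁻¹) * d⁻¹ * (d * d) := by group
        _ = b * (d * d) := by rw [h1]
    have h3 := hTI b b.2 h2 d⁻¹ (A.inv_mem hdA)
    have h4 : d * (b : G) * d⁻¹ * (b : G)⁻¹ ∈ A := by
      have : d * (b : G) * d⁻¹ * (b : G)⁻¹ = d * ((b : G) * d⁻¹ * (b : G)⁻¹) := by group
      rw [this]; exact A.mul_mem hdA h3
    have h5 : d * (b : G) * d⁻¹ * (b : G)⁻¹ ∈ B := B.mul_mem (hdN b b.2) (B.inv_mem b.2)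
    have h6 := hAB _ h4 h5
    apply Subtype.ext
    rw [ht_apply]
    exact mul_inv_eq_one.mp h6
  have key := Cfsg.Agent.S1780.aux_general hB2 t k ht hC
  intro b hb
  have h1 := congrArg (fun x : ↥B => (x : G)) (key ⟨b, hb⟩)
  simp only [ht_apply] at h1
  calc d * b = d * b * d⁻¹ * d := by group
    _ = b * d := by rw [h1]

/-- Half of the argument: `B` normalizes `A` and `d` centralizes `B`. -/
theorem half {G : Type*} [Group G] (A B : Subgroup G)
    (hB2 : IsPGroup 2 ↥B) (hBa : ∀ x ∈ B, ∀ y ∈ B, x * y = y * x)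
    (hAB : ∀ x, x ∈ A → x ∈ B → x = 1)
    (hti : ∀ h : G, A.map (MulAut.conj h).toMonoidHom = A ∨ A.map (MulAut.conj h).toMonoidHom ⊓ A = ⊥)
    (d : G) (hdA : d ∈ A) (hdN : ∀ b ∈ B, d * b * d⁻¹ ∈ B) (k : ℕ) (hdk : d ^ (2 ^ k) = 1)
    (hd2 : d ^ 2 ≠ 1) :
    ∀ b ∈ B, ∀ a ∈ A, b * a * b⁻¹ ∈ A := by
  have hTI : ∀ b : G, d ^ 2 * b = b * d ^ 2 → ∀ a ∈ A, b * a * b⁻¹ ∈ A := by
    intro b hb a ha
    rcases hti b with h | h
    · rw [← h]
      exact Subgroup.mem_map.mpr ⟨a, ha, rfl⟩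
    · exfalso
      have h1 : d ^ 2 ∈ A.map (MulAut.conj b).toMonoidHom ⊓ A := by
        refine ⟨Subgroup.mem_map.mpr ⟨d ^ 2, A.pow_mem hdA 2, ?_⟩, A.pow_mem hdA 2⟩
        show b * d ^ 2 * b⁻¹ = d ^ 2
        rw [← hb]; group
      rw [h] at h1
      exact hd2 (Subgroup.mem_bot.mp h1)
  have hc := lemK A B hB2 hBa hAB d hdA hdN k hdk (fun b _ hb => hTI b hb)
  intro b hb
  apply hTI
  have := hc b hb
  rw [pow_two, mul_assoc, this, ← mul_assoc, this, mul_assoc]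

theorem result {G : Type*} [Group G] [Finite G] (A : Subgroup G)
    (hA2 : IsPGroup 2 ↥A) (hAa : IsMulCommutative ↥A)
    (hti : ∀ h : G, A.map (MulAut.conj h).toMonoidHom = A ∨ A.map (MulAut.conj h).toMonoidHom ⊓ A = ⊥)
    (g : G) (hg : A.map (MulAut.conj g).toMonoidHom ≠ A) :
    Cfsg.IsElementaryAbelian 2 (A ⊓ Subgroup.normalizer ((A.map (MulAut.conj g).toMonoidHom : Subgroup G) : Set G)) ∨
      ⁅A, A.map (MulAut.conj g).toMonoidHom⁆ = ⊥ := by
  set B : Subgroup G := A.map (MulAut.conj g).toMonoidHom with hB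
  have hAcomm : ∀ x ∈ A, ∀ y ∈ A, x * y = y * x := by
    intro x hx y hy
    have := hAa.is_comm.comm ⟨x, hx⟩ ⟨y, hy⟩
    exact congrArg (fun z : ↥A => (z : G)) this
  by_cases hD : ∀ d ∈ A ⊓ Subgroup.normalizer (B : Set G), d ^ 2 = 1
  · left
    refine ⟨⟨⟨?_⟩⟩, hD⟩
    rintro ⟨x, hx⟩ ⟨y, hy⟩
    apply Subtype.ext
    exact hAcomm x hx.1 y hy.1
  · right
    push Not at hD
    obtain ⟨d, hdD, hd2⟩ := hD
    have hdA : d ∈ A := hdD.1
    have hdNB : d ∈ Subgroup.normalizer (B : Set G) := hdD.2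
    -- A ∩ B = 1
    have hAB : ∀ x, x ∈ A → x ∈ B → x = 1 := by
      intro x hxA hxB
      rcases hti g with h | h
      · exact absurd h hg
      · have : x ∈ A.map (MulAut.conj g).toMonoidHom ⊓ A := ⟨hxB, hxA⟩
        rw [h] at this
        exact Subgroup.mem_bot.mp this
    have hmemB : ∀ x, x ∈ B ↔ ∃ a ∈ A, g * a * g⁻¹ = x := by
      intro x
      rw [hB, Subgroup.mem_map]
      rfl
    -- B is an abelian 2-group
    have hBcomm : ∀ x ∈ B, ∀ y ∈ B, x * y = y * x := by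
      intro x hx y hy
      obtain ⟨a, ha, rfl⟩ := (hmemB x).mp hx
      obtain ⟨b, hb, rfl⟩ := (hmemB y).mp hy
      have := hAcomm a ha b hb
      calc g * a * g⁻¹ * (g * b * g⁻¹) = g * (a * b) * g⁻¹ := by group
        _ = g * (b * a) * g⁻¹ := by rw [this]
        _ = g * b * g⁻¹ * (g * a * g⁻¹) := by group
    have hB2 : IsPGroup 2 ↥B := by
      rintro ⟨x, hx⟩
      obtain ⟨a, ha, rfl⟩ := (hmemB x).mp hx
      obtain ⟨k, hk⟩ := hA2 ⟨a, ha⟩
      refine ⟨k, ?_⟩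
      apply Subtype.ext
      have hk' : a ^ (2 ^ k) = 1 := congrArg (fun z : ↥A => (z : G)) hk
      show (g * a * g⁻¹) ^ (2 ^ k) = 1
      rw [conj_pow, hk']; group
    obtain ⟨k, hk⟩ := hA2 ⟨d, hdA⟩
    have hdk : d ^ (2 ^ k) = 1 := congrArg (fun z : ↥A => (z : G)) hk
    have hdN : ∀ b ∈ B, d * b * d⁻¹ ∈ B := by
      intro b hb
      exact (Subgroup.mem_normalizer_iff.mp hdNB b).mp hb
    -- first half: B normalizes A
    have hBA := half A B hB2 hBcomm hAB hti d hdA hdN k hdk hd2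
    -- TI property of B
    have htiB : ∀ h : G, B.map (MulAut.conj h).toMonoidHom = B ∨ B.map (MulAut.conj h).toMonoidHom ⊓ B = ⊥ := by
      intro h
      have hmap : ∀ u : G, (A.map (MulAut.conj u).toMonoidHom).map (MulAut.conj g).toMonoidHom
          = B.map (MulAut.conj (g * u * g⁻¹)).toMonoidHom := by
        intro u
        rw [hB, Subgroup.map_map, Subgroup.map_map]
        congr 1
        ext x
        simp [MulAut.conj_apply]
        group
      have h1 := hmap (g⁻¹ * h * g)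
      have h2 : g * (g⁻¹ * h * g) * g⁻¹ = h := by group
      rw [h2] at h1
      rcases hti (g⁻¹ * h * g) with h3 | h3
      · left
        rw [← h1, h3]
      · right
        rw [← h1, hB, ← Subgroup.map_inf _ _ _ (MulAut.conj g).injective, h3, Subgroup.map_bot]
    -- second half, with d' = g d g⁻¹
    have hd'B : g * d * g⁻¹ ∈ B := (hmemB _).mpr ⟨d, hdA, rfl⟩
    have hd'N : ∀ a ∈ A, (g * d * g⁻¹) * a * (g * d * g⁻¹)⁻¹ ∈ A := hBA _ hd'B
    have hd'k : (g * d * g⁻¹) ^ (2 ^ k) = 1 := by rw [conj_pow, hdk]; group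
    have hd'2 : (g * d * g⁻¹) ^ 2 ≠ 1 := by
      rw [conj_pow]
      intro h
      apply hd2
      have : d ^ 2 = g⁻¹ * (g * d ^ 2 * g⁻¹) * g := by group
      rw [this, h]; group
    have hAB' := half B A hA2 hAcomm (fun x hx hx' => hAB x hx' hx) htiB (g * d * g⁻¹) hd'B hd'N k hd'k hd'2
    -- commutators
    rw [eq_bot_iff, Subgroup.commutator_le]
    intro a ha b hb
    rw [Subgroup.mem_bot]
    apply hAB
    · rw [commutatorElement_def]
      have := hBA b hb a⁻¹ (A.inv_mem ha)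
      have h2 : a * b * a⁻¹ * b⁻¹ = a * (b * a⁻¹ * b⁻¹) := by group
      rw [h2]; exact A.mul_mem ha this
    · rw [commutatorElement_def]
      exact B.mul_mem (hAB' a ha b hb) (B.inv_mem hb)

end Cfsg.Agent.S1781
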