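import Cfsg.Statements.S1782
import Mathlib.GroupTheory.Nilpotent
import Mathlib.GroupTheory.Sylow

set_option autoImplicit false
open Cfsg

namespace Cfsg.Agent.S1782

/-- `R` and its conjugate by `s` commute elementwise and meet trivially. -/
def Far {G : Type*} [Group G] (R : Subgroup G) (s : G) : Prop :=
  (∀ r ∈ R, ∀ r' ∈ R, r * (s * r' * s⁻¹) = s * r' * s⁻¹ * r) ∧ (∀ r ∈ R, s * r * s⁻¹ ∈ R → r = 1)

theorem mem_normalizer_of_comm {G : Type*} [Group G] (R : Subgroup G) (t : G)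
    (h : ∀ r ∈ R, t * r = r * t) : t ∈ Subgroup.normalizer (R : Set G) := by
  rw [Subgroup.mem_normalizer_iff]
  intro x
  constructor
  · intro hx
    have : t * x * t⁻¹ = x := by rw [h x hx]; group
    rw [this]; exact hx
  · intro hx
    have h1 := h _ hx
    have : x = t * x * t⁻¹ := by
      calc x = t⁻¹ * (t * x * t⁻¹ * t) := by group
        _ = t⁻¹ * (t * (t * x * t⁻¹)) := by rw [h1]
        _ = t * x * t⁻¹ := by group
    rw [this]; exact hx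

theorem one_sided {G : Type*} [Group G] [Finite G] (R T : Subgroup G)
    (hcard : Nat.card R = Nat.card T)
    (hRT : ∀ x, x ∈ R → x ∈ T → x = 1)
    (hR : ∀ t ∈ T, t ∈ Subgroup.normalizer (R : Set G) ∨ Far R t)
    (hRN : R ≤ Subgroup.normalizer (T : Set G)) :
    T ≤ Subgroup.normalizer (R : Set G) := by
  intro t ht
  by_contra hn
  rcases hR t ht with h | ⟨hc, hd⟩
  · exact hn h
  have hu : ∀ r ∈ R, r⁻¹ * (t * r * t⁻¹) ∈ T := by
    intro r hr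
    have h1 := (Subgroup.mem_normalizer_iff.mp (hRN (R.inv_mem hr)) t).mp ht
    have h2 : r⁻¹ * (t * r * t⁻¹) = r⁻¹ * t * r⁻¹⁻¹ * t⁻¹ := by group
    rw [h2]; exact T.mul_mem h1 (T.inv_mem ht)
  have hab : ∀ r ∈ R, ∀ r' ∈ R, r * r' = r' * r := by
    intro r hr r' hr'
    -- use u for r⁻¹
    have hu1 := hu r⁻¹ (R.inv_mem hr)
    have h1 := (Subgroup.mem_normalizer_iff.mp (hRN hr') _).mp hu1
    have h2 := T.mul_mem h1 (T.inv_mem hu1)
    have hc1 := hc r'⁻¹ (R.inv_mem hr') r⁻¹ (R.inv_mem hr)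
    have h3 : r' * (r⁻¹⁻¹ * (t * r⁻¹ * t⁻¹)) * r'⁻¹ * (r⁻¹⁻¹ * (t * r⁻¹ * t⁻¹))⁻¹ = r' * r * r'⁻¹ * r⁻¹ := by
      calc r' * (r⁻¹⁻¹ * (t * r⁻¹ * t⁻¹)) * r'⁻¹ * (r⁻¹⁻¹ * (t * r⁻¹ * t⁻¹))⁻¹
          = r' * r * ((t * r⁻¹ * t⁻¹) * r'⁻¹) * (t * r⁻¹ * t⁻¹)⁻¹ * r⁻¹ := by group
        _ = r' * r * (r'⁻¹ * (t * r⁻¹ * t⁻¹)) * (t * r⁻¹ * t⁻¹)⁻¹ * r⁻¹ := by rw [hc1]
        _ = r' * r * r'⁻¹ * r⁻¹ := by group
    rw [h3] at h2
    have h4 : r' * r * r'⁻¹ * r⁻¹ ∈ R := R.mul_mem (R.mul_mem (R.mul_mem hr' hr) (R.inv_mem hr')) (R.inv_mem hr)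
    have h5 := hRT _ h4 h2
    calc r * r' = (r' * r * r'⁻¹ * r⁻¹)⁻¹ * (r' * r) := by group
      _ = r' * r := by rw [h5]; group
  let φ : ↥R → ↥T := fun r => ⟨(r : G)⁻¹ * (t * r * t⁻¹), hu r r.2⟩
  have hinj : Function.Injective φ := by
    intro r r' h
    have h1 : (r : G)⁻¹ * (t * r * t⁻¹) = (r' : G)⁻¹ * (t * r' * t⁻¹) := congrArg (fun x : ↥T => (x : G)) h
    have h2 : t * ((r' : G) * (r : G)⁻¹) * t⁻¹ = (r' : G) * (r : G)⁻¹ := by
      calc t * ((r' : G) * (r : G)⁻¹) * t⁻¹ = (r' : G) * ((r' : G)⁻¹ * (t * r' * t⁻¹)) * (t * (r : G)⁻¹ * t⁻¹) := by group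
        _ = (r' : G) * ((r : G)⁻¹ * (t * r * t⁻¹)) * (t * (r : G)⁻¹ * t⁻¹) := by rw [h1]
        _ = (r' : G) * (r : G)⁻¹ := by group
    have h3 : (r' : G) * (r : G)⁻¹ ∈ R := R.mul_mem r'.2 (R.inv_mem r.2)
    have h4 := hd _ h3 (by rw [h2]; exact h3)
    apply Subtype.ext
    have : (r : G) = ((r' : G) * (r : G)⁻¹)⁻¹ * r' := by group
    rw [this, h4]; group
  have hbij := hinj.bijective_of_nat_card_le (le_of_eq hcard.symm)
  obtain ⟨r₀, hr₀⟩ := hbij.2 ⟨t, ht⟩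
  have hr₀' : (r₀ : G)⁻¹ * (t * r₀ * t⁻¹) = t := congrArg (fun x : ↥T => (x : G)) hr₀
  apply hn
  apply mem_normalizer_of_comm
  intro r hr
  have hc1 := hc r hr r₀ r₀.2
  have hab1 := hab r hr (r₀ : G)⁻¹ (R.inv_mem r₀.2)
  calc t * r = (r₀ : G)⁻¹ * (t * r₀ * t⁻¹) * r := by rw [hr₀']
    _ = (r₀ : G)⁻¹ * (t * r₀ * t⁻¹ * r) := by group
    _ = (r₀ : G)⁻¹ * (r * (t * r₀ * t⁻¹)) := by rw [hc1]
    _ = ((r₀ : G)⁻¹ * r) * (t * r₀ * t⁻¹) := by group
    _ = (r * (r₀ : G)⁻¹) * (t * r₀ * t⁻¹) := by rw [hab1]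
    _ = r * ((r₀ : G)⁻¹ * (t * r₀ * t⁻¹)) := by group
    _ = r * t := by rw [hr₀']


theorem triv_norm {G : Type*} [Group G] [Finite G] (R T : Subgroup G) (hR2 : IsPGroup 2 ↥R)
    (hR : ∀ t ∈ T, t ∈ Subgroup.normalizer (R : Set G) ∨ Far R t)
    (hT : ∀ r ∈ R, r ∈ Subgroup.normalizer (T : Set G) ∨ Far T r)
    (hRN : ¬ R ≤ Subgroup.normalizer (T : Set G)) (hTN : ¬ T ≤ Subgroup.normalizer (R : Set G)) :
    ∀ r ∈ R, r ∈ Subgroup.normalizer (T : Set G) → r = 1 := by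
  intro r₁ hr₁ hr₁N
  by_contra hne
  obtain ⟨r', hr', hr'N⟩ := SetLike.not_le_iff_exists.mp hRN
  obtain ⟨t, ht, htN⟩ := SetLike.not_le_iff_exists.mp hTN
  -- a pair r ∉ N(T), r₀ ∈ R ∩ N(T), r₀ ≠ 1, commuting
  have hpair : ∃ r ∈ R, r ∉ Subgroup.normalizer (T : Set G) ∧ ∃ r₀ ∈ R, r₀ ∈ Subgroup.normalizer (T : Set G) ∧
      r₀ ≠ 1 ∧ r * r₀ = r₀ * r := by
    have : Nontrivial ↥R := ⟨⟨⟨r₁, hr₁⟩, 1, fun h => hne (congrArg (fun x : ↥R => (x : G)) h)⟩⟩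
    have : Fact (Nat.Prime 2) := ⟨Nat.prime_two⟩
    have hZ : Nontrivial (Subgroup.center ↥R) := hR2.center_nontrivial
    obtain ⟨⟨z, hz⟩, hz1⟩ := exists_ne (1 : Subgroup.center ↥R)
    have hz1' : (z : G) ≠ 1 := by
      intro h
      apply hz1
      apply Subtype.ext
      apply Subtype.ext
      exact h
    have hzc : ∀ x ∈ R, x * (z : G) = (z : G) * x := by
      intro x hx
      have := Subgroup.mem_center_iff.mp hz ⟨x, hx⟩
      exact congrArg (fun y : ↥R => (y : G)) this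
    by_cases hzN : (z : G) ∈ Subgroup.normalizer (T : Set G)
    · exact ⟨r', hr', hr'N, z, z.2, hzN, hz1', hzc r' hr'⟩
    · exact ⟨z, z.2, hzN, r₁, hr₁, hr₁N, hne, (hzc r₁ hr₁).symm⟩
  obtain ⟨r, hr, hrN, r₀, hr₀, hr₀N, hr₀1, hcomm⟩ := hpair
  rcases hR t ht with h | ⟨hc, hd⟩
  · exact htN h
  rcases hT r hr with h | ⟨hc', hd'⟩
  · exact hrN h
  have hu : r₀⁻¹ * (t * r₀ * t⁻¹) ∈ T := by
    have h1 := (Subgroup.mem_normalizer_iff.mp ((Subgroup.normalizer (T : Set G)).inv_mem hr₀N) t).mp ht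
    have h2 : r₀⁻¹ * (t * r₀ * t⁻¹) = r₀⁻¹ * t * r₀⁻¹⁻¹ * t⁻¹ := by group
    rw [h2]; exact T.mul_mem h1 (T.inv_mem ht)
  have hu1 : r₀⁻¹ * (t * r₀ * t⁻¹) ≠ 1 := by
    intro h
    apply hr₀1
    apply hd r₀ hr₀
    have : t * r₀ * t⁻¹ = r₀ := by
      calc t * r₀ * t⁻¹ = r₀ * (r₀⁻¹ * (t * r₀ * t⁻¹)) := by group
        _ = r₀ := by rw [h, mul_one]
    rw [this]; exact hr₀
  apply hu1
  apply hd' _ hu
  have hc1 := hc r⁻¹ (R.inv_mem hr) r₀ hr₀
  have hcomm' : r * r₀⁻¹ * r⁻¹ = r₀⁻¹ := by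
    calc r * r₀⁻¹ * r⁻¹ = r₀⁻¹ * (r₀ * r) * r₀⁻¹ * r⁻¹ := by group
      _ = r₀⁻¹ * (r * r₀) * r₀⁻¹ * r⁻¹ := by rw [hcomm]
      _ = r₀⁻¹ := by group
  have : r * (r₀⁻¹ * (t * r₀ * t⁻¹)) * r⁻¹ = r₀⁻¹ * (t * r₀ * t⁻¹) := by
    calc r * (r₀⁻¹ * (t * r₀ * t⁻¹)) * r⁻¹ = r * r₀⁻¹ * ((t * r₀ * t⁻¹) * r⁻¹) := by group
      _ = r * r₀⁻¹ * (r⁻¹ * (t * r₀ * t⁻¹)) := by rw [hc1]
      _ = (r * r₀⁻¹ * r⁻¹) * (t * r₀ * t⁻¹) := by group
      _ = r₀⁻¹ * (t * r₀ * t⁻¹) := by rw [hcomm']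
  rw [this]; exact hu

theorem exists_invol {G : Type*} [Group G] (T : Subgroup G) (hT2 : IsPGroup 2 ↥T)
    (x : G) (hx : x ∈ T) (hx1 : x ≠ 1) : ∃ t ∈ T, t ≠ 1 ∧ t * t = 1 := by
  obtain ⟨k, hk⟩ := hT2 ⟨x, hx⟩
  have hk' : x ^ (2 ^ k) = 1 := congrArg (fun y : ↥T => (y : G)) hk
  classical
  let m := Nat.find (⟨k, hk'⟩ : ∃ k, x ^ (2 ^ k) = 1)
  have hm : x ^ (2 ^ m) = 1 := Nat.find_spec (⟨k, hk'⟩ : ∃ k, x ^ (2 ^ k) = 1)
  have hm0 : m ≠ 0 := by
    intro h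
    rw [h] at hm
    simp at hm
    exact hx1 hm
  obtain ⟨j, hj⟩ := Nat.exists_eq_succ_of_ne_zero hm0
  refine ⟨x ^ (2 ^ j), T.pow_mem hx _, ?_, ?_⟩
  · intro h
    have := Nat.find_min (⟨k, hk'⟩ : ∃ k, x ^ (2 ^ k) = 1) (show j < m by omega)
    exact this h
  · have h2 : 2 ^ j + 2 ^ j = 2 ^ m := by rw [hj, Nat.succ_eq_add_one, pow_succ]; ring
    rw [← pow_add, h2]; exact hm

theorem core {G : Type*} [Group G] [Finite G] (R T : Subgroup G)
    (hR2 : IsPGroup 2 ↥R) (hT2 : IsPGroup 2 ↥T)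
    (hcard : Nat.card R = Nat.card T)
    (hRT : ∀ x, x ∈ R → x ∈ T → x = 1)
    (hR : ∀ t ∈ T, t ∈ Subgroup.normalizer (R : Set G) ∨ Far R t)
    (hT : ∀ r ∈ R, r ∈ Subgroup.normalizer (T : Set G) ∨ Far T r)
    (hRsq : ∃ r ∈ R, r ^ 2 ≠ 1) (hTsq : ∃ t ∈ T, t ^ 2 ≠ 1) :
    ∀ r ∈ R, ∀ t ∈ T, r * t = t * r := by
  by_cases h1 : R ≤ Subgroup.normalizer (T : Set G)
  · have h2 := one_sided R T hcard hRT hR h1
    intro r hr t ht
    have h3 : r * t * r⁻¹ * t⁻¹ ∈ T :=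
      T.mul_mem ((Subgroup.mem_normalizer_iff.mp (h1 hr) t).mp ht) (T.inv_mem ht)
    have h4 : r * t * r⁻¹ * t⁻¹ ∈ R := by
      have := (Subgroup.mem_normalizer_iff.mp (h2 ht) r⁻¹).mp (R.inv_mem hr)
      have h5 : r * t * r⁻¹ * t⁻¹ = r * (t * r⁻¹ * t⁻¹) := by group
      rw [h5]; exact R.mul_mem hr this
    have h6 := hRT _ h4 h3
    calc r * t = (r * t * r⁻¹ * t⁻¹) * (t * r) := by group
      _ = t * r := by rw [h6, one_mul]
  · exfalso
    have h2 : ¬ T ≤ Subgroup.normalizer (R : Set G) := by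
      intro h
      exact h1 (one_sided T R hcard.symm (fun x hx hx' => hRT x hx' hx) hT h)
    have hRtriv := triv_norm R T hR2 hR hT h1 h2
    have hTtriv := triv_norm T R hT2 hT hR h2 h1
    obtain ⟨r, hr, hrsq⟩ := hRsq
    obtain ⟨t₁, ht₁, ht₁sq⟩ := hTsq
    have ht₁1 : t₁ ≠ 1 := by
      intro h; rw [h] at ht₁sq; simp at ht₁sq
    have hr1 : r ≠ 1 := by
      intro h; rw [h] at hrsq; simp at hrsq
    obtain ⟨t, ht, ht1, htt⟩ := exists_invol T hT2 t₁ ht₁ ht₁1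
    have htinv : t⁻¹ = t := inv_eq_of_mul_eq_one_left htt
    have hrN : r ∉ Subgroup.normalizer (T : Set G) := fun h => hr1 (hRtriv r hr h)
    have htN : t ∉ Subgroup.normalizer (R : Set G) := fun h => ht1 (hTtriv t ht h)
    rcases hR t ht with h | ⟨hc, hd⟩
    · exact htN h
    rcases hT r hr with h | ⟨hc', hd'⟩
    · exact hrN h
    have e1 := hc r hr r hr
    have e2 := hc' t ht t ht
    -- a = t r t⁻¹
    have e3 : (t * r * t⁻¹) * r⁻¹ = r * (t * r * t⁻¹)⁻¹ := by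
      calc (t * r * t⁻¹) * r⁻¹ = t * (r * t * r⁻¹) := by rw [htinv]; group
        _ = r * t * r⁻¹ * t := by rw [e2]
        _ = r * (t * r * t⁻¹)⁻¹ := by
          have : (t * r * t⁻¹)⁻¹ = t * r⁻¹ * t := by
            rw [mul_inv_rev, mul_inv_rev, inv_inv, htinv, mul_assoc]
          rw [this]; group
    have e4 : (t * r * t⁻¹) * (t * r * t⁻¹) = r * r := by
      calc (t * r * t⁻¹) * (t * r * t⁻¹) = ((t * r * t⁻¹) * r⁻¹) * (r * (t * r * t⁻¹)) := by group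
        _ = (r * (t * r * t⁻¹)⁻¹) * ((t * r * t⁻¹) * r) := by rw [e3, e1]
        _ = r * r := by group
    apply hrsq
    apply hd _ (R.pow_mem hr 2)
    have : t * r ^ 2 * t⁻¹ = r ^ 2 := by
      calc t * r ^ 2 * t⁻¹ = (t * r * t⁻¹) * (t * r * t⁻¹) := by rw [pow_two]; group
        _ = r * r := e4
        _ = r ^ 2 := (pow_two r).symm
    rw [this]; exact R.pow_mem hr 2


theorem frattini_eq_bot_of_sq {P : Type*} [Group P] [Finite P] (h : ∀ x : P, x ^ 2 = 1) :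
    frattini P = ⊥ := by
  have hinv : ∀ a : P, a⁻¹ = a := fun a => inv_eq_of_mul_eq_one_left (by rw [← pow_two]; exact h a)
  have hcomm : ∀ a b : P, a * b = b * a := by
    intro a b
    calc a * b = (a * b)⁻¹ := (hinv _).symm
      _ = b⁻¹ * a⁻¹ := mul_inv_rev a b
      _ = b * a := by rw [hinv, hinv]
  rw [eq_bot_iff]
  intro x hx
  rw [Subgroup.mem_bot]
  by_contra hx1
  obtain ⟨K, hK⟩ := (Set.toFinite {K : Subgroup P | x ∉ K}).exists_maximal
    ⟨⊥, by simpa [Subgroup.mem_bot] using hx1⟩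
  have hxK : x ∉ K := hK.prop
  have hmax : ∀ L : Subgroup P, K ≤ L → x ∉ L → L ≤ K := fun L hKL hxL => hK.le_of_ge hxL hKL
  have htop : K ⊔ Subgroup.zpowers x = ⊤ := by
    rw [eq_top_iff]
    intro y _
    by_cases hy : y ∈ K
    · exact (le_sup_left : K ≤ K ⊔ Subgroup.zpowers x) hy
    · let M : Subgroup P :=
        { carrier := {g | g ∈ K ∨ g * y ∈ K}
          mul_mem' := by
            rintro a b (ha | ha) (hb | hb)
            · exact Or.inl (K.mul_mem ha hb)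
            · right
              rw [mul_assoc]; exact K.mul_mem ha hb
            · right
              have : a * b * y = (a * y) * b := by rw [mul_assoc, hcomm b y, ← mul_assoc]
              rw [this]; exact K.mul_mem ha hb
            · left
              have : a * b = (a * y) * (b * y) := by
                rw [mul_assoc, ← mul_assoc y b y, hcomm y b, mul_assoc b y y, ← pow_two, h, mul_one]
              rw [this]; exact K.mul_mem ha hb
          one_mem' := Or.inl K.one_mem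
          inv_mem' := by
            intro a ha
            rw [hinv]; exact ha }
      have hKM : K ≤ M := fun g hg => Or.inl hg
      have hyM : y ∈ M := Or.inr (by rw [← pow_two, h]; exact K.one_mem)
      have hxM : x ∈ M := by
        by_contra hxM
        exact hy (hmax M hKM hxM hyM)
      rcases hxM with hxK' | hxy
      · exact absurd hxK' hxK
      · have : y = (x * y) * x := by rw [hcomm x y, mul_assoc, ← pow_two, h, mul_one]
        rw [this]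
        exact Subgroup.mul_mem _ ((le_sup_left : K ≤ K ⊔ Subgroup.zpowers x) hxy)
          ((le_sup_right : Subgroup.zpowers x ≤ K ⊔ Subgroup.zpowers x) (Subgroup.mem_zpowers x))
  have h2 : K ⊔ frattini P = ⊤ := by
    rw [eq_top_iff, ← htop]
    exact sup_le_sup_left ((Subgroup.zpowers_le).mpr hx) K
  have hKtop := frattini_nongenerating h2
  rw [hKtop] at hxK
  exact hxK (Subgroup.mem_top x)

theorem exists_normal_proper {G : Type*} [Group G] [Finite G] (S R : Subgroup G) (hS2 : IsPGroup 2 ↥S)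
    (hRS : R ≤ S) (hne : R ≠ S) :
    ∃ M : Subgroup G, R ≤ M ∧ M ≤ S ∧ M ≠ S ∧ ∀ s ∈ S, ∀ m ∈ M, s * m * s⁻¹ ∈ M := by
  have h1 : R.subgroupOf S ≠ ⊤ := by
    intro h
    rw [Subgroup.subgroupOf_eq_top] at h
    exact hne (le_antisymm hRS h)
  obtain ⟨M₁, hco, hRM⟩ := (eq_top_or_exists_le_coatom (R.subgroupOf S)).resolve_left h1
  have : Fact (Nat.Prime 2) := ⟨Nat.prime_two⟩
  have hnil : Group.IsNilpotent ↥S := hS2.isNilpotent
  have hN : M₁.Normal := Subgroup.NormalizerCondition.normal_of_coatom M₁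
    Group.normalizerCondition_of_isNilpotent hco
  refine ⟨M₁.map S.subtype, ?_, Subgroup.map_subtype_le M₁, ?_, ?_⟩
  · intro r hr
    exact Subgroup.mem_map.mpr ⟨⟨r, hRS hr⟩, hRM (Subgroup.mem_subgroupOf.mpr hr), rfl⟩
  · intro h
    apply hco.1
    rw [eq_top_iff]
    intro x _
    have hx : (x : G) ∈ M₁.map S.subtype := by rw [h]; exact x.2
    obtain ⟨y, hy, hyx⟩ := Subgroup.mem_map.mp hx
    have : y = x := Subtype.ext hyx
    rw [← this]; exact hy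
  · intro s hs m hm
    obtain ⟨m₁, hm₁, rfl⟩ := Subgroup.mem_map.mp hm
    exact Subgroup.mem_map.mpr ⟨⟨s, hs⟩ * m₁ * ⟨s, hs⟩⁻¹, hN.conj_mem m₁ hm₁ ⟨s, hs⟩, rfl⟩

theorem main_aux {G : Type*} [Group G] [Finite G] (Δ : Set (Subgroup G))
    (hΦ : ∀ R ∈ Δ, ∃ r ∈ R, r ^ 2 ≠ 1)
    (hord : ∀ R ∈ Δ, ∀ T ∈ Δ, Nat.card ↥R = Nat.card ↥T)
    (hti : ∀ R ∈ Δ, ∀ T ∈ Δ, R = T ∨ R ⊓ T = ⊥) :
    ∀ n : ℕ, ∀ S : Subgroup G, Nat.card S ≤ n → IsPGroup 2 ↥S →
      (∀ s ∈ S, ∀ R ∈ Δ, R ≤ S → R.map (MulAut.conj s).toMonoidHom ∈ Δ) →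
      ∀ R ∈ Δ, ∀ T ∈ Δ, R ≤ S → T ≤ S → R ≠ T → ∀ r ∈ R, ∀ t ∈ T, r * t = t * r := by
  intro n
  induction n with
  | zero =>
    intro S hS
    exfalso
    have := Nat.card_pos (α := ↥S)
    omega
  | succ n ih =>
    intro S hSn hS2 hinv R hR T hT hRS hTS hne
    have hlt_card : ∀ M : Subgroup G, M ≤ S → M ≠ S → Nat.card ↥M ≤ n := by
      intro M hMS hMne
      by_contra hc
      exact hMne (Subgroup.eq_of_le_of_card_ge hMS (by omega))
    by_cases hH : R ⊔ T = S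
    · have dich : ∀ R ∈ Δ, R ≤ S → R ≠ S → ∀ s ∈ S, s ∈ Subgroup.normalizer (R : Set G) ∨ Far R s := by
        intro R hR hRS hRne s hs
        have hR' := hinv s hs R hR hRS
        rcases hti _ hR' R hR with h | h
        · left
          rw [Subgroup.mem_normalizer_iff_map_conj_eq]
          exact h
        · right
          obtain ⟨M, hRM, hMS, hMne, hMn⟩ := exists_normal_proper S R hS2 hRS hRne
          have hR'M : R.map (MulAut.conj s).toMonoidHom ≤ M := by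
            rintro x ⟨r, hr, rfl⟩
            exact hMn s hs r (hRM hr)
          have hRR' : R ≠ R.map (MulAut.conj s).toMonoidHom := by
            intro heq
            rw [← heq, inf_idem] at h
            obtain ⟨r, hr, hr2⟩ := hΦ R hR
            rw [h, Subgroup.mem_bot] at hr
            rw [hr] at hr2
            simp at hr2
          have key := ih M (hlt_card M hMS hMne) (hS2.to_le hMS)
            (fun s hs R' hR' hR'M => hinv s (hMS hs) R' hR' (hR'M.trans hMS))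
            R hR _ hR' hRM hR'M hRR'
          refine ⟨?_, ?_⟩
          · intro r hr r' hr'
            exact key r hr _ (Subgroup.mem_map.mpr ⟨r', hr', rfl⟩)
          · intro r hr hr'
            have h1 : s * r * s⁻¹ ∈ R.map (MulAut.conj s).toMonoidHom ⊓ R :=
              ⟨Subgroup.mem_map.mpr ⟨r, hr, rfl⟩, hr'⟩
            rw [h, Subgroup.mem_bot] at h1
            calc r = s⁻¹ * (s * r * s⁻¹) * s := by group
              _ = 1 := by rw [h1]; group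
      have hRne : R ≠ S := by
        intro h
        apply hne
        rw [h]
        exact (Subgroup.eq_of_le_of_card_ge hTS (le_of_eq (by rw [← h]; exact hord R hR T hT))).symm
      have hTne : T ≠ S := by
        intro h
        apply hne
        rw [h]
        exact Subgroup.eq_of_le_of_card_ge hRS (le_of_eq (by rw [← h]; exact hord T hT R hR))
      have hRT : ∀ x, x ∈ R → x ∈ T → x = 1 := by
        intro x hxR hxT
        rcases hti R hR T hT with h | h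
        · exact absurd h hne
        · have : x ∈ R ⊓ T := ⟨hxR, hxT⟩
          rw [h] at this
          exact Subgroup.mem_bot.mp this
      exact core R T (hS2.to_le hRS) (hS2.to_le hTS) (hord R hR T hT) hRT
        (fun t ht => dich R hR hRS hRne t (hTS ht)) (fun r hr => dich T hT hTS hTne r (hRS hr))
        (hΦ R hR) (hΦ T hT)
    · have hle : R ⊔ T ≤ S := sup_le hRS hTS
      exact ih (R ⊔ T) (hlt_card _ hle hH) (hS2.to_le hle)
        (fun s hs R' hR' hR'S => hinv s (hle hs) R' hR' (hR'S.trans hle))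
        R hR T hT le_sup_left le_sup_right hne

theorem result {S : Type*} [Group S] [Finite S] (hS : IsPGroup 2 S)
    (Δ : Set (Subgroup S)) (hinv : ∀ s : S, ∀ R ∈ Δ, R.map (MulAut.conj s).toMonoidHom ∈ Δ)
    (hΦ : ∀ R ∈ Δ, frattini ↥R ≠ ⊥) (hord : ∀ R ∈ Δ, ∀ T ∈ Δ, Nat.card ↥R = Nat.card ↥T)
    (hti : ∀ R ∈ Δ, ∀ T ∈ Δ, R = T ∨ R ⊓ T = ⊥) :
    ∀ R ∈ Δ, ∀ T ∈ Δ, R ≠ T → ⁅R, T⁆ = ⊥ := by
  have hΦ' : ∀ R ∈ Δ, ∃ r ∈ R, r ^ 2 ≠ 1 := by
    intro R hR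
    by_contra hcon
    push Not at hcon
    apply hΦ R hR
    apply frattini_eq_bot_of_sq
    intro x
    apply Subtype.ext
    exact hcon x x.2
  intro R hR T hT hne
  have key := main_aux Δ hΦ' hord hti (Nat.card S) ⊤ (by rw [Subgroup.card_top])
    (hS.to_subgroup ⊤) (fun s _ R hR _ => hinv s R hR) R hR T hT le_top le_top hne
  rw [Subgroup.commutator_eq_bot_iff_le_centralizer]
  intro r hr
  rw [Subgroup.mem_centralizer_iff]
  intro t ht
  exact (key r hr t ht).symm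

end Cfsg.Agent.S1782
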