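import Cfsg.Statements.S1783
import Cfsg.Agent.S1782
import Cfsg.Agent.Lib.Helper30.NoComp

set_option autoImplicit false
open Cfsg

namespace Cfsg.Agent.S1783

open Cfsg.Agent.Lib.Helper78.Fitting

/-- In a finite 2-group, squares lie in the Frattini subgroup. -/
theorem sq_mem_frattini {P : Type*} [Group P] [Finite P] (hP : IsPGroup 2 P) (x : P) :
    x ^ 2 ∈ frattini P := by
  have : Fact (Nat.Prime 2) := ⟨Nat.prime_two⟩
  have hnil : Group.IsNilpotent P := hP.isNilpotent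
  unfold frattini Order.radical
  simp only [Subgroup.mem_iInf]
  intro M hM
  have hMn : M.Normal := Subgroup.NormalizerCondition.normal_of_coatom M
    Group.normalizerCondition_of_isNilpotent hM
  have hq2 : IsPGroup 2 (P ⧸ M) := hP.to_quotient M
  have hnt : Nontrivial (P ⧸ M) := QuotientGroup.nontrivial_iff.mpr hM.1
  -- an element of order 2 in the quotient
  have hdvd : 2 ∣ Nat.card (P ⧸ M) := by
    obtain ⟨n, hn⟩ := IsPGroup.iff_card.mp hq2
    have hn0 : n ≠ 0 := by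
      rintro rfl
      rw [pow_zero] at hn
      have := Finite.one_lt_card (α := P ⧸ M)
      omega
    rw [hn]; exact dvd_pow_self 2 hn0
  obtain ⟨z, hz⟩ := exists_prime_orderOf_dvd_card' 2 hdvd
  have hL : (Subgroup.zpowers z).comap (QuotientGroup.mk' M) = ⊤ := by
    apply hM.2
    apply lt_of_le_of_ne
    · intro m hm
      rw [Subgroup.mem_comap]
      have : (QuotientGroup.mk' M) m = 1 := (QuotientGroup.eq_one_iff m).mpr hm
      rw [this]; exact one_mem _
    · intro heq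
      obtain ⟨w, hw⟩ := QuotientGroup.mk'_surjective M z
      have hwL : w ∈ (Subgroup.zpowers z).comap (QuotientGroup.mk' M) := by
        rw [Subgroup.mem_comap, hw]; exact Subgroup.mem_zpowers z
      rw [← heq] at hwL
      have : z = 1 := by rw [← hw]; exact (QuotientGroup.eq_one_iff w).mpr hwL
      rw [this, orderOf_one] at hz
      omega
  have hxz : (QuotientGroup.mk' M) x ∈ Subgroup.zpowers z := by
    have : x ∈ (Subgroup.zpowers z).comap (QuotientGroup.mk' M) := by rw [hL]; trivial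
    exact this
  obtain ⟨k, hk⟩ := Subgroup.mem_zpowers_iff.mp hxz
  have h2 : ((QuotientGroup.mk' M) x) ^ 2 = 1 := by
    rw [← hk, ← zpow_natCast, ← zpow_mul, mul_comm, zpow_mul, zpow_natCast, ← hz, pow_orderOf_eq_one, one_zpow]
  rw [← map_pow] at h2
  exact (QuotientGroup.eq_one_iff _).mp h2


/-- An element `y` with `y ^ r = 1`, `r` an odd prime, acting trivially on `Q / Φ(Q)` for a normal
2-subgroup `Q`, centralizes `Q`. -/
theorem centralizes_of_frattini {X : Type*} [Group X] [Finite X] (Q : Subgroup X) [hQn : Q.Normal]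
    (y : X) (r : ℕ) (hr : r.Prime) (hr2 : r ≠ 2) (hy : y ^ r = 1)
    (hact : ∀ q ∈ Q, y * q * y⁻¹ * q⁻¹ ∈ (frattini ↥Q).map Q.subtype) (hQ2 : IsPGroup 2 ↥Q) :
    ∀ q ∈ Q, y * q = q * y := by
  classical
  set F : Subgroup X := (frattini ↥Q).map Q.subtype with hF
  have hFn : F.Normal := ConjAct.normal_of_characteristic_of_normal
  have hFQ : F ≤ Q := Subgroup.map_subtype_le _
  have hF2 : IsPGroup 2 ↥F := (hQ2.to_subgroup (frattini ↥Q)).map Q.subtype
  have : Fact r.Prime := ⟨hr⟩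
  have hfix : ∀ q ∈ Q, ∃ f ∈ F, y * (q * f) * y⁻¹ = q * f := by
    intro q hq
    have hmem : ∀ f : ↥F, q⁻¹ * y * q * (f : X) * y⁻¹ ∈ F := by
      intro f
      have h1 : q⁻¹ * y * q * y⁻¹ ∈ F := by
        have := hFn.conj_mem _ (hact q hq) q⁻¹
        have e : q⁻¹ * (y * q * y⁻¹ * q⁻¹) * q⁻¹⁻¹ = q⁻¹ * y * q * y⁻¹ := by group
        rw [e] at this; exact this
      have h2 : y * (f : X) * y⁻¹ ∈ F := hFn.conj_mem _ f.2 y
      have e : q⁻¹ * y * q * (f : X) * y⁻¹ = (q⁻¹ * y * q * y⁻¹) * (y * (f : X) * y⁻¹) := by group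
      rw [e]; exact F.mul_mem h1 h2
    let σf : ↥F → ↥F := fun f => ⟨q⁻¹ * y * q * (f : X) * y⁻¹, hmem f⟩
    have hinj : Function.Injective σf := by
      intro f g hfg
      have h1 : q⁻¹ * y * q * (f : X) * y⁻¹ = q⁻¹ * y * q * (g : X) * y⁻¹ :=
        congrArg (fun z : ↥F => (z : X)) hfg
      apply Subtype.ext
      have h2 := mul_right_cancel h1
      exact mul_left_cancel h2
    let σ : Equiv.Perm ↥F := Equiv.ofBijective σf (Finite.injective_iff_bijective.mp hinj)
    have hσ : ∀ n : ℕ, ∀ f : ↥F, (((σ ^ n) f : ↥F) : X) = q⁻¹ * y ^ n * q * (f : X) * (y ^ n)⁻¹ := by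
      intro n
      induction n with
      | zero => intro f; simp
      | succ n ih =>
        intro f
        rw [pow_succ', Equiv.Perm.mul_apply]
        show q⁻¹ * y * q * (((σ ^ n) f : ↥F) : X) * y⁻¹ = _
        rw [ih f, pow_succ']
        group
    have hσr : σ ^ r ^ 1 = 1 := by
      ext f
      rw [pow_one, hσ r f, hy]
      simp
    haveI : Fintype ↥F := Fintype.ofFinite _
    have hcard : ¬ r ∣ Fintype.card ↥F := by
      intro hdvd
      rw [← Nat.card_eq_fintype_card] at hdvd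
      obtain ⟨n, hn⟩ := IsPGroup.iff_card.mp hF2
      rw [hn] at hdvd
      have := (Nat.prime_dvd_prime_iff_eq hr Nat.prime_two).mp (hr.dvd_of_dvd_pow hdvd)
      exact hr2 this
    obtain ⟨f, hf⟩ := Equiv.Perm.exists_fixed_point_of_prime hcard hσr
    refine ⟨f, f.2, ?_⟩
    have h1 : q⁻¹ * y * q * (f : X) * y⁻¹ = (f : X) := congrArg (fun z : ↥F => (z : X)) hf
    calc y * (q * (f : X)) * y⁻¹ = q * (q⁻¹ * y * q * (f : X) * y⁻¹) := by group
      _ = q * f := by rw [h1]
  -- the centralizer of y in Q together with the Frattini subgroup generates Q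
  set K : Subgroup ↥Q := (Subgroup.centralizer ({y} : Set X)).subgroupOf Q with hK
  have hsup : K ⊔ frattini ↥Q = ⊤ := by
    rw [eq_top_iff]
    intro q _
    obtain ⟨f, hf, hfix'⟩ := hfix q q.2
    obtain ⟨f', hf', rfl⟩ := Subgroup.mem_map.mp hf
    have h1 : q * f' ∈ K := by
      rw [hK, Subgroup.mem_subgroupOf, Subgroup.mem_centralizer_iff]
      intro z hz
      rw [Set.mem_singleton_iff] at hz
      rw [hz]
      have : y * ((q : X) * (f' : X)) * y⁻¹ = (q : X) * (f' : X) := hfix'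
      show y * ((q : X) * (f' : X)) = (q : X) * (f' : X) * y
      calc y * ((q : X) * (f' : X)) = (y * ((q : X) * (f' : X)) * y⁻¹) * y := by group
        _ = (q : X) * (f' : X) * y := by rw [this]
    have h2 : q = (q * f') * f'⁻¹ := by group
    rw [h2]
    exact Subgroup.mul_mem _ ((le_sup_left : K ≤ K ⊔ frattini ↥Q) h1)
      ((le_sup_right : frattini ↥Q ≤ K ⊔ frattini ↥Q) (Subgroup.inv_mem _ hf'))
  have hKtop : K = ⊤ := frattini_nongenerating hsup
  intro q hq
  have : (⟨q, hq⟩ : ↥Q) ∈ K := by rw [hKtop]; trivial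
  rw [hK, Subgroup.mem_subgroupOf, Subgroup.mem_centralizer_iff] at this
  exact this y rfl


/-- The subgroup generated by squares. -/
def sqSub {X : Type*} [Group X] (R : Subgroup X) : Subgroup X :=
  Subgroup.closure ((fun a : X => a ^ 2) '' (R : Set X))

theorem sqSub_le {X : Type*} [Group X] (R : Subgroup X) : sqSub R ≤ R := by
  unfold sqSub
  rw [Subgroup.closure_le]
  rintro _ ⟨a, ha, rfl⟩
  exact R.pow_mem ha 2

theorem sqSub_map {X : Type*} [Group X] (R : Subgroup X) (f : X →* X) :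
    (sqSub R).map f = sqSub (R.map f) := by
  unfold sqSub
  rw [MonoidHom.map_closure, Subgroup.coe_map, Set.image_image, Set.image_image]
  congr 1
  ext x
  simp only [Set.mem_image, map_pow]

theorem map_conj_conj {X : Type*} [Group X] (A : Subgroup X) (a b : X) :
    (A.map (MulAut.conj a).toMonoidHom).map (MulAut.conj b).toMonoidHom =
      A.map (MulAut.conj (b * a)).toMonoidHom := by
  rw [Subgroup.map_map]
  congr 1
  ext x
  simp [MulAut.conj_apply, mul_assoc]

theorem ti_conj {X : Type*} [Group X] (A : Subgroup X)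
    (hti : ∀ h : X, A.map (MulAut.conj h).toMonoidHom = A ∨
      A.map (MulAut.conj h).toMonoidHom ⊓ A = ⊥)
    (g h : X) : A.map (MulAut.conj g).toMonoidHom = A.map (MulAut.conj h).toMonoidHom ∨
      A.map (MulAut.conj g).toMonoidHom ⊓ A.map (MulAut.conj h).toMonoidHom = ⊥ := by
  have hone : A.map (MulAut.conj (1 : X)).toMonoidHom = A := by
    ext x
    simp
  rcases hti (h⁻¹ * g) with h1 | h1
  · left
    have this : (A.map (MulAut.conj (h⁻¹ * g)).toMonoidHom).map (MulAut.conj h).toMonoidHom =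
        A.map (MulAut.conj h).toMonoidHom := by rw [h1]
    rw [map_conj_conj, mul_inv_cancel_left] at this
    exact this
  · right
    have this : (A.map (MulAut.conj (h⁻¹ * g)).toMonoidHom ⊓ A).map (MulAut.conj h).toMonoidHom =
        (⊥ : Subgroup X).map (MulAut.conj h).toMonoidHom := by rw [h1]
    rw [Subgroup.map_inf _ _ _ (MulAut.conj h).injective, map_conj_conj, mul_inv_cancel_left,
      Subgroup.map_bot] at this
    exact this

theorem result {X : Type*} [Group X] [Finite X]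
    (hX : Cfsg.generalizedFittingSubgroup X = Cfsg.pCore 2 X) (A : Subgroup X) (hA2 : IsPGroup 2 ↥A) (hAa : IsMulCommutative ↥A)
    (hti : ∀ h : X, A.map (MulAut.conj h).toMonoidHom = A ∨ A.map (MulAut.conj h).toMonoidHom ⊓ A = ⊥) :
    Subgroup.closure ((fun a : X => a ^ 2) '' (A : Set X)) ≤ Cfsg.pCore 2 X ∧
      (¬ Cfsg.IsElementaryAbelian 2 (Subgroup.closure ((fun a : X => a ^ 2) '' (A : Set X))) →
        IsMulCommutative ↥(Subgroup.normalClosure ((fun a : X => a ^ 2) '' (A : Set X)))) := by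
  classical
  have hp2 : Fact (Nat.Prime 2) := ⟨Nat.prime_two⟩
  set Q : Subgroup X := Cfsg.pCore 2 X with hQ
  have hQn : Q.Normal := Cfsg.pCore_normal 2 X
  have hQ2 : IsPGroup 2 ↥Q := pCore_isPGroup 2
  have hCQ : Subgroup.centralizer (Q : Set X) ≤ Q :=
    Cfsg.Agent.Lib.Helper30.NoComp.centralizer_pCore_le_of_gfs_eq 2 hX
  set Δ : Set (Subgroup X) := {R | ∃ h : X, R = A.map (MulAut.conj h).toMonoidHom} with hΔ
  have hΔconj : ∀ s : X, ∀ R ∈ Δ, R.map (MulAut.conj s).toMonoidHom ∈ Δ := by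
    rintro s _ ⟨g, rfl⟩
    exact ⟨s * g, map_conj_conj A g s⟩
  have hΔord : ∀ R ∈ Δ, ∀ T ∈ Δ, Nat.card ↥R = Nat.card ↥T := by
    rintro _ ⟨g, rfl⟩ _ ⟨h, rfl⟩
    rw [Subgroup.card_map_of_injective (MulAut.conj g).injective,
      Subgroup.card_map_of_injective (MulAut.conj h).injective]
  have hΔti : ∀ R ∈ Δ, ∀ T ∈ Δ, R = T ∨ R ⊓ T = ⊥ := by
    rintro _ ⟨g, rfl⟩ _ ⟨h, rfl⟩
    exact ti_conj A hti g h
  have hAΔ : A ∈ Δ := ⟨1, by ext x; simp⟩
  have part1 : ∀ a ∈ A, a ^ 2 ∈ Q := by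
    by_cases hexp : ∀ a ∈ A, a ^ 2 = 1
    · intro a ha; rw [hexp a ha]; exact one_mem _
    · push Not at hexp
      obtain ⟨r₀, hr₀, hr₀2⟩ := hexp
      have hΔΦ : ∀ R ∈ Δ, ∃ r ∈ R, r ^ 2 ≠ 1 := by
        rintro _ ⟨g, rfl⟩
        refine ⟨MulAut.conj g r₀, Subgroup.mem_map_of_mem _ hr₀, ?_⟩
        rw [← map_pow]
        intro h
        exact hr₀2 ((MulAut.conj g).injective (by rw [h, map_one]))
      have hS2 : IsPGroup 2 ↥(Q ⊔ A) := IsPGroup.to_sup_of_normal_left hQ2 hA2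
      have hmain := Cfsg.Agent.S1782.main_aux Δ hΔΦ hΔord hΔti (Nat.card ↥(Q ⊔ A)) (Q ⊔ A) le_rfl hS2
        (fun s _ R hR _ => hΔconj s R hR)
      have hcomm : ∀ q ∈ Q, ∀ a ∈ A, (q * a * q⁻¹) * a = a * (q * a * q⁻¹) := by
        intro q hq a ha
        by_cases heq : A.map (MulAut.conj q).toMonoidHom = A
        · have hmem : q * a * q⁻¹ ∈ A := by
            rw [← heq]; exact ⟨a, ha, by simp [MulAut.conj_apply]⟩
          exact setLike_mul_comm hmem ha
        · have hle : A.map (MulAut.conj q).toMonoidHom ≤ Q ⊔ A := by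
            rintro _ ⟨x, hx, rfl⟩
            have hq' : q ∈ Q ⊔ A := (le_sup_left : Q ≤ Q ⊔ A) hq
            have hx' : x ∈ Q ⊔ A := (le_sup_right : A ≤ Q ⊔ A) hx
            show (MulAut.conj q) x ∈ Q ⊔ A
            rw [MulAut.conj_apply]
            exact Subgroup.mul_mem _ (Subgroup.mul_mem _ hq' hx') (Subgroup.inv_mem _ hq')
          exact hmain _ ⟨q, rfl⟩ A hAΔ hle le_sup_right heq (q * a * q⁻¹)
            ⟨a, ha, by simp [MulAut.conj_apply]⟩ a ha
      set F : Subgroup X := (frattini ↥Q).map Q.subtype with hF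
      have hFn : F.Normal := ConjAct.normal_of_characteristic_of_normal
      have hsqF : ∀ c ∈ Q, c ^ 2 ∈ F := by
        intro c hc
        exact ⟨(⟨c, hc⟩ : ↥Q) ^ 2, sq_mem_frattini hQ2 _, rfl⟩
      let K : Subgroup X :=
        { carrier := {x | ∀ q ∈ Q, x * q * x⁻¹ * q⁻¹ ∈ F}
          one_mem' := by
            intro q _
            have e : (1 : X) * q * 1⁻¹ * q⁻¹ = 1 := by group
            rw [e]; exact F.one_mem
          mul_mem' := by
            intro x y hx hy q hq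
            have e : x * y * q * (x * y)⁻¹ * q⁻¹ =
                (x * (y * q * y⁻¹ * q⁻¹) * x⁻¹) * (x * q * x⁻¹ * q⁻¹) := by group
            rw [e]
            exact F.mul_mem (hFn.conj_mem _ (hy q hq) x) (hx q hq)
          inv_mem' := by
            intro x hx q hq
            have e : x⁻¹ * q * x⁻¹⁻¹ * q⁻¹ = x⁻¹ * (x * q * x⁻¹ * q⁻¹)⁻¹ * x⁻¹⁻¹ := by group
            rw [e]
            exact hFn.conj_mem _ (F.inv_mem (hx q hq)) x⁻¹ }
      have hKmem : ∀ x : X, x ∈ K ↔ ∀ q ∈ Q, x * q * x⁻¹ * q⁻¹ ∈ F := fun x => Iff.rfl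
      have hKn : K.Normal := by
        constructor
        intro x hx g
        rw [hKmem] at hx ⊢
        intro q hq
        have hq' : g⁻¹ * q * g ∈ Q := by
          have := hQn.conj_mem q hq g⁻¹
          simpa using this
        have e : g * x * g⁻¹ * q * (g * x * g⁻¹)⁻¹ * q⁻¹ =
            g * (x * (g⁻¹ * q * g) * x⁻¹ * (g⁻¹ * q * g)⁻¹) * g⁻¹ := by group
        rw [e]
        exact hFn.conj_mem _ (hx _ hq') g
      have hK2 : IsPGroup 2 ↥K := by
        have hcard : Nat.card ↥K = 2 ^ (Nat.card ↥K).primeFactorsList.length := by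
          apply Nat.eq_prime_pow_of_unique_prime_dvd Nat.card_pos.ne'
          intro r hr hdvd
          by_contra hr2
          have : Fact r.Prime := ⟨hr⟩
          obtain ⟨y, hy⟩ := exists_prime_orderOf_dvd_card' r hdvd
          have hyr : (y : X) ^ r = 1 := by
            have h1 : y ^ r = 1 := by rw [← hy]; exact pow_orderOf_eq_one y
            have h2 := congrArg Subtype.val h1
            simpa using h2
          have hcent := centralizes_of_frattini Q (y : X) r hr hr2 hyr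
            (fun q hq => (hKmem _).mp y.2 q hq) hQ2
          have hyQ : (y : X) ∈ Q := by
            apply hCQ
            rw [Subgroup.mem_centralizer_iff]
            intro q hq
            exact (hcent q hq).symm
          obtain ⟨k, hk⟩ := hQ2 ⟨(y : X), hyQ⟩
          have hk' : (y : X) ^ 2 ^ k = 1 := by
            have h2 := congrArg Subtype.val hk
            simpa using h2
          have hyk : y ^ 2 ^ k = 1 := Subtype.ext (by simpa using hk')
          have hdvd2 : r ∣ 2 ^ k := by rw [← hy]; exact orderOf_dvd_of_pow_eq_one hyk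
          exact hr2 ((Nat.prime_dvd_prime_iff_eq hr Nat.prime_two).mp (hr.dvd_of_dvd_pow hdvd2))
        exact IsPGroup.of_card hcard
      have hKQ : K ≤ Q := le_pCore hKn hK2
      intro a ha
      apply hKQ
      rw [hKmem]
      intro q hq
      have hu : Commute (q * a * q⁻¹) a := hcomm q hq a ha
      have hc : q * a * q⁻¹ * a⁻¹ ∈ Q := by
        have h1 : a * q⁻¹ * a⁻¹ ∈ Q := hQn.conj_mem _ (Q.inv_mem hq) a
        have e : q * a * q⁻¹ * a⁻¹ = q * (a * q⁻¹ * a⁻¹) := by group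
        rw [e]; exact Q.mul_mem hq h1
      have e1 : (q * a * q⁻¹ * a⁻¹) ^ 2 = q * a ^ 2 * q⁻¹ * (a ^ 2)⁻¹ := by
        rw [hu.inv_right.mul_pow, inv_pow, conj_pow]
      have e2 : a ^ 2 * q * (a ^ 2)⁻¹ * q⁻¹ = ((q * a * q⁻¹ * a⁻¹) ^ 2)⁻¹ := by
        rw [e1]; group
      rw [e2]
      exact F.inv_mem (hsqF _ hc)
  have hB : Subgroup.closure ((fun a : X => a ^ 2) '' (A : Set X)) ≤ Q := by
    rw [Subgroup.closure_le]
    rintro _ ⟨a, ha, rfl⟩
    exact part1 a ha
  refine ⟨hB, ?_⟩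
  intro hnel
  have hBA : sqSub A ≤ A := sqSub_le A
  have hBQ : sqSub A ≤ Q := hB
  have hex : ∃ b ∈ sqSub A, b ^ 2 ≠ 1 := by
    by_contra hcon
    push Not at hcon
    apply hnel
    refine ⟨?_, hcon⟩
    exact IsMulCommutative.of_setLike_mul_comm
      (fun a ha b hb => setLike_mul_comm (hBA ha) (hBA hb))
  obtain ⟨b₀, hb₀, hb₀2⟩ := hex
  set Δ₂ : Set (Subgroup X) := {T | ∃ h : X, T = (sqSub A).map (MulAut.conj h).toMonoidHom}
    with hΔ₂
  have h2Φ : ∀ R ∈ Δ₂, ∃ r ∈ R, r ^ 2 ≠ 1 := by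
    rintro _ ⟨g, rfl⟩
    refine ⟨MulAut.conj g b₀, Subgroup.mem_map_of_mem _ hb₀, ?_⟩
    rw [← map_pow]
    intro h
    exact hb₀2 ((MulAut.conj g).injective (by rw [h, map_one]))
  have h2ord : ∀ R ∈ Δ₂, ∀ T ∈ Δ₂, Nat.card ↥R = Nat.card ↥T := by
    rintro _ ⟨g, rfl⟩ _ ⟨h, rfl⟩
    rw [Subgroup.card_map_of_injective (MulAut.conj g).injective,
      Subgroup.card_map_of_injective (MulAut.conj h).injective]
  have h2ti : ∀ R ∈ Δ₂, ∀ T ∈ Δ₂, R = T ∨ R ⊓ T = ⊥ := by
    rintro _ ⟨g, rfl⟩ _ ⟨h, rfl⟩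
    rcases ti_conj A hti g h with h1 | h1
    · left
      rw [sqSub_map, sqSub_map, h1]
    · right
      rw [eq_bot_iff, ← h1]
      exact inf_le_inf (Subgroup.map_mono hBA) (Subgroup.map_mono hBA)
  have h2conj : ∀ s : X, ∀ R ∈ Δ₂, R.map (MulAut.conj s).toMonoidHom ∈ Δ₂ := by
    rintro s _ ⟨g, rfl⟩
    exact ⟨s * g, map_conj_conj _ g s⟩
  have hmain2 := Cfsg.Agent.S1782.main_aux Δ₂ h2Φ h2ord h2ti (Nat.card ↥Q) Q le_rfl hQ2
    (fun s _ R hR _ => h2conj s R hR)
  have h2le : ∀ R ∈ Δ₂, R ≤ Q := by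
    rintro _ ⟨g, rfl⟩
    rintro _ ⟨x, hx, rfl⟩
    exact hQn.conj_mem x (hBQ hx) g
  have hcomm2 : ∀ x ∈ Group.conjugatesOfSet ((fun a : X => a ^ 2) '' (A : Set X)),
      ∀ y ∈ Group.conjugatesOfSet ((fun a : X => a ^ 2) '' (A : Set X)), x * y = y * x := by
    intro x hx y hy
    rw [Group.mem_conjugatesOfSet_iff] at hx hy
    obtain ⟨s, ⟨a, ha, rfl⟩, hsx⟩ := hx
    obtain ⟨t, ⟨a', ha', rfl⟩, hty⟩ := hy
    obtain ⟨g, rfl⟩ := isConj_iff.mp hsx
    obtain ⟨h, rfl⟩ := isConj_iff.mp hty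
    have hxg : g * a ^ 2 * g⁻¹ ∈ (sqSub A).map (MulAut.conj g).toMonoidHom :=
      ⟨a ^ 2, Subgroup.subset_closure ⟨a, ha, rfl⟩, by simp [MulAut.conj_apply]⟩
    have hyh : h * a' ^ 2 * h⁻¹ ∈ (sqSub A).map (MulAut.conj h).toMonoidHom :=
      ⟨a' ^ 2, Subgroup.subset_closure ⟨a', ha', rfl⟩, by simp [MulAut.conj_apply]⟩
    by_cases heq : (sqSub A).map (MulAut.conj g).toMonoidHom =
        (sqSub A).map (MulAut.conj h).toMonoidHom
    · rw [← heq] at hyh
      obtain ⟨b1, hb1, e1⟩ := hxg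
      obtain ⟨b2, hb2, e2⟩ := hyh
      rw [← e1, ← e2, ← map_mul, ← map_mul, setLike_mul_comm (hBA hb1) (hBA hb2)]
    · exact hmain2 _ ⟨g, rfl⟩ _ ⟨h, rfl⟩ (h2le _ ⟨g, rfl⟩) (h2le _ ⟨h, rfl⟩) heq _ hxg _ hyh
  exact Subgroup.isMulCommutative_closure hcomm2

end Cfsg.Agent.S1783
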