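import Mathlib
import Cfsg.Statements.S1850
import Cfsg.Agent.Lib.Helper48.CharPGfs

set_option autoImplicit false
open Cfsg

namespace Cfsg.Agent.S1850

open Subgroup Cfsg.Agent.Lib.Helper48.CharP Cfsg.Agent.Lib.Helper48.CharPGfs

/-- If `V ≤ O_p(N)` and `N_N(V)` has characteristic `p`, then so does `N`
(subgroup version of `ChP.of_centralizer`). -/
theorem chP_of_normalizer_inf {G : Type*} [Group G] [Finite G] {p : ℕ} [Fact p.Prime]
    {N V : Subgroup G} (hV : V ≤ O p N) (hM : ChP p (N ⊓ normalizer (V : Set G))) : ChP p N := by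
  have hWN : N ≤ normalizer ((N ⊓ centralizer (O p N : Set G) : Subgroup G) : Set G) :=
    fun y hy => mem_normalizer_inf (le_normalizer hy)
      (mem_normalizer_centralizer (O_normalizer p N hy))
  have hWM : N ⊓ centralizer (O p N : Set G) ≤ N ⊓ normalizer (V : Set G) := by
    intro w hw
    obtain ⟨h1, h2⟩ := mem_inf.mp hw
    refine mem_inf.mpr ⟨h1, ?_⟩
    have key : ∀ y ∈ V, w * y * w⁻¹ = y := by
      intro y hy
      have := mem_centralizer_iff.mp h2 y (hV hy)
      rw [← this]; group
    rw [mem_normalizer_iff]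
    intro y
    constructor
    · intro hy; rw [key y hy]; exact hy
    · intro hy
      have h3 := key _ hy
      have h4 : w * y * w⁻¹ = y := by
        have h5 : w⁻¹ * (w * (w * y * w⁻¹) * w⁻¹) * w = w⁻¹ * (w * y * w⁻¹) * w := by rw [h3]
        have h6 : w⁻¹ * (w * (w * y * w⁻¹) * w⁻¹) * w = w * y * w⁻¹ := by group
        have h7 : w⁻¹ * (w * y * w⁻¹) * w = y := by group
        rw [h6, h7] at h5
        exact h5
      rw [h4] at hy
      exact hy
  have hWchar : ChP p (N ⊓ centralizer (O p N : Set G)) :=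
    hM.of_normal hWM (inf_le_left.trans hWN)
  have hOW : O p (N ⊓ centralizer (O p N : Set G)) ≤ O p N :=
    le_O ((O_le p _).trans inf_le_left) (O_isPGroup p _)
      (hWN.trans (normalizer_le_normalizer_O p _))
  have hW : N ⊓ centralizer (O p N : Set G) ≤ O p (N ⊓ centralizer (O p N : Set G)) := by
    intro w hw
    apply hWchar
    refine mem_inf.mpr ⟨hw, ?_⟩
    rw [mem_centralizer_iff]
    intro x hx
    exact mem_centralizer_iff.mp (mem_inf.mp hw).2 x (hOW hx)
  exact hW.trans hOW

/-- One step up a subnormal chain of `p`-subgroups: if `V ⊴ V₁` and `N_G(V)` has characteristic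
`p`, then so does `N_G(V₁)`. -/
theorem chP_normalizer_step {G : Type*} [Group G] [Finite G] {p : ℕ} [Fact p.Prime]
    {V V₁ : Subgroup G} (hV₁ : IsPGroup p V₁) (hle : V ≤ V₁)
    (hn : V₁ ≤ normalizer (V : Set G)) (h : ChP p (normalizer (V : Set G))) :
    ChP p (normalizer (V₁ : Set G)) := by
  have h1 : ChP p (normalizer (V : Set G) ⊓ normalizer (V₁ : Set G)) := h.normalizer_inf hn hV₁
  apply chP_of_normalizer_inf (V := V) (hle.trans (le_O le_normalizer hV₁ le_rfl))
  rwa [inf_comm]

/-- If `V ≤ U` are `p`-subgroups and `N_G(V)` has characteristic `p`, then so does `N_G(U)`. -/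
theorem chP_normalizer_chain {G : Type*} [Group G] [Finite G] {p : ℕ} [Fact p.Prime]
    (U : Subgroup G) (hU : IsPGroup p U) :
    ∀ (n : ℕ) (V : Subgroup G), V ≤ U → Nat.card U - Nat.card V ≤ n →
      ChP p (normalizer (V : Set G)) → ChP p (normalizer (U : Set G)) := by
  intro n
  induction n with
  | zero =>
    intro V hVU hcard h
    have hVeq : V = U := Subgroup.eq_of_le_of_card_ge hVU (by omega)
    rwa [hVeq] at h
  | succ n ih =>
    intro V hVU hcard h
    by_cases hVeq : V = U
    · rwa [hVeq] at h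
    · have hlt : V.subgroupOf U < ⊤ := by
        rw [lt_top_iff_ne_top]
        intro htop
        rw [Subgroup.subgroupOf_eq_top] at htop
        exact hVeq (le_antisymm hVU htop)
      have hnil : Group.IsNilpotent U := hU.isNilpotent
      have h2 := Group.normalizerCondition_of_isNilpotent (G := U) (V.subgroupOf U) hlt
      obtain ⟨x, hxN, hxV⟩ := SetLike.exists_of_lt h2
      have hVV₁ : V ≤ U ⊓ normalizer (V : Set G) := le_inf hVU le_normalizer
      have hx₁ : (x : G) ∈ U ⊓ normalizer (V : Set G) := by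
        refine mem_inf.mpr ⟨x.2, ?_⟩
        rw [mem_normalizer_iff] at hxN ⊢
        intro y
        constructor
        · intro hy
          have := (hxN ⟨y, hVU hy⟩).1 (by simpa [mem_subgroupOf] using hy)
          simpa [mem_subgroupOf] using this
        · intro hy
          have hyU : y ∈ U := by
            have h3 : (x : G)⁻¹ * ((x : G) * y * (x : G)⁻¹) * (x : G) ∈ U :=
              mul_mem (mul_mem (inv_mem x.2) (hVU hy)) x.2
            have h4 : (x : G)⁻¹ * ((x : G) * y * (x : G)⁻¹) * (x : G) = y := by group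
            rwa [h4] at h3
          have := (hxN ⟨y, hyU⟩).2 (by simpa [mem_subgroupOf] using hy)
          simpa [mem_subgroupOf] using this
      have hxV' : (x : G) ∉ V := by
        intro hx
        exact hxV (by simpa [mem_subgroupOf] using hx)
      have hcard₁ : Nat.card V < Nat.card ↥(U ⊓ normalizer (V : Set G)) := by
        by_contra hnot
        have := Subgroup.eq_of_le_of_card_ge hVV₁ (by omega)
        rw [this] at hxV'
        exact hxV' hx₁
      have hcard₂ : Nat.card ↥(U ⊓ normalizer (V : Set G)) ≤ Nat.card U :=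
        Subgroup.card_le_of_le inf_le_left
      exact ih (U ⊓ normalizer (V : Set G)) inf_le_left (by omega)
        (chP_normalizer_step (hU.to_le inf_le_left) hVV₁ inf_le_right h)

/-- Let G be a non-abelian finite simple QTKE-group and T a Sylow 2-subgroup of G. If U is a nontrivial 2-subgroup of G with U ∩ Z(T) ≠ 1, then F*(N_G(U)) = O₂(N_G(U)). -/
theorem result {G : Type*} [Group G] [Finite G] [IsSimpleGroup G]
    (hG : ¬ IsMulCommutative G) (hQ : Cfsg.IsQTKE G) (T : Sylow 2 G) (U : Subgroup G)
    (hU : IsPGroup 2 ↥U) (hZ : U ⊓ ((T : Subgroup G) ⊓ Subgroup.centralizer ((T : Subgroup G) : Set G)) ≠ ⊥) :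
    Subgroup.normalizer (U : Set G) ∈ Cfsg.calHe G := by
  have : Fact (Nat.Prime 2) := ⟨Nat.prime_two⟩
  obtain ⟨z, hz1⟩ := (Subgroup.ne_bot_iff_exists_ne_one).1 hZ
  have hz' := z.2
  obtain ⟨hzU, hzT⟩ := mem_inf.mp hz'
  obtain ⟨hzT, hzC⟩ := mem_inf.mp hzT
  have hz1' : (z : G) ≠ 1 := by
    intro h
    apply hz1
    exact Subtype.ext h
  show generalizedFittingSubgroup ↥(normalizer (U : Set G)) = pCore 2 ↥(normalizer (U : Set G))
  rw [gfs_iff_chP]
  have hV₀U : zpowers (z : G) ≤ U := (zpowers_le).2 hzU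
  apply chP_normalizer_chain U hU _ (zpowers (z : G)) hV₀U le_rfl
  rw [← Cfsg.Agent.Lib.Helper48.CharP.charP_iff]
  apply hQ.2.2 (normalizer ((zpowers (z : G) : Subgroup G) : Set G))
  · refine ⟨zpowers (z : G), ?_, ?_, rfl⟩
    · exact T.2.to_le ((zpowers_le).2 hzT)
    · intro h
      apply hz1'
      have h1 : (z : G) ∈ zpowers (z : G) := mem_zpowers _
      rw [h] at h1
      exact mem_bot.1 h1
  · refine ⟨T, ?_⟩
    intro t ht
    apply Cfsg.Agent.Lib.Helper48.StrEmb.centralizer_singleton_le_normalizer_zpowers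
    rw [mem_centralizer_singleton_iff]
    exact mem_centralizer_iff.mp hzC t ht

end Cfsg.Agent.S1850
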