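import Cfsg.Statements.S1966
import Cfsg.Agent.Lib.Helper33.PCore

set_option autoImplicit false
open Cfsg

namespace Cfsg.Agent.S1966

/-- Let p be a prime, G a finite group with Sylow p-subgroup S and 𝓕 a conjugation family for S in G. Then the members of 𝓕 containing O_p(G) still form a conjugation family for S in G. -/
theorem result {G : Type*} [Group G] [Finite G] {p : ℕ} [Fact p.Prime] (S : Sylow p G) (𝓕 : Set (Subgroup G)) (h : Cfsg.IsConjugationFamily 𝓕 (S : Subgroup G)) : Cfsg.IsConjugationFamily {T : Subgroup G | T ∈ 𝓕 ∧ Cfsg.pCore p G ≤ T} (S : Subgroup G) := by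
  have hRS : Cfsg.pCore p G ≤ (S : Subgroup G) := Cfsg.Agent.Lib.Helper33.PCore.pCore_le_sylow S
  have hRn : (Cfsg.pCore p G).Normal := Cfsg.Agent.Lib.Helper33.PCore.pCore_normal p
  refine ⟨fun T hT => h.1 T hT.1, fun A g hne hA hAg => ?_⟩
  have hne' : (A ∪ (Cfsg.pCore p G : Set G)).Nonempty := hne.mono Set.subset_union_left
  have hA' : A ∪ (Cfsg.pCore p G : Set G) ⊆ (S : Subgroup G) :=
    Set.union_subset hA (SetLike.coe_subset_coe.mpr hRS)
  have hAg' : (fun a => g⁻¹ * a * g) '' (A ∪ (Cfsg.pCore p G : Set G)) ⊆ (S : Subgroup G) := by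
    rintro _ ⟨a, ha | ha, rfl⟩
    · exact hAg ⟨a, ha, rfl⟩
    · apply hRS
      have := hRn.conj_mem a ha g⁻¹
      simpa using this
  obtain ⟨n, T, x, hprod, hT, hx, h0, hstep⟩ := h.2 _ g hne' hA' hAg'
  refine ⟨n, T, x, hprod, fun i => ⟨hT i, ?_⟩, hx,
    fun hn => Set.subset_union_left.trans (h0 hn),
    fun i hi => (Set.image_mono Set.subset_union_left).trans (hstep i hi)⟩
  obtain ⟨iv, hiv⟩ := i
  cases iv with
  | zero =>
    intro r hr
    exact h0 hiv (Or.inr hr)
  | succ j =>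
    intro r hr
    apply hstep ⟨j, by omega⟩ hiv
    set q := ((List.ofFn x).take (j + 1)).prod with hq
    refine ⟨q * r * q⁻¹, Or.inr (hRn.conj_mem r hr q), ?_⟩
    show q⁻¹ * (q * r * q⁻¹) * q = r
    group

end Cfsg.Agent.S1966
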