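import Cfsg.Statements.S1967
import Cfsg.Agent.Lib.Helper33.Control

set_option autoImplicit false
open Cfsg

namespace Cfsg.Agent.S1967

/-- Let p be a prime, G a finite group with Sylow p-subgroup S and W a conjugacy functor for p on G. Then W controls strong fusion in G if and only if, whenever T ≤ S and g ∈ G satisfy gTg⁻¹ ≤ S, one can write g = n c with n ∈ N_G(W(S)) and c ∈ C_G(T). -/
theorem result {G : Type*} [Group G] [Finite G] {p : ℕ} [Fact p.Prime] (S : Sylow p G) (W : Subgroup G → Subgroup G) (hW : Cfsg.IsConjugacyFunctor p W) : Cfsg.ControlsStrongFusionIn p W ⊤ ↔ ∀ (T : Subgroup G) (g : G), T ≤ (S : Subgroup G) → T.map (MulAut.conj g).toMonoidHom ≤ (S : Subgroup G) → ∃ n ∈ Subgroup.normalizer ((W (S : Subgroup G) : Subgroup G) : Set G), ∃ c ∈ Subgroup.centralizer (T : Set G), g = n * c := by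
  rw [Cfsg.Agent.Lib.Helper33.Control.controlsStrongFusionIn_iff hW
    (Cfsg.Agent.Lib.Helper33.Conj.isSylIn_of_sylow S le_top),
    Cfsg.Agent.Lib.Helper33.Control.CSF_top_iff]

end Cfsg.Agent.S1967
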