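import Cfsg.Statements.S1971
import Cfsg.Agent.Lib.Helper33.IndexP

set_option autoImplicit false
universe u
open Cfsg

namespace Cfsg.Agent.S1971

/-- Let p be a prime, G a finite group with nontrivial Sylow p-subgroup S, and W an isomorphism-invariant p-group functor (W assigns to every group Q a subgroup W(Q), nontrivial whenever Q is a nontrivial finite p-group, and every isomorphism from a finite p-group Q onto a group R carries W(Q) onto W(R)) that controls transfer in every section of G. If N_G(S)/C_G(S) is a p-group (every element of N_G(S) of order prime to p centralizes S), then G has a normal subgroup of index p. -/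
theorem result {G : Type u} [Group G] [Finite G] {p : ℕ} [Fact p.Prime] (W : ∀ (Q : Type u) [Group Q], Subgroup Q) (hW : Cfsg.IsCharPFunctor.{u} p W) (hctl : ∀ (K R : Subgroup G) [hR : (R.subgroupOf K).Normal], Cfsg.ControlsTransferIn p (Cfsg.inducedFunctor (G := (↥K ⧸ R.subgroupOf K)) W) ⊤) (S : Sylow p G) (hS : (S : Subgroup G) ≠ ⊥) (hN : ∀ g ∈ Subgroup.normalizer (((S : Subgroup G) : Subgroup G) : Set G), (orderOf g).Coprime p → g ∈ Subgroup.centralizer ((S : Subgroup G) : Set G)) : ∃ N : Subgroup G, N.Normal ∧ N.index = p := by
  exact Cfsg.Agent.Lib.Helper33.IndexP.exists_index_p hW (Nat.card G) G rfl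
    (Cfsg.Agent.Lib.Helper33.IndexP.ct_of_sections hW hctl) S hS hN

end Cfsg.Agent.S1971
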