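import Cfsg.Statements.S1998
import Cfsg.Agent.Lib.Helper33.SecMin

set_option autoImplicit false
universe u
open Cfsg

namespace Cfsg.Agent.S1998

/-- Let p be a prime, G a finite group with Sylow p-subgroup S, and 𝓦 a nonempty set of isomorphism-invariant p-group functors (W assigns to every group Q a subgroup W(Q), nontrivial whenever Q is a nontrivial finite p-group, and every isomorphism from a finite p-group Q onto a group R carries W(Q) onto W(R)). Suppose the induced conjugacy functors control transfer in every section of G other than G itself, but not in G. Let T be the subgroup generated by the S ∩ (N_G(W(S)))', W ∈ 𝓦, and M = N_G(T ∩ O_p(G)). Then: C_G(O_p(G)) ≤ O_p(G); M is a proper subgroup of G containing every proper subgroup of G that contains S (the unique maximal subgroup over S); [O_p(G), M] ≤ O_p(G) ∩ M' ≤ O_p(G) ∩ T; and every element u of S outside O_p(G) satisfies [X, u, …, u] ≰ Y with p − 1 entries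 u, for some chief factor X/Y of G with X ≤ O_p(G). -/
theorem result {G : Type u} [Group G] [Finite G] {p : ℕ} [Fact p.Prime] (S : Sylow p G) (𝓦 : Set (∀ (Q : Type u) [Group Q], Subgroup Q)) (h𝓦 : ∀ W ∈ 𝓦, Cfsg.IsCharPFunctor.{u} p W) (hne : 𝓦.Nonempty) (hsec : ∀ (K R : Subgroup G) [hR : (R.subgroupOf K).Normal], (K = ⊤ → R ≠ ⊥) → Cfsg.FamilyControlsTransferIn p ((fun W => Cfsg.inducedFunctor (G := (↥K ⧸ R.subgroupOf K)) W) '' 𝓦) ⊤) (hG : ¬ Cfsg.FamilyControlsTransferIn p ((fun W => Cfsg.inducedFunctor (G := G) W) '' 𝓦) ⊤) (T M : Subgroup G) (hT : T = (⨆ W ∈ 𝓦, (S : Subgroup G) ⊓ ⁅Subgroup.normalizer ((Cfsg.inducedFunctor (G := G) W (S : Subgroup G) : Subgroup G) : Set G), Subgroup.normalizer ((Cfsg.inducedFunctor (G := G) W (S : Subgroup G) : Subgroup G) : Set G)⁆)) (hM : M = Subgroup.normalizer ((T ⊓ Cfsg.pCore p G : Subgroup G) : Set G)) : Subgroup.centralizer ((Cfsg.pCore p G : Subgroup G) : Set G) ≤ Cfsg.pCore p G ∧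 (M ≠ ⊤ ∧ ∀ H : Subgroup G, (S : Subgroup G) ≤ H → H ≠ ⊤ → H ≤ M) ∧ (⁅Cfsg.pCore p G, M⁆ ≤ Cfsg.pCore p G ⊓ ⁅M, M⁆ ∧ Cfsg.pCore p G ⊓ ⁅M, M⁆ ≤ Cfsg.pCore p G ⊓ T) ∧ ∀ u : G, u ∈ (S : Subgroup G) → u ∉ Cfsg.pCore p G → ∃ U V : Subgroup G, Cfsg.IsChiefFactor U V ∧ U ≤ Cfsg.pCore p G ∧ ¬ Cfsg.iterCommutator U (Subgroup.zpowers u) (p - 1) ≤ V := by
  have ihsec : ∀ (Y : Type u) [Group Y] [Finite Y], Cfsg.Agent.Lib.Helper33.Sections.IsSec G Y →
      Nat.card Y < Nat.card G → Cfsg.Agent.Lib.Helper33.SecBase.TF p 𝓦 Y :=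
    fun Y _ _ hY hcard => Cfsg.Agent.Lib.Helper33.SecMin.tf_of_sec_lt h𝓦
      (fun K R _ h => hsec K R h) hY hcard
  have ihsub : ∀ N : Subgroup G, N ≠ ⊤ → Cfsg.Agent.Lib.Helper33.SecBase.TF p 𝓦 ↥N := by
    intro N hN
    apply ihsec
    · exact Cfsg.Agent.Lib.Helper33.Sections.IsSec.of_subgroup N
        (Cfsg.Agent.Lib.Helper33.Sections.isSec_refl _)
    · rw [← Subgroup.card_top (G := G)]
      exact Cfsg.Agent.Lib.Helper33.SecBase.card_lt_card_of_lt' (lt_top_iff_ne_top.mpr hN)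
  have ihquot : ∀ (N : Subgroup G) [N.Normal], N ≠ ⊥ →
      Cfsg.Agent.Lib.Helper33.SecBase.TF p 𝓦 (G ⧸ N) := by
    intro N _ hN
    apply ihsec
    · exact Cfsg.Agent.Lib.Helper33.Sections.IsSec.of_quotient N
        (Cfsg.Agent.Lib.Helper33.Sections.isSec_refl _)
    · have h1 := Subgroup.card_eq_card_quotient_mul_card_subgroup N
      have h2 : 1 < Nat.card N := N.one_lt_card_iff_ne_bot.mpr hN
      have h3 : 0 < Nat.card (G ⧸ N) := Nat.card_pos
      rw [h1]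
      nlinarith
  have hT' : T = Cfsg.Agent.Lib.Helper33.SecTransfer.FF 𝓦 ⊤ (S : Subgroup G) := by
    rw [hT]
    unfold Cfsg.Agent.Lib.Helper33.SecTransfer.FF Cfsg.Agent.Lib.Helper33.SecBase.ind
    rw [iSup_image]
    simp only [top_inf_eq]
  exact Cfsg.Agent.Lib.Helper33.SecMin.min_structure h𝓦 hne S ihsub ihquot hG T M hT' hM

end Cfsg.Agent.S1998
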