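import Cfsg.Statements.S2007
import Cfsg.Agent.Lib.Helper34.PComplement

set_option autoImplicit false
open Cfsg

namespace Cfsg.Agent.S2007

/-- Let p be a prime, G a finite group with Sylow p-subgroup S, and T a normal subgroup of S containing C_S(T). If N_G(T)/C_G(T) is a p-group (every element of N_G(T) of order prime to p centralizes T), then N_G(T) has a normal p-complement. -/
theorem result {G : Type*} [Group G] [Finite G] {p : ℕ} [Fact p.Prime] (S : Sylow p G) (T : Subgroup G) (hTS : T ≤ (S : Subgroup G)) (hTn : (S : Subgroup G) ≤ Subgroup.normalizer ((T : Subgroup G) : Set G)) (hC : (S : Subgroup G) ⊓ Subgroup.centralizer ((T : Subgroup G) : Set G) ≤ T) (hN : ∀ g ∈ Subgroup.normalizer ((T : Subgroup G) : Set G), (orderOf g).Coprime p → g ∈ Subgroup.centralizer ((T : Subgroup G) : Set G)) : Cfsg.HasNormalPComplement p ↥(Subgroup.normalizer ((T : Subgroup G) : Set G)) := by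
  classical
  -- notation: N = N_G(T), C = C_G(T) inside N
  let C : Subgroup ↥(Subgroup.normalizer ((T : Subgroup G) : Set G)) :=
    (Subgroup.centralizer ((T : Subgroup G) : Set G)).subgroupOf (Subgroup.normalizer ((T : Subgroup G) : Set G))
  have h1 : ∀ g : ↥(Subgroup.normalizer ((T : Subgroup G) : Set G)), (orderOf g).Coprime p → g ∈ C := by
    intro g hg
    rw [← Subgroup.orderOf_coe] at hg
    exact Subgroup.mem_subgroupOf.mpr (hN g g.2 hg)
  let Z : Sylow p C := default
  have hZ : ∀ z ∈ Z, ∀ c : C, z * c = c * z := by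
    intro z hz c
    obtain ⟨Q, hQ⟩ := (Z.2.map C.subtype).exists_le_sylow
    let S' : Sylow p ↥(Subgroup.normalizer ((T : Subgroup G) : Set G)) := S.subtype hTn
    obtain ⟨n, hn⟩ := MulAction.exists_smul_eq ↥(Subgroup.normalizer ((T : Subgroup G) : Set G)) S' Q
    have hzQ : (z : ↥(Subgroup.normalizer ((T : Subgroup G) : Set G))) ∈ (Q : Subgroup _) :=
      hQ (Subgroup.mem_map_of_mem C.subtype hz)
    rw [← hn, Sylow.coe_subgroup_smul, Subgroup.mem_pointwise_smul_iff_inv_smul_mem] at hzQ
    have hw : (n⁻¹ * (z : ↥(Subgroup.normalizer ((T : Subgroup G) : Set G))) * n) ∈ (S' : Subgroup _) := by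
      simpa [MulAut.smul_def, MulAut.conj_inv_apply] using hzQ
    have hwS : ((n : G)⁻¹ * ((z : ↥(Subgroup.normalizer ((T : Subgroup G) : Set G))) : G) * (n : G)) ∈ (S : Subgroup G) := by
      have := Subgroup.mem_subgroupOf.mp hw
      simpa using this
    have hzC : ((z : ↥(Subgroup.normalizer ((T : Subgroup G) : Set G))) : G) ∈
        Subgroup.centralizer ((T : Subgroup G) : Set G) := Subgroup.mem_subgroupOf.mp z.2
    have hnN : ∀ t : G, t ∈ T ↔ (n : G) * t * (n : G)⁻¹ ∈ T := Subgroup.mem_normalizer_iff.mp n.2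
    have hwC : ((n : G)⁻¹ * ((z : ↥(Subgroup.normalizer ((T : Subgroup G) : Set G))) : G) * (n : G)) ∈
        Subgroup.centralizer ((T : Subgroup G) : Set G) := by
      refine Subgroup.mem_centralizer_iff.mpr ?_
      intro t ht
      have h2 := (Subgroup.mem_centralizer_iff.mp hzC) _ ((hnN t).mp ht)
      calc t * ((n : G)⁻¹ * ((z : ↥(Subgroup.normalizer ((T : Subgroup G) : Set G))) : G) * (n : G))
          = (n : G)⁻¹ * ((n : G) * t * (n : G)⁻¹ * ((z : ↥(Subgroup.normalizer ((T : Subgroup G) : Set G))) : G)) * (n : G) := by group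
        _ = (n : G)⁻¹ * (((z : ↥(Subgroup.normalizer ((T : Subgroup G) : Set G))) : G) * ((n : G) * t * (n : G)⁻¹)) * (n : G) := by rw [h2]
        _ = (n : G)⁻¹ * ((z : ↥(Subgroup.normalizer ((T : Subgroup G) : Set G))) : G) * (n : G) * t := by group
    have hwT : ((n : G)⁻¹ * ((z : ↥(Subgroup.normalizer ((T : Subgroup G) : Set G))) : G) * (n : G)) ∈ T :=
      hC ⟨hwS, hwC⟩
    have hzT : ((z : ↥(Subgroup.normalizer ((T : Subgroup G) : Set G))) : G) ∈ T := by
      have := (hnN _).mp hwT
      have h3 : (n : G) * ((n : G)⁻¹ * ((z : ↥(Subgroup.normalizer ((T : Subgroup G) : Set G))) : G) * (n : G)) * (n : G)⁻¹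
          = ((z : ↥(Subgroup.normalizer ((T : Subgroup G) : Set G))) : G) := by group
      rwa [h3] at this
    have hcC : ((c : ↥(Subgroup.normalizer ((T : Subgroup G) : Set G))) : G) ∈
        Subgroup.centralizer ((T : Subgroup G) : Set G) := Subgroup.mem_subgroupOf.mp c.2
    have h4 := (Subgroup.mem_centralizer_iff.mp hcC) _ hzT
    apply Subtype.ext
    apply Subtype.ext
    exact h4
  exact Cfsg.Agent.Lib.Helper34.PComplement.exists_normal_complement_of_central_sylow C h1 Z hZ

end Cfsg.Agent.S2007
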