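import Cfsg.Statements.S2035
import Cfsg.Agent.Lib.Helper66.M12Cover
import Cfsg.Agent.Lib.Helper66.PrimeMult
import Cfsg.Agent.Lib.Helper35.M12Mult

set_option autoImplicit false
open Cfsg

namespace Cfsg.Agent.S2035

/-- The Schur multiplier of the Mathieu group M₁₂ (the stabiliser of a dodecad in the automorphism group of the length-24 binary code) is cyclic of order 2; here the Schur multiplier is described through stem extensions, as in the definitions: surjective homomorphisms onto the group from a finite group, whose kernel is central in that finite group and contained in that finite group's commutator subgroup. -/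
theorem result : Cfsg.HasCyclicSchurMultiplier ↥Cfsg.Spor.M12 2 := by
  obtain ⟨ξ, hξ, hc, z, hz, hz1⟩ := Cfsg.Agent.Lib.Helper66.M12Cover.exists_cover
  exact Cfsg.Agent.Lib.Helper66.PrimeMult.hasCyclic_prime_of_bound 2 Nat.prime_two
    (fun Γ _ _ σ hσ => Cfsg.Agent.Lib.Helper35.M12Mult.m12_bound Γ σ hσ) ξ hξ hc z hz hz1

end Cfsg.Agent.S2035
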