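import Mathlib
import Cfsg.Statements.S2039
import Cfsg.Agent.Lib.Helper66.StemLocal
import Cfsg.Agent.Lib.Helper60.J1Order

set_option autoImplicit false
open Cfsg

namespace Cfsg.Agent.S2039

open Cfsg.Agent.Lib.Helper60.J1
open Cfsg.Agent.Lib.Helper66
open scoped commutatorElement

/-- In a central extension, let `A` and `X` be such that the images of `A`, `XAX⁻¹`, `X²AX⁻²`
commute and the image of `X³AX⁻³` is the product of the images of `A` and `X²AX⁻²`.  Then
`A`, `XAX⁻¹`, `X²AX⁻²` commute. -/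
theorem comm_of_f8 {Γ G : Type*} [Group Γ] [Group G] (σ : Γ →* G)
    (hc : σ.ker ≤ Subgroup.center Γ) (X A : Γ)
    (h01 : σ A * σ (X * A * X⁻¹) = σ (X * A * X⁻¹) * σ A)
    (h02 : σ A * σ (X * (X * A * X⁻¹) * X⁻¹) = σ (X * (X * A * X⁻¹) * X⁻¹) * σ A)
    (hrel : σ (X * (X * (X * A * X⁻¹) * X⁻¹) * X⁻¹) = σ A * σ (X * (X * A * X⁻¹) * X⁻¹)) :
    ⁅A, X * A * X⁻¹⁆ = 1 ∧ ⁅A, X * (X * A * X⁻¹) * X⁻¹⁆ = 1 ∧
      ⁅X * A * X⁻¹, X * (X * A * X⁻¹) * X⁻¹⁆ = 1 := by
  have conj : ∀ P Q : Γ, ⁅X * P * X⁻¹, X * Q * X⁻¹⁆ = X * ⁅P, Q⁆ * X⁻¹ := by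
    intro P Q
    simp only [commutatorElement_def]
    group
  obtain ⟨B, hB⟩ : ∃ B, B = X * A * X⁻¹ := ⟨_, rfl⟩
  obtain ⟨C, hC⟩ : ∃ C, C = X * B * X⁻¹ := ⟨_, rfl⟩
  obtain ⟨D, hD⟩ : ∃ D, D = X * C * X⁻¹ := ⟨_, rfl⟩
  rw [← hB] at h01 h02 hrel ⊢
  rw [← hC] at h02 hrel ⊢
  rw [← hD] at hrel
  have hu : ⁅A, B⁆ ∈ Subgroup.center Γ := by
    apply hc
    rw [MonoidHom.mem_ker, map_commutatorElement, commutatorElement_eq_one_iff_commute]
    exact h01
  have hv : ⁅A, C⁆ ∈ Subgroup.center Γ := by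
    apply hc
    rw [MonoidHom.mem_ker, map_commutatorElement, commutatorElement_eq_one_iff_commute]
    exact h02
  rw [Subgroup.mem_center_iff] at hu hv
  have hw : ⁅B, C⁆ = ⁅A, B⁆ := by
    rw [hC, hB, conj, ← hB, hu X, mul_inv_cancel_right]
  have hCD : ⁅C, D⁆ = ⁅A, B⁆ := by
    rw [hD]
    nth_rewrite 1 [hC]
    rw [conj, hw, hu X, mul_inv_cancel_right]
  have hBD : ⁅B, D⁆ = ⁅A, C⁆ := by
    rw [hD]
    nth_rewrite 1 [hB]
    rw [conj, hv X, mul_inv_cancel_right]
  have hCD' : ⁅C, D⁆ = ⁅A, C⁆⁻¹ := by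
    have h := Cfsg.Agent.Lib.Helper35.Stem.commutator_eq_of_map_eq σ hc
      (g := C) (g' := C) (h := D) (h' := A * C) rfl (by rw [hrel, map_mul])
    rw [h, StemLocal.commutatorElement_mul_right', commutatorElement_self, mul_one,
      mul_inv_cancel, mul_one, commutatorElement_inv]
  have hBD' : ⁅B, D⁆ = 1 := by
    have h := Cfsg.Agent.Lib.Helper35.Stem.commutator_eq_of_map_eq σ hc
      (g := B) (g' := B) (h := D) (h' := A * C) rfl (by rw [hrel, map_mul])
    rw [h, StemLocal.commutatorElement_mul_right', hw, hu A, mul_inv_cancel_right,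
      ← commutatorElement_inv A B, inv_mul_cancel]
  have v1 : ⁅A, C⁆ = 1 := by rw [← hBD, hBD']
  have u1 : ⁅A, B⁆ = 1 := by rw [← hCD, hCD', v1, inv_one]
  exact ⟨u1, v1, by rw [hw, u1]⟩

/-- word of `X t X⁻¹` -/
def w1 : List ℕ := 0 :: tw ++ [0, 0, 0, 0, 0, 0]
/-- word of `X² t X⁻²` -/
def w2 : List ℕ := 0 :: w1 ++ [0, 0, 0, 0, 0, 0]
/-- word of `X³ t X⁻³` -/
def w3' : List ℕ := 0 :: w2 ++ [0, 0, 0, 0, 0, 0]

theorem conjX (w : List ℕ) :
    gX * ev gen1 w * gX⁻¹ = ev gen1 (0 :: w ++ [0, 0, 0, 0, 0, 0]) := by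
  have h7 : gX ^ 7 = 1 := by
    have h := pow_orderOf_eq_one gX
    rwa [ord_gX] at h
  have hinv : gX⁻¹ = gX ^ 6 := by
    rw [inv_eq_iff_mul_eq_one, ← pow_succ']
    exact h7
  have e1 : ev gen1 (0 :: w ++ [0, 0, 0, 0, 0, 0]) = gX * ev gen1 w * gX ^ 6 := by
    have e2 : (0 :: w ++ [0, 0, 0, 0, 0, 0] : List ℕ) = [0] ++ w ++ List.replicate 6 0 := by
      simp [List.replicate]
    rw [e2, ev_append, ev_append, ev_replicate]
    simp [ev, gen1]
  rw [e1, hinv]

theorem t1_eq : gX * ev gen1 tw * gX⁻¹ = ev gen1 w1 := conjX tw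
theorem t2_eq : gX * (gX * ev gen1 tw * gX⁻¹) * gX⁻¹ = ev gen1 w2 := by rw [t1_eq]; exact conjX w1
theorem t3_eq : gX * (gX * (gX * ev gen1 tw * gX⁻¹) * gX⁻¹) * gX⁻¹ = ev gen1 w3' := by
  rw [t2_eq]; exact conjX w2

theorem comm01 : ev gen1 tw * ev gen1 w1 = ev gen1 w1 * ev gen1 tw := by
  rw [← ev_append, ← ev_append]
  exact ev_eq_ev _ _ (by decide +kernel)

theorem comm02 : ev gen1 tw * ev gen1 w2 = ev gen1 w2 * ev gen1 tw := by
  rw [← ev_append, ← ev_append]
  exact ev_eq_ev _ _ (by decide +kernel)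

theorem rel3 : ev gen1 w3' = ev gen1 tw * ev gen1 w2 := by
  rw [← ev_append]
  exact ev_eq_ev _ _ (by decide +kernel)

theorem E_le : E ≤ Subgroup.closure ({ev gen1 tw, ev gen1 w1, ev gen1 w2} : Set ↥Cfsg.Spor.J1) := by
  have h0 : ev gen1 tw ∈ Subgroup.closure ({ev gen1 tw, ev gen1 w1, ev gen1 w2} : Set ↥Cfsg.Spor.J1) :=
    Subgroup.subset_closure (by simp)
  have h1 : ev gen1 w1 ∈ Subgroup.closure ({ev gen1 tw, ev gen1 w1, ev gen1 w2} : Set ↥Cfsg.Spor.J1) :=
    Subgroup.subset_closure (by simp)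
  have h2 : ev gen1 w2 ∈ Subgroup.closure ({ev gen1 tw, ev gen1 w1, ev gen1 w2} : Set ↥Cfsg.Spor.J1) :=
    Subgroup.subset_closure (by simp)
  unfold E wordGroup
  rw [Subgroup.closure_le]
  rintro g ⟨w, hw, rfl⟩
  simp only [tws, List.mem_cons, List.not_mem_nil, or_false] at hw
  rcases hw with rfl | rfl | rfl | rfl | rfl | rfl | rfl
  · exact h0
  · exact h1
  · have e : ev gen1 [0, 0, 1, 1, 1, 1, 0, 1, 0, 0, 0, 0, 0, 0] = ev gen1 w2 :=
      ev_eq_ev _ _ (by decide +kernel)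
    rw [SetLike.mem_coe, e]; exact h2
  · have e : ev gen1 [0, 0, 0, 1, 1, 1, 1, 0, 1, 0, 0, 0, 0, 0] = ev gen1 (tw ++ w2) :=
      ev_eq_ev _ _ (by decide +kernel)
    rw [SetLike.mem_coe, e, ev_append]; exact Subgroup.mul_mem _ h0 h2
  · have e : ev gen1 [0, 0, 0, 0, 1, 1, 1, 1, 0, 1, 0, 0, 0, 0] = ev gen1 (w1 ++ (tw ++ w2)) :=
      ev_eq_ev _ _ (by decide +kernel)
    rw [SetLike.mem_coe, e, ev_append, ev_append]
    exact Subgroup.mul_mem _ h1 (Subgroup.mul_mem _ h0 h2)
  · have e : ev gen1 [0, 0, 0, 0, 0, 1, 1, 1, 1, 0, 1, 0, 0, 0] = ev gen1 (tw ++ w1) :=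
      ev_eq_ev _ _ (by decide +kernel)
    rw [SetLike.mem_coe, e, ev_append]; exact Subgroup.mul_mem _ h0 h1
  · have e : ev gen1 [0, 0, 0, 0, 0, 0, 1, 1, 1, 1, 0, 1, 0, 0] = ev gen1 (w1 ++ w2) :=
      ev_eq_ev _ _ (by decide +kernel)
    rw [SetLike.mem_coe, e, ev_append]; exact Subgroup.mul_mem _ h1 h2

/-- A prime `l ≠ 2` divides `175560` at most once. -/
theorem factorization_le_one {l : ℕ} (hl : l.Prime) (h2 : l ≠ 2) :
    (175560 : ℕ).factorization l ≤ 1 := by
  by_contra hcon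
  have h : 2 ≤ (175560 : ℕ).factorization l := by omega
  have hdvd : l ^ 2 ∣ 175560 := (hl.pow_dvd_iff_le_factorization (by norm_num)).mpr h
  have hl1 : l ∣ 175560 := dvd_trans (dvd_pow_self l (by norm_num)) hdvd
  have e : (175560 : ℕ) = 2 ^ 3 * 3 * 5 * 7 * 11 * 19 := by norm_num
  rw [e] at hl1
  rcases (Nat.Prime.dvd_mul hl).mp hl1 with h | h
  · rcases (Nat.Prime.dvd_mul hl).mp h with h | h
    · rcases (Nat.Prime.dvd_mul hl).mp h with h | h
      · rcases (Nat.Prime.dvd_mul hl).mp h with h | h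
        · rcases (Nat.Prime.dvd_mul hl).mp h with h | h
          · exact h2 ((Nat.prime_dvd_prime_iff_eq hl Nat.prime_two).mp (hl.dvd_of_dvd_pow h))
          · have h3 : l = 3 := (Nat.prime_dvd_prime_iff_eq hl (by norm_num)).mp h
            subst h3
            norm_num at hdvd
        · have h5 : l = 5 := (Nat.prime_dvd_prime_iff_eq hl (by norm_num)).mp h
          subst h5
          norm_num at hdvd
      · have h7 : l = 7 := (Nat.prime_dvd_prime_iff_eq hl (by norm_num)).mp h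
        subst h7
        norm_num at hdvd
    · have h11 : l = 11 := (Nat.prime_dvd_prime_iff_eq hl (by norm_num)).mp h
      subst h11
      norm_num at hdvd
  · have h19 : l = 19 := (Nat.prime_dvd_prime_iff_eq hl (by norm_num)).mp h
    subst h19
    norm_num at hdvd

/-- The Schur multiplier of the Janko group J₁ (the group generated by two explicit 7 × 7 matrices over the integers modulo 11) is trivial; here the Schur multiplier is described through stem extensions, as in the definitions: surjective homomorphisms onto the group from a finite group, whose kernel is central in that finite group and contained in that finite group's commutator subgroup. -/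
theorem result : Cfsg.HasCyclicSchurMultiplier ↥Cfsg.Spor.J1 1 := by
  apply Cfsg.Agent.Lib.Helper35.Stem.hasCyclicSchurMultiplier_one
  intro Γ _ _ σ hσ
  apply StemLocal.ker_eq_bot_of_local σ hσ
  intro l hl
  have hfact : Fact l.Prime := ⟨hl⟩
  by_cases h2 : l = 2
  · subst h2
    obtain ⟨X, hX⟩ := hσ.1 gX
    obtain ⟨A, hA⟩ := hσ.1 (ev gen1 tw)
    have e1 : σ (X * A * X⁻¹) = ev gen1 w1 := by
      rw [map_mul, map_mul, map_inv, hX, hA]; exact t1_eq
    have e2 : σ (X * (X * A * X⁻¹) * X⁻¹) = ev gen1 w2 := by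
      rw [map_mul, map_mul, map_inv, e1, hX]; exact conjX w1
    have e3 : σ (X * (X * (X * A * X⁻¹) * X⁻¹) * X⁻¹) = ev gen1 w3' := by
      rw [map_mul, map_mul, map_inv, e2, hX]; exact conjX w2
    obtain ⟨c01, c02, c12⟩ := comm_of_f8 σ hσ.2.1 X A (by rw [e1, hA]; exact comm01)
      (by rw [e2, hA]; exact comm02) (by rw [e3, e2, hA]; exact rel3)
    have himg : σ '' ({A, X * A * X⁻¹, X * (X * A * X⁻¹) * X⁻¹} : Set Γ) =
        {ev gen1 tw, ev gen1 w1, ev gen1 w2} := by
      rw [Set.image_insert_eq, Set.image_pair, hA, e1, e2]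
    refine ⟨Subgroup.closure ({ev gen1 tw, ev gen1 w1, ev gen1 w2} : Set ↥Cfsg.Spor.J1), ?_, ?_⟩
    · have hdvd := Subgroup.index_dvd_of_le E_le
      rw [Nat.coprime_comm]
      exact (Nat.Prime.coprime_iff_not_dvd Nat.prime_two).mpr
        (fun h => E_index (dvd_trans h hdvd))
    · intro z hz
      rw [← himg, StemLocal.commutator_comap_closure σ hσ.2.1] at hz
      have hbot : ⁅Subgroup.closure ({A, X * A * X⁻¹, X * (X * A * X⁻¹) * X⁻¹} : Set Γ),
          Subgroup.closure ({A, X * A * X⁻¹, X * (X * A * X⁻¹) * X⁻¹} : Set Γ)⁆ ≤ ⊥ := by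
        apply StemLocal.commutator_closure_le
        · intro a _ v hv
          rw [Subgroup.mem_bot] at hv
          subst hv
          simp
        · intro a ha b hb
          have ha' : a = A ∨ a = X * A * X⁻¹ ∨ a = X * (X * A * X⁻¹) * X⁻¹ := ha
          have hb' : b = A ∨ b = X * A * X⁻¹ ∨ b = X * (X * A * X⁻¹) * X⁻¹ := hb
          rw [Subgroup.mem_bot]
          rcases ha' with h | h | h <;> rcases hb' with h' | h' | h' <;> rw [h, h']
          · exact commutatorElement_self _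
          · exact c01
          · exact c02
          · rw [← commutatorElement_inv, c01, inv_one]
          · exact commutatorElement_self _
          · exact c12
          · rw [← commutatorElement_inv, c02, inv_one]
          · rw [← commutatorElement_inv, c12, inv_one]
          · exact commutatorElement_self _
      have hz1 : z = 1 := by
        have := hbot (Subgroup.mem_inf.mp hz).1
        rwa [Subgroup.mem_bot] at this
      rw [hz1, orderOf_one]
      norm_num
  · obtain ⟨P⟩ := (inferInstance : Nonempty (Sylow l ↥Cfsg.Spor.J1))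
    have hcard : Nat.card (P : Subgroup ↥Cfsg.Spor.J1) = l ^ (175560 : ℕ).factorization l := by
      rw [Sylow.card_eq_multiplicity, card_J1]
    have hle := factorization_le_one hl h2
    have hcyc : IsCyclic (P : Subgroup ↥Cfsg.Spor.J1) := by
      rcases Nat.lt_or_ge ((175560 : ℕ).factorization l) 1 with h | h
      · have h0 : (175560 : ℕ).factorization l = 0 := by omega
        rw [h0, pow_zero] at hcard
        have : Subsingleton (P : Subgroup ↥Cfsg.Spor.J1) :=
          (Nat.card_eq_one_iff_unique.mp hcard).1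
        exact isCyclic_of_subsingleton
      · have h1 : (175560 : ℕ).factorization l = 1 := le_antisymm hle h
        rw [h1, pow_one] at hcard
        exact isCyclic_of_prime_card hcard
    refine ⟨(P : Subgroup ↥Cfsg.Spor.J1), ?_, ?_⟩
    · rw [Nat.coprime_comm]
      exact (Nat.Prime.coprime_iff_not_dvd hl).mpr P.not_dvd_index
    · intro z hz
      rw [StemLocal.commutator_comap_eq_bot_of_isCyclic σ hσ.1 hσ.2.1] at hz
      have hz1 : z = 1 := by
        have := (Subgroup.mem_inf.mp hz).1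
        rwa [Subgroup.mem_bot] at this
      rw [hz1, orderOf_one]
      exact hl.one_lt.ne

end Cfsg.Agent.S2039
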