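import Cfsg.Statements.S2086
-- import your own Cfsg.Agent.* helpers here
import Mathlib
import Cfsg.Agent.Lib.Helper98.SchurRed
import Cfsg.Agent.Lib.Helper98.SplitN
import Cfsg.Agent.Lib.Helper98.F1Four
import Cfsg.Agent.Lib.Helper98.SplitTwoA
import Cfsg.Agent.Lib.Helper98.SymbolT
import Cfsg.Agent.Lib.Helper32.SL2Split
import Cfsg.Agent.Lib.Helper97.SplitThree

set_option autoImplicit false
open Cfsg

namespace Cfsg.Agent.S2086

open scoped IsMulCommutative in
/-- central extensions of `SL(2, F)` split for `q ≥ 5`, `q ≠ 9` -/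
theorem split_two {F : Type*} [Field F] [Fintype F] (h5 : 5 ≤ Fintype.card F)
    (h9 : Fintype.card F ≠ 9) {Y : Type*} [Group Y]
    (φ : Y →* Matrix.SpecialLinearGroup (Fin 2) F) (hφ : Function.Surjective φ)
    (hc : φ.ker ≤ Subgroup.center Y) :
    ∃ s : Matrix.SpecialLinearGroup (Fin 2) F →* Y, ∀ g, φ (s g) = g := by
  obtain ⟨hu, hl⟩ := Cfsg.Agent.Lib.Helper98.SplitTwoA.comm_of_symbol φ hφ hc
    (fun f h1 h2 h3 h4 => Cfsg.Agent.Lib.Helper98.SymbolT.symbol_trivial h5 h9 f h1 h2 h3 h4)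
  exact Cfsg.Agent.Lib.Helper32.SL2Split.split_two_of_symbol (by omega) φ hφ hc hu hl


/-- Schur multipliers of the linear groups: for n ≥ 2 and a field F with q elements (q ≥ 4 when n = 2), apart from the five exceptional pairs (n, q) = (2, 4), (2, 9), (3, 2), (3, 4), (4, 2), the Schur multiplier of PSL_n(F) is cyclic of order gcd(n, q − 1); here the Schur multiplier is described through stem extensions, as in the definitions. -/
theorem result {F : Type*} [Field F] [Fintype F] {q : ℕ} (hF : Fintype.card F = q) (n : ℕ) (hn : 2 ≤ n) (h2 : n = 2 → 4 ≤ q) (hexc : (n, q) ∉ ({(2, 4), (2, 9), (3, 2), (3, 4), (4, 2)} : Set (ℕ × ℕ))) : Cfsg.HasCyclicSchurMultiplier (Matrix.ProjectiveSpecialLinearGroup (Fin n) F) (Nat.gcd n (q - 1)) := by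
  subst hF
  refine Cfsg.Agent.Lib.Helper98.SchurRed.schur_of_split n hn h2 ?_
  intro Y _ φ hφ hc
  have hn' : n = 2 ∨ n = 3 ∨ n = 4 ∨ 5 ≤ n := by omega
  rcases hn' with rfl | rfl | rfl | h5
  · have h4 := h2 rfl
    have hq4 : Fintype.card F ≠ 4 := fun h => hexc (by rw [h]; simp)
    have hq9 : Fintype.card F ≠ 9 := fun h => hexc (by rw [h]; simp)
    exact split_two (by omega) hq9 φ hφ hc
  · have hq2 : Fintype.card F ≠ 2 := fun h => hexc (by rw [h]; simp)
    have hq4 : Fintype.card F ≠ 4 := fun h => hexc (by rw [h]; simp)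
    exact Cfsg.Agent.Lib.Helper97.SplitThree.split_three hq2 hq4 φ hφ hc
  · have hq2 : Fintype.card F ≠ 2 := fun h => hexc (by rw [h]; simp)
    exact Cfsg.Agent.Lib.Helper98.SplitN.split_of_F1 φ hφ hc le_rfl
      (Cfsg.Agent.Lib.Helper98.F1Four.f1_four φ hφ hc hq2)
  · exact Cfsg.Agent.Lib.Helper98.SplitN.split_five φ hφ hc h5

end Cfsg.Agent.S2086
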