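import Mathlib
import Cfsg.Statements.S2087
import Cfsg.Agent.Lib.Helper66.PrimeMult

set_option autoImplicit false
open Cfsg

namespace Cfsg.Agent.S2087

open Matrix
open scoped commutatorElement
open Cfsg.Agent.Lib.Helper66

/-- `SL₂(7)` -/
abbrev G2 := Matrix.SpecialLinearGroup (Fin 2) (ZMod 7)
/-- `SL₃(2)` -/
abbrev G3 := Matrix.SpecialLinearGroup (Fin 3) (ZMod 2)

/-- Coordinates of the powers of a root of `X³ + X + 1` in the field with `8` elements. -/
def tab : ZMod 7 → Fin 3 → ZMod 2 :=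
  ![![1,0,0], ![0,1,0], ![0,0,1], ![1,1,0], ![0,1,1], ![1,1,1], ![1,0,1]]

/-- An identification of the projective line over `𝔽₇` with `𝔽₂³` (on vectors). -/
def κ (v : Fin 2 → ZMod 7) : Fin 3 → ZMod 2 := if v 1 = 0 then 0 else tab (v 0 * (v 1) ^ 5)

/-- `x` acts on the projective line as an affine map of `𝔽₂³` with linear part `y`. -/
def Aff (x : Matrix (Fin 2) (Fin 2) (ZMod 7)) (y : Matrix (Fin 3) (Fin 3) (ZMod 2)) : Prop :=
  ∀ v : Fin 2 → ZMod 7, v ≠ 0 → κ (x *ᵥ v) + κ (x *ᵥ ![1, 0]) = y *ᵥ κ v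

instance (x : Matrix (Fin 2) (Fin 2) (ZMod 7)) (y : Matrix (Fin 3) (Fin 3) (ZMod 2)) :
    Decidable (Aff x y) := by unfold Aff; infer_instance

theorem κ_e : κ ![1, 0] = 0 := by decide

theorem add_self3 (u : Fin 3 → ZMod 2) : u + u = 0 := by
  funext i
  have : ∀ t : ZMod 2, t + t = 0 := by decide
  exact this (u i)

theorem e_ne : (![1, 0] : Fin 2 → ZMod 7) ≠ 0 := by decide

theorem mulVec_ne_zero (x : G2) {v : Fin 2 → ZMod 7} (hv : v ≠ 0) :
    (x : Matrix (Fin 2) (Fin 2) (ZMod 7)) *ᵥ v ≠ 0 := by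
  intro h
  apply hv
  have : ((x⁻¹ : G2) : Matrix (Fin 2) (Fin 2) (ZMod 7)) *ᵥ
      ((x : Matrix (Fin 2) (Fin 2) (ZMod 7)) *ᵥ v) = v := by
    rw [Matrix.mulVec_mulVec, ← Matrix.SpecialLinearGroup.coe_mul, inv_mul_cancel,
      Matrix.SpecialLinearGroup.coe_one, Matrix.one_mulVec]
  rw [← this, h, Matrix.mulVec_zero]

theorem aff_mul {x x' : G2} {y y' : G3}
    (h : Aff (x : Matrix (Fin 2) (Fin 2) (ZMod 7)) (y : Matrix (Fin 3) (Fin 3) (ZMod 2)))
    (h' : Aff (x' : Matrix (Fin 2) (Fin 2) (ZMod 7)) (y' : Matrix (Fin 3) (Fin 3) (ZMod 2))) :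
    Aff ((x * x' : G2) : Matrix (Fin 2) (Fin 2) (ZMod 7))
      ((y * y' : G3) : Matrix (Fin 3) (Fin 3) (ZMod 2)) := by
  intro v hv
  have h1 := h' v hv
  have h2 := h _ (mulVec_ne_zero x' hv)
  have h3 := h _ (mulVec_ne_zero x' e_ne)
  rw [Matrix.SpecialLinearGroup.coe_mul, Matrix.SpecialLinearGroup.coe_mul,
    ← Matrix.mulVec_mulVec, ← Matrix.mulVec_mulVec, ← Matrix.mulVec_mulVec, ← h1,
    Matrix.mulVec_add, ← h2, ← h3, add_add_add_comm, add_self3, add_zero]

theorem aff_one : Aff (1 : Matrix (Fin 2) (Fin 2) (ZMod 7)) (1 : Matrix (Fin 3) (Fin 3) (ZMod 2)) := by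
  intro v _
  rw [Matrix.one_mulVec, Matrix.one_mulVec, Matrix.one_mulVec, κ_e, add_zero]

theorem aff_inv {x : G2} {y : G3}
    (h : Aff (x : Matrix (Fin 2) (Fin 2) (ZMod 7)) (y : Matrix (Fin 3) (Fin 3) (ZMod 2))) :
    Aff ((x⁻¹ : G2) : Matrix (Fin 2) (Fin 2) (ZMod 7))
      ((y⁻¹ : G3) : Matrix (Fin 3) (Fin 3) (ZMod 2)) := by
  intro v hv
  have hx : ∀ u : Fin 2 → ZMod 7, (x : Matrix (Fin 2) (Fin 2) (ZMod 7)) *ᵥ
      (((x⁻¹ : G2) : Matrix (Fin 2) (Fin 2) (ZMod 7)) *ᵥ u) = u := by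
    intro u
    rw [Matrix.mulVec_mulVec, ← Matrix.SpecialLinearGroup.coe_mul, mul_inv_cancel,
      Matrix.SpecialLinearGroup.coe_one, Matrix.one_mulVec]
  have h1 := h _ (mulVec_ne_zero x⁻¹ hv)
  have h2 := h _ (mulVec_ne_zero x⁻¹ e_ne)
  rw [hx] at h1 h2
  rw [κ_e, zero_add] at h2
  have h3 : (y : Matrix (Fin 3) (Fin 3) (ZMod 2)) *ᵥ
      (κ (((x⁻¹ : G2) : Matrix (Fin 2) (Fin 2) (ZMod 7)) *ᵥ v) +
        κ (((x⁻¹ : G2) : Matrix (Fin 2) (Fin 2) (ZMod 7)) *ᵥ ![1, 0])) = κ v := by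
    rw [Matrix.mulVec_add, ← h1, ← h2, add_assoc, add_self3, add_zero]
  rw [← h3, Matrix.mulVec_mulVec, ← Matrix.SpecialLinearGroup.coe_mul, inv_mul_cancel,
    Matrix.SpecialLinearGroup.coe_one, Matrix.one_mulVec]

/-- The graph of the homomorphism `SL₂(7) → SL₃(2)`. -/
def S : Subgroup (G2 × G3) where
  carrier := {p | Aff (p.1 : Matrix (Fin 2) (Fin 2) (ZMod 7)) (p.2 : Matrix (Fin 3) (Fin 3) (ZMod 2))}
  mul_mem' := fun ha hb => aff_mul ha hb
  one_mem' := aff_one
  inv_mem' := fun ha => aff_inv ha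

/-- The projection of the graph to `SL₃(2)`. -/
def ξ : S →* G3 := (MonoidHom.snd G2 G3).comp S.subtype

theorem mem_range_of_aff (x : G2) (y : G3)
    (h : Aff (x : Matrix (Fin 2) (Fin 2) (ZMod 7)) (y : Matrix (Fin 3) (Fin 3) (ZMod 2))) :
    y ∈ ξ.range := ⟨⟨(x, y), h⟩, rfl⟩

theorem transvection_mem (i j : Fin 3) (hij : i ≠ j) (c : ZMod 2) :
    ∃ y : G3, (y : Matrix (Fin 3) (Fin 3) (ZMod 2)) = Matrix.transvection i j c ∧ y ∈ ξ.range := by
  have hc : c = 0 ∨ c = 1 := by revert c; decide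
  rcases hc with rfl | rfl
  · exact ⟨1, by simp, Subgroup.one_mem _⟩
  · fin_cases i <;> fin_cases j
    · exact absurd rfl hij
    · exact ⟨⟨!![1,1,0;0,1,0;0,0,1], by decide⟩, by decide,
        mem_range_of_aff ⟨!![3,1;4,4], by decide⟩ _ (by decide)⟩
    · exact ⟨⟨!![1,0,1;0,1,0;0,0,1], by decide⟩, by decide,
        mem_range_of_aff ⟨!![3,4;1,4], by decide⟩ _ (by decide)⟩
    · exact ⟨⟨!![1,0,0;1,1,0;0,0,1], by decide⟩, by decide,
        mem_range_of_aff ⟨!![3,3;6,4], by decide⟩ _ (by decide)⟩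
    · exact absurd rfl hij
    · exact ⟨⟨!![1,0,0;0,1,1;0,0,1], by decide⟩, by decide,
        mem_range_of_aff ⟨!![0,2;3,0], by decide⟩ _ (by decide)⟩
    · exact ⟨⟨!![1,0,0;0,1,0;1,0,1], by decide⟩, by decide,
        mem_range_of_aff ⟨!![3,6;3,4], by decide⟩ _ (by decide)⟩
    · exact ⟨⟨!![1,0,0;0,1,0;0,1,1], by decide⟩, by decide,
        mem_range_of_aff ⟨!![0,3;2,0], by decide⟩ _ (by decide)⟩
    · exact absurd rfl hij

theorem list_mem (L : List (Matrix.TransvectionStruct (Fin 3) (ZMod 2))) :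
    ∃ y : G3, (y : Matrix (Fin 3) (Fin 3) (ZMod 2)) =
      (L.map Matrix.TransvectionStruct.toMatrix).prod ∧ y ∈ ξ.range := by
  induction L with
  | nil => exact ⟨1, by simp, Subgroup.one_mem _⟩
  | cons t L ih =>
    obtain ⟨y, hy, hyr⟩ := ih
    obtain ⟨y', hy', hyr'⟩ := transvection_mem t.i t.j t.hij t.c
    refine ⟨y' * y, ?_, Subgroup.mul_mem _ hyr' hyr⟩
    rw [List.map_cons, List.prod_cons, Matrix.SpecialLinearGroup.coe_mul, hy, hy']
    rfl

theorem ξ_surjective : Function.Surjective ξ := by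
  intro y
  obtain ⟨L, L', D, h⟩ := Matrix.Pivot.exists_list_transvec_mul_diagonal_mul_list_transvec
    (y : Matrix (Fin 3) (Fin 3) (ZMod 2))
  have hdet : Matrix.det (Matrix.diagonal D) = 1 := by
    have h1 := congrArg Matrix.det h
    rw [y.det_coe, Matrix.det_mul, Matrix.det_mul, Matrix.TransvectionStruct.det_toMatrix_prod,
      Matrix.TransvectionStruct.det_toMatrix_prod, one_mul, mul_one] at h1
    exact h1.symm
  have hD : Matrix.diagonal D = 1 := by
    rw [Matrix.det_diagonal] at hdet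
    have h1 : ∀ i, D i = 1 := by
      intro i
      have hne : D i ≠ 0 := by
        intro h0
        rw [Finset.prod_eq_zero (Finset.mem_univ i) h0] at hdet
        exact zero_ne_one hdet
      have hall : ∀ d : ZMod 2, d ≠ 0 → d = 1 := by decide
      exact hall _ hne
    have h2 : D = fun _ => 1 := funext h1
    rw [h2, Matrix.diagonal_one]
  rw [hD, mul_one] at h
  obtain ⟨y1, hy1, hr1⟩ := list_mem L
  obtain ⟨y2, hy2, hr2⟩ := list_mem L'
  have hy : y = y1 * y2 := by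
    apply Subtype.ext
    rw [Matrix.SpecialLinearGroup.coe_mul, hy1, hy2, h]
  rw [hy]
  exact Subgroup.mul_mem _ hr1 hr2

/-- Kernel test: a matrix of `SL₂(7)` acting as a translation is scalar. -/
def KerCond (a b c d : ZMod 7) : Prop := a * d - b * c = 1 →
    κ (!![a,b;c,d] *ᵥ ![0,1]) + κ (!![a,b;c,d] *ᵥ ![1, 0]) = κ ![0,1] →
    κ (!![a,b;c,d] *ᵥ ![1,1]) + κ (!![a,b;c,d] *ᵥ ![1, 0]) = κ ![1,1] →
    κ (!![a,b;c,d] *ᵥ ![1,2]) + κ (!![a,b;c,d] *ᵥ ![1, 0]) = κ ![1,2] →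
    b = 0 ∧ c = 0 ∧ a = d

instance (a b c d : ZMod 7) : Decidable (KerCond a b c d) := by unfold KerCond; infer_instance

theorem kerlem : ∀ a b c d : ZMod 7, KerCond a b c d := by decide +kernel

theorem comm_of_aff_one (x : G2)
    (h : Aff (x : Matrix (Fin 2) (Fin 2) (ZMod 7)) (1 : Matrix (Fin 3) (Fin 3) (ZMod 2)))
    (q : G2) : q * x = x * q := by
  obtain ⟨M, hM⟩ : ∃ M : Matrix (Fin 2) (Fin 2) (ZMod 7), M = (x : Matrix (Fin 2) (Fin 2) (ZMod 7)) :=
    ⟨_, rfl⟩
  have hx : M = !![M 0 0, M 0 1; M 1 0, M 1 1] := Matrix.eta_fin_two M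
  have hdet : M 0 0 * M 1 1 - M 0 1 * M 1 0 = 1 := by
    have h1 := x.det_coe
    rw [← hM, Matrix.det_fin_two] at h1
    exact h1
  rw [← hM] at h
  have h1 := h ![0,1] (by decide)
  have h2 := h ![1,1] (by decide)
  have h3 := h ![1,2] (by decide)
  rw [Matrix.one_mulVec] at h1 h2 h3
  rw [hx] at h1 h2 h3
  obtain ⟨hb, hc, had⟩ := kerlem _ _ _ _ hdet h1 h2 h3
  apply Subtype.ext
  rw [Matrix.SpecialLinearGroup.coe_mul, Matrix.SpecialLinearGroup.coe_mul, ← hM, hx, hb, hc, ← had]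
  obtain ⟨N, hN⟩ : ∃ N : Matrix (Fin 2) (Fin 2) (ZMod 7), N = (q : Matrix (Fin 2) (Fin 2) (ZMod 7)) :=
    ⟨_, rfl⟩
  rw [← hN, Matrix.eta_fin_two N]
  ext i j
  fin_cases i <;> fin_cases j <;> simp [Matrix.mul_apply, Fin.sum_univ_two, mul_comm]

theorem ker_le_center : ξ.ker ≤ Subgroup.center S := by
  intro p hp
  rw [MonoidHom.mem_ker] at hp
  have h2 : (p : G2 × G3).2 = 1 := hp
  have hA : Aff ((p : G2 × G3).1 : Matrix (Fin 2) (Fin 2) (ZMod 7))
      ((p : G2 × G3).2 : Matrix (Fin 3) (Fin 3) (ZMod 2)) := p.2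
  rw [h2, Matrix.SpecialLinearGroup.coe_one] at hA
  rw [Subgroup.mem_center_iff]
  intro q
  apply Subtype.ext
  apply Prod.ext
  · exact comm_of_aff_one _ hA (q : G2 × G3).1
  · show (q : G2 × G3).2 * (p : G2 × G3).2 = (p : G2 × G3).2 * (q : G2 × G3).2
    rw [h2, mul_one, one_mul]

/-- A lift of an involution. -/
def uS : S := ⟨(⟨!![0,1;6,0], by decide⟩, ⟨!![1,0,0;0,0,1;0,1,0], by decide⟩),
  show Aff _ _ by decide⟩

/-- A lift of a second, commuting involution. -/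
def vS : S := ⟨(⟨!![2,3;3,5], by decide⟩, ⟨!![1,0,0;1,0,1;1,1,0], by decide⟩),
  show Aff _ _ by decide⟩

theorem z_mem : ⁅uS, vS⁆ ∈ _root_.commutator S ⊓ ξ.ker := by
  refine Subgroup.mem_inf.mpr ⟨?_, ?_⟩
  · exact Subgroup.commutator_mem_commutator (Subgroup.mem_top _) (Subgroup.mem_top _)
  · rw [MonoidHom.mem_ker, map_commutatorElement, commutatorElement_eq_one_iff_commute]
    show ξ uS * ξ vS = ξ vS * ξ uS
    decide

theorem z_ne : ⁅uS, vS⁆ ≠ 1 := by
  intro h
  rw [commutatorElement_eq_one_iff_commute] at h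
  have h1 : uS * vS = vS * uS := h
  have h2 := congrArg (fun p : S => (p : G2 × G3).1) h1
  revert h2
  decide

theorem card_G3 : Nat.card G3 = 8 * 21 := by
  rw [Nat.card_eq_fintype_card]
  decide +kernel

/-- An element of order `4`. -/
def rE : G3 := ⟨!![1,1,0;0,1,1;0,0,1], by decide⟩

/-- An involution inverting `rE`. -/
def sE : G3 := ⟨!![1,1,0;0,1,0;0,0,1], by decide⟩

theorem r4 : rE ^ 4 = 1 := by decide
theorem r2 : rE ^ 2 ≠ 1 := by decide
theorem sr : sE * rE * sE⁻¹ = rE⁻¹ := by decide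
theorem s2 : sE ^ 2 = 1 := by decide

/-- A prime `l ≠ 2` divides `168` at most once. -/
theorem factorization_le_one {l : ℕ} (hl : l.Prime) (h2 : l ≠ 2) :
    (8 * 21 : ℕ).factorization l ≤ 1 := by
  by_contra hcon
  have h : 2 ≤ (8 * 21 : ℕ).factorization l := by omega
  have hdvd : l ^ 2 ∣ 8 * 21 := (hl.pow_dvd_iff_le_factorization (by norm_num)).mpr h
  have hl1 : l ∣ 8 * 21 := dvd_trans (dvd_pow_self l (by norm_num)) hdvd
  have e : (8 * 21 : ℕ) = 2 ^ 3 * 3 * 7 := by norm_num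
  rw [e] at hl1
  rcases (Nat.Prime.dvd_mul hl).mp hl1 with h | h
  · rcases (Nat.Prime.dvd_mul hl).mp h with h | h
    · exact h2 ((Nat.prime_dvd_prime_iff_eq hl Nat.prime_two).mp (hl.dvd_of_dvd_pow h))
    · have h3 : l = 3 := (Nat.prime_dvd_prime_iff_eq hl (by norm_num)).mp h
      subst h3
      norm_num at hdvd
  · have h7 : l = 7 := (Nat.prime_dvd_prime_iff_eq hl (by norm_num)).mp h
    subst h7
    norm_num at hdvd

/-- Every finite stem extension of `SL₃(2)` has kernel of order dividing `2`. -/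
theorem ub {Γ : Type*} [Group Γ] [Finite Γ] (σ : Γ →* G3) (hσ : Cfsg.IsStemExtension σ) :
    Nat.card σ.ker ∣ 2 := by
  apply PrimeMult.card_ker_dvd_of_local σ hσ 2 ?_ (Subgroup.closure {rE, sE}) ?_ ?_
  · intro l hl h2
    have hfact : Fact l.Prime := ⟨hl⟩
    obtain ⟨P⟩ := (inferInstance : Nonempty (Sylow l G3))
    have hcard : Nat.card (P : Subgroup G3) = l ^ (8 * 21 : ℕ).factorization l := by
      rw [Sylow.card_eq_multiplicity, card_G3]
    have hle := factorization_le_one hl h2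
    have hcyc : IsCyclic (P : Subgroup G3) := by
      rcases Nat.lt_or_ge ((8 * 21 : ℕ).factorization l) 1 with h | h
      · have h0 : (8 * 21 : ℕ).factorization l = 0 := by omega
        rw [h0, pow_zero] at hcard
        have : Subsingleton (P : Subgroup G3) := (Nat.card_eq_one_iff_unique.mp hcard).1
        exact isCyclic_of_subsingleton
      · have h1 : (8 * 21 : ℕ).factorization l = 1 := le_antisymm hle h
        rw [h1, pow_one] at hcard
        exact isCyclic_of_prime_card hcard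
    refine ⟨(P : Subgroup G3), ?_, ?_⟩
    · rw [Nat.coprime_comm]
      exact (Nat.Prime.coprime_iff_not_dvd hl).mpr P.not_dvd_index
    · intro z hz
      rw [StemLocal.commutator_comap_eq_bot_of_isCyclic σ hσ.1 hσ.2.1] at hz
      have hz1 : z = 1 := by
        have := (Subgroup.mem_inf.mp hz).1
        rwa [Subgroup.mem_bot] at this
      rw [hz1, orderOf_one]
      exact hl.one_lt.ne
  · exact PrimeMult.d8_index_coprime r4 r2 sr s2 card_G3 (by decide)
  · exact PrimeMult.d8_card_dvd σ hσ.1 hσ.2.1 r4 r2 sr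

theorem exists_iso {F : Type*} [Field F] [Fintype F] (hF : Fintype.card F = 2) :
    Nonempty (Matrix.ProjectiveSpecialLinearGroup (Fin 3) F ≃* G3) := by
  classical
  let e₀ : ZMod 2 ≃+* F := ZMod.ringEquivOfPrime F Nat.prime_two hF
  let f : Matrix.SpecialLinearGroup (Fin 3) F →* G3 :=
    Matrix.SpecialLinearGroup.map (e₀.symm : F →+* ZMod 2)
  let g : G3 →* Matrix.SpecialLinearGroup (Fin 3) F :=
    Matrix.SpecialLinearGroup.map (e₀ : ZMod 2 →+* F)
  have hfg : f.comp g = MonoidHom.id _ := by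
    apply MonoidHom.ext
    intro A
    apply Matrix.SpecialLinearGroup.ext
    intro i j
    simp [f, g]
  have hgf : g.comp f = MonoidHom.id _ := by
    apply MonoidHom.ext
    intro A
    apply Matrix.SpecialLinearGroup.ext
    intro i j
    simp [f, g]
  let e₁ : Matrix.SpecialLinearGroup (Fin 3) F ≃* G3 := MonoidHom.toMulEquiv f g hgf hfg
  have hcenter : Subgroup.center (Matrix.SpecialLinearGroup (Fin 3) F) = ⊥ := by
    rw [eq_bot_iff]
    intro A hA
    rw [Matrix.SpecialLinearGroup.mem_center_iff] at hA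
    obtain ⟨r, hr, hrA⟩ := hA
    have h01 : ∀ x : F, x = 0 ∨ x = 1 := by
      intro x
      have hall : ∀ t : ZMod 2, t = 0 ∨ t = 1 := by decide
      rcases hall (e₀.symm x) with h | h
      · left
        have := congrArg e₀ h
        simpa using this
      · right
        have := congrArg e₀ h
        simpa using this
    rcases h01 r with h | h
    · rw [h] at hr
      simp at hr
    · rw [Subgroup.mem_bot]
      apply Subtype.ext
      rw [← hrA, h, map_one, Matrix.SpecialLinearGroup.coe_one]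
  exact ⟨(QuotientGroup.quotientMulEquivOfEq hcenter).trans (QuotientGroup.quotientBot.trans e₁)⟩

/-- Exceptional Schur multiplier: over the field with 2 elements, PSL₃ has Schur multiplier cyclic of order 2 (here the Schur multiplier is described through stem extensions, as in the definitions). -/
theorem result {F : Type*} [Field F] [Fintype F] (hF : Fintype.card F = 2) : Cfsg.HasCyclicSchurMultiplier (Matrix.ProjectiveSpecialLinearGroup (Fin 3) F) 2 := by
  obtain ⟨e⟩ := exists_iso hF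
  have hfin : Finite (Matrix.ProjectiveSpecialLinearGroup (Fin 3) F) :=
    Finite.of_equiv G3 e.symm.toEquiv
  have hker : (e.symm.toMonoidHom.comp ξ).ker = ξ.ker := by
    ext x
    simp [MonoidHom.mem_ker]
  refine PrimeMult.hasCyclic_prime_of_bound 2 Nat.prime_two ?_ (e.symm.toMonoidHom.comp ξ) ?_ ?_
    ⁅uS, vS⁆ ?_ z_ne
  · intro Γ _ _ σ hσ
    have hker' : (e.toMonoidHom.comp σ).ker = σ.ker := by
      ext x
      simp [MonoidHom.mem_ker]
    have h := ub (e.toMonoidHom.comp σ) ⟨e.surjective.comp hσ.1, by rw [hker']; exact hσ.2.1,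
      by rw [hker']; exact hσ.2.2⟩
    rwa [hker'] at h
  · exact e.symm.surjective.comp ξ_surjective
  · rw [hker]; exact ker_le_center
  · rw [hker]; exact z_mem

end Cfsg.Agent.S2087
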