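import Cfsg.Statements.S2131
import Cfsg.Agent.Lib.Helper60.J1A5

set_option autoImplicit false
open Cfsg

namespace Cfsg.Agent.S2131

open Cfsg.Agent.Lib.Helper60.J1

/-- A group of order 60 with a subgroup of index 5 with trivial core is isomorphic to `A₅`. -/
theorem iso_A5_of_core {G : Type*} [Group G] [Finite G]
    (h : Nat.card G = 60) (H : Subgroup G) (hH : H.index = 5) (hcore : H.normalCore = ⊥) :
    Nonempty (G ≃* alternatingGroup (Fin 5)) := by
  classical
  have hinj : Function.Injective (MulAction.toPermHom G (G ⧸ H)) := by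
    rw [← MonoidHom.ker_eq_bot_iff, ← Subgroup.normalCore_eq_ker]
    exact hcore
  have e : (G ⧸ H) ≃ Fin 5 := Finite.equivFinOfCardEq hH
  let f : G →* Equiv.Perm (Fin 5) :=
    (e.permCongrHom).toMonoidHom.comp (MulAction.toPermHom G (G ⧸ H))
  have hf : Function.Injective f := (e.permCongrHom).injective.comp hinj
  have hcard : Nat.card f.range = 60 := by
    rw [← h]
    exact (Nat.card_congr (MonoidHom.ofInjective hf).toEquiv).symm
  have hidx : f.range.index = 2 := by
    have h1 := f.range.index_mul_card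
    rw [hcard, Nat.card_perm, Nat.card_fin] at h1
    have : (5 : ℕ).factorial = 120 := by decide
    rw [this] at h1
    omega
  have hr : f.range = alternatingGroup (Fin 5) :=
    Equiv.Perm.eq_alternatingGroup_of_index_eq_two hidx
  exact ⟨(MonoidHom.ofInjective hf).trans (MulEquiv.subgroupCongr hr)⟩

theorem K5_iso : Nonempty (↥K5 ≃* alternatingGroup (Fin 5)) := by
  apply iso_A5_of_core card_K5 (T4.subgroupOf K5) _ core_T4
  have h1 := Subgroup.card_mul_index (T4.subgroupOf K5)
  have h2 : Nat.card (T4.subgroupOf K5) = Nat.card T4 :=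
    Nat.card_congr (Subgroup.subgroupOfEquivOfLe T4_le_K5).toEquiv
  rw [h2, card_T4, card_K5] at h1
  omega

theorem comm_tI_K5 (x : ↥(Subgroup.zpowers tI)) (y : ↥K5) :
    Commute ((Subgroup.zpowers tI).subtype x) (K5.subtype y) := by
  obtain ⟨x, hx⟩ := x
  obtain ⟨y, hy⟩ := y
  have hy' := Subgroup.mem_centralizer_iff.1 (K5_le_cent hy) tI (Set.mem_singleton _)
  have hc : Commute y tI := hy'.symm
  obtain ⟨k, rfl⟩ := Subgroup.mem_zpowers_iff.1 hx
  exact (hc.zpow_right k).symm

/-- The Janko group J₁ (the group generated by two explicit 7 × 7 matrices over the integers modulo 11) has an involution whose centraliser is isomorphic to the direct product of a group of order 2 with the alternating group of degree 5. -/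
theorem result : ∃ t : ↥Cfsg.Spor.J1, orderOf t = 2 ∧ Nonempty (↥(Subgroup.centralizer ({t} : Set ↥Cfsg.Spor.J1)) ≃* Multiplicative (ZMod 2) × ↥(alternatingGroup (Fin 5))) := by
  classical
  refine ⟨tI, ord_tI, ?_⟩
  obtain ⟨eK⟩ := K5_iso
  -- the product map
  let f : ↥(Subgroup.zpowers tI) × ↥K5 →* ↥Cfsg.Spor.J1 :=
    MonoidHom.noncommCoprod (Subgroup.zpowers tI).subtype K5.subtype comm_tI_K5
  have hcz : Nat.card (Subgroup.zpowers tI) = 2 := by rw [Nat.card_zpowers, ord_tI]
  have hz : ∀ z ∈ Subgroup.zpowers tI, z = 1 ∨ z = tI := by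
    intro z hz
    obtain ⟨k, rfl⟩ := Subgroup.mem_zpowers_iff.1 hz
    have h2 : tI ^ (2 : ℤ) = 1 := by
      have := pow_orderOf_eq_one tI
      rw [ord_tI] at this
      exact_mod_cast this
    rcases Int.emod_two_eq_zero_or_one k with h | h
    · left
      have : k = 2 * (k / 2) := by omega
      rw [this, zpow_mul, h2, one_zpow]
    · right
      have : k = 2 * (k / 2) + 1 := by omega
      rw [this, zpow_add, zpow_mul, h2, one_zpow, one_mul, zpow_one]
  have hf : Function.Injective f := by
    rw [injective_iff_map_eq_one]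
    rintro ⟨⟨x, hx⟩, ⟨y, hy⟩⟩ hxy
    have hxy' : x * y = 1 := hxy
    rcases hz x hx with rfl | rfl
    · rw [one_mul] at hxy'
      subst hxy'
      rfl
    · exfalso
      have hy2 : y = tI⁻¹ := eq_inv_of_mul_eq_one_right hxy'
      apply tI_not_mem_K5
      have := K5.inv_mem hy
      rwa [hy2, inv_inv] at this
  have hle : f.range ≤ Subgroup.centralizer ({tI} : Set ↥Cfsg.Spor.J1) := by
    rintro _ ⟨⟨⟨x, hx⟩, ⟨y, hy⟩⟩, rfl⟩
    have hx' : x ∈ Subgroup.centralizer ({tI} : Set ↥Cfsg.Spor.J1) := by
      rw [← A_eq]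
      rcases hz x hx with rfl | rfl
      · exact A.one_mem
      · rw [A_eq, Subgroup.mem_centralizer_iff]
        intro h hh
        rw [Set.mem_singleton_iff] at hh
        rw [hh]
    exact Subgroup.mul_mem _ hx' (K5_le_cent hy)
  have hcard : Nat.card f.range = 120 := by
    rw [← Nat.card_congr (MonoidHom.ofInjective hf).toEquiv, Nat.card_prod, hcz, card_K5]
  have hr : f.range = Subgroup.centralizer ({tI} : Set ↥Cfsg.Spor.J1) := by
    apply Subgroup.eq_of_le_of_card_ge hle
    rw [hcard, ← A_eq, card_A_eq]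
  have : Fact (Nat.Prime 2) := ⟨Nat.prime_two⟩
  have eZ : ↥(Subgroup.zpowers tI) ≃* Multiplicative (ZMod 2) :=
    mulEquivOfPrimeCardEq (p := 2) hcz (by rw [Nat.card_eq_fintype_card]; rfl)
  exact ⟨((MulEquiv.subgroupCongr hr).symm.trans (MonoidHom.ofInjective hf).symm).trans
    (MulEquiv.prodCongr eZ eK)⟩

end Cfsg.Agent.S2131
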