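-- Statement S2140: minimal index of a proper subgroup of PSL_n(F), n ≥ 3, (n, q) ≠ (4, 2).
import Cfsg.Statements.S2140
import Cfsg.Agent.Lib.Helper53.MinIdxMain

set_option autoImplicit false
open Cfsg

namespace Cfsg.Agent.S2140

open scoped LinearAlgebra.Projectivization

/-- Minimal index of a proper subgroup of the linear groups: for n ≥ 3 and a field F with q elements, (n, q) ≠ (4, 2), every proper subgroup of PSL_n(F) has index at least (q^n − 1)/(q − 1), and some subgroup has exactly that index (the stabiliser of a point of the projective space). -/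
theorem result {F : Type*} [Field F] [Fintype F] {q : ℕ} (hF : Fintype.card F = q) (n : ℕ) (hn : 3 ≤ n) (hexc : ¬ (n = 4 ∧ q = 2)) : (∀ H : Subgroup (Matrix.ProjectiveSpecialLinearGroup (Fin n) F), H ≠ ⊤ → (q ^ n - 1) / (q - 1) ≤ H.index) ∧ (∃ H : Subgroup (Matrix.ProjectiveSpecialLinearGroup (Fin n) F), H.index = (q ^ n - 1) / (q - 1)) := by
  obtain ⟨m, rfl⟩ : ∃ m, n = m + 3 := ⟨n - 3, by omega⟩
  subst hF
  have hq2 : 2 ≤ Fintype.card F := Fintype.one_lt_card
  have hS : (Fintype.card F ^ (m + 3) - 1) / (Fintype.card F - 1) =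
      Nat.card (ℙ F (Fin (m + 3) → F)) := by
    rw [Projectivization.card_of_finrank F _ (Module.finrank_fin_fun F),
      Nat.card_eq_fintype_card, Nat.geomSum_eq hq2]
  rw [hS]
  exact ⟨fun H hH => Cfsg.Agent.Lib.Helper53.MinIdxMain.index_ge m hexc H hH,
    Cfsg.Agent.Lib.Helper53.MinIdxMain.index_exists m⟩

end Cfsg.Agent.S2140
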