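import Cfsg.Statements.S2155
import Cfsg.Agent.Lib.Helper36.ParCen3
import Cfsg.Agent.S1023
import Cfsg.Agent.S1024

set_option autoImplicit false
open Cfsg

namespace Cfsg.Agent.S2155

/-- In a Chevalley group of type G₂, B₂, D₄, F₄, E₆, E₇ or E₈ over a finite field of characteristic p (for types G₂ and B₂ the field is assumed to have at least 3 elements, so that the group is simple), the generalized Fitting subgroup of every proper standard parabolic subgroup P_J is a p-group (P_J is p-constrained with trivial largest normal subgroup of order prime to p). -/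
theorem result {F : Type*} [Field F] [Fintype F] (p : ℕ) [Fact p.Prime] [CharP F p] (D : Cfsg.Lie.ChevalleyDatum) (hD : D ∈ [Cfsg.Lie.chevG2, Cfsg.Lie.chevB2, Cfsg.Lie.chevD4, Cfsg.Lie.chevF4, Cfsg.Lie.chevE6, Cfsg.Lie.chevE7, Cfsg.Lie.chevE8]) (hq : (D = Cfsg.Lie.chevG2 ∨ D = Cfsg.Lie.chevB2) → 3 ≤ Fintype.card F) (J : Set ℕ) (hJ : ∃ i, i < D.rank ∧ i ∉ J) : IsPGroup p ↥(Cfsg.generalizedFittingSubgroup ↥(D.parabolicSubgroup F J)) := by
  obtain ⟨A, X, m, w, w', N, ord, rnk, bz, c, fw, hC, hR, hU, hn, hDs, hJf, hK⟩ :=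
    Cfsg.Agent.Lib.Helper36.ParCenK.exists_kfacts D hD
  have hadd : ∀ r < D.nroots, ∀ t u : F, D.x F r t * D.x F r u = D.x F r (t + u) :=
    fun r hr t u => Cfsg.Agent.S1023.result D hD r hr t u
  have hinj : ∀ r < D.nroots, ∀ t : F, D.x F r t = 1 → t = 0 :=
    fun r hr t h => (Cfsg.Agent.S1024.result D hD r hr t).mp h
  obtain ⟨i, hi, hiJ⟩ := hJ
  exact Cfsg.Agent.Lib.Helper36.ParCen3.gfs_par hC hR hU hn hK hadd hinj p J
    ⟨i, by rw [← hC.af.agrees.rank_eq]; exact hi, hiJ⟩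

end Cfsg.Agent.S2155
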