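import Cfsg.Statements.S2157
-- import your own Cfsg.Agent.* helpers here

set_option autoImplicit false
open Cfsg Cfsg.Lie

namespace Cfsg.Agent.S2157

/-- walk along a chain checking that each root is `r +` the previous one according to the table -/
def chainOK (D : ChevalleyDatum) (r : ℕ) : ℕ → List (ℕ × ℤ) → Bool
  | _, [] => true
  | s, a :: l => decide (s < D.nroots) && (D.chainRoot r s 1 == some a.1) && chainOK D r a.1 l

def tableOK (D : ChevalleyDatum) : Bool :=
  (List.range D.nroots).all fun r =>
    (D.chain.getD r #[]).toList.all fun e => chainOK D r e.1 e.2.toList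

theorem chain_sound {F : Type*} [Field F] (D : ChevalleyDatum) (χ : ℕ → Fˣ)
    (hχ : D.IsRootCharacter χ) (r : ℕ) (hr : r < D.nroots) :
    ∀ (l : List (ℕ × ℤ)) (s : ℕ), chainOK D r s l = true →
      ∀ (idx : ℕ) (a : ℕ × ℤ), l[idx]? = some a → χ a.1 = χ r ^ (idx + 1) * χ s := by
  intro l
  induction l with
  | nil => intro s _ idx a h; simp at h
  | cons b l ih =>
    intro s hs idx a h
    simp only [chainOK, Bool.and_eq_true, decide_eq_true_eq, beq_iff_eq] at hs
    obtain ⟨⟨hs1, hs2⟩, hs3⟩ := hs
    have hb : χ b.1 = χ r * χ s := hχ.2 r s b.1 hr hs1 hs2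
    cases idx with
    | zero =>
      simp only [List.getElem?_cons_zero, Option.some.injEq] at h
      subst h
      simp [hb]
    | succ j =>
      simp only [List.getElem?_cons_succ] at h
      rw [ih b.1 hs3 j a h, hb, pow_succ (χ r) (j + 1), mul_assoc]

theorem table_sound {F : Type*} [Field F] (D : ChevalleyDatum) (hD : tableOK D = true)
    (χ : ℕ → Fˣ) (hχ : D.IsRootCharacter χ) (r : ℕ) (hr : r < D.nroots) (s u : ℕ)
    (km : ℕ × ℤ) (hkm : km ∈ D.chainCoeff r s u) : χ u = χ r ^ km.1 * χ s := by
  simp only [ChevalleyDatum.chainCoeff, List.mem_flatMap, List.mem_filter, List.mem_map,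
    decide_eq_true_eq] at hkm
  obtain ⟨e, ⟨he, hes⟩, q, ⟨hq, hqu⟩, rfl⟩ := hkm
  simp only [tableOK, List.all_eq_true, List.mem_range] at hD
  have h1 := hD r hr e he
  obtain ⟨⟨a, b⟩, idx⟩ := q
  rw [List.mem_zipIdx_iff_getElem?] at hq
  have h2 := chain_sound D χ hχ r hr e.2.toList e.1 h1 idx (a, b) hq
  simp only at hqu h2 ⊢
  rw [← hqu, ← hes]
  exact h2

theorem conj_xMat {F : Type*} [Field F] (D : ChevalleyDatum) (hD : tableOK D = true)
    (χ : ℕ → Fˣ) (hχ : D.IsRootCharacter χ) (r : Fin D.nroots) (t : F) :
    D.charDiag F χ * D.xMat F r t * D.charDiag F (fun s => (χ s)⁻¹)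
      = D.xMat F r ((χ r.val : F) * t) := by
  ext row col
  unfold ChevalleyDatum.charDiag
  rw [Matrix.mul_diagonal, Matrix.diagonal_mul]
  unfold ChevalleyDatum.xMat
  simp only [Matrix.of_apply]
  have hinv : ∀ s : ℕ, ((χ s : F)) * (((χ s)⁻¹ : Fˣ) : F) = 1 := fun s => Units.mul_inv _
  rcases col with i | s
  · rcases row with i' | u
    · simp
    · simp only [Sum.elim_inr, Sum.elim_inl, mul_one]
      split_ifs with h
      · subst h
        ring
      · simp
  · by_cases hsr : s = r
    · subst hsr
      simp only [if_true, Sum.elim_inr]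
      rcases row with i' | u
      · simp
      · simp only [Sum.elim_inr]
        split_ifs with h
        · subst h
          rw [mul_one, hinv]
        · simp
    · simp only [if_neg hsr, Sum.elim_inr]
      by_cases hneg : s.val = D.negIdx.getD r.val 0
      · simp only [if_pos hneg]
        have hχs : χ s.val = (χ r.val)⁻¹ := by
          rw [hneg]
          exact hχ.1 r.val r.isLt
        have hχs' : (((χ s.val)⁻¹ : Fˣ) : F) = (χ r.val : F) := by
          rw [hχs, inv_inv]
        rcases row with i' | u
        · simp only [Sum.elim_inl, one_mul]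
          rw [hχs']
          ring
        · simp only [Sum.elim_inr]
          by_cases hus : u = s
          · subst hus
            simp only [if_true]
            rw [mul_one, hinv]
          · simp only [if_neg hus]
            split_ifs with h
            · subst h
              rw [hχs']
              ring
            · simp
      · simp only [if_neg hneg]
        rcases row with i' | u
        · simp
        · simp only [Sum.elim_inr]
          rw [mul_add, add_mul]
          congr 1
          · split_ifs with h
            · subst h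
              rw [mul_one, hinv]
            · simp
          · rw [← List.sum_map_mul_left, ← List.sum_map_mul_right]
            congr 1
            apply List.map_congr_left
            intro km hkm
            have h1 := table_sound D hD χ hχ r.val r.isLt s.val u.val km hkm
            rw [h1]
            simp only [Units.val_mul, Units.val_pow_eq_pow_val]
            rw [mul_pow]
            have := hinv s.val
            calc (χ r.val : F) ^ km.1 * (χ s.val : F) * ((km.2 : F) * t ^ km.1)
                  * (((χ s.val)⁻¹ : Fˣ) : F)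
                = (km.2 : F) * ((χ r.val : F) ^ km.1 * t ^ km.1)
                  * ((χ s.val : F) * (((χ s.val)⁻¹ : Fˣ) : F)) := by ring
              _ = (km.2 : F) * ((χ r.val : F) ^ km.1 * t ^ km.1) := by rw [this, mul_one]


theorem g2ok : tableOK chevG2 = true := by decide +kernel
theorem b2ok : tableOK chevB2 = true := by decide +kernel
theorem d4ok : tableOK chevD4 = true := by decide +kernel
theorem f4ok : tableOK chevF4 = true := by decide +kernel
theorem e6ok : tableOK chevE6 = true := by decide +kernel
theorem e7ok : tableOK chevE7 = true := by decide +kernel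
theorem e8ok : tableOK chevE8 = true := by decide +kernel

/-- In a Chevalley group of type G₂, B₂, D₄, F₄, E₆, E₇ or E₈, for every character `χ` of the root lattice with values in `Fˣ` the diagonal matrix `ĥ(χ)` (identity on the coroot coordinates, `χ(s)` on the coordinate of `e_s`) conjugates each root element `x_r(t)` to `x_r(χ(r) t)`: `ĥ(χ) x_r(t) ĥ(χ)⁻¹ = x_r(χ(r) t)` as matrices, with `ĥ(χ)⁻¹` written as `ĥ(χ⁻¹)`. -/
theorem result {F : Type*} [Field F] (D : Cfsg.Lie.ChevalleyDatum) (hD : D ∈ [Cfsg.Lie.chevG2, Cfsg.Lie.chevB2, Cfsg.Lie.chevD4, Cfsg.Lie.chevF4, Cfsg.Lie.chevE6, Cfsg.Lie.chevE7, Cfsg.Lie.chevE8]) (χ : ℕ → Fˣ) (hχ : D.IsRootCharacter χ) (r : ℕ) (hr : r < D.nroots) (t : F) :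
    D.charDiag F χ * D.x F r t * D.charDiag F (fun s => (χ s)⁻¹) = D.x F r ((χ r : F) * t) := by
  have hok : tableOK D = true := by
    simp only [List.mem_cons, List.mem_nil_iff, or_false] at hD
    rcases hD with rfl | rfl | rfl | rfl | rfl | rfl | rfl
    · exact g2ok
    · exact b2ok
    · exact d4ok
    · exact f4ok
    · exact e6ok
    · exact e7ok
    · exact e8ok
  unfold ChevalleyDatum.x
  rw [dif_pos hr, dif_pos hr]
  exact conj_xMat D hok χ hχ ⟨r, hr⟩ t

end Cfsg.Agent.S2157
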