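import Cfsg.Statements.S2158
import Cfsg.Agent.S0312
import Cfsg.Agent.S1028
import Cfsg.Agent.S1036
import Cfsg.Agent.S1042
import Cfsg.Agent.S2157
import Cfsg.Agent.Lib.Helper18.All2
import Cfsg.Agent.Lib.Helper18.Torus
import Cfsg.Agent.Lib.Helper36.ChevFix

set_option autoImplicit false
open Cfsg

namespace Cfsg.Agent.S2158

open Cfsg.Lie Cfsg.Agent.Lib.Helper18.Torus Cfsg.Agent.Lib.Helper18.AllRoots
  Cfsg.Agent.Lib.Helper18.Fast

/-- the inverse of a root character is a root character -/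
theorem inv_char {F : Type*} [Field F] (D : ChevalleyDatum) (χ : ℕ → Fˣ)
    (hχ : D.IsRootCharacter χ) : D.IsRootCharacter (fun s => (χ s)⁻¹) :=
  ⟨fun r hr => by
      show (χ (D.neg r))⁻¹ = ((χ r)⁻¹)⁻¹
      rw [hχ.1 r hr],
    fun r s k hr hs hk => by
      show (χ k)⁻¹ = (χ r)⁻¹ * (χ s)⁻¹
      rw [hχ.2 r s k hr hs hk, mul_inv]⟩

theorem charDiag_mul_inv {F : Type*} [Field F] (D : ChevalleyDatum) (χ : ℕ → Fˣ) :
    D.charDiag F χ * D.charDiag F (fun s => (χ s)⁻¹) = 1 := by
  unfold ChevalleyDatum.charDiag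
  rw [Matrix.diagonal_mul_diagonal, ← Matrix.diagonal_one]
  congr 1
  funext b
  rcases b with i | r
  · simp
  · simp

/-- conjugation by the diagonal matrix of a root character preserves `B` -/
theorem conj_borel {F : Type*} [Field F] (D : ChevalleyDatum)
    (hD : D ∈ [chevG2, chevB2, chevD4, chevF4, chevE6, chevE7, chevE8]) {A : FData}
    (hF : AFacts A D) (χ : ℕ → Fˣ) (hχ : D.IsRootCharacter χ) (g : GL D.Idx F)
    (hg : (g : Matrix D.Idx D.Idx F) = D.charDiag F χ) :
    ∀ b ∈ D.borelSubgroup F, g * b * g⁻¹ ∈ D.borelSubgroup F := by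
  have hgi : ((g⁻¹ : GL D.Idx F) : Matrix D.Idx D.Idx F) = D.charDiag F (fun s => (χ s)⁻¹) := by
    apply Units.inv_eq_of_mul_eq_one_right
    rw [hg]
    exact charDiag_mul_inv D χ
  have key : (D.borelSubgroup F).map (MulAut.conj g).toMonoidHom ≤ D.borelSubgroup F := by
    unfold ChevalleyDatum.borelSubgroup
    rw [Subgroup.map_sup]
    apply sup_le_sup
    · rw [Subgroup.map_le_iff_le_comap]
      unfold ChevalleyDatum.posUnipotent
      rw [Subgroup.closure_le]
      rintro y ⟨r, t, hr, hy⟩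
      apply Subgroup.subset_closure
      refine ⟨r, (χ r : F) * t, hr, ?_⟩
      show ((g * y * g⁻¹ : GL D.Idx F) : Matrix D.Idx D.Idx F) = _
      rw [Units.val_mul, Units.val_mul, hg, hgi, hy,
        Cfsg.Agent.S2157.result D hD χ hχ r hr.1 t]
    · rintro _ ⟨h, hh, rfl⟩
      have e : g * h * g⁻¹ = h := by
        obtain ⟨c, hc, e⟩ := (mem_diagonalSubgroup_iff hF h).mp hh
        rw [mul_inv_eq_iff_eq_mul]
        apply Units.ext
        rw [Units.val_mul, Units.val_mul, hg, e]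
        unfold ChevalleyDatum.charDiag tor
        rw [Matrix.diagonal_mul_diagonal, Matrix.diagonal_mul_diagonal]
        congr 1
        funext b
        exact mul_comm _ _
      show g * h * g⁻¹ ∈ _
      rw [e]
      exact hh
  intro b hb
  exact key ⟨b, hb, rfl⟩

/-- a diagonal matrix in `U` is trivial -/
theorem diag_unip {F : Type*} [Field F] (D : ChevalleyDatum)
    (hD : D ∈ [chevG2, chevB2, chevD4, chevF4, chevE6, chevE7, chevE8]) (u : GL D.Idx F)
    (hu : u ∈ D.posUnipotent F) (d : D.Idx → F)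
    (hd : (u : Matrix D.Idx D.Idx F) = Matrix.diagonal d) : u = 1 := by
  have h28 := Cfsg.Agent.S1028.result D hD u hu
  rw [hd, ← Matrix.diagonal_one, Matrix.diagonal_sub, Matrix.diagonal_pow] at h28
  have h1 : ∀ b, d b = 1 := by
    intro b
    have h2 := congrFun (congrFun h28 b) b
    rw [Matrix.diagonal_apply_eq, Matrix.zero_apply] at h2
    have h3 : d b - 1 = 0 := by
      by_contra hne
      exact pow_ne_zero _ hne h2
    exact sub_eq_zero.mp h3
  apply Units.ext
  rw [hd, Units.val_one, ← Matrix.diagonal_one]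
  congr 1
  funext b
  exact h1 b

/-- In a Chevalley group of type G₂, B₂, D₄, F₄, E₆, E₇ or E₈ over any field, an element of the group whose matrix is the diagonal matrix `ĥ(χ)` of a character `χ` of the root lattice already lies in the diagonal subgroup H (the non-trivial inclusion of the statement that the group meets the group of all such diagonal matrices in H). -/
theorem result {F : Type*} [Field F] (D : Cfsg.Lie.ChevalleyDatum) (hD : D ∈ [Cfsg.Lie.chevG2, Cfsg.Lie.chevB2, Cfsg.Lie.chevD4, Cfsg.Lie.chevF4, Cfsg.Lie.chevE6, Cfsg.Lie.chevE7, Cfsg.Lie.chevE8]) (χ : ℕ → Fˣ) (hχ : D.IsRootCharacter χ) (g : GL D.Idx F) (hg : g ∈ D.group F)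
    (hgχ : (g : Matrix D.Idx D.Idx F) = D.charDiag F χ) : g ∈ D.diagonalSubgroup F := by
  obtain ⟨A, hF⟩ := Cfsg.Agent.Lib.Helper18.All2.exists_afacts D hD
  obtain ⟨P, hPB, hPN, hPS⟩ := Cfsg.Agent.S1042.result (F := F) D hD
  have hχ' := inv_char D χ hχ
  have hgi : ((g⁻¹ : GL D.Idx F) : Matrix D.Idx D.Idx F) = D.charDiag F (fun s => (χ s)⁻¹) := by
    apply Units.inv_eq_of_mul_eq_one_right
    rw [hgχ]
    exact charDiag_mul_inv D χ
  have hnorm : (⟨g, hg⟩ : ↥(D.group F)) ∈ Subgroup.normalizer (P.B : Set ↥(D.group F)) := by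
    rw [Subgroup.mem_set_normalizer_iff]
    intro b
    rw [hPB]
    show (b : GL D.Idx F) ∈ D.borelSubgroup F ↔ g * (b : GL D.Idx F) * g⁻¹ ∈ D.borelSubgroup F
    constructor
    · intro hb
      exact conj_borel D hD hF χ hχ g hgχ _ hb
    · intro hb
      have h1 := conj_borel D hD hF _ hχ' g⁻¹ hgi _ hb
      have e : g⁻¹ * (g * (b : GL D.Idx F) * g⁻¹) * g⁻¹⁻¹ = b := by group
      rw [e] at h1
      exact h1
  have h312 := Cfsg.Agent.S0312.result P (J := ∅) (Set.empty_subset _)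
  have hpar : P.parabolic ∅ = P.B := by
    unfold Cfsg.BNPair.parabolic
    rw [Subgroup.closure_empty, sup_bot_eq]
  rw [hpar] at h312
  rw [h312, hPB, Subgroup.mem_subgroupOf] at hnorm
  obtain ⟨hHU, hUH⟩ := Cfsg.Agent.S1036.result (F := F) D hD
  obtain ⟨u, hu, h, hh, e⟩ := Cfsg.Agent.Lib.Helper36.ChevFix.exists_mul_of_sup hHU hnorm
  have e' : (g : GL D.Idx F) = u * h := e
  obtain ⟨c, hc, eh⟩ := (mem_diagonalSubgroup_iff hF h).mp hh
  have hu1 : u = 1 := by
    have e2 : u = g * h⁻¹ := by rw [e']; group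
    have hhi : ((h⁻¹ : GL D.Idx F) : Matrix D.Idx D.Idx F) = tor D A (fun i => (c i)⁻¹) := by
      apply Units.inv_eq_of_mul_eq_one_right
      rw [eh]
      exact tor_mul_tor_inv hc
    apply diag_unip D hD u hu
    rw [e2, Units.val_mul, hgχ, hhi]
    unfold ChevalleyDatum.charDiag tor
    rw [Matrix.diagonal_mul_diagonal]
  rw [e', hu1, one_mul]
  exact hh

end Cfsg.Agent.S2158
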