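import Cfsg.Statements.S2160
import Cfsg.Agent.Lib.Helper36.ChevAll

set_option autoImplicit false
open Cfsg

namespace Cfsg.Agent.S2160

open Cfsg.Lie Cfsg.Agent.Lib.Helper36.ChevWeyl Cfsg.Agent.Lib.Helper36.ChevGen in
theorem aux {F : Type*} [Field F] (D : Cfsg.Lie.ChevalleyDatum) (W : WeylData D F)
    (f g : ↥(D.group F) ≃* ↥(D.group F)) (hf : D.IsFieldAut f) (hg : D.IsGraphAut g)
    (y : ↥(D.group F)) : f (g y) = g (f y) := by
  obtain ⟨σ, hσ⟩ := hf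
  obtain ⟨π, _, hπ⟩ := hg
  have hs : ∀ j : Fin D.rank, D.simple j < D.nroots ∧ D.neg (D.simple j) < D.nroots := by
    intro j
    obtain ⟨η, wr⟩ := W.root j.val j.isLt
    exact ⟨wr.simple_lt, wr.neg_lt⟩
  refine hom_ext_fund D W (f.toMonoidHom.comp g.toMonoidHom) (g.toMonoidHom.comp f.toMonoidHom) ?_ y
  intro y i t hi h
  show f (g y) = g (f y)
  apply Subtype.ext
  apply Units.ext
  rcases h with h | h
  · have h1 := (hπ y ⟨i, hi⟩ t).1 h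
    have h2 := hσ (g y) _ _ (hs (π ⟨i, hi⟩)).1 h1
    have h3 := hσ y _ _ (hs ⟨i, hi⟩).1 h
    have h4 := (hπ (f y) ⟨i, hi⟩ (σ t)).1 h3
    rw [h2, h4, map_pow]
  · have h1 := (hπ y ⟨i, hi⟩ t).2 h
    have h2 := hσ (g y) _ _ (hs (π ⟨i, hi⟩)).2 h1
    have h3 := hσ y _ _ (hs ⟨i, hi⟩).2 h
    have h4 := (hπ (f y) ⟨i, hi⟩ (σ t)).2 h3
    rw [h2, h4, map_pow]

/-- In a Chevalley group of type G₂, B₂, D₄, F₄, E₆, E₇ or E₈ over a finite field, every field automorphism commutes with every graph automorphism. -/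
theorem result {F : Type*} [Field F] [Finite F] (D : Cfsg.Lie.ChevalleyDatum) (hD : D ∈ [Cfsg.Lie.chevG2, Cfsg.Lie.chevB2, Cfsg.Lie.chevD4, Cfsg.Lie.chevF4, Cfsg.Lie.chevE6, Cfsg.Lie.chevE7, Cfsg.Lie.chevE8]) (f g : ↥(D.group F) ≃* ↥(D.group F))
    (hf : D.IsFieldAut f) (hg : D.IsGraphAut g) (y : ↥(D.group F)) : f (g y) = g (f y) := by
  exact aux D (Cfsg.Agent.Lib.Helper36.ChevAll.weylData (F := F) D hD) f g hf hg y

end Cfsg.Agent.S2160
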