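import Cfsg.Statements.S2302

set_option autoImplicit false
open Cfsg

namespace Cfsg.Agent.S2302

open Matrix

abbrev SL2 (F : Type*) [Field F] := Matrix.SpecialLinearGroup (Fin 2) F

theorem det_eq {F : Type*} [Field F] (g : SL2 F) : g.1 0 0 * g.1 1 1 - g.1 0 1 * g.1 1 0 = 1 := by
  have := g.2
  rwa [Matrix.det_fin_two] at this

theorem mul_self_eq_one_iff {F : Type*} [Field F] (g : SL2 F) :
    g * g = 1 ↔
      (g.1 0 0 * g.1 0 0 + g.1 0 1 * g.1 1 0 = 1 ∧ g.1 0 0 * g.1 0 1 + g.1 0 1 * g.1 1 1 = 0 ∧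
       g.1 1 0 * g.1 0 0 + g.1 1 1 * g.1 1 0 = 0 ∧ g.1 1 0 * g.1 0 1 + g.1 1 1 * g.1 1 1 = 1) := by
  constructor
  · intro h
    have h' : g.1 * g.1 = 1 := congrArg Subtype.val h
    have h00 := congrFun (congrFun h' 0) 0
    have h01 := congrFun (congrFun h' 0) 1
    have h10 := congrFun (congrFun h' 1) 0
    have h11 := congrFun (congrFun h' 1) 1
    simp only [Matrix.mul_apply, Fin.sum_univ_two] at h00 h01 h10 h11
    simp at h00 h01 h10 h11
    exact ⟨h00, h01, h10, h11⟩
  · rintro ⟨h00, h01, h10, h11⟩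
    apply Subtype.ext
    change g.1 * g.1 = 1
    ext i j
    fin_cases i <;> fin_cases j <;> simp [Matrix.mul_apply, Fin.sum_univ_two] <;> assumption

theorem sq_inj {F : Type*} [Field F] [CharP F 2] (x y : F) (h : x * x = y * y) : x = y := by
  have h2 : (2 : F) = 0 := CharTwo.two_eq_zero
  have : (x - y) ^ 2 = 0 := by linear_combination h + (y * y - x * y) * h2
  exact sub_eq_zero.1 (pow_eq_zero_iff (two_ne_zero) |>.1 this)

theorem exists_sqrt {F : Type*} [Field F] [Fintype F] [CharP F 2] (t : F) : ∃ r : F, r * r = t := by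
  obtain ⟨r, hr⟩ := FiniteField.isSquare_of_char_two (ringChar.eq F 2) t
  exact ⟨r, hr.symm⟩

/-- shape of an involution -/
theorem inv_shape {F : Type*} [Field F] [CharP F 2] (g : SL2 F) (h1 : g * g = 1) (hne : g ≠ 1) :
    g.1 0 0 = g.1 1 1 ∧ (g.1 0 1 ≠ 0 ∨ g.1 1 0 ≠ 0) := by
  have h2 : (2 : F) = 0 := CharTwo.two_eq_zero
  obtain ⟨e00, e01, e10, e11⟩ := (mul_self_eq_one_iff g).1 h1
  have hd := det_eq g
  have key : ∀ a : F, a * a = 1 → a = 1 := fun a ha => sq_inj a 1 (by rw [ha, one_mul])
  have hbc : g.1 0 1 ≠ 0 ∨ g.1 1 0 ≠ 0 := by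
    by_contra hcon
    rw [not_or, not_not, not_not] at hcon
    obtain ⟨hb, hc⟩ := hcon
    rw [hb] at e00 e11
    simp at e00 e11
    apply hne
    apply Subtype.ext
    ext i j
    fin_cases i <;> fin_cases j <;> simp [hb, hc, key _ e00, key _ e11]
  refine ⟨?_, hbc⟩
  have hsum : g.1 0 0 + g.1 1 1 = 0 := by
    rcases hbc with hb | hc
    · have : g.1 0 1 * (g.1 0 0 + g.1 1 1) = 0 := by linear_combination e01
      rcases mul_eq_zero.1 this with h | h
      · exact absurd h hb
      · exact h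
    · have : g.1 1 0 * (g.1 0 0 + g.1 1 1) = 0 := by linear_combination e10
      rcases mul_eq_zero.1 this with h | h
      · exact absurd h hc
      · exact h
  linear_combination hsum - g.1 1 1 * h2

def uu (F : Type*) [Field F] : SL2 F := ⟨!![1, 1; 0, 1], by simp [Matrix.det_fin_two]⟩

theorem conj_uu {F : Type*} [Field F] [Fintype F] [CharP F 2] (g : SL2 F) (h1 : g * g = 1) (hne : g ≠ 1) :
    IsConj (uu F) g := by
  have h2 : (2 : F) = 0 := CharTwo.two_eq_zero
  obtain ⟨had, hbc⟩ := inv_shape g h1 hne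
  have hd := det_eq g
  rw [← had] at hd
  rw [isConj_iff]
  suffices h : ∃ S : SL2 F, S * uu F = g * S by
    obtain ⟨S, hS⟩ := h
    exact ⟨S, by rw [hS]; group⟩
  rcases hbc with hb | hc
  · obtain ⟨r, hr⟩ := exists_sqrt (g.1 0 1)⁻¹
    have hbr : g.1 0 1 * (r * r) = 1 := by rw [hr]; exact mul_inv_cancel₀ hb
    refine ⟨⟨!![g.1 0 1 * r, 0; (g.1 0 0 + 1) * r, r], ?_⟩, ?_⟩
    · simp [Matrix.det_fin_two]; linear_combination hbr
    · apply Subtype.ext
      change (!![g.1 0 1 * r, 0; (g.1 0 0 + 1) * r, r] : Matrix (Fin 2) (Fin 2) F) * !![1, 1; 0, 1] = g.1 * !![g.1 0 1 * r, 0; (g.1 0 0 + 1) * r, r]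
      ext i j
      fin_cases i <;> fin_cases j <;> simp [Matrix.mul_apply, Fin.sum_univ_two, ← had]
      · linear_combination (-(g.1 0 0 * g.1 0 1 * r)) * h2
      · linear_combination (-r) * hd + (-(g.1 0 1 * g.1 1 0 * r)) * h2
      · linear_combination r * h2
  · obtain ⟨r, hr⟩ := exists_sqrt (g.1 1 0)⁻¹
    have hcr : g.1 1 0 * (r * r) = 1 := by rw [hr]; exact mul_inv_cancel₀ hc
    refine ⟨⟨!![(g.1 0 0 + 1) * r, r; g.1 1 0 * r, 0], ?_⟩, ?_⟩
    · simp [Matrix.det_fin_two]; linear_combination (-1 : F) * hcr - h2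
    · apply Subtype.ext
      change (!![(g.1 0 0 + 1) * r, r; g.1 1 0 * r, 0] : Matrix (Fin 2) (Fin 2) F) * !![1, 1; 0, 1] = g.1 * !![(g.1 0 0 + 1) * r, r; g.1 1 0 * r, 0]
      ext i j
      fin_cases i <;> fin_cases j <;> simp [Matrix.mul_apply, Fin.sum_univ_two, ← had]
      · linear_combination (-r) * hd + (-(g.1 0 1 * g.1 1 0 * r)) * h2
      · linear_combination r * h2
      · linear_combination (-(g.1 0 0 * g.1 1 0 * r)) * h2

theorem order_two_iff {F : Type*} [Field F] (g : SL2 F) : orderOf g = 2 ↔ g * g = 1 ∧ g ≠ 1 := by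
  have : Fact (Nat.Prime 2) := ⟨Nat.prime_two⟩
  rw [orderOf_eq_prime_iff, pow_two]

theorem carrier_eq {F : Type*} [Field F] [Fintype F] [CharP F 2] (g : SL2 F) (hg : orderOf g = 2) :
    (ConjClasses.mk g).carrier = {x : SL2 F | orderOf x = 2} := by
  ext x
  rw [ConjClasses.mem_carrier_iff_mk_eq, ConjClasses.mk_eq_mk_iff_isConj]
  constructor
  · intro h
    obtain ⟨c, hc⟩ := h
    show orderOf x = 2
    rw [hc.orderOf_eq]
    exact hg
  · intro hx
    have hx' : orderOf x = 2 := hx
    have h1 := (order_two_iff g).1 hg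
    have h2 := (order_two_iff x).1 hx'
    exact IsConj.trans (conj_uu x h2.1 h2.2).symm (conj_uu g h1.1 h1.2)

theorem card_inv {F : Type*} [Field F] [Fintype F] [CharP F 2] :
    Nat.card {x : SL2 F | orderOf x = 2} = Fintype.card F ^ 2 - 1 := by
  classical
  have h2 : (2 : F) = 0 := CharTwo.two_eq_zero
  let f : {x : SL2 F | orderOf x = 2} → {p : F × F // p ≠ 0} := fun x =>
    ⟨(x.1.1 0 1, x.1.1 1 0), by
      have hx := (order_two_iff x.1).1 x.2
      obtain ⟨-, hbc⟩ := inv_shape x.1 hx.1 hx.2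
      intro h
      have h1 : x.1.1 0 1 = 0 := congrArg Prod.fst h
      have h2 : x.1.1 1 0 = 0 := congrArg Prod.snd h
      rcases hbc with h | h
      · exact h h1
      · exact h h2⟩
  have hf : Function.Bijective f := by
    constructor
    · rintro ⟨x, hx⟩ ⟨y, hy⟩ h
      have hx' := (order_two_iff x).1 hx
      have hy' := (order_two_iff y).1 hy
      obtain ⟨hadx, -⟩ := inv_shape x hx'.1 hx'.2
      obtain ⟨hady, -⟩ := inv_shape y hy'.1 hy'.2
      have h' := congrArg Subtype.val h
      simp only [f] at h'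
      have hb : x.1 0 1 = y.1 0 1 := congrArg Prod.fst h'
      have hc : x.1 1 0 = y.1 1 0 := congrArg Prod.snd h'
      have hdx := det_eq x
      have hdy := det_eq y
      rw [← hadx] at hdx
      rw [← hady] at hdy
      have ha : x.1 0 0 = y.1 0 0 := by
        apply sq_inj
        linear_combination hdx - hdy + y.1 1 0 * hb + x.1 0 1 * hc
      apply Subtype.ext
      apply Subtype.ext
      ext i j
      fin_cases i <;> fin_cases j
      · exact ha
      · exact hb
      · exact hc
      · show x.1 1 1 = y.1 1 1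
        rw [← hadx, ← hady]; exact ha
    · rintro ⟨⟨b, c⟩, hp⟩
      obtain ⟨a, ha⟩ := exists_sqrt (1 + b * c)
      have hdet : (!![a, b; c, a] : Matrix (Fin 2) (Fin 2) F).det = 1 := by
        simp [Matrix.det_fin_two]; linear_combination ha
      let g : SL2 F := ⟨!![a, b; c, a], hdet⟩
      have hg : orderOf g = 2 := by
        rw [order_two_iff]
        constructor
        · rw [mul_self_eq_one_iff]
          simp only [g]
          refine ⟨?_, ?_, ?_, ?_⟩
          · simp; linear_combination ha + b * c * h2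
          · simp; linear_combination a * b * h2
          · simp; linear_combination a * c * h2
          · simp; linear_combination ha + b * c * h2
        · intro h
          have h' : (!![a, b; c, a] : Matrix (Fin 2) (Fin 2) F) = 1 := congrArg Subtype.val h
          have hb : b = 0 := by simpa using congrFun (congrFun h' 0) 1
          have hc : c = 0 := by simpa using congrFun (congrFun h' 1) 0
          exact hp (by simp [hb, hc])
      refine ⟨⟨g, hg⟩, ?_⟩
      apply Subtype.ext
      simp [f, g]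
  rw [Nat.card_congr (Equiv.ofBijective f hf), Nat.card_eq_fintype_card,
    Fintype.card_subtype_compl, Fintype.card_prod]
  simp [pow_two]

/-- Over a finite field with q elements of characteristic 2, the involutions of SL₂ (the non-identity unipotent elements) form a single conjugacy class, of size q² − 1. -/
theorem result {F : Type*} [Field F] [Fintype F] [CharP F 2] (g h : Matrix.SpecialLinearGroup (Fin 2) F) (hg : orderOf g = 2) (hh : orderOf h = 2) :
    IsConj g h ∧ Nat.card (ConjClasses.mk g).carrier = Fintype.card F ^ 2 - 1 := by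
  have h1 := (order_two_iff g).1 hg
  have h2 := (order_two_iff h).1 hh
  refine ⟨(conj_uu g h1.1 h1.2).symm.trans (conj_uu h h2.1 h2.2), ?_⟩
  rw [carrier_eq g hg]
  exact card_inv

end Cfsg.Agent.S2302
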