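import Cfsg.Statements.S2303

set_option autoImplicit false
open Cfsg

namespace Cfsg.Agent.S2303

open Matrix

theorem mem_cent {F : Type*} [Field F] (g h : GL (Fin 2) F) :
    h ∈ Subgroup.centralizer ({g} : Set (GL (Fin 2) F)) ↔ g.1 * h.1 = h.1 * g.1 := by
  rw [Subgroup.mem_centralizer_iff]
  simp only [Set.mem_singleton_iff, forall_eq]
  rw [← Units.val_mul, ← Units.val_mul, Units.val_inj]

theorem entries {F : Type*} [Field F] (A B : Matrix (Fin 2) (Fin 2) F) :
    A * B = B * A ↔
      (A 0 0 * B 0 0 + A 0 1 * B 1 0 = B 0 0 * A 0 0 + B 0 1 * A 1 0 ∧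
       A 0 0 * B 0 1 + A 0 1 * B 1 1 = B 0 0 * A 0 1 + B 0 1 * A 1 1 ∧
       A 1 0 * B 0 0 + A 1 1 * B 1 0 = B 1 0 * A 0 0 + B 1 1 * A 1 0 ∧
       A 1 0 * B 0 1 + A 1 1 * B 1 1 = B 1 0 * A 0 1 + B 1 1 * A 1 1) := by
  constructor
  · intro h
    have h00 := congrFun (congrFun h 0) 0
    have h01 := congrFun (congrFun h 0) 1
    have h10 := congrFun (congrFun h 1) 0
    have h11 := congrFun (congrFun h 1) 1
    simp only [Matrix.mul_apply, Fin.sum_univ_two] at h00 h01 h10 h11
    exact ⟨h00, h01, h10, h11⟩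
  · rintro ⟨h00, h01, h10, h11⟩
    ext i j
    fin_cases i <;> fin_cases j <;> simp [Matrix.mul_apply, Fin.sum_univ_two] <;> assumption

theorem det_ne {F : Type*} [Field F] (h : GL (Fin 2) F) : h.1.det ≠ 0 := by
  have h2 : IsUnit h.1.det := (Matrix.isUnit_iff_isUnit_det h.1).1 h.isUnit
  exact h2.ne_zero

theorem part1 {F : Type*} [Field F] [Fintype F] (g : GL (Fin 2) F)
    (h01 : g.1 0 1 = 0) (h10 : g.1 1 0 = 0) (hne : g.1 0 0 ≠ g.1 1 1) :
    Nat.card (Subgroup.centralizer ({g} : Set (GL (Fin 2) F))) = (Fintype.card F - 1) ^ 2 := by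
  classical
  have hdet : ∀ u v : Fˣ, (!![(u : F), 0; 0, (v : F)] : Matrix (Fin 2) (Fin 2) F).det ≠ 0 := by
    intro u v
    simp [Matrix.det_fin_two]
  let f : Fˣ × Fˣ → Subgroup.centralizer ({g} : Set (GL (Fin 2) F)) := fun p =>
    ⟨Matrix.GeneralLinearGroup.mkOfDetNeZero _ (hdet p.1 p.2), by
      rw [mem_cent, entries]
      simp only [Matrix.GeneralLinearGroup.val_mkOfDetNeZero]
      simp [h01, h10, mul_comm]⟩
  have hf : Function.Bijective f := by
    constructor
    · rintro ⟨u, v⟩ ⟨u', v'⟩ h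
      have h' := congrArg (fun x : Subgroup.centralizer ({g} : Set (GL (Fin 2) F)) => x.1.1) h
      simp only [f, Matrix.GeneralLinearGroup.val_mkOfDetNeZero] at h'
      have e0 := congrFun (congrFun h' 0) 0
      have e1 := congrFun (congrFun h' 1) 1
      simp at e0 e1
      ext
      · simpa using e0
      · simpa using e1
    · rintro ⟨h, hh⟩
      have hh' := hh
      rw [mem_cent, entries] at hh'
      obtain ⟨-, e01, e10, -⟩ := hh'
      rw [h01] at e01
      rw [h10] at e10
      have b01 : h.1 0 1 = 0 := by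
        have : h.1 0 1 * (g.1 0 0 - g.1 1 1) = 0 := by linear_combination e01
        rcases mul_eq_zero.1 this with h | h
        · exact h
        · exact absurd (sub_eq_zero.1 h) hne
      have b10 : h.1 1 0 = 0 := by
        have : h.1 1 0 * (g.1 0 0 - g.1 1 1) = 0 := by linear_combination -e10
        rcases mul_eq_zero.1 this with h | h
        · exact h
        · exact absurd (sub_eq_zero.1 h) hne
      have hdetB : h.1.det ≠ 0 := det_ne h
      rw [Matrix.det_fin_two, b01, b10] at hdetB
      simp only [mul_zero, sub_zero] at hdetB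
      have b00 : h.1 0 0 ≠ 0 := left_ne_zero_of_mul hdetB
      have b11 : h.1 1 1 ≠ 0 := right_ne_zero_of_mul hdetB
      refine ⟨(Units.mk0 _ b00, Units.mk0 _ b11), ?_⟩
      apply Subtype.ext
      apply Matrix.GeneralLinearGroup.ext
      intro i j
      simp only [f, Matrix.GeneralLinearGroup.val_mkOfDetNeZero]
      fin_cases i <;> fin_cases j <;> simp [b01, b10]
  rw [← Nat.card_congr (Equiv.ofBijective f hf), Nat.card_prod, Nat.card_eq_fintype_card,
    Fintype.card_units, pow_two]

theorem part2 {F : Type*} [Field F] [Fintype F] (g : GL (Fin 2) F)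
    (hev : ∀ (c : F) (v : Fin 2 → F), v ≠ 0 → g.1.mulVec v ≠ c • v) :
    Nat.card (Subgroup.centralizer ({g} : Set (GL (Fin 2) F))) = Fintype.card F ^ 2 - 1 := by
  classical
  -- the (1,0) entry is nonzero
  have hc : g.1 1 0 ≠ 0 := by
    intro h
    apply hev (g.1 0 0) ![1, 0] (by simp)
    ext i
    fin_cases i <;> simp [Matrix.mulVec, dotProduct, Fin.sum_univ_two, h]
  have hdet : ∀ p : {p : F × F // p ≠ 0},
      (p.1.1 • (1 : Matrix (Fin 2) (Fin 2) F) + p.1.2 • g.1).det ≠ 0 := by
    rintro ⟨⟨x, y⟩, hp⟩ hd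
    by_cases hy : y = 0
    · subst hy
      have hx : x ≠ 0 := by
        intro hx; apply hp; simp [hx]
      simp at hd
      exact hx hd
    · obtain ⟨v, hv, hv0⟩ := Matrix.exists_mulVec_eq_zero_iff.2 hd
      apply hev (-x / y) v hv
      simp only [Matrix.add_mulVec, Matrix.smul_mulVec, Matrix.one_mulVec] at hv0
      have : y • (g.1 *ᵥ v) = -(x • v) := by
        rw [eq_neg_iff_add_eq_zero, add_comm]; exact hv0
      calc g.1 *ᵥ v = y⁻¹ • (y • (g.1 *ᵥ v)) := by rw [smul_smul, inv_mul_cancel₀ hy, one_smul]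
        _ = y⁻¹ • (-(x • v)) := by rw [this]
        _ = (-x / y) • v := by
          rw [smul_neg, smul_smul, ← neg_smul]; congr 1; field_simp
  let f : {p : F × F // p ≠ 0} → Subgroup.centralizer ({g} : Set (GL (Fin 2) F)) := fun p =>
    ⟨Matrix.GeneralLinearGroup.mkOfDetNeZero _ (hdet p), by
      rw [mem_cent]
      simp only [Matrix.GeneralLinearGroup.val_mkOfDetNeZero]
      rw [mul_add, add_mul, Matrix.mul_smul, Matrix.smul_mul, Matrix.mul_smul, Matrix.smul_mul,
        mul_one, one_mul]⟩
  have hf : Function.Bijective f := by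
    constructor
    · rintro ⟨⟨x, y⟩, hp⟩ ⟨⟨x', y'⟩, hp'⟩ h
      have h' := congrArg (fun x : Subgroup.centralizer ({g} : Set (GL (Fin 2) F)) => x.1.1) h
      simp only [f, Matrix.GeneralLinearGroup.val_mkOfDetNeZero] at h'
      have e10 := congrFun (congrFun h' 1) 0
      have e00 := congrFun (congrFun h' 0) 0
      simp at e10 e00
      have hy : y = y' := by
        rcases e10 with h | h
        · exact h
        · exact absurd h hc
      subst hy
      have hx : x = x' := by simpa using e00
      subst hx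
      rfl
    · rintro ⟨h, hh⟩
      have hh' := hh
      rw [mem_cent, entries] at hh'
      obtain ⟨e00, e01, e10, e11⟩ := hh'
      obtain ⟨y, hy⟩ : ∃ y : F, y = h.1 1 0 / g.1 1 0 := ⟨_, rfl⟩
      obtain ⟨x, hx⟩ : ∃ x : F, x = h.1 0 0 - y * g.1 0 0 := ⟨_, rfl⟩
      have hyc : y * g.1 1 0 = h.1 1 0 := by rw [hy]; field_simp
      have k01 : h.1 0 1 = y * g.1 0 1 := by
        have : (h.1 0 1 - y * g.1 0 1) * g.1 1 0 = 0 := by
          linear_combination (-1 : F) * e00 - g.1 0 1 * hyc
        rcases mul_eq_zero.1 this with h | h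
        · exact sub_eq_zero.1 h
        · exact absurd h hc
      have k11 : h.1 1 1 = x + y * g.1 1 1 := by
        have : (h.1 1 1 - x - y * g.1 1 1) * g.1 1 0 = 0 := by
          rw [hx]
          linear_combination (-1 : F) * e10 + (g.1 0 0 - g.1 1 1) * hyc
        rcases mul_eq_zero.1 this with h | h
        · linear_combination h
        · exact absurd h hc
      have hBeq : h.1 = x • (1 : Matrix (Fin 2) (Fin 2) F) + y • g.1 := by
        ext i j
        fin_cases i <;> fin_cases j
        · simp [hx]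
        · simp [k01]
        · simp [hyc]
        · simp [k11]
      have hp : (x, y) ≠ 0 := by
        intro hxy
        have hx0 : x = 0 := congrArg Prod.fst hxy
        have hy0 : y = 0 := congrArg Prod.snd hxy
        have hB0 : h.1 = 0 := by rw [hBeq, hx0, hy0]; simp
        have h2 := det_ne h
        rw [hB0] at h2
        simp at h2
      refine ⟨⟨(x, y), hp⟩, ?_⟩
      apply Subtype.ext
      apply Units.ext
      simp only [f, Matrix.GeneralLinearGroup.val_mkOfDetNeZero]
      exact hBeq.symm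
  rw [← Nat.card_congr (Equiv.ofBijective f hf), Nat.card_eq_fintype_card,
    Fintype.card_subtype_compl, Fintype.card_prod]
  simp [pow_two]

/-- Over a finite field with q elements: a diagonal element of GL₂ with two distinct diagonal entries has centralizer of order (q − 1)² (so q(q + 1) conjugates), and an element of GL₂ with no eigenvector in F² has centralizer of order q² − 1 (so q(q − 1) conjugates). -/
theorem result {F : Type*} [Field F] [Fintype F] (g : Matrix.GeneralLinearGroup (Fin 2) F) :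
    ((g : Matrix (Fin 2) (Fin 2) F) 0 1 = 0 → (g : Matrix (Fin 2) (Fin 2) F) 1 0 = 0 → (g : Matrix (Fin 2) (Fin 2) F) 0 0 ≠ (g : Matrix (Fin 2) (Fin 2) F) 1 1 →
      Nat.card (Subgroup.centralizer ({g} : Set (Matrix.GeneralLinearGroup (Fin 2) F))) = (Fintype.card F - 1) ^ 2) ∧
    ((∀ (c : F) (v : Fin 2 → F), v ≠ 0 → (g : Matrix (Fin 2) (Fin 2) F).mulVec v ≠ c • v) →
      Nat.card (Subgroup.centralizer ({g} : Set (Matrix.GeneralLinearGroup (Fin 2) F))) = Fintype.card F ^ 2 - 1) :=
  ⟨part1 g, part2 g⟩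

end Cfsg.Agent.S2303
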