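-- Statement S2305: equality of principal series characters of GL_2(q).
import Cfsg.Statements.S2305
import Cfsg.Agent.Lib.Helper39.GL2Inst

set_option autoImplicit false
open Cfsg

namespace Cfsg.Agent.S2305

open Matrix Cfsg.Agent.Lib.Helper39.GL2Inst

variable {F : Type*} [Field F]

/-- If `α + β = α' + β'` pointwise for multiplicative characters, the pairs agree up to order. -/
theorem pair_eq_of_add_eq (α β α' β' : MulChar F ℂ) (h : ∀ x : F, α x + β x = α' x + β' x) :
    (α = α' ∧ β = β') ∨ (α = β' ∧ β = α') := by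
  classical
  have hli := linearIndependent_monoidHom F ℂ
  have hinj : Function.Injective (MulChar.toMonoidHom : MulChar F ℂ → (F →* ℂ)) := by
    intro χ ψ hχψ
    apply MulChar.ext'
    intro a
    exact congrArg (fun f : F →* ℂ => f a) hχψ
  have key : (Finsupp.single α.toMonoidHom (1 : ℂ) + Finsupp.single β.toMonoidHom 1 : (F →* ℂ) →₀ ℂ) =
      Finsupp.single α'.toMonoidHom 1 + Finsupp.single β'.toMonoidHom 1 := by
    apply hli
    simp only [map_add, Finsupp.linearCombination_single, one_smul]
    funext x
    exact h x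
  have h1 := congrArg (fun l : (F →* ℂ) →₀ ℂ => l α.toMonoidHom) key
  simp only [Finsupp.add_apply, Finsupp.single_apply, if_true] at h1
  by_cases h2 : α'.toMonoidHom = α.toMonoidHom
  · have hα : α = α' := (hinj h2).symm
    left
    refine ⟨hα, ?_⟩
    rw [h2] at key
    have := add_left_cancel key
    exact hinj (Finsupp.single_left_injective one_ne_zero this)
  · rw [if_neg h2] at h1
    by_cases h3 : β'.toMonoidHom = α.toMonoidHom
    · have hα : α = β' := (hinj h3).symm
      right
      refine ⟨hα, ?_⟩
      rw [h3, add_comm (Finsupp.single α'.toMonoidHom (1 : ℂ))] at key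
      have := add_left_cancel key
      exact hinj (Finsupp.single_left_injective one_ne_zero this)
    · exfalso
      rw [if_neg h3] at h1
      by_cases h4 : β.toMonoidHom = α.toMonoidHom
      · rw [if_pos h4] at h1
        norm_num at h1
      · rw [if_neg h4] at h1
        norm_num at h1

/-- The value formula, symmetric in the two characters. -/
theorem formula_swap [Fintype F] [DecidableEq F] (α β : MulChar F ℂ) (a b c d : F) :
    (∑ s : F, if c + (d - a) * s - b * s ^ 2 = 0 then α (a + b * s) * β (d - b * s) else 0) +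
        (if b = 0 then α d * β a else 0) =
      (∑ s : F, if c + (d - a) * s - b * s ^ 2 = 0 then β (a + b * s) * α (d - b * s) else 0) +
        (if b = 0 then β d * α a else 0) := by
  by_cases hb : b = 0
  · subst hb
    simp only [zero_mul, sub_zero, add_zero, if_true]
    by_cases had : d = a
    · subst had
      simp [mul_comm]
    · have hda : d - a ≠ 0 := sub_ne_zero.mpr had
      have hiff : ∀ s : F, c + (d - a) * s = 0 ↔ s = -c / (d - a) := by
        intro s
        constructor
        · intro h
          field_simp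
          linear_combination h
        · rintro rfl
          field_simp
          ring
      simp only [hiff, Finset.sum_ite_eq', Finset.mem_univ, if_true]
      ring
  · rw [if_neg hb, if_neg hb, add_zero, add_zero]
    apply Fintype.sum_equiv (Equiv.subLeft ((d - a) / b))
    intro s
    simp only [Equiv.subLeft_apply]
    have h1 : a + b * ((d - a) / b - s) = d - b * s := by field_simp; ring
    have h2 : d - b * ((d - a) / b - s) = a + b * s := by field_simp; ring
    have h3 : c + (d - a) * ((d - a) / b - s) - b * ((d - a) / b - s) ^ 2 =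
        c + (d - a) * s - b * s ^ 2 := by field_simp; ring
    rw [h1, h2, h3, mul_comm (α (a + b * s))]

/-- The diagonal element `diag(x, 1)` of `GL_2`. -/
noncomputable def dg (x : Fˣ) : Matrix.GeneralLinearGroup (Fin 2) F :=
  Matrix.GeneralLinearGroup.mkOfDetNeZero !![(x : F), 0; 0, 1] (by simp [Matrix.det_fin_two])

theorem dg_val (x : Fˣ) : ((dg x : Matrix.GeneralLinearGroup (Fin 2) F) : Matrix (Fin 2) (Fin 2) F)
    = !![(x : F), 0; 0, 1] := rfl

/-- Over a finite field F, for multiplicative characters α, β, α′, β′ of F, the characters of GL₂ induced from the linear characters b ↦ α(b₁₁) β(b₂₂) and b ↦ α′(b₁₁) β′(b₂₂) of the upper triangular subgroup coincide exactly when {α, β} = {α′, β′} as unordered pairs. -/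
theorem result {F : Type*} [Field F] [Fintype F] [DecidableEq F] (α β α' β' : MulChar F ℂ) :
    Cfsg.indFun (Cfsg.upperTriangularGL 2 F) (fun b => α (((b : Matrix.GeneralLinearGroup (Fin 2) F) : Matrix (Fin 2) (Fin 2) F) 0 0) * β (((b : Matrix.GeneralLinearGroup (Fin 2) F) : Matrix (Fin 2) (Fin 2) F) 1 1)) = Cfsg.indFun (Cfsg.upperTriangularGL 2 F) (fun b => α' (((b : Matrix.GeneralLinearGroup (Fin 2) F) : Matrix (Fin 2) (Fin 2) F) 0 0) * β' (((b : Matrix.GeneralLinearGroup (Fin 2) F) : Matrix (Fin 2) (Fin 2) F) 1 1)) ↔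
      (α = α' ∧ β = β') ∨ (α = β' ∧ β = α') := by
  have hform : ∀ (α β : MulChar F ℂ) (g : Matrix.GeneralLinearGroup (Fin 2) F),
      Cfsg.indFun (Cfsg.upperTriangularGL 2 F) (fun b => α (((b : Matrix.GeneralLinearGroup (Fin 2) F) : Matrix (Fin 2) (Fin 2) F) 0 0) * β (((b : Matrix.GeneralLinearGroup (Fin 2) F) : Matrix (Fin 2) (Fin 2) F) 1 1)) g =
      (∑ s : F, if (g : Matrix (Fin 2) (Fin 2) F) 1 0 +
          ((g : Matrix (Fin 2) (Fin 2) F) 1 1 - (g : Matrix (Fin 2) (Fin 2) F) 0 0) * s -
          (g : Matrix (Fin 2) (Fin 2) F) 0 1 * s ^ 2 = 0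
        then α ((g : Matrix (Fin 2) (Fin 2) F) 0 0 + (g : Matrix (Fin 2) (Fin 2) F) 0 1 * s) *
          β ((g : Matrix (Fin 2) (Fin 2) F) 1 1 - (g : Matrix (Fin 2) (Fin 2) F) 0 1 * s) else 0) +
      (if (g : Matrix (Fin 2) (Fin 2) F) 0 1 = 0
        then α ((g : Matrix (Fin 2) (Fin 2) F) 1 1) * β ((g : Matrix (Fin 2) (Fin 2) F) 0 0) else 0) :=
    fun α β g => gl_indFun (fun x y => α x * β y) g
  constructor
  · intro h
    apply pair_eq_of_add_eq
    intro x
    by_cases hx : IsUnit x
    · obtain ⟨u, rfl⟩ := hx
      by_cases hu1 : (u : F) = 1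
      · rw [hu1]
        simp
      · have hg := congrFun h (dg u)
        rw [hform, hform] at hg
        have hne : (1 : F) - u ≠ 0 := fun hh => hu1 (sub_eq_zero.mp hh).symm
        have hiff : ∀ s : F, (0 : F) + (1 - (u : F)) * s = 0 ↔ s = 0 := by
          intro s
          simp [hne]
        simp only [dg_val, Matrix.of_apply, Matrix.cons_val', Matrix.cons_val_zero,
          Matrix.cons_val_one, Matrix.cons_val_fin_one, hiff, zero_mul, add_zero, sub_zero,
          Finset.sum_ite_eq', Finset.mem_univ, if_true, map_one, mul_one, one_mul] at hg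
        exact hg
    · rw [MulChar.map_nonunit _ hx, MulChar.map_nonunit _ hx, MulChar.map_nonunit _ hx,
        MulChar.map_nonunit _ hx]
  · rintro (⟨rfl, rfl⟩ | ⟨rfl, rfl⟩)
    · rfl
    · funext g
      rw [hform, hform]
      exact formula_swap _ _ _ _ _ _

end Cfsg.Agent.S2305
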