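-- Statement S2306: irreducibility of the principal series of SL_2(q).
import Cfsg.Statements.S2306
import Cfsg.Agent.Lib.Helper39.PSInst
import Cfsg.Agent.Lib.CT.NormOne
import Cfsg.Agent.Lib.CT.IndChar
import Cfsg.Agent.Lib.CT.LinChar

set_option autoImplicit false
open Cfsg

namespace Cfsg.Agent.S2306

open Matrix Cfsg.Agent.Lib.Helper39.GL2Inst Cfsg.Agent.Lib.Helper39.PSInst
open scoped ComplexConjugate

variable {F : Type*} [Field F]

/-- The function `b ↦ α(b₁₁)` on the Borel subgroup of `SL_2`, as a monoid hom to `ℂ`. -/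
noncomputable def diagHom (α : MulChar F ℂ) : BSL F →* ℂ where
  toFun b := α (((b : Matrix.SpecialLinearGroup (Fin 2) F) : Matrix (Fin 2) (Fin 2) F) 0 0)
  map_one' := by simp
  map_mul' b b' := by
    have hb' := (mem_BSL_iff (b' : Matrix.SpecialLinearGroup (Fin 2) F)).mp b'.2
    have hb'' : ((b' : Matrix.SpecialLinearGroup (Fin 2) F) : Matrix (Fin 2) (Fin 2) F) 1 0 = 0 :=
      hb'
    rw [← map_mul]
    congr 1
    simp [Matrix.mul_apply, Fin.sum_univ_two, hb'']

theorem isCharacter_diag (α : MulChar F ℂ) :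
    IsCharacter (BSL F)
      (fun b => α (((b : Matrix.SpecialLinearGroup (Fin 2) F) : Matrix (Fin 2) (Fin 2) F) 0 0)) :=
  Cfsg.Agent.Lib.CT.LinChar.isCharacter_of_hom (diagHom α).toHomUnits

/-- Over a finite field F, for a multiplicative character α of F, the function induced to SL₂ from the linear character b ↦ α(b₁₁) of the upper triangular subgroup is an irreducible character if and only if α² ≠ 1. -/
theorem result {F : Type*} [Field F] [Fintype F] [DecidableEq F] (α : MulChar F ℂ) :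
    Cfsg.IsIrrCharacter (Matrix.SpecialLinearGroup (Fin 2) F) (Cfsg.indFun ((Cfsg.upperTriangularGL 2 F).comap Matrix.SpecialLinearGroup.toGL) (fun b => α (((b : Matrix.SpecialLinearGroup (Fin 2) F) : Matrix (Fin 2) (Fin 2) F) 0 0))) ↔ α ^ 2 ≠ 1 := by
  have hchar : IsCharacter (Matrix.SpecialLinearGroup (Fin 2) F)
      (Cfsg.indFun ((Cfsg.upperTriangularGL 2 F).comap Matrix.SpecialLinearGroup.toGL) (fun b => α (((b : Matrix.SpecialLinearGroup (Fin 2) F) : Matrix (Fin 2) (Fin 2) F) 0 0))) :=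
    Cfsg.Agent.Lib.CT.IndChar.isCharacter_indFun _ _ (isCharacter_diag α)
  have hnorm := sl_classInner (fun x _ => α x) (fun x _ => α x)
  have hsum : ∑ t : Fˣ, α (t : F) * conj (α (t : F) + α ((t⁻¹ : Fˣ) : F)) =
      (if α = α then (Fintype.card Fˣ : ℂ) else 0) + (if α = α⁻¹ then (Fintype.card Fˣ : ℂ) else 0) := by
    rw [← sum_units_mul_conj α α, ← sum_units_mul_conj α α⁻¹, ← Finset.sum_add_distrib]
    apply Finset.sum_congr rfl
    intro t _
    rw [map_add, mul_add, conj_mulChar_inv, ← MulChar.star_apply']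
    simp
  have hcard : (Fintype.card Fˣ : ℂ) ≠ 0 := by
    exact_mod_cast (Fintype.card_pos (α := Fˣ)).ne'
  have hiff : α = α⁻¹ ↔ α ^ 2 = 1 := by
    rw [eq_inv_iff_mul_eq_one, sq]
  rw [hsum, if_pos rfl] at hnorm
  constructor
  · intro hirr h2
    have h1 := Cfsg.Agent.Lib.CT.NormOne.inner_self_eq_one_of_irr hirr
    rw [hnorm, if_pos (hiff.mpr h2)] at h1
    field_simp at h1
    norm_num at h1
  · intro h2
    apply Cfsg.Agent.Lib.CT.NormOne.irr_of_inner_self_eq_one hchar
    rw [hnorm, if_neg (fun h => h2 (hiff.mp h)), add_zero]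
    field_simp
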