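import Cfsg.Statements.S2307
import Cfsg.Agent.Lib.Helper39.SL2Half

set_option autoImplicit false
open Cfsg

namespace Cfsg.Agent.S2307

open Cfsg.Agent.Lib.CT Cfsg.Agent.Lib.Helper39.GL2T1 Cfsg.Agent.Lib.Helper39.SL2T1
  Cfsg.Agent.Lib.Helper39.SL2PS Cfsg.Agent.Lib.Helper39.SL2Odd Cfsg.Agent.Lib.Helper39.SL2Twist
  Cfsg.Agent.Lib.Helper39.SL2Half

/-- Over a finite field F with q elements, q odd, let α be the multiplicative character of F of order 2. The character of SL₂ induced from the linear character b ↦ α(b₁₁) of the upper triangular subgroup is the sum of two distinct irreducible characters, each of degree (q + 1)/2, which are conjugate under GL₂: some fixed element of GL₂ conjugates the one into the other. -/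
theorem result {F : Type*} [Field F] [Fintype F] [DecidableEq F] (hodd : Odd (Fintype.card F)) (α : MulChar F ℂ)
    (hα : α ^ 2 = 1) (hα1 : α ≠ 1) :
    ∃ χ₁ χ₂ : Matrix.SpecialLinearGroup (Fin 2) F → ℂ, Cfsg.IsIrrCharacter (Matrix.SpecialLinearGroup (Fin 2) F) χ₁ ∧ Cfsg.IsIrrCharacter (Matrix.SpecialLinearGroup (Fin 2) F) χ₂ ∧ χ₁ ≠ χ₂ ∧
      Cfsg.indFun ((Cfsg.upperTriangularGL 2 F).comap Matrix.SpecialLinearGroup.toGL) (fun b => α (((b : Matrix.SpecialLinearGroup (Fin 2) F) : Matrix (Fin 2) (Fin 2) F) 0 0)) = χ₁ + χ₂ ∧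
      χ₁ 1 = (((Fintype.card F + 1) / 2 : ℕ) : ℂ) ∧ χ₂ 1 = (((Fintype.card F + 1) / 2 : ℕ) : ℂ) ∧
      ∃ x : Matrix.GeneralLinearGroup (Fin 2) F, ∀ g h : Matrix.SpecialLinearGroup (Fin 2) F,
        Matrix.SpecialLinearGroup.toGL h = x * Matrix.SpecialLinearGroup.toGL g * x⁻¹ → χ₂ h = χ₁ g := by
  have hF := ringChar_ne_two_of_odd hodd
  obtain ⟨ψ₀, hψ₀⟩ := exists_primitive (F := F)
  obtain ⟨ν₀, hν₀⟩ := FiniteField.exists_nonsquare hF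
  have hν0 : ν₀ ≠ 0 := ne_zero_of_not_isSquare hν₀
  obtain ⟨χ₁, χ₂, hχ₁, hχ₂, hne, hdec⟩ := exists_half α hα
  have hdec' : slPS α = χ₂ + χ₁ := by rw [hdec, add_comm]
  obtain ⟨-, -, hdeg₁, -⟩ :=
    half_props hodd ψ₀ hψ₀ (Units.mk0 ν₀ hν0) hν₀ α hα1 χ₁ χ₂ hχ₁ hχ₂ hne hdec
  obtain ⟨-, -, hdeg₂, htw⟩ :=
    half_props hodd ψ₀ hψ₀ (Units.mk0 ν₀ hν0) hν₀ α hα1 χ₂ χ₁ hχ₂ hχ₁ hne.symm hdec'
  refine ⟨χ₁, χ₂, hχ₁, hχ₂, hne.symm, hdec, hdeg₁, hdeg₂, dGL (Units.mk0 ν₀ hν0), ?_⟩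
  intro g h hgh
  rw [← toGL_tw] at hgh
  rw [toGL_inj hgh, htw]

end Cfsg.Agent.S2307
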