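-- Statement S2308: numbers of invariant lines of elements of GL_2(q).
import Cfsg.Statements.S2308
import Cfsg.Agent.Lib.Helper39.GL2Inst

set_option autoImplicit false
open Cfsg

namespace Cfsg.Agent.S2308

open Matrix Cfsg.Agent.Lib.Helper39.GL2Inst

/-- Values of the permutation character of GL₂ over a finite field F with q elements on the cosets of its upper triangular subgroup (equivalently, the number of lines of F² that an element maps to themselves): q + 1 at a scalar matrix, 2 at a diagonal matrix with two different diagonal entries, 0 at an element with no eigenvector in F², and 1 at an upper triangular matrix with equal diagonal entries and non-zero upper right entry. -/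
theorem result {F : Type*} [Field F] [Fintype F] (g : Matrix.GeneralLinearGroup (Fin 2) F) :
    ((∃ a : F, (g : Matrix (Fin 2) (Fin 2) F) = a • (1 : Matrix (Fin 2) (Fin 2) F)) → Cfsg.fixedPointCharacter (Cfsg.upperTriangularGL 2 F) g = Fintype.card F + 1) ∧
    ((g : Matrix (Fin 2) (Fin 2) F) 0 1 = 0 → (g : Matrix (Fin 2) (Fin 2) F) 1 0 = 0 → (g : Matrix (Fin 2) (Fin 2) F) 0 0 ≠ (g : Matrix (Fin 2) (Fin 2) F) 1 1 →
      Cfsg.fixedPointCharacter (Cfsg.upperTriangularGL 2 F) g = 2) ∧
    ((∀ (c : F) (v : Fin 2 → F), v ≠ 0 → (g : Matrix (Fin 2) (Fin 2) F).mulVec v ≠ c • v) → Cfsg.fixedPointCharacter (Cfsg.upperTriangularGL 2 F) g = 0) ∧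
    ((g : Matrix (Fin 2) (Fin 2) F) 1 0 = 0 → (g : Matrix (Fin 2) (Fin 2) F) 0 0 = (g : Matrix (Fin 2) (Fin 2) F) 1 1 → (g : Matrix (Fin 2) (Fin 2) F) 0 1 ≠ 0 →
      Cfsg.fixedPointCharacter (Cfsg.upperTriangularGL 2 F) g = 1) := by
  classical
  rw [gl_fixedPointCharacter g]
  refine ⟨?_, ?_, ?_, ?_⟩
  · rintro ⟨a, ha⟩
    have h00 : (g : Matrix (Fin 2) (Fin 2) F) 0 0 = a := by rw [ha]; simp
    have h01 : (g : Matrix (Fin 2) (Fin 2) F) 0 1 = 0 := by rw [ha]; simp
    have h10 : (g : Matrix (Fin 2) (Fin 2) F) 1 0 = 0 := by rw [ha]; simp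
    have h11 : (g : Matrix (Fin 2) (Fin 2) F) 1 1 = a := by rw [ha]; simp
    rw [h00, h01, h10, h11]
    simp
  · intro h01 h10 hne
    rw [h01, h10]
    have hne' : (g : Matrix (Fin 2) (Fin 2) F) 1 1 - (g : Matrix (Fin 2) (Fin 2) F) 0 0 ≠ 0 :=
      fun h => hne (sub_eq_zero.mp h).symm
    have : (Finset.univ.filter fun s : F => (0 : F) + ((g : Matrix (Fin 2) (Fin 2) F) 1 1 -
        (g : Matrix (Fin 2) (Fin 2) F) 0 0) * s - 0 * s ^ 2 = 0) = {0} := by
      ext s
      simp [hne']
    rw [this]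
    norm_num
  · intro hno
    have hb : (g : Matrix (Fin 2) (Fin 2) F) 0 1 ≠ 0 := by
      intro hb
      apply hno ((g : Matrix (Fin 2) (Fin 2) F) 1 1) ![0, 1]
      · intro h
        have := congrFun h 1
        simp at this
      · ext i
        fin_cases i <;> simp [Matrix.mulVec, dotProduct, Fin.sum_univ_two, hb]
    have : (Finset.univ.filter fun s : F => (g : Matrix (Fin 2) (Fin 2) F) 1 0 +
        ((g : Matrix (Fin 2) (Fin 2) F) 1 1 - (g : Matrix (Fin 2) (Fin 2) F) 0 0) * s -
        (g : Matrix (Fin 2) (Fin 2) F) 0 1 * s ^ 2 = 0) = ∅ := by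
      ext s
      simp only [Finset.mem_filter, Finset.mem_univ, true_and, Finset.notMem_empty, iff_false]
      intro hs
      apply hno ((g : Matrix (Fin 2) (Fin 2) F) 0 0 + (g : Matrix (Fin 2) (Fin 2) F) 0 1 * s) ![1, s]
      · intro h
        have := congrFun h 0
        simp at this
      · ext i
        fin_cases i
        · simp [Matrix.mulVec, dotProduct, Fin.sum_univ_two]
        · simp [Matrix.mulVec, dotProduct, Fin.sum_univ_two]
          linear_combination hs
    rw [this, if_neg hb]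
    simp
  · intro h10 had hb
    rw [h10, had, if_neg hb]
    have : (Finset.univ.filter fun s : F => (0 : F) + ((g : Matrix (Fin 2) (Fin 2) F) 1 1 -
        (g : Matrix (Fin 2) (Fin 2) F) 1 1) * s - (g : Matrix (Fin 2) (Fin 2) F) 0 1 * s ^ 2 = 0)
        = {0} := by
      ext s
      simp [hb]
    rw [this]
    simp

end Cfsg.Agent.S2308
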