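-- Statement S2309: vanishing of irreducible characters of GL_2(q) of degree q - 1 and q + 1.
import Cfsg.Statements.S2309
import Cfsg.Agent.Lib.Helper39.GL2PS

set_option autoImplicit false
open Cfsg

namespace Cfsg.Agent.S2309

open Matrix Cfsg.Agent.Lib.CT Cfsg.Agent.Lib.CT.Wedderburn Cfsg.Agent.Lib.Helper39.GL2T1
  Cfsg.Agent.Lib.Helper39.GL2PS Cfsg.Agent.Lib.Helper39.Decomp Cfsg.Agent.Lib.Helper39.PSInst
open scoped ComplexConjugate

/-- Over a finite field F with q elements: every irreducible complex character of GL₂ of degree q − 1 vanishes at every diagonal matrix with two distinct entries, and every irreducible complex character of degree q + 1 vanishes at every element with no eigenvector in F². -/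
theorem result {F : Type*} [Field F] [Fintype F] (χ : Matrix.GeneralLinearGroup (Fin 2) F → ℂ) (hχ : Cfsg.IsIrrCharacter (Matrix.GeneralLinearGroup (Fin 2) F) χ) (g : Matrix.GeneralLinearGroup (Fin 2) F) :
    (χ 1 = (Fintype.card F : ℂ) - 1 → (g : Matrix (Fin 2) (Fin 2) F) 0 1 = 0 → (g : Matrix (Fin 2) (Fin 2) F) 1 0 = 0 → (g : Matrix (Fin 2) (Fin 2) F) 0 0 ≠ (g : Matrix (Fin 2) (Fin 2) F) 1 1 → χ g = 0) ∧
    (χ 1 = (Fintype.card F : ℂ) + 1 → (∀ (c : F) (v : Fin 2 → F), v ≠ 0 → (g : Matrix (Fin 2) (Fin 2) F).mulVec v ≠ c • v) → χ g = 0) := by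
  classical
  haveI : Fintype (MulChar F ℂ) := Fintype.ofFinite _
  obtain ⟨a, b, hb1, hb0, ha, h1, hval⟩ := gl_T1 χ hχ
  have hcl := char_isClassFunction (isCharacter_of_irr hχ)
  have hA : ∀ l : MulChar F ℂ × MulChar F ℂ, ∃ n : ℕ, classInner χ (glPS l) = n := fun l =>
    Clifford.classInner_char_nat (isCharacter_of_irr hχ) (isCharacter_glPS l)
  choose A hA using hA
  have hsumA : ∑ l : MulChar F ℂ × MulChar F ℂ, A l = a := by
    have h := gl_jacquet_one χ hcl
    rw [ha] at h
    simp_rw [hA] at h
    exact_mod_cast h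
  have hb : b = 0 ∨ b = 1 := by omega
  constructor
  · intro hdeg h01 h10 hne
    obtain ⟨t, ht1, ht2, hg⟩ := eq_bmGL_of_diag g h01 h10
    have ha0 : a = 0 := by
      rcases hb with rfl | rfl
      · exfalso
        have h1' := hb0 rfl
        rw [h1'] at hdeg
        have : ((Fintype.card F : ℕ) : ℂ) = ((2 : ℕ) : ℂ) := by
          push_cast
          linear_combination -hdeg
        have h2 : Fintype.card F = 2 := by exact_mod_cast this
        have h3 : Fintype.card Fˣ = 1 := by rw [Fintype.card_units, h2]
        haveI : Subsingleton Fˣ := Fintype.card_le_one_iff_subsingleton.mp h3.le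
        apply hne
        rw [← ht1, ← ht2, Subsingleton.elim t.1 t.2]
      · rw [hdeg] at h1
        have : ((a : ℕ) : ℂ) = ((0 : ℕ) : ℂ) := by
          push_cast
          linear_combination -h1
        exact_mod_cast this
    have hA0 : ∀ l : MulChar F ℂ × MulChar F ℂ, A l = 0 := by
      intro l
      rw [ha0] at hsumA
      exact (Finset.sum_eq_zero_iff.mp hsumA) l (Finset.mem_univ _)
    rw [hg, ← gl_jacquet_diag χ hcl t (by rw [ht1, ht2]; exact hne)]
    apply Finset.sum_eq_zero
    intro l _
    rw [hA, hA0]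
    simp
  · intro hdeg hno
    have ha2 : a ≠ 0 := by
      rcases hb with rfl | rfl
      · exfalso
        have h1' := hb0 rfl
        rw [h1'] at hdeg
        have : ((Fintype.card F : ℕ) : ℂ) = ((0 : ℕ) : ℂ) := by
          push_cast
          linear_combination -hdeg
        have h2 : Fintype.card F = 0 := by exact_mod_cast this
        exact Fintype.card_ne_zero h2
      · rw [hdeg] at h1
        have : ((a : ℕ) : ℂ) = ((2 : ℕ) : ℂ) := by
          push_cast
          linear_combination -h1
        have h2 : a = 2 := by exact_mod_cast this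
        omega
    have hex : ∃ l : MulChar F ℂ × MulChar F ℂ, A l ≠ 0 := by
      by_contra hcon
      push Not at hcon
      apply ha2
      rw [← hsumA]
      exact Finset.sum_eq_zero (fun l _ => hcon l)
    obtain ⟨l, hl⟩ := hex
    have hinner : classInner (glPS l) χ ≠ 0 := by
      rw [Clifford.classInner_conj_symm, hA, Complex.conj_natCast]
      exact_mod_cast hl
    obtain ⟨Ψ', hΨ', hsum⟩ := exists_add_of_inner_ne_zero (isCharacter_glPS l) hχ hinner
    have hΨ'1 : Ψ' 1 = 0 := by
      have := congrFun hsum 1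
      rw [glPS_one, Pi.add_apply, hdeg] at this
      linear_combination -this
    have hΨ'0 := eq_zero_of_apply_one_eq_zero hΨ' hΨ'1
    have hχeq : χ = glPS l := by rw [hsum, hΨ'0, add_zero]
    rw [hχeq]
    exact glPS_elliptic l g hno

end Cfsg.Agent.S2309
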