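-- Statement S2310: values of the irreducible characters of GL_2(q) at the unipotent element.
import Cfsg.Statements.S2310
import Cfsg.Agent.Lib.Helper39.GL2T1

set_option autoImplicit false
open Cfsg

namespace Cfsg.Agent.S2310

open Matrix Cfsg.Agent.Lib.Helper39.GL2T1

/-- Over a finite field F with q ≥ 3 elements, let u be the upper unitriangular matrix of GL₂ with off-diagonal entry 1. An irreducible complex character χ of GL₂ takes at u the value 1 if χ has degree 1 or q + 1, the value −1 if χ has degree q − 1, and the value 0 if χ has degree q. -/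
theorem result {F : Type*} [Field F] [Fintype F] (hq : 3 ≤ Fintype.card F) (χ : Matrix.GeneralLinearGroup (Fin 2) F → ℂ) (hχ : Cfsg.IsIrrCharacter (Matrix.GeneralLinearGroup (Fin 2) F) χ)
    (u : Matrix.GeneralLinearGroup (Fin 2) F) (hu : (u : Matrix (Fin 2) (Fin 2) F) = !![1, 1; 0, 1]) :
    (χ 1 = 1 → χ u = 1) ∧ (χ 1 = (Fintype.card F : ℂ) + 1 → χ u = 1) ∧
    (χ 1 = (Fintype.card F : ℂ) - 1 → χ u = -1) ∧ (χ 1 = (Fintype.card F : ℂ) → χ u = 0) := by
  classical
  have hu' : u = uGL 1 := Units.ext hu
  obtain ⟨a, b, hb1, hb0, -, h1, hval⟩ := gl_T1 χ hχ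
  have hχu : χ u = (a : ℂ) - b := by
    rw [hu']
    exact hval 1 one_ne_zero
  rw [hχu]
  have hb : b = 0 ∨ b = 1 := by omega
  rcases hb with rfl | rfl
  · have h1' := hb0 rfl
    rw [h1'] at h1
    have ha : a = 1 := by
      have : ((a : ℕ) : ℂ) = ((1 : ℕ) : ℂ) := by
        push_cast
        linear_combination -h1
      exact_mod_cast this
    subst ha
    refine ⟨fun _ => by simp, ?_, ?_, ?_⟩
    · intro h
      exfalso
      rw [h1'] at h
      have : ((Fintype.card F : ℕ) : ℂ) = ((0 : ℕ) : ℂ) := by
        push_cast
        linear_combination -h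
      have h2 : Fintype.card F = 0 := by exact_mod_cast this
      omega
    · intro h
      exfalso
      rw [h1'] at h
      have : ((Fintype.card F : ℕ) : ℂ) = ((2 : ℕ) : ℂ) := by
        push_cast
        linear_combination -h
      have h2 : Fintype.card F = 2 := by exact_mod_cast this
      omega
    · intro h
      exfalso
      rw [h1'] at h
      have : ((Fintype.card F : ℕ) : ℂ) = ((1 : ℕ) : ℂ) := by
        push_cast
        linear_combination -h
      have h2 : Fintype.card F = 1 := by exact_mod_cast this
      omega
  · refine ⟨?_, ?_, ?_, ?_⟩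
    · intro h
      exfalso
      rw [h] at h1
      have : ((a + Fintype.card F : ℕ) : ℂ) = ((2 : ℕ) : ℂ) := by
        push_cast
        linear_combination -h1
      have h2 : a + Fintype.card F = 2 := by exact_mod_cast this
      omega
    · intro h
      rw [h] at h1
      have : ((a : ℕ) : ℂ) = ((2 : ℕ) : ℂ) := by
        push_cast
        linear_combination -h1
      have h2 : a = 2 := by exact_mod_cast this
      subst h2
      push_cast
      ring
    · intro h
      rw [h] at h1
      have : ((a : ℕ) : ℂ) = ((0 : ℕ) : ℂ) := by
        push_cast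
        linear_combination -h1
      have h2 : a = 0 := by exact_mod_cast this
      subst h2
      push_cast
      ring
    · intro h
      rw [h] at h1
      have : ((a : ℕ) : ℂ) = ((1 : ℕ) : ℂ) := by
        push_cast
        linear_combination -h1
      have h2 : a = 1 := by exact_mod_cast this
      subst h2
      push_cast
      ring

end Cfsg.Agent.S2310
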