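import Cfsg.Statements.S2311
import Cfsg.Agent.Lib.Helper18.ParAll
import Cfsg.Agent.Lib.Helper36.StIrr
import Cfsg.Agent.S1023
import Cfsg.Agent.S1024

set_option autoImplicit false
open Cfsg

namespace Cfsg.Agent.S2311

/-- In a Chevalley group of type G₂, B₂, D₄, F₄, E₆, E₇ or E₈ over a finite field, the alternating sum over all sets J of fundamental roots of (−1)^|J| times the permutation character on the cosets of the standard parabolic subgroup P_J is an irreducible complex character: the Steinberg character. -/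
theorem result {F : Type*} [Field F] [Fintype F] (D : Cfsg.Lie.ChevalleyDatum) (hD : D ∈ [Cfsg.Lie.chevG2, Cfsg.Lie.chevB2, Cfsg.Lie.chevD4, Cfsg.Lie.chevF4, Cfsg.Lie.chevE6, Cfsg.Lie.chevE7, Cfsg.Lie.chevE8]) :
    Cfsg.IsIrrCharacter ↥(D.group F) (D.steinbergCharacter F) := by
  obtain ⟨A, X, m, w, w', N, ord, rnk, bz, c, fw, hC, hR, hU, hn, hDs, hJf⟩ :=
    Cfsg.Agent.Lib.Helper18.ParAll.exists_pfacts D hD
  have hadd : ∀ r < D.nroots, ∀ t u : F, D.x F r t * D.x F r u = D.x F r (t + u) :=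
    fun r hr t u => Cfsg.Agent.S1023.result D hD r hr t u
  have hinj : ∀ r < D.nroots, ∀ t : F, D.x F r t = 1 → t = 0 :=
    fun r hr t h => (Cfsg.Agent.S1024.result D hD r hr t).mp h
  exact Cfsg.Agent.Lib.Helper36.StIrr.steinberg_irr hC hR hU hn hDs hJf hadd hinj

end Cfsg.Agent.S2311
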