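import Cfsg.Statements.S2313
import Cfsg.Agent.Lib.Helper18.ParAll
import Cfsg.Agent.Lib.Helper36.StSt
import Cfsg.Agent.S1023
import Cfsg.Agent.S1024

set_option autoImplicit false
open Cfsg

namespace Cfsg.Agent.S2313

/-- In a Chevalley group of type G₂, B₂, D₄, F₄, E₆, E₇ or E₈ over a finite field, the restriction of the Steinberg character to the subgroup B = UH is the permutation character of B on the cosets of the diagonal subgroup H: at b ∈ B its value is the number of cosets xH, x ∈ B, with bxH = xH. -/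
theorem result {F : Type*} [Field F] [Fintype F] (D : Cfsg.Lie.ChevalleyDatum) (hD : D ∈ [Cfsg.Lie.chevG2, Cfsg.Lie.chevB2, Cfsg.Lie.chevD4, Cfsg.Lie.chevF4, Cfsg.Lie.chevE6, Cfsg.Lie.chevE7, Cfsg.Lie.chevE8]) (b : ↥((D.borelSubgroup F).subgroupOf (D.group F))) :
    D.steinbergCharacter F ((((D.borelSubgroup F).subgroupOf (D.group F)).subtype) b) =
      Cfsg.fixedPointCharacter (((D.diagonalSubgroup F).subgroupOf (D.group F)).subgroupOf ((D.borelSubgroup F).subgroupOf (D.group F))) b := by
  obtain ⟨A, X, m, w, w', N, ord, rnk, bz, c, fw, hC, hR, hU, hn, hDs, hJf⟩ :=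
    Cfsg.Agent.Lib.Helper18.ParAll.exists_pfacts D hD
  have hadd : ∀ r < D.nroots, ∀ t u : F, D.x F r t * D.x F r u = D.x F r (t + u) :=
    fun r hr t u => Cfsg.Agent.S1023.result D hD r hr t u
  have hinj : ∀ r < D.nroots, ∀ t : F, D.x F r t = 1 → t = 0 :=
    fun r hr t h => (Cfsg.Agent.S1024.result D hD r hr t).mp h
  exact Cfsg.Agent.Lib.Helper36.StSt.steinberg_borel hC hR hU hn hDs hJf hadd hinj b

end Cfsg.Agent.S2313
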