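import Cfsg.Statements.S2315
import Mathlib
import Cfsg.Agent.Lib.Helper40.NilCount

set_option autoImplicit false
open Cfsg

namespace Cfsg.Agent.S2315
/-- Steinberg's count of unipotent elements for the general linear group: over a finite field with q elements of characteristic p, the number of elements of GL_n of p-power order (the unipotent matrices) is q^(n(n−1)). -/
theorem result {F : Type*} [Field F] [Fintype F] (p : ℕ) [Fact p.Prime] [CharP F p] (n : ℕ) :
    Nat.card {g : Matrix.GeneralLinearGroup (Fin n) F // ∃ k : ℕ, orderOf g = p ^ k} = Fintype.card F ^ (n * (n - 1)) := by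
  classical
  rcases Nat.eq_zero_or_pos n with hn | hn
  · subst hn
    rw [Nat.zero_mul, pow_zero, Nat.card_eq_one_iff_exists]
    refine ⟨⟨1, 0, by rw [orderOf_one, pow_zero]⟩, ?_⟩
    rintro ⟨g, hg⟩
    apply Subtype.ext
    exact Subsingleton.elim _ _
  · have : Nonempty (Fin n) := ⟨⟨0, hn⟩⟩
    have hpp : p.Prime := Fact.out
    rw [← Cfsg.Agent.Lib.Helper40.NilCount.card_nilpotent (F := F) n]
    have key : ∀ g : Matrix.GeneralLinearGroup (Fin n) F,
        (∃ k : ℕ, orderOf g = p ^ k) ↔ IsNilpotent (g.1 - 1) := by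
      intro g
      constructor
      · rintro ⟨k, hk⟩
        refine ⟨p ^ k, ?_⟩
        rw [sub_pow_char_pow_of_commute p k (Commute.one_right _), one_pow, ← Units.val_pow_eq_pow_val,
          ← hk, pow_orderOf_eq_one, Units.val_one, sub_self]
      · rintro ⟨m, hm⟩
        have h1 : (g.1 - 1) ^ p ^ m = 0 :=
          pow_eq_zero_of_le (Nat.lt_pow_self hpp.one_lt).le hm
        rw [sub_pow_char_pow_of_commute p m (Commute.one_right _), one_pow, sub_eq_zero] at h1
        have h2 : g ^ p ^ m = 1 := by
          apply Units.ext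
          rw [Units.val_pow_eq_pow_val, h1, Units.val_one]
        exact (Nat.dvd_prime_pow hpp).mp (orderOf_dvd_of_pow_eq_one h2) |>.imp fun j hj => hj.2
    obtain ⟨f, hf⟩ : ∃ f : {g : Matrix.GeneralLinearGroup (Fin n) F // ∃ k : ℕ, orderOf g = p ^ k} →
        {N : Matrix (Fin n) (Fin n) F // IsNilpotent N}, ∀ g, (f g).1 = g.1.1 - 1 :=
      ⟨fun g => ⟨g.1.1 - 1, (key g.1).mp g.2⟩, fun g => rfl⟩
    apply Nat.card_congr
    apply Equiv.ofBijective f
    constructor
    · intro g g' h
      have h1 := congrArg Subtype.val h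
      rw [hf, hf] at h1
      exact Subtype.ext (Units.ext (sub_left_injective h1))
    · rintro ⟨N, hN⟩
      obtain ⟨u, hu⟩ := hN.isUnit_add_one
      have hu' : u.1 - 1 = N := by rw [hu, add_sub_cancel_right]
      refine ⟨⟨u, (key u).mpr (by rw [hu']; exact hN)⟩, ?_⟩
      apply Subtype.ext
      rw [hf]
      exact hu'

end Cfsg.Agent.S2315
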