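import Cfsg.Statements.S2317
-- import your own Cfsg.Agent.* helpers here
import Cfsg.Agent.Lib.Helper95.NilJordan

set_option autoImplicit false
open Cfsg

namespace Cfsg.Agent.S2317

theorem nilpotent_iff {F : Type*} [Field F] (p : ℕ) [Fact p.Prime] [CharP F p] (n : ℕ)
    (g : Matrix.GeneralLinearGroup (Fin n) F) :
    (∃ k : ℕ, orderOf g = p ^ k) ↔ IsNilpotent ((g : Matrix (Fin n) (Fin n) F) - 1) := by
  rcases Nat.eq_zero_or_pos n with rfl | hn
  · have hg : g = 1 := Units.ext (Subsingleton.elim _ _)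
    subst hg
    constructor
    · intro _; exact ⟨1, Subsingleton.elim _ _⟩
    · intro _; exact ⟨0, by simp⟩
  · have : Nonempty (Fin n) := ⟨⟨0, hn⟩⟩
    have : CharP (Matrix (Fin n) (Fin n) F) p := inferInstance
    have key : ∀ k : ℕ, ((g : Matrix (Fin n) (Fin n) F) - 1) ^ p ^ k =
        ((g ^ p ^ k : Matrix.GeneralLinearGroup (Fin n) F) : Matrix (Fin n) (Fin n) F) - 1 := by
      intro k
      rw [sub_pow_char_pow_of_commute p k (Commute.one_right _), one_pow, Units.val_pow_eq_pow_val]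
    constructor
    · rintro ⟨k, hk⟩
      refine ⟨p ^ k, ?_⟩
      rw [key, ← hk, pow_orderOf_eq_one]; simp
    · rintro ⟨c, hc⟩
      have h1 : ((g : Matrix (Fin n) (Fin n) F) - 1) ^ p ^ c = 0 :=
        pow_eq_zero_of_le (Nat.lt_pow_self (Fact.out : p.Prime).one_lt).le hc
      rw [key, sub_eq_zero] at h1
      have h2 : g ^ p ^ c = 1 := Units.ext h1
      obtain ⟨k, _, hk⟩ := (Nat.dvd_prime_pow Fact.out).mp (orderOf_dvd_of_pow_eq_one h2)
      exact ⟨k, hk⟩


/-- Over a finite field of characteristic p, the conjugacy classes of GL_n consisting of elements of p-power order (the unipotent classes) are as many as the partitions of n. -/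
theorem result {F : Type*} [Field F] [Fintype F] (p : ℕ) [Fact p.Prime] [CharP F p] (n : ℕ) :
    Nat.card {C : ConjClasses (Matrix.GeneralLinearGroup (Fin n) F) //
      ∃ g : Matrix.GeneralLinearGroup (Fin n) F, (∃ k : ℕ, orderOf g = p ^ k) ∧ ConjClasses.mk g = C} =
      Fintype.card (Nat.Partition n) := by
  obtain ⟨gfun, h1, h2, h3, _⟩ := Cfsg.Agent.Lib.Helper95.NilJordan.main_GL F n
  rw [← Nat.card_eq_fintype_card]
  symm
  refine Nat.card_congr (Equiv.ofBijective
    (fun lam => ⟨ConjClasses.mk (gfun lam), gfun lam, (nilpotent_iff p n _).mpr (h1 lam), rfl⟩)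
    ⟨?_, ?_⟩)
  · intro lam mu h
    have h' := congrArg Subtype.val h
    exact h2 lam mu (ConjClasses.mk_eq_mk_iff_isConj.mp h')
  · rintro ⟨C, g, hg, rfl⟩
    obtain ⟨lam, hl⟩ := h3 g ((nilpotent_iff p n g).mp hg)
    exact ⟨lam, Subtype.ext (ConjClasses.mk_eq_mk_iff_isConj.mpr hl)⟩

end Cfsg.Agent.S2317
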