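-- Statement S2320: the degree q characters of GL_2(q) have absolute value 1 at regular semisimple elements.
import Cfsg.Statements.S2320
import Cfsg.Agent.Lib.Helper39.GL2PS

set_option autoImplicit false
open Cfsg

namespace Cfsg.Agent.S2320

open Matrix Cfsg.Agent.Lib.CT Cfsg.Agent.Lib.CT.Wedderburn Cfsg.Agent.Lib.Helper39.GL2T1
  Cfsg.Agent.Lib.Helper39.GL2PS Cfsg.Agent.Lib.Helper39.Decomp Cfsg.Agent.Lib.Helper39.PSInst
  Cfsg.Agent.Lib.Helper39.MulCharOrth
open scoped ComplexConjugate

/-- Over a finite field F with q elements, every irreducible complex character of GL₂ of degree q takes a value of absolute value 1 at every diagonal matrix with two different diagonal entries and at every element with no eigenvector in F². -/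
theorem result {F : Type*} [Field F] [Fintype F] (χ : Matrix.GeneralLinearGroup (Fin 2) F → ℂ) (hχ : Cfsg.IsIrrCharacter (Matrix.GeneralLinearGroup (Fin 2) F) χ) (hdeg : χ 1 = (Fintype.card F : ℂ)) (g : Matrix.GeneralLinearGroup (Fin 2) F) :
    ((g : Matrix (Fin 2) (Fin 2) F) 0 1 = 0 → (g : Matrix (Fin 2) (Fin 2) F) 1 0 = 0 → (g : Matrix (Fin 2) (Fin 2) F) 0 0 ≠ (g : Matrix (Fin 2) (Fin 2) F) 1 1 → ‖χ g‖ = 1) ∧
    ((∀ (c : F) (v : Fin 2 → F), v ≠ 0 → (g : Matrix (Fin 2) (Fin 2) F).mulVec v ≠ c • v) → ‖χ g‖ = 1) := by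
  classical
  haveI : Fintype (MulChar F ℂ) := Fintype.ofFinite _
  obtain ⟨a, b, hb1, hb0, ha, h1, hval⟩ := gl_T1 χ hχ
  have hcl := char_isClassFunction (isCharacter_of_irr hχ)
  have hq2 : 2 ≤ Fintype.card F := Fintype.one_lt_card
  have hA : ∀ l : MulChar F ℂ × MulChar F ℂ, ∃ n : ℕ, classInner χ (glPS l) = n := fun l =>
    Clifford.classInner_char_nat (isCharacter_of_irr hχ) (isCharacter_glPS l)
  choose A hA using hA
  have hsumA : ∑ l : MulChar F ℂ × MulChar F ℂ, A l = a := by
    have h := gl_jacquet_one χ hcl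
    rw [ha] at h
    simp_rw [hA] at h
    exact_mod_cast h
  have hb : b = 0 ∨ b = 1 := by omega
  have ha1 : a = 1 := by
    rcases hb with rfl | rfl
    · exfalso
      have h1' := hb0 rfl
      rw [h1'] at hdeg
      have : ((Fintype.card F : ℕ) : ℂ) = ((1 : ℕ) : ℂ) := by
        push_cast
        linear_combination -hdeg
      have h2 : Fintype.card F = 1 := by exact_mod_cast this
      omega
    · rw [hdeg] at h1
      have : ((a : ℕ) : ℂ) = ((1 : ℕ) : ℂ) := by
        push_cast
        linear_combination -h1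
      exact_mod_cast this
  rw [ha1] at hsumA
  have hex : ∃ l : MulChar F ℂ × MulChar F ℂ, A l ≠ 0 := by
    by_contra hcon
    push Not at hcon
    rw [Finset.sum_eq_zero (fun l _ => hcon l)] at hsumA
    exact zero_ne_one hsumA
  obtain ⟨l₀, hl₀⟩ := hex
  have hothers : ∀ l : MulChar F ℂ × MulChar F ℂ, l ≠ l₀ → A l = 0 := by
    intro l hne
    have h2 : A l₀ + A l ≤ ∑ l : MulChar F ℂ × MulChar F ℂ, A l :=
      Finset.add_le_sum (f := A) (fun _ _ => Nat.zero_le _) (Finset.mem_univ _)
        (Finset.mem_univ _) hne.symm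
    omega
  have hl₀1 : A l₀ = 1 := by
    have h2 : A l₀ ≤ ∑ l : MulChar F ℂ × MulChar F ℂ, A l :=
      Finset.single_le_sum (f := A) (fun _ _ => Nat.zero_le _) (Finset.mem_univ _)
    omega
  constructor
  · intro h01 h10 hne
    obtain ⟨t, ht1, ht2, hg⟩ := eq_bmGL_of_diag g h01 h10
    rw [hg, ← gl_jacquet_diag χ hcl t (by rw [ht1, ht2]; exact hne),
      Finset.sum_eq_single l₀]
    · rw [hA, hl₀1]
      simp only [Nat.cast_one, mul_one, norm_mul, norm_mulChar]
    · intro l _ hl
      rw [hA, hothers l hl]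
      simp
    · intro h
      exact absurd (Finset.mem_univ _) h
  · intro hno
    have hinner : classInner (glPS l₀) χ ≠ 0 := by
      rw [Clifford.classInner_conj_symm, hA, Complex.conj_natCast]
      exact_mod_cast hl₀
    obtain ⟨Ψ', hΨ', hsum⟩ := exists_add_of_inner_ne_zero (isCharacter_glPS l₀) hχ hinner
    have hΨ'1 : Ψ' 1 = 1 := by
      have := congrFun hsum 1
      rw [glPS_one, Pi.add_apply, hdeg] at this
      linear_combination -this
    have hnorm := LinChar.linear_norm hΨ' hΨ'1 g
    have hg := congrFun hsum g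
    rw [glPS_elliptic l₀ g hno, Pi.add_apply] at hg
    have hχg : χ g = -Ψ' g := by linear_combination -hg
    rw [hχg, norm_neg, hnorm]

end Cfsg.Agent.S2320
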