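-- Statement S2321: values of the Steinberg character of SL_2(q).
import Cfsg.Statements.S2321
import Cfsg.Agent.Lib.Helper39.SL2Tri

set_option autoImplicit false
open Cfsg

namespace Cfsg.Agent.S2321

open Matrix Cfsg.Agent.Lib.CT Cfsg.Agent.Lib.CT.Wedderburn Cfsg.Agent.Lib.Helper39.GL2T1
  Cfsg.Agent.Lib.Helper39.Decomp Cfsg.Agent.Lib.Helper39.PSInst
  Cfsg.Agent.Lib.Helper39.MulCharOrth Cfsg.Agent.Lib.Helper39.SL2T1 Cfsg.Agent.Lib.Helper39.SL2PS
  Cfsg.Agent.Lib.Helper39.SL2Tri Cfsg.Agent.Lib.Helper39.UMult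
open scoped ComplexConjugate

/-- Over a finite field F with q elements, an irreducible complex character of SL₂ of degree q (the Steinberg character) takes the value 1 at every diagonal matrix whose diagonal entry a has a² ≠ 1, the value −1 at every element with no eigenvector in F², and the value 0 at every upper triangular matrix with equal diagonal entries and non-zero upper right entry. -/
theorem result {F : Type*} [Field F] [Fintype F] (χ : Matrix.SpecialLinearGroup (Fin 2) F → ℂ) (hχ : Cfsg.IsIrrCharacter (Matrix.SpecialLinearGroup (Fin 2) F) χ) (hdeg : χ 1 = (Fintype.card F : ℂ)) (g : Matrix.SpecialLinearGroup (Fin 2) F) :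
    ((g : Matrix (Fin 2) (Fin 2) F) 0 1 = 0 → (g : Matrix (Fin 2) (Fin 2) F) 1 0 = 0 → (g : Matrix (Fin 2) (Fin 2) F) 0 0 ^ 2 ≠ 1 → χ g = 1) ∧
    ((∀ (c : F) (v : Fin 2 → F), v ≠ 0 → (g : Matrix (Fin 2) (Fin 2) F).mulVec v ≠ c • v) → χ g = -1) ∧
    ((g : Matrix (Fin 2) (Fin 2) F) 1 0 = 0 → (g : Matrix (Fin 2) (Fin 2) F) 0 0 = (g : Matrix (Fin 2) (Fin 2) F) 1 1 → (g : Matrix (Fin 2) (Fin 2) F) 0 1 ≠ 0 → χ g = 0) := by
  classical
  obtain ⟨ψ₀, hψ₀⟩ := exists_primitive (F := F)
  obtain ⟨m, hm, hm1, hmsq, hdeg', hval, ha⟩ := sl_data ψ₀ hψ₀ χ hχ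
  obtain ⟨a, ha', htri⟩ := sl_trichotomy χ hχ
  have haa : a = m 0 := by
    have := ha'.symm.trans ha
    exact_mod_cast this
  have hsumm : ∑ t : F, m t = Fintype.card F := by
    have := hdeg'.symm.trans hdeg
    exact_mod_cast this
  have hle : ∑ t ∈ Finset.univ.erase (0 : F), m t ≤ Fintype.card F - 1 := by
    calc ∑ t ∈ Finset.univ.erase (0 : F), m t ≤ ∑ t ∈ Finset.univ.erase (0 : F), 1 :=
          Finset.sum_le_sum (fun t ht => hm1 t (Finset.ne_of_mem_erase ht))
      _ = Fintype.card F - 1 := by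
          rw [Finset.sum_const, Finset.card_erase_of_mem (Finset.mem_univ _), Finset.card_univ]
          simp
  have hq2 : 2 ≤ Fintype.card F := Fintype.one_lt_card
  have hsplit := Finset.add_sum_erase Finset.univ m (Finset.mem_univ (0 : F))
  have ha1 : 1 ≤ m 0 := by omega
  -- the trichotomy
  have key : ∀ g : Matrix.SpecialLinearGroup (Fin 2) F, χ g = slPS (1 : MulChar F ℂ) g - 1 := by
    rcases htri with ⟨h0, -⟩ | ⟨-, α, χ', hα2, hχ', hne, hdec⟩ | ⟨-, α, -, heq⟩
    · omega
    · -- the other constituent is the trivial character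
      have hχ'1 : χ' 1 = 1 := by
        have := congrFun hdec 1
        rw [slPS_one, Pi.add_apply, hdeg] at this
        linear_combination -this
      obtain ⟨m', hm', hm1', -, hdeg'', hval', ha''⟩ := sl_data ψ₀ hψ₀ χ' hχ'
      obtain ⟨a', ha3, htri'⟩ := sl_trichotomy χ' hχ'
      have haa' : a' = m' 0 := by
        have := ha3.symm.trans ha''
        exact_mod_cast this
      have hinner : classInner χ' (slPS α) = 1 := by
        rw [hdec, classInner_add_right, NormOne.inner_self_eq_one_of_irr hχ']
        have h2 := irr_orthonormal (⟨χ', hχ'⟩ : IrrCharacter (Matrix.SpecialLinearGroup (Fin 2) F))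
          ⟨χ, hχ⟩
        simp only at h2
        rw [h2, if_neg (fun h => hne (congrArg Subtype.val h))]
        simp
      have ha'1 : 1 ≤ m' 0 := by
        rcases htri' with ⟨h0, hall⟩ | ⟨h1, -⟩ | ⟨h2, -⟩
        · rw [hall α] at hinner
          exact absurd hinner zero_ne_one
        · omega
        · omega
      have hsumm' : ∑ t : F, m' t = 1 := by
        have := hdeg''.symm.trans hχ'1
        exact_mod_cast this
      have hsplit' := Finset.add_sum_erase Finset.univ m' (Finset.mem_univ (0 : F))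
      have hm'0 : m' 0 = 1 := by omega
      have hrest : ∑ t ∈ Finset.univ.erase (0 : F), m' t = 0 := by omega
      have hm't : ∀ t : F, t ≠ 0 → m' t = 0 := fun t ht =>
        (Finset.sum_eq_zero_iff.mp hrest) t (Finset.mem_erase.mpr ⟨ht, Finset.mem_univ _⟩)
      have hconst : ∀ x : F, χ' (uSL x) = χ' 1 := by
        intro x
        rw [hval' x, hχ'1, Finset.sum_eq_single (0 : F)]
        · rw [hm'0]
          simp
        · intro t _ ht
          rw [hm't t ht]
          simp
        · intro h
          exact absurd (Finset.mem_univ _) h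
      have hχ'triv := sl_trivial_of_const χ' hχ' hconst
      -- the character of the torus is trivial
      have hα1 : α = 1 := by
        have h3 := slPS_inner_one α
        rw [hdec, Orth.classInner_add_left, hχ'triv] at h3
        have h4 := irr_orthonormal (⟨χ, hχ⟩ : IrrCharacter (Matrix.SpecialLinearGroup (Fin 2) F))
          ⟨fun _ => 1, Ops.isIrrCharacter_one⟩
        have h5 := NormOne.inner_self_eq_one_of_irr
          (Ops.isIrrCharacter_one (G := Matrix.SpecialLinearGroup (Fin 2) F))
        simp only at h4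
        rw [h4, h5, if_neg (fun h => hne (by rw [hχ'triv]; exact (congrArg Subtype.val h).symm))]
          at h3
        by_contra hcon
        rw [if_neg hcon] at h3
        norm_num at h3
      intro g
      have := congrFun hdec g
      rw [hα1, Pi.add_apply, hχ'triv] at this
      linear_combination -this
    · exfalso
      rw [heq, slPS_one] at hdeg
      have : (1 : ℂ) = 0 := by linear_combination hdeg
      exact one_ne_zero this
  have hdet : (g : Matrix (Fin 2) (Fin 2) F) 0 0 * (g : Matrix (Fin 2) (Fin 2) F) 1 1 -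
      (g : Matrix (Fin 2) (Fin 2) F) 0 1 * (g : Matrix (Fin 2) (Fin 2) F) 1 0 = 1 := by
    rw [← Matrix.det_fin_two]
    exact g.2
  refine ⟨?_, ?_, ?_⟩
  · intro h01 h10 hne
    rw [h01, zero_mul, sub_zero] at hdet
    have h00 : (g : Matrix (Fin 2) (Fin 2) F) 0 0 ≠ 0 := left_ne_zero_of_mul_eq_one hdet
    have h11 : (g : Matrix (Fin 2) (Fin 2) F) 1 1 ≠ 0 := right_ne_zero_of_mul_eq_one hdet
    have hdiff : (g : Matrix (Fin 2) (Fin 2) F) 1 1 - (g : Matrix (Fin 2) (Fin 2) F) 0 0 ≠ 0 := by
      intro h
      apply hne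
      rw [sq]
      have : (g : Matrix (Fin 2) (Fin 2) F) 1 1 = (g : Matrix (Fin 2) (Fin 2) F) 0 0 :=
        sub_eq_zero.mp h
      rw [this] at hdet
      exact hdet
    rw [key, slPS_apply, h01, h10, if_pos rfl, Finset.sum_eq_single (0 : F)]
    · simp [MulChar.one_apply (isUnit_iff_ne_zero.mpr h00),
        MulChar.one_apply (isUnit_iff_ne_zero.mpr h11)]
    · intro s _ hs
      rw [if_neg]
      simp [hdiff, hs]
    · intro h
      exact absurd (Finset.mem_univ _) h
  · intro hno
    rw [key, slPS_elliptic _ g hno]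
    ring
  · intro h10 had hb
    rw [h10, mul_zero, sub_zero] at hdet
    have h00 : (g : Matrix (Fin 2) (Fin 2) F) 0 0 ≠ 0 := left_ne_zero_of_mul_eq_one hdet
    rw [key, slPS_apply, h10, if_neg hb, Finset.sum_eq_single (0 : F)]
    · simp [MulChar.one_apply (isUnit_iff_ne_zero.mpr h00)]
    · intro s _ hs
      rw [if_neg]
      simp [had, hb, hs]
    · intro h
      exact absurd (Finset.mem_univ _) h

end Cfsg.Agent.S2321
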