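import Cfsg.Statements.S2322
import Cfsg.Agent.Lib.Helper39.SL2Three

set_option autoImplicit false
set_option linter.style.haveILetI false
open Cfsg

namespace Cfsg.Agent.S2322

open Cfsg.Agent.Lib.CT Cfsg.Agent.Lib.Helper39.GL2T1 Cfsg.Agent.Lib.Helper39.SL2T1
  Cfsg.Agent.Lib.Helper39.SL2PS Cfsg.Agent.Lib.Helper39.SL2Odd Cfsg.Agent.Lib.Helper39.SL2Twist
  Cfsg.Agent.Lib.Helper39.SL2Half Cfsg.Agent.Lib.Helper39.SL2Count
  Cfsg.Agent.Lib.Helper39.SL2Types Cfsg.Agent.Lib.Helper39.UMult Cfsg.Agent.Lib.Helper39.SL2Deg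
  Cfsg.Agent.Lib.Helper39.SL2Tri Cfsg.Agent.Lib.Helper39.SL2Three Cfsg.Agent.Lib.CT.Wedderburn

/-- If some nonzero element has square different from one, an odd field has at least five
elements. -/
theorem five_le_card {F : Type*} [Field F] [Fintype F] (hodd : Odd (Fintype.card F)) (t : F)
    (ht0 : t ≠ 0) (ht : t ^ 2 ≠ 1) : 5 ≤ Fintype.card F := by
  classical
  have h3 := three_le_card hodd
  by_contra hcon
  obtain ⟨k, hk⟩ := hodd
  have h3' : Fintype.card F = 3 := by omega
  have := FiniteField.pow_card_sub_one_eq_one t ht0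
  rw [h3'] at this
  exact ht this

/-- Over a finite field F with q elements, q odd: every irreducible complex character of SL₂ of degree q − 1 or (q − 1)/2 vanishes at every diagonal matrix whose diagonal entry a has a² ≠ 1, and every irreducible complex character of degree q + 1 or (q + 1)/2 vanishes at every element with no eigenvector in F². -/
theorem result {F : Type*} [Field F] [Fintype F] (hodd : Odd (Fintype.card F)) (χ : Matrix.SpecialLinearGroup (Fin 2) F → ℂ) (hχ : Cfsg.IsIrrCharacter (Matrix.SpecialLinearGroup (Fin 2) F) χ) (g : Matrix.SpecialLinearGroup (Fin 2) F) :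
    ((χ 1 = (Fintype.card F : ℂ) - 1 ∨ χ 1 = (((Fintype.card F - 1) / 2 : ℕ) : ℂ)) →
      (g : Matrix (Fin 2) (Fin 2) F) 0 1 = 0 → (g : Matrix (Fin 2) (Fin 2) F) 1 0 = 0 → (g : Matrix (Fin 2) (Fin 2) F) 0 0 ^ 2 ≠ 1 → χ g = 0) ∧
    ((χ 1 = (Fintype.card F : ℂ) + 1 ∨ χ 1 = (((Fintype.card F + 1) / 2 : ℕ) : ℂ)) →
      (∀ (c : F) (v : Fin 2 → F), v ≠ 0 → (g : Matrix (Fin 2) (Fin 2) F).mulVec v ≠ c • v) → χ g = 0) := by
  classical
  haveI : Fintype (MulChar F ℂ) := Fintype.ofFinite _
  have hF := ringChar_ne_two_of_odd hodd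
  have h3 := three_le_card hodd
  obtain ⟨ψ₀, hψ₀⟩ := exists_primitive (F := F)
  obtain ⟨ν, hν⟩ := FiniteField.exists_nonsquare hF
  have hν0 : ν ≠ 0 := ne_zero_of_not_isSquare hν
  have hcl := char_isClassFunction (isCharacter_of_irr hχ)
  constructor
  · intro hdeg h01 h10 hsq
    obtain ⟨t, ht, ht', hg⟩ := eq_bmSL_of_diag g h01 h10
    have hq : 5 ≤ Fintype.card F := five_le_card hodd (t : F) t.ne_zero (by rw [ht]; exact hsq)
    have hall : ∀ α : MulChar F ℂ, classInner χ (slPS α) = 0 := by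
      rcases hdeg with hdeg | hdeg
      · obtain ⟨m, hm, -⟩ := sl_data ψ₀ hψ₀ χ hχ
        exact (cuspidal_of_degree (by omega) ψ₀ hψ₀ χ hχ hdeg m hm).2.2
      · obtain ⟨ha, -⟩ := type_of_degree_minus hodd hq ψ₀ hψ₀ hν χ hχ hdeg
        obtain ⟨a, ha', htri⟩ := sl_trichotomy χ hχ
        have ha0 : a = 0 := by
          have := ha'.symm.trans ha
          exact_mod_cast this
        rcases htri with ⟨-, hall⟩ | ⟨h1, -⟩ | ⟨h2, -⟩
        · exact hall
        · omega
        · omega
    have hne : (t : F) ≠ ((t⁻¹ : Fˣ) : F) := by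
      intro h
      apply hsq
      rw [← ht, sq]
      nth_rewrite 2 [h]
      simp
    rw [hg, ← sl_jacquet_diag χ hcl t hne]
    apply Finset.sum_eq_zero
    intro α _
    rw [hall α, mul_zero]
  · intro hdeg hno
    rcases hdeg with hdeg | hdeg
    · obtain ⟨m, hm, hm1, hmsq, hdeg', hval, ha⟩ := sl_data ψ₀ hψ₀ χ hχ
      have hsplit := sum_split m
      have hle := sum_erase_le m hm1
      have hsumm : ∑ t : F, m t = Fintype.card F + 1 := by
        have h1 : ((∑ t : F, m t : ℕ) : ℂ) = ((Fintype.card F + 1 : ℕ) : ℂ) := by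
          rw [← hdeg', hdeg]
          simp
        exact_mod_cast h1
      obtain ⟨a, ha', htri⟩ := sl_trichotomy χ hχ
      have haa : a = m 0 := by
        have := ha'.symm.trans ha
        exact_mod_cast this
      rcases htri with ⟨h0, -⟩ | ⟨h1, -⟩ | ⟨-, α, -, heq⟩
      · omega
      · omega
      · rw [heq]
        exact slPS_elliptic α g hno
    · obtain ⟨a, bp, bm, hbp, hbm, ha, hmu1, hmuν, hdeg', hval, htriv, hall⟩ :=
        sl_type hodd ψ₀ hψ₀ hν χ hχ
      have hnat : a + (bp + bm) * ((Fintype.card F - 1) / 2) = (Fintype.card F + 1) / 2 := by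
        have := hdeg'.symm.trans hdeg
        exact_mod_cast this
      obtain ⟨k, hk⟩ := id hodd
      have hk1 : (Fintype.card F - 1) / 2 = k := by omega
      have hk2 : (Fintype.card F + 1) / 2 = k + 1 := by omega
      rw [hk1, hk2] at hnat
      have h012 : bp + bm = 0 ∨ bp + bm = 1 ∨ bp + bm = 2 := by omega
      rcases h012 with h0 | h1 | h2
      · exfalso
        have h4 := htriv h0
        rw [h4, hk2] at hdeg
        have : ((1 : ℕ) : ℂ) = ((k + 1 : ℕ) : ℂ) := by
          rw [← hdeg]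
          simp
        have : (1 : ℕ) = k + 1 := by exact_mod_cast this
        omega
      · have ha1 : a = 1 := by
          rw [h1] at hnat
          omega
        rw [ha1, Nat.cast_one] at ha
        obtain ⟨χ', hχ', hne', hdec'⟩ := half_of_a_one hodd χ hχ hdeg ha
        exact half_elliptic hodd (qc F) (qc_ne_one hF) χ χ' hχ hχ' hne' hdec' g hno
      · rw [h2] at hnat
        have hk1' : k = 1 := by omega
        have hq3 : Fintype.card F = 3 := by omega
        have hdeg2 : χ 1 = 2 := by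
          rw [hdeg, hq3]
          norm_num
        exact cuspidal_three_elliptic hodd hq3 ψ₀ hψ₀ χ hχ hdeg2 (hall h2) g hno

end Cfsg.Agent.S2322
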