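-- Statement S2323: values at the unipotent element of the characters of SL_2(q) of degree q ± 1.
import Cfsg.Statements.S2323
import Cfsg.Agent.Lib.Helper39.SL2Deg

set_option autoImplicit false
open Cfsg

namespace Cfsg.Agent.S2323

open Matrix Cfsg.Agent.Lib.CT Cfsg.Agent.Lib.CT.Wedderburn Cfsg.Agent.Lib.Helper39.GL2T1
  Cfsg.Agent.Lib.Helper39.Decomp Cfsg.Agent.Lib.Helper39.PSInst
  Cfsg.Agent.Lib.Helper39.MulCharOrth Cfsg.Agent.Lib.Helper39.SL2T1 Cfsg.Agent.Lib.Helper39.SL2PS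
  Cfsg.Agent.Lib.Helper39.SL2Tri Cfsg.Agent.Lib.Helper39.UMult Cfsg.Agent.Lib.Helper39.SL2Deg
  Cfsg.Agent.Lib.Helper39.UOrth
open scoped ComplexConjugate

/-- Over a finite field F with q ≥ 4 elements, let u be the upper unitriangular matrix of SL₂ with off-diagonal entry 1. An irreducible complex character of SL₂ takes at u the value 1 if its degree is q + 1 and the value −1 if its degree is q − 1. -/
theorem result {F : Type*} [Field F] [Fintype F] (hq : 4 ≤ Fintype.card F) (χ : Matrix.SpecialLinearGroup (Fin 2) F → ℂ) (hχ : Cfsg.IsIrrCharacter (Matrix.SpecialLinearGroup (Fin 2) F) χ)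
    (u : Matrix.SpecialLinearGroup (Fin 2) F) (hu : (u : Matrix (Fin 2) (Fin 2) F) = !![1, 1; 0, 1]) :
    (χ 1 = (Fintype.card F : ℂ) + 1 → χ u = 1) ∧ (χ 1 = (Fintype.card F : ℂ) - 1 → χ u = -1) := by
  classical
  have hu' : u = uSL 1 := Subtype.ext hu
  obtain ⟨ψ₀, hψ₀⟩ := exists_primitive (F := F)
  obtain ⟨m, hm, hm1, hmsq, hdeg', hval, ha⟩ := sl_data ψ₀ hψ₀ χ hχ
  constructor
  · intro hdeg
    obtain ⟨a, ha', htri⟩ := sl_trichotomy χ hχ
    have haa : a = m 0 := by
      have := ha'.symm.trans ha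
      exact_mod_cast this
    have hsumm : ∑ t : F, m t = Fintype.card F + 1 := by
      have := hdeg'.symm.trans hdeg
      exact_mod_cast this
    have hsplit := sum_split m
    have hle := sum_erase_le m hm1
    rcases htri with ⟨h0, -⟩ | ⟨h1, -⟩ | ⟨-, α, -, heq⟩
    · omega
    · omega
    · rw [hu', heq]
      exact slPS_u α 1 one_ne_zero
  · intro hdeg
    obtain ⟨hm0, hmt, -⟩ := cuspidal_of_degree hq ψ₀ hψ₀ χ hχ hdeg m hm
    rw [hu', hval 1, ← Finset.add_sum_erase Finset.univ _ (Finset.mem_univ (0 : F)), hm0]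
    have h1 : ∀ t ∈ Finset.univ.erase (0 : F), (m t : ℂ) * ψ₀ (t * 1) = ψ₀ (1 * t) := by
      intro t ht
      rw [hmt t (Finset.ne_of_mem_erase ht), mul_one, one_mul]
      simp
    rw [Finset.sum_congr rfl h1, sum_erase_mulShift ψ₀ hψ₀ 1]
    simp

end Cfsg.Agent.S2323
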