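import Cfsg.Statements.S2324
import Cfsg.Agent.Lib.Helper39.SL2Types

set_option autoImplicit false
open Cfsg

namespace Cfsg.Agent.S2324

open Cfsg.Agent.Lib.CT Cfsg.Agent.Lib.Helper39.GL2T1 Cfsg.Agent.Lib.Helper39.SL2T1
  Cfsg.Agent.Lib.Helper39.SL2PS Cfsg.Agent.Lib.Helper39.SL2Odd Cfsg.Agent.Lib.Helper39.SL2Twist
  Cfsg.Agent.Lib.Helper39.SL2Half Cfsg.Agent.Lib.Helper39.SL2Count
  Cfsg.Agent.Lib.Helper39.SL2Types Cfsg.Agent.Lib.Helper39.UMult Cfsg.Agent.Lib.Helper39.SL2Deg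

theorem sq_of_sum_one {bp bm : ℕ} (hb : bp + bm = 1) (G : ℂ) :
    (((bp : ℂ) - bm) * G) ^ 2 = G ^ 2 := by
  have hcases : (bp = 1 ∧ bm = 0) ∨ (bp = 0 ∧ bm = 1) := by omega
  rcases hcases with ⟨h1, h2⟩ | ⟨h1, h2⟩
  · rw [h1, h2]
    push_cast
    ring
  · rw [h1, h2]
    push_cast
    ring

/-- Over a finite field F with q elements, q odd and q ≥ 5, let u be the upper unitriangular matrix of SL₂ with off-diagonal entry 1 and let δ = (−1)^((q−1)/2). Every irreducible complex character χ of SL₂ of degree (q + 1)/2 satisfies (2χ(u) − 1)² = δq, and every irreducible complex character χ of degree (q − 1)/2 satisfies (2χ(u) + 1)² = δq; that is, χ(u) = (1 ± √(δq))/2 in the first case and χ(u) = (−1 ± √(δq))/2 in the second. Moreover two different irreducible characters of degree (q + 1)/2 take the two different values (their values at u add up to 1),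 and likewise for degree (q − 1)/2 (values adding up to −1). -/
theorem result {F : Type*} [Field F] [Fintype F] (hodd : Odd (Fintype.card F)) (hq : 5 ≤ Fintype.card F)
    (u : Matrix.SpecialLinearGroup (Fin 2) F) (hu : (u : Matrix (Fin 2) (Fin 2) F) = !![1, 1; 0, 1]) :
    (∀ χ : Matrix.SpecialLinearGroup (Fin 2) F → ℂ, Cfsg.IsIrrCharacter (Matrix.SpecialLinearGroup (Fin 2) F) χ → χ 1 = (((Fintype.card F + 1) / 2 : ℕ) : ℂ) → (2 * χ u - 1) ^ 2 = (-1 : ℂ) ^ ((Fintype.card F - 1) / 2) * (Fintype.card F : ℂ)) ∧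
    (∀ χ : Matrix.SpecialLinearGroup (Fin 2) F → ℂ, Cfsg.IsIrrCharacter (Matrix.SpecialLinearGroup (Fin 2) F) χ → χ 1 = (((Fintype.card F - 1) / 2 : ℕ) : ℂ) → (2 * χ u + 1) ^ 2 = (-1 : ℂ) ^ ((Fintype.card F - 1) / 2) * (Fintype.card F : ℂ)) ∧
    (∀ χ₁ χ₂ : Matrix.SpecialLinearGroup (Fin 2) F → ℂ, Cfsg.IsIrrCharacter (Matrix.SpecialLinearGroup (Fin 2) F) χ₁ → Cfsg.IsIrrCharacter (Matrix.SpecialLinearGroup (Fin 2) F) χ₂ → χ₁ ≠ χ₂ →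
      χ₁ 1 = (((Fintype.card F + 1) / 2 : ℕ) : ℂ) → χ₂ 1 = (((Fintype.card F + 1) / 2 : ℕ) : ℂ) → χ₁ u + χ₂ u = 1) ∧
    (∀ χ₁ χ₂ : Matrix.SpecialLinearGroup (Fin 2) F → ℂ, Cfsg.IsIrrCharacter (Matrix.SpecialLinearGroup (Fin 2) F) χ₁ → Cfsg.IsIrrCharacter (Matrix.SpecialLinearGroup (Fin 2) F) χ₂ → χ₁ ≠ χ₂ →
      χ₁ 1 = (((Fintype.card F - 1) / 2 : ℕ) : ℂ) → χ₂ 1 = (((Fintype.card F - 1) / 2 : ℕ) : ℂ) → χ₁ u + χ₂ u = -1) := by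
  classical
  have hF := ringChar_ne_two_of_odd hodd
  obtain ⟨ψ₀, hψ₀⟩ := exists_primitive (F := F)
  obtain ⟨ν, hν⟩ := FiniteField.exists_nonsquare hF
  have hν0 : ν ≠ 0 := ne_zero_of_not_isSquare hν
  have huu : u = uSL 1 := Subtype.ext hu
  subst huu
  have hG := gauss_sq hF hodd ψ₀ hψ₀
  refine ⟨?_, ?_, ?_, ?_⟩
  · intro χ hχ hdeg
    obtain ⟨-, bp, bm, hb, -, -, hval⟩ := type_of_degree_plus hodd hq ψ₀ hψ₀ hν χ hχ hdeg
    have h1 : 2 * χ (uSL 1) - 1 = ((bp : ℂ) - bm) * gaussSum (qc F) ψ₀ := by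
      rw [hval]
      ring
    rw [h1, sq_of_sum_one hb, hG]
  · intro χ hχ hdeg
    obtain ⟨-, bp, bm, hb, -, -, hval⟩ := type_of_degree_minus hodd hq ψ₀ hψ₀ hν χ hχ hdeg
    have h1 : 2 * χ (uSL 1) + 1 = ((bp : ℂ) - bm) * gaussSum (qc F) ψ₀ := by
      rw [hval]
      ring
    rw [h1, sq_of_sum_one hb, hG]
  · intro χ₁ χ₂ hχ₁ hχ₂ hne hdeg₁ hdeg₂
    obtain ⟨ha₁, -⟩ := type_of_degree_plus hodd hq ψ₀ hψ₀ hν χ₁ hχ₁ hdeg₁
    obtain ⟨ha₂, -⟩ := type_of_degree_plus hodd hq ψ₀ hψ₀ hν χ₂ hχ₂ hdeg₂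
    obtain ⟨χ₁', hχ₁', hne₁, hdec₁⟩ := half_of_a_one hodd χ₁ hχ₁ hdeg₁ ha₁
    obtain ⟨χ₂', hχ₂', hne₂, hdec₂⟩ := half_of_a_one hodd χ₂ hχ₂ hdeg₂ ha₂
    have hin := (inner_of_decomp hχ₂ hχ₂' hne₂ hdec₂).2
    rcases mem_of_decomp hχ₂ hχ₁ hχ₁' hdec₁ (by rw [hin]; exact one_ne_zero) with h | h
    · exact absurd h.symm hne
    · have h1 := slPS_u (qc F) (1 : F) one_ne_zero
      rw [hdec₁, Pi.add_apply, ← h] at h1
      exact h1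
  · intro χ₁ χ₂ hχ₁ hχ₂ hne hdeg₁ hdeg₂
    obtain ⟨ha₁, bp₁, bm₁, hb₁, hmu₁, hmuν₁, hval₁⟩ :=
      type_of_degree_minus hodd hq ψ₀ hψ₀ hν χ₁ hχ₁ hdeg₁
    obtain ⟨ha₂, bp₂, bm₂, hb₂, hmu₂, hmuν₂, hval₂⟩ :=
      type_of_degree_minus hodd hq ψ₀ hψ₀ hν χ₂ hχ₂ hdeg₂
    obtain ⟨ξp, ξm, hξp, hξm, -, -, hap, ham, hp1, hpν, hm1, hmν⟩ :=
      exists_half_type hodd ψ₀ hψ₀ hν
    have hns1 : ∀ s : F, s ≠ 0 → ν * s ^ 2 ≠ 1 := by
      intro s hs h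
      apply hν
      refine ⟨s⁻¹, ?_⟩
      field_simp
      linear_combination h
    have hns2 : ∀ s : F, s ≠ 0 → 1 * s ^ 2 ≠ ν := by
      intro s hs h
      apply hν
      exact ⟨s, by rw [← h]; ring⟩
    have hdiff : bp₁ ≠ bp₂ := by
      intro heq
      have hcases : (bp₁ = 1 ∧ bm₁ = 0 ∧ bp₂ = 1 ∧ bm₂ = 0) ∨
          (bp₁ = 0 ∧ bm₁ = 1 ∧ bp₂ = 0 ∧ bm₂ = 1) := by omega
      rcases hcases with ⟨h1, h2, h3, h4⟩ | ⟨h1, h2, h3, h4⟩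
      · rw [h1] at hmu₁
        rw [h2] at hmuν₁
        rw [h3] at hmu₂
        rw [h4] at hmuν₂
        simp only [Nat.cast_one, Nat.cast_zero] at hmu₁ hmuν₁ hmu₂ hmuν₂
        have hne1 : χ₁ ≠ ξp := by
          intro h
          rw [h, hap] at ha₁
          exact one_ne_zero ha₁
        have hne2 : χ₂ ≠ ξp := by
          intro h
          rw [h, hap] at ha₂
          exact one_ne_zero ha₂
        exact type_at_most_two hodd ψ₀ hψ₀ 1 ν one_ne_zero hν0 hns1 χ₁ χ₂ ξp hχ₁ hχ₂ hξp hne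
          hne1 hne2 hmu₁ hmuν₁ hmu₂ hmuν₂ hp1 hpν
      · rw [h1] at hmu₁
        rw [h2] at hmuν₁
        rw [h3] at hmu₂
        rw [h4] at hmuν₂
        simp only [Nat.cast_one, Nat.cast_zero] at hmu₁ hmuν₁ hmu₂ hmuν₂
        have hne1 : χ₁ ≠ ξm := by
          intro h
          rw [h, ham] at ha₁
          exact one_ne_zero ha₁
        have hne2 : χ₂ ≠ ξm := by
          intro h
          rw [h, ham] at ha₂
          exact one_ne_zero ha₂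
        exact type_at_most_two hodd ψ₀ hψ₀ ν 1 hν0 one_ne_zero hns2 χ₁ χ₂ ξm hχ₁ hχ₂ hξm hne
          hne1 hne2 hmuν₁ hmu₁ hmuν₂ hmu₂ hmν hm1
    have hcases : (bp₁ = 1 ∧ bm₁ = 0 ∧ bp₂ = 0 ∧ bm₂ = 1) ∨
        (bp₁ = 0 ∧ bm₁ = 1 ∧ bp₂ = 1 ∧ bm₂ = 0) := by omega
    rw [hval₁, hval₂]
    rcases hcases with ⟨h1, h2, h3, h4⟩ | ⟨h1, h2, h3, h4⟩
    · rw [h1, h2, h3, h4]
      push_cast
      ring
    · rw [h1, h2, h3, h4]
      push_cast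
      ring

end Cfsg.Agent.S2324
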