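import Cfsg.Statements.S2328
import Cfsg.Agent.Lib.Helper18.ParAll
import Cfsg.Agent.Lib.Helper36.StVan
import Cfsg.Agent.S1023
import Cfsg.Agent.S1024
import Cfsg.Agent.S1035

set_option autoImplicit false
open Cfsg

namespace Cfsg.Agent.S2328

/-- In a Chevalley group of type G₂, B₂, D₄, F₄, E₆, E₇ or E₈ over a finite field of characteristic p, the Steinberg character vanishes at every element whose order is divisible by p (every element that is not semisimple). -/
theorem result {F : Type*} [Field F] [Fintype F] (p : ℕ) [Fact p.Prime] [CharP F p] (D : Cfsg.Lie.ChevalleyDatum) (hD : D ∈ [Cfsg.Lie.chevG2, Cfsg.Lie.chevB2, Cfsg.Lie.chevD4, Cfsg.Lie.chevF4, Cfsg.Lie.chevE6, Cfsg.Lie.chevE7, Cfsg.Lie.chevE8]) (g : ↥(D.group F)) (hg : p ∣ orderOf g) :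
    D.steinbergCharacter F g = 0 := by
  have hH : ∃ d : ℕ, d * Nat.card (D.diagonalSubgroup F) = (Fintype.card F - 1) ^ D.rank := by
    rcases List.mem_cons.mp hD with rfl | h1
    · exact ⟨_, Cfsg.Agent.S1035.result (F := F) rfl (Cfsg.Lie.chevG2, 1) (List.Mem.head _)⟩
    rcases List.mem_cons.mp h1 with rfl | h2
    · exact ⟨_, Cfsg.Agent.S1035.result (F := F) rfl
        (Cfsg.Lie.chevB2, Nat.gcd 2 (Fintype.card F - 1))
        (List.Mem.tail _ (List.Mem.tail _ (List.Mem.tail _ (List.Mem.tail _ (List.Mem.tail _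
          (List.Mem.head _))))))⟩
    rcases List.mem_cons.mp h2 with rfl | h3
    · exact ⟨_, Cfsg.Agent.S1035.result (F := F) rfl
        (Cfsg.Lie.chevD4, Nat.gcd 2 (Fintype.card F - 1) ^ 2)
        (List.Mem.tail _ (List.Mem.tail _ (List.Mem.tail _ (List.Mem.tail _ (List.Mem.tail _
          (List.Mem.tail _ (List.Mem.head _)))))))⟩
    rcases List.mem_cons.mp h3 with rfl | h4
    · exact ⟨_, Cfsg.Agent.S1035.result (F := F) rfl (Cfsg.Lie.chevF4, 1)
        (List.Mem.tail _ (List.Mem.head _))⟩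
    rcases List.mem_cons.mp h4 with rfl | h5
    · exact ⟨_, Cfsg.Agent.S1035.result (F := F) rfl
        (Cfsg.Lie.chevE6, Nat.gcd 3 (Fintype.card F - 1))
        (List.Mem.tail _ (List.Mem.tail _ (List.Mem.tail _ (List.Mem.head _))))⟩
    rcases List.mem_cons.mp h5 with rfl | h6
    · exact ⟨_, Cfsg.Agent.S1035.result (F := F) rfl
        (Cfsg.Lie.chevE7, Nat.gcd 2 (Fintype.card F - 1))
        (List.Mem.tail _ (List.Mem.tail _ (List.Mem.tail _ (List.Mem.tail _
          (List.Mem.head _)))))⟩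
    · have h7 := List.mem_singleton.mp h6
      subst h7
      exact ⟨_, Cfsg.Agent.S1035.result (F := F) rfl (Cfsg.Lie.chevE8, 1)
        (List.Mem.tail _ (List.Mem.tail _ (List.Mem.head _)))⟩
  obtain ⟨A, X, m, w, w', N, ord, rnk, bz, c, fw, hC, hR, hU, hn, hDs, hJf⟩ :=
    Cfsg.Agent.Lib.Helper18.ParAll.exists_pfacts D hD
  have hadd : ∀ r < D.nroots, ∀ t u : F, D.x F r t * D.x F r u = D.x F r (t + u) :=
    fun r hr t u => Cfsg.Agent.S1023.result D hD r hr t u
  have hinj : ∀ r < D.nroots, ∀ t : F, D.x F r t = 1 → t = 0 :=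
    fun r hr t h => (Cfsg.Agent.S1024.result D hD r hr t).mp h
  exact Cfsg.Agent.Lib.Helper36.StVan.steinberg_vanish hC hR hU hn hDs hJf hadd hinj p hH g hg

end Cfsg.Agent.S2328
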