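-- Statement S2329: elements of order p in GL_2 over a finite field of characteristic p are conjugate.
import Cfsg.Statements.S2329

set_option autoImplicit false
open Cfsg

namespace Cfsg.Agent.S2329

open Matrix

/-- A nilpotent 2 x 2 matrix over a field squares to zero. -/
theorem sq_eq_zero_of_nilpotent {F : Type*} [Field F] (N : Matrix (Fin 2) (Fin 2) F)
    (hN : IsNilpotent N) : N ^ 2 = 0 := by
  have htr : N.trace = 0 := (Matrix.isNilpotent_trace_of_isNilpotent hN).eq_zero
  have hdet : N.det = 0 := by
    obtain ⟨k, hk⟩ := hN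
    have h1 : IsNilpotent N.det := ⟨k, by rw [← Matrix.det_pow, hk]; exact Matrix.det_zero⟩
    exact h1.eq_zero
  have h := Matrix.aeval_self_charpoly N
  rw [Matrix.charpoly_fin_two, htr, hdet] at h
  simpa using h

theorem aux {F : Type*} [Field F] (a b c d : F)
    (hN : (!![a, b; c, d] - 1) ^ 2 = (0 : Matrix (Fin 2) (Fin 2) F))
    (hne : !![a, b; c, d] ≠ (1 : Matrix (Fin 2) (Fin 2) F)) :
    ∃ P : Matrix (Fin 2) (Fin 2) F, P.det ≠ 0 ∧ P * !![1, 1; 0, 1] = !![a, b; c, d] * P := by
  have e00 : (a - 1) * (a - 1) + b * c = 0 := by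
    have := congrFun (congrFun hN 0) 0
    simpa [pow_two, Matrix.mul_apply, Fin.sum_univ_two] using this
  have e10 : c * (a - 1) + (d - 1) * c = 0 := by
    have := congrFun (congrFun hN 1) 0
    simpa [pow_two, Matrix.mul_apply, Fin.sum_univ_two] using this
  have e11 : c * b + (d - 1) * (d - 1) = 0 := by
    have := congrFun (congrFun hN 1) 1
    simpa [pow_two, Matrix.mul_apply, Fin.sum_univ_two] using this
  by_cases hc : c = 0
  · subst hc
    have h0 : a = 1 := by
      rw [mul_zero, add_zero] at e00
      exact sub_eq_zero.mp (mul_self_eq_zero.mp e00)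
    have h1 : d = 1 := by
      rw [zero_mul, zero_add] at e11
      exact sub_eq_zero.mp (mul_self_eq_zero.mp e11)
    subst h0 h1
    have hb : b ≠ 0 := by
      rintro rfl
      exact hne Matrix.one_fin_two.symm
    refine ⟨!![b, 0; 0, 1], by simpa [Matrix.det_fin_two] using hb, ?_⟩
    simp
  · have htr : a + d = 2 := by
      have : c * (a + d - 2) = 0 := by linear_combination e10
      rcases mul_eq_zero.mp this with h | h
      · exact absurd h hc
      · linear_combination h
    refine ⟨!![a - 1, 1; c, 0], by simpa [Matrix.det_fin_two] using hc, ?_⟩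
    simp only [Matrix.mul_fin_two]
    ext i j
    fin_cases i <;> fin_cases j <;> simp
    · linear_combination (-1 : F) * e00
    · linear_combination (-1 : F) * c * htr

/-- The standard transvection as an element of `GL_2`. -/
noncomputable def uGL (F : Type*) [Field F] : Matrix.GeneralLinearGroup (Fin 2) F :=
  Matrix.GeneralLinearGroup.mkOfDetNeZero !![1, 1; 0, 1] (by simp [Matrix.det_fin_two])

theorem conj_uGL {F : Type*} [Field F] (g : Matrix.GeneralLinearGroup (Fin 2) F)
    (hN : ((g : Matrix (Fin 2) (Fin 2) F) - 1) ^ 2 = 0) (hg : g ≠ 1) : IsConj (uGL F) g := by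
  rw [isConj_iff]
  have hAeq := Matrix.eta_fin_two (g : Matrix (Fin 2) (Fin 2) F)
  have hg' : (g : Matrix (Fin 2) (Fin 2) F) ≠ 1 := by
    intro h
    apply hg
    ext i j
    rw [h]
    rfl
  rw [hAeq] at hN hg'
  obtain ⟨P, hP, hPA⟩ := aux _ _ _ _ hN hg'
  rw [← hAeq] at hPA
  refine ⟨Matrix.GeneralLinearGroup.mkOfDetNeZero P hP, ?_⟩
  rw [mul_inv_eq_iff_eq_mul]
  apply Units.ext
  rw [Units.val_mul, Units.val_mul]
  exact hPA

/-- Over a finite field of characteristic p, any two elements of order p of GL₂ are conjugate: there is a single conjugacy class of non-identity unipotent elements. -/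
theorem result {F : Type*} [Field F] [Fintype F] (p : ℕ) [Fact p.Prime] [CharP F p] (g h : Matrix.GeneralLinearGroup (Fin 2) F)
    (hg : orderOf g = p) (hh : orderOf h = p) : IsConj g h := by
  have key : ∀ g : Matrix.GeneralLinearGroup (Fin 2) F, orderOf g = p → IsConj (uGL F) g := by
    intro g hg
    rw [orderOf_eq_prime_iff] at hg
    obtain ⟨hgp, hg1⟩ := hg
    apply conj_uGL g _ hg1
    apply sq_eq_zero_of_nilpotent
    refine ⟨p, ?_⟩
    rw [sub_pow_char_of_commute p (Commute.one_right _), one_pow, ← Units.val_pow_eq_pow_val, hgp]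
    simp
  exact (key g hg).symm.trans (key h hh)

end Cfsg.Agent.S2329
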