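-- Statement S2331: SL_2(q), q even, has q + 1 conjugacy classes.
import Cfsg.Statements.S2331
import Cfsg.Agent.Lib.Helper39.SL2Conj

set_option autoImplicit false
open Cfsg

namespace Cfsg.Agent.S2331

open Matrix Cfsg.Agent.Lib.Helper39.SL2Conj

variable {F : Type*} [Field F]

/-- The class map. -/
def psi : Unit ⊕ F → ConjClasses (Matrix.SpecialLinearGroup (Fin 2) F)
  | Sum.inl _ => ConjClasses.mk 1
  | Sum.inr t => ConjClasses.mk (Mmat 1 t)

theorem psi_injective : Function.Injective (psi (F := F)) := by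
  rintro (a | t) (a' | t') h
  · rfl
  · exfalso
    simp only [psi] at h
    rw [ConjClasses.mk_eq_mk_iff_isConj, isConj_one_right] at h
    have := congrArg (fun x : Matrix.SpecialLinearGroup (Fin 2) F =>
      (x : Matrix (Fin 2) (Fin 2) F) 1 0) h
    simp [Mmat_10] at this
  · exfalso
    simp only [psi] at h
    rw [ConjClasses.mk_eq_mk_iff_isConj, isConj_one_left] at h
    have := congrArg (fun x : Matrix.SpecialLinearGroup (Fin 2) F =>
      (x : Matrix (Fin 2) (Fin 2) F) 1 0) h
    simp [Mmat_10] at this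
  · simp only [psi] at h
    rw [ConjClasses.mk_eq_mk_iff_isConj] at h
    have := trace_eq_of_isConj h
    simp only [Matrix.trace_fin_two, Mmat_00, Mmat_11, zero_add] at this
    rw [this]

theorem psi_surjective [Fintype F] [CharP F 2] : Function.Surjective (psi (F := F)) := by
  intro C
  obtain ⟨g, rfl⟩ := ConjClasses.exists_rep C
  have hchar : ringChar F = 2 := ringChar.eq F 2
  have hdet : (g : Matrix (Fin 2) (Fin 2) F) 0 0 * (g : Matrix (Fin 2) (Fin 2) F) 1 1 -
      (g : Matrix (Fin 2) (Fin 2) F) 0 1 * (g : Matrix (Fin 2) (Fin 2) F) 1 0 = 1 := by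
    rw [← Matrix.det_fin_two]; exact g.2
  have hg := Matrix.eta_fin_two (g : Matrix (Fin 2) (Fin 2) F)
  by_cases hc : (g : Matrix (Fin 2) (Fin 2) F) 1 0 = 0
  · by_cases hb : (g : Matrix (Fin 2) (Fin 2) F) 0 1 = 0
    · by_cases had : (g : Matrix (Fin 2) (Fin 2) F) 0 0 = (g : Matrix (Fin 2) (Fin 2) F) 1 1
      · refine ⟨Sum.inl (), ?_⟩
        simp only [psi]
        congr 1
        apply Subtype.ext
        rw [hb, ← had] at hdet
        have h1 : ((g : Matrix (Fin 2) (Fin 2) F) 0 0 - 1) * ((g : Matrix (Fin 2) (Fin 2) F) 0 0 + 1)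
            = 0 := by linear_combination hdet
        have h2 : (g : Matrix (Fin 2) (Fin 2) F) 0 0 = 1 := by
          rcases mul_eq_zero.mp h1 with h | h
          · exact sub_eq_zero.mp h
          · have := eq_neg_of_add_eq_zero_left h
            rwa [CharTwo.neg_eq] at this
        rw [Matrix.SpecialLinearGroup.coe_one, Matrix.one_fin_two]
        conv_rhs => rw [hg]
        rw [hb, hc, ← had, h2]
      · have hne : (g : Matrix (Fin 2) (Fin 2) F) 1 1 - (g : Matrix (Fin 2) (Fin 2) F) 0 0 ≠ 0 :=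
          fun h => had (sub_eq_zero.mp h).symm
        refine ⟨Sum.inr ((g : Matrix (Fin 2) (Fin 2) F) 0 0 + (g : Matrix (Fin 2) (Fin 2) F) 1 1), ?_⟩
        simp only [psi]
        rw [ConjClasses.mk_eq_mk_iff_isConj]
        refine isConj_Mmat g (1 : F) ((g : Matrix (Fin 2) (Fin 2) F) 1 1 - (g : Matrix (Fin 2) (Fin 2) F) 0 0)⁻¹ (1 : Fˣ) ?_
        rw [hc, hb]
        field_simp
        simp
    · obtain ⟨s, hs⟩ := FiniteField.isSquare_of_char_two hchar (-(g : Matrix (Fin 2) (Fin 2) F) 0 1)⁻¹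
      refine ⟨Sum.inr ((g : Matrix (Fin 2) (Fin 2) F) 0 0 + (g : Matrix (Fin 2) (Fin 2) F) 1 1), ?_⟩
      simp only [psi]
      rw [ConjClasses.mk_eq_mk_iff_isConj]
      refine isConj_Mmat g (0 : F) s (1 : Fˣ) ?_
      rw [hc]
      have : s ^ 2 = (-(g : Matrix (Fin 2) (Fin 2) F) 0 1)⁻¹ := by rw [hs]; ring
      rw [this]
      field_simp
      simp
  · obtain ⟨s, hs⟩ := FiniteField.isSquare_of_char_two hchar ((g : Matrix (Fin 2) (Fin 2) F) 1 0)⁻¹
    refine ⟨Sum.inr ((g : Matrix (Fin 2) (Fin 2) F) 0 0 + (g : Matrix (Fin 2) (Fin 2) F) 1 1), ?_⟩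
    simp only [psi]
    rw [ConjClasses.mk_eq_mk_iff_isConj]
    refine isConj_Mmat g s (0 : F) (1 : Fˣ) ?_
    have : s ^ 2 = ((g : Matrix (Fin 2) (Fin 2) F) 1 0)⁻¹ := by rw [hs]; ring
    rw [this]
    field_simp
    simp

/-- Over a finite field with q elements, q even, the special linear group SL₂ has exactly q + 1 conjugacy classes. -/
theorem result {F : Type*} [Field F] [Fintype F] [CharP F 2] :
    Nat.card (ConjClasses (Matrix.SpecialLinearGroup (Fin 2) F)) = Fintype.card F + 1 := by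
  classical
  rw [← Nat.card_eq_of_bijective psi ⟨psi_injective, psi_surjective⟩]
  rw [Nat.card_eq_fintype_card, Fintype.card_sum, Fintype.card_unit, add_comm]

end Cfsg.Agent.S2331
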