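import Cfsg.Statements.S2364
import Mathlib
import Cfsg.Agent.Lib.Helper38.SLCard
import Cfsg.Agent.Lib.Helper40.CycloVal

set_option autoImplicit false
open Cfsg

namespace Cfsg.Agent.S2364

open Polynomial

section lin
variable {F : Type*} [Field F]

theorem commute_aeval {A : Type*} [Ring A] [Algebra F A] (a b : A) (h : Commute a b) (P : F[X]) :
    Commute a (aeval b P) := by
  induction P using Polynomial.induction_on' with
  | add p q hp hq =>
    rw [map_add]
    exact hp.add_right hq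
  | monomial n c =>
    rw [aeval_monomial]
    exact (Algebra.commute_algebraMap_right c a).mul_right (h.pow_right n)

variable {V : Type*} [AddCommGroup V] [Module F V]

/-- A nilpotent endomorphism has a non-zero kernel on every non-zero invariant subspace. -/
theorem inf_ker_ne_bot (N : Module.End F V) (k : ℕ) (hN : N ^ k = 0) (M : Submodule F V)
    (hM : ∀ x ∈ M, N x ∈ M) (hM0 : M ≠ ⊥) : M ⊓ LinearMap.ker N ≠ ⊥ := by
  classical
  obtain ⟨x, hxM, hx0⟩ := (Submodule.ne_bot_iff M).mp hM0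
  have hex : ∃ j : ℕ, (N ^ j) x = 0 := ⟨k, by rw [hN]; rfl⟩
  have hj0 : Nat.find hex ≠ 0 := by
    intro h0
    have h1 := Nat.find_spec hex
    rw [h0, pow_zero] at h1
    exact hx0 h1
  have hmem : ∀ j : ℕ, (N ^ j) x ∈ M := by
    intro j
    induction j with
    | zero => rw [pow_zero]; exact hxM
    | succ j ih =>
      rw [pow_succ', Module.End.mul_apply]
      exact hM _ ih
  have hy0 : (N ^ (Nat.find hex - 1)) x ≠ 0 := Nat.find_min hex (by omega)
  have hNy : N ((N ^ (Nat.find hex - 1)) x) = 0 := by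
    have h1 := Nat.find_spec hex
    have h2 : Nat.find hex = (Nat.find hex - 1) + 1 := by omega
    rw [h2, pow_succ', Module.End.mul_apply] at h1
    exact h1
  intro hbot
  apply hy0
  have h3 : (N ^ (Nat.find hex - 1)) x ∈ M ⊓ LinearMap.ker N :=
    ⟨hmem _, LinearMap.mem_ker.mpr hNy⟩
  rw [hbot] at h3
  exact (Submodule.mem_bot F).mp h3

/-- Orbit counting: a subspace on which an automorphism of prime order `r` has no non-zero fixed
vector has dimension divisible by the order of `q` modulo `r`. -/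
theorem orb [Fintype F] [Finite V] (r : ℕ) [Fact r.Prime] (M : Submodule F V)
    (φ : Module.End F V) (hφM : ∀ x ∈ M, φ x ∈ M) (hr : φ ^ r = 1)
    (hfix : ∀ x ∈ M, φ x = x → x = 0) :
    orderOf ((Fintype.card F : ℕ) : ZMod r) ∣ Module.finrank F M := by
  classical
  have : Fintype ↥M := Fintype.ofFinite _
  obtain ⟨f, hf⟩ : ∃ f : Function.End ↥M, ∀ x : ↥M, (f x).1 = φ x.1 :=
    ⟨fun x => ⟨φ x.1, hφM x.1 x.2⟩, fun x => rfl⟩
  have hfk : ∀ k : ℕ, ∀ x : ↥M, ((f ^ k) x).1 = (φ ^ k) x.1 := by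
    intro k
    induction k with
    | zero => intro x; rfl
    | succ k ih =>
      intro x
      rw [pow_succ', pow_succ', Module.End.mul_apply, ← ih x]
      exact hf _
  have hfr : f ^ r ^ 1 = 1 := by
    funext x
    apply Subtype.ext
    rw [pow_one, hfk, hr]
    rfl
  have h1 := Equiv.Perm.card_fixedPoints_modEq (p := r) (n := 1) hfr
  have h2 : Nat.card (Function.fixedPoints f) = 1 := by
    rw [Nat.card_eq_one_iff_exists]
    refine ⟨⟨0, ?_⟩, ?_⟩
    · show f 0 = 0
      apply Subtype.ext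
      rw [hf]
      exact map_zero φ
    · rintro ⟨x, hx⟩
      apply Subtype.ext
      apply Subtype.ext
      have hx' : f x = x := hx
      have h3 : φ x.1 = x.1 := by rw [← hf, hx']
      exact hfix x.1 x.2 h3
  rw [Fintype.card_eq_nat_card, Fintype.card_eq_nat_card, h2, Nat.card_eq_fintype_card,
    Module.card_eq_pow_finrank (K := F) (V := ↥M)] at h1
  rw [orderOf_dvd_iff_pow_eq_one]
  have h3 := (ZMod.natCast_eq_natCast_iff _ _ _).mpr h1
  push_cast at h3
  exact h3

end lin

theorem lin_core {F : Type*} [Field F] [Fintype F] {n : ℕ} (r : ℕ) [Fact r.Prime]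
    (hr0 : (r : F) ≠ 0) (φ υ : Module.End F (Fin n → F)) (hφr : φ ^ r = 1) (hφ1 : φ ≠ 1)
    (k : ℕ) (hυ : (υ - 1) ^ k = 0) (hυ1 : υ ≠ 1) (hcomm : Commute υ φ) (hn : 4 ≤ n) :
    orderOf ((Fintype.card F : ℕ) : ZMod r) + 2 ≤ n := by
  classical
  by_contra hcon
  push Not at hcon
  obtain ⟨d, hd⟩ : ∃ d, d = orderOf ((Fintype.card F : ℕ) : ZMod r) := ⟨_, rfl⟩
  rw [← hd] at hcon
  have hd3 : 3 ≤ d := by omega
  have hcop : IsCoprime (X - C (1 : F)) (cyclotomic r F) := by
    apply (Irreducible.coprime_iff_not_dvd (irreducible_X_sub_C 1)).mpr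
    rw [dvd_iff_isRoot, IsRoot.def, eval_one_cyclotomic_prime]
    exact hr0
  have hmul : (X - C (1 : F)) * cyclotomic r F = X ^ r - C (1 : F) := by
    rw [mul_comm, map_one]
    exact cyclotomic_prime_mul_X_sub_one F r
  obtain ⟨Cs, hCs⟩ : ∃ Cs : Submodule F (Fin n → F),
      Cs = LinearMap.ker (aeval φ (X - C (1 : F))) := ⟨_, rfl⟩
  obtain ⟨D, hD⟩ : ∃ D : Submodule F (Fin n → F),
      D = LinearMap.ker (aeval φ (cyclotomic r F)) := ⟨_, rfl⟩
  have hsup : Cs ⊔ D = ⊤ := by
    rw [hCs, hD, sup_ker_aeval_eq_ker_aeval_mul_of_coprime φ hcop, hmul]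
    have h0 : aeval φ (X ^ r - C (1 : F)) = 0 := by
      rw [map_sub, map_pow, aeval_X, aeval_C, map_one, hφr, sub_self]
    rw [h0, LinearMap.ker_zero]
  have hdisj : Cs ⊓ D = ⊥ := by
    rw [hCs, hD]
    exact disjoint_iff.mp (disjoint_ker_aeval_of_isCoprime φ hcop)
  have hCmem : ∀ x, x ∈ Cs ↔ φ x = x := by
    intro x
    rw [hCs, LinearMap.mem_ker, map_sub, aeval_X, aeval_C, map_one, LinearMap.sub_apply,
      Module.End.one_apply, sub_eq_zero]
  have hfin : Module.finrank F Cs + Module.finrank F D = n := by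
    have h := Submodule.finrank_sup_add_finrank_inf_eq Cs D
    rw [hsup, hdisj, finrank_top, finrank_bot, add_zero, Module.finrank_fin_fun] at h
    exact h.symm
  have happ : ∀ (ψ χ : Module.End F (Fin n → F)), Commute ψ χ → ∀ x, ψ (χ x) = χ (ψ x) := by
    intro ψ χ h x
    have h1 := congrArg (fun g : Module.End F (Fin n → F) => g x) h.eq
    simpa [Module.End.mul_apply] using h1
  have hN : ∀ (M : Submodule F (Fin n → F)) (P : F[X]), M = LinearMap.ker (aeval φ P) →
      ∀ (ψ : Module.End F (Fin n → F)), Commute ψ φ → ∀ x ∈ M, ψ x ∈ M := by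
    intro M P hM ψ hψ x hx
    rw [hM, LinearMap.mem_ker] at hx ⊢
    rw [← happ ψ (aeval φ P) (commute_aeval ψ φ hψ P) x, hx, map_zero]
  have hDφ := hN D _ hD φ (Commute.refl φ)
  have hDυ := hN D _ hD υ hcomm
  have hCυ := hN Cs _ hCs υ hcomm
  have hDfix : ∀ x ∈ D, φ x = x → x = 0 := by
    intro x hx hfx
    have h1 : x ∈ Cs ⊓ D := ⟨(hCmem x).mpr hfx, hx⟩
    rw [hdisj] at h1
    exact (Submodule.mem_bot F).mp h1
  have hD0 : D ≠ ⊥ := by
    intro h
    rw [h, sup_bot_eq] at hsup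
    apply hφ1
    apply LinearMap.ext
    intro x
    exact (hCmem x).mp (hsup ▸ Submodule.mem_top)
  have hdD := orb r D φ hDφ hφr hDfix
  rw [← hd] at hdD
  have hNυ : ∀ (M : Submodule F (Fin n → F)), (∀ x ∈ M, υ x ∈ M) → ∀ x ∈ M, (υ - 1) x ∈ M := by
    intro M hM x hx
    rw [LinearMap.sub_apply, Module.End.one_apply]
    exact M.sub_mem (hM x hx) hx
  have hkmem : ∀ x, x ∈ LinearMap.ker (υ - 1) ↔ υ x = x := by
    intro x
    rw [LinearMap.mem_ker, LinearMap.sub_apply, Module.End.one_apply, sub_eq_zero]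
  have hK0 := inf_ker_ne_bot (υ - 1) k hυ D (hNυ D hDυ) hD0
  have hKφ : ∀ x ∈ D ⊓ LinearMap.ker (υ - 1), φ x ∈ D ⊓ LinearMap.ker (υ - 1) := by
    intro x hx
    refine ⟨hDφ x hx.1, ?_⟩
    exact (hkmem _).mpr (by rw [happ υ φ hcomm x, (hkmem x).mp hx.2])
  have hdK := orb r (D ⊓ LinearMap.ker (υ - 1)) φ hKφ hφr (fun x hx => hDfix x hx.1)
  rw [← hd] at hdK
  have hKpos : 1 ≤ Module.finrank F ↥(D ⊓ LinearMap.ker (υ - 1)) :=
    Submodule.one_le_finrank_iff.mpr hK0
  have hKle : Module.finrank F ↥(D ⊓ LinearMap.ker (υ - 1)) ≤ Module.finrank F D :=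
    Submodule.finrank_mono inf_le_left
  obtain ⟨a, ha⟩ := hdK
  obtain ⟨b, hb⟩ := hdD
  have hb2 : b < 2 := by
    by_contra h
    push Not at h
    have h1 : d * 2 ≤ d * b := Nat.mul_le_mul_left d h
    omega
  have hb1 : b = 1 := by
    rcases Nat.eq_zero_or_pos b with h | h
    · rw [h, mul_zero] at hb
      omega
    · omega
  have ha1 : a = 1 := by
    rcases Nat.eq_zero_or_pos a with h | h
    · rw [h, mul_zero] at ha
      omega
    · by_contra h2
      have h3 : d * 2 ≤ d * a := Nat.mul_le_mul_left d (by omega)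
      rw [hb1, mul_one] at hb
      omega
  rw [hb1, mul_one] at hb
  rw [ha1, mul_one] at ha
  have hKD : D ⊓ LinearMap.ker (υ - 1) = D :=
    Submodule.eq_of_le_of_finrank_eq inf_le_left (by rw [ha, hb])
  have hDle : D ≤ LinearMap.ker (υ - 1) := by
    rw [← hKD]
    exact inf_le_right
  have hCle : Cs ≤ LinearMap.ker (υ - 1) := by
    by_cases hC0 : Cs = ⊥
    · rw [hC0]
      exact bot_le
    · have h1 := inf_ker_ne_bot (υ - 1) k hυ Cs (hNυ Cs hCυ) hC0
      have h2 : 1 ≤ Module.finrank F ↥(Cs ⊓ LinearMap.ker (υ - 1)) :=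
        Submodule.one_le_finrank_iff.mpr h1
      have h3 : Cs ⊓ LinearMap.ker (υ - 1) = Cs :=
        Submodule.eq_of_le_of_finrank_le inf_le_left (by omega)
      rw [← h3]
      exact inf_le_right
  apply hυ1
  apply LinearMap.ext
  intro x
  have h1 : x ∈ LinearMap.ker (υ - 1) := (sup_le hCle hDle) (hsup ▸ Submodule.mem_top)
  exact (hkmem x).mp h1

section mat
open Matrix
open Cfsg.Agent.Lib.Helper38
open Cfsg.Agent.Lib.Helper40

theorem dvd_card_SL {F : Type*} [Field F] [Fintype F] (m : ℕ) (r : ℕ) (i i' : Fin m) (hne : i ≠ i')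
    (h1 : r ∣ Fintype.card F ^ m - Fintype.card F ^ (i : ℕ))
    (h2 : (Fintype.card F - 1) ∣ Fintype.card F ^ m - Fintype.card F ^ (i' : ℕ)) :
    r ∣ Nat.card (Matrix.SpecialLinearGroup (Fin m) F) := by
  have hm : 1 ≤ m := by have := i.2; omega
  have h := SLCard.card_SL_mul (F := F) m hm
  rw [Matrix.card_GL_field] at h
  have hq : 2 ≤ Fintype.card F := Fintype.one_lt_card
  have h3 : r * (Fintype.card F - 1) ∣
      ∏ i : Fin m, (Fintype.card F ^ m - Fintype.card F ^ (i : ℕ)) := by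
    rw [← Finset.mul_prod_erase Finset.univ _ (Finset.mem_univ i)]
    apply mul_dvd_mul h1
    exact dvd_trans h2 (Finset.dvd_prod_of_mem _ (Finset.mem_erase.mpr ⟨hne.symm, Finset.mem_univ i'⟩))
  rw [← h] at h3
  exact Nat.dvd_of_mul_dvd_mul_right (by omega) h3

theorem dvd_card_SL_of_pow {F : Type*} [Field F] [Fintype F] (m : ℕ) (r j : ℕ) (hj : 2 ≤ j)
    (hjm : j ≤ m) (h : r ∣ Fintype.card F ^ j - 1) :
    r ∣ Nat.card (Matrix.SpecialLinearGroup (Fin m) F) := by
  have hq : 2 ≤ Fintype.card F := Fintype.one_lt_card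
  apply dvd_card_SL m r ⟨m - j, by omega⟩ ⟨m - 1, by omega⟩
  · intro h
    have := congrArg Fin.val h
    simp only at this
    omega
  · show r ∣ Fintype.card F ^ m - Fintype.card F ^ (m - j)
    have h1 : Fintype.card F ^ m = Fintype.card F ^ (m - j) * Fintype.card F ^ j := by
      rw [← pow_add]
      congr 1
      omega
    rw [h1, ← Nat.mul_sub_one]
    exact Dvd.dvd.mul_left h _
  · show Fintype.card F - 1 ∣ Fintype.card F ^ m - Fintype.card F ^ (m - 1)
    have h1 : Fintype.card F ^ m = Fintype.card F ^ (m - 1) * Fintype.card F := by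
      rw [← pow_succ]
      congr 1
      omega
    rw [h1, ← Nat.mul_sub_one]
    exact Dvd.intro_left _ rfl

theorem dvd_card_SL_char {F : Type*} [Field F] [Fintype F] (p : ℕ) [Fact p.Prime] [CharP F p]
    (m : ℕ) (hm : 2 ≤ m) : p ∣ Nat.card (Matrix.SpecialLinearGroup (Fin m) F) := by
  have hq : 2 ≤ Fintype.card F := Fintype.one_lt_card
  obtain ⟨k, -, hk⟩ := FiniteField.card F p
  have hpq : p ∣ Fintype.card F := by
    rw [hk]
    exact dvd_pow_self p k.ne_zero
  apply dvd_card_SL m p ⟨1, by omega⟩ ⟨0, by omega⟩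
  · intro h
    have := congrArg Fin.val h
    simp only at this
    omega
  · show p ∣ Fintype.card F ^ m - Fintype.card F ^ 1
    exact Nat.dvd_sub (dvd_pow hpq (by omega)) (dvd_pow hpq (by omega))
  · show Fintype.card F - 1 ∣ Fintype.card F ^ m - Fintype.card F ^ 0
    rw [pow_zero]
    exact Nat.sub_one_dvd_pow_sub_one _ _

theorem mat_core {F : Type*} [Field F] [Fintype F] (p : ℕ) [Fact p.Prime] [CharP F p] {n : ℕ}
    (hn : 4 ≤ n) (r : ℕ) [Fact r.Prime] (hrp : r ≠ p)
    (A B : Matrix (Fin n) (Fin n) F) (ζ ν lam : F) (hζ : ζ ≠ 0) (hν : ν ≠ 0)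
    (hA : A ^ p = ζ • (1 : Matrix (Fin n) (Fin n) F)) (hAns : ∀ c : F, A ≠ c • 1)
    (hB : B ^ r = ν • (1 : Matrix (Fin n) (Fin n) F)) (hBns : ∀ c : F, B ≠ c • 1)
    (hAB : A * B = lam • (B * A)) :
    orderOf ((Fintype.card F : ℕ) : ZMod r) + 2 ≤ n := by
  classical
  by_contra hcon
  push Not at hcon
  have : Nonempty (Fin n) := ⟨⟨0, by omega⟩⟩
  have hpp : p.Prime := Fact.out
  have hrr : r.Prime := Fact.out
  have hr0 : (r : F) ≠ 0 := by
    intro h
    have h1 := (CharP.cast_eq_zero_iff F p r).mp h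
    exact hrp ((Nat.prime_dvd_prime_iff_eq hpp hrr).mp h1).symm
  have hq1 : 1 ≤ Fintype.card F := Fintype.card_pos
  have hrq : ¬ r ∣ Fintype.card F - 1 := by
    intro h
    have h1 := (CycloVal.dvd_pow_sub_one_iff (Fintype.card F) r hq1 1).mp (by rwa [pow_one])
    have h2 : orderOf ((Fintype.card F : ℕ) : ZMod r) = 1 := Nat.dvd_one.mp h1
    omega
  obtain ⟨μ, hμ⟩ := (bijective_frobenius F p).surjective ζ
  rw [frobenius_def] at hμ
  have hμ0 : μ ≠ 0 := by
    rintro rfl
    rw [zero_pow hpp.ne_zero] at hμ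
    exact hζ hμ.symm
  have hcopr : Nat.Coprime (Nat.card Fˣ) r := by
    rw [Nat.card_eq_fintype_card, Fintype.card_units]
    exact (Nat.Coprime.symm ((Nat.Prime.coprime_iff_not_dvd hrr).mpr hrq))
  obtain ⟨κu, hκu⟩ := (powCoprime hcopr).surjective (Units.mk0 ν hν)
  have hκ : (κu : F) ^ r = ν := by
    have := congrArg Units.val hκu
    simpa using this
  have hκ0 : (κu : F) ≠ 0 := κu.ne_zero
  -- `lam = 1`
  have hpow : ∀ k : ℕ, A ^ k * B = lam ^ k • (B * A ^ k) := by
    intro k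
    induction k with
    | zero => simp
    | succ k ih =>
      rw [pow_succ, mul_assoc, hAB, mul_smul_comm, ← mul_assoc, ih, smul_mul_assoc, smul_smul,
        mul_assoc, ← pow_succ, ← pow_succ']
  have hB0 : B ≠ 0 := by
    intro h
    apply hBns 0
    rw [h, zero_smul]
  have hlam : lam = 1 := by
    have h1 := hpow p
    rw [hA, smul_mul_assoc, one_mul, mul_smul_comm, mul_one, smul_smul] at h1
    have h2 : (ζ - lam ^ p * ζ) • B = 0 := by
      rw [sub_smul, ← h1, sub_self]
    rcases smul_eq_zero.mp h2 with h3 | h3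
    · have h4 : (1 - lam ^ p) * ζ = 0 := by rw [sub_mul, one_mul, h3]
      rcases mul_eq_zero.mp h4 with h5 | h5
      · have h6 : (lam - 1) ^ p = 0 := by
          rw [sub_pow_char, one_pow, ← sub_eq_zero.mp h5, sub_self]
        have h7 := pow_eq_zero_iff hpp.ne_zero |>.mp h6
        exact sub_eq_zero.mp h7
      · exact absurd h5 hζ
    · exact absurd h3 hB0
  rw [hlam, one_smul] at hAB
  -- normalised elements
  have hu : (μ⁻¹ • A - 1) ^ p = 0 := by
    rw [sub_pow_char_of_commute p (Commute.one_right _), one_pow, _root_.smul_pow, hA, smul_smul, inv_pow,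
      hμ, inv_mul_cancel₀ hζ, one_smul, sub_self]
  have hu1 : μ⁻¹ • A ≠ 1 := by
    intro h
    apply hAns μ
    rw [← h, smul_smul, mul_inv_cancel₀ hμ0, one_smul]
  have hc : ((κu : F)⁻¹ • B) ^ r = 1 := by
    rw [_root_.smul_pow, hB, smul_smul, inv_pow, hκ, inv_mul_cancel₀ hν, one_smul]
  have hc1 : (κu : F)⁻¹ • B ≠ 1 := by
    intro h
    apply hBns κu
    rw [← h, smul_smul, mul_inv_cancel₀ hκ0, one_smul]
  have hcomm : Commute (μ⁻¹ • A) ((κu : F)⁻¹ • B) := by
    have h1 : Commute A B := hAB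
    exact (h1.smul_left _).smul_right _
  have key := lin_core r hr0 (Matrix.toLinAlgEquiv' ((κu : F)⁻¹ • B))
    (Matrix.toLinAlgEquiv' (μ⁻¹ • A)) (by rw [← map_pow, hc, map_one])
    (by
      intro h
      apply hc1
      apply Matrix.toLinAlgEquiv'.injective
      rw [h, map_one]) p
    (by rw [← map_one Matrix.toLinAlgEquiv', ← map_sub, ← map_pow, hu, map_zero])
    (by
      intro h
      apply hu1
      apply Matrix.toLinAlgEquiv'.injective
      rw [h, map_one])
    (hcomm.map Matrix.toLinAlgEquiv') hn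
  omega

theorem lift_facts {F : Type*} [Field F] [Fintype F] {n : ℕ} (hn : 0 < n)
    (g : Matrix.SpecialLinearGroup (Fin n) F) (s : ℕ) (hs : s.Prime)
    (hg : orderOf (QuotientGroup.mk g : Matrix.ProjectiveSpecialLinearGroup (Fin n) F) = s) :
    (∃ ζ : F, ζ ≠ 0 ∧ g.1 ^ s = ζ • (1 : Matrix (Fin n) (Fin n) F)) ∧
      ∀ c : F, g.1 ≠ c • (1 : Matrix (Fin n) (Fin n) F) := by
  classical
  constructor
  · have h1 : (QuotientGroup.mk g : Matrix.ProjectiveSpecialLinearGroup (Fin n) F) ^ s = 1 := by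
      rw [← hg]
      exact pow_orderOf_eq_one _
    rw [← QuotientGroup.mk_pow, QuotientGroup.eq_one_iff,
      Matrix.SpecialLinearGroup.mem_center_iff] at h1
    obtain ⟨ζ, hζn, hζ⟩ := h1
    refine ⟨ζ, ?_, ?_⟩
    · rintro rfl
      rw [zero_pow (by rw [Fintype.card_fin]; omega)] at hζn
      exact zero_ne_one hζn
    · rw [← Matrix.SpecialLinearGroup.coe_pow, ← hζ, Matrix.smul_one_eq_diagonal]
      rfl
  · intro c hc
    have h1 : (QuotientGroup.mk g : Matrix.ProjectiveSpecialLinearGroup (Fin n) F) = 1 := by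
      rw [QuotientGroup.eq_one_iff, Matrix.SpecialLinearGroup.mem_center_iff]
      refine ⟨c, ?_, ?_⟩
      · have h2 := g.2
        rw [hc, Matrix.det_smul, Matrix.det_one, mul_one] at h2
        exact h2
      · rw [hc, Matrix.smul_one_eq_diagonal]
        rfl
    rw [h1, orderOf_one] at hg
    exact hs.ne_one hg.symm

end mat

/-- Let F be a finite field of characteristic p, n ≥ 4, and let a, b be commuting elements of PSL(n, F) with a of order p. Then every prime divisor of the order of b divides the order of SL(n − 2, F). -/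
theorem result {F : Type*} [Field F] [Fintype F] (p : ℕ) [Fact p.Prime] [CharP F p] (n : ℕ) (hn : 4 ≤ n)
    (a b : Matrix.ProjectiveSpecialLinearGroup (Fin n) F) (ha : orderOf a = p) (hab : Commute a b) :
    (orderOf b).primeFactors ⊆ (Nat.card (Matrix.SpecialLinearGroup (Fin (n - 2)) F)).primeFactors := by
  classical
  intro r hr
  have hrpr := Nat.prime_of_mem_primeFactors hr
  have hrdvd := Nat.dvd_of_mem_primeFactors hr
  have hb0 : orderOf b ≠ 0 := (Nat.mem_primeFactors.mp hr).2.2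
  have : Fact r.Prime := ⟨hrpr⟩
  have hpp : p.Prime := Fact.out
  have hq1 : 1 ≤ Fintype.card F := Fintype.card_pos
  rw [Nat.mem_primeFactors]
  refine ⟨hrpr, ?_, Nat.card_pos.ne'⟩
  by_cases hrp : r = p
  · rw [hrp]
    exact dvd_card_SL_char p (n - 2) (by omega)
  · obtain ⟨g, rfl⟩ := QuotientGroup.mk_surjective a
    obtain ⟨h, rfl⟩ := QuotientGroup.mk_surjective b
    obtain ⟨c, hc⟩ : ∃ c : Matrix.SpecialLinearGroup (Fin n) F,
        c = h ^ (orderOf (QuotientGroup.mk h : Matrix.ProjectiveSpecialLinearGroup (Fin n) F) / r) :=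
      ⟨_, rfl⟩
    have hcr : orderOf (QuotientGroup.mk c : Matrix.ProjectiveSpecialLinearGroup (Fin n) F) = r := by
      rw [hc, QuotientGroup.mk_pow]
      exact orderOf_pow_orderOf_div hb0 hrdvd
    have hcomm : Commute (QuotientGroup.mk g : Matrix.ProjectiveSpecialLinearGroup (Fin n) F)
        (QuotientGroup.mk c) := by
      rw [hc, QuotientGroup.mk_pow]
      exact hab.pow_right _
    obtain ⟨⟨ζ, hζ0, hζ⟩, hgns⟩ := lift_facts (by omega) g p hpp ha
    obtain ⟨⟨ν, hν0, hν⟩, hcns⟩ := lift_facts (by omega) c r hrpr hcr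
    have h1 : (QuotientGroup.mk (c * g) : Matrix.ProjectiveSpecialLinearGroup (Fin n) F) =
        QuotientGroup.mk (g * c) := by
      rw [QuotientGroup.mk_mul, QuotientGroup.mk_mul]
      exact hcomm.eq.symm
    rw [QuotientGroup.eq, Matrix.SpecialLinearGroup.mem_center_iff] at h1
    obtain ⟨lam, -, hlam⟩ := h1
    have h2 : g.1 * c.1 = lam • (c.1 * g.1) := by
      have h3 : g * c = (c * g) * ((c * g)⁻¹ * (g * c)) := by group
      have h4 := congrArg Subtype.val h3
      rw [Matrix.SpecialLinearGroup.coe_mul, Matrix.SpecialLinearGroup.coe_mul (c * g),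
        Matrix.SpecialLinearGroup.coe_mul c g, ← hlam] at h4
      rw [h4]
      have h5 : Matrix.scalar (Fin n) lam = lam • (1 : Matrix (Fin n) (Fin n) F) := by
        rw [Matrix.smul_one_eq_diagonal]
        rfl
      rw [h5, Matrix.mul_smul, Matrix.mul_one]
    have key := mat_core p hn r hrp g.1 c.1 ζ ν lam hζ0 hν0 hζ hgns hν hcns h2
    obtain ⟨d, hd⟩ : ∃ d, d = orderOf ((Fintype.card F : ℕ) : ZMod r) := ⟨_, rfl⟩
    rw [← hd] at key
    apply dvd_card_SL_of_pow (n - 2) r (max d 2) (le_max_right _ _) (by omega)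
    rw [Cfsg.Agent.Lib.Helper40.CycloVal.dvd_pow_sub_one_iff (Fintype.card F) r hq1, ← hd]
    rcases le_or_gt d 2 with h5 | h5
    · rw [max_eq_right h5]
      have hd0 : d ≠ 0 := by
        rw [hd]
        have hrq : ¬ r ∣ Fintype.card F := by
          obtain ⟨k, -, hk⟩ := FiniteField.card F p
          rw [hk]
          intro h6
          exact hrp ((Nat.prime_dvd_prime_iff_eq hrpr hpp).mp (hrpr.dvd_of_dvd_pow h6))
        exact (Cfsg.Agent.Lib.Helper40.CycloVal.order_pos (Fintype.card F) r hrq).ne'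
      interval_cases d
      · exact absurd rfl hd0
      · exact one_dvd _
      · exact dvd_refl _
    · rw [max_eq_left h5.le]

end Cfsg.Agent.S2364
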