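import Cfsg.Statements.S2366
import Cfsg.Agent.Lib.Helper39.PSU3Up
import Cfsg.Agent.Lib.Helper39.PSU3Torus

set_option autoImplicit false
open Cfsg

namespace Cfsg.Agent.S2366

open Cfsg.Agent.Lib.Helper40.HermAdj Cfsg.Agent.Lib.Helper39.PSU3Conj
open Cfsg.Agent.Lib.Helper39.PSU3Elts Cfsg.Agent.Lib.Helper39.PSU3Torus
open Cfsg.Agent.Lib.Helper39.PSU3Up

/-- The set of element orders of PSU(3, q) for an odd prime power q = p^n: writing d = gcd(3, q + 1), a positive integer is the order of some element exactly when it divides one of q + 1, p(q + 1)/d, (q² − 1)/d, (q² − q + 1)/d. -/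
theorem result {F : Type*} [Field F] [Fintype F] (p : ℕ) [Fact p.Prime] [CharP F p] (hp : p ≠ 2) (q : ℕ) (hF : Fintype.card F = q ^ 2) :
    Set.range (orderOf : Cfsg.PSU 3 F q → ℕ) =
      {s : ℕ | s ∣ q + 1} ∪ {s : ℕ | s ∣ p * (q + 1) / Nat.gcd 3 (q + 1)} ∪
        {s : ℕ | s ∣ (q ^ 2 - 1) / Nat.gcd 3 (q + 1)} ∪ {s : ℕ | s ∣ (q ^ 2 - q + 1) / Nat.gcd 3 (q + 1)} := by
  classical
  obtain ⟨φ, hφ, hφ2, l, hl⟩ := exists_phi hF
  have hq := q_ge hF
  have hpp : p.Prime := Fact.out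
  have hdpos : 0 < Nat.gcd 3 (q + 1) := Nat.gcd_pos_of_pos_left _ (by norm_num)
  have hsub : ∀ N : ℕ, 0 < N → (∃ g : Cfsg.PSU 3 F q, orderOf g = N) → ∀ s, s ∣ N →
      s ∈ Set.range (orderOf : Cfsg.PSU 3 F q → ℕ) := by
    rintro N hN ⟨g, hg⟩ s ⟨t, ht⟩
    refine ⟨g ^ t, ?_⟩
    have ht0 : t ≠ 0 := by
      rintro rfl
      omega
    rw [orderOf_pow_of_dvd ht0 (by rw [hg, ht]; exact Dvd.intro_left _ rfl), hg, ht,
      Nat.mul_div_cancel _ (Nat.pos_of_ne_zero ht0)]
  ext s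
  simp only [Set.mem_union, Set.mem_ofPred_eq]
  constructor
  · rintro ⟨g, rfl⟩
    obtain ⟨x, rfl⟩ := QuotientGroup.mk_surjective g
    have hx : adj φ x.1.1 * x.1.1 = 1 :=
      (preserves_iff φ hφ _).1 ((Cfsg.Agent.Lib.Helper5.SUBasic.mem_SU_iff _).1 x.2)
    have hT : (x.1.1).transpose * (x.1.1).map φ = 1 := by
      have hadj : adj φ x.1.1 * x.1.1 = ((x.1.1).transpose * (x.1.1).map φ).transpose := by
        unfold adj
        rw [Matrix.transpose_mul, Matrix.transpose_transpose]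
      rw [hadj] at hx
      have h1 := congrArg Matrix.transpose hx
      rwa [Matrix.transpose_transpose, Matrix.transpose_one] at h1
    obtain ⟨N, hN, c, hc⟩ := exists_pow_scalar p hp hF φ hφ x.1.1 x.1.2 hT
    have h1 : (QuotientGroup.mk x : Cfsg.PSU 3 F q) ^ N = 1 := by
      rw [← QuotientGroup.mk_pow, QuotientGroup.eq_one_iff, mem_center_iff hF]
      refine ⟨c, ?_⟩
      rw [← hc]
      rfl
    have h2 := orderOf_dvd_of_pow_eq_one h1
    rcases hN with h | h | h | h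
    · rw [h] at h2
      exact Or.inl (Or.inl (Or.inl h2))
    · rw [h] at h2
      exact Or.inl (Or.inl (Or.inr h2))
    · rw [h] at h2
      exact Or.inl (Or.inr h2)
    · rw [h] at h2
      exact Or.inr h2
  · rintro (((h | h) | h) | h)
    · exact hsub _ (by omega) (exists_order_one hF) s h
    · refine hsub _ ?_ (exists_order_two p hF) s h
      rw [Nat.mul_div_assoc p (Nat.gcd_dvd_right 3 (q + 1))]
      exact Nat.mul_pos hpp.pos
        (Nat.div_pos (Nat.le_of_dvd (by omega) (Nat.gcd_dvd_right 3 (q + 1))) hdpos)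
    · refine hsub _ ?_ (exists_order_three hF) s h
      refine Nat.div_pos (Nat.le_of_dvd ?_ (dvd_sq_sub_one q hq)) hdpos
      have : 4 ≤ q ^ 2 := by nlinarith
      omega
    · refine hsub _ ?_ (exists_order_four p hF) s h
      exact Nat.div_pos (Nat.le_of_dvd (by omega) (dvd_sq_sub_add q hq)) hdpos

end Cfsg.Agent.S2366
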