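import Cfsg.Statements.S2367
import Mathlib

set_option autoImplicit false
open Cfsg

namespace Cfsg.Agent.S2367

theorem fact_aux (a : ℕ) (L : List (ℕ × ℕ)) (hL : ∀ x ∈ L, x.1.Prime ∧ x.1 ≠ 2) (p : ℕ) :
    (2 ^ a * (L.map (fun x => x.1 ^ x.2)).prod).factorization p =
      (if p = 2 then a else 0) + (L.map (fun x => if x.1 = p then x.2 else 0)).sum := by
  induction L with
  | nil =>
    simp [Nat.Prime.factorization_pow Nat.prime_two, Finsupp.single_apply, eq_comm]
  | cons x L ih =>
    have hx := hL x (List.mem_cons_self)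
    have ih' := ih (fun y hy => hL y (List.mem_cons_of_mem _ hy))
    have hpos : (L.map (fun x => x.1 ^ x.2)).prod ≠ 0 := by
      apply List.prod_ne_zero
      intro h0
      rw [List.mem_map] at h0
      obtain ⟨y, hy, hy0⟩ := h0
      have := (hL y (List.mem_cons_of_mem _ hy)).1.pos
      have : y.1 ^ y.2 ≠ 0 := pow_ne_zero _ (by omega)
      exact this hy0
    have e : 2 ^ a * ((x :: L).map (fun x => x.1 ^ x.2)).prod
        = x.1 ^ x.2 * (2 ^ a * (L.map (fun x => x.1 ^ x.2)).prod) := by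
      simp only [List.map_cons, List.prod_cons]; ring
    rw [e, Nat.factorization_mul (pow_ne_zero _ hx.1.pos.ne') (mul_ne_zero (by positivity) hpos)]
    simp only [Finsupp.add_apply, ih', List.map_cons, List.sum_cons]
    rw [Nat.Prime.factorization_pow hx.1, Finsupp.single_apply]
    ring

theorem sum_aux (L : List (ℕ × ℕ)) (p : ℕ) (hnone : ∀ x ∈ L, x.1 ≠ p) :
    (L.map (fun x => if x.1 = p then x.2 else 0)).sum = 0 := by
  induction L with
  | nil => simp
  | cons x L ih =>
    have hx := hnone x (List.mem_cons_self)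
    simp only [List.map_cons, List.sum_cons, if_neg hx, zero_add]
    exact ih (fun y hy => hnone y (List.mem_cons_of_mem _ hy))

theorem sum_aux2 (L : List (ℕ × ℕ)) (hpair : L.Pairwise (fun x y => x.1 ≠ y.1)) (p e : ℕ) (he : e ≠ 0)
    (hs : (L.map (fun x => if x.1 = p then x.2 else 0)).sum = e) : ∃ x ∈ L, x.1 = p ∧ x.2 = e := by
  induction L with
  | nil => simp at hs; exact absurd hs.symm he
  | cons x L ih =>
    rw [List.pairwise_cons] at hpair
    simp only [List.map_cons, List.sum_cons] at hs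
    by_cases hx : x.1 = p
    · have h0 : (L.map (fun x => if x.1 = p then x.2 else 0)).sum = 0 :=
        sum_aux L p (fun y hy => by rw [← hx]; exact (hpair.1 y hy).symm)
      rw [if_pos hx, h0, add_zero] at hs
      exact ⟨x, List.mem_cons_self, hx, hs⟩
    · rw [if_neg hx, zero_add] at hs
      obtain ⟨y, hy, h1, h2⟩ := ih hpair.2 hs
      exact ⟨y, List.mem_cons_of_mem _ hy, h1, h2⟩

theorem spor_aux (N a : ℕ) (L : List (ℕ × ℕ)) (hN : N = 2 ^ a * (L.map (fun x => x.1 ^ x.2)).prod)
    (hL : ∀ x ∈ L, x.1.Prime ∧ x.1 ≠ 2) (hpair : L.Pairwise (fun x y => x.1 ≠ y.1))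
    (h3 : ∀ x ∈ L, x.2 = 3 → x.1 ^ 3 < 2 ^ a)
    (p : ℕ) (hodd : p ≠ 2) (h : N.factorization p = 3) : p ^ 3 < 2 ^ (N.factorization 2) := by
  have h2 : N.factorization 2 = a := by
    rw [hN, fact_aux a L hL 2, sum_aux L 2 (fun x hx => (hL x hx).2)]
    simp
  rw [hN, fact_aux a L hL p, if_neg hodd, zero_add] at h
  obtain ⟨x, hx, hx1, hx2⟩ := sum_aux2 L hpair p 3 (by norm_num) h
  rw [h2, ← hx1]
  exact h3 x hx hx2

theorem pow_bound (p : ℕ) (hp : 3 ≤ p) : p ^ 3 * 2 < 2 ^ (2 * p) := by
  induction p, hp using Nat.le_induction with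
  | base => norm_num
  | succ k hk ih =>
    have h1 : (k + 1) ^ 3 ≤ 4 * k ^ 3 := by nlinarith [sq_nonneg (k - 3 : ℤ), pow_pos (show 0 < k by omega) 2, pow_pos (show 0 < k by omega) 3]
    have h2 : 2 ^ (2 * (k + 1)) = 4 * 2 ^ (2 * k) := by ring
    rw [h2]
    nlinarith

open Nat in
theorem alt_aux (n : ℕ) (p : ℕ) (hp : p.Prime) (hodd : p ≠ 2) (h3 : (n !).factorization p = 3) :
    p ^ 3 * 2 < 2 ^ (n !).factorization 2 := by
  haveI : Fact p.Prime := ⟨hp⟩
  haveI : Fact (Nat.Prime 2) := ⟨Nat.prime_two⟩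
  have hp3 : 3 ≤ p := by
    have := hp.two_le
    omega
  rw [Nat.factorization_def _ hp] at h3
  rw [Nat.factorization_def _ Nat.prime_two]
  -- step A : 3 * p ≤ n
  have hA : 3 * p ≤ n := by
    by_contra hlt
    have hlt' : n < 3 * p := by omega
    have hnp2 : n < p ^ 2 := by nlinarith
    have hlog : Nat.log p n < 2 := Nat.log_lt_of_lt_pow (by
      rintro rfl
      simp at h3) hnp2
    rw [padicValNat_factorial hlog] at h3
    simp at h3
    have : n / p < 3 := (Nat.div_lt_iff_lt_mul hp.pos).mpr hlt'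
    omega
  -- step B
  have hB : n / 2 + n / 4 ≤ padicValNat 2 (n !) := by
    have hlog : Nat.log 2 n < n + 3 := by
      have := Nat.log_le_self 2 n
      omega
    rw [padicValNat_factorial hlog]
    have hsub : ({1, 2} : Finset ℕ) ⊆ Finset.Ico 1 (n + 3) := by
      intro x hx
      simp only [Finset.mem_insert, Finset.mem_singleton] at hx
      rw [Finset.mem_Ico]
      omega
    calc n / 2 + n / 4 = ∑ i ∈ ({1, 2} : Finset ℕ), n / 2 ^ i := by
          rw [Finset.sum_pair (by norm_num)]; norm_num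
      _ ≤ _ := Finset.sum_le_sum_of_subset hsub
  have hC : 2 * p ≤ padicValNat 2 (n !) := by omega
  calc p ^ 3 * 2 < 2 ^ (2 * p) := pow_bound p hp3
    _ ≤ _ := Nat.pow_le_pow_right (by norm_num) hC

/-- Let G be an alternating group of degree at least 5 or a simple group with the order of one of the 26 sporadic groups, and let p be an odd prime such that p³ is the exact power of p dividing the order of G. Then p³ is less than the 2-part of the order of G. -/
theorem result {G : Type*} [Group G] [Finite G] (hG : Cfsg.IsAlternating G ∨ Cfsg.IsSporadic G)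
    (p : ℕ) (hp : p.Prime) (hodd : p ≠ 2) (h3 : (Nat.card G).factorization p = 3) :
    p ^ 3 < 2 ^ (Nat.card G).factorization 2 := by
  rcases hG with ⟨n, hn, ⟨e⟩⟩ | hS
  · have hcard : Nat.card G = Nat.card (alternatingGroup (Fin n)) := Nat.card_congr e.toEquiv
    haveI : Nontrivial (Fin n) := Fin.nontrivial_iff_two_le.mpr (by omega)
    have h2 : 2 * Nat.card G = n.factorial := by
      rw [hcard, two_mul_nat_card_alternatingGroup, Nat.card_eq_fintype_card, Fintype.card_perm,
        Fintype.card_fin]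
    have hne : Nat.card G ≠ 0 := Nat.card_pos.ne'
    have hf : (n.factorial).factorization = (2 : ℕ).factorization + (Nat.card G).factorization := by
      rw [← h2, Nat.factorization_mul (by norm_num) hne]
    have hfp : (n.factorial).factorization p = 3 := by
      rw [hf, Finsupp.add_apply, h3, Nat.prime_two.factorization, Finsupp.single_apply, if_neg (Ne.symm hodd)]
    have hf2 : (n.factorial).factorization 2 = 1 + (Nat.card G).factorization 2 := by
      rw [hf, Finsupp.add_apply, Nat.prime_two.factorization, Finsupp.single_apply, if_pos rfl]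
    have := alt_aux n p hp hodd hfp
    rw [hf2, pow_add] at this
    omega
  · unfold Cfsg.IsSporadic at hS
    rcases hS with ⟨-, hc⟩ | ⟨-, hc⟩ | ⟨-, hc⟩ | ⟨-, hc⟩ | ⟨-, hc⟩ | ⟨-, hc⟩ | ⟨-, hc⟩ | ⟨-, hc⟩ | ⟨-, hc⟩ | ⟨-, hc⟩ | ⟨-, hc⟩ | ⟨-, hc⟩ | ⟨-, hc⟩ | ⟨-, hc⟩ | ⟨-, hc⟩ | ⟨-, hc⟩ | ⟨-, hc⟩ | ⟨-, hc⟩ | ⟨-, hc⟩ | ⟨-, hc⟩ | ⟨-, hc⟩ | ⟨-, hc⟩ | ⟨-, hc⟩ | ⟨-, hc⟩ | ⟨-, hc⟩ | ⟨-, hc⟩
    · rw [hc] at h3 ⊢
      exact spor_aux 7920 4 [(3, 2), (5, 1), (11, 1)] (by norm_num) (by simp; norm_num) (by decide) (by decide) p hodd h3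
    · rw [hc] at h3 ⊢
      exact spor_aux 95040 6 [(3, 3), (5, 1), (11, 1)] (by norm_num) (by simp; norm_num) (by decide) (by decide) p hodd h3
    · rw [hc] at h3 ⊢
      exact spor_aux 443520 7 [(3, 2), (5, 1), (7, 1), (11, 1)] (by norm_num) (by simp; norm_num) (by decide) (by decide) p hodd h3
    · rw [hc] at h3 ⊢
      exact spor_aux 10200960 7 [(3, 2), (5, 1), (7, 1), (11, 1), (23, 1)] (by norm_num) (by simp; norm_num) (by decide) (by decide) p hodd h3
    · rw [hc] at h3 ⊢
      exact spor_aux 244823040 10 [(3, 3), (5, 1), (7, 1), (11, 1), (23, 1)] (by norm_num) (by simp; norm_num) (by decide) (by decide) p hodd h3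
    · rw [hc] at h3 ⊢
      exact spor_aux 175560 3 [(3, 1), (5, 1), (7, 1), (11, 1), (19, 1)] (by norm_num) (by simp; norm_num) (by decide) (by decide) p hodd h3
    · rw [hc] at h3 ⊢
      exact spor_aux 604800 7 [(3, 3), (5, 2), (7, 1)] (by norm_num) (by simp; norm_num) (by decide) (by decide) p hodd h3
    · rw [hc] at h3 ⊢
      exact spor_aux 50232960 7 [(3, 5), (5, 1), (17, 1), (19, 1)] (by norm_num) (by simp; norm_num) (by decide) (by decide) p hodd h3
    · rw [hc] at h3 ⊢
      exact spor_aux 86775571046077562880 21 [(3, 3), (5, 1), (7, 1), (11, 3), (23, 1), (29, 1), (31, 1), (37, 1), (43, 1)] (by norm_num) (by simp; norm_num) (by decide) (by decide) p hodd h3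
    · rw [hc] at h3 ⊢
      exact spor_aux 4157776806543360000 21 [(3, 9), (5, 4), (7, 2), (11, 1), (13, 1), (23, 1)] (by norm_num) (by simp; norm_num) (by decide) (by decide) p hodd h3
    · rw [hc] at h3 ⊢
      exact spor_aux 42305421312000 18 [(3, 6), (5, 3), (7, 1), (11, 1), (23, 1)] (by norm_num) (by simp; norm_num) (by decide) (by decide) p hodd h3
    · rw [hc] at h3 ⊢
      exact spor_aux 495766656000 10 [(3, 7), (5, 3), (7, 1), (11, 1), (23, 1)] (by norm_num) (by simp; norm_num) (by decide) (by decide) p hodd h3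
    · rw [hc] at h3 ⊢
      exact spor_aux 64561751654400 17 [(3, 9), (5, 2), (7, 1), (11, 1), (13, 1)] (by norm_num) (by simp; norm_num) (by decide) (by decide) p hodd h3
    · rw [hc] at h3 ⊢
      exact spor_aux 4089470473293004800 18 [(3, 13), (5, 2), (7, 1), (11, 1), (13, 1), (17, 1), (23, 1)] (by norm_num) (by simp; norm_num) (by decide) (by decide) p hodd h3
    · rw [hc] at h3 ⊢
      exact spor_aux 1255205709190661721292800 21 [(3, 16), (5, 2), (7, 3), (11, 1), (13, 1), (17, 1), (23, 1), (29, 1)] (by norm_num) (by simp; norm_num) (by decide) (by decide) p hodd h3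
    · rw [hc] at h3 ⊢
      exact spor_aux 44352000 9 [(3, 2), (5, 3), (7, 1), (11, 1)] (by norm_num) (by simp; norm_num) (by decide) (by decide) p hodd h3
    · rw [hc] at h3 ⊢
      exact spor_aux 898128000 7 [(3, 6), (5, 3), (7, 1), (11, 1)] (by norm_num) (by simp; norm_num) (by decide) (by decide) p hodd h3
    · rw [hc] at h3 ⊢
      exact spor_aux 4030387200 10 [(3, 3), (5, 2), (7, 3), (17, 1)] (by norm_num) (by simp; norm_num) (by decide) (by decide) p hodd h3
    · rw [hc] at h3 ⊢
      exact spor_aux 145926144000 14 [(3, 3), (5, 3), (7, 1), (13, 1), (29, 1)] (by norm_num) (by simp; norm_num) (by decide) (by decide) p hodd h3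
    · rw [hc] at h3 ⊢
      exact spor_aux 448345497600 13 [(3, 7), (5, 2), (7, 1), (11, 1), (13, 1)] (by norm_num) (by simp; norm_num) (by decide) (by decide) p hodd h3
    · rw [hc] at h3 ⊢
      exact spor_aux 460815505920 9 [(3, 4), (5, 1), (7, 3), (11, 1), (19, 1), (31, 1)] (by norm_num) (by simp; norm_num) (by decide) (by decide) p hodd h3
    · rw [hc] at h3 ⊢
      exact spor_aux 273030912000000 14 [(3, 6), (5, 6), (7, 1), (11, 1), (19, 1)] (by norm_num) (by simp; norm_num) (by decide) (by decide) p hodd h3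
    · rw [hc] at h3 ⊢
      exact spor_aux 51765179004000000 8 [(3, 7), (5, 6), (7, 1), (11, 1), (31, 1), (37, 1), (67, 1)] (by norm_num) (by simp; norm_num) (by decide) (by decide) p hodd h3
    · rw [hc] at h3 ⊢
      exact spor_aux 90745943887872000 15 [(3, 10), (5, 3), (7, 2), (13, 1), (19, 1), (31, 1)] (by norm_num) (by simp; norm_num) (by decide) (by decide) p hodd h3
    · rw [hc] at h3 ⊢
      exact spor_aux 4154781481226426191177580544000000 41 [(3, 13), (5, 6), (7, 2), (11, 1), (13, 1), (17, 1), (19, 1), (23, 1), (31, 1), (47, 1)] (by norm_num) (by simp; norm_num) (by decide) (by decide) p hodd h3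
    · rw [hc] at h3 ⊢
      exact spor_aux 808017424794512875886459904961710757005754368000000000 46 [(3, 20), (5, 9), (7, 6), (11, 2), (13, 3), (17, 1), (19, 1), (23, 1), (29, 1), (31, 1), (41, 1), (47, 1), (59, 1), (71, 1)] (by norm_num) (by simp; norm_num) (by decide) (by decide) p hodd h3

end Cfsg.Agent.S2367
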