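import Cfsg.Statements.S2368
import Mathlib

set_option autoImplicit false
open Cfsg

namespace Cfsg.Agent.S2368

/-- A nilpotent square matrix over a field has `card`-th power zero. -/
theorem pow_card_eq_zero_of_nilp {F : Type*} [Field F] {m : ℕ} (N : Matrix (Fin m) (Fin m) F)
    (hN : IsNilpotent N) : N ^ m = 0 := by
  have h1 : IsNilpotent (N.charpoly - Polynomial.X ^ (Fintype.card (Fin m))) :=
    Matrix.isNilpotent_charpoly_sub_pow_of_isNilpotent hN
  have h2 : N.charpoly - Polynomial.X ^ (Fintype.card (Fin m)) = 0 := h1.eq_zero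
  have h3 : N.charpoly = Polynomial.X ^ m := by
    have := sub_eq_zero.mp h2
    simpa using this
  have h4 := Matrix.aeval_self_charpoly N
  rw [h3] at h4
  simpa using h4

/-- The shift matrix. -/
def shiftMat (F : Type*) [Field F] (m : ℕ) : Matrix (Fin m) (Fin m) F :=
  Matrix.of fun i j => if j.val = i.val + 1 then 1 else 0

theorem shiftMat_pow_apply (F : Type*) [Field F] (m : ℕ) (e : ℕ) (i j : Fin m) :
    (shiftMat F m ^ e) i j = if j.val = i.val + e then 1 else 0 := by
  induction e generalizing i j with
  | zero =>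
    simp [Matrix.one_apply, Fin.ext_iff, eq_comm]
  | succ e ih =>
    rw [pow_succ, Matrix.mul_apply]
    have hs : ∀ k l : Fin m, shiftMat F m k l = if l.val = k.val + 1 then 1 else 0 := fun _ _ => rfl
    simp only [ih, hs]
    by_cases h : i.val + e < m
    · rw [Finset.sum_eq_single (⟨i.val + e, h⟩ : Fin m)]
      · simp [add_assoc]
      · intro b _ hb
        have : ¬ (b.val = i.val + e) := fun hh => hb (Fin.ext hh)
        simp [this]
      · intro hh
        exact absurd (Finset.mem_univ _) hh
    · rw [Finset.sum_eq_zero]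
      · have : ¬ (j.val = i.val + (e + 1)) := by
          have := j.isLt
          omega
        simp [this]
      · intro b _
        have : ¬ (b.val = i.val + e) := by
          have := b.isLt
          omega
        simp [this]

theorem shiftMat_pow_eq_zero_iff (F : Type*) [Field F] (m : ℕ) (e : ℕ) :
    shiftMat F m ^ e = 0 ↔ m ≤ e := by
  constructor
  · intro h
    by_contra hlt
    replace hlt : e < m := by omega
    have h0 : 0 < m := by omega
    have := congrFun (congrFun h ⟨0, h0⟩) ⟨e, hlt⟩
    rw [shiftMat_pow_apply] at this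
    simp at this
  · intro h
    ext i j
    rw [shiftMat_pow_apply]
    have : ¬ (j.val = i.val + e) := by
      have := j.isLt
      omega
    simp [this]

/-- Let F be a finite field of characteristic p and m ≥ 1. Every element of GL(m, F) of p-power order has order less than p·m, and GL(m, F) has an element of p-power order at least m; so the largest order of a p-element of GL(m, F) is the least power of p that is at least m. -/
theorem result {F : Type*} [Field F] [Fintype F] (p : ℕ) [Fact p.Prime] [CharP F p] (m : ℕ) (hm : 1 ≤ m) :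
    (∀ g : Matrix.GeneralLinearGroup (Fin m) F, (∃ j : ℕ, orderOf g = p ^ j) → orderOf g < p * m) ∧
      ∃ g : Matrix.GeneralLinearGroup (Fin m) F, (∃ j : ℕ, orderOf g = p ^ j) ∧ m ≤ orderOf g := by
  have hp : p.Prime := Fact.out
  have hne : Nonempty (Fin m) := ⟨⟨0, by omega⟩⟩
  have hchar : CharP (Matrix (Fin m) (Fin m) F) p := Matrix.charP p
  have hk1 : m ≤ p ^ Nat.clog p m := Nat.le_pow_clog hp.one_lt m
  have hk2 : p ^ Nat.clog p m < p * m := by
    rcases Nat.lt_or_ge 1 m with h1 | h1
    · have := Nat.pow_pred_clog_lt_self hp.one_lt h1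
      have hc : 0 < Nat.clog p m := Nat.clog_pos hp.one_lt h1
      have : p ^ Nat.clog p m = p * p ^ (Nat.clog p m).pred := by
        rw [← pow_succ']
        congr 1
        exact (Nat.succ_pred_eq_of_pos hc).symm
      rw [this]
      exact Nat.mul_lt_mul_of_pos_left ‹_› hp.pos
    · have hm1 : m = 1 := by omega
      subst hm1
      simp [Nat.clog_one_right, hp.one_lt]
  -- key: for unipotent matrices, the `p ^ clog`-th power is one
  have key : ∀ A : Matrix (Fin m) (Fin m) F, IsNilpotent (A - 1) → A ^ (p ^ Nat.clog p m) = 1 := by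
    intro A hA
    have h0 : (A - 1) ^ m = 0 := pow_card_eq_zero_of_nilp _ hA
    have h1 : (A - 1) ^ (p ^ Nat.clog p m) = 0 := pow_eq_zero_of_le hk1 h0
    have h2 : A = (A - 1) + 1 := by abel
    rw [h2, add_pow_char_pow_of_commute p _ (Commute.one_right _), h1]
    simp
  refine ⟨?_, ?_⟩
  · rintro g ⟨j, hj⟩
    have hgj : g ^ (p ^ j) = 1 := by rw [← hj]; exact pow_orderOf_eq_one g
    have hA : ((g : Matrix (Fin m) (Fin m) F)) ^ (p ^ j) = 1 := by
      have := congrArg (fun x : Matrix.GeneralLinearGroup (Fin m) F => (x : Matrix (Fin m) (Fin m) F)) hgj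
      simpa using this
    have hnil : IsNilpotent ((g : Matrix (Fin m) (Fin m) F) - 1) := by
      refine ⟨p ^ j, ?_⟩
      rw [sub_pow_char_pow_of_commute p _ (Commute.one_right _), hA]
      simp
    have hg : g ^ (p ^ Nat.clog p m) = 1 := by
      apply Units.ext
      simpa using key _ hnil
    have := Nat.le_of_dvd (pow_pos hp.pos _) (orderOf_dvd_of_pow_eq_one hg)
    omega
  · have hNnil : IsNilpotent (shiftMat F m) := ⟨m, (shiftMat_pow_eq_zero_iff F m m).mpr le_rfl⟩
    have hunit : IsUnit (1 + shiftMat F m) := hNnil.isUnit_one_add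
    obtain ⟨g, hg⟩ := hunit
    have hnil : IsNilpotent ((g : Matrix (Fin m) (Fin m) F) - 1) := by
      rw [hg]; simpa using hNnil
    have hgk : g ^ (p ^ Nat.clog p m) = 1 := by
      apply Units.ext
      simpa using key _ hnil
    obtain ⟨j, hjle, hj⟩ := (Nat.dvd_prime_pow hp).mp (orderOf_dvd_of_pow_eq_one hgk)
    refine ⟨g, ⟨j, hj⟩, ?_⟩
    have hgj : g ^ (p ^ j) = 1 := by rw [← hj]; exact pow_orderOf_eq_one g
    have hA : (1 + shiftMat F m) ^ (p ^ j) = 1 := by
      have := congrArg (fun x : Matrix.GeneralLinearGroup (Fin m) F => (x : Matrix (Fin m) (Fin m) F)) hgj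
      simp only [Units.val_pow_eq_pow_val, Units.val_one] at this
      rw [hg] at this
      exact this
    rw [add_pow_char_pow_of_commute p _ (Commute.one_left _)] at hA
    simp only [one_pow, add_eq_left] at hA
    rw [hj]
    exact (shiftMat_pow_eq_zero_iff F m _).mp hA

end Cfsg.Agent.S2368
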