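import Cfsg.Statements.S2369
import Cfsg.Agent.Lib.Helper19.BTAsm
import Cfsg.Agent.Lib.Helper72.BTUPFIX
import Cfsg.Agent.Lib.Helper91.BTCELLCOUNT
import Cfsg.Agent.Lib.Helper53.BTFREEDVD
import Cfsg.Agent.Lib.Helper53.BTRANKONE
import Cfsg.Agent.Lib.Helper53.BTPARCARD
import Cfsg.Agent.Lib.Helper53.BTSYLCONJ
import Cfsg.Agent.Lib.Helper71.BTPRIMEPOW
import Cfsg.Agent.Lib.Helper71.BTARITH
import Cfsg.Agent.Lib.Helper19.BTCOVER
import Cfsg.Agent.Lib.Helper5.BTDISJ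
import Cfsg.Agent.Lib.Helper19.BTE0
import Cfsg.Agent.Lib.Helper19.BTSTRA
import Cfsg.Agent.Lib.Helper19.BTSTRB
import Cfsg.Agent.Lib.Helper19.BTR1A
import Cfsg.Agent.Lib.Helper19.BTR1B
import Cfsg.Agent.Lib.Helper36.BTTOP
import Cfsg.Agent.Lib.Helper19.BTCARDB
import Cfsg.Agent.Lib.Helper5.BTCARDCA
import Cfsg.Agent.Lib.Helper5.BTCARDCB
import Cfsg.Agent.Lib.Helper19.BTSYLU

set_option autoImplicit false
open Cfsg

namespace Cfsg.Agent.S2369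

/-- Let q = 2^(2m+1) with m ≥ 1 and let a, b be commuting elements of the large Ree group ²F₄(q) with a an involution. Then every prime divisor of the order of b divides q(q⁴ − 1). -/
theorem result {K : Type*} [Field K] [Fintype K] (m : ℕ) (hm : 1 ≤ m) (hK : Fintype.card K = 2 ^ (2 * m + 1))
    (a b : ↥(Cfsg.Lie.twistedF4 K (2 ^ m))) (ha : orderOf a = 2) (hab : Commute a b) :
    (orderOf b).primeFactors ⊆ (2 ^ (2 * m + 1) * ((2 ^ (2 * m + 1)) ^ 4 - 1)).primeFactors :=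
  Cfsg.Agent.Lib.Helper19.BTAsm.main
    Cfsg.Agent.Lib.Helper72.BTUPFIX.main
    Cfsg.Agent.Lib.Helper91.BTCELLCOUNT.main
    Cfsg.Agent.Lib.Helper53.BTFREEDVD.main
    Cfsg.Agent.Lib.Helper53.BTRANKONE.main
    Cfsg.Agent.Lib.Helper53.BTPARCARD.main
    Cfsg.Agent.Lib.Helper53.BTSYLCONJ.main
    Cfsg.Agent.Lib.Helper71.BTPRIMEPOW.main
    Cfsg.Agent.Lib.Helper71.BTARITH.main
    Cfsg.Agent.Lib.Helper19.BTCOVER.main
    Cfsg.Agent.Lib.Helper5.BTDISJ.main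
    Cfsg.Agent.Lib.Helper19.BTE0.main
    Cfsg.Agent.Lib.Helper19.BTSTRA.main
    Cfsg.Agent.Lib.Helper19.BTSTRB.main
    Cfsg.Agent.Lib.Helper19.BTR1A.main
    Cfsg.Agent.Lib.Helper19.BTR1B.main
    Cfsg.Agent.Lib.Helper36.BTTOP.main
    Cfsg.Agent.Lib.Helper19.BTCARDB.main
    Cfsg.Agent.Lib.Helper5.BTCARDCA.main
    Cfsg.Agent.Lib.Helper5.BTCARDCB.main
    Cfsg.Agent.Lib.Helper19.BTSYLU.main
    K m hm hK a b ha hab

end Cfsg.Agent.S2369
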