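import Cfsg.Statements.S2370
import Cfsg.Agent.Lib.Helper19.TwF4E

set_option autoImplicit false
open Cfsg

namespace Cfsg.Agent.S2370

/-- Let q = 2^(2m+1) with m ≥ 1. Every element of 2-power order of the large Ree group ²F₄(q) has order at most 32. -/
theorem result {K : Type*} [Field K] [Fintype K] (m : ℕ) (hm : 1 ≤ m) (hK : Fintype.card K = 2 ^ (2 * m + 1))
    (x : ↥(Cfsg.Lie.twistedF4 K (2 ^ m))) (hx : ∃ j : ℕ, orderOf x = 2 ^ j) : orderOf x ≤ 32 := by
  exact Nat.le_of_dvd (by norm_num) (Cfsg.Agent.Lib.Helper19.TwF4E.order_dvd m hK x hx)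

end Cfsg.Agent.S2370
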