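import Cfsg.Statements.S2388
import Cfsg.Agent.Lib.Helper40.SSConj
import Mathlib

set_option autoImplicit false
open Cfsg

namespace Cfsg.Agent.S2388

/-- In `SL_n(q)`, `q` a power of the prime `p`, two elements of order prime to `p` with the same characteristic polynomial are conjugate in `SL_n(q)` (not merely in `GL_n`). -/
theorem result {F : Type*} [Field F] [Fintype F] (p : ℕ) [Fact p.Prime] [CharP F p] (n : ℕ)
    (g h : Matrix.SpecialLinearGroup (Fin n) F) (hg : (orderOf g).Coprime p) (hh : (orderOf h).Coprime p)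
    (hc : (g : Matrix (Fin n) (Fin n) F).charpoly = (h : Matrix (Fin n) (Fin n) F).charpoly) : IsConj g h := by
  rcases Nat.eq_zero_or_pos n with hn0 | hnpos
  · subst hn0
    have : g = h := Subtype.ext (Subsingleton.elim _ _)
    rw [this]
  · haveI : Nonempty (Fin n) := ⟨⟨0, hnpos⟩⟩
    have hp : p.Prime := Fact.out
    have hN : ((orderOf g * orderOf h : ℕ) : F) ≠ 0 := by
      rw [Ne, CharP.cast_eq_zero_iff F p]
      intro hdvd
      rcases hp.dvd_mul.mp hdvd with h1 | h1
      · exact (Nat.Prime.coprime_iff_not_dvd hp).mp hg.symm h1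
      · exact (Nat.Prime.coprime_iff_not_dvd hp).mp hh.symm h1
    have hgN : (g : Matrix (Fin n) (Fin n) F) ^ (orderOf g * orderOf h) = 1 := by
      have h1 : g ^ (orderOf g * orderOf h) = 1 := by rw [pow_mul, pow_orderOf_eq_one, one_pow]
      have h2 := congrArg Subtype.val h1
      rw [Matrix.SpecialLinearGroup.coe_pow] at h2
      exact h2
    have hhN : (h : Matrix (Fin n) (Fin n) F) ^ (orderOf g * orderOf h) = 1 := by
      have h1 : h ^ (orderOf g * orderOf h) = 1 := by
        rw [mul_comm, pow_mul, pow_orderOf_eq_one, one_pow]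
      have h2 := congrArg Subtype.val h1
      rw [Matrix.SpecialLinearGroup.coe_pow] at h2
      exact h2
    obtain ⟨S, hS1, hSA⟩ := Cfsg.Agent.Lib.Helper40.SSConj.matrix_conj_det_one
      (g : Matrix (Fin n) (Fin n) F) (h : Matrix (Fin n) (Fin n) F) _ hN hgN hhN hc
    obtain ⟨s, hs⟩ : ∃ s : Matrix.SpecialLinearGroup (Fin n) F,
        (s : Matrix (Fin n) (Fin n) F) = S := ⟨⟨S, hS1⟩, rfl⟩
    refine isConj_iff.mpr ⟨s, ?_⟩
    rw [mul_inv_eq_iff_eq_mul]
    apply Subtype.ext
    show (s : Matrix (Fin n) (Fin n) F) * (g : Matrix (Fin n) (Fin n) F) =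
      (h : Matrix (Fin n) (Fin n) F) * (s : Matrix (Fin n) (Fin n) F)
    rw [hs]
    exact hSA

end Cfsg.Agent.S2388
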