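import Cfsg.Statements.S2384
import Cfsg.Agent.Lib.Helper40.SSConj
import Cfsg.Agent.Lib.Helper40.SSCount
import Cfsg.Agent.S2388
import Mathlib

set_option autoImplicit false
open Cfsg

namespace Cfsg.Agent.S2384

/-- In `SL_n(q)`, `q` a power of the prime `p`, the number of conjugacy classes of elements of order prime to `p` (the semisimple classes) is `q^(n-1)`. -/
theorem result {F : Type*} [Field F] [Fintype F] {q : ℕ} (hq : Fintype.card F = q) (p : ℕ) [Fact p.Prime] [CharP F p] (n : ℕ) (hn : 1 ≤ n) :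
    Nat.card {c : ConjClasses (Matrix.SpecialLinearGroup (Fin n) F) //
      ∃ g : Matrix.SpecialLinearGroup (Fin n) F, ConjClasses.mk g = c ∧ (orderOf g).Coprime p} = q ^ (n - 1) := by
  classical
  subst hq
  obtain ⟨m, rfl⟩ : ∃ m, n = m + 1 := ⟨n - 1, by omega⟩
  have hp : p.Prime := Fact.out
  have hinv : ∀ a b : Matrix.SpecialLinearGroup (Fin (m + 1)) F, IsConj a b →
      (a : Matrix (Fin (m + 1)) (Fin (m + 1)) F).charpoly =
        (b : Matrix (Fin (m + 1)) (Fin (m + 1)) F).charpoly := by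
    intro a b hab
    obtain ⟨c, rfl⟩ := isConj_iff.mp hab
    have h1 : ((c * a * c⁻¹ : Matrix.SpecialLinearGroup (Fin (m + 1)) F) :
        Matrix (Fin (m + 1)) (Fin (m + 1)) F) =
        ((c : Matrix (Fin (m + 1)) (Fin (m + 1)) F) * (a : Matrix (Fin (m + 1)) (Fin (m + 1)) F)) *
          ((c⁻¹ : Matrix.SpecialLinearGroup (Fin (m + 1)) F) :
            Matrix (Fin (m + 1)) (Fin (m + 1)) F) := rfl
    have h2 : ((c⁻¹ : Matrix.SpecialLinearGroup (Fin (m + 1)) F) :
        Matrix (Fin (m + 1)) (Fin (m + 1)) F) * (c : Matrix (Fin (m + 1)) (Fin (m + 1)) F) = 1 :=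
      congrArg Subtype.val (inv_mul_cancel c)
    rw [h1, Matrix.charpoly_mul_comm, ← Matrix.mul_assoc, h2, Matrix.one_mul]
  obtain ⟨cp, hcp⟩ : ∃ cp : ConjClasses (Matrix.SpecialLinearGroup (Fin (m + 1)) F) → Polynomial F,
      ∀ g, cp (ConjClasses.mk g) = (g : Matrix (Fin (m + 1)) (Fin (m + 1)) F).charpoly :=
    ⟨Quotient.lift (fun g : Matrix.SpecialLinearGroup (Fin (m + 1)) F =>
      (g : Matrix (Fin (m + 1)) (Fin (m + 1)) F).charpoly) (fun a b hab => hinv a b hab),
      fun g => rfl⟩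
  have hsq : ((-1 : F) ^ (m + 1)) * ((-1 : F) ^ (m + 1)) = 1 := by
    rw [← mul_pow]
    simp
  have hprop : ∀ g : Matrix.SpecialLinearGroup (Fin (m + 1)) F,
      (g : Matrix (Fin (m + 1)) (Fin (m + 1)) F).charpoly.Monic ∧
      (g : Matrix (Fin (m + 1)) (Fin (m + 1)) F).charpoly.natDegree = m + 1 ∧
      (g : Matrix (Fin (m + 1)) (Fin (m + 1)) F).charpoly.coeff 0 ∈ ({(-1 : F) ^ (m + 1)} : Set F) := by
    intro g
    refine ⟨Matrix.charpoly_monic _, by simp, ?_⟩
    rw [Set.mem_singleton_iff]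
    have h1 := Matrix.det_eq_sign_charpoly_coeff (g : Matrix (Fin (m + 1)) (Fin (m + 1)) F)
    rw [g.2, Fintype.card_fin] at h1
    calc (g : Matrix (Fin (m + 1)) (Fin (m + 1)) F).charpoly.coeff 0
        = ((-1 : F) ^ (m + 1) * (-1 : F) ^ (m + 1)) *
            (g : Matrix (Fin (m + 1)) (Fin (m + 1)) F).charpoly.coeff 0 := by rw [hsq, one_mul]
      _ = (-1 : F) ^ (m + 1) * ((-1 : F) ^ (m + 1) *
            (g : Matrix (Fin (m + 1)) (Fin (m + 1)) F).charpoly.coeff 0) := by ring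
      _ = (-1 : F) ^ (m + 1) := by rw [← h1, mul_one]
  have key : Nat.card {c : ConjClasses (Matrix.SpecialLinearGroup (Fin (m + 1)) F) //
        ∃ g : Matrix.SpecialLinearGroup (Fin (m + 1)) F,
          ConjClasses.mk g = c ∧ (orderOf g).Coprime p} =
      Nat.card {c : Polynomial F // c.Monic ∧ c.natDegree = m + 1 ∧
        c.coeff 0 ∈ ({(-1 : F) ^ (m + 1)} : Set F)} := by
    apply Nat.card_eq_of_bijective
      (fun c => (⟨cp c.1, by
        obtain ⟨g, hg, _⟩ := c.2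
        rw [← hg, hcp]
        exact hprop g⟩ : {c : Polynomial F // c.Monic ∧ c.natDegree = m + 1 ∧
          c.coeff 0 ∈ ({(-1 : F) ^ (m + 1)} : Set F)}))
    constructor
    · rintro ⟨C₁, g₁, rfl, h₁⟩ ⟨C₂, g₂, rfl, h₂⟩ h
      have hc : (g₁ : Matrix (Fin (m + 1)) (Fin (m + 1)) F).charpoly =
          (g₂ : Matrix (Fin (m + 1)) (Fin (m + 1)) F).charpoly := by
        have := congrArg Subtype.val h
        simp only [hcp] at this
        exact this
      apply Subtype.ext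
      show ConjClasses.mk g₁ = ConjClasses.mk g₂
      rw [ConjClasses.mk_eq_mk_iff_isConj]
      exact Cfsg.Agent.S2388.result p (m + 1) g₁ g₂ h₁ h₂ hc
    · rintro ⟨c, hcm, hcd, hc0⟩
      rw [Set.mem_singleton_iff] at hc0
      obtain ⟨G, hG, N, hNpos, hNcop, hGN⟩ :=
        Cfsg.Agent.Lib.Helper40.SSCount.exists_charpoly p (m + 1) c hcm hcd
          (by rw [hc0]; exact pow_ne_zero _ (neg_ne_zero.mpr one_ne_zero))
      have hdet : G.det = 1 := by
        rw [Matrix.det_eq_sign_charpoly_coeff, hG, hc0, Fintype.card_fin, hsq]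
      obtain ⟨u, hu'⟩ : ∃ u : Matrix.SpecialLinearGroup (Fin (m + 1)) F,
          (u : Matrix (Fin (m + 1)) (Fin (m + 1)) F) = G := ⟨⟨G, hdet⟩, rfl⟩
      have huN : u ^ N = 1 := by
        apply Subtype.ext
        rw [Matrix.SpecialLinearGroup.coe_pow, hu']
        exact hGN
      refine ⟨⟨ConjClasses.mk u, u, rfl,
        Nat.Coprime.coprime_dvd_left (orderOf_dvd_of_pow_eq_one huN) hNcop⟩, ?_⟩
      apply Subtype.ext
      show cp (ConjClasses.mk u) = c
      rw [hcp, hu']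
      exact hG
  rw [key, Cfsg.Agent.Lib.Helper40.SSCount.card_monic, Nat.add_sub_cancel]
  have h1 : Nat.card ↥({(-1 : F) ^ (m + 1)} : Set F) = 1 := by
    rw [Nat.card_coe_set_eq, Set.ncard_singleton]
  rw [h1, one_mul]

end Cfsg.Agent.S2384
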