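import Cfsg.Statements.S2385
import Mathlib
import Cfsg.Agent.Lib.Helper40.SpReal
import Cfsg.Agent.S2389

set_option autoImplicit false
open Cfsg

namespace Cfsg.Agent.S2385
/-- In the symplectic group `Sp_{2n}(q)`, `q` a power of the prime `p`, the number of conjugacy classes of elements of order prime to `p` is `q^n`. -/
theorem result {F : Type*} [Field F] [Fintype F] {q : ℕ} (hq : Fintype.card F = q) (p : ℕ) [Fact p.Prime] [CharP F p] (n : ℕ) :
    Nat.card {c : ConjClasses ↥(Matrix.symplecticGroup (Fin n) F) //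
      ∃ g : ↥(Matrix.symplecticGroup (Fin n) F), ConjClasses.mk g = c ∧ (orderOf g).Coprime p} = q ^ n := by
  classical
  have hchoose : ∀ c : {c : ConjClasses ↥(Matrix.symplecticGroup (Fin n) F) //
      ∃ g : ↥(Matrix.symplecticGroup (Fin n) F), ConjClasses.mk g = c ∧ (orderOf g).Coprime p},
      ∃ g : ↥(Matrix.symplecticGroup (Fin n) F), ConjClasses.mk g = c.1 ∧ (orderOf g).Coprime p :=
    fun c => c.2
  choose rep hrep using hchoose
  obtain ⟨Φ, hΦ⟩ : ∃ Φ : {c : ConjClasses ↥(Matrix.symplecticGroup (Fin n) F) //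
      ∃ g : ↥(Matrix.symplecticGroup (Fin n) F), ConjClasses.mk g = c ∧ (orderOf g).Coprime p} →
      (Fin n → F), ∀ c i, Φ c i =
        ((rep c : ↥(Matrix.symplecticGroup (Fin n) F)) :
          Matrix (Fin n ⊕ Fin n) (Fin n ⊕ Fin n) F).charpoly.coeff (i + 1) :=
    ⟨fun c i => ((rep c : ↥(Matrix.symplecticGroup (Fin n) F)) :
      Matrix (Fin n ⊕ Fin n) (Fin n ⊕ Fin n) F).charpoly.coeff (i + 1), fun _ _ => rfl⟩
  have hbij : Function.Bijective Φ := by
    constructor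
    · intro c c' hcc
      apply Subtype.ext
      rw [← (hrep c).1, ← (hrep c').1, ConjClasses.mk_eq_mk_iff_isConj]
      apply Cfsg.Agent.S2389.result p n (rep c) (rep c') (hrep c).2 (hrep c').2
      apply Cfsg.Agent.Lib.Helper40.SpReal.charpoly_eq_of_coeff _ _ (rep c).2 (rep c').2
      intro i
      rw [← hΦ, ← hΦ, hcc]
    · intro a
      obtain ⟨M, hM, hMa⟩ := Cfsg.Agent.Lib.Helper40.SpReal.exists_symp_coeffs n a
      obtain ⟨g, hg1, hg2⟩ := Cfsg.Agent.Lib.Helper40.SpReal.exists_pprime p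
        (⟨M, hM⟩ : ↥(Matrix.symplecticGroup (Fin n) F))
      obtain ⟨c₀, hc₀⟩ : ∃ c₀ : {c : ConjClasses ↥(Matrix.symplecticGroup (Fin n) F) //
          ∃ g : ↥(Matrix.symplecticGroup (Fin n) F), ConjClasses.mk g = c ∧ (orderOf g).Coprime p},
          c₀ = ⟨ConjClasses.mk g, g, rfl, hg1⟩ := ⟨_, rfl⟩
      refine ⟨c₀, ?_⟩
      have hconj : IsConj (rep c₀) g :=
        ConjClasses.mk_eq_mk_iff_isConj.mp (by rw [(hrep c₀).1, hc₀])
      obtain ⟨x, hx⟩ := isConj_iff.mp hconj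
      have hcp : ((rep c₀ : ↥(Matrix.symplecticGroup (Fin n) F)) :
          Matrix (Fin n ⊕ Fin n) (Fin n ⊕ Fin n) F).charpoly =
          (g : Matrix (Fin n ⊕ Fin n) (Fin n ⊕ Fin n) F).charpoly := by
        have h1 : (g : Matrix (Fin n ⊕ Fin n) (Fin n ⊕ Fin n) F) =
            (x : Matrix (Fin n ⊕ Fin n) (Fin n ⊕ Fin n) F) *
            ((rep c₀ : ↥(Matrix.symplecticGroup (Fin n) F)) :
              Matrix (Fin n ⊕ Fin n) (Fin n ⊕ Fin n) F) *
            ((x⁻¹ : ↥(Matrix.symplecticGroup (Fin n) F)) :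
              Matrix (Fin n ⊕ Fin n) (Fin n ⊕ Fin n) F) := congrArg Subtype.val hx.symm
        have h2 : ((x⁻¹ : ↥(Matrix.symplecticGroup (Fin n) F)) :
            Matrix (Fin n ⊕ Fin n) (Fin n ⊕ Fin n) F) *
            (x : Matrix (Fin n ⊕ Fin n) (Fin n ⊕ Fin n) F) = 1 :=
          congrArg Subtype.val (inv_mul_cancel x)
        rw [h1, Matrix.charpoly_mul_comm, ← Matrix.mul_assoc, h2, Matrix.one_mul]
      funext i
      rw [hΦ, hcp, hg2, ← hMa i]
  rw [Nat.card_eq_of_bijective Φ hbij, Nat.card_eq_fintype_card, Fintype.card_fun, Fintype.card_fin,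
    hq]

end Cfsg.Agent.S2385
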