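import Cfsg.Statements.S2386
import Mathlib
import Cfsg.Agent.Lib.Helper40.SUCount

set_option autoImplicit false
open Cfsg

namespace Cfsg.Agent.S2386
/-- In the special unitary group `SU_n(q)` (matrices of determinant one over the field with `q²` elements preserving the standard Hermitian form), `q` a power of the prime `p`, the number of conjugacy classes of elements of order prime to `p` is `q^(n-1)`. -/
theorem result {F : Type*} [Field F] [Fintype F] {q : ℕ} (hF : Fintype.card F = q ^ 2) (p : ℕ) [Fact p.Prime] [CharP F p] (n : ℕ) (hn : 1 ≤ n) :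
    Nat.card {c : ConjClasses ↥(Cfsg.SU n F q) // ∃ g : ↥(Cfsg.SU n F q), ConjClasses.mk g = c ∧ (orderOf g).Coprime p} = q ^ (n - 1) := by
  classical
  obtain ⟨φ, hφ, hφ2, l, hl⟩ := Cfsg.Agent.Lib.Helper40.HermAdj.exists_phi hF
  obtain ⟨gm, hgm⟩ : ∃ gm : ↥(Cfsg.SU n F q) →* Matrix (Fin n) (Fin n) F,
      ∀ g, gm g = ((g : Matrix.SpecialLinearGroup (Fin n) F) : Matrix (Fin n) (Fin n) F) :=
    ⟨(Cfsg.slToMat n F).comp (Subgroup.subtype _), fun _ => rfl⟩
  apply Cfsg.Agent.Lib.Helper40.SUCount.su_count_core hF φ hφ2 l hl p hn gm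
  · intro a b hab
    rw [hgm, hgm] at hab
    exact Subtype.ext (Subtype.ext hab)
  · intro g
    rw [hgm]
    exact (Cfsg.Agent.Lib.Helper40.HermAdj.preserves_iff φ hφ _).mp g.2
  · intro g
    rw [hgm]
    exact g.1.2
  · intro U hU1 hUdet
    obtain ⟨us, hus⟩ : ∃ us : Matrix.SpecialLinearGroup (Fin n) F,
        (us : Matrix (Fin n) (Fin n) F) = U := ⟨⟨U, hUdet⟩, rfl⟩
    have husm : us ∈ Cfsg.SU n F q := by
      have h1 : ∀ u v, Cfsg.hermForm n F q (Matrix.mulVec (us : Matrix (Fin n) (Fin n) F) u)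
          (Matrix.mulVec (us : Matrix (Fin n) (Fin n) F) v) = Cfsg.hermForm n F q u v := by
        rw [Cfsg.Agent.Lib.Helper40.HermAdj.preserves_iff φ hφ, hus]
        exact hU1
      exact h1
    refine ⟨⟨us, husm⟩, ?_⟩
    rw [hgm]
    exact hus

end Cfsg.Agent.S2386
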