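import Cfsg.Statements.S2387
import Cfsg.Agent.Lib.Helper40.SSConj
import Cfsg.Agent.Lib.Helper40.SSCount
import Mathlib

set_option autoImplicit false
open scoped MatrixGroups
open Cfsg

namespace Cfsg.Agent.S2387

/-- In `GL_n(q)` with `n ≥ 1`, `q` a power of the prime `p`, the number of conjugacy classes of elements of order prime to `p` (diagonalisable over the algebraic closure; determined by the characteristic polynomial) is `(q - 1) q^(n-1)`. -/
theorem result {F : Type*} [Field F] [Fintype F] {q : ℕ} (hq : Fintype.card F = q) (p : ℕ) [Fact p.Prime] [CharP F p] (n : ℕ) (hn : 1 ≤ n) :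
    Nat.card {c : ConjClasses (GL (Fin n) F) // ∃ g : GL (Fin n) F, ConjClasses.mk g = c ∧ (orderOf g).Coprime p} = (q - 1) * q ^ (n - 1) := by
  classical
  subst hq
  obtain ⟨m, rfl⟩ : ∃ m, n = m + 1 := ⟨n - 1, by omega⟩
  have hp : p.Prime := Fact.out
  have hinv : ∀ a b : GL (Fin (m + 1)) F, IsConj a b →
      (a : Matrix (Fin (m + 1)) (Fin (m + 1)) F).charpoly =
        (b : Matrix (Fin (m + 1)) (Fin (m + 1)) F).charpoly := by
    intro a b hab
    obtain ⟨c, rfl⟩ := isConj_iff.mp hab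
    have h1 : ((c * a * c⁻¹ : GL (Fin (m + 1)) F) : Matrix (Fin (m + 1)) (Fin (m + 1)) F) =
        (c : Matrix (Fin (m + 1)) (Fin (m + 1)) F) * (a : Matrix (Fin (m + 1)) (Fin (m + 1)) F) *
          ((c⁻¹ : GL (Fin (m + 1)) F) : Matrix (Fin (m + 1)) (Fin (m + 1)) F) := rfl
    rw [h1, Matrix.coe_units_inv]
    exact (Matrix.charpoly_units_conj c (a : Matrix (Fin (m + 1)) (Fin (m + 1)) F)).symm
  obtain ⟨cp, hcp⟩ : ∃ cp : ConjClasses (GL (Fin (m + 1)) F) → Polynomial F,
      ∀ g, cp (ConjClasses.mk g) = (g : Matrix (Fin (m + 1)) (Fin (m + 1)) F).charpoly :=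
    ⟨Quotient.lift (fun g : GL (Fin (m + 1)) F =>
      (g : Matrix (Fin (m + 1)) (Fin (m + 1)) F).charpoly) (fun a b hab => hinv a b hab),
      fun g => rfl⟩
  have hprop : ∀ g : GL (Fin (m + 1)) F,
      (g : Matrix (Fin (m + 1)) (Fin (m + 1)) F).charpoly.Monic ∧
      (g : Matrix (Fin (m + 1)) (Fin (m + 1)) F).charpoly.natDegree = m + 1 ∧
      (g : Matrix (Fin (m + 1)) (Fin (m + 1)) F).charpoly.coeff 0 ∈ {x : F | x ≠ 0} := by
    intro g
    refine ⟨Matrix.charpoly_monic _, by simp, ?_⟩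
    show _ ≠ 0
    intro h0
    have h1 := Matrix.det_eq_sign_charpoly_coeff (g : Matrix (Fin (m + 1)) (Fin (m + 1)) F)
    rw [h0, mul_zero] at h1
    have h2 : IsUnit (g : Matrix (Fin (m + 1)) (Fin (m + 1)) F).det :=
      (Matrix.isUnit_iff_isUnit_det _).mp g.isUnit
    rw [h1] at h2
    exact not_isUnit_zero h2
  have key : Nat.card {c : ConjClasses (GL (Fin (m + 1)) F) //
        ∃ g : GL (Fin (m + 1)) F, ConjClasses.mk g = c ∧ (orderOf g).Coprime p} =
      Nat.card {c : Polynomial F // c.Monic ∧ c.natDegree = m + 1 ∧ c.coeff 0 ∈ {x : F | x ≠ 0}} := by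
    apply Nat.card_eq_of_bijective
      (fun c => (⟨cp c.1, by
        obtain ⟨g, hg, _⟩ := c.2
        rw [← hg, hcp]
        exact hprop g⟩ : {c : Polynomial F // c.Monic ∧ c.natDegree = m + 1 ∧
          c.coeff 0 ∈ {x : F | x ≠ 0}}))
    constructor
    · rintro ⟨C₁, g₁, rfl, h₁⟩ ⟨C₂, g₂, rfl, h₂⟩ h
      have hc : (g₁ : Matrix (Fin (m + 1)) (Fin (m + 1)) F).charpoly =
          (g₂ : Matrix (Fin (m + 1)) (Fin (m + 1)) F).charpoly := by
        have := congrArg Subtype.val h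
        simp only [hcp] at this
        exact this
      apply Subtype.ext
      show ConjClasses.mk g₁ = ConjClasses.mk g₂
      rw [ConjClasses.mk_eq_mk_iff_isConj]
      have hN : ((orderOf g₁ * orderOf g₂ : ℕ) : F) ≠ 0 := by
        rw [Ne, CharP.cast_eq_zero_iff F p]
        intro hdvd
        rcases hp.dvd_mul.mp hdvd with h3 | h3
        · exact (Nat.Prime.coprime_iff_not_dvd hp).mp h₁.symm h3
        · exact (Nat.Prime.coprime_iff_not_dvd hp).mp h₂.symm h3
      have hgN : (g₁ : Matrix (Fin (m + 1)) (Fin (m + 1)) F) ^ (orderOf g₁ * orderOf g₂) = 1 := by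
        have h3 : g₁ ^ (orderOf g₁ * orderOf g₂) = 1 := by rw [pow_mul, pow_orderOf_eq_one, one_pow]
        have h4 := congrArg Units.val h3
        rw [Units.val_pow_eq_pow_val] at h4
        exact h4
      have hhN : (g₂ : Matrix (Fin (m + 1)) (Fin (m + 1)) F) ^ (orderOf g₁ * orderOf g₂) = 1 := by
        have h3 : g₂ ^ (orderOf g₁ * orderOf g₂) = 1 := by
          rw [mul_comm, pow_mul, pow_orderOf_eq_one, one_pow]
        have h4 := congrArg Units.val h3
        rw [Units.val_pow_eq_pow_val] at h4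
        exact h4
      obtain ⟨P, Q, hPQ, hQP, hPA⟩ := Cfsg.Agent.Lib.Helper40.SSConj.matrix_conj
        (g₁ : Matrix (Fin (m + 1)) (Fin (m + 1)) F) (g₂ : Matrix (Fin (m + 1)) (Fin (m + 1)) F)
        _ hN hgN hhN hc
      obtain ⟨u, hu⟩ : ∃ u : GL (Fin (m + 1)) F,
          (u : Matrix (Fin (m + 1)) (Fin (m + 1)) F) = P := ⟨⟨P, Q, hPQ, hQP⟩, rfl⟩
      refine isConj_iff.mpr ⟨u, ?_⟩
      rw [mul_inv_eq_iff_eq_mul]
      apply Units.ext
      show (u : Matrix (Fin (m + 1)) (Fin (m + 1)) F) * (g₁ : Matrix (Fin (m + 1)) (Fin (m + 1)) F) =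
        (g₂ : Matrix (Fin (m + 1)) (Fin (m + 1)) F) * (u : Matrix (Fin (m + 1)) (Fin (m + 1)) F)
      rw [hu]
      exact hPA
    · rintro ⟨c, hcm, hcd, hc0⟩
      obtain ⟨G, hG, N, hNpos, hNcop, hGN⟩ :=
        Cfsg.Agent.Lib.Helper40.SSCount.exists_charpoly p (m + 1) c hcm hcd hc0
      have hu : IsUnit G := IsUnit.of_pow_eq_one hGN hNpos.ne'
      obtain ⟨u, hu'⟩ : ∃ u : GL (Fin (m + 1)) F,
          (u : Matrix (Fin (m + 1)) (Fin (m + 1)) F) = G := ⟨hu.unit, rfl⟩
      have huN : u ^ N = 1 := by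
        apply Units.ext
        rw [Units.val_pow_eq_pow_val, hu']
        exact hGN
      refine ⟨⟨ConjClasses.mk u, u, rfl,
        Nat.Coprime.coprime_dvd_left (orderOf_dvd_of_pow_eq_one huN) hNcop⟩, ?_⟩
      apply Subtype.ext
      show cp (ConjClasses.mk u) = c
      rw [hcp, hu']
      exact hG
  rw [key, Cfsg.Agent.Lib.Helper40.SSCount.card_monic, Nat.add_sub_cancel]
  congr 1
  exact (Nat.card_congr unitsEquivNeZero.symm).trans
    ((Nat.card_units F).trans (by rw [Nat.card_eq_fintype_card]))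

end Cfsg.Agent.S2387
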