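import Cfsg.Statements.S2390
import Mathlib
import Cfsg.Agent.Lib.Helper40.UnitDet

set_option autoImplicit false
open Cfsg

namespace Cfsg.Agent.S2390
/-- In the special unitary group `SU_n(q)` (inside `SL_n` over the field with `q²` elements), `q` a power of the prime `p`, two elements of order prime to `p` with the same characteristic polynomial are conjugate in `SU_n(q)`. -/
theorem result {F : Type*} [Field F] [Fintype F] {q : ℕ} (hF : Fintype.card F = q ^ 2) (p : ℕ) [Fact p.Prime] [CharP F p] (n : ℕ)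
    (g h : ↥(Cfsg.SU n F q)) (hg : (orderOf g).Coprime p) (hh : (orderOf h).Coprime p)
    (hc : ((g : Matrix.SpecialLinearGroup (Fin n) F) : Matrix (Fin n) (Fin n) F).charpoly =
      ((h : Matrix.SpecialLinearGroup (Fin n) F) : Matrix (Fin n) (Fin n) F).charpoly) : IsConj g h := by
  classical
  have hpp : p.Prime := Fact.out
  obtain ⟨φ, hφ, hφ2, l, hl⟩ := Cfsg.Agent.Lib.Helper40.HermAdj.exists_phi hF
  have hN : ((orderOf g * orderOf h : ℕ) : F) ≠ 0 := by
    intro h0
    have h1 := (CharP.cast_eq_zero_iff F p (orderOf g * orderOf h)).mp h0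
    rcases (Nat.Prime.dvd_mul hpp).mp h1 with h2 | h2
    · have h3 : p ∣ Nat.gcd (orderOf g) p := Nat.dvd_gcd h2 dvd_rfl
      rw [Nat.Coprime.gcd_eq_one hg] at h3
      exact hpp.one_lt.ne' (Nat.dvd_one.mp h3)
    · have h3 : p ∣ Nat.gcd (orderOf h) p := Nat.dvd_gcd h2 dvd_rfl
      rw [Nat.Coprime.gcd_eq_one hh] at h3
      exact hpp.one_lt.ne' (Nat.dvd_one.mp h3)
  have hgN : ((g : Matrix.SpecialLinearGroup (Fin n) F) : Matrix (Fin n) (Fin n) F) ^
      (orderOf g * orderOf h) = 1 := by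
    have h1 : g ^ (orderOf g * orderOf h) = 1 := by rw [pow_mul, pow_orderOf_eq_one, one_pow]
    have h2 := congrArg (fun x : ↥(Cfsg.SU n F q) =>
      ((x : Matrix.SpecialLinearGroup (Fin n) F) : Matrix (Fin n) (Fin n) F)) h1
    simpa using h2
  have hhN : ((h : Matrix.SpecialLinearGroup (Fin n) F) : Matrix (Fin n) (Fin n) F) ^
      (orderOf g * orderOf h) = 1 := by
    have h1 : h ^ (orderOf g * orderOf h) = 1 := by
      rw [mul_comm, pow_mul, pow_orderOf_eq_one, one_pow]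
    have h2 := congrArg (fun x : ↥(Cfsg.SU n F q) =>
      ((x : Matrix.SpecialLinearGroup (Fin n) F) : Matrix (Fin n) (Fin n) F)) h1
    simpa using h2
  have hgU : Cfsg.Agent.Lib.Helper40.HermAdj.adj φ
      ((g : Matrix.SpecialLinearGroup (Fin n) F) : Matrix (Fin n) (Fin n) F) *
      ((g : Matrix.SpecialLinearGroup (Fin n) F) : Matrix (Fin n) (Fin n) F) = 1 :=
    (Cfsg.Agent.Lib.Helper40.HermAdj.preserves_iff φ hφ _).mp g.2
  have hhU : Cfsg.Agent.Lib.Helper40.HermAdj.adj φ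
      ((h : Matrix.SpecialLinearGroup (Fin n) F) : Matrix (Fin n) (Fin n) F) *
      ((h : Matrix.SpecialLinearGroup (Fin n) F) : Matrix (Fin n) (Fin n) F) = 1 :=
    (Cfsg.Agent.Lib.Helper40.HermAdj.preserves_iff φ hφ _).mp h.2
  obtain ⟨U, hU1, hUdet, hUg⟩ := Cfsg.Agent.Lib.Helper40.UnitDet.su_conj_core φ hφ2 l hl
    ((g : Matrix.SpecialLinearGroup (Fin n) F) : Matrix (Fin n) (Fin n) F)
    ((h : Matrix.SpecialLinearGroup (Fin n) F) : Matrix (Fin n) (Fin n) F) hgU hhU
    (orderOf g * orderOf h) hN hgN hhN hc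
  obtain ⟨us, hus⟩ : ∃ us : Matrix.SpecialLinearGroup (Fin n) F,
      (us : Matrix (Fin n) (Fin n) F) = U := ⟨⟨U, hUdet⟩, rfl⟩
  have husm : us ∈ Cfsg.SU n F q := by
    have h1 : ∀ u v, Cfsg.hermForm n F q (Matrix.mulVec (us : Matrix (Fin n) (Fin n) F) u)
        (Matrix.mulVec (us : Matrix (Fin n) (Fin n) F) v) = Cfsg.hermForm n F q u v := by
      rw [Cfsg.Agent.Lib.Helper40.HermAdj.preserves_iff φ hφ, hus]
      exact hU1
    exact h1
  have hconj : (⟨us, husm⟩ : ↥(Cfsg.SU n F q)) * g = h * ⟨us, husm⟩ := by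
    apply Subtype.ext
    apply Subtype.ext
    show (us : Matrix (Fin n) (Fin n) F) *
        ((g : Matrix.SpecialLinearGroup (Fin n) F) : Matrix (Fin n) (Fin n) F) =
      ((h : Matrix.SpecialLinearGroup (Fin n) F) : Matrix (Fin n) (Fin n) F) *
        (us : Matrix (Fin n) (Fin n) F)
    rw [hus]
    exact hUg
  refine isConj_iff.mpr ⟨⟨us, husm⟩, ?_⟩
  rw [hconj, mul_inv_cancel_right]

end Cfsg.Agent.S2390
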