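import Cfsg.Statements.S2391
import Mathlib

set_option autoImplicit false
open Cfsg

namespace Cfsg.Agent.S2391

section
variable {F : Type*} [Field F] {n : ℕ} (U : Subgroup (Matrix.SpecialLinearGroup (Fin n) F))

/-- Vectors moved by `U` into `W`. -/
def next (W : Submodule F (Fin n → F)) : Submodule F (Fin n → F) where
  carrier := {v | ∀ u ∈ U, (u : Matrix (Fin n) (Fin n) F).mulVec v - v ∈ W}
  zero_mem' := fun u _ => by simp
  add_mem' := fun {v w} hv hw u hu => by
    have : (u : Matrix (Fin n) (Fin n) F).mulVec (v + w) - (v + w) =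
        ((u : Matrix (Fin n) (Fin n) F).mulVec v - v) +
          ((u : Matrix (Fin n) (Fin n) F).mulVec w - w) := by
      rw [Matrix.mulVec_add]; abel
    rw [this]
    exact W.add_mem (hv u hu) (hw u hu)
  smul_mem' := fun c v hv u hu => by
    have : (u : Matrix (Fin n) (Fin n) F).mulVec (c • v) - c • v =
        c • ((u : Matrix (Fin n) (Fin n) F).mulVec v - v) := by
      rw [Matrix.mulVec_smul, smul_sub]
    rw [this]
    exact W.smul_mem c (hv u hu)

theorem next_mono {W W' : Submodule F (Fin n → F)} (h : W ≤ W') : next U W ≤ next U W' :=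
  fun _ hv u hu => h (hv u hu)

/-- The ascending chain of iterated fixed points. -/
def chain : ℕ → Submodule F (Fin n → F)
  | 0 => ⊥
  | i + 1 => next U (chain i)

theorem chain_le_succ (i : ℕ) : chain U i ≤ chain U (i + 1) := by
  induction i with
  | zero => exact bot_le
  | succ i ih => exact next_mono U ih

theorem chain_stable (i : ℕ) (u : Matrix.SpecialLinearGroup (Fin n) F) (hu : u ∈ U)
    (v : Fin n → F) (hv : v ∈ chain U i) :
    (u : Matrix (Fin n) (Fin n) F).mulVec v ∈ chain U i := by
  cases i with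
  | zero =>
    have : v = 0 := (Submodule.mem_bot F).mp hv
    rw [this, Matrix.mulVec_zero]
    exact Submodule.zero_mem _
  | succ i =>
    have h1 : (u : Matrix (Fin n) (Fin n) F).mulVec v - v ∈ chain U (i + 1) :=
      chain_le_succ U i (hv u hu)
    have := Submodule.add_mem _ h1 hv
    simpa using this

theorem exists_fixed [Fintype F] (p : ℕ) [Fact p.Prime] [CharP F p] (hU : IsPGroup p ↥U)
    (W : Submodule F (Fin n → F))
    (hW : ∀ u ∈ U, ∀ v ∈ W, (u : Matrix (Fin n) (Fin n) F).mulVec v ∈ W) (hne : W ≠ ⊤) :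
    ∃ v, v ∉ W ∧ ∀ u ∈ U, (u : Matrix (Fin n) (Fin n) F).mulVec v - v ∈ W := by
  have hcomap : ∀ u : U, W ≤ W.comap (Matrix.mulVecLin (u.1 : Matrix (Fin n) (Fin n) F)) :=
    fun u v hv => hW u.1 u.2 v hv
  letI : MulAction U ((Fin n → F) ⧸ W) :=
    { smul := fun u x =>
        Submodule.mapQ W W (Matrix.mulVecLin (u.1 : Matrix (Fin n) (Fin n) F)) (hcomap u) x
      one_smul := by
        intro x
        obtain ⟨v, rfl⟩ := Submodule.Quotient.mk_surjective W x
        show Submodule.mapQ W W _ _ (Submodule.Quotient.mk v) = _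
        rw [Submodule.mapQ_apply]
        simp
      mul_smul := by
        intro u u' x
        obtain ⟨v, rfl⟩ := Submodule.Quotient.mk_surjective W x
        show Submodule.mapQ W W _ _ (Submodule.Quotient.mk v) =
          Submodule.mapQ W W _ _ (Submodule.mapQ W W _ _ (Submodule.Quotient.mk v))
        rw [Submodule.mapQ_apply, Submodule.mapQ_apply, Submodule.mapQ_apply]
        simp [Matrix.mulVec_mulVec] }
  have hsmul : ∀ (u : U) (v : Fin n → F), u • (Submodule.Quotient.mk v : (Fin n → F) ⧸ W) =
      Submodule.Quotient.mk ((u.1 : Matrix (Fin n) (Fin n) F).mulVec v) := fun u v => rfl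
  haveI : Nontrivial ((Fin n → F) ⧸ W) := Submodule.Quotient.nontrivial_iff.mpr hne
  have hdvd : p ∣ Nat.card ((Fin n → F) ⧸ W) := by
    obtain ⟨x, hx⟩ := exists_ne (0 : (Fin n → F) ⧸ W)
    have hpx : p • x = 0 := by
      have : (p : F) • x = 0 := by rw [CharP.cast_eq_zero, zero_smul]
      rwa [Nat.cast_smul_eq_nsmul] at this
    have : addOrderOf x = p := addOrderOf_eq_prime hpx hx
    rw [← this]
    exact addOrderOf_dvd_natCard x
  have h0 : (0 : (Fin n → F) ⧸ W) ∈ MulAction.fixedPoints U ((Fin n → F) ⧸ W) := by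
    intro u
    show Submodule.mapQ W W _ _ 0 = 0
    exact map_zero _
  obtain ⟨b, hb, hb0⟩ := hU.exists_fixed_point_of_prime_dvd_card_of_fixed_point _ hdvd h0
  obtain ⟨v, rfl⟩ := Submodule.Quotient.mk_surjective W b
  refine ⟨v, ?_, ?_⟩
  · intro hv
    exact hb0 ((Submodule.Quotient.mk_eq_zero W).mpr hv).symm
  · intro u hu
    have := hb ⟨u, hu⟩
    rw [hsmul] at this
    exact (Submodule.Quotient.eq W).mp this

end

/-- The Borel–Tits property of `SL_n(q)` in flag form: for a field `F` of characteristic `p` with finitely many elements and a non-trivial `p`-subgroup `U` of `SL_n(F)`, there is a flag `0 = V₀ < V₁ < ⋯ < V_{k+1} = F^n` with at least one proper non-zero member such that every element of the normaliser of `U` maps each `V_i` onto itself and every element of `U` acts trivially on each quotient `V_{i+1}/V_i` (so the normaliser lies in the parabolic subgroup of the flag and `U` in its unipotent radical). -/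
theorem result {F : Type*} [Field F] [Fintype F] (p : ℕ) [Fact p.Prime] [CharP F p] (n : ℕ)
    (U : Subgroup (Matrix.SpecialLinearGroup (Fin n) F)) (hU : IsPGroup p ↥U) (hne : U ≠ ⊥) :
    ∃ (k : ℕ) (V : Fin (k + 2) → Submodule F (Fin n → F)), 1 ≤ k ∧ StrictMono V ∧ V 0 = ⊥ ∧ V (Fin.last (k + 1)) = ⊤ ∧
      (∀ g ∈ Subgroup.normalizer (U : Set (Matrix.SpecialLinearGroup (Fin n) F)), ∀ i, (V i).map (Matrix.mulVecLin (g : Matrix (Fin n) (Fin n) F)) = V i) ∧
      (∀ u ∈ U, ∀ i : Fin (k + 1), ∀ v ∈ V i.succ, (u : Matrix (Fin n) (Fin n) F).mulVec v - v ∈ V (Fin.castSucc i)) := by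
  classical
  obtain ⟨W, hWdef⟩ : ∃ W : ℕ → Submodule F (Fin n → F), W = chain U := ⟨_, rfl⟩
  have hW0 : W 0 = ⊥ := by rw [hWdef]; rfl
  have hWs : ∀ i, W (i + 1) = next U (W i) := by intro i; rw [hWdef]; rfl
  have hle : ∀ i, W i ≤ W (i + 1) := by intro i; rw [hWdef]; exact chain_le_succ U i
  have hstrict : ∀ i, W i ≠ ⊤ → W i < W (i + 1) := by
    intro i hi
    obtain ⟨v, hv, hv'⟩ := exists_fixed U p hU (W i)
      (fun u hu v hv => by rw [hWdef] at hv ⊢; exact chain_stable U i u hu v hv) hi
    refine lt_of_le_of_ne (hle i) (fun h => hv ?_)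
    rw [h, hWs]
    exact hv'
  have hex : ∃ m, W m = ⊤ := by
    by_contra hcon
    push Not at hcon
    have hrank : ∀ i, i ≤ Module.finrank F (W i) := by
      intro i
      induction i with
      | zero => exact Nat.zero_le _
      | succ i ih =>
        have := Submodule.finrank_lt_finrank_of_lt (hstrict i (hcon i))
        omega
    have h1 := hrank (n + 1)
    have h2 : Module.finrank F (W (n + 1)) ≤ n := by
      have := Submodule.finrank_le (W (n + 1))
      simpa using this
    omega
  have hm : W (Nat.find hex) = ⊤ := Nat.find_spec hex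
  have hlt : ∀ i, i < Nat.find hex → W i ≠ ⊤ := fun i hi => Nat.find_min hex hi
  have hm2 : 2 ≤ Nat.find hex := by
    by_contra hcon
    have hm01 : Nat.find hex = 0 ∨ Nat.find hex = 1 := by omega
    have hW1 : W 1 = ⊤ := by
      rcases hm01 with h | h
      · have h0 : W 0 = ⊤ := by rw [← h]; exact hm
        have := hle 0
        rw [h0] at this
        exact top_le_iff.mp this
      · rw [← h]; exact hm
    apply hne
    rw [Subgroup.eq_bot_iff_forall]
    intro u hu
    apply Subtype.ext
    apply Matrix.mulVec_injective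
    funext v
    have hv : v ∈ W 1 := by rw [hW1]; exact Submodule.mem_top
    rw [hWs 0, hW0] at hv
    have h3 : (u : Matrix (Fin n) (Fin n) F).mulVec v - v ∈ (⊥ : Submodule F (Fin n → F)) :=
      hv u hu
    rw [Submodule.mem_bot, sub_eq_zero] at h3
    rw [h3]
    exact (Matrix.one_mulVec v).symm
  obtain ⟨k, hk⟩ : ∃ k, Nat.find hex = k + 1 := ⟨Nat.find hex - 1, by omega⟩
  have hN : ∀ g ∈ Subgroup.normalizer (U : Set (Matrix.SpecialLinearGroup (Fin n) F)),
      ∀ i : ℕ, ∀ v ∈ W i, (g : Matrix (Fin n) (Fin n) F).mulVec v ∈ W i := by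
    intro g hg i
    induction i with
    | zero =>
      intro v hv
      rw [hW0] at hv ⊢
      have : v = 0 := (Submodule.mem_bot F).mp hv
      rw [this, Matrix.mulVec_zero]
      exact Submodule.zero_mem _
    | succ i ih =>
      intro v hv
      rw [hWs] at hv ⊢
      intro u hu
      have hu' : g⁻¹ * u * g ∈ U := by
        have h1 := Subgroup.mem_normalizer_iff.mp hg (g⁻¹ * u * g)
        rw [h1]
        have h2 : g * (g⁻¹ * u * g) * g⁻¹ = u := by group
        rw [h2]
        exact hu
      have h1 := ih _ (hv _ hu')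
      have e1 : (u : Matrix (Fin n) (Fin n) F) * (g : Matrix (Fin n) (Fin n) F) =
          (g : Matrix (Fin n) (Fin n) F) *
            ((g⁻¹ * u * g : Matrix.SpecialLinearGroup (Fin n) F) : Matrix (Fin n) (Fin n) F) := by
        have h2 : u * g = g * (g⁻¹ * u * g) := by group
        exact congrArg Subtype.val h2
      rw [Matrix.mulVec_sub, Matrix.mulVec_mulVec, ← e1, ← Matrix.mulVec_mulVec] at h1
      exact h1
  refine ⟨k, fun i => W i.val, by omega, ?_, hW0, ?_, ?_, ?_⟩
  · apply Fin.strictMono_iff_lt_succ.mpr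
    intro i
    show W (i.castSucc).val < W (i.succ).val
    rw [Fin.val_castSucc, Fin.val_succ]
    exact hstrict i.val (hlt i.val (by have := i.isLt; omega))
  · show W (Fin.last (k + 1)).val = ⊤
    rw [Fin.val_last, ← hk]
    exact hm
  · intro g hg i
    apply le_antisymm
    · rintro _ ⟨v, hv, rfl⟩
      exact hN g hg i.val v hv
    · intro v hv
      refine ⟨(g⁻¹ : Matrix.SpecialLinearGroup (Fin n) F).1.mulVec v,
        hN g⁻¹ (inv_mem hg) i.val v hv, ?_⟩
      show (g : Matrix (Fin n) (Fin n) F).mulVec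
        ((g⁻¹ : Matrix.SpecialLinearGroup (Fin n) F).1.mulVec v) = v
      have e2 : (g : Matrix (Fin n) (Fin n) F) *
          ((g⁻¹ : Matrix.SpecialLinearGroup (Fin n) F) : Matrix (Fin n) (Fin n) F) = 1 := by
        have h2 : g * g⁻¹ = 1 := mul_inv_cancel g
        exact congrArg Subtype.val h2
      rw [Matrix.mulVec_mulVec, e2, Matrix.one_mulVec]
  · intro u hu i v hv
    have hv' : v ∈ W (i.val + 1) := hv
    rw [hWs] at hv'
    exact hv' u hu

end Cfsg.Agent.S2391
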