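import Cfsg.Statements.S2392
import Mathlib
import Cfsg.Agent.Lib.Helper40.CharIdem

set_option autoImplicit false
open scoped MatrixGroups
open Cfsg

namespace Cfsg.Agent.S2392

open Matrix

section mat
variable {F : Type*} [Field F] {m : ℕ}

/-- The matrix with first row `(0, v)` and zero elsewhere. -/
def Nmat (v : Fin m → F) : Matrix (Fin (m + 1)) (Fin (m + 1)) F :=
  ∑ j : Fin m, Matrix.single 0 j.succ (v j)

theorem Nmat_add (v w : Fin m → F) : Nmat (v + w) = Nmat v + Nmat w := by
  unfold Nmat
  rw [← Finset.sum_add_distrib]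
  apply Finset.sum_congr rfl
  intro j _
  rw [Pi.add_apply, Matrix.single_add]

theorem Nmat_zero : Nmat (0 : Fin m → F) = 0 := by
  unfold Nmat
  apply Finset.sum_eq_zero
  intro j _
  rw [Pi.zero_apply, Matrix.single_zero]

theorem Nmat_single (l : Fin m) (c : F) : Nmat (Pi.single l c) = Matrix.single 0 l.succ c := by
  unfold Nmat
  rw [Finset.sum_eq_single l]
  · rw [Pi.single_eq_same]
  · intro j _ hj
    rw [Pi.single_eq_of_ne hj, Matrix.single_zero]
  · intro h
    exact absurd (Finset.mem_univ l) h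

theorem Nmat_mul (v w : Fin m → F) : Nmat v * Nmat w = 0 := by
  unfold Nmat
  rw [Matrix.sum_mul]
  apply Finset.sum_eq_zero
  intro i _
  rw [Matrix.mul_sum]
  apply Finset.sum_eq_zero
  intro j _
  exact Matrix.single_mul_single_of_ne _ 0 i.succ 0 (Fin.succ_ne_zero i) _

theorem single_mul_Nmat (k l : Fin m) (t : F) (v : Fin m → F) :
    Matrix.single k.succ l.succ t * Nmat v = 0 := by
  unfold Nmat
  rw [Matrix.mul_sum]
  apply Finset.sum_eq_zero
  intro j _
  exact Matrix.single_mul_single_of_ne _ k.succ l.succ 0 (Fin.succ_ne_zero l) _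

theorem Nmat_mul_single (k l : Fin m) (t : F) (v : Fin m → F) :
    Nmat v * Matrix.single k.succ l.succ t = Matrix.single 0 l.succ (v k * t) := by
  unfold Nmat
  rw [Matrix.sum_mul, Finset.sum_eq_single k]
  · exact Matrix.single_mul_single_same _ 0 k.succ l.succ _
  · intro j _ hj
    exact Matrix.single_mul_single_of_ne _ 0 j.succ k.succ
      (fun h => hj (Fin.succ_injective _ h)) _
  · intro h
    exact absurd (Finset.mem_univ k) h

theorem Nmat_apply_of_ne (v : Fin m → F) (i j : Fin (m + 1)) (hi : i ≠ 0) : Nmat v i j = 0 := by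
  unfold Nmat
  rw [Matrix.sum_apply]
  apply Finset.sum_eq_zero
  intro x _
  exact Matrix.single_apply_of_row_ne (Ne.symm hi) _ _ _

theorem Nmat_apply_zero_succ (v : Fin m → F) (j : Fin m) : Nmat v 0 j.succ = v j := by
  unfold Nmat
  rw [Matrix.sum_apply, Finset.sum_eq_single j]
  · exact Matrix.single_apply_same _ _ _
  · intro x _ hx
    exact Matrix.single_apply_of_col_ne _ _ (fun h => hx (Fin.succ_injective _ h)) _
  · intro h
    exact absurd (Finset.mem_univ j) h

theorem Nmat_apply_diag (v : Fin m → F) (i : Fin (m + 1)) : Nmat v i i = 0 := by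
  by_cases hi : i = 0
  · subst hi
    unfold Nmat
    rw [Matrix.sum_apply]
    apply Finset.sum_eq_zero
    intro x _
    exact Matrix.single_apply_of_col_ne _ _ (Fin.succ_ne_zero x) _
  · exact Nmat_apply_of_ne v i i hi

theorem det_one_add_Nmat (v : Fin m → F) : (1 + Nmat v).det = 1 := by
  have h : (1 + Nmat v).BlockTriangular id := by
    intro i j hij
    have hi : i ≠ 0 := by
      intro h0
      rw [h0] at hij
      exact absurd hij (Fin.not_lt_zero _)
    have hij' : j < i := hij
    rw [Matrix.add_apply, Nmat_apply_of_ne v i j hi, Matrix.one_apply_ne (ne_of_gt hij'), add_zero]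
  rw [Matrix.det_of_isUpperTriangular h]
  apply Finset.prod_eq_one
  intro i _
  rw [Matrix.add_apply, Nmat_apply_diag, Matrix.one_apply_eq, add_zero]

/-- The root elements of the first row. -/
def xSL (v : Fin m → F) : Matrix.SpecialLinearGroup (Fin (m + 1)) F :=
  ⟨1 + Nmat v, det_one_add_Nmat v⟩

theorem xSL_coe (v : Fin m → F) :
    ((xSL v : Matrix.SpecialLinearGroup (Fin (m + 1)) F) : Matrix (Fin (m + 1)) (Fin (m + 1)) F) =
      1 + Nmat v := rfl

theorem xSL_add (v w : Fin m → F) : xSL (v + w) = xSL v * xSL w := by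
  apply Subtype.ext
  rw [Matrix.SpecialLinearGroup.coe_mul, xSL_coe, xSL_coe, xSL_coe, Nmat_add]
  rw [mul_add, add_mul, add_mul, one_mul, one_mul, mul_one, Nmat_mul]
  abel

theorem xSL_zero : xSL (0 : Fin m → F) = 1 := by
  apply Subtype.ext
  rw [xSL_coe, Nmat_zero, add_zero]
  rfl

/-- The root elements of the lower right block. -/
def ySL (k l : Fin m) (hkl : k ≠ l) (t : F) : Matrix.SpecialLinearGroup (Fin (m + 1)) F :=
  ⟨Matrix.transvection k.succ l.succ t,
    Matrix.det_transvection_of_ne _ _ (fun h => hkl (Fin.succ_injective _ h)) t⟩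

theorem ySL_coe (k l : Fin m) (hkl : k ≠ l) (t : F) :
    ((ySL k l hkl t : Matrix.SpecialLinearGroup (Fin (m + 1)) F) :
      Matrix (Fin (m + 1)) (Fin (m + 1)) F) = 1 + Matrix.single k.succ l.succ t := rfl

theorem ySL_mul_xSL (k l : Fin m) (hkl : k ≠ l) (t : F) (v : Fin m → F) :
    ySL k l hkl t * xSL v = xSL (v - Pi.single l (t * v k)) * ySL k l hkl t := by
  apply Subtype.ext
  rw [Matrix.SpecialLinearGroup.coe_mul, Matrix.SpecialLinearGroup.coe_mul, xSL_coe, xSL_coe,
    ySL_coe]
  have h1 : Nmat (v - Pi.single l (t * v k)) = Nmat v - Matrix.single 0 l.succ (t * v k) := by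
    have h2 := Nmat_add (v - Pi.single l (t * v k)) (Pi.single l (t * v k))
    rw [sub_add_cancel, Nmat_single] at h2
    rw [h2, add_sub_cancel_right]
  have h3 : Nmat (v - Pi.single l (t * v k)) * Matrix.single k.succ l.succ t =
      Matrix.single 0 l.succ (t * v k) := by
    rw [Nmat_mul_single, Pi.sub_apply, Pi.single_eq_of_ne hkl, sub_zero, mul_comm]
  simp only [add_mul, mul_add, one_mul, mul_one, single_mul_Nmat, h3]
  rw [h1]
  abel

theorem xSL_not_mem_center (hm : 0 < m) :
    xSL (Pi.single (⟨0, hm⟩ : Fin m) (1 : F)) ∉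
      Subgroup.center (Matrix.SpecialLinearGroup (Fin (m + 1)) F) := by
  intro h
  obtain ⟨r, -, hr⟩ := Matrix.SpecialLinearGroup.mem_center_iff.mp h
  have h1 := congrFun (congrFun hr 0) (Fin.succ ⟨0, hm⟩)
  rw [xSL_coe, Matrix.add_apply, Nmat_apply_zero_succ, Pi.single_eq_same,
    Matrix.one_apply_ne (Ne.symm (Fin.succ_ne_zero _)), zero_add] at h1
  rw [Matrix.scalar_apply, Matrix.diagonal_apply_ne _ (Ne.symm (Fin.succ_ne_zero _))] at h1
  exact zero_ne_one h1

end mat

section reach
variable {F : Type*} [Field F] {m : ℕ}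

theorem reach_aux (S : (Fin m → F) → Prop)
    (hS : ∀ a, S a → ∀ k l : Fin m, k ≠ l → ∀ t : F, S (a + Pi.single k (t * a l)))
    (l : Fin m) (s : Finset (Fin m)) :
    l ∉ s → ∀ a, S a → a l ≠ 0 → ∀ b : Fin m → F, (∀ j, j ∉ s → b j = a j) → S b := by
  classical
  induction s using Finset.induction_on with
  | empty =>
    intro _ a ha _ b hb
    have h : b = a := funext fun j => hb j (Finset.notMem_empty j)
    rw [h]
    exact ha
  | insert k s hks ih =>
    intro hl a ha hal b hb
    have hkl : k ≠ l := fun h => hl (h ▸ Finset.mem_insert_self k s)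
    have hls : l ∉ s := fun h => hl (Finset.mem_insert_of_mem h)
    have ha' := hS a ha k l hkl ((b k - a k) / a l)
    rw [div_mul_cancel₀ _ hal] at ha'
    apply ih hls _ ha' _ b
    · intro j hj
      by_cases hjk : j = k
      · subst hjk
        rw [Pi.add_apply, Pi.single_eq_same]
        ring
      · rw [Pi.add_apply, Pi.single_eq_of_ne hjk, add_zero]
        apply hb j
        intro h
        rcases Finset.mem_insert.mp h with h | h
        · exact hjk h
        · exact hj h
    · rw [Pi.add_apply, Pi.single_eq_of_ne (Ne.symm hkl), add_zero]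
      exact hal

theorem reach_same (S : (Fin m → F) → Prop)
    (hS : ∀ a, S a → ∀ k l : Fin m, k ≠ l → ∀ t : F, S (a + Pi.single k (t * a l)))
    (l : Fin m) (a : Fin m → F) (ha : S a) (hal : a l ≠ 0) (b : Fin m → F) (hb : b l = a l) :
    S b := by
  classical
  apply reach_aux S hS l (Finset.univ.erase l) (Finset.notMem_erase l _) a ha hal b
  intro j hj
  have h : j = l := by
    by_contra h
    exact hj (Finset.mem_erase.mpr ⟨h, Finset.mem_univ j⟩)
  rw [h, hb]

theorem reach (hm : 2 ≤ m) (S : (Fin m → F) → Prop)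
    (hS : ∀ a, S a → ∀ k l : Fin m, k ≠ l → ∀ t : F, S (a + Pi.single k (t * a l)))
    (a : Fin m → F) (ha : S a) (ha0 : a ≠ 0) (b : Fin m → F) (hb0 : b ≠ 0) : S b := by
  classical
  obtain ⟨l, hl⟩ := Function.ne_iff.mp ha0
  obtain ⟨j, hj⟩ := Function.ne_iff.mp hb0
  rw [Pi.zero_apply] at hl hj
  by_cases hjl : j = l
  · subst hjl
    obtain ⟨k, hk⟩ : ∃ k : Fin m, k ≠ j := by
      by_cases h0 : j = ⟨0, by omega⟩
      · refine ⟨⟨1, by omega⟩, ?_⟩
        rw [h0]
        intro h
        exact absurd (congrArg Fin.val h) (by simp)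
      · exact ⟨⟨0, by omega⟩, fun h => h0 h.symm⟩
    have h1 : S (Function.update a k 1) :=
      reach_same S hS j a ha hl _ (Function.update_of_ne (Ne.symm hk) _ _)
    have h2 : S (Function.update (Function.update a k 1) j (b j)) :=
      reach_same S hS k _ h1 (by rw [Function.update_self]; exact one_ne_zero) _
        (by rw [Function.update_of_ne hk])
    exact reach_same S hS j _ h2 (by rw [Function.update_self]; exact hj) b
      (by rw [Function.update_self])
  · have h1 : S (Function.update a j (b j)) :=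
      reach_same S hS l a ha hl _ (Function.update_of_ne (Ne.symm hjl) _ _)
    exact reach_same S hS j _ h1 (by rw [Function.update_self]; exact hj) b
      (by rw [Function.update_self])

end reach

open Cfsg.Agent.Lib.Helper40.CharIdem in
theorem main_aux {F : Type*} [Field F] [Fintype F] {m : ℕ} (hm : 2 ≤ m)
    {K : Type*} [Field K] (hK : ringChar K ≠ ringChar F) {d : ℕ}
    (ρ : Matrix.SpecialLinearGroup (Fin (m + 1)) F →* GL (Fin d) K)
    (hker : ρ.ker ≤ Subgroup.center (Matrix.SpecialLinearGroup (Fin (m + 1)) F))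
    {L : Type*} [Field L] [Algebra K L] (ψ : AddChar F L) (hψ : ψ.IsPrimitive) :
    Fintype.card F ^ m - 1 ≤ d := by
  classical
  obtain ⟨T, hT⟩ : ∃ T : (Fin m → F) → Matrix (Fin d) (Fin d) L,
      T = fun v => (ρ (xSL v)).val.map (algebraMap K L) := ⟨_, rfl⟩
  have hinj : Function.Injective (algebraMap K L) := (algebraMap K L).injective
  have hTv : ∀ v : Fin m → F, T v = (ρ (xSL v)).val.map (algebraMap K L) := by
    intro v
    rw [hT]
  have hψ0 : ψ 0 = 1 := AddChar.map_zero_eq_one ψ
  have hψadd : ∀ x y, ψ (x + y) = ψ x * ψ y := AddChar.map_add_eq_mul ψ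
  have hψprim : ∀ r : F, r ≠ 0 → ∃ t : F, ψ (t * r) ≠ 1 := by
    intro r hr
    obtain ⟨t, ht⟩ := AddChar.ne_one_iff.mp (hψ hr)
    refine ⟨t, ?_⟩
    rwa [AddChar.mulShift_apply, mul_comm] at ht
  have hcard : (Fintype.card (Fin m → F) : L) ≠ 0 := by
    have hp : (ringChar F).Prime := CharP.char_is_prime F (ringChar F)
    have : Fact (ringChar F).Prime := ⟨hp⟩
    obtain ⟨e, -, he⟩ := FiniteField.card F (ringChar F)
    rw [Fintype.card_fun, Fintype.card_fin, he]
    push_cast
    apply pow_ne_zero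
    apply pow_ne_zero
    intro h0
    have h1 : ((ringChar F : ℕ) : K) = 0 := by
      apply hinj
      rw [map_natCast, h0, map_zero]
    have h2 := (ringChar.spec K (ringChar F)).mp h1
    rcases (Nat.dvd_prime hp).mp h2 with h3 | h3
    · exact CharP.ringChar_ne_one h3
    · exact hK h3
  have hT0 : T 0 = 1 := by
    rw [hTv, xSL_zero, map_one, Units.val_one, Matrix.map_one _ (map_zero _) (map_one _)]
  have hTadd : ∀ a b, T (a + b) = T a * T b := by
    intro a b
    rw [hTv, hTv, hTv, xSL_add, map_mul, Units.val_mul, Matrix.map_mul]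
  -- closure under conjugation
  have hS : ∀ a : Fin m → F, E ψ T a ≠ 0 → ∀ k l : Fin m, k ≠ l → ∀ t : F,
      E ψ T (a + Pi.single k (t * a l)) ≠ 0 := by
    intro a ha k l hkl t
    intro hzero
    apply ha
    obtain ⟨P, hP⟩ : ∃ P : Matrix (Fin d) (Fin d) L,
        P = (ρ (ySL k l hkl t)).val.map (algebraMap K L) := ⟨_, rfl⟩
    obtain ⟨P', hP'⟩ : ∃ P' : Matrix (Fin d) (Fin d) L,
        P' = ((ρ (ySL k l hkl t))⁻¹).val.map (algebraMap K L) := ⟨_, rfl⟩
    have hPP : P' * P = 1 := by
      rw [hP, hP', ← Matrix.map_mul, ← Units.val_mul, inv_mul_cancel, Units.val_one,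
        Matrix.map_one _ (map_zero _) (map_one _)]
    have hPT : ∀ v : Fin m → F, P * T v = T (v - Pi.single l (t * v k)) * P := by
      intro v
      rw [hP, hTv, hTv]
      rw [← Matrix.map_mul, ← Matrix.map_mul, ← Units.val_mul, ← Units.val_mul, ← map_mul,
        ← map_mul, ySL_mul_xSL]
    have hφ : Function.Bijective (fun v : Fin m → F => v - Pi.single l (t * v k)) := by
      apply Finite.injective_iff_bijective.mp
      intro v w hvw
      have hvw' : v - Pi.single l (t * v k) = w - Pi.single l (t * w k) := hvw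
      have h1 := congrFun hvw' k
      rw [Pi.sub_apply, Pi.sub_apply, Pi.single_eq_of_ne hkl, Pi.single_eq_of_ne hkl, sub_zero,
        sub_zero] at h1
      rw [h1] at hvw'
      exact sub_left_injective hvw'
    have hPE : P * E ψ T a = E ψ T (a + Pi.single k (t * a l)) * P := by
      unfold E
      rw [Matrix.mul_smul, Matrix.smul_mul]
      congr 1
      rw [Matrix.mul_sum, Matrix.sum_mul]
      apply Fintype.sum_bijective _ hφ
      intro v
      rw [Matrix.mul_smul, Matrix.smul_mul, hPT v]
      congr 3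
      rw [add_dotProduct, dotProduct_sub, dotProduct_sub, dotProduct_single, single_dotProduct,
        single_dotProduct, Pi.single_eq_of_ne hkl]
      ring
    rw [hzero, Matrix.zero_mul] at hPE
    calc E ψ T a = P' * P * E ψ T a := by rw [hPP, Matrix.one_mul]
      _ = 0 := by rw [Matrix.mul_assoc, hPE, Matrix.mul_zero]
  -- some nonzero character occurs
  have hex : ∃ a : Fin m → F, a ≠ 0 ∧ E ψ T a ≠ 0 := by
    by_contra hcon
    push Not at hcon
    have hm0 : 0 < m := by omega
    have h1 := sum_smul_E ψ T hψ0 hψadd hψprim hcard (Pi.single (⟨0, hm0⟩ : Fin m) (1 : F))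
    have h2 := sum_E ψ T hψ0 hψadd hψprim hcard hT0
    rw [Finset.sum_eq_single 0 (fun b _ hb => by rw [hcon b hb, smul_zero])
      (fun h => absurd (Finset.mem_univ _) h), zero_dotProduct, hψ0, one_smul] at h1
    rw [Finset.sum_eq_single 0 (fun b _ hb => hcon b hb)
      (fun h => absurd (Finset.mem_univ _) h)] at h2
    rw [h2] at h1
    have h3 : (ρ (xSL (Pi.single (⟨0, hm0⟩ : Fin m) (1 : F)))).val.map
        (algebraMap K L) = 1 := by
      rw [h1, hTv]
    have h4 : (ρ (xSL (Pi.single (⟨0, hm0⟩ : Fin m) (1 : F)))).val = 1 := by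
      apply Matrix.map_injective hinj
      show (ρ (xSL (Pi.single (⟨0, hm0⟩ : Fin m) (1 : F)))).val.map (algebraMap K L) =
        (1 : Matrix (Fin d) (Fin d) K).map (algebraMap K L)
      rw [h3, Matrix.map_one _ (map_zero _) (map_one _)]
    have h5 : xSL (Pi.single (⟨0, hm0⟩ : Fin m) (1 : F)) ∈ ρ.ker := by
      rw [MonoidHom.mem_ker]
      exact Units.ext h4
    exact xSL_not_mem_center hm0 (hker h5)
  obtain ⟨a, ha0, ha⟩ := hex
  have hall : ∀ b : Fin m → F, b ≠ 0 → E ψ T b ≠ 0 := by
    intro b hb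
    exact reach hm (fun a : Fin m → F => E ψ T a ≠ 0) hS a ha ha0 b hb
  have hfin := card_support_le ψ T hψ0 hψadd hψprim hcard hTadd
    (Finset.univ.filter (fun b : Fin m → F => b ≠ 0))
    (fun b hb => hall b (Finset.mem_filter.mp hb).2)
  rw [Finset.filter_ne' Finset.univ (0 : Fin m → F), Finset.card_erase_of_mem (Finset.mem_univ _),
    Finset.card_univ, Fintype.card_fun, Fintype.card_fin] at hfin
  exact hfin

/-- A lower bound for representations in cross characteristic: for `n ≥ 3` and a field `F` with `q` elements, every homomorphism from `SL_n(F)` to `GL_d(K)`, `K` a field of characteristic different from that of `F`, whose kernel is central has `d ≥ q^(n-1) - 1`. -/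
theorem result {F : Type*} [Field F] [Fintype F] {q : ℕ} (hq : Fintype.card F = q) (n : ℕ) (hn : 3 ≤ n)
    {K : Type*} [Field K] (hK : ringChar K ≠ ringChar F) {d : ℕ}
    (ρ : Matrix.SpecialLinearGroup (Fin n) F →* GL (Fin d) K) (hker : ρ.ker ≤ Subgroup.center (Matrix.SpecialLinearGroup (Fin n) F)) :
    q ^ (n - 1) - 1 ≤ d := by
  obtain ⟨m, rfl⟩ : ∃ m, n = m + 1 := ⟨n - 1, by omega⟩
  obtain ⟨N, ψ, hψ⟩ := AddChar.FiniteField.primitiveChar F K hK
  have h := main_aux (m := m) (by omega) hK ρ hker ψ hψ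
  rw [hq] at h
  rw [Nat.add_sub_cancel]
  exact h

end Cfsg.Agent.S2392
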