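import Cfsg.Statements.S2395
import Mathlib

set_option autoImplicit false
open Cfsg

namespace Cfsg.Agent.S2395
open Cfsg.Lie

section general
variable (D : ChevalleyDatum) (K : Type*) [Field K]

/-- The image of the generator in the abelianization. -/
noncomputable def phi (k : ℕ) (v : K) : Abelianization (D.SteinbergCover K) :=
  Abelianization.of (D.scGen K k v)

theorem scGen_add {k : ℕ} (hk : k < D.nroots) (v w : K) :
    D.scGen K k (v + w) = D.scGen K k v * D.scGen K k w := by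
  have hmem : D.stX k v * D.stX k w * (D.stX k (v + w))⁻¹ ∈ D.steinbergRelsAB K :=
    Or.inl ⟨k, v, w, hk, rfl⟩
  have h := PresentedGroup.one_of_mem hmem
  rw [map_mul, map_mul, map_inv, mul_inv_eq_one] at h
  exact h.symm

theorem phi_add {k : ℕ} (hk : k < D.nroots) (v w : K) :
    phi D K k (v + w) = phi D K k v * phi D K k w := by
  unfold phi
  rw [scGen_add D K hk, map_mul]

theorem phi_zero {k : ℕ} (hk : k < D.nroots) : phi D K k 0 = 1 := by
  have h := phi_add D K hk 0 0
  rw [add_zero] at h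
  exact (mul_eq_left.mp h.symm)

theorem phi_neg {k : ℕ} (hk : k < D.nroots) (v : K) : phi D K k (-v) = (phi D K k v)⁻¹ := by
  have h := phi_add D K hk (-v) v
  rw [neg_add_cancel, phi_zero D K hk] at h
  exact eq_inv_of_mul_eq_one_left h.symm

theorem rel2 {r s : ℕ} (hr : r < D.nroots) (hs : s < D.nroots) (h1 : s ≠ r) (h2 : s ≠ D.neg r)
    (t u : K) :
    ((D.commTerms r s).map
      (fun c => phi D K c.1 ((c.2.1 : K) * (-t) ^ c.2.2.1 * u ^ c.2.2.2))).prod = 1 := by
  have hmem : (D.stX s u)⁻¹ * (D.stX r t)⁻¹ * D.stX s u * D.stX r t *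
      (D.stWord (D.commWord K r s t u))⁻¹ ∈ D.steinbergRelsAB K :=
    Or.inr ⟨r, s, t, u, hr, hs, h1, h2, rfl⟩
  have h := PresentedGroup.one_of_mem hmem
  have h' := congrArg (Abelianization.of) h
  simp only [map_mul, map_inv, map_one] at h'
  have h3 : Abelianization.of (PresentedGroup.mk (D.steinbergRelsAB K)
      (D.stWord (D.commWord K r s t u))) = 1 := by
    have key : ∀ a b c : Abelianization (D.SteinbergCover K), a⁻¹ * b⁻¹ * a * b * c⁻¹ = 1 → c = 1 := by
      intro a b c h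
      have e : a⁻¹ * b⁻¹ * a * b = 1 := by
        rw [mul_comm a⁻¹ b⁻¹, mul_assoc b⁻¹, inv_mul_cancel, mul_one, inv_mul_cancel]
      rw [e, one_mul, inv_eq_one] at h
      exact h
    exact key _ _ _ h'
  rw [← h3]
  unfold ChevalleyDatum.stWord ChevalleyDatum.commWord
  rw [map_list_prod, map_list_prod, List.map_map, List.map_map, List.map_map]
  rfl

/-- A root all of whose generators die in the abelianization. -/
def Good (k : ℕ) : Prop := ∀ v : K, phi D K k v = 1

theorem good_single {k r s : ℕ} {C : ℤ} (hr : r < D.nroots) (hs : s < D.nroots) (h1 : s ≠ r)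
    (h2 : s ≠ D.neg r) (hC : C = 1 ∨ C = -1) (hT : D.commTerms r s = [(k, C, 1, 1)]) :
    Good D K k := by
  intro v
  have h := rel2 D K hr hs h1 h2 (-((C : ℤ) : K) * v) 1
  rw [hT] at h
  simp only [List.map_cons, List.map_nil, List.prod_cons, List.prod_nil, mul_one, pow_one,
    one_pow] at h
  have e : ((C : ℤ) : K) * -(-((C : ℤ) : K) * v) = v := by
    rcases hC with rfl | rfl <;> simp
  rw [e] at h
  exact h

theorem prod_rest {rest : List (ℕ × ℤ × ℕ × ℕ)} (hrest : ∀ c ∈ rest, Good D K c.1) (t u : K) :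
    (rest.map (fun c => phi D K c.1 ((c.2.1 : K) * (-t) ^ c.2.2.1 * u ^ c.2.2.2))).prod = 1 := by
  apply List.prod_eq_one
  intro x hx
  rw [List.mem_map] at hx
  obtain ⟨c, hc, rfl⟩ := hx
  exact hrest c hc _

theorem good_two21 {r s k₁ k₂ : ℕ} {C₁ C₂ : ℤ} {rest : List (ℕ × ℤ × ℕ × ℕ)}
    (hx : ∃ x : K, x ≠ 0 ∧ x ≠ 1) (hr : r < D.nroots) (hs : s < D.nroots) (h1 : s ≠ r)
    (h2 : s ≠ D.neg r) (hk₁ : k₁ < D.nroots) (_hk₂ : k₂ < D.nroots)
    (hC₁ : C₁ = 1 ∨ C₁ = -1) (hC₂ : C₂ = 1 ∨ C₂ = -1)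
    (hT : D.commTerms r s = (k₁, C₁, 1, 1) :: (k₂, C₂, 2, 1) :: rest)
    (hrest : ∀ c ∈ rest, Good D K c.1) : Good D K k₁ ∧ Good D K k₂ := by
  have E : ∀ t u : K, phi D K k₁ ((C₁ : K) * (-t) * u) * phi D K k₂ ((C₂ : K) * t ^ 2 * u) = 1 := by
    intro t u
    have h := rel2 D K hr hs h1 h2 t u
    rw [hT] at h
    simp only [List.map_cons, List.prod_cons, prod_rest D K hrest, mul_one, pow_one] at h
    rw [neg_sq] at h
    exact h
  have hc1 : (C₁ : K) ≠ 0 := by rcases hC₁ with rfl | rfl <;> simp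
  have hc2 : (C₂ : K) * (C₂ : K) = 1 := by rcases hC₂ with rfl | rfl <;> simp
  have G1 : ∀ u : K, phi D K k₂ ((C₂ : K) * u) = phi D K k₁ ((C₁ : K) * u) := by
    intro u
    have h := E 1 u
    rw [one_pow, mul_one, mul_neg, mul_one, neg_mul, phi_neg D K hk₁] at h
    exact (inv_mul_eq_one.mp h).symm
  have F : ∀ t u : K, phi D K k₁ ((C₁ : K) * t * (t - 1) * u) = 1 := by
    intro t u
    have h := E t u
    rw [mul_assoc (C₂ : K), G1, ← phi_add D K hk₁] at h
    have e : (C₁ : K) * -t * u + (C₁ : K) * (t ^ 2 * u) = (C₁ : K) * t * (t - 1) * u := by ring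
    rw [e] at h
    exact h
  obtain ⟨x, hx0, hx1⟩ := hx
  have good1 : Good D K k₁ := by
    intro v
    have h := F x (v / ((C₁ : K) * x * (x - 1)))
    have hne : (C₁ : K) * x * (x - 1) ≠ 0 :=
      mul_ne_zero (mul_ne_zero hc1 hx0) (sub_ne_zero.mpr hx1)
    rw [mul_div_cancel₀ _ hne] at h
    exact h
  refine ⟨good1, ?_⟩
  intro v
  have h := G1 ((C₂ : K) * v)
  rw [← mul_assoc, hc2, one_mul] at h
  rw [h]
  exact good1 _

theorem good_two12 {r s k₁ k₂ : ℕ} {C₁ C₂ : ℤ} {rest : List (ℕ × ℤ × ℕ × ℕ)}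
    (hx : ∃ x : K, x ≠ 0 ∧ x ≠ 1) (hr : r < D.nroots) (hs : s < D.nroots) (h1 : s ≠ r)
    (h2 : s ≠ D.neg r) (hk₁ : k₁ < D.nroots) (hk₂ : k₂ < D.nroots)
    (hC₁ : C₁ = 1 ∨ C₁ = -1) (hC₂ : C₂ = 1 ∨ C₂ = -1)
    (hT : D.commTerms r s = (k₁, C₁, 1, 1) :: (k₂, C₂, 1, 2) :: rest)
    (hrest : ∀ c ∈ rest, Good D K c.1) : Good D K k₁ ∧ Good D K k₂ := by
  have E : ∀ t u : K, phi D K k₁ ((C₁ : K) * (-t) * u) * phi D K k₂ ((C₂ : K) * (-t) * u ^ 2) = 1 := by
    intro t u
    have h := rel2 D K hr hs h1 h2 t u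
    rw [hT] at h
    simp only [List.map_cons, List.prod_cons, prod_rest D K hrest, mul_one, pow_one] at h
    exact h
  have hc1 : (C₁ : K) ≠ 0 := by rcases hC₁ with rfl | rfl <;> simp
  have hc2 : (C₂ : K) * (C₂ : K) = 1 := by rcases hC₂ with rfl | rfl <;> simp
  have G1 : ∀ t : K, phi D K k₂ ((C₂ : K) * (-t)) = phi D K k₁ ((C₁ : K) * t) := by
    intro t
    have h := E t 1
    rw [one_pow, mul_one, mul_one, mul_neg, phi_neg D K hk₁] at h
    exact (inv_mul_eq_one.mp h).symm
  have F : ∀ t u : K, phi D K k₁ ((C₁ : K) * t * u * (u - 1)) = 1 := by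
    intro t u
    have h := E t u
    have e2 : (C₂ : K) * (-t) * u ^ 2 = (C₂ : K) * (-(t * u ^ 2)) := by ring
    rw [e2, G1, ← phi_add D K hk₁] at h
    have e : (C₁ : K) * -t * u + (C₁ : K) * (t * u ^ 2) = (C₁ : K) * t * u * (u - 1) := by ring
    rw [e] at h
    exact h
  obtain ⟨x, hx0, hx1⟩ := hx
  have good1 : Good D K k₁ := by
    intro v
    have h := F (v / ((C₁ : K) * x * (x - 1))) x
    have hne : (C₁ : K) * x * (x - 1) ≠ 0 :=
      mul_ne_zero (mul_ne_zero hc1 hx0) (sub_ne_zero.mpr hx1)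
    have e : (C₁ : K) * (v / ((C₁ : K) * x * (x - 1))) * x * (x - 1) = v := by
      field_simp
    rw [e] at h
    exact h
  refine ⟨good1, ?_⟩
  intro v
  have h := G1 (-((C₂ : K) * v))
  rw [neg_neg, ← mul_assoc, hc2, one_mul] at h
  rw [h]
  exact good1 _

theorem perfect_of_good (h : ∀ k < D.nroots, Good D K k) : commutator (D.SteinbergCover K) = ⊤ := by
  rw [← Abelianization.ker_of, eq_top_iff, ← PresentedGroup.closure_range_of, Subgroup.closure_le]
  rintro _ ⟨⟨r, t⟩, rfl⟩
  rw [SetLike.mem_coe, MonoidHom.mem_ker]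
  have hg := h r.val r.isLt t
  unfold phi ChevalleyDatum.scGen ChevalleyDatum.stX at hg
  rw [dif_pos r.isLt] at hg
  exact hg

/-- Boolean check of a single-term witness. -/
def chk1 (k r s : ℕ) : Bool :=
  decide (r < D.nroots) && decide (s < D.nroots) && decide (s ≠ r) && decide (s ≠ D.neg r) &&
    (decide (D.commTerms r s = [(k, 1, 1, 1)]) || decide (D.commTerms r s = [(k, -1, 1, 1)]))

theorem good_of_chk1 {k r s : ℕ} (h : chk1 D k r s = true) : Good D K k := by
  unfold chk1 at h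
  simp only [Bool.and_eq_true, Bool.or_eq_true, decide_eq_true_eq] at h
  obtain ⟨⟨⟨⟨hr, hs⟩, h1⟩, h2⟩, hT⟩ := h
  rcases hT with hT | hT
  · exact good_single D K hr hs h1 h2 (Or.inl rfl) hT
  · exact good_single D K hr hs h1 h2 (Or.inr rfl) hT

/-- Boolean check of a full list of single-term witnesses. -/
def chkAll (wit : List (ℕ × ℕ)) : Bool :=
  decide (wit.length = D.nroots) && (wit.zipIdx.all fun x => chk1 D x.2 x.1.1 x.1.2)

theorem good_of_chkAll {wit : List (ℕ × ℕ)} (h : chkAll D wit = true) :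
    ∀ k < D.nroots, Good D K k := by
  unfold chkAll at h
  simp only [Bool.and_eq_true, decide_eq_true_eq, List.all_eq_true] at h
  obtain ⟨hlen, hall⟩ := h
  intro k hk
  have hk' : k < wit.length := by omega
  have hmem : (wit[k], k) ∈ wit.zipIdx := by
    rw [List.mem_zipIdx_iff_getElem?]
    simp [hk']
  exact good_of_chk1 D K (hall _ hmem)

end general

def witD4 : List (ℕ × ℕ) := [(1, 9), (0, 14), (0, 15), (0, 16), (0, 17), (1, 17), (0, 19), (0, 20), (0, 21), (0, 22), (1, 20), (1, 21), (2, 22), (3, 22), (1, 23), (2, 23), (3, 23), (4, 23), (6, 22), (6, 23), (7, 23), (8, 23), (9, 23), (14, 22)]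

theorem okD4 : chkAll chevD4 witD4 = true := by decide +kernel

def witF4 : List (ℕ × ℕ) := [(1, 23), (0, 24), (0, 26), (7, 14), (0, 31), (0, 32), (1, 32), (3, 33), (3, 34), (3, 35), (3, 36), (3, 37), (3, 38), (3, 39), (3, 40), (0, 42), (0, 43), (1, 43), (7, 37), (7, 38), (7, 39), (0, 45), (1, 45), (0, 46), (1, 47), (2, 46), (2, 47), (8, 40), (9, 40), (10, 40), (4, 46), (4, 47), (5, 47), (7, 44), (8, 44), (9, 44), (10, 44), (11, 44), (12, 44), (13, 44), (14, 44), (15, 46), (15, 47), (16, 47), (33, 40), (21, 47), (23, 47), (24, 46)]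

theorem okF4 : chkAll chevF4 witF4 = true := by decide +kernel

def witE6 : List (ℕ × ℕ) := [(1, 25), (0, 46), (0, 47), (0, 48), (0, 49), (0, 50), (0, 51), (0, 52), (0, 53), (0, 54), (0, 55), (1, 53), (1, 54), (1, 55), (2, 55), (5, 55), (0, 61), (0, 62), (0, 63), (0, 64), (0, 65), (0, 66), (0, 67), (0, 68), (0, 69), (0, 70), (1, 64), (1, 65), (1, 66), (2, 66), (1, 67), (1, 68), (1, 69), (2, 67), (2, 68), (3, 67), (4, 68), (3, 69), (4, 69), (2, 70), (3, 70), (4, 70), (5, 69), (5, 70), (6, 70), (7, 70), (1, 71), (2, 71), (3, 71), (4, 71), (5, 71), (6, 71), (7, 71), (8, 71), (9, 71), (10, 71), (16, 66), (16, 69), (16, 70), (17, 70), (18, 70), (16, 71), (17, 71), (18, 71), (19, 71), (20, 71), (21, 71), (22, 71), (23, 71), (24, 71), (25, 71), (46, 70)]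

theorem okE6 : chkAll chevE6 witE6 = true := by decide +kernel

def witE7 : List (ℕ × ℕ) := [(1, 32), (0, 93), (0, 94), (0, 95), (0, 96), (0, 97), (0, 98), (0, 99), (0, 100), (0, 101), (0, 102), (0, 103), (0, 104), (0, 105), (0, 106), (0, 107), (0, 108), (0, 109), (0, 110), (0, 111), (0, 112), (0, 113), (0, 114), (0, 115), (0, 116), (0, 117), (0, 118), (0, 119), (0, 120), (0, 121), (0, 122), (0, 123), (0, 124), (1, 109), (1, 110), (1, 111), (1, 112), (1, 113), (1, 114), (1, 115), (1, 116), (1, 117), (1, 118), (2, 115), (2, 116), (2, 117), (2, 118), (3, 118), (1, 119), (1, 120), (1, 121), (1, 122), (1, 123), (2, 119), (2, 120), (2, 121), (2, 122), (3, 119), (3, 120), (3, 121), (4, 119), (4, 120), (5, 119), (6, 120), (5, 121), (6, 121), (4, 122), (5, 122), (6, 122), (3, 123), (4, 123), (5, 123), (6, 123), (2, 124), (3, 124), (4, 124), (5, 124), (6, 124), (7, 122), (7, 123), (8, 123), (9, 123), (10, 123), (7, 124), (8, 124), (9, 124), (10, 124), (11, 124), (12, 124),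 (13, 124), (14, 124), (15, 124), (16, 124), (1, 125), (2, 125), (3, 125), (4, 125), (5, 125), (6, 125), (7, 125), (8, 125), (9, 125), (10, 125), (11, 125), (12, 125), (13, 125), (14, 125), (15, 125), (16, 125), (17, 125), (18, 125), (19, 125), (20, 125), (21, 125), (22, 125), (23, 125), (24, 125), (25, 125), (26, 125), (27, 125), (28, 125), (29, 125), (30, 125), (31, 125), (32, 125), (93, 124)]

theorem okE7 : chkAll chevE7 witE7 = true := by decide +kernel

def witE8 : List (ℕ × ℕ) := [(1, 119), (0, 120), (0, 122), (0, 125), (0, 129), (0, 134), (0, 140), (0, 146), (0, 151), (0, 155), (0, 158), (0, 160), (0, 161), (1, 161), (0, 168), (0, 173), (0, 177), (0, 180), (0, 182), (0, 183), (1, 183), (0, 187), (0, 190), (0, 192), (0, 193), (1, 193), (0, 196), (0, 198), (0, 199), (1, 199), (0, 201), (0, 202), (1, 202), (0, 203), (1, 203), (2, 203), (0, 206), (0, 208), (0, 209), (1, 209), (0, 211), (0, 212), (1, 212), (0, 213), (1, 213), (2, 213), (0, 215), (0, 216), (1, 216),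 (0, 217), (1, 217), (2, 217), (0, 218), (1, 218), (2, 218), (3, 218), (0, 220), (0, 221), (1, 221), (0, 222), (1, 222), (2, 222), (0, 223), (1, 223), (2, 223), (3, 223), (0, 224), (1, 224), (2, 224), (3, 224), (4, 224), (0, 225), (1, 225), (2, 225), (3, 225), (4, 225), (5, 225), (6, 225), (0, 227), (0, 228), (1, 228), (0, 229), (1, 229), (2, 229), (0, 230), (1, 230), (2, 230), (3, 230), (0, 231), (1, 231), (2, 231), (3, 231), (4, 231), (0, 232), (1, 232), (2, 232), (3, 232), (4, 232), (5, 232), (0, 233), (1, 233), (2, 233), (3, 233), (4, 233), (5, 233), (0, 234), (1, 234), (2, 234), (3, 234), (4, 234), (0, 235), (1, 235), (2, 235), (3, 235), (0, 236), (1, 236), (2, 236), (0, 237), (1, 237), (0, 238), (1, 239), (2, 238), (2, 239), (3, 237), (3, 238), (3, 239), (4, 236), (4, 237), (4, 238), (4, 239), (5, 235), (5, 236), (5, 237), (5, 238), (5, 239), (6, 234), (6, 235), (6, 236), (6, 237), (6, 238), (6, 239), (7, 234), (7, 235), (7, 236), (7, 237), (7, 238), (7, 239),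 (8, 235), (8, 236), (8, 237), (8, 238), (8, 239), (9, 236), (9, 237), (9, 238), (9, 239), (10, 237), (10, 238), (10, 239), (11, 238), (11, 239), (12, 239), (14, 233), (14, 234), (14, 235), (14, 236), (14, 237), (14, 238), (14, 239), (15, 235), (15, 236), (15, 237), (15, 238), (15, 239), (16, 236), (16, 237), (16, 238), (16, 239), (17, 237), (17, 238), (17, 239), (18, 238), (18, 239), (19, 239), (21, 236), (21, 237), (21, 238), (21, 239), (22, 237), (22, 238), (22, 239), (23, 238), (23, 239), (24, 239), (26, 237), (26, 238), (26, 239), (27, 238), (27, 239), (28, 239), (30, 238), (30, 239), (31, 239), (33, 239), (36, 237), (36, 238), (36, 239), (37, 238), (37, 239), (38, 239), (40, 238), (40, 239), (41, 239), (43, 239), (46, 238), (46, 239), (47, 239), (49, 239), (52, 239), (56, 238), (56, 239), (57, 239), (59, 239), (62, 239), (66, 239), (71, 239), (78, 238), (78, 239), (79, 239), (81, 239), (84, 239), (88, 239), (93, 239), (99, 239), (105, 239), (110, 239), (114,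 239), (117, 239), (119, 239), (120, 238)]

theorem okE8 : chkAll chevE8 witE8 = true := by decide +kernel

section small
variable (K : Type*) [Field K]

theorem g2good0 : Good chevG2 K 0 := good_of_chk1 chevG2 K (r := 1) (s := 5) (by decide +kernel)

theorem g2good1 : Good chevG2 K 1 := good_of_chk1 chevG2 K (r := 0) (s := 6) (by decide +kernel)

theorem g2good5 : Good chevG2 K 5 := good_of_chk1 chevG2 K (r := 0) (s := 10) (by decide +kernel)

theorem g2good6 : Good chevG2 K 6 := good_of_chk1 chevG2 K (r := 1) (s := 11) (by decide +kernel)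

theorem g2good10 : Good chevG2 K 10 := good_of_chk1 chevG2 K (r := 5) (s := 11) (by decide +kernel)

theorem g2good11 : Good chevG2 K 11 := good_of_chk1 chevG2 K (r := 6) (s := 10) (by decide +kernel)

theorem g2pair0_8 (hx : ∃ x : K, x ≠ 0 ∧ x ≠ 1) : Good chevG2 K 2 ∧ Good chevG2 K 4 :=
  good_two12 chevG2 K (r := 0) (s := 8) (C₁ := 1) (C₂ := 1) (rest := [(6, -1, 1, 3), (1, -2, 2, 3)]) hx (by decide) (by decide) (by decide) (by decide +kernel) (by decide) (by decide) (Or.inl rfl) (Or.inl rfl) (by decide +kernel) (by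
    intro c hc
    simp only [List.mem_cons, List.mem_nil_iff, or_false] at hc
    rcases hc with rfl | rfl
    · exact g2good6 K
    · exact g2good1 K
    )

theorem g2pair0_9 (hx : ∃ x : K, x ≠ 0 ∧ x ≠ 1) : Good chevG2 K 3 ∧ Good chevG2 K 7 :=
  good_two12 chevG2 K (r := 0) (s := 9) (C₁ := -1) (C₂ := -1) (rest := [(10, -1, 1, 3), (5, 2, 2, 3)]) hx (by decide) (by decide) (by decide) (by decide +kernel) (by decide) (by decide) (Or.inr rfl) (Or.inr rfl) (by decide +kernel) (by
    intro c hc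
    simp only [List.mem_cons, List.mem_nil_iff, or_false] at hc
    rcases hc with rfl | rfl
    · exact g2good10 K
    · exact g2good5 K
    )

theorem g2pair1_9 (hx : ∃ x : K, x ≠ 0 ∧ x ≠ 1) : Good chevG2 K 4 ∧ Good chevG2 K 8 :=
  good_two12 chevG2 K (r := 1) (s := 9) (C₁ := -1) (C₂ := 1) (rest := [(11, 1, 1, 3), (6, -2, 2, 3)]) hx (by decide) (by decide) (by decide) (by decide +kernel) (by decide) (by decide) (Or.inr rfl) (Or.inl rfl) (by decide +kernel) (by
    intro c hc
    simp only [List.mem_cons, List.mem_nil_iff, or_false] at hc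
    rcases hc with rfl | rfl
    · exact g2good11 K
    · exact g2good6 K
    )

theorem g2pair5_8 (hx : ∃ x : K, x ≠ 0 ∧ x ≠ 1) : Good chevG2 K 7 ∧ Good chevG2 K 9 :=
  good_two12 chevG2 K (r := 5) (s := 8) (C₁ := 1) (C₂ := -1) (rest := [(11, 1, 1, 3), (10, 2, 2, 3)]) hx (by decide) (by decide) (by decide) (by decide +kernel) (by decide) (by decide) (Or.inl rfl) (Or.inr rfl) (by decide +kernel) (by
    intro c hc
    simp only [List.mem_cons, List.mem_nil_iff, or_false] at hc
    rcases hc with rfl | rfl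
    · exact g2good11 K
    · exact g2good10 K
    )

theorem g2all (hx : ∃ x : K, x ≠ 0 ∧ x ≠ 1) : ∀ k < chevG2.nroots, Good chevG2 K k := by
  intro k hk
  have hk' : k < 12 := hk
  interval_cases k
  · exact g2good0 K
  · exact g2good1 K
  · exact (g2pair0_8 K hx).1
  · exact (g2pair0_9 K hx).1
  · exact (g2pair0_8 K hx).2
  · exact g2good5 K
  · exact g2good6 K
  · exact (g2pair0_9 K hx).2
  · exact (g2pair1_9 K hx).2
  · exact (g2pair5_8 K hx).2
  · exact g2good10 K
  · exact g2good11 K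

theorem b2pair0_5 (hx : ∃ x : K, x ≠ 0 ∧ x ≠ 1) : Good chevB2 K 1 ∧ Good chevB2 K 3 :=
  good_two12 chevB2 K (r := 0) (s := 5) (C₁ := 1) (C₂ := -1) (rest := []) hx (by decide) (by decide) (by decide) (by decide +kernel) (by decide) (by decide) (Or.inl rfl) (Or.inr rfl) (by decide +kernel) (by simp)

theorem b2pair0_6 (hx : ∃ x : K, x ≠ 0 ∧ x ≠ 1) : Good chevB2 K 2 ∧ Good chevB2 K 4 :=
  good_two12 chevB2 K (r := 0) (s := 6) (C₁ := -1) (C₂ := 1) (rest := []) hx (by decide) (by decide) (by decide) (by decide +kernel) (by decide) (by decide) (Or.inr rfl) (Or.inl rfl) (by decide +kernel) (by simp)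

theorem b2pair3_6 (hx : ∃ x : K, x ≠ 0 ∧ x ≠ 1) : Good chevB2 K 5 ∧ Good chevB2 K 7 :=
  good_two12 chevB2 K (r := 3) (s := 6) (C₁ := 1) (C₂ := 1) (rest := []) hx (by decide) (by decide) (by decide) (by decide +kernel) (by decide) (by decide) (Or.inl rfl) (Or.inl rfl) (by decide +kernel) (by simp)

theorem b2pair1_4 (hx : ∃ x : K, x ≠ 0 ∧ x ≠ 1) : Good chevB2 K 2 ∧ Good chevB2 K 0 :=
  good_two21 chevB2 K (r := 1) (s := 4) (C₁ := 1) (C₂ := 1) (rest := []) hx (by decide) (by decide) (by decide) (by decide +kernel) (by decide) (by decide) (Or.inl rfl) (Or.inl rfl) (by decide +kernel) (by simp)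

theorem b2pair2_7 (hx : ∃ x : K, x ≠ 0 ∧ x ≠ 1) : Good chevB2 K 6 ∧ Good chevB2 K 4 :=
  good_two21 chevB2 K (r := 2) (s := 7) (C₁ := 1) (C₂ := -1) (rest := []) hx (by decide) (by decide) (by decide) (by decide +kernel) (by decide) (by decide) (Or.inl rfl) (Or.inr rfl) (by decide +kernel) (by simp)

theorem b2all (hx : ∃ x : K, x ≠ 0 ∧ x ≠ 1) : ∀ k < chevB2.nroots, Good chevB2 K k := by
  intro k hk
  have hk' : k < 8 := hk
  interval_cases k
  · exact (b2pair1_4 K hx).2
  · exact (b2pair0_5 K hx).1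
  · exact (b2pair0_6 K hx).1
  · exact (b2pair0_5 K hx).2
  · exact (b2pair0_6 K hx).2
  · exact (b2pair3_6 K hx).1
  · exact (b2pair2_7 K hx).1
  · exact (b2pair3_6 K hx).2

end small

/-- The group presented by Steinberg's generators x̄_r(t) subject only to (R1) (additivity) and (R2) (the commutator formula) is perfect, for each of the types G₂, B₂, D₄, F₄, E₆, E₇, E₈ over any field (for types B₂ and G₂ the field must have more than two elements — the cases where the Chevalley group is not simple are set aside). -/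
theorem result {K : Type*} [Field K] (D : Cfsg.Lie.ChevalleyDatum) (hD : D ∈ [Cfsg.Lie.chevG2, Cfsg.Lie.chevB2, Cfsg.Lie.chevD4, Cfsg.Lie.chevF4, Cfsg.Lie.chevE6, Cfsg.Lie.chevE7, Cfsg.Lie.chevE8]) (hK : D ∈ [Cfsg.Lie.chevB2, Cfsg.Lie.chevG2] → ∃ x : K, x ≠ 0 ∧ x ≠ 1) :
    commutator (D.SteinbergCover K) = ⊤ := by
  simp only [List.mem_cons, List.not_mem_nil, or_false] at hD
  rcases hD with rfl | rfl | rfl | rfl | rfl | rfl | rfl
  · exact perfect_of_good _ K (g2all K (hK (by simp)))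
  · exact perfect_of_good _ K (b2all K (hK (by simp)))
  · exact perfect_of_good _ K (good_of_chkAll _ K okD4)
  · exact perfect_of_good _ K (good_of_chkAll _ K okF4)
  · exact perfect_of_good _ K (good_of_chkAll _ K okE6)
  · exact perfect_of_good _ K (good_of_chkAll _ K okE7)
  · exact perfect_of_good _ K (good_of_chkAll _ K okE8)

end Cfsg.Agent.S2395
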