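import Cfsg.Statements.S2403
import Mathlib
import Cfsg.Agent.Lib.Helper5.SLGen

set_option autoImplicit false
open Cfsg

namespace Cfsg.Agent.S2403

open Matrix

section aux
variable (K : Type*) [Field K] (n : ℕ)

/-- The sign of column `i` of the monomial matrix. -/
def eps (i : Fin (n + 1)) : K := if i.val = 0 then (-1) ^ n else 1

/-- The monomial matrix of the cycle. -/
def wMat : Matrix (Fin (n + 1)) (Fin (n + 1)) K :=
  Matrix.of (fun i j => if j.val = i.val + 1 then 1 else if i.val = n ∧ j.val = 0 then (-1) ^ n else 0)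

theorem eps_mul_self (i : Fin (n + 1)) : eps K n i * eps K n i = 1 := by
  unfold eps
  split_ifs
  · rw [← mul_pow]; simp
  · simp

theorem wMat_apply (a i : Fin (n + 1)) : wMat K n a i = if a = i - 1 then eps K n i else 0 := by
  unfold wMat eps
  simp only [Matrix.of_apply]
  by_cases hi : i.val = 0
  · have hi0 : i = 0 := Fin.ext hi
    subst hi0
    have h2 : (a = (0 : Fin (n + 1)) - 1) ↔ a.val = n := by
      rw [Fin.ext_iff, Fin.coe_sub_one]; simp
    have h1 : ¬ ((0 : Fin (n + 1)).val = a.val + 1) := by simp
    rw [if_neg h1]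
    by_cases h : a.val = n
    · rw [if_pos ⟨h, hi⟩, if_pos (h2.mpr h), if_pos hi]
    · rw [if_neg (fun hh => h hh.1), if_neg (fun hh => h (h2.mp hh))]
  · have hi0 : i ≠ 0 := fun h => hi (by simp [h])
    have h2 : (a = i - 1) ↔ i.val = a.val + 1 := by
      rw [Fin.ext_iff, Fin.coe_sub_one]
      simp only [hi0, if_false]
      omega
    simp [h2, hi]

theorem w_mul_single (i j : Fin (n + 1)) (c : K) :
    wMat K n * single i j c = single (i - 1) (j - 1) (eps K n i * eps K n j * c) * wMat K n := by
  ext a b
  by_cases hb : b = j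
  · subst hb
    rw [mul_single_apply_same]
    by_cases ha : a = i - 1
    · subst ha
      rw [single_mul_apply_same, wMat_apply, wMat_apply, if_pos rfl, if_pos rfl]
      have := eps_mul_self K n b
      calc eps K n i * c = eps K n i * c * (eps K n b * eps K n b) := by rw [this, mul_one]
        _ = eps K n i * eps K n b * c * eps K n b := by ring
    · rw [single_mul_apply_of_ne _ _ _ _ _ ha, wMat_apply, if_neg ha, zero_mul]
  · rw [mul_single_apply_of_ne _ _ _ _ _ hb]
    by_cases ha : a = i - 1
    · subst ha
      rw [single_mul_apply_same, wMat_apply, if_neg, mul_zero]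
      intro h
      exact hb (sub_left_injective h).symm
    · rw [single_mul_apply_of_ne _ _ _ _ _ ha]

theorem conj_transvection (w : SpecialLinearGroup (Fin (n + 1)) K)
    (hw : (w : Matrix (Fin (n + 1)) (Fin (n + 1)) K) = wMat K n) {i j : Fin (n + 1)} (hij : i ≠ j)
    (hij' : i - 1 ≠ j - 1) (c : K) :
    w * SpecialLinearGroup.transvection hij c * w⁻¹ =
      SpecialLinearGroup.transvection hij' (eps K n i * eps K n j * c) := by
  rw [mul_inv_eq_iff_eq_mul]
  have key : (w : Matrix (Fin (n + 1)) (Fin (n + 1)) K) * (1 + single i j c) =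
      (1 + single (i - 1) (j - 1) (eps K n i * eps K n j * c)) *
        (w : Matrix (Fin (n + 1)) (Fin (n + 1)) K) := by
    rw [hw, mul_add, add_mul, mul_one, one_mul, w_mul_single]
  exact Subtype.ext key

end aux

theorem field_le_three {K : Type*} [Field K] [Fintype K] (hK : Fintype.card K ≤ 3) (c : K) :
    c = 0 ∨ c = 1 ∨ c = -1 := by
  have hq := FiniteField.pow_card c
  have h1 : 1 < Fintype.card K := Fintype.one_lt_card
  interval_cases hcard : Fintype.card K
  · have h : c * (c - 1) = 0 := by linear_combination hq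
    rcases mul_eq_zero.mp h with h | h
    · exact Or.inl h
    · exact Or.inr (Or.inl (sub_eq_zero.mp h))
  · have h : c * (c - 1) * (c + 1) = 0 := by linear_combination hq
    rcases mul_eq_zero.mp h with h | h
    · rcases mul_eq_zero.mp h with h | h
      · exact Or.inl h
      · exact Or.inr (Or.inl (sub_eq_zero.mp h))
    · exact Or.inr (Or.inr (eq_neg_of_add_eq_zero_left h))

open Fin.CommRing Fin.NatCast

/-- Explicit two-element generation of `PSL_{n+1}(K)` over the fields with two or three elements: with `x = 1 + E₁₂` and `w` the monomial matrix with entries `1` in positions `(i, i+1)` and `(−1)^n` in position `(n+1, 1)`, the elements `x` and `w` generate `SL_{n+1}(K)` modulo its centre. -/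
theorem result {K : Type*} [Field K] [Fintype K] (hK : Fintype.card K ≤ 3) (n : ℕ) (hn : 1 ≤ n)
    (x w : Matrix.SpecialLinearGroup (Fin (n + 1)) K)
    (hx : (x : Matrix (Fin (n + 1)) (Fin (n + 1)) K) = Matrix.transvection (0 : Fin (n + 1)) (1 : Fin (n + 1)) 1)
    (hw : (w : Matrix (Fin (n + 1)) (Fin (n + 1)) K) =
      Matrix.of (fun i j => if j.val = i.val + 1 then 1 else if i.val = n ∧ j.val = 0 then (-1) ^ n else 0)) :
    Subgroup.closure ({x, w} : Set (Matrix.SpecialLinearGroup (Fin (n + 1)) K)) ⊔
      Subgroup.center (Matrix.SpecialLinearGroup (Fin (n + 1)) K) = ⊤ := by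
  haveI : Nontrivial (Fin (n + 1)) := Fin.nontrivial_iff_two_le.mpr (by omega)
  set H := Subgroup.closure ({x, w} : Set (Matrix.SpecialLinearGroup (Fin (n + 1)) K)) with hH
  have hxH : x ∈ H := Subgroup.subset_closure (by simp)
  have hwH : w ∈ H := Subgroup.subset_closure (by simp)
  have hw' : (w : Matrix (Fin (n + 1)) (Fin (n + 1)) K) = wMat K n := hw
  have h01 : (0 : Fin (n + 1)) ≠ 1 := zero_ne_one
  have hx' : x = SpecialLinearGroup.transvection h01 1 := Subtype.ext (by rw [hx]; rfl)
  have hK3 := field_le_three hK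
  have hcast : ∀ d : ℕ, 1 ≤ d → d ≤ n → ((d : ℕ) : Fin (n + 1)) ≠ 0 := by
    intro d h1 h2 h0
    have := congrArg Fin.val h0
    rw [Fin.val_natCast, Nat.mod_eq_of_lt (by omega)] at this
    simp at this
    omega
  let P : Fin (n + 1) → Fin (n + 1) → Prop :=
    fun i j => ∀ (h : i ≠ j) (c : K), SpecialLinearGroup.transvection h c ∈ H
  have P01 : P 0 1 := by
    intro h c
    rcases hK3 c with rfl | rfl | rfl
    · rw [SpecialLinearGroup.transvection_coeff_zero]; exact one_mem _
    · rw [← hx']; exact hxH
    · rw [← SpecialLinearGroup.transvection_inv, ← hx']; exact inv_mem hxH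
  have Pshift : ∀ i j, P i j → P (i - 1) (j - 1) := by
    intro i j hP h c
    have hij : i ≠ j := fun e => h (by rw [e])
    have key := conj_transvection K n w hw' hij h (eps K n i * eps K n j * c)
    have e : eps K n i * eps K n j * (eps K n i * eps K n j * c) = c := by
      have h1 := eps_mul_self K n i
      have h2 := eps_mul_self K n j
      calc eps K n i * eps K n j * (eps K n i * eps K n j * c)
          = (eps K n i * eps K n i) * (eps K n j * eps K n j) * c := by ring
        _ = c := by rw [h1, h2]; ring
    rw [e] at key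
    rw [← key]
    exact mul_mem (mul_mem hwH (hP hij _)) (inv_mem hwH)
  have Pcomp : ∀ i j k, i ≠ j → j ≠ k → i ≠ k → P i j → P j k → P i k := by
    intro i j k hij hjk hik h1 h2 h c
    rw [Cfsg.Agent.Lib.Helper5.SLGen.transvection_eq_commutator h hij hjk c, commutatorElement_def]
    exact mul_mem (mul_mem (mul_mem (h1 hij c) (h2 hjk 1)) (inv_mem (h1 hij c))) (inv_mem (h2 hjk 1))
  have Q1 : ∀ i : Fin (n + 1), P i (i + 1) := by
    have R : ∀ m : ℕ, P ((0 : Fin (n + 1)) - (m : Fin (n + 1))) (1 - (m : Fin (n + 1))) := by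
      intro m
      induction m with
      | zero => simpa using P01
      | succ m ih =>
        have h := Pshift _ _ ih
        have e1 : (0 : Fin (n + 1)) - (m : Fin (n + 1)) - 1 = 0 - ((m + 1 : ℕ) : Fin (n + 1)) := by
          push_cast; ring
        have e2 : (1 : Fin (n + 1)) - (m : Fin (n + 1)) - 1 = 1 - ((m + 1 : ℕ) : Fin (n + 1)) := by
          push_cast; ring
        rw [e1, e2] at h
        exact h
    intro i
    have h := R ((-i).val)
    rw [Fin.cast_val_eq_self] at h
    have e1 : (0 : Fin (n + 1)) - (-i) = i := by ring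
    have e2 : (1 : Fin (n + 1)) - (-i) = i + 1 := by ring
    rw [e1, e2] at h
    exact h
  have Qd : ∀ d : ℕ, 1 ≤ d → d ≤ n → ∀ i : Fin (n + 1), P i (i + (d : Fin (n + 1))) := by
    intro d hd
    induction d, hd using Nat.le_induction with
    | base =>
      intro _ i
      simpa using Q1 i
    | succ d hd ih =>
      intro hdn i
      have h1 := ih (by omega) i
      have h2 := Q1 (i + (d : Fin (n + 1)))
      have e : i + (d : Fin (n + 1)) + 1 = i + ((d + 1 : ℕ) : Fin (n + 1)) := by push_cast; ring
      rw [e] at h2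
      refine Pcomp _ _ _ ?_ ?_ ?_ h1 h2
      · intro h
        exact hcast d hd (by omega) (by simpa using h.symm)
      · intro h
        have h' : ((d : ℕ) : Fin (n + 1)) = ((d + 1 : ℕ) : Fin (n + 1)) := add_left_cancel h
        push_cast at h'
        exact one_ne_zero (α := Fin (n + 1)) (by simpa using h'.symm)
      · intro h
        exact hcast (d + 1) (by omega) hdn (by simpa using h.symm)
  have Pall : ∀ i j : Fin (n + 1), P i j := by
    intro i j h c
    have hd : (j - i) ≠ 0 := sub_ne_zero.mpr (Ne.symm h)
    have h1 : 1 ≤ (j - i).val := by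
      rcases Nat.eq_zero_or_pos (j - i).val with h0 | h0
      · exact absurd (Fin.ext h0) hd
      · exact h0
    have h2 : (j - i).val ≤ n := by
      have := (j - i).isLt
      omega
    have h3 := Qd (j - i).val h1 h2 i
    rw [Fin.cast_val_eq_self] at h3
    have e : i + (j - i) = j := by ring
    rw [e] at h3
    exact h3 h c
  have Htop : H = ⊤ := by
    rw [eq_top_iff]
    intro A _
    exact Cfsg.Agent.Lib.Helper5.SLGen.transvection_induction (fun A => A ∈ H)
      (fun i j h c => Pall i j h c) (fun A B hA hB => mul_mem hA hB) A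
  rw [Htop]
  simp

end Cfsg.Agent.S2403
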