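import Cfsg.Statements.S2402
import Mathlib
import Cfsg.Agent.Lib.Helper5.SLGen
import Cfsg.Agent.S2403

set_option autoImplicit false
open Cfsg

namespace Cfsg.Agent.S2402

open Matrix
open Fin.CommRing Fin.NatCast

/-- A subgroup containing the cycle matrix and one full root subgroup is everything. -/
theorem top_of_root (K : Type*) [Field K] (n : ℕ) (hn : 1 ≤ n)
    (H : Subgroup (SpecialLinearGroup (Fin (n + 1)) K)) (w : SpecialLinearGroup (Fin (n + 1)) K)
    (hw' : (w : Matrix (Fin (n + 1)) (Fin (n + 1)) K) = Cfsg.Agent.S2403.wMat K n) (hwH : w ∈ H)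
    (h01 : (0 : Fin (n + 1)) ≠ 1)
    (hroot : ∀ c : K, SpecialLinearGroup.transvection h01 c ∈ H) : H = ⊤ := by
  haveI : Nontrivial (Fin (n + 1)) := Fin.nontrivial_iff_two_le.mpr (by omega)
  have hcast : ∀ d : ℕ, 1 ≤ d → d ≤ n → ((d : ℕ) : Fin (n + 1)) ≠ 0 := by
    intro d h1 h2 h0
    have := congrArg Fin.val h0
    rw [Fin.val_natCast, Nat.mod_eq_of_lt (by omega)] at this
    simp at this
    omega
  let P : Fin (n + 1) → Fin (n + 1) → Prop :=
    fun i j => ∀ (h : i ≠ j) (c : K), SpecialLinearGroup.transvection h c ∈ H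
  have P01 : P 0 1 := fun h c => hroot c
  have Pshift : ∀ i j, P i j → P (i - 1) (j - 1) := by
    intro i j hP h c
    have hij : i ≠ j := fun e => h (by rw [e])
    have key := Cfsg.Agent.S2403.conj_transvection K n w hw' hij h
      (Cfsg.Agent.S2403.eps K n i * Cfsg.Agent.S2403.eps K n j * c)
    have e : Cfsg.Agent.S2403.eps K n i * Cfsg.Agent.S2403.eps K n j *
        (Cfsg.Agent.S2403.eps K n i * Cfsg.Agent.S2403.eps K n j * c) = c := by
      have h1 := Cfsg.Agent.S2403.eps_mul_self K n i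
      have h2 := Cfsg.Agent.S2403.eps_mul_self K n j
      calc Cfsg.Agent.S2403.eps K n i * Cfsg.Agent.S2403.eps K n j *
            (Cfsg.Agent.S2403.eps K n i * Cfsg.Agent.S2403.eps K n j * c)
          = (Cfsg.Agent.S2403.eps K n i * Cfsg.Agent.S2403.eps K n i) *
            (Cfsg.Agent.S2403.eps K n j * Cfsg.Agent.S2403.eps K n j) * c := by ring
        _ = c := by rw [h1, h2]; ring
    rw [e] at key
    rw [← key]
    exact mul_mem (mul_mem hwH (hP hij _)) (inv_mem hwH)
  have Pcomp : ∀ i j k, i ≠ j → j ≠ k → i ≠ k → P i j → P j k → P i k := by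
    intro i j k hij hjk hik h1 h2 h c
    rw [Cfsg.Agent.Lib.Helper5.SLGen.transvection_eq_commutator h hij hjk c, commutatorElement_def]
    exact mul_mem (mul_mem (mul_mem (h1 hij c) (h2 hjk 1)) (inv_mem (h1 hij c))) (inv_mem (h2 hjk 1))
  have Q1 : ∀ i : Fin (n + 1), P i (i + 1) := by
    have R : ∀ m : ℕ, P ((0 : Fin (n + 1)) - (m : Fin (n + 1))) (1 - (m : Fin (n + 1))) := by
      intro m
      induction m with
      | zero => simpa using P01
      | succ m ih =>
        have h := Pshift _ _ ih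
        have e1 : (0 : Fin (n + 1)) - (m : Fin (n + 1)) - 1 = 0 - ((m + 1 : ℕ) : Fin (n + 1)) := by
          push_cast; ring
        have e2 : (1 : Fin (n + 1)) - (m : Fin (n + 1)) - 1 = 1 - ((m + 1 : ℕ) : Fin (n + 1)) := by
          push_cast; ring
        rw [e1, e2] at h
        exact h
    intro i
    have h := R ((-i).val)
    rw [Fin.cast_val_eq_self] at h
    have e1 : (0 : Fin (n + 1)) - (-i) = i := by ring
    have e2 : (1 : Fin (n + 1)) - (-i) = i + 1 := by ring
    rw [e1, e2] at h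
    exact h
  have Qd : ∀ d : ℕ, 1 ≤ d → d ≤ n → ∀ i : Fin (n + 1), P i (i + (d : Fin (n + 1))) := by
    intro d hd
    induction d, hd using Nat.le_induction with
    | base =>
      intro _ i
      simpa using Q1 i
    | succ d hd ih =>
      intro hdn i
      have h1 := ih (by omega) i
      have h2 := Q1 (i + (d : Fin (n + 1)))
      have e : i + (d : Fin (n + 1)) + 1 = i + ((d + 1 : ℕ) : Fin (n + 1)) := by push_cast; ring
      rw [e] at h2
      refine Pcomp _ _ _ ?_ ?_ ?_ h1 h2
      · intro h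
        exact hcast d hd (by omega) (by simpa using h.symm)
      · intro h
        have h' : ((d : ℕ) : Fin (n + 1)) = ((d + 1 : ℕ) : Fin (n + 1)) := add_left_cancel h
        push_cast at h'
        exact one_ne_zero (α := Fin (n + 1)) (by simpa using h'.symm)
      · intro h
        exact hcast (d + 1) (by omega) hdn (by simpa using h.symm)
  have Pall : ∀ i j : Fin (n + 1), P i j := by
    intro i j h c
    have hd : (j - i) ≠ 0 := sub_ne_zero.mpr (Ne.symm h)
    have h1 : 1 ≤ (j - i).val := by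
      rcases Nat.eq_zero_or_pos (j - i).val with h0 | h0
      · exact absurd (Fin.ext h0) hd
      · exact h0
    have h2 : (j - i).val ≤ n := by
      have := (j - i).isLt
      omega
    have h3 := Qd (j - i).val h1 h2 i
    rw [Fin.cast_val_eq_self] at h3
    have e : i + (j - i) = j := by ring
    rw [e] at h3
    exact h3 h c
  rw [eq_top_iff]
  intro A _
  exact Cfsg.Agent.Lib.Helper5.SLGen.transvection_induction (fun A => A ∈ H)
    (fun i j h c => Pall i j h c) (fun A B hA hB => mul_mem hA hB) A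

section diag
variable {K : Type*} [Field K] {m : ℕ}

theorem diag_ne_zero (g : SpecialLinearGroup (Fin m) K) (d : Fin m → K)
    (hg : (g : Matrix (Fin m) (Fin m) K) = diagonal d) (j : Fin m) : d j ≠ 0 := by
  have h := g.2
  rw [hg, det_diagonal] at h
  intro h0
  have : ∏ i, d i = 0 := Finset.prod_eq_zero (Finset.mem_univ j) h0
  rw [this] at h
  exact zero_ne_one h

/-- Conjugating a transvection by a diagonal element. -/
theorem conj_diag (g : SpecialLinearGroup (Fin m) K) (d : Fin m → K)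
    (hg : (g : Matrix (Fin m) (Fin m) K) = diagonal d) {i j : Fin m} (hij : i ≠ j) (c : K) :
    g * SpecialLinearGroup.transvection hij c * g⁻¹ =
      SpecialLinearGroup.transvection hij (d i * c * (d j)⁻¹) := by
  rw [mul_inv_eq_iff_eq_mul]
  have hdj := diag_ne_zero g d hg j
  have key : (g : Matrix (Fin m) (Fin m) K) * (1 + single i j c) =
      (1 + single i j (d i * c * (d j)⁻¹)) * (g : Matrix (Fin m) (Fin m) K) := by
    rw [hg, mul_add, add_mul, mul_one, one_mul]
    congr 1
    ext a b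
    rw [diagonal_mul, mul_diagonal, single_apply, single_apply]
    by_cases h : i = a ∧ j = b
    · obtain ⟨rfl, rfl⟩ := h
      simp only [and_self, if_true]
      field_simp
    · rw [if_neg h, if_neg h, mul_zero, zero_mul]
  exact Subtype.ext key

theorem diag_comm (g g' : SpecialLinearGroup (Fin m) K) (d d' : Fin m → K)
    (hg : (g : Matrix (Fin m) (Fin m) K) = diagonal d)
    (hg' : (g' : Matrix (Fin m) (Fin m) K) = diagonal d') : g * g' = g' * g := by
  have key : (g : Matrix (Fin m) (Fin m) K) * (g' : Matrix (Fin m) (Fin m) K) =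
      (g' : Matrix (Fin m) (Fin m) K) * (g : Matrix (Fin m) (Fin m) K) := by
    rw [hg, hg', diagonal_mul_diagonal, diagonal_mul_diagonal]
    congr 1
    funext i
    exact mul_comm _ _
  exact Subtype.ext key

end diag

theorem w_mul_diag (K : Type*) [Field K] (n : ℕ) (d : Fin (n + 1) → K) :
    Cfsg.Agent.S2403.wMat K n * diagonal d =
      diagonal (fun i => d (i + 1)) * Cfsg.Agent.S2403.wMat K n := by
  ext a b
  rw [mul_diagonal, diagonal_mul, Cfsg.Agent.S2403.wMat_apply]
  by_cases h : a = b - 1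
  · rw [if_pos h]
    have hb : a + 1 = b := by rw [h]; ring
    rw [hb, mul_comm]
  · rw [if_neg h, zero_mul, mul_zero]

/-- Explicit two-element generation of `PSL_{n+1}(K)` for a finite field `K` with more than three elements: let `k` generate the multiplicative group of `K`, `h = diag(k, k⁻¹, 1, …, 1)`, `x = 1 + E₁₂` (the elementary transvection) and `w` the monomial matrix with entries `1` in positions `(i, i+1)` and `(−1)^n` in position `(n+1, 1)`. Then `h` and `x·w` generate `SL_{n+1}(K)` modulo its centre: the subgroup they generate together with the centre is everything. -/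
theorem result {K : Type*} [Field K] [Fintype K] (hK : 3 < Fintype.card K) (n : ℕ) (hn : 1 ≤ n)
    (k : Kˣ) (hk : ∀ u : Kˣ, u ∈ Subgroup.zpowers k)
    (h x w : Matrix.SpecialLinearGroup (Fin (n + 1)) K)
    (hh : (h : Matrix (Fin (n + 1)) (Fin (n + 1)) K) =
      Matrix.diagonal (fun i => if i.val = 0 then (k : K) else if i.val = 1 then ((k⁻¹ : Kˣ) : K) else 1))
    (hx : (x : Matrix (Fin (n + 1)) (Fin (n + 1)) K) = Matrix.transvection (0 : Fin (n + 1)) (1 : Fin (n + 1)) 1)
    (hw : (w : Matrix (Fin (n + 1)) (Fin (n + 1)) K) =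
      Matrix.of (fun i j => if j.val = i.val + 1 then 1 else if i.val = n ∧ j.val = 0 then (-1) ^ n else 0)) :
    Subgroup.closure ({h, x * w} : Set (Matrix.SpecialLinearGroup (Fin (n + 1)) K)) ⊔
      Subgroup.center (Matrix.SpecialLinearGroup (Fin (n + 1)) K) = ⊤ := by
  classical
  haveI : Nontrivial (Fin (n + 1)) := Fin.nontrivial_iff_two_le.mpr (by omega)
  set H := Subgroup.closure ({h, x * w} : Set (Matrix.SpecialLinearGroup (Fin (n + 1)) K)) with hH
  have hhH : h ∈ H := Subgroup.subset_closure (by simp)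
  have hyH : x * w ∈ H := Subgroup.subset_closure (by simp)
  have hw' : (w : Matrix (Fin (n + 1)) (Fin (n + 1)) K) = Cfsg.Agent.S2403.wMat K n := hw
  have h01 : (0 : Fin (n + 1)) ≠ 1 := zero_ne_one
  obtain ⟨T, hT⟩ : ∃ T : K → SpecialLinearGroup (Fin (n + 1)) K,
      ∀ c, T c = SpecialLinearGroup.transvection h01 c := ⟨_, fun _ => rfl⟩
  have hx' : x = T 1 := by rw [hT]; exact Subtype.ext (by rw [hx]; rfl)
  have Tadd : ∀ c₁ c₂ : K, T (c₁ + c₂) = T c₁ * T c₂ := by
    intro c₁ c₂; simp only [hT]; exact SpecialLinearGroup.transvection_add h01 c₁ c₂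
  have Tinv : ∀ c : K, (T c)⁻¹ = T (-c) := by
    intro c; simp only [hT]; exact SpecialLinearGroup.transvection_inv h01 c
  have Tzero : T 0 = 1 := by
    simp only [hT]; exact SpecialLinearGroup.transvection_coeff_zero h01
  -- facts about k
  have hord : orderOf k = Fintype.card K - 1 := by
    rw [orderOf_eq_card_of_forall_mem_zpowers hk, Nat.card_eq_fintype_card, Fintype.card_units]
  have hkk : (k : K) ^ 2 ≠ 1 := by
    intro h2
    have : k ^ 2 = 1 := Units.ext (by simpa using h2)
    have := orderOf_dvd_of_pow_eq_one this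
    have := Nat.le_of_dvd (by norm_num) this
    omega
  have hk1 : (k : K) ≠ 1 := by
    intro h1
    apply hkk
    rw [h1, one_pow]
  have hk0 : (k : K) ≠ 0 := k.ne_zero
  -- the diagonal entries
  obtain ⟨d₀, hd₀⟩ : ∃ d₀ : Fin (n + 1) → K, ∀ i, d₀ i =
      if i.val = 0 then (k : K) else if i.val = 1 then ((k⁻¹ : Kˣ) : K) else 1 := ⟨_, fun _ => rfl⟩
  have hh0 : (h : Matrix (Fin (n + 1)) (Fin (n + 1)) K) = diagonal d₀ := by
    rw [hh]; congr 1; funext i; rw [hd₀]
  have hv1 : (1 : Fin (n + 1)).val = 1 := by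
    rw [Fin.val_one', Nat.mod_eq_of_lt (by omega)]
  have d00 : d₀ 0 = k := by rw [hd₀, if_pos (Fin.val_zero (n + 1))]
  have d01 : d₀ 1 = (k : K)⁻¹ := by
    rw [hd₀, if_neg (by rw [hv1]; norm_num), if_pos hv1, Units.val_inv_eq_inv_val]
  have d02 : d₀ (1 + 1) = k ∨ d₀ (1 + 1) = 1 := by
    have hne : ((1 : Fin (n + 1)) + 1).val ≠ 1 := by
      intro hv
      have h11 : (1 : Fin (n + 1)) + 1 = 1 := Fin.ext (by rw [hv, hv1])
      exact one_ne_zero (α := Fin (n + 1)) (by simpa using h11)
    rw [hd₀]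
    by_cases h0 : ((1 : Fin (n + 1)) + 1).val = 0
    · left; rw [if_pos h0]
    · right; rw [if_neg h0, if_neg hne]
  -- the conjugate of h by w
  obtain ⟨h', hh'def⟩ : ∃ h' : SpecialLinearGroup (Fin (n + 1)) K, h' = w * h * w⁻¹ := ⟨_, rfl⟩
  have hwh : w * h = h' * w := by rw [hh'def]; group
  have hh' : (h' : Matrix (Fin (n + 1)) (Fin (n + 1)) K) = diagonal (fun i => d₀ (i + 1)) := by
    have e0 : (w : Matrix (Fin (n + 1)) (Fin (n + 1)) K) * (h : Matrix (Fin (n + 1)) (Fin (n + 1)) K) =
        (h' : Matrix (Fin (n + 1)) (Fin (n + 1)) K) * (w : Matrix (Fin (n + 1)) (Fin (n + 1)) K) :=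
      congrArg Subtype.val hwh
    have e2 : (w : Matrix (Fin (n + 1)) (Fin (n + 1)) K) *
        ((w⁻¹ : SpecialLinearGroup (Fin (n + 1)) K) : Matrix (Fin (n + 1)) (Fin (n + 1)) K) = 1 :=
      congrArg Subtype.val (mul_inv_cancel w)
    rw [hh0, hw', w_mul_diag, ← hw'] at e0
    calc (h' : Matrix (Fin (n + 1)) (Fin (n + 1)) K)
        = (h' : Matrix (Fin (n + 1)) (Fin (n + 1)) K) * ((w : Matrix (Fin (n + 1)) (Fin (n + 1)) K) *
          ((w⁻¹ : SpecialLinearGroup (Fin (n + 1)) K) : Matrix (Fin (n + 1)) (Fin (n + 1)) K)) := by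
            rw [e2, mul_one]
      _ = diagonal (fun i => d₀ (i + 1)) * ((w : Matrix (Fin (n + 1)) (Fin (n + 1)) K) *
          ((w⁻¹ : SpecialLinearGroup (Fin (n + 1)) K) : Matrix (Fin (n + 1)) (Fin (n + 1)) K)) := by
            rw [← mul_assoc, ← e0, mul_assoc]
      _ = diagonal (fun i => d₀ (i + 1)) := by rw [e2, mul_one]
  -- notation
  obtain ⟨δ, hδ⟩ : ∃ δ : K, δ = d₀ (1 + 1) := ⟨_, rfl⟩
  rw [← hδ] at d02
  have hδ0 : δ ≠ 0 := by rcases d02 with e | e <;> rw [e] <;> simp [hk0]
  have hkδ : (k : K) * δ ≠ 1 := by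
    rcases d02 with e | e
    · rw [e, ← sq]; exact hkk
    · rw [e, mul_one]; exact hk1
  have conjh : ∀ c : K, h * T c * h⁻¹ = T ((k : K) ^ 2 * c) := by
    intro c
    have := conj_diag h d₀ hh0 h01 c
    rw [d00, d01, inv_inv] at this
    rw [hT, hT, this]
    congr 1
    ring
  have conjh' : ∀ c : K, h' * T c * h'⁻¹ = T ((k : K)⁻¹ * c * δ⁻¹) := by
    intro c
    have := conj_diag h' _ hh' h01 c
    simp only [zero_add] at this
    rw [d01, ← hδ] at this
    rw [hT, hT, this]
  -- the element z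
  obtain ⟨a, ha⟩ : ∃ a : K, a = (k : K) * δ - 1 := ⟨_, rfl⟩
  have ha0 : a ≠ 0 := by rw [ha]; exact sub_ne_zero.mpr hkδ
  have e1 : x * h' = h' * T ((k : K) * δ) := by
    have := conjh' ((k : K) * δ)
    have e : (k : K)⁻¹ * ((k : K) * δ) * δ⁻¹ = 1 := by field_simp
    rw [e] at this
    rw [hx', ← this]
    group
  have hz : (x * w) * h * (x * w)⁻¹ = h' * T a := by
    calc (x * w) * h * (x * w)⁻¹ = x * h' * x⁻¹ := by rw [hh'def]; group
      _ = h' * T ((k : K) * δ) * x⁻¹ := by rw [e1]
      _ = h' * (T ((k : K) * δ) * T (-1)) := by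
          rw [hx', Tinv, mul_assoc]
      _ = h' * T a := by
          rw [← Tadd, ha, sub_eq_add_neg]
  have hzH : h' * T a ∈ H := by
    rw [← hz]
    exact mul_mem (mul_mem hyH hhH) (inv_mem hyH)
  obtain ⟨b, hb⟩ : ∃ b : K, b = (k : K)⁻¹ * (((k : K) ^ 2 - 1) * a) * δ⁻¹ := ⟨_, rfl⟩
  have hb0 : b ≠ 0 := by
    rw [hb]
    refine mul_ne_zero (mul_ne_zero (inv_ne_zero hk0) (mul_ne_zero (sub_ne_zero.mpr hkk) ha0))
      (inv_ne_zero hδ0)
  have hcomm : h * (h' * T a) * h⁻¹ * (h' * T a)⁻¹ = T b := by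
    have hc := diag_comm h h' _ _ hh0 hh'
    calc h * (h' * T a) * h⁻¹ * (h' * T a)⁻¹
        = (h * h') * T a * h⁻¹ * (T a)⁻¹ * h'⁻¹ := by group
      _ = (h' * h) * T a * h⁻¹ * (T a)⁻¹ * h'⁻¹ := by rw [hc]
      _ = h' * ((h * T a * h⁻¹) * (T a)⁻¹) * h'⁻¹ := by group
      _ = h' * (T ((k : K) ^ 2 * a) * T (-a)) * h'⁻¹ := by
          rw [conjh, Tinv]
      _ = h' * T (((k : K) ^ 2 - 1) * a) * h'⁻¹ := by
          rw [← Tadd]
          congr 3
          ring
      _ = T b := by rw [conjh', hb]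
  have hTb : T b ∈ H := by
    rw [← hcomm]
    exact mul_mem (mul_mem (mul_mem hhH hzH) (inv_mem hhH)) (inv_mem hzH)
  -- the set of c with T c in H
  have S_add : ∀ c₁ c₂ : K, T c₁ ∈ H → T c₂ ∈ H → T (c₁ + c₂) ∈ H := by
    intro c₁ c₂ h1 h2
    rw [Tadd]
    exact mul_mem h1 h2
  have S_neg : ∀ c : K, T c ∈ H → T (-c) ∈ H := by
    intro c h1
    rw [← Tinv]
    exact inv_mem h1
  have S_zero : T 0 ∈ H := by
    rw [Tzero]
    exact one_mem _
  have S_k : ∀ c : K, T c ∈ H → T ((k : K) ^ 2 * c) ∈ H := by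
    intro c h1
    rw [← conjh]
    exact mul_mem (mul_mem hhH h1) (inv_mem hhH)
  have S_pow : ∀ (j : ℕ) (c : K), T c ∈ H → T (((k : K) ^ j) ^ 2 * c) ∈ H := by
    intro j
    induction j with
    | zero => intro c h1; simpa using h1
    | succ j ih =>
      intro c h1
      have := S_k _ (ih c h1)
      have e : (k : K) ^ 2 * (((k : K) ^ j) ^ 2 * c) = ((k : K) ^ (j + 1)) ^ 2 * c := by ring
      rw [e] at this
      exact this
  have S_sq : ∀ (u c : K), T c ∈ H → T (u ^ 2 * c) ∈ H := by
    intro u c h1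
    by_cases hu : u = 0
    · rw [hu]
      simpa using S_zero
    · have hmem := hk (Units.mk0 u hu)
      rw [← mem_powers_iff_mem_zpowers] at hmem
      obtain ⟨j, hj⟩ := hmem
      have hj' : (k : K) ^ j = u := by
        have := congrArg (fun v : Kˣ => (v : K)) hj
        simpa using this
      rw [← hj']
      exact S_pow j c h1
  have hroot : ∀ t : K, T t ∈ H := by
    intro t
    by_cases h2 : ringChar K = 2
    · obtain ⟨r, hr⟩ := FiniteField.isSquare_of_char_two h2 (t / b)
      have := S_sq r b hTb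
      have e : r ^ 2 * b = t := by
        rw [sq, ← hr]
        field_simp
      rw [e] at this
      exact this
    · have h2' : (2 : K) ≠ 0 := Ring.two_ne_zero h2
      have h1 := S_sq ((t / b + 1) / 2) b hTb
      have h3 := S_neg _ (S_sq ((t / b - 1) / 2) b hTb)
      have := S_add _ _ h1 h3
      have e : ((t / b + 1) / 2) ^ 2 * b + -(((t / b - 1) / 2) ^ 2 * b) = t := by
        field_simp
        ring
      rw [e] at this
      exact this
  have hxH : x ∈ H := by rw [hx']; exact hroot 1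
  have hwH : w ∈ H := by
    have : w = x⁻¹ * (x * w) := by group
    rw [this]
    exact mul_mem (inv_mem hxH) hyH
  have Htop : H = ⊤ := top_of_root K n hn H w hw' hwH h01 (fun c => by rw [← hT]; exact hroot c)
  rw [Htop]
  simp

end Cfsg.Agent.S2402
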