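import Cfsg.Statements.S2411
import Mathlib
import Cfsg.Agent.S2402
import Cfsg.Agent.Lib.Helper5.SpPerfect

set_option autoImplicit false
open Cfsg

namespace Cfsg.Agent.S2411

open Matrix

section basics
variable {F : Type*} [Field F] {m : ℕ}

/-- The Levi embedding of `GL_m` into `Sp_2m`. -/
def Lm (A : GL (Fin m) F) : Matrix (Fin m ⊕ Fin m) (Fin m ⊕ Fin m) F :=
  fromBlocks (A : Matrix (Fin m) (Fin m) F) 0 0
    ((A⁻¹ : GL (Fin m) F) : Matrix (Fin m) (Fin m) F)ᵀ

/-- Upper unipotent radical. -/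
def sU (S : Matrix (Fin m) (Fin m) F) : Matrix (Fin m ⊕ Fin m) (Fin m ⊕ Fin m) F :=
  fromBlocks 1 S 0 1

/-- Lower unipotent radical. -/
def sL (S : Matrix (Fin m) (Fin m) F) : Matrix (Fin m ⊕ Fin m) (Fin m ⊕ Fin m) F :=
  fromBlocks 1 0 S 1

theorem Lm_one : Lm (1 : GL (Fin m) F) = 1 := by
  simp [Lm]

theorem Lm_mul (A B : GL (Fin m) F) : Lm (A * B) = Lm A * Lm B := by
  unfold Lm
  rw [fromBlocks_multiply]
  simp [_root_.mul_inv_rev, transpose_mul]

theorem Lm_pow (A : GL (Fin m) F) (j : ℕ) : Lm (A ^ j) = Lm A ^ j := by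
  induction j with
  | zero => simp [Lm_one]
  | succ j ih => rw [pow_succ, Lm_mul, ih, pow_succ]

theorem Lm_mem (A : GL (Fin m) F) : Lm A ∈ symplecticGroup (Fin m) F := by
  apply Cfsg.Agent.Lib.Helper5.SpPerfect.diag_mem
  rw [← transpose_mul, ← Units.val_mul, inv_mul_cancel, Units.val_one, transpose_one]

theorem sU_mem (S : Matrix (Fin m) (Fin m) F) (hS : Sᵀ = S) :
    sU S ∈ symplecticGroup (Fin m) F :=
  Cfsg.Agent.Lib.Helper5.SpPerfect.upper_mem m S hS

theorem sL_mem (S : Matrix (Fin m) (Fin m) F) (hS : Sᵀ = S) :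
    sL S ∈ symplecticGroup (Fin m) F := by
  unfold sL
  rw [SymplecticGroup.fromBlocks_mem_iff]
  simp [hS]

theorem sU_add (S T : Matrix (Fin m) (Fin m) F) : sU (S + T) = sU S * sU T := by
  unfold sU
  rw [fromBlocks_multiply]
  simp [add_comm]

theorem sL_add (S T : Matrix (Fin m) (Fin m) F) : sL (S + T) = sL S * sL T := by
  unfold sL
  rw [fromBlocks_multiply]
  simp

theorem sU_zero : sU (0 : Matrix (Fin m) (Fin m) F) = 1 := by
  simp [sU]

theorem sL_zero : sL (0 : Matrix (Fin m) (Fin m) F) = 1 := by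
  simp [sL]

theorem Lm_sU (A : GL (Fin m) F) (S : Matrix (Fin m) (Fin m) F) :
    Lm A * sU S = sU ((A : Matrix (Fin m) (Fin m) F) * S * (A : Matrix (Fin m) (Fin m) F)ᵀ) * Lm A := by
  unfold Lm sU
  rw [fromBlocks_multiply, fromBlocks_multiply]
  have h : (A : Matrix (Fin m) (Fin m) F)ᵀ * ((A⁻¹ : GL (Fin m) F) : Matrix (Fin m) (Fin m) F)ᵀ = 1 := by
    rw [← transpose_mul, ← Units.val_mul, inv_mul_cancel, Units.val_one, transpose_one]
  simp only [Matrix.mul_one, Matrix.one_mul, Matrix.mul_zero, Matrix.zero_mul, add_zero, zero_add]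
  rw [Matrix.mul_assoc _ _ (((A⁻¹ : GL (Fin m) F) : Matrix (Fin m) (Fin m) F)ᵀ), h, Matrix.mul_one]

theorem sL_Lm (A : GL (Fin m) F) (S : Matrix (Fin m) (Fin m) F) :
    sL S * Lm A = Lm A * sL ((A : Matrix (Fin m) (Fin m) F)ᵀ * S * (A : Matrix (Fin m) (Fin m) F)) := by
  unfold Lm sL
  rw [fromBlocks_multiply, fromBlocks_multiply]
  have h : ((A⁻¹ : GL (Fin m) F) : Matrix (Fin m) (Fin m) F)ᵀ * (A : Matrix (Fin m) (Fin m) F)ᵀ = 1 := by
    rw [← transpose_mul, ← Units.val_mul, mul_inv_cancel, Units.val_one, transpose_one]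
  simp only [Matrix.mul_one, Matrix.one_mul, Matrix.mul_zero, Matrix.zero_mul, add_zero, zero_add]
  rw [← Matrix.mul_assoc, ← Matrix.mul_assoc, h, Matrix.one_mul]

/-- Membership of a matrix in a subgroup of the symplectic group. -/
def InH (H : Subgroup (symplecticGroup (Fin m) F))
    (M : Matrix (Fin m ⊕ Fin m) (Fin m ⊕ Fin m) F) : Prop :=
  ∃ g ∈ H, (g : Matrix (Fin m ⊕ Fin m) (Fin m ⊕ Fin m) F) = M

theorem InH.one (H : Subgroup (symplecticGroup (Fin m) F)) : InH H 1 := ⟨1, one_mem _, rfl⟩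

theorem InH.mul {H : Subgroup (symplecticGroup (Fin m) F)}
    {M N : Matrix (Fin m ⊕ Fin m) (Fin m ⊕ Fin m) F} (hM : InH H M) (hN : InH H N) :
    InH H (M * N) := by
  obtain ⟨g, hg, rfl⟩ := hM
  obtain ⟨h, hh, rfl⟩ := hN
  exact ⟨g * h, mul_mem hg hh, rfl⟩

theorem InH.pow {H : Subgroup (symplecticGroup (Fin m) F)}
    {M : Matrix (Fin m ⊕ Fin m) (Fin m ⊕ Fin m) F} (hM : InH H M) (j : ℕ) :
    InH H (M ^ j) := by
  induction j with
  | zero => rw [pow_zero]; exact InH.one H
  | succ j ih => rw [pow_succ]; exact ih.mul hM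

theorem InH.cancel_left {H : Subgroup (symplecticGroup (Fin m) F)}
    {M X : Matrix (Fin m ⊕ Fin m) (Fin m ⊕ Fin m) F} (hM : InH H M) (hMX : InH H (M * X)) :
    InH H X := by
  obtain ⟨g, hg, rfl⟩ := hM
  obtain ⟨h, hh, hh'⟩ := hMX
  refine ⟨g⁻¹ * h, mul_mem (inv_mem hg) hh, ?_⟩
  have e : ((g⁻¹ : symplecticGroup (Fin m) F) : Matrix (Fin m ⊕ Fin m) (Fin m ⊕ Fin m) F) *
      (g : Matrix (Fin m ⊕ Fin m) (Fin m ⊕ Fin m) F) = 1 :=
    congrArg Subtype.val (inv_mul_cancel g)
  show ((g⁻¹ : symplecticGroup (Fin m) F) : Matrix (Fin m ⊕ Fin m) (Fin m ⊕ Fin m) F) *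
      (h : Matrix (Fin m ⊕ Fin m) (Fin m ⊕ Fin m) F) = X
  rw [hh', ← Matrix.mul_assoc, e, Matrix.one_mul]

theorem InH.cancel_right {H : Subgroup (symplecticGroup (Fin m) F)}
    {M X : Matrix (Fin m ⊕ Fin m) (Fin m ⊕ Fin m) F} (hM : InH H M) (hXM : InH H (X * M)) :
    InH H X := by
  obtain ⟨g, hg, rfl⟩ := hM
  obtain ⟨h, hh, hh'⟩ := hXM
  refine ⟨h * g⁻¹, mul_mem hh (inv_mem hg), ?_⟩
  have e : (g : Matrix (Fin m ⊕ Fin m) (Fin m ⊕ Fin m) F) *
      ((g⁻¹ : symplecticGroup (Fin m) F) : Matrix (Fin m ⊕ Fin m) (Fin m ⊕ Fin m) F) = 1 :=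
    congrArg Subtype.val (mul_inv_cancel g)
  show (h : Matrix (Fin m ⊕ Fin m) (Fin m ⊕ Fin m) F) *
      ((g⁻¹ : symplecticGroup (Fin m) F) : Matrix (Fin m ⊕ Fin m) (Fin m ⊕ Fin m) F) = X
  rw [hh', Matrix.mul_assoc, e, Matrix.mul_one]

theorem InH.of_mul_eq_one {H : Subgroup (symplecticGroup (Fin m) F)}
    {M N : Matrix (Fin m ⊕ Fin m) (Fin m ⊕ Fin m) F} (hM : InH H M) (h : M * N = 1) :
    InH H N := by
  apply InH.cancel_left hM
  rw [h]
  exact InH.one H

theorem InH.mem {H : Subgroup (symplecticGroup (Fin m) F)}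
    {M : Matrix (Fin m ⊕ Fin m) (Fin m ⊕ Fin m) F} (hM : InH H M)
    (h : M ∈ symplecticGroup (Fin m) F) : (⟨M, h⟩ : symplecticGroup (Fin m) F) ∈ H := by
  obtain ⟨g, hg, rfl⟩ := hM
  exact hg

theorem InH.of_mem {H : Subgroup (symplecticGroup (Fin m) F)}
    {g : symplecticGroup (Fin m) F} (hg : g ∈ H) :
    InH H (g : Matrix (Fin m ⊕ Fin m) (Fin m ⊕ Fin m) F) := ⟨g, hg, rfl⟩

end basics

section wfacts
variable (K : Type*) [Field K] (n : ℕ)
open Cfsg.Agent.S2403 (wMat eps wMat_apply eps_mul_self)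
open Fin.CommRing Fin.NatCast

theorem det_wMat : (wMat K n).det = 1 := by
  have h : wMat K n = (diagonal (eps K n)).submatrix (finRotate (n + 1)) id := by
    ext a i
    rw [wMat_apply, submatrix_apply, id, diagonal_apply, finRotate_succ_apply]
    by_cases h : a = i - 1
    · have h' : a + 1 = i := by rw [h]; ring
      rw [if_pos h, if_pos h', h']
    · rw [if_neg h, if_neg (fun h' => h (by rw [← h']; ring))]
  rw [h, det_permute, det_diagonal, sign_finRotate, Fin.prod_univ_succ, Nat.add_sub_cancel]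
  have h1 : ∏ i : Fin n, eps K n i.succ = 1 := by
    apply Finset.prod_eq_one
    intro i _
    unfold eps
    rw [if_neg (by simp)]
  rw [h1, mul_one]
  have h2 : eps K n 0 = (-1) ^ n := by
    unfold eps
    rw [if_pos (by simp)]
  rw [h2]
  push_cast
  rw [← mul_pow]
  simp

theorem wMat_orth : (wMat K n)ᵀ * wMat K n = 1 := by
  ext i j
  rw [mul_apply, one_apply]
  simp only [transpose_apply, wMat_apply]
  rw [Finset.sum_eq_single (i - 1)]
  · rw [if_pos rfl]
    by_cases h : i = j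
    · subst h; rw [if_pos rfl, if_pos rfl, eps_mul_self]
    · rw [if_neg h, if_neg (fun h' => h (sub_left_injective h')), mul_zero]
  · intro b _ hb; rw [if_neg hb, zero_mul]
  · intro h; exact absurd (Finset.mem_univ _) h

theorem wMat_conj_diag (d : Fin (n + 1) → K) :
    (wMat K n)ᵀ * diagonal d * wMat K n = diagonal (fun i => d (i - 1)) := by
  have h := Cfsg.Agent.S2402.w_mul_diag K n (fun i => d (i - 1))
  simp only [add_sub_cancel_right] at h
  rw [Matrix.mul_assoc, ← h, ← Matrix.mul_assoc, wMat_orth, Matrix.one_mul]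

theorem wMat_pow (j : ℕ) (a i : Fin (n + 1)) :
    (wMat K n ^ j) a i = if a = i - (j : Fin (n + 1)) then
      ∏ l ∈ Finset.range j, eps K n (i - (l : Fin (n + 1))) else 0 := by
  induction j generalizing a i with
  | zero => simp [one_apply]
  | succ j ih =>
    rw [pow_succ, mul_apply, Finset.sum_eq_single (i - 1)]
    · rw [ih, wMat_apply, if_pos rfl, Finset.prod_range_succ']
      have e : i - ((j + 1 : ℕ) : Fin (n + 1)) = i - 1 - (j : Fin (n + 1)) := by
        push_cast; ring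
      rw [e]
      by_cases h : a = i - 1 - (j : Fin (n + 1))
      · rw [if_pos h, if_pos h]
        congr 1
        · apply Finset.prod_congr rfl
          intro l _
          congr 1
          push_cast; ring
        · simp
      · rw [if_neg h, if_neg h, zero_mul]
    · intro b _ hb; rw [wMat_apply, if_neg hb, mul_zero]
    · intro h; exact absurd (Finset.mem_univ _) h

theorem wMat_pow_full : ∃ z : Fin (n + 1) → K, (∀ i, z i * z i = 1) ∧
    ((-1 : K) = 1 → ∀ i, z i = 1) ∧ wMat K n ^ (n + 1) = diagonal z := by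
  refine ⟨fun i => ∏ l ∈ Finset.range (n + 1), eps K n (i - (l : Fin (n + 1))), ?_, ?_, ?_⟩
  · intro i
    rw [← Finset.prod_mul_distrib]
    exact Finset.prod_eq_one (fun l _ => eps_mul_self K n _)
  · intro h i
    apply Finset.prod_eq_one
    intro l _
    unfold eps
    split_ifs <;> simp [h]
  · ext a i
    rw [wMat_pow, diagonal_apply]
    have h0 : ((n + 1 : ℕ) : Fin (n + 1)) = 0 := by simp
    rw [h0, sub_zero]
    by_cases h : a = i
    · subst h; rw [if_pos rfl]
    · rw [if_neg h, if_neg h]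

end wfacts

section Plemmas
variable {F : Type*} [Field F] {m : ℕ}

theorem sq_all [Finite F] (A : AddSubgroup F) (c1 : F) (hc1 : c1 ≠ 0)
    (h : ∀ t : F, c1 * t ^ 2 ∈ A) (c : F) : c ∈ A := by
  by_cases h2 : (2 : F) = 0
  · have hinj : Function.Injective (fun t : F => t ^ 2) := by
      intro t s hts
      simp only at hts
      have h3 : (t - s) ^ 2 = 0 := by
        have h4 : (t - s) ^ 2 = t ^ 2 - 2 * (t * s) + s ^ 2 := by ring
        rw [h4, hts]; linear_combination (s ^ 2 - t * s) * h2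
      exact sub_eq_zero.mp (pow_eq_zero_iff (two_ne_zero)|>.mp h3)
    obtain ⟨t, ht⟩ := (Finite.injective_iff_surjective.mp hinj) (c / c1)
    have h5 := h t
    simp only at ht
    rw [ht, mul_div_cancel₀ c hc1] at h5
    exact h5
  · have e : c = c1 * ((c / c1 + 1) / 2) ^ 2 - c1 * ((c / c1 - 1) / 2) ^ 2 := by
      field_simp; ring
    rw [e]
    exact A.sub_mem (h _) (h _)

theorem symm_all (𝒮 : AddSubgroup (Matrix (Fin m) (Fin m) F))
    (hd : ∀ (j : Fin m) (c : F), single j j c ∈ 𝒮)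
    (ho : ∀ (i j : Fin m), i ≠ j → ∀ c : F, single i j c + single j i c ∈ 𝒮)
    (S : Matrix (Fin m) (Fin m) F) (hS : Sᵀ = S) : S ∈ 𝒮 := by
  classical
  obtain ⟨U, hU⟩ : ∃ U : Matrix (Fin m) (Fin m) F, U = Matrix.of (fun i j => if i < j then S i j else 0) :=
    ⟨_, rfl⟩
  have hUa : ∀ i j, U i j = if i < j then S i j else 0 := by
    intro i j; rw [hU]; rfl
  have e1 : U = ∑ i, ∑ j, single i j (U i j) := matrix_eq_sum_single U
  have e2 : Uᵀ = ∑ i, ∑ j, single j i (U i j) := by
    conv_lhs => rw [e1]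
    rw [transpose_sum]
    apply Finset.sum_congr rfl; intro i _
    rw [transpose_sum]
    apply Finset.sum_congr rfl; intro j _
    rw [transpose_single]
  have hUU : U + Uᵀ ∈ 𝒮 := by
    have e3 : U + Uᵀ = ∑ i, ∑ j, (single i j (U i j) + single j i (U i j)) := by
      simp only [Finset.sum_add_distrib]
      rw [← e1, ← e2]
    rw [e3]
    refine sum_mem (fun i _ => sum_mem (fun j _ => ?_))
    rw [hUa]
    by_cases hij : i < j
    · rw [if_pos hij]; exact ho i j hij.ne _
    · rw [if_neg hij]; simp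
  have hD : diagonal (fun i => S i i) ∈ 𝒮 := by
    rw [← sum_single_eq_diagonal]; exact sum_mem (fun i _ => hd i _)
  have e : S = U + Uᵀ + diagonal (fun i => S i i) := by
    ext a b
    rw [Matrix.add_apply, Matrix.add_apply, transpose_apply, diagonal_apply, hUa, hUa]
    rcases lt_trichotomy a b with h | h | h
    · rw [if_pos h, if_neg (not_lt.mpr h.le), if_neg h.ne]; simp
    · subst h; simp
    · rw [if_neg (not_lt.mpr h.le), if_pos h, if_neg h.ne']
      have h1 := congrFun (congrFun hS a) b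
      rw [transpose_apply] at h1
      rw [h1]; simp
  rw [e]; exact 𝒮.add_mem hUU hD

theorem move_vec (𝒮 : AddSubgroup (Matrix (Fin m) (Fin m) F))
    (hinv : ∀ (A : SpecialLinearGroup (Fin m) F) (S : Matrix (Fin m) (Fin m) F), S ∈ 𝒮 →
      (A : Matrix (Fin m) (Fin m) F)ᵀ * S * (A : Matrix (Fin m) (Fin m) F) ∈ 𝒮)
    (c1 : F) (v : Fin m → F) (hv : c1 • vecMulVec v v ∈ 𝒮) (a b : Fin m) (hab : a ≠ b) (t : F)
    (v' : Fin m → F) (hv' : v' = v + (t * v b) • Pi.single a 1) :
    c1 • vecMulVec v' v' ∈ 𝒮 := by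
  have h := hinv (SpecialLinearGroup.transvection hab.symm t) _ hv
  rw [SpecialLinearGroup.transvection_coe] at h
  have e : (1 + single b a t : Matrix (Fin m) (Fin m) F)ᵀ *ᵥ v = v' := by
    rw [transpose_add, transpose_one, transpose_single, add_mulVec, one_mulVec, single_mulVec_eq, hv']
  rw [Matrix.mul_smul, Matrix.smul_mul, mul_vecMulVec, vecMulVec_mul, ← mulVec_transpose, e] at h
  exact h

theorem rank_one_all [Finite F] (𝒮 : AddSubgroup (Matrix (Fin m) (Fin m) F))
    (hinv : ∀ (A : SpecialLinearGroup (Fin m) F) (S : Matrix (Fin m) (Fin m) F), S ∈ 𝒮 →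
      (A : Matrix (Fin m) (Fin m) F)ᵀ * S * (A : Matrix (Fin m) (Fin m) F) ∈ 𝒮)
    (hm : 2 ≤ m) (j0 : Fin m) (c1 : F) (hc1 : c1 ≠ 0) (h0 : single j0 j0 c1 ∈ 𝒮)
    (S : Matrix (Fin m) (Fin m) F) (hS : Sᵀ = S) : S ∈ 𝒮 := by
  classical
  have mv := move_vec 𝒮 hinv c1
  have hsingle : ∀ i j : Fin m, vecMulVec (Pi.single i (1 : F)) (Pi.single j (1 : F)) = single i j 1 :=
    fun i j => (single_eq_single_vecMulVec_single i j).symm
  have hne : ∀ i : Fin m, ∃ j : Fin m, j ≠ i := by
    intro i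
    by_cases hi : i.val = 0
    · exact ⟨⟨1, by omega⟩, fun h => by rw [← h] at hi; simp at hi⟩
    · exact ⟨⟨0, by omega⟩, fun h => by rw [← h] at hi; simp at hi⟩
  have he : ∀ i : Fin m, c1 • vecMulVec (Pi.single i (1 : F)) (Pi.single i (1 : F)) ∈ 𝒮 := by
    intro i
    have hj0 : c1 • vecMulVec (Pi.single j0 (1 : F)) (Pi.single j0 (1 : F)) ∈ 𝒮 := by
      rw [hsingle, smul_single, smul_eq_mul, mul_one]; exact h0
    by_cases hi : i = j0
    · rw [hi]; exact hj0
    · have h1 := mv _ hj0 i j0 hi 1 (Pi.single j0 1 + Pi.single i 1) (by simp)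
      exact mv _ h1 j0 i (Ne.symm hi) (-1) (Pi.single i 1) (by
        ext x
        simp [Pi.single_apply, hi])
  have hdiag : ∀ (i : Fin m) (t : F), single i i (c1 * t ^ 2) ∈ 𝒮 := by
    intro i t
    by_cases ht : t = 0
    · rw [ht]; simp
    · obtain ⟨j, hj⟩ := hne i
      have h1 := mv _ (he i) j i hj 1 (Pi.single i 1 + Pi.single j 1) (by simp)
      have h2 := mv _ h1 i j hj.symm (t - 1) (t • Pi.single i 1 + Pi.single j 1) (by
        ext x
        simp [Pi.single_apply]
        split_ifs <;> ring)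
      have h3 := mv _ h2 j i hj (-t⁻¹) (t • Pi.single i 1) (by
        ext x
        simp [Pi.single_apply, hj.symm, ht])
      rw [smul_vecMulVec, vecMulVec_smul, hsingle, smul_smul, smul_smul, smul_single, smul_eq_mul,
        mul_one] at h3
      convert h3 using 2
      ring
  have hd : ∀ (j : Fin m) (c : F), single j j c ∈ 𝒮 := by
    intro j c
    exact AddSubgroup.mem_comap.mp (sq_all (𝒮.comap (singleAddMonoidHom j j)) c1 hc1
      (fun t => AddSubgroup.mem_comap.mpr (hdiag j t)) c)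
  have ho : ∀ i j : Fin m, i ≠ j → ∀ c : F, single i j c + single j i c ∈ 𝒮 := by
    intro i j hij c
    have h1 := mv _ (he j) i j hij (c / c1) (Pi.single j 1 + (c / c1) • Pi.single i 1) (by simp)
    have e : c1 • vecMulVec (Pi.single j 1 + (c / c1) • Pi.single i (1 : F))
        (Pi.single j 1 + (c / c1) • Pi.single i (1 : F)) =
        single j j c1 + (single i j c + single j i c) + single i i (c1 * (c / c1) ^ 2) := by
      simp only [add_vecMulVec, vecMulVec_add, smul_vecMulVec, vecMulVec_smul, hsingle, smul_add,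
        smul_single, smul_eq_mul, mul_one]
      have e1 : c1 * (c / c1) = c := mul_div_cancel₀ c hc1
      have e2 : c1 * (c / c1 * (c / c1)) = c1 * (c / c1) ^ 2 := by ring
      rw [e1, e2]
      abel
    rw [e] at h1
    have h2 := 𝒮.sub_mem (𝒮.sub_mem h1 (hd i (c1 * (c / c1) ^ 2))) (hd j c1)
    convert h2 using 1
    abel
  exact symm_all 𝒮 hd ho S hS

theorem exists_rank_one (𝒮 : AddSubgroup (Matrix (Fin m) (Fin m) F))
    (hinv : ∀ (A : SpecialLinearGroup (Fin m) F) (S : Matrix (Fin m) (Fin m) F), S ∈ 𝒮 →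
      (A : Matrix (Fin m) (Fin m) F)ᵀ * S * (A : Matrix (Fin m) (Fin m) F) ∈ 𝒮)
    (hm : 2 ≤ m) (c0 : F) (hc0 : c0 ≠ 0) (hI : c0 • (1 : Matrix (Fin m) (Fin m) F) ∈ 𝒮)
    (hcase : 3 ≤ m ∨ (2 : F) ≠ 0 ∨ ∃ t : F, t ≠ 0 ∧ t ^ 2 ≠ 1) :
    ∃ (j : Fin m) (c1 : F), c1 ≠ 0 ∧ single j j c1 ∈ 𝒮 := by
  classical
  have cong : ∀ (p q : Fin m) (hpq : p ≠ q) (s : F) (S : Matrix (Fin m) (Fin m) F), S ∈ 𝒮 →
      S + single q p s * S + S * single p q s + single q p s * S * single p q s ∈ 𝒮 := by
    intro p q hpq s S hS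
    have h := hinv (SpecialLinearGroup.transvection hpq s) S hS
    rw [SpecialLinearGroup.transvection_coe, transpose_add, transpose_one, transpose_single] at h
    convert h using 1
    simp only [add_mul, mul_add, Matrix.one_mul, Matrix.mul_one]
    abel
  have hR : ∀ (i j : Fin m), i ≠ j → ∀ t : F,
      single i j (c0 * t) + single j i (c0 * t) + single j j (c0 * t * t) ∈ 𝒮 := by
    intro i j hij t
    have h := cong i j hij t _ hI
    have e : c0 • (1 : Matrix (Fin m) (Fin m) F) + single j i t * (c0 • (1 : Matrix (Fin m) (Fin m) F)) +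
        (c0 • (1 : Matrix (Fin m) (Fin m) F)) * single i j t +
        single j i t * (c0 • (1 : Matrix (Fin m) (Fin m) F)) * single i j t =
        c0 • (1 : Matrix (Fin m) (Fin m) F) +
          (single i j (c0 * t) + single j i (c0 * t) + single j j (c0 * t * t)) := by
      simp only [Matrix.mul_smul, Matrix.smul_mul, Matrix.mul_one, Matrix.one_mul, smul_single,
        smul_eq_mul, single_mul_single_same]
      abel
    rw [e] at h
    have h' := 𝒮.sub_mem h hI
    rwa [add_sub_cancel_left] at h'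
  have h01 : ∃ i j : Fin m, i ≠ j := ⟨⟨0, by omega⟩, ⟨1, by omega⟩, by simp [Fin.ext_iff]⟩
  rcases hcase with h3 | h2 | ⟨t, ht0, ht1⟩
  · obtain ⟨i, j, l, hij, hil, hjl⟩ : ∃ i j l : Fin m, i ≠ j ∧ i ≠ l ∧ j ≠ l :=
      ⟨⟨0, by omega⟩, ⟨1, by omega⟩, ⟨2, by omega⟩, by simp [Fin.ext_iff], by simp [Fin.ext_iff],
        by simp [Fin.ext_iff]⟩
    have hA := cong l i hil.symm 1 _ (hR l j hjl.symm 1)
    have e : single l j (c0 * 1) + single j l (c0 * 1) + single j j (c0 * 1 * 1) +
        single i l (1 : F) * (single l j (c0 * 1) + single j l (c0 * 1) + single j j (c0 * 1 * 1)) +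
        (single l j (c0 * 1) + single j l (c0 * 1) + single j j (c0 * 1 * 1)) * single l i (1 : F) +
        single i l (1 : F) * (single l j (c0 * 1) + single j l (c0 * 1) + single j j (c0 * 1 * 1)) *
          single l i (1 : F) =
        (single l j (c0 * 1) + single j l (c0 * 1) + single j j (c0 * 1 * 1)) +
          (single i j c0 + single j i c0) := by
      simp only [add_mul, mul_add, single_mul_single_same, mul_one, one_mul,
        single_mul_single_of_ne (c := (1 : F)) i l j hjl.symm,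
        single_mul_single_of_ne (c := c0) l j l hjl,
        single_mul_single_of_ne (c := c0) j j l hjl,
        single_mul_single_of_ne (c := c0) i j l hjl, add_zero, zero_add]
      abel
    rw [e] at hA
    have hB := 𝒮.sub_mem hA (hR l j hjl.symm 1)
    rw [add_sub_cancel_left] at hB
    have hC := 𝒮.sub_mem (hR i j hij 1) hB
    refine ⟨j, c0, hc0, ?_⟩
    convert hC using 1
    simp only [mul_one]
    abel
  · obtain ⟨i, j, hij⟩ := h01
    have h1 := hR i j hij 1
    have h2' := hR i j hij (-1)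
    refine ⟨j, c0 + c0, ?_, ?_⟩
    · rw [← two_mul]; exact mul_ne_zero h2 hc0
    · have h3 := 𝒮.add_mem h1 h2'
      convert h3 using 1
      rw [single_add]
      simp only [mul_one, mul_neg, neg_neg, ← single_neg]
      abel
  · obtain ⟨i, j, hij⟩ := h01
    have hQ : ∀ t' : F, t' ≠ 0 → single j j (c0 * t' * t') + single i i (-c0) ∈ 𝒮 := by
      intro t' ht'
      have h := cong j i hij.symm (-t'⁻¹) _ (hR i j hij t')
      have e : single i j (c0 * t') + single j i (c0 * t') + single j j (c0 * t' * t') +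
          single i j (-t'⁻¹) * (single i j (c0 * t') + single j i (c0 * t') + single j j (c0 * t' * t')) +
          (single i j (c0 * t') + single j i (c0 * t') + single j j (c0 * t' * t')) * single j i (-t'⁻¹) +
          single i j (-t'⁻¹) * (single i j (c0 * t') + single j i (c0 * t') + single j j (c0 * t' * t')) *
            single j i (-t'⁻¹) =
          single i j (c0 * t' + -t'⁻¹ * (c0 * t' * t')) + single j i (c0 * t' + c0 * t' * t' * -t'⁻¹) +
            single j j (c0 * t' * t') +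
            single i i (-t'⁻¹ * (c0 * t') + c0 * t' * -t'⁻¹ + -t'⁻¹ * (c0 * t' * t') * -t'⁻¹) := by
        simp only [add_mul, mul_add, single_mul_single_same,
          single_mul_single_of_ne (c := -t'⁻¹) i j i hij.symm,
          single_mul_single_of_ne (c := c0 * t') j i j hij,
          single_mul_single_of_ne (c := -t'⁻¹ * (c0 * t')) i i j hij, add_zero, zero_add, single_add]
        abel
      rw [e] at h
      have e1 : c0 * t' + -t'⁻¹ * (c0 * t' * t') = 0 := by field_simp; ring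
      have e2 : c0 * t' + c0 * t' * t' * -t'⁻¹ = 0 := by field_simp; ring
      have e3 : -t'⁻¹ * (c0 * t') + c0 * t' * -t'⁻¹ + -t'⁻¹ * (c0 * t' * t') * -t'⁻¹ = -c0 := by
        field_simp; ring
      rw [e1, e2, e3] at h
      simpa using h
    have h1 := hQ t ht0
    have h2' := hQ 1 one_ne_zero
    have h3 := 𝒮.sub_mem h1 h2'
    refine ⟨j, c0 * t * t - c0, ?_, ?_⟩
    · have : c0 * t * t - c0 = c0 * (t ^ 2 - 1) := by ring
      rw [this]
      exact mul_ne_zero hc0 (sub_ne_zero.mpr ht1)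
    · convert h3 using 1
      rw [sub_eq_add_neg (c0 * t * t), single_add, ← single_neg]
      simp only [mul_one]
      abel

end Plemmas

section lemmaA
variable {F : Type*} [Field F] [Fintype F] (n : ℕ)
open Cfsg.Agent.S2403 (wMat)

theorem lemmaA (hn : 1 ≤ n) (H : Subgroup (symplecticGroup (Fin (n + 1)) F))
    (w : SpecialLinearGroup (Fin (n + 1)) F)
    (hw : (w : Matrix (Fin (n + 1)) (Fin (n + 1)) F) = wMat F n)
    (h01 : (0 : Fin (n + 1)) ≠ 1)
    (hT : ∀ c : F, InH H (Lm (SpecialLinearGroup.toGL (SpecialLinearGroup.transvection h01 c))))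
    (hb : InH H (Lm (SpecialLinearGroup.toGL w) * sL (single 0 0 1)))
    (hcase : 3 ≤ n + 1 ∨ (2 : F) ≠ 0 ∨ ∃ t : F, t ≠ 0 ∧ t ^ 2 ≠ 1) :
    (∀ S : Matrix (Fin (n + 1)) (Fin (n + 1)) F, Sᵀ = S → InH H (sL S)) ∧
    (∀ A : SpecialLinearGroup (Fin (n + 1)) F, InH H (Lm (SpecialLinearGroup.toGL A))) := by
  classical
  -- the projection of `H ∩ P⁻` to the Levi factor
  let K' : Subgroup (SpecialLinearGroup (Fin (n + 1)) F) :=
    { carrier := {A | ∃ S : Matrix (Fin (n + 1)) (Fin (n + 1)) F,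
        InH H (Lm (SpecialLinearGroup.toGL A) * sL S)}
      one_mem' := ⟨0, by rw [map_one, Lm_one, sL_zero, Matrix.one_mul]; exact InH.one H⟩
      mul_mem' := by
        rintro A B ⟨S, hS⟩ ⟨T, hT'⟩
        refine ⟨((SpecialLinearGroup.toGL B : GL (Fin (n + 1)) F) : Matrix (Fin (n + 1)) (Fin (n + 1)) F)ᵀ * S *
          ((SpecialLinearGroup.toGL B : GL (Fin (n + 1)) F) : Matrix (Fin (n + 1)) (Fin (n + 1)) F) + T, ?_⟩
        have h1 := hS.mul hT'
        have e : Lm (SpecialLinearGroup.toGL (A * B)) *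
            sL (((SpecialLinearGroup.toGL B : GL (Fin (n + 1)) F) : Matrix (Fin (n + 1)) (Fin (n + 1)) F)ᵀ * S *
              ((SpecialLinearGroup.toGL B : GL (Fin (n + 1)) F) : Matrix (Fin (n + 1)) (Fin (n + 1)) F) + T) =
            Lm (SpecialLinearGroup.toGL A) * sL S * (Lm (SpecialLinearGroup.toGL B) * sL T) := by
          rw [map_mul, Lm_mul, sL_add, Matrix.mul_assoc (Lm (SpecialLinearGroup.toGL A)) (sL S),
            ← Matrix.mul_assoc (sL S), sL_Lm]
          simp only [Matrix.mul_assoc]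
        rw [e]; exact h1
      inv_mem' := by
        rintro A ⟨S, hS⟩
        refine ⟨-(((SpecialLinearGroup.toGL A⁻¹ : GL (Fin (n + 1)) F) : Matrix (Fin (n + 1)) (Fin (n + 1)) F)ᵀ * S *
          ((SpecialLinearGroup.toGL A⁻¹ : GL (Fin (n + 1)) F) : Matrix (Fin (n + 1)) (Fin (n + 1)) F)), ?_⟩
        apply hS.of_mul_eq_one
        rw [Matrix.mul_assoc, ← Matrix.mul_assoc (sL S), sL_Lm, Matrix.mul_assoc, ← sL_add,
          add_neg_cancel, sL_zero, Matrix.mul_one, ← Lm_mul, ← map_mul, mul_inv_cancel, map_one, Lm_one] }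
  have hK' : K' = ⊤ := Cfsg.Agent.S2402.top_of_root F n hn K' w hw ⟨single 0 0 1, hb⟩ h01
    (fun c => ⟨0, by rw [sL_zero, Matrix.mul_one]; exact hT c⟩)
  -- invariance
  have hinvar : ∀ (A : SpecialLinearGroup (Fin (n + 1)) F) (S : Matrix (Fin (n + 1)) (Fin (n + 1)) F),
      InH H (sL S) → InH H (sL (((SpecialLinearGroup.toGL A : GL (Fin (n + 1)) F) :
        Matrix (Fin (n + 1)) (Fin (n + 1)) F)ᵀ * S *
        ((SpecialLinearGroup.toGL A : GL (Fin (n + 1)) F) : Matrix (Fin (n + 1)) (Fin (n + 1)) F))) := by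
    intro A S hS
    obtain ⟨SA, hSA⟩ : A ∈ K' := by rw [hK']; trivial
    have e : sL S * (Lm (SpecialLinearGroup.toGL A) * sL SA) =
        (Lm (SpecialLinearGroup.toGL A) * sL SA) *
        sL (((SpecialLinearGroup.toGL A : GL (Fin (n + 1)) F) :
        Matrix (Fin (n + 1)) (Fin (n + 1)) F)ᵀ * S *
        ((SpecialLinearGroup.toGL A : GL (Fin (n + 1)) F) : Matrix (Fin (n + 1)) (Fin (n + 1)) F)) := by
      rw [← Matrix.mul_assoc, sL_Lm, Matrix.mul_assoc (Lm _), Matrix.mul_assoc (Lm _), ← sL_add,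
        ← sL_add, add_comm SA]
    exact InH.cancel_left hSA (by rw [← e]; exact hS.mul hSA)
  let 𝒮 : AddSubgroup (Matrix (Fin (n + 1)) (Fin (n + 1)) F) :=
    { carrier := {S | InH H (sL S)}
      zero_mem' := by show InH H (sL 0); rw [sL_zero]; exact InH.one H
      add_mem' := by
        intro S T hS hT'
        show InH H (sL (S + T))
        rw [sL_add]; exact InH.mul hS hT'
      neg_mem' := by
        intro S hS
        show InH H (sL (-S))
        apply InH.of_mul_eq_one hS
        rw [← sL_add, add_neg_cancel, sL_zero] }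
  have h𝒮 : ∀ S, S ∈ 𝒮 ↔ InH H (sL S) := fun S => Iff.rfl
  -- powers of `b`
  have hpow : ∀ j : ℕ, j ≤ n + 1 → InH H (Lm (SpecialLinearGroup.toGL w) ^ j *
      sL (diagonal (fun i : Fin (n + 1) => if i.val < j then (1 : F) else 0))) := by
    intro j
    induction j with
    | zero =>
      intro _
      have e0 : (fun i : Fin (n + 1) => if i.val < 0 then (1 : F) else 0) = fun _ => 0 := by
        funext i; simp
      rw [e0, pow_zero, Matrix.one_mul]
      have e1 : diagonal (fun _ : Fin (n + 1) => (0 : F)) = 0 := by simp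
      rw [e1, sL_zero]; exact InH.one H
    | succ j ih =>
      intro hj
      have h1 := (ih (by omega)).mul hb
      have e : Lm (SpecialLinearGroup.toGL w) ^ (j + 1) *
          sL (diagonal (fun i : Fin (n + 1) => if i.val < j + 1 then (1 : F) else 0)) =
          Lm (SpecialLinearGroup.toGL w) ^ j *
            sL (diagonal (fun i : Fin (n + 1) => if i.val < j then (1 : F) else 0)) *
            (Lm (SpecialLinearGroup.toGL w) * sL (single 0 0 1)) := by
        rw [Matrix.mul_assoc, ← Matrix.mul_assoc (sL _) (Lm _), sL_Lm, Matrix.mul_assoc, ← sL_add,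
          ← Matrix.mul_assoc, ← pow_succ]
        congr 2
        have e2 : ((SpecialLinearGroup.toGL w : GL (Fin (n + 1)) F) :
            Matrix (Fin (n + 1)) (Fin (n + 1)) F) = wMat F n := hw
        rw [e2, wMat_conj_diag]
        ext a b
        rw [Matrix.add_apply, diagonal_apply, diagonal_apply, single_apply]
        by_cases hab : a = b
        · subst hab
          rw [if_pos rfl, if_pos rfl, Fin.coe_sub_one]
          by_cases ha : a = 0
          · subst ha
            have hnj : ¬ n < j := by omega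
            simp [hnj]
          · have ha' : a.val ≠ 0 := fun h => ha (Fin.ext h)
            have hne : ¬ (0 = a ∧ 0 = a) := fun h => ha h.1.symm
            rw [if_neg ha, if_neg hne, add_zero]
            by_cases hlt : a.val < j + 1
            · rw [if_pos hlt, if_pos (by omega)]
            · rw [if_neg hlt, if_neg (by omega)]
        · rw [if_neg hab, if_neg hab, if_neg (fun h => hab (h.1.symm.trans h.2)), add_zero]
      rw [e]; exact h1
  have hfull := hpow (n + 1) le_rfl
  have e1 : (fun i : Fin (n + 1) => if i.val < n + 1 then (1 : F) else 0) = fun _ => 1 := by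
    funext i; rw [if_pos i.isLt]
  rw [e1, diagonal_one, ← Lm_pow, ← map_pow] at hfull
  obtain ⟨z, hz1, hz2, hz⟩ := wMat_pow_full F n
  obtain ⟨Zg, hZg⟩ : ∃ Zg : GL (Fin (n + 1)) F, Zg = SpecialLinearGroup.toGL (w ^ (n + 1)) := ⟨_, rfl⟩
  rw [← hZg] at hfull
  have hZ : (Zg : Matrix (Fin (n + 1)) (Fin (n + 1)) F) = diagonal z := by
    have h1 := Matrix.SpecialLinearGroup.coe_pow w (n + 1)
    rw [hw, hz] at h1
    rw [hZg]
    exact h1
  have hzz : diagonal z * diagonal z = (1 : Matrix (Fin (n + 1)) (Fin (n + 1)) F) := by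
    rw [diagonal_mul_diagonal]
    have : (fun i => z i * z i) = fun _ => (1 : F) := funext hz1
    rw [this, diagonal_one]
  have hZZ : Zg * Zg = 1 := Units.ext (by rw [Units.val_mul, hZ, hzz, Units.val_one])
  have hZt : (Zg : Matrix (Fin (n + 1)) (Fin (n + 1)) F)ᵀ * 1 *
      (Zg : Matrix (Fin (n + 1)) (Fin (n + 1)) F) = 1 := by
    rw [hZ, diagonal_transpose, Matrix.mul_one, hzz]
  have hc0 : ∃ c0 : F, c0 ≠ 0 ∧ c0 • (1 : Matrix (Fin (n + 1)) (Fin (n + 1)) F) ∈ 𝒮 := by
    by_cases h2 : (2 : F) = 0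
    · refine ⟨1, one_ne_zero, ?_⟩
      have hneg : (-1 : F) = 1 := by linear_combination -h2
      have hZ1 : Zg = 1 := Units.ext (by
        rw [hZ, Units.val_one, (funext (hz2 hneg) : z = fun _ => 1), diagonal_one])
      rw [one_smul, h𝒮]
      rw [hZ1, Lm_one, Matrix.one_mul] at hfull
      exact hfull
    · refine ⟨2, h2, ?_⟩
      rw [h𝒮]
      have h3 := hfull.mul hfull
      have e : Lm Zg * sL 1 * (Lm Zg * sL 1) = sL ((2 : F) • 1) := by
        rw [Matrix.mul_assoc, ← Matrix.mul_assoc (sL 1) (Lm Zg), sL_Lm, hZt, ← Matrix.mul_assoc,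
          ← Matrix.mul_assoc, ← Lm_mul, hZZ, Lm_one, Matrix.one_mul, ← sL_add, two_smul]
      rwa [e] at h3
  obtain ⟨c0, hc0ne, hc0mem⟩ := hc0
  have hinv : ∀ (A : SpecialLinearGroup (Fin (n + 1)) F) (S : Matrix (Fin (n + 1)) (Fin (n + 1)) F),
      S ∈ 𝒮 → (A : Matrix (Fin (n + 1)) (Fin (n + 1)) F)ᵀ * S *
        (A : Matrix (Fin (n + 1)) (Fin (n + 1)) F) ∈ 𝒮 := fun A S hS => hinvar A S hS
  obtain ⟨j, c1, hc1, hj⟩ := exists_rank_one 𝒮 hinv (by omega) c0 hc0ne hc0mem hcase
  have hall := rank_one_all 𝒮 hinv (by omega) j c1 hc1 hj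
  refine ⟨fun S hS => hall S hS, ?_⟩
  have hE : InH H (sL (single (0 : Fin (n + 1)) 0 (1 : F))) := hall _ (transpose_single _ _ _)
  have hwH : InH H (Lm (SpecialLinearGroup.toGL w)) := InH.cancel_right hE hb
  let K : Subgroup (SpecialLinearGroup (Fin (n + 1)) F) :=
    { carrier := {A | InH H (Lm (SpecialLinearGroup.toGL A))}
      one_mem' := by show InH H (Lm (SpecialLinearGroup.toGL 1)); rw [map_one, Lm_one]; exact InH.one H
      mul_mem' := by
        intro A B hA hB
        show InH H (Lm (SpecialLinearGroup.toGL (A * B)))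
        rw [map_mul, Lm_mul]; exact InH.mul hA hB
      inv_mem' := by
        intro A hA
        show InH H (Lm (SpecialLinearGroup.toGL A⁻¹))
        apply InH.of_mul_eq_one hA
        rw [← Lm_mul, ← map_mul, mul_inv_cancel, map_one, Lm_one] }
  have hK : K = ⊤ := Cfsg.Agent.S2402.top_of_root F n hn K w hw hwH h01 hT
  intro A
  have : A ∈ K := by rw [hK]; trivial
  exact this

end lemmaA

section lemmaB
variable {F : Type*} [Field F] [Fintype F] (n : ℕ)

theorem tv_blocks {m : ℕ} (x y : Fin m → F) (c : F) :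
    Cfsg.sympTransvection m (Sum.elim x y) c =
      fromBlocks (1 - c • vecMulVec x y) (c • vecMulVec x x) (-(c • vecMulVec y y))
        (1 + c • vecMulVec y x) := by
  ext (a | a) (b | b) <;>
    simp [Cfsg.sympTransvection, vecMulVec_apply, J, fromBlocks_mulVec, Matrix.one_apply,
      sub_eq_add_neg, Matrix.neg_mulVec, Matrix.one_mulVec]

theorem lemmaB (hn : 1 ≤ n) (H : Subgroup (symplecticGroup (Fin (n + 1)) F))
    (hL : ∀ S : Matrix (Fin (n + 1)) (Fin (n + 1)) F, Sᵀ = S → InH H (sL S))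
    (hLm : ∀ A : SpecialLinearGroup (Fin (n + 1)) F, InH H (Lm (SpecialLinearGroup.toGL A)))
    (j : Fin (n + 1)) (hU : InH H (sU (single j j 1))) : H = ⊤ := by
  classical
  let 𝒮 : AddSubgroup (Matrix (Fin (n + 1)) (Fin (n + 1)) F) :=
    { carrier := {S | InH H (sU S)}
      zero_mem' := by show InH H (sU 0); rw [sU_zero]; exact InH.one H
      add_mem' := by
        intro S T hS hT
        show InH H (sU (S + T))
        rw [sU_add]; exact InH.mul hS hT
      neg_mem' := by
        intro S hS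
        show InH H (sU (-S))
        apply InH.of_mul_eq_one hS
        rw [← sU_add, add_neg_cancel, sU_zero] }
  have hinv : ∀ (A : SpecialLinearGroup (Fin (n + 1)) F) (S : Matrix (Fin (n + 1)) (Fin (n + 1)) F),
      S ∈ 𝒮 → (A : Matrix (Fin (n + 1)) (Fin (n + 1)) F)ᵀ * S *
        (A : Matrix (Fin (n + 1)) (Fin (n + 1)) F) ∈ 𝒮 := by
    intro A S hS
    have hA := hLm (Matrix.SpecialLinearGroup.transpose A)
    have h1 := hA.mul hS
    rw [Lm_sU] at h1
    have h2 := InH.cancel_right hA h1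
    have e : ((SpecialLinearGroup.toGL (Matrix.SpecialLinearGroup.transpose A) :
        GL (Fin (n + 1)) F) : Matrix (Fin (n + 1)) (Fin (n + 1)) F) =
        (A : Matrix (Fin (n + 1)) (Fin (n + 1)) F)ᵀ := rfl
    rw [e, transpose_transpose] at h2
    exact h2
  have hUall : ∀ S : Matrix (Fin (n + 1)) (Fin (n + 1)) F, Sᵀ = S → InH H (sU S) :=
    fun S hS => rank_one_all 𝒮 hinv (by omega) j 1 one_ne_zero hU S hS
  apply Cfsg.Agent.Lib.Helper5.SpPerfect.eq_top_of_tv_mem
  intro v c
  obtain ⟨x, y, rfl⟩ : ∃ x y : Fin (n + 1) → F, v = Sum.elim x y :=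
    ⟨fun i => v (Sum.inl i), fun i => v (Sum.inr i), by ext (i | i) <;> rfl⟩
  have hlow : ∀ y' : Fin (n + 1) → F,
      Cfsg.Agent.Lib.Helper5.SpPerfect.tv (n + 1) (Sum.elim 0 y') c ∈ H := by
    intro y'
    have h1 : InH H (sL (-(c • vecMulVec y' y'))) :=
      hL _ (by rw [transpose_neg, transpose_smul, transpose_vecMulVec])
    have e : Cfsg.sympTransvection (n + 1) (Sum.elim 0 y') c = sL (-(c • vecMulVec y' y')) := by
      rw [tv_blocks]; simp [sL]
    exact InH.mem (by rw [e]; exact h1) _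
  by_cases hy : y = 0
  · subst hy
    have h1 : InH H (sU (c • vecMulVec x x)) :=
      hUall _ (by rw [transpose_smul, transpose_vecMulVec])
    have e : Cfsg.sympTransvection (n + 1) (Sum.elim x 0) c = sU (c • vecMulVec x x) := by
      rw [tv_blocks]; simp [sU]
    exact InH.mem (by rw [e]; exact h1) _
  · obtain ⟨k, hk⟩ : ∃ k, y k ≠ 0 := by
      by_contra hcon
      exact hy (funext (fun i => by_contra (fun h => hcon ⟨i, h⟩)))
    obtain ⟨S, hSt, hSy⟩ : ∃ S : Matrix (Fin (n + 1)) (Fin (n + 1)) F, Sᵀ = S ∧ S *ᵥ y = x := by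
      refine ⟨(y k)⁻¹ • (vecMulVec x (Pi.single k 1) + vecMulVec (Pi.single k 1) x) -
        ((x ⬝ᵥ y) * (y k)⁻¹ * (y k)⁻¹) • vecMulVec (Pi.single k 1) (Pi.single k 1), ?_, ?_⟩
      · rw [transpose_sub, transpose_smul, transpose_smul, transpose_add, transpose_vecMulVec,
          transpose_vecMulVec, transpose_vecMulVec, add_comm (vecMulVec (Pi.single k 1) x)]
      · rw [sub_mulVec, smul_mulVec, smul_mulVec, add_mulVec, vecMulVec_mulVec, vecMulVec_mulVec,
          vecMulVec_mulVec, single_dotProduct, one_mul]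
        ext a
        simp only [Pi.sub_apply, Pi.smul_apply, Pi.add_apply, MulOpposite.smul_eq_mul_unop,
          MulOpposite.unop_op, smul_eq_mul, Pi.single_apply]
        by_cases ha : a = k
        · subst ha; simp only [if_true]; field_simp; ring
        · simp only [ha, if_false]; field_simp; ring
    let g : symplecticGroup (Fin (n + 1)) F := ⟨sU S, sU_mem S hSt⟩
    have hg : g ∈ H := InH.mem (hUall S hSt) _
    have h1 := H.mul_mem (H.mul_mem hg (hlow y)) (H.inv_mem hg)
    rw [Cfsg.Agent.Lib.Helper5.SpPerfect.tv_conj] at h1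
    have e : (g : Matrix (Fin (n + 1) ⊕ Fin (n + 1)) (Fin (n + 1) ⊕ Fin (n + 1)) F) *ᵥ
        (Sum.elim 0 y) = Sum.elim x y := by
      show sU S *ᵥ Sum.elim 0 y = Sum.elim x y
      rw [sU, fromBlocks_mulVec]
      simp [hSy]
    rw [e] at h1
    exact h1

end lemmaB

section diagGL
variable {F : Type*} [Field F] {m : ℕ}

/-- Diagonal elements of `GL_m`. -/
def dg (d : Fin m → Fˣ) : GL (Fin m) F where
  val := diagonal (fun i => (d i : F))
  inv := diagonal (fun i => ((d i)⁻¹ : Fˣ))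
  val_inv := by rw [diagonal_mul_diagonal]; simp
  inv_val := by rw [diagonal_mul_diagonal]; simp

theorem dg_val (d : Fin m → Fˣ) :
    ((dg d : GL (Fin m) F) : Matrix (Fin m) (Fin m) F) = diagonal (fun i => (d i : F)) := rfl

theorem dg_mul (d d' : Fin m → Fˣ) : dg d * dg d' = dg (d * d') :=
  Units.ext (by rw [Units.val_mul, dg_val, dg_val, dg_val, diagonal_mul_diagonal]; simp)

theorem dg_one : dg (1 : Fin m → Fˣ) = 1 :=
  Units.ext (by rw [dg_val]; simp)

theorem dg_inv (d : Fin m → Fˣ) : (dg d)⁻¹ = dg d⁻¹ := by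
  apply inv_eq_of_mul_eq_one_right
  rw [dg_mul, mul_inv_cancel, dg_one]

theorem dg_conj_tv (d : Fin m → Fˣ) {i j : Fin m} (hij : i ≠ j) (c : F) :
    dg d * SpecialLinearGroup.toGL (SpecialLinearGroup.transvection hij c) * (dg d)⁻¹ =
      SpecialLinearGroup.toGL
        (SpecialLinearGroup.transvection hij ((d i : F) * c * ((d j : F))⁻¹)) := by
  rw [mul_inv_eq_iff_eq_mul]
  apply Units.ext
  rw [Units.val_mul, Units.val_mul, dg_val]
  show diagonal _ * (1 + single i j c) = (1 + single i j _) * diagonal _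
  rw [mul_add, add_mul, Matrix.mul_one, Matrix.one_mul]
  congr 1
  ext a b
  rw [diagonal_mul, mul_diagonal, single_apply, single_apply]
  by_cases h : i = a ∧ j = b
  · obtain ⟨rfl, rfl⟩ := h
    simp only [and_self, if_true]
    field_simp
  · rw [if_neg h, if_neg h, mul_zero, zero_mul]

end diagGL

section mainsec
variable {F : Type*} [Field F] [Fintype F]
open Cfsg.Agent.S2403 (wMat)

theorem main_sp (n : ℕ) (hn : 1 ≤ n) (hF : n + 1 = 2 → 2 < Fintype.card F) :
    ∃ a b : symplecticGroup (Fin (n + 1)) F,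
      Subgroup.closure ({a, b} : Set (symplecticGroup (Fin (n + 1)) F)) = ⊤ := by
  classical
  haveI : Nontrivial (Fin (n + 1)) := Fin.nontrivial_iff_two_le.mpr (by omega)
  have h01 : (0 : Fin (n + 1)) ≠ 1 := by
    intro h
    have h' := congrArg Fin.val h
    rw [Fin.val_zero, Fin.val_one', Nat.mod_eq_of_lt (by omega)] at h'
    omega
  obtain ⟨w, hw⟩ : ∃ w : SpecialLinearGroup (Fin (n + 1)) F,
      (w : Matrix (Fin (n + 1)) (Fin (n + 1)) F) = wMat F n := ⟨⟨wMat F n, det_wMat F n⟩, rfl⟩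
  obtain ⟨T, hT⟩ : ∃ T : F → GL (Fin (n + 1)) F,
      ∀ c, T c = SpecialLinearGroup.toGL (SpecialLinearGroup.transvection h01 c) := ⟨_, fun _ => rfl⟩
  have Tadd : ∀ c c' : F, T (c + c') = T c * T c' := by
    intro c c'
    rw [hT, hT, hT, ← map_mul, SpecialLinearGroup.transvection_add]
  have Tzero : T 0 = 1 := by
    rw [hT, SpecialLinearGroup.transvection_coeff_zero, map_one]
  have Tinv : ∀ c : F, (T c)⁻¹ = T (-c) := by
    intro c
    apply inv_eq_of_mul_eq_one_right
    rw [← Tadd, add_neg_cancel, Tzero]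
  obtain ⟨E, hE⟩ : ∃ E : Matrix (Fin (n + 1)) (Fin (n + 1)) F, E = single 0 0 1 := ⟨_, rfl⟩
  have hEt : Eᵀ = E := by rw [hE]; exact transpose_single _ _ _
  by_cases hq : Fintype.card F = 2
  · have hn2 : 2 ≤ n := by
      by_contra h
      have h1 : n + 1 = 2 := by omega
      have := hF h1
      omega
    have h2 : (2 : F) = 0 := by
      have h3 := FiniteField.cast_card_eq_zero F
      rw [hq] at h3
      exact_mod_cast h3
    obtain ⟨l, hl0, hl1⟩ : ∃ l : Fin (n + 1), l ≠ 0 ∧ l ≠ 1 := by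
      refine ⟨⟨2, by omega⟩, ?_, ?_⟩
      · intro h
        have h' := congrArg Fin.val h
        rw [Fin.val_zero] at h'
        simp at h'
      · intro h
        have h' := congrArg Fin.val h
        rw [Fin.val_one', Nat.mod_eq_of_lt (by omega)] at h'
        simp at h'
    obtain ⟨El, hEl⟩ : ∃ El : Matrix (Fin (n + 1)) (Fin (n + 1)) F, El = single l l 1 := ⟨_, rfl⟩
    have hElt : Elᵀ = El := by rw [hEl]; exact transpose_single _ _ _
    have hElEl : El * El = El := by rw [hEl, single_mul_single_same, mul_one]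
    have hEl2 : El + El = 0 := by rw [← two_smul F El, h2, zero_smul]
    have huu : sU El * sU El = 1 := by rw [← sU_add, hEl2, sU_zero]
    have hvv : sL El * sL El = 1 := by rw [← sL_add, hEl2, sL_zero]
    have hbr : sL El * sU El * sL El = sU El * sL El * sU El := by
      unfold sL sU
      simp only [fromBlocks_multiply, Matrix.mul_one, Matrix.one_mul, Matrix.mul_zero,
        Matrix.zero_mul, add_zero, zero_add, mul_add, add_mul, hElEl]
      congr 1
      · rw [hEl2, zero_add]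
      · rw [hEl2, add_zero]
    obtain ⟨t, ht⟩ : ∃ t : Matrix (Fin (n + 1) ⊕ Fin (n + 1)) (Fin (n + 1) ⊕ Fin (n + 1)) F,
        t = sL El * sU El := ⟨_, rfl⟩
    have ht3 : t ^ 3 = 1 := by
      have e1 : t ^ 3 = (sL El * sU El * sL El) * (sU El * sL El * sU El) := by
        rw [ht, pow_succ, pow_two]
        simp only [Matrix.mul_assoc]
      rw [e1, hbr]
      have e2 : sU El * sL El * sU El * (sU El * sL El * sU El) =
          sU El * (sL El * (sU El * sU El) * sL El) * sU El := by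
        simp only [Matrix.mul_assoc]
      rw [e2, huu, Matrix.mul_one, hvv, Matrix.mul_one, huu]
    have htv : t * sL El = sU El * t := by
      rw [ht, hbr, Matrix.mul_assoc]
    have hT1 : ((T 1 : GL (Fin (n + 1)) F) : Matrix (Fin (n + 1)) (Fin (n + 1)) F) =
        1 + single 0 1 1 := by
      rw [hT]; rfl
    have hXE : ((T 1 : GL (Fin (n + 1)) F) : Matrix (Fin (n + 1)) (Fin (n + 1)) F) * El *
        ((T 1 : GL (Fin (n + 1)) F) : Matrix (Fin (n + 1)) (Fin (n + 1)) F)ᵀ = El := by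
      rw [hT1, transpose_add, transpose_one, transpose_single, hEl]
      simp only [add_mul, mul_add, Matrix.one_mul, Matrix.mul_one,
        single_mul_single_of_ne (c := (1 : F)) (0 : Fin (n + 1)) 1 l hl1.symm,
        single_mul_single_of_ne (c := (1 : F)) l l 1 hl1, add_zero, Matrix.zero_mul]
    have hXE' : ((T 1 : GL (Fin (n + 1)) F) : Matrix (Fin (n + 1)) (Fin (n + 1)) F)ᵀ * El *
        ((T 1 : GL (Fin (n + 1)) F) : Matrix (Fin (n + 1)) (Fin (n + 1)) F) = El := by
      rw [hT1, transpose_add, transpose_one, transpose_single, hEl]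
      simp only [add_mul, mul_add, Matrix.one_mul, Matrix.mul_one,
        single_mul_single_of_ne (c := (1 : F)) (1 : Fin (n + 1)) 0 l hl0.symm,
        single_mul_single_of_ne (c := (1 : F)) l l 0 hl0, add_zero, Matrix.zero_mul]
    have hcomm : Commute (Lm (T 1)) t := by
      show Lm (T 1) * t = t * Lm (T 1)
      have e1 : sL El * Lm (T 1) = Lm (T 1) * sL El := by rw [sL_Lm, hXE']
      have e2 : Lm (T 1) * sU El = sU El * Lm (T 1) := by rw [Lm_sU, hXE]
      rw [ht, ← Matrix.mul_assoc, ← e1, Matrix.mul_assoc, e2, Matrix.mul_assoc]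
    let a : symplecticGroup (Fin (n + 1)) F :=
      ⟨Lm (T 1) * t, mul_mem (Lm_mem (T 1)) (by rw [ht]; exact mul_mem (sL_mem El hElt) (sU_mem El hElt))⟩
    let b : symplecticGroup (Fin (n + 1)) F :=
      ⟨Lm (SpecialLinearGroup.toGL w) * sL E, mul_mem (Lm_mem _) (sL_mem E hEt)⟩
    refine ⟨a, b, ?_⟩
    obtain ⟨H, hH⟩ : ∃ H : Subgroup (symplecticGroup (Fin (n + 1)) F),
        H = Subgroup.closure ({a, b} : Set (symplecticGroup (Fin (n + 1)) F)) := ⟨_, rfl⟩
    rw [← hH]
    have hA : InH H (Lm (T 1) * t) := ⟨a, by rw [hH]; exact Subgroup.subset_closure (by simp), rfl⟩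
    have hB : InH H (Lm (SpecialLinearGroup.toGL w) * sL E) :=
      ⟨b, by rw [hH]; exact Subgroup.subset_closure (by simp), rfl⟩
    have hX2 : T 1 * T 1 = 1 := by rw [← Tadd, one_add_one_eq_two, h2, Tzero]
    have hLX : InH H (Lm (T 1)) := by
      have h1 := hA.pow 3
      have e3 : T 1 ^ 3 = T 1 := by rw [pow_succ, pow_two, hX2, one_mul]
      rw [hcomm.mul_pow, ht3, Matrix.mul_one, ← Lm_pow, e3] at h1
      exact h1
    have htH : InH H t := InH.cancel_left hLX hA
    have hTH : ∀ c : F,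
        InH H (Lm (SpecialLinearGroup.toGL (SpecialLinearGroup.transvection h01 c))) := by
      intro c
      rw [← hT]
      rcases Cfsg.Agent.S2403.field_le_three (by omega : Fintype.card F ≤ 3) c with rfl | rfl | rfl
      · rw [Tzero, Lm_one]; exact InH.one H
      · exact hLX
      · apply InH.of_mul_eq_one hLX
        rw [← Lm_mul, ← Tadd, add_neg_cancel, Tzero, Lm_one]
    obtain ⟨hL, hLm⟩ := lemmaA n hn H w hw h01 hTH (by rw [← hE]; exact hB) (Or.inl (by omega))
    have hUl : InH H (sU El) := by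
      apply InH.cancel_right htH
      rw [← htv]
      exact htH.mul (hL El hElt)
    exact lemmaB n hn H hL hLm l (by rw [← hEl]; exact hUl)
  · have hq3 : 3 ≤ Fintype.card F := by
      have := Fintype.one_lt_card (α := F)
      omega
    obtain ⟨k, hk⟩ := IsCyclic.exists_generator (α := Fˣ)
    have hk1 : (k : F) ≠ 1 := by
      intro hk1
      have hk1' : k = 1 := Units.ext hk1
      have hall : ∀ u : Fˣ, u = 1 := fun u => by
        have := hk u
        rw [hk1', Subgroup.zpowers_one_eq_bot, Subgroup.mem_bot] at this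
        exact this
      have hcard : Fintype.card Fˣ = 1 := Fintype.card_eq_one_iff.mpr ⟨1, hall⟩
      rw [Fintype.card_units] at hcard
      omega
    obtain ⟨dk, hdk⟩ : ∃ dk : Fin (n + 1) → Fˣ, dk = fun i => if i = 1 then k else 1 := ⟨_, rfl⟩
    obtain ⟨dk', hdk'⟩ : ∃ dk' : Fin (n + 1) → Fˣ, dk' = fun i => if i = 0 then k else 1 := ⟨_, rfl⟩
    have dk0 : dk 0 = 1 := by rw [hdk]; exact if_neg h01
    have dk1 : dk 1 = k := by rw [hdk]; exact if_pos rfl
    have dk'0 : dk' 0 = k := by rw [hdk']; exact if_pos rfl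
    have dk'1 : dk' 1 = 1 := by rw [hdk']; exact if_neg h01.symm
    obtain ⟨D, hD⟩ : ∃ D : GL (Fin (n + 1)) F, D = dg dk := ⟨_, rfl⟩
    obtain ⟨D', hD'⟩ : ∃ D' : GL (Fin (n + 1)) F, D' = dg dk' := ⟨_, rfl⟩
    have hDE : (D : Matrix (Fin (n + 1)) (Fin (n + 1)) F) * E *
        (D : Matrix (Fin (n + 1)) (Fin (n + 1)) F)ᵀ = E := by
      rw [hD, dg_val, diagonal_transpose]
      ext a b
      rw [mul_diagonal, diagonal_mul, hE, single_apply]
      by_cases h : (0 : Fin (n + 1)) = a ∧ (0 : Fin (n + 1)) = b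
      · obtain ⟨rfl, rfl⟩ := h
        simp [dk0]
      · rw [if_neg h]; simp
    have hDE' : (D : Matrix (Fin (n + 1)) (Fin (n + 1)) F)ᵀ * E *
        (D : Matrix (Fin (n + 1)) (Fin (n + 1)) F) = E := by
      rw [hD, dg_val, diagonal_transpose]
      ext a b
      rw [mul_diagonal, diagonal_mul, hE, single_apply]
      by_cases h : (0 : Fin (n + 1)) = a ∧ (0 : Fin (n + 1)) = b
      · obtain ⟨rfl, rfl⟩ := h
        simp [dk0]
      · rw [if_neg h]; simp
    obtain ⟨G, hG⟩ : ∃ G : GL (Fin (n + 1)) F, G = T 1 * SpecialLinearGroup.toGL w := ⟨_, rfl⟩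
    let a : symplecticGroup (Fin (n + 1)) F := ⟨Lm D * sU E, mul_mem (Lm_mem D) (sU_mem E hEt)⟩
    let b : symplecticGroup (Fin (n + 1)) F := ⟨Lm G * sL E, mul_mem (Lm_mem G) (sL_mem E hEt)⟩
    refine ⟨a, b, ?_⟩
    obtain ⟨H, hH⟩ : ∃ H : Subgroup (symplecticGroup (Fin (n + 1)) F),
        H = Subgroup.closure ({a, b} : Set (symplecticGroup (Fin (n + 1)) F)) := ⟨_, rfl⟩
    rw [← hH]
    have hA : InH H (Lm D * sU E) := ⟨a, by rw [hH]; exact Subgroup.subset_closure (by simp), rfl⟩
    have hB : InH H (Lm G * sL E) := ⟨b, by rw [hH]; exact Subgroup.subset_closure (by simp), rfl⟩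
    have hcomm : Commute (Lm D) (sU E) := by
      show Lm D * sU E = sU E * Lm D
      rw [Lm_sU, hDE]
    have hsUpow : ∀ j : ℕ, sU E ^ j = sU (j • E) := by
      intro j
      induction j with
      | zero => rw [pow_zero, zero_smul, sU_zero]
      | succ j ih => rw [pow_succ, ih, ← sU_add, succ_nsmul]
    have hq0 : (Fintype.card F) • E = 0 := by
      rw [← Nat.cast_smul_eq_nsmul F, FiniteField.cast_card_eq_zero, zero_smul]
    have hDq : D ^ Fintype.card F = D := by
      apply Units.ext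
      rw [Units.val_pow_eq_pow_val, hD, dg_val, diagonal_pow]
      congr 1
      funext i
      exact FiniteField.pow_card _
    have hLD : InH H (Lm D) := by
      have h1 := hA.pow (Fintype.card F)
      rw [hcomm.mul_pow, hsUpow, hq0, sU_zero, Matrix.mul_one, ← Lm_pow, hDq] at h1
      exact h1
    have hUE : InH H (sU E) := InH.cancel_left hLD hA
    let K : Subgroup (GL (Fin (n + 1)) F) :=
      { carrier := {A | InH H (Lm A)}
        one_mem' := by show InH H (Lm 1); rw [Lm_one]; exact InH.one H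
        mul_mem' := by
          intro A B hA' hB'
          show InH H (Lm (A * B))
          rw [Lm_mul]; exact InH.mul hA' hB'
        inv_mem' := by
          intro A hA'
          show InH H (Lm A⁻¹)
          apply InH.of_mul_eq_one hA'
          rw [← Lm_mul, mul_inv_cancel, Lm_one] }
    have hDK : D ∈ K := hLD
    have hg2 : G * D * G⁻¹ ∈ K := by
      show InH H (Lm (G * D * G⁻¹))
      have e : Lm (G * D * G⁻¹) * (Lm G * sL E) = (Lm G * sL E) * Lm D := by
        rw [← Matrix.mul_assoc, ← Lm_mul, inv_mul_cancel_right, Matrix.mul_assoc, sL_Lm, hDE',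
          ← Matrix.mul_assoc, ← Lm_mul]
      exact InH.cancel_right hB (by rw [e]; exact hB.mul hLD)
    have hWD : SpecialLinearGroup.toGL w * D * (SpecialLinearGroup.toGL w)⁻¹ = D' := by
      rw [mul_inv_eq_iff_eq_mul]
      apply Units.ext
      rw [Units.val_mul, Units.val_mul, hD, hD', dg_val, dg_val]
      show (w : Matrix (Fin (n + 1)) (Fin (n + 1)) F) * _ = _ * (w : Matrix (Fin (n + 1)) (Fin (n + 1)) F)
      rw [hw, Cfsg.Agent.S2402.w_mul_diag]
      congr 2
      funext i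
      rw [hdk, hdk']
      by_cases hi : i = 0
      · subst hi; simp
      · have hi' : i + 1 ≠ 1 := fun h => hi (by simpa using h)
        simp only [hi, hi', if_false]
    have conj : ∀ (d : Fin (n + 1) → Fˣ) (c : F),
        dg d * T c * (dg d)⁻¹ = T ((d 0 : F) * c * ((d 1 : F))⁻¹) := by
      intro d c
      rw [hT, hT]
      exact dg_conj_tv d h01 c
    obtain ⟨c₀, hc₀⟩ : ∃ c₀ : F, c₀ = (k : F)⁻¹ - 1 := ⟨_, rfl⟩
    have hk0 : (k : F) ≠ 0 := Units.ne_zero k
    have hc₀ne : c₀ ≠ 0 := by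
      rw [hc₀, sub_ne_zero]
      intro h
      apply hk1
      rw [inv_eq_one] at h
      exact h
    have hg2' : G * D * G⁻¹ = D' * T c₀ := by
      have e1 : G * D * G⁻¹ = T 1 * (SpecialLinearGroup.toGL w * D * (SpecialLinearGroup.toGL w)⁻¹) *
          (T 1)⁻¹ := by rw [hG]; group
      have e2 : T 1 * D' * (T 1)⁻¹ = D' * (D'⁻¹ * T 1 * D'⁻¹⁻¹) * (T 1)⁻¹ := by group
      rw [e1, hWD, e2, hD', dg_inv, conj, mul_assoc, Tinv, ← Tadd]
      congr 2
      rw [hc₀]
      simp [dk'0, dk'1]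
      ring
    have hg2K : D' * T c₀ ∈ K := hg2' ▸ hg2
    have hDD' : D * D' = D' * D := by rw [hD, hD', dg_mul, dg_mul, mul_comm]
    obtain ⟨c₁, hc₁⟩ : ∃ c₁ : F, c₁ = (k : F) * (c₀ * (k : F)⁻¹ + -c₀) := ⟨_, rfl⟩
    have hc₁ne : c₁ ≠ 0 := by
      have : c₁ = c₀ * (1 - (k : F)) := by rw [hc₁]; field_simp; ring
      rw [this]
      exact mul_ne_zero hc₀ne (sub_ne_zero.mpr (Ne.symm hk1))
    have hcm : D * (D' * T c₀) * D⁻¹ * (D' * T c₀)⁻¹ = T c₁ := by
      have e1 : D * (D' * T c₀) * D⁻¹ * (D' * T c₀)⁻¹ =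
          D' * ((D * T c₀ * D⁻¹) * (T c₀)⁻¹) * D'⁻¹ := by
        rw [_root_.mul_inv_rev, ← mul_assoc D D', hDD']; group
      have e2 : D * T c₀ * D⁻¹ * (T c₀)⁻¹ = T (c₀ * (k : F)⁻¹ + -c₀) := by
        rw [hD, conj, Tinv, ← Tadd]
        congr 2
        simp [dk0, dk1]
      rw [e1, e2, hD', conj, hc₁]
      congr 1
      simp [dk'0, dk'1]
    have hTc1 : T c₁ ∈ K := by
      rw [← hcm]
      exact K.mul_mem (K.mul_mem (K.mul_mem hDK hg2K) (K.inv_mem hDK)) (K.inv_mem hg2K)
    have hTu : ∀ u : Fˣ, T (c₁ * (u : F)) ∈ K := by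
      intro u
      obtain ⟨z, rfl⟩ := Subgroup.mem_zpowers_iff.mp (hk u)
      induction z using Int.induction_on with
      | zero => simpa using hTc1
      | succ i ih =>
        have e : T (c₁ * ((k ^ ((i : ℤ) + 1) : Fˣ) : F)) =
            D⁻¹ * T (c₁ * ((k ^ (i : ℤ) : Fˣ) : F)) * D⁻¹⁻¹ := by
          rw [hD, dg_inv, conj]
          congr 1
          simp [dk0, dk1, _root_.zpow_add_one]
          ring
        rw [e]
        exact K.mul_mem (K.mul_mem (K.inv_mem hDK) ih) (K.inv_mem (K.inv_mem hDK))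
      | pred i ih =>
        have e : T (c₁ * ((k ^ (-(i : ℤ) - 1) : Fˣ) : F)) =
            D * T (c₁ * ((k ^ (-(i : ℤ)) : Fˣ) : F)) * D⁻¹ := by
          rw [hD, conj]
          congr 1
          simp [dk0, dk1, _root_.zpow_sub_one]
          ring
        rw [e]
        exact K.mul_mem (K.mul_mem hDK ih) (K.inv_mem hDK)
    have hTall : ∀ c : F, T c ∈ K := by
      intro c
      by_cases hc0 : c = 0
      · rw [hc0, Tzero]; exact K.one_mem
      · have := hTu (Units.mk0 (c / c₁) (div_ne_zero hc0 hc₁ne))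
        rwa [Units.val_mk0, mul_div_cancel₀ c hc₁ne] at this
    have hTH : ∀ c : F,
        InH H (Lm (SpecialLinearGroup.toGL (SpecialLinearGroup.transvection h01 c))) := fun c => by
      rw [← hT]; exact hTall c
    have hb : InH H (Lm (SpecialLinearGroup.toGL w) * sL (single 0 0 1)) := by
      apply InH.cancel_left (hTall 1)
      rw [← Matrix.mul_assoc, ← Lm_mul, ← hG, ← hE]
      exact hB
    have hcase : 3 ≤ n + 1 ∨ (2 : F) ≠ 0 ∨ ∃ t : F, t ≠ 0 ∧ t ^ 2 ≠ 1 := by
      by_cases h2 : (2 : F) = 0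
      · refine Or.inr (Or.inr ⟨k, hk0, ?_⟩)
        intro h
        apply hk1
        have h3 : ((k : F) - 1) ^ 2 = 0 := by linear_combination h + (1 - (k : F)) * h2
        exact sub_eq_zero.mp (pow_eq_zero_iff two_ne_zero |>.mp h3)
      · exact Or.inr (Or.inl h2)
    obtain ⟨hL, hLm⟩ := lemmaA n hn H w hw h01 hTH hb hcase
    exact lemmaB n hn H hL hLm 0 (by rw [← hE]; exact hUE)

end mainsec

/-- The projective symplectic group `PSp_{2m}(q)` with `m ≥ 2` (and `q > 2` if `m = 2`) is generated by two of its elements. -/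
theorem result {F : Type*} [Field F] [Fintype F] (m : ℕ) (hm : 2 ≤ m) (hF : m = 2 → 2 < Fintype.card F) :
    ∃ a b : Cfsg.PSp m F, Subgroup.closure ({a, b} : Set (Cfsg.PSp m F)) = ⊤ := by
  obtain ⟨n, rfl⟩ : ∃ n, m = n + 1 := ⟨m - 1, by omega⟩
  obtain ⟨a, b, hab⟩ := main_sp (F := F) n (by omega) hF
  refine ⟨QuotientGroup.mk a, QuotientGroup.mk b, ?_⟩
  have h1 := congrArg (Subgroup.map (QuotientGroup.mk' (Subgroup.center
    (Matrix.symplecticGroup (Fin (n + 1)) F)))) hab
  rw [MonoidHom.map_closure, Subgroup.map_top_of_surjective _ (QuotientGroup.mk'_surjective _)] at h1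
  rw [← h1]
  congr 1
  simp [Set.image_pair]

end Cfsg.Agent.S2411
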