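import Cfsg.Statements.S2414
import Mathlib
import Cfsg.Agent.S2411
import Cfsg.Agent.Lib.Helper5.OmegaSimpleMat
import Cfsg.Agent.Lib.Helper5.OmegaGen2
import Cfsg.Agent.Lib.Helper5.SLGen
import Cfsg.Agent.Lib.Helper44.NegPairs

set_option autoImplicit false
open Cfsg

namespace Cfsg.Agent.S2414

open Matrix
open Module QuadraticMap
open Cfsg.Agent.Lib.Helper44.QSpace Cfsg.Agent.Lib.Helper44.OGroup Cfsg.Agent.Lib.Helper44.Siegel
open Cfsg.Agent.Lib.Helper5.OmegaSimple

section absG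
universe u
variable {F : Type*} [Field F] {V : Type u} [AddCommGroup V] [Module F V]
variable {Q : QuadraticForm F V}

/-- first step: the singular vector is not orthogonal to `f` -/
theorem G1 {e f : V} (he : Q e = 0) (hf : Q f = 0) (hef : polar Q e f = 1)
    (H : Subgroup ↥(O Q))
    (hHe : ∀ (y : V) (h : polar Q e y = 0), eich Q he h ∈ H)
    (hHf : ∀ (y : V) (h : polar Q f y = 0), eich Q hf h ∈ H)
    {d y : V} (hd : Q d = 0) (hdy : polar Q d y = 0) (hdf : polar Q d f ≠ 0) :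
    eich Q hd hdy ∈ H := by
  obtain ⟨α, hα⟩ : ∃ α : F, α = polar Q d f := ⟨_, rfl⟩
  have hα0 : α ≠ 0 := by rw [hα]; exact hdf
  have hfd : polar Q f d = α := by rw [polar_comm, hα]
  have hd' : Q (α⁻¹ • d) = 0 := by rw [q_smul, hd, mul_zero]
  have hfd' : polar Q f (α⁻¹ • d) = 1 := by rw [polar_smul_r, hfd, inv_mul_cancel₀ hα0]
  have hfe : polar Q f e = 1 := by rw [polar_comm]; exact hef
  have h1 : polar Q f (e - α⁻¹ • d) = 0 := by rw [polar_sub_right, hfe, hfd', sub_self]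
  have hmap := eich_map hf hd' he hfd' h1
  obtain ⟨g, hg⟩ : ∃ g : ↥(O Q), g = eich Q hf h1 := ⟨_, rfl⟩
  rw [← hg] at hmap
  have hgH : g ∈ H := by rw [hg]; exact hHf _ h1
  have hgd : (g : V ≃ₗ[F] V) d = α • e := by
    have e1 : (g : V ≃ₗ[F] V) d = (g : V ≃ₗ[F] V) (α • (α⁻¹ • d)) := by
      rw [smul_smul, mul_inv_cancel₀ hα0, one_smul]
    rw [e1, map_smul, hmap]
  have hd1 : Q ((g : V ≃ₗ[F] V) d) = 0 := by rw [g.2 d]; exact hd
  have hdy1 : polar Q ((g : V ≃ₗ[F] V) d) ((g : V ≃ₗ[F] V) y) = 0 := by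
    rw [polar_of_mem_O g.2]; exact hdy
  have hconj := conj_eich hd hdy g hd1 hdy1
  have hd2 : Q (α • e) = 0 := by rw [q_smul, he, mul_zero]
  have hdy2 : polar Q (α • e) ((g : V ≃ₗ[F] V) y) = 0 := by rw [← hgd]; exact hdy1
  have hdy3 : polar Q e (α • (g : V ≃ₗ[F] V) y) = 0 := by
    rw [polar_smul_r]; rw [polar_smul_l] at hdy2; exact hdy2
  have e1 : eich Q hd1 hdy1 = eich Q hd2 hdy2 := eich_congr2 hd1 hd2 hdy1 hdy2 hgd rfl
  have e2 : eich Q hd2 hdy2 = eich Q he hdy3 := eich_smul_left α he hd2 hdy2 hdy3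
  have h3 : g * eich Q hd hdy * g⁻¹ ∈ H := by rw [hconj, e1, e2]; exact hHe _ hdy3
  have e3 : eich Q hd hdy = g⁻¹ * (g * eich Q hd hdy * g⁻¹) * g := by group
  rw [e3]
  exact H.mul_mem (H.mul_mem (H.inv_mem hgH) h3) hgH

/-- a subgroup containing the two opposite Siegel unipotent radicals of a hyperbolic pair contains
all Eichler transformations -/
theorem thmG (hS : Sep Q) {e f : V} (he : Q e = 0) (hf : Q f = 0) (hef : polar Q e f = 1)
    (H : Subgroup ↥(O Q))
    (hHe : ∀ (y : V) (h : polar Q e y = 0), eich Q he h ∈ H)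
    (hHf : ∀ (y : V) (h : polar Q f y = 0), eich Q hf h ∈ H) : EG Q ≤ H := by
  have hfe : polar Q f e = 1 := by rw [polar_comm]; exact hef
  unfold EG
  rw [Subgroup.closure_le]
  rintro _ ⟨d, y, hd, hdy, rfl⟩
  show eich Q hd hdy ∈ H
  by_cases h1 : polar Q d f = 0
  swap
  · exact G1 he hf hef H hHe hHf hd hdy h1
  by_cases h2 : polar Q d e = 0
  swap
  · exact G1 hf he hfe H hHf hHe hd hdy h2
  by_cases hd0 : d = 0
  · subst hd0
    rw [eich_zero_left]
    exact H.one_mem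
  obtain ⟨y₀, hy₀⟩ : ∃ y₀, polar Q d y₀ ≠ 0 := by
    by_contra hcon
    exact hd0 (hS d (fun y => by_contra (fun h => hcon ⟨y, h⟩)))
  obtain ⟨z, hz⟩ : ∃ z : V, z = y₀ - polar Q e y₀ • f := ⟨_, rfl⟩
  have hez : polar Q e z = 0 := by
    rw [hz, polar_sub_right, polar_smul_r, hef]; ring
  have hdz : polar Q d z ≠ 0 := by
    rw [hz, polar_sub_right, polar_smul_r, h1, mul_zero, sub_zero]; exact hy₀
  obtain ⟨g, hg⟩ : ∃ g : ↥(O Q), g = eich Q he hez := ⟨_, rfl⟩
  have hgH : g ∈ H := by rw [hg]; exact hHe _ hez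
  have hgd : (g : V ≃ₗ[F] V) d = d - polar Q z d • e := by
    rw [hg, eich_apply, polar_comm Q e d, h2]
    simp
  have hd1 : Q ((g : V ≃ₗ[F] V) d) = 0 := by rw [g.2 d]; exact hd
  have hdy1 : polar Q ((g : V ≃ₗ[F] V) d) ((g : V ≃ₗ[F] V) y) = 0 := by
    rw [polar_of_mem_O g.2]; exact hdy
  have hne : polar Q ((g : V ≃ₗ[F] V) d) f ≠ 0 := by
    rw [hgd, polar_sub_left, polar_smul_l, hef, h1, mul_one, zero_sub, neg_ne_zero, polar_comm]
    exact hdz
  have h3 : eich Q hd1 hdy1 ∈ H := G1 he hf hef H hHe hHf hd1 hdy1 hne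
  rw [← conj_eich hd hdy g hd1 hdy1] at h3
  have e3 : eich Q hd hdy = g⁻¹ * (g * eich Q hd hdy * g⁻¹) * g := by group
  rw [e3]
  exact H.mul_mem (H.mul_mem (H.inv_mem hgH) h3) hgH

end absG

section matmodel
variable {F : Type*} [Field F] {m : ℕ}
open Cfsg.Agent.Lib.Helper44.NegPairs
open Cfsg.Agent.S2411 (Lm sU sL Lm_one Lm_mul Lm_pow sU_add sL_add sU_zero sL_zero Lm_sU sL_Lm)

/-- a subgroup of the orthogonal group contains an element acting as the matrix `M` -/
def InK (H : Subgroup ↥(O (plusQ m F))) (M : Matrix (Fin m ⊕ Fin m) (Fin m ⊕ Fin m) F) : Prop :=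
  ∃ g ∈ H, ∀ x : Fin m ⊕ Fin m → F,
    ((g : ↥(O (plusQ m F))) : (Fin m ⊕ Fin m → F) ≃ₗ[F] (Fin m ⊕ Fin m → F)) x = M *ᵥ x

theorem InK.one (H : Subgroup ↥(O (plusQ m F))) : InK H 1 :=
  ⟨1, one_mem _, fun x => by rw [one_mulVec]; rfl⟩

theorem InK.mul {H : Subgroup ↥(O (plusQ m F))}
    {M N : Matrix (Fin m ⊕ Fin m) (Fin m ⊕ Fin m) F} (hM : InK H M) (hN : InK H N) :
    InK H (M * N) := by
  obtain ⟨g, hg, hg'⟩ := hM
  obtain ⟨h, hh, hh'⟩ := hN
  refine ⟨g * h, mul_mem hg hh, fun x => ?_⟩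
  show (g : (Fin m ⊕ Fin m → F) ≃ₗ[F] (Fin m ⊕ Fin m → F))
    ((h : (Fin m ⊕ Fin m → F) ≃ₗ[F] (Fin m ⊕ Fin m → F)) x) = _
  rw [hh', hg', mulVec_mulVec]

theorem InK.pow {H : Subgroup ↥(O (plusQ m F))}
    {M : Matrix (Fin m ⊕ Fin m) (Fin m ⊕ Fin m) F} (hM : InK H M) (j : ℕ) :
    InK H (M ^ j) := by
  induction j with
  | zero => rw [pow_zero]; exact InK.one H
  | succ j ih => rw [pow_succ]; exact ih.mul hM

theorem InK.cancel_left {H : Subgroup ↥(O (plusQ m F))}
    {M X : Matrix (Fin m ⊕ Fin m) (Fin m ⊕ Fin m) F} (hM : InK H M) (hMX : InK H (M * X)) :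
    InK H X := by
  obtain ⟨g, hg, hg'⟩ := hM
  obtain ⟨h, hh, hh'⟩ := hMX
  refine ⟨g⁻¹ * h, mul_mem (inv_mem hg) hh, fun x => ?_⟩
  apply (g : (Fin m ⊕ Fin m → F) ≃ₗ[F] (Fin m ⊕ Fin m → F)).injective
  have e : (g : (Fin m ⊕ Fin m → F) ≃ₗ[F] (Fin m ⊕ Fin m → F))
      (((g⁻¹ * h : ↥(O (plusQ m F))) : (Fin m ⊕ Fin m → F) ≃ₗ[F] (Fin m ⊕ Fin m → F)) x) =
      (h : (Fin m ⊕ Fin m → F) ≃ₗ[F] (Fin m ⊕ Fin m → F)) x := by
    have e1 : g * (g⁻¹ * h) = h := by group
    conv_rhs => rw [← e1]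
    rfl
  rw [e, hh', hg', mulVec_mulVec]

theorem InK.cancel_right {H : Subgroup ↥(O (plusQ m F))}
    {M X : Matrix (Fin m ⊕ Fin m) (Fin m ⊕ Fin m) F} (hM : InK H M) (hXM : InK H (X * M)) :
    InK H X := by
  obtain ⟨g, hg, hg'⟩ := hM
  obtain ⟨h, hh, hh'⟩ := hXM
  refine ⟨h * g⁻¹, mul_mem hh (inv_mem hg), fun x => ?_⟩
  obtain ⟨y, rfl⟩ := (g : (Fin m ⊕ Fin m → F) ≃ₗ[F] (Fin m ⊕ Fin m → F)).surjective x
  have e : ((h * g⁻¹ : ↥(O (plusQ m F))) : (Fin m ⊕ Fin m → F) ≃ₗ[F] (Fin m ⊕ Fin m → F))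
      ((g : (Fin m ⊕ Fin m → F) ≃ₗ[F] (Fin m ⊕ Fin m → F)) y) =
      (h : (Fin m ⊕ Fin m → F) ≃ₗ[F] (Fin m ⊕ Fin m → F)) y := by
    have e1 : h * g⁻¹ * g = h := by group
    conv_rhs => rw [← e1]
    rfl
  rw [e, hh', hg', mulVec_mulVec]

theorem InK.of_mul_eq_one {H : Subgroup ↥(O (plusQ m F))}
    {M N : Matrix (Fin m ⊕ Fin m) (Fin m ⊕ Fin m) F} (hM : InK H M) (h : M * N = 1) :
    InK H N := by
  apply InK.cancel_left hM
  rw [h]
  exact InK.one H

theorem InK.mem {H : Subgroup ↥(O (plusQ m F))}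
    {M : Matrix (Fin m ⊕ Fin m) (Fin m ⊕ Fin m) F} (hM : InK H M) (g : ↥(O (plusQ m F)))
    (hg : ∀ x : Fin m ⊕ Fin m → F,
      (g : (Fin m ⊕ Fin m → F) ≃ₗ[F] (Fin m ⊕ Fin m → F)) x = M *ᵥ x) : g ∈ H := by
  obtain ⟨g', hg', hg''⟩ := hM
  have e : g = g' := Subtype.ext (LinearEquiv.ext (fun x => by rw [hg, hg'']))
  rw [e]; exact hg'

theorem InK.mono {H H' : Subgroup ↥(O (plusQ m F))} (hHH' : H ≤ H')
    {M : Matrix (Fin m ⊕ Fin m) (Fin m ⊕ Fin m) F} (hM : InK H M) : InK H' M := by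
  obtain ⟨g, hg, hg'⟩ := hM
  exact ⟨g, hHH' hg, hg'⟩

/-- the matrix of the Eichler transformation attached to two basis vectors -/
def EM (c₁ c₂ : Fin m ⊕ Fin m) (a : F) : Matrix (Fin m ⊕ Fin m) (Fin m ⊕ Fin m) F :=
  1 + single c₂ c₁.swap a - single c₁ c₂.swap a

theorem plus_polar (x : Fin m ⊕ Fin m → F) (c : Fin m ⊕ Fin m) :
    polar (plusQ m F) x (Pi.single c 1) = x c.swap :=
  polar_single (plusQ m F) id (plus_H1 m) x c

theorem plus_q (c : Fin m ⊕ Fin m) : plusQ m F (Pi.single c 1) = 0 :=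
  q_single (plusQ m F) id (plus_H1 m) c

theorem eich_EM (c₁ c₂ : Fin m ⊕ Fin m) (a : F)
    (hd : plusQ m F (Pi.single c₁ 1) = 0)
    (hdy : polar (plusQ m F) (Pi.single c₁ 1) (a • Pi.single c₂ 1) = 0) (x : Fin m ⊕ Fin m → F) :
    ((eich (plusQ m F) hd hdy : ↥(O (plusQ m F))) :
      (Fin m ⊕ Fin m → F) ≃ₗ[F] (Fin m ⊕ Fin m → F)) x = EM c₁ c₂ a *ᵥ x := by
  rw [eich_apply, polar_comm (plusQ m F) (Pi.single c₁ 1) x, plus_polar, polar_smul_l,
    polar_comm (plusQ m F) (Pi.single c₂ 1) x, plus_polar, q_smul, plus_q]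
  unfold EM
  rw [sub_mulVec, add_mulVec, one_mulVec, single_mulVec_eq, single_mulVec_eq]
  simp only [mul_zero, zero_mul, zero_smul, sub_zero, smul_smul]
  rw [mul_comm]

theorem EM_mem_EG (c₁ c₂ : Fin m ⊕ Fin m) (h : c₂ ≠ c₁.swap) (a : F) :
    InK (EG (plusQ m F)) (EM c₁ c₂ a) := by
  have hd := plus_q (F := F) c₁
  have hdy : polar (plusQ m F) (Pi.single c₁ 1) (a • Pi.single c₂ 1) = 0 := by
    rw [polar_smul_r, plus_polar, Pi.single_apply,
      if_neg (fun h' => h (by rw [← h', Sum.swap_swap])), mul_zero]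
  exact ⟨eich (plusQ m F) hd hdy, eich_mem_EG hd hdy, eich_EM c₁ c₂ a hd hdy⟩

theorem thmGM (H : Subgroup ↥(O (plusQ m F))) (i₀ : Fin m)
    (hH : ∀ (c₁ c₂ : Fin m ⊕ Fin m), (c₁ = Sum.inl i₀ ∨ c₁ = Sum.inr i₀) →
      c₂ ≠ c₁.swap → ∀ a : F, InK H (EM c₁ c₂ a)) :
    EG (plusQ m F) ≤ H := by
  classical
  have key : ∀ (c₁ : Fin m ⊕ Fin m), (c₁ = Sum.inl i₀ ∨ c₁ = Sum.inr i₀) →
      ∀ (y : Fin m ⊕ Fin m → F) (h : polar (plusQ m F) (Pi.single c₁ 1) y = 0),
        eich (plusQ m F) (plus_q c₁) h ∈ H := by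
    intro c₁ hc₁ y h
    have hy : y c₁.swap = 0 := by
      rw [polar_comm, plus_polar] at h; exact h
    have h00 : polar (plusQ m F) (Pi.single c₁ 1) (0 : Fin m ⊕ Fin m → F) = 0 := by simp
    have hP : ∀ (s : Finset (Fin m ⊕ Fin m)),
        ∃ h' : polar (plusQ m F) (Pi.single c₁ 1) (∑ c ∈ s, y c • Pi.single c 1) = 0,
          eich (plusQ m F) (plus_q c₁) h' ∈ H := by
      intro s
      induction s using Finset.induction_on with
      | empty =>
        have hp : polar (plusQ m F) (Pi.single c₁ 1)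
            (∑ c ∈ (∅ : Finset (Fin m ⊕ Fin m)), y c • Pi.single c (1 : F)) = 0 := by
          rw [Finset.sum_empty]; exact h00
        refine ⟨hp, ?_⟩
        rw [eich_congr (plus_q c₁) hp h00 Finset.sum_empty, eich_zero_right]
        exact H.one_mem
      | insert c s hc ih =>
        obtain ⟨h1, h2⟩ := ih
        have ht : ∃ h' : polar (plusQ m F) (Pi.single c₁ 1) (y c • Pi.single c 1) = 0,
            eich (plusQ m F) (plus_q c₁) h' ∈ H := by
          by_cases hcs : c = c₁.swap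
          · have h0 : y c • (Pi.single c 1 : Fin m ⊕ Fin m → F) = 0 := by
              rw [hcs, hy, zero_smul]
            have hp : polar (plusQ m F) (Pi.single c₁ 1) (y c • Pi.single c 1) = 0 := by
              rw [h0]; exact h00
            refine ⟨hp, ?_⟩
            rw [eich_congr (plus_q c₁) hp h00 h0, eich_zero_right]
            exact H.one_mem
          · have hp : polar (plusQ m F) (Pi.single c₁ 1) (y c • Pi.single c 1) = 0 := by
              rw [polar_smul_r, plus_polar, Pi.single_apply,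
                if_neg (fun h' => hcs (by rw [← h', Sum.swap_swap])), mul_zero]
            exact ⟨hp, InK.mem (hH c₁ c hc₁ hcs (y c)) _ (eich_EM c₁ c (y c) (plus_q c₁) hp)⟩
        obtain ⟨h3, h4⟩ := ht
        have hsum : polar (plusQ m F) (Pi.single c₁ 1)
            (y c • Pi.single c 1 + ∑ c ∈ s, y c • Pi.single c 1) = 0 := by
          rw [polar_add_right, h3, h1, add_zero]
        have e := eich_mul (plus_q c₁) h3 h1 hsum
        have hp : polar (plusQ m F) (Pi.single c₁ 1)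
            (∑ c ∈ insert c s, y c • Pi.single c (1 : F)) = 0 := by
          rw [Finset.sum_insert hc]; exact hsum
        refine ⟨hp, ?_⟩
        rw [eich_congr (plus_q c₁) hp hsum (Finset.sum_insert hc), ← e]
        exact H.mul_mem h4 h2
    obtain ⟨h1, h2⟩ := hP Finset.univ
    have ey : y = ∑ c, y c • Pi.single c (1 : F) := by
      funext k
      rw [Finset.sum_apply]
      simp [Pi.single_apply]
    rw [eich_congr (plus_q c₁) h h1 ey]; exact h2
  exact thmG (sep_plusQ m) (plus_q (Sum.inl i₀)) (plus_q (Sum.inr i₀))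
    (by rw [plus_polar]; simp) H (key _ (Or.inl rfl)) (key _ (Or.inr rfl))

theorem EM_inl_inl (i j : Fin m) (a : F) :
    EM (Sum.inl i) (Sum.inl j) a = sU (single j i a - single i j a) := by
  unfold EM sU
  ext (x | x) (y | y) <;> simp [Matrix.one_apply, single_apply]

theorem EM_inr_inr (i j : Fin m) (a : F) :
    EM (Sum.inr i) (Sum.inr j) a = sL (single j i a - single i j a) := by
  unfold EM sL
  ext (x | x) (y | y) <;> simp [Matrix.one_apply, single_apply]

theorem Lm_tv {i j : Fin m} (hij : i ≠ j) (c : F) :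
    Lm (SpecialLinearGroup.toGL (SpecialLinearGroup.transvection hij c)) =
      fromBlocks (1 + single i j c) 0 0 (1 - single j i c) := by
  unfold Lm
  rw [← map_inv, SpecialLinearGroup.transvection_inv]
  show fromBlocks (1 + single i j c) 0 0 (1 + single i j (-c))ᵀ = _
  rw [transpose_add, transpose_one, transpose_single, ← single_neg, sub_eq_add_neg]

theorem EM_inr_inl (i j : Fin m) (hji : j ≠ i) (a : F) :
    EM (Sum.inr i) (Sum.inl j) a =
      Lm (SpecialLinearGroup.toGL (SpecialLinearGroup.transvection hji a)) := by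
  rw [Lm_tv]
  unfold EM
  ext (x | x) (y | y) <;> simp [Matrix.one_apply, single_apply]

theorem EM_inl_inr (i j : Fin m) (hij : i ≠ j) (a : F) :
    EM (Sum.inl i) (Sum.inr j) a =
      Lm (SpecialLinearGroup.toGL (SpecialLinearGroup.transvection hij (-a))) := by
  rw [Lm_tv]
  unfold EM
  ext (x | x) (y | y) <;> simp [Matrix.one_apply, single_apply] <;> split_ifs <;> ring

end matmodel

section blocks
variable {F : Type*} [Field F] {m : ℕ}
open Cfsg.Agent.Lib.Helper44.NegPairs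
open Cfsg.Agent.S2411 (Lm sU sL Lm_one Lm_mul Lm_pow sU_add sL_add sU_zero sL_zero Lm_sU sL_Lm)

/-- the alternating matrix units -/
def Alt (i j : Fin m) (a : F) : Matrix (Fin m) (Fin m) F := single i j a - single j i a

theorem Alt_swap (i j : Fin m) (a : F) : Alt j i a = Alt i j (-a) := by
  unfold Alt
  rw [← single_neg, ← single_neg]
  abel

theorem Alt_zero (i j : Fin m) : Alt i j (0 : F) = 0 := by
  unfold Alt
  simp

theorem Alt_transpose (i j : Fin m) (a : F) : (Alt i j a)ᵀ = -Alt i j a := by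
  unfold Alt
  rw [transpose_sub, transpose_single, transpose_single]
  abel

theorem Alt_diag (i j : Fin m) (a : F) (k : Fin m) : Alt i j a k k = 0 := by
  unfold Alt
  rw [Matrix.sub_apply, single_apply, single_apply]
  by_cases h : i = k ∧ j = k
  · rw [if_pos h, if_pos ⟨h.2, h.1⟩, sub_self]
  · rw [if_neg h, if_neg (fun h' => h ⟨h'.2, h'.1⟩), sub_self]

theorem sU_EG (i j : Fin m) (a : F) : InK (EG (plusQ m F)) (sU (Alt i j a)) := by
  have h := EM_mem_EG (F := F) (Sum.inl j) (Sum.inl i) (by simp) a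
  rwa [EM_inl_inl] at h

theorem sL_EG (i j : Fin m) (a : F) : InK (EG (plusQ m F)) (sL (Alt i j a)) := by
  have h := EM_mem_EG (F := F) (Sum.inr j) (Sum.inr i) (by simp) a
  rwa [EM_inr_inr] at h

theorem Lm_tv_EG {i j : Fin m} (hij : i ≠ j) (a : F) :
    InK (EG (plusQ m F)) (Lm (SpecialLinearGroup.toGL (SpecialLinearGroup.transvection hij a))) := by
  have h := EM_mem_EG (F := F) (Sum.inr j) (Sum.inl i) (by simpa using hij) a
  rwa [EM_inr_inl j i hij] at h

theorem Lm_SL_of_tv [Nontrivial (Fin m)] (H : Subgroup ↥(O (plusQ m F)))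
    (hH : ∀ (i j : Fin m) (hij : i ≠ j) (a : F),
      InK H (Lm (SpecialLinearGroup.toGL (SpecialLinearGroup.transvection hij a))))
    (A : SpecialLinearGroup (Fin m) F) : InK H (Lm (SpecialLinearGroup.toGL A)) := by
  apply Cfsg.Agent.Lib.Helper5.SLGen.transvection_induction
    (fun A => InK H (Lm (SpecialLinearGroup.toGL A)))
  · intro i j h c; exact hH i j h c
  · intro A B hA hB
    show InK H (Lm (SpecialLinearGroup.toGL (A * B)))
    rw [map_mul, Lm_mul]; exact hA.mul hB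

theorem thmGB (H : Subgroup ↥(O (plusQ m F))) (i₀ : Fin m)
    (hU : ∀ (j : Fin m) (a : F), InK H (sU (Alt j i₀ a)))
    (hL : ∀ (j : Fin m) (a : F), InK H (sL (Alt j i₀ a)))
    (hM : ∀ (i j : Fin m) (hij : i ≠ j) (a : F),
      InK H (Lm (SpecialLinearGroup.toGL (SpecialLinearGroup.transvection hij a)))) :
    EG (plusQ m F) ≤ H := by
  apply thmGM H i₀
  rintro c₁ (c₂ | c₂) (rfl | rfl) hne a
  · rw [EM_inl_inl]; exact hU c₂ a
  · have hji : c₂ ≠ i₀ := fun h => hne (by rw [h]; rfl)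
    rw [EM_inr_inl i₀ c₂ hji]; exact hM _ _ hji a
  · have hij : i₀ ≠ c₂ := fun h => hne (by rw [h]; rfl)
    rw [EM_inl_inr i₀ c₂ hij]; exact hM _ _ hij (-a)
  · rw [EM_inr_inr]; exact hL c₂ a

theorem alt_all (𝒮 : AddSubgroup (Matrix (Fin m) (Fin m) F)) (hm : 3 ≤ m)
    (hinv : ∀ (A : SpecialLinearGroup (Fin m) F) (S : Matrix (Fin m) (Fin m) F), S ∈ 𝒮 →
      (A : Matrix (Fin m) (Fin m) F)ᵀ * S * (A : Matrix (Fin m) (Fin m) F) ∈ 𝒮)
    (i₀ j₀ : Fin m) (hij₀ : i₀ ≠ j₀) (c₀ : F) (hc₀ : c₀ ≠ 0) (h0 : Alt i₀ j₀ c₀ ∈ 𝒮)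
    (S : Matrix (Fin m) (Fin m) F) (hS : Sᵀ = -S) (hS0 : ∀ i, S i i = 0) : S ∈ 𝒮 := by
  classical
  have step : ∀ (i j q : Fin m), i ≠ j → q ≠ i → q ≠ j → ∀ c s : F, Alt i j c ∈ 𝒮 →
      Alt q j (s * c) ∈ 𝒮 := by
    intro i j q hij hqi hqj c s hmem
    have h := hinv (SpecialLinearGroup.transvection hqi.symm s) _ hmem
    rw [SpecialLinearGroup.transvection_coe, transpose_add, transpose_one, transpose_single] at h
    have e : (1 + single q i s) * Alt i j c * (1 + single i q s) = Alt i j c + Alt q j (s * c) := by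
      unfold Alt
      simp only [add_mul, mul_add, sub_mul, mul_sub, Matrix.one_mul, Matrix.mul_one,
        single_mul_single_same,
        single_mul_single_of_ne (c := s) q i j hij,
        single_mul_single_of_ne (c := c) i j i hij.symm,
        single_mul_single_of_ne (c := s * c) q j i hij.symm, sub_zero, add_zero,
        mul_comm c s]
      abel
    rw [e] at h
    have h' := 𝒮.sub_mem h hmem
    rwa [add_sub_cancel_left] at h'
  have move : ∀ (i j q : Fin m), i ≠ j → q ≠ i → q ≠ j → ∀ c : F, c ≠ 0 → Alt i j c ∈ 𝒮 →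
      ∀ a : F, Alt q j a ∈ 𝒮 := by
    intro i j q hij hqi hqj c hc hmem a
    have h := step i j q hij hqi hqj c (a / c) hmem
    rwa [div_mul_cancel₀ a hc] at h
  have sym : ∀ (i j : Fin m), (∀ a : F, Alt i j a ∈ 𝒮) → ∀ a : F, Alt j i a ∈ 𝒮 := by
    intro i j h a
    rw [Alt_swap]; exact h (-a)
  have hv : i₀.val ≠ j₀.val := fun h => hij₀ (Fin.ext h)
  obtain ⟨q₀, hq1, hq2⟩ : ∃ q : Fin m, q ≠ i₀ ∧ q ≠ j₀ := by
    by_cases h0 : i₀.val ≠ 0 ∧ j₀.val ≠ 0
    · exact ⟨⟨0, by omega⟩, fun h => h0.1 (by rw [← h]), fun h => h0.2 (by rw [← h])⟩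
    by_cases h1 : i₀.val ≠ 1 ∧ j₀.val ≠ 1
    · exact ⟨⟨1, by omega⟩, fun h => h1.1 (by rw [← h]), fun h => h1.2 (by rw [← h])⟩
    · refine ⟨⟨2, by omega⟩, fun h => ?_, fun h => ?_⟩
      · have := congrArg Fin.val h
        simp only at this
        omega
      · have := congrArg Fin.val h
        simp only at this
        omega
  have P1 : ∀ a : F, Alt q₀ j₀ a ∈ 𝒮 := move i₀ j₀ q₀ hij₀ hq1 hq2 c₀ hc₀ h0
  have P2 : ∀ q : Fin m, q ≠ j₀ → ∀ a : F, Alt q j₀ a ∈ 𝒮 := by
    intro q hq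
    by_cases hqq : q = q₀
    · rw [hqq]; exact P1
    · exact move q₀ j₀ q hq2 hqq hq 1 one_ne_zero (P1 1)
  have P3 : ∀ r q : Fin m, r ≠ q → ∀ a : F, Alt r q a ∈ 𝒮 := by
    intro r q hrq
    by_cases hq : q = j₀
    · rw [hq]; exact P2 r (by rw [← hq]; exact hrq)
    by_cases hr : r = j₀
    · rw [hr]; exact sym q j₀ (P2 q hq)
    · exact move j₀ q r (Ne.symm hq) hr hrq 1 one_ne_zero (sym q j₀ (P2 q hq) 1)
  obtain ⟨U, hU⟩ : ∃ U : Matrix (Fin m) (Fin m) F,
      U = Matrix.of (fun i j => if i < j then S i j else 0) := ⟨_, rfl⟩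
  have hUa : ∀ i j, U i j = if i < j then S i j else 0 := by
    intro i j; rw [hU]; rfl
  have e1 : U = ∑ i, ∑ j, single i j (U i j) := matrix_eq_sum_single U
  have e2 : Uᵀ = ∑ i, ∑ j, single j i (U i j) := by
    conv_lhs => rw [e1]
    rw [transpose_sum]
    apply Finset.sum_congr rfl; intro i _
    rw [transpose_sum]
    apply Finset.sum_congr rfl; intro j _
    rw [transpose_single]
  have hUU : U - Uᵀ ∈ 𝒮 := by
    have e3 : U - Uᵀ = ∑ i, ∑ j, Alt i j (U i j) := by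
      unfold Alt
      simp only [Finset.sum_sub_distrib]
      rw [← e1, ← e2]
    rw [e3]
    refine sum_mem (fun i _ => sum_mem (fun j _ => ?_))
    rw [hUa]
    by_cases hij : i < j
    · rw [if_pos hij]; exact P3 i j hij.ne _
    · rw [if_neg hij, Alt_zero]; exact 𝒮.zero_mem
  have e : S = U - Uᵀ := by
    ext a b
    rw [Matrix.sub_apply, transpose_apply, hUa, hUa]
    rcases lt_trichotomy a b with h | h | h
    · rw [if_pos h, if_neg (not_lt.mpr h.le), sub_zero]
    · subst h; simp [hS0]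
    · rw [if_neg (not_lt.mpr h.le), if_pos h]
      have h1 := congrFun (congrFun hS a) b
      rw [transpose_apply, Matrix.neg_apply] at h1
      rw [h1]; simp
  rw [e]; exact hUU

end blocks

section altfind
variable {F : Type*} [Field F] {m : ℕ}

theorem single_mul_entry (q p : Fin m) (s : F) (M : Matrix (Fin m) (Fin m) F) (a b : Fin m) :
    (single q p s * M) a b = if a = q then s * M p b else 0 := by
  by_cases h : a = q
  · subst h; rw [if_pos rfl, single_mul_apply_same]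
  · rw [if_neg h]; exact single_mul_apply_of_ne (h := h) ..

theorem mul_single_entry (p q : Fin m) (s : F) (M : Matrix (Fin m) (Fin m) F) (a b : Fin m) :
    (M * single p q s) a b = if b = q then M a p * s else 0 := by
  by_cases h : b = q
  · subst h; rw [if_pos rfl, mul_single_apply_same]
  · rw [if_neg h]; exact mul_single_apply_of_ne (hbj := h) ..

theorem cong_entry (p q : Fin m) (s : F) (S : Matrix (Fin m) (Fin m) F) (a b : Fin m) :
    ((1 + single q p s) * S * (1 + single p q s)) a b =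
      S a b + (if a = q then s * S p b else 0) + ((if b = q then S a p * s else 0) +
        (if b = q then (if a = q then s * S p p else 0) * s else 0)) := by
  rw [add_mul, Matrix.one_mul, mul_add, Matrix.mul_one, add_mul]
  simp only [Matrix.add_apply, single_mul_entry, mul_single_entry]

theorem exists_alt (𝒮 : AddSubgroup (Matrix (Fin m) (Fin m) F))
    (hinv : ∀ (A : SpecialLinearGroup (Fin m) F) (S : Matrix (Fin m) (Fin m) F), S ∈ 𝒮 →
      (A : Matrix (Fin m) (Fin m) F)ᵀ * S * (A : Matrix (Fin m) (Fin m) F) ∈ 𝒮)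
    (S : Matrix (Fin m) (Fin m) F) (hS : Sᵀ = -S) (hS0 : ∀ i, S i i = 0) (hSm : S ∈ 𝒮)
    (i j q : Fin m) (hij : i ≠ j) (hqi : q ≠ i) (hqj : q ≠ j) : Alt q i (S i j) ∈ 𝒮 := by
  have h1 := hinv (SpecialLinearGroup.transvection hqi.symm 1) S hSm
  rw [SpecialLinearGroup.transvection_coe, transpose_add, transpose_one, transpose_single] at h1
  have h1' := 𝒮.sub_mem h1 hSm
  have h2 := hinv (SpecialLinearGroup.transvection hij.symm 1) _ h1'
  rw [SpecialLinearGroup.transvection_coe, transpose_add, transpose_one, transpose_single] at h2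
  have h2' := 𝒮.sub_mem h2 h1'
  have hji : S j i = - S i j := by
    have := congrFun (congrFun hS i) j
    rwa [transpose_apply, Matrix.neg_apply] at this
  have hiq : i ≠ q := hqi.symm
  have hjq : j ≠ q := hqj.symm
  have hji' : j ≠ i := hij.symm
  convert h2' using 1
  ext a b
  rw [Matrix.sub_apply, cong_entry]
  simp only [Matrix.sub_apply, cong_entry, Alt, single_apply]
  by_cases ha : a = i
  · subst ha
    by_cases hb : b = q
    · subst hb
      simp [hiq, hji', hjq, hS0, hji, hqi, hij, hqj]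
    · have hb' : ¬ q = b := fun h => hb h.symm
      simp [hiq, hji', hjq, hS0, hji, hqi, hij, hqj, hb, hb']
  · have ha' : ¬ i = a := fun h => ha h.symm
    by_cases ha2 : a = q
    · subst ha2
      by_cases hb : b = i
      · subst hb
        simp [hiq, hji', hjq, hS0, hji, hqi, hij, hqj]
      · have hb' : ¬ i = b := fun h => hb h.symm
        simp [hiq, hji', hjq, hS0, hji, hqi, hij, hqj, hb, hb']
    · have ha2' : ¬ q = a := fun h => ha2 h.symm
      simp [hiq, hji', hjq, hS0, hji, hqi, hij, hqj, ha, ha', ha2, ha2']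

end altfind

section wfacts2
variable (K : Type*) [Field K] (n : ℕ)
open Cfsg.Agent.S2403 (wMat eps wMat_apply eps_mul_self)
open Cfsg.Agent.S2411 (wMat_pow)
open Fin.CommRing Fin.NatCast

theorem wMat_conj (S : Matrix (Fin (n + 1)) (Fin (n + 1)) K) (a b : Fin (n + 1)) :
    ((wMat K n)ᵀ * S * wMat K n) a b = eps K n a * eps K n b * S (a - 1) (b - 1) := by
  rw [mul_apply, Finset.sum_eq_single (b - 1)]
  · rw [wMat_apply, if_pos rfl, mul_apply, Finset.sum_eq_single (a - 1)]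
    · rw [transpose_apply, wMat_apply, if_pos rfl]; ring
    · intro k _ hk; rw [transpose_apply, wMat_apply, if_neg hk, zero_mul]
    · intro h; exact absurd (Finset.mem_univ _) h
  · intro k _ hk; rw [wMat_apply, if_neg hk, mul_zero]
  · intro h; exact absurd (Finset.mem_univ _) h

theorem wMat_pow_scalar : ∃ z : K, z * z = 1 ∧ ((-1 : K) = 1 → z = 1) ∧
    wMat K n ^ (n + 1) = diagonal (fun _ => z) := by
  refine ⟨∏ x : Fin (n + 1), eps K n x, ?_, ?_, ?_⟩
  · rw [← Finset.prod_mul_distrib]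
    exact Finset.prod_eq_one (fun l _ => eps_mul_self K n _)
  · intro h
    apply Finset.prod_eq_one
    intro l _
    unfold eps
    split_ifs <;> simp [h]
  · ext a i
    rw [wMat_pow, diagonal_apply]
    have h0 : ((n + 1 : ℕ) : Fin (n + 1)) = 0 := by simp
    rw [h0, sub_zero]
    by_cases h : a = i
    · subst h
      rw [if_pos rfl, if_pos rfl,
        ← Fin.prod_univ_eq_prod_range (fun l => eps K n (a - (l : Fin (n + 1)))) (n + 1)]
      apply Fintype.prod_equiv (Equiv.subLeft a)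
      intro x
      rw [Equiv.subLeft_apply, Fin.cast_val_eq_self]
    · rw [if_neg h, if_neg h]

/-- the partial sums of the alternating matrix units along the cycle -/
def Sj (j : ℕ) : Matrix (Fin (n + 1)) (Fin (n + 1)) K :=
  Matrix.of (fun a b => (if a.val + 1 = b.val ∧ a.val < j then (1 : K) else 0) -
    (if b.val + 1 = a.val ∧ b.val < j then 1 else 0))

theorem Sj_zero : Sj K n 0 = 0 := by
  ext a b
  simp [Sj]

theorem Sj_transpose (j : ℕ) : (Sj K n j)ᵀ = -Sj K n j := by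
  ext a b
  simp [Sj]

theorem Sj_diag (j : ℕ) (a : Fin (n + 1)) : Sj K n j a a = 0 := by
  simp [Sj]

theorem Sj_succ (hn : 1 ≤ n) (j : ℕ) (hj : j < n) :
    (wMat K n)ᵀ * Sj K n j * wMat K n + Alt 0 1 1 = Sj K n (j + 1) := by
  ext a b
  rw [Matrix.add_apply, wMat_conj]
  have h1 : (1 : Fin (n + 1)).val = 1 := by rw [Fin.val_one', Nat.mod_eq_of_lt (by omega)]
  have ha1 : ((1 : Fin (n + 1)) = a) ↔ a.val = 1 := by rw [Fin.ext_iff, h1, eq_comm]
  have hb1 : ((1 : Fin (n + 1)) = b) ↔ b.val = 1 := by rw [Fin.ext_iff, h1, eq_comm]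
  have ha0 : ((0 : Fin (n + 1)) = a) ↔ a.val = 0 := by rw [Fin.ext_iff, Fin.val_zero, eq_comm]
  have hb0 : ((0 : Fin (n + 1)) = b) ↔ b.val = 0 := by rw [Fin.ext_iff, Fin.val_zero, eq_comm]
  simp only [Sj, Alt, eps, of_apply, Matrix.sub_apply, single_apply, ha0, hb0, ha1, hb1]
  by_cases ha : a.val = 0
  · have ea : (a - 1).val = n := by rw [Fin.coe_sub_one, if_pos (Fin.ext ha)]
    by_cases hb : b.val = 0
    · have eb : (b - 1).val = n := by rw [Fin.coe_sub_one, if_pos (Fin.ext hb)]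
      rw [ea, eb]
      split_ifs <;> first | omega | simp
    · have eb : (b - 1).val = b.val - 1 := by
        rw [Fin.coe_sub_one, if_neg (fun h => hb (by rw [h]; rfl))]
      rw [ea, eb]
      split_ifs <;> first | omega | simp
  · have ea : (a - 1).val = a.val - 1 := by
      rw [Fin.coe_sub_one, if_neg (fun h => ha (by rw [h]; rfl))]
    by_cases hb : b.val = 0
    · have eb : (b - 1).val = n := by rw [Fin.coe_sub_one, if_pos (Fin.ext hb)]
      rw [ea, eb]
      split_ifs <;> first | omega | simp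
    · have eb : (b - 1).val = b.val - 1 := by
        rw [Fin.coe_sub_one, if_neg (fun h => hb (by rw [h]; rfl))]
      rw [ea, eb]
      split_ifs <;> first | omega | simp

/-- the full cyclic sum -/
def Sw : Matrix (Fin (n + 1)) (Fin (n + 1)) K :=
  (wMat K n)ᵀ * Sj K n n * wMat K n + Alt 0 1 1

theorem Sw_transpose : (Sw K n)ᵀ = -Sw K n := by
  unfold Sw
  rw [transpose_add, transpose_mul, transpose_mul, transpose_transpose, Sj_transpose,
    Alt_transpose, Matrix.neg_mul, Matrix.mul_neg, neg_add, Matrix.mul_assoc]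

theorem Sw_diag (a : Fin (n + 1)) : Sw K n a a = 0 := by
  unfold Sw
  rw [Matrix.add_apply, wMat_conj, Sj_diag, mul_zero, zero_add, Alt_diag]

theorem Sw_01 (hn : 2 ≤ n) : Sw K n 0 1 = 1 := by
  unfold Sw
  rw [Matrix.add_apply, wMat_conj]
  have h1 : (1 : Fin (n + 1)).val = 1 := by rw [Fin.val_one', Nat.mod_eq_of_lt (by omega)]
  have h01 : (0 : Fin (n + 1)) ≠ 1 := by
    intro h
    have h' := congrArg Fin.val h
    rw [Fin.val_zero, h1] at h'
    omega
  have e0 : ((0 : Fin (n + 1)) - 1).val = n := by rw [Fin.coe_sub_one, if_pos rfl]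
  have e1 : ((1 : Fin (n + 1)) - 1).val = 0 := by rw [sub_self, Fin.val_zero]
  have e2 : Sj K n n ((0 : Fin (n + 1)) - 1) ((1 : Fin (n + 1)) - 1) = 0 := by
    simp only [Sj, of_apply, e0, e1]
    rw [if_neg (by omega), if_neg (by omega), sub_zero]
  rw [e2, mul_zero, zero_add]
  unfold Alt
  rw [Matrix.sub_apply, single_apply, single_apply, if_pos ⟨rfl, rfl⟩,
    if_neg (fun h => h01 h.2), sub_zero]

end wfacts2

section lemmaA
variable {F : Type*} [Field F] [Fintype F] (n : ℕ)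
open Cfsg.Agent.S2403 (wMat)
open Cfsg.Agent.Lib.Helper44.NegPairs
open Cfsg.Agent.S2411 (Lm sU sL Lm_one Lm_mul Lm_pow sU_add sL_add sU_zero sL_zero Lm_sU sL_Lm)

theorem lemmaA' (hn : 2 ≤ n) (H : Subgroup ↥(O (plusQ (n + 1) F)))
    (w : SpecialLinearGroup (Fin (n + 1)) F)
    (hw : (w : Matrix (Fin (n + 1)) (Fin (n + 1)) F) = wMat F n)
    (h01 : (0 : Fin (n + 1)) ≠ 1)
    (hT : ∀ c : F, InK H (Lm (SpecialLinearGroup.toGL (SpecialLinearGroup.transvection h01 c))))
    (hb : InK H (Lm (SpecialLinearGroup.toGL w) * sL (Alt 0 1 1))) :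
    (∀ S : Matrix (Fin (n + 1)) (Fin (n + 1)) F, Sᵀ = -S → (∀ i, S i i = 0) → InK H (sL S)) ∧
    (∀ A : SpecialLinearGroup (Fin (n + 1)) F, InK H (Lm (SpecialLinearGroup.toGL A))) := by
  classical
  -- the projection of `H ∩ P⁻` to the Levi factor
  let K' : Subgroup (SpecialLinearGroup (Fin (n + 1)) F) :=
    { carrier := {A | ∃ S : Matrix (Fin (n + 1)) (Fin (n + 1)) F,
        InK H (Lm (SpecialLinearGroup.toGL A) * sL S)}
      one_mem' := ⟨0, by rw [map_one, Lm_one, sL_zero, Matrix.one_mul]; exact InK.one H⟩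
      mul_mem' := by
        rintro A B ⟨S, hS⟩ ⟨T, hT'⟩
        refine ⟨((SpecialLinearGroup.toGL B : GL (Fin (n + 1)) F) : Matrix (Fin (n + 1)) (Fin (n + 1)) F)ᵀ * S *
          ((SpecialLinearGroup.toGL B : GL (Fin (n + 1)) F) : Matrix (Fin (n + 1)) (Fin (n + 1)) F) + T, ?_⟩
        have h1 := hS.mul hT'
        have e : Lm (SpecialLinearGroup.toGL (A * B)) *
            sL (((SpecialLinearGroup.toGL B : GL (Fin (n + 1)) F) : Matrix (Fin (n + 1)) (Fin (n + 1)) F)ᵀ * S *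
              ((SpecialLinearGroup.toGL B : GL (Fin (n + 1)) F) : Matrix (Fin (n + 1)) (Fin (n + 1)) F) + T) =
            Lm (SpecialLinearGroup.toGL A) * sL S * (Lm (SpecialLinearGroup.toGL B) * sL T) := by
          rw [map_mul, Lm_mul, sL_add, Matrix.mul_assoc (Lm (SpecialLinearGroup.toGL A)) (sL S),
            ← Matrix.mul_assoc (sL S), sL_Lm]
          simp only [Matrix.mul_assoc]
        rw [e]; exact h1
      inv_mem' := by
        rintro A ⟨S, hS⟩
        refine ⟨-(((SpecialLinearGroup.toGL A⁻¹ : GL (Fin (n + 1)) F) : Matrix (Fin (n + 1)) (Fin (n + 1)) F)ᵀ * S *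
          ((SpecialLinearGroup.toGL A⁻¹ : GL (Fin (n + 1)) F) : Matrix (Fin (n + 1)) (Fin (n + 1)) F)), ?_⟩
        apply hS.of_mul_eq_one
        rw [Matrix.mul_assoc, ← Matrix.mul_assoc (sL S), sL_Lm, Matrix.mul_assoc, ← sL_add,
          add_neg_cancel, sL_zero, Matrix.mul_one, ← Lm_mul, ← map_mul, mul_inv_cancel, map_one, Lm_one] }
  have hK' : K' = ⊤ := Cfsg.Agent.S2402.top_of_root F n (by omega) K' w hw ⟨Alt 0 1 1, hb⟩ h01
    (fun c => ⟨0, by rw [sL_zero, Matrix.mul_one]; exact hT c⟩)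
  -- invariance
  have hinvar : ∀ (A : SpecialLinearGroup (Fin (n + 1)) F) (S : Matrix (Fin (n + 1)) (Fin (n + 1)) F),
      InK H (sL S) → InK H (sL (((SpecialLinearGroup.toGL A : GL (Fin (n + 1)) F) :
        Matrix (Fin (n + 1)) (Fin (n + 1)) F)ᵀ * S *
        ((SpecialLinearGroup.toGL A : GL (Fin (n + 1)) F) : Matrix (Fin (n + 1)) (Fin (n + 1)) F))) := by
    intro A S hS
    obtain ⟨SA, hSA⟩ : A ∈ K' := by rw [hK']; trivial
    have e : sL S * (Lm (SpecialLinearGroup.toGL A) * sL SA) =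
        (Lm (SpecialLinearGroup.toGL A) * sL SA) *
        sL (((SpecialLinearGroup.toGL A : GL (Fin (n + 1)) F) :
        Matrix (Fin (n + 1)) (Fin (n + 1)) F)ᵀ * S *
        ((SpecialLinearGroup.toGL A : GL (Fin (n + 1)) F) : Matrix (Fin (n + 1)) (Fin (n + 1)) F)) := by
      rw [← Matrix.mul_assoc, sL_Lm, Matrix.mul_assoc (Lm _), Matrix.mul_assoc (Lm _), ← sL_add,
        ← sL_add, add_comm SA]
    exact InK.cancel_left hSA (by rw [← e]; exact hS.mul hSA)
  let 𝒮 : AddSubgroup (Matrix (Fin (n + 1)) (Fin (n + 1)) F) :=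
    { carrier := {S | InK H (sL S)}
      zero_mem' := by show InK H (sL 0); rw [sL_zero]; exact InK.one H
      add_mem' := by
        intro S T hS hT'
        show InK H (sL (S + T))
        rw [sL_add]; exact InK.mul hS hT'
      neg_mem' := by
        intro S hS
        show InK H (sL (-S))
        apply InK.of_mul_eq_one hS
        rw [← sL_add, add_neg_cancel, sL_zero] }
  have h𝒮 : ∀ S, S ∈ 𝒮 ↔ InK H (sL S) := fun S => Iff.rfl
  have e2 : ((SpecialLinearGroup.toGL w : GL (Fin (n + 1)) F) :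
      Matrix (Fin (n + 1)) (Fin (n + 1)) F) = wMat F n := hw
  -- powers of `b`
  have hpow : ∀ j : ℕ, j ≤ n → InK H (Lm (SpecialLinearGroup.toGL w) ^ j * sL (Sj F n j)) := by
    intro j
    induction j with
    | zero =>
      intro _
      rw [pow_zero, Matrix.one_mul, Sj_zero, sL_zero]; exact InK.one H
    | succ j ih =>
      intro hj
      have h1 := (ih (by omega)).mul hb
      have e : Lm (SpecialLinearGroup.toGL w) ^ (j + 1) * sL (Sj F n (j + 1)) =
          Lm (SpecialLinearGroup.toGL w) ^ j * sL (Sj F n j) *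
            (Lm (SpecialLinearGroup.toGL w) * sL (Alt 0 1 1)) := by
        rw [Matrix.mul_assoc, ← Matrix.mul_assoc (sL _) (Lm _), sL_Lm, Matrix.mul_assoc, ← sL_add,
          ← Matrix.mul_assoc, ← pow_succ]
        congr 2
        rw [e2]
        exact (Sj_succ F n (by omega) j (by omega)).symm
      rw [e]; exact h1
  have hfull : InK H (Lm (SpecialLinearGroup.toGL w) ^ (n + 1) * sL (Sw F n)) := by
    have h1 := (hpow n le_rfl).mul hb
    have e : Lm (SpecialLinearGroup.toGL w) ^ (n + 1) * sL (Sw F n) =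
        Lm (SpecialLinearGroup.toGL w) ^ n * sL (Sj F n n) *
          (Lm (SpecialLinearGroup.toGL w) * sL (Alt 0 1 1)) := by
      rw [Matrix.mul_assoc, ← Matrix.mul_assoc (sL _) (Lm _), sL_Lm, Matrix.mul_assoc, ← sL_add,
        ← Matrix.mul_assoc, ← pow_succ]
      congr 2
      rw [e2]
      rfl
    rw [e]; exact h1
  rw [← Lm_pow, ← map_pow] at hfull
  obtain ⟨z, hz1, hz2, hz⟩ := wMat_pow_scalar F n
  obtain ⟨Zg, hZg⟩ : ∃ Zg : GL (Fin (n + 1)) F, Zg = SpecialLinearGroup.toGL (w ^ (n + 1)) := ⟨_, rfl⟩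
  rw [← hZg] at hfull
  have hZ : (Zg : Matrix (Fin (n + 1)) (Fin (n + 1)) F) = diagonal (fun _ => z) := by
    have h1 := Matrix.SpecialLinearGroup.coe_pow w (n + 1)
    rw [hw, hz] at h1
    rw [hZg]
    exact h1
  have hzz : diagonal (fun _ : Fin (n + 1) => z) * diagonal (fun _ : Fin (n + 1) => z) =
      (1 : Matrix (Fin (n + 1)) (Fin (n + 1)) F) := by
    rw [diagonal_mul_diagonal, hz1, diagonal_one]
  have hZZ : Zg * Zg = 1 := Units.ext (by rw [Units.val_mul, hZ, hzz, Units.val_one])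
  have hZt : (Zg : Matrix (Fin (n + 1)) (Fin (n + 1)) F)ᵀ * Sw F n *
      (Zg : Matrix (Fin (n + 1)) (Fin (n + 1)) F) = Sw F n := by
    rw [hZ, diagonal_transpose]
    ext a b
    rw [mul_diagonal, diagonal_mul, mul_comm z, mul_assoc, hz1, mul_one]
  have hc0 : ∃ c0 : F, c0 ≠ 0 ∧ c0 • Sw F n ∈ 𝒮 := by
    by_cases h2 : (2 : F) = 0
    · refine ⟨1, one_ne_zero, ?_⟩
      have hneg : (-1 : F) = 1 := by linear_combination -h2
      have hZ1 : Zg = 1 := Units.ext (by rw [hZ, Units.val_one, hz2 hneg, diagonal_one])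
      rw [one_smul, h𝒮]
      rw [hZ1, Lm_one, Matrix.one_mul] at hfull
      exact hfull
    · refine ⟨2, h2, ?_⟩
      rw [h𝒮]
      have h3 := hfull.mul hfull
      have e : Lm Zg * sL (Sw F n) * (Lm Zg * sL (Sw F n)) = sL ((2 : F) • Sw F n) := by
        rw [Matrix.mul_assoc, ← Matrix.mul_assoc (sL (Sw F n)) (Lm Zg), sL_Lm, hZt, ← Matrix.mul_assoc,
          ← Matrix.mul_assoc, ← Lm_mul, hZZ, Lm_one, Matrix.one_mul, ← sL_add, two_smul]
      rwa [e] at h3
  obtain ⟨c0, hc0ne, hc0mem⟩ := hc0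
  have hinv : ∀ (A : SpecialLinearGroup (Fin (n + 1)) F) (S : Matrix (Fin (n + 1)) (Fin (n + 1)) F),
      S ∈ 𝒮 → (A : Matrix (Fin (n + 1)) (Fin (n + 1)) F)ᵀ * S *
        (A : Matrix (Fin (n + 1)) (Fin (n + 1)) F) ∈ 𝒮 := fun A S hS => hinvar A S hS
  obtain ⟨l, hl0, hl1⟩ : ∃ l : Fin (n + 1), l ≠ 0 ∧ l ≠ 1 := by
    refine ⟨⟨2, by omega⟩, ?_, ?_⟩
    · intro h
      have h' := congrArg Fin.val h
      rw [Fin.val_zero] at h'
      simp at h'
    · intro h
      have h' := congrArg Fin.val h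
      rw [Fin.val_one', Nat.mod_eq_of_lt (by omega)] at h'
      simp at h'
  have hA := exists_alt 𝒮 hinv (c0 • Sw F n)
    (by rw [transpose_smul, Sw_transpose, smul_neg])
    (fun i => by rw [Matrix.smul_apply, Sw_diag, smul_zero]) hc0mem 0 1 l h01 hl0 hl1
  have e01 : (c0 • Sw F n) 0 1 = c0 := by
    rw [Matrix.smul_apply, Sw_01 F n hn, smul_eq_mul, mul_one]
  rw [e01] at hA
  have hall := alt_all 𝒮 (by omega) hinv l 0 hl0 c0 hc0ne hA
  refine ⟨fun S hS hS0 => hall S hS hS0, ?_⟩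
  have hE : InK H (sL (Alt (0 : Fin (n + 1)) 1 (1 : F))) :=
    hall _ (Alt_transpose _ _ _) (Alt_diag _ _ _)
  have hwH : InK H (Lm (SpecialLinearGroup.toGL w)) := InK.cancel_right hE hb
  let K : Subgroup (SpecialLinearGroup (Fin (n + 1)) F) :=
    { carrier := {A | InK H (Lm (SpecialLinearGroup.toGL A))}
      one_mem' := by show InK H (Lm (SpecialLinearGroup.toGL 1)); rw [map_one, Lm_one]; exact InK.one H
      mul_mem' := by
        intro A B hA hB
        show InK H (Lm (SpecialLinearGroup.toGL (A * B)))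
        rw [map_mul, Lm_mul]; exact InK.mul hA hB
      inv_mem' := by
        intro A hA
        show InK H (Lm (SpecialLinearGroup.toGL A⁻¹))
        apply InK.of_mul_eq_one hA
        rw [← Lm_mul, ← map_mul, mul_inv_cancel, map_one, Lm_one] }
  have hK : K = ⊤ := Cfsg.Agent.S2402.top_of_root F n (by omega) K w hw hwH h01 hT
  intro A
  have : A ∈ K := by rw [hK]; trivial
  exact this

theorem lemmaB' (hn : 2 ≤ n) (H : Subgroup ↥(O (plusQ (n + 1) F)))
    (hL : ∀ S : Matrix (Fin (n + 1)) (Fin (n + 1)) F, Sᵀ = -S → (∀ i, S i i = 0) → InK H (sL S))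
    (hLm : ∀ A : SpecialLinearGroup (Fin (n + 1)) F, InK H (Lm (SpecialLinearGroup.toGL A)))
    (i₀ j₀ : Fin (n + 1)) (hij₀ : i₀ ≠ j₀) (c₀ : F) (hc₀ : c₀ ≠ 0)
    (hU : InK H (sU (Alt i₀ j₀ c₀))) : EG (plusQ (n + 1) F) ≤ H := by
  classical
  let 𝒮 : AddSubgroup (Matrix (Fin (n + 1)) (Fin (n + 1)) F) :=
    { carrier := {S | InK H (sU S)}
      zero_mem' := by show InK H (sU 0); rw [sU_zero]; exact InK.one H
      add_mem' := by
        intro S T hS hT
        show InK H (sU (S + T))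
        rw [sU_add]; exact InK.mul hS hT
      neg_mem' := by
        intro S hS
        show InK H (sU (-S))
        apply InK.of_mul_eq_one hS
        rw [← sU_add, add_neg_cancel, sU_zero] }
  have hinv : ∀ (A : SpecialLinearGroup (Fin (n + 1)) F) (S : Matrix (Fin (n + 1)) (Fin (n + 1)) F),
      S ∈ 𝒮 → (A : Matrix (Fin (n + 1)) (Fin (n + 1)) F)ᵀ * S *
        (A : Matrix (Fin (n + 1)) (Fin (n + 1)) F) ∈ 𝒮 := by
    intro A S hS
    have hA := hLm (Matrix.SpecialLinearGroup.transpose A)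
    have h1 := hA.mul hS
    rw [Lm_sU] at h1
    have h2 := InK.cancel_right hA h1
    have e : ((SpecialLinearGroup.toGL (Matrix.SpecialLinearGroup.transpose A) :
        GL (Fin (n + 1)) F) : Matrix (Fin (n + 1)) (Fin (n + 1)) F) =
        (A : Matrix (Fin (n + 1)) (Fin (n + 1)) F)ᵀ := rfl
    rw [e, transpose_transpose] at h2
    exact h2
  have hUall : ∀ S : Matrix (Fin (n + 1)) (Fin (n + 1)) F, Sᵀ = -S → (∀ i, S i i = 0) →
      InK H (sU S) :=
    fun S hS hS0 => alt_all 𝒮 (by omega) hinv i₀ j₀ hij₀ c₀ hc₀ hU S hS hS0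
  apply thmGB H 0
  · intro j a; exact hUall _ (Alt_transpose _ _ _) (Alt_diag _ _ _)
  · intro j a; exact hL _ (Alt_transpose _ _ _) (Alt_diag _ _ _)
  · intro i j hij a; exact hLm _

end lemmaA

section helpers
variable {F : Type*} [Field F] {m : ℕ}
open Cfsg.Agent.Lib.Helper44.NegPairs
open Cfsg.Agent.S2411 (Lm sU sL Lm_one Lm_mul Lm_pow sU_add sL_add sU_zero sL_zero Lm_sU sL_Lm)

theorem Alt_neg (i j : Fin m) (a : F) : Alt i j (-a) = -Alt i j a := by
  unfold Alt
  rw [← single_neg, ← single_neg]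
  abel

theorem Alt_cube (i j : Fin m) (hij : i ≠ j) :
    Alt i j (1 : F) * Alt i j 1 * Alt i j 1 = -Alt i j 1 := by
  have e1 : Alt i j (1 : F) * Alt i j 1 = -(single i i 1 + single j j 1) := by
    unfold Alt
    simp only [sub_mul, mul_sub, single_mul_single_same,
      single_mul_single_of_ne (c := (1 : F)) i j i hij.symm,
      single_mul_single_of_ne (c := (1 : F)) j i j hij, mul_one]
    abel
  have e2 : (single i i (1 : F) + single j j 1) * Alt i j 1 = Alt i j 1 := by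
    unfold Alt
    simp only [add_mul, mul_sub, single_mul_single_same,
      single_mul_single_of_ne (c := (1 : F)) i i j hij,
      single_mul_single_of_ne (c := (1 : F)) j j i hij.symm, mul_one]
    abel
  rw [e1, Matrix.neg_mul, e2]

theorem tv_fix_Alt (p q i j : Fin m) (hqi : q ≠ i) (hqj : q ≠ j) (s c : F) :
    (1 + single p q s) * Alt i j c * (1 + single q p s) = Alt i j c := by
  unfold Alt
  simp only [add_mul, mul_add, sub_mul, mul_sub, Matrix.one_mul, Matrix.mul_one,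
    single_mul_single_of_ne (c := s) p q i hqi, single_mul_single_of_ne (c := s) p q j hqj,
    single_mul_single_of_ne (c := c) i j q hqj.symm,
    single_mul_single_of_ne (c := c) j i q hqi.symm, sub_zero, add_zero, Matrix.zero_mul,
    Matrix.mul_zero, sub_self]

theorem diag_Alt (d : Fin m → F) (i j : Fin m) (c : F) :
    diagonal d * Alt i j c * diagonal d = Alt i j (d i * d j * c) := by
  ext a b
  rw [mul_diagonal, diagonal_mul]
  unfold Alt
  rw [Matrix.sub_apply, Matrix.sub_apply, single_apply, single_apply, single_apply, single_apply]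
  by_cases h1 : i = a ∧ j = b
  · obtain ⟨rfl, rfl⟩ := h1
    by_cases h2 : j = i
    · subst h2
      simp
    · rw [if_pos ⟨rfl, rfl⟩, if_neg (fun h => h2 h.1), if_pos ⟨rfl, rfl⟩, if_neg (fun h => h2 h.1)]
      ring
  · by_cases h2 : j = a ∧ i = b
    · obtain ⟨rfl, rfl⟩ := h2
      rw [if_neg h1, if_pos ⟨rfl, rfl⟩, if_neg h1, if_pos ⟨rfl, rfl⟩]
      ring
    · rw [if_neg h1, if_neg h2, if_neg h1, if_neg h2]
      ring

theorem braid (E : Matrix (Fin m) (Fin m) F) (hE3 : E * E * E = -E) :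
    sL E * sU E * sL E = sU E * sL E * sU E := by
  unfold sL sU
  simp only [fromBlocks_multiply, Matrix.mul_one, Matrix.one_mul, Matrix.mul_zero,
    Matrix.zero_mul, add_zero, zero_add, mul_add, add_mul, hE3]
  congr 1 <;> abel

theorem gen_of_mats (Ma Mb : Matrix (Fin m ⊕ Fin m) (Fin m ⊕ Fin m) F)
    (hMa : InK (EG (plusQ m F)) Ma) (hMb : InK (EG (plusQ m F)) Mb)
    (h : ∀ H : Subgroup ↥(O (plusQ m F)), InK H Ma → InK H Mb → EG (plusQ m F) ≤ H) :
    ∃ a b : ↥(O (plusQ m F)), a ∈ EG (plusQ m F) ∧ b ∈ EG (plusQ m F) ∧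
      EG (plusQ m F) ≤ Subgroup.closure ({a, b} : Set ↥(O (plusQ m F))) := by
  obtain ⟨a, ha, ha'⟩ := hMa
  obtain ⟨b, hb, hb'⟩ := hMb
  exact ⟨a, b, ha, hb, h _ ⟨a, Subgroup.subset_closure (by simp), ha'⟩
    ⟨b, Subgroup.subset_closure (by simp), hb'⟩⟩

end helpers

section mainsec
variable {F : Type*} [Field F] [Fintype F]
open Cfsg.Agent.S2403 (wMat)
open Cfsg.Agent.Lib.Helper44.NegPairs
open Cfsg.Agent.S2411 (Lm sU sL Lm_one Lm_mul Lm_pow sU_add sL_add sU_zero sL_zero Lm_sU sL_Lm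
  dg dg_val dg_mul dg_one dg_inv dg_conj_tv det_wMat sq_all)

theorem main_omega (n : ℕ) (hn : 3 ≤ n) :
    ∃ a b : ↥(O (plusQ (n + 1) F)), a ∈ EG (plusQ (n + 1) F) ∧ b ∈ EG (plusQ (n + 1) F) ∧
      EG (plusQ (n + 1) F) ≤ Subgroup.closure ({a, b} : Set ↥(O (plusQ (n + 1) F))) := by
  classical
  haveI : Nontrivial (Fin (n + 1)) := Fin.nontrivial_iff_two_le.mpr (by omega)
  have h1v : (1 : Fin (n + 1)).val = 1 := by rw [Fin.val_one', Nat.mod_eq_of_lt (by omega)]
  have hne : ∀ {x y : Fin (n + 1)}, x.val ≠ y.val → x ≠ y := fun h h' => h (congrArg Fin.val h')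
  have h01 : (0 : Fin (n + 1)) ≠ 1 := hne (by rw [Fin.val_zero, h1v]; omega)
  obtain ⟨w, hw⟩ : ∃ w : SpecialLinearGroup (Fin (n + 1)) F,
      (w : Matrix (Fin (n + 1)) (Fin (n + 1)) F) = wMat F n := ⟨⟨wMat F n, det_wMat F n⟩, rfl⟩
  obtain ⟨T, hT⟩ : ∃ T : F → GL (Fin (n + 1)) F,
      ∀ c, T c = SpecialLinearGroup.toGL (SpecialLinearGroup.transvection h01 c) := ⟨_, fun _ => rfl⟩
  have Tadd : ∀ c c' : F, T (c + c') = T c * T c' := by
    intro c c'
    rw [hT, hT, hT, ← map_mul, SpecialLinearGroup.transvection_add]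
  have Tzero : T 0 = 1 := by
    rw [hT, SpecialLinearGroup.transvection_coeff_zero, map_one]
  have Tinv : ∀ c : F, (T c)⁻¹ = T (-c) := by
    intro c
    apply inv_eq_of_mul_eq_one_right
    rw [← Tadd, add_neg_cancel, Tzero]
  obtain ⟨E, hE⟩ : ∃ E : Matrix (Fin (n + 1)) (Fin (n + 1)) F, E = Alt 0 1 1 := ⟨_, rfl⟩
  have hEG : ∀ A : SpecialLinearGroup (Fin (n + 1)) F,
      InK (EG (plusQ (n + 1) F)) (Lm (SpecialLinearGroup.toGL A)) :=
    Lm_SL_of_tv _ (fun i j hij a => Lm_tv_EG hij a)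
  have hEGT : ∀ c, InK (EG (plusQ (n + 1) F)) (Lm (T c)) := fun c => by rw [hT]; exact hEG _
  obtain ⟨l2, hl2v⟩ : ∃ l : Fin (n + 1), l.val = 2 := ⟨⟨2, by omega⟩, rfl⟩
  obtain ⟨l3, hl3v⟩ : ∃ l : Fin (n + 1), l.val = 3 := ⟨⟨3, by omega⟩, rfl⟩
  have hl20 : l2 ≠ 0 := hne (by rw [hl2v, Fin.val_zero]; omega)
  have hl21 : l2 ≠ 1 := hne (by rw [hl2v, h1v]; omega)
  have hl30 : l3 ≠ 0 := hne (by rw [hl3v, Fin.val_zero]; omega)
  have hl31 : l3 ≠ 1 := hne (by rw [hl3v, h1v]; omega)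
  have hl23 : l2 ≠ l3 := hne (by rw [hl2v, hl3v]; omega)
  have hT1 : ((T 1 : GL (Fin (n + 1)) F) : Matrix (Fin (n + 1)) (Fin (n + 1)) F) =
      1 + single 0 1 1 := by
    rw [hT]; rfl
  have hT1t : ((T 1 : GL (Fin (n + 1)) F) : Matrix (Fin (n + 1)) (Fin (n + 1)) F)ᵀ =
      1 + single 1 0 1 := by
    rw [hT1, transpose_add, transpose_one, transpose_single]
  rcases lt_trichotomy (Fintype.card F) 3 with hq | hq | hq
  · -- the field with two elements
    have hq2 : Fintype.card F = 2 := by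
      have := Fintype.one_lt_card (α := F)
      omega
    have h2 : (2 : F) = 0 := by
      have h3 := FiniteField.cast_card_eq_zero F
      rw [hq2] at h3
      exact_mod_cast h3
    obtain ⟨El, hEl⟩ : ∃ El : Matrix (Fin (n + 1)) (Fin (n + 1)) F, El = Alt l2 l3 1 := ⟨_, rfl⟩
    have hElt : Elᵀ = -El := by rw [hEl]; exact Alt_transpose _ _ _
    have hEld : ∀ i, El i i = 0 := by rw [hEl]; exact Alt_diag _ _ _
    have hEl3 : El * El * El = -El := by rw [hEl]; exact Alt_cube l2 l3 hl23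
    have hEl2 : El + El = 0 := by rw [← two_smul F El, h2, zero_smul]
    have huu : sU El * sU El = 1 := by rw [← sU_add, hEl2, sU_zero]
    have hvv : sL El * sL El = 1 := by rw [← sL_add, hEl2, sL_zero]
    have hbr := braid El hEl3
    obtain ⟨t, ht⟩ : ∃ t : Matrix (Fin (n + 1) ⊕ Fin (n + 1)) (Fin (n + 1) ⊕ Fin (n + 1)) F,
        t = sL El * sU El := ⟨_, rfl⟩
    have ht3 : t ^ 3 = 1 := by
      have e1 : t ^ 3 = (sL El * sU El * sL El) * (sU El * sL El * sU El) := by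
        rw [ht, pow_succ, pow_two]
        simp only [Matrix.mul_assoc]
      rw [e1, hbr]
      have e2 : sU El * sL El * sU El * (sU El * sL El * sU El) =
          sU El * (sL El * (sU El * sU El) * sL El) * sU El := by
        simp only [Matrix.mul_assoc]
      rw [e2, huu, Matrix.mul_one, hvv, Matrix.mul_one, huu]
    have htv : t * sL El = sU El * t := by
      rw [ht, hbr, Matrix.mul_assoc]
    have hXE : ((T 1 : GL (Fin (n + 1)) F) : Matrix (Fin (n + 1)) (Fin (n + 1)) F) * El *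
        ((T 1 : GL (Fin (n + 1)) F) : Matrix (Fin (n + 1)) (Fin (n + 1)) F)ᵀ = El := by
      rw [hT1t, hT1, hEl]; exact tv_fix_Alt 0 1 l2 l3 hl21.symm hl31.symm 1 1
    have hXE' : ((T 1 : GL (Fin (n + 1)) F) : Matrix (Fin (n + 1)) (Fin (n + 1)) F)ᵀ * El *
        ((T 1 : GL (Fin (n + 1)) F) : Matrix (Fin (n + 1)) (Fin (n + 1)) F) = El := by
      rw [hT1t, hT1, hEl]; exact tv_fix_Alt 1 0 l2 l3 hl20.symm hl30.symm 1 1
    have hcomm : Commute (Lm (T 1)) t := by
      show Lm (T 1) * t = t * Lm (T 1)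
      have e1 : sL El * Lm (T 1) = Lm (T 1) * sL El := by rw [sL_Lm, hXE']
      have e2 : Lm (T 1) * sU El = sU El * Lm (T 1) := by rw [Lm_sU, hXE]
      rw [ht, ← Matrix.mul_assoc, ← e1, Matrix.mul_assoc, e2, Matrix.mul_assoc]
    apply gen_of_mats (Lm (T 1) * t) (Lm (SpecialLinearGroup.toGL w) * sL E)
    · rw [ht, hEl]; exact (hEGT 1).mul ((sL_EG l2 l3 1).mul (sU_EG l2 l3 1))
    · rw [hE]; exact (hEG w).mul (sL_EG 0 1 1)
    intro H hA hB
    have hX2 : T 1 * T 1 = 1 := by rw [← Tadd, one_add_one_eq_two, h2, Tzero]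
    have hLX : InK H (Lm (T 1)) := by
      have h1 := hA.pow 3
      have e3 : T 1 ^ 3 = T 1 := by rw [pow_succ, pow_two, hX2, one_mul]
      rw [hcomm.mul_pow, ht3, Matrix.mul_one, ← Lm_pow, e3] at h1
      exact h1
    have htH : InK H t := InK.cancel_left hLX hA
    have hTH : ∀ c : F,
        InK H (Lm (SpecialLinearGroup.toGL (SpecialLinearGroup.transvection h01 c))) := by
      intro c
      rw [← hT]
      rcases Cfsg.Agent.S2403.field_le_three (by omega : Fintype.card F ≤ 3) c with rfl | rfl | rfl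
      · rw [Tzero, Lm_one]; exact InK.one H
      · exact hLX
      · apply InK.of_mul_eq_one hLX
        rw [← Lm_mul, ← Tadd, add_neg_cancel, Tzero, Lm_one]
    obtain ⟨hL, hLm⟩ := lemmaA' n (by omega) H w hw h01 hTH (by rw [← hE]; exact hB)
    have hUl : InK H (sU El) := by
      apply InK.cancel_right htH
      rw [← htv]
      exact htH.mul (hL El hElt hEld)
    exact lemmaB' n (by omega) H hL hLm l2 l3 hl23 1 one_ne_zero (by rw [← hEl]; exact hUl)
  · -- the field with three elements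
    have h3 : (3 : F) = 0 := by
      have h3' := FiniteField.cast_card_eq_zero F
      rw [hq] at h3'
      exact_mod_cast h3'
    obtain ⟨dk, hdk⟩ : ∃ dk : Fin (n + 1) → Fˣ,
        dk = fun i => if i = 0 then -1 else if i = 1 then -1 else 1 := ⟨_, rfl⟩
    have dk0 : dk 0 = -1 := by rw [hdk]; exact if_pos rfl
    have dk1 : dk 1 = -1 := by rw [hdk]; simp
    have dkl : dk l2 = 1 := by rw [hdk]; simp [hl20, hl21]
    obtain ⟨D, hD⟩ : ∃ D : GL (Fin (n + 1)) F, D = dg dk := ⟨_, rfl⟩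
    obtain ⟨Dsl, hDsl⟩ : ∃ Dsl : SpecialLinearGroup (Fin (n + 1)) F,
        SpecialLinearGroup.toGL Dsl = D := by
      have hm1 : (-1 : F) ≠ 0 := neg_ne_zero.mpr one_ne_zero
      refine ⟨SpecialLinearGroup.diag2n h01 (-1) hm1, ?_⟩
      apply Units.ext
      rw [hD, dg_val]
      show (SpecialLinearGroup.diag2n h01 (-1 : F) hm1).1 = _
      rw [SpecialLinearGroup.diag2n_coe]
      congr 1
      funext i
      rw [hdk]
      by_cases hi0 : i = 0
      · simp [hi0]
      · by_cases hi1 : i = 1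
        · simp [hi1, h01.symm]
        · simp [hi0, hi1]
    obtain ⟨E', hE'⟩ : ∃ E' : Matrix (Fin (n + 1)) (Fin (n + 1)) F, E' = Alt 0 l2 1 := ⟨_, rfl⟩
    have hDE : (D : Matrix (Fin (n + 1)) (Fin (n + 1)) F) * E' *
        (D : Matrix (Fin (n + 1)) (Fin (n + 1)) F)ᵀ = -E' := by
      rw [hD, dg_val, diagonal_transpose, hE', diag_Alt, dk0, dkl, ← Alt_neg]
      congr 1
      simp
    have hD2 : D * D = 1 := by
      rw [hD, dg_mul]
      have e : dk * dk = 1 := by
        funext i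
        rw [hdk]
        simp only [Pi.mul_apply, Pi.one_apply]
        split_ifs <;> simp
      rw [e, dg_one]
    obtain ⟨s, hs⟩ : ∃ s : Matrix (Fin (n + 1) ⊕ Fin (n + 1)) (Fin (n + 1) ⊕ Fin (n + 1)) F,
        s = Lm D * sU E' := ⟨_, rfl⟩
    have e1 : Lm D * sU E' = sU (-E') * Lm D := by rw [Lm_sU, hDE]
    have hs2 : s * s = 1 := by
      rw [hs]
      calc Lm D * sU E' * (Lm D * sU E') = Lm D * sU E' * (sU (-E') * Lm D) := by
            congr 1
        _ = Lm D * (sU E' * sU (-E')) * Lm D := by simp only [Matrix.mul_assoc]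
        _ = 1 := by
            rw [← sU_add, add_neg_cancel, sU_zero, Matrix.mul_one, ← Lm_mul, hD2, Lm_one]
    have hxD : T 1 * D = D * T 1 := by
      have h := dg_conj_tv dk h01 (1 : F)
      have e : ((dk 0 : Fˣ) : F) * 1 * (((dk 1 : Fˣ) : F))⁻¹ = 1 := by rw [dk0, dk1]; simp
      rw [e, mul_inv_eq_iff_eq_mul] at h
      rw [hD, hT]
      exact h.symm
    have hXE : ((T 1 : GL (Fin (n + 1)) F) : Matrix (Fin (n + 1)) (Fin (n + 1)) F) * E' *
        ((T 1 : GL (Fin (n + 1)) F) : Matrix (Fin (n + 1)) (Fin (n + 1)) F)ᵀ = E' := by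
      rw [hT1t, hT1, hE']; exact tv_fix_Alt 0 1 0 l2 h01.symm hl21.symm 1 1
    have hcomm : Commute (Lm (T 1)) s := by
      show Lm (T 1) * s = s * Lm (T 1)
      rw [hs, ← Matrix.mul_assoc, ← Lm_mul, hxD, Lm_mul, Matrix.mul_assoc, Lm_sU (T 1), hXE,
        Matrix.mul_assoc]
    apply gen_of_mats (Lm (T 1) * s) (Lm (SpecialLinearGroup.toGL w) * sL E)
    · rw [hs, hE', ← hDsl]; exact (hEGT 1).mul ((hEG Dsl).mul (sU_EG 0 l2 1))
    · rw [hE]; exact (hEG w).mul (sL_EG 0 1 1)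
    intro H hA hB
    have hX3 : T 1 ^ 3 = 1 := by
      rw [pow_succ, pow_two, ← Tadd, ← Tadd]
      have e : (1 + 1 + 1 : F) = 0 := by rw [← h3]; norm_num
      rw [e, Tzero]
    have hLX : InK H (Lm (T 1)) := by
      have h1 := hA.pow 4
      have e4 : T 1 ^ 4 = T 1 := by rw [pow_succ, hX3, one_mul]
      have es : s ^ 4 = 1 := by
        have e : s ^ 4 = (s * s) * (s * s) := by
          rw [pow_succ, pow_succ, pow_two]
          simp only [Matrix.mul_assoc]
        rw [e, hs2, Matrix.one_mul]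
      rw [hcomm.mul_pow, es, Matrix.mul_one, ← Lm_pow, e4] at h1
      exact h1
    have hsH : InK H s := InK.cancel_left hLX hA
    have hTH : ∀ c : F,
        InK H (Lm (SpecialLinearGroup.toGL (SpecialLinearGroup.transvection h01 c))) := by
      intro c
      rw [← hT]
      rcases Cfsg.Agent.S2403.field_le_three (by omega : Fintype.card F ≤ 3) c with rfl | rfl | rfl
      · rw [Tzero, Lm_one]; exact InK.one H
      · exact hLX
      · apply InK.of_mul_eq_one hLX
        rw [← Lm_mul, ← Tadd, add_neg_cancel, Tzero, Lm_one]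
    obtain ⟨hL, hLm⟩ := lemmaA' n (by omega) H w hw h01 hTH (by rw [← hE]; exact hB)
    have hLD : InK H (Lm D) := by rw [← hDsl]; exact hLm Dsl
    have hU' : InK H (sU E') := InK.cancel_left hLD (by rw [← hs]; exact hsH)
    exact lemmaB' n (by omega) H hL hLm 0 l2 hl20.symm 1 one_ne_zero (by rw [← hE']; exact hU')
  · -- at least four elements
    obtain ⟨k, hk⟩ := IsCyclic.exists_generator (α := Fˣ)
    have hk0 : (k : F) ≠ 0 := Units.ne_zero k
    have hk2 : (k : F) * (k : F) ≠ 1 := by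
      intro h
      have h1 : k ^ 2 = 1 := Units.ext (by rw [Units.val_pow_eq_pow_val, pow_two, h, Units.val_one])
      have h2 : orderOf k ∣ 2 := orderOf_dvd_of_pow_eq_one h1
      have h3 : orderOf k = Nat.card Fˣ := orderOf_eq_card_of_forall_mem_zpowers hk
      rw [h3, Nat.card_eq_fintype_card, Fintype.card_units] at h2
      have := Nat.le_of_dvd (by norm_num) h2
      omega
    have hk1 : (k : F) ≠ 1 := by
      intro h; apply hk2; rw [h, mul_one]
    obtain ⟨dk, hdk⟩ : ∃ dk : Fin (n + 1) → Fˣ,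
        dk = fun i => if i = 0 then k else if i = 1 then k⁻¹ else 1 := ⟨_, rfl⟩
    obtain ⟨dk', hdk'⟩ : ∃ dk' : Fin (n + 1) → Fˣ, dk' = fun i => dk (i + 1) := ⟨_, rfl⟩
    have dk0 : dk 0 = k := by rw [hdk]; exact if_pos rfl
    have dk1 : dk 1 = k⁻¹ := by rw [hdk]; simp [h01.symm]
    have dk'0 : dk' 0 = k⁻¹ := by
      rw [hdk']
      show dk (0 + 1) = k⁻¹
      rw [zero_add]; exact dk1
    have dk'1 : dk' 1 = 1 := by
      rw [hdk']
      show dk (1 + 1) = 1
      have e : (1 + 1 : Fin (n + 1)) = l2 := by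
        apply Fin.ext
        rw [Fin.val_add, h1v, hl2v, Nat.mod_eq_of_lt (by omega)]
      rw [e, hdk]; simp [hl20, hl21]
    obtain ⟨D, hD⟩ : ∃ D : GL (Fin (n + 1)) F, D = dg dk := ⟨_, rfl⟩
    obtain ⟨D', hD'⟩ : ∃ D' : GL (Fin (n + 1)) F, D' = dg dk' := ⟨_, rfl⟩
    obtain ⟨Dsl, hDsl⟩ : ∃ Dsl : SpecialLinearGroup (Fin (n + 1)) F,
        SpecialLinearGroup.toGL Dsl = D := by
      refine ⟨SpecialLinearGroup.diag2n h01 (k : F) hk0, ?_⟩
      apply Units.ext
      rw [hD, dg_val]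
      show (SpecialLinearGroup.diag2n h01 (k : F) hk0).1 = _
      rw [SpecialLinearGroup.diag2n_coe]
      congr 1
      funext i
      rw [hdk]
      by_cases hi0 : i = 0
      · simp [hi0]
      · by_cases hi1 : i = 1
        · simp [hi1, h01.symm]
        · simp [hi0, hi1]
    have hDE : (D : Matrix (Fin (n + 1)) (Fin (n + 1)) F) * E *
        (D : Matrix (Fin (n + 1)) (Fin (n + 1)) F)ᵀ = E := by
      rw [hD, dg_val, diagonal_transpose, hE, diag_Alt, dk0, dk1]
      congr 1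
      simp
    have hDE' : (D : Matrix (Fin (n + 1)) (Fin (n + 1)) F)ᵀ * E *
        (D : Matrix (Fin (n + 1)) (Fin (n + 1)) F) = E := by
      rw [hD, dg_val, diagonal_transpose, hE, diag_Alt, dk0, dk1]
      congr 1
      simp
    obtain ⟨G, hG⟩ : ∃ G : GL (Fin (n + 1)) F, G = T 1 * SpecialLinearGroup.toGL w := ⟨_, rfl⟩
    apply gen_of_mats (Lm D * sU E) (Lm G * sL E)
    · rw [hE, ← hDsl]; exact (hEG Dsl).mul (sU_EG 0 1 1)
    · rw [hE, hG, hT, ← map_mul]; exact (hEG _).mul (sL_EG 0 1 1)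
    intro H hA hB
    have hcomm : Commute (Lm D) (sU E) := by
      show Lm D * sU E = sU E * Lm D
      rw [Lm_sU, hDE]
    have hsUpow : ∀ j : ℕ, sU E ^ j = sU (j • E) := by
      intro j
      induction j with
      | zero => rw [pow_zero, zero_smul, sU_zero]
      | succ j ih => rw [pow_succ, ih, ← sU_add, succ_nsmul]
    have hq0 : (Fintype.card F) • E = 0 := by
      rw [← Nat.cast_smul_eq_nsmul F, FiniteField.cast_card_eq_zero, zero_smul]
    have hDq : D ^ Fintype.card F = D := by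
      apply Units.ext
      rw [Units.val_pow_eq_pow_val, hD, dg_val, diagonal_pow]
      congr 1
      funext i
      exact FiniteField.pow_card _
    have hLD : InK H (Lm D) := by
      have h1 := hA.pow (Fintype.card F)
      rw [hcomm.mul_pow, hsUpow, hq0, sU_zero, Matrix.mul_one, ← Lm_pow, hDq] at h1
      exact h1
    have hUE : InK H (sU E) := InK.cancel_left hLD hA
    let K : Subgroup (GL (Fin (n + 1)) F) :=
      { carrier := {A | InK H (Lm A)}
        one_mem' := by show InK H (Lm 1); rw [Lm_one]; exact InK.one H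
        mul_mem' := by
          intro A B hA' hB'
          show InK H (Lm (A * B))
          rw [Lm_mul]; exact InK.mul hA' hB'
        inv_mem' := by
          intro A hA'
          show InK H (Lm A⁻¹)
          apply InK.of_mul_eq_one hA'
          rw [← Lm_mul, mul_inv_cancel, Lm_one] }
    have hDK : D ∈ K := hLD
    have hg2 : G * D * G⁻¹ ∈ K := by
      show InK H (Lm (G * D * G⁻¹))
      have e : Lm (G * D * G⁻¹) * (Lm G * sL E) = (Lm G * sL E) * Lm D := by
        rw [← Matrix.mul_assoc, ← Lm_mul, inv_mul_cancel_right, Matrix.mul_assoc, sL_Lm, hDE',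
          ← Matrix.mul_assoc, ← Lm_mul]
      exact InK.cancel_right hB (by rw [e]; exact hB.mul hLD)
    have hWD : SpecialLinearGroup.toGL w * D * (SpecialLinearGroup.toGL w)⁻¹ = D' := by
      rw [mul_inv_eq_iff_eq_mul]
      apply Units.ext
      rw [Units.val_mul, Units.val_mul, hD, hD', dg_val, dg_val]
      show (w : Matrix (Fin (n + 1)) (Fin (n + 1)) F) * _ = _ * (w : Matrix (Fin (n + 1)) (Fin (n + 1)) F)
      rw [hw, Cfsg.Agent.S2402.w_mul_diag, hdk']
    have conj : ∀ (d : Fin (n + 1) → Fˣ) (c : F),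
        dg d * T c * (dg d)⁻¹ = T ((d 0 : F) * c * ((d 1 : F))⁻¹) := by
      intro d c
      rw [hT, hT]
      exact dg_conj_tv d h01 c
    obtain ⟨c₀, hc₀⟩ : ∃ c₀ : F, c₀ = (k : F) - 1 := ⟨_, rfl⟩
    have hc₀ne : c₀ ≠ 0 := by
      rw [hc₀]; exact sub_ne_zero.mpr hk1
    have hg2' : G * D * G⁻¹ = D' * T c₀ := by
      have e1 : G * D * G⁻¹ = T 1 * (SpecialLinearGroup.toGL w * D * (SpecialLinearGroup.toGL w)⁻¹) *
          (T 1)⁻¹ := by rw [hG]; group
      have e2 : T 1 * D' * (T 1)⁻¹ = D' * (D'⁻¹ * T 1 * D'⁻¹⁻¹) * (T 1)⁻¹ := by group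
      rw [e1, hWD, e2, hD', dg_inv, conj, mul_assoc, Tinv, ← Tadd]
      congr 2
      rw [hc₀]
      simp [dk'0, dk'1]
      ring
    have hg2K : D' * T c₀ ∈ K := hg2' ▸ hg2
    have hDD' : D * D' = D' * D := by rw [hD, hD', dg_mul, dg_mul, mul_comm]
    obtain ⟨c₁, hc₁⟩ : ∃ c₁ : F, c₁ = (k : F)⁻¹ * ((k : F) * c₀ * (k : F) + -c₀) := ⟨_, rfl⟩
    have hc₁ne : c₁ ≠ 0 := by
      have e : c₁ = (k : F)⁻¹ * (((k : F) * (k : F) - 1) * c₀) := by rw [hc₁]; ring
      rw [e]
      exact mul_ne_zero (inv_ne_zero hk0) (mul_ne_zero (sub_ne_zero.mpr hk2) hc₀ne)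
    have hcm : D * (D' * T c₀) * D⁻¹ * (D' * T c₀)⁻¹ = T c₁ := by
      have e1 : D * (D' * T c₀) * D⁻¹ * (D' * T c₀)⁻¹ =
          D' * ((D * T c₀ * D⁻¹) * (T c₀)⁻¹) * D'⁻¹ := by
        rw [_root_.mul_inv_rev, ← mul_assoc D D', hDD']; group
      have e2 : D * T c₀ * D⁻¹ * (T c₀)⁻¹ = T ((k : F) * c₀ * (k : F) + -c₀) := by
        rw [hD, conj, Tinv, ← Tadd]
        congr 2
        simp [dk0, dk1]
      rw [e1, e2, hD', conj, hc₁]
      congr 1
      simp [dk'0, dk'1]
    have hTc1 : T c₁ ∈ K := by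
      rw [← hcm]
      exact K.mul_mem (K.mul_mem (K.mul_mem hDK hg2K) (K.inv_mem hDK)) (K.inv_mem hg2K)
    have hTu : ∀ u : Fˣ, T (c₁ * ((u : F) * (u : F))) ∈ K := by
      intro u
      obtain ⟨z, rfl⟩ := Subgroup.mem_zpowers_iff.mp (hk u)
      induction z using Int.induction_on with
      | zero => simpa using hTc1
      | succ i ih =>
        have e : T (c₁ * (((k ^ ((i : ℤ) + 1) : Fˣ) : F) * ((k ^ ((i : ℤ) + 1) : Fˣ) : F))) =
            D * T (c₁ * (((k ^ (i : ℤ) : Fˣ) : F) * ((k ^ (i : ℤ) : Fˣ) : F))) * D⁻¹ := by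
          rw [hD, conj]
          congr 1
          simp [dk0, dk1, _root_.zpow_add_one]
          ring
        rw [e]
        exact K.mul_mem (K.mul_mem hDK ih) (K.inv_mem hDK)
      | pred i ih =>
        have e : T (c₁ * (((k ^ (-(i : ℤ) - 1) : Fˣ) : F) * ((k ^ (-(i : ℤ) - 1) : Fˣ) : F))) =
            D⁻¹ * T (c₁ * (((k ^ (-(i : ℤ)) : Fˣ) : F) * ((k ^ (-(i : ℤ)) : Fˣ) : F))) * D⁻¹⁻¹ := by
          rw [hD, dg_inv, conj]
          congr 1
          simp [dk0, dk1, _root_.zpow_sub_one]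
          ring
        rw [e]
        exact K.mul_mem (K.mul_mem (K.inv_mem hDK) ih) (K.inv_mem (K.inv_mem hDK))
    have hTall : ∀ c : F, T c ∈ K := by
      let A : AddSubgroup F :=
        { carrier := {c | T c ∈ K}
          zero_mem' := by show T 0 ∈ K; rw [Tzero]; exact K.one_mem
          add_mem' := by
            intro a b ha hb
            show T (a + b) ∈ K
            rw [Tadd]; exact K.mul_mem ha hb
          neg_mem' := by
            intro a ha
            show T (-a) ∈ K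
            rw [← Tinv]; exact K.inv_mem ha }
      intro c
      have hsq : ∀ t : F, c₁ * t ^ 2 ∈ A := by
        intro t
        show T (c₁ * t ^ 2) ∈ K
        by_cases ht : t = 0
        · rw [ht]
          have e : c₁ * (0 : F) ^ 2 = 0 := by ring
          rw [e, Tzero]; exact K.one_mem
        · have h := hTu (Units.mk0 t ht)
          rw [Units.val_mk0] at h
          rw [pow_two]; exact h
      exact sq_all A c₁ hc₁ne hsq c
    have hTH : ∀ c : F,
        InK H (Lm (SpecialLinearGroup.toGL (SpecialLinearGroup.transvection h01 c))) := fun c => by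
      rw [← hT]; exact hTall c
    have hb : InK H (Lm (SpecialLinearGroup.toGL w) * sL (Alt 0 1 1)) := by
      apply InK.cancel_left (hTall 1)
      rw [← Matrix.mul_assoc, ← Lm_mul, ← hG, ← hE]
      exact hB
    obtain ⟨hL, hLm⟩ := lemmaA' n (by omega) H w hw h01 hTH hb
    exact lemmaB' n (by omega) H hL hLm 0 1 h01 1 one_ne_zero (by rw [← hE]; exact hUE)

end mainsec

/-- The simple orthogonal group `PΩ⁺_{2m}(q)` (commutator subgroup of the orthogonal group of `Σ x_i y_i` modulo its centre) with `m ≥ 4` is generated by two of its elements. -/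
theorem result {F : Type*} [Field F] [Fintype F] (m : ℕ) (hm : 4 ≤ m) :
    ∃ a b : Cfsg.POmega F (Cfsg.quadFormPlus m F), Subgroup.closure ({a, b} : Set (Cfsg.POmega F (Cfsg.quadFormPlus m F))) = ⊤ := by
  classical
  obtain ⟨n, rfl⟩ : ∃ n, m = n + 1 := ⟨m - 1, by omega⟩
  obtain ⟨a, b, ha, hb, hab⟩ := main_omega (F := F) n (by omega)
  have hS := Cfsg.Agent.Lib.Helper44.NegPairs.sep_plusQ (F := F) (n + 1)
  have hcard : Fintype.card (Fin (n + 1) ⊕ Fin (n + 1)) = 2 * (n + 1) := by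
    simp [Fintype.card_sum]
    ring
  have hfr : 5 ≤ Module.finrank F (Fin (n + 1) ⊕ Fin (n + 1) → F) := by
    rw [Module.finrank_fintype_fun_eq_card, hcard]
    omega
  have hgen : commutator ↥(O (Cfsg.Agent.Lib.Helper44.NegPairs.plusQ (n + 1) F)) =
      EG (Cfsg.Agent.Lib.Helper44.NegPairs.plusQ (n + 1) F) := by
    by_cases h2 : (2 : F) = 0
    · have : CharP F 2 := CharTwo.of_one_ne_zero_of_two_eq_zero one_ne_zero h2
      exact Cfsg.Agent.Lib.Helper5.OmegaGen2.commutator_eq_EG_two hS hfr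
    · exact commutator_eq_EG_odd h2 hS hfr
  obtain ⟨a', ha'⟩ : ∃ a' : ↥(commutator ↥(O (Cfsg.Agent.Lib.Helper44.NegPairs.plusQ (n + 1) F))),
      (a' : ↥(O (Cfsg.Agent.Lib.Helper44.NegPairs.plusQ (n + 1) F))) = a :=
    ⟨⟨a, by rw [hgen]; exact ha⟩, rfl⟩
  obtain ⟨b', hb'⟩ : ∃ b' : ↥(commutator ↥(O (Cfsg.Agent.Lib.Helper44.NegPairs.plusQ (n + 1) F))),
      (b' : ↥(O (Cfsg.Agent.Lib.Helper44.NegPairs.plusQ (n + 1) F))) = b :=
    ⟨⟨b, by rw [hgen]; exact hb⟩, rfl⟩
  have h1 : Subgroup.closure ({a', b'} :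
      Set ↥(commutator ↥(O (Cfsg.Agent.Lib.Helper44.NegPairs.plusQ (n + 1) F)))) = ⊤ := by
    apply Subgroup.map_injective (Subgroup.subtype_injective _)
    rw [MonoidHom.map_closure, ← MonoidHom.range_eq_map, Subgroup.range_subtype, Set.image_pair]
    show Subgroup.closure {(a' : ↥(O (Cfsg.Agent.Lib.Helper44.NegPairs.plusQ (n + 1) F))),
      (b' : ↥(O (Cfsg.Agent.Lib.Helper44.NegPairs.plusQ (n + 1) F)))} = _
    rw [ha', hb', hgen]
    apply le_antisymm
    · rw [Subgroup.closure_le]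
      rintro x (rfl | rfl)
      · exact ha
      · exact hb
    · exact hab
  obtain ⟨e⟩ : Nonempty (↥(Cfsg.Omega F (Cfsg.quadFormPlus (n + 1) F)) ≃*
      ↥(commutator ↥(O (Cfsg.Agent.Lib.Helper44.NegPairs.plusQ (n + 1) F)))) :=
    ⟨Cfsg.Agent.Lib.Helper5.OmegaSimpleMat.omegaEquiv (Cfsg.Agent.Lib.Helper44.NegPairs.plusQ (n + 1) F)⟩
  have h2 : Subgroup.closure ({e.symm a', e.symm b'} :
      Set ↥(Cfsg.Omega F (Cfsg.quadFormPlus (n + 1) F))) = ⊤ := by
    have h := congrArg (Subgroup.map e.symm.toMonoidHom) h1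
    rw [MonoidHom.map_closure, Subgroup.map_top_of_surjective _ e.symm.surjective,
      Set.image_pair] at h
    exact h
  refine ⟨QuotientGroup.mk (e.symm a'), QuotientGroup.mk (e.symm b'), ?_⟩
  have h3 := congrArg (Subgroup.map (QuotientGroup.mk' (Subgroup.center
    ↥(Cfsg.Omega F (Cfsg.quadFormPlus (n + 1) F))))) h2
  rw [MonoidHom.map_closure, Subgroup.map_top_of_surjective _ (QuotientGroup.mk'_surjective _)] at h3
  rw [← h3]
  congr 1
  simp [Set.image_pair]

end Cfsg.Agent.S2414
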