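import Cfsg.Statements.S2413
import Mathlib
import Cfsg.Agent.S2414
import Cfsg.Agent.Lib.Helper44.FinSq
open Matrix
open Module QuadraticMap
open Cfsg.Agent.Lib.Helper44.QSpace Cfsg.Agent.Lib.Helper44.OGroup Cfsg.Agent.Lib.Helper44.Siegel
open Cfsg.Agent.Lib.Helper5.OmegaSimple

set_option autoImplicit false
open Cfsg

namespace Cfsg.Agent.S2413

section oddbasic
variable {F : Type*} [Field F] {m : ℕ}
open Cfsg.Agent.Lib.Helper44.NegPairs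

theorem odd_polar (x : Unit ⊕ (Fin m ⊕ Fin m) → F) (c : Fin m ⊕ Fin m) :
    polar (oddQ m F) x (Pi.single (Sum.inr c) 1) = x (Sum.inr c.swap) :=
  polar_single (oddQ m F) Sum.inr (odd_H1 m) x c

theorem odd_q (c : Fin m ⊕ Fin m) : oddQ m F (Pi.single (Sum.inr c) 1) = 0 :=
  q_single (oddQ m F) Sum.inr (odd_H1 m) c

theorem odd_polar0 (x : Unit ⊕ (Fin m ⊕ Fin m) → F) :
    polar (oddQ m F) x (Pi.single (Sum.inl ()) 1) = 2 * x (Sum.inl ()) := by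
  show polar (Cfsg.quadFormOdd m F) x (Pi.single (Sum.inl ()) 1) = _
  unfold polar Cfsg.quadFormOdd
  simp
  ring

theorem odd_q0 : oddQ m F (Pi.single (Sum.inl ()) 1) = 1 := by
  show Cfsg.quadFormOdd m F (Pi.single (Sum.inl ()) 1) = 1
  unfold Cfsg.quadFormOdd
  simp

theorem sr_aux (c : Fin m ⊕ Fin m) (a : F) :
    polar (oddQ m F) (Pi.single (Sum.inr c) 1)
      (a • (Pi.single (Sum.inl ()) 1 : Unit ⊕ (Fin m ⊕ Fin m) → F)) = 0 := by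
  rw [polar_smul_r, odd_polar0]; simp

/-- short root element -/
def sr (c : Fin m ⊕ Fin m) (a : F) : ↥(O (oddQ m F)) :=
  eich (oddQ m F) (odd_q c) (sr_aux c a)

theorem sr_mem_EG (c : Fin m ⊕ Fin m) (a : F) : sr c a ∈ EG (oddQ m F) :=
  eich_mem_EG _ _

theorem sr_add (c : Fin m ⊕ Fin m) (a b : F) : sr c (a + b) = sr c a * sr c b := by
  unfold sr
  have h : polar (oddQ m F) (Pi.single (Sum.inr c) 1)
      (a • (Pi.single (Sum.inl ()) 1 : Unit ⊕ (Fin m ⊕ Fin m) → F)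
        + b • (Pi.single (Sum.inl ()) 1 : Unit ⊕ (Fin m ⊕ Fin m) → F)) = 0 := by
    rw [polar_add_right, sr_aux, sr_aux, add_zero]
  rw [eich_mul (odd_q c) (sr_aux c a) (sr_aux c b) h]
  exact eich_congr (odd_q c) _ _ (add_smul a b _)

theorem sr_apply (c : Fin m ⊕ Fin m) (a : F) (x : Unit ⊕ (Fin m ⊕ Fin m) → F) :
    ((sr c a : ↥(O (oddQ m F))) :
      (Unit ⊕ (Fin m ⊕ Fin m) → F) ≃ₗ[F] (Unit ⊕ (Fin m ⊕ Fin m) → F)) x =
      x + (a * x (Sum.inr c.swap)) • Pi.single (Sum.inl ()) 1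
        - (2 * a * x (Sum.inl ()) + a * a * x (Sum.inr c.swap)) • Pi.single (Sum.inr c) 1 := by
  unfold sr
  rw [eich_apply, polar_comm (oddQ m F) (Pi.single (Sum.inr c) 1) x, odd_polar, polar_smul_l,
    polar_comm (oddQ m F) (Pi.single (Sum.inl ()) 1) x, odd_polar0, q_smul, odd_q0]
  module

theorem sr_conj (g : ↥(O (oddQ m F))) (c c' : Fin m ⊕ Fin m) (ε η a : F)
    (hg : (g : (Unit ⊕ (Fin m ⊕ Fin m) → F) ≃ₗ[F] (Unit ⊕ (Fin m ⊕ Fin m) → F))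
      (Pi.single (Sum.inr c) 1) = ε • Pi.single (Sum.inr c') 1)
    (hg0 : (g : (Unit ⊕ (Fin m ⊕ Fin m) → F) ≃ₗ[F] (Unit ⊕ (Fin m ⊕ Fin m) → F))
      (Pi.single (Sum.inl ()) 1) = η • Pi.single (Sum.inl ()) 1) :
    g * sr c a * g⁻¹ = sr c' (ε * η * a) := by
  have hd1 : oddQ m F ((g : (Unit ⊕ (Fin m ⊕ Fin m) → F) ≃ₗ[F] (Unit ⊕ (Fin m ⊕ Fin m) → F))
      (Pi.single (Sum.inr c) 1)) = 0 := by rw [g.2]; exact odd_q c
  have hdy1 : polar (oddQ m F)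
      ((g : (Unit ⊕ (Fin m ⊕ Fin m) → F) ≃ₗ[F] (Unit ⊕ (Fin m ⊕ Fin m) → F))
        (Pi.single (Sum.inr c) 1))
      ((g : (Unit ⊕ (Fin m ⊕ Fin m) → F) ≃ₗ[F] (Unit ⊕ (Fin m ⊕ Fin m) → F))
        (a • Pi.single (Sum.inl ()) 1)) = 0 := by
    rw [polar_of_mem_O g.2]; exact sr_aux c a
  unfold sr
  rw [conj_eich (odd_q c) (sr_aux c a) g hd1 hdy1]
  have hd2 : oddQ m F (ε • (Pi.single (Sum.inr c') 1 : Unit ⊕ (Fin m ⊕ Fin m) → F)) = 0 := by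
    rw [q_smul, odd_q, mul_zero]
  have hdy2 : polar (oddQ m F) (ε • (Pi.single (Sum.inr c') 1 : Unit ⊕ (Fin m ⊕ Fin m) → F))
      ((η * a) • (Pi.single (Sum.inl ()) 1 : Unit ⊕ (Fin m ⊕ Fin m) → F)) = 0 := by
    rw [polar_smul_l, sr_aux, mul_zero]
  rw [eich_congr2 hd1 hd2 hdy1 hdy2 hg (by rw [map_smul, hg0, smul_smul, mul_comm])]
  have hdy3 : polar (oddQ m F) (Pi.single (Sum.inr c') 1)
      (ε • ((η * a) • (Pi.single (Sum.inl ()) 1 : Unit ⊕ (Fin m ⊕ Fin m) → F))) = 0 := by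
    rw [polar_smul_r, sr_aux, mul_zero]
  rw [eich_smul_left ε (odd_q c') hd2 hdy2 hdy3]
  exact eich_congr (odd_q c') _ _ (by rw [smul_smul, mul_assoc])

theorem sr_e (c c' : Fin m ⊕ Fin m) (a : F) (h : c' ≠ c.swap) :
    ((sr c a : ↥(O (oddQ m F))) :
      (Unit ⊕ (Fin m ⊕ Fin m) → F) ≃ₗ[F] (Unit ⊕ (Fin m ⊕ Fin m) → F))
      (Pi.single (Sum.inr c') 1) = Pi.single (Sum.inr c') 1 := by
  rw [sr_apply]
  have h' : c.swap ≠ c' := fun h' => h h'.symm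
  simp [Pi.single_apply, h']

theorem sr_f (c d : Fin m ⊕ Fin m) (a : F) (hd : d = c.swap) :
    ((sr c a : ↥(O (oddQ m F))) :
      (Unit ⊕ (Fin m ⊕ Fin m) → F) ≃ₗ[F] (Unit ⊕ (Fin m ⊕ Fin m) → F))
      (Pi.single (Sum.inr d) 1) = Pi.single (Sum.inr d) 1 + a • Pi.single (Sum.inl ()) 1
        - (a * a) • Pi.single (Sum.inr c) 1 := by
  subst hd
  rw [sr_apply]
  simp

theorem sr_v (c : Fin m ⊕ Fin m) (a : F) :
    ((sr c a : ↥(O (oddQ m F))) :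
      (Unit ⊕ (Fin m ⊕ Fin m) → F) ≃ₗ[F] (Unit ⊕ (Fin m ⊕ Fin m) → F))
      (Pi.single (Sum.inl ()) 1) = Pi.single (Sum.inl ()) 1
        - (2 * a) • Pi.single (Sum.inr c) 1 := by
  rw [sr_apply]
  simp

/-- a short root reflection -/
def n0 (c : Fin m ⊕ Fin m) : ↥(O (oddQ m F)) := sr c 1 * sr c.swap 1 * sr c 1

theorem n0_mem (c : Fin m ⊕ Fin m) : n0 c ∈ EG (oddQ m F) :=
  mul_mem (mul_mem (sr_mem_EG _ _) (sr_mem_EG _ _)) (sr_mem_EG _ _)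

theorem swap_ne (c : Fin m ⊕ Fin m) : c ≠ c.swap := by
  rcases c with c | c <;> simp

theorem n0_e (c : Fin m ⊕ Fin m) :
    ((n0 c : ↥(O (oddQ m F))) :
      (Unit ⊕ (Fin m ⊕ Fin m) → F) ≃ₗ[F] (Unit ⊕ (Fin m ⊕ Fin m) → F))
      (Pi.single (Sum.inr c) 1) = -Pi.single (Sum.inr c.swap) 1 := by
  show ((sr c 1 : ↥(O (oddQ m F))) :
      (Unit ⊕ (Fin m ⊕ Fin m) → F) ≃ₗ[F] (Unit ⊕ (Fin m ⊕ Fin m) → F))
    (((sr c.swap 1 : ↥(O (oddQ m F))) :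
      (Unit ⊕ (Fin m ⊕ Fin m) → F) ≃ₗ[F] (Unit ⊕ (Fin m ⊕ Fin m) → F))
    (((sr c 1 : ↥(O (oddQ m F))) :
      (Unit ⊕ (Fin m ⊕ Fin m) → F) ≃ₗ[F] (Unit ⊕ (Fin m ⊕ Fin m) → F))
      (Pi.single (Sum.inr c) 1))) = _
  rw [sr_e c c 1 (swap_ne c), sr_f c.swap c 1 (Sum.swap_swap c).symm]
  simp only [map_add, map_sub, map_smul]
  rw [sr_e c c 1 (swap_ne c), sr_v, sr_f c c.swap 1 rfl]
  module

theorem n0_f (c : Fin m ⊕ Fin m) :
    ((n0 c : ↥(O (oddQ m F))) :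
      (Unit ⊕ (Fin m ⊕ Fin m) → F) ≃ₗ[F] (Unit ⊕ (Fin m ⊕ Fin m) → F))
      (Pi.single (Sum.inr c.swap) 1) = -Pi.single (Sum.inr c) 1 := by
  show ((sr c 1 : ↥(O (oddQ m F))) :
      (Unit ⊕ (Fin m ⊕ Fin m) → F) ≃ₗ[F] (Unit ⊕ (Fin m ⊕ Fin m) → F))
    (((sr c.swap 1 : ↥(O (oddQ m F))) :
      (Unit ⊕ (Fin m ⊕ Fin m) → F) ≃ₗ[F] (Unit ⊕ (Fin m ⊕ Fin m) → F))
    (((sr c 1 : ↥(O (oddQ m F))) :
      (Unit ⊕ (Fin m ⊕ Fin m) → F) ≃ₗ[F] (Unit ⊕ (Fin m ⊕ Fin m) → F))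
      (Pi.single (Sum.inr c.swap) 1))) = _
  rw [sr_f c c.swap 1 rfl]
  simp only [map_add, map_sub, map_smul]
  rw [sr_e c.swap c.swap 1 (swap_ne c.swap), sr_v, sr_f c.swap c 1 (Sum.swap_swap c).symm]
  simp only [map_add, map_sub, map_smul]
  rw [sr_e c c 1 (swap_ne c), sr_v, sr_f c c.swap 1 rfl]
  module

theorem n0_v (c : Fin m ⊕ Fin m) :
    ((n0 c : ↥(O (oddQ m F))) :
      (Unit ⊕ (Fin m ⊕ Fin m) → F) ≃ₗ[F] (Unit ⊕ (Fin m ⊕ Fin m) → F))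
      (Pi.single (Sum.inl ()) 1) = -Pi.single (Sum.inl ()) 1 := by
  show ((sr c 1 : ↥(O (oddQ m F))) :
      (Unit ⊕ (Fin m ⊕ Fin m) → F) ≃ₗ[F] (Unit ⊕ (Fin m ⊕ Fin m) → F))
    (((sr c.swap 1 : ↥(O (oddQ m F))) :
      (Unit ⊕ (Fin m ⊕ Fin m) → F) ≃ₗ[F] (Unit ⊕ (Fin m ⊕ Fin m) → F))
    (((sr c 1 : ↥(O (oddQ m F))) :
      (Unit ⊕ (Fin m ⊕ Fin m) → F) ≃ₗ[F] (Unit ⊕ (Fin m ⊕ Fin m) → F))
      (Pi.single (Sum.inl ()) 1))) = _
  rw [sr_v]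
  simp only [map_add, map_sub, map_smul]
  rw [sr_v, sr_f c.swap c 1 (Sum.swap_swap c).symm]
  simp only [map_add, map_sub, map_smul]
  rw [sr_e c c 1 (swap_ne c), sr_v, sr_f c c.swap 1 rfl]
  module

theorem n0_other (c c' : Fin m ⊕ Fin m) (h1 : c' ≠ c) (h2 : c' ≠ c.swap) :
    ((n0 c : ↥(O (oddQ m F))) :
      (Unit ⊕ (Fin m ⊕ Fin m) → F) ≃ₗ[F] (Unit ⊕ (Fin m ⊕ Fin m) → F))
      (Pi.single (Sum.inr c') 1) = Pi.single (Sum.inr c') 1 := by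
  show ((sr c 1 : ↥(O (oddQ m F))) :
      (Unit ⊕ (Fin m ⊕ Fin m) → F) ≃ₗ[F] (Unit ⊕ (Fin m ⊕ Fin m) → F))
    (((sr c.swap 1 : ↥(O (oddQ m F))) :
      (Unit ⊕ (Fin m ⊕ Fin m) → F) ≃ₗ[F] (Unit ⊕ (Fin m ⊕ Fin m) → F))
    (((sr c 1 : ↥(O (oddQ m F))) :
      (Unit ⊕ (Fin m ⊕ Fin m) → F) ≃ₗ[F] (Unit ⊕ (Fin m ⊕ Fin m) → F))
      (Pi.single (Sum.inr c') 1))) = _
  rw [sr_e c c' 1 h2, sr_e c.swap c' 1 (by rw [Sum.swap_swap]; exact h1), sr_e c c' 1 h2]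

end oddbasic

section gens
variable {F : Type*} [Field F] {m : ℕ}
open Cfsg.Agent.Lib.Helper44.NegPairs

theorem long_root_mem (h2 : (2 : F) ≠ 0) (H : Subgroup ↥(O (oddQ m F)))
    (hH : ∀ (c : Fin m ⊕ Fin m) (a : F), sr c a ∈ H)
    (c₁ c₂ : Fin m ⊕ Fin m) (a : F)
    (hdy : polar (oddQ m F) (Pi.single (Sum.inr c₁) 1)
      (a • (Pi.single (Sum.inr c₂) 1 : Unit ⊕ (Fin m ⊕ Fin m) → F)) = 0) :
    eich (oddQ m F) (odd_q c₁) hdy ∈ H := by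
  obtain ⟨t, ht⟩ : ∃ t : F, t = -(2 : F)⁻¹ := ⟨_, rfl⟩
  have hy : oddQ m F (a • (Pi.single (Sum.inr c₂) 1 : Unit ⊕ (Fin m ⊕ Fin m) → F)) = 0 := by
    rw [q_smul, odd_q, mul_zero]
  have hyz : polar (oddQ m F) (a • (Pi.single (Sum.inr c₂) 1 : Unit ⊕ (Fin m ⊕ Fin m) → F))
      (Pi.single (Sum.inl ()) 1) = 0 := by
    rw [polar_smul_l, odd_polar0]; simp
  have hdz : polar (oddQ m F) (Pi.single (Sum.inr c₁) 1 : Unit ⊕ (Fin m ⊕ Fin m) → F)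
      (Pi.single (Sum.inl ()) 1) = 0 := by
    rw [odd_polar0]; simp
  have hdy' := sr_aux (F := F) c₁ t
  have hyy' : polar (oddQ m F) (a • (Pi.single (Sum.inr c₂) 1 : Unit ⊕ (Fin m ⊕ Fin m) → F))
      (t • (Pi.single (Sum.inl ()) 1 : Unit ⊕ (Fin m ⊕ Fin m) → F)) = 0 := by
    rw [polar_smul_l, sr_aux, mul_zero]
  have hzy' : polar (oddQ m F) (Pi.single (Sum.inl ()) 1 : Unit ⊕ (Fin m ⊕ Fin m) → F)
      (t • (Pi.single (Sum.inl ()) 1 : Unit ⊕ (Fin m ⊕ Fin m) → F)) = -1 := by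
    rw [polar_smul_r, odd_polar0, ht]
    simp
    field_simp
  rw [root_eq_commutator (odd_q c₁) hy hdy hyz hdz hdy' hyy' hzy']
  have e1 : eich (oddQ m F) hy hyz = sr c₂ a :=
    eich_smul_left a (odd_q c₂) hy hyz (sr_aux c₂ a)
  have e2 : eich (oddQ m F) (odd_q c₁) hdy' = sr c₁ t := rfl
  rw [e1, e2, commutatorElement_def]
  exact H.mul_mem (H.mul_mem (H.mul_mem (hH _ _) (hH _ _)) (H.inv_mem (hH _ _)))
    (H.inv_mem (hH _ _))

theorem thmGS (h2 : (2 : F) ≠ 0) (H : Subgroup ↥(O (oddQ m F))) (i₀ : Fin m)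
    (hH : ∀ (c : Fin m ⊕ Fin m) (a : F), sr c a ∈ H) : EG (oddQ m F) ≤ H := by
  classical
  have key : ∀ (c₁ : Fin m ⊕ Fin m) (y : Unit ⊕ (Fin m ⊕ Fin m) → F)
      (h : polar (oddQ m F) (Pi.single (Sum.inr c₁) 1) y = 0),
        eich (oddQ m F) (odd_q c₁) h ∈ H := by
    intro c₁ y h
    have hy : y (Sum.inr c₁.swap) = 0 := by
      rw [polar_comm, odd_polar] at h; exact h
    have h00 : polar (oddQ m F) (Pi.single (Sum.inr c₁) 1)
        (0 : Unit ⊕ (Fin m ⊕ Fin m) → F) = 0 := by simp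
    have hP : ∀ (s : Finset (Unit ⊕ (Fin m ⊕ Fin m))),
        ∃ h' : polar (oddQ m F) (Pi.single (Sum.inr c₁) 1) (∑ k ∈ s, y k • Pi.single k 1) = 0,
          eich (oddQ m F) (odd_q c₁) h' ∈ H := by
      intro s
      induction s using Finset.induction_on with
      | empty =>
        have hp : polar (oddQ m F) (Pi.single (Sum.inr c₁) 1)
            (∑ k ∈ (∅ : Finset (Unit ⊕ (Fin m ⊕ Fin m))), y k • Pi.single k (1 : F)) = 0 := by
          rw [Finset.sum_empty]; exact h00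
        refine ⟨hp, ?_⟩
        rw [eich_congr (odd_q c₁) hp h00 Finset.sum_empty, eich_zero_right]
        exact H.one_mem
      | insert k s hk ih =>
        obtain ⟨h1, h2'⟩ := ih
        have ht : ∃ h' : polar (oddQ m F) (Pi.single (Sum.inr c₁) 1) (y k • Pi.single k 1) = 0,
            eich (oddQ m F) (odd_q c₁) h' ∈ H := by
          rcases k with ⟨⟨⟩⟩ | c
          · exact ⟨sr_aux c₁ (y (Sum.inl ())), hH c₁ (y (Sum.inl ()))⟩
          · by_cases hcs : c = c₁.swap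
            · have h0 : y (Sum.inr c) •
                  (Pi.single (Sum.inr c) 1 : Unit ⊕ (Fin m ⊕ Fin m) → F) = 0 := by
                rw [hcs, hy, zero_smul]
              have hp : polar (oddQ m F) (Pi.single (Sum.inr c₁) 1)
                  (y (Sum.inr c) • Pi.single (Sum.inr c) 1) = 0 := by
                rw [h0]; exact h00
              refine ⟨hp, ?_⟩
              rw [eich_congr (odd_q c₁) hp h00 h0, eich_zero_right]
              exact H.one_mem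
            · have hp : polar (oddQ m F) (Pi.single (Sum.inr c₁) 1)
                  (y (Sum.inr c) • Pi.single (Sum.inr c) 1) = 0 := by
                rw [polar_smul_r, odd_polar, Pi.single_apply,
                  if_neg (fun h' => hcs (by rw [← Sum.inr.inj h', Sum.swap_swap])), mul_zero]
              exact ⟨hp, long_root_mem h2 H hH c₁ c (y (Sum.inr c)) hp⟩
        obtain ⟨h3, h4⟩ := ht
        have hsum : polar (oddQ m F) (Pi.single (Sum.inr c₁) 1)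
            (y k • Pi.single k 1 + ∑ k ∈ s, y k • Pi.single k 1) = 0 := by
          rw [polar_add_right, h3, h1, add_zero]
        have e := eich_mul (odd_q c₁) h3 h1 hsum
        have hp : polar (oddQ m F) (Pi.single (Sum.inr c₁) 1)
            (∑ k ∈ insert k s, y k • Pi.single k (1 : F)) = 0 := by
          rw [Finset.sum_insert hk]; exact hsum
        refine ⟨hp, ?_⟩
        rw [eich_congr (odd_q c₁) hp hsum (Finset.sum_insert hk), ← e]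
        exact H.mul_mem h4 h2'
    obtain ⟨h1, h2'⟩ := hP Finset.univ
    have ey : y = ∑ k, y k • Pi.single k (1 : F) := by
      funext k
      rw [Finset.sum_apply]
      simp [Pi.single_apply]
    rw [eich_congr (odd_q c₁) h h1 ey]; exact h2'
  exact Cfsg.Agent.S2414.thmG (sep_oddQ h2 m) (odd_q (Sum.inl i₀)) (odd_q (Sum.inr i₀))
    (by rw [odd_polar]; simp) H (key _) (key _)

end gens

section matodd
variable {F : Type*} [Field F] {m : ℕ}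
open Cfsg.Agent.Lib.Helper44.NegPairs
open Cfsg.Agent.S2411 (Lm Lm_one Lm_mul dg dg_val dg_inv det_wMat wMat_orth)
open Cfsg.Agent.S2414 (EM EM_inr_inl)
open Cfsg.Agent.S2403 (wMat wMat_apply eps eps_mul_self)

/-- extension of a matrix by a unit block -/
def extM (M : Matrix (Fin m ⊕ Fin m) (Fin m ⊕ Fin m) F) :
    Matrix (Unit ⊕ (Fin m ⊕ Fin m)) (Unit ⊕ (Fin m ⊕ Fin m)) F :=
  fromBlocks 1 0 0 M

theorem extM_mul (M N : Matrix (Fin m ⊕ Fin m) (Fin m ⊕ Fin m) F) :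
    extM (M * N) = extM M * extM N := by
  unfold extM
  rw [fromBlocks_multiply]
  simp

theorem eich_extM (c₁ c₂ : Fin m ⊕ Fin m) (a : F)
    (hdy : polar (oddQ m F) (Pi.single (Sum.inr c₁) 1)
      (a • (Pi.single (Sum.inr c₂) 1 : Unit ⊕ (Fin m ⊕ Fin m) → F)) = 0)
    (x : Unit ⊕ (Fin m ⊕ Fin m) → F) :
    ((eich (oddQ m F) (odd_q c₁) hdy : ↥(O (oddQ m F))) :
      (Unit ⊕ (Fin m ⊕ Fin m) → F) ≃ₗ[F] (Unit ⊕ (Fin m ⊕ Fin m) → F)) x =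
      extM (EM c₁ c₂ a) *ᵥ x := by
  have e : extM (EM c₁ c₂ a) = 1 + single (Sum.inr c₂) (Sum.inr c₁.swap) a
      - single (Sum.inr c₁) (Sum.inr c₂.swap) a := by
    unfold extM EM
    ext (x | x) (y | y) <;> simp [Matrix.one_apply, single_apply]
  rw [e, eich_apply, polar_comm (oddQ m F) (Pi.single (Sum.inr c₁) 1) x, odd_polar, polar_smul_l,
    polar_comm (oddQ m F) (Pi.single (Sum.inr c₂) 1) x, odd_polar, q_smul, odd_q]
  rw [sub_mulVec, add_mulVec, one_mulVec, single_mulVec_eq, single_mulVec_eq]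
  simp only [mul_zero, zero_mul, zero_smul, sub_zero, smul_smul]
  rw [mul_comm]

theorem SL_EG_odd [Nontrivial (Fin m)] (A : SpecialLinearGroup (Fin m) F) :
    ∃ g ∈ EG (oddQ m F), ∀ x : Unit ⊕ (Fin m ⊕ Fin m) → F,
      ((g : ↥(O (oddQ m F))) :
        (Unit ⊕ (Fin m ⊕ Fin m) → F) ≃ₗ[F] (Unit ⊕ (Fin m ⊕ Fin m) → F)) x =
        extM (Lm (SpecialLinearGroup.toGL A)) *ᵥ x := by
  apply Cfsg.Agent.Lib.Helper5.SLGen.transvection_induction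
    (fun A => ∃ g ∈ EG (oddQ m F), ∀ x : Unit ⊕ (Fin m ⊕ Fin m) → F,
      ((g : ↥(O (oddQ m F))) :
        (Unit ⊕ (Fin m ⊕ Fin m) → F) ≃ₗ[F] (Unit ⊕ (Fin m ⊕ Fin m) → F)) x =
        extM (Lm (SpecialLinearGroup.toGL A)) *ᵥ x)
  · intro i j hij c
    have hdy : polar (oddQ m F) (Pi.single (Sum.inr (Sum.inr j)) 1)
        (c • (Pi.single (Sum.inr (Sum.inl i)) 1 : Unit ⊕ (Fin m ⊕ Fin m) → F)) = 0 := by
      rw [polar_smul_r, odd_polar, Pi.single_apply]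
      simp [hij]
    refine ⟨eich (oddQ m F) (odd_q (Sum.inr j)) hdy, eich_mem_EG _ _, fun x => ?_⟩
    rw [eich_extM, EM_inr_inl j i hij]
  · rintro A B ⟨g, hg, hg'⟩ ⟨h, hh, hh'⟩
    refine ⟨g * h, mul_mem hg hh, fun x => ?_⟩
    show (g : (Unit ⊕ (Fin m ⊕ Fin m) → F) ≃ₗ[F] (Unit ⊕ (Fin m ⊕ Fin m) → F))
      ((h : (Unit ⊕ (Fin m ⊕ Fin m) → F) ≃ₗ[F] (Unit ⊕ (Fin m ⊕ Fin m) → F)) x) = _
    rw [hh', hg', mulVec_mulVec, ← extM_mul, ← Lm_mul, ← map_mul]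

theorem mulVec_mono {I : Type*} [Fintype I] [DecidableEq I] (M : Matrix I I F) (j j' : I) (ε : F)
    (h : ∀ i, M i j = if i = j' then ε else 0) : M *ᵥ Pi.single j 1 = ε • Pi.single j' 1 := by
  funext i
  rw [Matrix.mulVec_single_one]
  simp [Pi.single_apply, h]

theorem extM_v0 (M : Matrix (Fin m ⊕ Fin m) (Fin m ⊕ Fin m) F) :
    extM M *ᵥ Pi.single (Sum.inl ()) 1 = Pi.single (Sum.inl ()) 1 := by
  rw [mulVec_mono (extM M) (Sum.inl ()) (Sum.inl ()) 1, one_smul]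
  rintro (i | i) <;> simp [extM]

theorem torus_l (d : Fin m → Fˣ) (i : Fin m) :
    extM (Lm (dg d)) *ᵥ Pi.single (Sum.inr (Sum.inl i)) 1 =
      ((d i : Fˣ) : F) • Pi.single (Sum.inr (Sum.inl i)) 1 := by
  apply mulVec_mono
  rintro (a | a | a)
  · simp [extM]
  · by_cases h : a = i
    · subst h; simp [extM, Lm, dg_val, diagonal_apply]
    · simp [extM, Lm, dg_val, diagonal_apply, h]
  · simp [extM, Lm]

theorem torus_r (d : Fin m → Fˣ) (i : Fin m) :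
    extM (Lm (dg d)) *ᵥ Pi.single (Sum.inr (Sum.inr i)) 1 =
      (((d i)⁻¹ : Fˣ) : F) • Pi.single (Sum.inr (Sum.inr i)) 1 := by
  apply mulVec_mono
  rintro (a | a | a)
  · simp [extM]
  · simp [extM, Lm]
  · by_cases h : a = i
    · subst h; simp [extM, Lm, dg_val, dg_inv, diagonal_apply]
    · simp [extM, Lm, dg_val, dg_inv, diagonal_apply, h]

theorem Lm_cox (n : ℕ) (w : SpecialLinearGroup (Fin (n + 1)) F)
    (hw : (w : Matrix (Fin (n + 1)) (Fin (n + 1)) F) = wMat F n) :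
    Lm (SpecialLinearGroup.toGL w) = fromBlocks (wMat F n) 0 0 (wMat F n) := by
  unfold Lm
  have e1 : ((SpecialLinearGroup.toGL w : GL (Fin (n + 1)) F) :
      Matrix (Fin (n + 1)) (Fin (n + 1)) F) = wMat F n := hw
  have e2 : (((SpecialLinearGroup.toGL w)⁻¹ : GL (Fin (n + 1)) F) :
      Matrix (Fin (n + 1)) (Fin (n + 1)) F) = (wMat F n)ᵀ := by
    rw [Matrix.coe_units_inv, e1]
    exact Matrix.inv_eq_left_inv (wMat_orth F n)
  rw [e1, e2, transpose_transpose]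

theorem cox_l (n : ℕ) (i : Fin (n + 1)) :
    extM (fromBlocks (wMat F n) 0 0 (wMat F n)) *ᵥ Pi.single (Sum.inr (Sum.inl i)) 1 =
      eps F n i • Pi.single (Sum.inr (Sum.inl (i - 1))) 1 := by
  apply mulVec_mono
  rintro (a | a | a) <;> simp [extM, wMat_apply]

theorem cox_r (n : ℕ) (i : Fin (n + 1)) :
    extM (fromBlocks (wMat F n) 0 0 (wMat F n)) *ᵥ Pi.single (Sum.inr (Sum.inr i)) 1 =
      eps F n i • Pi.single (Sum.inr (Sum.inr (i - 1))) 1 := by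
  apply mulVec_mono
  rintro (a | a | a) <;> simp [extM, wMat_apply]

end matodd

section absodd

/-- the Coxeter permutation of the basis -/
def sg {n : ℕ} (c : Fin (n + 1) ⊕ Fin (n + 1)) : Fin (n + 1) ⊕ Fin (n + 1) :=
  match c with
  | Sum.inl i => if i = 0 then Sum.inr (i - 1) else Sum.inl (i - 1)
  | Sum.inr i => if i = 0 then Sum.inl (i - 1) else Sum.inr (i - 1)

theorem fin_down {n : ℕ} (P : Fin (n + 1) → Prop) (hlast : P (0 - 1))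
    (hs : ∀ i : Fin (n + 1), i ≠ 0 → P i → P (i - 1)) : ∀ j, P j := by
  have key : ∀ (d : ℕ) (j : Fin (n + 1)), j.val + d = n → P j := by
    intro d
    induction d with
    | zero =>
      intro j hj
      have e : j = 0 - 1 := by
        apply Fin.ext
        rw [Fin.coe_sub_one, if_pos rfl]
        omega
      rw [e]; exact hlast
    | succ d ih =>
      intro j hj
      obtain ⟨i, hi⟩ : ∃ i : Fin (n + 1), i.val = j.val + 1 := ⟨⟨j.val + 1, by omega⟩, rfl⟩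
      have hi0 : i ≠ 0 := fun h => by rw [h] at hi; simp at hi
      have e : j = i - 1 := by
        apply Fin.ext
        rw [Fin.coe_sub_one, if_neg hi0, hi]
        omega
      rw [e]
      exact hs i hi0 (ih i (by omega))
  intro j
  exact key (n - j.val) j (by omega)

theorem orbit_all {n : ℕ} (R : Fin (n + 1) ⊕ Fin (n + 1) → Prop) (h0 : R (Sum.inl 0))
    (hstep : ∀ c, R c → R (sg c)) : ∀ c, R c := by
  have hr_last : R (Sum.inr (0 - 1)) := by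
    have := hstep _ h0
    simpa [sg] using this
  have hr : ∀ j, R (Sum.inr j) := by
    apply fin_down (fun j => R (Sum.inr j)) hr_last
    intro i hi h
    have := hstep _ h
    simpa [sg, hi] using this
  have hl_last : R (Sum.inl (0 - 1)) := by
    have := hstep _ (hr 0)
    simpa [sg] using this
  have hl : ∀ j, R (Sum.inl j) := by
    apply fin_down (fun j => R (Sum.inl j)) hl_last
    intro i hi h
    have := hstep _ h
    simpa [sg, hi] using this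
  rintro (j | j)
  · exact hl j
  · exact hr j

theorem lemmaT {G : Type*} [Group G] {F : Type*} [Field F] (X : F → G)
    (hXadd : ∀ a b, X (a + b) = X a * X b) (h h' : G) (k l : F)
    (hk : ∀ c, h * X c * h⁻¹ = X (k * c)) (hl : ∀ c, h' * X c * h'⁻¹ = X (l * c))
    (hcomm : h * h' = h' * h) (kgen : ∀ c : F, c ≠ 0 → ∃ j : ℕ, c = k ^ j)
    (hk1 : k ≠ 1) (hl0 : l ≠ 0) (hl1 : l ≠ 1) (H : Subgroup G) (hh : h ∈ H)
    (hg : X 1 * h' * (X 1)⁻¹ ∈ H) : ∀ c, X c ∈ H := by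
  have hX0 : X 0 = 1 := by
    have h1 := hXadd 0 0
    rw [add_zero] at h1
    exact mul_eq_left.mp h1.symm
  have hXneg : ∀ a, X (-a) = (X a)⁻¹ := by
    intro a
    apply eq_inv_of_mul_eq_one_left
    rw [← hXadd, neg_add_cancel, hX0]
  obtain ⟨u, hu⟩ : ∃ u : F, u = l⁻¹ - 1 := ⟨_, rfl⟩
  have e1 : X 1 * h' * (X 1)⁻¹ = h' * X u := by
    have e2 : h' * X l⁻¹ = X 1 * h' := by
      have h1 := hl l⁻¹
      rw [mul_inv_cancel₀ hl0] at h1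
      rw [← h1]; group
    rw [hu, sub_eq_add_neg, hXadd, hXneg, ← mul_assoc, e2]
  rw [e1] at hg
  obtain ⟨c₁, hc₁⟩ : ∃ c₁ : F, c₁ = l * (k * u + -u) := ⟨_, rfl⟩
  have hc₁ne : c₁ ≠ 0 := by
    have e : c₁ = (k - 1) * (1 - l) := by
      rw [hc₁, hu]; field_simp; ring
    rw [e]
    exact mul_ne_zero (sub_ne_zero.mpr hk1) (sub_ne_zero.mpr (Ne.symm hl1))
  have hcm : h * (h' * X u) * h⁻¹ * (h' * X u)⁻¹ = X c₁ := by
    have e1 : h * (h' * X u) * h⁻¹ * (h' * X u)⁻¹ =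
        h' * ((h * X u * h⁻¹) * (X u)⁻¹) * h'⁻¹ := by
      rw [_root_.mul_inv_rev, ← mul_assoc h h', hcomm]; group
    rw [e1, hk, ← hXneg, ← hXadd, hl, hc₁]
  have hXc1 : X c₁ ∈ H := by
    rw [← hcm]
    exact H.mul_mem (H.mul_mem (H.mul_mem hh hg) (H.inv_mem hh)) (H.inv_mem hg)
  have hpow : ∀ j : ℕ, X (k ^ j * c₁) ∈ H := by
    intro j
    induction j with
    | zero => rw [pow_zero, one_mul]; exact hXc1
    | succ j ih =>
      have e : X (k ^ (j + 1) * c₁) = h * X (k ^ j * c₁) * h⁻¹ := by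
        rw [hk]; congr 1; ring
      rw [e]
      exact H.mul_mem (H.mul_mem hh ih) (H.inv_mem hh)
  intro c
  by_cases hc : c = 0
  · rw [hc, hX0]; exact H.one_mem
  · obtain ⟨j, hj⟩ := kgen (c / c₁) (div_ne_zero hc hc₁ne)
    have e : c = k ^ j * c₁ := by rw [← hj]; field_simp
    rw [e]; exact hpow j

theorem conj_diag {F : Type*} [Field F] {V : Type*} [AddCommGroup V] [Module F V]
    {Q : QuadraticForm F V} (N h : ↥(O Q)) (x y : V) (ε δ : F) (hε : ε ≠ 0)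
    (hN : (N : V ≃ₗ[F] V) x = ε • y) (hh : (h : V ≃ₗ[F] V) x = δ • x) :
    ((N * h * N⁻¹ : ↥(O Q)) : V ≃ₗ[F] V) y = δ • y := by
  have e1 : ((N⁻¹ : ↥(O Q)) : V ≃ₗ[F] V) ((N : V ≃ₗ[F] V) (ε⁻¹ • x)) = ε⁻¹ • x := by
    have h1 : ((N⁻¹ * N : ↥(O Q)) : V ≃ₗ[F] V) (ε⁻¹ • x) = ε⁻¹ • x := by
      rw [inv_mul_cancel]; rfl
    exact h1
  have e2 : y = (N : V ≃ₗ[F] V) (ε⁻¹ • x) := by
    rw [map_smul, hN, smul_smul, inv_mul_cancel₀ hε, one_smul]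
  show (N : V ≃ₗ[F] V) ((h : V ≃ₗ[F] V) (((N⁻¹ : ↥(O Q)) : V ≃ₗ[F] V) y)) = δ • y
  rw [e2, e1]
  simp only [map_smul, hh]
  rw [smul_comm]

end absodd

section mainodd
variable {F : Type*} [Field F] [Fintype F]
open Cfsg.Agent.Lib.Helper44.NegPairs
open Cfsg.Agent.S2411 (Lm Lm_one Lm_mul dg dg_val dg_inv det_wMat wMat_orth)
open Cfsg.Agent.S2403 (wMat wMat_apply eps eps_mul_self)

theorem main_odd (n : ℕ) (hn : 1 ≤ n) (h2 : (2 : F) ≠ 0) :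
    ∃ a b : ↥(O (oddQ (n + 1) F)), a ∈ EG (oddQ (n + 1) F) ∧ b ∈ EG (oddQ (n + 1) F) ∧
      EG (oddQ (n + 1) F) ≤ Subgroup.closure ({a, b} : Set ↥(O (oddQ (n + 1) F))) := by
  classical
  haveI : Nontrivial (Fin (n + 1)) := Fin.nontrivial_iff_two_le.mpr (by omega)
  have h1v : (1 : Fin (n + 1)).val = 1 := by rw [Fin.val_one', Nat.mod_eq_of_lt (by omega)]
  have hne : ∀ {x y : Fin (n + 1)}, x.val ≠ y.val → x ≠ y := fun h h' => h (congrArg Fin.val h')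
  have h01 : (0 : Fin (n + 1)) ≠ 1 := hne (by rw [Fin.val_zero, h1v]; omega)
  obtain ⟨k, hk⟩ := IsCyclic.exists_generator (α := Fˣ)
  have hk0 : (k : F) ≠ 0 := Units.ne_zero k
  have hk1 : (k : F) ≠ 1 := by
    intro h
    have h1 : k = 1 := Units.ext h
    have h3 := hk (-1)
    rw [h1, Subgroup.zpowers_one_eq_bot, Subgroup.mem_bot] at h3
    have h4 : ((-1 : Fˣ) : F) = 1 := by rw [h3]; rfl
    rw [Units.val_neg, Units.val_one] at h4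
    apply h2
    linear_combination -h4
  have kgen : ∀ c : F, c ≠ 0 → ∃ j : ℕ, c = (k : F) ^ j := by
    intro c hc
    have h3 := hk (Units.mk0 c hc)
    rw [← mem_powers_iff_mem_zpowers] at h3
    obtain ⟨j, hj⟩ := (Submonoid.mem_powers_iff _ _).mp h3
    refine ⟨j, ?_⟩
    have h4 := congrArg Units.val hj
    rw [Units.val_pow_eq_pow_val, Units.val_mk0] at h4
    exact h4.symm
  -- the torus element
  obtain ⟨dk, hdk⟩ : ∃ dk : Fin (n + 1) → Fˣ,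
      dk = fun i => if i = 0 then k else if i = 1 then k⁻¹ else 1 := ⟨_, rfl⟩
  have dk0 : dk 0 = k := by rw [hdk]; exact if_pos rfl
  have dk1 : dk 1 = k⁻¹ := by rw [hdk]; simp [h01.symm]
  obtain ⟨Dsl, hDsl⟩ : ∃ Dsl : SpecialLinearGroup (Fin (n + 1)) F,
      SpecialLinearGroup.toGL Dsl = dg dk := by
    refine ⟨SpecialLinearGroup.diag2n h01 (k : F) hk0, ?_⟩
    apply Units.ext
    rw [dg_val]
    show (SpecialLinearGroup.diag2n h01 (k : F) hk0).1 = _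
    rw [SpecialLinearGroup.diag2n_coe]
    congr 1
    funext i
    rw [hdk]
    by_cases hi0 : i = 0
    · simp [hi0]
    · by_cases hi1 : i = 1
      · simp [hi1, h01.symm]
      · simp [hi0, hi1]
  obtain ⟨h, hhEG, hh⟩ := SL_EG_odd (F := F) Dsl
  rw [hDsl] at hh
  have hh_l : ∀ i : Fin (n + 1),
      (h : (Unit ⊕ (Fin (n + 1) ⊕ Fin (n + 1)) → F) ≃ₗ[F] (Unit ⊕ (Fin (n + 1) ⊕ Fin (n + 1)) → F))
        (Pi.single (Sum.inr (Sum.inl i)) 1) =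
        ((dk i : Fˣ) : F) • Pi.single (Sum.inr (Sum.inl i)) 1 := fun i => by
    rw [hh]; exact torus_l dk i
  have hh_r : ∀ i : Fin (n + 1),
      (h : (Unit ⊕ (Fin (n + 1) ⊕ Fin (n + 1)) → F) ≃ₗ[F] (Unit ⊕ (Fin (n + 1) ⊕ Fin (n + 1)) → F))
        (Pi.single (Sum.inr (Sum.inr i)) 1) =
        (((dk i)⁻¹ : Fˣ) : F) • Pi.single (Sum.inr (Sum.inr i)) 1 := fun i => by
    rw [hh]; exact torus_r dk i
  have hh_v : (h : (Unit ⊕ (Fin (n + 1) ⊕ Fin (n + 1)) → F) ≃ₗ[F]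
      (Unit ⊕ (Fin (n + 1) ⊕ Fin (n + 1)) → F)) (Pi.single (Sum.inl ()) 1) =
        Pi.single (Sum.inl ()) 1 := by
    rw [hh]; exact extM_v0 _
  have hh_b : ∀ c : Fin (n + 1) ⊕ Fin (n + 1), ∃ δ : F,
      (h : (Unit ⊕ (Fin (n + 1) ⊕ Fin (n + 1)) → F) ≃ₗ[F] (Unit ⊕ (Fin (n + 1) ⊕ Fin (n + 1)) → F))
        (Pi.single (Sum.inr c) 1) = δ • Pi.single (Sum.inr c) 1 := by
    rintro (i | i)
    · exact ⟨_, hh_l i⟩
    · exact ⟨_, hh_r i⟩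
  -- the Coxeter element
  obtain ⟨w, hw⟩ : ∃ w : SpecialLinearGroup (Fin (n + 1)) F,
      (w : Matrix (Fin (n + 1)) (Fin (n + 1)) F) = wMat F n := ⟨⟨wMat F n, det_wMat F n⟩, rfl⟩
  obtain ⟨W, hWEG, hW⟩ := SL_EG_odd (F := F) w
  rw [Lm_cox n w hw] at hW
  have hW_l : ∀ i : Fin (n + 1),
      (W : (Unit ⊕ (Fin (n + 1) ⊕ Fin (n + 1)) → F) ≃ₗ[F] (Unit ⊕ (Fin (n + 1) ⊕ Fin (n + 1)) → F))
        (Pi.single (Sum.inr (Sum.inl i)) 1) =
        eps F n i • Pi.single (Sum.inr (Sum.inl (i - 1))) 1 := fun i => by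
    rw [hW]; exact cox_l n i
  have hW_r : ∀ i : Fin (n + 1),
      (W : (Unit ⊕ (Fin (n + 1) ⊕ Fin (n + 1)) → F) ≃ₗ[F] (Unit ⊕ (Fin (n + 1) ⊕ Fin (n + 1)) → F))
        (Pi.single (Sum.inr (Sum.inr i)) 1) =
        eps F n i • Pi.single (Sum.inr (Sum.inr (i - 1))) 1 := fun i => by
    rw [hW]; exact cox_r n i
  have hW_v : (W : (Unit ⊕ (Fin (n + 1) ⊕ Fin (n + 1)) → F) ≃ₗ[F]
      (Unit ⊕ (Fin (n + 1) ⊕ Fin (n + 1)) → F)) (Pi.single (Sum.inl ()) 1) =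
        Pi.single (Sum.inl ()) 1 := by
    rw [hW]; exact extM_v0 _
  have heps : ∀ i : Fin (n + 1), eps F n i ≠ 0 := fun i h => by
    have h3 := eps_mul_self F n i
    rw [h, mul_zero] at h3
    exact zero_ne_one h3
  obtain ⟨N, hN⟩ : ∃ N : ↥(O (oddQ (n + 1) F)), N = W * n0 (Sum.inl 0) := ⟨_, rfl⟩
  have hNEG : N ∈ EG (oddQ (n + 1) F) := by rw [hN]; exact mul_mem hWEG (n0_mem _)
  have hN_v : (N : (Unit ⊕ (Fin (n + 1) ⊕ Fin (n + 1)) → F) ≃ₗ[F]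
      (Unit ⊕ (Fin (n + 1) ⊕ Fin (n + 1)) → F)) (Pi.single (Sum.inl ()) 1) =
        (-1 : F) • Pi.single (Sum.inl ()) 1 := by
    rw [hN]
    show (W : (Unit ⊕ (Fin (n + 1) ⊕ Fin (n + 1)) → F) ≃ₗ[F]
      (Unit ⊕ (Fin (n + 1) ⊕ Fin (n + 1)) → F))
      (((n0 (Sum.inl 0) : ↥(O (oddQ (n + 1) F))) : (Unit ⊕ (Fin (n + 1) ⊕ Fin (n + 1)) → F) ≃ₗ[F] (Unit ⊕ (Fin (n + 1) ⊕ Fin (n + 1)) → F)) (Pi.single (Sum.inl ()) 1)) = _
    rw [n0_v, map_neg, hW_v, neg_smul, one_smul]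
  have hN_b : ∀ c : Fin (n + 1) ⊕ Fin (n + 1), ∃ ε : F, ε ≠ 0 ∧
      (N : (Unit ⊕ (Fin (n + 1) ⊕ Fin (n + 1)) → F) ≃ₗ[F] (Unit ⊕ (Fin (n + 1) ⊕ Fin (n + 1)) → F))
        (Pi.single (Sum.inr c) 1) = ε • Pi.single (Sum.inr (sg c)) 1 := by
    rintro (i | i)
    · by_cases hi : i = 0
      · subst hi
        refine ⟨-eps F n 0, neg_ne_zero.mpr (heps 0), ?_⟩
        rw [hN]
        show (W : (Unit ⊕ (Fin (n + 1) ⊕ Fin (n + 1)) → F) ≃ₗ[F]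
          (Unit ⊕ (Fin (n + 1) ⊕ Fin (n + 1)) → F))
          (((n0 (Sum.inl 0) : ↥(O (oddQ (n + 1) F))) : (Unit ⊕ (Fin (n + 1) ⊕ Fin (n + 1)) → F) ≃ₗ[F] (Unit ⊕ (Fin (n + 1) ⊕ Fin (n + 1)) → F)) (Pi.single (Sum.inr (Sum.inl 0)) 1)) = _
        rw [n0_e, map_neg]
        show -(W : (Unit ⊕ (Fin (n + 1) ⊕ Fin (n + 1)) → F) ≃ₗ[F]
          (Unit ⊕ (Fin (n + 1) ⊕ Fin (n + 1)) → F)) (Pi.single (Sum.inr (Sum.inr 0)) 1) = _
        rw [hW_r, neg_smul]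
        simp [sg]
      · refine ⟨eps F n i, heps i, ?_⟩
        rw [hN]
        show (W : (Unit ⊕ (Fin (n + 1) ⊕ Fin (n + 1)) → F) ≃ₗ[F]
          (Unit ⊕ (Fin (n + 1) ⊕ Fin (n + 1)) → F))
          (((n0 (Sum.inl 0) : ↥(O (oddQ (n + 1) F))) : (Unit ⊕ (Fin (n + 1) ⊕ Fin (n + 1)) → F) ≃ₗ[F] (Unit ⊕ (Fin (n + 1) ⊕ Fin (n + 1)) → F)) (Pi.single (Sum.inr (Sum.inl i)) 1)) = _
        rw [n0_other _ _ (by simpa using hi) (by simp), hW_l]
        simp [sg, hi]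
    · by_cases hi : i = 0
      · subst hi
        refine ⟨-eps F n 0, neg_ne_zero.mpr (heps 0), ?_⟩
        rw [hN]
        show (W : (Unit ⊕ (Fin (n + 1) ⊕ Fin (n + 1)) → F) ≃ₗ[F]
          (Unit ⊕ (Fin (n + 1) ⊕ Fin (n + 1)) → F))
          (((n0 (Sum.inl 0) : ↥(O (oddQ (n + 1) F))) : (Unit ⊕ (Fin (n + 1) ⊕ Fin (n + 1)) → F) ≃ₗ[F] (Unit ⊕ (Fin (n + 1) ⊕ Fin (n + 1)) → F))
            (Pi.single (Sum.inr (Sum.swap (Sum.inl 0))) 1)) = _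
        rw [n0_f, map_neg, hW_l, neg_smul]
        simp [sg]
      · refine ⟨eps F n i, heps i, ?_⟩
        rw [hN]
        show (W : (Unit ⊕ (Fin (n + 1) ⊕ Fin (n + 1)) → F) ≃ₗ[F]
          (Unit ⊕ (Fin (n + 1) ⊕ Fin (n + 1)) → F))
          (((n0 (Sum.inl 0) : ↥(O (oddQ (n + 1) F))) : (Unit ⊕ (Fin (n + 1) ⊕ Fin (n + 1)) → F) ≃ₗ[F] (Unit ⊕ (Fin (n + 1) ⊕ Fin (n + 1)) → F)) (Pi.single (Sum.inr (Sum.inr i)) 1)) = _
        rw [n0_other _ _ (by simp) (by simpa using hi), hW_r]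
        simp [sg, hi]
  -- the conjugate torus element
  obtain ⟨h', hh'⟩ : ∃ h' : ↥(O (oddQ (n + 1) F)), h' = N * h * N⁻¹ := ⟨_, rfl⟩
  have hh'_b : ∀ (c : Fin (n + 1) ⊕ Fin (n + 1)) (δ : F),
      (h : (Unit ⊕ (Fin (n + 1) ⊕ Fin (n + 1)) → F) ≃ₗ[F] (Unit ⊕ (Fin (n + 1) ⊕ Fin (n + 1)) → F))
        (Pi.single (Sum.inr c) 1) = δ • Pi.single (Sum.inr c) 1 →
      (h' : (Unit ⊕ (Fin (n + 1) ⊕ Fin (n + 1)) → F) ≃ₗ[F] (Unit ⊕ (Fin (n + 1) ⊕ Fin (n + 1)) → F))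
        (Pi.single (Sum.inr (sg c)) 1) = δ • Pi.single (Sum.inr (sg c)) 1 := by
    intro c δ hδ
    obtain ⟨ε, hε, hNc⟩ := hN_b c
    rw [hh']; exact conj_diag N h _ _ ε δ hε hNc hδ
  have hh'_v : (h' : (Unit ⊕ (Fin (n + 1) ⊕ Fin (n + 1)) → F) ≃ₗ[F]
      (Unit ⊕ (Fin (n + 1) ⊕ Fin (n + 1)) → F)) (Pi.single (Sum.inl ()) 1) =
        Pi.single (Sum.inl ()) 1 := by
    rw [hh']
    have h3 := conj_diag N h (Pi.single (Sum.inl ()) 1) (Pi.single (Sum.inl ()) 1) (-1) 1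
      (neg_ne_zero.mpr one_ne_zero) hN_v (by rw [hh_v, one_smul])
    rw [h3, one_smul]
  have hcomm : h * h' = h' * h := by
    have e : h * h' * N = h' * h * N := by
      apply Subtype.ext
      apply LinearEquiv.toLinearMap_injective
      apply (Pi.basisFun F (Unit ⊕ (Fin (n + 1) ⊕ Fin (n + 1)))).ext
      intro i
      rw [Pi.basisFun_apply]
      show (h : (Unit ⊕ (Fin (n + 1) ⊕ Fin (n + 1)) → F) ≃ₗ[F]
          (Unit ⊕ (Fin (n + 1) ⊕ Fin (n + 1)) → F))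
        ((h' : (Unit ⊕ (Fin (n + 1) ⊕ Fin (n + 1)) → F) ≃ₗ[F]
          (Unit ⊕ (Fin (n + 1) ⊕ Fin (n + 1)) → F))
        ((N : (Unit ⊕ (Fin (n + 1) ⊕ Fin (n + 1)) → F) ≃ₗ[F]
          (Unit ⊕ (Fin (n + 1) ⊕ Fin (n + 1)) → F)) (Pi.single i 1))) =
        (h' : (Unit ⊕ (Fin (n + 1) ⊕ Fin (n + 1)) → F) ≃ₗ[F]
          (Unit ⊕ (Fin (n + 1) ⊕ Fin (n + 1)) → F))
        ((h : (Unit ⊕ (Fin (n + 1) ⊕ Fin (n + 1)) → F) ≃ₗ[F]
          (Unit ⊕ (Fin (n + 1) ⊕ Fin (n + 1)) → F))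
        ((N : (Unit ⊕ (Fin (n + 1) ⊕ Fin (n + 1)) → F) ≃ₗ[F]
          (Unit ⊕ (Fin (n + 1) ⊕ Fin (n + 1)) → F)) (Pi.single i 1)))
      rcases i with ⟨⟨⟩⟩ | c
      · rw [hN_v]
        simp only [map_smul, hh'_v, hh_v]
      · obtain ⟨ε, hε, hNc⟩ := hN_b c
        obtain ⟨δ, hδ⟩ := hh_b c
        obtain ⟨δ', hδ'⟩ := hh_b (sg c)
        rw [hNc]
        simp only [map_smul, hh'_b c δ hδ, hδ']
        rw [smul_comm δ' δ]
    exact mul_right_cancel e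
  have hXk : ∀ c : F, h * sr (Sum.inl 0) c * h⁻¹ = sr (Sum.inl 0) ((k : F) * c) := by
    intro c
    rw [sr_conj h (Sum.inl 0) (Sum.inl 0) (k : F) 1 c (by rw [hh_l, dk0])
      (by rw [hh_v, one_smul]), mul_one]
  have hXl : ∀ c : F, h' * sr (Sum.inl 0) c * h'⁻¹ = sr (Sum.inl 0) ((k : F)⁻¹ * c) := by
    intro c
    have e1 : (h' : (Unit ⊕ (Fin (n + 1) ⊕ Fin (n + 1)) → F) ≃ₗ[F]
        (Unit ⊕ (Fin (n + 1) ⊕ Fin (n + 1)) → F)) (Pi.single (Sum.inr (Sum.inl 0)) 1) =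
          (k : F)⁻¹ • Pi.single (Sum.inr (Sum.inl 0)) 1 := by
      have h3 := hh'_b (Sum.inl 1) ((k : F)⁻¹) (by rw [hh_l, dk1]; simp)
      have e : sg (Sum.inl (1 : Fin (n + 1))) = Sum.inl 0 := by simp [sg, h01.symm]
      rw [e] at h3; exact h3
    rw [sr_conj h' (Sum.inl 0) (Sum.inl 0) ((k : F)⁻¹) 1 c e1 (by rw [hh'_v, one_smul]), mul_one]
  refine ⟨h, sr (Sum.inl 0) 1 * N, hhEG, mul_mem (sr_mem_EG _ _) hNEG, ?_⟩
  obtain ⟨H, hH⟩ : ∃ H : Subgroup ↥(O (oddQ (n + 1) F)),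
      H = Subgroup.closure {h, sr (Sum.inl 0) 1 * N} := ⟨_, rfl⟩
  rw [← hH]
  have hhH : h ∈ H := by rw [hH]; exact Subgroup.subset_closure (by simp)
  have hbH : sr (Sum.inl 0) 1 * N ∈ H := by rw [hH]; exact Subgroup.subset_closure (by simp)
  have hg : sr (Sum.inl 0) 1 * h' * (sr (Sum.inl 0) 1)⁻¹ ∈ H := by
    have e : sr (Sum.inl 0) 1 * h' * (sr (Sum.inl 0) 1)⁻¹ =
        (sr (Sum.inl 0) 1 * N) * h * (sr (Sum.inl 0) 1 * N)⁻¹ := by rw [hh']; group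
    rw [e]; exact H.mul_mem (H.mul_mem hbH hhH) (H.inv_mem hbH)
  have hX : ∀ c : F, sr (Sum.inl 0) c ∈ H :=
    lemmaT (sr (Sum.inl 0)) (sr_add _) h h' (k : F) ((k : F)⁻¹) hXk hXl hcomm kgen hk1
      (inv_ne_zero hk0) (fun h3 => hk1 (inv_eq_one.mp h3)) H hhH hg
  have hNH : N ∈ H := by
    have e : N = (sr (Sum.inl 0) 1)⁻¹ * (sr (Sum.inl 0) 1 * N) := by group
    rw [e]; exact H.mul_mem (H.inv_mem (hX 1)) hbH
  have hall : ∀ (c : Fin (n + 1) ⊕ Fin (n + 1)) (a : F), sr c a ∈ H := by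
    apply orbit_all (fun c => ∀ a : F, sr c a ∈ H) hX
    intro c hc a
    obtain ⟨ε, hε, hNc⟩ := hN_b c
    have e := sr_conj N c (sg c) ε (-1) (a / (ε * -1)) hNc hN_v
    have e' : ε * -1 * (a / (ε * -1)) = a := by field_simp
    rw [e'] at e
    rw [← e]; exact H.mul_mem (H.mul_mem hNH (hc _)) (H.inv_mem hNH)
  exact thmGS h2 H 0 hall

end mainodd

/-- The simple orthogonal group `PΩ_{2m+1}(q)` (commutator subgroup of the orthogonal group of `x₀² + Σ x_i y_i` modulo its centre) with `m ≥ 2` and `q` odd is generated by two of its elements. -/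
theorem result {F : Type*} [Field F] [Fintype F] (hodd : Odd (Fintype.card F)) (m : ℕ) (hm : 2 ≤ m) :
    ∃ a b : Cfsg.POmega F (Cfsg.quadFormOdd m F), Subgroup.closure ({a, b} : Set (Cfsg.POmega F (Cfsg.quadFormOdd m F))) = ⊤ := by
  classical
  obtain ⟨n, rfl⟩ : ∃ n, m = n + 1 := ⟨m - 1, by omega⟩
  have h2 : (2 : F) ≠ 0 := Cfsg.Agent.Lib.Helper44.FinSq.two_ne_zero_of_odd_card hodd
  obtain ⟨a, b, ha, hb, hab⟩ := main_odd (F := F) n (by omega) h2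
  have hS := Cfsg.Agent.Lib.Helper44.NegPairs.sep_oddQ h2 (n + 1)
  have hcard : Fintype.card (Unit ⊕ (Fin (n + 1) ⊕ Fin (n + 1))) = 1 + 2 * (n + 1) := by
    simp [Fintype.card_sum]
    ring
  have hfr : 5 ≤ Module.finrank F (Unit ⊕ (Fin (n + 1) ⊕ Fin (n + 1)) → F) := by
    rw [Module.finrank_fintype_fun_eq_card, hcard]
    omega
  have hgen : commutator ↥(O (Cfsg.Agent.Lib.Helper44.NegPairs.oddQ (n + 1) F)) =
      EG (Cfsg.Agent.Lib.Helper44.NegPairs.oddQ (n + 1) F) :=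
    commutator_eq_EG_odd h2 hS hfr
  obtain ⟨a', ha'⟩ : ∃ a' : ↥(commutator ↥(O (Cfsg.Agent.Lib.Helper44.NegPairs.oddQ (n + 1) F))),
      (a' : ↥(O (Cfsg.Agent.Lib.Helper44.NegPairs.oddQ (n + 1) F))) = a :=
    ⟨⟨a, by rw [hgen]; exact ha⟩, rfl⟩
  obtain ⟨b', hb'⟩ : ∃ b' : ↥(commutator ↥(O (Cfsg.Agent.Lib.Helper44.NegPairs.oddQ (n + 1) F))),
      (b' : ↥(O (Cfsg.Agent.Lib.Helper44.NegPairs.oddQ (n + 1) F))) = b :=
    ⟨⟨b, by rw [hgen]; exact hb⟩, rfl⟩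
  have h1 : Subgroup.closure ({a', b'} :
      Set ↥(commutator ↥(O (Cfsg.Agent.Lib.Helper44.NegPairs.oddQ (n + 1) F)))) = ⊤ := by
    apply Subgroup.map_injective (Subgroup.subtype_injective _)
    rw [MonoidHom.map_closure, ← MonoidHom.range_eq_map, Subgroup.range_subtype, Set.image_pair]
    show Subgroup.closure {(a' : ↥(O (Cfsg.Agent.Lib.Helper44.NegPairs.oddQ (n + 1) F))),
      (b' : ↥(O (Cfsg.Agent.Lib.Helper44.NegPairs.oddQ (n + 1) F)))} = _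
    rw [ha', hb', hgen]
    apply le_antisymm
    · rw [Subgroup.closure_le]
      rintro x (rfl | rfl)
      · exact ha
      · exact hb
    · exact hab
  obtain ⟨e⟩ : Nonempty (↥(Cfsg.Omega F (Cfsg.quadFormOdd (n + 1) F)) ≃*
      ↥(commutator ↥(O (Cfsg.Agent.Lib.Helper44.NegPairs.oddQ (n + 1) F)))) :=
    ⟨Cfsg.Agent.Lib.Helper5.OmegaSimpleMat.omegaEquiv (Cfsg.Agent.Lib.Helper44.NegPairs.oddQ (n + 1) F)⟩
  have h2' : Subgroup.closure ({e.symm a', e.symm b'} :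
      Set ↥(Cfsg.Omega F (Cfsg.quadFormOdd (n + 1) F))) = ⊤ := by
    have h := congrArg (Subgroup.map e.symm.toMonoidHom) h1
    rw [MonoidHom.map_closure, Subgroup.map_top_of_surjective _ e.symm.surjective,
      Set.image_pair] at h
    exact h
  refine ⟨QuotientGroup.mk (e.symm a'), QuotientGroup.mk (e.symm b'), ?_⟩
  have h3 := congrArg (Subgroup.map (QuotientGroup.mk' (Subgroup.center
    ↥(Cfsg.Omega F (Cfsg.quadFormOdd (n + 1) F))))) h2'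
  rw [MonoidHom.map_closure, Subgroup.map_top_of_surjective _ (QuotientGroup.mk'_surjective _)] at h3
  rw [← h3]
  congr 1
  simp [Set.image_pair]

end Cfsg.Agent.S2413
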