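import Cfsg.Statements.S2412
import Mathlib
import Cfsg.Agent.S0780
import Cfsg.Agent.S2413
import Cfsg.Agent.Lib.Helper43.SUGeom
open Matrix Cfsg.Agent.Lib.Helper43.SUBase Cfsg.Agent.Lib.Helper43.SUElt Cfsg.Agent.Lib.Helper43.SUGeom

set_option autoImplicit false
open Cfsg

namespace Cfsg.Agent.S2412

section gen
variable {F : Type*} [Field F] {q n : ℕ} (D : QD F q)

theorem phi_inj {x y : F} (h : D.φ x = D.φ y) : x = y := by
  have := congrArg D.φ h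
  rwa [D.inv, D.inv] at this

theorem phi_ne_zero {x : F} (h : x ≠ 0) : D.φ x ≠ 0 :=
  fun h0 => h (phi_inj D (by rw [h0, map_zero]))

/-- `E(u, τ v, 0) = E(v, -φ τ u, 0)` -/
theorem E_swap {u v : Fin n → F} (hu : D.h u u = 0) (hv : D.h v v = 0) (huv : D.h u v = 0) (τ : F) :
    E D u (τ • v) 0 = E D v ((-D.φ τ) • u) 0 := by
  have hvu : D.h v u = 0 := h_comm_zero D huv
  have H1 : Ok D u (τ • v) 0 := ⟨hu, by rw [D.h_smul_left, hvu, mul_zero], by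
    rw [D.h_smul_left, D.h_smul_right, hv]; simp⟩
  have H2 : Ok D v ((-D.φ τ) • u) 0 := ⟨hv, by rw [D.h_smul_left, huv, mul_zero], by
    rw [D.h_smul_left, D.h_smul_right, hu]; simp⟩
  apply su_ext
  intro x
  rw [mv_E D H1, mv_E D H2]
  simp only [D.h_smul_right, map_neg, D.inv]
  module

theorem conjX {e' e d : Fin n → F} {c : F} (H : Ok D e' d c) (g : ↥(Cfsg.SU n F q)) {α : F}
    (hα : α ≠ 0) (hg : mv g e' = α • e) :
    Ok D e (D.φ α • mv g d) (α * D.φ α * c) ∧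
    g * E D e' d c * g⁻¹ = E D e (D.φ α • mv g d) (α * D.φ α * c) := by
  have H1 := Ok_conj D H g
  rw [hg] at H1
  have hφα := phi_ne_zero D hα
  have H2 : Ok D e (mv g d) c := by
    refine ⟨?_, ?_, ?_⟩
    · have := H1.1
      rw [D.h_smul_left, D.h_smul_right] at this
      rcases mul_eq_zero.1 this with h | h
      · exact absurd h hα
      · rcases mul_eq_zero.1 h with h | h
        · exact absurd h hφα
        · exact h
    · have := H1.2.1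
      rw [D.h_smul_right] at this
      rcases mul_eq_zero.1 this with h | h
      · exact absurd h hφα
      · exact h
    · exact H1.2.2
  refine ⟨Ok_smul' D α H2, ?_⟩
  rw [E_conj D H, hg, E_smul D α H2]

theorem E_self {e : Fin n → F} (he : D.h e e = 0) (s : F) :
    E D e (s • e) 0 = T D e (s - D.φ s) := by
  have hc : (s - D.φ s) + D.φ (s - D.φ s) = 0 := by rw [map_sub, D.inv]; ring
  have h1 := E_shift D (Ok_T D he hc) s
  rw [zero_add] at h1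
  have e1 : s - D.φ s - s + D.φ s = 0 := by ring
  rw [e1] at h1
  exact h1

theorem E_mul_T {e d : Fin n → F} {c k : F} (H : Ok D e d c) (hk : k + D.φ k = 0) :
    E D e d c * T D e k = E D e d (c + k) := by
  unfold T
  rw [E_mul D H (Ok_T D H.1 hk), add_zero, D.h_zero_left, sub_zero]

/-- two valid parameters over the same `d` differ by a skew element -/
theorem E_change {e d : Fin n → F} {c c' : F} (H : Ok D e d c) (H' : Ok D e d c') :
    (c' - c) + D.φ (c' - c) = 0 ∧ E D e d c' = E D e d c * T D e (c' - c) := by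
  have hk : (c' - c) + D.φ (c' - c) = 0 := by
    rw [map_sub]; linear_combination H'.2.2 - H.2.2
  refine ⟨hk, ?_⟩
  rw [E_mul_T D H hk]
  congr 1; ring

/-- the Weyl-type element -/
noncomputable def nn (e f d : Fin n → F) (κ : F) : ↥(Cfsg.SU n F q) :=
  E D e d κ * E D f ((-(D.φ κ)⁻¹) • d) (D.φ κ)⁻¹ * E D e ((κ * (D.φ κ)⁻¹) • d) κ

theorem nn_spec {e f d : Fin n → F} {κ : F} (H : Ok D e d κ) (hκ : κ ≠ 0) (hf : D.h f f = 0)
    (hfe : D.h f e = 1) (hdf : D.h d f = 0) :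
    mv (nn D e f d κ) e = (D.φ κ)⁻¹ • f ∧ mv (nn D e f d κ) f = κ • e ∧
    ∀ x, D.h x e = 0 → D.h x f = 0 → mv (nn D e f d κ) x = x + (κ⁻¹ * D.h x d) • d := by
  obtain ⟨μ, hμ⟩ : ∃ μ : F, μ = (D.φ κ)⁻¹ := ⟨_, rfl⟩
  have hφκ : D.φ κ ≠ 0 := phi_ne_zero D hκ
  have h1 : μ * D.φ κ = 1 := by rw [hμ, inv_mul_cancel₀ hφκ]
  have h2 : D.φ μ * κ = 1 := by
    have := congrArg D.φ h1
    rwa [map_mul, D.inv, map_one] at this
  have hκi : κ⁻¹ = D.φ μ := (eq_inv_of_mul_eq_one_left h2).symm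
  have hef : D.h e f = 1 := h_comm_one D hfe
  have hfd : D.h f d = 0 := h_comm_zero D hdf
  have hed : D.h e d = 0 := h_comm_zero D H.2.1
  have hde := H.2.1
  have hee := H.1
  have hc := H.2.2
  have H2 : Ok D f ((-μ) • d) μ := by
    refine ⟨hf, ?_, ?_⟩
    · rw [D.h_smul_left, hdf, mul_zero]
    · rw [D.h_smul_left, D.h_smul_right, map_neg]
      linear_combination (μ * D.φ μ) * hc - μ * h2 - D.φ μ * h1
  have H3 : Ok D e ((κ * μ) • d) κ := by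
    refine ⟨hee, ?_, ?_⟩
    · rw [D.h_smul_left, hde, mul_zero]
    · rw [D.h_smul_left, D.h_smul_right, map_mul]
      linear_combination hc + (D.h d d) * (D.φ μ * κ) * h1 + (D.h d d) * h2
  -- basic actions
  have A_e : mv (E D e d κ) e = e := mv_E_e D H
  have A_f : mv (E D e d κ) f = f + d + κ • e := by
    rw [mv_E_f D H hfe, hfd, sub_zero]
  have A_d : mv (E D e d κ) d = d - D.h d d • e := mv_E_perp D H hde
  have B_f : mv (E D f ((-μ) • d) μ) f = f := mv_E_e D H2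
  have B_e : mv (E D f ((-μ) • d) μ) e = e + (-μ) • d + μ • f := by
    rw [mv_E_f D H2 hef, D.h_smul_right, hed, mul_zero, sub_zero]
  have B_d : mv (E D f ((-μ) • d) μ) d = d + (D.φ μ * D.h d d) • f := by
    rw [mv_E_perp D H2 hdf, D.h_smul_right, map_neg]
    module
  have C_e : mv (E D e ((κ * μ) • d) κ) e = e := mv_E_e D H3
  have C_f : mv (E D e ((κ * μ) • d) κ) f = f + (κ * μ) • d + κ • e := by
    rw [mv_E_f D H3 hfe, D.h_smul_right, hfd, mul_zero, sub_zero]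
  unfold nn
  rw [← hμ]
  refine ⟨?_, ?_, ?_⟩
  · rw [mv_mul, mv_mul, C_e, B_e, mv_add, mv_add, mv_smul, mv_smul, A_e, A_d, A_f]
    linear_combination (norm := module) (μ * hc - h1) • e
  · rw [mv_mul, mv_mul, C_f]
    have hB : mv (E D f ((-μ) • d) μ) (f + (κ * μ) • d + κ • e) = κ • e := by
      rw [mv_add, mv_add, mv_smul, mv_smul, B_f, B_d, B_e]
      linear_combination (norm := module) ((μ * hc - h1) + (μ * D.h d d) * h2) • f
    rw [hB, mv_smul, A_e]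
  · intro x hxe hxf
    have C_x : mv (E D e ((κ * μ) • d) κ) x = x - (D.φ κ * D.φ μ * D.h x d) • e := by
      rw [mv_E_perp D H3 hxe, D.h_smul_right, map_mul]
    have B_x : mv (E D f ((-μ) • d) μ) x = x + (D.φ μ * D.h x d) • f := by
      rw [mv_E_perp D H2 hxf, D.h_smul_right, map_neg]
      module
    have A_x : mv (E D e d κ) x = x - D.h x d • e := mv_E_perp D H hxe
    rw [mv_mul, mv_mul, C_x, mv_sub, mv_smul, B_x, B_e, mv_sub, mv_add, mv_smul, mv_smul, mv_add,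
      mv_add, mv_smul, mv_smul, A_x, A_f, A_e, A_d, hκi]
    linear_combination (norm := module)
      (D.h x d * h2 - D.φ κ * D.φ μ * D.h x d * (μ * hc - h1)) • e +
      (-(D.φ μ * D.h x d) * h1) • f

/-- the Weyl-type element of a Levi `SL_2` -/
noncomputable def ww (u₀ u₁ v₀ v₁ : Fin n → F) (t s : F) : ↥(Cfsg.SU n F q) :=
  E D u₀ (t • v₁) 0 * E D u₁ (s • v₀) 0 * E D u₀ (t • v₁) 0

theorem ww_spec {u₀ u₁ v₀ v₁ : Fin n → F} (h00 : D.h u₀ u₀ = 0) (h01 : D.h u₀ u₁ = 0)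
    (h11 : D.h u₁ u₁ = 0) (k00 : D.h v₀ v₀ = 0) (k01 : D.h v₀ v₁ = 0) (k11 : D.h v₁ v₁ = 0)
    (p00 : D.h v₀ u₀ = 1) (p11 : D.h v₁ u₁ = 1) (p01 : D.h v₀ u₁ = 0) (p10 : D.h v₁ u₀ = 0)
    {t s : F} (hts : t * s = -1) :
    mv (ww D u₀ u₁ v₀ v₁ t s) u₀ = (-D.φ s) • u₁ ∧ mv (ww D u₀ u₁ v₀ v₁ t s) u₁ = (-D.φ t) • u₀ ∧
    mv (ww D u₀ u₁ v₀ v₁ t s) v₀ = t • v₁ ∧ mv (ww D u₀ u₁ v₀ v₁ t s) v₁ = s • v₀ ∧
    ∀ x, D.h x u₀ = 0 → D.h x u₁ = 0 → D.h x v₀ = 0 → D.h x v₁ = 0 →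
      mv (ww D u₀ u₁ v₀ v₁ t s) x = x := by
  have h10 : D.h u₁ u₀ = 0 := h_comm_zero D h01
  have k10 : D.h v₁ v₀ = 0 := h_comm_zero D k01
  have q00 : D.h u₀ v₀ = 1 := h_comm_one D p00
  have q11 : D.h u₁ v₁ = 1 := h_comm_one D p11
  have q10 : D.h u₁ v₀ = 0 := h_comm_zero D p01
  have q01 : D.h u₀ v₁ = 0 := h_comm_zero D p10
  have hφ : D.φ t * D.φ s = -1 := by
    have := congrArg D.φ hts
    rwa [map_mul, map_neg, map_one] at this
  have HR : Ok D u₀ (t • v₁) 0 := ⟨h00, by rw [D.h_smul_left, p10, mul_zero], by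
    rw [D.h_smul_left, D.h_smul_right, k11]; simp⟩
  have HS : Ok D u₁ (s • v₀) 0 := ⟨h11, by rw [D.h_smul_left, p01, mul_zero], by
    rw [D.h_smul_left, D.h_smul_right, k00]; simp⟩
  have R0 : mv (E D u₀ (t • v₁) 0) u₀ = u₀ := mv_E_e D HR
  have R1 : mv (E D u₀ (t • v₁) 0) u₁ = u₁ - D.φ t • u₀ := by
    rw [mv_E_perp D HR h10, D.h_smul_right, q11, mul_one]
  have Rv0 : mv (E D u₀ (t • v₁) 0) v₀ = v₀ + t • v₁ := by
    rw [mv_E_f D HR p00, D.h_smul_right, k01, mul_zero, sub_zero, zero_smul, add_zero]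
  have Rv1 : mv (E D u₀ (t • v₁) 0) v₁ = v₁ := by
    rw [mv_E_perp D HR p10, D.h_smul_right, k11, mul_zero, zero_smul, sub_zero]
  have S1 : mv (E D u₁ (s • v₀) 0) u₁ = u₁ := mv_E_e D HS
  have S0 : mv (E D u₁ (s • v₀) 0) u₀ = u₀ - D.φ s • u₁ := by
    rw [mv_E_perp D HS h01, D.h_smul_right, q00, mul_one]
  have Sv1 : mv (E D u₁ (s • v₀) 0) v₁ = v₁ + s • v₀ := by
    rw [mv_E_f D HS p11, D.h_smul_right, k10, mul_zero, sub_zero, zero_smul, add_zero]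
  have Sv0 : mv (E D u₁ (s • v₀) 0) v₀ = v₀ := by
    rw [mv_E_perp D HS p01, D.h_smul_right, k00, mul_zero, zero_smul, sub_zero]
  unfold ww
  refine ⟨?_, ?_, ?_, ?_, ?_⟩
  · rw [mv_mul, mv_mul, R0, S0, mv_sub, mv_smul, R0, R1]
    linear_combination (norm := module) hφ • u₀
  · rw [mv_mul, mv_mul, R1, mv_sub, mv_smul, S1, S0, mv_sub, mv_smul, mv_sub, mv_smul, R0, R1]
    linear_combination (norm := module) hφ • u₁ - (D.φ t * hφ) • u₀
  · rw [mv_mul, mv_mul, Rv0, mv_add, mv_smul, Sv0, Sv1, mv_add, mv_smul, mv_add, mv_smul, Rv0, Rv1]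
    linear_combination (norm := module) hts • v₀ + (t * hts) • v₁
  · rw [mv_mul, mv_mul, Rv1, Sv1, mv_add, mv_smul, Rv1, Rv0]
    linear_combination (norm := module) hts • v₁
  · intro x x0 x1 y0 y1
    have Rx : mv (E D u₀ (t • v₁) 0) x = x := by
      rw [mv_E_perp D HR x0, D.h_smul_right, y1, mul_zero, zero_smul, sub_zero]
    have Sx : mv (E D u₁ (s • v₀) 0) x = x := by
      rw [mv_E_perp D HS x1, D.h_smul_right, y0, mul_zero, zero_smul, sub_zero]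
    rw [mv_mul, mv_mul, Rx, Sx, Rx]

/-- the Levi torus element -/
theorem torus_spec {u₀ u₁ v₀ v₁ : Fin n → F} (h00 : D.h u₀ u₀ = 0) (h01 : D.h u₀ u₁ = 0)
    (h11 : D.h u₁ u₁ = 0) (k00 : D.h v₀ v₀ = 0) (k01 : D.h v₀ v₁ = 0) (k11 : D.h v₁ v₁ = 0)
    (p00 : D.h v₀ u₀ = 1) (p11 : D.h v₁ u₁ = 1) (p01 : D.h v₀ u₁ = 0) (p10 : D.h v₁ u₀ = 0)
    {t : F} (ht : t ≠ 0) :
    ∃ a : ↥(Cfsg.SU n F q), mv a u₀ = D.φ t • u₀ ∧ mv a u₁ = (D.φ t)⁻¹ • u₁ ∧
    mv a v₀ = t⁻¹ • v₀ ∧ mv a v₁ = t • v₁ ∧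
    ∀ x, D.h x u₀ = 0 → D.h x u₁ = 0 → D.h x v₀ = 0 → D.h x v₁ = 0 → mv a x = x := by
  have hts : t * (-t⁻¹) = -1 := by field_simp
  have h11' : (-1 : F) * 1 = -1 := by ring
  obtain ⟨a0, a1, a2, a3, a4⟩ := ww_spec D h00 h01 h11 k00 k01 k11 p00 p11 p01 p10 hts
  obtain ⟨b0, b1, b2, b3, b4⟩ := ww_spec D h00 h01 h11 k00 k01 k11 p00 p11 p01 p10 h11'
  refine ⟨ww D u₀ u₁ v₀ v₁ t (-t⁻¹) * ww D u₀ u₁ v₀ v₁ (-1) 1, ?_, ?_, ?_, ?_, ?_⟩
  · rw [mv_mul, b0, mv_smul, a1, smul_smul, map_one]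
    congr 1; ring
  · rw [mv_mul, b1, mv_smul, a0, smul_smul, map_neg, map_neg, map_one, map_inv₀]
    congr 1; ring
  · rw [mv_mul, b2, mv_smul, a3, smul_smul]
    congr 1; ring
  · rw [mv_mul, b3, mv_smul, a2, smul_smul, one_mul]
  · intro x x0 x1 y0 y1
    rw [mv_mul, b4 x x0 x1 y0 y1, a4 x x0 x1 y0 y1]

end gen
section sub

theorem sub_top {F : Type*} [Field F] [Fintype F] {q : ℕ} (hF : Fintype.card F = q ^ 2) (l : F)
    (hl0 : l ≠ 0) (hl : ∀ i : ℕ, 0 < i → i < q → l ^ i ≠ 1) (S : AddSubgroup F)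
    (hmul : ∀ τ ∈ S, l * τ ∈ S) (τ₁ : F) (h1 : τ₁ ∈ S) (hne : τ₁ ≠ 0) (τ : F) : τ ∈ S := by
  classical
  have hpow : ∀ x : F, (∀ τ ∈ S, x * τ ∈ S) → ∀ j : ℕ, ∀ τ ∈ S, x ^ j * τ ∈ S := by
    intro x hx j
    induction j with
    | zero => intro τ hτ; simpa using hτ
    | succ j ih => intro τ hτ; rw [pow_succ, mul_assoc]; exact ih _ (hx τ hτ)
  have hcF := Fintype.one_lt_card (α := F)
  let K : Subfield F :=
    { carrier := {x | ∀ τ ∈ S, x * τ ∈ S}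
      mul_mem' := by
        intro a b ha hb τ hτ
        rw [mul_assoc]; exact ha _ (hb τ hτ)
      one_mem' := by intro τ hτ; rw [one_mul]; exact hτ
      add_mem' := by
        intro a b ha hb τ hτ
        rw [add_mul]; exact S.add_mem (ha τ hτ) (hb τ hτ)
      zero_mem' := by intro τ _; rw [zero_mul]; exact S.zero_mem
      neg_mem' := by
        intro a ha τ hτ
        rw [neg_mul]; exact S.neg_mem (ha τ hτ)
      inv_mem' := by
        intro a ha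
        by_cases ha0 : a = 0
        · rw [ha0, _root_.inv_zero]; intro τ _; rw [zero_mul]; exact S.zero_mem
        · have h2 : a ^ (Fintype.card F - 1) = 1 := FiniteField.pow_card_sub_one_eq_one a ha0
          have h3 : Fintype.card F - 1 = (Fintype.card F - 2) + 1 := by omega
          rw [h3, pow_succ] at h2
          rw [← eq_inv_of_mul_eq_one_left h2]
          exact hpow a ha _ }
  have hlK : l ∈ K := hmul
  have hq2 : 2 ≤ q := by
    rw [hF] at hcF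
    by_contra hcon
    have : q ≤ 1 := by omega
    have : q ^ 2 ≤ 1 ^ 2 := Nat.pow_le_pow_left this 2
    omega
  have hcard : Nat.card F = Nat.card K ^ Module.finrank K F := Module.natCard_eq_pow_finrank
  rw [Nat.card_eq_fintype_card, hF] at hcard
  obtain ⟨s, hs⟩ : ∃ s : ℕ, s = Nat.card K := ⟨_, rfl⟩
  rw [← hs] at hcard
  have hs2 : 2 ≤ s := by
    rw [hs]
    have : 1 < Nat.card K := Finite.one_lt_card
    omega
  have hl1 : (⟨l, hlK⟩ : K) ^ (s - 1) = 1 := by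
    rw [hs, Nat.card_eq_fintype_card]
    apply FiniteField.pow_card_sub_one_eq_one
    intro h
    exact hl0 (congrArg Subtype.val h)
  have hl1' : l ^ (s - 1) = 1 := by
    have := congrArg Subtype.val hl1
    simpa using this
  have hsq : q ≤ s - 1 := by
    by_contra hcon
    push Not at hcon
    exact hl (s - 1) (by omega) hcon hl1'
  have hj : Module.finrank K F = 1 := by
    by_contra hj
    rcases Nat.lt_or_ge (Module.finrank K F) 1 with h0 | h0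
    · have : Module.finrank K F = 0 := by omega
      rw [this, pow_zero] at hcard
      have : 2 ^ 2 ≤ q ^ 2 := Nat.pow_le_pow_left hq2 2
      omega
    · have h2 : 2 ≤ Module.finrank K F := by omega
      have h3 : s ^ 2 ≤ s ^ Module.finrank K F := Nat.pow_le_pow_right (by omega) h2
      have h4 : (q + 1) ^ 2 ≤ s ^ 2 := Nat.pow_le_pow_left (by omega) 2
      nlinarith
  rw [hj, pow_one] at hcard
  have hbij : Function.Bijective (Subtype.val : K → F) := by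
    rw [Fintype.bijective_iff_injective_and_card]
    refine ⟨Subtype.val_injective, ?_⟩
    rw [← Nat.card_eq_fintype_card, ← hs, ← hcard, hF]
  obtain ⟨⟨y, hy⟩, hy2⟩ := hbij.2 (τ / τ₁)
  have h5 := hy τ₁ h1
  simp only at hy2
  rw [hy2, div_mul_cancel₀ _ hne] at h5
  exact h5

end sub

section gen2
variable {F : Type*} [Field F] {q n : ℕ} (D : QD F q)

theorem L1 [Fintype F] (hF : Fintype.card F = q ^ 2) (H : Subgroup ↥(Cfsg.SU n F q))
    {e d₀ : Fin n → F} (a a' : ↥(Cfsg.SU n F q)) {α ζ α' ζ' κ₁ : F}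
    (hα : α ≠ 0) (hα' : α' ≠ 0)
    (hae : mv a e = α • e) (had : mv a d₀ = ζ • d₀) (ha'e : mv a' e = α' • e)
    (ha'd : mv a' d₀ = ζ' • d₀) (hcomm : a * a' = a' * a) (hOk : Ok D e d₀ κ₁)
    (h0 : D.h d₀ d₀ = 0 → κ₁ = 0) (haH : a ∈ H)
    (hbH : E D e d₀ κ₁ * a' * (E D e d₀ κ₁)⁻¹ ∈ H)
    (hm0 : D.φ α * ζ ≠ 0) (hmp : ∀ i : ℕ, 0 < i → i < q → (D.φ α * ζ) ^ i ≠ 1)
    (hl : D.φ α' * ζ' ≠ 1) (hq : 1 < q) :
    ∀ τ : F, ∃ c, Ok D e (τ • d₀) c ∧ (D.h d₀ d₀ = 0 → c = 0) ∧ E D e (τ • d₀) c ∈ H := by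
  obtain ⟨XP, hXP⟩ : ∃ XP : F → ↥(Cfsg.SU n F q) → Prop, XP = fun τ g =>
    ∃ c, Ok D e (τ • d₀) c ∧ (D.h d₀ d₀ = 0 → c = 0) ∧ g = E D e (τ • d₀) c := ⟨_, rfl⟩
  have hadd : ∀ τ τ' g g', XP τ g → XP τ' g' → XP (τ + τ') (g * g') := by
    intro τ τ' g g' h1 h2
    rw [hXP] at h1 h2 ⊢
    obtain ⟨c, H1, z1, rfl⟩ := h1
    obtain ⟨c', H2, z2, rfl⟩ := h2
    refine ⟨c + c' - D.h (τ' • d₀) (τ • d₀), ?_, ?_, ?_⟩
    · have := Ok_mul D H1 H2
      rwa [← add_smul] at this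
    · intro hz
      rw [z1 hz, z2 hz, D.h_smul_left, D.h_smul_right, hz]; ring
    · rw [E_mul D H1 H2, ← add_smul]
  have hneg : ∀ τ g, XP τ g → XP (-τ) g⁻¹ := by
    intro τ g h1
    rw [hXP] at h1 ⊢
    obtain ⟨c, H1, z1, rfl⟩ := h1
    refine ⟨D.φ c, ?_, ?_, ?_⟩
    · have := Ok_inv D H1
      rwa [← neg_smul] at this
    · intro hz; rw [z1 hz, map_zero]
    · rw [E_inv D H1, ← neg_smul]
  have hconj : ∀ (g₀ : ↥(Cfsg.SU n F q)) (β ξ : F), β ≠ 0 → mv g₀ e = β • e →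
      mv g₀ d₀ = ξ • d₀ → ∀ τ g, XP τ g → XP (D.φ β * ξ * τ) (g₀ * g * g₀⁻¹) := by
    intro g₀ β ξ hβ hge hgd τ g h1
    rw [hXP] at h1 ⊢
    obtain ⟨c, H1, z1, rfl⟩ := h1
    obtain ⟨O2, e2⟩ := conjX D H1 g₀ hβ hge
    have e3 : D.φ β • mv g₀ (τ • d₀) = (D.φ β * ξ * τ) • d₀ := by
      rw [mv_smul, hgd, smul_smul, smul_smul]; congr 1; ring
    rw [e3] at O2 e2
    exact ⟨β * D.φ β * c, O2, by intro hz; rw [z1 hz, mul_zero], e2⟩
  obtain ⟨x₀, hx₀⟩ : ∃ x₀ : ↥(Cfsg.SU n F q), x₀ = E D e d₀ κ₁ := ⟨_, rfl⟩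
  rw [← hx₀] at hbH
  have X1 : XP 1 x₀ := by
    rw [hXP]
    exact ⟨κ₁, by rwa [one_smul], h0, by rw [one_smul, hx₀]⟩
  obtain ⟨l, hl'⟩ : ∃ l : F, l = D.φ α' * ζ' := ⟨_, rfl⟩
  obtain ⟨lam, hlam⟩ : ∃ lam : F, lam = D.φ α * ζ := ⟨_, rfl⟩
  rw [← hl'] at hl
  rw [← hlam] at hmp hm0
  obtain ⟨y, hy⟩ : ∃ y : ↥(Cfsg.SU n F q), y = x₀ * (a' * x₀ * a'⁻¹)⁻¹ := ⟨_, rfl⟩
  have Xy : XP (1 + -(l * 1)) y := by
    rw [hy, hl']
    exact hadd _ _ _ _ X1 (hneg _ _ (hconj a' α' ζ' hα' ha'e ha'd 1 x₀ X1))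
  have hg₁ : x₀ * a' * x₀⁻¹ = y * a' := by rw [hy]; group
  obtain ⟨z, hz⟩ : ∃ z : ↥(Cfsg.SU n F q), z = a * y * a⁻¹ * y⁻¹ := ⟨_, rfl⟩
  have Xz : XP (lam * (1 + -(l * 1)) + -(1 + -(l * 1))) z := by
    rw [hz, hlam]
    exact hadd _ _ _ _ (hconj a α ζ hα hae had _ y Xy) (hneg _ _ Xy)
  have hc2 : a' * a⁻¹ * a'⁻¹ = a⁻¹ := by
    have : a' * a⁻¹ = a⁻¹ * a' := by
      rw [eq_inv_mul_iff_mul_eq, ← mul_assoc, hcomm, mul_assoc, mul_inv_cancel, mul_one]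
    rw [this, mul_assoc, mul_inv_cancel, mul_one]
  have hzH : z ∈ H := by
    have ez : z = a * (y * a') * a⁻¹ * (y * a')⁻¹ := by
      rw [hz]
      calc a * y * a⁻¹ * y⁻¹ = a * y * (a' * a⁻¹ * a'⁻¹) * y⁻¹ := by rw [hc2]
        _ = a * (y * a') * a⁻¹ * (y * a')⁻¹ := by group
    rw [ez, ← hg₁]
    exact H.mul_mem (H.mul_mem (H.mul_mem haH hbH) (H.inv_mem haH)) (H.inv_mem hbH)
  have hlam1 : lam ≠ 1 := by
    have := hmp 1 (by norm_num) hq
    rwa [pow_one] at this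
  have hτ₁ : lam * (1 + -(l * 1)) + -(1 + -(l * 1)) ≠ 0 := by
    have e : lam * (1 + -(l * 1)) + -(1 + -(l * 1)) = (lam - 1) * (1 - l) := by ring
    rw [e]
    exact mul_ne_zero (sub_ne_zero.mpr hlam1) (sub_ne_zero.mpr (Ne.symm hl))
  let S : AddSubgroup F :=
    { carrier := {τ | ∃ g ∈ H, XP τ g}
      add_mem' := by
        rintro τ τ' ⟨g, hg, X⟩ ⟨g', hg', X'⟩
        exact ⟨g * g', H.mul_mem hg hg', hadd _ _ _ _ X X'⟩
      zero_mem' := by
        refine ⟨1, H.one_mem, ?_⟩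
        rw [hXP]
        exact ⟨0, by rw [zero_smul]; exact Ok_zero D hOk.1, fun _ => rfl, by
          rw [zero_smul, E_zero D hOk.1]⟩
      neg_mem' := by
        rintro τ ⟨g, hg, X⟩
        exact ⟨g⁻¹, H.inv_mem hg, hneg _ _ X⟩ }
  have hSmul : ∀ τ ∈ S, lam * τ ∈ S := by
    rintro τ ⟨g, hg, X⟩
    refine ⟨a * g * a⁻¹, H.mul_mem (H.mul_mem haH hg) (H.inv_mem haH), ?_⟩
    rw [hlam]
    exact hconj a α ζ hα hae had τ g X
  intro τ
  have hτ : τ ∈ S := sub_top hF lam hm0 hmp S hSmul _ ⟨z, hzH, Xz⟩ hτ₁ τ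
  obtain ⟨g, hg, X⟩ := hτ
  rw [hXP] at X
  obtain ⟨c, O, z0, rfl⟩ := X
  exact ⟨c, O, z0, hg⟩

theorem T_mem_of_pair (H : Subgroup ↥(Cfsg.SU n F q)) {e f : Fin n → F} (he : D.h e e = 0)
    (hf : D.h f f = 0) (hfe : D.h f e = 1)
    (hE : ∀ d c, Ok D e d c → E D e d c ∈ H) (hTf : ∀ κ, κ + D.φ κ = 0 → T D f κ ∈ H)
    {v : Fin n → F} (hv : D.h v v = 0) (hve : D.h v e ≠ 0) {κ : F} (hκ : κ + D.φ κ = 0) :
    T D v κ ∈ H := by
  obtain ⟨β, hβ⟩ : ∃ β : F, β = D.h v e := ⟨_, rfl⟩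
  obtain ⟨v', hv'⟩ : ∃ v' : Fin n → F, v' = β⁻¹ • v := ⟨_, rfl⟩
  have hβ0 : β ≠ 0 := by rw [hβ]; exact hve
  have hv'e : D.h v' e = 1 := by rw [hv', D.h_smul_left, ← hβ, inv_mul_cancel₀ hβ0]
  have hv'v' : D.h v' v' = 0 := by rw [hv', D.h_smul_left, D.h_smul_right, hv]; ring
  have hvv' : v = β • v' := by rw [hv', smul_smul, mul_inv_cancel₀ hβ0, one_smul]
  have hef : D.h e f = 1 := h_comm_one D hfe
  have HO : Ok D e (v' - f) (D.h f v') := by
    refine ⟨he, ?_, ?_⟩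
    · rw [D.h_sub_left, hv'e, hfe, sub_self]
    · have e1 : D.φ (D.h f v') = D.h v' f := D.h_symm f v'
      rw [e1, D.h_sub_left, D.h_sub_right, D.h_sub_right, hv'v', hf]; ring
  have hgf : mv (E D e (v' - f) (D.h f v')) f = v' := by
    rw [mv_E_f D HO hfe, D.h_sub_right, hf]
    module
  have hκ' : (β * D.φ β * κ) + D.φ (β * D.φ β * κ) = 0 := by
    rw [map_mul, D.nm_fixed]; linear_combination (β * D.φ β) * hκ
  have h1 := conj_T D hf hκ' (E D e (v' - f) (D.h f v'))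
  rw [hgf] at h1
  rw [hvv', T_smul D hv'v' hκ, ← h1]
  exact H.mul_mem (H.mul_mem (hE _ _ HO) (hTf _ hκ')) (H.inv_mem (hE _ _ HO))

theorem thmG [Fintype F] (hF : Fintype.card F = q ^ 2) (hn : 3 ≤ n) (h32 : ¬ (n = 3 ∧ q = 2))
    (H : Subgroup ↥(Cfsg.SU n F q)) {e f : Fin n → F} (he : D.h e e = 0) (hf : D.h f f = 0)
    (hfe : D.h f e = 1) (hE : ∀ d c, Ok D e d c → E D e d c ∈ H)
    (hEf : ∀ d c, Ok D f d c → E D f d c ∈ H) : H = ⊤ := by
  have hef : D.h e f = 1 := h_comm_one D hfe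
  have hTe : ∀ κ, κ + D.φ κ = 0 → T D e κ ∈ H := fun κ hκ => hE _ _ (Ok_T D he hκ)
  have hTf : ∀ κ, κ + D.φ κ = 0 → T D f κ ∈ H := fun κ hκ => hEf _ _ (Ok_T D hf hκ)
  have s1 : ∀ v κ, D.h v v = 0 → κ + D.φ κ = 0 → D.h v e ≠ 0 → T D v κ ∈ H :=
    fun v κ hv hκ hve => T_mem_of_pair D H he hf hfe hE hTf hv hve hκ
  have s2 : ∀ v κ, D.h v v = 0 → κ + D.φ κ = 0 → D.h v f ≠ 0 → T D v κ ∈ H :=
    fun v κ hv hκ hvf => T_mem_of_pair D H hf he hef hEf hTe hv hvf hκ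
  have s3 : ∀ v κ, D.h v v = 0 → κ + D.φ κ = 0 → T D v κ ∈ H := by
    intro v κ hv hκ
    by_cases hve : D.h v e = 0
    swap
    · exact s1 v κ hv hκ hve
    by_cases hvf : D.h v f = 0
    swap
    · exact s2 v κ hv hκ hvf
    by_cases hv0 : v = 0
    · have : T D v κ = 1 := by
        apply su_ext; intro x; rw [mv_T D hv hκ, mv_one, hv0]; simp
      rw [this]; exact H.one_mem
    obtain ⟨u, hu⟩ : ∃ u, D.h v u ≠ 0 := by
      by_contra hcon
      push Not at hcon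
      exact hv0 (D.eq_zero_of_h_left hcon)
    obtain ⟨d, hd⟩ : ∃ d : Fin n → F, d = u - D.h u f • e := ⟨_, rfl⟩
    have hdf : D.h d f = 0 := by rw [hd, D.h_sub_left, D.h_smul_left, hef]; ring
    have hvd : D.h v d = D.h v u := by rw [hd, D.h_sub_right, D.h_smul_right, hve]; ring
    obtain ⟨c, hc⟩ := D.exists_c d
    have HO : Ok D f d c := ⟨hf, hdf, hc⟩
    have hgv : mv (E D f d c) v = v - D.h v d • f := mv_E_perp D HO hvf
    have h1 : T D (mv (E D f d c) v) κ ∈ H := by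
      apply s1 _ κ (by rw [h_mv, hv]) hκ
      rw [hgv, D.h_sub_left, D.h_smul_left, hve, hfe, hvd]
      simpa using hu
    rw [← conj_T D hv hκ] at h1
    have e2 : T D v κ = (E D f d c)⁻¹ * (E D f d c * T D v κ * (E D f d c)⁻¹) * (E D f d c) := by
      group
    rw [e2]
    exact H.mul_mem (H.mul_mem (H.inv_mem (hEf _ _ HO)) h1) (hEf _ _ HO)
  rw [eq_top_iff, ← Cfsg.Agent.S0780.result hF n hn h32, Subgroup.closure_le]
  rintro A ⟨v, c, hv, hA⟩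
  have hv' : D.h v v = 0 := hv
  have hact : ∀ x, mv A x = x + (c * D.h x v) • v := by
    intro x
    unfold mv
    rw [hA]
    unfold Cfsg.unitaryTransvection
    have e1 : (fun j => v j ^ q) = D.φ ∘ v := by
      funext j; rw [Function.comp_apply, D.hφ]
    rw [e1, ← Matrix.smul_vecMulVec, tv_mulVec]
    module
  by_cases hv0 : v = 0
  · have : A = 1 := by
      apply su_ext; intro x; rw [hact, mv_one, hv0]; simp
    rw [this]; exact H.one_mem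
  obtain ⟨y, hy⟩ := exists_dual D hv0
  have hvy : D.h v y = 1 := h_comm_one D hy
  have hc : c + D.φ c = 0 := by
    have h1 := h_mv D A y y
    rw [hact, hy, mul_one] at h1
    simp only [D.h_add_left, D.h_add_right, D.h_smul_left, D.h_smul_right, hy, hvy, hv'] at h1
    linear_combination h1
  have hAT : A = T D v c := by
    apply su_ext; intro x; rw [hact, mv_T D hv' hc]
  rw [SetLike.mem_coe, hAT]
  exact s3 v c hv' hc

end gen2
section frame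
variable {F : Type*} [Field F] {q n : ℕ}
open Cfsg.Agent.S2413 (sg orbit_all fin_down)

theorem sg_swap {m : ℕ} (c : Fin (m + 1) ⊕ Fin (m + 1)) : sg c.swap = (sg c).swap := by
  rcases c with i | i <;> simp only [sg, Sum.swap_inl, Sum.swap_inr] <;> split_ifs <;> rfl

theorem sg_surj {m : ℕ} (c : Fin (m + 1) ⊕ Fin (m + 1)) : ∃ c', sg c' = c := by
  rcases c with i | i
  · by_cases h : i + 1 = 0
    · refine ⟨Sum.inr 0, ?_⟩
      show (if (0 : Fin (m + 1)) = 0 then Sum.inl ((0 : Fin (m + 1)) - 1)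
        else Sum.inr ((0 : Fin (m + 1)) - 1)) = Sum.inl i
      rw [if_pos rfl, ← eq_sub_of_add_eq h]
    · refine ⟨Sum.inl (i + 1), ?_⟩
      show (if i + 1 = 0 then Sum.inr (i + 1 - 1) else Sum.inl (i + 1 - 1)) = Sum.inl i
      rw [if_neg h, add_sub_cancel_right]
  · by_cases h : i + 1 = 0
    · refine ⟨Sum.inl 0, ?_⟩
      show (if (0 : Fin (m + 1)) = 0 then Sum.inr ((0 : Fin (m + 1)) - 1)
        else Sum.inl ((0 : Fin (m + 1)) - 1)) = Sum.inr i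
      rw [if_pos rfl, ← eq_sub_of_add_eq h]
    · refine ⟨Sum.inr (i + 1), ?_⟩
      show (if i + 1 = 0 then Sum.inl (i + 1 - 1) else Sum.inr (i + 1 - 1)) = Sum.inr i
      rw [if_neg h, add_sub_cancel_right]

theorem sg_inl_succ {m : ℕ} (j : ℕ) (hj : j + 1 < m + 1) :
    sg (Sum.inl (⟨j + 1, hj⟩ : Fin (m + 1))) = Sum.inl ⟨j, by omega⟩ := by
  have h0 : (⟨j + 1, hj⟩ : Fin (m + 1)) ≠ 0 := by
    intro h; simp [Fin.ext_iff] at h
  show (if (⟨j + 1, hj⟩ : Fin (m + 1)) = 0 then Sum.inr ((⟨j + 1, hj⟩ : Fin (m + 1)) - 1)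
    else Sum.inl ((⟨j + 1, hj⟩ : Fin (m + 1)) - 1)) = _
  rw [if_neg h0]
  congr 1
  apply Fin.ext
  rw [Fin.coe_sub_one, if_neg h0]
  simp

theorem sg_inr_succ {m : ℕ} (j : ℕ) (hj : j + 1 < m + 1) :
    sg (Sum.inr (⟨j + 1, hj⟩ : Fin (m + 1))) = Sum.inr ⟨j, by omega⟩ := by
  have h0 : (⟨j + 1, hj⟩ : Fin (m + 1)) ≠ 0 := by
    intro h; simp [Fin.ext_iff] at h
  show (if (⟨j + 1, hj⟩ : Fin (m + 1)) = 0 then Sum.inl ((⟨j + 1, hj⟩ : Fin (m + 1)) - 1)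
    else Sum.inr ((⟨j + 1, hj⟩ : Fin (m + 1)) - 1)) = _
  rw [if_neg h0]
  congr 1
  apply Fin.ext
  rw [Fin.coe_sub_one, if_neg h0]
  simp

theorem sg_inl_zero {m : ℕ} :
    sg (Sum.inl (0 : Fin (m + 1))) = Sum.inr ⟨m, by omega⟩ := by
  show (if (0 : Fin (m + 1)) = 0 then Sum.inr ((0 : Fin (m + 1)) - 1)
    else Sum.inl ((0 : Fin (m + 1)) - 1)) = _
  rw [if_pos rfl]
  congr 1
  apply Fin.ext
  rw [Fin.coe_sub_one, if_pos rfl]

theorem sg_inr_zero {m : ℕ} :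
    sg (Sum.inr (0 : Fin (m + 1))) = Sum.inl ⟨m, by omega⟩ := by
  show (if (0 : Fin (m + 1)) = 0 then Sum.inl ((0 : Fin (m + 1)) - 1)
    else Sum.inr ((0 : Fin (m + 1)) - 1)) = _
  rw [if_pos rfl]
  congr 1
  apply Fin.ext
  rw [Fin.coe_sub_one, if_pos rfl]

theorem conj_act (N a : ↥(Cfsg.SU n F q)) {x y : Fin n → F} {ε δ : F} (hε : ε ≠ 0)
    (hN : mv N x = ε • y) (ha : mv a x = δ • x) : mv (N * a * N⁻¹) y = δ • y := by
  have e2 : y = mv N (ε⁻¹ • x) := by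
    rw [mv_smul, hN, smul_smul, inv_mul_cancel₀ hε, one_smul]
  have h1 : mv N⁻¹ y = ε⁻¹ • x := by rw [e2, mv_inv_mv]
  rw [mv_mul, mv_mul, h1, mv_smul, ha, mv_smul, mv_smul, hN, smul_smul, smul_smul]
  congr 1
  field_simp

/-- a Witt frame with a monomial Coxeter-type element -/
structure Fr (D : QD F q) (n m : ℕ) where
  bv : Fin (m + 1) ⊕ Fin (m + 1) → Fin n → F
  z : Fin n → F
  hbb : ∀ c c', D.h (bv c) (bv c') = if c' = c.swap then 1 else 0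
  hzb : ∀ c, D.h z (bv c) = 0
  compl : ∀ x, x = ∑ c, D.h x (bv c.swap) • bv c + D.h x z • z
  N : ↥(Cfsg.SU n F q)
  hN : ∀ c, ∃ ν : F, ν ≠ 0 ∧ mv N (bv c) = ν • bv (sg c)
  hNz : mv N z = z

namespace Fr
variable {D : QD F q} {m : ℕ} (R : Fr D n m)

theorem hbz (c : Fin (m + 1) ⊕ Fin (m + 1)) : D.h (R.bv c) R.z = 0 := h_comm_zero D (R.hzb c)

theorem hself (c : Fin (m + 1) ⊕ Fin (m + 1)) : D.h (R.bv c) (R.bv c) = 0 := by
  rw [R.hbb, if_neg]
  intro h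
  rcases c with i | i <;> simp at h

theorem hpair (c : Fin (m + 1) ⊕ Fin (m + 1)) : D.h (R.bv c) (R.bv c.swap) = 1 := by
  rw [R.hbb, if_pos rfl]

theorem hperp {c c' : Fin (m + 1) ⊕ Fin (m + 1)} (h : c' ≠ c.swap) : D.h (R.bv c) (R.bv c') = 0 := by
  rw [R.hbb, if_neg h]

theorem bv_ne (c : Fin (m + 1) ⊕ Fin (m + 1)) : R.bv c ≠ 0 := by
  intro h
  have := R.hpair c
  rw [h, D.h_zero_left] at this
  exact zero_ne_one this

theorem hNinvz : mv R.N⁻¹ R.z = R.z := by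
  have := mv_inv_mv R.N R.z
  rwa [R.hNz] at this

theorem Ninv (c : Fin (m + 1) ⊕ Fin (m + 1)) :
    ∃ ν : F, ν ≠ 0 ∧ mv R.N⁻¹ (R.bv (sg c)) = ν • R.bv c := by
  obtain ⟨ν, hν, h⟩ := R.hN c
  refine ⟨ν⁻¹, inv_ne_zero hν, ?_⟩
  have : R.bv (sg c) = mv R.N (ν⁻¹ • R.bv c) := by
    rw [mv_smul, h, smul_smul, inv_mul_cancel₀ hν, one_smul]
  rw [this, mv_inv_mv]

theorem pull (H : Subgroup ↥(Cfsg.SU n F q)) (hNH : R.N ∈ H) (c : Fin (m + 1) ⊕ Fin (m + 1))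
    {d' : Fin n → F} {c' : F} (O : Ok D (R.bv (sg c)) d' c') :
    ∃ ν : F, ν ≠ 0 ∧ Ok D (R.bv c) (D.φ ν • mv R.N⁻¹ d') (ν * D.φ ν * c') ∧
      (E D (R.bv c) (D.φ ν • mv R.N⁻¹ d') (ν * D.φ ν * c') ∈ H → E D (R.bv (sg c)) d' c' ∈ H) := by
  obtain ⟨ν, hν, h⟩ := R.Ninv c
  obtain ⟨O2, e2⟩ := conjX D O R.N⁻¹ hν h
  refine ⟨ν, hν, O2, fun hm => ?_⟩
  have e3 : E D (R.bv (sg c)) d' c' =
      R.N * (R.N⁻¹ * E D (R.bv (sg c)) d' c' * R.N⁻¹⁻¹) * R.N⁻¹ := by group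
  rw [e3, e2]
  exact H.mul_mem (H.mul_mem hNH hm) (H.inv_mem hNH)

theorem diag_comm (g g' : ↥(Cfsg.SU n F q)) (hg : ∀ c, ∃ δ : F, mv g (R.bv c) = δ • R.bv c)
    (hgz : ∃ ζ : F, mv g R.z = ζ • R.z) (hg' : ∀ c, ∃ δ : F, mv g' (R.bv c) = δ • R.bv c)
    (hg'z : ∃ ζ : F, mv g' R.z = ζ • R.z) : g * g' = g' * g := by
  apply su_ext
  intro x
  obtain ⟨γ, γz, hx⟩ : ∃ (γ : Fin (m + 1) ⊕ Fin (m + 1) → F) (γz : F),
      x = ∑ c, γ c • R.bv c + γz • R.z := ⟨_, _, R.compl x⟩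
  subst hx
  simp only [mv_mul, mv_add, mv_sum, mv_smul]
  congr 1
  · apply Finset.sum_congr rfl
    intro c _
    obtain ⟨δ, hδ⟩ := hg c
    obtain ⟨δ', hδ'⟩ := hg' c
    rw [hδ', hδ, mv_smul, mv_smul, hδ, hδ', smul_comm δ δ']
  · obtain ⟨ζ, hζ⟩ := hgz
    obtain ⟨ζ', hζ'⟩ := hg'z
    rw [hζ', hζ, mv_smul, mv_smul, hζ, hζ', smul_comm ζ ζ']

theorem diag_conj (a : ↥(Cfsg.SU n F q)) (hd : ∀ c, ∃ δ : F, mv a (R.bv c) = δ • R.bv c) :
    ∀ c, ∃ δ : F, mv (R.N * a * R.N⁻¹) (R.bv c) = δ • R.bv c := by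
  intro c
  obtain ⟨c', rfl⟩ := sg_surj c
  obtain ⟨ν, hν, hNc⟩ := R.hN c'
  obtain ⟨δ, hδ⟩ := hd c'
  exact ⟨δ, conj_act _ _ hν hNc hδ⟩

theorem XE (H : Subgroup ↥(Cfsg.SU n F q)) (c₁ : Fin (m + 1) ⊕ Fin (m + 1))
    (ha : ∀ κ, κ + D.φ κ = 0 → T D (R.bv c₁) κ ∈ H)
    (hb : ∀ c, c ≠ c₁ → c ≠ c₁.swap → ∀ t : F, E D (R.bv c₁) (t • R.bv c) 0 ∈ H)
    (hc : ∀ t : F, ∃ κ, Ok D (R.bv c₁) (t • R.z) κ ∧ E D (R.bv c₁) (t • R.z) κ ∈ H) :
    ∀ d κ, Ok D (R.bv c₁) d κ → E D (R.bv c₁) d κ ∈ H := by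
  intro d κ HO
  have hee : D.h (R.bv c₁) (R.bv c₁) = 0 := R.hself c₁
  have Q0 : ∃ κ, Ok D (R.bv c₁) 0 κ ∧ E D (R.bv c₁) 0 κ ∈ H :=
    ⟨0, Ok_zero D hee, by rw [E_zero D hee]; exact H.one_mem⟩
  have Qadd : ∀ d d' : Fin n → F, (∃ κ, Ok D (R.bv c₁) d κ ∧ E D (R.bv c₁) d κ ∈ H) →
      (∃ κ, Ok D (R.bv c₁) d' κ ∧ E D (R.bv c₁) d' κ ∈ H) →
      ∃ κ, Ok D (R.bv c₁) (d + d') κ ∧ E D (R.bv c₁) (d + d') κ ∈ H := by
    rintro d d' ⟨κ, O, hm⟩ ⟨κ', O', hm'⟩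
    exact ⟨_, Ok_mul D O O', by rw [← E_mul D O O']; exact H.mul_mem hm hm'⟩
  have Qc : ∀ c, ∃ κ, Ok D (R.bv c₁) (D.h d (R.bv c.swap) • R.bv c) κ ∧
      E D (R.bv c₁) (D.h d (R.bv c.swap) • R.bv c) κ ∈ H := by
    intro c
    by_cases h1 : c = c₁
    · rw [h1]
      refine ⟨0, ⟨hee, by rw [D.h_smul_left, hee, mul_zero], by
        rw [D.h_smul_left, D.h_smul_right, hee]; simp⟩, ?_⟩
      rw [E_self D hee]
      exact ha _ (by rw [map_sub, D.inv]; ring)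
    by_cases h2 : c = c₁.swap
    · have : D.h d (R.bv c.swap) = 0 := by rw [h2, Sum.swap_swap]; exact HO.2.1
      rw [this, zero_smul]; exact Q0
    · refine ⟨0, ⟨hee, ?_, ?_⟩, hb c h1 h2 _⟩
      · rw [D.h_smul_left, R.hperp, mul_zero]
        intro h; apply h2; rw [h, Sum.swap_swap]
      · rw [D.h_smul_left, D.h_smul_right, R.hself]; simp
  have Qsum : ∃ κ, Ok D (R.bv c₁) (∑ c, D.h d (R.bv c.swap) • R.bv c) κ ∧
      E D (R.bv c₁) (∑ c, D.h d (R.bv c.swap) • R.bv c) κ ∈ H := by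
    apply Finset.sum_induction _ (fun d => ∃ κ, Ok D (R.bv c₁) d κ ∧ E D (R.bv c₁) d κ ∈ H) Qadd Q0
    intro c _; exact Qc c
  obtain ⟨κ₀, O₀, hm₀⟩ := Qadd _ _ Qsum (hc (D.h d R.z))
  rw [← R.compl d] at O₀ hm₀
  obtain ⟨hk, e1⟩ := E_change D O₀ HO
  rw [e1]
  exact H.mul_mem hm₀ (ha _ hk)

/-- the orbit step for the transvection groups -/
theorem T_step (H : Subgroup ↥(Cfsg.SU n F q)) (hNH : R.N ∈ H) (c : Fin (m + 1) ⊕ Fin (m + 1))
    (h1 : ∀ κ, κ + D.φ κ = 0 → T D (R.bv c) κ ∈ H) :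
    ∀ κ, κ + D.φ κ = 0 → T D (R.bv (sg c)) κ ∈ H := by
  intro κ hκ
  obtain ⟨ν, hν, O2, himp⟩ := R.pull H hNH c (Ok_T D (R.hself (sg c)) hκ)
  apply himp
  rw [mv_zero, smul_zero] at O2 ⊢
  have hk : ν * D.φ ν * κ + D.φ (ν * D.φ ν * κ) = 0 := by
    have := O2.2.2
    rwa [D.h_zero_left, add_zero] at this
  exact h1 _ hk

end Fr

end frame
section mains
variable {F : Type*} [Field F] {q n : ℕ}
open Cfsg.Agent.S2413 (sg orbit_all fin_down)
namespace Fr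
variable {D : QD F q}

theorem main_odd {m : ℕ} (R : Fr D n m) [Fintype F] (hF : Fintype.card F = q ^ 2) (hn : 3 ≤ n)
    (h32 : ¬ (n = 3 ∧ q = 2))
    (hzz : D.h R.z R.z = 1) (a : ↥(Cfsg.SU n F q)) (hd : ∀ c, ∃ δ : F, mv a (R.bv c) = δ • R.bv c)
    {α ζ α' : F} (hae : mv a (R.bv (Sum.inl 0)) = α • R.bv (Sum.inl 0)) (haz : mv a R.z = ζ • R.z)
    (c₀ : Fin (m + 1) ⊕ Fin (m + 1)) (hc₀ : sg c₀ = Sum.inl 0) (hac₀ : mv a (R.bv c₀) = α' • R.bv c₀)
    (hm0 : D.φ α * ζ ≠ 0) (hmp : ∀ i : ℕ, 0 < i → i < q → (D.φ α * ζ) ^ i ≠ 1)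
    (hl : D.φ α' * ζ ≠ 1) (hq : 1 < q) :
    ∃ b : ↥(Cfsg.SU n F q), Subgroup.closure {a, b} = ⊤ := by
  obtain ⟨e, he⟩ : ∃ e : Fin n → F, e = R.bv (Sum.inl 0) := ⟨_, rfl⟩
  rw [← he] at hae
  obtain ⟨κ₁, hκ₁⟩ := D.exists_c R.z
  have HO : Ok D e R.z κ₁ := ⟨by rw [he]; exact R.hself _, by rw [he]; exact R.hzb _, hκ₁⟩
  refine ⟨E D e R.z κ₁ * R.N, ?_⟩
  obtain ⟨H, hH⟩ : ∃ H : Subgroup ↥(Cfsg.SU n F q),
      H = Subgroup.closure {a, E D e R.z κ₁ * R.N} := ⟨_, rfl⟩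
  rw [← hH]
  have haH : a ∈ H := by rw [hH]; exact Subgroup.subset_closure (by simp)
  have hbH : E D e R.z κ₁ * R.N ∈ H := by rw [hH]; exact Subgroup.subset_closure (by simp)
  obtain ⟨a', ha'⟩ : ∃ a' : ↥(Cfsg.SU n F q), a' = R.N * a * R.N⁻¹ := ⟨_, rfl⟩
  have hd' : ∀ c, ∃ δ : F, mv a' (R.bv c) = δ • R.bv c := by rw [ha']; exact R.diag_conj a hd
  have ha'z : mv a' R.z = ζ • R.z := by
    rw [ha']
    exact conj_act _ _ one_ne_zero (by rw [one_smul]; exact R.hNz) haz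
  have ha'e : mv a' e = α' • e := by
    obtain ⟨ν, hν, hNc⟩ := R.hN c₀
    rw [hc₀] at hNc
    rw [ha', he]
    exact conj_act _ _ hν hNc hac₀
  have hcomm : a * a' = a' * a := R.diag_comm a a' hd ⟨ζ, haz⟩ hd' ⟨ζ, ha'z⟩
  have hb2 : E D e R.z κ₁ * a' * (E D e R.z κ₁)⁻¹ ∈ H := by
    have e1 : E D e R.z κ₁ * a' * (E D e R.z κ₁)⁻¹ =
        (E D e R.z κ₁ * R.N) * a * (E D e R.z κ₁ * R.N)⁻¹ := by
      rw [ha']; group
    rw [e1]; exact H.mul_mem (H.mul_mem hbH haH) (H.inv_mem hbH)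
  have hα : α ≠ 0 := by
    intro h; apply hm0; rw [h, map_zero, zero_mul]
  have hα' : α' ≠ 0 := by
    intro h
    rw [h, zero_smul] at hac₀
    exact R.bv_ne c₀ (mv_eq_zero hac₀)
  have hz0 : D.h R.z R.z = 0 → κ₁ = 0 := by
    intro h; rw [hzz] at h; exact absurd h one_ne_zero
  have hS := L1 D hF H a a' hα hα' hae haz ha'e ha'z hcomm HO hz0 haH hb2 hm0 hmp hl hq
  obtain ⟨s, hs⟩ := D.exists_tr_one
  have hTe : ∀ κ, κ + D.φ κ = 0 → T D e κ ∈ H := by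
    intro κ hκ
    obtain ⟨c, O, -, hm⟩ := hS (κ * s)
    obtain ⟨c', O', -, hm'⟩ := hS 1
    have e1 := E_mul D O O'
    have e2 := E_mul D O' O
    have O3 := Ok_mul D O' O
    have hk : D.h ((κ * s) • R.z) ((1 : F) • R.z) - D.h ((1 : F) • R.z) ((κ * s) • R.z) = κ := by
      simp only [D.h_smul_left, D.h_smul_right, hzz, map_one, map_mul]
      linear_combination κ * hs - D.φ s * hκ
    have e3 : E D e ((κ * s) • R.z) c * E D e ((1 : F) • R.z) c' =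
        E D e ((1 : F) • R.z) c' * E D e ((κ * s) • R.z) c * T D e κ := by
      rw [e1, e2, E_mul_T D O3 hκ, add_comm ((1 : F) • R.z) ((κ * s) • R.z)]
      have e4 : c + c' - D.h ((1 : F) • R.z) ((κ * s) • R.z) =
          c' + c - D.h ((κ * s) • R.z) ((1 : F) • R.z) + κ := by
        linear_combination hk
      rw [e4]
    have e5 : T D e κ = (E D e ((1 : F) • R.z) c' * E D e ((κ * s) • R.z) c)⁻¹ *
        (E D e ((κ * s) • R.z) c * E D e ((1 : F) • R.z) c') := by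
      rw [e3]; group
    rw [e5]
    exact H.mul_mem (H.inv_mem (H.mul_mem hm' hm)) (H.mul_mem hm hm')
  have hXz : ∀ (τ : F) (c : F), Ok D e (τ • R.z) c → E D e (τ • R.z) c ∈ H := by
    intro τ c O
    obtain ⟨c₀', O₀, -, hm₀⟩ := hS τ
    obtain ⟨hk, e1⟩ := E_change D O₀ O
    rw [e1]; exact H.mul_mem hm₀ (hTe _ hk)
  have hx₀ : E D e R.z κ₁ ∈ H := by
    have := hXz 1 κ₁ (by rwa [one_smul])
    rwa [one_smul] at this
  have hNH : R.N ∈ H := by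
    have e1 : R.N = (E D e R.z κ₁)⁻¹ * (E D e R.z κ₁ * R.N) := by group
    rw [e1]; exact H.mul_mem (H.inv_mem hx₀) hbH
  have hall : ∀ c, (∀ κ, κ + D.φ κ = 0 → T D (R.bv c) κ ∈ H) ∧
      (∀ (τ : F) (c' : F), Ok D (R.bv c) (τ • R.z) c' → E D (R.bv c) (τ • R.z) c' ∈ H) := by
    refine orbit_all (fun c => (∀ κ, κ + D.φ κ = 0 → T D (R.bv c) κ ∈ H) ∧
      (∀ (τ : F) (c' : F), Ok D (R.bv c) (τ • R.z) c' → E D (R.bv c) (τ • R.z) c' ∈ H)) ?_ ?_
    · rw [← he]; exact ⟨hTe, hXz⟩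
    · rintro c ⟨h1, h2⟩
      refine ⟨R.T_step H hNH c h1, ?_⟩
      intro τ c' O
      obtain ⟨ν, hν, O2, himp⟩ := R.pull H hNH c O
      apply himp
      have e1 : D.φ ν • mv R.N⁻¹ (τ • R.z) = (D.φ ν * τ) • R.z := by
        rw [mv_smul, R.hNinvz, smul_smul]
      rw [e1] at O2 ⊢
      exact h2 _ _ O2
  have hκ₁' : κ₁ + D.φ κ₁ + 1 = 0 := by rw [← hzz]; exact hκ₁
  have hb : ∀ c₁ c, c ≠ c₁ → c ≠ c₁.swap → ∀ t : F, E D (R.bv c₁) (t • R.bv c) 0 ∈ H := by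
    intro c₁ c hc1 hc2 t
    obtain ⟨s', hs'⟩ : ∃ s' : F, s' = D.φ (-t) := ⟨_, rfl⟩
    obtain ⟨κ', hκ'⟩ := D.exists_c (s' • R.z)
    have Og : Ok D (R.bv c) (s' • R.z) κ' :=
      ⟨R.hself c, by rw [D.h_smul_left, R.hzb, mul_zero], hκ'⟩
    have hg : E D (R.bv c) (s' • R.z) κ' ∈ H := (hall c).2 s' κ' Og
    have Ox : Ok D (R.bv c₁) R.z κ₁ := ⟨R.hself c₁, R.hzb c₁, hκ₁⟩
    have hx : E D (R.bv c₁) R.z κ₁ ∈ H := by
      have := (hall c₁).2 1 κ₁ (by rwa [one_smul])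
      rwa [one_smul] at this
    have hce : D.h (R.bv c₁) (R.bv c) = 0 := R.hperp hc2
    have e1 : mv (E D (R.bv c) (s' • R.z) κ') (R.bv c₁) = R.bv c₁ := by
      rw [mv_E_perp D Og hce, D.h_smul_right, R.hbz, mul_zero, zero_smul, sub_zero]
    have e2 : mv (E D (R.bv c) (s' • R.z) κ') R.z = R.z - D.φ s' • R.bv c := by
      rw [mv_E_perp D Og (R.hzb c), D.h_smul_right, hzz, mul_one]
    have e3 := E_conj D Ox (E D (R.bv c) (s' • R.z) κ')
    have O3 := Ok_conj D Ox (E D (R.bv c) (s' • R.z) κ')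
    rw [e1, e2] at e3 O3
    have e4 := E_mul D (Ok_inv D Ox) O3
    rw [← E_inv D Ox] at e4
    have e5 : -R.z + (R.z - D.φ s' • R.bv c) = t • R.bv c := by
      rw [hs', D.inv]; module
    have e6 : D.φ κ₁ + κ₁ - D.h (R.z - D.φ s' • R.bv c) (-R.z) = 0 := by
      rw [D.h_neg_right, D.h_sub_left, D.h_smul_left, hzz, R.hbz, mul_zero]
      linear_combination hκ₁'
    rw [e5, e6] at e4
    rw [← e4, ← e3]
    exact H.mul_mem (H.inv_mem hx) (H.mul_mem (H.mul_mem hg hx) (H.inv_mem hg))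
  have hfull : ∀ c₁ d κ, Ok D (R.bv c₁) d κ → E D (R.bv c₁) d κ ∈ H := by
    intro c₁
    apply R.XE H c₁ (hall c₁).1 (hb c₁)
    intro t
    obtain ⟨κ, hκ⟩ := D.exists_c (t • R.z)
    have O : Ok D (R.bv c₁) (t • R.z) κ :=
      ⟨R.hself c₁, by rw [D.h_smul_left, R.hzb, mul_zero], hκ⟩
    exact ⟨κ, O, (hall c₁).2 t κ O⟩
  exact thmG D hF hn h32 H (R.hself (Sum.inl 0)) (R.hself (Sum.inr 0)) (by rw [R.hbb]; simp)
    (hfull _) (hfull _)

end Fr
end mains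
section mains2
variable {F : Type*} [Field F] {q n : ℕ}
open Cfsg.Agent.S2413 (sg orbit_all fin_down)
namespace Fr
variable {D : QD F q}

theorem main_even {m : ℕ} (R : Fr D n (m + 1)) [Fintype F] (hF : Fintype.card F = q ^ 2) (hn : 3 ≤ n)
    (h32 : ¬ (n = 3 ∧ q = 2))
    (hz : R.z = 0) (a : ↥(Cfsg.SU n F q)) (hd : ∀ c, ∃ δ : F, mv a (R.bv c) = δ • R.bv c)
    {α ζ α' ζ' : F} (hae : mv a (R.bv (Sum.inr 0)) = α • R.bv (Sum.inr 0))
    (had : mv a (R.bv (Sum.inl ⟨1, by omega⟩)) = ζ • R.bv (Sum.inl ⟨1, by omega⟩))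
    (c₀ c₁ : Fin (m + 1 + 1) ⊕ Fin (m + 1 + 1)) (hc₀ : sg c₀ = Sum.inr 0)
    (hac₀ : mv a (R.bv c₀) = α' • R.bv c₀)
    (hc₁ : sg c₁ = Sum.inl ⟨1, by omega⟩) (hac₁ : mv a (R.bv c₁) = ζ' • R.bv c₁)
    (hm0 : D.φ α * ζ ≠ 0) (hmp : ∀ i : ℕ, 0 < i → i < q → (D.φ α * ζ) ^ i ≠ 1)
    (hl : D.φ α' * ζ' ≠ 1) (hq : 1 < q) :
    ∃ b : ↥(Cfsg.SU n F q), Subgroup.closure {a, b} = ⊤ := by
  obtain ⟨e, he⟩ : ∃ e : Fin n → F, e = R.bv (Sum.inr 0) := ⟨_, rfl⟩
  obtain ⟨d₀, hd₀⟩ : ∃ d₀ : Fin n → F, d₀ = R.bv (Sum.inl ⟨1, by omega⟩) := ⟨_, rfl⟩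
  rw [← he] at hae
  rw [← hd₀] at had
  have h10 : (⟨1, by omega⟩ : Fin (m + 1 + 1)) ≠ 0 := by
    intro h; simp [Fin.ext_iff] at h
  have hd₀e : D.h d₀ e = 0 := by
    rw [hd₀, he]; apply R.hperp
    intro h
    simp only [Sum.swap_inl, Sum.inr.injEq] at h
    exact h10 h.symm
  have hd₀d₀ : D.h d₀ d₀ = 0 := by rw [hd₀]; exact R.hself _
  have HO : Ok D e d₀ 0 := ⟨by rw [he]; exact R.hself _, hd₀e, by rw [hd₀d₀]; simp⟩
  refine ⟨E D e d₀ 0 * R.N, ?_⟩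
  obtain ⟨H, hH⟩ : ∃ H : Subgroup ↥(Cfsg.SU n F q),
      H = Subgroup.closure {a, E D e d₀ 0 * R.N} := ⟨_, rfl⟩
  rw [← hH]
  have haH : a ∈ H := by rw [hH]; exact Subgroup.subset_closure (by simp)
  have hbH : E D e d₀ 0 * R.N ∈ H := by rw [hH]; exact Subgroup.subset_closure (by simp)
  obtain ⟨a', ha'⟩ : ∃ a' : ↥(Cfsg.SU n F q), a' = R.N * a * R.N⁻¹ := ⟨_, rfl⟩
  have hd' : ∀ c, ∃ δ : F, mv a' (R.bv c) = δ • R.bv c := by rw [ha']; exact R.diag_conj a hd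
  have ha'e : mv a' e = α' • e := by
    obtain ⟨ν, hν, hNc⟩ := R.hN c₀
    rw [hc₀] at hNc
    rw [ha', he]
    exact conj_act _ _ hν hNc hac₀
  have ha'd : mv a' d₀ = ζ' • d₀ := by
    obtain ⟨ν, hν, hNc⟩ := R.hN c₁
    rw [hc₁] at hNc
    rw [ha', hd₀]
    exact conj_act _ _ hν hNc hac₁
  have hcomm : a * a' = a' * a :=
    R.diag_comm a a' hd ⟨0, by rw [hz, mv_zero, smul_zero]⟩ hd'
      ⟨0, by rw [hz, mv_zero, smul_zero]⟩
  have hb2 : E D e d₀ 0 * a' * (E D e d₀ 0)⁻¹ ∈ H := by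
    have e1 : E D e d₀ 0 * a' * (E D e d₀ 0)⁻¹ =
        (E D e d₀ 0 * R.N) * a * (E D e d₀ 0 * R.N)⁻¹ := by
      rw [ha']; group
    rw [e1]; exact H.mul_mem (H.mul_mem hbH haH) (H.inv_mem hbH)
  have hα : α ≠ 0 := by
    intro h; apply hm0; rw [h, map_zero, zero_mul]
  have hα' : α' ≠ 0 := by
    intro h
    rw [h, zero_smul] at hac₀
    exact R.bv_ne c₀ (mv_eq_zero hac₀)
  have hS := L1 D hF H a a' hα hα' hae had ha'e ha'd hcomm HO (fun _ => rfl) haH hb2 hm0 hmp hl hq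
  have hX : ∀ τ : F, E D e (τ • d₀) 0 ∈ H := by
    intro τ
    obtain ⟨c, O, hc0, hm'⟩ := hS τ
    rw [hc0 hd₀d₀] at hm'; exact hm'
  have hx₀ : E D e d₀ 0 ∈ H := by
    have := hX 1
    rwa [one_smul] at this
  have hNH : R.N ∈ H := by
    have e1 : R.N = (E D e d₀ 0)⁻¹ * (E D e d₀ 0 * R.N) := by group
    rw [e1]; exact H.mul_mem (H.inv_mem hx₀) hbH
  obtain ⟨Φ, hΦ⟩ : ∃ Φ : Fin (m + 1 + 1) ⊕ Fin (m + 1 + 1) → Fin (m + 1 + 1) ⊕ Fin (m + 1 + 1) → Prop,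
      Φ = fun c₁ c₂ => ∀ τ : F, E D (R.bv c₁) (τ • R.bv c₂) 0 ∈ H := ⟨_, rfl⟩
  have Φ0 : Φ (Sum.inr 0) (Sum.inl ⟨1, by omega⟩) := by
    rw [hΦ]; intro τ; rw [← he, ← hd₀]; exact hX τ
  have Φstep : ∀ c₁ c₂, Φ c₁ c₂ → Φ (sg c₁) (sg c₂) := by
    intro c₁ c₂ h
    rw [hΦ] at h ⊢
    intro τ
    by_cases O : Ok D (R.bv (sg c₁)) (τ • R.bv (sg c₂)) 0
    · obtain ⟨ν, hν, O2, himp⟩ := R.pull H hNH c₁ O
      apply himp
      obtain ⟨ν₂, hν₂, hN2⟩ := R.Ninv c₂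
      have e1 : D.φ ν • mv R.N⁻¹ (τ • R.bv (sg c₂)) = (D.φ ν * τ * ν₂) • R.bv c₂ := by
        rw [mv_smul, hN2, smul_smul, smul_smul]
      rw [e1, mul_zero]
      exact h _
    · unfold E; rw [dif_neg O]; exact H.one_mem
  have Φsym : ∀ c₁ c₂, c₂ ≠ c₁.swap → Φ c₁ c₂ → Φ c₂ c₁ := by
    intro c₁ c₂ hne h
    rw [hΦ] at h ⊢
    intro τ
    have huv : D.h (R.bv c₂) (R.bv c₁) = 0 := by
      apply R.hperp; intro h'; apply hne; rw [h', Sum.swap_swap]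
    rw [E_swap D (R.hself c₂) (R.hself c₁) huv τ]
    exact h _
  have CR : ∀ c₁ c b, c ≠ c₁ → c ≠ c₁.swap → b ≠ c.swap → b ≠ c₁.swap → b ≠ c → Φ c₁ c →
      Φ c.swap b → ∀ s : F, E D (R.bv c₁) (s • R.bv b) 0 ∈ H := by
    intro c₁ c b n1 n2 n3 n4 n5 h1 h2 s
    rw [hΦ] at h1 h2
    have hg := h2 s
    have hx := h1 1
    have p0 : D.h (R.bv b) (R.bv c.swap) = 0 := by
      apply R.hperp; intro h'; apply n5
      have := congrArg Sum.swap h'
      rw [Sum.swap_swap, Sum.swap_swap] at this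
      exact this.symm
    have p1 : D.h (R.bv c₁) (R.bv c.swap) = 0 := by
      apply R.hperp; intro h'; apply n1
      have := congrArg Sum.swap h'
      rwa [Sum.swap_swap, Sum.swap_swap] at this
    have p2 : D.h (R.bv b) (R.bv c) = 0 := by
      apply R.hperp; intro h'; apply n3; rw [h', Sum.swap_swap]
    have p3 : D.h (R.bv c) (R.bv c₁) = 0 := by
      apply R.hperp; intro h'; apply n2; rw [h', Sum.swap_swap]
    have Og : Ok D (R.bv c.swap) (s • R.bv b) 0 := by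
      refine ⟨R.hself _, ?_, ?_⟩
      · rw [D.h_smul_left, p0, mul_zero]
      · rw [D.h_smul_left, D.h_smul_right, R.hself]; simp
    have Ox : Ok D (R.bv c₁) ((1 : F) • R.bv c) 0 := by
      refine ⟨R.hself _, ?_, ?_⟩
      · rw [D.h_smul_left, p3, mul_zero]
      · rw [D.h_smul_left, D.h_smul_right, R.hself]; simp
    have e1 : mv (E D (R.bv c.swap) (s • R.bv b) 0) (R.bv c₁) = R.bv c₁ := by
      rw [mv_E_perp D Og p1, D.h_smul_right, R.hperp n4, mul_zero, zero_smul, sub_zero]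
    have e2 : mv (E D (R.bv c.swap) (s • R.bv b) 0) (R.bv c) = R.bv c + s • R.bv b := by
      rw [mv_E_f D Og (R.hpair c), D.h_smul_right, R.hperp n3, mul_zero, sub_zero, zero_smul,
        add_zero]
    have e3 := E_conj D Ox (E D (R.bv c.swap) (s • R.bv b) 0)
    have O3 := Ok_conj D Ox (E D (R.bv c.swap) (s • R.bv b) 0)
    rw [e1, mv_smul, e2] at e3 O3
    have e4 := E_mul D (Ok_inv D Ox) O3
    rw [← E_inv D Ox] at e4
    have e5 : -((1 : F) • R.bv c) + (1 : F) • (R.bv c + s • R.bv b) = s • R.bv b := by module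
    have e6 : D.φ 0 + 0 - D.h ((1 : F) • (R.bv c + s • R.bv b)) (-((1 : F) • R.bv c)) = 0 := by
      simp only [map_zero, D.h_neg_right, D.h_smul_left, D.h_smul_right, D.h_add_left, R.hself, p2]
      simp
    rw [e5, e6] at e4
    rw [← e4, ← e3]
    exact H.mul_mem (H.inv_mem hx) (H.mul_mem (H.mul_mem hg hx) (H.inv_mem hg))
  -- the orbit of the starting pair
  have hA : Φ (Sum.inl ⟨m + 1, by omega⟩) (Sum.inl ⟨0, by omega⟩) := by
    have h1 := Φstep _ _ Φ0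
    have e1 : sg (Sum.inr (0 : Fin (m + 1 + 1))) = Sum.inl ⟨m + 1, by omega⟩ := sg_inr_zero
    have e2 : sg (Sum.inl (⟨1, by omega⟩ : Fin (m + 1 + 1))) = Sum.inl ⟨0, by omega⟩ :=
      sg_inl_succ 0 (by omega)
    rw [e1, e2] at h1
    exact h1
  have hB : Φ (Sum.inl ⟨m, by omega⟩) (Sum.inr ⟨m + 1, by omega⟩) := by
    have h1 := Φstep _ _ hA
    have e1 : sg (Sum.inl (⟨m + 1, by omega⟩ : Fin (m + 1 + 1))) = Sum.inl ⟨m, by omega⟩ :=
      sg_inl_succ m (by omega)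
    have e2 : sg (Sum.inl (⟨0, by omega⟩ : Fin (m + 1 + 1))) = Sum.inr ⟨m + 1, by omega⟩ :=
      sg_inl_zero
    rw [e1, e2] at h1
    exact h1
  have hC : ∀ k j, j + k = m → ∀ (h1 : j < m + 1 + 1) (h2 : j + 1 < m + 1 + 1),
      Φ (Sum.inl ⟨j, h1⟩) (Sum.inr ⟨j + 1, h2⟩) := by
    intro k
    induction k with
    | zero =>
      intro j hj h1 h2
      obtain rfl : m = j := by omega
      exact hB
    | succ k ih =>
      intro j hj h1 h2
      have h3 := Φstep _ _ (ih (j + 1) (by omega) (by omega) (by omega))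
      rw [sg_inl_succ j (by omega), sg_inr_succ (j + 1) (by omega)] at h3
      exact h3
  have hC' : ∀ j (h1 : j < m + 1 + 1) (h2 : j + 1 < m + 1 + 1),
      Φ (Sum.inl ⟨j, h1⟩) (Sum.inr ⟨j + 1, h2⟩) := fun j h1 h2 => hC (m - j) j (by omega) h1 h2
  have hD1 : ∀ j, 1 ≤ j → ∀ hj : j < m + 1 + 1, Φ (Sum.inl 0) (Sum.inr ⟨j, hj⟩) := by
    intro j
    induction j with
    | zero => intro h; omega
    | succ j ih =>
      intro _ hj
      by_cases hj0 : j = 0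
      · subst hj0
        exact hC' 0 (by omega) (by omega)
      · have ih' := ih (by omega) (by omega)
        rw [hΦ]
        have hj0' : (⟨j, by omega⟩ : Fin (m + 1 + 1)) ≠ 0 := by
          intro h; simp [Fin.ext_iff] at h; exact hj0 h
        refine CR (Sum.inl 0) (Sum.inr ⟨j, by omega⟩) (Sum.inr ⟨j + 1, hj⟩) (by simp) ?_ (by simp)
          ?_ ?_ ih' (hC' j (by omega) (by omega))
        · intro h; simp only [Sum.swap_inl, Sum.inr.injEq] at h; exact hj0' h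
        · intro h; simp [Fin.ext_iff] at h
        · intro h; simp [Fin.ext_iff] at h
  have hD2 : ∀ k j, 1 ≤ j → j + k = m + 1 → ∀ hj : j < m + 1 + 1,
      Φ (Sum.inl 0) (Sum.inl ⟨j, hj⟩) := by
    intro k
    induction k with
    | zero =>
      intro j hj1 hj hj'
      obtain rfl : m + 1 = j := by omega
      exact Φsym _ _ (by simp) hA
    | succ k ih =>
      intro j hj1 hj hj'
      have ih' := ih (j + 1) (by omega) (by omega) (by omega)
      rw [hΦ]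
      refine CR (Sum.inl 0) (Sum.inl ⟨j + 1, by omega⟩) (Sum.inl ⟨j, hj'⟩) ?_ (by simp) (by simp)
        (by simp) ?_ ih' (Φsym _ _ ?_ (hC' j (by omega) (by omega)))
      · intro h; simp [Fin.ext_iff] at h
      · intro h; simp [Fin.ext_iff] at h
      · intro h; simp [Fin.ext_iff] at h
  obtain ⟨s₀, hs₀⟩ := D.exists_tr_one
  have hT0 : ∀ κ, κ + D.φ κ = 0 → T D (R.bv (Sum.inl 0)) κ ∈ H := by
    intro κ hκ
    have h1 := CR (Sum.inl 0) (Sum.inr ⟨1, by omega⟩) (Sum.inl 0) (by simp) ?_ ?_ (by simp) (by simp)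
      (hD1 1 (by omega) (by omega)) (Φsym _ _ (by simp) (hD2 m 1 (by omega) (by omega) (by omega)))
      (κ * s₀)
    · rw [E_self D (R.hself _)] at h1
      have e1 : κ * s₀ - D.φ (κ * s₀) = κ := by
        rw [map_mul]; linear_combination κ * hs₀ - D.φ s₀ * hκ
      rw [e1] at h1
      exact h1
    · intro h; simp only [Sum.swap_inl, Sum.inr.injEq] at h; exact h10 h
    · intro h; simp only [Sum.swap_inr, Sum.inl.injEq] at h; exact h10 h.symm
  have hall : ∀ c, (∀ κ, κ + D.φ κ = 0 → T D (R.bv c) κ ∈ H) ∧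
      (∀ c', c' ≠ c → c' ≠ c.swap → ∀ τ : F, E D (R.bv c) (τ • R.bv c') 0 ∈ H) := by
    refine orbit_all (fun c => (∀ κ, κ + D.φ κ = 0 → T D (R.bv c) κ ∈ H) ∧
      (∀ c', c' ≠ c → c' ≠ c.swap → ∀ τ : F, E D (R.bv c) (τ • R.bv c') 0 ∈ H)) ?_ ?_
    · refine ⟨hT0, ?_⟩
      rintro (⟨j, hj⟩ | ⟨j, hj⟩) n1 n2
      · have hj0 : j ≠ 0 := by
          intro h; apply n1; subst h; rfl
        have := hD2 (m + 1 - j) j (by omega) (by omega) hj
        rw [hΦ] at this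
        exact this
      · have hj0 : j ≠ 0 := by
          intro h; apply n2; subst h; rfl
        have := hD1 j (by omega) hj
        rw [hΦ] at this
        exact this
    · rintro c ⟨h1, h2⟩
      refine ⟨R.T_step H hNH c h1, ?_⟩
      intro c' n1 n2 τ
      obtain ⟨c'', rfl⟩ := sg_surj c'
      have n1' : c'' ≠ c := fun h => n1 (by rw [h])
      have n2' : c'' ≠ c.swap := fun h => n2 (by rw [h, sg_swap])
      by_cases O : Ok D (R.bv (sg c)) (τ • R.bv (sg c'')) 0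
      · obtain ⟨ν, hν, O2, himp⟩ := R.pull H hNH c O
        apply himp
        obtain ⟨ν₂, hν₂, hN2⟩ := R.Ninv c''
        have e1 : D.φ ν • mv R.N⁻¹ (τ • R.bv (sg c'')) = (D.φ ν * τ * ν₂) • R.bv c'' := by
          rw [mv_smul, hN2, smul_smul, smul_smul]
        rw [e1, mul_zero]
        exact h2 c'' n1' n2' _
      · unfold E; rw [dif_neg O]; exact H.one_mem
  have hfull : ∀ c₁ d κ, Ok D (R.bv c₁) d κ → E D (R.bv c₁) d κ ∈ H := by
    intro c₁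
    apply R.XE H c₁ (hall c₁).1 (hall c₁).2
    intro t
    refine ⟨0, ?_, ?_⟩
    · rw [hz, smul_zero]; exact Ok_zero D (R.hself c₁)
    · rw [hz, smul_zero, E_zero D (R.hself c₁)]; exact H.one_mem
  exact thmG D hF hn h32 H (R.hself (Sum.inl 0)) (R.hself (Sum.inr 0)) (by rw [R.hbb]; simp)
    (hfull _) (hfull _)

end Fr
end mains2
section concrete
variable {F : Type*} [Field F] {q : ℕ}
open Cfsg.Agent.S2413 (sg orbit_all fin_down)

/-- block vector -/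
def bvec (n : ℕ) (i : ℕ) (α β : F) : Fin n → F :=
  fun a => if a.val = 2 * i then α else if a.val = 2 * i + 1 then β else 0

/-- the anisotropic vector -/
def zvec (F : Type*) [Field F] (n M : ℕ) : Fin n → F := fun a => if a.val = 2 * M then 1 else 0

theorem bvec_even (n i j : ℕ) (α β : F) (h : 2 * j < n) :
    bvec n i α β ⟨2 * j, h⟩ = if j = i then α else 0 := by
  unfold bvec
  simp only [Fin.val_mk]
  split_ifs <;> first | rfl | (exfalso; omega)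

theorem bvec_odd (n i j : ℕ) (α β : F) (h : 2 * j + 1 < n) :
    bvec n i α β ⟨2 * j + 1, h⟩ = if j = i then β else 0 := by
  unfold bvec
  simp only [Fin.val_mk]
  split_ifs <;> first | rfl | (exfalso; omega)

theorem h_bvec (D : QD F q) {n : ℕ} (i : ℕ) (hi : 2 * i + 1 < n) (α β : F) (x : Fin n → F) :
    D.h x (bvec n i α β) = x ⟨2 * i, by omega⟩ * D.φ α + x ⟨2 * i + 1, hi⟩ * D.φ β := by
  rw [D.h_eq]
  rw [Finset.sum_eq_add (⟨2 * i, by omega⟩ : Fin n) ⟨2 * i + 1, hi⟩]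
  · rw [bvec_even, bvec_odd, if_pos rfl, if_pos rfl]
  · intro h; simp [Fin.ext_iff] at h
  · intro c _ hc
    have h1 : c.val ≠ 2 * i := fun h => hc.1 (Fin.ext h)
    have h2 : c.val ≠ 2 * i + 1 := fun h => hc.2 (Fin.ext h)
    simp [bvec, h1, h2]
  · intro h; exact absurd (Finset.mem_univ _) h
  · intro h; exact absurd (Finset.mem_univ _) h

theorem h_bvec2 (D : QD F q) {n : ℕ} (i j : ℕ) (hj : 2 * j + 1 < n) (α β α' β' : F) :
    D.h (bvec n i α β) (bvec n j α' β') = if j = i then α * D.φ α' + β * D.φ β' else 0 := by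
  rw [h_bvec D j hj, bvec_even, bvec_odd]
  split_ifs <;> ring

theorem h_zvec (D : QD F q) {n M : ℕ} (x : Fin n → F) :
    D.h x (zvec F n M) = if h : 2 * M < n then x ⟨2 * M, h⟩ else 0 := by
  by_cases h : 2 * M < n
  · rw [dif_pos h, D.h_eq, Finset.sum_eq_single (⟨2 * M, h⟩ : Fin n)]
    · simp [zvec]
    · intro b _ hb
      have : b.val ≠ 2 * M := fun h' => hb (Fin.ext h')
      simp [zvec, this]
    · intro h'; exact absurd (Finset.mem_univ _) h'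
  · rw [dif_neg h, D.h_eq]
    apply Finset.sum_eq_zero
    intro a _
    have : a.val ≠ 2 * M := by have := a.2; omega
    simp [zvec, this]

/-- the cyclic shift of the first `2M` coordinates -/
def rv (M k : ℕ) : ℕ := if k + 1 < 2 * M then k + 1 else if k + 1 = 2 * M then 0 else k

theorem rv_lt (M : ℕ) {n k : ℕ} (hM : 2 * M ≤ n) (hk : k < n) : rv M k < n := by
  unfold rv; split_ifs <;> omega

theorem rv_inj (M : ℕ) {k k' : ℕ} (h : rv M k = rv M k') : k = k' := by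
  unfold rv at h; split_ifs at h <;> omega

/-- the cyclic shift as a permutation -/
noncomputable def rho (n M : ℕ) (hM : 2 * M ≤ n) : Equiv.Perm (Fin n) :=
  Equiv.ofBijective (fun a => ⟨rv M a.val, rv_lt M hM a.2⟩)
    (Finite.injective_iff_bijective.mp (fun a b h => Fin.ext (rv_inj M (congrArg Fin.val h))))

/-- the block shift -/
noncomputable def pi2 (n M : ℕ) (hM : 2 * M ≤ n) : Equiv.Perm (Fin n) := rho n M hM * rho n M hM

theorem pi2_val (n M : ℕ) (hM : 2 * M ≤ n) (a : Fin n) :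
    (pi2 n M hM a).val = rv M (rv M a.val) := rfl

theorem rv2 (M i i' k : ℕ) (hk : k < 2 * M + 1) (hi : i < M) (hi' : i' < M)
    (h : i' + 1 = i ∨ (i = 0 ∧ i' + 1 = M)) :
    (rv M (rv M k) = 2 * i ↔ k = 2 * i') ∧ (rv M (rv M k) = 2 * i + 1 ↔ k = 2 * i' + 1) := by
  unfold rv
  split_ifs <;> constructor <;> constructor <;> intro _ <;> first | omega | contradiction

theorem rv2_top (M k : ℕ) (hk : k < 2 * M + 1) : rv M (rv M k) = 2 * M ↔ k = 2 * M := by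
  unfold rv
  split_ifs <;> constructor <;> intro _ <;> first | omega | contradiction

/-- the block shift as an element of `SU` -/
noncomputable def Wm (D : QD F q) (n M : ℕ) (hM : 2 * M ≤ n) : ↥(Cfsg.SU n F q) :=
  mkSU D ((pi2 n M hM).permMatrix F)
    (by
      rw [Matrix.det_permutation]; unfold pi2
      rw [Equiv.Perm.sign_mul, Int.units_mul_self]; simp)
    (by
      intro u v
      rw [Matrix.permMatrix_mulVec, Matrix.permMatrix_mulVec, D.h_eq, D.h_eq]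
      exact Equiv.sum_comp (pi2 n M hM) (fun a => u a * D.φ (v a)))

theorem mv_Wm (D : QD F q) (n M : ℕ) (hM : 2 * M ≤ n) (x : Fin n → F) :
    mv (Wm D n M hM) x = x ∘ pi2 n M hM := by
  unfold Wm; rw [mv_mkSU, Matrix.permMatrix_mulVec]

theorem Wm_bvec (D : QD F q) {n M : ℕ} (hM : 2 * M ≤ n) (hn : n ≤ 2 * M + 1) (i i' : ℕ)
    (hi : i < M) (hi' : i' < M)
    (h : i' + 1 = i ∨ (i = 0 ∧ i' + 1 = M)) (α β : F) :
    mv (Wm D n M hM) (bvec n i α β) = bvec n i' α β := by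
  rw [mv_Wm]; funext a
  have hk : a.val < 2 * M + 1 := lt_of_lt_of_le a.2 hn
  obtain ⟨h1, h2⟩ := rv2 M i i' a.val hk hi hi' h
  show bvec n i α β (pi2 n M hM a) = bvec n i' α β a
  unfold bvec
  simp only [pi2_val, h1, h2]

theorem Wm_zvec (D : QD F q) {n M : ℕ} (hM : 2 * M ≤ n) (hn : n ≤ 2 * M + 1) :
    mv (Wm D n M hM) (zvec F n M) = zvec F n M := by
  rw [mv_Wm]; funext a
  have hk : a.val < 2 * M + 1 := lt_of_lt_of_le a.2 hn
  have h1 := rv2_top M a.val hk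
  show zvec F n M (pi2 n M hM a) = zvec F n M a
  unfold zvec
  simp only [pi2_val, h1]

/-- the frame vectors -/
def bvF (n m : ℕ) (η s s' : F) : Fin (m + 1) ⊕ Fin (m + 1) → Fin n → F
  | Sum.inl i => bvec n i.val 1 η
  | Sum.inr i => bvec n i.val s s'

theorem bvF_hbb (D : QD F q) {n m : ℕ} (h1 : 2 * (m + 1) ≤ n) {η s s' : F}
    (r1 : η * D.φ η = -1) (r2 : s + D.φ s = 1) (r3 : s' * D.φ η = D.φ s)
    (c c' : Fin (m + 1) ⊕ Fin (m + 1)) :
    D.h (bvF n m η s s' c) (bvF n m η s s' c') = if c' = c.swap then 1 else 0 := by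
  have r3' : D.φ s' * η = s := by
    have := congrArg D.φ r3
    rwa [map_mul, D.inv, D.inv] at this
  rcases c with i | i <;> rcases c' with j | j
  · show D.h (bvec n i.val 1 η) (bvec n j.val 1 η) = _
    rw [h_bvec2 D _ _ (by have := j.2; omega)]
    have hne : ¬ (Sum.inl j : Fin (m + 1) ⊕ Fin (m + 1)) = (Sum.inl i).swap := by simp
    rw [if_neg hne]
    split_ifs
    · rw [map_one]; linear_combination r1
    · rfl
  · show D.h (bvec n i.val 1 η) (bvec n j.val s s') = _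
    rw [h_bvec2 D _ _ (by have := j.2; omega)]
    by_cases hji : j = i
    · subst hji
      rw [if_pos rfl, if_pos (show Sum.inr j = (Sum.inl j : Fin (m + 1) ⊕ Fin (m + 1)).swap from rfl)]
      linear_combination r2 + r3'
    · rw [if_neg (fun h => hji (Fin.ext h)), if_neg (by simpa using hji)]
  · show D.h (bvec n i.val s s') (bvec n j.val 1 η) = _
    rw [h_bvec2 D _ _ (by have := j.2; omega)]
    by_cases hji : j = i
    · subst hji
      rw [if_pos rfl, if_pos (show Sum.inl j = (Sum.inr j : Fin (m + 1) ⊕ Fin (m + 1)).swap from rfl),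
        map_one]
      linear_combination r2 + r3
    · rw [if_neg (fun h => hji (Fin.ext h)), if_neg (by simpa using hji)]
  · show D.h (bvec n i.val s s') (bvec n j.val s s') = _
    rw [h_bvec2 D _ _ (by have := j.2; omega)]
    have hne : ¬ (Sum.inr j : Fin (m + 1) ⊕ Fin (m + 1)) = (Sum.inr i).swap := by simp
    rw [if_neg hne]
    split_ifs
    · linear_combination (s' * D.φ s') * r1 - (D.φ s' * η) * r3 - D.φ s * r3'
    · rfl

theorem bvF_hzb (D : QD F q) {n m : ℕ} (h1 : 2 * (m + 1) ≤ n) (η s s' : F)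
    (c : Fin (m + 1) ⊕ Fin (m + 1)) :
    D.h (zvec F n (m + 1)) (bvF n m η s s' c) = 0 := by
  have key : ∀ (i : Fin (m + 1)) (α β : F), D.h (zvec F n (m + 1)) (bvec n i.val α β) = 0 := by
    intro i α β
    have hi := i.2
    rw [h_bvec D _ (by omega)]
    have e1 : zvec F n (m + 1) ⟨2 * i.val, by omega⟩ = 0 := by
      unfold zvec; rw [if_neg]; show ¬ (2 * i.val = 2 * (m + 1)); omega
    have e2 : zvec F n (m + 1) ⟨2 * i.val + 1, by omega⟩ = 0 := by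
      unfold zvec; rw [if_neg]; show ¬ (2 * i.val + 1 = 2 * (m + 1)); omega
    rw [e1, e2]; ring
  rcases c with i | i
  · exact key i _ _
  · exact key i _ _

theorem bvF_compl (D : QD F q) {n m : ℕ} (h1 : 2 * (m + 1) ≤ n) (h2 : n ≤ 2 * (m + 1) + 1)
    {η s s' : F} (r1 : η * D.φ η = -1) (r2 : s + D.φ s = 1) (r3 : s' * D.φ η = D.φ s)
    (x : Fin n → F) :
    x = ∑ c, D.h x (bvF n m η s s' c.swap) • bvF n m η s s' c +
      D.h x (zvec F n (m + 1)) • zvec F n (m + 1) := by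
  have r3' : D.φ s' * η = s := by
    have := congrArg D.φ r3
    rwa [map_mul, D.inv, D.inv] at this
  funext a
  rw [Fintype.sum_sum_type]
  simp only [Sum.swap_inl, Sum.swap_inr, bvF, Pi.add_apply, Finset.sum_apply, Pi.smul_apply,
    smul_eq_mul]
  rcases a with ⟨k, hk⟩
  obtain ⟨j, rfl | rfl⟩ := Nat.even_or_odd' k
  · by_cases hjm : j < m + 1
    · have hA : ∀ b ∈ (Finset.univ : Finset (Fin (m + 1))), b ≠ ⟨j, hjm⟩ →
          D.h x (bvec n b.val s s') * bvec n b.val 1 η ⟨2 * j, hk⟩ = 0 := by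
        intro b _ hb
        rw [bvec_even, if_neg (fun h => hb (Fin.ext h.symm)), mul_zero]
      have hB : ∀ b ∈ (Finset.univ : Finset (Fin (m + 1))), b ≠ ⟨j, hjm⟩ →
          D.h x (bvec n b.val 1 η) * bvec n b.val s s' ⟨2 * j, hk⟩ = 0 := by
        intro b _ hb
        rw [bvec_even, if_neg (fun h => hb (Fin.ext h.symm)), mul_zero]
      rw [Finset.sum_eq_single (⟨j, hjm⟩ : Fin (m + 1)) hA
        (fun h => absurd (Finset.mem_univ _) h),
        Finset.sum_eq_single (⟨j, hjm⟩ : Fin (m + 1)) hB (fun h => absurd (Finset.mem_univ _) h)]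
      dsimp only
      have hz : zvec F n (m + 1) ⟨2 * j, hk⟩ = 0 := by
        unfold zvec; rw [if_neg]; show ¬ (2 * j = 2 * (m + 1)); omega
      rw [bvec_even, bvec_even, if_pos rfl, if_pos rfl, h_bvec D j (by omega),
        h_bvec D j (by omega), hz]
      have key : ∀ (x0 x1 w : F), x0 = (x0 * D.φ s + x1 * D.φ s') * 1 +
          (x0 * D.φ 1 + x1 * D.φ η) * s + w * 0 := by
        intro x0 x1 w
        rw [map_one]
        linear_combination (-x0) * r2 - x1 * (D.φ s' * r1 - D.φ η * r3')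
      exact key _ _ _
    · obtain rfl : j = m + 1 := by omega
      rw [Finset.sum_eq_zero, Finset.sum_eq_zero, h_zvec, dif_pos hk]
      · have hz : zvec F n (m + 1) ⟨2 * (m + 1), hk⟩ = 1 := by
          unfold zvec; rw [if_pos rfl]
        rw [hz]; ring
      · intro b _
        rw [bvec_even, if_neg (by have := b.2; omega), mul_zero]
      · intro b _
        rw [bvec_even, if_neg (by have := b.2; omega), mul_zero]
  · have hjm : j < m + 1 := by omega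
    have hA : ∀ b ∈ (Finset.univ : Finset (Fin (m + 1))), b ≠ ⟨j, hjm⟩ →
        D.h x (bvec n b.val s s') * bvec n b.val 1 η ⟨2 * j + 1, hk⟩ = 0 := by
      intro b _ hb
      rw [bvec_odd, if_neg (fun h => hb (Fin.ext h.symm)), mul_zero]
    have hB : ∀ b ∈ (Finset.univ : Finset (Fin (m + 1))), b ≠ ⟨j, hjm⟩ →
        D.h x (bvec n b.val 1 η) * bvec n b.val s s' ⟨2 * j + 1, hk⟩ = 0 := by
      intro b _ hb
      rw [bvec_odd, if_neg (fun h => hb (Fin.ext h.symm)), mul_zero]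
    rw [Finset.sum_eq_single (⟨j, hjm⟩ : Fin (m + 1)) hA
      (fun h => absurd (Finset.mem_univ _) h),
      Finset.sum_eq_single (⟨j, hjm⟩ : Fin (m + 1)) hB (fun h => absurd (Finset.mem_univ _) h)]
    dsimp only
    have hz : zvec F n (m + 1) ⟨2 * j + 1, hk⟩ = 0 := by
      unfold zvec; rw [if_neg]; show ¬ (2 * j + 1 = 2 * (m + 1)); omega
    rw [bvec_odd, bvec_odd, if_pos rfl, if_pos rfl, h_bvec D j (by omega),
      h_bvec D j (by omega), hz]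
    have key : ∀ (x0 x1 w : F), x1 = (x0 * D.φ s + x1 * D.φ s') * η +
        (x0 * D.φ 1 + x1 * D.φ η) * s' + w * 0 := by
      intro x0 x1 w
      rw [map_one]
      linear_combination (-x0) * (s' * r1 - η * r3) - x1 * (r3' + r3 + r2)
    exact key _ _ _

theorem exists_Fr (D : QD F q) (n m : ℕ) (h1 : 2 * (m + 1) ≤ n) (h2 : n ≤ 2 * (m + 1) + 1) :
    ∃ R : Fr D n m, (2 * (m + 1) < n → D.h R.z R.z = 1) ∧ (n = 2 * (m + 1) → R.z = 0) := by
  obtain ⟨η, r1⟩ := D.nm (-1) (by rw [map_neg, map_one])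
  obtain ⟨s, r2⟩ := D.exists_tr_one
  have hη : η ≠ 0 := by
    rintro rfl
    rw [zero_mul] at r1
    have : (1 : F) = 0 := by linear_combination r1
    exact one_ne_zero this
  have hφη : D.φ η ≠ 0 := phi_ne_zero D hη
  obtain ⟨s', hs'⟩ : ∃ s' : F, s' = D.φ s / D.φ η := ⟨_, rfl⟩
  have r3 : s' * D.φ η = D.φ s := by rw [hs']; field_simp
  obtain ⟨κ₀, hκ₀, hκ₀'⟩ := D.exists_skew
  have hκs : κ₀ + D.φ κ₀ = 0 := by rw [hκ₀']; ring
  have hb := bvF_hbb D (n := n) (m := m) h1 r1 r2 r3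
  have hzb := bvF_hzb D (n := n) (m := m) h1 η s s'
  have hee : D.h (bvF n m η s s' (Sum.inl 0)) (bvF n m η s s' (Sum.inl 0)) = 0 := by
    rw [hb]; simp
  have hff : D.h (bvF n m η s s' (Sum.inr 0)) (bvF n m η s s' (Sum.inr 0)) = 0 := by
    rw [hb]; simp
  have hfe : D.h (bvF n m η s s' (Sum.inr 0)) (bvF n m η s s' (Sum.inl 0)) = 1 := by
    rw [hb]; simp
  obtain ⟨n1, n2, n3⟩ := nn_spec D (Ok_T D hee hκs) hκ₀ hff hfe (D.h_zero_left _)
  have n3' : ∀ x, D.h x (bvF n m η s s' (Sum.inl 0)) = 0 → D.h x (bvF n m η s s' (Sum.inr 0)) = 0 →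
      mv (nn D (bvF n m η s s' (Sum.inl 0)) (bvF n m η s s' (Sum.inr 0)) 0 κ₀) x = x := by
    intro x hx1 hx2
    rw [n3 x hx1 hx2, smul_zero, add_zero]
  have hW : ∀ (i : Fin (m + 1)) (α β : F),
      mv (Wm D n (m + 1) h1) (bvec n i.val α β) = bvec n (i - 1).val α β := by
    intro i α β
    apply Wm_bvec D h1 h2 _ _ i.2 (i - 1).2
    rw [Fin.coe_sub_one]
    by_cases hi : i = 0
    · rw [if_pos hi]; right; exact ⟨by rw [hi]; rfl, rfl⟩
    · rw [if_neg hi]; left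
      have : i.val ≠ 0 := fun h => hi (Fin.ext h)
      omega
  refine ⟨{ bv := bvF n m η s s', z := zvec F n (m + 1), hbb := hb, hzb := hzb,
            compl := bvF_compl D h1 h2 r1 r2 r3,
            N := Wm D n (m + 1) h1 * nn D (bvF n m η s s' (Sum.inl 0)) (bvF n m η s s' (Sum.inr 0)) 0 κ₀,
            hN := ?_, hNz := ?_ }, ?_, ?_⟩
  · rintro (i | i)
    · by_cases hi : i = 0
      · subst hi
        refine ⟨(D.φ κ₀)⁻¹, inv_ne_zero (phi_ne_zero D hκ₀), ?_⟩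
        rw [mv_mul, n1, mv_smul]
        congr 1
        show mv (Wm D n (m + 1) h1) (bvec n (0 : Fin (m + 1)).val s s') = _
        rw [hW]
        show _ = bvF n m η s s' (if (0 : Fin (m + 1)) = 0 then Sum.inr ((0 : Fin (m + 1)) - 1)
          else Sum.inl ((0 : Fin (m + 1)) - 1))
        rw [if_pos rfl]
        rfl
      · refine ⟨1, one_ne_zero, ?_⟩
        rw [mv_mul, n3', one_smul]
        · show mv (Wm D n (m + 1) h1) (bvec n i.val 1 η) = _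
          rw [hW]
          show _ = bvF n m η s s' (if i = 0 then Sum.inr (i - 1) else Sum.inl (i - 1))
          rw [if_neg hi]
          rfl
        · rw [hb]; simp
        · rw [hb]; simp [Ne.symm hi]
    · by_cases hi : i = 0
      · subst hi
        refine ⟨κ₀, hκ₀, ?_⟩
        rw [mv_mul, n2, mv_smul]
        congr 1
        show mv (Wm D n (m + 1) h1) (bvec n (0 : Fin (m + 1)).val 1 η) = _
        rw [hW]
        show _ = bvF n m η s s' (if (0 : Fin (m + 1)) = 0 then Sum.inl ((0 : Fin (m + 1)) - 1)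
          else Sum.inr ((0 : Fin (m + 1)) - 1))
        rw [if_pos rfl]
        rfl
      · refine ⟨1, one_ne_zero, ?_⟩
        rw [mv_mul, n3', one_smul]
        · show mv (Wm D n (m + 1) h1) (bvec n i.val s s') = _
          rw [hW]
          show _ = bvF n m η s s' (if i = 0 then Sum.inl (i - 1) else Sum.inr (i - 1))
          rw [if_neg hi]
          rfl
        · rw [hb]; simp [Ne.symm hi]
        · rw [hb]; simp
  · rw [mv_mul, n3' _ (hzb _) (hzb _), Wm_zvec D h1 h2]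
  · intro h
    show D.h (zvec F n (m + 1)) (zvec F n (m + 1)) = 1
    rw [h_zvec, dif_pos h]
    unfold zvec
    rw [if_pos rfl]
  · intro h
    show zvec F n (m + 1) = 0
    funext a
    unfold zvec
    rw [if_neg (by have := a.2; omega)]
    rfl

end concrete
section final
variable {F : Type*} [Field F] [Fintype F] {q : ℕ}
open Cfsg.Agent.S2413 (sg orbit_all fin_down)

theorem exists_gen (hF : Fintype.card F = q ^ 2) :
    ∃ t : F, t ≠ 0 ∧ ∀ j : ℕ, t ^ j = 1 → (q ^ 2 - 1) ∣ j := by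
  classical
  obtain ⟨g, hg⟩ := IsCyclic.exists_generator (α := Fˣ)
  have ho : orderOf g = q ^ 2 - 1 := by
    rw [orderOf_eq_card_of_forall_mem_zpowers hg, Nat.card_eq_fintype_card, Fintype.card_units, hF]
  refine ⟨(g : F), g.ne_zero, ?_⟩
  intro j hj
  rw [← ho]
  apply orderOf_dvd_of_pow_eq_one
  apply Units.ext
  rw [Units.val_pow_eq_pow_val, hj, Units.val_one]

theorem two_le_q (hF : Fintype.card F = q ^ 2) : 2 ≤ q := by
  have hcF := Fintype.one_lt_card (α := F)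
  rw [hF] at hcF
  by_contra hcon
  have : q ≤ 1 := by omega
  have : q ^ 2 ≤ 1 ^ 2 := Nat.pow_le_pow_left this 2
  omega

theorem case_even (D : QD F q) (hF : Fintype.card F = q ^ 2) (m : ℕ) :
    ∃ a b : ↥(Cfsg.SU (2 * (m + 2)) F q), Subgroup.closure {a, b} = ⊤ := by
  have hq := two_le_q hF
  have h4 : 2 * q ≤ q ^ 2 := by nlinarith
  obtain ⟨R, -, hz⟩ := exists_Fr D (2 * (m + 2)) (m + 1) (by omega) (by omega)
  have hz0 := hz (by ring)
  obtain ⟨t, ht0, htg⟩ := exists_gen hF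
  have h10 : (⟨1, by omega⟩ : Fin (m + 1 + 1)) ≠ 0 := by
    intro h; simp [Fin.ext_iff] at h
  obtain ⟨a, a0, a1, a2, a3, a4⟩ := torus_spec D (u₀ := R.bv (Sum.inr 0))
    (u₁ := R.bv (Sum.inr ⟨1, by omega⟩)) (v₀ := R.bv (Sum.inl 0))
    (v₁ := R.bv (Sum.inl ⟨1, by omega⟩))
    (R.hself _) (R.hperp (by simp)) (R.hself _) (R.hself _) (R.hperp (by simp)) (R.hself _)
    (R.hpair (Sum.inl 0)) (R.hpair (Sum.inl ⟨1, by omega⟩))
    (R.hperp (fun h => h10 (Sum.inr.inj h))) (R.hperp (fun h => h10 (Sum.inr.inj h).symm)) ht0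
  have hd : ∀ c, ∃ δ : F, mv a (R.bv c) = δ • R.bv c := by
    rintro (i | i)
    · by_cases hi0 : i = 0
      · subst hi0; exact ⟨_, a2⟩
      by_cases hi1 : i = ⟨1, by omega⟩
      · subst hi1; exact ⟨_, a3⟩
      refine ⟨1, ?_⟩
      rw [one_smul]
      apply a4
      · exact R.hperp (fun h => hi0 (Sum.inr.inj h).symm)
      · exact R.hperp (fun h => hi1 (Sum.inr.inj h).symm)
      · exact R.hperp (by simp)
      · exact R.hperp (by simp)
    · by_cases hi0 : i = 0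
      · subst hi0; exact ⟨_, a0⟩
      by_cases hi1 : i = ⟨1, by omega⟩
      · subst hi1; exact ⟨_, a1⟩
      refine ⟨1, ?_⟩
      rw [one_smul]
      apply a4
      · exact R.hperp (by simp)
      · exact R.hperp (by simp)
      · exact R.hperp (fun h => hi0 (Sum.inl.inj h).symm)
      · exact R.hperp (fun h => hi1 (Sum.inl.inj h).symm)
  have hm0 : D.φ (D.φ t) * t ≠ 0 := by rw [D.inv]; exact mul_ne_zero ht0 ht0
  have hmp : ∀ i : ℕ, 0 < i → i < q → (D.φ (D.φ t) * t) ^ i ≠ 1 := by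
    intro i hi hiq h
    rw [D.inv, ← pow_two, ← pow_mul] at h
    have := Nat.le_of_dvd (by omega) (htg _ h)
    omega
  have hc₀ : sg (Sum.inr (⟨1, by omega⟩ : Fin (m + 1 + 1))) = Sum.inr 0 := sg_inr_succ 0 (by omega)
  have ht1 : t ≠ 1 := by
    intro h
    have := Nat.le_of_dvd (by omega) (htg 1 (by rw [pow_one, h]))
    omega
  have h32 : ¬ (2 * (m + 2) = 3 ∧ q = 2) := by omega
  by_cases hm : m = 0
  · subst hm
    have hc₁ : sg (Sum.inr (0 : Fin (0 + 1 + 1))) = Sum.inl ⟨1, by omega⟩ := sg_inr_zero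
    have hl : D.φ (D.φ t)⁻¹ * D.φ t ≠ 1 := by
      rw [map_inv₀, D.inv]
      intro h
      have h1 : t = D.φ t := (inv_mul_eq_one₀ ht0).mp h
      rw [D.hφ] at h1
      have h2 : t ^ (q - 1) = 1 := by
        have e : t ^ q = t ^ (q - 1) * t := by rw [← pow_succ]; congr 1; omega
        rw [e] at h1
        have h3 : 1 * t = t ^ (q - 1) * t := by rw [one_mul]; exact h1
        exact (mul_right_cancel₀ ht0 h3).symm
      have := Nat.le_of_dvd (by omega) (htg _ h2)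
      omega
    obtain ⟨b, hb⟩ := R.main_even hF (by omega) h32 hz0 a hd a0 a3 (Sum.inr ⟨1, by omega⟩)
      (Sum.inr 0) hc₀ a1 hc₁ a0 hm0 hmp hl (by omega)
    exact ⟨a, b, hb⟩
  · have hc₁ : sg (Sum.inl (⟨2, by omega⟩ : Fin (m + 1 + 1))) = Sum.inl ⟨1, by omega⟩ :=
      sg_inl_succ 1 (by omega)
    have h20 : (⟨2, by omega⟩ : Fin (m + 1 + 1)) ≠ 0 := by
      intro h; simp [Fin.ext_iff] at h
    have h21 : (⟨2, by omega⟩ : Fin (m + 1 + 1)) ≠ ⟨1, by omega⟩ := by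
      intro h; simp [Fin.ext_iff] at h
    have a5 : mv a (R.bv (Sum.inl ⟨2, by omega⟩)) = (1 : F) • R.bv (Sum.inl ⟨2, by omega⟩) := by
      rw [one_smul]
      apply a4
      · exact R.hperp (fun h => h20 (Sum.inr.inj h).symm)
      · exact R.hperp (fun h => h21 (Sum.inr.inj h).symm)
      · exact R.hperp (by simp)
      · exact R.hperp (by simp)
    have hl : D.φ (D.φ t)⁻¹ * 1 ≠ 1 := by
      rw [map_inv₀, D.inv, mul_one]
      intro h
      exact ht1 (inv_eq_one.mp h)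
    obtain ⟨b, hb⟩ := R.main_even hF (by omega) h32 hz0 a hd a0 a3 (Sum.inr ⟨1, by omega⟩)
      (Sum.inl ⟨2, by omega⟩) hc₀ a1 hc₁ a5 hm0 hmp hl (by omega)
    exact ⟨a, b, hb⟩

theorem case_odd (D : QD F q) (hF : Fintype.card F = q ^ 2) (m : ℕ) :
    ∃ a b : ↥(Cfsg.SU (2 * (m + 2) + 1) F q), Subgroup.closure {a, b} = ⊤ := by
  have hq := two_le_q hF
  have h4 : 2 * q ≤ q ^ 2 := by nlinarith
  obtain ⟨R, hzz, -⟩ := exists_Fr D (2 * (m + 2) + 1) (m + 1) (by omega) (by omega)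
  have hzz' := hzz (by omega)
  obtain ⟨t, ht0, htg⟩ := exists_gen hF
  have h10 : (⟨1, by omega⟩ : Fin (m + 1 + 1)) ≠ 0 := by
    intro h; simp [Fin.ext_iff] at h
  obtain ⟨a, a0, a1, a2, a3, a4⟩ := torus_spec D (u₀ := R.bv (Sum.inl 0))
    (u₁ := R.bv (Sum.inl ⟨1, by omega⟩)) (v₀ := R.bv (Sum.inr 0))
    (v₁ := R.bv (Sum.inr ⟨1, by omega⟩))
    (R.hself _) (R.hperp (by simp)) (R.hself _) (R.hself _) (R.hperp (by simp)) (R.hself _)
    (R.hpair (Sum.inr 0)) (R.hpair (Sum.inr ⟨1, by omega⟩))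
    (R.hperp (fun h => h10 (Sum.inl.inj h))) (R.hperp (fun h => h10 (Sum.inl.inj h).symm)) ht0
  have hd : ∀ c, ∃ δ : F, mv a (R.bv c) = δ • R.bv c := by
    rintro (i | i)
    · by_cases hi0 : i = 0
      · subst hi0; exact ⟨_, a0⟩
      by_cases hi1 : i = ⟨1, by omega⟩
      · subst hi1; exact ⟨_, a1⟩
      refine ⟨1, ?_⟩
      rw [one_smul]
      apply a4
      · exact R.hperp (by simp)
      · exact R.hperp (by simp)
      · exact R.hperp (fun h => hi0 (Sum.inr.inj h).symm)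
      · exact R.hperp (fun h => hi1 (Sum.inr.inj h).symm)
    · by_cases hi0 : i = 0
      · subst hi0; exact ⟨_, a2⟩
      by_cases hi1 : i = ⟨1, by omega⟩
      · subst hi1; exact ⟨_, a3⟩
      refine ⟨1, ?_⟩
      rw [one_smul]
      apply a4
      · exact R.hperp (fun h => hi0 (Sum.inl.inj h).symm)
      · exact R.hperp (fun h => hi1 (Sum.inl.inj h).symm)
      · exact R.hperp (by simp)
      · exact R.hperp (by simp)
  have haz : mv a R.z = (1 : F) • R.z := by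
    rw [one_smul]
    apply a4 <;> exact R.hzb _
  have hm0 : D.φ (D.φ t) * 1 ≠ 0 := by rw [D.inv, mul_one]; exact ht0
  have hmp : ∀ i : ℕ, 0 < i → i < q → (D.φ (D.φ t) * 1) ^ i ≠ 1 := by
    intro i hi hiq h
    rw [D.inv, mul_one] at h
    have := Nat.le_of_dvd (by omega) (htg _ h)
    omega
  have hc₀ : sg (Sum.inl (⟨1, by omega⟩ : Fin (m + 1 + 1))) = Sum.inl 0 := sg_inl_succ 0 (by omega)
  have ht1 : t ≠ 1 := by
    intro h
    have := Nat.le_of_dvd (by omega) (htg 1 (by rw [pow_one, h]))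
    omega
  have hl : D.φ (D.φ t)⁻¹ * 1 ≠ 1 := by
    rw [map_inv₀, D.inv, mul_one]
    intro h
    exact ht1 (inv_eq_one.mp h)
  have h32 : ¬ (2 * (m + 2) + 1 = 3 ∧ q = 2) := by omega
  obtain ⟨b, hb⟩ := R.main_odd hF (by omega) h32 hzz' a hd a0 haz (Sum.inl ⟨1, by omega⟩)
    hc₀ a1 hm0 hmp hl (by omega)
  exact ⟨a, b, hb⟩

theorem case_three (D : QD F q) (hF : Fintype.card F = q ^ 2) (hq2 : q ≠ 2) :
    ∃ a b : ↥(Cfsg.SU 3 F q), Subgroup.closure {a, b} = ⊤ := by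
  have hq := two_le_q hF
  have hq3 : 3 ≤ q := by omega
  have h5 : 3 * q ≤ q ^ 2 := by nlinarith
  obtain ⟨R, hzz, -⟩ := exists_Fr D 3 0 (by omega) (by omega)
  have hzz' := hzz (by omega)
  obtain ⟨t, ht0, htg⟩ := exists_gen hF
  obtain ⟨κ₁, hκ₁, hκ₁'⟩ := D.exists_skew
  have hκ₁s : κ₁ + D.φ κ₁ = 0 := by rw [hκ₁']; ring
  obtain ⟨κ, hκ⟩ : ∃ κ : F, κ = t * D.φ κ₁ := ⟨_, rfl⟩
  have hφκ₁ : D.φ κ₁ ≠ 0 := phi_ne_zero D hκ₁
  have hφt : D.φ t ≠ 0 := phi_ne_zero D ht0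
  have hκ0 : κ ≠ 0 := by rw [hκ]; exact mul_ne_zero ht0 hφκ₁
  have hφκ : D.φ κ = -(D.φ t * D.φ κ₁) := by
    rw [hκ, map_mul, D.inv, hκ₁']; ring
  obtain ⟨τ, hτ⟩ := D.nm (-(κ + D.φ κ)) (by rw [map_neg, D.tr_fixed])
  have hee := R.hself (Sum.inl 0)
  have hff := R.hself (Sum.inr 0)
  have hfe : D.h (R.bv (Sum.inr 0)) (R.bv (Sum.inl 0)) = 1 := R.hpair (Sum.inr 0)
  have O1 : Ok D (R.bv (Sum.inl 0)) (τ • R.z) κ := by
    refine ⟨hee, by rw [D.h_smul_left, R.hzb, mul_zero], ?_⟩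
    rw [D.h_smul_left, D.h_smul_right, hzz']
    linear_combination hτ
  have O2 : Ok D (R.bv (Sum.inl 0)) 0 κ₁ := Ok_T D hee hκ₁s
  obtain ⟨m1, m2, m3⟩ := nn_spec D O1 hκ0 hff hfe (by rw [D.h_smul_left, R.hzb, mul_zero])
  obtain ⟨p1, p2, p3⟩ := nn_spec D O2 hκ₁ hff hfe (D.h_zero_left _)
  obtain ⟨a, ha⟩ : ∃ a : ↥(Cfsg.SU 3 F q), a = nn D (R.bv (Sum.inl 0)) (R.bv (Sum.inr 0)) (τ • R.z) κ *
    nn D (R.bv (Sum.inl 0)) (R.bv (Sum.inr 0)) 0 κ₁ := ⟨_, rfl⟩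
  have ae : mv a (R.bv (Sum.inl 0)) = t • R.bv (Sum.inl 0) := by
    rw [ha, mv_mul, p1, mv_smul, m2, smul_smul]
    congr 1
    rw [hκ]; field_simp
  have af : mv a (R.bv (Sum.inr 0)) = (D.φ t)⁻¹ • R.bv (Sum.inr 0) := by
    rw [ha, mv_mul, p2, mv_smul, m1, smul_smul]
    congr 1
    rw [hφκ, hκ₁']; field_simp
  have hζ : 1 + κ⁻¹ * (D.φ τ * τ) = D.φ t / t := by
    have h1 : D.φ τ * τ = D.φ κ₁ * (D.φ t - t) := by
      rw [mul_comm, hτ, hφκ, hκ]; ring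
    rw [h1, hκ]; field_simp; ring
  have az : mv a R.z = (D.φ t / t) • R.z := by
    rw [ha, mv_mul, p3 _ (R.hzb _) (R.hzb _), smul_zero, add_zero, m3 _ (R.hzb _) (R.hzb _),
      D.h_smul_right, hzz', ← hζ]
    module
  have hd : ∀ c, ∃ δ : F, mv a (R.bv c) = δ • R.bv c := by
    rintro (i | i)
    · have hi : i = 0 := by
        apply Fin.ext; have := i.2; rw [Fin.val_zero]; omega
      subst hi
      exact ⟨_, ae⟩
    · have hi : i = 0 := by
        apply Fin.ext; have := i.2; rw [Fin.val_zero]; omega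
      subst hi
      exact ⟨_, af⟩
  have hc₀ : sg (Sum.inr (0 : Fin (0 + 1))) = Sum.inl 0 := sg_inr_zero
  have hm0 : D.φ t * (D.φ t / t) ≠ 0 := mul_ne_zero hφt (div_ne_zero hφt ht0)
  have e1 : D.φ t * (D.φ t / t) = t ^ (2 * q - 1) := by
    rw [D.hφ, ← mul_div_assoc, div_eq_iff ht0, ← pow_add, ← pow_succ]
    congr 1; omega
  have hmp : ∀ i : ℕ, 0 < i → i < q → (D.φ t * (D.φ t / t)) ^ i ≠ 1 := by
    intro i hi hiq h
    rw [e1, ← pow_mul] at h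
    have d0 := htg _ h
    have d1 : (q ^ 2 - 1) ∣ (2 * q + 1) * ((2 * q - 1) * i) := Dvd.dvd.mul_left d0 _
    obtain ⟨P, hP⟩ : ∃ P, 2 * q = P + 1 := ⟨2 * q - 1, by omega⟩
    obtain ⟨Q, hQ⟩ : ∃ Q, q ^ 2 = Q + 1 := ⟨q ^ 2 - 1, by omega⟩
    have hP' : 2 * q - 1 = P := by omega
    have hQ' : q ^ 2 - 1 = Q := by omega
    have h4 : (P + 1) * (P + 1) = 4 * (Q + 1) := by rw [← hP, ← hQ]; ring
    have e2 : (2 * q + 1) * ((2 * q - 1) * i) = 4 * i * Q + 3 * i := by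
      rw [hP', hP]
      have e3 : (P + 1 + 1) * (P * i) + i = i * ((P + 1) * (P + 1)) := by ring
      rw [h4] at e3
      have e4 : i * (4 * (Q + 1)) = 4 * i * Q + 3 * i + i := by ring
      omega
    rw [e2, hQ'] at d1
    have d2 : Q ∣ 3 * i := (Nat.dvd_add_right (Dvd.intro_left _ rfl)).mp d1
    have := Nat.le_of_dvd (by omega) d2
    omega
  have hl : D.φ (D.φ t)⁻¹ * (D.φ t / t) ≠ 1 := by
    rw [map_inv₀, D.inv]
    intro h
    have h1 : D.φ t = t ^ 2 := by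
      field_simp at h
      linear_combination h
    rw [D.hφ] at h1
    have h2 : t ^ (q - 2) = 1 := by
      have e : t ^ q = t ^ (q - 2) * t ^ 2 := by rw [← pow_add]; congr 1; omega
      rw [e] at h1
      have h3 : 1 * t ^ 2 = t ^ (q - 2) * t ^ 2 := by rw [one_mul]; exact h1.symm
      exact (mul_right_cancel₀ (pow_ne_zero 2 ht0) h3).symm
    have := Nat.le_of_dvd (by omega) (htg _ h2)
    omega
  have h32 : ¬ (3 = 3 ∧ q = 2) := fun h => hq2 h.2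
  obtain ⟨b, hb⟩ := R.main_odd hF (by omega) h32 hzz' a hd ae az (Sum.inr 0) hc₀ af hm0 hmp hl
    (by omega)
  exact ⟨a, b, hb⟩

end final

/-- The projective special unitary group `PSU_n(q)` with `n ≥ 3`, realised over the field with `q²` elements, `(n, q) ≠ (3, 2)`, is generated by two of its elements. -/
theorem result {F : Type*} [Field F] [Fintype F] {q : ℕ} (hq : IsPrimePow q) (hF : Fintype.card F = q ^ 2) (n : ℕ) (hn : 3 ≤ n) (h32 : n = 3 → q ≠ 2) :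
    ∃ a b : Cfsg.PSU n F q, Subgroup.closure ({a, b} : Set (Cfsg.PSU n F q)) = ⊤ := by
  classical
  obtain ⟨D⟩ := exists_qd hF
  have key : ∃ a b : ↥(Cfsg.SU n F q), Subgroup.closure {a, b} = ⊤ := by
    by_cases h3 : n = 3
    · subst h3
      exact case_three D hF (h32 rfl)
    · obtain ⟨m, hm | hm⟩ : ∃ m, n = 2 * (m + 2) ∨ n = 2 * (m + 2) + 1 := ⟨n / 2 - 2, by omega⟩
      · subst hm
        exact case_even D hF m
      · subst hm
        exact case_odd D hF m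
  obtain ⟨a, b, hab⟩ := key
  refine ⟨QuotientGroup.mk a, QuotientGroup.mk b, ?_⟩
  have h3 := congrArg (Subgroup.map (QuotientGroup.mk' (Subgroup.center ↥(Cfsg.SU n F q)))) hab
  rw [MonoidHom.map_closure, Subgroup.map_top_of_surjective _ (QuotientGroup.mk'_surjective _)] at h3
  rw [← h3]
  congr 1
  simp [Set.image_pair]

end Cfsg.Agent.S2412
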