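import Cfsg.Statements.S2415
import Mathlib
import Cfsg.Agent.S2413
open Matrix
open Module QuadraticMap
open Cfsg.Agent.Lib.Helper44.QSpace Cfsg.Agent.Lib.Helper44.OGroup Cfsg.Agent.Lib.Helper44.Siegel
open Cfsg.Agent.Lib.Helper5.OmegaSimple

set_option autoImplicit false
open Cfsg

namespace Cfsg.Agent.S2415

section kstruct
variable {F : Type*} [Field F] {m : ℕ} {a b : F}
open Cfsg.Agent.Lib.Helper44.NegPairs

/-- the embedding of the anisotropic plane, coordinatised by the quadratic algebra -/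
def iota (m : ℕ) (z : QuadraticAlgebra F (-b) a) : (Fin m ⊕ Fin m) ⊕ Fin 2 → F :=
  z.re • Pi.single (Sum.inr 0) 1 + z.im • Pi.single (Sum.inr 1) 1

theorem iota_add (z w : QuadraticAlgebra F (-b) a) :
    iota m (z + w) = iota m z + iota m w := by
  unfold iota
  simp only [QuadraticAlgebra.re_add, QuadraticAlgebra.im_add, add_smul]
  abel

theorem iota_smul (s : F) (z : QuadraticAlgebra F (-b) a) :
    iota m (s • z) = s • iota m z := by
  unfold iota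
  simp only [QuadraticAlgebra.re_smul, QuadraticAlgebra.im_smul, smul_eq_mul, smul_add, smul_smul]

theorem iota_sub (z w : QuadraticAlgebra F (-b) a) :
    iota m (z - w) = iota m z - iota m w := by
  unfold iota
  simp only [QuadraticAlgebra.re_sub, QuadraticAlgebra.im_sub, sub_smul]
  abel

theorem iota_apply_inl (z : QuadraticAlgebra F (-b) a) (c : Fin m ⊕ Fin m) :
    iota m z (Sum.inl c) = 0 := by
  unfold iota
  simp

theorem iota_one : iota m (1 : QuadraticAlgebra F (-b) a) = Pi.single (Sum.inr 0) 1 := by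
  show (1 : F) • (Pi.single (Sum.inr 0) 1 : (Fin m ⊕ Fin m) ⊕ Fin 2 → F)
    + (0 : F) • (Pi.single (Sum.inr 1) 1 : (Fin m ⊕ Fin m) ⊕ Fin 2 → F) = _
  rw [zero_smul, add_zero, one_smul]

theorem iota_omega : iota m (⟨0, 1⟩ : QuadraticAlgebra F (-b) a) = Pi.single (Sum.inr 1) 1 := by
  show (0 : F) • (Pi.single (Sum.inr 0) 1 : (Fin m ⊕ Fin m) ⊕ Fin 2 → F)
    + (1 : F) • (Pi.single (Sum.inr 1) 1 : (Fin m ⊕ Fin m) ⊕ Fin 2 → F) = _
  rw [zero_smul, zero_add, one_smul]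

theorem minus_polar (x : (Fin m ⊕ Fin m) ⊕ Fin 2 → F) (c : Fin m ⊕ Fin m) :
    polar (minusQ m F a b) x (Pi.single (Sum.inl c) 1) = x (Sum.inl c.swap) :=
  polar_single (minusQ m F a b) Sum.inl (minus_H1 m a b) x c

theorem minus_q (c : Fin m ⊕ Fin m) : minusQ m F a b (Pi.single (Sum.inl c) 1) = 0 :=
  q_single (minusQ m F a b) Sum.inl (minus_H1 m a b) c

theorem minus_q_iota (z : QuadraticAlgebra F (-b) a) :
    minusQ m F a b (iota m z) = QuadraticAlgebra.norm z := by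
  show Cfsg.quadFormMinus m F a b (iota m z) = _
  unfold Cfsg.quadFormMinus iota
  simp [QuadraticAlgebra.norm_def]
  ring

/-- the polar form of the norm -/
def pl (z w : QuadraticAlgebra F (-b) a) : F :=
  QuadraticAlgebra.norm (z + w) - QuadraticAlgebra.norm z - QuadraticAlgebra.norm w

theorem minus_polar_iota (z w : QuadraticAlgebra F (-b) a) :
    polar (minusQ m F a b) (iota m z) (iota m w) = pl z w := by
  unfold polar pl
  rw [← iota_add, minus_q_iota, minus_q_iota, minus_q_iota]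

theorem sr_aux (c : Fin m ⊕ Fin m) (z : QuadraticAlgebra F (-b) a) :
    polar (minusQ m F a b) (Pi.single (Sum.inl c) 1) (iota m z) = 0 := by
  rw [polar_comm, minus_polar, iota_apply_inl]

theorem pl_eq (z w : QuadraticAlgebra F (-b) a) :
    pl z w = 2 * z.re * w.re + a * (z.re * w.im + z.im * w.re) + 2 * b * z.im * w.im := by
  unfold pl
  simp only [QuadraticAlgebra.norm_def, QuadraticAlgebra.re_add, QuadraticAlgebra.im_add]
  ring

theorem pl_smul_left (s : F) (z w : QuadraticAlgebra F (-b) a) : pl (s • z) w = s * pl z w := by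
  rw [pl_eq, pl_eq]
  simp only [QuadraticAlgebra.re_smul, QuadraticAlgebra.im_smul, smul_eq_mul]
  ring

theorem pl_smul_right (s : F) (z w : QuadraticAlgebra F (-b) a) : pl z (s • w) = s * pl z w := by
  rw [pl_eq, pl_eq]
  simp only [QuadraticAlgebra.re_smul, QuadraticAlgebra.im_smul, smul_eq_mul]
  ring

theorem pl_self (z : QuadraticAlgebra F (-b) a) : pl z z = 2 * QuadraticAlgebra.norm z := by
  rw [pl_eq, QuadraticAlgebra.norm_def]
  ring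

theorem norm_smul' (s : F) (z : QuadraticAlgebra F (-b) a) :
    QuadraticAlgebra.norm (s • z) = s * s * QuadraticAlgebra.norm z := by
  rw [QuadraticAlgebra.norm_def, QuadraticAlgebra.norm_def]
  simp only [QuadraticAlgebra.re_smul, QuadraticAlgebra.im_smul, smul_eq_mul]
  ring

/-- short root element -/
def sr (c : Fin m ⊕ Fin m) (z : QuadraticAlgebra F (-b) a) : ↥(O (minusQ m F a b)) :=
  eich (minusQ m F a b) (minus_q c) (sr_aux c z)

theorem sr_mem_EG (c : Fin m ⊕ Fin m) (z : QuadraticAlgebra F (-b) a) :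
    sr (m := m) c z ∈ EG (minusQ m F a b) :=
  eich_mem_EG _ _

theorem sr_add (c : Fin m ⊕ Fin m) (z w : QuadraticAlgebra F (-b) a) :
    sr (m := m) c (z + w) = sr c z * sr c w := by
  unfold sr
  have h : polar (minusQ m F a b) (Pi.single (Sum.inl c) 1) (iota m z + iota m w) = 0 := by
    rw [polar_add_right, sr_aux, sr_aux, add_zero]
  rw [eich_mul (minus_q c) (sr_aux c z) (sr_aux c w) h]
  exact eich_congr (minus_q c) _ _ (iota_add z w)

theorem sr_apply (c : Fin m ⊕ Fin m) (z : QuadraticAlgebra F (-b) a)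
    (x : (Fin m ⊕ Fin m) ⊕ Fin 2 → F) :
    ((sr c z : ↥(O (minusQ m F a b))) :
      ((Fin m ⊕ Fin m) ⊕ Fin 2 → F) ≃ₗ[F] ((Fin m ⊕ Fin m) ⊕ Fin 2 → F)) x =
      x + x (Sum.inl c.swap) • iota m z
        - (polar (minusQ m F a b) (iota m z) x + QuadraticAlgebra.norm z * x (Sum.inl c.swap)) •
          Pi.single (Sum.inl c) 1 := by
  unfold sr
  rw [eich_apply, polar_comm (minusQ m F a b) (Pi.single (Sum.inl c) 1) x, minus_polar,
    minus_q_iota]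
  module

theorem sr_conj (g : ↥(O (minusQ m F a b))) (c c' : Fin m ⊕ Fin m) (ε : F)
    (z z' : QuadraticAlgebra F (-b) a)
    (hg : (g : ((Fin m ⊕ Fin m) ⊕ Fin 2 → F) ≃ₗ[F] ((Fin m ⊕ Fin m) ⊕ Fin 2 → F))
      (Pi.single (Sum.inl c) 1) = ε • Pi.single (Sum.inl c') 1)
    (hg0 : (g : ((Fin m ⊕ Fin m) ⊕ Fin 2 → F) ≃ₗ[F] ((Fin m ⊕ Fin m) ⊕ Fin 2 → F))
      (iota m z) = iota m z') :
    g * sr c z * g⁻¹ = sr c' (ε • z') := by
  have hd1 : minusQ m F a b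
      ((g : ((Fin m ⊕ Fin m) ⊕ Fin 2 → F) ≃ₗ[F] ((Fin m ⊕ Fin m) ⊕ Fin 2 → F))
      (Pi.single (Sum.inl c) 1)) = 0 := by rw [g.2]; exact minus_q c
  have hdy1 : polar (minusQ m F a b)
      ((g : ((Fin m ⊕ Fin m) ⊕ Fin 2 → F) ≃ₗ[F] ((Fin m ⊕ Fin m) ⊕ Fin 2 → F))
        (Pi.single (Sum.inl c) 1))
      ((g : ((Fin m ⊕ Fin m) ⊕ Fin 2 → F) ≃ₗ[F] ((Fin m ⊕ Fin m) ⊕ Fin 2 → F))
        (iota m z)) = 0 := by
    rw [polar_of_mem_O g.2]; exact sr_aux c z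
  unfold sr
  rw [conj_eich (minus_q c) (sr_aux c z) g hd1 hdy1]
  have hd2 : minusQ m F a b (ε • (Pi.single (Sum.inl c') 1 : (Fin m ⊕ Fin m) ⊕ Fin 2 → F)) = 0 := by
    rw [q_smul, minus_q, mul_zero]
  have hdy2 : polar (minusQ m F a b)
      (ε • (Pi.single (Sum.inl c') 1 : (Fin m ⊕ Fin m) ⊕ Fin 2 → F)) (iota m z') = 0 := by
    rw [polar_smul_l, sr_aux, mul_zero]
  rw [eich_congr2 hd1 hd2 hdy1 hdy2 hg hg0]
  have hdy3 : polar (minusQ m F a b) (Pi.single (Sum.inl c') 1) (ε • iota m z') = 0 := by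
    rw [polar_smul_r, sr_aux, mul_zero]
  rw [eich_smul_left ε (minus_q c') hd2 hdy2 hdy3]
  exact eich_congr (minus_q c') _ _ (iota_smul ε z').symm

theorem sr_e (c c' : Fin m ⊕ Fin m) (z : QuadraticAlgebra F (-b) a) (h : c' ≠ c.swap) :
    ((sr c z : ↥(O (minusQ m F a b))) :
      ((Fin m ⊕ Fin m) ⊕ Fin 2 → F) ≃ₗ[F] ((Fin m ⊕ Fin m) ⊕ Fin 2 → F))
      (Pi.single (Sum.inl c') 1) = Pi.single (Sum.inl c') 1 := by
  rw [sr_apply, minus_polar, iota_apply_inl]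
  have h' : c.swap ≠ c' := fun h' => h h'.symm
  simp [h']

theorem sr_f (c d : Fin m ⊕ Fin m) (z : QuadraticAlgebra F (-b) a) (hd : d = c.swap) :
    ((sr c z : ↥(O (minusQ m F a b))) :
      ((Fin m ⊕ Fin m) ⊕ Fin 2 → F) ≃ₗ[F] ((Fin m ⊕ Fin m) ⊕ Fin 2 → F))
      (Pi.single (Sum.inl d) 1) = Pi.single (Sum.inl d) 1 + iota m z
        - QuadraticAlgebra.norm z • Pi.single (Sum.inl c) 1 := by
  subst hd
  rw [sr_apply, minus_polar, iota_apply_inl]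
  simp

theorem sr_a (c : Fin m ⊕ Fin m) (z w : QuadraticAlgebra F (-b) a) :
    ((sr c z : ↥(O (minusQ m F a b))) :
      ((Fin m ⊕ Fin m) ⊕ Fin 2 → F) ≃ₗ[F] ((Fin m ⊕ Fin m) ⊕ Fin 2 → F))
      (iota m w) = iota m w - pl z w • Pi.single (Sum.inl c) 1 := by
  rw [sr_apply, minus_polar_iota, iota_apply_inl]
  simp

end kstruct

section gens
variable {F : Type*} [Field F] {m : ℕ} {a b : F}
open Cfsg.Agent.Lib.Helper44.NegPairs

theorem long_root_mem (w₀ : QuadraticAlgebra F (-b) a) (hw₀ : pl 1 w₀ = -1)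
    (H : Subgroup ↥(O (minusQ m F a b)))
    (hH : ∀ (c : Fin m ⊕ Fin m) (z : QuadraticAlgebra F (-b) a), sr c z ∈ H)
    (c₁ c₂ : Fin m ⊕ Fin m) (s : F)
    (hdy : polar (minusQ m F a b) (Pi.single (Sum.inl c₁) 1)
      (s • (Pi.single (Sum.inl c₂) 1 : (Fin m ⊕ Fin m) ⊕ Fin 2 → F)) = 0) :
    eich (minusQ m F a b) (minus_q c₁) hdy ∈ H := by
  have hy : minusQ m F a b (s • (Pi.single (Sum.inl c₂) 1 : (Fin m ⊕ Fin m) ⊕ Fin 2 → F)) = 0 := by
    rw [q_smul, minus_q, mul_zero]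
  have hyz : polar (minusQ m F a b) (s • (Pi.single (Sum.inl c₂) 1 : (Fin m ⊕ Fin m) ⊕ Fin 2 → F))
      (iota m (1 : QuadraticAlgebra F (-b) a)) = 0 := by
    rw [polar_smul_l, sr_aux, mul_zero]
  have hdz := sr_aux (m := m) c₁ (1 : QuadraticAlgebra F (-b) a)
  have hdy' := sr_aux (m := m) c₁ w₀
  have hyy' : polar (minusQ m F a b)
      (s • (Pi.single (Sum.inl c₂) 1 : (Fin m ⊕ Fin m) ⊕ Fin 2 → F)) (iota m w₀) = 0 := by
    rw [polar_smul_l, sr_aux, mul_zero]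
  have hzy' : polar (minusQ m F a b) (iota m (1 : QuadraticAlgebra F (-b) a)) (iota m w₀) = -1 := by
    rw [minus_polar_iota, hw₀]
  rw [root_eq_commutator (minus_q c₁) hy hdy hyz hdz hdy' hyy' hzy']
  have hs : polar (minusQ m F a b) (Pi.single (Sum.inl c₂) 1)
      (s • iota m (1 : QuadraticAlgebra F (-b) a)) = 0 := by
    rw [polar_smul_r, sr_aux, mul_zero]
  have e1 : eich (minusQ m F a b) hy hyz = sr c₂ (s • (1 : QuadraticAlgebra F (-b) a)) := by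
    rw [eich_smul_left s (minus_q c₂) hy hyz hs]
    exact eich_congr (minus_q c₂) _ _ (iota_smul s 1).symm
  have e2 : eich (minusQ m F a b) (minus_q c₁) hdy' = sr c₁ w₀ := rfl
  rw [e1, e2, commutatorElement_def]
  exact H.mul_mem (H.mul_mem (H.mul_mem (hH _ _) (hH _ _)) (H.inv_mem (hH _ _)))
    (H.inv_mem (hH _ _))

theorem thmGS (hS : Sep (minusQ m F a b)) (w₀ : QuadraticAlgebra F (-b) a) (hw₀ : pl 1 w₀ = -1)
    (H : Subgroup ↥(O (minusQ m F a b))) (i₀ : Fin m)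
    (hH : ∀ (c : Fin m ⊕ Fin m) (z : QuadraticAlgebra F (-b) a), sr c z ∈ H) :
    EG (minusQ m F a b) ≤ H := by
  classical
  have key : ∀ (c₁ : Fin m ⊕ Fin m) (y : (Fin m ⊕ Fin m) ⊕ Fin 2 → F)
      (h : polar (minusQ m F a b) (Pi.single (Sum.inl c₁) 1) y = 0),
        eich (minusQ m F a b) (minus_q c₁) h ∈ H := by
    intro c₁ y h
    have hy : y (Sum.inl c₁.swap) = 0 := by
      rw [polar_comm, minus_polar] at h; exact h
    have h00 : polar (minusQ m F a b) (Pi.single (Sum.inl c₁) 1)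
        (0 : (Fin m ⊕ Fin m) ⊕ Fin 2 → F) = 0 := by simp
    have hP : ∀ (s : Finset ((Fin m ⊕ Fin m) ⊕ Fin 2)),
        ∃ h' : polar (minusQ m F a b) (Pi.single (Sum.inl c₁) 1)
          (∑ k ∈ s, y k • Pi.single k 1) = 0,
          eich (minusQ m F a b) (minus_q c₁) h' ∈ H := by
      intro s
      induction s using Finset.induction_on with
      | empty =>
        have hp : polar (minusQ m F a b) (Pi.single (Sum.inl c₁) 1)
            (∑ k ∈ (∅ : Finset ((Fin m ⊕ Fin m) ⊕ Fin 2)), y k • Pi.single k (1 : F)) = 0 := by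
          rw [Finset.sum_empty]; exact h00
        refine ⟨hp, ?_⟩
        rw [eich_congr (minus_q c₁) hp h00 Finset.sum_empty, eich_zero_right]
        exact H.one_mem
      | insert k s hk ih =>
        obtain ⟨h1, h2'⟩ := ih
        have ht : ∃ h' : polar (minusQ m F a b) (Pi.single (Sum.inl c₁) 1)
            (y k • Pi.single k 1) = 0,
            eich (minusQ m F a b) (minus_q c₁) h' ∈ H := by
          rcases k with c | t
          · by_cases hcs : c = c₁.swap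
            · have h0 : y (Sum.inl c) •
                  (Pi.single (Sum.inl c) 1 : (Fin m ⊕ Fin m) ⊕ Fin 2 → F) = 0 := by
                rw [hcs, hy, zero_smul]
              have hp : polar (minusQ m F a b) (Pi.single (Sum.inl c₁) 1)
                  (y (Sum.inl c) • Pi.single (Sum.inl c) 1) = 0 := by
                rw [h0]; exact h00
              refine ⟨hp, ?_⟩
              rw [eich_congr (minus_q c₁) hp h00 h0, eich_zero_right]
              exact H.one_mem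
            · have hp : polar (minusQ m F a b) (Pi.single (Sum.inl c₁) 1)
                  (y (Sum.inl c) • Pi.single (Sum.inl c) 1) = 0 := by
                rw [polar_smul_r, minus_polar, Pi.single_apply,
                  if_neg (fun h' => hcs (by rw [← Sum.inl.inj h', Sum.swap_swap])), mul_zero]
              exact ⟨hp, long_root_mem w₀ hw₀ H hH c₁ c (y (Sum.inl c)) hp⟩
          · obtain ⟨z, hz⟩ : ∃ z : QuadraticAlgebra F (-b) a,
                y (Sum.inr t) • (Pi.single (Sum.inr t) 1 : (Fin m ⊕ Fin m) ⊕ Fin 2 → F) =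
                  iota m z := by
              fin_cases t
              · exact ⟨y (Sum.inr 0) • 1, by rw [iota_smul, iota_one]; rfl⟩
              · exact ⟨y (Sum.inr 1) • ⟨0, 1⟩, by rw [iota_smul, iota_omega]; rfl⟩
            have hp : polar (minusQ m F a b) (Pi.single (Sum.inl c₁) 1)
                (y (Sum.inr t) • Pi.single (Sum.inr t) 1) = 0 := by
              rw [hz]; exact sr_aux c₁ z
            refine ⟨hp, ?_⟩
            rw [eich_congr (minus_q c₁) hp (sr_aux c₁ z) hz]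
            exact hH c₁ z
        obtain ⟨h3, h4⟩ := ht
        have hsum : polar (minusQ m F a b) (Pi.single (Sum.inl c₁) 1)
            (y k • Pi.single k 1 + ∑ k ∈ s, y k • Pi.single k 1) = 0 := by
          rw [polar_add_right, h3, h1, add_zero]
        have e := eich_mul (minus_q c₁) h3 h1 hsum
        have hp : polar (minusQ m F a b) (Pi.single (Sum.inl c₁) 1)
            (∑ k ∈ insert k s, y k • Pi.single k (1 : F)) = 0 := by
          rw [Finset.sum_insert hk]; exact hsum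
        refine ⟨hp, ?_⟩
        rw [eich_congr (minus_q c₁) hp hsum (Finset.sum_insert hk), ← e]
        exact H.mul_mem h4 h2'
    obtain ⟨h1, h2'⟩ := hP Finset.univ
    have ey : y = ∑ k, y k • Pi.single k (1 : F) := by
      funext k
      rw [Finset.sum_apply]
      simp [Pi.single_apply]
    rw [eich_congr (minus_q c₁) h h1 ey]; exact h2'
  exact Cfsg.Agent.S2414.thmG hS (minus_q (Sum.inl i₀)) (minus_q (Sum.inr i₀))
    (by rw [minus_polar]; simp) H (key _) (key _)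

end gens

section matminus
variable {F : Type*} [Field F] {m : ℕ} {a b : F}
open Cfsg.Agent.Lib.Helper44.NegPairs
open Cfsg.Agent.S2411 (Lm Lm_one Lm_mul det_wMat wMat_orth)
open Cfsg.Agent.S2414 (EM EM_inr_inl)
open Cfsg.Agent.S2403 (wMat wMat_apply eps eps_mul_self)
open Cfsg.Agent.S2413 (mulVec_mono Lm_cox)

/-- extension of a matrix by a unit block -/
def extN (M : Matrix (Fin m ⊕ Fin m) (Fin m ⊕ Fin m) F) :
    Matrix ((Fin m ⊕ Fin m) ⊕ Fin 2) ((Fin m ⊕ Fin m) ⊕ Fin 2) F :=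
  fromBlocks M 0 0 1

theorem extN_mul (M N : Matrix (Fin m ⊕ Fin m) (Fin m ⊕ Fin m) F) :
    extN (M * N) = extN M * extN N := by
  unfold extN
  rw [fromBlocks_multiply]
  simp

theorem eich_extN (c₁ c₂ : Fin m ⊕ Fin m) (s : F)
    (hdy : polar (minusQ m F a b) (Pi.single (Sum.inl c₁) 1)
      (s • (Pi.single (Sum.inl c₂) 1 : (Fin m ⊕ Fin m) ⊕ Fin 2 → F)) = 0)
    (x : (Fin m ⊕ Fin m) ⊕ Fin 2 → F) :
    ((eich (minusQ m F a b) (minus_q c₁) hdy : ↥(O (minusQ m F a b))) :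
      ((Fin m ⊕ Fin m) ⊕ Fin 2 → F) ≃ₗ[F] ((Fin m ⊕ Fin m) ⊕ Fin 2 → F)) x =
      extN (EM c₁ c₂ s) *ᵥ x := by
  have e : extN (EM c₁ c₂ s) = 1 + single (Sum.inl c₂) (Sum.inl c₁.swap) s
      - single (Sum.inl c₁) (Sum.inl c₂.swap) s := by
    unfold extN EM
    ext (x | x) (y | y) <;> simp [Matrix.one_apply, single_apply]
  rw [e, eich_apply, polar_comm (minusQ m F a b) (Pi.single (Sum.inl c₁) 1) x, minus_polar,
    polar_smul_l, polar_comm (minusQ m F a b) (Pi.single (Sum.inl c₂) 1) x, minus_polar, q_smul,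
    minus_q]
  rw [sub_mulVec, add_mulVec, one_mulVec, single_mulVec_eq, single_mulVec_eq]
  simp only [mul_zero, zero_mul, zero_smul, sub_zero, smul_smul]
  rw [mul_comm]

theorem SL_EG_minus [Nontrivial (Fin m)] (A : SpecialLinearGroup (Fin m) F) :
    ∃ g ∈ EG (minusQ m F a b), ∀ x : (Fin m ⊕ Fin m) ⊕ Fin 2 → F,
      ((g : ↥(O (minusQ m F a b))) :
        ((Fin m ⊕ Fin m) ⊕ Fin 2 → F) ≃ₗ[F] ((Fin m ⊕ Fin m) ⊕ Fin 2 → F)) x =
        extN (Lm (SpecialLinearGroup.toGL A)) *ᵥ x := by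
  apply Cfsg.Agent.Lib.Helper5.SLGen.transvection_induction
    (fun A => ∃ g ∈ EG (minusQ m F a b), ∀ x : (Fin m ⊕ Fin m) ⊕ Fin 2 → F,
      ((g : ↥(O (minusQ m F a b))) :
        ((Fin m ⊕ Fin m) ⊕ Fin 2 → F) ≃ₗ[F] ((Fin m ⊕ Fin m) ⊕ Fin 2 → F)) x =
        extN (Lm (SpecialLinearGroup.toGL A)) *ᵥ x)
  · intro i j hij c
    have hdy : polar (minusQ m F a b) (Pi.single (Sum.inl (Sum.inr j)) 1)
        (c • (Pi.single (Sum.inl (Sum.inl i)) 1 : (Fin m ⊕ Fin m) ⊕ Fin 2 → F)) = 0 := by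
      rw [polar_smul_r, minus_polar, Pi.single_apply]
      simp [hij]
    refine ⟨eich (minusQ m F a b) (minus_q (Sum.inr j)) hdy, eich_mem_EG _ _, fun x => ?_⟩
    rw [eich_extN, EM_inr_inl j i hij]
  · rintro A B ⟨g, hg, hg'⟩ ⟨h, hh, hh'⟩
    refine ⟨g * h, mul_mem hg hh, fun x => ?_⟩
    show (g : ((Fin m ⊕ Fin m) ⊕ Fin 2 → F) ≃ₗ[F] ((Fin m ⊕ Fin m) ⊕ Fin 2 → F))
      ((h : ((Fin m ⊕ Fin m) ⊕ Fin 2 → F) ≃ₗ[F] ((Fin m ⊕ Fin m) ⊕ Fin 2 → F)) x) = _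
    rw [hh', hg', mulVec_mulVec, ← extN_mul, ← Lm_mul, ← map_mul]

theorem extN_fix (M : Matrix (Fin m ⊕ Fin m) (Fin m ⊕ Fin m) F) (t : Fin 2) :
    extN M *ᵥ Pi.single (Sum.inr t) 1 = Pi.single (Sum.inr t) 1 := by
  rw [mulVec_mono (extN M) (Sum.inr t) (Sum.inr t) 1, one_smul]
  rintro (i | i)
  · simp [extN]
  · simp [extN, Matrix.one_apply]

theorem extN_iota (M : Matrix (Fin m ⊕ Fin m) (Fin m ⊕ Fin m) F)
    (z : QuadraticAlgebra F (-b) a) : extN M *ᵥ iota m z = iota m z := by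
  unfold iota
  rw [mulVec_add, mulVec_smul, mulVec_smul, extN_fix, extN_fix]

theorem cox_l (n : ℕ) (i : Fin (n + 1)) :
    extN (fromBlocks (wMat F n) 0 0 (wMat F n)) *ᵥ Pi.single (Sum.inl (Sum.inl i)) 1 =
      eps F n i • Pi.single (Sum.inl (Sum.inl (i - 1))) 1 := by
  apply mulVec_mono
  rintro ((a | a) | a) <;> simp [extN, wMat_apply]

theorem cox_r (n : ℕ) (i : Fin (n + 1)) :
    extN (fromBlocks (wMat F n) 0 0 (wMat F n)) *ᵥ Pi.single (Sum.inl (Sum.inr i)) 1 =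
      eps F n i • Pi.single (Sum.inl (Sum.inr (i - 1))) 1 := by
  apply mulVec_mono
  rintro ((a | a) | a) <;> simp [extN, wMat_apply]

end matminus

section nnsec
variable {F : Type*} [Field F] {m : ℕ} {a b : F}
open Cfsg.Agent.Lib.Helper44.NegPairs
open Cfsg.Agent.S2413 (swap_ne)

/-- a monomial element attached to a nonzero vector of the anisotropic plane -/
def nn (c : Fin m ⊕ Fin m) (z : QuadraticAlgebra F (-b) a) (ν' : F) : ↥(O (minusQ m F a b)) :=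
  sr c z * sr c.swap (ν' • z) * sr c z

theorem nn_mem (c : Fin m ⊕ Fin m) (z : QuadraticAlgebra F (-b) a) (ν' : F) :
    nn (m := m) c z ν' ∈ EG (minusQ m F a b) :=
  mul_mem (mul_mem (sr_mem_EG _ _) (sr_mem_EG _ _)) (sr_mem_EG _ _)

theorem nn_e (c : Fin m ⊕ Fin m) (z : QuadraticAlgebra F (-b) a) (ν' : F)
    (hν : ν' * QuadraticAlgebra.norm z = 1) :
    ((nn c z ν' : ↥(O (minusQ m F a b))) :
      ((Fin m ⊕ Fin m) ⊕ Fin 2 → F) ≃ₗ[F] ((Fin m ⊕ Fin m) ⊕ Fin 2 → F))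
      (Pi.single (Sum.inl c) 1) = -ν' • Pi.single (Sum.inl c.swap) 1 := by
  show ((sr c z : ↥(O (minusQ m F a b))) :
      ((Fin m ⊕ Fin m) ⊕ Fin 2 → F) ≃ₗ[F] ((Fin m ⊕ Fin m) ⊕ Fin 2 → F))
    (((sr c.swap (ν' • z) : ↥(O (minusQ m F a b))) :
      ((Fin m ⊕ Fin m) ⊕ Fin 2 → F) ≃ₗ[F] ((Fin m ⊕ Fin m) ⊕ Fin 2 → F))
    (((sr c z : ↥(O (minusQ m F a b))) :
      ((Fin m ⊕ Fin m) ⊕ Fin 2 → F) ≃ₗ[F] ((Fin m ⊕ Fin m) ⊕ Fin 2 → F))
      (Pi.single (Sum.inl c) 1))) = _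
  rw [sr_e c c z (swap_ne c), sr_f c.swap c (ν' • z) (Sum.swap_swap c).symm]
  simp only [map_add, map_sub, map_smul]
  rw [sr_e c c z (swap_ne c), sr_a c z (ν' • z), sr_f c c.swap z rfl, iota_smul, pl_smul_right,
    pl_self, norm_smul']
  linear_combination (norm := module) hν • ((ν' * QuadraticAlgebra.norm z - 1) •
    (Pi.single (Sum.inl c) 1 : (Fin m ⊕ Fin m) ⊕ Fin 2 → F) - ν' • iota m z
      - ν' • (Pi.single (Sum.inl c.swap) 1 : (Fin m ⊕ Fin m) ⊕ Fin 2 → F))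

theorem nn_f (c : Fin m ⊕ Fin m) (z : QuadraticAlgebra F (-b) a) (ν' : F)
    (hν : ν' * QuadraticAlgebra.norm z = 1) :
    ((nn c z ν' : ↥(O (minusQ m F a b))) :
      ((Fin m ⊕ Fin m) ⊕ Fin 2 → F) ≃ₗ[F] ((Fin m ⊕ Fin m) ⊕ Fin 2 → F))
      (Pi.single (Sum.inl c.swap) 1) = -QuadraticAlgebra.norm z • Pi.single (Sum.inl c) 1 := by
  show ((sr c z : ↥(O (minusQ m F a b))) :
      ((Fin m ⊕ Fin m) ⊕ Fin 2 → F) ≃ₗ[F] ((Fin m ⊕ Fin m) ⊕ Fin 2 → F))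
    (((sr c.swap (ν' • z) : ↥(O (minusQ m F a b))) :
      ((Fin m ⊕ Fin m) ⊕ Fin 2 → F) ≃ₗ[F] ((Fin m ⊕ Fin m) ⊕ Fin 2 → F))
    (((sr c z : ↥(O (minusQ m F a b))) :
      ((Fin m ⊕ Fin m) ⊕ Fin 2 → F) ≃ₗ[F] ((Fin m ⊕ Fin m) ⊕ Fin 2 → F))
      (Pi.single (Sum.inl c.swap) 1))) = _
  rw [sr_f c c.swap z rfl]
  simp only [map_add, map_sub, map_smul]
  rw [sr_e c.swap c.swap (ν' • z) (swap_ne c.swap), sr_a c.swap (ν' • z) z,
    sr_f c.swap c (ν' • z) (Sum.swap_swap c).symm]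
  simp only [map_add, map_sub, map_smul]
  rw [sr_f c c.swap z rfl, sr_a c z z, sr_e c c z (swap_ne c), sr_a c z (ν' • z), iota_smul,
    pl_smul_right, pl_smul_left, pl_self, norm_smul']
  linear_combination (norm := module) hν • ((ν' * QuadraticAlgebra.norm z - 1) •
    (Pi.single (Sum.inl c.swap) 1 : (Fin m ⊕ Fin m) ⊕ Fin 2 → F)
      - (2 - ν' * QuadraticAlgebra.norm z) • iota m z
      + (QuadraticAlgebra.norm z * (3 - ν' * QuadraticAlgebra.norm z)) •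
        (Pi.single (Sum.inl c) 1 : (Fin m ⊕ Fin m) ⊕ Fin 2 → F))

theorem nn_a (c : Fin m ⊕ Fin m) (z w : QuadraticAlgebra F (-b) a) (ν' : F)
    (hν : ν' * QuadraticAlgebra.norm z = 1) :
    ((nn c z ν' : ↥(O (minusQ m F a b))) :
      ((Fin m ⊕ Fin m) ⊕ Fin 2 → F) ≃ₗ[F] ((Fin m ⊕ Fin m) ⊕ Fin 2 → F))
      (iota m w) = iota m (w - (ν' * pl z w) • z) := by
  show ((sr c z : ↥(O (minusQ m F a b))) :
      ((Fin m ⊕ Fin m) ⊕ Fin 2 → F) ≃ₗ[F] ((Fin m ⊕ Fin m) ⊕ Fin 2 → F))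
    (((sr c.swap (ν' • z) : ↥(O (minusQ m F a b))) :
      ((Fin m ⊕ Fin m) ⊕ Fin 2 → F) ≃ₗ[F] ((Fin m ⊕ Fin m) ⊕ Fin 2 → F))
    (((sr c z : ↥(O (minusQ m F a b))) :
      ((Fin m ⊕ Fin m) ⊕ Fin 2 → F) ≃ₗ[F] ((Fin m ⊕ Fin m) ⊕ Fin 2 → F))
      (iota m w))) = _
  rw [sr_a c z w]
  simp only [map_add, map_sub, map_smul]
  rw [sr_a c.swap (ν' • z) w, sr_f c.swap c (ν' • z) (Sum.swap_swap c).symm]
  simp only [map_add, map_sub, map_smul]
  rw [sr_a c z w, sr_f c c.swap z rfl, sr_e c c z (swap_ne c), sr_a c z (ν' • z), iota_smul,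
    pl_smul_right, pl_smul_left, pl_self, norm_smul', iota_sub, iota_smul]
  linear_combination (norm := module) hν • ((pl z w * (2 - ν' * QuadraticAlgebra.norm z)) •
    (Pi.single (Sum.inl c) 1 : (Fin m ⊕ Fin m) ⊕ Fin 2 → F)
      + (pl z w * ν') • (Pi.single (Sum.inl c.swap) 1 : (Fin m ⊕ Fin m) ⊕ Fin 2 → F)
      + (pl z w * ν') • iota m z)

theorem nn_other (c c' : Fin m ⊕ Fin m) (z : QuadraticAlgebra F (-b) a) (ν' : F)
    (h1 : c' ≠ c) (h2 : c' ≠ c.swap) :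
    ((nn c z ν' : ↥(O (minusQ m F a b))) :
      ((Fin m ⊕ Fin m) ⊕ Fin 2 → F) ≃ₗ[F] ((Fin m ⊕ Fin m) ⊕ Fin 2 → F))
      (Pi.single (Sum.inl c') 1) = Pi.single (Sum.inl c') 1 := by
  show ((sr c z : ↥(O (minusQ m F a b))) :
      ((Fin m ⊕ Fin m) ⊕ Fin 2 → F) ≃ₗ[F] ((Fin m ⊕ Fin m) ⊕ Fin 2 → F))
    (((sr c.swap (ν' • z) : ↥(O (minusQ m F a b))) :
      ((Fin m ⊕ Fin m) ⊕ Fin 2 → F) ≃ₗ[F] ((Fin m ⊕ Fin m) ⊕ Fin 2 → F))
    (((sr c z : ↥(O (minusQ m F a b))) :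
      ((Fin m ⊕ Fin m) ⊕ Fin 2 → F) ≃ₗ[F] ((Fin m ⊕ Fin m) ⊕ Fin 2 → F))
      (Pi.single (Sum.inl c') 1))) = _
  rw [sr_e c c' z h2, sr_e c.swap c' (ν' • z) (by rw [Sum.swap_swap]; exact h1), sr_e c c' z h2]

theorem rho_id (w : QuadraticAlgebra F (-b) a) :
    w - ((1 : F) * pl 1 w) • (1 : QuadraticAlgebra F (-b) a) = -star w := by
  ext
  · simp [pl_eq, QuadraticAlgebra.re_one, QuadraticAlgebra.im_one]
    ring
  · simp [pl_eq, QuadraticAlgebra.re_one, QuadraticAlgebra.im_one]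

theorem torus_id (μ w : QuadraticAlgebra F (-b) a) (ν' : F)
    (hν : ν' * QuadraticAlgebra.norm μ = 1) :
    -star w - (ν' * pl μ (-star w)) • μ = ν' • (μ * μ * w) := by
  rw [QuadraticAlgebra.norm_def] at hν
  ext
  · simp only [pl_eq, QuadraticAlgebra.re_sub, QuadraticAlgebra.re_neg, QuadraticAlgebra.re_star,
      QuadraticAlgebra.im_neg, QuadraticAlgebra.im_star, QuadraticAlgebra.re_smul,
      QuadraticAlgebra.re_mul, QuadraticAlgebra.im_mul, smul_eq_mul]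
    linear_combination (w.re + a * w.im) * hν
  · simp only [pl_eq, QuadraticAlgebra.im_sub, QuadraticAlgebra.re_neg, QuadraticAlgebra.re_star,
      QuadraticAlgebra.im_neg, QuadraticAlgebra.im_star, QuadraticAlgebra.im_smul,
      QuadraticAlgebra.re_mul, QuadraticAlgebra.im_mul, smul_eq_mul]
    linear_combination (-w.im) * hν

theorem psi_id (μ w : QuadraticAlgebra F (-b) a) (ν' : F) :
    -star (ν' • (μ * μ * (-star w))) = (ν' • (star μ * star μ)) * w := by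
  ext
  · simp only [QuadraticAlgebra.re_neg, QuadraticAlgebra.re_star,
      QuadraticAlgebra.im_neg, QuadraticAlgebra.im_star, QuadraticAlgebra.re_smul,
      QuadraticAlgebra.im_smul, QuadraticAlgebra.re_mul, QuadraticAlgebra.im_mul, smul_eq_mul]
    ring
  · simp only [QuadraticAlgebra.re_neg, QuadraticAlgebra.re_star,
      QuadraticAlgebra.im_neg, QuadraticAlgebra.im_star, QuadraticAlgebra.re_smul,
      QuadraticAlgebra.im_smul, QuadraticAlgebra.re_mul, QuadraticAlgebra.im_mul, smul_eq_mul]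
    ring

end nnsec

section absminus

theorem lemmaTK {G : Type*} [Group G] {K : Type*} [Field K] [Finite K] (X : K → G)
    (hXadd : ∀ x y, X (x + y) = X x * X y) (h h' : G) (μ l : K)
    (hk : ∀ c, h * X c * h⁻¹ = X (μ * μ * c)) (hl : ∀ c, h' * X c * h'⁻¹ = X (l * c))
    (hcomm : h * h' = h' * h) (kgen : ∀ c : K, c ≠ 0 → ∃ j : ℕ, c = μ ^ j)
    (hk1 : μ * μ ≠ 1) (hl0 : l ≠ 0) (hl1 : l ≠ 1) (H : Subgroup G) (hh : h ∈ H)
    (hg : X 1 * h' * (X 1)⁻¹ ∈ H) : ∀ c, X c ∈ H := by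
  have hX0 : X 0 = 1 := by
    have h1 := hXadd 0 0
    rw [add_zero] at h1
    exact mul_eq_left.mp h1.symm
  have hXneg : ∀ x, X (-x) = (X x)⁻¹ := by
    intro x
    apply eq_inv_of_mul_eq_one_left
    rw [← hXadd, neg_add_cancel, hX0]
  obtain ⟨u, hu⟩ : ∃ u : K, u = l⁻¹ - 1 := ⟨_, rfl⟩
  have e1 : X 1 * h' * (X 1)⁻¹ = h' * X u := by
    have e2 : h' * X l⁻¹ = X 1 * h' := by
      have h1 := hl l⁻¹
      rw [mul_inv_cancel₀ hl0] at h1
      rw [← h1]; group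
    rw [hu, sub_eq_add_neg, hXadd, hXneg, ← mul_assoc, e2]
  rw [e1] at hg
  obtain ⟨c₁, hc₁⟩ : ∃ c₁ : K, c₁ = l * (μ * μ * u + -u) := ⟨_, rfl⟩
  have hc₁ne : c₁ ≠ 0 := by
    have e : c₁ = (μ * μ - 1) * (1 - l) := by
      rw [hc₁, hu]; field_simp; ring
    rw [e]
    exact mul_ne_zero (sub_ne_zero.mpr hk1) (sub_ne_zero.mpr (Ne.symm hl1))
  have hcm : h * (h' * X u) * h⁻¹ * (h' * X u)⁻¹ = X c₁ := by
    have e1 : h * (h' * X u) * h⁻¹ * (h' * X u)⁻¹ =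
        h' * ((h * X u * h⁻¹) * (X u)⁻¹) * h'⁻¹ := by
      rw [_root_.mul_inv_rev, ← mul_assoc h h', hcomm]; group
    rw [e1, hk, ← hXneg, ← hXadd, hl, hc₁]
  have hXc1 : X c₁ ∈ H := by
    rw [← hcm]
    exact H.mul_mem (H.mul_mem (H.mul_mem hh hg) (H.inv_mem hh)) (H.inv_mem hg)
  have hpow : ∀ j : ℕ, X ((μ * μ) ^ j * c₁) ∈ H := by
    intro j
    induction j with
    | zero => rw [pow_zero, one_mul]; exact hXc1
    | succ j ih =>
      have e : X ((μ * μ) ^ (j + 1) * c₁) = h * X ((μ * μ) ^ j * c₁) * h⁻¹ := by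
        rw [hk]; congr 1; ring
      rw [e]
      exact H.mul_mem (H.mul_mem hh ih) (H.inv_mem hh)
  let A : AddSubgroup K :=
    { carrier := {c | X c ∈ H}
      zero_mem' := by show X 0 ∈ H; rw [hX0]; exact H.one_mem
      add_mem' := by
        intro x y hx hy
        show X (x + y) ∈ H
        rw [hXadd]; exact H.mul_mem hx hy
      neg_mem' := by
        intro x hx
        show X (-x) ∈ H
        rw [hXneg]; exact H.inv_mem hx }
  intro c
  have hsq : ∀ t : K, c₁ * t ^ 2 ∈ A := by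
    intro t
    show X (c₁ * t ^ 2) ∈ H
    by_cases ht : t = 0
    · rw [ht]
      have e : c₁ * (0 : K) ^ 2 = 0 := by ring
      rw [e, hX0]; exact H.one_mem
    · obtain ⟨j, hj⟩ := kgen t ht
      have e : c₁ * t ^ 2 = (μ * μ) ^ j * c₁ := by rw [hj]; ring
      rw [e]; exact hpow j
  exact Cfsg.Agent.S2411.sq_all A c₁ hc₁ne hsq c

end absminus

section mainminus
variable {F : Type*} [Field F]
open Cfsg.Agent.Lib.Helper44.NegPairs
open Cfsg.Agent.S2411 (Lm Lm_one Lm_mul det_wMat wMat_orth)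
open Cfsg.Agent.S2403 (wMat wMat_apply eps eps_mul_self)
open Cfsg.Agent.S2413 (sg orbit_all conj_diag Lm_cox)

theorem sep_minus_two (h2 : (2 : F) = 0) (m : ℕ) (a b : F) (ha : a ≠ 0) :
    Sep (minusQ m F a b) := by
  apply sep_of_H1 (minusQ m F a b) Sum.inl (minus_H1 m a b)
  intro x hx k hk
  have h0 := hx (Pi.single (Sum.inr 0) 1)
  have h1 := hx (Pi.single (Sum.inr 1) 1)
  have e0 : polar (minusQ m F a b) x (Pi.single (Sum.inr 0) 1)
      = 2 * x (Sum.inr 0) + a * x (Sum.inr 1) := by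
    show polar (Cfsg.quadFormMinus m F a b) x (Pi.single (Sum.inr 0) 1) = _
    unfold polar Cfsg.quadFormMinus
    simp
    ring
  have e1 : polar (minusQ m F a b) x (Pi.single (Sum.inr 1) 1)
      = a * x (Sum.inr 0) + 2 * b * x (Sum.inr 1) := by
    show polar (Cfsg.quadFormMinus m F a b) x (Pi.single (Sum.inr 1) 1) = _
    unfold polar Cfsg.quadFormMinus
    simp
    ring
  rw [e0, h2, zero_mul, zero_add] at h0
  rw [e1, h2, zero_mul, zero_mul, add_zero] at h1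
  have z1 : x (Sum.inr 1) = 0 := by
    rcases mul_eq_zero.mp h0 with h | h
    · exact absurd h ha
    · exact h
  have z0 : x (Sum.inr 0) = 0 := by
    rcases mul_eq_zero.mp h1 with h | h
    · exact absurd h ha
    · exact h
  rcases k with c | t
  · exact absurd ⟨c, rfl⟩ hk
  · fin_cases t
    · exact z0
    · exact z1

theorem conj_apply {V : Type*} [AddCommGroup V] [Module F V]
    {Q : QuadraticForm F V} (N g : ↥(O Q)) (x y x₂ : V)
    (hN : (N : V ≃ₗ[F] V) x = y) (hg : (g : V ≃ₗ[F] V) x = x₂) :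
    ((N * g * N⁻¹ : ↥(O Q)) : V ≃ₗ[F] V) y = (N : V ≃ₗ[F] V) x₂ := by
  have e1 : ((N⁻¹ : ↥(O Q)) : V ≃ₗ[F] V) ((N : V ≃ₗ[F] V) x) = x := by
    have h1 : ((N⁻¹ * N : ↥(O Q)) : V ≃ₗ[F] V) x = x := by
      rw [inv_mul_cancel]; rfl
    exact h1
  show (N : V ≃ₗ[F] V) ((g : V ≃ₗ[F] V) (((N⁻¹ : ↥(O Q)) : V ≃ₗ[F] V) y)) = _
  rw [← hN, e1, hg]

variable [Fintype F]

set_option maxHeartbeats 400000 in
theorem main_minus (n : ℕ) (hn : 1 ≤ n) (a b : F) (hfact : ∀ r : F, r ^ 2 ≠ -b + a * r)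
    (hA : (2 : F) ≠ 0 ∨ a ≠ 0) (hS : Sep (minusQ (n + 1) F a b)) :
    ∃ g h : ↥(O (minusQ (n + 1) F a b)), g ∈ EG (minusQ (n + 1) F a b) ∧
      h ∈ EG (minusQ (n + 1) F a b) ∧
      EG (minusQ (n + 1) F a b) ≤ Subgroup.closure ({g, h} : Set ↥(O (minusQ (n + 1) F a b))) := by
  classical
  haveI : Fact (∀ r : F, r ^ 2 ≠ -b + a * r) := ⟨hfact⟩
  haveI : Finite (QuadraticAlgebra F (-b) a) :=
    Finite.of_equiv (F × F) (QuadraticAlgebra.equivProd (-b) a).symm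
  haveI : Nontrivial (Fin (n + 1)) := Fin.nontrivial_iff_two_le.mpr (by omega)
  have h1v : (1 : Fin (n + 1)).val = 1 := by rw [Fin.val_one', Nat.mod_eq_of_lt (by omega)]
  have hne : ∀ {x y : Fin (n + 1)}, x.val ≠ y.val → x ≠ y := fun h h' => h (congrArg Fin.val h')
  have h01 : (0 : Fin (n + 1)) ≠ 1 := hne (by rw [Fin.val_zero, h1v]; omega)
  -- a generator of the multiplicative group of the quadratic extension
  obtain ⟨μu, hμu⟩ := IsCyclic.exists_generator (α := (QuadraticAlgebra F (-b) a)ˣ)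
  obtain ⟨μ, hμ⟩ : ∃ μ : QuadraticAlgebra F (-b) a, μ = (μu : QuadraticAlgebra F (-b) a) :=
    ⟨_, rfl⟩
  have hμ0 : μ ≠ 0 := by rw [hμ]; exact Units.ne_zero μu
  have kgen : ∀ c : QuadraticAlgebra F (-b) a, c ≠ 0 → ∃ j : ℕ, c = μ ^ j := by
    intro c hc
    have h3 := hμu (Units.mk0 c hc)
    rw [← mem_powers_iff_mem_zpowers] at h3
    obtain ⟨j, hj⟩ := (Submonoid.mem_powers_iff _ _).mp h3
    refine ⟨j, ?_⟩
    have h4 := congrArg Units.val hj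
    rw [Units.val_pow_eq_pow_val, Units.val_mk0] at h4
    rw [hμ]
    exact h4.symm
  have hcardK : 4 ≤ Nat.card (QuadraticAlgebra F (-b) a) := by
    rw [Nat.card_congr (QuadraticAlgebra.equivProd (-b) a), Nat.card_prod,
      Nat.card_eq_fintype_card]
    have := Fintype.one_lt_card (α := F)
    nlinarith
  have hμ2 : μ * μ ≠ 1 := by
    intro h
    have h1 : μu ^ 2 = 1 :=
      Units.ext (by rw [Units.val_pow_eq_pow_val, pow_two, ← hμ, h, Units.val_one])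
    have h2 : orderOf μu ∣ 2 := orderOf_dvd_of_pow_eq_one h1
    have h3 : orderOf μu = Nat.card (QuadraticAlgebra F (-b) a)ˣ :=
      orderOf_eq_card_of_forall_mem_zpowers hμu
    rw [h3, Nat.card_units] at h2
    have := Nat.le_of_dvd (by norm_num) h2
    omega
  have hμim : μ.im ≠ 0 := by
    intro h
    have hω : (⟨0, 1⟩ : QuadraticAlgebra F (-b) a) ≠ 0 := by
      intro h0
      have h1 := congrArg QuadraticAlgebra.im h0
      exact one_ne_zero h1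
    obtain ⟨j, hj⟩ := kgen ⟨0, 1⟩ hω
    have hpow : ∀ j : ℕ, (μ ^ j).im = 0 := by
      intro j
      induction j with
      | zero => rw [pow_zero]; rfl
      | succ j ih => rw [pow_succ, QuadraticAlgebra.im_mul, ih, h]; ring
    have h1 := congrArg QuadraticAlgebra.im hj
    rw [hpow] at h1
    exact one_ne_zero h1
  obtain ⟨ν', hν'⟩ : ∃ ν' : F, ν' = (QuadraticAlgebra.norm μ)⁻¹ := ⟨_, rfl⟩
  have hnorm : QuadraticAlgebra.norm μ ≠ 0 := fun h =>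
    hμ0 (QuadraticAlgebra.norm_eq_zero_iff_eq_zero.mp h)
  have hν : ν' * QuadraticAlgebra.norm μ = 1 := by rw [hν', inv_mul_cancel₀ hnorm]
  have hν1 : (1 : F) * QuadraticAlgebra.norm (1 : QuadraticAlgebra F (-b) a) = 1 := by
    rw [map_one, mul_one]
  -- the Coxeter element
  obtain ⟨w, hw⟩ : ∃ w : SpecialLinearGroup (Fin (n + 1)) F,
      (w : Matrix (Fin (n + 1)) (Fin (n + 1)) F) = wMat F n := ⟨⟨wMat F n, det_wMat F n⟩, rfl⟩
  obtain ⟨W, hWEG, hW⟩ := SL_EG_minus (F := F) (a := a) (b := b) w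
  rw [Lm_cox n w hw] at hW
  have hW_l : ∀ i : Fin (n + 1),
      (W : ((Fin (n + 1) ⊕ Fin (n + 1)) ⊕ Fin 2 → F) ≃ₗ[F] ((Fin (n + 1) ⊕ Fin (n + 1)) ⊕ Fin 2 → F))
        (Pi.single (Sum.inl (Sum.inl i)) 1) =
        eps F n i • Pi.single (Sum.inl (Sum.inl (i - 1))) 1 := fun i => by
    rw [hW]; exact cox_l n i
  have hW_r : ∀ i : Fin (n + 1),
      (W : ((Fin (n + 1) ⊕ Fin (n + 1)) ⊕ Fin 2 → F) ≃ₗ[F] ((Fin (n + 1) ⊕ Fin (n + 1)) ⊕ Fin 2 → F))
        (Pi.single (Sum.inl (Sum.inr i)) 1) =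
        eps F n i • Pi.single (Sum.inl (Sum.inr (i - 1))) 1 := fun i => by
    rw [hW]; exact cox_r n i
  have hW_i : ∀ z : QuadraticAlgebra F (-b) a,
      (W : ((Fin (n + 1) ⊕ Fin (n + 1)) ⊕ Fin 2 → F) ≃ₗ[F] ((Fin (n + 1) ⊕ Fin (n + 1)) ⊕ Fin 2 → F))
        (iota (n + 1) z) = iota (n + 1) z := fun z => by
    rw [hW]; exact extN_iota _ z
  have heps : ∀ i : Fin (n + 1), eps F n i ≠ 0 := fun i h => by
    have h3 := eps_mul_self F n i
    rw [h, mul_zero] at h3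
    exact zero_ne_one h3
  obtain ⟨n₀, hn₀⟩ : ∃ n₀ : ↥(O (minusQ (n + 1) F a b)),
      n₀ = nn (Sum.inl 0) (1 : QuadraticAlgebra F (-b) a) 1 := ⟨_, rfl⟩
  have hn₀_i : ∀ z : QuadraticAlgebra F (-b) a,
      (n₀ : ((Fin (n + 1) ⊕ Fin (n + 1)) ⊕ Fin 2 → F) ≃ₗ[F] ((Fin (n + 1) ⊕ Fin (n + 1)) ⊕ Fin 2 → F))
        (iota (n + 1) z) = iota (n + 1) (-star z) := fun z => by
    rw [hn₀, nn_a _ _ _ _ hν1, rho_id]
  have hn₀_e : (n₀ : ((Fin (n + 1) ⊕ Fin (n + 1)) ⊕ Fin 2 → F) ≃ₗ[F]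
      ((Fin (n + 1) ⊕ Fin (n + 1)) ⊕ Fin 2 → F)) (Pi.single (Sum.inl (Sum.inl 0)) 1) =
        (-1 : F) • Pi.single (Sum.inl (Sum.inr 0)) 1 := by
    rw [hn₀, nn_e _ _ _ hν1]; rfl
  have hn₀_f : (n₀ : ((Fin (n + 1) ⊕ Fin (n + 1)) ⊕ Fin 2 → F) ≃ₗ[F]
      ((Fin (n + 1) ⊕ Fin (n + 1)) ⊕ Fin 2 → F)) (Pi.single (Sum.inl (Sum.inr 0)) 1) =
        (-1 : F) • Pi.single (Sum.inl (Sum.inl 0)) 1 := by
    have h3 := nn_f (m := n + 1) (Sum.inl 0) (1 : QuadraticAlgebra F (-b) a) 1 hν1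
    rw [map_one] at h3
    rw [hn₀]; exact h3
  have hn₀_o : ∀ c : Fin (n + 1) ⊕ Fin (n + 1), c ≠ Sum.inl 0 → c ≠ Sum.inr 0 →
      (n₀ : ((Fin (n + 1) ⊕ Fin (n + 1)) ⊕ Fin 2 → F) ≃ₗ[F] ((Fin (n + 1) ⊕ Fin (n + 1)) ⊕ Fin 2 → F))
        (Pi.single (Sum.inl c) 1) = Pi.single (Sum.inl c) 1 := fun c h1 h2 => by
    rw [hn₀]; exact nn_other _ _ _ _ h1 h2
  obtain ⟨N, hN⟩ : ∃ N : ↥(O (minusQ (n + 1) F a b)), N = W * n₀ := ⟨_, rfl⟩
  have hNEG : N ∈ EG (minusQ (n + 1) F a b) := by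
    rw [hN, hn₀]; exact mul_mem hWEG (nn_mem _ _ _)
  have hN_i : ∀ z : QuadraticAlgebra F (-b) a,
      (N : ((Fin (n + 1) ⊕ Fin (n + 1)) ⊕ Fin 2 → F) ≃ₗ[F] ((Fin (n + 1) ⊕ Fin (n + 1)) ⊕ Fin 2 → F))
        (iota (n + 1) z) = iota (n + 1) (-star z) := fun z => by
    rw [hN]
    show (W : ((Fin (n + 1) ⊕ Fin (n + 1)) ⊕ Fin 2 → F) ≃ₗ[F]
        ((Fin (n + 1) ⊕ Fin (n + 1)) ⊕ Fin 2 → F))
      ((n₀ : ((Fin (n + 1) ⊕ Fin (n + 1)) ⊕ Fin 2 → F) ≃ₗ[F]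
        ((Fin (n + 1) ⊕ Fin (n + 1)) ⊕ Fin 2 → F)) (iota (n + 1) z)) = _
    rw [hn₀_i, hW_i]
  have hN_b : ∀ c : Fin (n + 1) ⊕ Fin (n + 1), ∃ ε : F, ε ≠ 0 ∧
      (N : ((Fin (n + 1) ⊕ Fin (n + 1)) ⊕ Fin 2 → F) ≃ₗ[F] ((Fin (n + 1) ⊕ Fin (n + 1)) ⊕ Fin 2 → F))
        (Pi.single (Sum.inl c) 1) = ε • Pi.single (Sum.inl (sg c)) 1 := by
    intro c
    have hNc : (N : ((Fin (n + 1) ⊕ Fin (n + 1)) ⊕ Fin 2 → F) ≃ₗ[F]
        ((Fin (n + 1) ⊕ Fin (n + 1)) ⊕ Fin 2 → F)) (Pi.single (Sum.inl c) 1) =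
        (W : ((Fin (n + 1) ⊕ Fin (n + 1)) ⊕ Fin 2 → F) ≃ₗ[F]
          ((Fin (n + 1) ⊕ Fin (n + 1)) ⊕ Fin 2 → F))
        ((n₀ : ((Fin (n + 1) ⊕ Fin (n + 1)) ⊕ Fin 2 → F) ≃ₗ[F]
          ((Fin (n + 1) ⊕ Fin (n + 1)) ⊕ Fin 2 → F)) (Pi.single (Sum.inl c) 1)) := by
      rw [hN]; rfl
    rw [hNc]
    rcases c with i | i
    · by_cases hi : i = 0
      · subst hi
        refine ⟨-eps F n 0, neg_ne_zero.mpr (heps 0), ?_⟩
        rw [hn₀_e, map_smul, hW_r]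
        simp [sg]
      · refine ⟨eps F n i, heps i, ?_⟩
        rw [hn₀_o _ (by simpa using hi) (by simp), hW_l]
        simp [sg, hi]
    · by_cases hi : i = 0
      · subst hi
        refine ⟨-eps F n 0, neg_ne_zero.mpr (heps 0), ?_⟩
        rw [hn₀_f, map_smul, hW_l]
        simp [sg]
      · refine ⟨eps F n i, heps i, ?_⟩
        rw [hn₀_o _ (by simp) (by simpa using hi), hW_r]
        simp [sg, hi]
  -- the torus element
  obtain ⟨ta, hta⟩ : ∃ ta : ↥(O (minusQ (n + 1) F a b)), ta = nn (Sum.inl 0) μ ν' * n₀ :=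
    ⟨_, rfl⟩
  have htaEG : ta ∈ EG (minusQ (n + 1) F a b) := by
    rw [hta, hn₀]; exact mul_mem (nn_mem _ _ _) (nn_mem _ _ _)
  have hta_def : ∀ x : (Fin (n + 1) ⊕ Fin (n + 1)) ⊕ Fin 2 → F,
      (ta : ((Fin (n + 1) ⊕ Fin (n + 1)) ⊕ Fin 2 → F) ≃ₗ[F] ((Fin (n + 1) ⊕ Fin (n + 1)) ⊕ Fin 2 → F)) x =
      ((nn (Sum.inl 0) μ ν' : ↥(O (minusQ (n + 1) F a b))) :
        ((Fin (n + 1) ⊕ Fin (n + 1)) ⊕ Fin 2 → F) ≃ₗ[F] ((Fin (n + 1) ⊕ Fin (n + 1)) ⊕ Fin 2 → F))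
      ((n₀ : ((Fin (n + 1) ⊕ Fin (n + 1)) ⊕ Fin 2 → F) ≃ₗ[F]
        ((Fin (n + 1) ⊕ Fin (n + 1)) ⊕ Fin 2 → F)) x) := fun x => by
    rw [hta]; rfl
  have hta_i : ∀ z : QuadraticAlgebra F (-b) a,
      (ta : ((Fin (n + 1) ⊕ Fin (n + 1)) ⊕ Fin 2 → F) ≃ₗ[F] ((Fin (n + 1) ⊕ Fin (n + 1)) ⊕ Fin 2 → F))
        (iota (n + 1) z) = iota (n + 1) (ν' • (μ * μ * z)) := fun z => by
    rw [hta_def, hn₀_i, nn_a _ _ _ _ hν, torus_id μ z ν' hν]
  have hta_0 : (ta : ((Fin (n + 1) ⊕ Fin (n + 1)) ⊕ Fin 2 → F) ≃ₗ[F]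
      ((Fin (n + 1) ⊕ Fin (n + 1)) ⊕ Fin 2 → F)) (Pi.single (Sum.inl (Sum.inl 0)) 1) =
        QuadraticAlgebra.norm μ • Pi.single (Sum.inl (Sum.inl 0)) 1 := by
    rw [hta_def, hn₀_e, map_smul]
    have h3 := nn_f (m := n + 1) (Sum.inl 0) μ ν' hν
    have h4 : ((nn (Sum.inl 0) μ ν' : ↥(O (minusQ (n + 1) F a b))) :
        ((Fin (n + 1) ⊕ Fin (n + 1)) ⊕ Fin 2 → F) ≃ₗ[F] ((Fin (n + 1) ⊕ Fin (n + 1)) ⊕ Fin 2 → F))
        (Pi.single (Sum.inl (Sum.inr 0)) 1) =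
          -QuadraticAlgebra.norm μ • Pi.single (Sum.inl (Sum.inl 0)) 1 := h3
    rw [h4, smul_smul]
    congr 1
    ring
  have hta_0' : (ta : ((Fin (n + 1) ⊕ Fin (n + 1)) ⊕ Fin 2 → F) ≃ₗ[F]
      ((Fin (n + 1) ⊕ Fin (n + 1)) ⊕ Fin 2 → F)) (Pi.single (Sum.inl (Sum.inr 0)) 1) =
        ν' • Pi.single (Sum.inl (Sum.inr 0)) 1 := by
    rw [hta_def, hn₀_f, map_smul]
    have h3 := nn_e (m := n + 1) (Sum.inl 0) μ ν' hν
    have h4 : ((nn (Sum.inl 0) μ ν' : ↥(O (minusQ (n + 1) F a b))) :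
        ((Fin (n + 1) ⊕ Fin (n + 1)) ⊕ Fin 2 → F) ≃ₗ[F] ((Fin (n + 1) ⊕ Fin (n + 1)) ⊕ Fin 2 → F))
        (Pi.single (Sum.inl (Sum.inl 0)) 1) =
          -ν' • Pi.single (Sum.inl (Sum.inr 0)) 1 := h3
    rw [h4, smul_smul]
    congr 1
    ring
  have hta_o : ∀ c : Fin (n + 1) ⊕ Fin (n + 1), c ≠ Sum.inl 0 → c ≠ Sum.inr 0 →
      (ta : ((Fin (n + 1) ⊕ Fin (n + 1)) ⊕ Fin 2 → F) ≃ₗ[F] ((Fin (n + 1) ⊕ Fin (n + 1)) ⊕ Fin 2 → F))
        (Pi.single (Sum.inl c) 1) = Pi.single (Sum.inl c) 1 := fun c h1 h2 => by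
    rw [hta_def, hn₀_o c h1 h2]; exact nn_other _ _ _ _ h1 h2
  have hta_b : ∀ c : Fin (n + 1) ⊕ Fin (n + 1), ∃ δ : F,
      (ta : ((Fin (n + 1) ⊕ Fin (n + 1)) ⊕ Fin 2 → F) ≃ₗ[F] ((Fin (n + 1) ⊕ Fin (n + 1)) ⊕ Fin 2 → F))
        (Pi.single (Sum.inl c) 1) = δ • Pi.single (Sum.inl c) 1 := by
    intro c
    by_cases h1 : c = Sum.inl 0
    · rw [h1]; exact ⟨_, hta_0⟩
    · by_cases h2 : c = Sum.inr 0
      · rw [h2]; exact ⟨_, hta_0'⟩
      · exact ⟨1, by rw [hta_o c h1 h2, one_smul]⟩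
  -- the conjugate torus element
  obtain ⟨l, hl⟩ : ∃ l : QuadraticAlgebra F (-b) a, l = ν' • (star μ * star μ) := ⟨_, rfl⟩
  obtain ⟨ta', hta'⟩ : ∃ ta' : ↥(O (minusQ (n + 1) F a b)), ta' = N * ta * N⁻¹ := ⟨_, rfl⟩
  have hta'_b : ∀ (c : Fin (n + 1) ⊕ Fin (n + 1)) (δ : F),
      (ta : ((Fin (n + 1) ⊕ Fin (n + 1)) ⊕ Fin 2 → F) ≃ₗ[F] ((Fin (n + 1) ⊕ Fin (n + 1)) ⊕ Fin 2 → F))
        (Pi.single (Sum.inl c) 1) = δ • Pi.single (Sum.inl c) 1 →
      (ta' : ((Fin (n + 1) ⊕ Fin (n + 1)) ⊕ Fin 2 → F) ≃ₗ[F] ((Fin (n + 1) ⊕ Fin (n + 1)) ⊕ Fin 2 → F))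
        (Pi.single (Sum.inl (sg c)) 1) = δ • Pi.single (Sum.inl (sg c)) 1 := by
    intro c δ hδ
    obtain ⟨ε, hε, hNc⟩ := hN_b c
    rw [hta']; exact conj_diag N ta _ _ ε δ hε hNc hδ
  have hta'_i : ∀ z : QuadraticAlgebra F (-b) a,
      (ta' : ((Fin (n + 1) ⊕ Fin (n + 1)) ⊕ Fin 2 → F) ≃ₗ[F] ((Fin (n + 1) ⊕ Fin (n + 1)) ⊕ Fin 2 → F))
        (iota (n + 1) z) = iota (n + 1) (l * z) := fun z => by
    have h3 := conj_apply N ta (iota (n + 1) (-star z)) (iota (n + 1) z)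
      (iota (n + 1) (ν' • (μ * μ * (-star z))))
      (by rw [hN_i, star_neg, neg_neg, star_star]) (hta_i _)
    rw [hta', h3, hN_i, psi_id, hl]
  have hcomm : ta * ta' = ta' * ta := by
    have e : ta * ta' * N = ta' * ta * N := by
      apply Subtype.ext
      apply LinearEquiv.toLinearMap_injective
      apply (Pi.basisFun F ((Fin (n + 1) ⊕ Fin (n + 1)) ⊕ Fin 2)).ext
      intro i
      rw [Pi.basisFun_apply]
      show (ta : ((Fin (n + 1) ⊕ Fin (n + 1)) ⊕ Fin 2 → F) ≃ₗ[F]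
          ((Fin (n + 1) ⊕ Fin (n + 1)) ⊕ Fin 2 → F))
        ((ta' : ((Fin (n + 1) ⊕ Fin (n + 1)) ⊕ Fin 2 → F) ≃ₗ[F]
          ((Fin (n + 1) ⊕ Fin (n + 1)) ⊕ Fin 2 → F))
        ((N : ((Fin (n + 1) ⊕ Fin (n + 1)) ⊕ Fin 2 → F) ≃ₗ[F]
          ((Fin (n + 1) ⊕ Fin (n + 1)) ⊕ Fin 2 → F)) (Pi.single i 1))) =
        (ta' : ((Fin (n + 1) ⊕ Fin (n + 1)) ⊕ Fin 2 → F) ≃ₗ[F]
          ((Fin (n + 1) ⊕ Fin (n + 1)) ⊕ Fin 2 → F))
        ((ta : ((Fin (n + 1) ⊕ Fin (n + 1)) ⊕ Fin 2 → F) ≃ₗ[F]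
          ((Fin (n + 1) ⊕ Fin (n + 1)) ⊕ Fin 2 → F))
        ((N : ((Fin (n + 1) ⊕ Fin (n + 1)) ⊕ Fin 2 → F) ≃ₗ[F]
          ((Fin (n + 1) ⊕ Fin (n + 1)) ⊕ Fin 2 → F)) (Pi.single i 1)))
      rcases i with c | t
      · obtain ⟨ε, hε, hNc⟩ := hN_b c
        obtain ⟨δ, hδ⟩ := hta_b c
        obtain ⟨δ', hδ'⟩ := hta_b (sg c)
        rw [hNc]
        simp only [map_smul, hta'_b c δ hδ, hδ']
        rw [smul_comm δ' δ]
      · obtain ⟨z, hz⟩ : ∃ z : QuadraticAlgebra F (-b) a,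
            (Pi.single (Sum.inr t) 1 : (Fin (n + 1) ⊕ Fin (n + 1)) ⊕ Fin 2 → F) =
              iota (n + 1) z := by
          fin_cases t
          · exact ⟨1, iota_one.symm⟩
          · exact ⟨⟨0, 1⟩, iota_omega.symm⟩
        rw [hz, hN_i, hta'_i, hta_i, hta_i, hta'_i]
        congr 1
        rw [mul_smul_comm]
        congr 1
        ring
    exact mul_right_cancel e
  have hXk : ∀ z : QuadraticAlgebra F (-b) a,
      ta * sr (Sum.inl 0) z * ta⁻¹ = sr (Sum.inl 0) (μ * μ * z) := by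
    intro z
    rw [sr_conj ta (Sum.inl 0) (Sum.inl 0) (QuadraticAlgebra.norm μ) z (ν' • (μ * μ * z)) hta_0
      (hta_i z), smul_smul, mul_comm, hν, one_smul]
  have hXl : ∀ z : QuadraticAlgebra F (-b) a,
      ta' * sr (Sum.inl 0) z * ta'⁻¹ = sr (Sum.inl 0) (l * z) := by
    intro z
    have e1 : (ta' : ((Fin (n + 1) ⊕ Fin (n + 1)) ⊕ Fin 2 → F) ≃ₗ[F]
        ((Fin (n + 1) ⊕ Fin (n + 1)) ⊕ Fin 2 → F)) (Pi.single (Sum.inl (Sum.inl 0)) 1) =
          (1 : F) • Pi.single (Sum.inl (Sum.inl 0)) 1 := by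
      have h3 := hta'_b (Sum.inl 1) 1
        (by rw [hta_o (Sum.inl 1) (by simpa using h01.symm) (by simp), one_smul])
      have e : sg (Sum.inl (1 : Fin (n + 1))) = Sum.inl 0 := by simp [sg, h01.symm]
      rw [e] at h3; exact h3
    rw [sr_conj ta' (Sum.inl 0) (Sum.inl 0) 1 z (l * z) e1 (hta'_i z), one_smul]
  have hl_mul : QuadraticAlgebra.norm μ • l = star μ * star μ := by
    rw [hl, smul_smul, mul_comm, hν, one_smul]
  have hsμ : star μ ≠ 0 := fun h => hμ0 (star_eq_zero.mp h)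
  have hl0 : l ≠ 0 := by
    intro h0
    rw [h0, smul_zero] at hl_mul
    exact hsμ (mul_self_eq_zero.mp hl_mul.symm)
  have hl1 : l ≠ 1 := by
    intro h1
    rw [h1, ← Algebra.algebraMap_eq_smul_one, QuadraticAlgebra.algebraMap_norm_eq_mul_star] at hl_mul
    have h3 : μ = star μ := mul_right_cancel₀ hsμ hl_mul
    have h4 := congrArg QuadraticAlgebra.im h3
    have h5 := congrArg QuadraticAlgebra.re h3
    rw [QuadraticAlgebra.im_star] at h4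
    rw [QuadraticAlgebra.re_star] at h5
    rcases hA with h2 | ha
    · apply hμim
      have h6 : (2 : F) * μ.im = 0 := by linear_combination h4
      rcases mul_eq_zero.mp h6 with h | h
      · exact absurd h h2
      · exact h
    · apply hμim
      have h6 : a * μ.im = 0 := by linear_combination -h5
      rcases mul_eq_zero.mp h6 with h | h
      · exact absurd h ha
      · exact h
  obtain ⟨w₀, hw₀⟩ : ∃ w₀ : QuadraticAlgebra F (-b) a, pl 1 w₀ = -1 := by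
    rcases hA with h2 | ha
    · refine ⟨⟨-(2 : F)⁻¹, 0⟩, ?_⟩
      rw [pl_eq]
      simp [QuadraticAlgebra.re_one, QuadraticAlgebra.im_one]
      field_simp
    · refine ⟨⟨0, -a⁻¹⟩, ?_⟩
      rw [pl_eq]
      simp [QuadraticAlgebra.re_one, QuadraticAlgebra.im_one]
      field_simp
  refine ⟨ta, sr (Sum.inl 0) 1 * N, htaEG, mul_mem (sr_mem_EG _ _) hNEG, ?_⟩
  obtain ⟨H, hH⟩ : ∃ H : Subgroup ↥(O (minusQ (n + 1) F a b)),
      H = Subgroup.closure {ta, sr (Sum.inl 0) 1 * N} := ⟨_, rfl⟩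
  rw [← hH]
  have htaH : ta ∈ H := by rw [hH]; exact Subgroup.subset_closure (by simp)
  have hbH : sr (Sum.inl 0) 1 * N ∈ H := by rw [hH]; exact Subgroup.subset_closure (by simp)
  have hg : sr (Sum.inl 0) (1 : QuadraticAlgebra F (-b) a) * ta' * (sr (Sum.inl 0) 1)⁻¹ ∈ H := by
    have e : sr (Sum.inl 0) (1 : QuadraticAlgebra F (-b) a) * ta' * (sr (Sum.inl 0) 1)⁻¹ =
        (sr (Sum.inl 0) 1 * N) * ta * (sr (Sum.inl 0) 1 * N)⁻¹ := by rw [hta']; group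
    rw [e]; exact H.mul_mem (H.mul_mem hbH htaH) (H.inv_mem hbH)
  have hX : ∀ z : QuadraticAlgebra F (-b) a, sr (Sum.inl 0) z ∈ H := by
    refine lemmaTK (K := QuadraticAlgebra F (-b) a) (sr (Sum.inl 0)) ?_ ta ta' μ l ?_ ?_ hcomm ?_ ?_ ?_ ?_ H htaH ?_
    · exact sr_add _
    · exact hXk
    · exact hXl
    · exact kgen
    · exact hμ2
    · exact hl0
    · exact hl1
    · exact hg
  have hNH : N ∈ H := by
    have e : N = (sr (Sum.inl 0) (1 : QuadraticAlgebra F (-b) a))⁻¹ * (sr (Sum.inl 0) 1 * N) := by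
      group
    rw [e]; exact H.mul_mem (H.inv_mem (hX 1)) hbH
  have hall : ∀ (c : Fin (n + 1) ⊕ Fin (n + 1)) (z : QuadraticAlgebra F (-b) a), sr c z ∈ H := by
    apply orbit_all (fun c => ∀ z : QuadraticAlgebra F (-b) a, sr c z ∈ H) hX
    intro c hc z
    obtain ⟨ε, hε, hNc⟩ := hN_b c
    have e := sr_conj N c (sg c) ε (-star (ε⁻¹ • z)) (ε⁻¹ • z) hNc
      (by rw [hN_i, star_neg, neg_neg, star_star])
    rw [smul_smul, mul_inv_cancel₀ hε, one_smul] at e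
    rw [← e]; exact H.mul_mem (H.mul_mem hNH (hc _)) (H.inv_mem hNH)
  exact thmGS hS w₀ hw₀ H 0 hall

end mainminus

/-- The simple orthogonal group `PΩ⁻_{2m}(q)` with `m ≥ 4` (commutator subgroup, modulo its centre, of the orthogonal group of `Σ_{i<m−1} x_i y_i + z₁² + a z₁z₂ + b z₂²` with the binary part anisotropic) is generated by two of its elements. -/
theorem result {F : Type*} [Field F] [Fintype F] (m : ℕ) (hm : 4 ≤ m) (a b : F)
    (hab : ∀ z₁ z₂ : F, z₁ ^ 2 + a * z₁ * z₂ + b * z₂ ^ 2 = 0 → z₁ = 0 ∧ z₂ = 0) :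
    ∃ g h : Cfsg.POmega F (Cfsg.quadFormMinus (m - 1) F a b),
      Subgroup.closure ({g, h} : Set (Cfsg.POmega F (Cfsg.quadFormMinus (m - 1) F a b))) = ⊤ := by
  classical
  obtain ⟨n, rfl⟩ : ∃ n, m = n + 2 := ⟨m - 2, by omega⟩
  show ∃ g h : Cfsg.POmega F (Cfsg.quadFormMinus (n + 1) F a b),
    Subgroup.closure ({g, h} : Set (Cfsg.POmega F (Cfsg.quadFormMinus (n + 1) F a b))) = ⊤
  have hfact : ∀ r : F, r ^ 2 ≠ -b + a * r := by
    intro r hr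
    have h1 := hab r (-1) (by rw [hr]; ring)
    exact one_ne_zero (neg_eq_zero.mp h1.2)
  have hA : (2 : F) ≠ 0 ∨ a ≠ 0 := by
    by_cases h2 : (2 : F) = 0
    · right
      intro ha
      haveI : CharP F 2 := CharTwo.of_one_ne_zero_of_two_eq_zero one_ne_zero h2
      obtain ⟨s, hs⟩ := FiniteField.isSquare_of_char_two (ringChar.eq F 2) b
      have h1 := hab s 1 (by rw [ha, hs]; linear_combination (s * s) * h2)
      exact one_ne_zero h1.2
    · left; exact h2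
  have hS : Cfsg.Agent.Lib.Helper44.QSpace.Sep
      (Cfsg.Agent.Lib.Helper44.NegPairs.minusQ (n + 1) F a b) := by
    by_cases h2 : (2 : F) = 0
    · rcases hA with h2' | ha
      · exact absurd h2 h2'
      · exact sep_minus_two h2 (n + 1) a b ha
    · exact Cfsg.Agent.Lib.Helper44.NegPairs.sep_minusQ h2 (n + 1) a b hab
  obtain ⟨g, h, hg, hh, hgh⟩ := main_minus (F := F) n (by omega) a b hfact hA hS
  have hcard : Fintype.card ((Fin (n + 1) ⊕ Fin (n + 1)) ⊕ Fin 2) = 2 * (n + 1) + 2 := by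
    simp [Fintype.card_sum]
    ring
  have hfr : 5 ≤ Module.finrank F ((Fin (n + 1) ⊕ Fin (n + 1)) ⊕ Fin 2 → F) := by
    rw [Module.finrank_fintype_fun_eq_card, hcard]
    omega
  have hgen : commutator ↥(O (Cfsg.Agent.Lib.Helper44.NegPairs.minusQ (n + 1) F a b)) =
      EG (Cfsg.Agent.Lib.Helper44.NegPairs.minusQ (n + 1) F a b) := by
    by_cases h2 : (2 : F) = 0
    · have : CharP F 2 := CharTwo.of_one_ne_zero_of_two_eq_zero one_ne_zero h2
      exact Cfsg.Agent.Lib.Helper5.OmegaGen2.commutator_eq_EG_two hS hfr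
    · exact commutator_eq_EG_odd h2 hS hfr
  obtain ⟨a', ha'⟩ : ∃ a' : ↥(commutator ↥(O (Cfsg.Agent.Lib.Helper44.NegPairs.minusQ (n + 1) F a b))),
      (a' : ↥(O (Cfsg.Agent.Lib.Helper44.NegPairs.minusQ (n + 1) F a b))) = g :=
    ⟨⟨g, by rw [hgen]; exact hg⟩, rfl⟩
  obtain ⟨b', hb'⟩ : ∃ b' : ↥(commutator ↥(O (Cfsg.Agent.Lib.Helper44.NegPairs.minusQ (n + 1) F a b))),
      (b' : ↥(O (Cfsg.Agent.Lib.Helper44.NegPairs.minusQ (n + 1) F a b))) = h :=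
    ⟨⟨h, by rw [hgen]; exact hh⟩, rfl⟩
  have h1 : Subgroup.closure ({a', b'} :
      Set ↥(commutator ↥(O (Cfsg.Agent.Lib.Helper44.NegPairs.minusQ (n + 1) F a b)))) = ⊤ := by
    apply Subgroup.map_injective (Subgroup.subtype_injective _)
    rw [MonoidHom.map_closure, ← MonoidHom.range_eq_map, Subgroup.range_subtype, Set.image_pair]
    show Subgroup.closure {(a' : ↥(O (Cfsg.Agent.Lib.Helper44.NegPairs.minusQ (n + 1) F a b))),
      (b' : ↥(O (Cfsg.Agent.Lib.Helper44.NegPairs.minusQ (n + 1) F a b)))} = _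
    rw [ha', hb', hgen]
    apply le_antisymm
    · rw [Subgroup.closure_le]
      rintro x (rfl | rfl)
      · exact hg
      · exact hh
    · exact hgh
  obtain ⟨e⟩ : Nonempty (↥(Cfsg.Omega F (Cfsg.quadFormMinus (n + 1) F a b)) ≃*
      ↥(commutator ↥(O (Cfsg.Agent.Lib.Helper44.NegPairs.minusQ (n + 1) F a b)))) :=
    ⟨Cfsg.Agent.Lib.Helper5.OmegaSimpleMat.omegaEquiv
      (Cfsg.Agent.Lib.Helper44.NegPairs.minusQ (n + 1) F a b)⟩
  have h2' : Subgroup.closure ({e.symm a', e.symm b'} :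
      Set ↥(Cfsg.Omega F (Cfsg.quadFormMinus (n + 1) F a b))) = ⊤ := by
    have h := congrArg (Subgroup.map e.symm.toMonoidHom) h1
    rw [MonoidHom.map_closure, Subgroup.map_top_of_surjective _ e.symm.surjective,
      Set.image_pair] at h
    exact h
  refine ⟨QuotientGroup.mk (e.symm a'), QuotientGroup.mk (e.symm b'), ?_⟩
  have h3 := congrArg (Subgroup.map (QuotientGroup.mk' (Subgroup.center
    ↥(Cfsg.Omega F (Cfsg.quadFormMinus (n + 1) F a b))))) h2'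
  rw [MonoidHom.map_closure, Subgroup.map_top_of_surjective _ (QuotientGroup.mk'_surjective _)] at h3
  rw [← h3]
  congr 1
  simp [Set.image_pair]

end Cfsg.Agent.S2415
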