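import Cfsg.Statements.S2416
import Cfsg.Agent.Lib.Helper36.ChevNGenOne
import Cfsg.Agent.Lib.Helper36.ChevAll

set_option autoImplicit false
open scoped MatrixGroups
open Cfsg

namespace Cfsg.Agent.S2416

/-- A Chevalley group of type G₂, B₂, D₄, F₄, E₆, E₇ or E₈ over a finite field lies in (indeed equals) the subgroup generated by its monomial subgroup `N` and a single fundamental root subgroup `X_p`, where `p` is a short fundamental root if there are two root lengths (any fundamental root otherwise), provided the characteristic is not 2 for types B₂, F₄ and not 3 for type G₂ (and the field has more than two elements for B₂, G₂). -/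
theorem result {K : Type*} [Field K] [Finite K] (D : Cfsg.Lie.ChevalleyDatum) (hD : D ∈ [Cfsg.Lie.chevG2, Cfsg.Lie.chevB2, Cfsg.Lie.chevD4, Cfsg.Lie.chevF4, Cfsg.Lie.chevE6, Cfsg.Lie.chevE7, Cfsg.Lie.chevE8])
    (hK : D ∈ [Cfsg.Lie.chevB2, Cfsg.Lie.chevG2] → ∃ x : K, x ≠ 0 ∧ x ≠ 1)
    (h2 : D ∈ [Cfsg.Lie.chevB2, Cfsg.Lie.chevF4] → ringChar K ≠ 2) (h3 : D = Cfsg.Lie.chevG2 → ringChar K ≠ 3)
    (i : ℕ) (hi : i < D.rank) (hshort : D.isLong (D.simple i) = false) :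
    D.group K ≤ D.monomialSubgroup K ⊔ D.rootSubgroup K (D.simple i) := by
  simp only [List.mem_cons, List.mem_nil_iff, or_false] at hD
  have two_ne : ringChar K ≠ 2 → (2 : K) ≠ 0 := fun h => Ring.two_ne_zero h
  have three_ne : ringChar K ≠ 3 → (3 : K) ≠ 0 := by
    intro h e
    have hdvd : ringChar K ∣ 3 := (ringChar.spec K 3).mp (by exact_mod_cast e)
    rcases (Nat.dvd_prime Nat.prime_three).mp hdvd with h1 | h1
    · exact CharP.ringChar_ne_one h1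
    · exact h h1
  rcases hD with rfl | rfl | rfl | rfl | rfl | rfl | rfl
  · exact Cfsg.Agent.Lib.Helper36.ChevNGen.one_gen2 Cfsg.Lie.chevG2
      Cfsg.Agent.Lib.Helper36.ChevDG2.weylData Cfsg.Agent.Lib.Helper36.ChevTabG2.tab
      Cfsg.Agent.Lib.Helper36.ChevTabG2.tok _ 2 3 0 3 (by exact_mod_cast (three_ne (h3 rfl)))
      Cfsg.Agent.Lib.Helper36.ChevNGenOne.relG2 Cfsg.Agent.Lib.Helper36.ChevNGenOne.oneG2 i hi hshort
  · exact Cfsg.Agent.Lib.Helper36.ChevNGen.one_gen2 Cfsg.Lie.chevB2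
      Cfsg.Agent.Lib.Helper36.ChevDB2.weylData Cfsg.Agent.Lib.Helper36.ChevTabB2.tab
      Cfsg.Agent.Lib.Helper36.ChevTabB2.tok _ 1 2 0 2 (by exact_mod_cast (two_ne (h2 (by simp))))
      Cfsg.Agent.Lib.Helper36.ChevNGenOne.relB2 Cfsg.Agent.Lib.Helper36.ChevNGenOne.oneB2 i hi hshort
  · exact Cfsg.Agent.Lib.Helper36.ChevNGen.one_gen Cfsg.Lie.chevD4
      Cfsg.Agent.Lib.Helper36.ChevDD4.weylData _ Cfsg.Agent.Lib.Helper36.ChevNGenOne.oneD4 i hi hshort
  · exact Cfsg.Agent.Lib.Helper36.ChevNGen.one_gen2 Cfsg.Lie.chevF4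
      Cfsg.Agent.Lib.Helper36.ChevDF4.weylData Cfsg.Agent.Lib.Helper36.ChevTabF4.tab
      Cfsg.Agent.Lib.Helper36.ChevTabF4.tok _ 3 18 0 2 (by exact_mod_cast (two_ne (h2 (by simp))))
      Cfsg.Agent.Lib.Helper36.ChevNGenOne.relF4 Cfsg.Agent.Lib.Helper36.ChevNGenOne.oneF4 i hi hshort
  · exact Cfsg.Agent.Lib.Helper36.ChevNGen.one_gen Cfsg.Lie.chevE6
      Cfsg.Agent.Lib.Helper36.ChevDE6.weylData _ Cfsg.Agent.Lib.Helper36.ChevNGenOne.oneE6 i hi hshort
  · exact Cfsg.Agent.Lib.Helper36.ChevNGen.one_gen Cfsg.Lie.chevE7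
      Cfsg.Agent.Lib.Helper36.ChevDE7.weylData _ Cfsg.Agent.Lib.Helper36.ChevNGenOne.oneE7 i hi hshort
  · exact Cfsg.Agent.Lib.Helper36.ChevNGen.one_gen Cfsg.Lie.chevE8
      Cfsg.Agent.Lib.Helper36.ChevDE8.weylData _ Cfsg.Agent.Lib.Helper36.ChevNGenOne.oneE8 i hi hshort

end Cfsg.Agent.S2416
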