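import Cfsg.Statements.S2419
import Mathlib

set_option autoImplicit false
open Cfsg

namespace Cfsg.Agent.S2419

section checker
variable {n : ℕ}

/-- The alternating word of length `m` starting with `a`. -/
def alt (a b : Fin n) : ℕ → List (Fin n)
  | 0 => []
  | m + 1 => a :: alt b a m

/-- One rewriting step at position `k`: delete a repeated letter or apply a braid move. -/
def applyStep (M : CoxeterMatrix (Fin n)) (w : List (Fin n)) (k : ℕ) : List (Fin n) :=
  match w.drop k with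
  | a :: b :: rest =>
    if a = b then w.take k ++ rest
    else if (a :: b :: rest).take (M a b) = alt a b (M a b) then
      w.take k ++ (alt b a (M a b) ++ (a :: b :: rest).drop (M a b))
    else w
  | _ => w

/-- One line of a certificate: concatenate earlier words and rewrite. -/
def runLine (M : CoxeterMatrix (Fin n)) (table : List (List (Fin n))) (line : List ℕ × List ℕ) :
    List (List (Fin n)) :=
  table ++ [line.2.foldl (applyStep M) ((line.1.map (fun j => table.getD j [])).flatten)]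

/-- Run a certificate. -/
def run (M : CoxeterMatrix (Fin n)) (table : List (List (Fin n)))
    (lines : List (List ℕ × List ℕ)) : List (List (Fin n)) :=
  lines.foldl (runLine M) table

theorem alt_eq (a b : Fin n) (m : ℕ) :
    alt a b m = (CoxeterSystem.alternatingWord b a m).reverse := by
  induction m generalizing a b with
  | zero => rfl
  | succ m ih =>
    rw [CoxeterSystem.alternatingWord_succ, List.concat_eq_append, List.reverse_append]
    show a :: alt b a m = _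
    rw [ih b a]
    rfl

theorem wordProd_alt (M : CoxeterMatrix (Fin n)) (a b : Fin n) :
    M.toCoxeterSystem.wordProd (alt a b (M a b)) = M.toCoxeterSystem.wordProd (alt b a (M a b)) := by
  rw [alt_eq, alt_eq, CoxeterSystem.wordProd_reverse, CoxeterSystem.wordProd_reverse]
  congr 1
  have h := M.toCoxeterSystem.wordProd_braidWord_eq b a
  unfold CoxeterSystem.braidWord at h
  rw [M.symmetric b a] at h
  rw [h]

theorem applyStep_sound (M : CoxeterMatrix (Fin n)) (w : List (Fin n)) (k : ℕ) :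
    M.toCoxeterSystem.wordProd (applyStep M w k) = M.toCoxeterSystem.wordProd w := by
  unfold applyStep
  split
  · rename_i a b rest h
    have hw : w = w.take k ++ (a :: b :: rest) := by rw [← h, List.take_append_drop]
    split_ifs with h1 h2
    · subst h1
      conv_rhs => rw [hw]
      rw [CoxeterSystem.wordProd_append, CoxeterSystem.wordProd_append,
        CoxeterSystem.wordProd_cons, CoxeterSystem.wordProd_cons,
        CoxeterSystem.simple_mul_simple_cancel_left]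
    · conv_rhs => rw [hw]
      have h3 : a :: b :: rest = alt a b (M a b) ++ (a :: b :: rest).drop (M a b) := by
        conv_lhs => rw [← List.take_append_drop (M a b) (a :: b :: rest)]
        rw [h2]
      conv_rhs => rw [h3]
      rw [CoxeterSystem.wordProd_append, CoxeterSystem.wordProd_append,
        CoxeterSystem.wordProd_append, CoxeterSystem.wordProd_append, wordProd_alt]
    · rfl
  · rfl

theorem foldl_sound (M : CoxeterMatrix (Fin n)) (steps : List ℕ) (w : List (Fin n)) :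
    M.toCoxeterSystem.wordProd (steps.foldl (applyStep M) w) = M.toCoxeterSystem.wordProd w := by
  induction steps generalizing w with
  | nil => rfl
  | cons k steps ih =>
    rw [List.foldl_cons, ih, applyStep_sound]

theorem flatten_mem (M : CoxeterMatrix (Fin n)) (H : Subgroup M.Group) (L : List (List (Fin n)))
    (hL : ∀ w ∈ L, M.toCoxeterSystem.wordProd w ∈ H) :
    M.toCoxeterSystem.wordProd L.flatten ∈ H := by
  induction L with
  | nil =>
    rw [List.flatten_nil, CoxeterSystem.wordProd_nil]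
    exact H.one_mem
  | cons w L ih =>
    rw [List.flatten_cons, CoxeterSystem.wordProd_append]
    exact H.mul_mem (hL w (List.mem_cons_self)) (ih (fun w' hw' => hL w' (List.mem_cons_of_mem _ hw')))

theorem runLine_sound (M : CoxeterMatrix (Fin n)) (H : Subgroup M.Group)
    (table : List (List (Fin n))) (line : List ℕ × List ℕ)
    (ht : ∀ w ∈ table, M.toCoxeterSystem.wordProd w ∈ H) :
    ∀ w ∈ runLine M table line, M.toCoxeterSystem.wordProd w ∈ H := by
  intro w hw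
  unfold runLine at hw
  rw [List.mem_append, List.mem_singleton] at hw
  rcases hw with hw | rfl
  · exact ht w hw
  · rw [foldl_sound]
    apply flatten_mem
    intro w' hw'
    rw [List.mem_map] at hw'
    obtain ⟨j, _, rfl⟩ := hw'
    rw [List.getD_eq_getElem?_getD]
    cases h : table[j]? with
    | none =>
      rw [Option.getD_none, CoxeterSystem.wordProd_nil]
      exact H.one_mem
    | some w'' =>
      rw [Option.getD_some]
      exact ht w'' (List.mem_of_getElem? h)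

theorem run_sound (M : CoxeterMatrix (Fin n)) (H : Subgroup M.Group)
    (lines : List (List ℕ × List ℕ)) (table : List (List (Fin n)))
    (ht : ∀ w ∈ table, M.toCoxeterSystem.wordProd w ∈ H) :
    ∀ w ∈ run M table lines, M.toCoxeterSystem.wordProd w ∈ H := by
  induction lines generalizing table with
  | nil => exact ht
  | cons line lines ih =>
    unfold run
    rw [List.foldl_cons]
    exact ih _ (runLine_sound M H table line ht)

/-- The initial table: the Coxeter word, its reverse, and the chosen simple reflections. -/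
def base (T : List (Fin n)) : List (List (Fin n)) :=
  [List.finRange n, (List.finRange n).reverse] ++ T.map (fun i => [i])

/-- The Boolean check: every simple reflection appears in the final table. -/
def check (M : CoxeterMatrix (Fin n)) (T : List (Fin n)) (lines : List (List ℕ × List ℕ)) : Bool :=
  (List.finRange n).all (fun i => (run M (base T) lines).contains [i])

theorem closure_eq_top (M : CoxeterMatrix (Fin n)) (T : List (Fin n))
    (lines : List (List ℕ × List ℕ)) (S : Set M.Group)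
    (hc : ((List.finRange n).map M.simple).prod ∈ S) (hT : ∀ i ∈ T, M.simple i ∈ S)
    (h : check M T lines = true) : Subgroup.closure S = ⊤ := by
  have hsimple : M.toCoxeterSystem.simple = M.simple := M.toCoxeterSystem_simple
  have hbase : ∀ w ∈ base T, M.toCoxeterSystem.wordProd w ∈ Subgroup.closure S := by
    intro w hw
    unfold base at hw
    rw [List.mem_append, List.mem_cons, List.mem_singleton, List.mem_map] at hw
    have hcw : M.toCoxeterSystem.wordProd (List.finRange n) ∈ Subgroup.closure S := by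
      unfold CoxeterSystem.wordProd
      rw [hsimple]
      exact Subgroup.subset_closure hc
    rcases hw with (rfl | rfl) | ⟨i, hi, rfl⟩
    · exact hcw
    · rw [CoxeterSystem.wordProd_reverse]
      exact inv_mem hcw
    · rw [CoxeterSystem.wordProd_singleton, hsimple]
      exact Subgroup.subset_closure (hT i hi)
  have hall := run_sound M (Subgroup.closure S) lines (base T) hbase
  rw [eq_top_iff, ← M.toCoxeterSystem.subgroup_closure_range_simple, Subgroup.closure_le]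
  rintro _ ⟨i, rfl⟩
  unfold check at h
  rw [List.all_eq_true] at h
  have h1 := h i (List.mem_finRange i)
  rw [List.contains_iff_mem] at h1
  have h2 := hall [i] h1
  rw [CoxeterSystem.wordProd_singleton] at h2
  exact h2

end checker


/-- Certificate for type D4. -/
def linesD4 : List (List ℕ × List ℕ) :=
  [([0, 2, 1], [3, 4, 2, 3, 0, 2, 1]),
    ([1, 3, 0], [3, 4, 1, 3, 2]),
    ([4, 5, 4], [0, 2, 1])]

/-- Certificate for type F4. -/
def linesF4 : List (List ℕ × List ℕ) :=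
  [([0, 2, 1], [3, 4, 2, 3, 0, 2, 1]),
    ([0, 3, 1], [2, 4, 3, 1, 2, 0, 1])]

/-- Certificate for type E6. -/
def linesE6 : List (List ℕ × List ℕ) :=
  [([0, 2, 1], [5, 6, 4, 5, 3, 4, 0, 1, 3, 0, 1, 2, 1]),
    ([1, 2, 0], [5, 4, 5]),
    ([0, 3, 1], [5, 6, 4, 5, 2, 4, 3, 0, 1, 2, 3]),
    ([1, 4, 0], [5, 6, 7, 8, 10, 3, 4, 5, 6, 8, 9, 8, 9, 10, 3, 4, 2, 0, 2, 4, 6, 7, 8, 9, 6, 7, 8, 3, 4, 6, 7, 1, 2, 3, 4, 6, 5]),
    ([5, 6, 5], [2, 3, 5, 1, 3, 4, 3, 2, 0, 1]),
    ([0, 7, 1], [4, 6, 5, 3, 4, 2, 3, 1, 2, 0, 1]),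
    ([1, 7, 0], [5, 6, 4, 5, 3, 4, 1, 3, 2, 0, 1]),
    ([5, 9, 5], [0, 2, 1, 0])]

/-- Certificate for type E7. -/
def linesE7 : List (List ℕ × List ℕ) :=
  [([0, 2, 1], [5, 7, 6, 4, 5, 3, 4, 2, 3, 1, 2, 0, 1]),
    ([1, 2, 0], [6, 7, 5, 6, 4, 5, 3, 4, 1, 3, 2, 0, 1]),
    ([2, 3, 2], []),
    ([0, 3, 1], [6]),
    ([1, 4, 0], [6, 7, 5, 6, 4, 5, 2, 4, 3, 1, 2, 0, 1]),
    ([0, 5, 1], [5, 7, 6, 5]),
    ([6, 7, 6], [12, 13, 11, 9, 11, 12, 14, 5, 7, 8, 9, 10, 11, 12, 13, 14, 16, 4, 5, 7, 8, 9, 10, 11, 12, 14, 15, 11, 12, 13, 6, 3, 4, 2, 3, 4, 6, 8, 9, 11, 12, 13, 15, 7, 9, 10, 11, 12, 6, 7, 9, 10, 5, 1, 2, 3, 5, 7, 8, 9, 10, 12, 14]),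
    ([7, 8, 7], []),
    ([0, 6, 1], [6, 7, 8, 9, 10, 11, 13, 5, 6, 7, 8, 9, 11, 12, 4, 5, 6, 7, 9, 10, 11, 3, 1, 2, 3, 5, 7, 8, 9, 10, 4, 0, 2, 4, 6, 7, 8, 9, 8, 9, 7, 8, 6, 7, 5, 6, 3, 1, 2, 3, 5, 2, 3, 4, 3]),
    ([1, 7, 0], [6, 7, 5, 3, 5, 6, 8]),
    ([0, 9, 1], [6, 7, 5, 6, 4, 3, 4, 6, 7, 8, 10, 11, 12, 1, 2, 3, 4, 6, 8, 9, 10, 11, 5, 0, 2, 3, 5, 7, 8, 9, 10, 9, 10, 11, 8, 9, 10, 6, 8, 9, 7, 8, 4, 5, 1, 2, 3, 4, 5, 7, 3, 4, 5, 6, 5]),
    ([1, 10, 0], [6, 7, 5, 3, 5, 6, 8, 7, 8, 9, 10, 4, 6, 7, 8, 2, 3, 4, 6, 1, 2, 3, 4, 6, 8, 10, 11, 13, 14, 13, 12, 9, 11, 10, 7, 8, 9, 5, 6, 7, 8, 0, 1, 2, 3, 4, 5, 6, 7]),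
    ([6, 12, 6], [5, 7, 8, 9, 10, 11, 12, 4, 5, 7, 8, 9, 10, 11, 3, 4, 5, 7, 8, 9, 10, 8, 9, 2, 3, 4, 5, 7, 0, 1, 2, 3, 4, 5, 7, 9, 11, 10, 8, 9, 6, 7, 8, 9, 10, 11, 7, 8, 9, 10, 4, 6, 7, 8, 9, 3, 4, 6, 7, 8, 2, 3, 4, 6, 7, 1, 2, 3, 4, 6, 5, 4, 3, 2, 1, 0]),
    ([7, 11, 7], [0, 2, 1]),
    ([13, 14, 13], [4, 3, 4, 6, 2, 4, 5, 5, 4, 3, 1, 2, 0, 1])]

/-- Certificate for type E8. -/
def linesE8 : List (List ℕ × List ℕ) :=
  [([0, 2, 1], [6, 8, 7, 5, 6, 4, 5, 3, 4, 2, 3, 1, 2, 0, 1]),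
    ([1, 2, 0], [7, 8, 6, 7, 5, 6, 4, 5, 3, 4, 1, 3, 2, 0, 1]),
    ([2, 3, 2], []),
    ([2, 4, 2], []),
    ([0, 3, 1], [7]),
    ([1, 4, 0], [7, 8, 6, 7, 5, 6, 4, 5, 2, 4, 3, 1, 2, 0, 1]),
    ([0, 5, 1], [6, 8, 7, 6]),
    ([6, 9, 6], [2, 3, 4, 5, 6, 7, 9, 1, 2, 3, 4, 5, 7, 8, 7, 8, 9, 10, 11, 6, 7, 8, 9, 10, 0, 1, 2, 3, 4, 5, 6, 7, 8, 9]),
    ([0, 7, 1], [7, 8, 9, 10, 11, 12, 13, 15, 6, 7, 8, 9, 10, 11, 13, 14, 5, 6, 7, 8, 9, 11, 12, 13, 4, 5, 6, 7, 9, 10, 11, 12, 3, 1, 2, 3, 5, 7, 8, 9, 10, 11, 4, 0, 2, 4, 6, 7, 8, 9, 10, 9, 10, 8, 9, 7, 8, 6, 7, 5, 6, 3, 1, 2, 3, 5, 2, 3, 4, 3]),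
    ([1, 8, 0], [7, 8, 6, 7, 5, 6, 3, 5, 4, 2, 3, 1, 2, 0, 1]),
    ([10, 12, 10], [8, 9, 7, 5, 7, 8, 10, 9, 4, 2, 4, 6, 7, 9, 11, 5, 7, 8, 4, 5, 3, 1, 3, 5, 6, 8, 10]),
    ([11, 12, 11], [0, 2, 1, 0]),
    ([1, 13, 0], [7, 6, 4, 6, 7, 9, 8, 9, 5, 7, 3, 4, 5, 7, 9, 10, 12, 12, 11, 8, 10, 9, 6, 7, 8, 2, 3, 4, 5, 6, 7, 1, 2, 3, 4, 5, 6, 0, 1, 2, 3, 4, 5]),
    ([1, 14, 0], [5, 6, 8, 5, 6, 7, 6, 4, 5, 3, 4, 2, 3, 1, 2, 0, 1]),
    ([11, 15, 11], [2, 1, 3, 3, 2, 0, 1])]


theorem simple_ne_D4 : Cfsg.Lie.coxeterD4.simple 0 ≠ Cfsg.Lie.coxeterD4.simple 2 := by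
  intro h
  have hf : Cfsg.Lie.coxeterD4.IsLiftable
      (![Equiv.swap 0 1, Equiv.swap 1 2, Equiv.swap 2 3, Equiv.swap 2 3] :
        Fin 4 → Equiv.Perm (Fin 4)) := by
    unfold CoxeterMatrix.IsLiftable
    decide
  have h1 := congrArg (Cfsg.Lie.coxeterD4.toCoxeterSystem.lift ⟨_, hf⟩) h
  rw [← Cfsg.Lie.coxeterD4.toCoxeterSystem_simple, CoxeterSystem.lift_apply_simple,
    CoxeterSystem.lift_apply_simple] at h1
  revert h1
  decide

theorem simple_ne_F4 : CoxeterMatrix.F₄.simple 0 ≠ CoxeterMatrix.F₄.simple 2 := by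
  intro h
  have hf : CoxeterMatrix.F₄.IsLiftable
      (![Equiv.swap 0 1, Equiv.swap 0 1, 1, 1] : Fin 4 → Equiv.Perm (Fin 2)) := by
    unfold CoxeterMatrix.IsLiftable
    decide
  have h1 := congrArg (CoxeterMatrix.F₄.toCoxeterSystem.lift ⟨_, hf⟩) h
  rw [← CoxeterMatrix.F₄.toCoxeterSystem_simple, CoxeterSystem.lift_apply_simple,
    CoxeterSystem.lift_apply_simple] at h1
  revert h1
  decide

theorem one_case {n : ℕ} (M : CoxeterMatrix (Fin n)) (a : Fin n) (lines : List (List ℕ × List ℕ))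
    (h : check M [a] lines = true) :
    ∃ T : Finset M.Group, T.card = 1 ∧
      (∀ t ∈ T, ∃ (g : M.Group) (i : Fin n), t = g * M.simple i * g⁻¹) ∧
      Subgroup.closure (({((List.finRange n).map M.simple).prod} : Set M.Group) ∪ ↑T) = ⊤ := by
  classical
  refine ⟨{M.simple a}, Finset.card_singleton _, ?_, ?_⟩
  · intro t ht
    rw [Finset.mem_singleton] at ht
    exact ⟨1, a, by rw [ht]; simp⟩
  · apply closure_eq_top M [a] lines _ (Or.inl rfl) _ h
    intro i hi
    rw [List.mem_singleton] at hi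
    subst hi
    exact Or.inr (by simp)

theorem two_case {n : ℕ} (M : CoxeterMatrix (Fin n)) (a b : Fin n)
    (hab : M.simple a ≠ M.simple b) (lines : List (List ℕ × List ℕ))
    (h : check M [a, b] lines = true) :
    ∃ T : Finset M.Group, T.card = 2 ∧
      (∀ t ∈ T, ∃ (g : M.Group) (i : Fin n), t = g * M.simple i * g⁻¹) ∧
      Subgroup.closure (({((List.finRange n).map M.simple).prod} : Set M.Group) ∪ ↑T) = ⊤ := by
  classical
  refine ⟨{M.simple a, M.simple b}, Finset.card_pair hab, ?_, ?_⟩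
  · intro t ht
    rw [Finset.mem_insert, Finset.mem_singleton] at ht
    rcases ht with ht | ht
    · exact ⟨1, a, by rw [ht]; simp⟩
    · exact ⟨1, b, by rw [ht]; simp⟩
  · apply closure_eq_top M [a, b] lines _ (Or.inl rfl) _ h
    intro i hi
    rw [List.mem_cons, List.mem_singleton] at hi
    rcases hi with rfl | rfl
    · exact Or.inr (by simp)
    · exact Or.inr (by simp)

theorem checkB2 : check (CoxeterMatrix.B 2) [0] [([2, 0], [0])] = true := by decide +kernel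
theorem checkG2 : check CoxeterMatrix.G₂ [0] [([2, 0], [0])] = true := by decide +kernel
theorem checkD4 : check Cfsg.Lie.coxeterD4 [0, 2] linesD4 = true := by decide +kernel
theorem checkF4 : check CoxeterMatrix.F₄ [0, 2] linesF4 = true := by decide +kernel
theorem checkE6 : check CoxeterMatrix.E₆ [0] linesE6 = true := by decide +kernel
theorem checkE7 : check CoxeterMatrix.E₇ [5] linesE7 = true := by decide +kernel
theorem checkE8 : check CoxeterMatrix.E₈ [6] linesE8 = true := by decide +kernel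

/-- The Coxeter groups of types B₂, G₂, E₆, E₇, E₈ are generated by the Coxeter element `s₁ s₂ ⋯ s_l` together with one suitable reflection (a conjugate of a simple reflection); for types D₄ and F₄ the Coxeter element together with two suitable reflections suffices. -/
theorem result (c : (Σ n : ℕ, CoxeterMatrix (Fin n)) × ℕ)
    (hc : c ∈ [(⟨2, CoxeterMatrix.B 2⟩, 1), (⟨2, CoxeterMatrix.G₂⟩, 1), (⟨4, Cfsg.Lie.coxeterD4⟩, 2), (⟨4, CoxeterMatrix.F₄⟩, 2),
      (⟨6, CoxeterMatrix.E₆⟩, 1), (⟨7, CoxeterMatrix.E₇⟩, 1), (⟨8, CoxeterMatrix.E₈⟩, 1)]) :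
    ∃ T : Finset c.1.2.Group, T.card = c.2 ∧ (∀ t ∈ T, ∃ (g : c.1.2.Group) (i : Fin c.1.1), t = g * c.1.2.simple i * g⁻¹) ∧
      Subgroup.closure (({((List.finRange c.1.1).map c.1.2.simple).prod} : Set c.1.2.Group) ∪ ↑T) = ⊤ := by
  simp only [List.mem_cons, List.not_mem_nil, or_false] at hc
  rcases hc with rfl | rfl | rfl | rfl | rfl | rfl | rfl
  · exact one_case (CoxeterMatrix.B 2) 0 _ checkB2
  · exact one_case CoxeterMatrix.G₂ 0 _ checkG2
  · exact two_case Cfsg.Lie.coxeterD4 0 2 simple_ne_D4 _ checkD4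
  · exact two_case CoxeterMatrix.F₄ 0 2 simple_ne_F4 _ checkF4
  · exact one_case CoxeterMatrix.E₆ 0 _ checkE6
  · exact one_case CoxeterMatrix.E₇ 5 _ checkE7
  · exact one_case CoxeterMatrix.E₈ 6 _ checkE8

end Cfsg.Agent.S2419
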