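import Cfsg.Statements.S2421
-- import your own Cfsg.Agent.* helpers here
import Cfsg.Agent.Lib.Helper95.FlagF
import Cfsg.Agent.Lib.Helper26.GenChar
import Cfsg.Agent.S0157

set_option autoImplicit false
open scoped MatrixGroups
open Cfsg

namespace Cfsg.Agent.S2421

theorem genChar_sum {G : Type*} [Group G] {ι : Type*} (s : Finset ι) (f : ι → G → ℂ)
    (h : ∀ i ∈ s, Cfsg.IsGeneralizedCharacter G (f i)) :
    Cfsg.IsGeneralizedCharacter G (∑ i ∈ s, f i) := by
  classical
  induction s using Finset.induction_on with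
  | empty =>
    rw [Finset.sum_empty]
    exact Cfsg.Agent.Lib.Helper26.GenChar.isGeneralizedCharacter_zero
  | insert a s ha ih =>
    rw [Finset.sum_insert ha]
    exact Cfsg.Agent.Lib.Helper26.GenChar.isGeneralizedCharacter_add (h a (Finset.mem_insert_self a s))
      (ih (fun i hi => h i (Finset.mem_insert_of_mem hi)))

theorem genChar_unip {F : Type*} [Field F] [Fintype F] {n : ℕ} (ν : Fin n → ℕ) :
    Cfsg.IsGeneralizedCharacter (GL (Fin n) F) (Cfsg.unipotentCharacterGL n F ν) := by
  classical
  have e : Cfsg.unipotentCharacterGL n F ν =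
      ∑ κ : Equiv.Perm (Fin n), fun g => Cfsg.Agent.Lib.Helper95.FlagF.term F ν κ g := by
    funext g
    rw [Finset.sum_apply]
    rfl
  rw [e]
  apply genChar_sum
  intro κ _
  by_cases h : ∀ i : Fin n, (κ i).val ≤ ν i + i.val
  · have e2 : (fun g => Cfsg.Agent.Lib.Helper95.FlagF.term F ν κ g) =
        (Equiv.Perm.sign κ : ℤ) • Cfsg.Agent.S0157.permChar (GL (Fin n) F)
          (GL (Fin n) F ⧸ Cfsg.parabolicGL n F fun i => ν i + i.val - (κ i).val) := by
      funext g
      unfold Cfsg.Agent.Lib.Helper95.FlagF.term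
      rw [if_pos h]
      simp only [Pi.smul_apply, zsmul_eq_mul]
      rfl
    rw [e2]
    apply Cfsg.Agent.Lib.Helper26.GenChar.isGeneralizedCharacter_zsmul
    exact ⟨_, 0, Cfsg.Agent.S0157.permChar_isCharacter, Cfsg.Agent.Lib.CT.Ops.isCharacter_zero,
      (sub_zero _).symm⟩
  · have e2 : (fun g => Cfsg.Agent.Lib.Helper95.FlagF.term F ν κ g) = 0 := by
      funext g
      unfold Cfsg.Agent.Lib.Helper95.FlagF.term
      rw [if_neg h]
      rfl
    rw [e2]
    exact Cfsg.Agent.Lib.Helper26.GenChar.isGeneralizedCharacter_zero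


/-- Irreducible characters of `GL_n(q)` indexed by partitions: for `ν` a partition of `n` written with `n` non-decreasing parts `ν_0 ≤ ⋯ ≤ ν_{n−1}` (zeros allowed; positions counted from 0) and `λ_i = ν_i + i`, the alternating sum over permutations `κ` of `{0, …, n−1}` of `sign κ` times the permutation character on partial flags of type `λ − κ` (terms with a negative entry omitted) is an irreducible complex character of `GL_n(q)`. For `ν = (1, …, 1)` this is the Steinberg character. -/
theorem result {F : Type*} [Field F] [Fintype F] {n : ℕ} (ν : Fin n → ℕ) (hmono : Monotone ν) (hsum : ∑ i, ν i = n) :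
    Cfsg.IsIrrCharacter (GL (Fin n) F) (Cfsg.unipotentCharacterGL n F ν) := by
  classical
  obtain ⟨ε, hε, hmain⟩ := Cfsg.Agent.Lib.Helper95.FlagF.classInner_unip (F := F) (n := n)
  have h1 := hmain ν ν hmono hsum hmono hsum
  rw [if_pos rfl] at h1
  have hε1 : ε = 1 := by
    rcases hε with rfl | rfl
    · rfl
    · exfalso
      rw [Cfsg.Agent.Lib.Helper26.GenChar.classInner_self] at h1
      have h2 : (Nat.card (GL (Fin n) F) : ℝ)⁻¹ *
          ∑ g : GL (Fin n) F, ‖Cfsg.unipotentCharacterGL n F ν g‖ ^ 2 = -1 := by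
        exact_mod_cast h1
      have h3 : 0 ≤ (Nat.card (GL (Fin n) F) : ℝ)⁻¹ *
          ∑ g : GL (Fin n) F, ‖Cfsg.unipotentCharacterGL n F ν g‖ ^ 2 := by
        positivity
      linarith
  subst hε1
  obtain ⟨μ, hμ, hor⟩ := Cfsg.Agent.Lib.Helper26.GenChar.eq_irr_or_neg_of_norm_one (genChar_unip ν)
    (by rw [h1]; simp)
  rcases hor with h | h
  · rw [h]
    exact hμ
  · exfalso
    have hdeg := Cfsg.Agent.S2424.result (F := F) rfl ν hmono hsum
    obtain ⟨d, hd, hμ1⟩ := Cfsg.Agent.Lib.Helper3.Irr.IsIrrCharacter.exists_apply_one_pos hμ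
    rw [h, Pi.neg_apply, hμ1] at hdeg
    have hq : 2 ≤ Fintype.card F := Fintype.one_lt_card
    set q := Fintype.card F with hqdef
    let Qr : ℕ → ℝ := fun m => ∑ l ∈ Finset.range m, (q : ℝ) ^ l
    have hQpos : ∀ m, 0 < Qr (m + 1) := by
      intro m
      apply Finset.sum_pos
      · intro l _
        positivity
      · exact ⟨0, by simp⟩
    have hQlt : ∀ a b, a < b → Qr a < Qr b := by
      intro a b hab
      apply Finset.sum_lt_sum_of_subset (i := a)
      · intro l hl
        rw [Finset.mem_range] at hl ⊢
        omega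
      · simpa using hab
      · simp
      · positivity
      · intro l _ _
        positivity
    have hreal : -(d : ℝ) * (q : ℝ) ^ (n * (n - 1) * (n - 2) / 6) *
        ∏ i : Fin n, ∏ j ∈ Finset.range (ν i + i.val), Qr (j + 1) =
        (∏ j ∈ Finset.range n, Qr (j + 1)) *
          ∏ i : Fin n, ∏ j ∈ Finset.univ.filter (fun j : Fin n => i < j),
            (Qr (ν j + j.val) - Qr (ν i + i.val)) := by
      apply Complex.ofReal_injective
      simp only [Qr]
      push_cast at hdeg ⊢
      exact hdeg
    have hL : -(d : ℝ) * (q : ℝ) ^ (n * (n - 1) * (n - 2) / 6) *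
        ∏ i : Fin n, ∏ j ∈ Finset.range (ν i + i.val), Qr (j + 1) < 0 := by
      have hp1 : 0 < (d : ℝ) * (q : ℝ) ^ (n * (n - 1) * (n - 2) / 6) *
          ∏ i : Fin n, ∏ j ∈ Finset.range (ν i + i.val), Qr (j + 1) := by
        apply mul_pos
        · apply mul_pos
          · exact_mod_cast hd
          · positivity
        · apply Finset.prod_pos
          intro i _
          apply Finset.prod_pos
          intro j _
          exact hQpos j
      linarith
    have hR : 0 < (∏ j ∈ Finset.range n, Qr (j + 1)) *
          ∏ i : Fin n, ∏ j ∈ Finset.univ.filter (fun j : Fin n => i < j),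
            (Qr (ν j + j.val) - Qr (ν i + i.val)) := by
      apply mul_pos
      · apply Finset.prod_pos
        intro j _
        exact hQpos j
      · apply Finset.prod_pos
        intro i _
        apply Finset.prod_pos
        intro j hj
        rw [Finset.mem_filter] at hj
        have hij : i < j := hj.2
        have h1 := hmono hij.le
        have h2 : i.val < j.val := hij
        exact sub_pos.mpr (hQlt _ _ (by omega))
    linarith

end Cfsg.Agent.S2421
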