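import Cfsg.Statements.S2425
-- import your own Cfsg.Agent.* helpers here
import Cfsg.Agent.Lib.Helper95.StC
import Cfsg.Agent.Lib.Helper95.SemiC

set_option autoImplicit false
open scoped MatrixGroups
open Cfsg

namespace Cfsg.Agent.S2425

open Cfsg.Agent.Lib.Helper95

theorem degree_sum {F : Type*} [Field F] [DecidableEq F] {n : ℕ} (M : Matrix (Fin n) (Fin n) F) :
    ∑ f ∈ (UniqueFactorizationMonoid.normalizedFactors M.charpoly).toFinset,
      (UniqueFactorizationMonoid.normalizedFactors M.charpoly).count f * f.natDegree = n := by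
  have hmon := Matrix.charpoly_monic M
  have h0 : M.charpoly ≠ 0 := hmon.ne_zero
  have h1 := UniqueFactorizationMonoid.prod_normalizedFactors_eq h0
  rw [hmon.normalize_eq_self] at h1
  have h2 := Polynomial.natDegree_multiset_prod_of_monic
    (UniqueFactorizationMonoid.normalizedFactors M.charpoly)
    (fun f hf => SemiC.factors_monic _ f (Multiset.mem_toFinset.mpr hf))
  rw [h1, Matrix.charpoly_natDegree_eq_dim, Fintype.card_fin, Finset.sum_multiset_map_count] at h2
  simp only [smul_eq_mul] at h2
  exact h2.symm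


/-- Values of the Steinberg character of `GL_n(q)` (the partition-indexed character for `ν = (1,…,1)`, of degree `q^(n(n−1)/2)`) at elements of order prime to the characteristic: if the characteristic polynomial of such an element is `∏ f^(m_f)` over distinct monic irreducible `f`, the value is `∏_f (−1)^((deg f − 1) m_f) q^(deg f · m_f (m_f − 1)/2)`. (At elements of order divisible by the characteristic the value is 0; that is not part of this statement.) -/
theorem result {F : Type*} [Field F] [Fintype F] [DecidableEq F] {q : ℕ} (hq : Fintype.card F = q) (p : ℕ) [Fact p.Prime] [CharP F p]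
    {n : ℕ} (x : GL (Fin n) F) (hx : (orderOf x).Coprime p) :
    Cfsg.unipotentCharacterGL n F (fun _ => 1) x =
      ∏ f ∈ (UniqueFactorizationMonoid.normalizedFactors (x : Matrix (Fin n) (Fin n) F).charpoly).toFinset,
        (-1 : ℂ) ^ ((f.natDegree - 1) * (UniqueFactorizationMonoid.normalizedFactors (x : Matrix (Fin n) (Fin n) F).charpoly).count f) *
          (q : ℂ) ^ (f.natDegree * (UniqueFactorizationMonoid.normalizedFactors (x : Matrix (Fin n) (Fin n) F).charpoly).count f *
            ((UniqueFactorizationMonoid.normalizedFactors (x : Matrix (Fin n) (Fin n) F).charpoly).count f - 1) / 2) := by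
  subst hq
  have hk : ((orderOf x : ℕ) : F) ≠ 0 := by
    rw [Ne, CharP.cast_eq_zero_iff F p]
    intro hdvd
    have h1 : p ∣ Nat.gcd (orderOf x) p := Nat.dvd_gcd hdvd (dvd_refl p)
    rw [Nat.Coprime] at hx
    rw [hx] at h1
    exact (Fact.out : p.Prime).one_lt.ne' (Nat.dvd_one.mp h1)
  have hpow : ∀ k : ℕ, FlagG.lin (x ^ k) = (FlagG.lin x) ^ k := by
    intro k
    induction k with
    | zero =>
      rw [pow_zero, pow_zero, FlagG.lin_one]
      rfl
    | succ k ih =>
      rw [pow_succ, pow_succ, FlagG.lin_mul, ih]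
      rfl
  have hφ : (FlagG.lin x) ^ (orderOf x) = 1 := by
    rw [← hpow, pow_orderOf_eq_one, FlagG.lin_one]
    rfl
  have hA := SemiC.A_top (FlagG.lin x) (orderOf x) hk hφ
  have hχ : (FlagG.lin x).charpoly = (x : Matrix (Fin n) (Fin n) F).charpoly :=
    Matrix.charpoly_mulVecLin _
  rw [hχ] at hA
  rw [StC.steinberg_int x, StC.steinberg_A x, hA]
  have hn := degree_sum (x : Matrix (Fin n) (Fin n) F)
  have hsign : (-1 : ℤ) ^ n = ∏ f ∈ (UniqueFactorizationMonoid.normalizedFactors
      (x : Matrix (Fin n) (Fin n) F).charpoly).toFinset,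
      (-1 : ℤ) ^ ((UniqueFactorizationMonoid.normalizedFactors
        (x : Matrix (Fin n) (Fin n) F).charpoly).count f * f.natDegree) := by
    rw [Finset.prod_pow_eq_pow_sum, hn]
  rw [hsign, ← Finset.prod_mul_distrib]
  push_cast
  refine Finset.prod_congr rfl fun f hf => ?_
  have hd : 1 ≤ f.natDegree := (SemiC.factors_irreducible _ f hf).natDegree_pos
  generalize (UniqueFactorizationMonoid.normalizedFactors
    (x : Matrix (Fin n) (Fin n) F).charpoly).count f = c
  generalize f.natDegree = d at hd
  have e1 : (-1 : ℂ) ^ (c * d) * (-1) ^ c = (-1) ^ ((d - 1) * c) := by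
    rw [← pow_add]
    have : c * d + c = (d - 1) * c + 2 * c := by
      obtain ⟨d', rfl⟩ : ∃ d', d = d' + 1 := ⟨d - 1, by omega⟩
      simp only [Nat.add_sub_cancel]
      ring
    rw [this, pow_add, pow_mul (-1 : ℂ) 2 c, neg_one_sq, one_pow, mul_one]
  have e2 : d * c * (c - 1) / 2 = d * c.choose 2 := by
    rw [Nat.choose_two_right, mul_assoc, Nat.mul_div_assoc _ (Nat.even_mul_pred_self c).two_dvd]
  rw [e2, pow_mul, ← e1, Nat.card_eq_fintype_card]
  ring

end Cfsg.Agent.S2425
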