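import Cfsg.Statements.S2427
import Cfsg.Agent.H41.McKayGlobal
import Cfsg.Agent.H41.McKayLocal
import Cfsg.Agent.H41.SL2ConjTorus
import Cfsg.Agent.S0261

set_option autoImplicit false
set_option linter.style.haveILetI false
open Cfsg

namespace Cfsg.Agent.S2427

open Cfsg.Agent.H41 Cfsg.Agent.Lib.CT Cfsg.Agent.Lib.CT.Wedderburn Cfsg.Agent.Lib.CT.Orth
  Cfsg.Agent.Lib.Helper39.SL2T1

/-- An involution of `SL₂` in odd characteristic is `-1`. -/
theorem eq_one_or_negOne_of_sq {F : Type*} [Field F] (h2 : (2 : F) ≠ 0)
    (g : Matrix.SpecialLinearGroup (Fin 2) F) (hg : g * g = 1) : g = 1 ∨ g = negOne := by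
  have hinv : g⁻¹ = g := inv_eq_of_mul_eq_one_left hg
  have h00 : ent g 1 1 = ent g 0 0 := by
    have := sl2_inv00 g
    rw [hinv] at this
    exact this.symm
  have h01 : ent g 0 1 = 0 := by
    have := sl2_inv01 g
    rw [hinv] at this
    have h' : (2 : F) * ent g 0 1 = 0 := by linear_combination this
    rcases mul_eq_zero.1 h' with h | h
    · exact absurd h h2
    · exact h
  have h10 : ent g 1 0 = 0 := by
    have := sl2_inv10 g
    rw [hinv] at this
    have h' : (2 : F) * ent g 1 0 = 0 := by linear_combination this
    rcases mul_eq_zero.1 h' with h | h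
    · exact absurd h h2
    · exact h
  have hdet := sl2_det g
  rw [h00, h01, zero_mul, sub_zero] at hdet
  rcases mul_self_eq_one_iff.1 hdet with h | h
  · left
    apply sl2_ext
    · rw [h, sl2_one00]
    · rw [h01, sl2_one01]
    · rw [h10, sl2_one10]
    · rw [h00, h, sl2_one11]
  · right
    apply sl2_ext
    · rw [h]; rfl
    · rw [h01]; rfl
    · rw [h10]; rfl
    · rw [h00, h]; rfl

theorem two_ne_zero3 : (2 : ZMod 3) ≠ 0 := by decide

theorem sq_ne_neg_one3 : ∀ a : ZMod 3, a * a ≠ -1 := by decide

/-- Conjugating an element of order four of `SL₂(3)` by the standard unipotent element gives a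
new element of order four, different from the element and from its inverse. -/
theorem conj_u_ne (g : Matrix.SpecialLinearGroup (Fin 2) (ZMod 3)) (hg : g * g = negOne) :
    uSL 1 * g * (uSL 1)⁻¹ ≠ g ∧ uSL 1 * g * (uSL 1)⁻¹ ≠ negOne * g := by
  have hc : ent g 1 0 ≠ 0 := by
    intro hc
    have h00 := congrArg (fun m => ent m 0 0) hg
    simp only [sl2_mul00, hc, mul_zero, add_zero] at h00
    have : ent (negOne : Matrix.SpecialLinearGroup (Fin 2) (ZMod 3)) 0 0 = -1 := rfl
    rw [this] at h00
    exact sq_ne_neg_one3 _ h00
  constructor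
  · intro h
    rw [mul_inv_eq_iff_eq_mul] at h
    have h00 := congrArg (fun m => ent m 0 0) h
    simp only [sl2_mul00, uSL00, uSL01, uSL10] at h00
    apply hc
    linear_combination h00
  · intro h
    rw [mul_inv_eq_iff_eq_mul] at h
    have h10 := congrArg (fun m => ent m 1 0) h
    simp only [sl2_mul10, uSL00, uSL10, uSL11, negOne_mul_ent] at h10
    have h' : (2 : ZMod 3) * ent g 1 0 = 0 := by linear_combination h10
    rcases mul_eq_zero.1 h' with h'' | h''
    · exact two_ne_zero3 h''
    · exact hc h''

theorem hodd3 : Odd (Fintype.card (ZMod 3)) := by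
  rw [ZMod.card]
  decide

theorem card_G : Nat.card (Matrix.SpecialLinearGroup (Fin 2) (ZMod 3)) = 24 := by
  rw [card_SL2_eq, ZMod.card]
  norm_num

theorem card_center : Nat.card (Subgroup.center (Matrix.SpecialLinearGroup (Fin 2) (ZMod 3))) = 2 := by
  rw [Nat.card_eq_two_iff]
  refine ⟨⟨1, Subgroup.one_mem _⟩, ⟨negOne, (mem_center_iff_one_or_negOne _).2 (Or.inr rfl)⟩, ?_, ?_⟩
  · intro h
    exact negOne_ne_one two_ne_zero3 (congrArg Subtype.val h).symm
  · ext x
    simp only [Set.mem_insert_iff, Set.mem_singleton_iff, Set.mem_univ, iff_true]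
    rcases (mem_center_iff_one_or_negOne _).1 x.2 with h | h
    · left
      exact Subtype.ext h
    · right
      exact Subtype.ext h

theorem index_commutator :
    (commutator (Matrix.SpecialLinearGroup (Fin 2) (ZMod 3))).index = 3 := by
  classical
  haveI := finite_irrCharacter (Matrix.SpecialLinearGroup (Fin 2) (ZMod 3))
  haveI := Fintype.ofFinite (IrrCharacter (Matrix.SpecialLinearGroup (Fin 2) (ZMod 3)))
  rw [← Cfsg.Agent.S0154.result, Nat.card_eq_fintype_card, Fintype.card_subtype]
  have h1 : (Finset.univ.filter (fun χ : IrrCharacter (Matrix.SpecialLinearGroup (Fin 2) (ZMod 3)) =>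
      (χ : Matrix.SpecialLinearGroup (Fin 2) (ZMod 3) → ℂ) 1 = 1)) =
      (Finset.univ.filter (fun χ : IrrCharacter (Matrix.SpecialLinearGroup (Fin 2) (ZMod 3)) =>
      charDegree (χ : Matrix.SpecialLinearGroup (Fin 2) (ZMod 3) → ℂ) = 1)) := by
    ext χ
    simp only [Finset.mem_filter, Finset.mem_univ, true_and]
    have hd := char_natCast_charDegree (isCharacter_of_irr χ.2)
    constructor
    · intro h
      rw [h] at hd
      exact_mod_cast hd
    · intro h
      rw [← hd, h]
      simp
  rw [h1, Finset.card_filter, global_sum hodd3 (fun d => if d = 1 then 1 else 0), ZMod.card]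
  norm_num

theorem card_commutator :
    Nat.card (commutator (Matrix.SpecialLinearGroup (Fin 2) (ZMod 3))) = 8 := by
  have h := (commutator (Matrix.SpecialLinearGroup (Fin 2) (ZMod 3))).card_mul_index
  rw [index_commutator, card_G] at h
  omega

theorem factorization_24 : (Nat.card (Matrix.SpecialLinearGroup (Fin 2) (ZMod 3))).factorization 2 = 3 := by
  rw [card_G]
  have h : (24 : ℕ) = 2 ^ 3 * 3 := by norm_num
  rw [h, Nat.factorization_mul (by norm_num) (by norm_num), Finsupp.add_apply,
    Nat.Prime.factorization_pow Nat.prime_two, Finsupp.single_eq_same,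
    Nat.factorization_eq_zero_of_not_dvd (by norm_num)]

theorem normal_cases (N : Subgroup (Matrix.SpecialLinearGroup (Fin 2) (ZMod 3))) (hN : N.Normal) :
    N = ⊥ ∨ N = ⊤ ∨ N = Subgroup.center (Matrix.SpecialLinearGroup (Fin 2) (ZMod 3)) ∨
      N = commutator (Matrix.SpecialLinearGroup (Fin 2) (ZMod 3)) := by
  classical
  haveI : Fact (Nat.Prime 2) := ⟨Nat.prime_two⟩
  have hdvd : Nat.card N ∣ 24 := by
    rw [← card_G]
    exact Subgroup.card_subgroup_dvd_card N
  have hidx := N.card_mul_index
  rw [card_G] at hidx
  have hC := card_commutator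
  have hnpos : 0 < Nat.card N := Nat.card_pos
  by_cases h3 : 3 ∣ Nat.card N
  · right; left
    have hcomm_le : IsMulCommutative (Matrix.SpecialLinearGroup (Fin 2) (ZMod 3) ⧸ N) →
        8 ∣ Nat.card N := by
      intro hc
      have hle := Subgroup.Normal.quotient_commutative_iff_commutator_le.1 hc
      have := Subgroup.card_dvd_of_le hle
      rw [hC] at this
      exact this
    have hn : Nat.card N = 3 ∨ Nat.card N = 6 ∨ Nat.card N = 12 ∨ Nat.card N = 24 := by
      have hle := Nat.le_of_dvd (by norm_num) hdvd
      obtain ⟨j, hj⟩ := h3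
      obtain ⟨i, hi⟩ := hdvd
      rw [hj] at hi ⊢
      have hj8 : j ≤ 8 := by omega
      interval_cases j <;> omega
    rcases hn with hn | hn | hn | hn
    · -- order 3: central, impossible
      exfalso
      have hdisj : ∀ t : Matrix.SpecialLinearGroup (Fin 2) (ZMod 3), t ∈ N →
          t ∈ commutator (Matrix.SpecialLinearGroup (Fin 2) (ZMod 3)) → t = 1 := by
        intro t htN htC
        have h1 : orderOf t ∣ 3 := by
          have := orderOf_dvd_natCard (⟨t, htN⟩ : N)
          rwa [Subgroup.orderOf_mk, hn] at this
        have h2 : orderOf t ∣ 8 := by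
          have := orderOf_dvd_natCard
            (⟨t, htC⟩ : commutator (Matrix.SpecialLinearGroup (Fin 2) (ZMod 3)))
          rwa [Subgroup.orderOf_mk, hC] at this
        have h3' : orderOf t = 1 := Nat.eq_one_of_dvd_coprimes (by norm_num) h1 h2
        exact orderOf_eq_one_iff.1 h3'
      have hle : N ≤ Subgroup.center (Matrix.SpecialLinearGroup (Fin 2) (ZMod 3)) := by
        intro x hx
        rw [Subgroup.mem_center_iff]
        intro g
        have ht : g * x * g⁻¹ * x⁻¹ = 1 := by
          apply hdisj
          · exact N.mul_mem (hN.conj_mem x hx g) (N.inv_mem hx)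
          · have := Subgroup.commutator_mem_commutator (Subgroup.mem_top g) (Subgroup.mem_top x)
            rw [commutatorElement_def] at this
            exact this
        have e : g * x = (g * x * g⁻¹ * x⁻¹) * (x * g) := by group
        rw [e, ht, one_mul]
      have := Subgroup.card_dvd_of_le hle
      rw [hn, card_center] at this
      omega
    · -- order 6, index 4
      exfalso
      have hi4 : Nat.card (Matrix.SpecialLinearGroup (Fin 2) (ZMod 3) ⧸ N) = 2 ^ 2 := by
        rw [← Subgroup.index_eq_card]
        rw [hn] at hidx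
        omega
      have := hcomm_le (IsPGroup.isMulCommutative_of_card_eq_prime_sq hi4)
      rw [hn] at this
      omega
    · -- order 12, index 2
      exfalso
      have hi2 : Nat.card (Matrix.SpecialLinearGroup (Fin 2) (ZMod 3) ⧸ N) = 2 := by
        rw [← Subgroup.index_eq_card]
        rw [hn] at hidx
        omega
      haveI := isCyclic_of_prime_card hi2
      have := hcomm_le IsCyclic.isMulCommutative
      rw [hn] at this
      omega
    · apply Subgroup.eq_top_of_card_eq
      rw [hn, card_G]
  · have hn : Nat.card N = 1 ∨ Nat.card N = 2 ∨ Nat.card N = 4 ∨ Nat.card N = 8 := by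
      have hle := Nat.le_of_dvd (by norm_num) hdvd
      obtain ⟨i, hi⟩ := hdvd
      have hn24 : Nat.card N ≤ 24 := hle
      interval_cases h : Nat.card N <;> omega
    rcases hn with hn | hn | hn | hn
    · left
      exact Subgroup.eq_bot_of_card_eq N hn
    · right; right; left
      have hle : N ≤ Subgroup.center (Matrix.SpecialLinearGroup (Fin 2) (ZMod 3)) := by
        intro x hx
        rw [Subgroup.mem_center_iff]
        intro g
        by_cases hx1 : x = 1
        · rw [hx1, mul_one, one_mul]
        · obtain ⟨c, hc1, hc2⟩ := (Nat.card_eq_two_iff' (1 : N)).1 hn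
          have e1 := hc2 ⟨x, hx⟩ (fun h => hx1 (congrArg Subtype.val h))
          have hne : g * x * g⁻¹ ≠ 1 := by
            intro h
            apply hx1
            have e : x = g⁻¹ * (g * x * g⁻¹) * g := by group
            rw [e, h]
            group
          have e2 := hc2 ⟨g * x * g⁻¹, hN.conj_mem x hx g⟩ (fun h => hne (congrArg Subtype.val h))
          have e3 : g * x * g⁻¹ = x := congrArg Subtype.val (e2.trans e1.symm)
          calc g * x = (g * x * g⁻¹) * g := by group
            _ = x * g := by rw [e3]
      exact Subgroup.eq_of_le_of_card_ge hle (by rw [hn, card_center])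
    · exfalso
      -- an element outside {1, -1}
      have hex : ∃ g ∈ N, g ≠ 1 ∧ g ≠ negOne := by
        by_contra hcon
        push Not at hcon
        have hsub : (N : Set (Matrix.SpecialLinearGroup (Fin 2) (ZMod 3))) ⊆
            (({1, negOne} : Finset (Matrix.SpecialLinearGroup (Fin 2) (ZMod 3))) :
              Set (Matrix.SpecialLinearGroup (Fin 2) (ZMod 3))) := by
          intro g hg
          by_cases h1 : g = 1
          · simp [h1]
          · simp [hcon g hg h1]
        have h1 := Set.ncard_le_ncard hsub (Finset.finite_toSet _)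
        rw [Set.ncard_coe_finset] at h1
        have h2 : Set.ncard (N : Set (Matrix.SpecialLinearGroup (Fin 2) (ZMod 3))) = 4 := by
          rw [← hn]
          exact (Nat.card_coe_set_eq _).symm
        have h3' := Finset.card_le_two (a := (1 : Matrix.SpecialLinearGroup (Fin 2) (ZMod 3)))
          (b := negOne)
        omega
      obtain ⟨g, hgN, hg1, hgneg⟩ := hex
      have hg4 : g ^ 4 = 1 := by
        have := orderOf_dvd_natCard (⟨g, hgN⟩ : N)
        rw [Subgroup.orderOf_mk, hn] at this
        exact orderOf_dvd_iff_pow_eq_one.1 this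
      have hgg : g * g = negOne := by
        have h4 : (g * g) * (g * g) = 1 := by
          rw [← hg4, show (4 : ℕ) = 2 + 2 from rfl, pow_add, pow_two]
        rcases eq_one_or_negOne_of_sq two_ne_zero3 (g * g) h4 with h | h
        · rcases eq_one_or_negOne_of_sq two_ne_zero3 g h with h' | h'
          · exact absurd h' hg1
          · exact absurd h' hgneg
        · exact h
      obtain ⟨hne1, hne2⟩ := conj_u_ne g hgg
      have hnegN : negOne ∈ N := by
        rw [← hgg]
        exact N.mul_mem hgN hgN
      have hhN : uSL 1 * g * (uSL 1)⁻¹ ∈ N := hN.conj_mem g hgN _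
      have hneg1 : (negOne : Matrix.SpecialLinearGroup (Fin 2) (ZMod 3)) ≠ 1 :=
        negOne_ne_one two_ne_zero3
      have d1 : negOne * g ≠ 1 := by
        intro h
        apply hgneg
        calc g = negOne * (negOne * g) := by rw [← mul_assoc, negOne_mul_self, one_mul]
          _ = negOne := by rw [h, mul_one]
      have d2 : negOne * g ≠ negOne := by
        intro h
        apply hg1
        calc g = negOne * (negOne * g) := by rw [← mul_assoc, negOne_mul_self, one_mul]
          _ = 1 := by rw [h, negOne_mul_self]
      have d3 : negOne * g ≠ g := by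
        intro h
        apply hneg1
        calc negOne = (negOne * g) * g⁻¹ := by group
          _ = 1 := by rw [h, mul_inv_cancel]
      have d4 : uSL 1 * g * (uSL 1)⁻¹ ≠ 1 := by
        intro h
        apply hg1
        have e : g = (uSL 1)⁻¹ * (uSL 1 * g * (uSL 1)⁻¹) * uSL 1 := by group
        rw [e, h]
        group
      have d5 : uSL 1 * g * (uSL 1)⁻¹ ≠ negOne := by
        intro h
        apply hgneg
        have e : g = (uSL 1)⁻¹ * (uSL 1 * g * (uSL 1)⁻¹) * uSL 1 := by group
        rw [e, h, mul_assoc, negOne_comm, ← mul_assoc, inv_mul_cancel, one_mul]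
      have hsub : ((({1, negOne, g, negOne * g, uSL 1 * g * (uSL 1)⁻¹} :
          Finset (Matrix.SpecialLinearGroup (Fin 2) (ZMod 3))) :
          Set (Matrix.SpecialLinearGroup (Fin 2) (ZMod 3)))) ⊆
          (N : Set (Matrix.SpecialLinearGroup (Fin 2) (ZMod 3))) := by
        intro y hy
        simp only [Finset.coe_insert, Finset.coe_singleton, Set.mem_insert_iff,
          Set.mem_singleton_iff] at hy
        rcases hy with rfl | rfl | rfl | rfl | rfl
        · exact N.one_mem
        · exact hnegN
        · exact hgN
        · exact N.mul_mem hnegN hgN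
        · exact hhN
      have h1 := Set.ncard_le_ncard hsub (Set.toFinite _)
      rw [Set.ncard_coe_finset] at h1
      have h2 : Set.ncard (N : Set (Matrix.SpecialLinearGroup (Fin 2) (ZMod 3))) = 4 := by
        rw [← hn]
        exact (Nat.card_coe_set_eq _).symm
      have h5 : ({1, negOne, g, negOne * g, uSL 1 * g * (uSL 1)⁻¹} :
          Finset (Matrix.SpecialLinearGroup (Fin 2) (ZMod 3))).card = 5 := by
        rw [Finset.card_insert_of_notMem, Finset.card_insert_of_notMem,
          Finset.card_insert_of_notMem, Finset.card_insert_of_notMem, Finset.card_singleton]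
        · simp only [Finset.mem_singleton]
          exact fun h => hne2 h.symm
        · simp only [Finset.mem_insert, Finset.mem_singleton, not_or]
          exact ⟨fun h => d3 h.symm, fun h => hne1 h.symm⟩
        · simp only [Finset.mem_insert, Finset.mem_singleton, not_or]
          exact ⟨fun h => hgneg h.symm, fun h => d2 h.symm, fun h => d5 h.symm⟩
        · simp only [Finset.mem_insert, Finset.mem_singleton, not_or]
          exact ⟨fun h => hneg1 h.symm, fun h => hg1 h.symm, fun h => d1 h.symm,
            fun h => d4 h.symm⟩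
      omega
    · right; right; right
      have hcardN : Nat.card N =
          2 ^ (Nat.card (Matrix.SpecialLinearGroup (Fin 2) (ZMod 3))).factorization 2 := by
        rw [factorization_24, hn]
        norm_num
      have hcardC : Nat.card (commutator (Matrix.SpecialLinearGroup (Fin 2) (ZMod 3))) =
          2 ^ (Nat.card (Matrix.SpecialLinearGroup (Fin 2) (ZMod 3))).factorization 2 := by
        rw [factorization_24, hC]
        norm_num
      have hnorm : ((Sylow.ofCard (commutator (Matrix.SpecialLinearGroup (Fin 2) (ZMod 3))) hcardC :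
          Sylow 2 (Matrix.SpecialLinearGroup (Fin 2) (ZMod 3))) :
          Subgroup (Matrix.SpecialLinearGroup (Fin 2) (ZMod 3))).Normal := by
        rw [Sylow.coe_ofCard]
        infer_instance
      have huniq := Sylow.unique_of_normal _ hnorm
      have heq : Sylow.ofCard N hcardN =
          Sylow.ofCard (commutator (Matrix.SpecialLinearGroup (Fin 2) (ZMod 3))) hcardC :=
        Subsingleton.elim _ _
      have := congrArg (fun P : Sylow 2 (Matrix.SpecialLinearGroup (Fin 2) (ZMod 3)) =>
        (P : Subgroup (Matrix.SpecialLinearGroup (Fin 2) (ZMod 3)))) heq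
      simpa only [Sylow.coe_ofCard] using this

/-- The group SL₂ over the field with 3 elements has order 24 and centre of order 2; its commutator subgroup has order 8, is isomorphic to the quaternion group of order 8 and is complemented by every Sylow 3-subgroup (so the group is a semidirect product of a quaternion group of order 8 by a cyclic group of order 3); and its only normal subgroups besides the trivial subgroup and the whole group are the centre and the commutator subgroup. -/
theorem result :
    Nat.card (Matrix.SpecialLinearGroup (Fin 2) (ZMod 3)) = 24 ∧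
    Nat.card (Subgroup.center (Matrix.SpecialLinearGroup (Fin 2) (ZMod 3))) = 2 ∧
    Nat.card (commutator (Matrix.SpecialLinearGroup (Fin 2) (ZMod 3))) = 8 ∧
    Nonempty (commutator (Matrix.SpecialLinearGroup (Fin 2) (ZMod 3)) ≃* QuaternionGroup 2) ∧
    (∀ P : Sylow 3 (Matrix.SpecialLinearGroup (Fin 2) (ZMod 3)),
      Subgroup.IsComplement' (commutator (Matrix.SpecialLinearGroup (Fin 2) (ZMod 3)))
        (P : Subgroup (Matrix.SpecialLinearGroup (Fin 2) (ZMod 3)))) ∧
    ∀ N : Subgroup (Matrix.SpecialLinearGroup (Fin 2) (ZMod 3)), N.Normal →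
      N = ⊥ ∨ N = ⊤ ∨ N = Subgroup.center (Matrix.SpecialLinearGroup (Fin 2) (ZMod 3)) ∨
        N = commutator (Matrix.SpecialLinearGroup (Fin 2) (ZMod 3)) := by
  refine ⟨card_G, card_center, card_commutator, ?_, ?_, normal_cases⟩
  · -- quaternion
    haveI : Fact (Nat.Prime 2) := ⟨Nat.prime_two⟩
    have hcardC : Nat.card (commutator (Matrix.SpecialLinearGroup (Fin 2) (ZMod 3))) =
        2 ^ (Nat.card (Matrix.SpecialLinearGroup (Fin 2) (ZMod 3))).factorization 2 := by
      rw [factorization_24, card_commutator]
      norm_num
    obtain ⟨k, hk1, ⟨e⟩⟩ := Cfsg.Agent.S0261.result hodd3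
      (Sylow.ofCard (commutator (Matrix.SpecialLinearGroup (Fin 2) (ZMod 3))) hcardC)
    have hcard := Nat.card_congr e.toEquiv
    have hq : Nat.card (QuaternionGroup (2 ^ k)) = 4 * 2 ^ k := by
      rw [Nat.card_eq_fintype_card, QuaternionGroup.card]
    rw [hq] at hcard
    have hc8 : Nat.card ((Sylow.ofCard (commutator (Matrix.SpecialLinearGroup (Fin 2) (ZMod 3)))
        hcardC : Sylow 2 (Matrix.SpecialLinearGroup (Fin 2) (ZMod 3))) :
        Subgroup (Matrix.SpecialLinearGroup (Fin 2) (ZMod 3))) = 8 := card_commutator
    rw [hc8] at hcard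
    have hk : k = 1 := by
      have h2 : 2 ^ k = 2 ^ 1 := by omega
      exact Nat.pow_right_injective (le_refl 2) h2
    subst hk
    exact ⟨e⟩
  · intro P
    haveI : Fact (Nat.Prime 3) := ⟨by norm_num⟩
    have hP : Nat.card (P : Subgroup (Matrix.SpecialLinearGroup (Fin 2) (ZMod 3))) = 3 := by
      rw [Sylow.card_eq_multiplicity, card_G]
      have h : (24 : ℕ) = 3 ^ 1 * 8 := by norm_num
      rw [h, Nat.factorization_mul (by norm_num) (by norm_num), Finsupp.add_apply,
        Nat.Prime.factorization_pow (by norm_num), Finsupp.single_eq_same,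
        Nat.factorization_eq_zero_of_not_dvd (by norm_num)]
      norm_num
    apply Subgroup.isComplement'_of_coprime
    · rw [card_commutator, hP, card_G]
    · rw [card_commutator, hP]
      norm_num

end Cfsg.Agent.S2427
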