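import Cfsg.Statements.S2431
import Cfsg.Agent.H41.Syl2SL2

set_option autoImplicit false
open Cfsg

namespace Cfsg.Agent.S2431

open Cfsg.Agent.H41

theorem split_case {F : Type*} [Field F] [Fintype F] (hodd : Odd (Fintype.card F))
    (h1 : Fintype.card F % 4 = 1) (S : Sylow 2 (Matrix.SpecialLinearGroup (Fin 2) F)) :
    Subgroup.centralizer ((S : Subgroup (Matrix.SpecialLinearGroup (Fin 2) F)) : Set (Matrix.SpecialLinearGroup (Fin 2) F)) = Subgroup.center (Matrix.SpecialLinearGroup (Fin 2) F) ∧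
    (8 ∣ Fintype.card F - 1 →
      Subgroup.normalizer ((S : Subgroup (Matrix.SpecialLinearGroup (Fin 2) F)) : Set (Matrix.SpecialLinearGroup (Fin 2) F)) = (S : Subgroup (Matrix.SpecialLinearGroup (Fin 2) F))) ∧
    (¬ 8 ∣ Fintype.card F - 1 →
      Nat.card (Subgroup.normalizer ((S : Subgroup (Matrix.SpecialLinearGroup (Fin 2) F)) : Set (Matrix.SpecialLinearGroup (Fin 2) F))) = 3 * Nat.card S) := by
  have h2F : (2 : F) ≠ 0 := two_ne_zero_of_odd_card hodd
  have hq1 : Fintype.card F ≠ 1 := Fintype.one_lt_card.ne'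
  obtain ⟨d, hd, hda⟩ := exists_regular_diag (F := F) (by omega)
  have hT := torusData_diag h2F d hd hda
  have hm := card_diagSubgroup (F := F)
  have hN : Nat.card (Subgroup.normalizer ((diagSubgroup F : Subgroup (Matrix.SpecialLinearGroup (Fin 2) F)) : Set (Matrix.SpecialLinearGroup (Fin 2) F))) = 2 * (Fintype.card F - 1) :=
    card_diagNormalizer d hd hda
  have hG := card_SL2_factorization_one (F := F) h1
  have h4 : 4 ∣ Fintype.card F - 1 := by omega
  exact ⟨sylow2_centralizer hT isCyclic_diagSubgroup _ hm hN hG h4 S,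
    fun h8 => sylow2_normalizer hT isCyclic_diagSubgroup _ hm hN hG h8 S,
    fun h8 => sylow2_card_normalizer hT isCyclic_diagSubgroup _ hm hN hG h4 h8
      (isConj_of_sq_negOne h2F) S⟩

theorem nonsplit_case {F : Type*} [Field F] [Fintype F] (hodd : Odd (Fintype.card F))
    (h3 : Fintype.card F % 4 = 3) (S : Sylow 2 (Matrix.SpecialLinearGroup (Fin 2) F)) :
    Subgroup.centralizer ((S : Subgroup (Matrix.SpecialLinearGroup (Fin 2) F)) : Set (Matrix.SpecialLinearGroup (Fin 2) F)) = Subgroup.center (Matrix.SpecialLinearGroup (Fin 2) F) ∧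
    (8 ∣ Fintype.card F + 1 →
      Subgroup.normalizer ((S : Subgroup (Matrix.SpecialLinearGroup (Fin 2) F)) : Set (Matrix.SpecialLinearGroup (Fin 2) F)) = (S : Subgroup (Matrix.SpecialLinearGroup (Fin 2) F))) ∧
    (¬ 8 ∣ Fintype.card F + 1 →
      Nat.card (Subgroup.normalizer ((S : Subgroup (Matrix.SpecialLinearGroup (Fin 2) F)) : Set (Matrix.SpecialLinearGroup (Fin 2) F))) = 3 * Nat.card S) := by
  have h2F : (2 : F) ≠ 0 := two_ne_zero_of_odd_card hodd
  obtain ⟨p, hp⟩ := CharP.exists F
  have : Fact p.Prime := ⟨CharP.char_is_prime F p⟩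
  have : NeZero (2 : ℕ) := ⟨by norm_num⟩
  have h2 : Module.finrank F (FiniteField.Extension F p 2) = 2 :=
    FiniteField.finrank_extension F p 2
  let b : Module.Basis (Fin 2) F (FiniteField.Extension F p 2) :=
    Module.finBasisOfFinrankEq F _ h2
  have hT := torusData_torus hodd h2 b
  have hm := card_torus h2 b
  have hN : Nat.card (Subgroup.normalizer ((torus h2 b : Subgroup (Matrix.SpecialLinearGroup (Fin 2) F)) : Set (Matrix.SpecialLinearGroup (Fin 2) F))) = 2 * (Fintype.card F + 1) :=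
    card_torusNormalizer h2 b hodd
  have hG := card_SL2_factorization_three (F := F) h3
  have h4 : 4 ∣ Fintype.card F + 1 := by omega
  exact ⟨sylow2_centralizer hT (isCyclic_torus h2 b) _ hm hN hG h4 S,
    fun h8 => sylow2_normalizer hT (isCyclic_torus h2 b) _ hm hN hG h8 S,
    fun h8 => sylow2_card_normalizer hT (isCyclic_torus h2 b) _ hm hN hG h4 h8
      (isConj_of_sq_negOne h2F) S⟩

/-- Let F be a finite field with q elements, q odd, and S a Sylow 2-subgroup of SL₂ over F. The centraliser of S is the centre of SL₂ (of order 2); S is its own normaliser when q ≡ ±1 mod 8, and has index 3 in its normaliser when q ≡ ±3 mod 8. -/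
theorem result {F : Type*} [Field F] [Fintype F] (hodd : Odd (Fintype.card F)) (S : Sylow 2 (Matrix.SpecialLinearGroup (Fin 2) F)) :
    Subgroup.centralizer ((S : Subgroup (Matrix.SpecialLinearGroup (Fin 2) F)) : Set (Matrix.SpecialLinearGroup (Fin 2) F)) = Subgroup.center (Matrix.SpecialLinearGroup (Fin 2) F) ∧
    ((Fintype.card F % 8 = 1 ∨ Fintype.card F % 8 = 7) →
      Subgroup.normalizer ((S : Subgroup (Matrix.SpecialLinearGroup (Fin 2) F)) : Set (Matrix.SpecialLinearGroup (Fin 2) F)) = (S : Subgroup (Matrix.SpecialLinearGroup (Fin 2) F))) ∧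
    ((Fintype.card F % 8 = 3 ∨ Fintype.card F % 8 = 5) →
      Nat.card (Subgroup.normalizer ((S : Subgroup (Matrix.SpecialLinearGroup (Fin 2) F)) : Set (Matrix.SpecialLinearGroup (Fin 2) F))) = 3 * Nat.card S) := by
  have hq : Fintype.card F % 4 = 1 ∨ Fintype.card F % 4 = 3 := by
    obtain ⟨j, hj⟩ := hodd
    omega
  have hq1 : 1 ≤ Fintype.card F := Fintype.card_pos
  rcases hq with h1 | h3
  · obtain ⟨k1, k2, k3⟩ := split_case hodd h1 S
    refine ⟨k1, fun h => k2 (by omega), fun h => k3 (by omega)⟩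
  · obtain ⟨k1, k2, k3⟩ := nonsplit_case hodd h3 S
    refine ⟨k1, fun h => k2 (by omega), fun h => k3 (by omega)⟩

end Cfsg.Agent.S2431
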