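import Cfsg.Statements.S2432
import Cfsg.Agent.Lib.Helper39.PSInst

set_option autoImplicit false
open Cfsg

namespace Cfsg.Agent.S2432

open Cfsg.Agent.Lib.Helper39.PSInst
open scoped ComplexConjugate

theorem inner_formula {F : Type*} [Field F] [Fintype F] [DecidableEq F] (α β : MulChar F ℂ) :
    Cfsg.classInner (Cfsg.indFun ((Cfsg.upperTriangularGL 2 F).comap Matrix.SpecialLinearGroup.toGL) (fun b => α (((b : Matrix.SpecialLinearGroup (Fin 2) F) : Matrix (Fin 2) (Fin 2) F) 0 0))) (Cfsg.indFun ((Cfsg.upperTriangularGL 2 F).comap Matrix.SpecialLinearGroup.toGL) (fun b => β (((b : Matrix.SpecialLinearGroup (Fin 2) F) : Matrix (Fin 2) (Fin 2) F) 0 0))) =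
      (Fintype.card Fˣ : ℂ)⁻¹ * ∑ t : Fˣ, α (t : F) *
        conj (β (t : F) + β ((t⁻¹ : Fˣ) : F)) :=
  sl_classInner (fun a _ => α a) (fun a _ => β a)

/-- Let F be a finite field with q elements, q odd, and for a multiplicative character α of F let R(α) be the function on SL₂ induced from the linear character b ↦ α(b₁₁) of the upper triangular subgroup. For multiplicative characters α, β the inner product of R(α) and R(β) equals the number of true statements among 'α = β' and 'α = β⁻¹' (the Mackey formula for the upper triangular subgroup, whose intersection with a conjugate by the Weyl element is the diagonal subgroup). -/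
theorem result {F : Type*} [Field F] [Fintype F] [DecidableEq F] (hodd : Odd (Fintype.card F))
    (α β : MulChar F ℂ) [Decidable (α = β)] [Decidable (α = β⁻¹)] :
    Cfsg.classInner (Cfsg.indFun ((Cfsg.upperTriangularGL 2 F).comap Matrix.SpecialLinearGroup.toGL) (fun b => α (((b : Matrix.SpecialLinearGroup (Fin 2) F) : Matrix (Fin 2) (Fin 2) F) 0 0))) (Cfsg.indFun ((Cfsg.upperTriangularGL 2 F).comap Matrix.SpecialLinearGroup.toGL) (fun b => β (((b : Matrix.SpecialLinearGroup (Fin 2) F) : Matrix (Fin 2) (Fin 2) F) 0 0))) =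
      (if α = β then 1 else 0) + (if α = β⁻¹ then 1 else 0) := by
  classical
  rw [inner_formula]
  have hN : (Fintype.card Fˣ : ℂ) ≠ 0 := by
    exact_mod_cast (Fintype.card_pos (α := Fˣ)).ne'
  have h1 : ∑ t : Fˣ, α (t : F) * conj (β (t : F) + β ((t⁻¹ : Fˣ) : F)) =
      ∑ t : Fˣ, α (t : F) * conj (β (t : F)) + ∑ t : Fˣ, α (t : F) * conj (β⁻¹ (t : F)) := by
    rw [← Finset.sum_add_distrib]
    apply Finset.sum_congr rfl
    intro t _
    rw [map_add, mul_add]
    congr 2
    rw [MulChar.inv_apply']
    simp
  rw [h1, sum_units_mul_conj, sum_units_mul_conj, mul_add]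
  congr 1
  · split_ifs with h
    · exact inv_mul_cancel₀ hN
    · simp
  · split_ifs with h
    · exact inv_mul_cancel₀ hN
    · simp

end Cfsg.Agent.S2432
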