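import Cfsg.Statements.S2433
import Cfsg.Agent.Lib.Helper39.GL2Inst

set_option autoImplicit false
open Cfsg

namespace Cfsg.Agent.S2433

open Cfsg.Agent.Lib.Helper39.GL2Inst

theorem formula {F : Type*} [Field F] [Fintype F] [DecidableEq F] (α : MulChar F ℂ)
    (g : Matrix.SpecialLinearGroup (Fin 2) F) :
    (Cfsg.indFun ((Cfsg.upperTriangularGL 2 F).comap Matrix.SpecialLinearGroup.toGL)
      (fun b => α (((b : Matrix.SpecialLinearGroup (Fin 2) F) : Matrix (Fin 2) (Fin 2) F) 0 0))) g =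
      (∑ s : F, if (g : Matrix (Fin 2) (Fin 2) F) 1 0 +
          ((g : Matrix (Fin 2) (Fin 2) F) 1 1 - (g : Matrix (Fin 2) (Fin 2) F) 0 0) * s -
          (g : Matrix (Fin 2) (Fin 2) F) 0 1 * s ^ 2 = 0
        then α ((g : Matrix (Fin 2) (Fin 2) F) 0 0 + (g : Matrix (Fin 2) (Fin 2) F) 0 1 * s) else 0) +
      (if (g : Matrix (Fin 2) (Fin 2) F) 0 1 = 0
        then α ((g : Matrix (Fin 2) (Fin 2) F) 1 1) else 0) := by
  exact sl_indFun (fun a _ => α a) g

/-- Let F be a finite field with q elements, q odd, α a multiplicative character of F, and R(α) the function on SL₂ induced from the linear character b ↦ α(b₁₁) of the upper triangular subgroup. Then R(α) takes the value α(a) + α(a⁻¹) at a diagonal element with entries a, a⁻¹, a² ≠ 1; the value 0 at every element with no eigenvector in F²; the value α(ε) at an upper triangular element with both diagonal entries ε and non-zero upper right entry; and the value (q + 1)α(ε) at the scalar element ε (ε = ±1). -/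
theorem result {F : Type*} [Field F] [Fintype F] [DecidableEq F] (hodd : Odd (Fintype.card F)) (α : MulChar F ℂ) (g : Matrix.SpecialLinearGroup (Fin 2) F) :
    ((g : Matrix (Fin 2) (Fin 2) F) 0 1 = 0 → (g : Matrix (Fin 2) (Fin 2) F) 1 0 = 0 → (g : Matrix (Fin 2) (Fin 2) F) 0 0 ^ 2 ≠ 1 →
      (Cfsg.indFun ((Cfsg.upperTriangularGL 2 F).comap Matrix.SpecialLinearGroup.toGL) (fun b => α (((b : Matrix.SpecialLinearGroup (Fin 2) F) : Matrix (Fin 2) (Fin 2) F) 0 0))) g = α ((g : Matrix (Fin 2) (Fin 2) F) 0 0) + α ((g : Matrix (Fin 2) (Fin 2) F) 1 1)) ∧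
    ((∀ (c : F) (v : Fin 2 → F), v ≠ 0 → (g : Matrix (Fin 2) (Fin 2) F).mulVec v ≠ c • v) → (Cfsg.indFun ((Cfsg.upperTriangularGL 2 F).comap Matrix.SpecialLinearGroup.toGL) (fun b => α (((b : Matrix.SpecialLinearGroup (Fin 2) F) : Matrix (Fin 2) (Fin 2) F) 0 0))) g = 0) ∧
    ((g : Matrix (Fin 2) (Fin 2) F) 1 0 = 0 → (g : Matrix (Fin 2) (Fin 2) F) 0 0 = (g : Matrix (Fin 2) (Fin 2) F) 1 1 → (g : Matrix (Fin 2) (Fin 2) F) 0 1 ≠ 0 →
      (Cfsg.indFun ((Cfsg.upperTriangularGL 2 F).comap Matrix.SpecialLinearGroup.toGL) (fun b => α (((b : Matrix.SpecialLinearGroup (Fin 2) F) : Matrix (Fin 2) (Fin 2) F) 0 0))) g = α ((g : Matrix (Fin 2) (Fin 2) F) 0 0)) ∧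
    ((g : Matrix (Fin 2) (Fin 2) F) 0 1 = 0 → (g : Matrix (Fin 2) (Fin 2) F) 1 0 = 0 → (g : Matrix (Fin 2) (Fin 2) F) 0 0 = (g : Matrix (Fin 2) (Fin 2) F) 1 1 →
      (Cfsg.indFun ((Cfsg.upperTriangularGL 2 F).comap Matrix.SpecialLinearGroup.toGL) (fun b => α (((b : Matrix.SpecialLinearGroup (Fin 2) F) : Matrix (Fin 2) (Fin 2) F) 0 0))) g = ((Fintype.card F : ℂ) + 1) * α ((g : Matrix (Fin 2) (Fin 2) F) 0 0)) := by
  have hdet : (g : Matrix (Fin 2) (Fin 2) F) 0 0 * (g : Matrix (Fin 2) (Fin 2) F) 1 1 -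
      (g : Matrix (Fin 2) (Fin 2) F) 0 1 * (g : Matrix (Fin 2) (Fin 2) F) 1 0 = 1 := by
    have := g.2
    rw [Matrix.det_fin_two] at this
    exact this
  refine ⟨?_, ?_, ?_, ?_⟩
  · intro h01 h10 hsq
    rw [formula, h01, h10, if_pos rfl]
    congr 1
    rw [h01, h10] at hdet
    have hne : (g : Matrix (Fin 2) (Fin 2) F) 1 1 - (g : Matrix (Fin 2) (Fin 2) F) 0 0 ≠ 0 := by
      intro h
      apply hsq
      have : (g : Matrix (Fin 2) (Fin 2) F) 1 1 = (g : Matrix (Fin 2) (Fin 2) F) 0 0 :=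
        sub_eq_zero.1 h
      rw [this] at hdet
      linear_combination hdet
    have : ∀ s : F, (if (0 : F) + ((g : Matrix (Fin 2) (Fin 2) F) 1 1 -
        (g : Matrix (Fin 2) (Fin 2) F) 0 0) * s - 0 * s ^ 2 = 0
        then α ((g : Matrix (Fin 2) (Fin 2) F) 0 0 + 0 * s) else 0) =
        if s = 0 then α ((g : Matrix (Fin 2) (Fin 2) F) 0 0) else 0 := by
      intro s
      by_cases hs : s = 0
      · rw [if_pos hs, if_pos (by rw [hs]; ring)]
        rw [hs]; simp
      · rw [if_neg hs, if_neg]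
        intro h
        have : ((g : Matrix (Fin 2) (Fin 2) F) 1 1 - (g : Matrix (Fin 2) (Fin 2) F) 0 0) * s = 0 := by
          linear_combination h
        rcases mul_eq_zero.1 this with h' | h'
        · exact hne h'
        · exact hs h'
    simp_rw [this]
    simp
  · intro hno
    rw [formula]
    have h01 : (g : Matrix (Fin 2) (Fin 2) F) 0 1 ≠ 0 := by
      intro h01
      have := hno ((g : Matrix (Fin 2) (Fin 2) F) 1 1) ![0, 1] (by
        intro h
        have := congrFun h 1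
        simp at this)
      apply this
      ext i
      fin_cases i <;> simp [Matrix.mulVec, dotProduct, Fin.sum_univ_two, h01]
    rw [if_neg h01, add_zero]
    apply Finset.sum_eq_zero
    intro s _
    rw [if_neg]
    intro h
    have := hno ((g : Matrix (Fin 2) (Fin 2) F) 0 0 + (g : Matrix (Fin 2) (Fin 2) F) 0 1 * s) ![1, s] (by
        intro h
        have := congrFun h 0
        simp at this)
    apply this
    ext i
    fin_cases i
    · simp [Matrix.mulVec, dotProduct, Fin.sum_univ_two]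
    · simp [Matrix.mulVec, dotProduct, Fin.sum_univ_two]
      linear_combination h
  · intro h10 h00 h01
    rw [formula, if_neg h01, add_zero, h10, h00]
    have : ∀ s : F, (if (0 : F) + ((g : Matrix (Fin 2) (Fin 2) F) 1 1 -
        (g : Matrix (Fin 2) (Fin 2) F) 1 1) * s - (g : Matrix (Fin 2) (Fin 2) F) 0 1 * s ^ 2 = 0
        then α ((g : Matrix (Fin 2) (Fin 2) F) 1 1 + (g : Matrix (Fin 2) (Fin 2) F) 0 1 * s) else 0) =
        if s = 0 then α ((g : Matrix (Fin 2) (Fin 2) F) 1 1) else 0 := by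
      intro s
      by_cases hs : s = 0
      · rw [if_pos hs, if_pos (by rw [hs]; ring)]
        rw [hs]; simp
      · rw [if_neg hs, if_neg]
        intro h
        have : (g : Matrix (Fin 2) (Fin 2) F) 0 1 * s ^ 2 = 0 := by
          linear_combination (-1 : F) * h
        rcases mul_eq_zero.1 this with h' | h'
        · exact h01 h'
        · exact hs (pow_eq_zero_iff (two_ne_zero) |>.1 h')
    simp_rw [this]
    simp
  · intro h01 h10 h00
    rw [formula, h01, h10, if_pos rfl, h00]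
    simp
    ring

end Cfsg.Agent.S2433
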