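import Cfsg.Statements.S2434
import Cfsg.Agent.H41.SL2CuspFull
import Cfsg.Agent.H41.SL2CuspExist

set_option autoImplicit false
open Cfsg

namespace Cfsg.Agent.S2434

open Cfsg.Agent.H41 Cfsg.Agent.Lib.CT Cfsg.Agent.Lib.CT.Wedderburn
  Cfsg.Agent.Lib.Helper39.SL2T1 Cfsg.Agent.Lib.Helper39.SL2PS Cfsg.Agent.Lib.Helper39.SL2Tri
  Cfsg.Agent.Lib.Helper39.SL2Half Cfsg.Agent.Lib.Helper39.SL2Odd Cfsg.Agent.Lib.Helper39.GL2T1
  Cfsg.Agent.Lib.Helper39.SL2Deg Cfsg.Agent.Lib.Helper39.PSInst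

theorem partA {F : Type*} [Field F] [Fintype F] [DecidableEq F] (hodd : Odd (Fintype.card F))
    (C : Subgroup (Matrix.SpecialLinearGroup (Fin 2) F)) (hC : IsCyclic C)
    (hcard : Nat.card C = Fintype.card F + 1) (θ : C →* ℂˣ) (hθ : ∃ c : C, θ c ^ 2 ≠ 1) :
    ∃ χ : Matrix.SpecialLinearGroup (Fin 2) F → ℂ, Cfsg.IsIrrCharacter (Matrix.SpecialLinearGroup (Fin 2) F) χ ∧ χ 1 = (Fintype.card F : ℂ) - 1 ∧
        (∀ c : C, (c : Matrix.SpecialLinearGroup (Fin 2) F) ∉ Subgroup.center (Matrix.SpecialLinearGroup (Fin 2) F) → χ c = -((θ c).val + (θ c)⁻¹.val)) ∧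
        (∀ c : C, (c : Matrix.SpecialLinearGroup (Fin 2) F) ∈ Subgroup.center (Matrix.SpecialLinearGroup (Fin 2) F) → ∀ g : Matrix.SpecialLinearGroup (Fin 2) F, χ ((c : Matrix.SpecialLinearGroup (Fin 2) F) * g) = (θ c).val * χ g) ∧
        (∀ g : Matrix.SpecialLinearGroup (Fin 2) F, (g : Matrix (Fin 2) (Fin 2) F) 0 1 = 0 → (g : Matrix (Fin 2) (Fin 2) F) 1 0 = 0 → (g : Matrix (Fin 2) (Fin 2) F) 0 0 ^ 2 ≠ 1 → χ g = 0) ∧
        (∀ g : Matrix.SpecialLinearGroup (Fin 2) F, (g : Matrix (Fin 2) (Fin 2) F) 1 0 = 0 → (g : Matrix (Fin 2) (Fin 2) F) 0 0 = 1 → (g : Matrix (Fin 2) (Fin 2) F) 1 1 = 1 → (g : Matrix (Fin 2) (Fin 2) F) 0 1 ≠ 0 → χ g = -1) := by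
  classical
  obtain ⟨p, hp⟩ := CharP.exists F
  have : Fact p.Prime := ⟨CharP.char_is_prime F p⟩
  have : NeZero (2 : ℕ) := ⟨by norm_num⟩
  have h2 : Module.finrank F (FiniteField.Extension F p 2) = 2 :=
    FiniteField.finrank_extension F p 2
  let b : Module.Basis (Fin 2) F (FiniteField.Extension F p 2) :=
    Module.finBasisOfFinrankEq F _ h2
  obtain ⟨h, hconj⟩ := exists_conj_eq_torus h2 b p C hC hcard
  have hmemC : ∀ t : torus h2 b, h⁻¹ * (t : Matrix.SpecialLinearGroup (Fin 2) F) * h ∈ C := by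
    intro t
    rw [hconj]
    have : h * (h⁻¹ * (t : Matrix.SpecialLinearGroup (Fin 2) F) * h) * h⁻¹ = t := by group
    rw [this]
    exact t.2
  let φ : torus h2 b →* C :=
    { toFun := fun t => ⟨h⁻¹ * t * h, hmemC t⟩
      map_one' := Subtype.ext (by simp)
      map_mul' := fun s t => Subtype.ext (by simp only [Subgroup.coe_mul]; group) }
  have hφ : ∀ c : C, φ ⟨h * c * h⁻¹, (hconj c).1 c.2⟩ = c := by
    intro c
    apply Subtype.ext
    show h⁻¹ * (h * (c : Matrix.SpecialLinearGroup (Fin 2) F) * h⁻¹) * h = c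
    group
  obtain ⟨c₀, hc₀⟩ := hθ
  have hθT : ∃ c, (θ.comp φ) c ^ 2 ≠ 1 := by
    refine ⟨⟨h * c₀ * h⁻¹, (hconj c₀).1 c₀.2⟩, ?_⟩
    rw [MonoidHom.comp_apply, hφ c₀]
    exact hc₀
  obtain ⟨χ, hirr, hdeg, hT, hneg, hsplit, hu⟩ := exists_cusp_torus h2 b hodd p (θ.comp φ) hθT
  have hcl := char_isClassFunction (isCharacter_of_irr hirr)
  refine ⟨χ, hirr, hdeg, ?_, ?_, ?_, ?_⟩
  · intro c hc
    have hc1 : h * (c : Matrix.SpecialLinearGroup (Fin 2) F) * h⁻¹ ≠ 1 := fun h' =>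
      hc (by rw [eq_one_of_conj h _ h']; exact Subgroup.one_mem _)
    have hcneg : h * (c : Matrix.SpecialLinearGroup (Fin 2) F) * h⁻¹ ≠ negOne := fun h' =>
      hc (by rw [eq_negOne_of_conj h _ h']; exact negOne_mem_center)
    have h3 := hT ⟨h * c * h⁻¹, (hconj c).1 c.2⟩ hc1 hcneg
    rw [map_inv, MonoidHom.comp_apply, hφ c] at h3
    rw [← h3]
    exact (hcl c h).symm
  · intro c hc g
    rw [mem_center_iff_one_or_negOne] at hc
    rcases hc with h1 | h1
    · have hc1 : c = 1 := Subtype.ext h1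
      rw [hc1]
      simp
    · rw [h1, hneg g]
      congr 2
      rw [MonoidHom.comp_apply]
      congr 1
      apply Subtype.ext
      show h⁻¹ * negOne * h = (c : Matrix.SpecialLinearGroup (Fin 2) F)
      rw [conj_negOne, h1]
  · intro g h01 h10 hsq
    obtain ⟨t, ht00, ht11, hgt⟩ := eq_bmSL_of_diag g h01 h10
    rw [hgt]
    apply hsplit
    intro h'
    apply hsq
    rw [← ht00]
    have h5 : (t : F) * ((t⁻¹ : Fˣ) : F) = 1 := by simp
    rw [← h'] at h5
    rw [sq]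
    exact h5
  · intro g h10 h00 h11 h01
    have hg : g = uSL ((g : Matrix (Fin 2) (Fin 2) F) 0 1) := by
      apply sl2_ext
      · exact h00
      · rfl
      · exact h10
      · exact h11
    rw [hg]
    exact hu _ h01

theorem partB {F : Type*} [Field F] [Fintype F] [DecidableEq F] (hodd : Odd (Fintype.card F))
    (C : Subgroup (Matrix.SpecialLinearGroup (Fin 2) F)) (hC : IsCyclic C)
    (hcard : Nat.card C = Fintype.card F + 1)
    (χ : Matrix.SpecialLinearGroup (Fin 2) F → ℂ)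
    (hχ : Cfsg.IsIrrCharacter (Matrix.SpecialLinearGroup (Fin 2) F) χ)
    (hdeg : χ 1 = (Fintype.card F : ℂ) - 1) :
    ∃ θ : C →* ℂˣ, (∃ c : C, θ c ^ 2 ≠ 1) ∧
        ∀ c : C, (c : Matrix.SpecialLinearGroup (Fin 2) F) ∉ Subgroup.center (Matrix.SpecialLinearGroup (Fin 2) F) → χ c = -((θ c).val + (θ c)⁻¹.val) := by
  classical
  have hF := ringChar_ne_two_of_odd hodd
  have hodd' := hodd
  obtain ⟨ψ₀, hψ₀⟩ := exists_primitive (F := F)
  obtain ⟨ν, hν⟩ := FiniteField.exists_nonsquare hF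
  obtain ⟨a, bp, bm, hbp, hbm, ha, -, -, hdeg', -, htriv, -⟩ := sl_type hodd ψ₀ hψ₀ hν χ hχ
  obtain ⟨a', ha', htri⟩ := sl_trichotomy χ hχ
  have haa : a = a' := by
    have := ha.symm.trans ha'
    exact_mod_cast this
  subst haa
  obtain ⟨k, hk⟩ := hodd
  have hq2 : 2 ≤ Fintype.card F := Fintype.one_lt_card
  have hk1 : 1 ≤ k := by omega
  have hkk : (Fintype.card F - 1) / 2 = k := by omega
  rw [hkk] at hdeg'
  have hdegk : χ 1 = ((2 * k : ℕ) : ℂ) := by
    rw [hdeg, hk]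
    push_cast
    ring
  have h1 : 2 * k = a + (bp + bm) * k := by
    rw [hdegk] at hdeg'
    exact_mod_cast hdeg'
  rcases htri with ⟨h0, -⟩ | ⟨ha1, α, χ', hα2, hχ', hne, hdec⟩ | ⟨ha2, α, -, hα⟩
  · rw [h0, Nat.cast_zero] at ha
    exact cusp_full_value hodd' C hC hcard χ hχ hdeg ha
  · have hk1' : k = 1 := by
      interval_cases bp <;> interval_cases bm <;> simp at h1 <;> omega
    have hq3 : Fintype.card F = 3 := by omega
    have hα1 : α ≠ 1 := by
      rintro rfl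
      have hin : classInner (fun _ : Matrix.SpecialLinearGroup (Fin 2) F => (1 : ℂ))
          (slPS (1 : MulChar F ℂ)) ≠ 0 := by
        rw [Clifford.classInner_conj_symm, slPS_inner_one, if_pos rfl]
        simp
      rcases mem_of_decomp Ops.isIrrCharacter_one hχ hχ' hdec hin with h | h
      · rw [← h] at hdegk
        have h5 : ((1 : ℕ) : ℂ) = ((2 * k : ℕ) : ℂ) := by simpa using hdegk
        have h6 : 1 = 2 * k := by exact_mod_cast h5
        omega
      · have h7 := congrFun hdec 1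
        rw [slPS_one, Pi.add_apply, hdegk, ← h, hq3, hk1'] at h7
        norm_num at h7
    have hvan : ∀ g : Matrix.SpecialLinearGroup (Fin 2) F,
        (∀ (c : F) (v : Fin 2 → F), v ≠ 0 → (g : Matrix (Fin 2) (Fin 2) F).mulVec v ≠ c • v) →
        χ g = 0 := fun g hno => half_elliptic hodd' α hα1 χ χ' hχ hχ' hne hdec g hno
    exact vanish_three_value hodd' hq3 C hC hcard χ hvan
  · exfalso
    rw [hα, slPS_one] at hdeg
    have h5 : (1 : ℂ) = -1 := by linear_combination hdeg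
    norm_num at h5

/-- Let F be a finite field with q elements, q odd, and C a cyclic subgroup of order q + 1 of SL₂ over F (a non-split torus; it contains the centre). For every homomorphism θ from C to the non-zero complex numbers with θ² ≠ 1 there is an irreducible complex character χ of degree q − 1 such that χ(c) = −θ(c) − θ(c)⁻¹ for every non-central c in C, χ(zg) = θ(z)χ(g) for central z in C, χ vanishes at diagonal elements with entry a, a² ≠ 1, and χ takes the value −1 at every upper unitriangular element other than 1. Conversely every irreducible character of degree q − 1 has, for some such θ, the values −θ(c) − θ(c)⁻¹ at the non-central elements c of C (for q ≥ 5 these are exactly the cuspidal characters of degree q − 1). -/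
theorem result {F : Type*} [Field F] [Fintype F] (hodd : Odd (Fintype.card F))
    (C : Subgroup (Matrix.SpecialLinearGroup (Fin 2) F)) (hC : IsCyclic C) (hcard : Nat.card C = Fintype.card F + 1) :
    (∀ θ : C →* ℂˣ, (∃ c : C, θ c ^ 2 ≠ 1) →
      ∃ χ : Matrix.SpecialLinearGroup (Fin 2) F → ℂ, Cfsg.IsIrrCharacter (Matrix.SpecialLinearGroup (Fin 2) F) χ ∧ χ 1 = (Fintype.card F : ℂ) - 1 ∧
        (∀ c : C, (c : Matrix.SpecialLinearGroup (Fin 2) F) ∉ Subgroup.center (Matrix.SpecialLinearGroup (Fin 2) F) → χ c = -((θ c).val + (θ c)⁻¹.val)) ∧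
        (∀ c : C, (c : Matrix.SpecialLinearGroup (Fin 2) F) ∈ Subgroup.center (Matrix.SpecialLinearGroup (Fin 2) F) → ∀ g : Matrix.SpecialLinearGroup (Fin 2) F, χ ((c : Matrix.SpecialLinearGroup (Fin 2) F) * g) = (θ c).val * χ g) ∧
        (∀ g : Matrix.SpecialLinearGroup (Fin 2) F, (g : Matrix (Fin 2) (Fin 2) F) 0 1 = 0 → (g : Matrix (Fin 2) (Fin 2) F) 1 0 = 0 → (g : Matrix (Fin 2) (Fin 2) F) 0 0 ^ 2 ≠ 1 → χ g = 0) ∧
        (∀ g : Matrix.SpecialLinearGroup (Fin 2) F, (g : Matrix (Fin 2) (Fin 2) F) 1 0 = 0 → (g : Matrix (Fin 2) (Fin 2) F) 0 0 = 1 → (g : Matrix (Fin 2) (Fin 2) F) 1 1 = 1 → (g : Matrix (Fin 2) (Fin 2) F) 0 1 ≠ 0 → χ g = -1)) ∧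
    (∀ χ : Matrix.SpecialLinearGroup (Fin 2) F → ℂ, Cfsg.IsIrrCharacter (Matrix.SpecialLinearGroup (Fin 2) F) χ → χ 1 = (Fintype.card F : ℂ) - 1 →
      ∃ θ : C →* ℂˣ, (∃ c : C, θ c ^ 2 ≠ 1) ∧
        ∀ c : C, (c : Matrix.SpecialLinearGroup (Fin 2) F) ∉ Subgroup.center (Matrix.SpecialLinearGroup (Fin 2) F) → χ c = -((θ c).val + (θ c)⁻¹.val)) := by
  classical
  exact ⟨fun θ hθ => partA hodd C hC hcard θ hθ, fun χ hχ hdeg => partB hodd C hC hcard χ hχ hdeg⟩

end Cfsg.Agent.S2434
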