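import Cfsg.Statements.S2435
import Cfsg.Agent.H41.SL2CuspHalf

set_option autoImplicit false
open Cfsg

namespace Cfsg.Agent.S2435

open Cfsg.Agent.H41 Cfsg.Agent.Lib.CT Cfsg.Agent.Lib.CT.Wedderburn
  Cfsg.Agent.Lib.Helper39.SL2T1 Cfsg.Agent.Lib.Helper39.SL2PS Cfsg.Agent.Lib.Helper39.SL2Tri
  Cfsg.Agent.Lib.Helper39.SL2Half Cfsg.Agent.Lib.Helper39.SL2Odd Cfsg.Agent.Lib.Helper39.GL2T1
  Cfsg.Agent.Lib.Helper39.SL2Deg Cfsg.Agent.Lib.Helper39.PSInst

theorem half_ps_value {F : Type*} [Field F] [Fintype F] [DecidableEq F]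
    (hodd : Odd (Fintype.card F)) (hq : 5 ≤ Fintype.card F)
    (χ : Matrix.SpecialLinearGroup (Fin 2) F → ℂ)
    (hχ : IsIrrCharacter (Matrix.SpecialLinearGroup (Fin 2) F) χ)
    (hdeg : χ 1 = (((Fintype.card F + 1) / 2 : ℕ) : ℂ))
    (g : Matrix.SpecialLinearGroup (Fin 2) F)
    (h01 : (g : Matrix (Fin 2) (Fin 2) F) 0 1 = 0) (h10 : (g : Matrix (Fin 2) (Fin 2) F) 1 0 = 0)
    (hsq : (g : Matrix (Fin 2) (Fin 2) F) 0 0 ^ 2 ≠ 1) :
    (IsSquare ((g : Matrix (Fin 2) (Fin 2) F) 0 0) → χ g = 1) ∧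
      (¬ IsSquare ((g : Matrix (Fin 2) (Fin 2) F) 0 0) → χ g = -1) := by
  classical
  have : Fintype (MulChar F ℂ) := Fintype.ofFinite _
  have hF := ringChar_ne_two_of_odd hodd
  obtain ⟨ψ₀, hψ₀⟩ := exists_primitive (F := F)
  obtain ⟨ν, hν⟩ := FiniteField.exists_nonsquare hF
  obtain ⟨a, bp, bm, hbp, hbm, ha, -, -, hdeg', -, htriv, -⟩ := sl_type hodd ψ₀ hψ₀ hν χ hχ
  obtain ⟨a', ha', htri⟩ := sl_trichotomy χ hχ
  have haa : a = a' := by
    have := ha.symm.trans ha'
    exact_mod_cast this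
  subst haa
  obtain ⟨k, hk⟩ := hodd
  have hk2 : 2 ≤ k := by omega
  have hkk : (Fintype.card F - 1) / 2 = k := by omega
  have hkk' : (Fintype.card F + 1) / 2 = k + 1 := by omega
  rw [hkk] at hdeg'
  rw [hkk'] at hdeg
  have ha2 : a ≤ 2 := by
    rcases htri with ⟨h, -⟩ | ⟨h, -⟩ | ⟨h, -⟩ <;> omega
  have ha1 : a = 1 := by
    have h1 : k + 1 = a + (bp + bm) * k := by
      rw [hdeg] at hdeg'
      exact_mod_cast hdeg'
    have h3 : bp + bm = 0 → k + 1 = 1 := by
      intro h0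
      have h4 := htriv h0
      rw [h4] at hdeg
      have h5 : ((1 : ℕ) : ℂ) = ((k + 1 : ℕ) : ℂ) := by simpa using hdeg
      exact_mod_cast h5.symm
    interval_cases bp <;> interval_cases bm <;> simp at h1 h3 <;> omega
  rcases htri with ⟨h0, -⟩ | ⟨-, α, χ', hα2, hχ', hne, hdec⟩ | ⟨h2', -⟩
  · omega
  · have hα1 : α ≠ 1 := by
      rintro rfl
      have hin : classInner (fun _ : Matrix.SpecialLinearGroup (Fin 2) F => (1 : ℂ))
          (slPS (1 : MulChar F ℂ)) ≠ 0 := by
        rw [Clifford.classInner_conj_symm, slPS_inner_one, if_pos rfl]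
        simp
      rcases mem_of_decomp Ops.isIrrCharacter_one hχ hχ' hdec hin with h | h
      · rw [← h] at hdeg
        have h5 : ((1 : ℕ) : ℂ) = ((k + 1 : ℕ) : ℂ) := by simpa using hdeg
        have h6 : 1 = k + 1 := by exact_mod_cast h5
        omega
      · have h7 := congrFun hdec 1
        rw [slPS_one, Pi.add_apply, hdeg, ← h, hk] at h7
        have h8 : ((2 * k + 1 + 1 : ℕ) : ℂ) = ((k + 1 + 1 : ℕ) : ℂ) := by
          push_cast
          push_cast at h7
          linear_combination h7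
        have h9 : 2 * k + 1 + 1 = k + 1 + 1 := by exact_mod_cast h8
        omega
    have hαqc : α = qc F := quad_unique hF α hα2 hα1
    obtain ⟨hin', hin⟩ := inner_of_decomp hχ hχ' hne hdec
    have hcl := char_isClassFunction (isCharacter_of_irr hχ)
    have hA : ∀ β : MulChar F ℂ, ∃ n : ℕ, classInner χ (slPS β) = n := fun β =>
      Clifford.classInner_char_nat (isCharacter_of_irr hχ) (isCharacter_slPS β)
    choose A hA using hA
    have hsum : ∑ β : MulChar F ℂ, A β = 1 := by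
      have h5 := sl_jacquet_one χ hcl
      rw [ha] at h5
      simp_rw [hA] at h5
      rw [ha1] at h5
      exact_mod_cast h5
    have hAα : A α = 1 := by
      have h5 := hA α
      rw [hin] at h5
      exact_mod_cast h5.symm
    have hAβ : ∀ β, β ≠ α → A β = 0 := by
      intro β hβ
      have h5 := Finset.add_le_sum (f := A) (fun _ _ => Nat.zero_le _) (Finset.mem_univ α)
        (Finset.mem_univ β) hβ.symm
      omega
    obtain ⟨t, ht00, ht11, hgt⟩ := eq_bmSL_of_diag g h01 h10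
    have htne : (t : F) ≠ ((t⁻¹ : Fˣ) : F) := by
      intro h
      apply hsq
      rw [← ht00]
      have h5 : (t : F) * ((t⁻¹ : Fˣ) : F) = 1 := by simp
      rw [← h] at h5
      rw [sq]
      exact h5
    have hval := sl_jacquet_diag χ hcl t htne
    rw [← hgt] at hval
    rw [Finset.sum_eq_single α (fun β _ hβ => by rw [hA β, hAβ β hβ]; simp)
      (fun h => absurd (Finset.mem_univ _) h), hin, mul_one] at hval
    rw [← hval, hαqc, ht00]
    constructor
    · intro hs
      exact qc_of_isSquare (by rw [← ht00]; exact t.ne_zero) hs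
    · intro hs
      exact qc_of_not_isSquare hs
  · omega

/-- Let F be a finite field with q elements, q odd and q ≥ 5, and χ an irreducible complex character of SL₂ over F. If χ has degree (q + 1)/2, then at a diagonal element with entry a, a² ≠ 1, χ takes the value 1 when a is a square in F and −1 otherwise. If χ has degree (q − 1)/2, then at an element g with no eigenvector in F² (so g has order dividing q + 1), χ takes the value −1 when g raised to the power (q + 1)/2 is the identity and the value 1 otherwise. -/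
theorem result {F : Type*} [Field F] [Fintype F] (hodd : Odd (Fintype.card F)) (hq : 5 ≤ Fintype.card F)
    (χ : Matrix.SpecialLinearGroup (Fin 2) F → ℂ) (hχ : Cfsg.IsIrrCharacter (Matrix.SpecialLinearGroup (Fin 2) F) χ) (g : Matrix.SpecialLinearGroup (Fin 2) F) :
    (χ 1 = (((Fintype.card F + 1) / 2 : ℕ) : ℂ) → (g : Matrix (Fin 2) (Fin 2) F) 0 1 = 0 → (g : Matrix (Fin 2) (Fin 2) F) 1 0 = 0 → (g : Matrix (Fin 2) (Fin 2) F) 0 0 ^ 2 ≠ 1 →
      (IsSquare ((g : Matrix (Fin 2) (Fin 2) F) 0 0) → χ g = 1) ∧ (¬ IsSquare ((g : Matrix (Fin 2) (Fin 2) F) 0 0) → χ g = -1)) ∧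
    (χ 1 = (((Fintype.card F - 1) / 2 : ℕ) : ℂ) → (∀ (c : F) (v : Fin 2 → F), v ≠ 0 → (g : Matrix (Fin 2) (Fin 2) F).mulVec v ≠ c • v) →
      (((g ^ ((Fintype.card F + 1) / 2)) : Matrix (Fin 2) (Fin 2) F) = 1 → χ g = -1) ∧ (((g ^ ((Fintype.card F + 1) / 2)) : Matrix (Fin 2) (Fin 2) F) ≠ 1 → χ g = 1)) := by
  classical
  refine ⟨fun hdeg h01 h10 hsq => half_ps_value hodd hq χ hχ hdeg g h01 h10 hsq, ?_⟩
  intro hdeg hno
  obtain ⟨h1, h2⟩ := cusp_half_value hodd hq χ hχ hdeg g hno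
  constructor
  · intro hg
    apply h1
    apply Subtype.ext
    rw [Matrix.SpecialLinearGroup.coe_pow, hg]
    rfl
  · intro hg
    apply h2
    intro h
    apply hg
    rw [← Matrix.SpecialLinearGroup.coe_pow, h]
    rfl

end Cfsg.Agent.S2435
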