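import Cfsg.Statements.S2436
import Cfsg.Agent.H41.McKayGlobal
import Cfsg.Agent.H41.McKayLocal

set_option autoImplicit false
open Cfsg

namespace Cfsg.Agent.S2436

open Cfsg.Agent.H41

theorem dvd_succ_false {ℓ a b : ℕ} (hℓ : 2 ≤ ℓ) (ha : ℓ ∣ a) (hb : ℓ ∣ b) (h : b = a + 1) :
    False := by
  rw [h] at hb
  have h1 := (Nat.dvd_add_right ha).1 hb
  have := Nat.le_of_dvd (by norm_num) h1
  omega

theorem dvd_succ_succ_false {ℓ a b : ℕ} (hℓ : 3 ≤ ℓ) (ha : ℓ ∣ a) (hb : ℓ ∣ b) (h : b = a + 2) :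
    False := by
  rw [h] at hb
  have h1 := (Nat.dvd_add_right ha).1 hb
  have := Nat.le_of_dvd (by norm_num) h1
  omega

theorem dvd_half {ℓ a : ℕ} (hℓ : ℓ.Prime) (hℓ2 : ℓ ≠ 2) (h : ℓ ∣ 2 * a) : ℓ ∣ a := by
  rcases (Nat.Prime.dvd_mul hℓ).1 h with h' | h'
  · exact absurd ((Nat.prime_dvd_prime_iff_eq hℓ Nat.prime_two).1 h') hℓ2
  · exact h'

/-- Let F be a finite field with q elements, q odd, ℓ any prime and S a Sylow ℓ-subgroup of SL₂ over F with normaliser N. Then SL₂ and N have the same number of irreducible complex characters of degree not divisible by ℓ (the McKay equality holds for SL₂ over F at every prime). -/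
theorem result {F : Type*} [Field F] [Fintype F] (hodd : Odd (Fintype.card F)) (ℓ : ℕ) [Fact ℓ.Prime] (S : Sylow ℓ (Matrix.SpecialLinearGroup (Fin 2) F)) :
    Nat.card {χ : Cfsg.IrrCharacter (Matrix.SpecialLinearGroup (Fin 2) F) // ¬ ℓ ∣ Cfsg.charDegree (χ : Matrix.SpecialLinearGroup (Fin 2) F → ℂ)} =
      Nat.card {ψ : Cfsg.IrrCharacter (Subgroup.normalizer ((S : Subgroup (Matrix.SpecialLinearGroup (Fin 2) F)) : Set (Matrix.SpecialLinearGroup (Fin 2) F))) //
        ¬ ℓ ∣ Cfsg.charDegree (ψ : Subgroup.normalizer ((S : Subgroup (Matrix.SpecialLinearGroup (Fin 2) F)) : Set (Matrix.SpecialLinearGroup (Fin 2) F)) → ℂ)} := by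
  classical
  show cnt ℓ (Matrix.SpecialLinearGroup (Fin 2) F) =
    cnt ℓ (Subgroup.normalizer ((S : Subgroup (Matrix.SpecialLinearGroup (Fin 2) F)) :
      Set (Matrix.SpecialLinearGroup (Fin 2) F)))
  have hℓ : ℓ.Prime := Fact.out
  have hℓ2 := hℓ.two_le
  have hodd' := hodd
  obtain ⟨k, hk⟩ := hodd
  have hk1 : 1 ≤ k := by
    have := Fintype.one_lt_card (α := F)
    omega
  have e1 : (Fintype.card F + 1) / 2 = k + 1 := by omega
  have e2 : (Fintype.card F - 1) / 2 = k := by omega
  have e3 : Fintype.card F - 1 = 2 * k := by omega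
  have e4 : Fintype.card F + 1 = 2 * (k + 1) := by omega
  have f1 : ¬ ℓ ∣ 1 := by
    intro h
    have := Nat.le_of_dvd (by norm_num) h
    omega
  by_cases hdvd : ℓ ∣ Nat.card (Matrix.SpecialLinearGroup (Fin 2) F)
  · rw [card_SL2_eq] at hdvd
    have hsq : Fintype.card F ^ 2 - 1 = (2 * k) * (2 * (k + 1)) := by
      rw [hk]
      have : (2 * k + 1) ^ 2 = (2 * k) * (2 * (k + 1)) + 1 := by ring
      omega
    rw [hsq] at hdvd
    have hcases : ℓ ∣ Fintype.card F ∨ ℓ ∣ 2 * k ∨ ℓ ∣ 2 * (k + 1) := by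
      rcases (Nat.Prime.dvd_mul hℓ).1 hdvd with h | h
      · exact Or.inl h
      · rcases (Nat.Prime.dvd_mul hℓ).1 h with h | h
        · exact Or.inr (Or.inl h)
        · exact Or.inr (Or.inr h)
    by_cases h2 : ℓ = 2
    · subst h2
      rw [local_two hodd' S, global_cnt hodd' 2, e1, e2, e3, e4]
      have g2 : ¬ 2 ∣ Fintype.card F := by omega
      have g4 : (2 : ℕ) ∣ 2 * (k + 1) := Dvd.intro _ rfl
      have g5 : (2 : ℕ) ∣ 2 * k := Dvd.intro _ rfl
      rw [if_pos f1, if_pos g2, if_neg (not_not.2 g4), if_neg (not_not.2 g5)]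
      by_cases hk2 : 2 ∣ k
      · have g3 : ¬ 2 ∣ k + 1 := by omega
        rw [if_pos g3, if_neg (not_not.2 hk2)]
        omega
      · have g3 : 2 ∣ k + 1 := by omega
        rw [if_neg (not_not.2 g3), if_pos hk2]
        omega
    · have hℓ3 : 3 ≤ ℓ := by omega
      rcases hcases with h | h | h
      · -- defining characteristic
        rw [local_char hodd' ℓ h S, global_cnt hodd' ℓ, e1, e2, e3, e4]
        have g3 : ¬ ℓ ∣ k + 1 := by
          intro h'
          exact dvd_succ_false hℓ2 h (Dvd.dvd.mul_left h' 2) (by omega)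
        have g4 : ¬ ℓ ∣ 2 * (k + 1) := by
          intro h'
          exact dvd_succ_false hℓ2 h h' (by omega)
        have g5 : ¬ ℓ ∣ 2 * k := by
          intro h'
          exact dvd_succ_false hℓ2 h' h (by omega)
        have g6 : ¬ ℓ ∣ k := by
          intro h'
          exact dvd_succ_false hℓ2 (Dvd.dvd.mul_left h' 2) h (by omega)
        rw [if_pos f1, if_neg (not_not.2 h), if_pos g3, if_pos g4, if_pos g5, if_pos g6]
        omega
      · -- ℓ divides q - 1
        have hdiv : ℓ ∣ Fintype.card F - 1 := by rw [e3]; exact h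
        rw [local_split hodd' ℓ h2 hdiv S, global_cnt hodd' ℓ, e1, e2, e3, e4]
        have g6 : ℓ ∣ k := dvd_half hℓ h2 h
        have g2 : ¬ ℓ ∣ Fintype.card F := by
          intro h'
          exact dvd_succ_false hℓ2 h h' (by omega)
        have g3 : ¬ ℓ ∣ k + 1 := by
          intro h'
          exact dvd_succ_false hℓ2 g6 h' rfl
        have g4 : ¬ ℓ ∣ 2 * (k + 1) := by
          intro h'
          exact dvd_succ_succ_false hℓ3 h h' (by omega)
        rw [if_pos f1, if_pos g2, if_pos g3, if_pos g4, if_neg (not_not.2 h),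
          if_neg (not_not.2 g6)]
        omega
      · -- ℓ divides q + 1
        have hdiv : ℓ ∣ Fintype.card F + 1 := by rw [e4]; exact h
        rw [local_nonsplit hodd' ℓ h2 hdiv S, global_cnt hodd' ℓ, e1, e2, e3, e4]
        have g3 : ℓ ∣ k + 1 := dvd_half hℓ h2 h
        have g2 : ¬ ℓ ∣ Fintype.card F := by
          intro h'
          exact dvd_succ_false hℓ2 h' h (by omega)
        have g5 : ¬ ℓ ∣ 2 * k := by
          intro h'
          exact dvd_succ_succ_false hℓ3 h' h (by omega)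
        have g6 : ¬ ℓ ∣ k := by
          intro h'
          exact dvd_succ_false hℓ2 h' g3 rfl
        rw [if_pos f1, if_pos g2, if_neg (not_not.2 g3), if_neg (not_not.2 h), if_pos g5,
          if_pos g6]
        omega
  · rw [cnt_normalizer_of_not_dvd ℓ hdvd S]

end Cfsg.Agent.S2436
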