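import Cfsg.Statements.S2438
import Cfsg.Agent.Lib.Helper39.SL2Half

set_option autoImplicit false
open Cfsg

namespace Cfsg.Agent.S2438

open Cfsg.Agent.Lib.Helper39.SL2T1 Cfsg.Agent.Lib.Helper39.SL2PS Cfsg.Agent.Lib.Helper39.SL2Tri
  Cfsg.Agent.Lib.Helper39.SL2Half Cfsg.Agent.Lib.Helper39.SL2Odd Cfsg.Agent.Lib.Helper39.GL2T1

theorem sum_U {F : Type*} [Field F] [Fintype F] [DecidableEq F]
    (χ : Matrix.SpecialLinearGroup (Fin 2) F → ℂ) :
    (∑ g : Matrix.SpecialLinearGroup (Fin 2) F,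
      if (g : Matrix (Fin 2) (Fin 2) F) 1 0 = 0 ∧ (g : Matrix (Fin 2) (Fin 2) F) 0 0 = 1 ∧
        (g : Matrix (Fin 2) (Fin 2) F) 1 1 = 1 then χ g else 0) = ∑ x : F, χ (uSL x) := by
  rw [← Finset.sum_filter]
  symm
  apply Finset.sum_bij (fun x _ => uSL x)
  · intro x _
    rw [Finset.mem_filter]
    exact ⟨Finset.mem_univ _, rfl, rfl, rfl⟩
  · intro x _ y _ h
    have := congrArg (fun g : Matrix.SpecialLinearGroup (Fin 2) F =>
      (g : Matrix (Fin 2) (Fin 2) F) 0 1) h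
    simpa [uSL] using this
  · intro g hg
    rw [Finset.mem_filter] at hg
    obtain ⟨-, h10, h00, h11⟩ := hg
    refine ⟨(g : Matrix (Fin 2) (Fin 2) F) 0 1, Finset.mem_univ _, ?_⟩
    apply Subtype.ext
    ext i j
    fin_cases i <;> fin_cases j <;> simp [uSL, h10, h00, h11]
  · intro x _
    rfl

theorem result {F : Type*} [Field F] [Fintype F] [DecidableEq F] (hodd : Odd (Fintype.card F)) (hq : 5 ≤ Fintype.card F)
    (χ : Matrix.SpecialLinearGroup (Fin 2) F → ℂ) (hχ : Cfsg.IsIrrCharacter (Matrix.SpecialLinearGroup (Fin 2) F) χ) :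
    (χ 1 = (Fintype.card F : ℂ) + 1 →
      (∑ g : Matrix.SpecialLinearGroup (Fin 2) F, if (g : Matrix (Fin 2) (Fin 2) F) 1 0 = 0 ∧ (g : Matrix (Fin 2) (Fin 2) F) 0 0 = 1 ∧ (g : Matrix (Fin 2) (Fin 2) F) 1 1 = 1 then χ g else 0) = 2 * (Fintype.card F : ℂ)) ∧
    (χ 1 = (Fintype.card F : ℂ) →
      (∑ g : Matrix.SpecialLinearGroup (Fin 2) F, if (g : Matrix (Fin 2) (Fin 2) F) 1 0 = 0 ∧ (g : Matrix (Fin 2) (Fin 2) F) 0 0 = 1 ∧ (g : Matrix (Fin 2) (Fin 2) F) 1 1 = 1 then χ g else 0) = (Fintype.card F : ℂ)) ∧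
    (χ 1 = (Fintype.card F : ℂ) - 1 →
      (∑ g : Matrix.SpecialLinearGroup (Fin 2) F, if (g : Matrix (Fin 2) (Fin 2) F) 1 0 = 0 ∧ (g : Matrix (Fin 2) (Fin 2) F) 0 0 = 1 ∧ (g : Matrix (Fin 2) (Fin 2) F) 1 1 = 1 then χ g else 0) = 0) ∧
    (χ 1 = (((Fintype.card F + 1) / 2 : ℕ) : ℂ) →
      (∑ g : Matrix.SpecialLinearGroup (Fin 2) F, if (g : Matrix (Fin 2) (Fin 2) F) 1 0 = 0 ∧ (g : Matrix (Fin 2) (Fin 2) F) 0 0 = 1 ∧ (g : Matrix (Fin 2) (Fin 2) F) 1 1 = 1 then χ g else 0) = (Fintype.card F : ℂ)) ∧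
    (χ 1 = (((Fintype.card F - 1) / 2 : ℕ) : ℂ) →
      (∑ g : Matrix.SpecialLinearGroup (Fin 2) F, if (g : Matrix (Fin 2) (Fin 2) F) 1 0 = 0 ∧ (g : Matrix (Fin 2) (Fin 2) F) 0 0 = 1 ∧ (g : Matrix (Fin 2) (Fin 2) F) 1 1 = 1 then χ g else 0) = 0) := by
  rw [sum_U χ]
  have hF := ringChar_ne_two_of_odd hodd
  obtain ⟨ψ₀, hψ₀⟩ := exists_primitive (F := F)
  obtain ⟨ν, hν⟩ := FiniteField.exists_nonsquare hF
  obtain ⟨a, bp, bm, hbp, hbm, ha, -, -, hdeg, -, htriv, -⟩ := sl_type hodd ψ₀ hψ₀ hν χ hχ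
  obtain ⟨a', ha', htri⟩ := sl_trichotomy χ hχ
  have haa : a = a' := by
    have := ha.symm.trans ha'
    exact_mod_cast this
  subst haa
  have hq0 : (Fintype.card F : ℂ) ≠ 0 := by
    have : Fintype.card F ≠ 0 := by omega
    exact_mod_cast this
  have hsum : ∑ x : F, χ (uSL x) = (Fintype.card F : ℂ) * a := by
    rw [← ha]
    field_simp
  have ha2 : a ≤ 2 := by
    rcases htri with ⟨h, -⟩ | ⟨h, -⟩ | ⟨h, -⟩ <;> omega
  have ha2' : a = 2 → χ 1 = ((Fintype.card F + 1 : ℕ) : ℂ) := by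
    intro h2
    rcases htri with ⟨h, -⟩ | ⟨h, -⟩ | ⟨-, α, -, hα⟩
    · omega
    · omega
    · rw [hα, slPS_one]
      push_cast
      ring
  have htriv' : bp + bm = 0 → χ 1 = ((1 : ℕ) : ℂ) := by
    intro h
    rw [htriv h]
    simp
  obtain ⟨k, hk⟩ := hodd
  have hk2 : 2 ≤ k := by omega
  have hkk : (Fintype.card F - 1) / 2 = k := by omega
  have hkk' : (Fintype.card F + 1) / 2 = k + 1 := by omega
  rw [hkk] at hdeg
  rw [hkk, hkk', hsum]
  have key : ∀ d : ℕ, χ 1 = (d : ℂ) →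
      (d = a + (bp + bm) * k) ∧ (a = 2 → d = Fintype.card F + 1) ∧ (bp + bm = 0 → d = 1) := by
    intro d hd
    refine ⟨?_, ?_, ?_⟩
    · rw [hdeg] at hd
      exact_mod_cast hd.symm
    · intro h2
      have := ha2' h2
      rw [hd] at this
      exact_mod_cast this
    · intro h0
      have := htriv' h0
      rw [hd] at this
      exact_mod_cast this
  refine ⟨?_, ?_, ?_, ?_, ?_⟩
  · intro h
    obtain ⟨h1, h2, h3⟩ := key (Fintype.card F + 1) (by rw [h]; push_cast; ring)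
    have : a = 2 := by
      interval_cases bp <;> interval_cases bm <;> simp at h1 h3 <;> omega
    rw [this]
    push_cast
    ring
  · intro h
    obtain ⟨h1, h2, h3⟩ := key (Fintype.card F) h
    have : a = 1 := by
      interval_cases bp <;> interval_cases bm <;> simp at h1 h3 <;> omega
    rw [this]
    push_cast
    ring
  · intro h
    obtain ⟨h1, h2, h3⟩ := key (Fintype.card F - 1) (by
      rw [h, Nat.cast_sub (by omega)]; push_cast; ring)
    have : a = 0 := by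
      interval_cases bp <;> interval_cases bm <;> simp at h1 h3 <;> omega
    rw [this]
    push_cast
    ring
  · intro h
    obtain ⟨h1, h2, h3⟩ := key (k + 1) h
    have : a = 1 := by
      interval_cases bp <;> interval_cases bm <;> simp at h1 h3 <;> omega
    rw [this]
    push_cast
    ring
  · intro h
    obtain ⟨h1, h2, h3⟩ := key k h
    have : a = 0 := by
      interval_cases bp <;> interval_cases bm <;> simp at h1 h3 <;> omega
    rw [this]
    push_cast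
    ring

end Cfsg.Agent.S2438
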