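import Cfsg.Statements.S2531
import Mathlib

set_option autoImplicit false
open Cfsg

namespace Cfsg.Agent.S2531

open Classical in
/-- the cardinality of a nontrivial subspace is divisible by `q` -/
lemma dvd_card_filter {F : Type*} [Field F] [Fintype F] {n : ℕ}
    (U : Submodule F (Fin n → F)) (p : (Fin n → F) → Prop) [DecidablePred p]
    (hp : ∀ v, p v ↔ v ∈ U) (u : Fin n → F) (hu : u ∈ U) (hu0 : u ≠ 0) :
    Fintype.card F ∣ (Finset.univ.filter p).card := by
  have h0 : Finset.univ.filter p = Finset.univ.filter (fun v => v ∈ U) := by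
    ext v
    simp [hp]
  have h1 : (Finset.univ.filter (fun v : Fin n → F => v ∈ U)).card = Fintype.card U := by
    rw [Fintype.card_subtype]
  rw [h0, h1, Module.card_eq_pow_finrank (K := F) (V := U)]
  have h2 : 0 < Module.finrank F U := by
    rw [Module.finrank_pos_iff_exists_ne_zero]
    exact ⟨⟨u, hu⟩, fun h => hu0 (congrArg Subtype.val h)⟩
  exact dvd_pow_self _ (by omega)

open Classical in
lemma card_fiber {F : Type*} [Field F] [Fintype F] {n : ℕ} (u : Fin n → F) (hu : u ≠ 0) :
    (Finset.univ.filter (fun w : Fin n → F => ∃ a : Fˣ, a • u = w)).card + 1 = Fintype.card F := by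
  have h0 : Finset.univ.filter (fun w : Fin n → F => ∃ a : Fˣ, a • u = w) =
      Finset.image (fun a : Fˣ => a • u) Finset.univ := by
    ext w
    simp
  have hinj : Function.Injective (fun a : Fˣ => a • u) := by
    intro a b hab
    have h1 : ((a : F) - (b : F)) • u = 0 := by
      rw [sub_smul]
      exact sub_eq_zero.mpr hab
    rcases smul_eq_zero.mp h1 with h | h
    · exact Units.ext (sub_eq_zero.mp h)
    · exact absurd h hu
  rw [h0, Finset.card_image_of_injective _ hinj, Finset.card_univ, Fintype.card_units]
  have : 1 ≤ Fintype.card F := Fintype.card_pos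
  omega

open Classical in
lemma main {F : Type*} [Field F] [Fintype F]
    (n : ℕ) (hn : 3 ≤ n) (S : Set (Equiv.Perm (Projectivization F (Fin n → F))))
    (hS : ∀ s ∈ S, ∃ (σ : F ≃+* F) (f : (Fin n → F) →ₛₗ[(σ : F →+* F)] (Fin n → F))
      (hf : Function.Injective f), ∀ x, s x = Projectivization.map f hf x)
    (h : ∀ a b c d : Projectivization F (Fin n → F), a ≠ b → c ≠ d →
        ∃! s, s ∈ S ∧ s a = c ∧ s b = d) : False := by
  have hq : 2 ≤ Fintype.card F := Fintype.one_lt_card
  let i0 : Fin n := ⟨0, by omega⟩
  let i1 : Fin n := ⟨1, by omega⟩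
  let i2 : Fin n := ⟨2, by omega⟩
  have h01 : i0 ≠ i1 := by simp [i0, i1]
  have h02 : i0 ≠ i2 := by simp [i0, i2]
  have h12 : i1 ≠ i2 := by simp [i1, i2]
  let e0 : Fin n → F := Pi.single i0 1
  let e1 : Fin n → F := Pi.single i1 1
  let e2 : Fin n → F := Pi.single i2 1
  have e00 : e0 i0 = 1 := by simp [e0]
  have e10 : e1 i0 = 0 := by simp [e1, h01]
  have e11 : e1 i1 = 1 := by simp [e1]
  have e12 : e1 i2 = 0 := by simp [e1, h12.symm]
  have e20 : e2 i0 = 0 := by simp [e2, h02]
  have e22 : e2 i2 = 1 := by simp [e2]
  have he0 : e0 ≠ 0 := by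
    intro h
    have := congrFun h i0
    rw [e00] at this
    simp at this
  have he1 : e1 ≠ 0 := by
    intro h
    have := congrFun h i1
    rw [e11] at this
    simp at this
  let c : Projectivization F (Fin n → F) := Projectivization.mk F e0 he0
  let pt : (Fin n → F) → Projectivization F (Fin n → F) := fun v =>
    if hv : v ≠ 0 then Projectivization.mk F v hv else c
  have hpt : ∀ v (hv : v ≠ 0), pt v = Projectivization.mk F v hv := fun v hv => dif_pos hv
  have hpt_iff : ∀ v w : Fin n → F, v ≠ 0 → w ≠ 0 → (pt v = pt w ↔ ∃ a : Fˣ, a • w = v) := by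
    intro v w hv hw
    rw [hpt v hv, hpt w hw, Projectivization.mk_eq_mk_iff]
  have hc : c = pt e0 := (hpt e0 he0).symm
  let W : Submodule F (Fin n → F) := LinearMap.ker (LinearMap.proj i0 : (Fin n → F) →ₗ[F] F)
  have hW : ∀ v, v i0 = 0 ↔ v ∈ W := by
    intro v
    simp [W]
  have : Fintype (Projectivization F (Fin n → F)) := Fintype.ofFinite _
  let Wf : Finset (Fin n → F) := Finset.univ.filter (fun v => v i0 = 0)
  let Ws : Finset (Fin n → F) := Finset.univ.filter (fun v => v i0 = 0 ∧ v ≠ 0)
  let Wc : Finset (Fin n → F) := Finset.univ.filter (fun v => ¬ v i0 = 0)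
  let T : Finset (Equiv.Perm (Projectivization F (Fin n → F))) :=
    Finset.univ.filter (fun s => s ∈ S ∧ s c = c)
  have hWf : Fintype.card F ∣ Wf.card :=
    dvd_card_filter W _ hW e1 ((hW e1).mp e10) he1
  have hWs : Ws.card + 1 = Wf.card := by
    have : Ws = Wf.erase 0 := by
      ext v
      simp [Ws, Wf, and_comm]
    rw [this]
    exact Finset.card_erase_add_one (by simp [Wf])
  have hWc : Wf.card + Wc.card = Fintype.card F ^ n := by
    have := Finset.card_filter_add_card_filter_not (s := (Finset.univ : Finset (Fin n → F)))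
      (fun v => v i0 = 0)
    rw [Finset.card_univ, Fintype.card_fun, Fintype.card_fin] at this
    exact this
  -- points of `W` differ from `c`
  have hcv : ∀ v ∈ Ws, c ≠ pt v := by
    intro v hv
    simp only [Ws, Finset.mem_filter, Finset.mem_univ, true_and] at hv
    rw [hc]
    intro hcon
    obtain ⟨a, ha⟩ := (hpt_iff e0 v he0 hv.2).mp hcon
    have := congrFun ha i0
    rw [e00, Pi.smul_apply, hv.1, smul_zero] at this
    exact zero_ne_one this
  have hWc0 : ∀ w ∈ Wc, w ≠ 0 := by
    intro w hw
    simp only [Wc, Finset.mem_filter, Finset.mem_univ, true_and] at hw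
    rintro rfl
    exact hw rfl
  -- the double count
  set N : ℕ := ∑ s ∈ T, ∑ v ∈ Ws, ∑ w ∈ Wc, (if s (pt v) = pt w then 1 else 0) with hN
  -- first side
  have hN1 : Fintype.card F ∣ N := by
    apply Finset.dvd_sum
    intro s hs
    simp only [T, Finset.mem_filter, Finset.mem_univ, true_and] at hs
    obtain ⟨σ, f, hf, hsf⟩ := hS s hs.1
    have hf0 : ∀ v, v ≠ 0 → f v ≠ 0 := fun v hv => by
      intro h0
      apply hv
      apply hf
      rw [h0, map_zero]
    have hspt : ∀ v, v ≠ 0 → s (pt v) = pt (f v) := by
      intro v hv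
      rw [hpt v hv, hsf, Projectivization.map_mk, hpt (f v) (hf0 v hv)]
    have key : ∀ v ∈ Ws, (∑ w ∈ Wc, (if s (pt v) = pt w then 1 else 0)) =
        if (f v) i0 = 0 then 0 else (Fintype.card F - 1) := by
      intro v hv
      simp only [Ws, Finset.mem_filter, Finset.mem_univ, true_and] at hv
      rw [hspt v hv.2]
      by_cases hfv : (f v) i0 = 0
      · rw [if_pos hfv]
        apply Finset.sum_eq_zero
        intro w hw
        rw [if_neg]
        intro hcon
        have hw0 := hWc0 w hw
        simp only [Wc, Finset.mem_filter, Finset.mem_univ, true_and] at hw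
        obtain ⟨a, ha⟩ := (hpt_iff (f v) w (hf0 v hv.2) hw0).mp hcon
        have := congrFun ha i0
        rw [Pi.smul_apply, hfv] at this
        apply hw
        have h3 : (a : F) * w i0 = 0 := this
        exact (mul_eq_zero.mp h3).resolve_left (Units.ne_zero a)
      · rw [if_neg hfv, Finset.sum_boole]
        have hset : Wc.filter (fun w => pt (f v) = pt w) =
            Finset.univ.filter (fun w : Fin n → F => ∃ a : Fˣ, a • (f v) = w) := by
          ext w
          simp only [Wc, Finset.mem_filter, Finset.mem_univ, true_and]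
          constructor
          · rintro ⟨hw, hpw⟩
            have hw0 : w ≠ 0 := by
              rintro rfl
              exact hw rfl
            obtain ⟨a, ha⟩ := (hpt_iff (f v) w (hf0 v hv.2) hw0).mp hpw
            refine ⟨a⁻¹, ?_⟩
            rw [← ha, smul_smul, inv_mul_cancel, one_smul]
          · rintro ⟨a, rfl⟩
            have h3 : (a • f v) i0 ≠ 0 := by
              rw [Pi.smul_apply]
              exact mul_ne_zero (Units.ne_zero a) hfv
            have h4 : a • f v ≠ 0 := by
              intro h0
              apply h3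
              rw [h0]
              rfl
            refine ⟨h3, ?_⟩
            rw [hpt_iff (f v) (a • f v) (hf0 v hv.2) h4]
            exact ⟨a⁻¹, by rw [smul_smul, inv_mul_cancel, one_smul]⟩
        rw [hset]
        have := card_fiber (f v) (hf0 v hv.2)
        simp only [Nat.cast_id]
        omega
    rw [Finset.sum_congr rfl key, Finset.sum_ite, Finset.sum_const_zero, zero_add,
      Finset.sum_const, smul_eq_mul]
    apply Dvd.dvd.mul_right
    -- the relevant filter
    have hfil : Ws.filter (fun v => ¬ (f v) i0 = 0) = Wf.filter (fun v => ¬ (f v) i0 = 0) := by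
      ext v
      simp only [Ws, Wf, Finset.mem_filter, Finset.mem_univ, true_and]
      constructor
      · rintro ⟨⟨h1, -⟩, h3⟩
        exact ⟨h1, h3⟩
      · rintro ⟨h1, h3⟩
        refine ⟨⟨h1, ?_⟩, h3⟩
        rintro rfl
        apply h3
        rw [map_zero]
        rfl
    rw [hfil]
    have hsplit := Finset.card_filter_add_card_filter_not (s := Wf)
      (fun v => (f v) i0 = 0)
    have hU : Fintype.card F ∣ (Wf.filter (fun v => (f v) i0 = 0)).card := by
      have hff : Wf.filter (fun v => (f v) i0 = 0) =
          Finset.univ.filter (fun v : Fin n → F => v i0 = 0 ∧ (f v) i0 = 0) := by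
        simp only [Wf, Finset.filter_filter]
      rw [hff]
      let U : Submodule F (Fin n → F) := W ⊓ W.comap f
      have hUmem : ∀ v, (v i0 = 0 ∧ (f v) i0 = 0) ↔ v ∈ U := by
        intro v
        simp [U, W]
      -- a nonzero vector of `U`
      obtain ⟨u, hu, hu0⟩ : ∃ u, (u i0 = 0 ∧ (f u) i0 = 0) ∧ u ≠ 0 := by
        by_cases hα : (f e1) i0 = 0
        · exact ⟨e1, ⟨e10, hα⟩, he1⟩
        · set cc : F := σ.symm (-((f e2) i0) / ((f e1) i0)) with hcc
          have hσcc : σ cc = -((f e2) i0) / ((f e1) i0) := by
            rw [hcc, RingEquiv.apply_symm_apply]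
          refine ⟨cc • e1 + e2, ⟨?_, ?_⟩, ?_⟩
          · rw [Pi.add_apply, Pi.smul_apply, e10, e20, smul_zero, add_zero]
          · rw [map_add, LinearMap.map_smulₛₗ, Pi.add_apply, Pi.smul_apply, smul_eq_mul]
            have : (σ : F →+* F) cc = σ cc := rfl
            rw [this, hσcc]
            field_simp
            ring
          · intro h0
            have := congrFun h0 i2
            rw [Pi.add_apply, Pi.smul_apply, e12, e22, smul_zero, zero_add] at this
            exact one_ne_zero this
      exact dvd_card_filter U _ hUmem u ((hUmem u).mp hu) hu0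
    rw [← hsplit] at hWf
    exact (Nat.dvd_add_right hU).mp hWf
  -- second side
  have hN2 : N = Ws.card * (Wc.filter (fun w => pt w ≠ c)).card := by
    rw [hN, Finset.sum_comm]
    have : ∀ v ∈ Ws, (∑ s ∈ T, ∑ w ∈ Wc, (if s (pt v) = pt w then 1 else 0)) =
        (Wc.filter (fun w => pt w ≠ c)).card := by
      intro v hv
      rw [Finset.sum_comm, Finset.card_filter]
      apply Finset.sum_congr rfl
      intro w hw
      rw [Finset.sum_boole]
      by_cases hwc : pt w = c
      · rw [if_neg (not_not.mpr hwc)]
        simp only [Nat.cast_id, Finset.card_eq_zero]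
        rw [Finset.filter_eq_empty_iff]
        intro s hs hcon
        simp only [T, Finset.mem_filter, Finset.mem_univ, true_and] at hs
        rw [hwc, ← hs.2] at hcon
        exact hcv v hv (s.injective hcon).symm
      · rw [if_pos hwc]
        obtain ⟨s₀, ⟨hs1, hs2, hs3⟩, huniq⟩ := h c (pt v) c (pt w) (hcv v hv) (Ne.symm hwc)
        simp only [Nat.cast_id]
        rw [Finset.card_eq_one]
        refine ⟨s₀, ?_⟩
        ext s
        simp only [T, Finset.mem_filter, Finset.mem_univ, true_and, Finset.mem_singleton]
        constructor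
        · rintro ⟨⟨h1, h2⟩, h3⟩
          exact huniq s ⟨h1, h2, h3⟩
        · rintro rfl
          exact ⟨⟨hs1, hs2⟩, hs3⟩
    rw [Finset.sum_congr rfl this, Finset.sum_const, smul_eq_mul]
  -- the points over `c`
  have hD : (Wc.filter (fun w => pt w ≠ c)).card + (Fintype.card F - 1) = Wc.card := by
    have hsplit := Finset.card_filter_add_card_filter_not (s := Wc) (fun w => pt w ≠ c)
    have hset : Wc.filter (fun w => ¬ pt w ≠ c) =
        Finset.univ.filter (fun w : Fin n → F => ∃ a : Fˣ, a • e0 = w) := by
      ext w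
      simp only [Wc, Finset.mem_filter, Finset.mem_univ, true_and, not_not]
      constructor
      · rintro ⟨hw, hpw⟩
        have hw0 : w ≠ 0 := by
          rintro rfl
          exact hw rfl
        rw [hc] at hpw
        exact (hpt_iff w e0 hw0 he0).mp hpw
      · rintro ⟨a, rfl⟩
        have h3 : (a • e0) i0 ≠ 0 := by
          rw [Pi.smul_apply, e00, Units.smul_def, smul_eq_mul, mul_one]
          exact Units.ne_zero a
        have h4 : a • e0 ≠ 0 := by
          intro h0
          apply h3
          rw [h0]
          rfl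
        refine ⟨h3, ?_⟩
        rw [hc, hpt_iff (a • e0) e0 h4 he0]
        exact ⟨a, rfl⟩
    rw [hset] at hsplit
    have := card_fiber e0 he0
    omega
  -- arithmetic
  obtain ⟨a, ha⟩ := hWf
  obtain ⟨K, hK⟩ := hN1
  obtain ⟨m, rfl⟩ : ∃ m, n = m + 1 := ⟨n - 1, by omega⟩
  set q := Fintype.card F with hq_def
  set A := Ws.card
  set D := (Wc.filter (fun w => pt w ≠ c)).card
  have hA' : (A : ℤ) + 1 = q * a := by
    have : A + 1 = q * a := by rw [hWs, ha]
    exact_mod_cast this
  have hD' : (D : ℤ) + (q - 1) = Wc.card := by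
    have : D + (q - 1) = Wc.card := hD
    have h1 : 1 ≤ q := by omega
    zify [h1] at this
    exact this
  have hWc' : (q : ℤ) * a + Wc.card = q * q ^ m := by
    have : q * a + Wc.card = q ^ (m + 1) := by rw [← ha, hWc]
    rw [pow_succ, mul_comm (q ^ m) q] at this
    exact_mod_cast this
  have hN' : (A : ℤ) * D = q * K := by
    have : A * D = q * K := by rw [← hN2, hK]
    exact_mod_cast this
  have hdvd : (q : ℤ) ∣ 1 := by
    refine ⟨a * D - K - q ^ m + a + 1, ?_⟩
    linear_combination (-1 : ℤ) * hN' + (D : ℤ) * hA' - hD' - hWc'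
  have := Int.le_of_dvd one_pos hdvd
  omega

/-- Let `F` be a finite field and `n ≥ 3`. No set of permutations of the points of the projective space of `Fⁿ`, each induced by an invertible semilinear transformation of `Fⁿ` (so a subset of the full projective semilinear group), is sharply 2-transitive on the points: it is impossible that for all pairs of distinct points `(a, b)` and `(c, d)` exactly one member of the set sends `a` to `c` and `b` to `d`. -/
theorem result {F : Type*} [Field F] [Finite F]
    (n : ℕ) (hn : 3 ≤ n) (S : Set (Equiv.Perm (Projectivization F (Fin n → F))))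
    (hS : ∀ s ∈ S, ∃ (σ : F ≃+* F) (f : (Fin n → F) →ₛₗ[(σ : F →+* F)] (Fin n → F)) (hf : Function.Injective f),
      ∀ x, s x = Projectivization.map f hf x) :
    ¬ (∀ a b c d : Projectivization F (Fin n → F), a ≠ b → c ≠ d →
        ∃! s, s ∈ S ∧ s a = c ∧ s b = d) := by
  intro h
  have := Fintype.ofFinite F
  exact main n hn S hS h

end Cfsg.Agent.S2531
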