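import Cfsg.Statements.S2532
import Mathlib

set_option autoImplicit false
open Cfsg

namespace Cfsg.Agent.S2532

section ext
variable {H : Type*} [Group H] {Ω : Type*} (ι : H →* Equiv.Perm Ω) {r : ℕ} (x : Fin r → Ω)

/-- extension of a permutation of the chosen orbit representatives -/
noncomputable def extFun (σ : Equiv.Perm (Fin r)) (y : Ω) : Ω := by
  classical
  exact if hy : ∃ p : Fin r × H, y = ι p.2 (x p.1) then
    ι (Classical.choose hy).2 (x (σ (Classical.choose hy).1)) else y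

variable {ι x}

lemma key_eq (P1 : ∀ i j, (∃ h : H, ι h (x i) = x j) → i = j)
    (P2 : ∀ i j, ∀ h : H, ι h (x i) = x i → ι h (x j) = x j)
    {i j : Fin r} {h h' : H} (heq : ι h (x i) = ι h' (x j)) :
    i = j ∧ ∀ k, ι h (x k) = ι h' (x k) := by
  have h1 : ι (h'⁻¹ * h) (x i) = x j := by
    rw [map_mul, Equiv.Perm.mul_apply, heq, ← Equiv.Perm.mul_apply, ← map_mul, inv_mul_cancel, map_one]
    rfl
  have hij : i = j := P1 i j ⟨_, h1⟩
  subst hij
  refine ⟨rfl, fun k => ?_⟩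
  have h2 := P2 i k _ h1
  rw [map_mul, Equiv.Perm.mul_apply] at h2
  have h3 : ι h' (ι h'⁻¹ (ι h (x k))) = ι h' (x k) := by rw [h2]
  rw [← Equiv.Perm.mul_apply, ← map_mul, mul_inv_cancel, map_one] at h3
  exact h3

lemma extFun_apply (P1 : ∀ i j, (∃ h : H, ι h (x i) = x j) → i = j)
    (P2 : ∀ i j, ∀ h : H, ι h (x i) = x i → ι h (x j) = x j)
    (σ : Equiv.Perm (Fin r)) (i : Fin r) (h : H) :
    extFun ι x σ (ι h (x i)) = ι h (x (σ i)) := by
  classical
  have hy : ∃ p : Fin r × H, ι h (x i) = ι p.2 (x p.1) := ⟨(i, h), rfl⟩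
  unfold extFun
  rw [dif_pos hy]
  have hspec := Classical.choose_spec hy
  obtain ⟨h1, h2⟩ := key_eq P1 P2 hspec
  rw [← h1]
  exact (h2 (σ i)).symm

lemma extFun_of_not (σ : Equiv.Perm (Fin r)) (y : Ω)
    (hy : ¬ ∃ p : Fin r × H, y = ι p.2 (x p.1)) : extFun ι x σ y = y := by
  classical
  unfold extFun
  rw [dif_neg hy]

lemma extFun_mul (P1 : ∀ i j, (∃ h : H, ι h (x i) = x j) → i = j)
    (P2 : ∀ i j, ∀ h : H, ι h (x i) = x i → ι h (x j) = x j)
    (σ τ : Equiv.Perm (Fin r)) (y : Ω) :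
    extFun ι x σ (extFun ι x τ y) = extFun ι x (σ * τ) y := by
  by_cases hy : ∃ p : Fin r × H, y = ι p.2 (x p.1)
  · obtain ⟨⟨i, h⟩, rfl⟩ := hy
    rw [extFun_apply P1 P2, extFun_apply P1 P2, extFun_apply P1 P2]
    rfl
  · rw [extFun_of_not τ y hy, extFun_of_not σ y hy, extFun_of_not _ y hy]

lemma extFun_one (P1 : ∀ i j, (∃ h : H, ι h (x i) = x j) → i = j)
    (P2 : ∀ i j, ∀ h : H, ι h (x i) = x i → ι h (x j) = x j)
    (y : Ω) : extFun ι x 1 y = y := by
  by_cases hy : ∃ p : Fin r × H, y = ι p.2 (x p.1)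
  · obtain ⟨⟨i, h⟩, rfl⟩ := hy
    rw [extFun_apply P1 P2]
    rfl
  · rw [extFun_of_not _ y hy]

/-- the extension as a hom into permutations -/
noncomputable def extHom (P1 : ∀ i j, (∃ h : H, ι h (x i) = x j) → i = j)
    (P2 : ∀ i j, ∀ h : H, ι h (x i) = x i → ι h (x j) = x j) :
    Equiv.Perm (Fin r) →* Equiv.Perm Ω where
  toFun σ :=
    { toFun := extFun ι x σ
      invFun := extFun ι x σ⁻¹
      left_inv := fun y => by rw [extFun_mul P1 P2, inv_mul_cancel, extFun_one P1 P2]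
      right_inv := fun y => by rw [extFun_mul P1 P2, mul_inv_cancel, extFun_one P1 P2] }
  map_one' := by
    ext y
    exact extFun_one P1 P2 y
  map_mul' σ τ := by
    ext y
    exact (extFun_mul P1 P2 σ τ y).symm

lemma extHom_apply (P1 : ∀ i j, (∃ h : H, ι h (x i) = x j) → i = j)
    (P2 : ∀ i j, ∀ h : H, ι h (x i) = x i → ι h (x j) = x j) (σ : Equiv.Perm (Fin r)) (y : Ω) :
    extHom P1 P2 σ y = extFun ι x σ y := rfl

lemma extHom_injective (P1 : ∀ i j, (∃ h : H, ι h (x i) = x j) → i = j)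
    (P2 : ∀ i j, ∀ h : H, ι h (x i) = x i → ι h (x j) = x j) :
    Function.Injective (extHom P1 P2) := by
  intro σ τ hστ
  ext i
  have h1 : extHom P1 P2 σ (ι 1 (x i)) = extHom P1 P2 τ (ι 1 (x i)) := by rw [hστ]
  rw [extHom_apply, extHom_apply, extFun_apply P1 P2, extFun_apply P1 P2, map_one] at h1
  have h2 : σ i = τ i := P1 _ _ ⟨1, by rw [map_one]; exact h1⟩
  rw [h2]

lemma extHom_comm (P1 : ∀ i j, (∃ h : H, ι h (x i) = x j) → i = j)
    (P2 : ∀ i j, ∀ h : H, ι h (x i) = x i → ι h (x j) = x j) (σ : Equiv.Perm (Fin r)) (g : H) :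
    ι g * extHom P1 P2 σ = extHom P1 P2 σ * ι g := by
  ext y
  rw [Equiv.Perm.mul_apply, Equiv.Perm.mul_apply, extHom_apply, extHom_apply]
  by_cases hy : ∃ p : Fin r × H, y = ι p.2 (x p.1)
  · obtain ⟨⟨i, h⟩, rfl⟩ := hy
    rw [extFun_apply P1 P2]
    show ι g (ι h (x (σ i))) = extFun ι x σ (ι g (ι h (x i)))
    rw [← Equiv.Perm.mul_apply, ← Equiv.Perm.mul_apply, ← map_mul, extFun_apply P1 P2]
  · rw [extFun_of_not σ y hy]
    have hy' : ¬ ∃ p : Fin r × H, ι g y = ι p.2 (x p.1) := by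
      rintro ⟨⟨i, h⟩, hh⟩
      apply hy
      refine ⟨(i, g⁻¹ * h), ?_⟩
      show y = ι (g⁻¹ * h) (x i)
      rw [map_mul, Equiv.Perm.mul_apply, ← hh, ← Equiv.Perm.mul_apply, ← map_mul, inv_mul_cancel, map_one]
      rfl
    rw [extFun_of_not σ _ hy']

end ext

/-- pigeonhole: many points give `r` points in distinct orbits with the same stabilizer -/
lemma exists_points {H : Type*} [Group H] [Finite H] {Ω : Type*} [Fintype Ω] (ι : H →* Equiv.Perm Ω)
    (r : ℕ) (hcard : 2 ^ Nat.card H * (Nat.card H * r) ≤ Fintype.card Ω) :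
    ∃ x : Fin r → Ω, (∀ i j, (∃ h : H, ι h (x i) = x j) → i = j) ∧
      (∀ i j, ∀ h : H, ι h (x i) = x i → ι h (x j) = x j) := by
  classical
  have : Fintype H := Fintype.ofFinite H
  have hn : 0 < Nat.card H := Nat.card_pos
  -- stabilizer map
  let s : Ω → Set H := fun y => {h | ι h y = y}
  have hpig := Finset.exists_le_card_fiber_of_mul_le_card_of_maps_to (s := (Finset.univ : Finset Ω))
    (t := (Finset.univ : Finset (Set H))) (f := s) (n := Nat.card H * r) (fun a _ => Finset.mem_univ _)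
    Finset.univ_nonempty (by
      rw [Finset.card_univ, Finset.card_univ, Fintype.card_set, ← Nat.card_eq_fintype_card (α := H)]
      exact hcard)
  obtain ⟨S, -, hS⟩ := hpig
  set X : Finset Ω := {y ∈ (Finset.univ : Finset Ω) | s y = S} with hX
  -- orbit map
  let o : Ω → Set Ω := fun y => Set.range (fun h : H => ι h y)
  have hfib : ∀ b ∈ Finset.image o X, ({a ∈ X | o a = b} : Finset Ω).card ≤ Nat.card H := by
    intro b hb
    obtain ⟨y0, -, rfl⟩ := Finset.mem_image.mp hb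
    have hsub : ({a ∈ X | o a = o y0} : Finset Ω) ⊆ Finset.univ.image (fun h : H => ι h y0) := by
      intro a ha
      rw [Finset.mem_filter] at ha
      have h1 : a ∈ o a := ⟨1, by simp⟩
      rw [ha.2] at h1
      obtain ⟨h, hh⟩ := h1
      exact Finset.mem_image.mpr ⟨h, Finset.mem_univ _, hh⟩
    calc ({a ∈ X | o a = o y0} : Finset Ω).card ≤ (Finset.univ.image (fun h : H => ι h y0)).card :=
          Finset.card_le_card hsub
      _ ≤ (Finset.univ : Finset H).card := Finset.card_image_le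
      _ = Nat.card H := by rw [Finset.card_univ, Nat.card_eq_fintype_card]
  have hle := Finset.card_le_mul_card_image (f := o) X (Nat.card H) hfib
  have hr : r ≤ (Finset.image o X).card := by
    have : Nat.card H * r ≤ Nat.card H * (Finset.image o X).card := le_trans hS hle
    exact Nat.le_of_mul_le_mul_left this hn
  obtain ⟨emb⟩ : Nonempty (Fin r ↪ ↥(Finset.image o X)) :=
    Function.Embedding.nonempty_of_card_le (by
      rw [Fintype.card_fin, Fintype.card_coe]
      exact hr)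
  have hpre : ∀ i : Fin r, ∃ y ∈ X, o y = (emb i : Set Ω) := fun i =>
    Finset.mem_image.mp (emb i).2
  choose x hxX hxo using hpre
  refine ⟨x, ?_, ?_⟩
  · rintro i j ⟨h, hh⟩
    apply emb.injective
    apply Subtype.ext
    rw [← hxo i, ← hxo j]
    -- orbits of x i and x j agree
    ext z
    constructor
    · rintro ⟨g, rfl⟩
      refine ⟨g * h⁻¹, ?_⟩
      show ι (g * h⁻¹) (x j) = ι g (x i)
      rw [← hh, ← Equiv.Perm.mul_apply, ← map_mul, mul_assoc, inv_mul_cancel, mul_one]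
    · rintro ⟨g, rfl⟩
      refine ⟨g * h, ?_⟩
      show ι (g * h) (x i) = ι g (x j)
      rw [← hh, map_mul, Equiv.Perm.mul_apply]
  · intro i j h hh
    have hi : s (x i) = S := (Finset.mem_filter.mp (hxX i)).2
    have hj : s (x j) = S := (Finset.mem_filter.mp (hxX j)).2
    have : h ∈ s (x i) := hh
    rw [hi, ← hj] at this
    exact this

/-- a hom from a symmetric group sends even permutations to even permutations -/
lemma sign_eq_one_of_hom {r : ℕ} {Ω : Type*} [Fintype Ω] [DecidableEq Ω]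
    (Φ : Equiv.Perm (Fin r) →* Equiv.Perm Ω) (σ : Equiv.Perm (Fin r))
    (hσ : σ ∈ alternatingGroup (Fin r)) : Equiv.Perm.sign (Φ σ) = 1 := by
  let ψ : Equiv.Perm (Fin r) →* ℤˣ := Equiv.Perm.sign.comp Φ
  have hle : alternatingGroup (Fin r) ≤ ψ.ker := by
    rw [← Equiv.Perm.closure_three_cycles_eq_alternating, Subgroup.closure_le]
    intro c hc
    have h3 : c ^ 3 = 1 := by
      rw [← Equiv.Perm.IsThreeCycle.orderOf hc]
      exact pow_orderOf_eq_one c
    have h4 : ψ c ^ 3 = 1 := by rw [← map_pow, h3, map_one]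
    have h5 : ψ c ^ 2 = 1 := Int.units_sq _
    show ψ c = 1
    calc ψ c = ψ c ^ 3 * (ψ c ^ 2)⁻¹ := by group
      _ = 1 := by rw [h4, h5]; simp
  exact hle hσ

theorem result :
    ∃ f : ℕ → ℕ → ℕ, ∀ (m r : ℕ) (H : Subgroup ↥(alternatingGroup (Fin m))), f (Nat.card H) r ≤ m →
      ∃ K : Subgroup ↥(alternatingGroup (Fin m)), Nonempty (↥K ≃* ↥(alternatingGroup (Fin r))) ∧
        K ≤ Subgroup.centralizer (H : Set ↥(alternatingGroup (Fin m))) := by
  refine ⟨fun n r => 2 ^ n * (n * r), ?_⟩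
  intro m r H hm
  let ι : H →* Equiv.Perm (Fin m) := (alternatingGroup (Fin m)).subtype.comp H.subtype
  obtain ⟨x, P1, P2⟩ := exists_points ι r (by simpa using hm)
  let Φ := extHom P1 P2
  have hΦinj : Function.Injective Φ := extHom_injective P1 P2
  let Ψ : ↥(alternatingGroup (Fin r)) →* ↥(alternatingGroup (Fin m)) :=
    (Φ.comp (alternatingGroup (Fin r)).subtype).codRestrict (alternatingGroup (Fin m)) (fun σ => by
      rw [Equiv.Perm.mem_alternatingGroup]
      exact sign_eq_one_of_hom Φ σ.1 σ.2)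
  have hΨinj : Function.Injective Ψ := by
    intro a b hab
    have h1 : Φ a.1 = Φ b.1 := congrArg Subtype.val hab
    exact Subtype.ext (hΦinj h1)
  refine ⟨Ψ.range, ⟨(MonoidHom.ofInjective hΨinj).symm⟩, ?_⟩
  rintro _ ⟨σ, rfl⟩
  rw [Subgroup.mem_centralizer_iff]
  intro h hh
  apply Subtype.ext
  show (h : Equiv.Perm (Fin m)) * Φ σ.1 = Φ σ.1 * (h : Equiv.Perm (Fin m))
  exact extHom_comm P1 P2 σ.1 ⟨h, hh⟩

end Cfsg.Agent.S2532
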