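import Cfsg.Statements.S2533
import Mathlib
import Cfsg.Agent.Lib.Helper42.PSLReindex

set_option autoImplicit false
open Cfsg

namespace Cfsg.Agent.S2533

open Matrix Cfsg.Agent.Lib.Helper42.PSLReindex

section blocks
variable {ι F : Type*} [Fintype ι] [DecidableEq ι] [Field F]

/-- lower unitriangular block matrix -/
def Lm (C : Matrix ι ι F) : Matrix (ι ⊕ ι) (ι ⊕ ι) F := fromBlocks 1 0 C 1

/-- block diagonal matrix -/
def Dm (c : F) : Matrix (ι ⊕ ι) (ι ⊕ ι) F := fromBlocks (c • 1) 0 0 1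

lemma Lm_zero : Lm (0 : Matrix ι ι F) = 1 := fromBlocks_one

lemma Lm_add (C C' : Matrix ι ι F) : Lm (C + C') = Lm C * Lm C' := by
  unfold Lm
  rw [fromBlocks_multiply]
  simp [add_comm]

lemma det_Lm (C : Matrix ι ι F) : (Lm C).det = 1 := by
  unfold Lm
  rw [det_fromBlocks_zero₁₂]
  simp

lemma Dm_one : Dm (1 : F) = (1 : Matrix (ι ⊕ ι) (ι ⊕ ι) F) := by
  unfold Dm
  rw [one_smul]
  exact fromBlocks_one

lemma Dm_mul (c d : F) : Dm (ι := ι) (c * d) = Dm c * Dm d := by
  unfold Dm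
  rw [fromBlocks_multiply]
  simp [smul_smul, mul_comm]

lemma det_Dm (c : F) : (Dm (ι := ι) c).det = c ^ Fintype.card ι := by
  unfold Dm
  rw [det_fromBlocks_zero₁₂]
  simp

lemma Lm_mul_Dm (C : Matrix ι ι F) (c : F) : Lm C * Dm c = fromBlocks (c • 1) 0 (c • C) 1 := by
  unfold Lm Dm
  rw [fromBlocks_multiply]
  simp

lemma Dm_mul_Lm (C : Matrix ι ι F) (c : F) : Dm c * Lm C = fromBlocks (c • 1) 0 C 1 := by
  unfold Lm Dm
  rw [fromBlocks_multiply]
  simp

lemma eq_zero_of_eq_smul {κ κ' : Type*} (c : F) (hc : c ≠ 1) (x : Matrix κ κ' F)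
    (h : x = c • x) : x = 0 := by
  have h1 : (1 - c) • x = 0 := by rw [sub_smul, one_smul, ← h, sub_self]
  rcases smul_eq_zero.mp h1 with h2 | h2
  · exact absurd (sub_eq_zero.mp h2).symm hc
  · exact h2

/-- an invertible matrix commuting up to scalars with the generators is a scalar -/
theorem scalar_of_commutes [Nonempty ι] (h2 : (2 : F) ≠ 0) (P E : Matrix ι ι F)
    (hPE : ∀ a : Matrix ι ι F, a * P = P * a → a * E = E * a → ∃ l : F, a = l • 1)
    (G : Matrix (ι ⊕ ι) (ι ⊕ ι) F) (hG : G.det ≠ 0)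
    (h1 : ∃ c : F, G * Lm 1 = c • (Lm 1 * G)) (hP : ∃ c : F, G * Lm P = c • (Lm P * G))
    (hE : ∃ c : F, G * Lm E = c • (Lm E * G))
    (hD : ∃ c : F, G * Dm (-1) = c • (Dm (-1) * G)) :
    ∃ l : F, G = l • 1 := by
  obtain ⟨a, b, cc, d, rfl⟩ : ∃ a b cc d, G = fromBlocks a b cc d :=
    ⟨_, _, _, _, (fromBlocks_toBlocks G).symm⟩
  obtain ⟨c1, h1⟩ := h1
  unfold Lm at h1
  rw [fromBlocks_multiply, fromBlocks_multiply, fromBlocks_smul, fromBlocks_inj] at h1
  simp only [mul_one, mul_zero, one_mul, zero_mul, add_zero, zero_add] at h1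
  obtain ⟨h11, h12, h13, h14⟩ := h1
  have hc1 : c1 = 1 := by
    by_contra hne
    have hb : b = 0 := eq_zero_of_eq_smul c1 hne b h12
    rw [hb, add_zero] at h11
    rw [hb, zero_add] at h14
    have ha : a = 0 := eq_zero_of_eq_smul c1 hne a h11
    have hd : d = 0 := eq_zero_of_eq_smul c1 hne d h14
    rw [ha, hb, hd, det_fromBlocks_zero₁₂, Matrix.det_zero, zero_mul] at hG
    exact hG rfl
  subst hc1
  rw [one_smul] at h11 h13
  have hb : b = 0 := by simpa using h11
  have hd : d = a := by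
    rw [add_comm] at h13
    exact add_right_cancel h13
  subst hb
  subst hd
  rw [det_fromBlocks_zero₁₂] at hG
  have ha0 : d ≠ 0 := by
    rintro rfl
    rw [Matrix.det_zero, zero_mul] at hG
    exact hG rfl
  have step : ∀ C : Matrix ι ι F,
      (∃ c' : F, fromBlocks d 0 cc d * Lm C = c' • (Lm C * fromBlocks d 0 cc d)) →
      d * C = C * d := by
    rintro C ⟨c2, hC⟩
    unfold Lm at hC
    rw [fromBlocks_multiply, fromBlocks_multiply, fromBlocks_smul, fromBlocks_inj] at hC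
    simp only [mul_one, mul_zero, one_mul, zero_mul, add_zero, zero_add] at hC
    obtain ⟨hC1, -, hC3, -⟩ := hC
    have hc2 : c2 = 1 := by
      by_contra hne
      exact ha0 (eq_zero_of_eq_smul c2 hne d hC1)
    rw [hc2, one_smul, add_comm] at hC3
    exact add_right_cancel hC3
  have hPd := step P hP
  have hEd := step E hE
  obtain ⟨l, hl⟩ := hPE d hPd hEd
  obtain ⟨c4, hD⟩ := hD
  unfold Dm at hD
  rw [fromBlocks_multiply, fromBlocks_multiply, fromBlocks_smul, fromBlocks_inj] at hD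
  simp only [mul_one, mul_zero, one_mul, zero_mul, add_zero, zero_add] at hD
  obtain ⟨-, -, hD3, hD4⟩ := hD
  have hc4 : c4 = 1 := by
    by_contra hne
    exact ha0 (eq_zero_of_eq_smul c4 hne d hD4)
  rw [hc4, one_smul] at hD3
  have hc0 : cc = 0 := by
    have h3 : (2 : F) • cc = 0 := by
      have h4 : cc * ((-1 : F) • (1 : Matrix ι ι F)) = -cc := by simp
      rw [h4] at hD3
      rw [two_smul]
      nth_rewrite 1 [← hD3]
      simp
    exact (smul_eq_zero.mp h3).resolve_left h2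
  refine ⟨l, ?_⟩
  rw [hc0, hl, ← fromBlocks_one, fromBlocks_smul]
  simp

end blocks

section rigid
variable {F : Type*} [Field F] (m : ℕ) [NeZero m]

/-- the cyclic shift -/
def Pm : Matrix (ZMod m) (ZMod m) F := Matrix.of fun i j => if i = j + 1 then 1 else 0

/-- the elementary matrix at the origin -/
def Em : Matrix (ZMod m) (ZMod m) F := Matrix.of fun i j => if i = 0 ∧ j = 0 then 1 else 0

lemma rigid (a : Matrix (ZMod m) (ZMod m) F) (hP : a * Pm m = Pm m * a)
    (hE : a * Em m = Em m * a) : ∃ l : F, a = l • 1 := by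
  have h1 : ∀ i k, a i (k + 1) = a (i - 1) k := by
    intro i k
    have h := congrFun (congrFun hP i) k
    have e : ∀ j : ZMod m, (i = j + 1) ↔ (j = i - 1) := fun j =>
      ⟨fun h => by rw [h]; ring, fun h => by rw [h]; ring⟩
    simp only [Matrix.mul_apply, Pm, Matrix.of_apply, mul_ite, mul_one, mul_zero, ite_mul,
      one_mul, zero_mul, e, Finset.sum_ite_eq', Finset.mem_univ, if_true] at h
    exact h
  have h2 : ∀ i, a i 0 = if i = 0 then a 0 0 else 0 := by
    intro i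
    have h := congrFun (congrFun hE i) 0
    simp only [Matrix.mul_apply, Em, Matrix.of_apply, mul_ite, mul_one, mul_zero, ite_mul,
      one_mul, zero_mul, and_true] at h
    by_cases hi : i = 0
    · simp [hi]
    · simpa [hi] using h
  have h3 : ∀ n : ℕ, ∀ i k, a (i + n) (k + n) = a i k := by
    intro n
    induction n with
    | zero =>
      intro i k
      simp
    | succ n ih =>
      intro i k
      rw [Nat.cast_succ, ← add_assoc, ← add_assoc, h1, add_sub_cancel_right, ih]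
  refine ⟨a 0 0, ?_⟩
  ext i k
  obtain ⟨n, rfl⟩ := ZMod.natCast_zmod_surjective k
  have h4 := h3 n (i - n) 0
  rw [sub_add_cancel, zero_add] at h4
  rw [h4, h2, Matrix.smul_apply, Matrix.one_apply]
  simp [sub_eq_zero]

end rigid


section group

/-- the action of the units of `ℤ` on a commutative group by powers -/
def powAct (N : Type*) [CommGroup N] : ℤˣ →* MulAut N where
  toFun ε :=
    { toFun := fun x => x ^ (ε : ℤ)
      invFun := fun x => x ^ ((ε⁻¹ : ℤˣ) : ℤ)
      left_inv := fun x => by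
        show (x ^ (ε : ℤ)) ^ ((ε⁻¹ : ℤˣ) : ℤ) = x
        rw [← _root_.zpow_mul, ← Units.val_mul, mul_inv_cancel, Units.val_one, zpow_one]
      right_inv := fun x => by
        show (x ^ ((ε⁻¹ : ℤˣ) : ℤ)) ^ (ε : ℤ) = x
        rw [← _root_.zpow_mul, ← Units.val_mul, inv_mul_cancel, Units.val_one, zpow_one]
      map_mul' := fun x y => mul_zpow x y _ }
  map_one' := by
    ext x
    simp
  map_mul' a b := by
    ext x
    show x ^ ((a * b : ℤˣ) : ℤ) = (x ^ (b : ℤ)) ^ (a : ℤ)
    rw [← _root_.zpow_mul, Units.val_mul, mul_comm]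

lemma powAct_apply (N : Type*) [CommGroup N] (ε : ℤˣ) (x : N) : powAct N ε x = x ^ (ε : ℤ) := rfl

variable (p : ℕ) [Fact p.Prime]

/-- the generalized dihedral group of the elementary abelian group of order `p ^ 3` -/
abbrev Hgrp : Type :=
  Multiplicative (Fin 3 → ZMod p) ⋊[powAct (Multiplicative (Fin 3 → ZMod p))] ℤˣ

lemma card_Hgrp : Nat.card (Hgrp p) = 2 * p ^ 3 := by
  rw [SemidirectProduct.card]
  have h1 : Nat.card (Multiplicative (Fin 3 → ZMod p)) = p ^ 3 := by
    rw [Nat.card_congr Multiplicative.toAdd, Nat.card_fun, Nat.card_zmod]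
    simp
  have h2 : Nat.card ℤˣ = 2 := by
    rw [Nat.card_eq_fintype_card, Fintype.card_units_int]
  rw [h1, h2, mul_comm]

variable (m : ℕ) [NeZero m]

/-- the lower left block of the image of a vector -/
def Cmat : (Fin 3 → ZMod p) →+ Matrix (ZMod m) (ZMod m) (ZMod p) where
  toFun v := v 0 • 1 + v 1 • Pm m + v 2 • Em m
  map_zero' := by simp
  map_add' v w := by
    simp only [Pi.add_apply, add_smul]
    abel

lemma Cmat_apply (v : Fin 3 → ZMod p) : Cmat p m v = v 0 • 1 + v 1 • Pm m + v 2 • Em m := rfl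

/-- the image of the normal subgroup -/
def f1 : Multiplicative (Fin 3 → ZMod p) →* Matrix.SpecialLinearGroup (ZMod m ⊕ ZMod m) (ZMod p) where
  toFun v := ⟨Lm (Cmat p m (Multiplicative.toAdd v)), det_Lm _⟩
  map_one' := Subtype.ext (by
    show Lm (Cmat p m 0) = 1
    rw [map_zero, Lm_zero])
  map_mul' a b := Subtype.ext (by
    show Lm (Cmat p m (Multiplicative.toAdd a + Multiplicative.toAdd b)) = Lm _ * Lm _
    rw [map_add, Lm_add])

lemma unit_cast_mul_self (ε : ℤˣ) : (((ε : ℤ) : ZMod p)) * (((ε : ℤ) : ZMod p)) = 1 := by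
  rw [← Int.cast_mul, Int.units_coe_mul_self, Int.cast_one]

/-- the image of the complement -/
def f2 (hm : Even m) : ℤˣ →* Matrix.SpecialLinearGroup (ZMod m ⊕ ZMod m) (ZMod p) where
  toFun ε := ⟨Dm (((ε : ℤ) : ZMod p)), by
    rw [det_Dm, ZMod.card]
    obtain ⟨k, rfl⟩ := hm
    rw [pow_add, ← mul_pow, unit_cast_mul_self, one_pow]⟩
  map_one' := Subtype.ext (by
    show Dm (((1 : ℤˣ) : ℤ) : ZMod p) = 1
    rw [Units.val_one, Int.cast_one, Dm_one])
  map_mul' a b := Subtype.ext (by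
    show Dm (((a * b : ℤˣ) : ℤ) : ZMod p) = Dm _ * Dm _
    rw [Units.val_mul, Int.cast_mul, Dm_mul])

lemma f1_coe (v : Multiplicative (Fin 3 → ZMod p)) :
    (f1 p m v : Matrix (ZMod m ⊕ ZMod m) (ZMod m ⊕ ZMod m) (ZMod p)) =
      Lm (Cmat p m (Multiplicative.toAdd v)) := rfl

lemma f2_coe (hm : Even m) (ε : ℤˣ) :
    (f2 p m hm ε : Matrix (ZMod m ⊕ ZMod m) (ZMod m ⊕ ZMod m) (ZMod p)) =
      Dm (((ε : ℤ) : ZMod p)) := rfl

lemma f_rel (hm : Even m) (ε : ℤˣ) :
    (f1 p m).comp (MulEquiv.toMonoidHom (powAct (Multiplicative (Fin 3 → ZMod p)) ε)) =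
      (MulEquiv.toMonoidHom (MulAut.conj (f2 p m hm ε))).comp (f1 p m) := by
  refine MonoidHom.ext (fun v => ?_)
  show f1 p m (v ^ (ε : ℤ)) = f2 p m hm ε * f1 p m v * (f2 p m hm ε)⁻¹
  rw [eq_mul_inv_iff_mul_eq]
  apply Subtype.ext
  show Lm (Cmat p m (Multiplicative.toAdd (v ^ (ε : ℤ)))) * Dm (((ε : ℤ) : ZMod p)) =
    Dm (((ε : ℤ) : ZMod p)) * Lm (Cmat p m (Multiplicative.toAdd v))
  rw [toAdd_zpow, map_zsmul, Lm_mul_Dm, Dm_mul_Lm, ← Int.cast_smul_eq_zsmul (ZMod p), smul_smul,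
    unit_cast_mul_self, one_smul]

/-- the representation -/
def psi (hm : Even m) : Hgrp p →* Matrix.SpecialLinearGroup (ZMod m ⊕ ZMod m) (ZMod p) :=
  SemidirectProduct.lift (f1 p m) (f2 p m hm) (f_rel p m hm)

lemma psi_coe (hm : Even m) (x : Hgrp p) :
    (psi p m hm x : Matrix (ZMod m ⊕ ZMod m) (ZMod m ⊕ ZMod m) (ZMod p)) =
      fromBlocks ((((x.right : ℤˣ) : ℤ) : ZMod p) • 1) 0
        ((((x.right : ℤˣ) : ℤ) : ZMod p) • Cmat p m (Multiplicative.toAdd x.left)) 1 := by
  rw [← Lm_mul_Dm]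
  rfl

end group


section main
variable (p : ℕ) [Fact p.Prime] (m : ℕ) [NeZero m]

lemma two_ne_zero_zmod (hp : p ≠ 2) : (2 : ZMod p) ≠ 0 := by
  intro h
  have h2 : ((2 : ℕ) : ZMod p) = 0 := by exact_mod_cast h
  rw [ZMod.natCast_eq_zero_iff] at h2
  have h3 := Nat.le_of_dvd (by norm_num) h2
  have h4 := (Fact.out : p.Prime).two_le
  omega

lemma psi_inl (hm : Even m) (w : Fin 3 → ZMod p) :
    (psi p m hm (SemidirectProduct.inl (Multiplicative.ofAdd w)) :
      Matrix (ZMod m ⊕ ZMod m) (ZMod m ⊕ ZMod m) (ZMod p)) = Lm (Cmat p m w) := by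
  unfold psi
  rw [SemidirectProduct.lift_inl]
  rfl

lemma psi_inr (hm : Even m) (ε : ℤˣ) :
    (psi p m hm (SemidirectProduct.inr ε) :
      Matrix (ZMod m ⊕ ZMod m) (ZMod m ⊕ ZMod m) (ZMod p)) = Dm (((ε : ℤ) : ZMod p)) := by
  unfold psi
  rw [SemidirectProduct.lift_inr]
  rfl

lemma psi_injective_aux (hp : p ≠ 2) (hm : Even m) (hm2 : 2 ≤ m) (x : Hgrp p)
    (hx : psi p m hm x ∈ Subgroup.center (Matrix.SpecialLinearGroup (ZMod m ⊕ ZMod m) (ZMod p))) :
    x = 1 := by
  have : Fact (1 < m) := ⟨by omega⟩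
  obtain ⟨r, -, hr⟩ := Matrix.SpecialLinearGroup.mem_center_iff.mp hx
  rw [psi_coe, scalar_apply] at hr
  have e1 := congrFun (congrFun hr (Sum.inr 0)) (Sum.inr 0)
  have e2 := congrFun (congrFun hr (Sum.inl 0)) (Sum.inl 0)
  simp at e1 e2
  have hε : (((x.right : ℤˣ) : ℤ) : ZMod p) = 1 := by rw [← e2, e1]
  have hright : x.right = 1 := by
    rcases Int.units_eq_one_or x.right with h | h
    · exact h
    · exfalso
      rw [h] at hε
      apply two_ne_zero_zmod p hp
      have h5 : (-1 : ZMod p) = 1 := by simpa using hε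
      calc (2 : ZMod p) = 1 + 1 := by norm_num
        _ = 1 + -1 := by rw [h5]
        _ = 0 := by ring
  have e3 : ∀ i j, Cmat p m (Multiplicative.toAdd x.left) i j = 0 := by
    intro i j
    have h6 := congrFun (congrFun hr (Sum.inr i)) (Sum.inl j)
    simp [hε] at h6
    exact h6.symm
  have h10 := e3 1 0
  have h11 := e3 1 1
  have h00 := e3 0 0
  simp [Cmat_apply, Pm, Em] at h10 h11 h00
  apply SemidirectProduct.ext
  · have h7 : Multiplicative.toAdd x.left = 0 := by
      ext i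
      fin_cases i
      · exact h11
      · exact h10
      · simpa [h11] using h00
    exact h7
  · exact hright

theorem exists_embedding (hp : p ≠ 2) (hm : Even m) (hm2 : 2 ≤ m) :
    ∃ φ₀ : Hgrp p →* ProjectiveSpecialLinearGroup (ZMod m ⊕ ZMod m) (ZMod p),
      Function.Injective φ₀ ∧ Subgroup.centralizer
        (φ₀.range : Set (ProjectiveSpecialLinearGroup (ZMod m ⊕ ZMod m) (ZMod p))) = ⊥ := by
  have : Fact (1 < m) := ⟨by omega⟩
  refine ⟨(QuotientGroup.mk' (Subgroup.center (Matrix.SpecialLinearGroup (ZMod m ⊕ ZMod m)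
    (ZMod p)))).comp (psi p m hm), ?_, ?_⟩
  · rw [injective_iff_map_eq_one]
    intro x hx
    exact psi_injective_aux p m hp hm hm2 x ((QuotientGroup.eq_one_iff _).mp hx)
  · rw [eq_bot_iff]
    intro gbar hg
    rw [Subgroup.mem_bot]
    obtain ⟨g, rfl⟩ := QuotientGroup.mk_surjective gbar
    rw [Subgroup.mem_centralizer_iff] at hg
    have key : ∀ x : Hgrp p, ∃ c : ZMod p,
        (g : Matrix (ZMod m ⊕ ZMod m) (ZMod m ⊕ ZMod m) (ZMod p)) * (psi p m hm x).1 =
          c • ((psi p m hm x).1 * g.1) := by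
      intro x
      have h1 := hg (QuotientGroup.mk' _ (psi p m hm x)) ⟨x, rfl⟩
      have h2 : ((psi p m hm x * g : Matrix.SpecialLinearGroup (ZMod m ⊕ ZMod m) (ZMod p)) :
          Matrix.SpecialLinearGroup (ZMod m ⊕ ZMod m) (ZMod p) ⧸ Subgroup.center _) =
          ((g * psi p m hm x : Matrix.SpecialLinearGroup (ZMod m ⊕ ZMod m) (ZMod p)) :
          Matrix.SpecialLinearGroup (ZMod m ⊕ ZMod m) (ZMod p) ⧸ Subgroup.center _) := h1
      rw [QuotientGroup.eq] at h2
      obtain ⟨z, hz⟩ : ∃ z, z = (psi p m hm x * g)⁻¹ * (g * psi p m hm x) := ⟨_, rfl⟩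
      rw [← hz] at h2
      obtain ⟨r, -, hr⟩ := Matrix.SpecialLinearGroup.mem_center_iff.mp h2
      refine ⟨r, ?_⟩
      have h3 : g * psi p m hm x = (psi p m hm x * g) * z := by
        rw [hz]
        group
      have h4 := congrArg (fun A : Matrix.SpecialLinearGroup (ZMod m ⊕ ZMod m) (ZMod p) => A.1) h3
      simp only [Matrix.SpecialLinearGroup.coe_mul] at h4
      rw [← hr, scalar_apply, ← smul_one_eq_diagonal, mul_smul_comm, mul_one] at h4
      exact h4
    have hG : (g : Matrix (ZMod m ⊕ ZMod m) (ZMod m ⊕ ZMod m) (ZMod p)).det ≠ 0 := by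
      rw [g.2]
      exact one_ne_zero
    have k1 := key (SemidirectProduct.inl (Multiplicative.ofAdd (Pi.single 0 1)))
    have k2 := key (SemidirectProduct.inl (Multiplicative.ofAdd (Pi.single 1 1)))
    have k3 := key (SemidirectProduct.inl (Multiplicative.ofAdd (Pi.single 2 1)))
    have k4 := key (SemidirectProduct.inr (-1))
    have c1 : Cmat p m (Pi.single 0 1) = 1 := by simp [Cmat_apply]
    have c2 : Cmat p m (Pi.single 1 1) = Pm m := by simp [Cmat_apply]
    have c3 : Cmat p m (Pi.single 2 1) = Em m := by simp [Cmat_apply]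
    have c4 : (((-1 : ℤˣ) : ℤ) : ZMod p) = -1 := by simp
    rw [psi_inl, c1] at k1
    rw [psi_inl, c2] at k2
    rw [psi_inl, c3] at k3
    rw [psi_inr, c4] at k4
    obtain ⟨l, hl⟩ := scalar_of_commutes (two_ne_zero_zmod p hp) (Pm m) (Em m) (rigid m)
      (g : Matrix (ZMod m ⊕ ZMod m) (ZMod m ⊕ ZMod m) (ZMod p)) hG k1 k2 k3 k4
    refine (QuotientGroup.eq_one_iff _).mpr ?_
    rw [Matrix.SpecialLinearGroup.mem_center_iff]
    refine ⟨l, ?_, ?_⟩
    · have h5 := g.2
      rw [hl, det_smul, det_one, mul_one] at h5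
      exact h5
    · rw [hl, scalar_apply, smul_one_eq_diagonal]

end main

/-- For every odd prime `p` there is a finite group `H` of order `2p³` which, for infinitely many `n`, embeds in the projective special linear group `PSL(n, p)` as a subgroup with trivial centralizer. -/
theorem result
    (p : ℕ) [Fact p.Prime] (hp : p ≠ 2) :
    ∃ (H : Type) (_ : Group H) (_ : Finite H), Nat.card H = 2 * p ^ 3 ∧
      ∀ N : ℕ, ∃ n, N ≤ n ∧ ∃ φ : H →* Matrix.ProjectiveSpecialLinearGroup (Fin n) (ZMod p),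
        Function.Injective φ ∧ Subgroup.centralizer (φ.range : Set (Matrix.ProjectiveSpecialLinearGroup (Fin n) (ZMod p))) = ⊥ := by
  have hfin : Finite (Hgrp p) := by
    apply Nat.finite_of_card_ne_zero
    rw [card_Hgrp]
    have := (Fact.out : p.Prime).pos
    positivity
  refine ⟨Hgrp p, inferInstance, hfin, card_Hgrp p, ?_⟩
  intro N
  have hne : NeZero (2 * N + 2) := ⟨by omega⟩
  obtain ⟨φ₀, h1, h2⟩ := exists_embedding p (2 * N + 2) hp ⟨N + 1, by ring⟩ (by omega)
  have hcard : Fintype.card (ZMod (2 * N + 2) ⊕ ZMod (2 * N + 2)) =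
      (2 * N + 2) + (2 * N + 2) := by
    rw [Fintype.card_sum, ZMod.card]
  refine ⟨(2 * N + 2) + (2 * N + 2), by omega, ?_⟩
  exact transport (pslReindex (ZMod p) (Fintype.equivFinOfCardEq hcard)) φ₀ h1 h2

end Cfsg.Agent.S2533
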