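import Cfsg.Statements.S2534
import Cfsg.Agent.S2538
import Cfsg.Agent.Lib.Helper96.HallDAsm
import Cfsg.Agent.Lib.Helper91.HCHMAXT
import Cfsg.Agent.Lib.Helper91.HCPINV
import Cfsg.Agent.Lib.Helper91.HCBINP
import Cfsg.Agent.Lib.Helper87.HCSP1
import Cfsg.Agent.Lib.Helper91.HCSP2
import Cfsg.Agent.Lib.Helper87.HCSP
import Cfsg.Agent.Lib.Helper1.HCS71
import Cfsg.Agent.Lib.Helper87.HCS72
import Cfsg.Agent.Lib.Helper1.HCS7
import Cfsg.Agent.Lib.Helper1.HCS81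
import Cfsg.Agent.Lib.Helper87.HCS82
import Cfsg.Agent.Lib.Helper1.HCS8
import Cfsg.Agent.Lib.Helper60.HDDSYL
import Cfsg.Agent.Lib.Helper60.HDDTOP
import Cfsg.Agent.Lib.Helper60.HDDE
import Cfsg.Agent.Lib.Helper4.HDXP
import Cfsg.Agent.Lib.Helper4.HDX7
import Cfsg.Agent.Lib.Helper4.HDX8

set_option autoImplicit false
open Cfsg

namespace Cfsg.Agent.S2534

/-- For `n ≥ 5` and a set of primes `π`, the alternating group of degree `n` satisfies the full Sylow analogue for `π` (its maximal `π`-subgroups are pairwise conjugate; for a finite group this says Hall `π`-subgroups exist, are all conjugate, and contain every `π`-subgroup up to conjugacy) if and only if either at most one prime of `π` divides its order or every prime dividing its order lies in `π`. -/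
theorem result (n : ℕ) (hn : 5 ≤ n) (π : Set ℕ) :
    Cfsg.IsDPiGroup π ↥(alternatingGroup (Fin n)) ↔
      ((∀ r s : ℕ, r.Prime → s.Prime → r ∈ π → s ∈ π → r ∣ Nat.card ↥(alternatingGroup (Fin n)) → s ∣ Nat.card ↥(alternatingGroup (Fin n)) → r = s) ∨
        ∀ r : ℕ, r.Prime → r ∣ Nat.card ↥(alternatingGroup (Fin n)) → r ∈ π) :=
  Cfsg.Agent.Lib.Helper96.HallDAsm.full
    Cfsg.Agent.S2538.result
    ((Cfsg.Agent.Lib.Helper87.HCSP.main) (Cfsg.Agent.Lib.Helper91.HCHMAXT.main) ((Cfsg.Agent.Lib.Helper87.HCSP1.main) (Cfsg.Agent.Lib.Helper91.HCBINP.main)) (Cfsg.Agent.Lib.Helper91.HCSP2.main))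
    ((Cfsg.Agent.Lib.Helper1.HCS7.main) (Cfsg.Agent.Lib.Helper91.HCHMAXT.main) (Cfsg.Agent.Lib.Helper1.HCS71.main) ((Cfsg.Agent.Lib.Helper87.HCS72.main) (Cfsg.Agent.Lib.Helper91.HCPINV.main)))
    ((Cfsg.Agent.Lib.Helper1.HCS8.main) (Cfsg.Agent.Lib.Helper91.HCHMAXT.main) (Cfsg.Agent.Lib.Helper1.HCS81.main) ((Cfsg.Agent.Lib.Helper87.HCS82.main) (Cfsg.Agent.Lib.Helper91.HCPINV.main)))
    Cfsg.Agent.Lib.Helper91.HCPINV.main
    Cfsg.Agent.Lib.Helper60.HDDSYL.main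
    Cfsg.Agent.Lib.Helper60.HDDTOP.main
    Cfsg.Agent.Lib.Helper60.HDDE.main
    Cfsg.Agent.Lib.Helper4.HDXP.main
    Cfsg.Agent.Lib.Helper4.HDX7.main
    Cfsg.Agent.Lib.Helper4.HDX8.main
    n hn π

end Cfsg.Agent.S2534
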