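import Cfsg.Statements.S2535
import Cfsg.Agent.S2538
import Cfsg.Agent.Lib.Helper96.HallConjAsm
import Cfsg.Agent.Lib.Helper91.HAHOF
import Cfsg.Agent.Lib.Helper91.HAHNORM
import Cfsg.Agent.Lib.Helper21.HAFIN1
import Cfsg.Agent.Lib.Helper86.HAAIDX
import Cfsg.Agent.Lib.Helper91.HCSYLC
import Cfsg.Agent.Lib.Helper91.HCHTOP
import Cfsg.Agent.Lib.Helper91.HCHMAXT
import Cfsg.Agent.Lib.Helper91.HCPAR
import Cfsg.Agent.Lib.Helper91.HCHNA
import Cfsg.Agent.Lib.Helper91.HCPINV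
import Cfsg.Agent.Lib.Helper91.HCSETTR
import Cfsg.Agent.Lib.Helper91.HCBINP
import Cfsg.Agent.Lib.Helper87.HCSP1
import Cfsg.Agent.Lib.Helper91.HCSP2
import Cfsg.Agent.Lib.Helper87.HCSP
import Cfsg.Agent.Lib.Helper1.HCS71
import Cfsg.Agent.Lib.Helper87.HCS72
import Cfsg.Agent.Lib.Helper1.HCS7
import Cfsg.Agent.Lib.Helper1.HCS81
import Cfsg.Agent.Lib.Helper87.HCS82
import Cfsg.Agent.Lib.Helper1.HCS8

set_option autoImplicit false
open Cfsg

namespace Cfsg.Agent.S2535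

/-- For every `n` and every set of primes `π`, the following are equivalent for the symmetric group `S` of degree `n` and its alternating subgroup `A`: `S` has a Hall `π`-subgroup; `S` has a Hall `π`-subgroup and all of them are conjugate; `A` has a Hall `π`-subgroup; `A` has a Hall `π`-subgroup and all of them are conjugate. -/
theorem result (n : ℕ) (π : Set ℕ) :
    (Cfsg.IsEPiGroup π (Equiv.Perm (Fin n)) ↔ Cfsg.IsCPiGroup π (Equiv.Perm (Fin n))) ∧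
    (Cfsg.IsEPiGroup π (Equiv.Perm (Fin n)) ↔ Cfsg.IsEPiGroup π ↥(alternatingGroup (Fin n))) ∧
    (Cfsg.IsEPiGroup π ↥(alternatingGroup (Fin n)) ↔ Cfsg.IsCPiGroup π ↥(alternatingGroup (Fin n))) :=
  Cfsg.Agent.Lib.Helper96.HallConjAsm.full
    Cfsg.Agent.S2538.result
    Cfsg.Agent.Lib.Helper91.HAHOF.main
    Cfsg.Agent.Lib.Helper91.HAHNORM.main
    Cfsg.Agent.Lib.Helper21.HAFIN1.main
    Cfsg.Agent.Lib.Helper86.HAAIDX.main
    Cfsg.Agent.Lib.Helper91.HCSYLC.main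
    Cfsg.Agent.Lib.Helper91.HCHTOP.main
    Cfsg.Agent.Lib.Helper91.HCHMAXT.main
    Cfsg.Agent.Lib.Helper91.HCPAR.main
    Cfsg.Agent.Lib.Helper91.HCHNA.main
    Cfsg.Agent.Lib.Helper91.HCPINV.main
    Cfsg.Agent.Lib.Helper91.HCSETTR.main
    Cfsg.Agent.Lib.Helper91.HCBINP.main
    Cfsg.Agent.Lib.Helper87.HCSP1.main
    Cfsg.Agent.Lib.Helper91.HCSP2.main
    Cfsg.Agent.Lib.Helper87.HCSP.main
    Cfsg.Agent.Lib.Helper1.HCS71.main
    Cfsg.Agent.Lib.Helper87.HCS72.main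
    Cfsg.Agent.Lib.Helper1.HCS7.main
    Cfsg.Agent.Lib.Helper1.HCS81.main
    Cfsg.Agent.Lib.Helper87.HCS82.main
    Cfsg.Agent.Lib.Helper1.HCS8.main
    n π

end Cfsg.Agent.S2535
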