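import Cfsg.Statements.S2541
import Mathlib

set_option autoImplicit false
open Cfsg

namespace Cfsg.Agent.S2541

/-- no permutation of six points has order 8 -/
lemma no_order_eight (σ : Equiv.Perm (Fin 6)) : orderOf σ ≠ 8 := by
  intro h
  have hlcm : σ.cycleType.lcm = 8 := by rw [Equiv.Perm.lcm_cycleType, h]
  have hdvd : σ.cycleType.lcm ∣ 4 := by
    apply Multiset.lcm_dvd.mpr
    intro n hn
    have h1 : n ∣ 8 := by
      rw [← hlcm]
      exact Multiset.dvd_lcm hn
    have h2 : n ≤ 6 := by
      have h3 : n ≤ σ.cycleType.sum := Multiset.single_le_sum (fun _ _ => Nat.zero_le _) n hn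
      have h4 : σ.cycleType.sum ≤ Fintype.card (Fin 6) := by
        rw [Equiv.Perm.sum_cycleType]
        exact Finset.card_le_univ _
      simp at h4
      omega
    have h5 : n ∈ Nat.divisors 8 := by
      rw [Nat.mem_divisors]
      exact ⟨h1, by norm_num⟩
    have h6 : Nat.divisors 8 = {1, 2, 4, 8} := by decide
    rw [h6] at h5
    simp at h5
    rcases h5 with rfl | rfl | rfl | rfl
    · norm_num
    · norm_num
    · norm_num
    · omega
  rw [hlcm] at hdvd
  omega

theorem result {F : Type*} [Field F] [Fintype F] (hF : Fintype.card F = 9) : ¬ Nonempty (Equiv.Perm (Fin 6) ≃* Matrix.ProjGenLinGroup (Fin 2) F) := by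
  classical
  rintro ⟨e⟩
  -- a generator of the unit group
  obtain ⟨ζ, hζ⟩ := IsCyclic.exists_generator (α := Fˣ)
  have hcard : Fintype.card Fˣ = 8 := by
    rw [Fintype.card_units, hF]
  have hordζ : orderOf ζ = 8 := by
    rw [orderOf_eq_card_of_forall_mem_zpowers hζ, Nat.card_eq_fintype_card, hcard]
  -- the diagonal matrix diag(ζ, 1)
  let D : GL (Fin 2) F :=
    ⟨Matrix.diagonal ![(ζ : F), 1], Matrix.diagonal ![((ζ⁻¹ : Fˣ) : F), 1],
      by
        rw [Matrix.diagonal_mul_diagonal]
        ext i j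
        fin_cases i <;> fin_cases j <;> simp [Matrix.diagonal],
      by
        rw [Matrix.diagonal_mul_diagonal]
        ext i j
        fin_cases i <;> fin_cases j <;> simp [Matrix.diagonal]⟩
  have hDpow : ∀ k : ℕ, ((D ^ k : GL (Fin 2) F) : Matrix (Fin 2) (Fin 2) F) = Matrix.diagonal ![((ζ ^ k : Fˣ) : F), 1] := by
    intro k
    rw [Units.val_pow_eq_pow_val]
    show (Matrix.diagonal ![(ζ : F), 1]) ^ k = _
    rw [Matrix.diagonal_pow]
    congr 1
    ext i
    fin_cases i <;> simp
  have hord : orderOf (Matrix.ProjGenLinGroup.mk D) = 8 := by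
    rw [← hordζ]
    apply orderOf_eq_orderOf_iff.mpr
    intro k
    rw [← map_pow, Matrix.ProjGenLinGroup.mk_eq_one, Matrix.GeneralLinearGroup.center_eq_range_scalar]
    constructor
    · rintro ⟨u, hu⟩
      have h1 := congrArg (fun M : GL (Fin 2) F => (M : Matrix (Fin 2) (Fin 2) F) 1 1) hu
      have h0 := congrArg (fun M : GL (Fin 2) F => (M : Matrix (Fin 2) (Fin 2) F) 0 0) hu
      simp only [hDpow] at h0 h1
      simp [Matrix.GeneralLinearGroup.scalar] at h0 h1
      apply Units.ext
      rw [Units.val_pow_eq_pow_val, ← h0, h1]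
    · intro hk
      refine ⟨1, ?_⟩
      apply Units.ext
      rw [hDpow, hk]
      ext i j
      fin_cases i <;> fin_cases j <;> simp [Matrix.GeneralLinearGroup.scalar]
  have := no_order_eight (e.symm (Matrix.ProjGenLinGroup.mk D))
  rw [MulEquiv.orderOf_eq] at this
  exact this hord

end Cfsg.Agent.S2541
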