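import Cfsg.Statements.S2542
import Mathlib
import Cfsg.Agent.S3377
import Cfsg.Agent.Lib.Helper5.SL2Card

set_option autoImplicit false
open Cfsg

namespace Cfsg.Agent.S2542

open Matrix

/-- a subgroup of index `n` with a cyclic transversal whose point stabilizer moves the coset
of the generator to every other non-trivial coset gives a doubly transitive action -/
theorem two_trans_of_cyclic {G : Type*} [Group G] [Finite G] (H : Subgroup G) (n : ℕ)
    (hn : H.index = n) (u : G) (hu : ∀ j, 0 < j → j < n → u ^ j ∉ H)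
    (hh : ∀ i, 0 < i → i < n → ∃ h ∈ H, (u ^ i)⁻¹ * h * u ∈ H) :
    MulAction.IsMultiplyPretransitive G (G ⧸ H) 2 := by
  have hinj : Function.Injective (fun i : Fin n => ((u ^ (i : ℕ) : G) : G ⧸ H)) := by
    intro i j hij
    have h1 : (u ^ (i : ℕ))⁻¹ * u ^ (j : ℕ) ∈ H := QuotientGroup.eq.mp hij
    by_contra hne
    rcases lt_or_gt_of_ne (fun h => hne (Fin.ext h)) with hlt | hlt
    · have h2 : (u ^ (i : ℕ))⁻¹ * u ^ (j : ℕ) = u ^ ((j : ℕ) - (i : ℕ)) := by
        rw [inv_mul_eq_iff_eq_mul, ← pow_add]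
        congr 1
        omega
      rw [h2] at h1
      exact hu _ (by omega) (by omega) h1
    · have h2 : (u ^ (i : ℕ))⁻¹ * u ^ (j : ℕ) = (u ^ ((i : ℕ) - (j : ℕ)))⁻¹ := by
        rw [inv_mul_eq_iff_eq_mul, eq_mul_inv_iff_mul_eq, ← pow_add]
        congr 1
        omega
      rw [h2] at h1
      exact hu _ (by omega) (by omega) (H.inv_mem_iff.mp h1)
  have hbij := hinj.bijective_of_nat_card_le (by
    rw [Nat.card_fin]
    exact le_of_eq (by rw [← hn]; rfl))
  have hmove : ∀ g : G, g ∉ H → ∃ h ∈ H, ((h * u : G) : G ⧸ H) = (g : G ⧸ H) := by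
    intro g hg
    obtain ⟨i, hi⟩ := hbij.2 (g : G ⧸ H)
    have hi0 : 0 < (i : ℕ) := by
      by_contra h0
      have h1 : (i : ℕ) = 0 := by omega
      have h2 := QuotientGroup.eq.mp hi
      simp only [h1, pow_zero, inv_one, one_mul] at h2
      exact hg h2
    obtain ⟨h, hh1, hh2⟩ := hh i hi0 i.2
    refine ⟨h, hh1, ?_⟩
    rw [← hi]
    symm
    apply QuotientGroup.eq.mpr
    rw [← mul_assoc]
    exact hh2
  rw [MulAction.is_two_pretransitive_iff]
  intro a b c d hab hcd
  obtain ⟨ga, rfl⟩ := QuotientGroup.mk_surjective a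
  obtain ⟨gb, rfl⟩ := QuotientGroup.mk_surjective b
  obtain ⟨gc, rfl⟩ := QuotientGroup.mk_surjective c
  obtain ⟨gd, rfl⟩ := QuotientGroup.mk_surjective d
  have hb' : ga⁻¹ * gb ∉ H := fun h => hab (QuotientGroup.eq.mpr h)
  have hd' : gc⁻¹ * gd ∉ H := fun h => hcd (QuotientGroup.eq.mpr h)
  obtain ⟨h1, hh1, e1⟩ := hmove _ hb'
  obtain ⟨h2, hh2, e2⟩ := hmove _ hd'
  have e1' := QuotientGroup.eq.mp e1
  have e2' := QuotientGroup.eq.mp e2
  refine ⟨gc * h2 * h1⁻¹ * ga⁻¹, ?_, ?_⟩
  · rw [MulAction.Quotient.smul_mk, smul_eq_mul]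
    apply QuotientGroup.eq.mpr
    have : (gc * h2 * h1⁻¹ * ga⁻¹ * ga)⁻¹ * gc = h1 * h2⁻¹ := by group
    rw [this]
    exact H.mul_mem hh1 (H.inv_mem hh2)
  · rw [MulAction.Quotient.smul_mk, smul_eq_mul]
    apply QuotientGroup.eq.mpr
    have : (gc * h2 * h1⁻¹ * ga⁻¹ * gb)⁻¹ * gd =
        ((h1 * u)⁻¹ * (ga⁻¹ * gb))⁻¹ * ((h2 * u)⁻¹ * (gc⁻¹ * gd)) := by group
    rw [this]
    exact H.mul_mem (H.inv_mem e1') e2'

/-- a group generated by elements satisfying the relations of the alternating group of degree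
five contains a copy of it -/
theorem exists_A5 {G : Type*} [Group G] (X Y : G) (h3 : X ^ 3 = 1) (h5 : Y ^ 5 = 1)
    (h2 : (X * Y) ^ 2 = 1) (hX : X ≠ 1) :
    ∃ f : alternatingGroup (Fin 5) →* G, Function.Injective f ∧ X ∈ f.range ∧ Y ∈ f.range := by
  obtain ⟨e⟩ := Cfsg.Agent.S3377.result
  have hrel : ∀ r ∈ ({FreeGroup.of (0 : Fin 2) ^ 3, FreeGroup.of (1 : Fin 2) ^ 5,
      (FreeGroup.of (0 : Fin 2) * FreeGroup.of 1) ^ 2} : Set (FreeGroup (Fin 2))),
      FreeGroup.lift ![X, Y] r = 1 := by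
    intro r hr
    simp only [Set.mem_insert_iff, Set.mem_singleton_iff] at hr
    rcases hr with rfl | rfl | rfl
    · simpa using h3
    · simpa using h5
    · simpa using h2
  let φ := PresentedGroup.toGroup hrel
  let f : alternatingGroup (Fin 5) →* G := φ.comp e.symm.toMonoidHom
  have hfX : f (e (PresentedGroup.of 0)) = X := by
    show φ (e.symm (e (PresentedGroup.of 0))) = X
    rw [e.symm_apply_apply]
    exact PresentedGroup.toGroup.of hrel
  have hfY : f (e (PresentedGroup.of 1)) = Y := by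
    show φ (e.symm (e (PresentedGroup.of 1))) = Y
    rw [e.symm_apply_apply]
    exact PresentedGroup.toGroup.of hrel
  refine ⟨f, ?_, ⟨_, hfX⟩, ⟨_, hfY⟩⟩
  rw [← MonoidHom.ker_eq_bot_iff]
  rcases f.normal_ker.eq_bot_or_eq_top with h | h
  · exact h
  · exfalso
    apply hX
    rw [← hfX]
    exact (MonoidHom.mem_ker).mp (by rw [h]; exact Subgroup.mem_top _)

/-- the special linear group over the field with eleven elements -/
abbrev S11 := Matrix.SpecialLinearGroup (Fin 2) (ZMod 11)

def mx : S11 := ⟨!![7, 1; 9, 3], by decide⟩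
def my : S11 := ⟨!![3, 0; 0, 4], by decide⟩
def mu : S11 := ⟨!![1, 1; 0, 1], by decide⟩

/-- the word in the generators coded by a list -/
def wd : List Bool → S11
  | [] => 1
  | (b :: l) => (if b then mx else my) * wd l

/-- the words moving the coset of `u` to the coset of `u ^ i` -/
def hw : Fin 11 → List Bool
  | 2 => [true, true]
  | 3 => [false, false, false]
  | 4 => [false, false]
  | 5 => [true, false, true]
  | 6 => [true, true, false, true]
  | 7 => [true]
  | 8 => [true, false, false, true]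
  | 9 => [false]
  | 10 => [true, true, false, false, false]
  | _ => []

/-- the conjugated words -/
def kv : Fin 11 → List Bool
  | 2 => [true, false, false, true, true]
  | 3 => [false, false, false]
  | 4 => [false, false]
  | 5 => [true, false, true]
  | 6 => [false, true]
  | 7 => [false, false, true, true, false, false]
  | 8 => [true]
  | 9 => [false]
  | 10 => [false, false, true]
  | _ => []

lemma table : ∀ i : Fin 11, i = 0 ∨ mu ^ (i : ℕ) * wd (kv i) = wd (hw i) * mu ∨
    mu ^ (i : ℕ) * wd (kv i) = -(wd (hw i) * mu) := by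
  decide

lemma rel3 : mx ^ 3 = 1 := by decide
lemma rel5 : my ^ 5 = 1 := by decide
lemma rel2 : (mx * my) ^ 2 = -1 := by decide
lemma relu : mu ^ 11 = 1 := by decide

section field
variable {F : Type*} [Field F] [Fintype F]

/-- the map to the projective group over a field with eleven elements -/
noncomputable def Psi (e : ZMod 11 ≃+* F) : S11 →* Matrix.ProjectiveSpecialLinearGroup (Fin 2) F :=
  (QuotientGroup.mk' (Subgroup.center (Matrix.SpecialLinearGroup (Fin 2) F))).comp
    (Matrix.SpecialLinearGroup.map e.toRingHom)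

lemma Psi_eq_one_iff (e : ZMod 11 ≃+* F) (a : S11) :
    Psi e a = 1 ↔ ∃ r : F, r ^ 2 = 1 ∧ ∀ i j, (if i = j then r else 0) = e (a.1 i j) := by
  unfold Psi
  rw [MonoidHom.comp_apply, QuotientGroup.mk'_apply, QuotientGroup.eq_one_iff,
    Matrix.SpecialLinearGroup.mem_center_iff]
  constructor
  · rintro ⟨r, hr, hs⟩
    refine ⟨r, by simpa using hr, fun i j => ?_⟩
    have := congrFun (congrFun hs i) j
    simpa [Matrix.diagonal_apply] using this
  · rintro ⟨r, hr, hs⟩
    refine ⟨r, by simpa using hr, ?_⟩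
    ext i j
    have := hs i j
    simpa [Matrix.diagonal_apply] using this

lemma Psi_neg_one (e : ZMod 11 ≃+* F) : Psi e (-1) = 1 := by
  rw [Psi_eq_one_iff]
  refine ⟨-1, by ring, fun i j => ?_⟩
  fin_cases i <;> fin_cases j <;> simp

lemma Psi_neg (e : ZMod 11 ≃+* F) (a : S11) : Psi e (-a) = Psi e a := by
  rw [← neg_one_mul, map_mul, Psi_neg_one, one_mul]

lemma Psi_mx_ne (e : ZMod 11 ≃+* F) : Psi e mx ≠ 1 := by
  rw [Ne, Psi_eq_one_iff]
  rintro ⟨r, -, hs⟩
  have := hs 0 1
  simp [mx] at this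

lemma Psi_mu_ne (e : ZMod 11 ≃+* F) : Psi e mu ≠ 1 := by
  rw [Ne, Psi_eq_one_iff]
  rintro ⟨r, -, hs⟩
  have := hs 0 1
  simp [mu] at this

lemma Psi_wd_mem (e : ZMod 11 ≃+* F)
    (H : Subgroup (Matrix.ProjectiveSpecialLinearGroup (Fin 2) F))
    (hx : Psi e mx ∈ H) (hy : Psi e my ∈ H) : ∀ l : List Bool, Psi e (wd l) ∈ H
  | [] => by
    show Psi e 1 ∈ H
    rw [map_one]
    exact H.one_mem
  | (b :: l) => by
    show Psi e ((if b then mx else my) * wd l) ∈ H
    rw [map_mul]
    apply H.mul_mem _ (Psi_wd_mem e H hx hy l)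
    cases b
    · exact hy
    · exact hx

end field

/-- Let F be a field with 11 elements. PSL_2(F) has a subgroup H of index 11 isomorphic to the alternating group A_5, and the action of PSL_2(F) on the cosets of H is 2-transitive (of degree 11). -/
theorem result {F : Type*} [Field F] [Fintype F] (hF : Fintype.card F = 11) : ∃ H : Subgroup (Matrix.ProjectiveSpecialLinearGroup (Fin 2) F), H.index = 11 ∧ Nonempty (H ≃* alternatingGroup (Fin 5)) ∧ MulAction.IsMultiplyPretransitive (Matrix.ProjectiveSpecialLinearGroup (Fin 2) F) ((Matrix.ProjectiveSpecialLinearGroup (Fin 2) F) ⧸ H) 2 := by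
  have hp : Nat.Prime 11 := by norm_num
  have hpf : Fact (Nat.Prime 11) := ⟨hp⟩
  let e : ZMod 11 ≃+* F := ZMod.ringEquivOfPrime F hp hF
  have hcardG : Nat.card (Matrix.ProjectiveSpecialLinearGroup (Fin 2) F) = 660 := by
    have h := Cfsg.Agent.Lib.Helper5.SL2Card.card_PSL_two (F := F) hF
    norm_num at h
    omega
  have hfin : Finite (Matrix.ProjectiveSpecialLinearGroup (Fin 2) F) :=
    Nat.finite_of_card_ne_zero (by rw [hcardG]; norm_num)
  obtain ⟨f, hf, hxf, hyf⟩ := exists_A5 (Psi e mx) (Psi e my)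
    (by rw [← map_pow, rel3, map_one]) (by rw [← map_pow, rel5, map_one])
    (by rw [← map_mul, ← map_pow, rel2, Psi_neg_one]) (Psi_mx_ne e)
  have hcardA : Nat.card (alternatingGroup (Fin 5)) = 60 := by
    have h2 := two_mul_nat_card_alternatingGroup (α := Fin 5)
    rw [Nat.card_perm] at h2
    have h3 : (Nat.card (Fin 5)).factorial = 120 := by
      simp [Nat.factorial]
    omega
  have hcardH : Nat.card f.range = 60 := by
    rw [← Nat.card_congr (MonoidHom.ofInjective hf).toEquiv, hcardA]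
  have hidx : f.range.index = 11 := by
    have h := f.range.card_mul_index
    rw [hcardH, hcardG] at h
    omega
  have hu11 : Psi e mu ^ 11 = 1 := by rw [← map_pow, relu, map_one]
  have hord : orderOf (Psi e mu) = 11 := orderOf_eq_prime hu11 (Psi_mu_ne e)
  refine ⟨f.range, hidx, ⟨(MonoidHom.ofInjective hf).symm⟩, ?_⟩
  apply two_trans_of_cyclic f.range 11 hidx (Psi e mu)
  · intro j hj0 hj11 hmem
    have hcop : Nat.Coprime j (orderOf (Psi e mu)) := by
      rw [hord]
      exact ((Nat.Prime.coprime_iff_not_dvd hp).mpr (fun h => by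
        have := Nat.le_of_dvd hj0 h
        omega)).symm
    obtain ⟨m, hm⟩ := exists_pow_eq_self_of_coprime hcop
    have hmem' : Psi e mu ∈ f.range := by
      rw [← hm]
      exact f.range.pow_mem hmem m
    have hdvd : orderOf (Psi e mu) ∣ Nat.card f.range := by
      have := orderOf_dvd_natCard (⟨Psi e mu, hmem'⟩ : f.range)
      rwa [Subgroup.orderOf_mk] at this
    rw [hord, hcardH] at hdvd
    omega
  · intro i hi0 hi11
    have ht := table ⟨i, hi11⟩
    have hne : (⟨i, hi11⟩ : Fin 11) ≠ 0 := by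
      intro h
      have := congrArg Fin.val h
      simp at this
      omega
    have ht' : Psi e mu ^ i * Psi e (wd (kv ⟨i, hi11⟩)) = Psi e (wd (hw ⟨i, hi11⟩)) * Psi e mu := by
      rcases ht with h | h | h
      · exact absurd h hne
      · have := congrArg (Psi e) h
        simpa [map_mul, map_pow] using this
      · have := congrArg (Psi e) h
        rw [Psi_neg] at this
        simpa [map_mul, map_pow] using this
    refine ⟨Psi e (wd (hw ⟨i, hi11⟩)), Psi_wd_mem e f.range hxf hyf _, ?_⟩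
    have : (Psi e mu ^ i)⁻¹ * Psi e (wd (hw ⟨i, hi11⟩)) * Psi e mu = Psi e (wd (kv ⟨i, hi11⟩)) := by
      rw [mul_assoc, ← ht', inv_mul_cancel_left]
    rw [this]
    exact Psi_wd_mem e f.range hxf hyf _

end Cfsg.Agent.S2542
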