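import Cfsg.Statements.S2543
import Mathlib
import Cfsg.Agent.S2542

set_option autoImplicit false
open scoped Pointwise
open Cfsg

namespace Cfsg.Agent.S2543

open Matrix
open Cfsg.Agent.S2542 (S11 my Psi Psi_eq_one_iff Psi_neg_one)

/-- a group generated by elements satisfying the relations of the alternating group of degree
five is a copy of it -/
theorem exists_A5' {G : Type*} [Group G] (X Y : G) (h3 : X ^ 3 = 1) (h5 : Y ^ 5 = 1)
    (h2 : (X * Y) ^ 2 = 1) (hX : X ≠ 1) :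
    ∃ f : alternatingGroup (Fin 5) →* G, Function.Injective f ∧
      f.range = Subgroup.closure {X, Y} := by
  obtain ⟨e⟩ := Cfsg.Agent.S3377.result
  have hrel : ∀ r ∈ ({FreeGroup.of (0 : Fin 2) ^ 3, FreeGroup.of (1 : Fin 2) ^ 5,
      (FreeGroup.of (0 : Fin 2) * FreeGroup.of 1) ^ 2} : Set (FreeGroup (Fin 2))),
      FreeGroup.lift ![X, Y] r = 1 := by
    intro r hr
    simp only [Set.mem_insert_iff, Set.mem_singleton_iff] at hr
    rcases hr with rfl | rfl | rfl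
    · simpa using h3
    · simpa using h5
    · simpa using h2
  let φ := PresentedGroup.toGroup hrel
  let f : alternatingGroup (Fin 5) →* G := φ.comp e.symm.toMonoidHom
  have hfX : f (e (PresentedGroup.of 0)) = X := by
    show φ (e.symm (e (PresentedGroup.of 0))) = X
    rw [e.symm_apply_apply]
    exact PresentedGroup.toGroup.of hrel
  have hfY : f (e (PresentedGroup.of 1)) = Y := by
    show φ (e.symm (e (PresentedGroup.of 1))) = Y
    rw [e.symm_apply_apply]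
    exact PresentedGroup.toGroup.of hrel
  refine ⟨f, ?_, ?_⟩
  · rw [← MonoidHom.ker_eq_bot_iff]
    rcases f.normal_ker.eq_bot_or_eq_top with h | h
    · exact h
    · exfalso
      apply hX
      rw [← hfX]
      exact (MonoidHom.mem_ker).mp (by rw [h]; exact Subgroup.mem_top _)
  · apply le_antisymm
    · rintro _ ⟨a, rfl⟩
      show φ (e.symm a) ∈ _
      have hmem : e.symm a ∈ Subgroup.closure (Set.range (PresentedGroup.of :
          Fin 2 → PresentedGroup ({FreeGroup.of (0 : Fin 2) ^ 3, FreeGroup.of (1 : Fin 2) ^ 5,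
      (FreeGroup.of (0 : Fin 2) * FreeGroup.of 1) ^ 2} : Set (FreeGroup (Fin 2))))) := by
        rw [PresentedGroup.closure_range_of]
        exact Subgroup.mem_top _
      generalize e.symm a = t at hmem ⊢
      induction hmem using Subgroup.closure_induction with
      | mem x hx =>
        obtain ⟨i, rfl⟩ := hx
        have : φ (PresentedGroup.of i) = ![X, Y] i := PresentedGroup.toGroup.of hrel
        rw [this]
        apply Subgroup.subset_closure
        fin_cases i <;> simp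
      | one => rw [map_one]; exact one_mem _
      | mul x y _ _ hx hy => rw [map_mul]; exact mul_mem hx hy
      | inv x _ hx => rw [map_inv]; exact inv_mem hx
    · rw [Subgroup.closure_le]
      rintro z (rfl | rfl)
      · exact ⟨_, hfX⟩
      · exact ⟨_, hfY⟩

/-- conjugacy of elements of prime order up to powers when the prime divides the order once -/
theorem conj_of_order {K : Type*} [Group K] [Finite K] (p m : ℕ) [hp : Fact p.Prime]
    (hK : Nat.card K = p * m) (hm : ¬ p ∣ m) (z z' : K) (hz : orderOf z = p)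
    (hz' : orderOf z' = p) : ∃ k : K, ∃ i : ℕ, z' = k * z ^ i * k⁻¹ := by
  have key : ∀ w : K, orderOf w = p → ∃ P : Sylow p K, (P : Subgroup K) = Subgroup.zpowers w := by
    intro w hw
    have hP : IsPGroup p (Subgroup.zpowers w) :=
      IsPGroup.of_card (n := 1) (by rw [Nat.card_zpowers, hw, pow_one])
    have hidx : ¬ p ∣ (Subgroup.zpowers w).index := by
      have h1 := (Subgroup.zpowers w).card_mul_index
      rw [Nat.card_zpowers, hw, hK] at h1
      have : (Subgroup.zpowers w).index = m := Nat.eq_of_mul_eq_mul_left hp.out.pos h1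
      rwa [this]
    exact ⟨hP.toSylow hidx, IsPGroup.toSylow_coe hP hidx⟩
  obtain ⟨P, hP⟩ := key z hz
  obtain ⟨P', hP'⟩ := key z' hz'
  obtain ⟨k, hk⟩ := MulAction.exists_smul_eq K P P'
  have h1 : z' ∈ (P' : Subgroup K) := by rw [hP']; exact Subgroup.mem_zpowers z'
  rw [← hk, Sylow.coe_subgroup_smul, Subgroup.mem_pointwise_smul_iff_inv_smul_mem, hP,
    ← mem_powers_iff_mem_zpowers] at h1
  obtain ⟨i, hi⟩ := (Submonoid.mem_powers_iff _ _).mp h1
  refine ⟨k, i, ?_⟩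
  rw [hi]
  simp only [MulAut.smul_def, ← map_inv, MulAut.conj_apply, inv_inv]
  group

lemma card_A5 : Nat.card (alternatingGroup (Fin 5)) = 60 := by
  have h2 := two_mul_nat_card_alternatingGroup (α := Fin 5)
  rw [Nat.card_perm] at h2
  have h3 : (Nat.card (Fin 5)).factorial = 120 := by
    simp [Nat.factorial]
  omega

set_option maxRecDepth 100000 in
theorem perm5_fact : ∀ σ : Equiv.Perm (Fin 5), Equiv.Perm.sign σ = 1 → σ ^ 5 = 1 → σ ≠ 1 →
    ∃ τ : Equiv.Perm (Fin 5), Equiv.Perm.sign τ = 1 ∧ τ ^ 3 = 1 ∧ τ ≠ 1 ∧ (τ * σ) ^ 2 = 1 := by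
  decide +kernel

theorem A5_fact (σ : alternatingGroup (Fin 5)) (h5 : σ ^ 5 = 1) (h1 : σ ≠ 1) :
    ∃ τ : alternatingGroup (Fin 5), τ ^ 3 = 1 ∧ τ ≠ 1 ∧ (τ * σ) ^ 2 = 1 := by
  obtain ⟨τ, hs, h3, hne, h2⟩ := perm5_fact σ.1 (Equiv.Perm.mem_alternatingGroup.mp σ.2)
    (by have := congrArg Subtype.val h5; simpa using this)
    (fun h => h1 (Subtype.ext h))
  refine ⟨⟨τ, Equiv.Perm.mem_alternatingGroup.mpr hs⟩, Subtype.ext ?_, ?_, Subtype.ext ?_⟩
  · simpa using h3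
  · intro h
    exact hne (by have := congrArg Subtype.val h; simpa using this)
  · simpa using h2


def x0 : S11 := ⟨!![7, 10; 2, 3], by decide⟩
def x1 : S11 := ⟨!![7, 9; 1, 3], by decide⟩

lemma xe_det : ∀ j : Fin 5,
    det !![(7 : ZMod 11), 10 * 9 ^ (j : ℕ); 2 * 5 ^ (j : ℕ), 3] = 1 := by decide
lemma xo_det : ∀ j : Fin 5,
    det !![(7 : ZMod 11), 9 * 9 ^ (j : ℕ); 1 * 5 ^ (j : ℕ), 3] = 1 := by decide

/-- the conjugates of `x0` under the powers of `my` -/
def xe (j : Fin 5) : S11 := ⟨!![7, 10 * 9 ^ (j : ℕ); 2 * 5 ^ (j : ℕ), 3], xe_det j⟩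
/-- the conjugates of `x1` under the powers of `my` -/
def xo (j : Fin 5) : S11 := ⟨!![7, 9 * 9 ^ (j : ℕ); 1 * 5 ^ (j : ℕ), 3], xo_det j⟩

lemma xe_conj : ∀ j : Fin 5, my ^ (j : ℕ) * x0 = xe j * my ^ (j : ℕ) := by decide
lemma xo_conj : ∀ j : Fin 5, my ^ (j : ℕ) * x1 = xo j * my ^ (j : ℕ) := by decide

lemma rels : x0 ^ 3 = 1 ∧ (x0 * my) ^ 2 = -1 ∧ x1 ^ 3 = 1 ∧ (x1 * my) ^ 2 = -1 ∧ my ^ 5 = 1 := by
  decide
lemma rel11 : (x0 * x1) ^ 11 = 1 ∨ (x0 * x1) ^ 11 = -1 := by decide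
lemma nes : x0 ≠ 1 ∧ x0 ≠ -1 ∧ x1 ≠ 1 ∧ x1 ≠ -1 ∧ my ≠ 1 ∧ my ≠ -1 ∧ x0 * x1 ≠ 1 ∧
    x0 * x1 ≠ -1 := by decide

set_option synthInstance.maxSize 2000 in
set_option maxRecDepth 100000 in
lemma D2 : ∀ a b c d : ZMod 11, a * d - b * c = 1 →
    (!![a, b; c, d] ^ 3 = (1 : Matrix (Fin 2) (Fin 2) (ZMod 11)) ∨
      !![a, b; c, d] ^ 3 = (-1 : Matrix (Fin 2) (Fin 2) (ZMod 11))) →
    !![a, b; c, d] ≠ (1 : Matrix (Fin 2) (Fin 2) (ZMod 11)) →
    !![a, b; c, d] ≠ (-1 : Matrix (Fin 2) (Fin 2) (ZMod 11)) →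
    ((!![a, b; c, d] * my.1) ^ 2 = (1 : Matrix (Fin 2) (Fin 2) (ZMod 11)) ∨
      (!![a, b; c, d] * my.1) ^ 2 = (-1 : Matrix (Fin 2) (Fin 2) (ZMod 11))) →
    ∃ j : Fin 5, !![a, b; c, d] = (xe j).1 ∨ !![a, b; c, d] = -(xe j).1 ∨
      !![a, b; c, d] = (xo j).1 ∨ !![a, b; c, d] = -(xo j).1 := by
  decide +kernel

set_option synthInstance.maxSize 2000 in
set_option maxRecDepth 100000 in
lemma D4 : ∀ a b c d : ZMod 11, a * d - b * c = 1 → ∀ i : Fin 5,
    (!![a, b; c, d] * my.1 = my.1 ^ (i : ℕ) * !![a, b; c, d] ∨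
      !![a, b; c, d] * my.1 = -(my.1 ^ (i : ℕ) * !![a, b; c, d])) →
    ∃ j : Fin 5, !![a, b; c, d] * x0.1 = (xe j).1 * !![a, b; c, d] ∨
      !![a, b; c, d] * x0.1 = -((xe j).1 * !![a, b; c, d]) ∨
      !![a, b; c, d] * x0.1 ^ 2 = (xe j).1 * !![a, b; c, d] ∨
      !![a, b; c, d] * x0.1 ^ 2 = -((xe j).1 * !![a, b; c, d]) := by
  decide +kernel

lemma val_eq {A B : S11} : A = B ↔ A.1 = B.1 := Subtype.ext_iff

lemma D2' (A : S11) (h3 : A ^ 3 = 1 ∨ A ^ 3 = -1) (h1 : A ≠ 1) (h1' : A ≠ -1)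
    (h2 : (A * my) ^ 2 = 1 ∨ (A * my) ^ 2 = -1) :
    ∃ j : Fin 5, A = xe j ∨ A = -xe j ∨ A = xo j ∨ A = -xo j := by
  have hA := Matrix.eta_fin_two A.1
  have hdet : A.1 0 0 * A.1 1 1 - A.1 0 1 * A.1 1 0 = 1 := by
    have := A.2
    rwa [Matrix.det_fin_two] at this
  have key := D2 (A.1 0 0) (A.1 0 1) (A.1 1 0) (A.1 1 1) hdet
  rw [← hA] at key
  simp only [val_eq, Ne] at h3 h1 h1' h2 ⊢
  exact key h3 h1 h1' h2

lemma D4' (A : S11) (i : Fin 5)
    (h : A * my = my ^ (i : ℕ) * A ∨ A * my = -(my ^ (i : ℕ) * A)) :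
    ∃ j : Fin 5, A * x0 = xe j * A ∨ A * x0 = -(xe j * A) ∨ A * x0 ^ 2 = xe j * A ∨
      A * x0 ^ 2 = -(xe j * A) := by
  have hA := Matrix.eta_fin_two A.1
  have hdet : A.1 0 0 * A.1 1 1 - A.1 0 1 * A.1 1 0 = 1 := by
    have := A.2
    rwa [Matrix.det_fin_two] at this
  have key := D4 (A.1 0 0) (A.1 0 1) (A.1 1 0) (A.1 1 1) hdet i
  rw [← hA] at key
  simp only [val_eq] at h ⊢
  exact key h

/-- the orbit of a self-normalizing subgroup of order sixty -/
theorem orbit_card {G : Type*} [Group G] (hG : Nat.card G = 660) (H : Subgroup G)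
    (hH : Nat.card H = 60) (x : G) (hx3 : x ^ 3 = 1) (hx : x ∉ H) :
    (Set.range (fun g : G => MulAut.conj g • H)).ncard = 11 := by
  have hfin : Finite G := Nat.finite_of_card_ne_zero (by rw [hG]; norm_num)
  let inst : MulAction G (Subgroup G) :=
    MulAction.compHom (Subgroup G) (MulAut.conj : G →* MulAut G)
  have h1 := MulAction.index_stabilizer G H
  have horb : MulAction.orbit G H = Set.range (fun g : G => MulAut.conj g • H) := rfl
  rw [← horb, ← h1]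
  have hmem : ∀ g, g ∈ MulAction.stabilizer G H ↔ MulAut.conj g • H = H :=
    fun g => MulAction.mem_stabilizer_iff
  have hle : H ≤ MulAction.stabilizer G H :=
    fun g hg => (hmem g).mpr (Subgroup.conj_smul_eq_self_of_mem hg)
  have hdvd : Nat.card H ∣ Nat.card (MulAction.stabilizer G H) := Subgroup.card_dvd_of_le hle
  have hci := (MulAction.stabilizer G H).card_mul_index
  rw [hG] at hci
  rw [hH] at hdvd
  obtain ⟨m, hm⟩ := hdvd
  have h11 : m * (MulAction.stabilizer G H).index = 11 := by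
    rw [hm] at hci
    nlinarith
  have hne1 : (MulAction.stabilizer G H).index ≠ 1 := by
    intro h
    rw [Subgroup.index_eq_one] at h
    have hnorm : H.Normal := ⟨fun n hn g => by
      have hg : MulAut.conj g • H = H := (hmem g).mp (by rw [h]; trivial)
      have := Subgroup.smul_mem_pointwise_smul n (MulAut.conj g) H hn
      rw [hg] at this
      simpa [MulAut.smul_def] using this⟩
    have hidx : H.index = 11 := by
      have := H.card_mul_index
      rw [hG, hH] at this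
      omega
    have := Subgroup.pow_index_mem H x
    rw [hidx] at this
    apply hx
    have hx' : x = (x ^ 11)⁻¹ := by
      rw [eq_inv_iff_mul_eq_one, ← pow_succ']
      calc x ^ (11 + 1) = (x ^ 3) ^ 4 := by rw [← pow_mul]
        _ = 1 := by rw [hx3, one_pow]
    rw [hx']
    exact H.inv_mem this
  have : (MulAction.stabilizer G H).index ∣ 11 := Dvd.intro_left m h11
  rcases (Nat.dvd_prime (by norm_num)).mp this with h | h
  · exact absurd h hne1
  · exact h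

section abstract
variable {G : Type*} [Group G] (Ψ : S11 →* G)

lemma Ψ_neg (hn : Ψ (-1) = 1) (a : S11) : Ψ (-a) = Ψ a := by
  rw [← neg_one_mul, map_mul, hn, one_mul]

lemma Ψ_inj (hk : ∀ a : S11, Ψ a = 1 → a = 1 ∨ a = -1) (a b : S11) (h : Ψ a = Ψ b) :
    a = b ∨ a = -b := by
  have h1 : Ψ (a * b⁻¹) = 1 := by rw [map_mul, map_inv, h, mul_inv_cancel]
  rcases hk _ h1 with h2 | h2
  · left
    exact mul_inv_eq_one.mp h2
  · right
    rw [mul_inv_eq_iff_eq_mul] at h2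
    rw [h2, neg_one_mul]

lemma Ψ_xe (j : Fin 5) :
    Ψ (xe j) = Ψ my ^ (j : ℕ) * Ψ x0 * (Ψ my ^ (j : ℕ))⁻¹ := by
  rw [eq_mul_inv_iff_mul_eq, ← map_pow, ← map_mul, ← map_mul, xe_conj]

lemma Ψ_xo (j : Fin 5) :
    Ψ (xo j) = Ψ my ^ (j : ℕ) * Ψ x1 * (Ψ my ^ (j : ℕ))⁻¹ := by
  rw [eq_mul_inv_iff_mul_eq, ← map_pow, ← map_mul, ← map_mul, xo_conj]

lemma cls (hs : Function.Surjective Ψ) (hk : ∀ a : S11, Ψ a = 1 → a = 1 ∨ a = -1)
    (hn : Ψ (-1) = 1) (X : G) (h3 : X ^ 3 = 1) (h1 : X ≠ 1) (h2 : (X * Ψ my) ^ 2 = 1) :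
    ∃ j : Fin 5, X = Ψ my ^ (j : ℕ) * Ψ x0 * (Ψ my ^ (j : ℕ))⁻¹ ∨
      X = Ψ my ^ (j : ℕ) * Ψ x1 * (Ψ my ^ (j : ℕ))⁻¹ := by
  obtain ⟨A, rfl⟩ := hs X
  have a3 : A ^ 3 = 1 ∨ A ^ 3 = -1 := hk _ (by rw [map_pow]; exact h3)
  have a1 : A ≠ 1 := fun h => h1 (by rw [h, map_one])
  have a1' : A ≠ -1 := fun h => h1 (by rw [h, hn])
  have a2 : (A * my) ^ 2 = 1 ∨ (A * my) ^ 2 = -1 := hk _ (by rw [map_pow, map_mul]; exact h2)
  obtain ⟨j, hj⟩ := D2' A a3 a1 a1' a2
  refine ⟨j, ?_⟩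
  rcases hj with h | h | h | h
  · left
    rw [h, Ψ_xe]
  · left
    rw [h, Ψ_neg Ψ hn, Ψ_xe]
  · right
    rw [h, Ψ_xo]
  · right
    rw [h, Ψ_neg Ψ hn, Ψ_xo]

lemma no11 (hk : ∀ a : S11, Ψ a = 1 → a = 1 ∨ a = -1) (hn : Ψ (-1) = 1) (H : Subgroup G)
    (hH : Nat.card H = 60) (h0 : Ψ x0 ∈ H) (h1 : Ψ x1 ∈ H) : False := by
  have hp11 : Fact (Nat.Prime 11) := ⟨by norm_num⟩
  have hz : Ψ (x0 * x1) ∈ H := by
    rw [map_mul]
    exact H.mul_mem h0 h1
  have hz11 : Ψ (x0 * x1) ^ 11 = 1 := by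
    rcases rel11 with h | h
    · rw [← map_pow, h, map_one]
    · rw [← map_pow, h, hn]
  have hz1 : Ψ (x0 * x1) ≠ 1 := by
    intro h
    rcases hk _ h with h | h
    · exact nes.2.2.2.2.2.2.1 h
    · exact nes.2.2.2.2.2.2.2 h
  have ho : orderOf (Ψ (x0 * x1)) = 11 := orderOf_eq_prime hz11 hz1
  have := H.orderOf_dvd_natCard hz
  rw [ho, hH] at this
  omega

lemma nrm (hs : Function.Surjective Ψ) (hk : ∀ a : S11, Ψ a = 1 → a = 1 ∨ a = -1)
    (hn : Ψ (-1) = 1) (n : G) (i : ℕ) (h : n * Ψ my = Ψ my ^ i * n) :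
    ∃ j : Fin 5, n * Ψ x0 * n⁻¹ = Ψ my ^ (j : ℕ) * Ψ x0 * (Ψ my ^ (j : ℕ))⁻¹ ∨
      n * (Ψ x0)⁻¹ * n⁻¹ = Ψ my ^ (j : ℕ) * Ψ x0 * (Ψ my ^ (j : ℕ))⁻¹ := by
  obtain ⟨A, rfl⟩ := hs n
  have h5 : my ^ 5 = 1 := rels.2.2.2.2
  have h03 : x0 ^ 3 = 1 := rels.1
  have hy5 : Ψ my ^ 5 = 1 := by rw [← map_pow, h5, map_one]
  have h' : Ψ (A * my) = Ψ (my ^ (i % 5) * A) := by
    rw [map_mul, map_mul, map_pow, ← pow_eq_pow_mod i hy5, h]
  have hinv : (Ψ x0)⁻¹ = Ψ (x0 ^ 2) := by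
    rw [inv_eq_iff_mul_eq_one, ← map_mul, ← pow_succ', h03, map_one]
  obtain ⟨j, hj⟩ := D4' A ⟨i % 5, Nat.mod_lt _ (by norm_num)⟩ (Ψ_inj Ψ hk _ _ h')
  refine ⟨j, ?_⟩
  rw [← Ψ_xe, hinv]
  rcases hj with h | h | h | h
  · left
    rw [mul_inv_eq_iff_eq_mul, ← map_mul, ← map_mul, h]
  · left
    rw [mul_inv_eq_iff_eq_mul, ← map_mul, ← map_mul, h, Ψ_neg Ψ hn]
  · right
    rw [mul_inv_eq_iff_eq_mul, ← map_mul, ← map_mul, h]
  · right
    rw [mul_inv_eq_iff_eq_mul, ← map_mul, ← map_mul, h, Ψ_neg Ψ hn]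

theorem main (hs : Function.Surjective Ψ) (hk : ∀ a : S11, Ψ a = 1 → a = 1 ∨ a = -1)
    (hn : Ψ (-1) = 1) (hG : Nat.card G = 660) :
    Nat.card {H : Subgroup G // Nonempty (H ≃* alternatingGroup (Fin 5))} = 22 ∧
    ∃ H K : Subgroup G, Nonempty (H ≃* alternatingGroup (Fin 5)) ∧
      Nonempty (K ≃* alternatingGroup (Fin 5)) ∧ (∀ g : G, MulAut.conj g • H ≠ K) ∧
      ∀ L : Subgroup G, Nonempty (L ≃* alternatingGroup (Fin 5)) →
        ∃ g : G, MulAut.conj g • L = H ∨ MulAut.conj g • L = K := by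
  have hfin : Finite G := Nat.finite_of_card_ne_zero (by rw [hG]; norm_num)
  have hp5 : Fact (Nat.Prime 5) := ⟨by norm_num⟩
  obtain ⟨r03, r02, r13, r12, r5⟩ := rels
  obtain ⟨n0, n0', n1, n1', ny, ny', -, -⟩ := nes
  obtain ⟨y, hy⟩ : ∃ y, y = Ψ my := ⟨_, rfl⟩
  obtain ⟨X0, hX0⟩ : ∃ X0, X0 = Ψ x0 := ⟨_, rfl⟩
  obtain ⟨X1, hX1⟩ : ∃ X1, X1 = Ψ x1 := ⟨_, rfl⟩
  have y5 : y ^ 5 = 1 := by rw [hy, ← map_pow, r5, map_one]
  have y1 : y ≠ 1 := fun h => by
    rw [hy] at h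
    rcases hk _ h with h | h
    · exact ny h
    · exact ny' h
  have oy : orderOf y = 5 := orderOf_eq_prime y5 y1
  have X03 : X0 ^ 3 = 1 := by rw [hX0, ← map_pow, r03, map_one]
  have X13 : X1 ^ 3 = 1 := by rw [hX1, ← map_pow, r13, map_one]
  have X0ne : X0 ≠ 1 := fun h => by
    rw [hX0] at h
    rcases hk _ h with h | h
    · exact n0 h
    · exact n0' h
  have X1ne : X1 ≠ 1 := fun h => by
    rw [hX1] at h
    rcases hk _ h with h | h
    · exact n1 h
    · exact n1' h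
  have X02 : (X0 * y) ^ 2 = 1 := by rw [hX0, hy, ← map_mul, ← map_pow, r02, hn]
  have X12 : (X1 * y) ^ 2 = 1 := by rw [hX1, hy, ← map_mul, ← map_pow, r12, hn]
  obtain ⟨f0, hf0, hr0⟩ := exists_A5' X0 y X03 y5 X02 X0ne
  obtain ⟨f1, hf1, hr1⟩ := exists_A5' X1 y X13 y5 X12 X1ne
  obtain ⟨H0, hH0⟩ : ∃ H0 : Subgroup G, H0 = Subgroup.closure {X0, y} := ⟨_, rfl⟩
  obtain ⟨H1, hH1⟩ : ∃ H1 : Subgroup G, H1 = Subgroup.closure {X1, y} := ⟨_, rfl⟩
  have e0 : Nonempty (H0 ≃* alternatingGroup (Fin 5)) :=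
    ⟨((MonoidHom.ofInjective hf0).trans (MulEquiv.subgroupCongr (hr0.trans hH0.symm))).symm⟩
  have e1 : Nonempty (H1 ≃* alternatingGroup (Fin 5)) :=
    ⟨((MonoidHom.ofInjective hf1).trans (MulEquiv.subgroupCongr (hr1.trans hH1.symm))).symm⟩
  have c60 : ∀ L : Subgroup G, Nonempty (L ≃* alternatingGroup (Fin 5)) → Nat.card L = 60 :=
    fun L ⟨ψ⟩ => by rw [Nat.card_congr ψ.toEquiv, card_A5]
  have cH0 := c60 H0 e0
  have cH1 := c60 H1 e1
  have X0H0 : X0 ∈ H0 := by rw [hH0]; exact Subgroup.subset_closure (by simp)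
  have yH0 : y ∈ H0 := by rw [hH0]; exact Subgroup.subset_closure (by simp)
  have X1H1 : X1 ∈ H1 := by rw [hH1]; exact Subgroup.subset_closure (by simp)
  have yH1 : y ∈ H1 := by rw [hH1]; exact Subgroup.subset_closure (by simp)
  have key9 : ∀ L : Subgroup G, Nonempty (L ≃* alternatingGroup (Fin 5)) → y ∈ L →
      L = H0 ∨ L = H1 := by
    intro L hL hyL
    have cL := c60 L hL
    obtain ⟨ψ⟩ := hL
    obtain ⟨τ, t3, t1, t2⟩ := A5_fact (ψ ⟨y, hyL⟩)
      (by rw [← map_pow]; convert map_one ψ using 2; exact Subtype.ext y5)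
      (fun h => y1 (by
        have := ψ.injective (h.trans (map_one ψ).symm)
        exact congrArg Subtype.val this))
    have hX3 : ((ψ.symm τ : L) : G) ^ 3 = 1 := by
      have : (ψ.symm τ) ^ 3 = 1 := by rw [← map_pow, t3, map_one]
      exact_mod_cast congrArg Subtype.val this
    have hXne : ((ψ.symm τ : L) : G) ≠ 1 := by
      intro h
      apply t1
      have : ψ.symm τ = 1 := Subtype.ext h
      rw [← ψ.apply_symm_apply τ, this, map_one]
    have hX2 : (((ψ.symm τ : L) : G) * y) ^ 2 = 1 := by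
      have : (ψ.symm τ * ⟨y, hyL⟩) ^ 2 = 1 := by
        apply ψ.injective
        rw [map_pow, map_mul, ψ.apply_symm_apply, map_one]
        exact t2
      have h' := congrArg Subtype.val this
      simpa using h'
    rw [hy] at hX2
    obtain ⟨j, hj⟩ := cls Ψ hs hk hn _ hX3 hXne hX2
    rw [← hy, ← hX0, ← hX1] at hj
    have hmemL : ((ψ.symm τ : L) : G) ∈ L := (ψ.symm τ).2
    have hyj : y ^ (j : ℕ) ∈ L := L.pow_mem hyL _
    rcases hj with h | h
    · left
      have hX0L : X0 ∈ L := by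
        have h' : X0 = (y ^ (j : ℕ))⁻¹ * ((ψ.symm τ : L) : G) * y ^ (j : ℕ) := by
          rw [h]; group
        rw [h']
        exact L.mul_mem (L.mul_mem (L.inv_mem hyj) hmemL) hyj
      symm
      apply Subgroup.eq_of_le_of_card_ge
      · rw [hH0, Subgroup.closure_le]
        rintro z (rfl | rfl)
        · exact hX0L
        · exact hyL
      · rw [cL, cH0]
    · right
      have hX1L : X1 ∈ L := by
        have h' : X1 = (y ^ (j : ℕ))⁻¹ * ((ψ.symm τ : L) : G) * y ^ (j : ℕ) := by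
          rw [h]; group
        rw [h']
        exact L.mul_mem (L.mul_mem (L.inv_mem hyj) hmemL) hyj
      symm
      apply Subgroup.eq_of_le_of_card_ge
      · rw [hH1, Subgroup.closure_le]
        rintro z (rfl | rfl)
        · exact hX1L
        · exact hyL
      · rw [cL, cH1]
  have keya : ∀ L : Subgroup G, Nonempty (L ≃* alternatingGroup (Fin 5)) →
      ∃ g : G, y ∈ MulAut.conj g • L := by
    intro L hL
    have cL := c60 L hL
    obtain ⟨z, hz⟩ := exists_prime_orderOf_dvd_card' (G := L) 5 (by rw [cL]; norm_num)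
    have hz' : orderOf (z : G) = 5 := by rw [Subgroup.orderOf_coe]; exact hz
    obtain ⟨k, i, hki⟩ := conj_of_order 5 132 (by rw [hG]) (by norm_num) (z : G) y hz' oy
    refine ⟨k, ?_⟩
    rw [hki]
    have := Subgroup.smul_mem_pointwise_smul ((z : G) ^ i) (MulAut.conj k) L (L.pow_mem z.2 i)
    simpa [MulAut.smul_def] using this
  have conjA5 : ∀ (L : Subgroup G) (g : G), Nonempty (L ≃* alternatingGroup (Fin 5)) →
      Nonempty ((MulAut.conj g • L : Subgroup G) ≃* alternatingGroup (Fin 5)) :=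
    fun L g ⟨ψ⟩ => ⟨(Subgroup.equivSMul (MulAut.conj g) L).symm.trans ψ⟩
  have all : ∀ L : Subgroup G, Nonempty (L ≃* alternatingGroup (Fin 5)) →
      ∃ g : G, MulAut.conj g • L = H0 ∨ MulAut.conj g • L = H1 := by
    intro L hL
    obtain ⟨g, hg⟩ := keya L hL
    exact ⟨g, key9 _ (conjA5 L g hL) hg⟩
  have nonconj : ∀ g : G, MulAut.conj g • H0 ≠ H1 := by
    intro g hg
    have hcj : ∀ x ∈ H0, g * x * g⁻¹ ∈ H1 := by
      intro x hx
      rw [← hg]
      have := Subgroup.smul_mem_pointwise_smul x (MulAut.conj g) H0 hx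
      simpa [MulAut.smul_def] using this
    have hz : g * y * g⁻¹ ∈ H1 := hcj y yH0
    have oz : orderOf (⟨g * y * g⁻¹, hz⟩ : H1) = 5 := by
      rw [Subgroup.orderOf_mk]
      apply orderOf_eq_prime
      · rw [conj_pow, y5]; group
      · intro h
        apply y1
        have : y = g⁻¹ * (g * y * g⁻¹) * g := by group
        rw [this, h]; group
    have oy' : orderOf (⟨y, yH1⟩ : H1) = 5 := by rw [Subgroup.orderOf_mk]; exact oy
    obtain ⟨k, i, hki⟩ := conj_of_order 5 12 (by rw [cH1]) (by norm_num) (⟨y, yH1⟩ : H1)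
      ⟨g * y * g⁻¹, hz⟩ oy' oz
    have hki' : g * y * g⁻¹ = (k : G) * y ^ i * (k : G)⁻¹ := by
      have := congrArg Subtype.val hki
      simpa using this
    have hn' : ((k : G)⁻¹ * g) * y = y ^ i * ((k : G)⁻¹ * g) := by
      have : g * y = (k : G) * y ^ i * (k : G)⁻¹ * g := by rw [← hki']; group
      rw [mul_assoc, this]; group
    rw [hy] at hn'
    obtain ⟨j, hj⟩ := nrm Ψ hs hk hn _ i hn'
    rw [← hy, ← hX0] at hj
    have hmem : ∀ x ∈ H0, ((k : G)⁻¹ * g) * x * ((k : G)⁻¹ * g)⁻¹ ∈ H1 := by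
      intro x hx
      have h2 : ((k : G)⁻¹ * g) * x * ((k : G)⁻¹ * g)⁻¹ = (k : G)⁻¹ * (g * x * g⁻¹) * (k : G) := by
        group
      rw [h2]
      exact H1.mul_mem (H1.mul_mem (H1.inv_mem k.2) (hcj x hx)) k.2
    have hc : y ^ (j : ℕ) * X0 * (y ^ (j : ℕ))⁻¹ ∈ H1 := by
      rcases hj with h | h
      · rw [← h]; exact hmem _ X0H0
      · rw [← h]; exact hmem _ (H0.inv_mem X0H0)
    have hX0H1 : X0 ∈ H1 := by
      have hyj : y ^ (j : ℕ) ∈ H1 := H1.pow_mem yH1 _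
      have : X0 = (y ^ (j : ℕ))⁻¹ * (y ^ (j : ℕ) * X0 * (y ^ (j : ℕ))⁻¹) * y ^ (j : ℕ) := by group
      rw [this]
      exact H1.mul_mem (H1.mul_mem (H1.inv_mem hyj) hc) hyj
    rw [hX0] at hX0H1
    rw [hX1] at X1H1
    exact no11 Ψ hk hn H1 cH1 hX0H1 X1H1
  have hS : {L : Subgroup G | Nonempty (L ≃* alternatingGroup (Fin 5))} =
      Set.range (fun g : G => MulAut.conj g • H0) ∪ Set.range (fun g : G => MulAut.conj g • H1) := by
    ext L
    simp only [Set.mem_ofPred_eq, Set.mem_union, Set.mem_range]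
    constructor
    · intro hL
      obtain ⟨g, hg⟩ := all L hL
      have hL' : L = MulAut.conj g⁻¹ • (MulAut.conj g • L) := by rw [map_inv, inv_smul_smul]
      rcases hg with h | h
      · left
        exact ⟨g⁻¹, by rw [hL', h]⟩
      · right
        exact ⟨g⁻¹, by rw [hL', h]⟩
    · rintro (⟨g, rfl⟩ | ⟨g, rfl⟩)
      · exact conjA5 H0 g e0
      · exact conjA5 H1 g e1
  have hdisj : Disjoint (Set.range (fun g : G => MulAut.conj g • H0))
      (Set.range (fun g : G => MulAut.conj g • H1)) := by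
    rw [Set.disjoint_left]
    rintro L ⟨g, hg⟩ ⟨g', hg'⟩
    apply nonconj (g'⁻¹ * g)
    have h1 : MulAut.conj g • H0 = L := hg
    have h2 : MulAut.conj g' • H1 = L := hg'
    rw [map_mul, mul_smul, h1, ← h2, map_inv, inv_smul_smul]
  have hnot0 : X1 ∉ H0 := fun h => by
    rw [hX0] at X0H0
    rw [hX1] at h
    exact no11 Ψ hk hn H0 cH0 X0H0 h
  have hnot1 : X0 ∉ H1 := fun h => by
    rw [hX1] at X1H1
    rw [hX0] at h
    exact no11 Ψ hk hn H1 cH1 h X1H1
  refine ⟨?_, H0, H1, e0, e1, nonconj, all⟩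
  rw [show Nat.card {H : Subgroup G // Nonempty (H ≃* alternatingGroup (Fin 5))} =
    Set.ncard {L : Subgroup G | Nonempty (L ≃* alternatingGroup (Fin 5))} from
    Nat.card_coe_set_eq _, hS, Set.ncard_union_eq hdisj (Set.toFinite _) (Set.toFinite _),
    orbit_card hG H0 cH0 X1 X13 hnot0, orbit_card hG H1 cH1 X0 X03 hnot1]

end abstract

section field
variable {F : Type*} [Field F]

lemma Psi_surj (e : ZMod 11 ≃+* F) : Function.Surjective (Psi e) := by
  intro B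
  obtain ⟨A, rfl⟩ := QuotientGroup.mk_surjective B
  refine ⟨Matrix.SpecialLinearGroup.map e.symm.toRingHom A, ?_⟩
  unfold Psi
  rw [MonoidHom.comp_apply, QuotientGroup.mk'_apply]
  congr 1
  ext i j
  simp [Matrix.SpecialLinearGroup.map_apply_coe, RingHom.mapMatrix_apply, Matrix.map_apply]

lemma Psi_ker [Fintype F] (e : ZMod 11 ≃+* F) (a : S11) (h : Psi e a = 1) : a = 1 ∨ a = -1 := by
  rw [Psi_eq_one_iff] at h
  obtain ⟨r, hr, hs⟩ := h
  rcases sq_eq_one_iff.mp hr with rfl | rfl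
  · left
    ext i j
    apply e.injective
    rw [← hs i j]
    fin_cases i <;> fin_cases j <;> simp
  · right
    ext i j
    apply e.injective
    rw [← hs i j]
    fin_cases i <;> fin_cases j <;> simp

end field

/-- Let F be a field with 11 elements. PSL_2(F) has exactly 22 subgroups isomorphic to the alternating group A_5, and they form two conjugacy classes: there are two such subgroups that are not conjugate, and every such subgroup is conjugate to one of these two. -/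
theorem result {F : Type*} [Field F] [Fintype F] (hF : Fintype.card F = 11) : Nat.card {H : Subgroup (Matrix.ProjectiveSpecialLinearGroup (Fin 2) F) // Nonempty (H ≃* alternatingGroup (Fin 5))} = 22 ∧ ∃ H K : Subgroup (Matrix.ProjectiveSpecialLinearGroup (Fin 2) F), Nonempty (H ≃* alternatingGroup (Fin 5)) ∧ Nonempty (K ≃* alternatingGroup (Fin 5)) ∧ (∀ g : Matrix.ProjectiveSpecialLinearGroup (Fin 2) F, MulAut.conj g • H ≠ K) ∧ ∀ L : Subgroup (Matrix.ProjectiveSpecialLinearGroup (Fin 2) F), Nonempty (L ≃* alternatingGroup (Fin 5)) → ∃ g : Matrix.ProjectiveSpecialLinearGroup (Fin 2) F, MulAut.conj g • L = H ∨ MulAut.conj g • L = K := by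
  have hp : Nat.Prime 11 := by norm_num
  let e : ZMod 11 ≃+* F := ZMod.ringEquivOfPrime F hp hF
  have hcardG : Nat.card (Matrix.ProjectiveSpecialLinearGroup (Fin 2) F) = 660 := by
    have h := Cfsg.Agent.Lib.Helper5.SL2Card.card_PSL_two (F := F) hF
    norm_num at h
    omega
  exact main (Psi e) (Psi_surj e) (Psi_ker e) (Psi_neg_one e) hcardG

end Cfsg.Agent.S2543
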