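import Cfsg.Statements.S2544
-- import your own Cfsg.Agent.* helpers here
import Cfsg.Agent.Lib.Helper95.StA
import Cfsg.Agent.Lib.Helper95.StB
import Cfsg.Agent.Lib.CT.NormOne
import Cfsg.Agent.Lib.CT.Kernel
import Cfsg.Agent.Lib.Helper80.Integrality
import Cfsg.Agent.Lib.Helper74.DefectZero
import Cfsg.Agent.S2421

set_option autoImplicit false
open Cfsg

namespace Cfsg.Agent.S2544

open scoped MatrixGroups

theorem card_GL_split {F : Type*} [Field F] [Fintype F] (n : ℕ) :
    Nat.card (GL (Fin n) F) = Fintype.card F ^ (n * (n - 1) / 2) *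
      ∏ i : Fin n, (Fintype.card F ^ (n - i.val) - 1) := by
  rw [Matrix.card_GL_field]
  have h1 : ∀ i : Fin n, Fintype.card F ^ n - Fintype.card F ^ (i : ℕ) =
      Fintype.card F ^ (i : ℕ) * (Fintype.card F ^ (n - i.val) - 1) := by
    intro i
    rw [Nat.mul_sub, ← pow_add, mul_one]
    congr 2
    omega
  rw [Finset.prod_congr rfl (fun i _ => h1 i), Finset.prod_mul_distrib, Finset.prod_pow_eq_pow_sum,
    Fin.sum_univ_eq_sum_range (fun i => i) n, Finset.sum_range_id]

theorem not_dvd_prod {F : Type*} [Field F] [Fintype F] (p : ℕ) [Fact p.Prime] [CharP F p] (n : ℕ) :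
    ¬ p ∣ ∏ i : Fin n, (Fintype.card F ^ (n - i.val) - 1) := by
  have hp : p.Prime := Fact.out
  obtain ⟨f, -, hf⟩ := FiniteField.card F p
  intro h
  obtain ⟨i, -, hi⟩ := (Nat.Prime.prime hp).exists_mem_finset_dvd h
  have h1 : p ∣ Fintype.card F ^ (n - i.val) := by
    rw [hf, ← pow_mul]
    apply dvd_pow_self
    have := f.pos
    have : 0 < n - i.val := by have := i.isLt; omega
    positivity
  have h2 : 0 < Fintype.card F ^ (n - i.val) := by
    have : 0 < Fintype.card F := Fintype.card_pos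
    positivity
  have h3 : p ∣ 1 := by
    have := (Nat.dvd_sub h1 hi)
    rwa [Nat.sub_sub_self h2] at this
  exact hp.one_lt.ne' (Nat.dvd_one.mp h3)


/-- Let F be a finite field of characteristic p and consider the projective special linear group PSL_n(F) with n ≥ 2. This group has an irreducible complex character χ whose degree equals the order of a Sylow p-subgroup (namely q^(n(n−1)/2) when #F = q) and whose restriction to any Sylow p-subgroup P is the regular character of P: χ vanishes on the non-identity elements of P. (This is the Steinberg character.) -/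
theorem result {F : Type*} [Field F] [Fintype F] (p : ℕ) [Fact p.Prime] [CharP F p] (n : ℕ) (hn : 2 ≤ n) : ∃ χ : Matrix.ProjectiveSpecialLinearGroup (Fin n) F → ℂ, Cfsg.IsIrrCharacter (Matrix.ProjectiveSpecialLinearGroup (Fin n) F) χ ∧ ∀ P : Sylow p (Matrix.ProjectiveSpecialLinearGroup (Fin n) F), χ 1 = Nat.card P ∧ ∀ x : Matrix.ProjectiveSpecialLinearGroup (Fin n) F, x ∈ P → x ≠ 1 → χ x = 0 := by
  classical
  have hp : p.Prime := Fact.out
  set q := Fintype.card F with hq
  set N := n * (n - 1) / 2 with hN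
  -- the Steinberg character of GL
  have hSt : Cfsg.IsIrrCharacter (GL (Fin n) F) (Cfsg.unipotentCharacterGL n F (fun _ => 1)) :=
    Cfsg.Agent.S2421.result (F := F) (n := n) (fun _ => 1) (fun _ _ _ => le_rfl) (by simp)
  -- restricted to SL
  have hχS_char : Cfsg.IsCharacter (Matrix.SpecialLinearGroup (Fin n) F)
      (fun s => Cfsg.unipotentCharacterGL n F (fun _ => 1) (Matrix.SpecialLinearGroup.toGL s)) :=
    Cfsg.Agent.Lib.CT.Ops.isCharacter_comp_hom Matrix.SpecialLinearGroup.toGL
      (Cfsg.Agent.Lib.CT.Ops.IsIrrCharacter.isCharacter hSt)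
  have hnorm : Cfsg.classInner
      (fun s : Matrix.SpecialLinearGroup (Fin n) F =>
        Cfsg.unipotentCharacterGL n F (fun _ => 1) (Matrix.SpecialLinearGroup.toGL s))
      (fun s : Matrix.SpecialLinearGroup (Fin n) F =>
        Cfsg.unipotentCharacterGL n F (fun _ => 1) (Matrix.SpecialLinearGroup.toGL s)) = 1 := by
    rw [Cfsg.Agent.Lib.Helper95.StA.classInner_sl (by omega)]
    exact Cfsg.Agent.Lib.CT.NormOne.inner_self_eq_one_of_irr hSt
  have hχS_irr := Cfsg.Agent.Lib.CT.NormOne.irr_of_inner_self_eq_one hχS_char hnorm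
  obtain ⟨χbar, hirr, hval⟩ := Cfsg.Agent.Lib.CT.Kernel.exists_quotient_irr
    (Subgroup.center (Matrix.SpecialLinearGroup (Fin n) F)) hχS_irr (by
      intro z hz
      change Cfsg.unipotentCharacterGL n F (fun _ => 1) (Matrix.SpecialLinearGroup.toGL z) =
        Cfsg.unipotentCharacterGL n F (fun _ => 1) (Matrix.SpecialLinearGroup.toGL 1)
      rw [map_one]
      exact Cfsg.Agent.Lib.Helper95.StA.unip_central _ z hz)
  refine ⟨χbar, hirr, ?_⟩
  have hone : χbar 1 = ((q ^ N : ℕ) : ℂ) := by
    have h1 := hval 1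
    rw [map_one] at h1
    rw [← Cfsg.Agent.Lib.Helper95.StB.steinberg_degree n]
    exact h1
  have hdeg : Cfsg.charDegree χbar = q ^ N := by
    unfold Cfsg.charDegree
    rw [hone, Complex.natCast_re, Nat.floor_natCast]
  have hdvd1 : q ^ N ∣ Nat.card (Matrix.ProjectiveSpecialLinearGroup (Fin n) F) := by
    rw [← hdeg]
    exact Cfsg.Agent.Lib.Helper80.Integrality.charDegree_dvd_card ⟨χbar, hirr⟩
  have hdvd2 : Nat.card (Matrix.ProjectiveSpecialLinearGroup (Fin n) F) ∣ Nat.card (GL (Fin n) F) := by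
    refine dvd_trans ?_ (Subgroup.card_dvd_of_injective Matrix.SpecialLinearGroup.toGL
      Matrix.SpecialLinearGroup.toGL_injective)
    exact Subgroup.card_quotient_dvd_card _
  obtain ⟨m, hm⟩ := hdvd1
  have hq0 : 0 < q ^ N := by
    have : 0 < q := Fintype.card_pos
    positivity
  have hpm : ¬ p ∣ m := by
    intro hpm
    apply not_dvd_prod (F := F) p n
    rw [hm, card_GL_split] at hdvd2
    exact dvd_trans hpm (Nat.dvd_of_mul_dvd_mul_left hq0 hdvd2)
  obtain ⟨f, -, hf⟩ := FiniteField.card F p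
  intro P
  have hcard : Nat.card P = q ^ N := by
    obtain ⟨k, hk⟩ := (IsPGroup.iff_card.mp P.isPGroup')
    have h1 : Nat.card P * (P : Subgroup (Matrix.ProjectiveSpecialLinearGroup (Fin n) F)).index =
        q ^ N * m := by
      rw [← hm]
      exact Subgroup.card_mul_index _
    have hidx : ¬ p ∣ (P : Subgroup (Matrix.ProjectiveSpecialLinearGroup (Fin n) F)).index :=
      P.not_dvd_index
    have hqN : q ^ N = p ^ ((f : ℕ) * N) := by
      rw [hq, hf, pow_mul]
    rw [hk, hqN] at h1 ⊢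
    apply Nat.dvd_antisymm
    · have : p ^ k ∣ p ^ ((f : ℕ) * N) * m := ⟨_, h1.symm⟩
      exact (Nat.Coprime.pow_left k ((Nat.Prime.coprime_iff_not_dvd hp).mpr hpm)).dvd_of_dvd_mul_right this
    · have : p ^ ((f : ℕ) * N) ∣ p ^ k * (P : Subgroup (Matrix.ProjectiveSpecialLinearGroup (Fin n) F)).index :=
        ⟨_, h1⟩
      exact (Nat.Coprime.pow_left _ ((Nat.Prime.coprime_iff_not_dvd hp).mpr hidx)).dvd_of_dvd_mul_right this
  refine ⟨by rw [hone, hcard], ?_⟩
  intro x hx hx1
  have hord : p ∣ orderOf x := by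
    obtain ⟨k, hk⟩ := (IsPGroup.iff_orderOf.mp P.isPGroup') ⟨x, hx⟩
    rw [Subgroup.orderOf_mk] at hk
    rw [hk]
    apply dvd_pow_self
    rintro rfl
    rw [pow_zero, orderOf_eq_one_iff] at hk
    exact hx1 hk
  exact Cfsg.Agent.Lib.Helper74.DefectZero.irr_eq_zero_of_defect_zero hp ⟨χbar, hirr⟩ m
    (by rw [hdeg]; exact hm) hpm x hord

end Cfsg.Agent.S2544
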