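import Cfsg.Statements.S2550
import Cfsg.Agent.S2579
import Cfsg.Agent.Lib.Helper43.SLCard

set_option autoImplicit false
open Cfsg

namespace Cfsg.Agent.S2550

open Matrix Module Cfsg.Agent.Lib.Helper43.SLCard

section Three

variable {K : Type*} [Field K] [Fintype K]

theorem rank_le_one_of_sq_zero (N : Matrix (Fin 3) (Fin 3) K) (h : N * N = 0) : N.rank ≤ 1 := by
  have h1 : LinearMap.range N.mulVecLin ≤ LinearMap.ker N.mulVecLin := by
    rintro _ ⟨v, rfl⟩
    rw [LinearMap.mem_ker, Matrix.mulVecLin_apply, Matrix.mulVecLin_apply, Matrix.mulVec_mulVec, h,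
      Matrix.zero_mulVec]
  have h2 := Submodule.finrank_mono h1
  have h3 := LinearMap.finrank_range_add_finrank_ker N.mulVecLin
  rw [Module.finrank_fin_fun] at h3
  have h4 : N.rank = finrank K (LinearMap.range N.mulVecLin) := rfl
  omega

theorem rank_pos_of_ne_zero (N : Matrix (Fin 3) (Fin 3) K) (h : N ≠ 0) : 0 < N.rank := by
  by_contra hcon
  have h0 : finrank K (LinearMap.range N.mulVecLin) = 0 := by
    have h4 : N.rank = finrank K (LinearMap.range N.mulVecLin) := rfl
    omega
  have h1 : LinearMap.range N.mulVecLin = ⊥ := Submodule.finrank_eq_zero.mp h0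
  apply h
  apply Matrix.toLin'.injective
  apply LinearMap.ext
  intro v
  have h2 : N.mulVecLin v ∈ LinearMap.range N.mulVecLin := ⟨v, rfl⟩
  rw [h1, Submodule.mem_bot] at h2
  rw [Matrix.toLin'_apply, map_zero]
  exact h2

theorem involution_lift (hK : Fintype.card K = 4)
    (x : Matrix.ProjectiveSpecialLinearGroup (Fin 3) K) (hx : orderOf x = 2) :
    ∃ g : Matrix.SpecialLinearGroup (Fin 3) K,
      (QuotientGroup.mk g : Matrix.ProjectiveSpecialLinearGroup (Fin 3) K) = x ∧
      Cfsg.IsTransvection (g : Matrix (Fin 3) (Fin 3) K) := by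
  classical
  have hchar : CharP K 2 :=
    ringChar.of_eq (FiniteField.even_card_iff_char_two.mpr (by rw [hK]))
  obtain ⟨g0, rfl⟩ := QuotientGroup.mk_surjective x
  have hx1 : (QuotientGroup.mk g0 : Matrix.ProjectiveSpecialLinearGroup (Fin 3) K) ≠ 1 := by
    intro h
    rw [h, orderOf_one] at hx
    norm_num at hx
  have hx2 : (QuotientGroup.mk g0 : Matrix.ProjectiveSpecialLinearGroup (Fin 3) K) ^ 2 = 1 := by
    rw [← hx]
    exact pow_orderOf_eq_one _
  have hg0sq : g0 ^ 2 ∈ Subgroup.center (Matrix.SpecialLinearGroup (Fin 3) K) := by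
    rw [← QuotientGroup.eq_one_iff, QuotientGroup.mk_pow]
    exact hx2
  have hzc := hg0sq
  rw [Matrix.SpecialLinearGroup.mem_center_iff] at hg0sq
  obtain ⟨r, hr, hrg⟩ := hg0sq
  have hr3 : r ^ 3 = 1 := by simpa using hr
  set z : Matrix.SpecialLinearGroup (Fin 3) K := g0 ^ 2 with hz
  have hz3 : z ^ 3 = 1 := by
    apply Subtype.ext
    rw [Matrix.SpecialLinearGroup.coe_pow, ← hrg, ← map_pow, hr3, map_one]
    rfl
  have hcomm : Commute z g0 := by
    have := Subgroup.mem_center_iff.mp hzc g0
    exact this.symm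
  refine ⟨z * g0, ?_, ?_⟩
  · rw [QuotientGroup.mk_mul, (QuotientGroup.eq_one_iff z).mpr hzc, one_mul]
  · have hg2 : (z * g0) ^ 2 = 1 := by
      rw [hcomm.mul_pow, ← hz, ← pow_succ, hz3]
    have hg1 : z * g0 ≠ 1 := by
      intro h
      apply hx1
      have h1 : (QuotientGroup.mk (z * g0) : Matrix.ProjectiveSpecialLinearGroup (Fin 3) K) = 1 := by
        rw [h]; rfl
      rwa [QuotientGroup.mk_mul, (QuotientGroup.eq_one_iff z).mpr hzc, one_mul] at h1
    set G : Matrix (Fin 3) (Fin 3) K := ((z * g0 : Matrix.SpecialLinearGroup (Fin 3) K) :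
      Matrix (Fin 3) (Fin 3) K) with hG
    have hGG : G * G = 1 := by
      have h1 := congrArg (fun u : Matrix.SpecialLinearGroup (Fin 3) K =>
        (u : Matrix (Fin 3) (Fin 3) K)) hg2
      simp only [Matrix.SpecialLinearGroup.coe_pow, Matrix.SpecialLinearGroup.coe_one] at h1
      rw [sq] at h1
      exact h1
    have hG1 : G ≠ 1 := by
      intro h
      apply hg1
      apply Subtype.ext
      exact h
    have hNN : (G - 1) * (G - 1) = 0 := by
      have h1 : (G - 1) * (G - 1) = (1 + 1) - (G + G) := by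
        rw [mul_sub, sub_mul, mul_one, one_mul, hGG]
        abel
      rw [h1]
      ext i j
      simp [CharTwo.add_self_eq_zero]
    have hN0 : G - 1 ≠ 0 := fun h => hG1 (sub_eq_zero.mp h)
    refine ⟨?_, hNN⟩
    have h1 := rank_le_one_of_sq_zero (G - 1) hNN
    have h2 := rank_pos_of_ne_zero (G - 1) hN0
    omega

theorem all_involutions_conj (hK : Fintype.card K = 4)
    (x y : Matrix.ProjectiveSpecialLinearGroup (Fin 3) K) (hx : orderOf x = 2)
    (hy : orderOf y = 2) : IsConj x y := by
  obtain ⟨g, rfl, hg⟩ := involution_lift hK x hx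
  obtain ⟨h, rfl, hh⟩ := involution_lift hK y hy
  have h1 : IsConj g h := Cfsg.Agent.S2579.result (le_refl 3) g h hg hh
  exact MonoidHom.map_isConj (QuotientGroup.mk' _) h1

end Three

section Four

variable {F : Type*} [Field F] [Fintype F]

/-- the nilpotent part of the first involution -/
def N1 (F : Type*) [Field F] : Matrix (Fin 4) (Fin 4) F := Matrix.single 0 1 1

/-- the nilpotent part of the second involution -/
def N2 (F : Type*) [Field F] : Matrix (Fin 4) (Fin 4) F :=
  Matrix.single 0 1 1 + Matrix.single 2 3 1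

theorem N1_sq : N1 F * N1 F = 0 := by
  unfold N1
  rw [Matrix.single_mul_single_of_ne]
  decide

theorem N2_sq : N2 F * N2 F = 0 := by
  unfold N2
  rw [mul_add, add_mul, add_mul]
  rw [Matrix.single_mul_single_of_ne (h := by decide), Matrix.single_mul_single_of_ne (h := by decide),
    Matrix.single_mul_single_of_ne (h := by decide), Matrix.single_mul_single_of_ne (h := by decide)]
  simp

theorem N1_ne : N1 F ≠ 0 := by
  intro h
  have h1 := congrFun (congrFun h 0) 1
  simp [N1] at h1

theorem N2_ne : N2 F ≠ 0 := by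
  intro h
  have h1 := congrFun (congrFun h 0) 1
  simp [N2] at h1

theorem det_T1 : (1 + N1 F).det = 1 := by
  unfold N1
  exact Matrix.det_transvection_of_ne 0 1 (by decide) 1

theorem det_T2 : (1 + N2 F).det = 1 := by
  have h1 : 1 + N2 F = Matrix.transvection (0 : Fin 4) 1 (1 : F) * Matrix.transvection 2 3 1 := by
    unfold N2 Matrix.transvection
    rw [mul_add, add_mul, add_mul, one_mul, one_mul, mul_one,
      Matrix.single_mul_single_of_ne (h := by decide)]
    abel
  rw [h1, Matrix.det_mul, Matrix.det_transvection_of_ne _ _ (by decide),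
    Matrix.det_transvection_of_ne _ _ (by decide), one_mul]

/-- similarity invariant separating the two involutions -/
def P (N : Matrix (Fin 4) (Fin 4) F) : Prop := ∀ X : Matrix (Fin 4) (Fin 4) F, N * X * N = 0 ∨ N * X * N = N

theorem P_N1 (hF : Fintype.card F = 2) : P (N1 F) := by
  intro X
  unfold N1
  rw [Matrix.single_mul_mul_single, one_mul, mul_one]
  rcases eq_zero_or_one_of_card_two hF (X 1 0) with h | h
  · left
    rw [h]
    simp
  · right
    rw [h]

theorem not_P_N2 : ¬ P (N2 F) := by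
  intro h
  have h1 : N2 F * Matrix.single 1 2 1 * N2 F = Matrix.single 0 3 1 := by
    unfold N2
    rw [add_mul, Matrix.single_mul_single_same, Matrix.single_mul_single_of_ne (h := by decide),
      add_zero, mul_add, Matrix.single_mul_single_of_ne (h := by decide),
      Matrix.single_mul_single_same, zero_add, mul_one, mul_one]
  rcases h (Matrix.single 1 2 1) with h2 | h2
  · rw [h1] at h2
    have h3 := congrFun (congrFun h2 0) 3
    simp at h3
  · rw [h1] at h2
    have h3 := congrFun (congrFun h2 0) 3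
    simp [N2] at h3

theorem exists_nonconj_involutions (hF : Fintype.card F = 2) :
    ∃ x y : Matrix.ProjectiveSpecialLinearGroup (Fin 4) F, orderOf x = 2 ∧ orderOf y = 2 ∧
      ¬ IsConj x y := by
  classical
  have hchar : CharP F 2 :=
    ringChar.of_eq (FiniteField.even_card_iff_char_two.mpr (by rw [hF]))
  have hcenter := center_SL_eq_bot_of_card_two hF 4
  have hsq : ∀ N : Matrix (Fin 4) (Fin 4) F, N * N = 0 → (1 + N) * (1 + N) = 1 := by
    intro N hN
    rw [mul_add, add_mul, add_mul, one_mul, one_mul, mul_one, hN, add_zero]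
    have h1 : N + N = 0 := by
      ext i j
      simp [CharTwo.add_self_eq_zero]
    rw [add_assoc, h1, add_zero]
  let t1 : Matrix.SpecialLinearGroup (Fin 4) F := ⟨1 + N1 F, det_T1⟩
  let t2 : Matrix.SpecialLinearGroup (Fin 4) F := ⟨1 + N2 F, det_T2⟩
  have ht1 : t1 ^ 2 = 1 := by
    apply Subtype.ext
    rw [Matrix.SpecialLinearGroup.coe_pow, sq]
    exact hsq _ N1_sq
  have ht2 : t2 ^ 2 = 1 := by
    apply Subtype.ext
    rw [Matrix.SpecialLinearGroup.coe_pow, sq]
    exact hsq _ N2_sq
  have ht1ne : t1 ≠ 1 := by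
    intro h
    have h1 : (1 : Matrix (Fin 4) (Fin 4) F) + N1 F = 1 := congrArg Subtype.val h
    exact N1_ne (add_eq_left.mp h1)
  have ht2ne : t2 ≠ 1 := by
    intro h
    have h1 : (1 : Matrix (Fin 4) (Fin 4) F) + N2 F = 1 := congrArg Subtype.val h
    exact N2_ne (add_eq_left.mp h1)
  have hord : ∀ t : Matrix.SpecialLinearGroup (Fin 4) F, t ^ 2 = 1 → t ≠ 1 →
      orderOf (QuotientGroup.mk t : Matrix.ProjectiveSpecialLinearGroup (Fin 4) F) = 2 := by
    intro t ht htne
    apply orderOf_eq_prime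
    · rw [← QuotientGroup.mk_pow, ht]
      rfl
    · intro h
      rw [QuotientGroup.eq_one_iff, hcenter, Subgroup.mem_bot] at h
      exact htne h
  refine ⟨QuotientGroup.mk t1, QuotientGroup.mk t2, hord t1 ht1 ht1ne, hord t2 ht2 ht2ne, ?_⟩
  intro hconj
  rw [isConj_iff] at hconj
  obtain ⟨c, hc⟩ := hconj
  obtain ⟨c0, rfl⟩ := QuotientGroup.mk_surjective c
  have h1 : (QuotientGroup.mk (c0 * t1 * c0⁻¹) : Matrix.ProjectiveSpecialLinearGroup (Fin 4) F) =
      QuotientGroup.mk t2 := hc
  rw [QuotientGroup.eq, hcenter, Subgroup.mem_bot, inv_mul_eq_one] at h1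
  -- matrices
  set C : Matrix (Fin 4) (Fin 4) F := (c0 : Matrix (Fin 4) (Fin 4) F) with hC
  set C' : Matrix (Fin 4) (Fin 4) F := ((c0⁻¹ : Matrix.SpecialLinearGroup (Fin 4) F) :
    Matrix (Fin 4) (Fin 4) F) with hC'
  have hCC' : C * C' = 1 := by
    have : ((c0 * c0⁻¹ : Matrix.SpecialLinearGroup (Fin 4) F) : Matrix (Fin 4) (Fin 4) F) = 1 := by
      rw [mul_inv_cancel]; rfl
    exact this
  have hC'C : C' * C = 1 := by
    have : ((c0⁻¹ * c0 : Matrix.SpecialLinearGroup (Fin 4) F) : Matrix (Fin 4) (Fin 4) F) = 1 := by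
      rw [inv_mul_cancel]; rfl
    exact this
  have h2 : C * (1 + N1 F) * C' = 1 + N2 F := by
    have h3 := congrArg (fun u : Matrix.SpecialLinearGroup (Fin 4) F =>
      (u : Matrix (Fin 4) (Fin 4) F)) h1
    exact h3
  have h4 : C * N1 F * C' = N2 F := by
    rw [mul_add, add_mul, mul_one, hCC'] at h2
    exact add_left_cancel h2
  apply not_P_N2 (F := F)
  intro X
  have h5 := P_N1 hF (C' * X * C)
  have h6 : N2 F * X * N2 F = C * (N1 F * (C' * X * C) * N1 F) * C' := by
    rw [← h4]
    simp only [Matrix.mul_assoc]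
  rw [h6]
  rcases h5 with h5 | h5
  · left
    rw [h5]
    simp
  · right
    rw [h5, h4]

end Four

/-- Let F be a field with 2 elements and K a field with 4 elements. PSL_4(F) and PSL_3(K) have the same order (20160) but are not isomorphic. -/
theorem result {F K : Type*} [Field F] [Fintype F] [Field K] [Fintype K] (hF : Fintype.card F = 2) (hK : Fintype.card K = 4) : Nat.card (Matrix.ProjectiveSpecialLinearGroup (Fin 4) F) = Nat.card (Matrix.ProjectiveSpecialLinearGroup (Fin 3) K) ∧ ¬ Nonempty (Matrix.ProjectiveSpecialLinearGroup (Fin 4) F ≃* Matrix.ProjectiveSpecialLinearGroup (Fin 3) K) := by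
  refine ⟨by rw [card_PSL4 hF, card_PSL3 hK], ?_⟩
  rintro ⟨e⟩
  obtain ⟨x, y, hx, hy, hxy⟩ := exists_nonconj_involutions hF
  have h1 : orderOf (e x) = 2 := by rw [MulEquiv.orderOf_eq, hx]
  have h2 : orderOf (e y) = 2 := by rw [MulEquiv.orderOf_eq, hy]
  have h3 := all_involutions_conj hK (e x) (e y) h1 h2
  apply hxy
  have h4 := MonoidHom.map_isConj e.symm.toMonoidHom h3
  simpa using h4

end Cfsg.Agent.S2550
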