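import Cfsg.Statements.S2551
import Cfsg.Agent.S0256
import Cfsg.Agent.Lib.Helper43.SLCard

set_option autoImplicit false
set_option linter.unusedSectionVars false
open Cfsg

namespace Cfsg.Agent.S2551

open Matrix

/-! ### general counting lemmas for orbits -/

theorem orbit_card_dvd {K α : Type*} [Group K] [MulAction K α] [Finite α] (p : ℕ)
    [Fact p.Prime] (k : K) (hk : orderOf k = p) (x : α)
    (h : ∀ y ∈ MulAction.orbit K x, k • y ≠ y) : p ∣ Nat.card (MulAction.orbit K x) := by
  have hZ : IsPGroup p (Subgroup.zpowers k) :=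
    IsPGroup.of_card (n := 1) (by rw [Nat.card_zpowers, hk, pow_one])
  have h1 := hZ.card_modEq_card_fixedPoints (MulAction.orbit K x)
  have h2 : IsEmpty (MulAction.fixedPoints (Subgroup.zpowers k) (MulAction.orbit K x)) := by
    refine ⟨fun ⟨y, hy⟩ => ?_⟩
    have h3 := MulAction.mem_fixedPoints.mp hy ⟨k, Subgroup.mem_zpowers k⟩
    exact h y.1 y.2 (congrArg Subtype.val h3)
  have h0 : Nat.card (MulAction.fixedPoints (Subgroup.zpowers k) (MulAction.orbit K x)) = 0 :=
    Nat.card_of_isEmpty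
  rw [h0] at h1
  exact (Nat.modEq_zero_iff_dvd).mp h1

theorem orbit_card_mod_le_one {K α : Type*} [Group K] [MulAction K α] [Finite α] (p : ℕ)
    [Fact p.Prime] (k : K) (hk : orderOf k = p) (x : α)
    (h : ∀ y ∈ MulAction.orbit K x, ∀ y' ∈ MulAction.orbit K x, k • y = y → k • y' = y' → y = y') :
    Nat.card (MulAction.orbit K x) % p ≤ 1 := by
  have hZ : IsPGroup p (Subgroup.zpowers k) :=
    IsPGroup.of_card (n := 1) (by rw [Nat.card_zpowers, hk, pow_one])
  have h1 := hZ.card_modEq_card_fixedPoints (MulAction.orbit K x)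
  have h2 : Subsingleton (MulAction.fixedPoints (Subgroup.zpowers k) (MulAction.orbit K x)) := by
    refine ⟨fun ⟨y, hy⟩ ⟨y', hy'⟩ => ?_⟩
    have h3 := MulAction.mem_fixedPoints.mp hy ⟨k, Subgroup.mem_zpowers k⟩
    have h4 := MulAction.mem_fixedPoints.mp hy' ⟨k, Subgroup.mem_zpowers k⟩
    exact Subtype.ext (Subtype.ext (h y.1 y.2 y'.1 y'.2 (congrArg Subtype.val h3)
      (congrArg Subtype.val h4)))
  have h3 : Nat.card (MulAction.fixedPoints (Subgroup.zpowers k) (MulAction.orbit K x)) ≤ 1 :=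
    Finite.card_le_one_iff_subsingleton.mpr h2
  unfold Nat.ModEq at h1
  rw [h1]
  exact (Nat.mod_le _ _).trans h3

theorem even_orbit_pair {K α : Type*} [Group K] [MulAction K α] [Finite α] (s : K) (a b : α)
    (hab : a ≠ b) (h1 : s • a = b) (h2 : s • b = a) :
    Even (Nat.card (MulAction.orbit K (a, b))) := by
  classical
  have := Fintype.ofFinite (MulAction.orbit K (a, b))
  have hswap : ∀ x ∈ MulAction.orbit K (a, b), x.swap ∈ MulAction.orbit K (a, b) := by
    rintro _ ⟨h, rfl⟩
    refine ⟨h * s, ?_⟩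
    have e1 : s • (a, b) = (b, a) := by rw [Prod.smul_mk, h1, h2]
    show (h * s) • (a, b) = (h • (a, b)).swap
    rw [mul_smul, e1]
    rfl
  let f : Function.End (MulAction.orbit K (a, b)) := fun x => ⟨x.1.swap, hswap x.1 x.2⟩
  have hf : f ^ 2 ^ 1 = 1 := by
    rw [pow_one, sq]
    funext x
    exact Subtype.ext (Prod.swap_swap _)
  have : Fact (Nat.Prime 2) := ⟨Nat.prime_two⟩
  have h3 := Equiv.Perm.card_fixedPoints_modEq (p := 2) (n := 1) hf
  have h4 : Fintype.card (Function.fixedPoints f) = 0 := by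
    rw [Fintype.card_eq_zero_iff]
    refine ⟨fun ⟨x, hx⟩ => ?_⟩
    obtain ⟨h, hh⟩ := x.2
    have h5 : x.1.swap = x.1 := congrArg Subtype.val hx
    rw [← hh] at h5
    have h6 : (h • b, h • a) = (h • a, h • b) := h5
    rw [Prod.mk.injEq] at h6
    exact hab (smul_left_cancel h h6.2)
  rw [h4] at h3
  rw [Nat.card_eq_fintype_card]
  exact Nat.even_iff.mpr h3

theorem card_stab_pair {K α : Type*} [Group K] [MulAction K α] (a b : α) :
    Nat.card (MulAction.stabilizer K (a, b)) =
      Nat.card (MulAction.stabilizer (MulAction.stabilizer K a) b) := by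
  refine Nat.card_congr ⟨fun h => ⟨⟨h.1, ?_⟩, ?_⟩, fun k => ⟨k.1.1, ?_⟩, fun h => rfl, fun k => rfl⟩
  · exact (Prod.mk.inj h.2).1
  · exact (Prod.mk.inj h.2).2
  · exact Prod.ext k.1.2 k.2

/-! ### fixed spaces of elements of `GL_4(2)` -/

section field

variable {F : Type*} [Field F] [Fintype F]

/-- the fixed space of `g` -/
noncomputable def fixSp (g : GL (Fin 4) F) : Submodule F (Fin 4 → F) :=
  LinearMap.eqLocus (Matrix.mulVecLin (g : Matrix (Fin 4) (Fin 4) F)) LinearMap.id

theorem mem_fixSp (g : GL (Fin 4) F) (v : Fin 4 → F) : v ∈ fixSp g ↔ g • v = v := by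
  rw [fixSp, LinearMap.mem_eqLocus]
  rfl

theorem card_vec (hF : Fintype.card F = 2) : Nat.card (Fin 4 → F) = 16 := by
  rw [Nat.card_eq_fintype_card, Fintype.card_fun, hF, Fintype.card_fin]
  norm_num

theorem card_fixSp (hF : Fintype.card F = 2) (g : GL (Fin 4) F) :
    Nat.card (fixSp g) = 2 ^ Module.finrank F (fixSp g) := by
  classical
  rw [Nat.card_eq_fintype_card, Module.card_eq_pow_finrank (K := F), hF]

theorem finrank_fixSp_le (g : GL (Fin 4) F) : Module.finrank F (fixSp g) ≤ 4 := by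
  have h := Submodule.finrank_le (fixSp g)
  rwa [Module.finrank_fin_fun] at h

theorem card_fixSp_modEq (hF : Fintype.card F = 2) (g : GL (Fin 4) F) (p : ℕ) [Fact p.Prime]
    (hg : orderOf g = p) : 16 ≡ Nat.card (fixSp g) [MOD p] := by
  have hZ : IsPGroup p (Subgroup.zpowers g) :=
    IsPGroup.of_card (n := 1) (by rw [Nat.card_zpowers, hg, pow_one])
  have h1 := hZ.card_modEq_card_fixedPoints (Fin 4 → F)
  have h3 : MulAction.fixedPoints (Subgroup.zpowers g) (Fin 4 → F) =
      (fixSp g : Set (Fin 4 → F)) := by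
    ext v
    rw [MulAction.mem_fixedPoints, SetLike.mem_coe, mem_fixSp]
    constructor
    · intro h
      exact h ⟨g, Subgroup.mem_zpowers g⟩
    · rintro h ⟨z, hz⟩
      have h4 : Subgroup.zpowers g ≤ MulAction.stabilizer (GL (Fin 4) F) v := by
        rw [Subgroup.zpowers_le]
        exact h
      exact h4 hz
  rw [card_vec hF, h3] at h1
  exact h1

theorem eq_one_of_fix (g : GL (Fin 4) F) (h : ∀ w : Fin 4 → F, g • w = w) : g = 1 := by
  apply Units.ext
  ext i j
  have h1 := congrFun (h (Pi.single j 1)) i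
  have h2 : (g • (Pi.single j 1 : Fin 4 → F)) i = (g : Matrix (Fin 4) (Fin 4) F) i j := by
    show ((g : Matrix (Fin 4) (Fin 4) F).mulVec (Pi.single j 1)) i = _
    rw [Matrix.mulVec_single_one]
    rfl
  rw [h2] at h1
  rw [h1, Units.val_one, Matrix.one_apply, Pi.single_apply]

theorem smul_ne_zero_of_ne (g : GL (Fin 4) F) {v : Fin 4 → F} (hv : v ≠ 0) : g • v ≠ 0 := by
  intro h
  apply hv
  have h1 := congrArg (fun w => g⁻¹ • w) h
  simpa using h1

/-- an element of order 5 fixes no non-zero vector -/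
theorem fix5 (hF : Fintype.card F = 2) (g : GL (Fin 4) F) (hg : orderOf g = 5)
    (v : Fin 4 → F) (hv : g • v = v) : v = 0 := by
  have : Fact (Nat.Prime 5) := ⟨by norm_num⟩
  have h1 := card_fixSp_modEq hF g 5 hg
  rw [card_fixSp hF] at h1
  have h2 := finrank_fixSp_le g
  have hv' : v ∈ fixSp g := (mem_fixSp g v).mpr hv
  generalize hk : Module.finrank F (fixSp g) = k at h1 h2
  interval_cases k
  · rw [Submodule.finrank_eq_zero.mp hk] at hv'
    exact (Submodule.mem_bot F).mp hv'
  · exact absurd h1 (by decide)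
  · exact absurd h1 (by decide)
  · exact absurd h1 (by decide)
  · exfalso
    have htop : fixSp g = ⊤ :=
      Submodule.eq_top_of_finrank_eq (by rw [hk, Module.finrank_fin_fun])
    have hg1 : g = 1 :=
      eq_one_of_fix g (fun w => (mem_fixSp g w).mp (htop ▸ Submodule.mem_top))
    rw [hg1, orderOf_one] at hg
    norm_num at hg

/-- an element of order 7 fixes exactly one non-zero vector -/
theorem fix7 (hF : Fintype.card F = 2) (g : GL (Fin 4) F) (hg : orderOf g = 7)
    {a x : Fin 4 → F} (ha : g • a = a) (ha0 : a ≠ 0) (hx : g • x = x) (hx0 : x ≠ 0) :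
    x = a := by
  have : Fact (Nat.Prime 7) := ⟨by norm_num⟩
  have h1 := card_fixSp_modEq hF g 7 hg
  rw [card_fixSp hF] at h1
  have h2 := finrank_fixSp_le g
  have hk1 : Module.finrank F (fixSp g) = 1 := by
    generalize hk : Module.finrank F (fixSp g) = k at h1 h2
    interval_cases k
    · exact absurd h1 (by decide)
    · rfl
    · exact absurd h1 (by decide)
    · exact absurd h1 (by decide)
    · exfalso
      have htop : fixSp g = ⊤ :=
        Submodule.eq_top_of_finrank_eq (by rw [hk, Module.finrank_fin_fun])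
      have hg1 : g = 1 :=
        eq_one_of_fix g (fun w => (mem_fixSp g w).mp (htop ▸ Submodule.mem_top))
      rw [hg1, orderOf_one] at hg
      norm_num at hg
  have ha' : a ∈ fixSp g := (mem_fixSp g a).mpr ha
  have hx' : x ∈ fixSp g := (mem_fixSp g x).mpr hx
  have hne : (⟨a, ha'⟩ : fixSp g) ≠ 0 := fun h => ha0 (congrArg Subtype.val h)
  obtain ⟨c, hc⟩ := (finrank_eq_one_iff_of_nonzero' (⟨a, ha'⟩ : fixSp g) hne).mp hk1 ⟨x, hx'⟩
  have hc' : c • a = x := congrArg Subtype.val hc
  rcases Lib.Helper43.SLCard.eq_zero_or_one_of_card_two hF c with rfl | rfl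
  · rw [zero_smul] at hc'
    exact absurd hc'.symm hx0
  · rw [one_smul] at hc'
    exact hc'.symm

theorem ncard_nonzero (hF : Fintype.card F = 2) :
    Set.ncard {x : Fin 4 → F | x ≠ 0} = 15 := by
  have h : {x : Fin 4 → F | x ≠ 0} = (Set.univ : Set (Fin 4 → F)) \ {0} := by
    ext x; simp
  rw [h, Set.ncard_sdiff (Set.subset_univ _), Set.ncard_univ, Set.ncard_singleton, card_vec hF]

theorem ncard_nonzero2 (hF : Fintype.card F = 2) {a : Fin 4 → F} (ha : a ≠ 0) :
    Set.ncard {x : Fin 4 → F | x ≠ 0 ∧ x ≠ a} = 14 := by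
  have h : {x : Fin 4 → F | x ≠ 0 ∧ x ≠ a} = (Set.univ : Set (Fin 4 → F)) \ {0, a} := by
    ext x; simp
  rw [h, Set.ncard_sdiff (Set.subset_univ _), Set.ncard_univ, Set.ncard_pair (Ne.symm ha),
    card_vec hF]

end field

/-! ### the action of a subgroup of order 2520 -/

section main

variable {F : Type*} [Field F] [Fintype F]

theorem two_trans (hF : Fintype.card F = 2) (H : Subgroup (GL (Fin 4) F))
    (hH : Nat.card H = 2520) (v w v' w' : Fin 4 → F) (hv : v ≠ 0) (hw : w ≠ 0) (hvw : v ≠ w)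
    (hv' : v' ≠ 0) (hw' : w' ≠ 0) (hvw' : v' ≠ w') :
    ∃ g ∈ H, (g : Matrix (Fin 4) (Fin 4) F).mulVec v = v' ∧
      (g : Matrix (Fin 4) (Fin 4) F).mulVec w = w' := by
  classical
  have : Fact (Nat.Prime 2) := ⟨Nat.prime_two⟩
  have : Fact (Nat.Prime 5) := ⟨by norm_num⟩
  have : Fact (Nat.Prime 7) := ⟨by norm_num⟩
  obtain ⟨g5, h5⟩ := exists_prime_orderOf_dvd_card' (G := H) 5 (by rw [hH]; norm_num)
  obtain ⟨g7, h7⟩ := exists_prime_orderOf_dvd_card' (G := H) 7 (by rw [hH]; norm_num)
  obtain ⟨s, hs⟩ := exists_prime_orderOf_dvd_card' (G := H) 2 (by rw [hH]; norm_num)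
  -- transitivity on the non-zero vectors
  have trans : ∀ x : Fin 4 → F, x ≠ 0 → MulAction.orbit H x = {y | y ≠ 0} := by
    intro x hx
    have hsub : MulAction.orbit H x ⊆ {y | y ≠ 0} := by
      rintro _ ⟨h, rfl⟩
      exact smul_ne_zero_of_ne (h : GL (Fin 4) F) hx
    have hd5 := orbit_card_dvd 5 g5 h5 x (fun y hy hfix =>
      hsub hy (fix5 hF (g5 : GL (Fin 4) F) (by rw [Subgroup.orderOf_coe]; exact h5) y hfix))
    have hd7 := orbit_card_mod_le_one 7 g7 h7 x (fun y hy y' hy' hf hf' =>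
      fix7 hF (g7 : GL (Fin 4) F) (by rw [Subgroup.orderOf_coe]; exact h7) hf' (hsub hy') hf
        (hsub hy))
    have hle : Nat.card (MulAction.orbit H x) ≤ 15 := by
      rw [Nat.card_coe_set_eq, ← ncard_nonzero hF]
      exact Set.ncard_le_ncard hsub (Set.toFinite _)
    have hpos : 0 < Nat.card (MulAction.orbit H x) :=
      Nat.card_pos_iff.mpr ⟨⟨⟨x, MulAction.mem_orbit_self x⟩⟩, inferInstance⟩
    have hn : Nat.card (MulAction.orbit H x) = 15 := by
      obtain ⟨c, hc⟩ := hd5
      rw [hc] at hd7 hle hpos ⊢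
      have hc3 : c ≤ 3 := by omega
      interval_cases c <;> omega
    refine Set.eq_of_subset_of_ncard_le hsub ?_ (Set.toFinite _)
    rw [ncard_nonzero hF, ← Nat.card_coe_set_eq, hn]
  have cardStab : ∀ a : Fin 4 → F, a ≠ 0 → Nat.card (MulAction.stabilizer H a) = 168 := by
    intro a ha
    have h1 := MulAction.index_stabilizer H a
    rw [trans a ha, ncard_nonzero hF] at h1
    have h2 := Subgroup.card_mul_index (MulAction.stabilizer H a)
    rw [h1, hH] at h2
    omega
  -- an involution and a vector that it moves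
  obtain ⟨a, hab⟩ : ∃ a : Fin 4 → F, s • a ≠ a := by
    by_contra hcon
    push Not at hcon
    have h1 : (s : GL (Fin 4) F) = 1 := eq_one_of_fix _ hcon
    have h2 : s = 1 := Subtype.ext h1
    rw [h2, orderOf_one] at hs
    norm_num at hs
  have ha0 : a ≠ 0 := by
    rintro rfl
    exact hab (smul_zero s)
  obtain ⟨b, hb⟩ : ∃ b : Fin 4 → F, b = s • a := ⟨_, rfl⟩
  rw [← hb] at hab
  have hb0 : b ≠ 0 := hb ▸ smul_ne_zero_of_ne (s : GL (Fin 4) F) ha0
  have hsb : s • b = a := by
    rw [hb, ← mul_smul, ← sq, ← hs, pow_orderOf_eq_one, one_smul]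
  -- the stabiliser of `a` is transitive on the other non-zero vectors
  have hA : Nat.card (MulAction.stabilizer H a) = 168 := cardStab a ha0
  have trans2 : MulAction.orbit (MulAction.stabilizer H a) b = {y | y ≠ 0 ∧ y ≠ a} := by
    have hsub : MulAction.orbit (MulAction.stabilizer H a) b ⊆ {y | y ≠ 0 ∧ y ≠ a} := by
      rintro _ ⟨k, rfl⟩
      refine ⟨smul_ne_zero_of_ne ((k : H) : GL (Fin 4) F) hb0, fun h => ?_⟩
      have hk : (k : H) • a = a := k.2
      have h' : (k : H) • b = a := h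
      exact hab (smul_left_cancel (k : H) (h'.trans hk.symm))
    obtain ⟨t, ht⟩ := exists_prime_orderOf_dvd_card' (G := MulAction.stabilizer H a) 7
      (by rw [hA]; norm_num)
    have hta : ((t : H) : GL (Fin 4) F) • a = a := t.2
    have hd7 := orbit_card_dvd 7 t ht b (fun y hy hfix =>
      (hsub hy).2 (fix7 hF ((t : H) : GL (Fin 4) F)
        (by rw [Subgroup.orderOf_coe, Subgroup.orderOf_coe]; exact ht) hta ha0 hfix (hsub hy).1))
    have hle : Nat.card (MulAction.orbit (MulAction.stabilizer H a) b) ≤ 14 := by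
      rw [Nat.card_coe_set_eq, ← ncard_nonzero2 hF ha0]
      exact Set.ncard_le_ncard hsub (Set.toFinite _)
    have hpos : 0 < Nat.card (MulAction.orbit (MulAction.stabilizer H a) b) :=
      Nat.card_pos_iff.mpr ⟨⟨⟨b, MulAction.mem_orbit_self b⟩⟩, inferInstance⟩
    have hn : Nat.card (MulAction.orbit (MulAction.stabilizer H a) b) = 14 := by
      by_contra hne
      have h7' : Nat.card (MulAction.orbit (MulAction.stabilizer H a) b) = 7 := by omega
      have i1 := MulAction.index_stabilizer (MulAction.stabilizer H a) b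
      rw [← Nat.card_coe_set_eq, h7'] at i1
      have c1 := Subgroup.card_mul_index (MulAction.stabilizer (MulAction.stabilizer H a) b)
      rw [i1, hA] at c1
      have c2 : Nat.card (MulAction.stabilizer H (a, b)) = 24 := by
        rw [card_stab_pair]; omega
      have i2 := MulAction.index_stabilizer H (a, b)
      have c3 := Subgroup.card_mul_index (MulAction.stabilizer H (a, b))
      rw [i2, c2, hH, ← Nat.card_coe_set_eq] at c3
      obtain ⟨m, hm⟩ := even_orbit_pair s a b (Ne.symm hab) hb.symm hsb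
      omega
    refine Set.eq_of_subset_of_ncard_le hsub ?_ (Set.toFinite _)
    rw [ncard_nonzero2 hF ha0, ← Nat.card_coe_set_eq, hn]
  -- every pair of distinct non-zero vectors can be moved to `(a, b)`
  have key : ∀ x y : Fin 4 → F, x ≠ 0 → y ≠ 0 → x ≠ y → ∃ g : H, g • x = a ∧ g • y = b := by
    intro x y hx hy hxy
    have h1 : a ∈ MulAction.orbit H x := by rw [trans x hx]; exact ha0
    obtain ⟨h, hh⟩ := h1
    have hh' : h • x = a := hh
    have h2 : h • y ∈ MulAction.orbit (MulAction.stabilizer H a) b := by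
      rw [trans2]
      refine ⟨smul_ne_zero_of_ne (h : GL (Fin 4) F) hy, fun e => ?_⟩
      exact hxy (smul_left_cancel h (hh'.trans e.symm))
    obtain ⟨k, hk⟩ := h2
    have hk' : (k : H) • b = h • y := hk
    refine ⟨(k : H)⁻¹ * h, ?_, ?_⟩
    · rw [mul_smul, hh', inv_smul_eq_iff]
      exact (k.2 : (k : H) • a = a).symm
    · rw [mul_smul, inv_smul_eq_iff]
      exact hk'.symm
  obtain ⟨g1, h1a, h1b⟩ := key v w hv hw hvw
  obtain ⟨g2, h2a, h2b⟩ := key v' w' hv' hw' hvw'
  refine ⟨((g2⁻¹ * g1 : H) : GL (Fin 4) F), (g2⁻¹ * g1).2, ?_, ?_⟩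
  · show (g2⁻¹ * g1) • v = v'
    rw [mul_smul, h1a, inv_smul_eq_iff, h2a]
  · show (g2⁻¹ * g1) • w = w'
    rw [mul_smul, h1b, inv_smul_eq_iff, h2b]

end main

/-! ### a subgroup isomorphic to the alternating group of degree 7 -/

theorem exists_A7_A8 :
    ∃ ι : alternatingGroup (Fin 7) →* alternatingGroup (Fin 8), Function.Injective ι := by
  classical
  let f : Fin 7 ≃ {i : Fin 8 // i ∈ Set.range (Fin.castSucc : Fin 7 → Fin 8)} :=
    Equiv.ofInjective Fin.castSucc (Fin.castSucc_injective 7)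
  have hmem : ∀ σ : alternatingGroup (Fin 7),
      ((Equiv.Perm.extendDomainHom f).comp (alternatingGroup (Fin 7)).subtype) σ ∈
        alternatingGroup (Fin 8) := by
    intro σ
    rw [Equiv.Perm.mem_alternatingGroup]
    show Equiv.Perm.sign ((σ : Equiv.Perm (Fin 7)).extendDomain f) = 1
    rw [Equiv.Perm.sign_extendDomain]
    exact Equiv.Perm.mem_alternatingGroup.mp σ.2
  refine ⟨((Equiv.Perm.extendDomainHom f).comp (alternatingGroup (Fin 7)).subtype).codRestrict
    (alternatingGroup (Fin 8)) hmem, ?_⟩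
  intro x y hxy
  have h1 : Equiv.Perm.extendDomainHom f (x : Equiv.Perm (Fin 7)) =
      Equiv.Perm.extendDomainHom f (y : Equiv.Perm (Fin 7)) := congrArg Subtype.val hxy
  exact Subtype.ext (Equiv.Perm.extendDomainHom_injective f h1)

theorem exists_A7 {F : Type*} [Field F] [Fintype F] (hF : Fintype.card F = 2) :
    ∃ H : Subgroup (GL (Fin 4) F), Nonempty (H ≃* alternatingGroup (Fin 7)) := by
  classical
  obtain ⟨e⟩ := Cfsg.Agent.S0256.result hF
  have hc := Lib.Helper43.SLCard.center_SL_eq_bot_of_card_two hF 4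
  obtain ⟨e0⟩ : Nonempty (Matrix.ProjectiveSpecialLinearGroup (Fin 4) F ≃*
      Matrix.SpecialLinearGroup (Fin 4) F) :=
    ⟨(QuotientGroup.quotientMulEquivOfEq hc).trans QuotientGroup.quotientBot⟩
  obtain ⟨ι, hι⟩ := exists_A7_A8
  obtain ⟨φ, hφ⟩ : ∃ φ : alternatingGroup (Fin 7) →* GL (Fin 4) F, Function.Injective φ := by
    refine ⟨Matrix.SpecialLinearGroup.toGL.comp
      (e0.toMonoidHom.comp (e.symm.toMonoidHom.comp ι)), ?_⟩
    intro x y hxy
    have h1 : Matrix.SpecialLinearGroup.toGL (e0 (e.symm (ι x))) =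
        Matrix.SpecialLinearGroup.toGL (e0 (e.symm (ι y))) := hxy
    exact hι (e.symm.injective (e0.injective (Matrix.SpecialLinearGroup.toGL_injective h1)))
  exact ⟨φ.range, ⟨(MonoidHom.ofInjective hφ).symm⟩⟩

/-- Let F be the field with 2 elements. GL_4(F) (≅ A_8) has a subgroup isomorphic to the alternating group A_7, and every such subgroup acts 2-transitively on the 15 non-zero vectors of F⁴: any ordered pair of distinct non-zero vectors is carried to any other by some element of the subgroup. -/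
theorem result {F : Type*} [Field F] [Fintype F] (hF : Fintype.card F = 2) : (∃ H : Subgroup (Matrix.GeneralLinearGroup (Fin 4) F), Nonempty (H ≃* alternatingGroup (Fin 7))) ∧ ∀ H : Subgroup (Matrix.GeneralLinearGroup (Fin 4) F), Nonempty (H ≃* alternatingGroup (Fin 7)) → ∀ v w v' w' : Fin 4 → F, v ≠ 0 → w ≠ 0 → v ≠ w → v' ≠ 0 → w' ≠ 0 → v' ≠ w' → ∃ g ∈ H, (g : Matrix (Fin 4) (Fin 4) F).mulVec v = v' ∧ (g : Matrix (Fin 4) (Fin 4) F).mulVec w = w' := by
  refine ⟨exists_A7 hF, ?_⟩
  rintro H ⟨e⟩ v w v' w' hv hw hvw hv' hw' hvw'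
  have hH : Nat.card H = 2520 := by
    rw [Nat.card_congr e.toEquiv]
    have h := two_mul_nat_card_alternatingGroup (α := Fin 7)
    rw [Nat.card_perm, Nat.card_fin] at h
    have h7 : (7 : ℕ).factorial = 5040 := by decide
    omega
  exact two_trans hF H hH v w v' w' hv hw hvw hv' hw' hvw'

end Cfsg.Agent.S2551
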