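import Cfsg.Statements.S2552

set_option autoImplicit false
open Cfsg

namespace Cfsg.Agent.S2552

open Matrix Module

theorem exists_dilation {F : Type*} [Field F] {n : ℕ} (U : Submodule F (Fin n → F))
    (hU : U ≠ ⊥) (c : F) :
    ∃ Ψ : Matrix (Fin n) (Fin n) F, Ψ.det = c ∧ ∀ v ∈ U, Ψ *ᵥ v ∈ U := by
  classical
  obtain ⟨u, huU, hu0⟩ := (Submodule.ne_bot_iff U).mp hU
  obtain ⟨j, hj⟩ : ∃ j, u j ≠ 0 := by
    by_contra hcon
    simp only [not_exists, not_not] at hcon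
    exact hu0 (funext hcon)
  set w : Fin n → F := Pi.single j (u j)⁻¹ with hw
  have hwu : w ⬝ᵥ u = 1 := by
    rw [hw, single_dotProduct, inv_mul_cancel₀ hj]
  refine ⟨1 + replicateCol Unit ((c - 1) • u) * replicateRow Unit w, ?_, ?_⟩
  · rw [det_one_add_replicateCol_mul_replicateRow, dotProduct_smul, hwu]
    simp
  · intro v hv
    rw [Matrix.add_mulVec, Matrix.one_mulVec]
    apply U.add_mem hv
    rw [← vecMulVec_eq, vecMulVec_mulVec, op_smul_eq_smul]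
    exact U.smul_mem _ (U.smul_mem _ huU)

theorem exists_equiv_map_le {F : Type*} [Field F] {n : ℕ} (U₁ U₂ : Submodule F (Fin n → F))
    (h : finrank F U₁ = finrank F U₂) :
    ∃ φ : (Fin n → F) ≃ₗ[F] (Fin n → F), ∀ u ∈ U₁, φ u ∈ U₂ := by
  obtain ⟨W₁, hW₁⟩ := Submodule.exists_isCompl U₁
  obtain ⟨W₂, hW₂⟩ := Submodule.exists_isCompl U₂
  have hW : finrank F W₁ = finrank F W₂ := by
    have h1 := Submodule.finrank_add_eq_of_isCompl hW₁
    have h2 := Submodule.finrank_add_eq_of_isCompl hW₂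
    omega
  let eU : U₁ ≃ₗ[F] U₂ := LinearEquiv.ofFinrankEq _ _ h
  let eW : W₁ ≃ₗ[F] W₂ := LinearEquiv.ofFinrankEq _ _ hW
  refine ⟨((Submodule.prodEquivOfIsCompl U₁ W₁ hW₁).symm.trans (eU.prodCongr eW)).trans
    (Submodule.prodEquivOfIsCompl U₂ W₂ hW₂), ?_⟩
  intro u hu
  simp only [LinearEquiv.trans_apply]
  rw [show (Submodule.prodEquivOfIsCompl U₁ W₁ hW₁).symm u = ((⟨u, hu⟩ : U₁), 0) from
    Submodule.prodEquivOfIsCompl_symm_apply_left U₁ W₁ hW₁ ⟨u, hu⟩]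
  simp

/-- Let F be a finite field and n ≥ 1. For every k, the special linear group SL_n(F) acts transitively on the set of k-dimensional subspaces of F^n: any two subspaces of the same dimension are carried onto each other by some matrix of determinant 1. -/
theorem result {F : Type*} [Field F] [Fintype F] (n : ℕ) (hn : 1 ≤ n) (U₁ U₂ : Submodule F (Fin n → F)) (h : Module.finrank F U₁ = Module.finrank F U₂) : ∃ g : Matrix.SpecialLinearGroup (Fin n) F, U₁.map ((Matrix.SpecialLinearGroup.toLin' g : (Fin n → F) ≃ₗ[F] (Fin n → F)) : (Fin n → F) →ₗ[F] (Fin n → F)) = U₂ := by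
  classical
  by_cases hU2 : U₂ = ⊥
  · refine ⟨1, ?_⟩
    have hU1 : U₁ = ⊥ := by
      rw [hU2, finrank_bot] at h
      exact Submodule.finrank_eq_zero.mp h
    rw [hU1, hU2]
    simp
  obtain ⟨φ, hφ⟩ := exists_equiv_map_le U₁ U₂ h
  set Φ : Matrix (Fin n) (Fin n) F := LinearMap.toMatrix' (φ : (Fin n → F) →ₗ[F] (Fin n → F)) with hΦ
  have hΦv : ∀ v, Φ *ᵥ v = φ v := by
    intro v
    rw [hΦ, ← Matrix.toLin'_apply, Matrix.toLin'_toMatrix']
    rfl
  have hdet : Φ.det ≠ 0 := by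
    rw [hΦ, LinearMap.det_toMatrix']
    exact (LinearEquiv.isUnit_det' φ).ne_zero
  obtain ⟨Ψ, hΨdet, hΨ⟩ := exists_dilation U₂ hU2 (Φ.det)⁻¹
  have hG : (Ψ * Φ).det = 1 := by
    rw [Matrix.det_mul, hΨdet, inv_mul_cancel₀ hdet]
  let g : Matrix.SpecialLinearGroup (Fin n) F := ⟨Ψ * Φ, hG⟩
  refine ⟨g, ?_⟩
  apply Submodule.eq_of_le_of_finrank_eq
  · rintro _ ⟨u, hu, rfl⟩
    simp only [LinearEquiv.coe_coe]
    rw [Matrix.SpecialLinearGroup.toLin'_apply, Matrix.toLin'_apply]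
    show (Ψ * Φ) *ᵥ u ∈ U₂
    rw [← Matrix.mulVec_mulVec, hΦv]
    exact hΨ _ (hφ u hu)
  · rw [← h]
    exact LinearEquiv.finrank_map_eq _ U₁

end Cfsg.Agent.S2552
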