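import Cfsg.Statements.S2561
import Cfsg.Agent.Lib.Helper43.F2PlusMinus

set_option autoImplicit false
open Cfsg

namespace Cfsg.Agent.S2561

open Cfsg.Agent.Lib.Helper43.F2Quad Cfsg.Agent.Lib.Helper43.F2Sing
  Cfsg.Agent.Lib.Helper43.F2PlusMinus

/-- `Q0 + f(·,w)` -/
def phi (m : ℕ) (w : Fin m ⊕ Fin m → ZMod 2) : (Fin m ⊕ Fin m → ZMod 2) → ZMod 2 :=
  fun v => quadFormPlus m (ZMod 2) v + polarPlus m v w

/-- `q` polarizes to the standard form -/
def HQ (m : ℕ) (q : (Fin m ⊕ Fin m → ZMod 2) → ZMod 2) : Prop :=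
  ∀ u v : (Fin m ⊕ Fin m → ZMod 2), q (u + v) = q u + q v +
    (quadFormPlus m (ZMod 2) (u + v) - quadFormPlus m (ZMod 2) u - quadFormPlus m (ZMod 2) v)

theorem phi_hq (m : ℕ) (w : Fin m ⊕ Fin m → ZMod 2) : HQ m (phi m w) := by
  intro u v
  show quadFormPlus m (ZMod 2) (u + v) + polarPlus m (u + v) w =
    (quadFormPlus m (ZMod 2) u + polarPlus m u w) + (quadFormPlus m (ZMod 2) v + polarPlus m v w)
      + polarPlus m u v
  rw [quadFormPlus_add, polarPlus_add_left]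
  ring

theorem polarPlus_add_right (m : ℕ) (v u u' : Fin m ⊕ Fin m → ZMod 2) :
    polarPlus m v (u + u') = polarPlus m v u + polarPlus m v u' :=
  polar_add_right _ _ (quadFormPlus_add m) (polarPlus_add_left m) v u u'

theorem add_self_fun (m : ℕ) (v : Fin m ⊕ Fin m → ZMod 2) : v + v = 0 := by
  funext j
  exact CharTwo.add_self_eq_zero (v j)

theorem phi_injective (m : ℕ) : Function.Injective (phi m) := by
  intro w w' h
  by_contra hne
  have hne' : w + w' ≠ 0 := by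
    intro h0
    apply hne
    funext j
    have h1 := congrFun h0 j
    exact CharTwo.add_eq_zero.mp h1
  obtain ⟨u, hu⟩ := polarPlus_nondeg m _ hne'
  rw [polarPlus_add_right] at hu
  have h1 : polarPlus m u w = polarPlus m u w' := by
    have h2 := congrFun h u
    unfold phi at h2
    exact add_left_cancel h2
  rw [h1, CharTwo.add_self_eq_zero] at hu
  exact zero_ne_one hu

theorem phi_surjective (m : ℕ) (q : (Fin m ⊕ Fin m → ZMod 2) → ZMod 2) (hq : HQ m q) :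
    ∃ w, q = phi m w := by
  classical
  let d : (Fin m ⊕ Fin m → ZMod 2) →+ ZMod 2 :=
    AddMonoidHom.mk' (fun v => q v - quadFormPlus m (ZMod 2) v) (by
      intro u v
      have h1 := hq u v
      show q (u + v) - quadFormPlus m (ZMod 2) (u + v) =
        (q u - quadFormPlus m (ZMod 2) u) + (q v - quadFormPlus m (ZMod 2) v)
      rw [h1]
      ring)
  have hd : ∀ v, d v = q v - quadFormPlus m (ZMod 2) v := fun v => rfl
  have hsingle : ∀ (j : Fin m ⊕ Fin m) (c : ZMod 2),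
      d (Pi.single j c) = c * d (Pi.single j 1) := by
    intro j c
    rcases zmod2_cases c with rfl | rfl
    · simp
    · simp
  have hdv : ∀ v, d v = ∑ j, v j * d (Pi.single j 1) := by
    intro v
    conv_lhs => rw [← Finset.univ_sum_single v]
    rw [map_sum]
    apply Finset.sum_congr rfl
    intro j _
    exact hsingle j (v j)
  refine ⟨fun j => d (Pi.single (Sum.swap j) 1), ?_⟩
  funext v
  unfold phi
  rw [polarPlus_eq]
  have h2 : q v = quadFormPlus m (ZMod 2) v + d v := by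
    rw [hd]
    ring
  rw [h2, hdv v, Fintype.sum_sum_type, ← Finset.sum_add_distrib]
  congr 1
  apply Finset.sum_congr rfl
  intro i _
  simp only [Sum.swap_inl, Sum.swap_inr]
  ring

theorem card_zeros (k : ℕ) :
    Nat.card {w : Fin (k + 1) ⊕ Fin (k + 1) → ZMod 2 // quadFormPlus (k + 1) (ZMod 2) w = 0} =
      2 ^ (2 * k + 1) + 2 ^ k := by
  classical
  rw [Nat.card_eq_fintype_card, Fintype.card_subtype]
  have h1 := charSum_plus (k + 1)
  unfold charSum chi at h1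
  rw [Finset.sum_ite, Finset.sum_const, Finset.sum_const] at h1
  have h2 := Finset.card_filter_add_card_filter_not
    (s := (Finset.univ : Finset (Fin (k + 1) ⊕ Fin (k + 1) → ZMod 2)))
    (fun w => quadFormPlus (k + 1) (ZMod 2) w = 0)
  rw [Finset.card_univ, card_plus_space] at h2
  set A := (Finset.univ.filter
    (fun w : Fin (k + 1) ⊕ Fin (k + 1) → ZMod 2 => quadFormPlus (k + 1) (ZMod 2) w = 0)).card
  set B := (Finset.univ.filter
    (fun w : Fin (k + 1) ⊕ Fin (k + 1) → ZMod 2 => ¬ quadFormPlus (k + 1) (ZMod 2) w = 0)).card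
  have e3 : (2 : ℕ) ^ (2 * (k + 1)) = 2 * 2 ^ (2 * k + 1) := by
    rw [show 2 * (k + 1) = (2 * k + 1) + 1 by ring, pow_succ]
    ring
  have e4 : (2 : ℤ) ^ (k + 1) = 2 * 2 ^ k := by
    rw [pow_succ]
    ring
  have h2' : (A : ℤ) + (B : ℤ) = 2 * 2 ^ (2 * k + 1) := by
    exact_mod_cast (h2.trans e3)
  simp only [nsmul_eq_mul, mul_one, mul_neg] at h1
  have h3 : (A : ℤ) = 2 ^ (2 * k + 1) + 2 ^ k := by linarith
  exact_mod_cast h3

theorem card_nonzeros (k : ℕ) :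
    Nat.card {w : Fin (k + 1) ⊕ Fin (k + 1) → ZMod 2 // ¬ quadFormPlus (k + 1) (ZMod 2) w = 0} =
      2 ^ (2 * k + 1) - 2 ^ k := by
  classical
  have h0 := card_zeros k
  rw [Nat.card_eq_fintype_card] at h0 ⊢
  rw [Fintype.card_subtype_compl, h0, card_plus_space]
  have e3 : (2 : ℕ) ^ (2 * (k + 1)) = 2 * 2 ^ (2 * k + 1) := by
    rw [show 2 * (k + 1) = (2 * k + 1) + 1 by ring, pow_succ]
    ring
  rw [e3]
  omega

/-- a vector with `Q0 w0 = 1` -/
def w0 (k : ℕ) : Fin (k + 1) ⊕ Fin (k + 1) → ZMod 2 :=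
  fun j => Sum.elim (fun i => if i = Fin.last k then 1 else 0)
    (fun i => if i = Fin.last k then 1 else 0) j

/-- reindexing of coordinates -/
def sigma (k : ℕ) : (Fin k ⊕ Fin k) ⊕ Fin 2 ≃ Fin (k + 1) ⊕ Fin (k + 1) where
  toFun := Sum.elim (Sum.elim (fun i => Sum.inl i.castSucc) (fun i => Sum.inr i.castSucc))
    (fun j => if j = 0 then Sum.inl (Fin.last k) else Sum.inr (Fin.last k))
  invFun := Sum.elim (Fin.lastCases (Sum.inr 0) (fun i => Sum.inl (Sum.inl i)))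
    (Fin.lastCases (Sum.inr 1) (fun i => Sum.inl (Sum.inr i)))
  left_inv := by
    rintro ((i | i) | j)
    · simp
    · simp
    · have hj : ∀ j : Fin 2, j = 0 ∨ j = 1 := by decide
      rcases hj j with rfl | rfl <;> simp
  right_inv := by
    rintro (i | i)
    · refine Fin.lastCases ?_ ?_ i
      · simp
      · intro i
        simp
    · refine Fin.lastCases ?_ ?_ i
      · simp
      · intro i
        simp

/-- the coordinate change as a linear equivalence -/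
def hEquiv (k : ℕ) : (Fin (k + 1) ⊕ Fin (k + 1) → ZMod 2) ≃ₗ[ZMod 2]
    ((Fin k ⊕ Fin k) ⊕ Fin 2 → ZMod 2) :=
  LinearEquiv.funCongrLeft (ZMod 2) (ZMod 2) (sigma k)

theorem hEquiv_apply (k : ℕ) (v : Fin (k + 1) ⊕ Fin (k + 1) → ZMod 2)
    (j : (Fin k ⊕ Fin k) ⊕ Fin 2) : hEquiv k v j = v (sigma k j) := rfl

theorem phi_w0 (k : ℕ) (v : Fin (k + 1) ⊕ Fin (k + 1) → ZMod 2) :
    phi (k + 1) (w0 k) v = quadFormMinus k (ZMod 2) 1 1 (hEquiv k v) := by
  unfold phi quadFormMinus quadFormPlus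
  rw [polarPlus_eq]
  simp only [hEquiv_apply, sigma, Equiv.coe_fn_mk, Sum.elim_inl, Sum.elim_inr, w0]
  rw [Fin.sum_univ_castSucc, Fin.sum_univ_castSucc]
  simp
  ring

theorem quad_w0 (k : ℕ) : quadFormPlus (k + 1) (ZMod 2) (w0 k) = 1 := by
  unfold quadFormPlus
  rw [Fin.sum_univ_castSucc]
  simp [w0]

/-- plus type -/
def IsPlus (m : ℕ) (q : (Fin m ⊕ Fin m → ZMod 2) → ZMod 2) : Prop :=
  ∃ g : (Fin m ⊕ Fin m → ZMod 2) ≃ₗ[ZMod 2] (Fin m ⊕ Fin m → ZMod 2),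
    ∀ v, q v = quadFormPlus m (ZMod 2) (g v)

/-- minus type -/
def IsMinus (k : ℕ) (q : (Fin (k + 1) ⊕ Fin (k + 1) → ZMod 2) → ZMod 2) : Prop :=
  ∃ g : (Fin (k + 1) ⊕ Fin (k + 1) → ZMod 2) ≃ₗ[ZMod 2] ((Fin k ⊕ Fin k) ⊕ Fin 2 → ZMod 2),
    ∀ v, q v = quadFormMinus k (ZMod 2) 1 1 (g v)

theorem isPlus_phi_iff (m : ℕ) (w : Fin m ⊕ Fin m → ZMod 2) :
    IsPlus m (phi m w) ↔ quadFormPlus m (ZMod 2) w = 0 := by
  constructor
  · rintro ⟨g, hg⟩
    exact quad_eq_zero_of_equiv (quadFormPlus m (ZMod 2)) (polarPlus m) (quadFormPlus_add m)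
      (polarPlus_add_left m) (polarPlus_nondeg m) ⟨0⟩ w g.toEquiv hg
  · intro hw
    exact exists_equiv_of_quad_eq_zero (quadFormPlus m (ZMod 2)) (polarPlus m)
      (quadFormPlus_add m) (polarPlus_add_left m) w hw

theorem isMinus_phi_of (k : ℕ) (w : Fin (k + 1) ⊕ Fin (k + 1) → ZMod 2)
    (hw : quadFormPlus (k + 1) (ZMod 2) w = 1) : IsMinus k (phi (k + 1) w) := by
  have hq0 : ∀ u v, phi (k + 1) (w0 k) (u + v) =
      phi (k + 1) (w0 k) u + phi (k + 1) (w0 k) v + polarPlus (k + 1) u v := phi_hq (k + 1) (w0 k)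
  have hz : phi (k + 1) (w0 k) (w + w0 k) = 0 := by
    unfold phi
    rw [quadFormPlus_add, hw, quad_w0, polarPlus_add_left,
      polar_self (quadFormPlus (k + 1) (ZMod 2)) (polarPlus (k + 1)) (quadFormPlus_add _)
        (polarPlus_add_left _) (add_self_fun (k + 1)) (w0 k)]
    have h3 : (1 : ZMod 2) + 1 = 0 := by decide
    have h4 := CharTwo.add_self_eq_zero (polarPlus (k + 1) w (w0 k))
    linear_combination h3 + h4
  obtain ⟨g, hg⟩ := exists_equiv_of_quad_eq_zero (phi (k + 1) (w0 k)) (polarPlus (k + 1)) hq0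
    (polarPlus_add_left _) (w + w0 k) hz
  refine ⟨g.trans (hEquiv k), ?_⟩
  intro v
  rw [LinearEquiv.trans_apply, ← phi_w0, ← hg]
  unfold phi
  rw [polarPlus_add_right]
  have h4 := CharTwo.add_self_eq_zero (polarPlus (k + 1) v (w0 k))
  linear_combination -h4

theorem not_isMinus_phi (k : ℕ) (w : Fin (k + 1) ⊕ Fin (k + 1) → ZMod 2)
    (hw : quadFormPlus (k + 1) (ZMod 2) w = 0) : ¬ IsMinus k (phi (k + 1) w) := by
  rintro ⟨g2, hg2⟩
  obtain ⟨g1, hg1⟩ := (isPlus_phi_iff (k + 1) w).mpr hw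
  have h1 : quadFormPlus (k + 1) (ZMod 2) (w0 k) = 0 := by
    apply quad_eq_zero_of_equiv (quadFormPlus (k + 1) (ZMod 2)) (polarPlus (k + 1))
      (quadFormPlus_add _) (polarPlus_add_left _) (polarPlus_nondeg _) ⟨0⟩ (w0 k)
      (((hEquiv k).trans g2.symm).trans g1).toEquiv
    intro v
    show phi (k + 1) (w0 k) v = quadFormPlus (k + 1) (ZMod 2) (g1 (g2.symm (hEquiv k v)))
    rw [← hg1, hg2, LinearEquiv.apply_symm_apply, phi_w0]
  rw [quad_w0] at h1
  exact one_ne_zero h1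

theorem main (k : ℕ) :
    Nat.card {q : (Fin (k + 1) ⊕ Fin (k + 1) → ZMod 2) → ZMod 2 // HQ (k + 1) q} =
      2 ^ (2 * (k + 1)) ∧
    (∀ q : (Fin (k + 1) ⊕ Fin (k + 1) → ZMod 2) → ZMod 2, HQ (k + 1) q →
      IsPlus (k + 1) q ∨ IsMinus k q) ∧
    Nat.card {q : (Fin (k + 1) ⊕ Fin (k + 1) → ZMod 2) → ZMod 2 //
      HQ (k + 1) q ∧ IsPlus (k + 1) q} = 2 ^ (2 * k + 1) + 2 ^ k ∧
    Nat.card {q : (Fin (k + 1) ⊕ Fin (k + 1) → ZMod 2) → ZMod 2 //
      HQ (k + 1) q ∧ IsMinus k q} = 2 ^ (2 * k + 1) - 2 ^ k := by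
  refine ⟨?_, ?_, ?_, ?_⟩
  · have hbij : Function.Bijective (fun w : Fin (k + 1) ⊕ Fin (k + 1) → ZMod 2 =>
        (⟨phi (k + 1) w, phi_hq (k + 1) w⟩ :
          {q : (Fin (k + 1) ⊕ Fin (k + 1) → ZMod 2) → ZMod 2 // HQ (k + 1) q})) := by
      constructor
      · intro w w' h
        exact phi_injective (k + 1) (congrArg Subtype.val h)
      · rintro ⟨q, hq⟩
        obtain ⟨w, rfl⟩ := phi_surjective (k + 1) q hq
        exact ⟨w, rfl⟩
    rw [← Nat.card_congr (Equiv.ofBijective _ hbij), Nat.card_eq_fintype_card, card_plus_space]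
  · intro q hq
    obtain ⟨w, rfl⟩ := phi_surjective (k + 1) q hq
    rcases zmod2_cases (quadFormPlus (k + 1) (ZMod 2) w) with h | h
    · exact Or.inl ((isPlus_phi_iff (k + 1) w).mpr h)
    · exact Or.inr (isMinus_phi_of k w h)
  · have hbij : Function.Bijective
        (fun w : {w : Fin (k + 1) ⊕ Fin (k + 1) → ZMod 2 // quadFormPlus (k + 1) (ZMod 2) w = 0} =>
        (⟨phi (k + 1) w.1, phi_hq (k + 1) w.1, (isPlus_phi_iff (k + 1) w.1).mpr w.2⟩ :
          {q : (Fin (k + 1) ⊕ Fin (k + 1) → ZMod 2) → ZMod 2 //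
            HQ (k + 1) q ∧ IsPlus (k + 1) q})) := by
      constructor
      · intro w w' h
        exact Subtype.ext (phi_injective (k + 1) (congrArg Subtype.val h))
      · rintro ⟨q, hq, hp⟩
        obtain ⟨w, rfl⟩ := phi_surjective (k + 1) q hq
        exact ⟨⟨w, (isPlus_phi_iff (k + 1) w).mp hp⟩, rfl⟩
    rw [← Nat.card_congr (Equiv.ofBijective _ hbij), card_zeros]
  · have hbij : Function.Bijective
        (fun w : {w : Fin (k + 1) ⊕ Fin (k + 1) → ZMod 2 //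
          ¬ quadFormPlus (k + 1) (ZMod 2) w = 0} =>
        (⟨phi (k + 1) w.1, phi_hq (k + 1) w.1,
          isMinus_phi_of k w.1 ((zmod2_cases _).resolve_left w.2)⟩ :
          {q : (Fin (k + 1) ⊕ Fin (k + 1) → ZMod 2) → ZMod 2 //
            HQ (k + 1) q ∧ IsMinus k q})) := by
      constructor
      · intro w w' h
        exact Subtype.ext (phi_injective (k + 1) (congrArg Subtype.val h))
      · rintro ⟨q, hq, hp⟩
        obtain ⟨w, rfl⟩ := phi_surjective (k + 1) q hq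
        exact ⟨⟨w, fun h0 => not_isMinus_phi k w h0 hp⟩, rfl⟩
    rw [← Nat.card_congr (Equiv.ofBijective _ hbij), card_nonzeros]

/-- Fix the non-singular alternating form on the 2m-dimensional space over the field of two elements obtained by polarizing the plus-type form Σ xᵢyᵢ (m ≥ 1). The functions q on the space with q(u + v) = q(u) + q(v) + f(u, v) (the quadratic forms polarizing to f) number 2^(2m); each is equivalent under an invertible linear map either to the plus-type form or to the minus-type form Σ xᵢyᵢ + (z₁² + z₁z₂ + z₂²); and those of plus type number 2^(2m−1) + 2^(m−1), those of minus type 2^(2m−1) − 2^(m−1). -/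
theorem result (m : ℕ) (hm : 1 ≤ m) :
    Nat.card {q : (Fin m ⊕ Fin m → ZMod 2) → ZMod 2 // (∀ u v : (Fin m ⊕ Fin m → ZMod 2), q (u + v) = q u + q v + (Cfsg.quadFormPlus m (ZMod 2) (u + v) - Cfsg.quadFormPlus m (ZMod 2) u - Cfsg.quadFormPlus m (ZMod 2) v))} = 2 ^ (2 * m) ∧
    (∀ q : (Fin m ⊕ Fin m → ZMod 2) → ZMod 2, (∀ u v : (Fin m ⊕ Fin m → ZMod 2), q (u + v) = q u + q v + (Cfsg.quadFormPlus m (ZMod 2) (u + v) - Cfsg.quadFormPlus m (ZMod 2) u - Cfsg.quadFormPlus m (ZMod 2) v)) →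
      (∃ g : (Fin m ⊕ Fin m → ZMod 2) ≃ₗ[ZMod 2] (Fin m ⊕ Fin m → ZMod 2), ∀ v, q v = Cfsg.quadFormPlus m (ZMod 2) (g v)) ∨
      (∃ g : (Fin m ⊕ Fin m → ZMod 2) ≃ₗ[ZMod 2] ((Fin (m - 1) ⊕ Fin (m - 1)) ⊕ Fin 2 → ZMod 2), ∀ v, q v = Cfsg.quadFormMinus (m - 1) (ZMod 2) 1 1 (g v))) ∧
    Nat.card {q : (Fin m ⊕ Fin m → ZMod 2) → ZMod 2 // (∀ u v : (Fin m ⊕ Fin m → ZMod 2), q (u + v) = q u + q v + (Cfsg.quadFormPlus m (ZMod 2) (u + v) - Cfsg.quadFormPlus m (ZMod 2) u - Cfsg.quadFormPlus m (ZMod 2) v)) ∧ ∃ g : (Fin m ⊕ Fin m → ZMod 2) ≃ₗ[ZMod 2] (Fin m ⊕ Fin m → ZMod 2), ∀ v, q v = Cfsg.quadFormPlus m (ZMod 2) (g v)} = 2 ^ (2 * m - 1) + 2 ^ (m - 1) ∧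
    Nat.card {q : (Fin m ⊕ Fin m → ZMod 2) → ZMod 2 // (∀ u v : (Fin m ⊕ Fin m → ZMod 2), q (u + v) = q u + q v + (Cfsg.quadFormPlus m (ZMod 2) (u + v) - Cfsg.quadFormPlus m (ZMod 2) u - Cfsg.quadFormPlus m (ZMod 2) v)) ∧ ∃ g : (Fin m ⊕ Fin m → ZMod 2) ≃ₗ[ZMod 2] ((Fin (m - 1) ⊕ Fin (m - 1)) ⊕ Fin 2 → ZMod 2), ∀ v, q v = Cfsg.quadFormMinus (m - 1) (ZMod 2) 1 1 (g v)} = 2 ^ (2 * m - 1) - 2 ^ (m - 1) := by
  obtain ⟨k, rfl⟩ : ∃ k, m = k + 1 := ⟨m - 1, by omega⟩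
  exact main k

end Cfsg.Agent.S2561
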