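import Cfsg.Statements.S2562
import Cfsg.Agent.Lib.Helper43.F2PlusMinus

set_option autoImplicit false
open Cfsg

namespace Cfsg.Agent.S2562

/-- Witt indices over the field of two elements, m ≥ 1: for the plus-type form Σ xᵢyᵢ in dimension 2m some m-dimensional subspace is totally singular and no totally singular subspace has larger dimension; for the minus-type form Σ xᵢyᵢ + (z₁² + z₁z₂ + z₂²) in dimension 2m the maximal dimension of a totally singular subspace is m − 1. -/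
theorem result (m : ℕ) (hm : 1 ≤ m) :
    (∃ U : Submodule (ZMod 2) (Fin m ⊕ Fin m → ZMod 2), (∀ u ∈ U, Cfsg.quadFormPlus m (ZMod 2) u = 0) ∧ Module.finrank (ZMod 2) ↥U = m) ∧
    (∀ U : Submodule (ZMod 2) (Fin m ⊕ Fin m → ZMod 2), (∀ u ∈ U, Cfsg.quadFormPlus m (ZMod 2) u = 0) → Module.finrank (ZMod 2) ↥U ≤ m) ∧
    (∃ U : Submodule (ZMod 2) ((Fin (m - 1) ⊕ Fin (m - 1)) ⊕ Fin 2 → ZMod 2), (∀ u ∈ U, Cfsg.quadFormMinus (m - 1) (ZMod 2) 1 1 u = 0) ∧ Module.finrank (ZMod 2) ↥U = m - 1) ∧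
    (∀ U : Submodule (ZMod 2) ((Fin (m - 1) ⊕ Fin (m - 1)) ⊕ Fin 2 → ZMod 2), (∀ u ∈ U, Cfsg.quadFormMinus (m - 1) (ZMod 2) 1 1 u = 0) → Module.finrank (ZMod 2) ↥U ≤ m - 1) := by
  refine ⟨⟨Cfsg.Agent.Lib.Helper43.F2PlusMinus.plusSing m,
      Cfsg.Agent.Lib.Helper43.F2PlusMinus.plusSing_singular m,
      Cfsg.Agent.Lib.Helper43.F2PlusMinus.finrank_plusSing m⟩,
    Cfsg.Agent.Lib.Helper43.F2PlusMinus.plus_bound m,
    ⟨Cfsg.Agent.Lib.Helper43.F2PlusMinus.minusSing (m - 1),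
      Cfsg.Agent.Lib.Helper43.F2PlusMinus.minusSing_singular (m - 1),
      Cfsg.Agent.Lib.Helper43.F2PlusMinus.finrank_minusSing (m - 1)⟩,
    Cfsg.Agent.Lib.Helper43.F2PlusMinus.minus_bound (m - 1)⟩

end Cfsg.Agent.S2562
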