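import Cfsg.Statements.S2564
import Cfsg.Agent.Lib.Helper43.F2Quad

set_option autoImplicit false
open Cfsg

namespace Cfsg.Agent.S2564

/-- On the 2m-dimensional space over the field of two elements (m ≥ 1) let f be the alternating form obtained by polarizing the plus-type form Σ xᵢyᵢ, and let q be any quadratic form polarizing to f. For a vector w, the function q + f(·, w) again polarizes to f, and it is equivalent to q under an invertible linear map (that is, has the same type) if and only if q(w) = 0. -/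
theorem result (m : ℕ) (hm : 1 ≤ m) (q : (Fin m ⊕ Fin m → ZMod 2) → ZMod 2) (hq : (∀ u v : (Fin m ⊕ Fin m → ZMod 2), q (u + v) = q u + q v + (Cfsg.quadFormPlus m (ZMod 2) (u + v) - Cfsg.quadFormPlus m (ZMod 2) u - Cfsg.quadFormPlus m (ZMod 2) v))) (w : (Fin m ⊕ Fin m → ZMod 2)) :
    (∀ u v : (Fin m ⊕ Fin m → ZMod 2), (q (u + v) + (Cfsg.quadFormPlus m (ZMod 2) (u + v + w) - Cfsg.quadFormPlus m (ZMod 2) (u + v) - Cfsg.quadFormPlus m (ZMod 2) w)) =
        (q u + (Cfsg.quadFormPlus m (ZMod 2) (u + w) - Cfsg.quadFormPlus m (ZMod 2) u - Cfsg.quadFormPlus m (ZMod 2) w)) + (q v + (Cfsg.quadFormPlus m (ZMod 2) (v + w) - Cfsg.quadFormPlus m (ZMod 2) v - Cfsg.quadFormPlus m (ZMod 2) w)) +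
        (Cfsg.quadFormPlus m (ZMod 2) (u + v) - Cfsg.quadFormPlus m (ZMod 2) u - Cfsg.quadFormPlus m (ZMod 2) v)) ∧
    ((∃ g : (Fin m ⊕ Fin m → ZMod 2) ≃ₗ[ZMod 2] (Fin m ⊕ Fin m → ZMod 2), ∀ v, q v + (Cfsg.quadFormPlus m (ZMod 2) (v + w) - Cfsg.quadFormPlus m (ZMod 2) v - Cfsg.quadFormPlus m (ZMod 2) w) = q (g v)) ↔ q w = 0) := by
  have hq' : ∀ u v, q (u + v) = q u + q v + Cfsg.Agent.Lib.Helper43.F2Quad.polarPlus m u v := hq
  have hadd := Cfsg.Agent.Lib.Helper43.F2Quad.polarPlus_add_left m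
  refine ⟨?_, ?_⟩
  · intro u v
    have h1 := hadd u v w
    show q (u + v) + Cfsg.Agent.Lib.Helper43.F2Quad.polarPlus m (u + v) w =
      (q u + Cfsg.Agent.Lib.Helper43.F2Quad.polarPlus m u w) +
      (q v + Cfsg.Agent.Lib.Helper43.F2Quad.polarPlus m v w) +
      Cfsg.Agent.Lib.Helper43.F2Quad.polarPlus m u v
    rw [hq' u v, h1]
    ring
  · constructor
    · rintro ⟨g, hg⟩
      exact Cfsg.Agent.Lib.Helper43.F2Quad.quad_eq_zero_of_equiv q
        (Cfsg.Agent.Lib.Helper43.F2Quad.polarPlus m) hq' hadd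
        (Cfsg.Agent.Lib.Helper43.F2Quad.polarPlus_nondeg m) ⟨0⟩ w g.toEquiv hg
    · intro hw
      exact Cfsg.Agent.Lib.Helper43.F2Quad.exists_equiv_of_quad_eq_zero q
        (Cfsg.Agent.Lib.Helper43.F2Quad.polarPlus m) hq' hadd w hw

end Cfsg.Agent.S2564
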