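import Cfsg.Statements.S2566

set_option autoImplicit false
open Cfsg

namespace Cfsg.Agent.S2566

open Matrix

abbrev I := Fin 2 ⊕ Fin 2
abbrev V := I → ZMod 2
abbrev M := Matrix I I (ZMod 2)
abbrev Q : V → ZMod 2 := Cfsg.quadFormPlus 2 (ZMod 2)
abbrev O := ↥(Cfsg.isometryGroup (ZMod 2) (Cfsg.quadFormPlus 2 (ZMod 2)))

/-- The three nonzero vectors of `F_2^2`. -/
def vec : Fin 3 → Fin 2 → ZMod 2 := ![![1,0],![0,1],![1,1]]

/-- `GL_2(2)` as the symmetric group on the three nonzero vectors. -/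
def m2 (σ : Equiv.Perm (Fin 3)) : Matrix (Fin 2) (Fin 2) (ZMod 2) :=
  fun i j => vec (σ (Fin.castSucc j)) i

def J : Matrix (Fin 2) (Fin 2) (ZMod 2) := !![0,1;1,0]

def mB (σ : Equiv.Perm (Fin 3)) : M := Matrix.fromBlocks (m2 σ) 0 0 (J * m2 σ * J)

def mA (σ : Equiv.Perm (Fin 3)) : M :=
  Matrix.fromBlocks (m2 σ 0 0 • 1) (m2 σ 0 1 • J) (m2 σ 1 0 • J) (m2 σ 1 1 • 1)

def mT : M := Matrix.fromBlocks !![1,0;0,0] !![0,0;0,1] !![0,0;0,1] !![1,0;0,0]

def vec4 (a b c d : ZMod 2) : V := Sum.elim ![a, b] ![c, d]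

theorem vec4_eta (u : V) : u = vec4 (u (.inl 0)) (u (.inl 1)) (u (.inr 0)) (u (.inr 1)) := by
  funext i
  rcases i with i | i <;> fin_cases i <;> rfl

theorem mA_mul : ∀ σ τ : Equiv.Perm (Fin 3), mA (σ * τ) = mA σ * mA τ := by decide
theorem mB_mul : ∀ σ τ : Equiv.Perm (Fin 3), mB (σ * τ) = mB σ * mB τ := by decide
theorem mA_one : mA 1 = 1 := by decide
theorem mB_one : mB 1 = 1 := by decide
theorem mT_sq : mT * mT = 1 := by decide
theorem mAB_comm : ∀ σ τ : Equiv.Perm (Fin 3), mA σ * mB τ = mB τ * mA σ := by decide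
theorem mT_conj : ∀ σ : Equiv.Perm (Fin 3), mT * mA σ = mB σ * mT := by decide
theorem mA_iso : ∀ σ : Equiv.Perm (Fin 3), ∀ a b c d : ZMod 2,
    Q (mA σ *ᵥ vec4 a b c d) = Q (vec4 a b c d) := by decide
theorem mB_iso : ∀ σ : Equiv.Perm (Fin 3), ∀ a b c d : ZMod 2,
    Q (mB σ *ᵥ vec4 a b c d) = Q (vec4 a b c d) := by decide
theorem mT_iso : ∀ a b c d : ZMod 2,
    Q (mT *ᵥ vec4 a b c d) = Q (vec4 a b c d) := by decide
theorem mAB_one : ∀ σ τ : Equiv.Perm (Fin 3), mA σ * mB τ = 1 → σ = 1 ∧ τ = 1 := by decide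
theorem mAB_eq : ∀ σ τ : Equiv.Perm (Fin 3), mA σ = mB τ → σ = 1 := by decide
theorem mAB_ne_T : ∀ σ τ : Equiv.Perm (Fin 3), mA σ * mB τ ≠ mT := by decide


/-! ### Group elements -/

def gA (σ : Equiv.Perm (Fin 3)) : GL I (ZMod 2) :=
  ⟨mA σ, mA σ⁻¹, by rw [← mA_mul, mul_inv_cancel, mA_one], by rw [← mA_mul, inv_mul_cancel, mA_one]⟩

def gB (σ : Equiv.Perm (Fin 3)) : GL I (ZMod 2) :=
  ⟨mB σ, mB σ⁻¹, by rw [← mB_mul, mul_inv_cancel, mB_one], by rw [← mB_mul, inv_mul_cancel, mB_one]⟩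

def gT0 : GL I (ZMod 2) := ⟨mT, mT, mT_sq, mT_sq⟩

theorem gA_mem (σ : Equiv.Perm (Fin 3)) :
    gA σ ∈ Cfsg.isometryGroup (ZMod 2) (Cfsg.quadFormPlus 2 (ZMod 2)) := by
  intro u _
  show Q (mA σ *ᵥ u) = Q u
  rw [vec4_eta u]; exact mA_iso σ _ _ _ _

theorem gB_mem (σ : Equiv.Perm (Fin 3)) :
    gB σ ∈ Cfsg.isometryGroup (ZMod 2) (Cfsg.quadFormPlus 2 (ZMod 2)) := by
  intro u _
  show Q (mB σ *ᵥ u) = Q u
  rw [vec4_eta u]; exact mB_iso σ _ _ _ _

theorem gT0_mem : gT0 ∈ Cfsg.isometryGroup (ZMod 2) (Cfsg.quadFormPlus 2 (ZMod 2)) := by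
  intro u _
  show Q (mT *ᵥ u) = Q u
  rw [vec4_eta u]; exact mT_iso _ _ _ _

def φA : Equiv.Perm (Fin 3) →* O where
  toFun σ := ⟨gA σ, gA_mem σ⟩
  map_one' := Subtype.ext (Units.ext mA_one)
  map_mul' σ τ := Subtype.ext (Units.ext (mA_mul σ τ))

def φB : Equiv.Perm (Fin 3) →* O where
  toFun σ := ⟨gB σ, gB_mem σ⟩
  map_one' := Subtype.ext (Units.ext mB_one)
  map_mul' σ τ := Subtype.ext (Units.ext (mB_mul σ τ))

def gT : O := ⟨gT0, gT0_mem⟩

/-- The matrix of an element of `O`. -/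
def mat (g : O) : M := ((g : GL I (ZMod 2)) : M)

theorem mat_mul (g h : O) : mat (g * h) = mat g * mat h := rfl
theorem mat_one : mat (1 : O) = 1 := rfl
theorem mat_inj {g h : O} (e : mat g = mat h) : g = h := Subtype.ext (Units.ext e)
theorem mat_φA (σ : Equiv.Perm (Fin 3)) : mat (φA σ) = mA σ := rfl
theorem mat_φB (σ : Equiv.Perm (Fin 3)) : mat (φB σ) = mB σ := rfl
theorem mat_gT : mat gT = mT := rfl
theorem mat_iso (g : O) (u : V) : Q (mat g *ᵥ u) = Q u := g.2 u 0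

theorem φAB_comm (σ τ : Equiv.Perm (Fin 3)) : φA σ * φB τ = φB τ * φA σ :=
  mat_inj (mAB_comm σ τ)


/-! ### The upper bound: every isometry is one of 72 explicit ones -/

def e1 : V := vec4 1 0 0 0
def e2 : V := vec4 0 1 0 0
def e3 : V := vec4 0 0 1 0
def e4 : V := vec4 0 0 0 1

def s0 : Fin 3 → Equiv.Perm (Fin 3) := ![1, Equiv.swap 0 1, Equiv.swap 0 2]
def s1 : Fin 2 → Equiv.Perm (Fin 3) := ![1, Equiv.swap 1 2]

def act (g : O) (u : V) : V := mat g *ᵥ u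

theorem act_mul (g h : O) (u : V) : act (g * h) u = act g (act h u) := by
  unfold act; rw [mat_mul, Matrix.mulVec_mulVec]

theorem act_one (u : V) : act 1 u = u := by
  unfold act; rw [mat_one, Matrix.one_mulVec]

theorem act_inv {g : O} {u w : V} (h : act g u = w) : act g⁻¹ w = u := by
  rw [← h, ← act_mul, inv_mul_cancel, act_one]

theorem act_add (g : O) (u w : V) : act g (u + w) = act g u + act g w := by
  unfold act; rw [Matrix.mulVec_add]

theorem act_Q (g : O) (u : V) : Q (act g u) = Q u := mat_iso g u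

theorem act_ne_zero (g : O) {u : V} (hu : u ≠ 0) : act g u ≠ 0 := by
  intro h
  apply hu
  have := act_inv h
  rw [← this]
  unfold act; rw [Matrix.mulVec_zero]

theorem e1_eq : e1 = Pi.single (Sum.inl 0) 1 := by decide
theorem e2_eq : e2 = Pi.single (Sum.inl 1) 1 := by decide
theorem e3_eq : e3 = Pi.single (Sum.inr 0) 1 := by decide
theorem e4_eq : e4 = Pi.single (Sum.inr 1) 1 := by decide

theorem eq_one_of_fix {g : O} (h1 : act g e1 = e1) (h2 : act g e2 = e2) (h3 : act g e3 = e3)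
    (h4 : act g e4 = e4) : g = 1 := by
  apply mat_inj
  rw [mat_one]
  have key : ∀ j : I, mat g *ᵥ Pi.single j 1 = Pi.single j 1 := by
    intro j
    rcases j with j | j <;> fin_cases j
    · rw [e1_eq] at h1; exact h1
    · rw [e2_eq] at h2; exact h2
    · rw [e3_eq] at h3; exact h3
    · rw [e4_eq] at h4; exact h4
  ext i j
  have := congrFun (key j) i
  rw [Matrix.mulVec_single_one] at this
  rw [Matrix.one_apply]
  simpa [Pi.single_apply] using this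

theorem L0 : ∀ a b c d : ZMod 2, Q (vec4 a b c d) = 0 → vec4 a b c d ≠ 0 →
    ∃ i j : Fin 3, (mA (s0 i) * mB (s0 j)) *ᵥ e1 = vec4 a b c d := by decide

theorem L1 : ∀ a b c d : ZMod 2, Q (vec4 a b c d) = 0 → Q (e1 + vec4 a b c d) = 1 →
    ∃ i j : Fin 2, (mA (s1 i) * mB (s1 j)) *ᵥ e3 = vec4 a b c d := by decide

theorem L1fix : ∀ i j : Fin 2, (mA (s1 i) * mB (s1 j)) *ᵥ e1 = e1 := by decide

theorem L2 : ∀ a b c d : ZMod 2, Q (vec4 a b c d) = 0 → Q (e1 + vec4 a b c d) = 0 →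
    Q (e3 + vec4 a b c d) = 0 → vec4 a b c d ≠ 0 → vec4 a b c d = e2 ∨ vec4 a b c d = e4 := by
  decide

theorem L3 : ∀ a b c d : ZMod 2, Q (vec4 a b c d) = 0 → Q (e1 + vec4 a b c d) = 0 →
    Q (e3 + vec4 a b c d) = 0 → Q (e2 + vec4 a b c d) = 1 → vec4 a b c d = e4 := by
  decide

theorem L0' (v : V) (h1 : Q v = 0) (h2 : v ≠ 0) :
    ∃ i j : Fin 3, (mA (s0 i) * mB (s0 j)) *ᵥ e1 = v := by
  rw [vec4_eta v] at h1 h2 ⊢; exact L0 _ _ _ _ h1 h2

theorem L1' (v : V) (h1 : Q v = 0) (h2 : Q (e1 + v) = 1) :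
    ∃ i j : Fin 2, (mA (s1 i) * mB (s1 j)) *ᵥ e3 = v := by
  rw [vec4_eta v] at h1 h2 ⊢; exact L1 _ _ _ _ h1 h2

theorem L2' (v : V) (h1 : Q v = 0) (h2 : Q (e1 + v) = 0) (h3 : Q (e3 + v) = 0) (h4 : v ≠ 0) :
    v = e2 ∨ v = e4 := by
  rw [vec4_eta v] at h1 h2 h3 h4 ⊢; exact L2 _ _ _ _ h1 h2 h3 h4

theorem L3' (v : V) (h1 : Q v = 0) (h2 : Q (e1 + v) = 0) (h3 : Q (e3 + v) = 0)
    (h4 : Q (e2 + v) = 1) : v = e4 := by
  rw [vec4_eta v] at h1 h2 h3 h4 ⊢; exact L3 _ _ _ _ h1 h2 h3 h4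

theorem Qe1 : Q e1 = 0 := by decide
theorem Qe2 : Q e2 = 0 := by decide
theorem Qe3 : Q e3 = 0 := by decide
theorem Qe4 : Q e4 = 0 := by decide
theorem Qe13 : Q (e1 + e3) = 1 := by decide
theorem Qe12 : Q (e1 + e2) = 0 := by decide
theorem Qe32 : Q (e3 + e2) = 0 := by decide
theorem Qe14 : Q (e1 + e4) = 0 := by decide
theorem Qe34 : Q (e3 + e4) = 0 := by decide
theorem Qe24 : Q (e2 + e4) = 1 := by decide
theorem e1_ne : e1 ≠ 0 := by decide
theorem e2_ne : e2 ≠ 0 := by decide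
theorem T1 : mT *ᵥ e1 = e1 := by decide
theorem T3 : mT *ᵥ e3 = e3 := by decide
theorem T2 : mT *ᵥ e2 = e4 := by decide

theorem surj (g : O) : ∃ (i j : Fin 3) (i' j' ε : Fin 2),
    g = φA (s0 i) * φB (s0 j) * (φA (s1 i') * φB (s1 j')) * gT ^ (ε : ℕ) := by
  -- level 0
  obtain ⟨i, j, hij⟩ := L0' (act g e1) (by rw [act_Q, Qe1]) (act_ne_zero g e1_ne)
  have hk0 : act (φA (s0 i) * φB (s0 j)) e1 = act g e1 := hij
  have hg1 : act ((φA (s0 i) * φB (s0 j))⁻¹ * g) e1 = e1 := by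
    rw [act_mul]; exact act_inv hk0
  generalize hg1def : (φA (s0 i) * φB (s0 j))⁻¹ * g = g1 at hg1
  -- level 1
  obtain ⟨i', j', hij'⟩ := L1' (act g1 e3) (by rw [act_Q, Qe3])
    (by rw [← hg1, ← act_add, act_Q, Qe13])
  have hk1 : act (φA (s1 i') * φB (s1 j')) e3 = act g1 e3 := hij'
  have hk1' : act (φA (s1 i') * φB (s1 j')) e1 = e1 := L1fix i' j'
  have hg2 : act ((φA (s1 i') * φB (s1 j'))⁻¹ * g1) e1 = e1 := by
    rw [act_mul, hg1]; exact act_inv hk1'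
  have hg2' : act ((φA (s1 i') * φB (s1 j'))⁻¹ * g1) e3 = e3 := by
    rw [act_mul]; exact act_inv hk1
  generalize hg2def : (φA (s1 i') * φB (s1 j'))⁻¹ * g1 = g2 at hg2 hg2'
  -- level 2
  have h2 := L2' (act g2 e2) (by rw [act_Q, Qe2])
    (by rw [← hg2, ← act_add, act_Q, Qe12])
    (by rw [← hg2', ← act_add, act_Q, Qe32]) (act_ne_zero g2 e2_ne)
  have hT1 : act gT e1 = e1 := T1
  have hT3 : act gT e3 = e3 := T3
  have hT2 : act gT e2 = e4 := T2
  have h3 : ∃ ε : Fin 2, act ((gT ^ (ε : ℕ))⁻¹ * g2) e1 = e1 ∧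
      act ((gT ^ (ε : ℕ))⁻¹ * g2) e3 = e3 ∧ act ((gT ^ (ε : ℕ))⁻¹ * g2) e2 = e2 := by
    rcases h2 with h | h
    · refine ⟨0, ?_, ?_, ?_⟩ <;> simp [hg2, hg2', h]
    · refine ⟨1, ?_, ?_, ?_⟩
      · simp only [Fin.val_one, pow_one]
        rw [act_mul, hg2]; exact act_inv hT1
      · simp only [Fin.val_one, pow_one]
        rw [act_mul, hg2']; exact act_inv hT3
      · simp only [Fin.val_one, pow_one]
        rw [act_mul, h]; exact act_inv hT2
  obtain ⟨ε, hε1, hε3, hε2⟩ := h3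
  generalize hg3def : (gT ^ (ε : ℕ))⁻¹ * g2 = g3 at hε1 hε3 hε2
  -- level 3
  have h4 : act g3 e4 = e4 := L3' (act g3 e4) (by rw [act_Q, Qe4])
    (by rw [← hε1, ← act_add, act_Q, Qe14])
    (by rw [← hε3, ← act_add, act_Q, Qe34])
    (by rw [← hε2, ← act_add, act_Q, Qe24])
  have hone : g3 = 1 := eq_one_of_fix hε1 hε2 hε3 h4
  refine ⟨i, j, i', j', ε, ?_⟩
  rw [hone] at hg3def
  have e2' : g2 = gT ^ (ε : ℕ) := by
    rw [inv_mul_eq_one] at hg3def; exact hg3def.symm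
  have e1' : g1 = φA (s1 i') * φB (s1 j') * gT ^ (ε : ℕ) := by
    rw [← e2', ← hg2def, mul_inv_cancel_left]
  rw [mul_assoc, ← e1', ← hg1def, mul_inv_cancel_left]


theorem card_le : Nat.card O ≤ 72 := by
  have hs : Function.Surjective (fun t : Fin 3 × Fin 3 × Fin 2 × Fin 2 × Fin 2 =>
      φA (s0 t.1) * φB (s0 t.2.1) * (φA (s1 t.2.2.1) * φB (s1 t.2.2.2.1)) *
        gT ^ (t.2.2.2.2 : ℕ)) := by
    intro g
    obtain ⟨i, j, i', j', ε, h⟩ := surj g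
    exact ⟨(i, j, i', j', ε), h.symm⟩
  have h := Nat.card_le_card_of_surjective _ hs
  have h72 : Nat.card (Fin 3 × Fin 3 × Fin 2 × Fin 2 × Fin 2) = 72 := by
    rw [Nat.card_eq_fintype_card]; rfl
  rw [h72] at h
  exact h

/-! ### The structure -/

def ψ : Equiv.Perm (Fin 3) × Equiv.Perm (Fin 3) →* O :=
  MonoidHom.noncommCoprod φA φB (fun σ τ => φAB_comm σ τ)

theorem ψ_apply (σ τ : Equiv.Perm (Fin 3)) : ψ (σ, τ) = φA σ * φB τ := rfl

theorem ψ_inj : Function.Injective ψ := by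
  rw [injective_iff_map_eq_one]
  rintro ⟨σ, τ⟩ h
  have h' : mA σ * mB τ = 1 := congrArg mat h
  obtain ⟨h1, h2⟩ := mAB_one σ τ h'
  rw [h1, h2]; rfl

theorem ψ_range : ψ.range = φA.range ⊔ φB.range := MonoidHom.noncommCoprod_range _ _ _

theorem card_AB : Nat.card ↥(φA.range ⊔ φB.range) = 36 := by
  rw [← ψ_range, ← Nat.card_congr (MonoidHom.ofInjective ψ_inj).toEquiv,
    Nat.card_eq_fintype_card, Fintype.card_prod, Fintype.card_perm, Fintype.card_fin]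
  rfl

theorem gT_not_mem : gT ∉ φA.range ⊔ φB.range := by
  rw [← ψ_range]
  rintro ⟨⟨σ, τ⟩, h⟩
  exact mAB_ne_T σ τ (congrArg mat h)

theorem φA_inj : Function.Injective φA := by
  rw [injective_iff_map_eq_one]
  intro σ h
  have h' : mA σ * mB 1 = 1 := by
    rw [mB_one, mul_one]; exact congrArg mat h
  exact (mAB_one σ 1 h').1

theorem φB_inj : Function.Injective φB := by
  rw [injective_iff_map_eq_one]
  intro τ h
  have h' : mA 1 * mB τ = 1 := by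
    rw [mA_one, one_mul]; exact congrArg mat h
  exact (mAB_one 1 τ h').2

theorem conj_eq (σ : Equiv.Perm (Fin 3)) : gT * φA σ * gT⁻¹ = φB σ := by
  rw [mul_inv_eq_iff_eq_mul]
  exact mat_inj (mT_conj σ)

/-- The full orthogonal group of the plus-type form x₁y₁ + x₂y₂ in dimension 4 over the field of two elements has order 72 and is isomorphic to the wreath product of the symmetric group of degree 3 by a group of order 2: it has a normal subgroup isomorphic to the direct product of two symmetric groups of degree 3, of index 2, whose two direct factors are interchanged by conjugation by some element. -/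
theorem result :
    Nat.card ↥(Cfsg.isometryGroup (ZMod 2) (Cfsg.quadFormPlus 2 (ZMod 2))) = 72 ∧
    ∃ (A B : Subgroup ↥(Cfsg.isometryGroup (ZMod 2) (Cfsg.quadFormPlus 2 (ZMod 2)))),
      Nonempty (↥A ≃* Equiv.Perm (Fin 3)) ∧ Nonempty (↥B ≃* Equiv.Perm (Fin 3)) ∧ A ⊓ B = ⊥ ∧ (∀ a ∈ A, ∀ b ∈ B, a * b = b * a) ∧
      (A ⊔ B).index = 2 ∧ ∃ g : ↥(Cfsg.isometryGroup (ZMod 2) (Cfsg.quadFormPlus 2 (ZMod 2))), A.map (MulAut.conj g).toMonoidHom = B := by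
  have hAB := card_AB
  have hidx : (φA.range ⊔ φB.range).index = 2 ∧ Nat.card O = 72 := by
    have hmul := Subgroup.card_mul_index (φA.range ⊔ φB.range)
    rw [hAB] at hmul
    have hle := card_le
    have hne1 : (φA.range ⊔ φB.range).index ≠ 1 := by
      intro h
      rw [Subgroup.index_eq_one] at h
      exact gT_not_mem (h ▸ Subgroup.mem_top _)
    have hne0 : (φA.range ⊔ φB.range).index ≠ 0 := Subgroup.index_ne_zero_of_finite
    constructor <;> omega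
  refine ⟨hidx.2, φA.range, φB.range, ⟨(MonoidHom.ofInjective φA_inj).symm⟩,
    ⟨(MonoidHom.ofInjective φB_inj).symm⟩, ?_, ?_, hidx.1, gT, ?_⟩
  · rw [eq_bot_iff]
    rintro x ⟨⟨σ, hσ⟩, ⟨τ, hτ⟩⟩
    have h : mA σ = mB τ := congrArg mat (hσ.trans hτ.symm)
    have h1 := mAB_eq σ τ h
    rw [Subgroup.mem_bot, ← hσ, h1, map_one]
  · rintro a ⟨σ, rfl⟩ b ⟨τ, rfl⟩
    exact φAB_comm σ τ
  · ext x
    constructor
    · rintro ⟨a, ⟨σ, rfl⟩, rfl⟩
      exact ⟨σ, (conj_eq σ).symm⟩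
    · rintro ⟨σ, rfl⟩
      exact ⟨φA σ, ⟨σ, rfl⟩, conj_eq σ⟩

end Cfsg.Agent.S2566
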