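import Cfsg.Statements.S2567

set_option autoImplicit false
open Cfsg

namespace Cfsg.Agent.S2567

theorem eq_one_of_pow {G : Type*} [Group G] (z : G) (r N : ℕ) (hco : Nat.Coprime r N)
    (h1 : z ^ r = 1) (h2 : z ^ N = 1) : z = 1 := by
  have h3 : orderOf z ∣ r := orderOf_dvd_of_pow_eq_one h1
  have h4 : orderOf z ∣ N := orderOf_dvd_of_pow_eq_one h2
  have h5 : orderOf z ∣ 1 := by
    have := Nat.dvd_gcd h3 h4
    rwa [hco] at this
  exact orderOf_eq_one_iff.mp (Nat.dvd_one.mp h5)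

theorem exists_root {G : Type*} [Group G] (z : G) (r N : ℕ) (hco : Nat.Coprime r N)
    (h2 : z ^ N = 1) : ∃ k : ℤ, (z ^ k) ^ r = z := by
  refine ⟨Nat.gcdA r N, ?_⟩
  have h := Nat.gcd_eq_gcd_ab r N
  rw [hco] at h
  have h3 : z ^ ((r : ℤ) * Nat.gcdA r N + (N : ℤ) * Nat.gcdB r N) = z := by
    rw [← h]
    simp
  rw [zpow_add, zpow_mul, zpow_mul, zpow_natCast, zpow_natCast, h2, one_zpow, mul_one] at h3
  rw [← zpow_natCast, ← zpow_mul, mul_comm, zpow_mul, zpow_natCast]
  exact h3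

theorem abstract {G : Type*} [Group G] (r N : ℕ) (hr : r.Prime) (hco : Nat.Coprime r N)
    (hZ : ∀ z ∈ Subgroup.center G, z ^ N = 1)
    (x : G ⧸ Subgroup.center G) (hx : orderOf x = r) :
    ∃! g : G, (QuotientGroup.mk g : G ⧸ Subgroup.center G) = x ∧ orderOf g = r := by
  have : Fact r.Prime := ⟨hr⟩
  obtain ⟨g0, rfl⟩ := QuotientGroup.mk_surjective x
  have hx1 : (QuotientGroup.mk g0 : G ⧸ Subgroup.center G) ≠ 1 := by
    intro h
    rw [h, orderOf_one] at hx
    exact hr.one_lt.ne hx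
  have hg0r : g0 ^ r ∈ Subgroup.center G := by
    rw [← QuotientGroup.eq_one_iff, QuotientGroup.mk_pow, ← hx, pow_orderOf_eq_one]
  obtain ⟨k, hk⟩ := exists_root (g0 ^ r) r N hco (hZ _ hg0r)
  set w := (g0 ^ r) ^ k with hw
  have hwZ : w ∈ Subgroup.center G := Subgroup.zpow_mem _ hg0r k
  have hcomm : Commute g0 w⁻¹ := by
    have := Subgroup.mem_center_iff.mp (Subgroup.inv_mem _ hwZ) g0
    exact this
  refine ⟨g0 * w⁻¹, ⟨?_, ?_⟩, ?_⟩
  · rw [QuotientGroup.mk_mul, (QuotientGroup.eq_one_iff _).mpr (Subgroup.inv_mem _ hwZ), mul_one]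
  · apply orderOf_eq_prime
    · rw [hcomm.mul_pow, inv_pow, hk, mul_inv_cancel]
    · intro h
      apply hx1
      rw [QuotientGroup.eq_one_iff]
      have : g0 = w := by
        rw [mul_inv_eq_one] at h
        exact h
      rw [this]
      exact hwZ
  · rintro g' ⟨hg'1, hg'2⟩
    have hz : (g0 * w⁻¹)⁻¹ * g' ∈ Subgroup.center G := by
      rw [← QuotientGroup.eq_one_iff, QuotientGroup.mk_mul, QuotientGroup.mk_inv, hg'1,
        QuotientGroup.mk_mul, (QuotientGroup.eq_one_iff _).mpr (Subgroup.inv_mem _ hwZ), mul_one,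
        inv_mul_cancel]
    set z := (g0 * w⁻¹)⁻¹ * g' with hzdef
    have hg' : g' = (g0 * w⁻¹) * z := by
      rw [hzdef, mul_inv_cancel_left]
    have hcz : Commute (g0 * w⁻¹) z := by
      have := Subgroup.mem_center_iff.mp hz (g0 * w⁻¹)
      exact this
    have hgr : (g0 * w⁻¹) ^ r = 1 := by
      rw [hcomm.mul_pow, inv_pow, hk, mul_inv_cancel]
    have hzr : z ^ r = 1 := by
      have h1 : g' ^ r = 1 := by rw [← hg'2, pow_orderOf_eq_one]
      rw [hg', hcz.mul_pow, hgr, one_mul] at h1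
      exact h1
    have hz1 : z = 1 := eq_one_of_pow z r N hco hzr (hZ z hz)
    rw [hg', hz1, mul_one]

/-- Lifting elements of prime order from PGL to GL: let F be a finite field with q elements, r a prime not dividing q − 1, and x an element of order r in GL_n(F) modulo its centre (the scalar matrices). Then x has exactly one preimage in GL_n(F) of order r. -/
theorem result {F : Type*} [Field F] [Fintype F] {q n r : ℕ} (hF : Fintype.card F = q) (hr : r.Prime) (hdiv : ¬ r ∣ q - 1) (x : GL (Fin n) F ⧸ Subgroup.center (GL (Fin n) F)) (hx : orderOf x = r) : ∃! g : GL (Fin n) F, (QuotientGroup.mk g : GL (Fin n) F ⧸ Subgroup.center (GL (Fin n) F)) = x ∧ orderOf g = r := by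
  classical
  apply abstract r (q - 1) hr ((Nat.Prime.coprime_iff_not_dvd hr).mpr hdiv) _ x hx
  intro z hz
  rw [Matrix.GeneralLinearGroup.center_eq_range_scalar] at hz
  obtain ⟨a, rfl⟩ := hz
  rw [← map_pow]
  have h1 : a ^ (q - 1) = 1 := by
    rw [← hF, ← Fintype.card_units]
    exact pow_card_eq_one
  rw [h1, map_one]

end Cfsg.Agent.S2567
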