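import Cfsg.Statements.S2569
-- import your own Cfsg.Agent.* helpers here

set_option autoImplicit false
open Cfsg
open Polynomial

namespace Cfsg.Agent.S2569

/-- For a semisimple endomorphism of finite order prime to the characteristic on a nonzero finite
space over a finite field, the determinant is surjective on its commutant. -/
theorem exists_commute_det {F : Type*} [Field F] [Finite F] {n : ℕ} (hn : 0 < n)
    (φ : Module.End F (Fin n → F)) (m : ℕ) (hm : (m : F) ≠ 0) (hφ : φ ^ m = 1) (lam : F) :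
    ∃ c : Module.End F (Fin n → F), c * φ = φ * c ∧ LinearMap.det c = lam := by
  classical
  have hss : φ.IsSemisimple := by
    apply Module.End.isSemisimple_of_squarefree_aeval_eq_zero (p := X ^ m - C 1)
    · exact (Polynomial.separable_X_pow_sub_C (1:F) hm one_ne_zero).squarefree
    · simp [hφ]
  have : IsSemisimpleModule F[X] (Module.AEval' φ) := hss
  have : Nonempty (Fin n) := ⟨⟨0, hn⟩⟩
  have : Nontrivial (Module.AEval' φ) := (Module.AEval'.of φ).symm.toEquiv.nontrivial
  have : Finite (Module.AEval' φ) := Finite.of_equiv _ (Module.AEval'.of φ).toEquiv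
  obtain ⟨S, hS⟩ := IsSemisimpleModule.exists_simple_submodule F[X] (Module.AEval' φ)
  obtain ⟨S', hS'⟩ := exists_isCompl S
  obtain ⟨I, hI, ⟨e⟩⟩ := isSimpleModule_iff_quot_maximal.1 hS
  let _ : Field (F[X] ⧸ I) := Ideal.Quotient.field I
  have : Finite (F[X] ⧸ I) := Finite.of_equiv _ e.toEquiv
  obtain ⟨k, hk⟩ := FiniteField.norm_surjective F (F[X] ⧸ I) lam
  let Ψ : Module.AEval' φ ≃ₗ[F[X]] (F[X] ⧸ I) × S' :=
    (Submodule.prodEquivOfIsCompl S S' hS').symm ≪≫ₗ (e.prodCongr (LinearEquiv.refl F[X] S'))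
  let ΨF : (Fin n → F) ≃ₗ[F] (F[X] ⧸ I) × S' := (Module.AEval'.of φ) ≪≫ₗ (Ψ.restrictScalars F)
  let d : Module.End F ((F[X] ⧸ I) × S') := (LinearMap.mulLeft F k).prodMap LinearMap.id
  have h1 : ∀ v, ΨF (φ v) = (X : F[X]) • ΨF v := by
    intro v
    show Ψ (Module.AEval'.of φ (φ v)) = (X : F[X]) • Ψ (Module.AEval'.of φ v)
    rw [← Module.AEval'.X_smul_of, map_smul]
  have h2 : ∀ y, d ((X : F[X]) • y) = (X : F[X]) • d y := by
    rintro ⟨a, s⟩
    show (k * ((X : F[X]) • a), (X : F[X]) • s) = ((X : F[X]) • (k * a), (X : F[X]) • s)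
    rw [mul_smul_comm]
  have h3 : ∀ y, ΨF.symm ((X : F[X]) • y) = φ (ΨF.symm y) := by
    intro y
    show (Module.AEval'.of φ).symm (Ψ.symm ((X : F[X]) • y)) = φ ((Module.AEval'.of φ).symm (Ψ.symm y))
    rw [map_smul, Module.AEval'.of_symm_X_smul]
  refine ⟨ΨF.symm.toLinearMap ∘ₗ d ∘ₗ ΨF.toLinearMap, ?_, ?_⟩
  · refine LinearMap.ext fun v => ?_
    show ΨF.symm (d (ΨF (φ v))) = φ (ΨF.symm (d (ΨF v)))
    rw [h1, h2, h3]
  · have h4 := LinearMap.det_conj (A := F) (M := (F[X] ⧸ I) × S') (N := Fin n → F) d ΨF.symm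
    rw [LinearEquiv.symm_symm] at h4
    rw [h4]
    have : Module.Free F S' := Module.Free.of_divisionRing F S'
    have : Module.Finite F S' := Module.Finite.of_finite
    have : Module.Free F (F[X] ⧸ I) := Module.Free.of_divisionRing F (F[X] ⧸ I)
    have : Module.Finite F (F[X] ⧸ I) := Module.Finite.of_finite
    have h5 := LinearMap.det_prodMap (R := F) (M := F[X] ⧸ I) (M' := S') (LinearMap.mulLeft F k)
      LinearMap.id
    refine h5.trans ?_
    rw [LinearMap.det_id, mul_one, ← hk]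
    rfl

/-- In GL_n over a finite field of characteristic p, the conjugacy class of a semisimple element (an element of order prime to p) under the special linear group is its whole GL-conjugacy class: for every such x and every invertible g there is h of determinant one with h x h⁻¹ = g x g⁻¹. -/
theorem result {F : Type*} [Field F] [Fintype F] {p : ℕ} [Fact p.Prime] [CharP F p] {n : ℕ} (x g : GL (Fin n) F) (hx : (orderOf x).Coprime p) : ∃ h : GL (Fin n) F, (h : Matrix (Fin n) (Fin n) F).det = 1 ∧ h * x * h⁻¹ = g * x * g⁻¹ := by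
  classical
  rcases Nat.eq_zero_or_pos n with hn | hn
  · subst hn
    exact ⟨g, Matrix.det_isEmpty, rfl⟩
  set m := orderOf x with hm
  have hmF : (m : F) ≠ 0 := by
    rw [Ne, CharP.cast_eq_zero_iff F p]
    intro hdvd
    have h1 : p = 1 := Nat.Coprime.eq_one_of_dvd hx.symm hdvd
    exact (Fact.out : p.Prime).one_lt.ne' h1
  have hxm : x ^ m = 1 := pow_orderOf_eq_one x
  have hxm' : (x : Matrix (Fin n) (Fin n) F) ^ m = 1 := by
    have h1 := congrArg (fun y : GL (Fin n) F => (y : Matrix (Fin n) (Fin n) F)) hxm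
    simpa using h1
  let φ : Module.End F (Fin n → F) := Matrix.toLinAlgEquiv' (x : Matrix (Fin n) (Fin n) F)
  have hφ : φ ^ m = 1 := by
    show (Matrix.toLinAlgEquiv' (x : Matrix (Fin n) (Fin n) F)) ^ m = 1
    rw [← map_pow, hxm', map_one]
  have hdet : (g : Matrix (Fin n) (Fin n) F).det ≠ 0 := by
    have h1 := (Matrix.isUnit_iff_isUnit_det _).1 g.isUnit
    exact h1.ne_zero
  obtain ⟨c, hc, hcd⟩ := exists_commute_det hn φ m hmF hφ (g : Matrix (Fin n) (Fin n) F).det
  let C : Matrix (Fin n) (Fin n) F := LinearMap.toMatrixAlgEquiv' c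
  have hC : C.det = (g : Matrix (Fin n) (Fin n) F).det := by
    rw [← hcd]
    exact LinearMap.det_toMatrix' c
  have hCx : C * (x : Matrix (Fin n) (Fin n) F) = (x : Matrix (Fin n) (Fin n) F) * C := by
    have h1 := congrArg LinearMap.toMatrixAlgEquiv' hc
    rw [map_mul, map_mul] at h1
    have h2 : LinearMap.toMatrixAlgEquiv' φ = (x : Matrix (Fin n) (Fin n) F) :=
      LinearMap.toMatrixAlgEquiv'_toLinAlgEquiv' _
    rw [h2] at h1
    exact h1
  let cG : GL (Fin n) F := Matrix.GeneralLinearGroup.mkOfDetNeZero C (by rw [hC]; exact hdet)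
  have hcG : (cG : Matrix (Fin n) (Fin n) F) = C := rfl
  have hcomm : cG * x = x * cG := by
    apply Units.ext
    show (cG : Matrix (Fin n) (Fin n) F) * (x : Matrix (Fin n) (Fin n) F) =
      (x : Matrix (Fin n) (Fin n) F) * (cG : Matrix (Fin n) (Fin n) F)
    rw [hcG, hCx]
  refine ⟨g * cG⁻¹, ?_, ?_⟩
  · have h1 : (g * cG⁻¹) * cG = g := by group
    have h2 := congrArg (fun y : GL (Fin n) F => (y : Matrix (Fin n) (Fin n) F).det) h1
    have h3 : ((g * cG⁻¹ * cG : GL (Fin n) F) : Matrix (Fin n) (Fin n) F).det =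
        ((g * cG⁻¹ : GL (Fin n) F) : Matrix (Fin n) (Fin n) F).det * C.det := by
      rw [Units.val_mul, Matrix.det_mul, hcG]
    have h4 : ((g * cG⁻¹ : GL (Fin n) F) : Matrix (Fin n) (Fin n) F).det * C.det =
        (g : Matrix (Fin n) (Fin n) F).det := h3.symm.trans h2
    rw [hC] at h4
    exact mul_right_cancel₀ hdet (by rw [h4, one_mul])
  · have h1 : cG⁻¹ * x * cG = x := by rw [mul_assoc, ← hcomm, inv_mul_cancel_left]
    have h2 : g * cG⁻¹ * x * (g * cG⁻¹)⁻¹ = g * (cG⁻¹ * x * cG) * g⁻¹ := by group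
    rw [h2, h1]

end Cfsg.Agent.S2569
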