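import Cfsg.Statements.S2570
-- import your own Cfsg.Agent.* helpers here
import Cfsg.Agent.Lib.Helper95.NilJordan

set_option autoImplicit false
open Cfsg

namespace Cfsg.Agent.S2570

theorem order_p_iff {F : Type*} [Field F] (p : ℕ) [Fact p.Prime] [CharP F p] (n : ℕ)
    (g : Matrix.GeneralLinearGroup (Fin n) F) :
    orderOf g = p ↔ ((g : Matrix (Fin n) (Fin n) F) - 1) ^ p = 0 ∧
      ¬ ((g : Matrix (Fin n) (Fin n) F) - 1) ^ 1 = 0 := by
  rcases Nat.eq_zero_or_pos n with rfl | hn
  · have hg : g = 1 := Units.ext (Subsingleton.elim _ _)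
    subst hg
    constructor
    · intro h
      rw [orderOf_one] at h
      exact absurd h.symm (Fact.out : p.Prime).one_lt.ne'
    · rintro ⟨_, h⟩
      exact absurd (Subsingleton.elim _ _) h
  · have : Nonempty (Fin n) := ⟨⟨0, hn⟩⟩
    have : CharP (Matrix (Fin n) (Fin n) F) p := inferInstance
    have key : ((g : Matrix (Fin n) (Fin n) F) - 1) ^ p =
        ((g ^ p : Matrix.GeneralLinearGroup (Fin n) F) : Matrix (Fin n) (Fin n) F) - 1 := by
      rw [sub_pow_char_of_commute p (Commute.one_right _), one_pow, Units.val_pow_eq_pow_val]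
    rw [orderOf_eq_prime_iff, key, pow_one, sub_eq_zero, sub_eq_zero]
    constructor
    · rintro ⟨h1, h2⟩
      refine ⟨by rw [h1]; rfl, fun h => h2 (Units.ext h)⟩
    · rintro ⟨h1, h2⟩
      refine ⟨Units.ext h1, fun h => h2 (by rw [h]; rfl)⟩

/-- the partition into ones -/
def ones (n : ℕ) : Nat.Partition n where
  parts := Multiset.replicate n 1
  parts_pos := by
    intro a ha
    rw [Multiset.eq_of_mem_replicate ha]
    exact Nat.one_pos
  parts_sum := by simp

theorem le_one_iff (n : ℕ) (μ : Nat.Partition n) : (∀ a ∈ μ.parts, a ≤ 1) ↔ μ = ones n := by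
  constructor
  · intro h
    have h1 : ∀ b ∈ μ.parts, b = 1 := fun b hb => le_antisymm (h b hb) (μ.parts_pos hb)
    have h2 := Multiset.eq_replicate_card.mpr h1
    have h3 : Multiset.card μ.parts = n := by
      have := μ.parts_sum
      rw [h2] at this
      simpa using this
    rw [h3] at h2
    exact Nat.Partition.ext h2
  · rintro rfl a ha
    exact (Multiset.eq_of_mem_replicate ha).le


/-- Number of conjugacy classes of elements of order p in GL_n over a finite field of characteristic p: they correspond to the Jordan types, that is, to the partitions of n with all parts at most p other than the partition into ones, so there are (number of partitions of n with parts ≤ p) − 1 of them. -/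
theorem result {F : Type*} [Field F] [Fintype F] {p : ℕ} [Fact p.Prime] [CharP F p] (n : ℕ) : Nat.card {C : ConjClasses (GL (Fin n) F) // ∃ g : GL (Fin n) F, ConjClasses.mk g = C ∧ orderOf g = p} = (Finset.univ.filter (fun μ : Nat.Partition n => ∀ a ∈ μ.parts, a ≤ p)).card - 1 := by
  classical
  obtain ⟨gfun, h1, h2, h3, h4⟩ := Cfsg.Agent.Lib.Helper95.NilJordan.main_GL F n
  have hord : ∀ lam : Nat.Partition n, orderOf (gfun lam) = p ↔
      ((∀ a ∈ lam.parts, a ≤ p) ∧ lam ≠ ones n) := by
    intro lam
    rw [order_p_iff p n, h4, h4, le_one_iff]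
  have hcount : (Finset.univ.filter (fun μ : Nat.Partition n => ∀ a ∈ μ.parts, a ≤ p)).card - 1 =
      Nat.card {lam : Nat.Partition n // (∀ a ∈ lam.parts, a ≤ p) ∧ lam ≠ ones n} := by
    rw [Nat.card_eq_fintype_card, Fintype.card_subtype, ← Finset.card_erase_of_mem (a := ones n)]
    · congr 1
      ext μ
      simp only [Finset.mem_erase, Finset.mem_filter, Finset.mem_univ, true_and]
      tauto
    · simp only [Finset.mem_filter, Finset.mem_univ, true_and]
      intro a ha
      rw [Multiset.eq_of_mem_replicate ha]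
      exact (Fact.out : p.Prime).one_lt.le
  rw [hcount]
  symm
  refine Nat.card_congr (Equiv.ofBijective
    (fun lam => ⟨ConjClasses.mk (gfun lam.1), gfun lam.1, rfl, (hord lam.1).mpr lam.2⟩)
    ⟨?_, ?_⟩)
  · intro lam mu h
    have h' := congrArg Subtype.val h
    exact Subtype.ext (h2 lam.1 mu.1 (ConjClasses.mk_eq_mk_iff_isConj.mp h'))
  · rintro ⟨C, g, rfl, hg⟩
    have hnil : IsNilpotent ((g : Matrix (Fin n) (Fin n) F) - 1) :=
      ⟨p, ((order_p_iff p n g).mp hg).1⟩
    obtain ⟨lam, hl⟩ := h3 g hnil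
    have hl' := hl
    obtain ⟨c, hc⟩ := hl'
    have ho : orderOf (gfun lam) = p := by rw [SemiconjBy.orderOf_eq _ hc]; exact hg
    exact ⟨⟨lam, (hord lam).mp ho⟩, Subtype.ext (ConjClasses.mk_eq_mk_iff_isConj.mpr hl)⟩

end Cfsg.Agent.S2570
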