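import Cfsg.Statements.S2571
import Cfsg.Agent.Lib.Helper43.RegNilpComm

set_option autoImplicit false
open Cfsg

namespace Cfsg.Agent.S2571

theorem card_ne_zero_first {F : Type*} [Field F] [Fintype F] (k : ℕ) (hk : 0 < k) :
    Nat.card {a : Fin k → F // a ⟨0, hk⟩ ≠ 0} = (Fintype.card F - 1) * Fintype.card F ^ (k - 1) := by
  classical
  obtain ⟨k, rfl⟩ : ∃ k', k = k' + 1 := ⟨k - 1, by omega⟩
  have e : {a : Fin (k + 1) → F // a ⟨0, hk⟩ ≠ 0} ≃ {x : F // x ≠ 0} × (Fin k → F) :=
    { toFun := fun a => (⟨a.1 ⟨0, hk⟩, a.2⟩, fun i => a.1 i.succ)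
      invFun := fun p => ⟨Fin.cons p.1.1 p.2, by
        have h0 : (⟨0, hk⟩ : Fin (k + 1)) = 0 := rfl
        rw [h0, Fin.cons_zero]
        exact p.1.2⟩
      left_inv := by
        rintro ⟨a, ha⟩
        apply Subtype.ext
        funext i
        refine Fin.cases ?_ ?_ i
        · rfl
        · intro j; simp
      right_inv := by
        rintro ⟨⟨x, hx⟩, f⟩
        have h0 : (⟨0, hk⟩ : Fin (k + 1)) = 0 := rfl
        simp [h0] }
  rw [Nat.card_congr e, Nat.card_prod, Nat.card_eq_fintype_card, Nat.card_eq_fintype_card,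
    Fintype.card_subtype_compl, Fintype.card_subtype_eq, Fintype.card_pi_const]
  simp

/-- Centraliser of a regular unipotent element in GL_n(q): if u is an invertible n × n matrix over the field with q elements, n ≥ 1, with (u − 1)^n = 0 and rank(u − 1) = n − 1 (a single unipotent Jordan block), then its centraliser in GL_n(q) has order (q − 1) q^(n−1). -/
theorem result {F : Type*} [Field F] [Fintype F] {q n : ℕ} (hF : Fintype.card F = q) (hn : 1 ≤ n) (u : GL (Fin n) F) (hnil : ((u : Matrix (Fin n) (Fin n) F) - 1) ^ n = 0) (hreg : ((u : Matrix (Fin n) (Fin n) F) - 1).rank = n - 1) : Nat.card ↥(Subgroup.centralizer ({u} : Set (GL (Fin n) F))) = (q - 1) * q ^ (n - 1) := by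
  classical
  set N : Matrix (Fin n) (Fin n) F := (u : Matrix (Fin n) (Fin n) F) - 1 with hN
  have hcard : Fintype.card (Fin n) = n := Fintype.card_fin n
  have hpos : 0 < Fintype.card (Fin n) := by rw [hcard]; omega
  have hnil' : N ^ Fintype.card (Fin n) = 0 := by rw [hcard]; exact hnil
  have hreg' : N.rank = Fintype.card (Fin n) - 1 := by rw [hcard]; exact hreg
  have hmem : ∀ g : GL (Fin n) F, g ∈ Subgroup.centralizer ({u} : Set (GL (Fin n) F)) ↔
      Commute (g : Matrix (Fin n) (Fin n) F) N := by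
    intro g
    rw [Subgroup.mem_centralizer_iff]
    simp only [Set.mem_singleton_iff, forall_eq]
    constructor
    · intro h
      have h' : (u : Matrix (Fin n) (Fin n) F) * (g : Matrix (Fin n) (Fin n) F) =
          (g : Matrix (Fin n) (Fin n) F) * (u : Matrix (Fin n) (Fin n) F) := by
        have := congrArg (fun x : GL (Fin n) F => (x : Matrix (Fin n) (Fin n) F)) h
        simpa using this
      unfold Commute SemiconjBy
      rw [hN, mul_sub, sub_mul, h', mul_one, one_mul]
    · intro h
      apply Units.ext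
      unfold Commute SemiconjBy at h
      rw [hN, mul_sub, sub_mul, mul_one, one_mul] at h
      simp only [Units.val_mul]
      exact (sub_left_injective h).symm
  let e : {a : Fin (Fintype.card (Fin n)) → F // a ⟨0, hpos⟩ ≠ 0} →
      Subgroup.centralizer ({u} : Set (GL (Fin n) F)) :=
    fun a => ⟨((Cfsg.Agent.Lib.Helper43.RegNilpComm.isUnit_polyMat_iff N hnil' a.1 hpos).mpr a.2).unit, by
      rw [hmem]; exact Cfsg.Agent.Lib.Helper43.RegNilpComm.commute_polyMat N a.1⟩
  have he : Function.Bijective e := by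
    constructor
    · intro a b hab
      have h1 : Cfsg.Agent.Lib.Helper43.RegNilpComm.polyMat N a.1 =
          Cfsg.Agent.Lib.Helper43.RegNilpComm.polyMat N b.1 := by
        have := congrArg (fun x : Subgroup.centralizer ({u} : Set (GL (Fin n) F)) =>
          ((x : GL (Fin n) F) : Matrix (Fin n) (Fin n) F)) hab
        simpa [e] using this
      exact Subtype.ext (Cfsg.Agent.Lib.Helper43.RegNilpComm.polyMat_injective N hnil' hreg' hpos h1)
    · rintro ⟨g, hg⟩
      rw [hmem] at hg
      obtain ⟨a, ha⟩ := Cfsg.Agent.Lib.Helper43.RegNilpComm.exists_polyMat_of_commute N hnil' hreg' hpos _ hg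
      have ha0 : a ⟨0, hpos⟩ ≠ 0 := by
        rw [← Cfsg.Agent.Lib.Helper43.RegNilpComm.isUnit_polyMat_iff N hnil' a hpos, ← ha]
        exact g.isUnit
      refine ⟨⟨a, ha0⟩, ?_⟩
      apply Subtype.ext
      apply Units.ext
      simp [e, ha]
  rw [← Nat.card_congr (Equiv.ofBijective e he), card_ne_zero_first _ hpos, hF, hcard]

end Cfsg.Agent.S2571
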