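import Cfsg.Statements.S2574
import Cfsg.Agent.Lib.Helper43.RegNilpMat

set_option autoImplicit false
open Cfsg

namespace Cfsg.Agent.S2574

open Matrix in
theorem key {F : Type*} [Field F] {m : ℕ} (U U' : Matrix (Fin m ⊕ Fin m) (Fin m ⊕ Fin m) F)
    (hU : Uᵀ * Matrix.J (Fin m) F * U = Matrix.J (Fin m) F) (h1 : U * U' = 1) (h2 : U' * U = 1)
    (k : ℕ) :
    ((U - 1) ^ k)ᵀ * Matrix.J (Fin m) F = Matrix.J (Fin m) F * ((-U') ^ k * (U - 1) ^ k) := by
  have hUJ : Uᵀ * Matrix.J (Fin m) F = Matrix.J (Fin m) F * U' := by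
    calc Uᵀ * Matrix.J (Fin m) F = Uᵀ * Matrix.J (Fin m) F * (U * U') := by rw [h1, mul_one]
      _ = (Uᵀ * Matrix.J (Fin m) F * U) * U' := by simp only [Matrix.mul_assoc]
      _ = Matrix.J (Fin m) F * U' := by rw [hU]
  have hcomm : Commute (-U') (U - 1) := by
    unfold Commute SemiconjBy
    rw [neg_mul, mul_neg, mul_sub, sub_mul, h1, h2, mul_one, one_mul]
  have hstep : (U - 1)ᵀ * Matrix.J (Fin m) F = Matrix.J (Fin m) F * ((-U') * (U - 1)) := by
    rw [Matrix.transpose_sub, Matrix.transpose_one, sub_mul, one_mul, hUJ, neg_mul, mul_sub,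
      h2, mul_one, mul_neg, mul_sub, mul_one]
    abel
  rw [← hcomm.mul_pow, Matrix.transpose_pow]
  induction k with
  | zero => simp
  | succ k ih =>
    rw [pow_succ, Matrix.mul_assoc, hstep, ← Matrix.mul_assoc, ih, Matrix.mul_assoc, ← pow_succ]

/-- A regular unipotent element of the symplectic group has totally isotropic small invariant subspaces: over a finite field, if u ∈ Sp_2m(F) satisfies (u − 1)^(2m) = 0 and rank(u − 1) = 2m − 1, and W is a u-invariant subspace with 2 dim W ≤ 2m, then the alternating form vanishes identically on W. -/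
theorem result {F : Type*} [Field F] [Finite F] {m : ℕ} (u : Matrix.symplecticGroup (Fin m) F) (hnil : ((u : Matrix (Fin m ⊕ Fin m) (Fin m ⊕ Fin m) F) - 1) ^ (2 * m) = 0) (hreg : ((u : Matrix (Fin m ⊕ Fin m) (Fin m ⊕ Fin m) F) - 1).rank = 2 * m - 1) (W : Submodule F (Fin m ⊕ Fin m → F)) (hW : ∀ v ∈ W, (u : Matrix (Fin m ⊕ Fin m) (Fin m ⊕ Fin m) F).mulVec v ∈ W) (hdim : 2 * Module.finrank F W ≤ 2 * m) : ∀ v ∈ W, ∀ w ∈ W, Cfsg.sympForm m F v w = 0 := by
  classical
  set U : Matrix (Fin m ⊕ Fin m) (Fin m ⊕ Fin m) F := (u : Matrix (Fin m ⊕ Fin m) (Fin m ⊕ Fin m) F) with hUdef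
  set U' : Matrix (Fin m ⊕ Fin m) (Fin m ⊕ Fin m) F := ((u⁻¹ : Matrix.symplecticGroup (Fin m) F) : Matrix (Fin m ⊕ Fin m) (Fin m ⊕ Fin m) F) with hU'def
  have hcard : Fintype.card (Fin m ⊕ Fin m) = 2 * m := by simp; ring
  have h1 : U * U' = 1 := by
    have : ((u * u⁻¹ : Matrix.symplecticGroup (Fin m) F) : Matrix (Fin m ⊕ Fin m) (Fin m ⊕ Fin m) F) = 1 := by
      rw [mul_inv_cancel]; rfl
    exact this
  have h2 : U' * U = 1 := by
    have : ((u⁻¹ * u : Matrix.symplecticGroup (Fin m) F) : Matrix (Fin m ⊕ Fin m) (Fin m ⊕ Fin m) F) = 1 := by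
      rw [inv_mul_cancel]; rfl
    exact this
  have hU : U.transpose * Matrix.J (Fin m) F * U = Matrix.J (Fin m) F :=
    SymplecticGroup.mem_iff'.mp u.2
  have hnil' : (U - 1) ^ Fintype.card (Fin m ⊕ Fin m) = 0 := by rw [hcard]; exact hnil
  have hreg' : (U - 1).rank = Fintype.card (Fin m ⊕ Fin m) - 1 := by rw [hcard]; exact hreg
  have hWN : ∀ v ∈ W, (U - 1).mulVec v ∈ W := by
    intro v hv
    rw [Matrix.sub_mulVec, Matrix.one_mulVec]
    exact W.sub_mem (hW v hv) hv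
  set d := Module.finrank F W with hd
  have hWker : W = LinearMap.ker (Matrix.mulVecLin ((U - 1) ^ d)) :=
    Cfsg.Agent.Lib.Helper43.RegNilpMat.invariant_eq_ker (U - 1) hnil' hreg' W hWN
  have hdle : d ≤ Fintype.card (Fin m ⊕ Fin m) := by rw [hcard]; omega
  have hWrange : W = LinearMap.range (Matrix.mulVecLin ((U - 1) ^ (Fintype.card (Fin m ⊕ Fin m) - d))) := by
    rw [← Cfsg.Agent.Lib.Helper43.RegNilpMat.ker_pow_eq_range (U - 1) hnil' hreg' d hdle]
    exact hWker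
  set k := Fintype.card (Fin m ⊕ Fin m) - d with hk
  have hkd : d ≤ k := by rw [hk, hcard]; omega
  intro v hv w hw
  -- v = N^k a
  rw [hWrange] at hv
  obtain ⟨a, rfl⟩ := hv
  -- N^k w = 0
  have hw0 : ((U - 1) ^ k).mulVec w = 0 := by
    rw [hWker] at hw
    have hw' : ((U - 1) ^ d).mulVec w = 0 := hw
    have : (U - 1) ^ k = (U - 1) ^ (k - d) * (U - 1) ^ d := by
      rw [← pow_add, Nat.sub_add_cancel hkd]
    rw [this, ← Matrix.mulVec_mulVec, hw', Matrix.mulVec_zero]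
  unfold Cfsg.sympForm
  rw [Matrix.mulVecLin_apply, dotProduct_comm, Matrix.dotProduct_mulVec, ← Matrix.mulVec_transpose,
    Matrix.mulVec_mulVec, key U U' hU h1 h2 k, ← Matrix.mulVec_mulVec, ← Matrix.mulVec_mulVec, hw0]
  simp

end Cfsg.Agent.S2574
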