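import Cfsg.Statements.S2575
import Cfsg.Agent.Lib.Helper43.FinFieldPow

set_option autoImplicit false
open Cfsg

namespace Cfsg.Agent.S2575

open Cfsg.Agent.Lib.Helper43.FinFieldPow

theorem det_formula {F : Type*} [Field F] (c : F) (n i : ℕ) (hi : i ≤ n) :
    (c • Matrix.diagonal (fun j : Fin n => if (j : ℕ) < i then (-1 : F) else 1)).det =
      c ^ n * (-1) ^ i := by
  rw [Matrix.det_smul, Matrix.det_diagonal, Fintype.card_fin]
  congr 1
  rw [Fin.prod_univ_eq_prod_range (fun j => if j < i then (-1 : F) else 1) n, Finset.prod_ite,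
    Finset.prod_const_one, mul_one, Finset.prod_const]
  congr 1
  have h1 : Finset.filter (fun j => j < i) (Finset.range n) = Finset.range i := by
    ext j
    simp only [Finset.mem_filter, Finset.mem_range]
    omega
  rw [h1, Finset.card_range]

theorem exists_pow_eq_neg_one_iff {F : Type*} [Field F] [Fintype F]
    (hq : Odd (Fintype.card F)) (n : ℕ) (hn : 1 ≤ n) :
    (∃ c : F, c ≠ 0 ∧ c ^ n = -1) ↔ padicValNat 2 n < padicValNat 2 (Fintype.card F - 1) := by
  classical
  have hne : (-1 : F) ≠ 1 := neg_one_ne_one hq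
  have hN0 : Fintype.card F - 1 ≠ 0 := by
    have := Fintype.one_lt_card (α := F)
    omega
  have hn0 : n ≠ 0 := by omega
  obtain ⟨N', hN', hN'odd⟩ := odd_part (Fintype.card F - 1) hN0
  obtain ⟨n', hn', hn'odd⟩ := odd_part n hn0
  constructor
  · rintro ⟨c, hc0, hc⟩
    by_contra hcon
    rw [not_lt] at hcon
    obtain ⟨k, hk⟩ := Nat.exists_eq_add_of_le hcon
    have hcN : c ^ (Fintype.card F - 1) = 1 := FiniteField.pow_card_sub_one_eq_one c hc0
    have h3 : ((-1 : F)) ^ N' = 1 := by
      rw [← hc, ← pow_mul]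
      have e1 : n * N' = (Fintype.card F - 1) * (2 ^ k * n') := by
        conv_lhs => rw [hn', hk, pow_add]
        conv_rhs => rw [hN']
        ring
      rw [e1, pow_mul, hcN, one_pow]
    rw [hN'odd.neg_one_pow] at h3
    exact hne h3
  · intro hlt
    have hdvd : 2 ^ (padicValNat 2 n + 1) ∣ Fintype.card F - 1 :=
      (pow_dvd_pow 2 (by omega)).trans pow_padicValNat_dvd
    obtain ⟨ζ, hζ0, hζ⟩ := exists_orderOf_eq (F := F) _ hdvd
    have h1 := pow_half_order ζ (padicValNat 2 n + 1) (by omega) hζ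
    rw [Nat.add_sub_cancel] at h1
    refine ⟨ζ, hζ0, ?_⟩
    rw [hn', pow_mul, h1, hn'odd.neg_one_pow]

/-- Which diagonal involutions of PGL_n(q) lie in PSL_n(q), q odd: for the diagonal matrix t with i entries −1 and n − i entries 1, some non-zero scalar multiple of t has determinant one if and only if i is even or the 2-part of q − 1 exceeds the 2-part of n (that is, −1 is an n-th power in the field exactly in the latter case). -/
theorem result {F : Type*} [Field F] [Fintype F] {q : ℕ} (hF : Fintype.card F = q) (hq : Odd q) {n : ℕ} (hn : 1 ≤ n) (i : ℕ) (hi : i ≤ n) : (∃ c : F, c ≠ 0 ∧ (c • Matrix.diagonal (fun j : Fin n => if (j : ℕ) < i then (-1 : F) else 1)).det = 1) ↔ (Even i ∨ padicValNat 2 n < padicValNat 2 (q - 1)) := by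
  subst hF
  simp only [det_formula _ n i hi]
  rcases Nat.even_or_odd i with hi2 | hi2
  · simp only [hi2, true_or, iff_true]
    exact ⟨1, one_ne_zero, by rw [one_pow, hi2.neg_one_pow, mul_one]⟩
  · have hne : ¬ Even i := Nat.not_even_iff_odd.mpr hi2
    simp only [hne, false_or, hi2.neg_one_pow]
    rw [← exists_pow_eq_neg_one_iff hq n hn]
    constructor
    · rintro ⟨c, hc0, hc⟩
      exact ⟨c, hc0, by linear_combination -hc⟩
    · rintro ⟨c, hc0, hc⟩
      exact ⟨c, hc0, by rw [hc]; ring⟩

end Cfsg.Agent.S2575
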