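import Cfsg.Statements.S2576
import Cfsg.Agent.Lib.Helper43.FinFieldPow

set_option autoImplicit false
open Cfsg

namespace Cfsg.Agent.S2576

open Cfsg.Agent.Lib.Helper43.FinFieldPow

theorem det_formula {F : Type*} [Field F] (c μ : F) (m : ℕ) :
    (c • Matrix.blockDiagonal (fun _ : Fin m => !![(0 : F), 1; μ, 0])).det =
      c ^ (2 * m) * (-μ) ^ m := by
  rw [Matrix.det_smul, Matrix.det_blockDiagonal, Fintype.card_prod, Fintype.card_fin,
    Fintype.card_fin, Finset.prod_const, Finset.card_univ, Fintype.card_fin,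
    Matrix.det_fin_two_of]
  congr 2
  ring

theorem main {F : Type*} [Field F] [Fintype F] (hq : Odd (Fintype.card F)) {m : ℕ} (hm : 1 ≤ m)
    (μ : F) (hμ : orderOf μ = 2 ^ padicValNat 2 (Fintype.card F - 1)) :
    (∃ c : F, c ≠ 0 ∧ c ^ (2 * m) * (-μ) ^ m = 1) ↔
      (Fintype.card F % 4 = 3 ∨
        padicValNat 2 (Fintype.card F - 1) < padicValNat 2 (2 * m)) := by
  classical
  have hne : (-1 : F) ≠ 1 := neg_one_ne_one hq
  have hcard := Fintype.one_lt_card (α := F)
  have hN0 : Fintype.card F - 1 ≠ 0 := by omega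
  have hm0 : m ≠ 0 := by omega
  obtain ⟨N', hN', hN'odd⟩ := odd_part (Fintype.card F - 1) hN0
  obtain ⟨m', hm', hm'odd⟩ := odd_part m hm0
  have hv2m : padicValNat 2 (2 * m) = padicValNat 2 m + 1 := by
    rw [padicValNat.mul (by norm_num) hm0, padicValNat_self, add_comm]
  have ha1 : 1 ≤ padicValNat 2 (Fintype.card F - 1) := by
    apply one_le_padicValNat_of_dvd hN0
    rcases hq with ⟨k, hk⟩
    omega
  set a := padicValNat 2 (Fintype.card F - 1) with ha
  set b := padicValNat 2 m with hb
  constructor
  · rintro ⟨c, hc0, hc⟩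
    by_contra hcon
    rw [not_or, not_lt, hv2m] at hcon
    obtain ⟨hq4, hba⟩ := hcon
    obtain ⟨k, hk⟩ := Nat.exists_eq_add_of_le hba
    have ha2 : 2 ≤ a := by
      have h4 : 2 ^ 2 ∣ Fintype.card F - 1 := by
        rcases hq with ⟨k, hk⟩
        have : Fintype.card F % 4 = 1 := by omega
        norm_num
        omega
      exact (padicValNat_dvd_iff_le hN0).mp h4
    have hcN : c ^ (Fintype.card F - 1) = 1 := FiniteField.pow_card_sub_one_eq_one c hc0
    have h1 : (c ^ (2 * m)) ^ (2 ^ k * N') = 1 := by
      rw [← pow_mul]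
      have e1 : 2 * m * (2 ^ k * N') = (Fintype.card F - 1) * m' := by
        conv_lhs => rw [hm']
        conv_rhs => rw [hN', hk, pow_add, pow_add]
        ring
      rw [e1, pow_mul, hcN, one_pow]
    have h2 : (-μ) ^ (2 ^ (a - 1)) = -1 := by
      rw [neg_pow, pow_half_order μ a ha1 hμ]
      have he : Even (2 ^ (a - 1)) := by
        apply Nat.even_pow.mpr
        exact ⟨even_two, by omega⟩
      rw [he.neg_one_pow, one_mul]
    have h3 : ((-μ) ^ m) ^ (2 ^ k * N') = -1 := by
      rw [← pow_mul]
      have e2 : m * (2 ^ k * N') = 2 ^ (a - 1) * (m' * N') := by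
        conv_lhs => rw [hm']
        have e3 : a - 1 = b + k := by omega
        rw [e3, pow_add]
        ring
      rw [e2, pow_mul, h2, (hm'odd.mul hN'odd).neg_one_pow]
    have h4 := congrArg (fun t => t ^ (2 ^ k * N')) hc
    simp only [mul_pow, h1, h3, one_pow, one_mul] at h4
    exact hne h4
  · rintro (h | h)
    · have ha : a = 1 := by
        by_contra hne1
        have h4 : 2 ^ 2 ∣ Fintype.card F - 1 := (padicValNat_dvd_iff_le hN0).mpr (by omega)
        norm_num at h4
        omega
      have h1 := pow_half_order μ a ha1 hμ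
      rw [ha] at h1
      simp only [Nat.sub_self, pow_zero, pow_one] at h1
      refine ⟨1, one_ne_zero, ?_⟩
      rw [h1]
      simp
    · rw [hv2m] at h
      have hab : a ≤ b := by omega
      have h1 : 2 ^ a ∣ m := (pow_dvd_pow 2 hab).trans pow_padicValNat_dvd
      have h2 : μ ^ m = 1 := by
        rw [← orderOf_dvd_iff_pow_eq_one, hμ]
        exact h1
      have h3 : Even m := by
        have : 2 ∣ m := (dvd_pow_self 2 (by omega : a ≠ 0)).trans h1
        exact even_iff_two_dvd.mpr this
      refine ⟨1, one_ne_zero, ?_⟩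
      rw [neg_pow, h3.neg_one_pow, h2]
      simp

/-- Which involutions of PGL_2m(q) coming from a scalar of the quadratic extension field lie in PSL_2m(q), q odd: let μ generate the Sylow 2-subgroup of the multiplicative group of the field with q elements (μ has order the 2-part of q − 1) and let t be the block-diagonal matrix with m diagonal blocks [[0, 1], [μ, 0]] (so t² is the scalar μ and t is an involution modulo scalars). Then some non-zero scalar multiple of t has determinant one if and only if q ≡ 3 (mod 4) or the 2-part of q − 1 is less than the 2-part of 2m. -/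
theorem result {F : Type*} [Field F] [Fintype F] {q : ℕ} (hF : Fintype.card F = q) (hq : Odd q) {m : ℕ} (hm : 1 ≤ m) (μ : F) (hμ : orderOf μ = 2 ^ padicValNat 2 (q - 1)) : (∃ c : F, c ≠ 0 ∧ (c • Matrix.blockDiagonal (fun _ : Fin m => !![(0 : F), 1; μ, 0])).det = 1) ↔ (q % 4 = 3 ∨ padicValNat 2 (q - 1) < padicValNat 2 (2 * m)) := by
  subst hF
  simp only [det_formula]
  exact main hq hm μ hμ

end Cfsg.Agent.S2576
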