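import Cfsg.Statements.S2577
import Mathlib
import Cfsg.Agent.Lib.Helper40.PGLInv

set_option autoImplicit false
open Cfsg

namespace Cfsg.Agent.S2577
/-- Number of conjugacy classes of involutions in PGL_n(q) for q odd and n ≥ 2: there are ⌊n/2⌋ classes represented by diagonal matrices with i entries −1 (1 ≤ i ≤ n/2) and, when n is even, one more class represented by a block-diagonal matrix of 2 × 2 blocks [[0, 1], [μ, 0]] with μ a non-square (a matrix squaring to a scalar but having no eigenvalue in the field); in all ⌊n/2⌋ + 1 classes if n is even and ⌊n/2⌋ if n is odd. -/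
theorem result {F : Type*} [Field F] [Fintype F] {q : ℕ} (hF : Fintype.card F = q) (hq : Odd q) {n : ℕ} (hn : 2 ≤ n) : Nat.card {C : ConjClasses (GL (Fin n) F ⧸ Subgroup.center (GL (Fin n) F)) // ∃ g : GL (Fin n) F ⧸ Subgroup.center (GL (Fin n) F), ConjClasses.mk g = C ∧ orderOf g = 2} = n / 2 + (if Even n then 1 else 0) := by
  classical
  have hchar : ringChar F ≠ 2 := by
    intro h
    have h1 := FiniteField.even_card_iff_char_two.mp h
    rw [hF] at h1
    rcases hq with ⟨t, ht⟩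
    omega
  have h2 : (2 : F) ≠ 0 := Ring.two_ne_zero hchar
  obtain ⟨μ₀, hμ₀⟩ := FiniteField.exists_nonsquare hchar
  have hμ0 : μ₀ ≠ 0 := by
    rintro rfl
    exact hμ₀ ⟨0, by simp⟩
  obtain ⟨Bm, hBm⟩ : ∃ Bm : Matrix (Fin n) (Fin n) F,
      Even n → Bm * Bm = μ₀ • (1 : Matrix (Fin n) (Fin n) F) := by
    by_cases hev : Even n
    · obtain ⟨B, hB⟩ := Cfsg.Agent.Lib.Helper40.PGLInv.exists_sq_scalar n hev μ₀
      exact ⟨B, fun _ => hB⟩
    · exact ⟨0, fun h => absurd h hev⟩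
  obtain ⟨ε, hε⟩ : ∃ ε : ℕ, ε = if Even n then 1 else 0 := ⟨_, rfl⟩
  rw [← hε]
  have hεle : ε ≤ 1 := by
    rw [hε]
    split_ifs <;> omega
  have hεev : ∀ k : Fin (n / 2 + ε), ¬ ((k : ℕ) < n / 2) → Even n := by
    intro k hk
    by_contra hne
    rw [if_neg hne] at hε
    have := k.2
    omega
  have hrep : ∀ k : Fin (n / 2 + ε), ∃ γ : GL (Fin n) F, (γ : Matrix (Fin n) (Fin n) F) =
      if (k : ℕ) < n / 2 then Cfsg.Agent.Lib.Helper40.PGLInv.dg n (k + 1) 1 else Bm := by
    intro k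
    by_cases hk : (k : ℕ) < n / 2
    · rw [if_pos hk]
      exact ⟨⟨Cfsg.Agent.Lib.Helper40.PGLInv.dg n (k + 1) 1,
        Cfsg.Agent.Lib.Helper40.PGLInv.dg n (k + 1) 1,
        by rw [Cfsg.Agent.Lib.Helper40.PGLInv.dg_mul_self, one_mul, one_smul],
        by rw [Cfsg.Agent.Lib.Helper40.PGLInv.dg_mul_self, one_mul, one_smul]⟩, rfl⟩
    · rw [if_neg hk]
      have hev : Even n := hεev k hk
      exact ⟨⟨Bm, μ₀⁻¹ • Bm,
        by rw [Matrix.mul_smul, hBm hev, smul_smul, inv_mul_cancel₀ hμ0, one_smul],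
        by rw [Matrix.smul_mul, hBm hev, smul_smul, inv_mul_cancel₀ hμ0, one_smul]⟩, rfl⟩
  choose R hR using hrep
  have hord : ∀ k, orderOf ((R k : GL (Fin n) F) :
      GL (Fin n) F ⧸ Subgroup.center (GL (Fin n) F)) = 2 := by
    intro k
    rw [Cfsg.Agent.Lib.Helper40.PGLInv.order_two_iff (by omega), hR]
    by_cases hk : (k : ℕ) < n / 2
    · rw [if_pos hk]
      refine ⟨⟨1, one_ne_zero, by
        rw [Cfsg.Agent.Lib.Helper40.PGLInv.dg_mul_self, one_mul]⟩, ?_⟩
      intro c hc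
      have e0 := congrFun (congrFun hc ⟨0, by omega⟩) ⟨0, by omega⟩
      have e1 := congrFun (congrFun hc ⟨n - 1, by omega⟩) ⟨n - 1, by omega⟩
      simp only [Cfsg.Agent.Lib.Helper40.PGLInv.dg, Matrix.diagonal_apply_eq, Matrix.smul_apply,
        Matrix.one_apply_eq, smul_eq_mul, mul_one] at e0 e1
      rw [if_pos (by omega)] at e0
      rw [if_neg (by omega)] at e1
      exact Cfsg.Agent.Lib.Helper40.PGLInv.one_ne_neg_one h2 (e1.trans e0.symm)
    · rw [if_neg hk]
      have hev : Even n := hεev k hk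
      refine ⟨⟨μ₀, hμ0, hBm hev⟩, ?_⟩
      intro c hc
      apply hμ₀
      have h3 := hBm hev
      rw [hc, Matrix.smul_mul, Matrix.mul_smul, smul_smul, mul_one] at h3
      have e0 := congrFun (congrFun h3 ⟨0, by omega⟩) ⟨0, by omega⟩
      simp only [Matrix.smul_apply, Matrix.one_apply_eq, smul_eq_mul, mul_one] at e0
      exact ⟨c, e0.symm⟩
  obtain ⟨f, hf⟩ : ∃ f : Fin (n / 2 + ε) →
      {C : ConjClasses (GL (Fin n) F ⧸ Subgroup.center (GL (Fin n) F)) //
        ∃ g : GL (Fin n) F ⧸ Subgroup.center (GL (Fin n) F), ConjClasses.mk g = C ∧ orderOf g = 2},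
      ∀ k, (f k).1 = ConjClasses.mk ((R k : GL (Fin n) F) :
        GL (Fin n) F ⧸ Subgroup.center (GL (Fin n) F)) :=
    ⟨fun k => ⟨ConjClasses.mk ((R k : GL (Fin n) F) :
      GL (Fin n) F ⧸ Subgroup.center (GL (Fin n) F)), _, rfl, hord k⟩, fun k => rfl⟩
  have hbij : Function.Bijective f := by
    constructor
    · intro k k' hkk
      have h1 : ConjClasses.mk ((R k : GL (Fin n) F) :
          GL (Fin n) F ⧸ Subgroup.center (GL (Fin n) F)) = ConjClasses.mk ((R k' : GL (Fin n) F) :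
          GL (Fin n) F ⧸ Subgroup.center (GL (Fin n) F)) := by rw [← hf, ← hf, hkk]
      rw [Cfsg.Agent.Lib.Helper40.PGLInv.mk_eq_iff, hR, hR] at h1
      apply Fin.ext
      by_cases hk : (k : ℕ) < n / 2 <;> by_cases hk' : (k' : ℕ) < n / 2
      · rw [if_pos hk, if_pos hk'] at h1
        have h3 := Cfsg.Agent.Lib.Helper40.PGLInv.dg_inj h2 (by omega) (by omega) (by omega)
          (by omega) h1
        omega
      · rw [if_pos hk, if_neg hk'] at h1
        exact absurd h1 (Cfsg.Agent.Lib.Helper40.PGLInv.not_pc_dg_sq (by omega) μ₀ hμ₀ Bm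
          (hBm (hεev k' hk'))).1
      · rw [if_neg hk, if_pos hk'] at h1
        exact absurd h1 (Cfsg.Agent.Lib.Helper40.PGLInv.not_pc_dg_sq (by omega) μ₀ hμ₀ Bm
          (hBm (hεev k hk))).2
      · have := k.2
        have := k'.2
        omega
    · rintro ⟨C, g, hg, hgo⟩
      obtain ⟨γ, rfl⟩ := QuotientGroup.mk_surjective g
      obtain ⟨⟨l, hl, hγ⟩, hns⟩ :=
        (Cfsg.Agent.Lib.Helper40.PGLInv.order_two_iff (by omega) γ).mp hgo
      rcases Cfsg.Agent.Lib.Helper40.PGLInv.exists_rep h2 μ₀ hμ₀ Bm hBm γ.1 l hl hγ hns with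
        ⟨k, hk1, hk2, hpc⟩ | ⟨hev, hpc⟩
      · refine ⟨⟨k - 1, by omega⟩, ?_⟩
        apply Subtype.ext
        rw [hf]
        show _ = C
        rw [← hg]
        symm
        rw [Cfsg.Agent.Lib.Helper40.PGLInv.mk_eq_iff, hR, if_pos (show k - 1 < n / 2 by omega)]
        have h3 : k - 1 + 1 = k := by omega
        rw [h3]
        exact hpc
      · refine ⟨⟨n / 2, by rw [hε, if_pos hev]; omega⟩, ?_⟩
        apply Subtype.ext
        rw [hf]
        show _ = C
        rw [← hg]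
        symm
        rw [Cfsg.Agent.Lib.Helper40.PGLInv.mk_eq_iff, hR, if_neg (show ¬ (n / 2 < n / 2) by omega)]
        exact hpc
  rw [← Nat.card_eq_of_bijective f hbij, Nat.card_fin]

end Cfsg.Agent.S2577
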