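import Cfsg.Statements.S2578
import Cfsg.Agent.Lib.Helper43.RegUnip
import Cfsg.Agent.Lib.Helper43.Shift

set_option autoImplicit false
open Cfsg

namespace Cfsg.Agent.S2578

open Matrix Cfsg.Agent.Lib.Helper43.RegUnip Cfsg.Agent.Lib.Helper43.Shift

/-- regular unipotent elements of GL -/
def RegG {F : Type*} [Field F] {n : ℕ} (g : GL (Fin n) F) : Prop :=
  ((g : Matrix (Fin n) (Fin n) F) - 1) ^ n = 0 ∧ ((g : Matrix (Fin n) (Fin n) F) - 1).rank = n - 1

theorem exists_reg {F : Type*} [Field F] {n : ℕ} :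
    ∃ u : SpecialLinearGroup (Fin n) F, RegG (SpecialLinearGroup.toGL u) := by
  have hdet : (1 + shift F n).det = 1 := by
    have h := det_smul_one_add_of_isNilpotent (1 : F) (shift F n) ⟨n, shift_pow_card n⟩
    simpa using h
  refine ⟨⟨1 + shift F n, hdet⟩, ?_, ?_⟩
  · show ((1 + shift F n) - 1) ^ n = 0
    rw [add_sub_cancel_left]
    exact shift_pow_card n
  · show ((1 + shift F n) - 1).rank = n - 1
    rw [add_sub_cancel_left]
    exact shift_rank n

theorem exists_conj {F : Type*} [Field F] {n : ℕ} (hn : 0 < n) (g g' : GL (Fin n) F)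
    (hg : RegG g) (hg' : RegG g') : ∃ P : GL (Fin n) F, P * g = g' * P := by
  obtain ⟨P, hP, hPN⟩ := exists_conj_of_regular ((g : Matrix (Fin n) (Fin n) F) - 1)
    ((g' : Matrix (Fin n) (Fin n) F) - 1) (by simpa using hg.1) (by simpa using hg.2)
    (by simpa using hg'.1) (by simpa using hg'.2) (by simpa using hn)
  refine ⟨GeneralLinearGroup.mk'' P hP, ?_⟩
  apply Units.ext
  show P * (g : Matrix (Fin n) (Fin n) F) = (g' : Matrix (Fin n) (Fin n) F) * P
  rw [Matrix.mul_sub, Matrix.sub_mul, Matrix.mul_one, Matrix.one_mul] at hPN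
  exact sub_left_injective hPN

theorem det_of_commute {F : Type*} [Field F] {n : ℕ} (hn : 0 < n) (g c : GL (Fin n) F)
    (hg : RegG g) (hc : c * g = g * c) : ∃ a : Fˣ, GeneralLinearGroup.det c = a ^ n := by
  have hcomm : Commute (c : Matrix (Fin n) (Fin n) F) ((g : Matrix (Fin n) (Fin n) F) - 1) := by
    have h1 : (c : Matrix (Fin n) (Fin n) F) * (g : Matrix (Fin n) (Fin n) F) =
        (g : Matrix (Fin n) (Fin n) F) * (c : Matrix (Fin n) (Fin n) F) := by
      have h2 := congrArg Units.val hc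
      simpa using h2
    show (c : Matrix (Fin n) (Fin n) F) * ((g : Matrix (Fin n) (Fin n) F) - 1) =
      ((g : Matrix (Fin n) (Fin n) F) - 1) * (c : Matrix (Fin n) (Fin n) F)
    rw [Matrix.mul_sub, Matrix.sub_mul, h1, Matrix.mul_one, Matrix.one_mul]
  obtain ⟨a, ha⟩ := exists_det_eq_pow_of_commute ((g : Matrix (Fin n) (Fin n) F) - 1)
    (by simpa using hg.1) (by simpa using hg.2) (by simpa using hn)
    (c : Matrix (Fin n) (Fin n) F) hcomm
  simp only [Fintype.card_fin] at ha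
  have ha0 : a ≠ 0 := by
    rintro rfl
    have h3 : (c : Matrix (Fin n) (Fin n) F).det ≠ 0 := GeneralLinearGroup.det_ne_zero c
    rw [ha, zero_pow hn.ne'] at h3
    exact h3 rfl
  refine ⟨Units.mk0 a ha0, ?_⟩
  apply Units.ext
  simpa using ha

theorem regG_conj {F : Type*} [Field F] {n : ℕ} (g P : GL (Fin n) F) (hg : RegG g) :
    RegG (P * g * P⁻¹) := by
  have h1 : ((P * g * P⁻¹ : GL (Fin n) F) : Matrix (Fin n) (Fin n) F) - 1 =
      (P : Matrix (Fin n) (Fin n) F) * ((g : Matrix (Fin n) (Fin n) F) - 1) *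
        ((P⁻¹ : GL (Fin n) F) : Matrix (Fin n) (Fin n) F) := by
    rw [Matrix.mul_sub, Matrix.sub_mul, Matrix.mul_one]
    simp
  constructor
  · rw [h1, Units.conj_pow, hg.1]
    simp
  · rw [h1, Matrix.rank_mul_eq_left_of_isUnit_det, Matrix.rank_mul_eq_right_of_isUnit_det]
    · exact hg.2
    · exact (Matrix.isUnit_iff_isUnit_det _).1 P.isUnit
    · exact (Matrix.isUnit_iff_isUnit_det _).1 (P⁻¹).isUnit


theorem conj_of_det {F : Type*} [Field F] {n : ℕ}
    (u₀ u u' : SpecialLinearGroup (Fin n) F) (P P' : GL (Fin n) F)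
    (hP : P * SpecialLinearGroup.toGL u₀ = SpecialLinearGroup.toGL u * P)
    (hP' : P' * SpecialLinearGroup.toGL u₀ = SpecialLinearGroup.toGL u' * P')
    (h : (QuotientGroup.mk (GeneralLinearGroup.det P) : Fˣ ⧸ (powMonoidHom n : Fˣ →* Fˣ).range) =
      QuotientGroup.mk (GeneralLinearGroup.det P')) :
    ConjClasses.mk u = ConjClasses.mk u' := by
  rw [QuotientGroup.eq] at h
  obtain ⟨a, ha⟩ := h
  have ha' : a ^ n = (GeneralLinearGroup.det P)⁻¹ * GeneralLinearGroup.det P' := ha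
  let z : GL (Fin n) F := GeneralLinearGroup.scalar (Fin n) a
  have hz : GeneralLinearGroup.det z = a ^ n := by
    show GeneralLinearGroup.det (GeneralLinearGroup.scalar (Fin n) a) = a ^ n
    rw [GeneralLinearGroup.det_scalar, Fintype.card_fin]
  let s' : GL (Fin n) F := P' * z⁻¹ * P⁻¹
  have hs'det : GeneralLinearGroup.det s' = 1 := by
    show GeneralLinearGroup.det (P' * z⁻¹ * P⁻¹) = 1
    rw [map_mul, map_mul, map_inv, map_inv, hz, ha']
    simp [mul_comm]
  have hs'det' : (s' : Matrix (Fin n) (Fin n) F).det = 1 := by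
    have h1 := congrArg Units.val hs'det
    simpa using h1
  let s : SpecialLinearGroup (Fin n) F := ⟨(s' : Matrix (Fin n) (Fin n) F), hs'det'⟩
  have hs : SpecialLinearGroup.toGL s = s' := Units.ext rfl
  have hzc : ∀ A : GL (Fin n) F, z * A = A * z := fun A => GeneralLinearGroup.scalar_commute a A
  have hconj : SpecialLinearGroup.toGL (s * u * s⁻¹) = SpecialLinearGroup.toGL u' := by
    rw [map_mul, map_mul, map_inv, hs]
    have hu : SpecialLinearGroup.toGL u = P * SpecialLinearGroup.toGL u₀ * P⁻¹ := by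
      rw [hP, mul_inv_cancel_right]
    have hu' : SpecialLinearGroup.toGL u' = P' * SpecialLinearGroup.toGL u₀ * P'⁻¹ := by
      rw [hP', mul_inv_cancel_right]
    rw [hu, hu']
    show P' * z⁻¹ * P⁻¹ * (P * SpecialLinearGroup.toGL u₀ * P⁻¹) * (P' * z⁻¹ * P⁻¹)⁻¹ =
      P' * SpecialLinearGroup.toGL u₀ * P'⁻¹
    have h2 : z⁻¹ * SpecialLinearGroup.toGL u₀ * z = SpecialLinearGroup.toGL u₀ := by
      rw [mul_assoc, ← hzc, inv_mul_cancel_left]
    have h3 : P' * z⁻¹ * P⁻¹ * (P * SpecialLinearGroup.toGL u₀ * P⁻¹) * (P' * z⁻¹ * P⁻¹)⁻¹ =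
        P' * (z⁻¹ * SpecialLinearGroup.toGL u₀ * z) * P'⁻¹ := by group
    rw [h3, h2]
  have hconj' : s * u * s⁻¹ = u' := SpecialLinearGroup.toGL_injective hconj
  rw [ConjClasses.mk_eq_mk_iff_isConj, isConj_iff]
  exact ⟨s, hconj'⟩

theorem det_of_conj {F : Type*} [Field F] {n : ℕ} (hn : 0 < n)
    (u₀ u u' : SpecialLinearGroup (Fin n) F) (hu₀ : RegG (SpecialLinearGroup.toGL u₀))
    (P P' : GL (Fin n) F)
    (hP : P * SpecialLinearGroup.toGL u₀ = SpecialLinearGroup.toGL u * P)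
    (hP' : P' * SpecialLinearGroup.toGL u₀ = SpecialLinearGroup.toGL u' * P')
    (h : ConjClasses.mk u = ConjClasses.mk u') :
    (QuotientGroup.mk (GeneralLinearGroup.det P) : Fˣ ⧸ (powMonoidHom n : Fˣ →* Fˣ).range) =
      QuotientGroup.mk (GeneralLinearGroup.det P') := by
  rw [ConjClasses.mk_eq_mk_iff_isConj, isConj_iff] at h
  obtain ⟨s, hs⟩ := h
  have hs' : SpecialLinearGroup.toGL s * SpecialLinearGroup.toGL u * (SpecialLinearGroup.toGL s)⁻¹ =
      SpecialLinearGroup.toGL u' := by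
    rw [← hs, map_mul, map_mul, map_inv]
  have hu : SpecialLinearGroup.toGL u = P * SpecialLinearGroup.toGL u₀ * P⁻¹ := by
    rw [hP, mul_inv_cancel_right]
  have hu' : SpecialLinearGroup.toGL u' = P' * SpecialLinearGroup.toGL u₀ * P'⁻¹ := by
    rw [hP', mul_inv_cancel_right]
  rw [hu, hu'] at hs'
  let c : GL (Fin n) F := P'⁻¹ * SpecialLinearGroup.toGL s * P
  have hc : c * SpecialLinearGroup.toGL u₀ = SpecialLinearGroup.toGL u₀ * c := by
    show P'⁻¹ * SpecialLinearGroup.toGL s * P * SpecialLinearGroup.toGL u₀ =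
      SpecialLinearGroup.toGL u₀ * (P'⁻¹ * SpecialLinearGroup.toGL s * P)
    have h1 : P'⁻¹ * SpecialLinearGroup.toGL s * P * SpecialLinearGroup.toGL u₀ =
        P'⁻¹ * (SpecialLinearGroup.toGL s * (P * SpecialLinearGroup.toGL u₀ * P⁻¹) *
          (SpecialLinearGroup.toGL s)⁻¹) * SpecialLinearGroup.toGL s * P := by group
    rw [h1, hs']
    group
  obtain ⟨a, ha⟩ := det_of_commute hn _ c hu₀ hc
  have hdet : GeneralLinearGroup.det c = (GeneralLinearGroup.det P')⁻¹ * GeneralLinearGroup.det P := by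
    show GeneralLinearGroup.det (P'⁻¹ * SpecialLinearGroup.toGL s * P) = _
    rw [map_mul, map_mul, map_inv, SpecialLinearGroup.coeToGL_det, mul_one]
  rw [QuotientGroup.eq]
  refine ⟨a⁻¹, ?_⟩
  show (a⁻¹) ^ n = (GeneralLinearGroup.det P)⁻¹ * GeneralLinearGroup.det P'
  rw [inv_pow, ← ha, hdet]
  simp [mul_comm]

/-- Regular unipotent classes of SL_n(q): for n ≥ 2 over the field with q elements, the matrices u of determinant one with (u − 1)^n = 0 and rank(u − 1) = n − 1 form a single GL_n(q)-class which splits into exactly gcd(n, q − 1) conjugacy classes of SL_n(q). -/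
theorem result {F : Type*} [Field F] [Fintype F] {q : ℕ} (hF : Fintype.card F = q) {n : ℕ} (hn : 2 ≤ n) : Nat.card {C : ConjClasses (Matrix.SpecialLinearGroup (Fin n) F) // ∃ u : Matrix.SpecialLinearGroup (Fin n) F, ConjClasses.mk u = C ∧ ((u : Matrix (Fin n) (Fin n) F) - 1) ^ n = 0 ∧ ((u : Matrix (Fin n) (Fin n) F) - 1).rank = n - 1} = Nat.gcd n (q - 1) := by
  classical
  have hn0 : 0 < n := by omega
  obtain ⟨u₀, hu₀⟩ := exists_reg (F := F) (n := n)
  have hindex : Nat.card (Fˣ ⧸ (powMonoidHom n : Fˣ →* Fˣ).range) = Nat.gcd n (q - 1) := by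
    have h1 : ((powMonoidHom n : Fˣ →* Fˣ).range).index = (Nat.card Fˣ).gcd n :=
      IsCyclic.index_powMonoidHom_range Fˣ n
    rw [Nat.card_units, Nat.card_eq_fintype_card, hF] at h1
    rw [Nat.gcd_comm]
    exact h1
  rw [← hindex]
  have hex : ∀ C : {C : ConjClasses (Matrix.SpecialLinearGroup (Fin n) F) //
      ∃ u : Matrix.SpecialLinearGroup (Fin n) F, ConjClasses.mk u = C ∧
        ((u : Matrix (Fin n) (Fin n) F) - 1) ^ n = 0 ∧
        ((u : Matrix (Fin n) (Fin n) F) - 1).rank = n - 1},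
      ∃ (u : Matrix.SpecialLinearGroup (Fin n) F) (P : GL (Fin n) F), ConjClasses.mk u = C.1 ∧
        P * SpecialLinearGroup.toGL u₀ = SpecialLinearGroup.toGL u * P := by
    rintro ⟨C, u, hu, hreg⟩
    obtain ⟨P, hP⟩ := exists_conj hn0 (SpecialLinearGroup.toGL u₀) (SpecialLinearGroup.toGL u) hu₀ hreg
    exact ⟨u, P, hu, hP⟩
  choose uu PP huu hPP using hex
  apply Nat.card_eq_of_bijective (fun C =>
    (QuotientGroup.mk (GeneralLinearGroup.det (PP C)) : Fˣ ⧸ (powMonoidHom n : Fˣ →* Fˣ).range))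
  constructor
  · intro C C' hCC'
    apply Subtype.ext
    rw [← huu C, ← huu C']
    exact conj_of_det u₀ (uu C) (uu C') (PP C) (PP C') (hPP C) (hPP C') hCC'
  · intro x
    obtain ⟨lam, rfl⟩ := QuotientGroup.mk_surjective x
    have : Nonempty (Fin n) := ⟨⟨0, hn0⟩⟩
    obtain ⟨d, hd⟩ := GeneralLinearGroup.det_surjective (n := Fin n) lam
    let U : GL (Fin n) F := d * SpecialLinearGroup.toGL u₀ * d⁻¹
    have hUdet : GeneralLinearGroup.det U = 1 := by
      show GeneralLinearGroup.det (d * SpecialLinearGroup.toGL u₀ * d⁻¹) = 1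
      rw [map_mul, map_mul, map_inv, SpecialLinearGroup.coeToGL_det, mul_one, mul_inv_cancel]
    have hUdet' : (U : Matrix (Fin n) (Fin n) F).det = 1 := by
      have h1 := congrArg Units.val hUdet
      simpa using h1
    let u : SpecialLinearGroup (Fin n) F := ⟨(U : Matrix (Fin n) (Fin n) F), hUdet'⟩
    have hu : SpecialLinearGroup.toGL u = U := Units.ext rfl
    have hreg : RegG (SpecialLinearGroup.toGL u) := by
      rw [hu]
      exact regG_conj _ d hu₀
    have hdu : d * SpecialLinearGroup.toGL u₀ = SpecialLinearGroup.toGL u * d := by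
      rw [hu]
      show d * SpecialLinearGroup.toGL u₀ = d * SpecialLinearGroup.toGL u₀ * d⁻¹ * d
      rw [inv_mul_cancel_right]
    refine ⟨⟨ConjClasses.mk u, u, rfl, hreg⟩, ?_⟩
    show (QuotientGroup.mk (GeneralLinearGroup.det (PP ⟨ConjClasses.mk u, u, rfl, hreg⟩)) :
      Fˣ ⧸ (powMonoidHom n : Fˣ →* Fˣ).range) = QuotientGroup.mk lam
    rw [← hd]
    exact det_of_conj hn0 u₀ _ u hu₀ _ d (hPP _) hdu (huu _)


end Cfsg.Agent.S2578
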