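import Cfsg.Statements.S2580
-- import your own Cfsg.Agent.* helpers here

set_option autoImplicit false
open Cfsg
open Polynomial

namespace Cfsg.Agent.S2580

/-- Frobenius functional on `F[X]/(g)`. -/
theorem exists_frob {F : Type*} [Field F] (g : F[X]) (hg : g ≠ 0) :
    ∃ τ : (F[X] ⧸ Ideal.span {g}) →ₗ[F] F, ∀ a, (∀ b, τ (a * b) = 0) → a = 0 := by
  classical
  set g' : F[X] := g * C (g.leadingCoeff)⁻¹ with hg'
  have hmon : g'.Monic := monic_mul_leadingCoeff_inv hg
  have hdvd : ∀ f : F[X], g' ∣ f ↔ g ∣ f := by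
    intro f
    have hu : IsUnit (C (g.leadingCoeff)⁻¹ : F[X]) := by
      rw [Polynomial.isUnit_C]
      exact (isUnit_iff_ne_zero.2 (inv_ne_zero (leadingCoeff_ne_zero.2 hg)))
    rw [hg']
    exact IsUnit.mul_right_dvd hu
  let τ₀ : F[X] →ₗ[F] F := (lcoeff F (g'.natDegree - 1)) ∘ₗ (modByMonicHom g')
  have hτ₀ : ∀ f, τ₀ f = (f %ₘ g').coeff (g'.natDegree - 1) := fun f => rfl
  have h0 : (Ideal.span {g}).restrictScalars F ≤ LinearMap.ker τ₀ := by
    intro f hf
    rw [Submodule.restrictScalars_mem, Ideal.mem_span_singleton, ← hdvd] at hf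
    rw [LinearMap.mem_ker, hτ₀, (modByMonic_eq_zero_iff_dvd hmon).2 hf]
    simp
  let τ : (F[X] ⧸ Ideal.span {g}) →ₗ[F] F :=
    (Submodule.liftQ _ τ₀ h0) ∘ₗ
      (Submodule.Quotient.restrictScalarsEquiv F (Ideal.span {g})).symm.toLinearMap
  have hτ : ∀ f : F[X], τ (Ideal.Quotient.mk _ f) = τ₀ f := by
    intro f
    rfl
  refine ⟨τ, ?_⟩
  intro a ha
  obtain ⟨f, rfl⟩ := Ideal.Quotient.mk_surjective a
  rw [Ideal.Quotient.eq_zero_iff_mem, Ideal.mem_span_singleton, ← hdvd,
    ← modByMonic_eq_zero_iff_dvd hmon]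
  by_contra hr
  set r := f %ₘ g' with hrdef
  have hdeg : r.natDegree < g'.natDegree := by
    have h1 : r.degree < g'.degree := degree_modByMonic_lt f hmon
    exact natDegree_lt_natDegree hr h1
  set k := r.natDegree with hk
  set d := g'.natDegree with hd
  have h2 := ha (Ideal.Quotient.mk _ (X ^ (d - 1 - k)))
  rw [← map_mul, hτ, hτ₀] at h2
  have h3 : (f * X ^ (d - 1 - k)) %ₘ g' = r * X ^ (d - 1 - k) := by
    have h4 : (f * X ^ (d - 1 - k)) %ₘ g' = (r * X ^ (d - 1 - k)) %ₘ g' := by
      apply modByMonic_eq_of_dvd_sub hmon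
      have : f * X ^ (d - 1 - k) - r * X ^ (d - 1 - k) = g' * ((f /ₘ g') * X ^ (d - 1 - k)) := by
        have := modByMonic_add_div f g'
        rw [← hrdef] at this
        linear_combination (X ^ (d - 1 - k)) * this.symm
      rw [this]
      exact dvd_mul_right _ _
    rw [h4]
    apply (modByMonic_eq_self_iff hmon).2
    have h5 : (r * X ^ (d - 1 - k)).natDegree = d - 1 := by
      rw [natDegree_mul_X_pow _ hr]
      omega
    have h6 : r * X ^ (d - 1 - k) ≠ 0 := mul_ne_zero hr (pow_ne_zero _ X_ne_zero)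
    rw [degree_eq_natDegree h6, degree_eq_natDegree hmon.ne_zero, h5]
    exact_mod_cast (by omega : d - 1 < d)
  rw [h3] at h2
  have h7 : (r * X ^ (d - 1 - k)).coeff (d - 1) = r.coeff k := by
    obtain ⟨j, hj⟩ : ∃ j, d - 1 = k + j := ⟨d - 1 - k, by omega⟩
    have hj' : d - 1 - k = j := by omega
    rw [hj', hj, coeff_mul_X_pow]
  rw [h7] at h2
  exact hr (leadingCoeff_eq_zero.1 h2)



theorem exists_frob_pi {F : Type*} [Field F] {ι : Type*} [Fintype ι] (R : ι → Type*) [∀ i, CommRing (R i)]
    [∀ i, Algebra F (R i)] (τ : ∀ i, R i →ₗ[F] F)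
    (hτ : ∀ i, ∀ a : R i, (∀ b, τ i (a * b) = 0) → a = 0) :
    ∃ T : (∀ i, R i) →ₗ[F] F, ∀ a, (∀ b, T (a * b) = 0) → a = 0 := by
  classical
  refine ⟨∑ i, (τ i) ∘ₗ (LinearMap.proj i), ?_⟩
  intro a ha
  funext i
  apply hτ i
  intro c
  have h := ha (Pi.single i c)
  rw [LinearMap.sum_apply] at h
  rw [Finset.sum_eq_single i] at h
  · simpa using h
  · intro j _ hji
    simp [Pi.single_eq_of_ne hji]
  · intro h'
    exact absurd (Finset.mem_univ i) h'

theorem isConj_of_frob {F : Type*} [Field F] {n : ℕ} (A : Matrix (Fin n) (Fin n) F)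
    {S : Type*} [CommRing S] [Algebra F S]
    (w : (Fin n → F) →ₗ[F] S) (hw : Function.Bijective w) (x : S)
    (hx : ∀ v, w (A.mulVec v) = x * w v)
    (T : S →ₗ[F] F) (hT : ∀ a, (∀ b, T (a * b) = 0) → a = 0) : IsConj A A.transpose := by
  classical
  let P : Matrix (Fin n) (Fin n) F := fun i j => T (w (Pi.single i 1) * w (Pi.single j 1))
  have hP : ∀ (i : Fin n) (v : Fin n → F), (P.mulVec v) i = T (w (Pi.single i 1) * w v) := by
    intro i v
    have hv : v = ∑ j, v j • (Pi.single j (1:F) : Fin n → F) := by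
      funext k
      simp [Finset.sum_apply, Pi.single_apply]
    conv_rhs => rw [hv]
    rw [map_sum, Finset.mul_sum, map_sum]
    simp only [Matrix.mulVec, dotProduct, P]
    apply Finset.sum_congr rfl
    intro j _
    rw [map_smul, mul_smul_comm, map_smul, smul_eq_mul, mul_comm]
  have hA : ∀ j : Fin n, A.mulVec (Pi.single j 1) = fun k => A k j := by
    intro j
    funext k
    simp [Matrix.mulVec, dotProduct, Pi.single_apply]
  have hAt : ∀ j : Fin n, A.transpose.mulVec (Pi.single j 1) = fun k => A j k := by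
    intro j
    funext k
    simp [Matrix.mulVec, dotProduct, Pi.single_apply]
  have hPsymm : P.transpose = P := by
    ext i j
    show T (w (Pi.single j 1) * w (Pi.single i 1)) = T (w (Pi.single i 1) * w (Pi.single j 1))
    rw [mul_comm]
  have hcomm : P * A = A.transpose * P := by
    ext i j
    have h1 : (P * A) i j = (P.mulVec (A.mulVec (Pi.single j 1))) i := by
      rw [Matrix.mulVec_mulVec]
      simp [Matrix.mulVec, dotProduct, Pi.single_apply]
    have h2 : (A.transpose * P) i j = (P.mulVec (A.mulVec (Pi.single i 1))) j := by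
      have : (A.transpose * P) i j = (P.transpose * A) j i := by
        rw [← Matrix.transpose_apply (P.transpose * A), Matrix.transpose_mul,
          Matrix.transpose_transpose]
      rw [this, hPsymm, Matrix.mulVec_mulVec]
      simp [Matrix.mulVec, dotProduct, Pi.single_apply]
    rw [h1, h2, hP, hP, hx, hx]
    congr 1
    ring
  have hinj : Function.Injective P.mulVec := by
    intro u v huv
    have h0 : P.mulVec (u - v) = 0 := by rw [Matrix.mulVec_sub, huv, sub_self]
    have h1 : w (u - v) = 0 := by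
      apply hT
      intro b
      obtain ⟨y, rfl⟩ := hw.2 b
      have hy : y = ∑ j, y j • (Pi.single j (1:F) : Fin n → F) := by
        funext k
        simp [Finset.sum_apply, Pi.single_apply]
      rw [hy, map_sum, Finset.mul_sum, map_sum]
      apply Finset.sum_eq_zero
      intro j _
      rw [map_smul, mul_smul_comm, map_smul, mul_comm, ← hP, h0]
      simp
    have h2 : u - v = 0 := hw.1 (by rw [h1, map_zero])
    exact sub_eq_zero.1 h2
  have hunit : IsUnit P := Matrix.mulVec_injective_iff_isUnit.1 hinj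
  obtain ⟨c, hc⟩ := hunit
  refine ⟨c, ?_⟩
  show (c : Matrix (Fin n) (Fin n) F) * A = A.transpose * c
  rw [hc]
  exact hcomm



theorem isConj_transpose {F : Type*} [Field F] {n : ℕ} (A : Matrix (Fin n) (Fin n) F) : IsConj A A.transpose := by
  classical
  let φ : (Fin n → F) →ₗ[F] (Fin n → F) := Matrix.mulVecLin A
  have htors : Module.IsTorsion F[X] (Module.AEval' φ) :=
    Module.AEval.isTorsion_of_finiteDimensional F (Fin n → F) φ
  obtain ⟨ι, _, p, hp, e, ⟨E₀⟩⟩ := Module.equiv_directSum_of_isTorsion htors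
  let E := E₀.trans (DirectSum.linearEquivFunOnFintype F[X] ι _)
  have hτ : ∀ i, ∃ τ : (F[X] ⧸ Ideal.span {p i ^ e i}) →ₗ[F] F,
      ∀ a, (∀ b, τ (a * b) = 0) → a = 0 :=
    fun i => exists_frob _ (pow_ne_zero _ (hp i).ne_zero)
  choose τ hτ using hτ
  obtain ⟨T, hT⟩ := exists_frob_pi (fun i => F[X] ⧸ Ideal.span {p i ^ e i}) τ hτ
  let w : (Fin n → F) →ₗ[F] (∀ i, F[X] ⧸ Ideal.span {p i ^ e i}) :=
    (E.toLinearMap.restrictScalars F) ∘ₗ (Module.AEval'.of φ).toLinearMap
  refine isConj_of_frob A w ?_ (algebraMap F[X] _ X) ?_ T hT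
  · exact E.bijective.comp (Module.AEval'.of φ).bijective
  · intro v
    show E (Module.AEval'.of φ (φ v)) = _ * E (Module.AEval'.of φ v)
    rw [← Module.AEval'.X_smul_of, map_smul, Algebra.smul_def]

/-- Over a finite field, a square matrix is similar to its transpose: for every n × n matrix A there is an invertible matrix P with P A P⁻¹ = Aᵀ (stated as conjugacy in the monoid of matrices, whose units are the invertible matrices). -/
theorem result {F : Type*} [Field F] [Finite F] {n : ℕ} (A : Matrix (Fin n) (Fin n) F) : IsConj A A.transpose := by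
  exact isConj_transpose A

end Cfsg.Agent.S2580
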