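import Cfsg.Statements.S2581
-- import your own Cfsg.Agent.* helpers here
import Cfsg.Agent.Lib.Helper95.UCentC

set_option autoImplicit false
open Cfsg

namespace Cfsg.Agent.S2581

theorem sum_min_eq {t : ℕ} (d : Fin t → ℕ) (hd : ∀ k, 1 ≤ d k) (m : ℕ) (hm : ∀ k, d k ≤ m) :
    ∑ k, ∑ l, min (d l) (d k) =
      2 * (∑ i ∈ Finset.range (m + 1), ∑ j ∈ Finset.range (m + 1),
        if i < j then i * (Finset.univ.filter (fun k : Fin t => d k = i)).card *
          (Finset.univ.filter (fun k : Fin t => d k = j)).card else 0) +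
      ∑ i ∈ Finset.range (m + 1), (i - 1) * (Finset.univ.filter (fun k : Fin t => d k = i)).card ^ 2 +
      ∑ i ∈ Finset.range (m + 1), (Finset.univ.filter (fun k : Fin t => d k = i)).card *
        (Finset.univ.filter (fun k : Fin t => d k = i)).card := by
  classical
  set R := Finset.range (m + 1) with hR
  set a : ℕ → ℕ := fun i => (Finset.univ.filter (fun k : Fin t => d k = i)).card with ha
  have hmap : ∀ k ∈ (Finset.univ : Finset (Fin t)), d k ∈ R := fun k _ =>
    Finset.mem_range.mpr (Nat.lt_succ_of_le (hm k))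
  have key : ∀ f : ℕ → ℕ, ∑ k, f (d k) = ∑ i ∈ R, a i * f i := by
    intro f
    rw [← Finset.sum_fiberwise_of_maps_to hmap]
    apply Finset.sum_congr rfl
    intro i _
    have h1 : ∀ k ∈ Finset.univ.filter (fun k : Fin t => d k = i), f (d k) = f i := by
      intro k hk
      rw [(Finset.mem_filter.mp hk).2]
    rw [Finset.sum_congr rfl h1, Finset.sum_const, smul_eq_mul]
  have h1 : ∑ k, ∑ l, min (d l) (d k) = ∑ i ∈ R, ∑ j ∈ R, a i * (a j * min j i) := by
    rw [key (fun x => ∑ l, min (d l) x)]
    apply Finset.sum_congr rfl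
    intro i _
    rw [key (fun y => min y i), Finset.mul_sum]
  rw [h1]
  have h2 : ∀ i ∈ R, ∀ j ∈ R, a i * (a j * min j i) =
      (if i < j then i * a i * a j else 0) + (if j < i then j * a j * a i else 0) +
        (if i = j then i * a i * a i else 0) := by
    intro i _ j _
    rcases lt_trichotomy i j with h | h | h
    · rw [if_pos h, if_neg (by omega), if_neg (by omega), min_eq_right h.le]; ring
    · subst h; rw [if_neg (lt_irrefl _), if_pos rfl, min_self]; ring
    · rw [if_neg (by omega), if_pos h, if_neg (by omega), min_eq_left h.le]; ring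
  rw [Finset.sum_congr rfl (fun i hi => Finset.sum_congr rfl (fun j hj => h2 i hi j hj))]
  simp only [Finset.sum_add_distrib]
  have h3 : ∑ i ∈ R, ∑ j ∈ R, (if j < i then j * a j * a i else 0) =
      ∑ i ∈ R, ∑ j ∈ R, (if i < j then i * a i * a j else 0) := Finset.sum_comm
  have h4 : ∑ i ∈ R, ∑ j ∈ R, (if i = j then i * a i * a i else 0) = ∑ i ∈ R, i * a i * a i := by
    apply Finset.sum_congr rfl
    intro i hi
    rw [Finset.sum_ite_eq, if_pos hi]
  have h5 : ∑ i ∈ R, i * a i * a i = ∑ i ∈ R, (i - 1) * a i ^ 2 + ∑ i ∈ R, a i * a i := by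
    rw [← Finset.sum_add_distrib]
    apply Finset.sum_congr rfl
    intro i _
    rcases Nat.eq_zero_or_pos i with rfl | hi
    · have h0 : a 0 = 0 := by
        rw [ha]
        simp only
        rw [Finset.card_eq_zero, Finset.filter_eq_empty_iff]
        intro k _ hk
        have := hd k
        omega
      rw [h0]
      simp
    · obtain ⟨i', rfl⟩ : ∃ i', i = i' + 1 := ⟨i - 1, by omega⟩
      simp only [Nat.add_sub_cancel]
      ring
  rw [h3, h4, h5]
  ring


/-- Order of the centraliser in GL of a unipotent matrix of given Jordan type over the field with q elements: if the type has a_i blocks of size i (all block sizes at least 1), the invertible matrices commuting with it number q^γ · Π_i |GL_(a_i)(q)| with γ = 2 Σ_(i<j) i a_i a_j + Σ_i (i − 1) a_i² (a group of order q^γ extended by Π GL_(a_i)(q)). -/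
theorem result {F : Type*} [Field F] [Fintype F] {q : ℕ} (hF : Fintype.card F = q) {t : ℕ} (d : Fin t → ℕ) (hd : ∀ k, 1 ≤ d k) : Nat.card {g : GL ((k : Fin t) × Fin (d k)) F // (g : Matrix ((k : Fin t) × Fin (d k)) ((k : Fin t) × Fin (d k)) F) * Cfsg.jordanTypeMatrix d F = Cfsg.jordanTypeMatrix d F * (g : Matrix ((k : Fin t) × Fin (d k)) ((k : Fin t) × Fin (d k)) F)} = q ^ (2 * (∑ i ∈ Finset.range (Finset.univ.sup d + 1), ∑ j ∈ Finset.range (Finset.univ.sup d + 1), if i < j then i * (Finset.univ.filter (fun k : Fin t => d k = i)).card * (Finset.univ.filter (fun k : Fin t => d k = j)).card else 0) + ∑ i ∈ Finset.range (Finset.univ.sup d + 1), (i - 1) * (Finset.univ.filter (fun k : Fin t => d k = i)).card ^ 2) * ∏ i ∈ Finset.range (Finset.univ.sup d + 1), ∏ j : Fin ((Finset.univ.filter (fun k : Fin t => d k = i)).card), (q ^ (Finset.univ.filter (fun k : Fin t => d k = i)).card - q ^ (j : ℕ)) := by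
  classical
  have hd' : ∀ k, 0 < d k := fun k => hd k
  have hm : ∀ k, d k ≤ Finset.univ.sup d := fun k => Finset.le_sup (Finset.mem_univ k)
  have h := Cfsg.Agent.Lib.Helper95.UCent.card_centralizer_mul (F := F) d hd' (Finset.univ.sup d) hm
  rw [hF] at h
  have hid := sum_min_eq d hd (Finset.univ.sup d) hm
  have hs : ∑ s : Fin (Finset.univ.sup d + 1),
      (Finset.univ.filter (fun k : Fin t => d k = (s : ℕ))).card *
        (Finset.univ.filter (fun k : Fin t => d k = (s : ℕ))).card =
      ∑ i ∈ Finset.range (Finset.univ.sup d + 1),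
        (Finset.univ.filter (fun k : Fin t => d k = i)).card *
          (Finset.univ.filter (fun k : Fin t => d k = i)).card :=
    (Finset.sum_range (fun i => (Finset.univ.filter (fun k : Fin t => d k = i)).card *
          (Finset.univ.filter (fun k : Fin t => d k = i)).card)).symm
  have hp : ∏ s : Fin (Finset.univ.sup d + 1),
      ∏ j : Fin ((Finset.univ.filter (fun k : Fin t => d k = (s : ℕ))).card),
        (q ^ (Finset.univ.filter (fun k : Fin t => d k = (s : ℕ))).card - q ^ (j : ℕ)) =
      ∏ i ∈ Finset.range (Finset.univ.sup d + 1),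
        ∏ j : Fin ((Finset.univ.filter (fun k : Fin t => d k = i)).card),
          (q ^ (Finset.univ.filter (fun k : Fin t => d k = i)).card - q ^ (j : ℕ)) :=
    (Finset.prod_range (fun i => ∏ j : Fin ((Finset.univ.filter (fun k : Fin t => d k = i)).card),
          (q ^ (Finset.univ.filter (fun k : Fin t => d k = i)).card - q ^ (j : ℕ)))).symm
  rw [hs, hp, hid, pow_add] at h
  have hq : 0 < q := by rw [← hF]; exact Fintype.card_pos
  refine Nat.eq_of_mul_eq_mul_right (pow_pos hq (∑ i ∈ Finset.range (Finset.univ.sup d + 1),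
        (Finset.univ.filter (fun k : Fin t => d k = i)).card *
          (Finset.univ.filter (fun k : Fin t => d k = i)).card)) ?_
  rw [h]
  ring

end Cfsg.Agent.S2581
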