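import Cfsg.Statements.S2584
-- import your own Cfsg.Agent.* helpers here
import Cfsg.Agent.Lib.Helper95.JQuad2

set_option autoImplicit false
open Cfsg

namespace Cfsg.Agent.S2584

open Cfsg.Agent.Lib.Helper95.JType Cfsg.Agent.Lib.Helper95.JAsm Cfsg.Agent.Lib.Helper95.JQuad
  Cfsg.Agent.Lib.Helper95.JQuad2


/-- Which unipotent Jordan types occur in a finite orthogonal group in characteristic two: over a finite field of characteristic 2 and in even dimension 2m, a unipotent matrix with Jordan block sizes d_1, …, d_t (sum 2m, all at least 1) is similar to an isometry of some quadratic form on F^(2m) with non-degenerate polar form if and only if every odd block size occurs an even number of times (the same condition as for the symplectic group, which contains these orthogonal groups). -/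
theorem result {F : Type*} [Field F] [Fintype F] [CharP F 2] {m t : ℕ} (d : Fin t → ℕ) (hd : ∀ k, 1 ≤ d k) (hsum : ∑ k, d k = 2 * m) : (∃ Q : QuadraticForm F (Fin (2 * m) → F), (QuadraticMap.polarBilin Q).Nondegenerate ∧ ∃ e : ((k : Fin t) × Fin (d k)) ≃ Fin (2 * m), ∃ A : ↥(Cfsg.isometryGroup F ⇑Q), IsConj (Matrix.reindex e e (Cfsg.jordanTypeMatrix d F)) ((A : Matrix.GeneralLinearGroup (Fin (2 * m)) F) : Matrix (Fin (2 * m)) (Fin (2 * m)) F)) ↔ ∀ j : ℕ, Odd j → Even (Finset.univ.filter (fun k : Fin t => d k = j)).card := by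
  have hd' : ∀ k, 0 < d k := fun k => hd k
  constructor
  · rintro ⟨Q, hQ, e, A, hconj⟩ j ⟨s, rfl⟩
    have hr : ∀ i, ((((A : Matrix.GeneralLinearGroup (Fin (2 * m)) F) : Matrix (Fin (2 * m)) (Fin (2 * m)) F) - 1) ^ i).rank =
        ∑ k, (d k - i) := fun i => by
      rw [rank_pow_of_isConj _ _ e hconj, rank_jordanType_pow d hd']
    have h0 := even_rank_orth_char2 Q hQ A.1 A.2 s
    have h2 := even_rank_orth_char2 Q hQ A.1 A.2 (s + 1)
    rw [hr] at h0 h2
    have hc := count_of_sums d (2 * s)
    have e2 : 2 * (s + 1) = 2 * s + 2 := by ring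
    rw [e2] at h2
    have h3 : Even (2 * ∑ k, (d k - (2 * s + 1)) +
        (Finset.univ.filter (fun k : Fin t => d k = 2 * s + 1)).card) := by
      rw [← hc]
      exact h0.add h2
    exact (Nat.even_add.mp h3).mp (even_two_mul _)
  · intro hpar
    have hG := goodQ_of_parity_char2 (F := F) d hd' hpar
    obtain ⟨Q, hQ, A, hnil, hrank⟩ := exists_isom_of_goodQ (2 * m) _ hG (by
      simp only [Nat.sub_zero]
      exact hsum)
    have hcard : Fintype.card ((k : Fin t) × Fin (d k)) = Fintype.card (Fin (2 * m)) := by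
      simp only [Fintype.card_sigma, Fintype.card_fin, hsum]
    refine ⟨Q, hQ, Fintype.equivOfCardEq hcard, A, ?_⟩
    exact isConj_of_rank _ _ _ (isNilpotent_jordanType d hd') hnil (fun i => by
      rw [rank_jordanType_pow d hd', hrank])

end Cfsg.Agent.S2584
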