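import Cfsg.Statements.S2585

set_option autoImplicit false
open Cfsg

namespace Cfsg.Agent.S2585

open Matrix

section

variable {F : Type*} [Field F] {m : ℕ}

theorem sympForm_eq (u v : Fin m ⊕ Fin m → F) :
    Cfsg.sympForm m F u v = ∑ i : Fin m, (u (.inr i) * v (.inl i) - u (.inl i) * v (.inr i)) := by
  unfold Cfsg.sympForm Matrix.J
  rw [Matrix.fromBlocks_mulVec, Finset.sum_sub_distrib]
  simp only [Matrix.zero_mulVec, Matrix.neg_mulVec, Matrix.one_mulVec, zero_add, add_zero]
  simp [dotProduct, Fintype.sum_sum_type]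
  ring

/-- the symplectic form as a bilinear form -/
noncomputable def sB (m : ℕ) (F : Type*) [Field F] : LinearMap.BilinForm F (Fin m ⊕ Fin m → F) :=
  Matrix.toBilin' (Matrix.J (Fin m) F)

theorem sB_apply (u v : Fin m ⊕ Fin m → F) : sB m F u v = Cfsg.sympForm m F u v :=
  Matrix.toBilin'_apply' _ u v

theorem sB_nondeg : (sB m F).Nondegenerate := by
  apply LinearMap.BilinForm.nondegenerate_toBilin'_of_det_ne_zero'
  intro h
  have h1 := Matrix.J_det_mul_J_det (Fin m) F
  rw [h] at h1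
  simp at h1

theorem sB_skew (u v : Fin m ⊕ Fin m → F) : sB m F u v = - sB m F v u := by
  rw [sB_apply, sB_apply, sympForm_eq, sympForm_eq, ← Finset.sum_neg_distrib]
  apply Finset.sum_congr rfl
  intro i _
  ring

theorem sB_self (v : Fin m ⊕ Fin m → F) : sB m F v v = 0 := by
  rw [sB_apply, sympForm_eq]
  apply Finset.sum_eq_zero
  intro i _
  ring

theorem sB_isRefl : (sB m F).IsRefl := by
  intro u v h
  rw [sB_skew, h, neg_zero]

theorem sB_invariant (A : Matrix (Fin m ⊕ Fin m) (Fin m ⊕ Fin m) F)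
    (hA : Aᵀ * Matrix.J (Fin m) F * A = Matrix.J (Fin m) F) (u v : Fin m ⊕ Fin m → F) :
    sB m F (A *ᵥ u) (A *ᵥ v) = sB m F u v := by
  unfold sB
  rw [Matrix.toBilin'_apply', Matrix.toBilin'_apply']
  have h1 : (A *ᵥ u) ⬝ᵥ (Matrix.J (Fin m) F *ᵥ (A *ᵥ v)) =
      u ⬝ᵥ ((Aᵀ * Matrix.J (Fin m) F * A) *ᵥ v) := by
    rw [← Matrix.vecMul_transpose, ← Matrix.dotProduct_mulVec, Matrix.mulVec_mulVec,
      Matrix.mulVec_mulVec, Matrix.mul_assoc]
  rw [h1, hA]

/-- the bilinear form `Σ u_l v_r` -/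
noncomputable def sB0 (m : ℕ) (F : Type*) [Field F] : LinearMap.BilinForm F (Fin m ⊕ Fin m → F) :=
  Matrix.toBilin' (Matrix.fromBlocks 0 1 0 0 : Matrix (Fin m ⊕ Fin m) (Fin m ⊕ Fin m) F)

theorem sB0_apply (u v : Fin m ⊕ Fin m → F) :
    sB0 m F u v = ∑ i : Fin m, u (.inl i) * v (.inr i) := by
  unfold sB0
  rw [Matrix.toBilin'_apply', Matrix.fromBlocks_mulVec]
  simp [dotProduct, Fintype.sum_sum_type]

theorem sB0_add_flip [CharP F 2] (u v : Fin m ⊕ Fin m → F) :
    sB0 m F u v + sB0 m F v u = sB m F u v := by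
  rw [sB0_apply, sB0_apply, sB_apply, sympForm_eq, ← Finset.sum_add_distrib]
  apply Finset.sum_congr rfl
  intro i _
  have h2 : (2 : F) = 0 := CharTwo.two_eq_zero
  linear_combination (u (Sum.inl i) * v (Sum.inr i)) * h2

end

/-- Over a finite field of characteristic two every element of the symplectic group is orthogonal for a suitable quadratic form: for each A in Sp_2m(F) there is a quadratic form Q on F^(2m) whose polar form is the alternating form defining Sp_2m(F) (so Q is non-degenerate) and which A preserves. Equivalently, for m ≥ 1, Sp_2m(F) is the union of the conjugates of its two orthogonal subgroups O⁺_2m(F) and O⁻_2m(F). -/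
theorem result {F : Type*} [Field F] [Fintype F] [CharP F 2] {m : ℕ} (A : Matrix.symplecticGroup (Fin m) F) : ∃ Q : QuadraticForm F (Fin m ⊕ Fin m → F), (∀ u v : Fin m ⊕ Fin m → F, QuadraticMap.polar ⇑Q u v = Cfsg.sympForm m F u v) ∧ ∀ v : Fin m ⊕ Fin m → F, Q ((A : Matrix (Fin m ⊕ Fin m) (Fin m ⊕ Fin m) F).mulVec v) = Q v := by
  classical
  set M : Matrix (Fin m ⊕ Fin m) (Fin m ⊕ Fin m) F := (A : Matrix (Fin m ⊕ Fin m) (Fin m ⊕ Fin m) F) with hM
  have hA : Mᵀ * Matrix.J (Fin m) F * M = Matrix.J (Fin m) F := SymplecticGroup.mem_iff'.mp A.2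
  have h2 : (2 : F) = 0 := CharTwo.two_eq_zero
  have hinv := sB_invariant M hA
  -- surjectivity of M
  have hMsurj : ∀ z : Fin m ⊕ Fin m → F, ∃ x, M *ᵥ x = z := by
    intro z
    refine ⟨((A⁻¹ : Matrix.symplecticGroup (Fin m) F) : Matrix (Fin m ⊕ Fin m) (Fin m ⊕ Fin m) F) *ᵥ z, ?_⟩
    rw [Matrix.mulVec_mulVec]
    have h1 : M * ((A⁻¹ : Matrix.symplecticGroup (Fin m) F) : Matrix (Fin m ⊕ Fin m) (Fin m ⊕ Fin m) F) = 1 := by
      have : ((A * A⁻¹ : Matrix.symplecticGroup (Fin m) F) : Matrix (Fin m ⊕ Fin m) (Fin m ⊕ Fin m) F) = 1 := by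
        rw [mul_inv_cancel]; rfl
      exact this
    rw [h1, Matrix.one_mulVec]
  -- the defect of Q0 under M
  set lam : (Fin m ⊕ Fin m → F) → F := fun v => sB0 m F (M *ᵥ v) (M *ᵥ v) - sB0 m F v v with hlam
  have hlam_add : ∀ u v, lam (u + v) = lam u + lam v := by
    intro u v
    simp only [hlam, Matrix.mulVec_add, map_add, LinearMap.add_apply]
    have e1 := sB0_add_flip (M *ᵥ u) (M *ᵥ v)
    have e2 := sB0_add_flip u v
    rw [hinv] at e1
    linear_combination e1 - e2
  have hlam_smul : ∀ (c : F) v, lam (c • v) = c * c * lam v := by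
    intro c v
    simp only [hlam, Matrix.mulVec_smul, map_smul, LinearMap.smul_apply, smul_eq_mul]
    ring
  -- its square root, a linear functional
  let ℓ0 : (Fin m ⊕ Fin m → F) →ₗ[F] F :=
    { toFun := fun v => (frobeniusEquiv F 2).symm (lam v)
      map_add' := by
        intro u v
        rw [hlam_add, map_add]
      map_smul' := by
        intro c v
        rw [hlam_smul, map_mul, ← sq, frobeniusEquiv_symm_pow]
        rfl }
  have hℓ0 : ∀ v, ℓ0 v * ℓ0 v = lam v := by
    intro v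
    have := frobeniusEquiv_symm_pow_p F 2 (lam v)
    rw [sq] at this
    exact this
  -- the vector representing ℓ0
  set a := ((sB m F).toDual sB_nondeg).symm ℓ0 with ha
  have haℓ : ∀ v, sB m F a v = ℓ0 v := fun v => LinearMap.BilinForm.apply_toDual_symm_apply ℓ0 v
  -- M a lies in the range of M + 1
  have hrange : M *ᵥ a ∈ LinearMap.range (Matrix.mulVecLin (M + 1)) := by
    have key := LinearMap.BilinForm.orthogonal_orthogonal (sB_nondeg (m := m) (F := F)) sB_isRefl
      (LinearMap.range (Matrix.mulVecLin (M + 1)))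
    rw [← key]
    rw [LinearMap.BilinForm.mem_orthogonal_iff]
    intro y hy
    rw [LinearMap.BilinForm.mem_orthogonal_iff] at hy
    have hy' : ∀ x, sB m F (M *ᵥ x + x) y = 0 := by
      intro x
      have := hy ((M + 1) *ᵥ x) ⟨x, rfl⟩
      rwa [Matrix.add_mulVec, Matrix.one_mulVec] at this
    have hfix : M *ᵥ y + y = 0 := by
      apply sB_nondeg.2
      intro z
      obtain ⟨x, rfl⟩ := hMsurj z
      have e1 := hy' x
      rw [map_add, LinearMap.add_apply] at e1
      rw [map_add, hinv]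
      have e2 : sB m F x y = - sB m F (M *ᵥ x) y := by linear_combination e1
      rw [e2]
      ring
    have hfix' : M *ᵥ y = y := by
      have e3 : M *ᵥ y = - y := eq_neg_of_add_eq_zero_left hfix
      rw [e3]
      funext j
      simp only [Pi.neg_apply]
      exact CharTwo.neg_eq (y j)
    have hlamy : lam y = 0 := by
      simp only [hlam, hfix', sub_self]
    have hℓy : ℓ0 y = 0 := by
      have := hℓ0 y
      rw [hlamy] at this
      exact mul_self_eq_zero.mp this
    have hay : sB m F a y = 0 := by rw [haℓ, hℓy]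
    have e4 : sB m F y (M *ᵥ a) = sB m F (M *ᵥ y) (M *ᵥ a) := by rw [hfix']
    rw [e4, hinv, sB_skew, hay, neg_zero]
  obtain ⟨b, hb⟩ := hrange
  have hb' : M *ᵥ b + b = M *ᵥ a := by
    have : (M + 1) *ᵥ b = M *ᵥ a := hb
    rwa [Matrix.add_mulVec, Matrix.one_mulVec] at this
  refine ⟨(sB0 m F + LinearMap.BilinForm.linMulLin (sB m F b) (sB m F b)).toQuadraticMap, ?_, ?_⟩
  · intro u v
    rw [LinearMap.BilinMap.polar_toQuadraticMap]
    simp only [LinearMap.add_apply, LinearMap.BilinForm.linMulLin_apply]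
    rw [← sB_apply, ← sB0_add_flip u v]
    linear_combination (sB m F b u * sB m F b v) * h2
  · intro v
    rw [LinearMap.BilinMap.toQuadraticMap_apply, LinearMap.BilinMap.toQuadraticMap_apply]
    simp only [LinearMap.add_apply, LinearMap.BilinForm.linMulLin_apply]
    have e1 : lam v = sB0 m F (M *ᵥ v) (M *ᵥ v) - sB0 m F v v := rfl
    have e2 := hℓ0 v
    have e3 : ℓ0 v + sB m F b (M *ᵥ v) + sB m F b v = 0 := by
      rw [← haℓ, ← hinv a v, ← hinv b v, ← hb']
      simp only [map_add, LinearMap.add_apply]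
      have e5 : (sB m F (M *ᵥ b) (M *ᵥ v)) + (sB m F (M *ᵥ b) (M *ᵥ v)) = 0 :=
        CharTwo.add_self_eq_zero _
      have e6 : (sB m F b (M *ᵥ v)) + (sB m F b (M *ᵥ v)) = 0 :=
        CharTwo.add_self_eq_zero _
      linear_combination e5 + e6
    have e7 : ℓ0 v = - sB m F b (M *ᵥ v) - sB m F b v := by linear_combination e3
    rw [e7] at e2
    linear_combination -e1 - e2 + (sB m F b (M *ᵥ v) * sB m F b (M *ᵥ v) + sB m F b (M *ᵥ v) * sB m F b v) * h2

end Cfsg.Agent.S2585
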