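import Cfsg.Statements.S2586
import Cfsg.Agent.S2580

set_option autoImplicit false
open Cfsg

namespace Cfsg.Agent.S2586

theorem isConj_transpose_gen {F : Type*} [Field F] {ι : Type*} [Fintype ι] [DecidableEq ι]
    (A : Matrix ι ι F) : IsConj A A.transpose := by
  classical
  let e : ι ≃ Fin (Fintype.card ι) := Fintype.equivFin ι
  have h := Cfsg.Agent.S2580.isConj_transpose (Matrix.reindex e e A)
  have h2 := MonoidHom.map_isConj
    ((Matrix.reindexAlgEquiv F F e.symm : Matrix (Fin (Fintype.card ι)) (Fin (Fintype.card ι)) F ≃ₐ[F]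
      Matrix ι ι F) : Matrix (Fin (Fintype.card ι)) (Fin (Fintype.card ι)) F →* Matrix ι ι F) h
  have e1 : ((Matrix.reindexAlgEquiv F F e.symm : Matrix (Fin (Fintype.card ι)) (Fin (Fintype.card ι)) F ≃ₐ[F]
      Matrix ι ι F) : Matrix (Fin (Fintype.card ι)) (Fin (Fintype.card ι)) F →* Matrix ι ι F)
      (Matrix.reindex e e A) = A := by
    ext i j
    simp [Matrix.coe_reindexAlgEquiv]
  have e2 : ((Matrix.reindexAlgEquiv F F e.symm : Matrix (Fin (Fintype.card ι)) (Fin (Fintype.card ι)) F ≃ₐ[F]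
      Matrix ι ι F) : Matrix (Fin (Fintype.card ι)) (Fin (Fintype.card ι)) F →* Matrix ι ι F)
      (Matrix.reindex e e A).transpose = A.transpose := by
    ext i j
    simp [Matrix.coe_reindexAlgEquiv]
  rwa [e1, e2] at h2

/-- Over a finite field, every element of the symplectic group Sp_2m(F) is conjugate by an invertible matrix to its inverse. -/
theorem result {F : Type*} [Field F] [Finite F] {m : ℕ} (A : Matrix.symplecticGroup (Fin m) F) : IsConj (A : Matrix (Fin m ⊕ Fin m) (Fin m ⊕ Fin m) F) ((A⁻¹ : Matrix.symplecticGroup (Fin m) F) : Matrix (Fin m ⊕ Fin m) (Fin m ⊕ Fin m) F) := by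
  classical
  have h1 : IsConj (A : Matrix (Fin m ⊕ Fin m) (Fin m ⊕ Fin m) F)
      (A : Matrix (Fin m ⊕ Fin m) (Fin m ⊕ Fin m) F).transpose := isConj_transpose_gen _
  refine h1.trans ?_
  have hJJ : Matrix.J (Fin m) F * Matrix.J (Fin m) F = -1 := Matrix.J_squared (Fin m) F
  have hJ : IsUnit (-(Matrix.J (Fin m) F)) := by
    refine IsUnit.of_mul_eq_one (Matrix.J (Fin m) F) ?_
    rw [neg_mul, hJJ, neg_neg]
  obtain ⟨c, hc⟩ := hJ
  refine ⟨c, ?_⟩
  show (c : Matrix (Fin m ⊕ Fin m) (Fin m ⊕ Fin m) F) * (A : Matrix (Fin m ⊕ Fin m) (Fin m ⊕ Fin m) F).transpose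
    = ((A⁻¹ : Matrix.symplecticGroup (Fin m) F) : Matrix (Fin m ⊕ Fin m) (Fin m ⊕ Fin m) F) * c
  rw [hc, SymplecticGroup.coe_inv, Matrix.mul_assoc, Matrix.mul_neg, hJJ, neg_neg, Matrix.mul_one]

end Cfsg.Agent.S2586
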