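import Cfsg.Statements.S2588
import Mathlib
import Cfsg.Agent.Lib.Helper40.HermDiag

set_option autoImplicit false
open Cfsg

namespace Cfsg.Agent.S2588
/-- An invertible matrix A over the field with q² elements is conjugate in GL_n(q²) to an element of the general unitary group GU_n(q) (isometries of the Hermitian form Σ u_i v_i^q) if and only if A is similar to the inverse transpose of its entrywise q-th power (A ~ A^(−qT), the image of A under the map sending a matrix to the inverse transpose of its entrywise q-th power — inverse transpose composed with the field automorphism — whose fixed points form GU_n(q)). -/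
theorem result {K : Type*} [Field K] [Fintype K] {q n : ℕ} (hK : Fintype.card K = q ^ 2) (A : GL (Fin n) K) : (∃ B : ↥(Cfsg.GU n K q), IsConj A (B : GL (Fin n) K)) ↔ IsConj (A : Matrix (Fin n) (Fin n) K) (((A : Matrix (Fin n) (Fin n) K).map (fun x : K => x ^ q)).transpose)⁻¹ := by
  classical
  obtain ⟨φ, hφ, hφ2, l, hl⟩ := Cfsg.Agent.Lib.Helper40.HermAdj.exists_phi hK
  have hmap : (A : Matrix (Fin n) (Fin n) K).map (fun x : K => x ^ q) =
      (A : Matrix (Fin n) (Fin n) K).map φ := by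
    ext i j
    simp [hφ]
  have hadjA : ((A : Matrix (Fin n) (Fin n) K).map (fun x : K => x ^ q)).transpose =
      Cfsg.Agent.Lib.Helper40.HermAdj.adj φ (A : Matrix (Fin n) (Fin n) K) := by
    rw [hmap]
    rfl
  rw [hadjA]
  obtain ⟨Am, hAm⟩ : ∃ Am : Matrix (Fin n) (Fin n) K, Am = (A : Matrix (Fin n) (Fin n) K) :=
    ⟨_, rfl⟩
  have hAu : IsUnit Am := by rw [hAm]; exact A.isUnit
  obtain ⟨A', hAA'⟩ := hAu.exists_right_inv
  have hA'A : A' * Am = 1 := mul_eq_one_comm.mp hAA'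
  have hadjinv1 : Cfsg.Agent.Lib.Helper40.HermAdj.adj φ Am *
      Cfsg.Agent.Lib.Helper40.HermAdj.adj φ A' = 1 := by
    rw [← Cfsg.Agent.Lib.Helper40.HermAdj.adj_mul, hA'A, Cfsg.Agent.Lib.Helper40.HermAdj.adj_one]
  have hadjinv2 : Cfsg.Agent.Lib.Helper40.HermAdj.adj φ A' *
      Cfsg.Agent.Lib.Helper40.HermAdj.adj φ Am = 1 := by
    rw [← Cfsg.Agent.Lib.Helper40.HermAdj.adj_mul, hAA', Cfsg.Agent.Lib.Helper40.HermAdj.adj_one]
  have hinv : (Cfsg.Agent.Lib.Helper40.HermAdj.adj φ Am)⁻¹ =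
      Cfsg.Agent.Lib.Helper40.HermAdj.adj φ A' := Matrix.inv_eq_right_inv hadjinv1
  rw [← hAm, hinv]
  constructor
  · rintro ⟨B, hB⟩
    obtain ⟨g, hg⟩ := isConj_iff.mp hB
    have hBu := (Cfsg.Agent.Lib.Helper40.HermAdj.mem_GU_iff φ hφ (B : GL (Fin n) K)).mp B.2
    obtain ⟨gm, hgm⟩ : ∃ gm : Matrix (Fin n) (Fin n) K, gm = (g : Matrix (Fin n) (Fin n) K) :=
      ⟨_, rfl⟩
    obtain ⟨Bm, hBm⟩ : ∃ Bm : Matrix (Fin n) (Fin n) K,
        Bm = ((B : GL (Fin n) K) : Matrix (Fin n) (Fin n) K) := ⟨_, rfl⟩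
    rw [← hBm] at hBu
    have hconj : gm * Am = Bm * gm := by
      have h1 : g * A = (B : GL (Fin n) K) * g := by rw [← hg]; group
      have h2 := congrArg Units.val h1
      rw [Units.val_mul, Units.val_mul] at h2
      rw [hgm, hAm, hBm]
      exact h2
    have hgu : IsUnit gm := by rw [hgm]; exact g.isUnit
    obtain ⟨g', hgg'⟩ := hgu.exists_right_inv
    have hg'g : g' * gm = 1 := mul_eq_one_comm.mp hgg'
    have hX : Cfsg.Agent.Lib.Helper40.HermAdj.adj φ Am *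
        (Cfsg.Agent.Lib.Helper40.HermAdj.adj φ gm * gm) * Am =
        Cfsg.Agent.Lib.Helper40.HermAdj.adj φ gm * gm := by
      calc Cfsg.Agent.Lib.Helper40.HermAdj.adj φ Am *
            (Cfsg.Agent.Lib.Helper40.HermAdj.adj φ gm * gm) * Am
          = (Cfsg.Agent.Lib.Helper40.HermAdj.adj φ Am *
            Cfsg.Agent.Lib.Helper40.HermAdj.adj φ gm) * (gm * Am) := by simp only [mul_assoc]
        _ = (Cfsg.Agent.Lib.Helper40.HermAdj.adj φ gm *
            Cfsg.Agent.Lib.Helper40.HermAdj.adj φ Bm) * (Bm * gm) := by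
              rw [← Cfsg.Agent.Lib.Helper40.HermAdj.adj_mul, hconj,
                Cfsg.Agent.Lib.Helper40.HermAdj.adj_mul]
        _ = Cfsg.Agent.Lib.Helper40.HermAdj.adj φ gm *
            (Cfsg.Agent.Lib.Helper40.HermAdj.adj φ Bm * Bm) * gm := by simp only [mul_assoc]
        _ = Cfsg.Agent.Lib.Helper40.HermAdj.adj φ gm * gm := by rw [hBu, mul_one]
    have hXu : IsUnit (Cfsg.Agent.Lib.Helper40.HermAdj.adj φ gm * gm) := by
      apply IsUnit.mul _ hgu
      exact IsUnit.of_mul_eq_one (Cfsg.Agent.Lib.Helper40.HermAdj.adj φ g') (by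
        rw [← Cfsg.Agent.Lib.Helper40.HermAdj.adj_mul, hg'g,
          Cfsg.Agent.Lib.Helper40.HermAdj.adj_one])
    obtain ⟨Xu, hXu'⟩ := hXu
    refine ⟨Xu, ?_⟩
    show (Xu : Matrix (Fin n) (Fin n) K) * Am =
      Cfsg.Agent.Lib.Helper40.HermAdj.adj φ A' * (Xu : Matrix (Fin n) (Fin n) K)
    rw [hXu']
    calc Cfsg.Agent.Lib.Helper40.HermAdj.adj φ gm * gm * Am
        = (Cfsg.Agent.Lib.Helper40.HermAdj.adj φ A' * Cfsg.Agent.Lib.Helper40.HermAdj.adj φ Am) *
          (Cfsg.Agent.Lib.Helper40.HermAdj.adj φ gm * gm * Am) := by rw [hadjinv2, one_mul]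
      _ = Cfsg.Agent.Lib.Helper40.HermAdj.adj φ A' * (Cfsg.Agent.Lib.Helper40.HermAdj.adj φ Am *
          (Cfsg.Agent.Lib.Helper40.HermAdj.adj φ gm * gm) * Am) := by simp only [mul_assoc]
      _ = Cfsg.Agent.Lib.Helper40.HermAdj.adj φ A' *
          (Cfsg.Agent.Lib.Helper40.HermAdj.adj φ gm * gm) := by rw [hX]
  · rintro ⟨xu, hxu⟩
    have hxu' : (xu : Matrix (Fin n) (Fin n) K) * Am =
        Cfsg.Agent.Lib.Helper40.HermAdj.adj φ A' * (xu : Matrix (Fin n) (Fin n) K) := hxu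
    have hAx : Cfsg.Agent.Lib.Helper40.HermAdj.adj φ Am * (xu : Matrix (Fin n) (Fin n) K) * Am =
        (xu : Matrix (Fin n) (Fin n) K) := by
      rw [mul_assoc, hxu', ← mul_assoc, hadjinv1, one_mul]
    obtain ⟨z, hz, hzA⟩ := Cfsg.Agent.Lib.Helper40.HermDiag.gu_conj_core φ hφ2 l hl Am
      (xu : Matrix (Fin n) (Fin n) K) hAu xu.isUnit hAx
    obtain ⟨zu, hzu⟩ := hz
    have hmem : zu * A * zu⁻¹ ∈ Cfsg.GU n K q := by
      rw [Cfsg.Agent.Lib.Helper40.HermAdj.mem_GU_iff φ hφ, Units.val_mul, Units.val_mul, hzu,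
        ← hAm, Cfsg.Agent.Lib.Helper40.HermAdj.adj_mul, Cfsg.Agent.Lib.Helper40.HermAdj.adj_mul]
      have h1 : z * (zu⁻¹ : GL (Fin n) K).1 = 1 := by rw [← hzu]; exact zu.mul_inv
      calc Cfsg.Agent.Lib.Helper40.HermAdj.adj φ (zu⁻¹ : GL (Fin n) K).1 *
            (Cfsg.Agent.Lib.Helper40.HermAdj.adj φ Am * Cfsg.Agent.Lib.Helper40.HermAdj.adj φ z) *
            (z * Am * (zu⁻¹ : GL (Fin n) K).1)
          = Cfsg.Agent.Lib.Helper40.HermAdj.adj φ (zu⁻¹ : GL (Fin n) K).1 *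
            (Cfsg.Agent.Lib.Helper40.HermAdj.adj φ Am *
              (Cfsg.Agent.Lib.Helper40.HermAdj.adj φ z * z) * Am) *
            (zu⁻¹ : GL (Fin n) K).1 := by simp only [mul_assoc]
        _ = Cfsg.Agent.Lib.Helper40.HermAdj.adj φ (zu⁻¹ : GL (Fin n) K).1 *
            Cfsg.Agent.Lib.Helper40.HermAdj.adj φ z * (z * (zu⁻¹ : GL (Fin n) K).1) := by
              rw [hzA]
              simp only [mul_assoc]
        _ = 1 := by
              rw [h1, mul_one, ← Cfsg.Agent.Lib.Helper40.HermAdj.adj_mul, h1,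
                Cfsg.Agent.Lib.Helper40.HermAdj.adj_one]
    exact ⟨⟨zu * A * zu⁻¹, hmem⟩, isConj_iff.mpr ⟨zu, rfl⟩⟩

end Cfsg.Agent.S2588
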