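import Cfsg.Statements.S2589
import Mathlib
import Cfsg.Agent.Lib.Helper40.SympConj
import Cfsg.Agent.Lib.Helper40.SSConj

set_option autoImplicit false
open Cfsg

namespace Cfsg.Agent.S2589
/-- Two semisimple elements of the finite symplectic group Sp_2m(F) (elements of order prime to the characteristic) are conjugate in Sp_2m(F) if and only if they are conjugate in GL_2m(F). -/
theorem result {F : Type*} [Field F] [Fintype F] {p : ℕ} [Fact p.Prime] [CharP F p] {m : ℕ} (A B : Matrix.symplecticGroup (Fin m) F) (hA : (orderOf A).Coprime p) : IsConj A B ↔ IsConj (A : Matrix (Fin m ⊕ Fin m) (Fin m ⊕ Fin m) F) (B : Matrix (Fin m ⊕ Fin m) (Fin m ⊕ Fin m) F) := by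
  classical
  constructor
  · intro h
    obtain ⟨c, hc⟩ := isConj_iff.mp h
    have h1 : c * A = B * c := by rw [← hc]; group
    have h2 := congrArg Subtype.val h1
    have h3 : (c : Matrix (Fin m ⊕ Fin m) (Fin m ⊕ Fin m) F) * (c⁻¹ : Matrix.symplecticGroup (Fin m) F) = 1 :=
      congrArg Subtype.val (mul_inv_cancel c)
    have h4 : ((c⁻¹ : Matrix.symplecticGroup (Fin m) F) : Matrix (Fin m ⊕ Fin m) (Fin m ⊕ Fin m) F) * c = 1 :=
      congrArg Subtype.val (inv_mul_cancel c)
    exact ⟨⟨c, (c⁻¹ : Matrix.symplecticGroup (Fin m) F), h3, h4⟩, h2⟩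
  · rintro ⟨cu, hcu⟩
    have hpp : p.Prime := Fact.out
    have hN : ((orderOf A : ℕ) : F) ≠ 0 := by
      intro h0
      have h1 := (CharP.cast_eq_zero_iff F p (orderOf A)).mp h0
      have h2 : p ∣ Nat.gcd (orderOf A) p := Nat.dvd_gcd h1 dvd_rfl
      rw [Nat.Coprime.gcd_eq_one hA] at h2
      exact hpp.one_lt.ne' (Nat.dvd_one.mp h2)
    have hAN : (A : Matrix (Fin m ⊕ Fin m) (Fin m ⊕ Fin m) F) ^ orderOf A = 1 := by
      have h1 := congrArg Subtype.val (pow_orderOf_eq_one A)
      exact h1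
    exact Cfsg.Agent.Lib.Helper40.SympConj.symp_conj A B (orderOf A) hN hAN cu cu.isUnit hcu

end Cfsg.Agent.S2589
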