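import Cfsg.Statements.S2592
-- import your own Cfsg.Agent.* helpers here
import Cfsg.Agent.Lib.Helper43.SkewNilp
import Cfsg.Agent.Lib.Helper43.RegUnip
import Cfsg.Agent.Lib.Helper43.FinFieldPow

set_option autoImplicit false
open Cfsg

namespace Cfsg.Agent.S2592

open Matrix Cfsg.Agent.Lib.Helper43.RegNilpComm Cfsg.Agent.Lib.Helper43.PolyMatMore
  Cfsg.Agent.Lib.Helper43.SpAdj Cfsg.Agent.Lib.Helper43.SkewNilp Cfsg.Agent.Lib.Helper43.RegUnip

/-- for a regular unipotent `u` in `Sp`, `u - u⁻¹` is a skew regular nilpotent matrix -/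
theorem hyp_of_regular {F : Type*} [Field F] {m : ℕ} (hm : 1 ≤ m) (h2 : (2 : F) ≠ 0)
    (u : Matrix.symplecticGroup (Fin m) F)
    (hnil : ((u : Matrix (Fin m ⊕ Fin m) (Fin m ⊕ Fin m) F) - 1) ^ (2 * m) = 0)
    (hreg : ((u : Matrix (Fin m ⊕ Fin m) (Fin m ⊕ Fin m) F) - 1).rank = 2 * m - 1) :
    Hyp ((u : Matrix (Fin m ⊕ Fin m) (Fin m ⊕ Fin m) F) -
      adj (u : Matrix (Fin m ⊕ Fin m) (Fin m ⊕ Fin m) F)) := by
  have hcard : Fintype.card (Fin m ⊕ Fin m) = 2 * m := by simp [two_mul]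
  obtain ⟨U, hU⟩ : ∃ U : Matrix (Fin m ⊕ Fin m) (Fin m ⊕ Fin m) F,
      U = (u : Matrix (Fin m ⊕ Fin m) (Fin m ⊕ Fin m) F) := ⟨_, rfl⟩
  rw [← hU] at hnil hreg ⊢
  have hUi : adj U * U = 1 := by
    rw [hU]
    exact (mem_symplectic_iff _).1 u.2
  have hUi' : U * adj U = 1 := mul_eq_one_comm.1 hUi
  have hfact : U - adj U = (U - 1) * (1 + adj U) := by
    rw [Matrix.sub_mul, Matrix.mul_add, Matrix.mul_one, hUi', Matrix.one_mul]
    abel
  have hcomm : Commute (U - 1) (1 + adj U) := by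
    show (U - 1) * (1 + adj U) = (1 + adj U) * (U - 1)
    rw [Matrix.sub_mul, Matrix.mul_add, Matrix.mul_one, hUi', Matrix.one_mul, Matrix.mul_sub,
      Matrix.add_mul, Matrix.one_mul, hUi, Matrix.mul_one]
  have hdetW : IsUnit (1 + adj U).det := by
    have h1 : 1 + adj U = adj U * ((2 : F) • (1 : Matrix (Fin m ⊕ Fin m) (Fin m ⊕ Fin m) F) +
        (U - 1)) := by
      rw [Matrix.mul_add, Matrix.mul_smul, Matrix.mul_one, Matrix.mul_sub, hUi, Matrix.mul_one,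
        two_smul]
      abel
    rw [h1, Matrix.det_mul,
      det_smul_one_add_of_isNilpotent (2 : F) (U - 1) ⟨2 * m, hnil⟩]
    apply IsUnit.mul
    · have h3 := congrArg Matrix.det hUi
      rw [Matrix.det_mul, Matrix.det_one] at h3
      exact IsUnit.of_mul_eq_one _ h3
    · exact IsUnit.mk0 _ (pow_ne_zero _ h2)
  refine ⟨?_, ?_, ?_, ?_, h2⟩
  · rw [hfact, hcomm.mul_pow, hcard, hnil, Matrix.zero_mul]
  · rw [hfact, Matrix.rank_mul_eq_left_of_isUnit_det _ _ hdetW, hcard, hreg]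
  · rw [hcard]
    omega
  · rw [adj_sub, adj_adj]
    abel

theorem card_centralizer_eq {F : Type*} [Field F] {m : ℕ}
    (u : Matrix.symplecticGroup (Fin m) F)
    (h : Hyp ((u : Matrix (Fin m ⊕ Fin m) (Fin m ⊕ Fin m) F) -
      adj (u : Matrix (Fin m ⊕ Fin m) (Fin m ⊕ Fin m) F))) :
    Nat.card ↥(Subgroup.centralizer ({u} : Set ↥(Matrix.symplecticGroup (Fin m) F))) =
      Nat.card {X : Matrix (Fin m ⊕ Fin m) (Fin m ⊕ Fin m) F //
        Commute X ((u : Matrix (Fin m ⊕ Fin m) (Fin m ⊕ Fin m) F) -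
          adj (u : Matrix (Fin m ⊕ Fin m) (Fin m ⊕ Fin m) F)) ∧ adj X * X = 1} := by
  have hUi : adj (u : Matrix (Fin m ⊕ Fin m) (Fin m ⊕ Fin m) F) *
      (u : Matrix (Fin m ⊕ Fin m) (Fin m ⊕ Fin m) F) = 1 := (mem_symplectic_iff _).1 u.2
  have hUi' : (u : Matrix (Fin m ⊕ Fin m) (Fin m ⊕ Fin m) F) *
      adj (u : Matrix (Fin m ⊕ Fin m) (Fin m ⊕ Fin m) F) = 1 := mul_eq_one_comm.1 hUi
  have hmem : ∀ g : ↥(Subgroup.centralizer ({u} : Set ↥(Matrix.symplecticGroup (Fin m) F))),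
      Commute ((g : Matrix.symplecticGroup (Fin m) F) : Matrix (Fin m ⊕ Fin m) (Fin m ⊕ Fin m) F)
        ((u : Matrix (Fin m ⊕ Fin m) (Fin m ⊕ Fin m) F) -
          adj (u : Matrix (Fin m ⊕ Fin m) (Fin m ⊕ Fin m) F)) := by
    intro g
    have h1 : u * (g : Matrix.symplecticGroup (Fin m) F) = (g : Matrix.symplecticGroup (Fin m) F) * u :=
      (Subgroup.mem_centralizer_iff.1 g.2) u rfl
    have h2 : (u : Matrix (Fin m ⊕ Fin m) (Fin m ⊕ Fin m) F) *
        ((g : Matrix.symplecticGroup (Fin m) F) : Matrix (Fin m ⊕ Fin m) (Fin m ⊕ Fin m) F) =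
        ((g : Matrix.symplecticGroup (Fin m) F) : Matrix (Fin m ⊕ Fin m) (Fin m ⊕ Fin m) F) *
        (u : Matrix (Fin m ⊕ Fin m) (Fin m ⊕ Fin m) F) := congrArg Subtype.val h1
    have h3 : Commute ((g : Matrix.symplecticGroup (Fin m) F) :
        Matrix (Fin m ⊕ Fin m) (Fin m ⊕ Fin m) F)
        (u : Matrix (Fin m ⊕ Fin m) (Fin m ⊕ Fin m) F) := h2.symm
    have h4 : Commute ((g : Matrix.symplecticGroup (Fin m) F) :
        Matrix (Fin m ⊕ Fin m) (Fin m ⊕ Fin m) F)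
        (adj (u : Matrix (Fin m ⊕ Fin m) (Fin m ⊕ Fin m) F)) :=
      (commute_of_inverse _ _ _ h3.symm hUi' hUi).symm
    exact h3.sub_right h4
  apply Nat.card_eq_of_bijective
    (fun g : ↥(Subgroup.centralizer ({u} : Set ↥(Matrix.symplecticGroup (Fin m) F))) =>
      (⟨((g : Matrix.symplecticGroup (Fin m) F) : Matrix (Fin m ⊕ Fin m) (Fin m ⊕ Fin m) F),
        hmem g, (mem_symplectic_iff _).1 g.1.2⟩ :
        {X : Matrix (Fin m ⊕ Fin m) (Fin m ⊕ Fin m) F //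
          Commute X ((u : Matrix (Fin m ⊕ Fin m) (Fin m ⊕ Fin m) F) -
            adj (u : Matrix (Fin m ⊕ Fin m) (Fin m ⊕ Fin m) F)) ∧ adj X * X = 1}))
  constructor
  · intro g g' hgg
    have h1 := congrArg Subtype.val hgg
    exact Subtype.ext (Subtype.ext h1)
  · rintro ⟨X, hX1, hX2⟩
    have hXmem : X ∈ Matrix.symplecticGroup (Fin m) F := (mem_symplectic_iff X).2 hX2
    have hMU : Commute ((u : Matrix (Fin m ⊕ Fin m) (Fin m ⊕ Fin m) F) -
        adj (u : Matrix (Fin m ⊕ Fin m) (Fin m ⊕ Fin m) F))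
        (u : Matrix (Fin m ⊕ Fin m) (Fin m ⊕ Fin m) F) := by
      show (_ - _) * _ = _ * (_ - _)
      rw [Matrix.sub_mul, Matrix.mul_sub, hUi, hUi']
    have hXU : Commute X (u : Matrix (Fin m ⊕ Fin m) (Fin m ⊕ Fin m) F) := by
      obtain ⟨p, rfl⟩ := exists_polyMat h X hX1
      unfold polyMat
      apply Commute.sum_left
      intro i _
      exact (hMU.pow_left _).smul_left _
    have hcen : (⟨X, hXmem⟩ : Matrix.symplecticGroup (Fin m) F) ∈
        Subgroup.centralizer ({u} : Set ↥(Matrix.symplecticGroup (Fin m) F)) := by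
      rw [Subgroup.mem_centralizer_iff]
      intro s hs
      rw [Set.mem_singleton_iff] at hs
      subst hs
      exact Subtype.ext hXU.eq.symm
    exact ⟨⟨⟨X, hXmem⟩, hcen⟩, rfl⟩

/-- Over a finite field with q elements, q odd, the centraliser in Sp_2m(F) (m ≥ 1) of a regular unipotent element (u − 1 nilpotent of rank 2m − 1) has order 2 q^m. -/
theorem result {F : Type*} [Field F] [Fintype F] {q : ℕ} (hF : Fintype.card F = q) (hq : Odd q) {m : ℕ} (hm : 1 ≤ m) (u : Matrix.symplecticGroup (Fin m) F) (hnil : ((u : Matrix (Fin m ⊕ Fin m) (Fin m ⊕ Fin m) F) - 1) ^ (2 * m) = 0) (hreg : ((u : Matrix (Fin m ⊕ Fin m) (Fin m ⊕ Fin m) F) - 1).rank = 2 * m - 1) : Nat.card ↥(Subgroup.centralizer ({u} : Set ↥(Matrix.symplecticGroup (Fin m) F))) = 2 * q ^ m := by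
  classical
  have h2 : (2 : F) ≠ 0 := by
    intro h
    have h1 := Cfsg.Agent.Lib.Helper43.FinFieldPow.neg_one_ne_one (F := F) (by rw [hF]; exact hq)
    apply h1
    linear_combination (-1 : F) * h
  have hH := hyp_of_regular hm h2 u hnil hreg
  rw [card_centralizer_eq u hH, card_unitary_centralizer hH m (by simp [two_mul]), hF]


end Cfsg.Agent.S2592
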