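import Cfsg.Statements.S2591
-- import your own Cfsg.Agent.* helpers here
import Cfsg.Agent.S2592
import Cfsg.Agent.Lib.Helper43.Shift

set_option autoImplicit false
open Cfsg

namespace Cfsg.Agent.S2591

open Matrix Cfsg.Agent.Lib.Helper43.RegNilpComm Cfsg.Agent.Lib.Helper43.PolyMatMore
  Cfsg.Agent.Lib.Helper43.SpAdj Cfsg.Agent.Lib.Helper43.SkewNilp Cfsg.Agent.Lib.Helper43.RegUnip
  Cfsg.Agent.Lib.Helper43.Shift

theorem isUnit_adj {F : Type*} [Field F] {l : Type*} [Fintype l] [DecidableEq l]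
    (X : Matrix (l ⊕ l) (l ⊕ l) F) (hX : IsUnit X) : IsUnit (adj X) := by
  rw [isUnit_iff_exists] at hX ⊢
  obtain ⟨Y, h1, h2⟩ := hX
  refine ⟨adj Y, ?_, ?_⟩
  · rw [← adj_mul, h2, adj_one]
  · rw [← adj_mul, h1, adj_one]

theorem adj_fromBlocks {F : Type*} [Field F] {l : Type*} [Fintype l] [DecidableEq l]
    (A B C D : Matrix l l F) :
    adj (fromBlocks A B C D) = fromBlocks Dᵀ (-Bᵀ) (-Cᵀ) Aᵀ := by
  unfold adj J
  rw [Matrix.fromBlocks_transpose, Matrix.fromBlocks_neg, Matrix.fromBlocks_multiply,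
    Matrix.fromBlocks_multiply]
  simp

/-- square roots of self-adjoint unipotent elements of the commutant -/
theorem exists_sqrt {F : Type*} [Field F] [Finite F] {l : Type*} [Fintype l] [DecidableEq l]
    {M : Matrix (l ⊕ l) (l ⊕ l) F} (h : Hyp M)
    (X : Matrix (l ⊕ l) (l ⊕ l) F) (hX : Commute X M) (hadj : adj X = X)
    (hnil : IsNilpotent (X - 1)) :
    ∃ Y : Matrix (l ⊕ l) (l ⊕ l) F, Commute Y M ∧ adj Y = Y ∧ Y * Y = X := by
  classical
  let S := {Y : Matrix (l ⊕ l) (l ⊕ l) F // Commute Y M ∧ adj Y = Y ∧ IsNilpotent (Y - 1)}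
  have hfin : Finite S := Subtype.finite
  have hmem : ∀ Y : S, Commute (Y.1 * Y.1) M ∧ adj (Y.1 * Y.1) = Y.1 * Y.1 ∧
      IsNilpotent (Y.1 * Y.1 - 1) := by
    intro Y
    refine ⟨Y.2.1.mul_left Y.2.1, by rw [adj_mul, Y.2.2.1], ?_⟩
    have h1 : Y.1 * Y.1 - 1 = (Y.1 - 1) * (Y.1 + 1) := by noncomm_ring
    rw [h1]
    have hc : Commute (Y.1 - 1) (Y.1 + 1) :=
      ((Commute.refl Y.1).sub_left (Commute.one_left _)).add_right (Commute.one_right _)
    exact Commute.isNilpotent_mul_right hc Y.2.2.2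
  let f : S → S := fun Y => ⟨Y.1 * Y.1, hmem Y⟩
  have hinj : Function.Injective f := by
    intro Y Z hYZ
    have h1 : Y.1 * Y.1 = Z.1 * Z.1 := congrArg Subtype.val hYZ
    have hc : Y.1 * Z.1 = Z.1 * Y.1 := commute_of_commute h _ _ Y.2.1 Z.2.1
    have h2 : (Y.1 + Z.1) * (Y.1 - Z.1) = 0 := by
      rw [Matrix.add_mul, Matrix.mul_sub, Matrix.mul_sub, h1, hc]
      abel
    have hu : IsUnit (Y.1 + Z.1) := by
      have h3 : Y.1 + Z.1 = (2 : F) • (1 : Matrix (l ⊕ l) (l ⊕ l) F) + ((Y.1 - 1) + (Z.1 - 1)) := by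
        rw [two_smul]
        abel
      rw [h3]
      have hc2 : Commute (Y.1 - 1) (Z.1 - 1) :=
        ((show Commute Y.1 Z.1 from hc).sub_left (Commute.one_left _)).sub_right
          (Commute.one_right _)
      have hn : IsNilpotent ((Y.1 - 1) + (Z.1 - 1)) :=
        Commute.isNilpotent_add hc2 Y.2.2.2 Z.2.2.2
      have hu2 : IsUnit ((2 : F) • (1 : Matrix (l ⊕ l) (l ⊕ l) F)) := by
        have h4 : (2 : F) • (1 : Matrix (l ⊕ l) (l ⊕ l) F) =
            algebraMap F (Matrix (l ⊕ l) (l ⊕ l) F) 2 := by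
          rw [Algebra.algebraMap_eq_smul_one]
        rw [h4]
        exact (IsUnit.mk0 (2 : F) h.h2).map _
      apply IsNilpotent.isUnit_add_left_of_commute hn hu2
      exact Commute.smul_right (Commute.one_right _) _
    have h4 : Y.1 - Z.1 = 0 := by
      apply hu.mul_left_cancel
      rw [h2, mul_zero]
    exact Subtype.ext (sub_eq_zero.1 h4)
  have hsurj := Finite.injective_iff_surjective.1 hinj
  obtain ⟨Y, hY⟩ := hsurj ⟨X, hX, hadj, hnil⟩
  exact ⟨Y.1, Y.2.1, Y.2.2.1, congrArg Subtype.val hY⟩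

theorem commute_M {F : Type*} [Field F] {l : Type*} [Fintype l] [DecidableEq l]
    (U : Matrix (l ⊕ l) (l ⊕ l) F) (hU : adj U * U = 1) : Commute (U - adj U) U := by
  have hU' : U * adj U = 1 := mul_eq_one_comm.1 hU
  show (_ - _) * _ = _ * (_ - _)
  rw [Matrix.sub_mul, Matrix.mul_sub, hU, hU']

theorem commute_of_commute_M {F : Type*} [Field F] {l : Type*} [Fintype l] [DecidableEq l]
    (U : Matrix (l ⊕ l) (l ⊕ l) F) (hU : adj U * U = 1) (h : Hyp (U - adj U))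
    (X : Matrix (l ⊕ l) (l ⊕ l) F) (hX : Commute X (U - adj U)) : Commute X U := by
  obtain ⟨p, rfl⟩ := exists_polyMat h X hX
  unfold polyMat
  apply Commute.sum_left
  intro i _
  exact ((commute_M U hU).pow_left _).smul_left _

theorem commute_M_of_commute {F : Type*} [Field F] {l : Type*} [Fintype l] [DecidableEq l]
    (U : Matrix (l ⊕ l) (l ⊕ l) F) (hU : adj U * U = 1)
    (X : Matrix (l ⊕ l) (l ⊕ l) F) (hX : Commute X U) : Commute X (U - adj U) := by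
  have hU' : U * adj U = 1 := mul_eq_one_comm.1 hU
  have h4 : Commute X (adj U) := (commute_of_inverse _ _ _ hX.symm hU' hU).symm
  exact hX.sub_right h4

theorem commute_adj_mul {F : Type*} [Field F] {l : Type*} [Fintype l] [DecidableEq l]
    (U U' P : Matrix (l ⊕ l) (l ⊕ l) F) (hU : adj U * U = 1) (hU' : adj U' * U' = 1)
    (hP : P * U = U' * P) : Commute (adj P * P) U := by
  have hUa : U * adj U = 1 := mul_eq_one_comm.1 hU
  have h1 : adj U * adj P = adj P * adj U' := by rw [← adj_mul, ← adj_mul, hP]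
  have h2 : adj P * U' = U * adj P := by
    calc adj P * U' = (U * adj U) * adj P * U' := by rw [hUa, Matrix.one_mul]
      _ = U * (adj U * adj P) * U' := by simp only [Matrix.mul_assoc]
      _ = U * (adj P * adj U') * U' := by rw [h1]
      _ = U * adj P * (adj U' * U') := by simp only [Matrix.mul_assoc]
      _ = U * adj P := by rw [hU', Matrix.mul_one]
  show adj P * P * U = U * (adj P * P)
  rw [Matrix.mul_assoc, hP, ← Matrix.mul_assoc, h2, Matrix.mul_assoc]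

theorem conj_inv_aux {F : Type*} [Field F] {l : Type*} [Fintype l] [DecidableEq l]
    (U U₁ G G' : Matrix (l ⊕ l) (l ⊕ l) F) (hG1 : G * G' = 1) (hG2 : G' * G = 1)
    (hGU : G * U = U₁ * G) : G' * U₁ = U * G' := by
  calc G' * U₁ = G' * U₁ * (G * G') := by rw [hG1, Matrix.mul_one]
    _ = G' * (U₁ * G) * G' := by simp only [Matrix.mul_assoc]
    _ = G' * (G * U) * G' := by rw [hGU]
    _ = (G' * G) * U * G' := by simp only [Matrix.mul_assoc]
    _ = U * G' := by rw [hG2, Matrix.one_mul]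

theorem exists_symp_conj {F : Type*} [Field F] [Finite F] {l : Type*} [Fintype l] [DecidableEq l]
    (U U₁ U' G P : Matrix (l ⊕ l) (l ⊕ l) F) (hU : adj U * U = 1)
    (h : Hyp (U - adj U)) (e s : F) (he : e ≠ 0) (hs : s ≠ 0)
    (hG : adj G * G = e • 1) (hGU : G * U = U₁ * G)
    (hPU : P * U = U' * P)
    (p : Fin (Fintype.card (l ⊕ l)) → F) (hp : adj P * P = polyMat (U - adj U) p)
    (hp0 : p ⟨0, h.hpos⟩ = e * s ^ 2) :
    ∃ H : Matrix (l ⊕ l) (l ⊕ l) F, adj H * H = 1 ∧ H * U₁ = U' * H := by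
  classical
  obtain ⟨M, hM⟩ : ∃ M : Matrix (l ⊕ l) (l ⊕ l) F, M = U - adj U := ⟨_, rfl⟩
  rw [← hM] at hp
  have h' : Hyp M := by rw [hM]; exact h
  have hne : e * s ^ 2 ≠ 0 := mul_ne_zero he (pow_ne_zero _ hs)
  obtain ⟨X₀, hX₀⟩ : ∃ X₀ : Matrix (l ⊕ l) (l ⊕ l) F, X₀ = (e * s ^ 2)⁻¹ • (adj P * P) :=
    ⟨_, rfl⟩
  have hX₀M : Commute X₀ M := by
    rw [hX₀, hp]
    exact (commute_polyMat M p).smul_left _
  have hX₀adj : adj X₀ = X₀ := by
    rw [hX₀, adj_smul, adj_mul, adj_adj]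
  have hX₀nil : IsNilpotent (X₀ - 1) := by
    have h1 : X₀ - 1 = (e * s ^ 2)⁻¹ •
        ∑ i ∈ Finset.univ.erase (⟨0, h.hpos⟩ : Fin (Fintype.card (l ⊕ l))), p i • M ^ (i : ℕ) := by
      rw [hX₀, hp, polyMat_eq_add M p h.hpos, hp0, smul_add, smul_smul, inv_mul_cancel₀ hne,
        one_smul, add_sub_cancel_left]
    rw [h1]
    exact (isNilpotent_tail M h'.hnil p h.hpos).smul _
  obtain ⟨Y, hYM, hYadj, hYY⟩ := exists_sqrt h' X₀ hX₀M hX₀adj hX₀nil
  have hX₀unit : IsUnit X₀ := by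
    have h1 : X₀ = (X₀ - 1) + 1 := by abel
    rw [h1]
    exact hX₀nil.isUnit_add_one
  have hYunit : IsUnit Y := by
    rw [← hYY] at hX₀unit
    exact ((Commute.refl Y).isUnit_mul_iff.1 hX₀unit).1
  obtain ⟨X, hX⟩ : ∃ X : Matrix (l ⊕ l) (l ⊕ l) F, X = s • Y := ⟨_, rfl⟩
  have hXunit : IsUnit X := by
    rw [hX, Matrix.isUnit_iff_isUnit_det, Matrix.det_smul]
    exact (IsUnit.mk0 _ (pow_ne_zero _ hs)).mul ((Matrix.isUnit_iff_isUnit_det _).1 hYunit)
  have hXM : Commute X M := by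
    rw [hX]
    exact hYM.smul_left s
  have hXU : Commute X U := commute_of_commute_M U hU h X (by rw [← hM]; exact hXM)
  have hXX : e • (adj X * X) = adj P * P := by
    rw [hX, adj_smul, hYadj, Matrix.smul_mul, Matrix.mul_smul, hYY, hX₀, smul_smul, smul_smul,
      smul_smul]
    have h1 : e * s * s * (e * s ^ 2)⁻¹ = 1 := by
      field_simp
    rw [h1, one_smul]
  have hGunit : IsUnit G := by
    rw [isUnit_iff_exists]
    have h1 : (e⁻¹ • adj G) * G = 1 := by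
      rw [Matrix.smul_mul, hG, smul_smul, inv_mul_cancel₀ he, one_smul]
    exact ⟨e⁻¹ • adj G, mul_eq_one_comm.1 h1, h1⟩
  obtain ⟨G', hG1, hG2⟩ := isUnit_iff_exists.1 hGunit
  obtain ⟨X', hX1, hX2⟩ := isUnit_iff_exists.1 hXunit
  have hX'U : Commute X' U := commute_of_inverse U X X' hXU hX1 hX2
  have hG'U : G' * U₁ = U * G' := conj_inv_aux U U₁ G G' hG1 hG2 hGU
  refine ⟨P * X' * G', ?_, ?_⟩
  · obtain ⟨H, hH⟩ : ∃ H : Matrix (l ⊕ l) (l ⊕ l) F, H = P * X' * G' := ⟨_, rfl⟩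
    rw [← hH]
    have h1 : H * G * X = P := by
      rw [hH]
      calc P * X' * G' * G * X = P * X' * (G' * G) * X := by simp only [Matrix.mul_assoc]
        _ = P * (X' * X) := by rw [hG2, Matrix.mul_one, Matrix.mul_assoc]
        _ = P := by rw [hX2, Matrix.mul_one]
    have h2 : adj X * (adj G * ((adj H * H) * (G * X))) = adj X * (adj G * (1 * (G * X))) := by
      have h3 : adj P * P = adj X * (adj G * ((adj H * H) * (G * X))) := by
        rw [← h1, adj_mul, adj_mul]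
        simp only [Matrix.mul_assoc]
      rw [← h3, ← hXX, Matrix.one_mul, ← Matrix.mul_assoc (adj G), hG, Matrix.smul_mul,
        Matrix.one_mul, Matrix.mul_smul]
    have h4 := (isUnit_adj G hGunit).mul_left_cancel ((isUnit_adj X hXunit).mul_left_cancel h2)
    exact (hGunit.mul hXunit).mul_right_cancel h4
  · calc P * X' * G' * U₁ = P * X' * (G' * U₁) := by rw [Matrix.mul_assoc]
      _ = P * (X' * U) * G' := by rw [hG'U]; simp only [Matrix.mul_assoc]
      _ = P * U * X' * G' := by rw [hX'U.eq]; simp only [Matrix.mul_assoc]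
      _ = U' * (P * X' * G') := by rw [hPU]; simp only [Matrix.mul_assoc]

theorem isSquare_of_conj {F : Type*} [Field F] {l : Type*} [Fintype l] [DecidableEq l]
    (U U₁ G H : Matrix (l ⊕ l) (l ⊕ l) F) (hU : adj U * U = 1)
    (h : Hyp (U - adj U)) (e : F) (he : e ≠ 0)
    (hG : adj G * G = e • 1) (hGU : G * U = U₁ * G)
    (hH : adj H * H = 1) (hHU : H * U = U₁ * H) : IsSquare e := by
  have h1 : (e⁻¹ • adj G) * G = 1 := by
    rw [Matrix.smul_mul, hG, smul_smul, inv_mul_cancel₀ he, one_smul]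
  have h1' : G * (e⁻¹ • adj G) = 1 := mul_eq_one_comm.1 h1
  obtain ⟨G', hG'⟩ : ∃ G' : Matrix (l ⊕ l) (l ⊕ l) F, G' = e⁻¹ • adj G := ⟨_, rfl⟩
  rw [← hG'] at h1 h1'
  have hG'U : G' * U₁ = U * G' := conj_inv_aux U U₁ G G' h1' h1 hGU
  obtain ⟨X, hX⟩ : ∃ X : Matrix (l ⊕ l) (l ⊕ l) F, X = G' * H := ⟨_, rfl⟩
  have hXU : Commute X U := by
    show X * U = U * X
    rw [hX, Matrix.mul_assoc, hHU, ← Matrix.mul_assoc, hG'U, Matrix.mul_assoc]
  have hXM : Commute X (U - adj U) := commute_M_of_commute U hU X hXU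
  have hXX : adj X * X = e⁻¹ • (1 : Matrix (l ⊕ l) (l ⊕ l) F) := by
    have h2 : adj G' = e⁻¹ • G := by rw [hG', adj_smul, adj_adj]
    rw [hX, adj_mul, h2]
    calc adj H * e⁻¹ • G * (G' * H) = e⁻¹ • (adj H * (G * G') * H) := by
          simp only [Matrix.mul_smul, Matrix.smul_mul, Matrix.mul_assoc]
      _ = e⁻¹ • 1 := by rw [h1', Matrix.mul_one, hH]
  obtain ⟨p, hp⟩ := exists_polyMat h X hXM
  obtain ⟨w, hw0, hw⟩ := exists_ker_ne_zero (U - adj U) h.hnil h.hpos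
  have h3 := congrArg (fun Z : Matrix (l ⊕ l) (l ⊕ l) F => Z *ᵥ w) hXX
  simp only [← Matrix.mulVec_mulVec] at h3
  rw [hp, polyMat_mulVec_ker _ p h.hpos w hw, Matrix.mulVec_smul, adj_polyMat h,
    polyMat_mulVec_ker _ _ h.hpos w hw, smul_smul, Matrix.smul_mulVec, Matrix.one_mulVec] at h3
  have h4 : p ⟨0, h.hpos⟩ * sgn p ⟨0, h.hpos⟩ = e⁻¹ := smul_left_injective F hw0 h3
  have h6 : sgn p ⟨0, h.hpos⟩ = p ⟨0, h.hpos⟩ := by simp [sgn]
  rw [h6] at h4
  exact ⟨(p ⟨0, h.hpos⟩)⁻¹, by rw [← mul_inv, h4, inv_inv]⟩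

theorem pow_fromBlocks_upper {F : Type*} [Field F] {l : Type*} [Fintype l] [DecidableEq l]
    (A B D : Matrix l l F) (k : ℕ) :
    ∃ X, (fromBlocks A B 0 D) ^ k = fromBlocks (A ^ k) X 0 (D ^ k) := by
  induction k with
  | zero => exact ⟨0, by simp [Matrix.fromBlocks_one]⟩
  | succ k ih =>
    obtain ⟨X, hX⟩ := ih
    refine ⟨A ^ k * B + X * D, ?_⟩
    rw [pow_succ, hX, Matrix.fromBlocks_multiply]
    simp [pow_succ]

/-- a skew regular nilpotent matrix -/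
def N0 (F : Type*) [Field F] (m : ℕ) (hm : 1 ≤ m) : Matrix (Fin m ⊕ Fin m) (Fin m ⊕ Fin m) F :=
  fromBlocks (shift F m) (Matrix.single ⟨m - 1, by omega⟩ ⟨m - 1, by omega⟩ 1) 0 (-(shift F m)ᵀ)

theorem adj_N0 {F : Type*} [Field F] (m : ℕ) (hm : 1 ≤ m) : adj (N0 F m hm) = -N0 F m hm := by
  unfold N0
  rw [adj_fromBlocks, Matrix.fromBlocks_neg]
  simp [Matrix.transpose_single]

theorem N0_pow {F : Type*} [Field F] (m : ℕ) (hm : 1 ≤ m) : (N0 F m hm) ^ (2 * m) = 0 := by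
  obtain ⟨X, hX⟩ := pow_fromBlocks_upper (shift F m)
    (Matrix.single (⟨m - 1, by omega⟩ : Fin m) (⟨m - 1, by omega⟩ : Fin m) (1 : F))
    (-(shift F m)ᵀ) m
  have h1 : (-(shift F m)ᵀ) ^ m = 0 := by
    rw [neg_pow, ← Matrix.transpose_pow, shift_pow_card, Matrix.transpose_zero, mul_zero]
  rw [shift_pow_card, h1] at hX
  have hX' : N0 F m hm ^ m = fromBlocks 0 X 0 0 := hX
  rw [two_mul, pow_add, hX', Matrix.fromBlocks_multiply]
  simp

theorem shift_transpose_mulVec {F : Type*} [Field F] (n : ℕ) (y : Fin n → F) (j : Fin n)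
    (hj : (j : ℕ) + 1 < n) : ((shift F n)ᵀ *ᵥ y) ⟨(j : ℕ) + 1, hj⟩ = y j := by
  simp only [Matrix.mulVec, dotProduct, Matrix.transpose_apply, shift]
  rw [Finset.sum_eq_single j]
  · simp
  · intro b _ hb
    have h1 : (j : ℕ) ≠ (b : ℕ) := fun h => hb (Fin.ext h.symm)
    simp [h1]
  · intro h
    exact absurd (Finset.mem_univ j) h

theorem N0_ker {F : Type*} [Field F] (m : ℕ) (hm : 1 ≤ m) (v : Fin m ⊕ Fin m → F)
    (hv : N0 F m hm *ᵥ v = 0) :
    v = v (Sum.inl ⟨0, by omega⟩) •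
      (Pi.single (Sum.inl ⟨0, by omega⟩) 1 : Fin m ⊕ Fin m → F) := by
  unfold N0 at hv
  rw [Matrix.fromBlocks_mulVec] at hv
  have hl : ∀ i : Fin m, (shift F m *ᵥ (v ∘ Sum.inl)) i +
      ((Matrix.single (⟨m - 1, by omega⟩ : Fin m) (⟨m - 1, by omega⟩ : Fin m) (1 : F)) *ᵥ
        (v ∘ Sum.inr)) i = 0 := fun i => congrFun hv (Sum.inl i)
  have hr : ∀ i : Fin m, ((0 : Matrix (Fin m) (Fin m) F) *ᵥ (v ∘ Sum.inl)) i +
      ((-(shift F m)ᵀ) *ᵥ (v ∘ Sum.inr)) i = 0 := fun i => congrFun hv (Sum.inr i)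
  have hy1 : ∀ j : Fin m, (j : ℕ) + 1 < m → v (Sum.inr j) = 0 := by
    intro j hj
    have h1 := hr ⟨(j : ℕ) + 1, hj⟩
    rw [Matrix.zero_mulVec, Pi.zero_apply, zero_add, Matrix.neg_mulVec, Pi.neg_apply,
      shift_transpose_mulVec, neg_eq_zero] at h1
    exact h1
  have hsingle : ∀ i : Fin m,
      ((Matrix.single (⟨m - 1, by omega⟩ : Fin m) (⟨m - 1, by omega⟩ : Fin m) (1 : F)) *ᵥ
        (v ∘ Sum.inr)) i = if i = ⟨m - 1, by omega⟩ then v (Sum.inr ⟨m - 1, by omega⟩) else 0 := by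
    intro i
    simp only [Matrix.mulVec, dotProduct, Matrix.single_apply, Function.comp_apply]
    by_cases hi : i = ⟨m - 1, by omega⟩
    · rw [if_pos hi, Finset.sum_eq_single (⟨m - 1, by omega⟩ : Fin m)]
      · simp [hi]
      · intro b _ hb
        simp [Ne.symm hb]
      · intro h
        exact absurd (Finset.mem_univ _) h
    · rw [if_neg hi]
      apply Finset.sum_eq_zero
      intro b _
      simp [Ne.symm hi]
  have hy2 : v (Sum.inr ⟨m - 1, by omega⟩) = 0 := by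
    have h1 := hl ⟨m - 1, by omega⟩
    rw [hsingle, if_pos rfl, shift_mulVec, dif_neg (by simp; omega), zero_add] at h1
    exact h1
  have hy : ∀ j : Fin m, v (Sum.inr j) = 0 := by
    intro j
    by_cases hj : (j : ℕ) + 1 < m
    · exact hy1 j hj
    · have h1 : j = ⟨m - 1, by omega⟩ := Fin.ext (by have := j.2; simp only; omega)
      rw [h1]
      exact hy2
  have hx : ∀ i : Fin m, (i : ℕ) + 1 < m → ∀ h : (i : ℕ) + 1 < m,
      v (Sum.inl ⟨(i : ℕ) + 1, h⟩) = 0 := by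
    intro i hi h
    have h1 := hl i
    rw [hsingle, shift_mulVec, dif_pos hi] at h1
    have h2 : (if i = (⟨m - 1, by omega⟩ : Fin m) then v (Sum.inr ⟨m - 1, by omega⟩) else 0) = 0 := by
      split_ifs
      · exact hy2
      · rfl
    rw [h2, add_zero] at h1
    exact h1
  funext a
  rcases a with i | j
  · by_cases hi : (i : ℕ) = 0
    · have h1 : i = ⟨0, by omega⟩ := Fin.ext hi
      rw [h1]
      simp
    · have h1 : ((i : ℕ) - 1) + 1 < m := by have := i.2; omega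
      have h2 := hx ⟨(i : ℕ) - 1, by omega⟩ h1 h1
      have h3 : (⟨((i : ℕ) - 1) + 1, h1⟩ : Fin m) = i := Fin.ext (by simp only; omega)
      rw [h3] at h2
      rw [h2]
      have h4 : i ≠ ⟨0, by omega⟩ := fun h => hi (by rw [h])
      simp [Pi.single_apply, h4]
  · rw [hy j]
    simp

theorem N0_rank {F : Type*} [Field F] (m : ℕ) (hm : 1 ≤ m) : (N0 F m hm).rank = 2 * m - 1 := by
  have hcard : Fintype.card (Fin m ⊕ Fin m) = 2 * m := by simp [two_mul]
  have h1 := Cfsg.Agent.Lib.Helper43.RegNilpMat.finrank_ker_mulVecLin (N0 F m hm)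
  obtain ⟨v₀, hv₀⟩ : ∃ v₀ : Fin m ⊕ Fin m → F,
      v₀ = (Pi.single (Sum.inl ⟨0, by omega⟩) 1 : Fin m ⊕ Fin m → F) := ⟨_, rfl⟩
  have hv₀ne : v₀ ≠ 0 := by
    intro h
    have h2 := congrFun h (Sum.inl ⟨0, by omega⟩)
    rw [hv₀] at h2
    simp at h2
  have hnil : N0 F m hm ^ Fintype.card (Fin m ⊕ Fin m) = 0 := by
    rw [hcard]
    exact N0_pow m hm
  obtain ⟨w, hw0, hw⟩ := exists_ker_ne_zero (N0 F m hm) hnil (by rw [hcard]; omega)
  have hw' := N0_ker m hm w hw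
  rw [← hv₀] at hw'
  obtain ⟨c, hcdef⟩ : ∃ c : F, c = w (Sum.inl ⟨0, by omega⟩) := ⟨_, rfl⟩
  rw [← hcdef] at hw'
  have hc : c ≠ 0 := by
    intro h
    rw [h, zero_smul] at hw'
    exact hw0 hw'
  have hv₀ker : N0 F m hm *ᵥ v₀ = 0 := by
    have h2 : v₀ = c⁻¹ • w := by
      rw [hw', smul_smul, inv_mul_cancel₀ hc, one_smul]
    rw [h2, Matrix.mulVec_smul, hw, smul_zero]
  have h2 : LinearMap.ker (Matrix.mulVecLin (N0 F m hm)) = Submodule.span F {v₀} := by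
    apply le_antisymm
    · intro v hv
      rw [LinearMap.mem_ker, Matrix.mulVecLin_apply] at hv
      have h3 := N0_ker m hm v hv
      rw [← hv₀] at h3
      rw [h3]
      exact Submodule.smul_mem _ _ (Submodule.mem_span_singleton_self _)
    · rw [Submodule.span_singleton_le_iff_mem, LinearMap.mem_ker, Matrix.mulVecLin_apply]
      exact hv₀ker
  rw [h2, finrank_span_singleton hv₀ne, hcard] at h1
  have h3 := Matrix.rank_le_card_width (N0 F m hm)
  rw [hcard] at h3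
  omega

theorem exists_regular {F : Type*} [Field F] (h2 : (2 : F) ≠ 0) {m : ℕ} (hm : 1 ≤ m) :
    ∃ u : Matrix.symplecticGroup (Fin m) F,
      ((u : Matrix (Fin m ⊕ Fin m) (Fin m ⊕ Fin m) F) - 1) ^ (2 * m) = 0 ∧
      ((u : Matrix (Fin m ⊕ Fin m) (Fin m ⊕ Fin m) F) - 1).rank = 2 * m - 1 := by
  obtain ⟨N, hN⟩ : ∃ N : Matrix (Fin m ⊕ Fin m) (Fin m ⊕ Fin m) F, N = N0 F m hm := ⟨_, rfl⟩
  have hnil : N ^ (2 * m) = 0 := by rw [hN]; exact N0_pow m hm
  have hadjN : adj N = -N := by rw [hN]; exact adj_N0 m hm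
  have hrank : N.rank = 2 * m - 1 := by rw [hN]; exact N0_rank m hm
  have hu1 : IsUnit (1 - N) := IsNilpotent.isUnit_one_sub ⟨_, hnil⟩
  obtain ⟨W, hW1, hW2⟩ := isUnit_iff_exists.1 hu1
  have hWN : Commute W N := by
    have h3 : Commute (1 - N) N := (Commute.one_left N).sub_left (Commute.refl N)
    exact commute_of_inverse N (1 - N) W h3 hW1 hW2
  have hadjW1 : adj W * (1 + N) = 1 := by
    have h3 := congrArg adj hW1
    rw [adj_mul, adj_sub, adj_one, hadjN, sub_neg_eq_add] at h3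
    exact h3
  obtain ⟨U, hU⟩ : ∃ U : Matrix (Fin m ⊕ Fin m) (Fin m ⊕ Fin m) F, U = (1 + N) * W := ⟨_, rfl⟩
  have hsymp : adj U * U = 1 := by
    rw [hU, adj_mul, adj_add, adj_one, hadjN]
    have hc : (1 + -N) * (1 + N) = (1 + N) * (1 - N) := by noncomm_ring
    calc adj W * (1 + -N) * ((1 + N) * W) = adj W * ((1 + -N) * (1 + N)) * W := by
          simp only [Matrix.mul_assoc]
      _ = (adj W * (1 + N)) * ((1 - N) * W) := by rw [hc]; simp only [Matrix.mul_assoc]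
      _ = 1 := by rw [hadjW1, hW1, Matrix.one_mul]
  have hU1 : U - 1 = N * ((2 : F) • W) := by
    have h3 : U - 1 = (1 + N) * W - (1 - N) * W := by rw [hW1, hU]
    rw [h3, ← Matrix.sub_mul, Matrix.mul_smul, ← Matrix.smul_mul]
    congr 1
    rw [two_smul]
    abel
  refine ⟨⟨U, (mem_symplectic_iff U).2 hsymp⟩, ?_, ?_⟩
  · show (U - 1) ^ (2 * m) = 0
    rw [hU1, (hWN.symm.smul_right _).mul_pow, hnil, Matrix.zero_mul]
  · show (U - 1).rank = 2 * m - 1
    have hdet : IsUnit ((2 : F) • W).det := by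
      rw [Matrix.det_smul]
      refine (IsUnit.mk0 _ (pow_ne_zero _ h2)).mul ?_
      have h3 := congrArg Matrix.det hW2
      rw [Matrix.det_mul, Matrix.det_one] at h3
      exact IsUnit.of_mul_eq_one _ h3
    rw [hU1, Matrix.rank_mul_eq_left_of_isUnit_det _ _ hdet, hrank]

/-- Over a finite field of odd order and for m ≥ 1, the regular unipotent elements of Sp_2m(F) (u − 1 nilpotent of rank 2m − 1, a single Jordan block) form exactly two conjugacy classes of Sp_2m(F) (one class under the similarity group, which splits in two). -/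
theorem result {F : Type*} [Field F] [Fintype F] {q : ℕ} (hF : Fintype.card F = q) (hq : Odd q) {m : ℕ} (hm : 1 ≤ m) : Nat.card {C : ConjClasses ↥(Matrix.symplecticGroup (Fin m) F) // ∃ u : Matrix.symplecticGroup (Fin m) F, ConjClasses.mk u = C ∧ ((u : Matrix (Fin m ⊕ Fin m) (Fin m ⊕ Fin m) F) - 1) ^ (2 * m) = 0 ∧ ((u : Matrix (Fin m ⊕ Fin m) (Fin m ⊕ Fin m) F) - 1).rank = 2 * m - 1} = 2 := by
  classical
  have h2 : (2 : F) ≠ 0 := by
    intro h
    have h1 := Cfsg.Agent.Lib.Helper43.FinFieldPow.neg_one_ne_one (F := F) (by rw [hF]; exact hq)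
    apply h1
    linear_combination (-1 : F) * h
  have hchar : ringChar F ≠ 2 := by
    intro h
    apply h2
    have h3 : ((2 : ℕ) : F) = 0 := by
      rw [← h]
      exact ringChar.Nat.cast_ringChar
    exact_mod_cast h3
  have hcard : Fintype.card (Fin m ⊕ Fin m) = 2 * m := by simp [two_mul]
  obtain ⟨u₀, hn₀, hr₀⟩ := exists_regular h2 hm
  have hH := Cfsg.Agent.S2592.hyp_of_regular hm h2 u₀ hn₀ hr₀
  have hU₀ : adj (u₀ : Matrix (Fin m ⊕ Fin m) (Fin m ⊕ Fin m) F) *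
      (u₀ : Matrix (Fin m ⊕ Fin m) (Fin m ⊕ Fin m) F) = 1 := (mem_symplectic_iff _).1 u₀.2
  obtain ⟨ε, hε⟩ := FiniteField.exists_nonsquare hchar
  have hε0 : ε ≠ 0 := by
    rintro rfl
    exact hε ⟨0, by simp⟩
  obtain ⟨G, hG⟩ : ∃ G : Matrix (Fin m ⊕ Fin m) (Fin m ⊕ Fin m) F,
      G = fromBlocks (ε • (1 : Matrix (Fin m) (Fin m) F)) 0 0 1 := ⟨_, rfl⟩
  have hGG : adj G * G = ε • (1 : Matrix (Fin m ⊕ Fin m) (Fin m ⊕ Fin m) F) := by
    rw [hG, adj_fromBlocks, Matrix.fromBlocks_multiply, ← Matrix.fromBlocks_one,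
      Matrix.fromBlocks_smul]
    simp
  obtain ⟨G', hG'⟩ : ∃ G' : Matrix (Fin m ⊕ Fin m) (Fin m ⊕ Fin m) F, G' = ε⁻¹ • adj G :=
    ⟨_, rfl⟩
  have hG'G : G' * G = 1 := by
    rw [hG', Matrix.smul_mul, hGG, smul_smul, inv_mul_cancel₀ hε0, one_smul]
  have hGG' : G * G' = 1 := mul_eq_one_comm.1 hG'G
  obtain ⟨U₁, hU₁def⟩ : ∃ U₁ : Matrix (Fin m ⊕ Fin m) (Fin m ⊕ Fin m) F,
      U₁ = G * (u₀ : Matrix (Fin m ⊕ Fin m) (Fin m ⊕ Fin m) F) * G' := ⟨_, rfl⟩
  have hGU : G * (u₀ : Matrix (Fin m ⊕ Fin m) (Fin m ⊕ Fin m) F) = U₁ * G := by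
    rw [hU₁def, Matrix.mul_assoc, hG'G, Matrix.mul_one]
  have hU₁ : adj U₁ * U₁ = 1 := by
    have h3 : adj G' = ε⁻¹ • G := by rw [hG', adj_smul, adj_adj]
    rw [hU₁def, adj_mul, adj_mul, h3]
    calc ε⁻¹ • G * (adj (u₀ : Matrix (Fin m ⊕ Fin m) (Fin m ⊕ Fin m) F) * adj G) *
          (G * (u₀ : Matrix (Fin m ⊕ Fin m) (Fin m ⊕ Fin m) F) * G')
        = ε⁻¹ • (G * adj (u₀ : Matrix (Fin m ⊕ Fin m) (Fin m ⊕ Fin m) F) * (adj G * G) *
          (u₀ : Matrix (Fin m ⊕ Fin m) (Fin m ⊕ Fin m) F) * G') := by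
          simp only [Matrix.smul_mul, Matrix.mul_assoc]
      _ = G * (adj (u₀ : Matrix (Fin m ⊕ Fin m) (Fin m ⊕ Fin m) F) *
          (u₀ : Matrix (Fin m ⊕ Fin m) (Fin m ⊕ Fin m) F)) * G' := by
          rw [hGG]
          simp only [Matrix.mul_smul, Matrix.smul_mul, Matrix.mul_one, Matrix.mul_assoc, smul_smul]
          rw [inv_mul_cancel₀ hε0, one_smul]
      _ = 1 := by rw [hU₀, Matrix.mul_one, hGG']
  let Gu : (Matrix (Fin m ⊕ Fin m) (Fin m ⊕ Fin m) F)ˣ := ⟨G, G', hGG', hG'G⟩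
  have hU₁sub : U₁ - 1 = G * ((u₀ : Matrix (Fin m ⊕ Fin m) (Fin m ⊕ Fin m) F) - 1) * G' := by
    rw [Matrix.mul_sub, Matrix.sub_mul, Matrix.mul_one, hGG', hU₁def]
  have hn₁ : (U₁ - 1) ^ (2 * m) = 0 := by
    have h3 := Units.conj_pow Gu ((u₀ : Matrix (Fin m ⊕ Fin m) (Fin m ⊕ Fin m) F) - 1) (2 * m)
    have h4 : (G * ((u₀ : Matrix (Fin m ⊕ Fin m) (Fin m ⊕ Fin m) F) - 1) * G') ^ (2 * m) =
        G * ((u₀ : Matrix (Fin m ⊕ Fin m) (Fin m ⊕ Fin m) F) - 1) ^ (2 * m) * G' := h3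
    rw [hU₁sub, h4, hn₀, Matrix.mul_zero, Matrix.zero_mul]
  have hGdet : IsUnit G.det := by
    have h3 := congrArg Matrix.det hGG'
    rw [Matrix.det_mul, Matrix.det_one] at h3
    exact IsUnit.of_mul_eq_one _ h3
  have hG'det : IsUnit G'.det := by
    have h3 := congrArg Matrix.det hG'G
    rw [Matrix.det_mul, Matrix.det_one] at h3
    exact IsUnit.of_mul_eq_one _ h3
  have hr₁ : (U₁ - 1).rank = 2 * m - 1 := by
    rw [hU₁sub, Matrix.rank_mul_eq_left_of_isUnit_det _ _ hG'det,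
      Matrix.rank_mul_eq_right_of_isUnit_det _ _ hGdet, hr₀]
  obtain ⟨u₁, hu₁⟩ : ∃ u₁ : Matrix.symplecticGroup (Fin m) F,
      (u₁ : Matrix (Fin m ⊕ Fin m) (Fin m ⊕ Fin m) F) = U₁ :=
    ⟨⟨U₁, (mem_symplectic_iff _).2 hU₁⟩, rfl⟩
  have hne : ConjClasses.mk u₀ ≠ ConjClasses.mk u₁ := by
    intro h
    rw [ConjClasses.mk_eq_mk_iff_isConj, isConj_iff] at h
    obtain ⟨c, hc⟩ := h
    have hc' : c * u₀ = u₁ * c := by
      rw [← hc]
      group
    have hc'' : (c : Matrix (Fin m ⊕ Fin m) (Fin m ⊕ Fin m) F) *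
        (u₀ : Matrix (Fin m ⊕ Fin m) (Fin m ⊕ Fin m) F) = U₁ *
        (c : Matrix (Fin m ⊕ Fin m) (Fin m ⊕ Fin m) F) := by
      rw [← hu₁]
      exact congrArg Subtype.val hc'
    exact hε (isSquare_of_conj _ U₁ G _ hU₀ hH ε hε0 hGG hGU ((mem_symplectic_iff _).1 c.2) hc'')
  have hset : {C : ConjClasses ↥(Matrix.symplecticGroup (Fin m) F) |
      ∃ u : Matrix.symplecticGroup (Fin m) F, ConjClasses.mk u = C ∧
        ((u : Matrix (Fin m ⊕ Fin m) (Fin m ⊕ Fin m) F) - 1) ^ (2 * m) = 0 ∧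
        ((u : Matrix (Fin m ⊕ Fin m) (Fin m ⊕ Fin m) F) - 1).rank = 2 * m - 1} =
      {ConjClasses.mk u₀, ConjClasses.mk u₁} := by
    ext C
    rw [Set.mem_insert_iff, Set.mem_singleton_iff, Set.mem_setOf_eq]
    constructor
    · rintro ⟨u', rfl, hn', hr'⟩
      obtain ⟨P, hPdet, hPN⟩ := exists_conj_of_regular
        ((u₀ : Matrix (Fin m ⊕ Fin m) (Fin m ⊕ Fin m) F) - 1)
        ((u' : Matrix (Fin m ⊕ Fin m) (Fin m ⊕ Fin m) F) - 1)
        (by rw [hcard]; exact hn₀) (by rw [hcard]; exact hr₀) (by rw [hcard]; exact hn')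
        (by rw [hcard]; exact hr') (by rw [hcard]; omega)
      have hPunit : IsUnit P := (Matrix.isUnit_iff_isUnit_det _).2 hPdet
      have hPU : P * (u₀ : Matrix (Fin m ⊕ Fin m) (Fin m ⊕ Fin m) F) =
          (u' : Matrix (Fin m ⊕ Fin m) (Fin m ⊕ Fin m) F) * P := by
        have h3 := hPN
        rw [Matrix.mul_sub, Matrix.sub_mul, Matrix.mul_one, Matrix.one_mul] at h3
        exact sub_left_injective h3
      have hU' : adj (u' : Matrix (Fin m ⊕ Fin m) (Fin m ⊕ Fin m) F) *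
          (u' : Matrix (Fin m ⊕ Fin m) (Fin m ⊕ Fin m) F) = 1 := (mem_symplectic_iff _).1 u'.2
      have hc := commute_adj_mul _ _ P hU₀ hU' hPU
      have hcM := commute_M_of_commute _ hU₀ _ hc
      obtain ⟨p, hp⟩ := exists_polyMat hH _ hcM
      have hp0 : p ⟨0, hH.hpos⟩ ≠ 0 := by
        rw [← isUnit_polyMat_iff _ hH.hnil p hH.hpos, ← hp]
        exact (isUnit_adj P hPunit).mul hPunit
      by_cases hsq : IsSquare (p ⟨0, hH.hpos⟩)
      · obtain ⟨s, hs⟩ := hsq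
        have hs0 : s ≠ 0 := by
          rintro rfl
          rw [mul_zero] at hs
          exact hp0 hs
        obtain ⟨H, hH1, hH2⟩ := exists_symp_conj _ _ _ 1 P hU₀ hH 1 s one_ne_zero hs0
          (by rw [adj_one, Matrix.one_mul, one_smul]) (by rw [Matrix.one_mul, Matrix.mul_one])
          hPU p hp (by rw [hs, one_mul, sq])
        left
        rw [ConjClasses.mk_eq_mk_iff_isConj, isConj_comm, isConj_iff]
        refine ⟨⟨H, (mem_symplectic_iff _).2 hH1⟩, ?_⟩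
        rw [mul_inv_eq_iff_eq_mul]
        exact Subtype.ext hH2
      · have hsq2 : IsSquare (p ⟨0, hH.hpos⟩ * ε) := by
          rw [← quadraticChar_one_iff_isSquare (mul_ne_zero hp0 hε0), map_mul,
            quadraticChar_neg_one_iff_not_isSquare.2 hsq,
            quadraticChar_neg_one_iff_not_isSquare.2 hε]
          norm_num
        obtain ⟨s, hs⟩ := hsq2
        have hs0 : s ≠ 0 := by
          rintro rfl
          rw [mul_zero] at hs
          exact (mul_ne_zero hp0 hε0) hs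
        obtain ⟨H, hH1, hH2⟩ := exists_symp_conj _ U₁ _ G P hU₀ hH ε (s / ε) hε0
          (div_ne_zero hs0 hε0) hGG hGU hPU p hp (by
            field_simp
            rw [hs, sq])
        right
        rw [ConjClasses.mk_eq_mk_iff_isConj, isConj_comm, isConj_iff]
        refine ⟨⟨H, (mem_symplectic_iff _).2 hH1⟩, ?_⟩
        rw [mul_inv_eq_iff_eq_mul]
        apply Subtype.ext
        show H * (u₁ : Matrix (Fin m ⊕ Fin m) (Fin m ⊕ Fin m) F) =
          (u' : Matrix (Fin m ⊕ Fin m) (Fin m ⊕ Fin m) F) * H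
        rw [hu₁]
        exact hH2
    · rintro (rfl | rfl)
      · exact ⟨u₀, rfl, hn₀, hr₀⟩
      · exact ⟨u₁, rfl, by rw [hu₁]; exact hn₁, by rw [hu₁]; exact hr₁⟩
  have key : Set.ncard {C : ConjClasses ↥(Matrix.symplecticGroup (Fin m) F) |
      ∃ u : Matrix.symplecticGroup (Fin m) F, ConjClasses.mk u = C ∧
        ((u : Matrix (Fin m ⊕ Fin m) (Fin m ⊕ Fin m) F) - 1) ^ (2 * m) = 0 ∧
        ((u : Matrix (Fin m ⊕ Fin m) (Fin m ⊕ Fin m) F) - 1).rank = 2 * m - 1} = 2 := by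
    rw [hset]
    exact Set.ncard_pair hne
  exact key

end Cfsg.Agent.S2591
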