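import Cfsg.Statements.S2594
-- import your own Cfsg.Agent.* helpers here
import Cfsg.Agent.Lib.Helper43.RankOne
import Cfsg.Agent.Lib.Helper5.SpCard
import Cfsg.Agent.S0271

set_option autoImplicit false
open Cfsg

namespace Cfsg.Agent.S2594

open Matrix Cfsg.Agent.Lib.Helper43.RankOne Cfsg.Agent.Lib.Helper13.SympMat

/-- an element of Sp with `t - 1 = a ⊗ lam` is a symplectic transvection -/
theorem exists_scalar {F : Type*} [Field F] {m : ℕ} (t : Matrix.symplecticGroup (Fin m) F)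
    (a lam : Fin m ⊕ Fin m → F) (ha : a ≠ 0) (hlam : lam ≠ 0)
    (ht : (t : Matrix (Fin m ⊕ Fin m) (Fin m ⊕ Fin m) F) = 1 + vecMulVec a lam) :
    ∃ (c : F) (y₁ : Fin m ⊕ Fin m → F), c ≠ 0 ∧ form m F y₁ a = 1 ∧
      ∀ x, lam ⬝ᵥ x = c * form m F x a := by
  have hmem := (mem_symp_iff m (t : Matrix (Fin m ⊕ Fin m) (Fin m ⊕ Fin m) F)).1 t.2
  have halt := form_alt m (F := F)
  have hkey : ∀ x y, (lam ⬝ᵥ y) * form m F x a = (lam ⬝ᵥ x) * form m F y a := by
    intro x y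
    have h1 := hmem x y
    rw [ht, one_add_vecMulVec_mulVec, one_add_vecMulVec_mulVec] at h1
    simp only [map_add, LinearMap.add_apply, map_smul, LinearMap.smul_apply, smul_eq_mul] at h1
    have h2 : form m F a a = 0 := halt a
    have h3 : form m F a y = - form m F y a := by
      have := halt.neg_eq y a
      rw [← this]
    rw [h2, h3] at h1
    linear_combination h1
  obtain ⟨y₀, hy₀⟩ : ∃ y, form m F y a ≠ 0 := by
    by_contra hcon
    have hcon' : ∀ y, form m F y a = 0 := fun y => not_not.1 (not_exists.1 hcon y)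
    apply ha
    have hnd := form_nondeg m (F := F)
    apply hnd.1 a
    intro y
    have h3 : form m F a y = - form m F y a := by
      have := halt.neg_eq y a
      rw [← this]
    rw [h3, hcon' y, neg_zero]
  refine ⟨lam ⬝ᵥ ((form m F y₀ a)⁻¹ • y₀), (form m F y₀ a)⁻¹ • y₀, ?_, ?_, ?_⟩
  · intro h0
    apply hlam
    funext j
    have h1 := hkey (Pi.single j 1) ((form m F y₀ a)⁻¹ • y₀)
    rw [h0, zero_mul] at h1
    have h2 : form m F ((form m F y₀ a)⁻¹ • y₀) a = 1 := by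
      rw [map_smul, LinearMap.smul_apply, smul_eq_mul, inv_mul_cancel₀ hy₀]
    rw [h2, mul_one] at h1
    simpa using h1.symm
  · rw [map_smul, LinearMap.smul_apply, smul_eq_mul, inv_mul_cancel₀ hy₀]
  · intro x
    have h1 := hkey x ((form m F y₀ a)⁻¹ • y₀)
    have h2 : form m F ((form m F y₀ a)⁻¹ • y₀) a = 1 := by
      rw [map_smul, LinearMap.smul_apply, smul_eq_mul, inv_mul_cancel₀ hy₀]
    rw [h2, mul_one] at h1
    exact h1.symm


theorem centralizer_eq_stabilizer {F : Type*} [Field F] [CharP F 2] {m : ℕ}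
    (t : Matrix.symplecticGroup (Fin m) F) (a : Fin m ⊕ Fin m → F) (ha : a ≠ 0) (c : F)
    (hc : c ≠ 0) (y₁ : Fin m ⊕ Fin m → F) (hy₁ : form m F y₁ a = 1)
    (ht : ∀ x, (t : Matrix (Fin m ⊕ Fin m) (Fin m ⊕ Fin m) F) *ᵥ x = x + (c * form m F x a) • a) :
    Subgroup.centralizer ({t} : Set (Matrix.symplecticGroup (Fin m) F)) =
      MulAction.stabilizer (Matrix.symplecticGroup (Fin m) F) a := by
  ext g
  rw [Subgroup.mem_centralizer_iff, MulAction.mem_stabilizer_iff]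
  have hg := (mem_symp_iff m (g : Matrix (Fin m ⊕ Fin m) (Fin m ⊕ Fin m) F)).1 g.2
  constructor
  · intro h
    have h1 : t * g = g * t := h t rfl
    have h2 : (t : Matrix (Fin m ⊕ Fin m) (Fin m ⊕ Fin m) F) *
        (g : Matrix (Fin m ⊕ Fin m) (Fin m ⊕ Fin m) F) =
        (g : Matrix (Fin m ⊕ Fin m) (Fin m ⊕ Fin m) F) *
        (t : Matrix (Fin m ⊕ Fin m) (Fin m ⊕ Fin m) F) := congrArg Subtype.val h1
    have h3 : ∀ x, form m F x a • ((g : Matrix (Fin m ⊕ Fin m) (Fin m ⊕ Fin m) F) *ᵥ a) =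
        form m F ((g : Matrix (Fin m ⊕ Fin m) (Fin m ⊕ Fin m) F) *ᵥ x) a • a := by
      intro x
      have h4 := congrArg (fun M : Matrix (Fin m ⊕ Fin m) (Fin m ⊕ Fin m) F => M *ᵥ x) h2
      simp only [← Matrix.mulVec_mulVec] at h4
      rw [ht, ht, Matrix.mulVec_add, Matrix.mulVec_smul] at h4
      have h5 := add_left_cancel h4
      rw [mul_smul, mul_smul] at h5
      exact (smul_right_injective _ hc h5).symm
    have h6 := h3 y₁
    rw [hy₁, one_smul] at h6
    set μ := form m F ((g : Matrix (Fin m ⊕ Fin m) (Fin m ⊕ Fin m) F) *ᵥ y₁) a with hμ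
    have h7 := hg y₁ a
    rw [h6, map_smul, smul_eq_mul, ← hμ, hy₁] at h7
    have h8 : μ = 1 := by
      have h9 : (μ - 1) * (μ - 1) = 0 := by
        have h2' : (2 : F) = 0 := CharP.cast_eq_zero F 2
        linear_combination h7 + (1 - μ) * h2'
      have h10 := mul_self_eq_zero.1 h9
      exact sub_eq_zero.1 h10
    show (g : Matrix (Fin m ⊕ Fin m) (Fin m ⊕ Fin m) F) *ᵥ a = a
    rw [h6, h8, one_smul]
  · intro h
    have h' : (g : Matrix (Fin m ⊕ Fin m) (Fin m ⊕ Fin m) F) *ᵥ a = a := h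
    intro s hs
    rw [Set.mem_singleton_iff] at hs
    subst hs
    apply Subtype.ext
    show (s : Matrix (Fin m ⊕ Fin m) (Fin m ⊕ Fin m) F) *
        (g : Matrix (Fin m ⊕ Fin m) (Fin m ⊕ Fin m) F) =
        (g : Matrix (Fin m ⊕ Fin m) (Fin m ⊕ Fin m) F) *
        (s : Matrix (Fin m ⊕ Fin m) (Fin m ⊕ Fin m) F)
    apply Matrix.toLin'.injective
    apply LinearMap.ext
    intro x
    rw [Matrix.toLin'_apply, Matrix.toLin'_apply, ← Matrix.mulVec_mulVec, ← Matrix.mulVec_mulVec,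
      ht, ht, Matrix.mulVec_add, Matrix.mulVec_smul, h']
    have h1 := hg x a
    rw [h'] at h1
    rw [h1]

theorem orbit_eq {F : Type*} [Field F] {m : ℕ} (a : Fin m ⊕ Fin m → F) (ha : a ≠ 0) :
    MulAction.orbit (Matrix.symplecticGroup (Fin m) F) a = {v | v ≠ 0} := by
  ext v
  constructor
  · rintro ⟨g, rfl⟩
    show g • a ≠ 0
    intro h0
    apply ha
    have h1 : g⁻¹ • (g • a) = a := inv_smul_smul g a
    rw [h0] at h1
    rw [← h1]
    show ((g⁻¹ : Matrix.symplecticGroup (Fin m) F) : Matrix (Fin m ⊕ Fin m) (Fin m ⊕ Fin m) F) *ᵥ 0 = 0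
    rw [Matrix.mulVec_zero]
  · intro hv
    obtain ⟨g, hg⟩ := Cfsg.Agent.S0271.result m a v ha hv
    exact ⟨g, hg⟩

/-- Over a finite field with q elements, q even, an element t of Sp_2m(F) with rank(t − 1) = 1 (a symplectic transvection) has centraliser in Sp_2m(F) of order q^(2m−1) · |Sp_(2m−2)(q)| = q^(2m−1) · q^((m−1)²) · Π_(i=1)^(m−1) (q^(2i) − 1). -/
theorem result {F : Type*} [Field F] [Fintype F] [CharP F 2] {q : ℕ} (hF : Fintype.card F = q) {m : ℕ} (hm : 1 ≤ m) (t : Matrix.symplecticGroup (Fin m) F) (ht : ((t : Matrix (Fin m ⊕ Fin m) (Fin m ⊕ Fin m) F) - 1).rank = 1) : Nat.card ↥(Subgroup.centralizer ({t} : Set ↥(Matrix.symplecticGroup (Fin m) F))) = q ^ (2 * m - 1) * (q ^ ((m - 1) ^ 2) * ∏ i : Fin (m - 1), (q ^ (2 * ((i : ℕ) + 1)) - 1)) := by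
  classical
  obtain ⟨a, lam, ha, hlam, hN⟩ := exists_vecMulVec_of_rank_one _ ht
  have ht' : (t : Matrix (Fin m ⊕ Fin m) (Fin m ⊕ Fin m) F) = 1 + vecMulVec a lam := by
    rw [← hN]
    abel
  obtain ⟨c, y₁, hc, hy₁, hl⟩ := exists_scalar t a lam ha hlam ht'
  have htx : ∀ x, (t : Matrix (Fin m ⊕ Fin m) (Fin m ⊕ Fin m) F) *ᵥ x = x + (c * form m F x a) • a := by
    intro x
    rw [ht', one_add_vecMulVec_mulVec, hl]
  rw [centralizer_eq_stabilizer t a ha c hc y₁ hy₁ htx]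
  have h1 : Nat.card (MulAction.orbit (Matrix.symplecticGroup (Fin m) F) a) *
      Nat.card (MulAction.stabilizer (Matrix.symplecticGroup (Fin m) F) a) =
      Nat.card (Matrix.symplecticGroup (Fin m) F) := by
    rw [← Nat.card_prod]
    exact Nat.card_congr (MulAction.orbitProdStabilizerEquivGroup _ a)
  have h2 : Nat.card (MulAction.orbit (Matrix.symplecticGroup (Fin m) F) a) = q ^ (2 * m) - 1 := by
    rw [orbit_eq a ha]
    have e1 : Nat.card ↥{v : Fin m ⊕ Fin m → F | v ≠ 0} = Nat.card (Fin m ⊕ Fin m → F) - 1 := by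
      rw [Nat.card_coe_set_eq]
      have e2 : {v : Fin m ⊕ Fin m → F | v ≠ 0} = Set.univ \ {0} := by
        ext v
        simp
      rw [e2, Set.ncard_sdiff_singleton_of_mem (Set.mem_univ _), Set.ncard_univ]
    rw [e1, Nat.card_eq_fintype_card, Fintype.card_fun, Fintype.card_sum, Fintype.card_fin, hF]
    congr 2
    ring
  rw [h2, Cfsg.Agent.Lib.Helper5.SpCard.card_symplectic, hF] at h1
  obtain ⟨k, rfl⟩ : ∃ k, m = k + 1 := ⟨m - 1, by omega⟩
  rw [Finset.prod_range_succ] at h1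
  have hq : 2 ≤ q := by
    rw [← hF]
    exact Fintype.one_lt_card
  have hpos : 0 < q ^ (2 * (k + 1)) - 1 := by
    have e1 : 2 ≤ q ^ (2 * (k + 1)) := le_trans hq (Nat.le_self_pow (by omega) q)
    omega
  have h3 : Nat.card (MulAction.stabilizer (Matrix.symplecticGroup (Fin (k + 1)) F) a) =
      q ^ ((k + 1) ^ 2) * ∏ i ∈ Finset.range k, (q ^ (2 * (i + 1)) - 1) := by
    apply Nat.eq_of_mul_eq_mul_left hpos
    rw [h1]
    ring
  rw [h3]
  change _ = q ^ (2 * (k + 1) - 1) * (q ^ (k ^ 2) * ∏ i : Fin k, (q ^ (2 * ((i : ℕ) + 1)) - 1))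
  rw [Finset.prod_range (fun i => q ^ (2 * (i + 1)) - 1)]
  have e3 : 2 * (k + 1) - 1 = 2 * k + 1 := by omega
  have e4 : (k + 1) ^ 2 = 2 * k + 1 + k ^ 2 := by ring
  rw [e3, e4, pow_add]
  ring


end Cfsg.Agent.S2594
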