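import Cfsg.Statements.S2599

set_option autoImplicit false
open Cfsg

namespace Cfsg.Agent.S2599

open Matrix

/-- An irreducible invariant subspace of a semisimple isometry is non-degenerate or totally singular: let Q be a quadratic form on F^n (F finite of characteristic p) with non-degenerate polar form f, x an isometry of Q of order prime to p, and U a non-zero x-invariant subspace containing no x-invariant subspace other than 0 and U. Then U meets its f-orthogonal trivially, or Q vanishes on U, or p = 2, U is a line spanned by a non-singular vector and x fixes U pointwise. -/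
theorem result {F : Type*} [Field F] [Fintype F] {p : ℕ} [Fact p.Prime] [CharP F p] {n : ℕ} (Q : QuadraticForm F (Fin n → F)) (hQ : (QuadraticMap.polarBilin Q).Nondegenerate) (x : ↥(Cfsg.isometryGroup F ⇑Q)) (hx : (orderOf x).Coprime p) (U : Submodule F (Fin n → F)) (hU0 : U ≠ ⊥) (hUx : ∀ u ∈ U, ((x : Matrix.GeneralLinearGroup (Fin n) F) : Matrix (Fin n) (Fin n) F).mulVec u ∈ U) (hirr : ∀ W : Submodule F (Fin n → F), W ≤ U → (∀ w ∈ W, ((x : Matrix.GeneralLinearGroup (Fin n) F) : Matrix (Fin n) (Fin n) F).mulVec w ∈ W) → W = ⊥ ∨ W = U) : U ⊓ LinearMap.BilinForm.orthogonal (QuadraticMap.polarBilin Q) U = ⊥ ∨ (∀ u ∈ U, Q u = 0) ∨ (p = 2 ∧ Module.finrank F U = 1 ∧ (∃ u ∈ U, Q u ≠ 0) ∧ ∀ u ∈ U, ((x : Matrix.GeneralLinearGroup (Fin n) F) : Matrix (Fin n) (Fin n) F).mulVec u = u) := by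
  classical
  set X : Matrix (Fin n) (Fin n) F := ((x : Matrix.GeneralLinearGroup (Fin n) F) : Matrix (Fin n) (Fin n) F) with hXdef
  have hXQ : ∀ v, Q (X *ᵥ v) = Q v := fun v => x.2 v v
  have hpolar : ∀ u v, QuadraticMap.polar Q (X *ᵥ u) (X *ᵥ v) = QuadraticMap.polar Q u v := by
    intro u v
    unfold QuadraticMap.polar
    rw [← Matrix.mulVec_add, hXQ, hXQ, hXQ]
  -- X restricted to U is surjective
  have hsurj : ∀ u ∈ U, ∃ u' ∈ U, X *ᵥ u' = u := by
    have hinj : Function.Injective ((Matrix.mulVecLin X).restrict hUx) := by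
      intro a b hab
      have h1 : X *ᵥ (a : Fin n → F) = X *ᵥ (b : Fin n → F) := congrArg Subtype.val hab
      have h2 : ((x : Matrix.GeneralLinearGroup (Fin n) F)⁻¹ : Matrix.GeneralLinearGroup (Fin n) F).1 * X = 1 := by
        have := (x : Matrix.GeneralLinearGroup (Fin n) F).inv_mul
        exact this
      have h3 := congrArg (fun w => ((x : Matrix.GeneralLinearGroup (Fin n) F)⁻¹ : Matrix.GeneralLinearGroup (Fin n) F).1 *ᵥ w) h1
      simp only [Matrix.mulVec_mulVec, h2, Matrix.one_mulVec] at h3
      exact Subtype.ext h3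
    have hsur := LinearMap.injective_iff_surjective.mp hinj
    intro u hu
    obtain ⟨u', hu'⟩ := hsur ⟨u, hu⟩
    exact ⟨u'.1, u'.2, congrArg Subtype.val hu'⟩
  -- first dichotomy
  have h1 := hirr (U ⊓ LinearMap.BilinForm.orthogonal (QuadraticMap.polarBilin Q) U) inf_le_left (by
    intro w hw
    obtain ⟨hwU, hwO⟩ := Submodule.mem_inf.mp hw
    refine Submodule.mem_inf.mpr ⟨hUx w hwU, ?_⟩
    rw [LinearMap.BilinForm.mem_orthogonal_iff]
    intro u hu
    obtain ⟨u', hu'U, rfl⟩ := hsurj u hu
    rw [QuadraticMap.polarBilin_apply_apply, hpolar]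
    rw [LinearMap.BilinForm.mem_orthogonal_iff] at hwO
    have h2 := hwO u' hu'U
    rwa [QuadraticMap.polarBilin_apply_apply] at h2)
  rcases h1 with h1 | h1
  · exact Or.inl h1
  right
  -- U is totally isotropic
  have hiso : ∀ u ∈ U, ∀ v ∈ U, QuadraticMap.polar Q u v = 0 := by
    intro u hu v hv
    have hv' : v ∈ U ⊓ LinearMap.BilinForm.orthogonal (QuadraticMap.polarBilin Q) U := by
      rw [h1]; exact hv
    have h2 := (Submodule.mem_inf.mp hv').2
    rw [LinearMap.BilinForm.mem_orthogonal_iff] at h2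
    have h3 := h2 u hu
    rwa [QuadraticMap.polarBilin_apply_apply] at h3
  -- the singular vectors of U form an invariant subspace
  let U0 : Submodule F (Fin n → F) :=
    { carrier := {u | u ∈ U ∧ Q u = 0}
      add_mem' := by
        rintro a b ⟨ha, ha0⟩ ⟨hb, hb0⟩
        refine ⟨U.add_mem ha hb, ?_⟩
        rw [QuadraticMap.map_add Q, ha0, hb0, hiso a ha b hb]
        simp
      zero_mem' := ⟨U.zero_mem, by simp⟩
      smul_mem' := by
        rintro c a ⟨ha, ha0⟩
        refine ⟨U.smul_mem c ha, ?_⟩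
        rw [QuadraticMap.map_smul, ha0]
        simp }
  have hU0mem : ∀ u, u ∈ U0 ↔ u ∈ U ∧ Q u = 0 := fun u => Iff.rfl
  have h2 := hirr U0 (fun u hu => hu.1) (by
    intro w hw
    exact ⟨hUx w hw.1, by rw [hXQ]; exact hw.2⟩)
  rcases h2 with h2 | h2
  swap
  · left
    intro u hu
    have : u ∈ U0 := by rw [h2]; exact hu
    exact this.2
  right
  -- nonzero vectors of U are nonsingular
  have hns : ∀ u ∈ U, Q u = 0 → u = 0 := by
    intro u hu hQu
    have : u ∈ U0 := ⟨hu, hQu⟩
    rw [h2] at this
    exact (Submodule.mem_bot F).mp this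
  obtain ⟨u0, hu0U, hu0⟩ := (Submodule.ne_bot_iff U).mp hU0
  have hQu0 : Q u0 ≠ 0 := fun h => hu0 (hns u0 hu0U h)
  -- p = 2
  have hp2 : p = 2 := by
    by_contra hp
    have h2ne : (2 : F) ≠ 0 := by
      intro h
      have h3 : ((2 : ℕ) : F) = 0 := by exact_mod_cast h
      rw [CharP.cast_eq_zero_iff F p 2] at h3
      have hp' := (Nat.prime_dvd_prime_iff_eq (Fact.out : p.Prime) Nat.prime_two).mp h3
      exact hp hp'
    have h4 : QuadraticMap.polar Q u0 u0 = 2 * Q u0 := by
      unfold QuadraticMap.polar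
      have : u0 + u0 = (2 : F) • u0 := by rw [two_smul]
      rw [this, QuadraticMap.map_smul]
      simp only [smul_eq_mul]
      ring
    rw [hiso u0 hu0U u0 hu0U] at h4
    rcases mul_eq_zero.mp h4.symm with h5 | h5
    · exact h2ne h5
    · exact hQu0 h5
  subst hp2
  have h2F : (2 : F) = 0 := CharTwo.two_eq_zero
  refine ⟨rfl, ?_, ⟨u0, hu0U, hQu0⟩, ?_⟩
  · -- U is spanned by u0
    have hspan : U = Submodule.span F {u0} := by
      apply le_antisymm
      · intro v hv
        set c := (frobeniusEquiv F 2).symm (Q v / Q u0) with hc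
        have hc2 : c * c = Q v / Q u0 := by
          have := frobeniusEquiv_symm_pow_p F 2 (Q v / Q u0)
          rw [sq] at this
          exact this
        have h5 : Q (v + c • u0) = 0 := by
          rw [QuadraticMap.map_add Q, QuadraticMap.map_smul, hiso v hv _ (U.smul_mem c hu0U),
            smul_eq_mul, hc2, div_mul_cancel₀ _ hQu0]
          linear_combination (Q v) * h2F
        have h6 := hns _ (U.add_mem hv (U.smul_mem c hu0U)) h5
        have h7 : v = (-c) • u0 := by
          rw [neg_smul]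
          exact eq_neg_of_add_eq_zero_left h6
        rw [h7]
        exact Submodule.smul_mem _ _ (Submodule.mem_span_singleton_self u0)
      · rw [Submodule.span_singleton_le_iff_mem]
        exact hu0U
    rw [hspan]
    exact finrank_span_singleton hu0
  · intro u hu
    have h5 : Q (X *ᵥ u + u) = 0 := by
      rw [QuadraticMap.map_add Q, hXQ, hiso _ (hUx u hu) u hu]
      linear_combination (Q u) * h2F
    have h6 := hns _ (U.add_mem (hUx u hu) hu) h5
    have h7 : X *ᵥ u = - u := eq_neg_of_add_eq_zero_left h6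
    rw [h7]
    funext j
    simp only [Pi.neg_apply]
    exact CharTwo.neg_eq (u j)

end Cfsg.Agent.S2599
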