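import Cfsg.Statements.S2601
-- import your own Cfsg.Agent.* helpers here
import Cfsg.Agent.Lib.Helper43.PSLnOut

set_option autoImplicit false
open Cfsg

namespace Cfsg.Agent.S2601

open Matrix Cfsg.Agent.Lib.Helper43.PSLnBasic Cfsg.Agent.Lib.Helper43.PSLnAuts
  Cfsg.Agent.Lib.Helper43.PSLnAll Cfsg.Agent.Lib.Helper43.PSLnOut

/-- Structure of the outer automorphism group of PSL_n(q), n ≥ 3, q = p^f: it has a normal cyclic subgroup of order gcd(n, q − 1) (the diagonal automorphisms) whose quotient is the direct product of a cyclic group of order f (field automorphisms) and a group of order 2 (the inverse-transpose graph automorphism). -/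
theorem result {F : Type*} [Field F] [Fintype F] {p f n : ℕ} [Fact p.Prime] (hf : 1 ≤ f) (hF : Fintype.card F = p ^ f) (hn : 3 ≤ n) : ∃ φ : Cfsg.Out (Matrix.ProjectiveSpecialLinearGroup (Fin n) F) →* Multiplicative (ZMod f × ZMod 2), Function.Surjective φ ∧ IsCyclic φ.ker ∧ Nat.card φ.ker = Nat.gcd n (p ^ f - 1) := by
  classical
  haveI : Nonempty (Fin n) := ⟨⟨0, by omega⟩⟩
  haveI hnorm : (cGL (F := F) (n := n)).range.Normal := normal_range_cGL hf hF hn
  obtain ⟨e₁, -⟩ := exists_kappa hf hF hn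
  obtain ⟨hcyc, hcard⟩ := ringAut_cyclic_card hf hF
  obtain ⟨e₂⟩ : Nonempty (RingAut F ≃* Multiplicative (ZMod f)) := by
    rw [← hcard]
    exact ⟨(zmodCyclicMulEquiv hcyc).symm⟩
  obtain ⟨e₃⟩ : Nonempty (Subgroup.zpowers
      (cτ : MulAut (Matrix.ProjectiveSpecialLinearGroup (Fin n) F)) ≃* Multiplicative (ZMod 2)) := by
    have h2 := card_zpowers_cτ (F := F) hn
    have hc : IsCyclic (Subgroup.zpowers
      (cτ : MulAut (Matrix.ProjectiveSpecialLinearGroup (Fin n) F))) := inferInstance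
    have e := (zmodCyclicMulEquiv hc).symm
    rw [h2] at e
    exact ⟨e⟩
  let e₄ : RingAut F × Subgroup.zpowers
      (cτ : MulAut (Matrix.ProjectiveSpecialLinearGroup (Fin n) F)) ≃*
      Multiplicative (ZMod f × ZMod 2) :=
    (MulEquiv.prodCongr e₂ e₃).trans (MulEquiv.prodMultiplicative (ZMod f) (ZMod 2)).symm
  have hle : Cfsg.Inn (Matrix.ProjectiveSpecialLinearGroup (Fin n) F) ≤
      (cGL (F := F) (n := n)).range := by
    rintro _ ⟨y, rfl⟩
    obtain ⟨s, rfl⟩ := pr_surjective y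
    exact ⟨Matrix.SpecialLinearGroup.toGL s, cGL_toGL s⟩
  let ρ : Cfsg.Out (Matrix.ProjectiveSpecialLinearGroup (Fin n) F) →*
      MulAut (Matrix.ProjectiveSpecialLinearGroup (Fin n) F) ⧸ (cGL (F := F) (n := n)).range :=
    QuotientGroup.map (Cfsg.Inn (Matrix.ProjectiveSpecialLinearGroup (Fin n) F))
      (cGL (F := F) (n := n)).range (MonoidHom.id _) (fun x hx => hle hx)
  have hρ : ∀ α : MulAut (Matrix.ProjectiveSpecialLinearGroup (Fin n) F),
      ρ (QuotientGroup.mk α) = QuotientGroup.mk α := fun α => rfl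
  have hρsurj : Function.Surjective ρ := by
    intro y
    obtain ⟨α, rfl⟩ := QuotientGroup.mk_surjective y
    exact ⟨QuotientGroup.mk α, hρ α⟩
  let φ : Cfsg.Out (Matrix.ProjectiveSpecialLinearGroup (Fin n) F) →*
      Multiplicative (ZMod f × ZMod 2) :=
    e₄.toMonoidHom.comp (e₁.symm.toMonoidHom.comp ρ)
  have hφ : ∀ y, φ y = e₄ (e₁.symm (ρ y)) := fun y => rfl
  let χ : GL (Fin n) F →* Cfsg.Out (Matrix.ProjectiveSpecialLinearGroup (Fin n) F) :=
    (QuotientGroup.mk' _).comp cGL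
  have hχ : ∀ g, χ g = QuotientGroup.mk (cGL g) := fun g => rfl
  have hker : φ.ker = χ.range := by
    ext y
    rw [MonoidHom.mem_ker, hφ, MulEquiv.map_eq_one_iff, MulEquiv.map_eq_one_iff]
    obtain ⟨α, rfl⟩ := QuotientGroup.mk_surjective y
    rw [hρ, QuotientGroup.eq_one_iff]
    constructor
    · rintro ⟨g, rfl⟩
      exact ⟨g, rfl⟩
    · rintro ⟨g, hg⟩
      have h1 : (QuotientGroup.mk (cGL g) :
          Cfsg.Out (Matrix.ProjectiveSpecialLinearGroup (Fin n) F)) = QuotientGroup.mk α := hg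
      rw [QuotientGroup.eq] at h1
      have h2 : α = cGL g * ((cGL g)⁻¹ * α) := by group
      rw [h2]
      exact mul_mem ⟨g, rfl⟩ (hle h1)
  have hχker : χ.ker = (powMonoidHom n : Fˣ →* Fˣ).range.comap Matrix.GeneralLinearGroup.det := by
    ext g
    rw [MonoidHom.mem_ker, Subgroup.mem_comap, ← cGL_mem_inn_iff (by omega), hχ,
      QuotientGroup.eq_one_iff]
  have hcardker : Nat.card φ.ker = Nat.gcd n (p ^ f - 1) := by
    rw [hker, ← Subgroup.index_ker, hχker,
      Subgroup.index_comap_of_surjective _ Matrix.GeneralLinearGroup.det_surjective,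
      IsCyclic.index_powMonoidHom_range, Nat.card_units, Nat.card_eq_fintype_card, hF,
      Nat.gcd_comm]
  refine ⟨φ, e₄.surjective.comp (e₁.symm.surjective.comp hρsurj), ?_, hcardker⟩
  rw [hker]
  obtain ⟨t₀, ht₀⟩ := (inferInstance : IsCyclic Fˣ).exists_zpow_surjective
  obtain ⟨g₀, hg₀⟩ := Matrix.GeneralLinearGroup.det_surjective (n := Fin n) t₀
  refine ⟨⟨⟨χ g₀, g₀, rfl⟩, ?_⟩⟩
  rintro ⟨_, g, rfl⟩
  obtain ⟨k, hk⟩ := ht₀ (Matrix.GeneralLinearGroup.det g)
  have hk' : t₀ ^ k = Matrix.GeneralLinearGroup.det g := hk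
  refine ⟨k, ?_⟩
  apply Subtype.ext
  show (((⟨χ g₀, g₀, rfl⟩ : χ.range) ^ k : χ.range) :
    Cfsg.Out (Matrix.ProjectiveSpecialLinearGroup (Fin n) F)) = χ g
  rw [Subgroup.coe_zpow]
  show χ g₀ ^ k = χ g
  rw [← map_zpow]
  have h3 : g * (g₀ ^ k)⁻¹ ∈ χ.ker := by
    rw [hχker, Subgroup.mem_comap, map_mul, map_inv, map_zpow, hg₀, hk', mul_inv_cancel]
    exact one_mem _
  have h5 := MonoidHom.mem_ker.1 h3
  rw [map_mul, map_inv, mul_inv_eq_one] at h5
  exact h5.symm

end Cfsg.Agent.S2601
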