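import Cfsg.Statements.S2602
-- import your own Cfsg.Agent.* helpers here
-- import your own Cfsg.Agent.* helpers here
import Cfsg.Agent.Lib.Helper43.PSL2Class

set_option autoImplicit false
open Cfsg

namespace Cfsg.Agent.S2602

open Matrix Cfsg.Agent.Lib.Helper43.SL2Mat Cfsg.Agent.Lib.Helper43.PSL2Basic
  Cfsg.Agent.Lib.Helper43.PSL2Auts Cfsg.Agent.Lib.Helper43.PSL2Class

theorem charP_of_card {F : Type*} [Field F] [Fintype F] {p f : ℕ} [Fact p.Prime] (hf : 1 ≤ f)
    (hF : Fintype.card F = p ^ f) : CharP F p := by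
  obtain ⟨p', hp'⟩ := CharP.exists F
  haveI := hp'
  obtain ⟨n, hn1, hn2⟩ := FiniteField.card F p'
  have h1 : p ∣ p' ^ (n : ℕ) := by
    rw [← hn2, hF]
    exact dvd_pow_self p (by omega)
  have h2 : p = p' :=
    (Nat.prime_dvd_prime_iff_eq (Fact.out) hn1).1 (Nat.Prime.dvd_of_dvd_pow Fact.out h1)
  rw [h2]
  exact hp'

theorem ringAut_cyclic_card {F : Type*} [Field F] [Fintype F] {p f : ℕ} [Fact p.Prime]
    (hf : 1 ≤ f) (hF : Fintype.card F = p ^ f) :
    IsCyclic (RingAut F) ∧ Nat.card (RingAut F) = f := by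
  haveI : CharP F p := charP_of_card hf hF
  letI : Algebra (ZMod p) F := ZMod.algebra F p
  let e : RingAut F ≃* (F ≃ₐ[ZMod p] F) :=
    { toFun := fun σ => AlgEquiv.ofRingEquiv (f := σ) (fun x =>
        RingHom.congr_fun (Subsingleton.elim ((σ : F →+* F).comp (algebraMap (ZMod p) F))
          (algebraMap (ZMod p) F)) x)
      invFun := fun τ => τ.toRingEquiv
      left_inv := fun σ => by
        ext x
        rfl
      right_inv := fun τ => by
        ext x
        rfl
      map_mul' := fun σ τ => by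
        ext x
        rfl }
  have hcyc : IsCyclic (F ≃ₐ[ZMod p] F) := inferInstance
  have hcard : Nat.card (F ≃ₐ[ZMod p] F) = f := by
    have h1 := FiniteField.bijective_frobeniusAlgEquivOfAlgebraic_pow (ZMod p) F
    have h2 := Nat.card_eq_of_bijective _ h1
    rw [Nat.card_eq_fintype_card, Fintype.card_fin] at h2
    have h3 : Module.finrank (ZMod p) F = f := by
      have h4 := Module.card_eq_pow_finrank (K := ZMod p) (V := F)
      rw [ZMod.card, hF] at h4
      exact (Nat.pow_right_injective (Fact.out : p.Prime).two_le h4).symm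
    rw [← h2, h3]
  exact ⟨isCyclic_of_surjective e.symm e.symm.surjective, by rw [Nat.card_congr e.toEquiv, hcard]⟩

theorem normal_range {F : Type*} [Field F] [Fintype F] {p f : ℕ} [Fact p.Prime] (hf : 1 ≤ f)
    (hF : Fintype.card F = p ^ f) : (cGL (F := F)).range.Normal := by
  constructor
  intro d hd α
  obtain ⟨g₀, rfl⟩ := hd
  obtain ⟨g, σ, rfl⟩ := classification hf hF α
  refine ⟨g * Matrix.GeneralLinearGroup.map (σ : F →+* F) g₀ * g⁻¹, ?_⟩
  rw [map_mul, map_mul, map_inv]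
  have h := cσ_mul_cGL σ g₀
  rw [mul_assoc (cGL g) (cσ σ), h]
  group

theorem mem_ker_iff {F : Type*} [Field F] (g : GL (Fin 2) F) :
    cGL g ∈ Cfsg.Inn (Matrix.ProjectiveSpecialLinearGroup (Fin 2) F) ↔
      Matrix.GeneralLinearGroup.det g ∈ (powMonoidHom 2 : Fˣ →* Fˣ).range := by
  constructor
  · rintro ⟨y, hy⟩
    obtain ⟨s, rfl⟩ := pr_surjective y
    have h1 : cGL ((Matrix.SpecialLinearGroup.toGL s)⁻¹ * g) = 1 := by
      rw [map_mul, map_inv, cGL_toGL]
      have hy' : MulAut.conj (pr s) = cGL g := hy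
      rw [hy', inv_mul_cancel]
    obtain ⟨g', hg'⟩ : ∃ g' : GL (Fin 2) F, g' = (Matrix.SpecialLinearGroup.toGL s)⁻¹ * g :=
      ⟨_, rfl⟩
    rw [← hg'] at h1
    obtain ⟨-, h01, h10, h00⟩ := cGL_eq_cσ_imp g' 1 (fun a => by rw [h1, map_one])
      (fun a => by rw [h1, map_one])
    have hdet : Matrix.GeneralLinearGroup.det g = Matrix.GeneralLinearGroup.det g' := by
      rw [hg', map_mul, map_inv, Matrix.SpecialLinearGroup.coeToGL_det, inv_one, one_mul]
    have h2 : ((Matrix.GeneralLinearGroup.det g' : Fˣ) : F) =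
        (g' : Matrix (Fin 2) (Fin 2) F) 0 0 ^ 2 := by
      rw [Matrix.GeneralLinearGroup.val_det_apply, Matrix.det_fin_two, h01, h10, ← h00]
      ring
    have h3 : (g' : Matrix (Fin 2) (Fin 2) F) 0 0 ≠ 0 := by
      intro h
      rw [h] at h2
      have h4 := (Matrix.GeneralLinearGroup.det g').ne_zero
      apply h4
      rw [h2]
      ring
    refine ⟨Units.mk0 _ h3, ?_⟩
    rw [hdet]
    apply Units.ext
    rw [h2]
    rfl
  · rintro ⟨t, ht⟩
    have ht' : t ^ 2 = Matrix.GeneralLinearGroup.det g := ht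
    obtain ⟨g', hg'⟩ : ∃ g' : GL (Fin 2) F,
        g' = Matrix.GeneralLinearGroup.scalar (Fin 2) t⁻¹ * g := ⟨_, rfl⟩
    have hdet : Matrix.GeneralLinearGroup.det g' = 1 := by
      rw [hg', map_mul, Matrix.GeneralLinearGroup.det_scalar, ← ht', Fintype.card_fin, inv_pow,
        inv_mul_cancel]
    have hdet' : (g' : Matrix (Fin 2) (Fin 2) F).det = 1 := by
      rw [← Matrix.GeneralLinearGroup.val_det_apply, hdet]
      rfl
    obtain ⟨s, hs⟩ : ∃ s : Matrix.SpecialLinearGroup (Fin 2) F,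
        (s : Matrix (Fin 2) (Fin 2) F) = (g' : Matrix (Fin 2) (Fin 2) F) := ⟨⟨_, hdet'⟩, rfl⟩
    have h1 : g = Matrix.GeneralLinearGroup.scalar (Fin 2) t *
        Matrix.SpecialLinearGroup.toGL s := by
      have h2 : Matrix.SpecialLinearGroup.toGL s = g' := Units.ext hs
      rw [h2, hg', ← mul_assoc, ← map_mul, mul_inv_cancel, map_one, one_mul]
    have h3 : cGL (Matrix.GeneralLinearGroup.scalar (Fin 2) t) =
        (1 : MulAut (Matrix.ProjectiveSpecialLinearGroup (Fin 2) F)) := by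
      apply cGL_eq_one_of_commute
      intro s
      rw [Matrix.GeneralLinearGroup.coe_scalar]
      exact (Matrix.scalar_commute (t : F) (fun r' => Commute.all _ _) _).eq
    rw [h1, map_mul, h3, one_mul, cGL_toGL]
    exact ⟨_, rfl⟩

/-- Structure of the outer automorphism group of PSL_2(q), q = p^f ≥ 4: it has a normal cyclic subgroup of order gcd(2, q − 1) (diagonal automorphisms) with cyclic quotient of order f (field automorphisms); there is no graph automorphism in dimension 2. -/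
theorem result {F : Type*} [Field F] [Fintype F] {p f : ℕ} [Fact p.Prime] (hf : 1 ≤ f) (hF : Fintype.card F = p ^ f) (h4 : 4 ≤ p ^ f) : ∃ φ : Cfsg.Out (Matrix.ProjectiveSpecialLinearGroup (Fin 2) F) →* Multiplicative (ZMod f), Function.Surjective φ ∧ IsCyclic φ.ker ∧ Nat.card φ.ker = Nat.gcd 2 (p ^ f - 1) := by
  classical
  have hnorm : (cGL (F := F)).range.Normal := normal_range hf hF
  let κ : RingAut F →* MulAut (Matrix.ProjectiveSpecialLinearGroup (Fin 2) F) ⧸ (cGL (F := F)).range :=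
    (QuotientGroup.mk' _).comp cσ
  have hκinj : Function.Injective κ := by
    rw [injective_iff_map_eq_one]
    intro σ hσ
    have h1 : cσ σ ∈ (cGL (F := F)).range := by
      rw [← QuotientGroup.eq_one_iff]
      exact hσ
    obtain ⟨g, hg⟩ := h1
    exact (cGL_eq_cσ_imp g σ (fun a => by rw [hg]) (fun a => by rw [hg])).1
  have hκsurj : Function.Surjective κ := by
    intro x
    obtain ⟨α, rfl⟩ := QuotientGroup.mk'_surjective _ x
    obtain ⟨g, σ, rfl⟩ := classification hf hF α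
    refine ⟨σ, ?_⟩
    show QuotientGroup.mk' _ (cσ σ) = QuotientGroup.mk' _ (cGL g * cσ σ)
    rw [map_mul]
    have h1 : QuotientGroup.mk' (cGL (F := F)).range (cGL g) = 1 :=
      (QuotientGroup.eq_one_iff _).2 ⟨g, rfl⟩
    rw [h1, one_mul]
  let e₁ : RingAut F ≃* MulAut (Matrix.ProjectiveSpecialLinearGroup (Fin 2) F) ⧸ (cGL (F := F)).range :=
    MulEquiv.ofBijective κ ⟨hκinj, hκsurj⟩
  obtain ⟨hcyc, hcard⟩ := ringAut_cyclic_card hf hF
  obtain ⟨e₂⟩ : Nonempty (RingAut F ≃* Multiplicative (ZMod f)) := by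
    rw [← hcard]
    exact ⟨(zmodCyclicMulEquiv hcyc).symm⟩
  have hle : Cfsg.Inn (Matrix.ProjectiveSpecialLinearGroup (Fin 2) F) ≤ (cGL (F := F)).range := by
    rintro _ ⟨y, rfl⟩
    obtain ⟨s, rfl⟩ := pr_surjective y
    exact ⟨Matrix.SpecialLinearGroup.toGL s, cGL_toGL s⟩
  let ρ : Cfsg.Out (Matrix.ProjectiveSpecialLinearGroup (Fin 2) F) →*
      MulAut (Matrix.ProjectiveSpecialLinearGroup (Fin 2) F) ⧸ (cGL (F := F)).range :=
    QuotientGroup.map (Cfsg.Inn (Matrix.ProjectiveSpecialLinearGroup (Fin 2) F))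
      (cGL (F := F)).range (MonoidHom.id _) (fun x hx => hle hx)
  have hρ : ∀ α : MulAut (Matrix.ProjectiveSpecialLinearGroup (Fin 2) F),
      ρ (QuotientGroup.mk α) = QuotientGroup.mk α := fun α => rfl
  have hρsurj : Function.Surjective ρ := by
    intro x
    obtain ⟨α, rfl⟩ := QuotientGroup.mk_surjective x
    exact ⟨QuotientGroup.mk α, hρ α⟩
  let φ : Cfsg.Out (Matrix.ProjectiveSpecialLinearGroup (Fin 2) F) →* Multiplicative (ZMod f) :=
    e₂.toMonoidHom.comp (e₁.symm.toMonoidHom.comp ρ)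
  have hφ : ∀ x, φ x = e₂ (e₁.symm (ρ x)) := fun x => rfl
  let χ : GL (Fin 2) F →* Cfsg.Out (Matrix.ProjectiveSpecialLinearGroup (Fin 2) F) :=
    (QuotientGroup.mk' _).comp cGL
  have hker : φ.ker = χ.range := by
    ext x
    rw [MonoidHom.mem_ker, hφ, MulEquiv.map_eq_one_iff, MulEquiv.map_eq_one_iff]
    obtain ⟨α, rfl⟩ := QuotientGroup.mk_surjective x
    rw [hρ, QuotientGroup.eq_one_iff]
    constructor
    · rintro ⟨g, rfl⟩
      exact ⟨g, rfl⟩
    · rintro ⟨g, hg⟩
      have h1 : (QuotientGroup.mk (cGL g) : Cfsg.Out (Matrix.ProjectiveSpecialLinearGroup (Fin 2) F)) =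
          QuotientGroup.mk α := hg
      rw [QuotientGroup.eq] at h1
      have h2 : α = cGL g * ((cGL g)⁻¹ * α) := by group
      rw [h2]
      exact mul_mem ⟨g, rfl⟩ (hle h1)
  have hχker : χ.ker = (powMonoidHom 2 : Fˣ →* Fˣ).range.comap Matrix.GeneralLinearGroup.det := by
    ext g
    rw [MonoidHom.mem_ker, Subgroup.mem_comap, ← mem_ker_iff]
    show (QuotientGroup.mk (cGL g) : Cfsg.Out (Matrix.ProjectiveSpecialLinearGroup (Fin 2) F)) = 1 ↔ _
    rw [QuotientGroup.eq_one_iff]
  have hcardker : Nat.card φ.ker = Nat.gcd 2 (p ^ f - 1) := by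
    rw [hker, ← Subgroup.index_ker, hχker,
      Subgroup.index_comap_of_surjective _ Matrix.GeneralLinearGroup.det_surjective,
      IsCyclic.index_powMonoidHom_range, Nat.card_units, Nat.card_eq_fintype_card, hF,
      Nat.gcd_comm]
  refine ⟨φ, e₂.surjective.comp (e₁.symm.surjective.comp hρsurj), ?_, hcardker⟩
  have h5 : Nat.gcd 2 (p ^ f - 1) ∣ 2 := Nat.gcd_dvd_left _ _
  rcases (Nat.dvd_prime Nat.prime_two).1 h5 with h6 | h6
  · rw [h6] at hcardker
    have : Subsingleton φ.ker := (Nat.card_eq_one_iff_unique.1 hcardker).1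
    exact isCyclic_of_subsingleton
  · rw [h6] at hcardker
    haveI : Fact (Nat.Prime 2) := ⟨Nat.prime_two⟩
    exact isCyclic_of_prime_card hcardker

end Cfsg.Agent.S2602
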