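import Cfsg.Statements.S2610
import Cfsg.Agent.Lib.Helper44.OMat
import Cfsg.Agent.Lib.Helper44.ReflProd
import Cfsg.Agent.S2623

set_option autoImplicit false
open Cfsg

namespace Cfsg.Agent.S2610

open Module QuadraticMap
open Cfsg.Agent.Lib.Helper44.QSpace Cfsg.Agent.Lib.Helper44.OMat Cfsg.Agent.Lib.Helper44.ReflProd
open Cfsg.Agent.Lib.Helper44.QDiag Cfsg.Agent.Lib.Helper44.Gram

/-- For a quadratic form Q on F^n with non-degenerate polar form, F finite of odd order and n ≥ 2 even, the isometry −1 lies in Ω (the commutator subgroup of the orthogonal group) if and only if the discriminant of Q (the determinant of the Gram matrix of its polar form) is a square. -/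
theorem result {F : Type*} [Field F] [Fintype F] (h2 : (2 : F) ≠ 0) {n : ℕ} (hn : 2 ≤ n) (he : Even n) (Q : QuadraticForm F (Fin n → F)) (hQ : (QuadraticMap.polarBilin Q).Nondegenerate) : (∃ g : ↥(Cfsg.isometryGroup F ⇑Q), g ∈ Cfsg.Omega F ⇑Q ∧ ((g : Matrix.GeneralLinearGroup (Fin n) F) : Matrix (Fin n) (Fin n) F) = -1) ↔ IsSquare (Matrix.of (fun i j : Fin n => QuadraticMap.polar ⇑Q (Pi.single i 1) (Pi.single j 1))).det := by
  obtain ⟨k, rfl⟩ : ∃ k, n = k + 1 := ⟨n - 1, by omega⟩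
  have hS := sep_of_nondegenerate hQ
  obtain ⟨b, hb1, hb2, hb3⟩ := exists_diag_basis h2 k (Fin (k + 1) → F) Q
    (Module.finrank_fin_fun F) hS
  have hbne : ∀ i, Q (b i) ≠ 0 := by
    intro i
    by_cases hi : i = Fin.last k
    · rw [hi]; exact hb3
    · rw [hb2 i hi]; exact one_ne_zero
  have hvs : ∀ v ∈ List.ofFn b, Q v ≠ 0 := by
    intro v hv
    rw [List.mem_ofFn] at hv
    obtain ⟨j, rfl⟩ := hv
    exact hbne j
  have hD : ∀ x, (-1 : Matrix (Fin (k + 1)) (Fin (k + 1)) F).mulVec x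
      = ((List.ofFn b).map (Cfsg.Agent.Lib.Helper44.OGroup.reflE Q)).prod x := by
    intro x
    rw [prod_reflE_basis Q b hbne hb1, Matrix.neg_mulVec, Matrix.one_mulVec]
  rw [exists_mem_omega_iff h2 Q hS (by rw [Fintype.card_fin]; exact hn) (-1) (List.ofFn b) hvs hD]
  have hlen : (List.ofFn b).length = k + 1 := List.length_ofFn
  have hprod : ((List.ofFn b).map (fun v => Q v)).prod = Q (b (Fin.last k)) := by
    rw [List.map_ofFn, List.prod_ofFn, Fin.prod_univ_castSucc]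
    have : ∏ i : Fin k, ((fun v => Q v) ∘ ⇑b) i.castSucc = 1 := by
      apply Finset.prod_eq_one
      intro i _
      exact hb2 _ (Fin.castSucc_lt_last i).ne
    rw [this, one_mul]
    rfl
  rw [hlen, hprod, Cfsg.Agent.S2623.std_gram]
  obtain ⟨c, hc, hdet⟩ := gram_det_change (Pi.basisFun F (Fin (k + 1))) b (polarBilin Q)
  rw [hdet, Cfsg.Agent.S2623.det_diag_basis Q b hb1 hb2]
  obtain ⟨j, hj⟩ := he
  have e0 : (2 : F) ^ (k + 1) = (2 ^ j) ^ 2 := by rw [hj]; ring
  have e1 : c ^ 2 * (2 ^ (k + 1) * Q (b (Fin.last k))) = (c * 2 ^ j) ^ 2 * Q (b (Fin.last k)) := by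
    rw [e0]; ring
  rw [e1, isSquare_sq_mul_iff (mul_ne_zero hc (pow_ne_zero _ h2))]
  constructor
  · intro h; exact h.2
  · intro h; exact ⟨⟨j, hj⟩, h⟩

end Cfsg.Agent.S2610
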