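import Cfsg.Statements.S2611
import Cfsg.Agent.Lib.Helper44.Levi

set_option autoImplicit false
open Cfsg

namespace Cfsg.Agent.S2611

open Module QuadraticMap Matrix
open Cfsg.Agent.Lib.Helper44.QSpace Cfsg.Agent.Lib.Helper44.OGroup Cfsg.Agent.Lib.Helper44.OMat
open Cfsg.Agent.Lib.Helper44.NegPairs Cfsg.Agent.Lib.Helper44.ReflProd2
open Cfsg.Agent.Lib.Helper44.Spinor Cfsg.Agent.Lib.Helper44.GLAb Cfsg.Agent.Lib.Helper44.Levi

variable {F : Type*} [Field F] {m : ℕ}

/-- `diag(t, 1, …; t⁻¹, 1, …)` is the product of the reflections in `e - f` and `e - t f`. -/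
theorem iso_levi_dg (i : Fin m) (t : Fˣ) :
    isoEquiv (plusQ m F) (levi m F (dg i t))
      = refl (plusQ m F) (wvec i 1) * refl (plusQ m F) (wvec i (t : F)) := by
  apply Subtype.ext
  apply LinearEquiv.ext
  intro x
  show (isoEquiv (plusQ m F) (levi m F (dg i t)) : (Fin m ⊕ Fin m → F) ≃ₗ[F] (Fin m ⊕ Fin m → F)) x
    = reflE (plusQ m F) (wvec i 1) (reflE (plusQ m F) (wvec i (t : F)) x)
  rw [isoEquiv_apply, coe_levi, leviM_dg_eq_refl]

/-- the torus element `diag(s⁻¹; s)` maps `e - f` to `s⁻¹ • (e - s² f)` -/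
theorem levi_dg_wvec (i : Fin m) (s : Fˣ) :
    leviM (dg i s⁻¹) *ᵥ (wvec i (1 : F)) = (s : F)⁻¹ • wvec i ((s : F) * s) := by
  rw [leviM_dg_mulVec]
  have hs : (s : F) ≠ 0 := s.ne_zero
  unfold wvec
  funext k
  rcases k with k | k
  · by_cases hk : k = i
    · subst hk
      simp
    · simp [hk]
  · by_cases hk : k = i
    · subst hk
      simp
    · simp [hk]

/-- For the hyperbolic quadratic form Σ x_i y_i on F^(2m) (F finite, m ≥ 1, excluding m = 2 over the field of two elements) and an invertible m × m matrix A, the block-diagonal isometry diag(A, (A⁻¹)ᵀ), which stabilises the two maximal totally singular subspaces x = 0 and y = 0, lies in Ω⁺_2m(F) (the commutator subgroup of the orthogonal group) if and only if det A is a square in F. -/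
theorem result {F : Type*} [Field F] [Fintype F] {m : ℕ} (hm : 1 ≤ m) (h : Fintype.card F ≠ 2 ∨ m ≠ 2) (A : GL (Fin m) F) : (∃ g : ↥(Cfsg.isometryGroup F (Cfsg.quadFormPlus m F)), g ∈ Cfsg.Omega F (Cfsg.quadFormPlus m F) ∧ ((g : Matrix.GeneralLinearGroup (Fin m ⊕ Fin m) F) : Matrix (Fin m ⊕ Fin m) (Fin m ⊕ Fin m) F) = Matrix.fromBlocks (A : Matrix (Fin m) (Fin m) F) 0 0 ((A : Matrix (Fin m) (Fin m) F)⁻¹).transpose) ↔ IsSquare (A : Matrix (Fin m) (Fin m) F).det := by
  classical
  set i₀ : Fin m := ⟨0, hm⟩ with hi₀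
  have hM : Matrix.fromBlocks (A : Matrix (Fin m) (Fin m) F) 0 0
      ((A : Matrix (Fin m) (Fin m) F)⁻¹).transpose = leviM A := by
    unfold leviM
    rw [Matrix.coe_units_inv]
  have hred : (∃ g : ↥(Cfsg.isometryGroup F (Cfsg.quadFormPlus m F)),
      g ∈ Cfsg.Omega F (Cfsg.quadFormPlus m F) ∧
      ((g : Matrix.GeneralLinearGroup (Fin m ⊕ Fin m) F) : Matrix (Fin m ⊕ Fin m) (Fin m ⊕ Fin m) F)
        = Matrix.fromBlocks (A : Matrix (Fin m) (Fin m) F) 0 0
          ((A : Matrix (Fin m) (Fin m) F)⁻¹).transpose)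
      ↔ levi m F A ∈ Cfsg.Omega F ⇑(plusQ m F) := by
    constructor
    · rintro ⟨g, hg, hgA⟩
      have : g = levi m F A := by
        apply Subtype.ext
        apply Units.ext
        rw [hgA, hM]
        rfl
      rw [← this]
      exact hg
    · intro hmem
      exact ⟨levi m F A, hmem, by rw [coe_levi, hM]⟩
  rw [hred]
  let ψ : GL (Fin m) F →* Abelianization (O (plusQ m F)) :=
    (Abelianization.of).comp ((isoEquiv (plusQ m F)).toMonoidHom.comp (levi m F))
  have hcase : Fintype.card F ≠ 2 ∨ Fintype.card (Fin m) ≠ 2 := by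
    rw [Fintype.card_fin]
    exact h
  have hψ := map_eq_map_dg hcase ψ i₀ A
  set t := Matrix.GeneralLinearGroup.det A with ht
  have ht' : (A : Matrix (Fin m) (Fin m) F).det = (t : F) := rfl
  rw [ht']
  have h1 : levi m F A ∈ Cfsg.Omega F ⇑(plusQ m F)
      ↔ refl (plusQ m F) (wvec i₀ 1) * refl (plusQ m F) (wvec i₀ (t : F))
        ∈ commutator (O (plusQ m F)) := by
    rw [mem_omega_iff (plusQ m F) (levi m F A)]
    rw [← Abelianization.ker_of, MonoidHom.mem_ker, MonoidHom.mem_ker]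
    have e1 : Abelianization.of (isoEquiv (plusQ m F) (levi m F A)) = ψ A := rfl
    rw [e1, hψ]
    show Abelianization.of (isoEquiv (plusQ m F) (levi m F (dg i₀ t))) = 1 ↔ _
    rw [iso_levi_dg]
  rw [h1]
  constructor
  · intro hmem
    by_cases h2 : (2 : F) = 0
    · have hc : CharP F 2 := CharTwo.of_one_ne_zero_of_two_eq_zero one_ne_zero h2
      exact FiniteField.isSquare_of_char_two (ringChar.eq F 2) _
    · have hd : 2 ≤ finrank F (Fin m ⊕ Fin m → F) := by
        rw [Module.finrank_fintype_fun_eq_card, Fintype.card_sum, Fintype.card_fin]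
        omega
      have hvs : ∀ v ∈ [wvec i₀ (1 : F), wvec i₀ (t : F)], plusQ m F v ≠ 0 := by
        intro v hv
        simp only [List.mem_cons, List.not_mem_nil, or_false] at hv
        rcases hv with rfl | rfl
        · rw [q_wvec]
          exact neg_ne_zero.mpr one_ne_zero
        · rw [q_wvec]
          exact neg_ne_zero.mpr t.ne_zero
      have hc := (mem_commutator_iff h2 (sep_plusQ m) hd
        [wvec i₀ (1 : F), wvec i₀ (t : F)] hvs).mp (by
          simpa only [List.map_cons, List.map_nil, List.prod_cons, List.prod_nil, mul_one]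
            using hmem)
      obtain ⟨-, hsq⟩ := hc
      simp only [List.map_cons, List.map_nil, List.prod_cons, List.prod_nil, mul_one, q_wvec,
        neg_mul, one_mul, neg_neg] at hsq
      exact hsq
  · rintro ⟨s, hs⟩
    have hs0 : s ≠ 0 := by
      rintro rfl
      rw [mul_zero] at hs
      exact t.ne_zero hs
    set su : Fˣ := Units.mk0 s hs0 with hsu
    have hconj : ∀ v ∈ [wvec i₀ (1 : F), s⁻¹ • wvec i₀ (t : F)],
        ∃ g ∈ O (plusQ m F), g (wvec i₀ (1 : F)) = v := by
      intro v hv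
      simp only [List.mem_cons, List.not_mem_nil, or_false] at hv
      rcases hv with rfl | rfl
      · exact ⟨1, one_mem _, rfl⟩
      · refine ⟨(isoEquiv (plusQ m F) (levi m F (dg i₀ su⁻¹))).1,
          (isoEquiv (plusQ m F) (levi m F (dg i₀ su⁻¹))).2, ?_⟩
        show (isoEquiv (plusQ m F) (levi m F (dg i₀ su⁻¹))
          : (Fin m ⊕ Fin m → F) ≃ₗ[F] (Fin m ⊕ Fin m → F)) (wvec i₀ (1 : F)) = _
        rw [isoEquiv_apply, coe_levi, levi_dg_wvec, hs]
        rfl
    have hmem := prod_refl_mem_commutator_of_conj (Q := plusQ m F) (wvec i₀ (1 : F))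
      [wvec i₀ (1 : F), s⁻¹ • wvec i₀ (t : F)] hconj ⟨1, rfl⟩
    simp only [List.map_cons, List.map_nil, List.prod_cons, List.prod_nil, mul_one] at hmem
    have e : refl (plusQ m F) (s⁻¹ • wvec i₀ (t : F)) = refl (plusQ m F) (wvec i₀ (t : F)) :=
      Subtype.ext (reflE_smul (plusQ m F) (inv_ne_zero hs0) _)
    rw [e] at hmem
    exact hmem

end Cfsg.Agent.S2611
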