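import Cfsg.Statements.S2612
import Cfsg.Agent.Lib.Helper44.NegPairs
import Cfsg.Agent.Lib.Helper44.ReflProd2
import Cfsg.Agent.Lib.Helper44.Dickson

set_option autoImplicit false
open Cfsg

namespace Cfsg.Agent.S2612

open Module QuadraticMap Matrix
open Cfsg.Agent.Lib.Helper44.QSpace Cfsg.Agent.Lib.Helper44.OGroup Cfsg.Agent.Lib.Helper44.OMat
open Cfsg.Agent.Lib.Helper44.NegPairs Cfsg.Agent.Lib.Helper44.ReflProd2
open Cfsg.Agent.Lib.Helper44.Dickson Cfsg.Agent.Lib.Helper44.Spinor

variable {F : Type*} [Field F] {m : ℕ}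

/-- the vector `e_j - f_j` -/
def uvec (F : Type*) [Field F] {m : ℕ} (j : Fin m) : Fin m ⊕ Fin m → F :=
  Pi.single (Sum.inl j) 1 - Pi.single (Sum.inr j) 1

theorem q_uvec (j : Fin m) : plusQ m F (uvec F j) = -1 := by
  show Cfsg.quadFormPlus m F (uvec F j) = -1
  unfold Cfsg.quadFormPlus uvec
  simp [Pi.single_apply]

theorem polar_uvec (x : Fin m ⊕ Fin m → F) (j : Fin m) :
    polar (plusQ m F) x (uvec F j) = x (Sum.inr j) - x (Sum.inl j) := by
  unfold uvec
  rw [polar_sub_right]
  have h1 := polar_single (plusQ m F) id (plus_H1 m) x (Sum.inl j)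
  have h2 := polar_single (plusQ m F) id (plus_H1 m) x (Sum.inr j)
  simp only [id, Sum.swap_inl, Sum.swap_inr] at h1 h2
  rw [h1, h2]

/-- permutation of coordinates as an isometry of the hyperbolic form -/
def permIso (F : Type*) [Field F] {m : ℕ} (i j : Fin m) :
    (Fin m ⊕ Fin m → F) ≃ₗ[F] (Fin m ⊕ Fin m → F) :=
  LinearEquiv.funCongrLeft F F (Equiv.sumCongr (Equiv.swap i j) (Equiv.swap i j))

theorem permIso_mem (i j : Fin m) : permIso F i j ∈ O (plusQ m F) := by
  intro x
  show Cfsg.quadFormPlus m F (x ∘ (Equiv.sumCongr (Equiv.swap i j) (Equiv.swap i j)))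
    = Cfsg.quadFormPlus m F x
  unfold Cfsg.quadFormPlus
  simp only [Function.comp_apply, Equiv.sumCongr_apply, Sum.map_inl, Sum.map_inr]
  exact Equiv.sum_comp (Equiv.swap i j) (fun k => x (Sum.inl k) * x (Sum.inr k))

theorem single_comp {ι : Type*} [DecidableEq ι] (σ : ι ≃ ι) (a : ι) :
    (Pi.single a (1 : F) : ι → F) ∘ σ = Pi.single (σ.symm a) 1 := by
  funext k
  simp only [Function.comp_apply, Pi.single_apply, Equiv.eq_symm_apply]

theorem permIso_uvec (i j : Fin m) : permIso F i j (uvec F i) = uvec F j := by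
  show uvec F i ∘ (Equiv.sumCongr (Equiv.swap i j) (Equiv.swap i j)) = uvec F j
  unfold uvec
  have e : ∀ a b : Fin m ⊕ Fin m → F, ∀ σ : Fin m ⊕ Fin m ≃ Fin m ⊕ Fin m,
      (a - b) ∘ σ = a ∘ σ - b ∘ σ := fun a b σ => rfl
  rw [e, single_comp, single_comp]
  simp

/-- the swap of all hyperbolic pairs, as a product of reflections -/
theorem swap_prod (x : Fin m ⊕ Fin m → F) :
    ((List.ofFn (uvec F (m := m))).map (reflE (plusQ m F))).prod x = x ∘ Sum.swap := by
  rw [prod_reflE_orth]
  · rw [List.map_ofFn, List.sum_ofFn]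
    funext k
    simp only [Function.comp_apply, q_uvec, polar_uvec, Pi.sub_apply, Finset.sum_apply,
      Pi.smul_apply, smul_eq_mul]
    unfold uvec
    rcases k with a | a
    · simp only [Pi.sub_apply, Pi.single_apply, Sum.inl.injEq, reduceCtorEq, if_false, sub_zero,
        mul_ite, mul_one, mul_zero, Finset.sum_ite_eq, Finset.mem_univ, if_true, Sum.swap_inl]
      field_simp
      ring
    · simp only [Pi.sub_apply, Pi.single_apply, Sum.inr.injEq, reduceCtorEq, if_false, zero_sub,
        mul_ite, mul_neg, mul_one, mul_zero, Sum.swap_inr]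
      simp only [Finset.sum_neg_distrib, Finset.sum_ite_eq, Finset.mem_univ, if_true]
      field_simp
      ring
  · rw [List.pairwise_ofFn]
    intro i j hij
    rw [polar_uvec]
    unfold uvec
    have h1 : ¬ (j = i) := fun h => (ne_of_lt hij) h.symm
    simp [h1]

/-- Ω⁺ contains an element interchanging the two standard maximal totally singular subspaces iff m is even. -/
theorem result {F : Type*} [Field F] [Fintype F] {m : ℕ} (hm : 1 ≤ m) (h : Fintype.card F ≠ 2 ∨ m ≠ 2) : (∃ g : ↥(Cfsg.isometryGroup F (Cfsg.quadFormPlus m F)), g ∈ Cfsg.Omega F (Cfsg.quadFormPlus m F) ∧ (∀ v : Fin m ⊕ Fin m → F, (∀ i, v (Sum.inr i) = 0) → ∀ i, (((g : Matrix.GeneralLinearGroup (Fin m ⊕ Fin m) F) : Matrix (Fin m ⊕ Fin m) (Fin m ⊕ Fin m) F).mulVec v) (Sum.inl i) = 0) ∧ (∀ v : Fin m ⊕ Fin m → F, (∀ i, v (Sum.inl i) = 0) → ∀ i, (((g : Matrix.GeneralLinearGroup (Fin m ⊕ Fin m) F) : Matrix (Fin m ⊕ Fin m) (Fin m ⊕ Fin m) F).mulVec v) (Sum.inr i) = 0)) ↔ Even m := by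
  constructor
  · rintro ⟨g, hg, hA, hD⟩
    set M := ((g : Matrix.GeneralLinearGroup (Fin m ⊕ Fin m) F) : Matrix (Fin m ⊕ Fin m) (Fin m ⊕ Fin m) F) with hM
    have hA0 : M.toBlocks₁₁ = 0 := by
      ext i j
      have := hA (Pi.single (Sum.inl j) 1) (fun k => by simp) i
      rw [Matrix.mulVec_single_one] at this
      exact this
    have hD0 : M.toBlocks₂₂ = 0 := by
      ext i j
      have := hD (Pi.single (Sum.inr j) 1) (fun k => by simp) i
      rw [Matrix.mulVec_single_one] at this
      exact this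
    obtain ⟨-, -, -, r2, -, -⟩ := rel (isIso_of_mem g)
    rw [← hM, hA0, Matrix.transpose_zero, Matrix.zero_mul, add_zero] at r2
    by_cases h2 : (2 : F) = 0
    · -- characteristic two: Dickson invariant
      have : CharP F 2 := CharTwo.of_one_ne_zero_of_two_eq_zero one_ne_zero h2
      have hd := dickson_eq_one_of_mem_omega hg
      have hd' := dickson_apply g
      rw [hd, ← hM] at hd'
      have e : (M.toBlocks₁₂ᵀ * M.toBlocks₂₁).trace = (m : F) := by
        rw [← Matrix.trace_transpose, Matrix.transpose_mul, Matrix.transpose_transpose, r2,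
          Matrix.trace_one, Fintype.card_fin]
      rw [e] at hd'
      have : (m : F) = 0 := hd'.symm
      rw [CharP.cast_eq_zero_iff F 2 m] at this
      exact even_iff_two_dvd.mpr this
    · -- odd characteristic: determinant
      have hdet : Matrix.GeneralLinearGroup.det (g : Matrix.GeneralLinearGroup (Fin m ⊕ Fin m) F) = 1 :=
        Abelianization.commutator_subset_ker
          (Matrix.GeneralLinearGroup.det.comp (Cfsg.isometryGroup F (Cfsg.quadFormPlus m F)).subtype) hg
      have hdet' : M.det = 1 := by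
        have := congrArg Units.val hdet
        simpa using this
      have hMb : M = Matrix.fromBlocks M.toBlocks₁₂ 0 0 M.toBlocks₂₁
          * Matrix.fromBlocks (0 : Matrix (Fin m) (Fin m) F) 1 1 0 := by
        rw [Matrix.fromBlocks_multiply]
        simp only [Matrix.mul_zero, Matrix.mul_one, add_zero, zero_add]
        conv_lhs => rw [← Matrix.fromBlocks_toBlocks M, hA0, hD0]
      rw [hMb, Matrix.det_mul, Matrix.det_fromBlocks_zero₁₂,
        Cfsg.Agent.Lib.Helper44.Gram.det_antidiag] at hdet'
      have hBC : M.toBlocks₂₁.det * M.toBlocks₁₂.det = 1 := by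
        have := congrArg Matrix.det r2
        rw [Matrix.det_mul, Matrix.det_transpose, Matrix.det_one] at this
        exact this
      have hpow : (-1 : F) ^ m = 1 := by
        rw [mul_comm M.toBlocks₁₂.det, hBC, one_mul] at hdet'
        exact hdet'
      by_contra hodd
      rw [Nat.not_even_iff_odd] at hodd
      rw [hodd.neg_one_pow] at hpow
      apply h2
      linear_combination -hpow
  · intro he
    have hmem : ((List.ofFn (uvec F (m := m))).map (refl (plusQ m F))).prod
        ∈ commutator (O (plusQ m F)) := by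
      apply prod_refl_mem_commutator_of_conj (uvec F (⟨0, hm⟩ : Fin m))
      · intro v hv
        rw [List.mem_ofFn] at hv
        obtain ⟨j, rfl⟩ := hv
        exact ⟨permIso F ⟨0, hm⟩ j, permIso_mem _ _, permIso_uvec _ _⟩
      · rw [List.length_ofFn]
        exact he
    set ρ := ((List.ofFn (uvec F (m := m))).map (refl (plusQ m F))).prod with hρ
    have hact : ∀ x, (((isoEquiv (plusQ m F)).symm ρ : ↥(Cfsg.isometryGroup F ⇑(plusQ m F)))
        : Matrix.GeneralLinearGroup (Fin m ⊕ Fin m) F).1 *ᵥ x = x ∘ Sum.swap := by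
      intro x
      rw [isoEquiv_symm_mulVec, hρ, coe_prod_refl, swap_prod]
    refine ⟨(isoEquiv (plusQ m F)).symm ρ, ?_, ?_, ?_⟩
    · have := (mem_omega_iff (plusQ m F) ((isoEquiv (plusQ m F)).symm ρ)).mpr (by
        rw [MulEquiv.apply_symm_apply]; exact hmem)
      exact this
    · intro v hv i
      have := congrFun (hact v) (Sum.inl i)
      rw [Function.comp_apply, Sum.swap_inl, hv i] at this
      exact this
    · intro v hv i
      have := congrFun (hact v) (Sum.inr i)
      rw [Function.comp_apply, Sum.swap_inr, hv i] at this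
      exact this

end Cfsg.Agent.S2612
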