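import Cfsg.Statements.S2617
import Cfsg.Agent.Lib.Helper44.QCount

set_option autoImplicit false
open Cfsg

namespace Cfsg.Agent.S2617

open Cfsg.Agent.Lib.Helper44.QCount

theorem arith_aux (N q a : ℕ) (hq : 2 ≤ q) (ha : 1 ≤ a)
    (h1 : N * q = q * q * a + (q * a - 1) * (q * a))
    (h2 : N * q = 1 * (q * a) + q * q * ((a - 1) * a)) : False := by
  obtain ⟨a', rfl⟩ : ∃ a', a = a' + 1 := ⟨a - 1, by omega⟩
  obtain ⟨q', rfl⟩ : ∃ q', q = q' + 2 := ⟨q - 2, by omega⟩
  have e1 : (q' + 2) * (a' + 1) - 1 = (q' + 2) * a' + q' + 1 := by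
    have : (q' + 2) * (a' + 1) = (q' + 2) * a' + q' + 1 + 1 := by ring
    omega
  rw [e1] at h1
  rw [Nat.add_sub_cancel] at h2
  rw [h1] at h2
  nlinarith [Nat.zero_le q', Nat.zero_le a', mul_nonneg (Nat.zero_le q') (Nat.zero_le a')]

/-- The two standard quadratic forms of even dimension 2m over a finite field are not isometric. -/
theorem result {F : Type*} [Field F] [Finite F] {m : ℕ} (hm : 1 ≤ m) (ζ : F) (hζ : ∀ t : F, t ^ 2 + t + ζ ≠ 0) (g : (Fin m ⊕ Fin m → F) ≃ₗ[F] ((Fin (m - 1) ⊕ Fin (m - 1)) ⊕ Fin 2 → F)) : ¬ (∀ v : Fin m ⊕ Fin m → F, Cfsg.quadFormMinus (m - 1) F 1 ζ (g v) = Cfsg.quadFormPlus m F v) := by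
  intro h
  cases nonempty_fintype F
  classical
  obtain ⟨k, rfl⟩ : ∃ k, m = k + 1 := ⟨m - 1, by omega⟩
  have hk : k + 1 - 1 = k := by omega
  have hcard : Nat.card {v : Fin (k + 1) ⊕ Fin (k + 1) → F // Cfsg.quadFormPlus (k + 1) F v = 0}
      = Nat.card {u : (Fin (k + 1 - 1) ⊕ Fin (k + 1 - 1)) ⊕ Fin 2 → F //
          Cfsg.quadFormMinus (k + 1 - 1) F 1 ζ u = 0} := by
    apply Nat.card_congr
    exact Equiv.subtypeEquiv g.toEquiv (fun v => by
      show _ ↔ Cfsg.quadFormMinus (k + 1 - 1) F 1 ζ (g v) = 0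
      rw [h v])
  have hplus := card_plusForm_mul (F := F) (κ := Fin (k + 1)) (0 : F)
  let R : (Fin 2 → F) → F := fun w => w 0 ^ 2 + 1 * w 0 * w 1 + ζ * w 1 ^ 2
  have hminus := card_hypForm_mul (F := F) (κ := Fin (k + 1 - 1)) (τ := Fin 2) R (0 : F)
  have hR : Nat.card {w : Fin 2 → F // R w = 0} = 1 := by
    rw [Nat.card_eq_one_iff_unique]
    constructor
    · constructor
      rintro ⟨w, hw⟩ ⟨w', hw'⟩
      have key : ∀ w : Fin 2 → F, R w = 0 → w = 0 := by
        intro w hw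
        have h1 : w 1 = 0 := by
          by_contra h1
          apply hζ (w 0 / w 1)
          simp only [R] at hw
          field_simp
          linear_combination hw
        have h0 : w 0 = 0 := by
          simp only [R, h1] at hw
          simpa using hw
        ext i
        fin_cases i
        · exact h0
        · exact h1
      apply Subtype.ext
      exact (key w hw).trans (key w' hw').symm
    · exact ⟨⟨0, by simp [R]⟩⟩
  rw [hR] at hminus
  have e1 : Nat.card {v : Fin (k + 1) ⊕ Fin (k + 1) → F // Cfsg.quadFormPlus (k + 1) F v = 0}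
      = Nat.card {v : Fin (k + 1) ⊕ Fin (k + 1) → F // plusForm v = 0} := rfl
  have e2 : Nat.card {u : (Fin (k + 1 - 1) ⊕ Fin (k + 1 - 1)) ⊕ Fin 2 → F //
          Cfsg.quadFormMinus (k + 1 - 1) F 1 ζ u = 0}
      = Nat.card {v : (Fin (k + 1 - 1) ⊕ Fin (k + 1 - 1)) ⊕ Fin 2 → F // hypForm R v = 0} := rfl
  rw [e1] at hcard
  rw [e2] at hcard
  rw [← hcard] at hminus
  rw [if_pos rfl] at hplus
  simp only [Fintype.card_fin, hk] at hplus hminus
  have hq : 2 ≤ Fintype.card F := Fintype.one_lt_card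
  have ha : 1 ≤ Fintype.card F ^ k := Nat.one_le_pow _ _ (by omega)
  have hp1 : Fintype.card F ^ (k + 1) = Fintype.card F * Fintype.card F ^ k := pow_succ' _ _
  have hp2 : Fintype.card F ^ (k + 1 + 1) = Fintype.card F * Fintype.card F * Fintype.card F ^ k := by
    rw [pow_succ', pow_succ']; ring
  rw [hp2, hp1] at hplus
  rw [hp1, pow_two] at hminus
  exact arith_aux _ (Fintype.card F) (Fintype.card F ^ k) hq ha hplus hminus

end Cfsg.Agent.S2617
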