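import Cfsg.Statements.S2619

set_option autoImplicit false
open Cfsg

namespace Cfsg.Agent.S2619

/-- Over a finite field of characteristic two, given an alternating bilinear form B on a finite-dimensional space, a basis (v_i) and scalars (λ_i), there is exactly one quadratic form whose polar form is B and whose value at each v_i is λ_i. -/
theorem result {F V ι : Type*} [Field F] [Finite F] [CharP F 2] [AddCommGroup V] [Module F V] [Fintype ι] (b : Module.Basis ι F V) (B : LinearMap.BilinForm F V) (hB : B.IsAlt) (c : ι → F) : ∃! Q : QuadraticForm F V, QuadraticMap.polarBilin Q = B ∧ ∀ i, Q (b i) = c i := by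
  classical
  let e := Fintype.equivFin ι
  let m : Matrix ι ι F := fun i j => if i = j then c i else if e i < e j then B (b i) (b j) else 0
  let B' : LinearMap.BilinForm F V := Matrix.toBilin b m
  have hB' : ∀ i j, B' (b i) (b j) = m i j := by
    intro i j
    have := LinearMap.BilinForm.toMatrix_toBilin b m
    have h2 := congrFun (congrFun this i) j
    rw [LinearMap.BilinForm.toMatrix_apply] at h2
    exact h2
  refine ⟨LinearMap.BilinMap.toQuadraticMap B', ⟨?_, ?_⟩, ?_⟩
  · apply LinearMap.BilinForm.ext_basis b
    intro i j
    rw [QuadraticMap.polarBilin_apply_apply, LinearMap.BilinMap.polar_toQuadraticMap, hB', hB']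
    show m i j + m j i = B (b i) (b j)
    simp only [m]
    by_cases hij : i = j
    · subst hij
      simp only [if_true]
      rw [hB (b i)]
      exact CharTwo.add_self_eq_zero (c i)
    · have hji : ¬ j = i := fun h => hij h.symm
      simp only [hij, hji, if_false]
      rcases lt_trichotomy (e i) (e j) with h | h | h
      · simp [h, not_lt.mpr h.le]
      · exact absurd (e.injective h) hij
      · simp only [h, not_lt.mpr h.le, if_true, if_false, zero_add]
        have := hB.neg_eq (b j) (b i)
        rw [← this, CharTwo.neg_eq]
  · intro i
    rw [LinearMap.BilinMap.toQuadraticMap_apply, hB']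
    simp [m]
  · rintro Q₂ ⟨h2, h2i⟩
    have hpol : ∀ x y, QuadraticMap.polar Q₂ x y = QuadraticMap.polar (LinearMap.BilinMap.toQuadraticMap B') x y := by
      intro x y
      have e1 : QuadraticMap.polar Q₂ x y = B x y := by rw [← h2]; rfl
      have hP : QuadraticMap.polarBilin (LinearMap.BilinMap.toQuadraticMap B') = B := by
        apply LinearMap.BilinForm.ext_basis b
        intro i j
        rw [QuadraticMap.polarBilin_apply_apply, LinearMap.BilinMap.polar_toQuadraticMap, hB', hB']
        show m i j + m j i = B (b i) (b j)
        simp only [m]
        by_cases hij : i = j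
        · subst hij
          simp only [if_true]
          rw [hB (b i)]
          exact CharTwo.add_self_eq_zero (c i)
        · have hji : ¬ j = i := fun h => hij h.symm
          simp only [hij, hji, if_false]
          rcases lt_trichotomy (e i) (e j) with h | h | h
          · simp [h, not_lt.mpr h.le]
          · exact absurd (e.injective h) hij
          · simp only [h, not_lt.mpr h.le, if_true, if_false, zero_add]
            have := hB.neg_eq (b j) (b i)
            rw [← this, CharTwo.neg_eq]
      have e2 : QuadraticMap.polar (LinearMap.BilinMap.toQuadraticMap B') x y = B x y := by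
        rw [← hP]; rfl
      rw [e1, e2]
    have key : ∀ v ∈ Submodule.span F (Set.range b), Q₂ v = LinearMap.BilinMap.toQuadraticMap B' v := by
      intro v hv
      induction hv using Submodule.span_induction with
      | mem x hx =>
        obtain ⟨i, rfl⟩ := hx
        rw [h2i, LinearMap.BilinMap.toQuadraticMap_apply, hB']
        simp [m]
      | zero => simp
      | add x y _ _ hx hy =>
        have a1 : Q₂ (x + y) = Q₂ x + Q₂ y + QuadraticMap.polar Q₂ x y := by
          unfold QuadraticMap.polar; ring
        have a2 : LinearMap.BilinMap.toQuadraticMap B' (x + y) = LinearMap.BilinMap.toQuadraticMap B' x + LinearMap.BilinMap.toQuadraticMap B' y + QuadraticMap.polar (LinearMap.BilinMap.toQuadraticMap B') x y := by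
          unfold QuadraticMap.polar; ring
        rw [a1, a2, hx, hy, hpol]
      | smul a x _ hx =>
        rw [QuadraticMap.map_smul, QuadraticMap.map_smul, hx]
    ext v
    exact key v (by rw [b.span_eq]; trivial)

end Cfsg.Agent.S2619
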