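import Cfsg.Statements.S2622
import Cfsg.Agent.Lib.Helper44.Split

set_option autoImplicit false
open Cfsg

namespace Cfsg.Agent.S2622

open Module Cfsg.Agent.Lib.Helper44.Split

universe u

theorem step1 {F : Type*} [Field F] [Finite F] [CharP F 2]
    {V : Type u} [AddCommGroup V] [Module F V] [FiniteDimensional F V] {n : ℕ}
    (hV : finrank F V = n + 1)
    (B : LinearMap.BilinForm F V) (hS : ∀ x y, B x y = B y x)
    (hN : ∀ x, (∀ y, B x y = 0) → x = 0) (hna : ∃ v : V, B v v ≠ 0) :
    ∃ v : V, B v v = 1 ∧ (n = 0 ∨ ∃ w ∈ perp1 B v, B w w ≠ 0) := by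
  cases nonempty_fintype F
  obtain ⟨v₀, hv₀⟩ := hna
  obtain ⟨s, hs⟩ := FiniteField.isSquare_of_char_two (ringChar.eq F 2) (B v₀ v₀)⁻¹
  have hv₁ : B (s • v₀) (s • v₀) = 1 := by
    simp only [map_smul, LinearMap.smul_apply, smul_eq_mul]
    rw [← mul_assoc, ← hs]
    exact inv_mul_cancel₀ hv₀
  set v₁ := s • v₀ with hv₁def
  by_cases h : ∃ w ∈ perp1 B v₁, B w w ≠ 0
  · exact ⟨v₁, hv₁, Or.inr h⟩
  · push Not at h
    by_cases hn : n = 0
    · exact ⟨v₁, hv₁, Or.inl hn⟩
    · have hv₁ne : B v₁ v₁ ≠ 0 := by rw [hv₁]; exact one_ne_zero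
      have hfr := finrank_perp1 B hv₁ne
      have hpos : 0 < finrank F (perp1 B v₁) := by omega
      obtain ⟨e', he'⟩ := finrank_pos_iff_exists_ne_zero.mp hpos
      obtain ⟨e, heW⟩ := e'
      have he0 : e ≠ 0 := fun h0 => he' (Subtype.ext h0)
      have hve : B v₁ e = 0 := (mem_perp1 B v₁ e).mp heW
      have hev : B e v₁ = 0 := by rw [hS, hve]
      obtain ⟨f', hf'⟩ : ∃ f', B e f' ≠ 0 := by
        by_contra hcon
        push Not at hcon
        exact he0 (hN e hcon)
      have hf''W := proj_mem_perp1 B hv₁ne f'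
      set f'' := f' - (B v₁ f' / B v₁ v₁) • v₁ with hf''def
      have hef'' : B e f'' = B e f' := by
        rw [hf''def, map_sub, map_smul, hev, smul_zero, sub_zero]
      have hvf'' : B v₁ f'' = 0 := (mem_perp1 B v₁ f'').mp hf''W
      set f := (B e f'')⁻¹ • f'' with hfdef
      have hfW : f ∈ perp1 B v₁ := Submodule.smul_mem _ _ hf''W
      have hvf : B v₁ f = 0 := (mem_perp1 B v₁ f).mp hfW
      have hfv : B f v₁ = 0 := by rw [hS, hvf]
      have hef : B e f = 1 := by
        rw [hfdef, map_smul, smul_eq_mul, hef'']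
        exact inv_mul_cancel₀ hf'
      have hee : B e e = 0 := h e heW
      have hff : B f f = 0 := h f hfW
      refine ⟨v₁ + e, ?_, Or.inr ⟨v₁ + f, ?_, ?_⟩⟩
      · simp only [map_add, LinearMap.add_apply, hv₁, hve, hev, hee]; ring
      · rw [mem_perp1]
        simp only [map_add, LinearMap.add_apply, hv₁, hvf, hev, hef]
        rw [add_zero, zero_add]
        exact CharTwo.add_self_eq_zero 1
      · simp only [map_add, LinearMap.add_apply, hv₁, hvf, hfv, hff]
        simp

theorem aux {F : Type*} [Field F] [Finite F] [CharP F 2] (n : ℕ) :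
    ∀ (V : Type u) [AddCommGroup V] [Module F V] [FiniteDimensional F V], finrank F V = n →
    ∀ (B : LinearMap.BilinForm F V), (∀ x y, B x y = B y x) → (∀ x, (∀ y, B x y = 0) → x = 0) →
    (∃ v : V, B v v ≠ 0) → ∃ b : Basis (Fin n) F V, ∀ i j, B (b i) (b j) = if i = j then 1 else 0 := by
  induction n with
  | zero =>
    intro V _ _ _ hV B hS hN hna
    exfalso
    obtain ⟨v, hv⟩ := hna
    have : v = 0 := by
      have := finrank_zero_iff_forall_zero.mp hV
      exact this v
    rw [this] at hv
    simp at hv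
  | succ n ih =>
    intro V _ _ _ hV B hS hN hna
    obtain ⟨v, hv, hcase⟩ := step1 hV B hS hN hna
    have hvne : B v v ≠ 0 := by rw [hv]; exact one_ne_zero
    have hfr : finrank F (perp1 B v) = n := by
      have := finrank_perp1 B hvne
      omega
    have hbW : ∃ bW : Basis (Fin n) F (perp1 B v),
        ∀ i j, B (bW i : V) (bW j : V) = if i = j then 1 else 0 := by
      rcases hcase with h0 | ⟨w, hwW, hw⟩
      · subst h0
        exact ⟨Module.finBasisOfFinrankEq F _ hfr, fun i => i.elim0⟩
      · obtain ⟨bW, hbW⟩ := ih (perp1 B v) hfr (B.restrict (perp1 B v))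
          (fun x y => hS _ _)
          (fun x hx => by
            have := perp1_sep B hS hN hvne x x.2 (fun y hy => hx ⟨y, hy⟩)
            exact Subtype.ext this)
          ⟨⟨w, hwW⟩, hw⟩
        exact ⟨bW, fun i j => hbW i j⟩
    obtain ⟨bW, hbW⟩ := hbW
    have hli : ∀ (c : F), ∀ x ∈ perp1 B v, c • v + x = 0 → c = 0 := by
      intro c x hx hc
      have := congrArg (B v) hc
      rw [map_add, map_smul, smul_eq_mul, hv, (mem_perp1 B v x).mp hx, map_zero, mul_one,
        add_zero] at this
      exact this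
    have hsp : ∀ z : V, ∃ c : F, z + c • v ∈ perp1 B v := by
      intro z
      refine ⟨-(B v z), ?_⟩
      rw [mem_perp1, map_add, map_smul, smul_eq_mul, hv]
      ring
    refine ⟨Basis.mkFinCons v bW hli hsp, ?_⟩
    intro i j
    rw [Basis.coe_mkFinCons]
    have hperp : ∀ k, B v (bW k : V) = 0 := fun k => (mem_perp1 B v _).mp (bW k).2
    induction i using Fin.cases with
    | zero =>
      induction j using Fin.cases with
      | zero => simp [hv]
      | succ j =>
        simp only [Fin.cons_zero, Fin.cons_succ, Function.comp_apply]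
        rw [hperp j]
        simp [Fin.succ_ne_zero j |>.symm]
    | succ i =>
      induction j using Fin.cases with
      | zero =>
        simp only [Fin.cons_zero, Fin.cons_succ, Function.comp_apply]
        rw [hS, hperp i]
        simp [Fin.succ_ne_zero i]
      | succ j =>
        simp only [Fin.cons_succ, Function.comp_apply]
        rw [hbW i j]
        simp [Fin.succ_inj]

/-- Over a finite field of characteristic two, a non-degenerate symmetric bilinear form that is not alternating (some vector v has B(v, v) ≠ 0) admits an orthonormal basis. -/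
theorem result {F V : Type*} [Field F] [Finite F] [CharP F 2] [AddCommGroup V] [Module F V] [FiniteDimensional F V] {n : ℕ} (hV : Module.finrank F V = n) (B : LinearMap.BilinForm F V) (hS : B.IsSymm) (hB : B.Nondegenerate) (hna : ∃ v : V, B v v ≠ 0) : ∃ b : Module.Basis (Fin n) F V, ∀ i j, B (b i) (b j) = if i = j then 1 else 0 :=
  aux n V hV B (fun x y => hS.eq x y) (fun x hx => hB.1 x hx) hna

end Cfsg.Agent.S2622
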