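import Cfsg.Statements.S2624
import Cfsg.Agent.Lib.Helper44.QBasis
import Cfsg.Agent.Lib.Helper44.QDiag

set_option autoImplicit false
open Cfsg

namespace Cfsg.Agent.S2624

open Module QuadraticMap
open Cfsg.Agent.Lib.Helper44.QSpace Cfsg.Agent.Lib.Helper44.QClass Cfsg.Agent.Lib.Helper44.QBasis
open Cfsg.Agent.Lib.Helper44.QDiag Cfsg.Agent.Lib.Helper44.FinSq

theorem polar_comp_lin {F V : Type*} [Field F] [AddCommGroup V] [Module F V]
    (Q : QuadraticForm F V) (g : V →ₗ[F] V) (x y : V) :
    polar (Q.comp g) x y = polar Q (g x) (g y) := by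
  unfold polar
  simp only [QuadraticMap.comp_apply, map_add]

theorem polar_smul_form {F V : Type*} [Field F] [AddCommGroup V] [Module F V]
    (Q : QuadraticForm F V) (c : F) (x y : V) :
    polar (c • Q) x y = c * polar Q x y := by
  unfold polar
  simp only [QuadraticMap.smul_apply, smul_eq_mul]
  ring

/-- A linear endomorphism scaling `Q` by `c ≠ 0` is injective, hence gives a similarity. -/
theorem exists_equiv_of_comp {F V : Type*} [Field F] [AddCommGroup V] [Module F V]
    [FiniteDimensional F V] {Q : QuadraticForm F V} (hS : Sep Q) {c : F} (hc : c ≠ 0)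
    (g : V →ₗ[F] V) (hg : Q.comp g = c • Q) : ∃ g' : V ≃ₗ[F] V, ∀ v, Q (g' v) = c * Q v := by
  have hinj : Function.Injective g := by
    rw [injective_iff_map_eq_zero]
    intro v hv
    apply hS
    intro z
    have h1 : polar (Q.comp g) v z = polar Q (g v) (g z) := polar_comp_lin Q g v z
    rw [hg, polar_smul_form, hv, polar_zero_left] at h1
    rcases mul_eq_zero.mp h1 with h | h
    · exact absurd h hc
    · exact h
  refine ⟨LinearEquiv.ofInjectiveEndo g hinj, fun v => ?_⟩
  have : Q (g v) = (Q.comp g) v := rfl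
  rw [LinearEquiv.coe_ofInjectiveEndo, this, hg]
  rfl

theorem comp_constr_eq {F V : Type*} [Field F] [AddCommGroup V] [Module F V]
    {Q : QuadraticForm F V} {k : ℕ} {e f : Fin k → V} (hH : IsHyp Q e f) {τ : Type*}
    (r r' : τ → V) (b : Basis ((Fin k ⊕ Fin k) ⊕ τ) F V) (hb : ⇑b = Sum.elim (Sum.elim e f) r)
    (her : ∀ i t, polar Q (e i) (r t) = 0) (hfr : ∀ i t, polar Q (f i) (r t) = 0)
    (her' : ∀ i t, polar Q (e i) (r' t) = 0) (hfr' : ∀ i t, polar Q (f i) (r' t) = 0)
    (c : F) (hq : ∀ t, Q (r' t) = c * Q (r t))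
    (hp : ∀ s t, polar Q (r' s) (r' t) = c * polar Q (r s) (r t)) :
    Q.comp (b.constr F (Sum.elim (Sum.elim (fun i => c • e i) f) r')) = c • Q := by
  obtain ⟨h1, h2, h3, h4, h5⟩ := hH
  have h3' : ∀ i j, polar Q (f i) (e j) = if i = j then 1 else 0 := fun i j => by
    rw [polar_comm, h3 j i]
    simp [eq_comm]
  have her2 : ∀ i t, polar Q (r t) (e i) = 0 := fun i t => by rw [polar_comm]; exact her i t
  have hfr2 : ∀ i t, polar Q (r t) (f i) = 0 := fun i t => by rw [polar_comm]; exact hfr i t
  have her2' : ∀ i t, polar Q (r' t) (e i) = 0 := fun i t => by rw [polar_comm]; exact her' i t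
  have hfr2' : ∀ i t, polar Q (r' t) (f i) = 0 := fun i t => by rw [polar_comm]; exact hfr' i t
  apply quad_ext_basis b
  · intro i
    rw [QuadraticMap.comp_apply, Basis.constr_basis, QuadraticMap.smul_apply, smul_eq_mul, hb]
    rcases i with (i | i) | t
    · simp only [Sum.elim_inl]
      rw [q_smul, h1]; ring
    · simp only [Sum.elim_inl, Sum.elim_inr]
      rw [h2]; ring
    · simp only [Sum.elim_inr]
      exact hq t
  · intro i j
    rw [polar_comp_lin, Basis.constr_basis, Basis.constr_basis, polar_smul_form, hb]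
    rcases i with (i | i) | s <;> rcases j with (j | j) | t <;>
      simp only [Sum.elim_inl, Sum.elim_inr, polar_smul_l, polar_smul_r, h3, h3', h4, h5, her,
        hfr, her', hfr', her2, hfr2, her2', hfr2', hp, mul_zero]

/-- the binary form `u² + u w + ζ w²` is universal over a finite field when `t² + t + ζ` has no root -/
theorem exists_binary {F : Type*} [Field F] [Fintype F] (ζ : F) (hζ : ∀ t : F, t ^ 2 + t + ζ ≠ 0)
    (c : F) : ∃ u w : F, u * u + u * w + ζ * (w * w) = c := by
  by_cases h2 : (2 : F) = 0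
  · have : CharP F 2 := CharTwo.of_one_ne_zero_of_two_eq_zero one_ne_zero h2
    obtain ⟨s, hs⟩ := FiniteField.isSquare_of_char_two (ringChar.eq F 2) c
    exact ⟨s, 0, by rw [hs]; ring⟩
  · have hb : ζ - 1 / 4 ≠ 0 := by
      intro h0
      apply hζ (-1 / 2)
      have h4 : (4 : F) ≠ 0 := by
        have : (4 : F) = 2 * 2 := by norm_num
        rw [this]; exact mul_ne_zero h2 h2
      field_simp
      field_simp at h0
      linear_combination h0
    obtain ⟨s, t, hst⟩ := exists_sq_add_sq (one_ne_zero (α := F)) hb c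
    refine ⟨s - t / 2, t, ?_⟩
    have h4 : (4 : F) ≠ 0 := by
      have : (4 : F) = 2 * 2 := by norm_num
      rw [this]; exact mul_ne_zero h2 h2
    rw [← hst]
    field_simp
    ring

/-- For a quadratic form Q on F^n with non-degenerate polar form, F finite and n ≥ 2 even, every non-zero scalar c is the multiplier of some similarity. -/
theorem result {F : Type*} [Field F] [Fintype F] {n : ℕ} (hn : 2 ≤ n) (he : Even n) (Q : QuadraticForm F (Fin n → F)) (hQ : (QuadraticMap.polarBilin Q).Nondegenerate) (c : F) (hc : c ≠ 0) : ∃ g : (Fin n → F) ≃ₗ[F] (Fin n → F), ∀ v, Q (g v) = c * Q v := by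
  obtain ⟨m, rfl⟩ : ∃ m, n = 2 * (m + 1) := by
    obtain ⟨j, hj⟩ := he
    exact ⟨j - 1, by omega⟩
  have hS := sep_of_nondegenerate hQ
  rcases exists_hyp_even m (Fin (2 * (m + 1)) → F) Q (Module.finrank_fin_fun F) hS with
    ⟨e, f, hH⟩ | ⟨e, f, x, y, ζ, hH, hE, hO⟩
  · obtain ⟨b, hb⟩ := exists_hyp_basis hH (Fin.elim0 : Fin 0 → _) linearIndependent_empty_type
      (fun _ t => t.elim0) (fun _ t => t.elim0) (by simp [Module.finrank_fin_fun])
    exact exists_equiv_of_comp hS hc _ (comp_constr_eq hH Fin.elim0 Fin.elim0 b hb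
      (fun _ t => t.elim0) (fun _ t => t.elim0) (fun _ t => t.elim0) (fun _ t => t.elim0) c
      (fun t => t.elim0) (fun t => t.elim0))
  · have her : ∀ i (t : Fin 2), polar Q (e i) (![x, y] t) = 0 := by
      intro i t
      fin_cases t
      · exact (hO i).1
      · exact (hO i).2.1
    have hfr : ∀ i (t : Fin 2), polar Q (f i) (![x, y] t) = 0 := by
      intro i t
      fin_cases t
      · exact (hO i).2.2.1
      · exact (hO i).2.2.2
    obtain ⟨b, hb⟩ := exists_hyp_basis hH ![x, y] (linearIndependent_ell hE) her hfr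
      (by simp [Module.finrank_fin_fun]; omega)
    obtain ⟨hx, hxy, hy, hζ⟩ := hE
    obtain ⟨u, w, huw⟩ := exists_binary ζ hζ c
    have hyx : polar Q y x = 1 := by rw [polar_comm]; exact hxy
    have her' : ∀ i (t : Fin 2), polar Q (e i) (![u • x + w • y, (-(w * ζ)) • x + (u + w) • y] t) = 0 := by
      intro i t
      fin_cases t
      · simp [polar_add_right, polar_smul_r, (hO i).1, (hO i).2.1]
      · simp [polar_add_right, polar_smul_r, (hO i).1, (hO i).2.1]
    have hfr' : ∀ i (t : Fin 2), polar Q (f i) (![u • x + w • y, (-(w * ζ)) • x + (u + w) • y] t) = 0 := by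
      intro i t
      fin_cases t
      · simp [polar_add_right, polar_smul_r, (hO i).2.2.1, (hO i).2.2.2]
      · simp [polar_add_right, polar_smul_r, (hO i).2.2.1, (hO i).2.2.2]
    have hq : ∀ t : Fin 2, Q (![u • x + w • y, (-(w * ζ)) • x + (u + w) • y] t) = c * Q (![x, y] t) := by
      intro t
      fin_cases t
      · simp only [Fin.zero_eta, Matrix.cons_val_zero]
        rw [q_add, q_smul, q_smul, polar_smul_l, polar_smul_r, hx, hxy, hy]
        linear_combination huw
      · simp only [Fin.mk_one, Matrix.cons_val_one, Matrix.cons_val_zero]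
        rw [q_add, q_smul, q_smul, polar_smul_l, polar_smul_r, hx, hxy, hy]
        linear_combination ζ * huw
    have hp : ∀ s t : Fin 2, polar Q (![u • x + w • y, (-(w * ζ)) • x + (u + w) • y] s)
        (![u • x + w • y, (-(w * ζ)) • x + (u + w) • y] t) = c * polar Q (![x, y] s) (![x, y] t) := by
      intro s t
      have hxx : polar Q x x = 2 := by rw [polar_self', hx, mul_one]
      have hyy : polar Q y y = 2 * ζ := by rw [polar_self', hy]
      fin_cases s <;> fin_cases t <;>
        simp only [Fin.zero_eta, Fin.mk_one, Matrix.cons_val_zero, Matrix.cons_val_one,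
          polar_add_left, polar_add_right, polar_smul_l, polar_smul_r, hxx, hyy, hxy, hyx]
      · linear_combination 2 * huw
      · linear_combination huw
      · linear_combination huw
      · linear_combination 2 * ζ * huw
    exact exists_equiv_of_comp hS hc _ (comp_constr_eq hH ![x, y] _ b hb her hfr her' hfr' c hq hp)

end Cfsg.Agent.S2624
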