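import Cfsg.Statements.S2625

set_option autoImplicit false
open Cfsg

namespace Cfsg.Agent.S2625

/-- For a quadratic form Q on F^n with non-degenerate polar form, F finite and n odd (so |F| is odd), the multiplier of any similarity is a square: if g is an invertible linear map with Q(g v) = c·Q(v) for all v then c is a square. -/
theorem result {F : Type*} [Field F] [Fintype F] {n : ℕ} (hn : Odd n) (Q : QuadraticForm F (Fin n → F)) (hQ : (QuadraticMap.polarBilin Q).Nondegenerate) (g : (Fin n → F) ≃ₗ[F] (Fin n → F)) (c : F) (hg : ∀ v, Q (g v) = c * Q v) : IsSquare c := by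
  classical
  have hB : LinearMap.BilinForm.comp (QuadraticMap.polarBilin Q) g.toLinearMap g.toLinearMap
      = c • QuadraticMap.polarBilin Q := by
    apply LinearMap.ext₂
    intro u v
    simp only [LinearMap.BilinForm.comp_apply, LinearEquiv.coe_coe, QuadraticMap.polarBilin_apply_apply,
      LinearMap.smul_apply, smul_eq_mul, QuadraticMap.polar]
    rw [← map_add, hg, hg, hg]
    ring
  have hM := LinearMap.BilinForm.toMatrix'_comp (QuadraticMap.polarBilin Q) g.toLinearMap g.toLinearMap
  rw [hB] at hM
  have hdet := congrArg Matrix.det hM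
  rw [map_smul, Matrix.det_smul, Matrix.det_mul, Matrix.det_mul, Matrix.det_transpose,
    Fintype.card_fin] at hdet
  have hM0 : (LinearMap.BilinForm.toMatrix' (QuadraticMap.polarBilin Q)).det ≠ 0 := by
    rw [← Matrix.nondegenerate_iff_det_ne_zero]
    exact LinearMap.BilinForm.nondegenerate_toMatrix'_iff.mpr hQ
  set d := (LinearMap.toMatrix' g.toLinearMap).det with hd
  set M := (LinearMap.BilinForm.toMatrix' (QuadraticMap.polarBilin Q)).det with hMdef
  have hcn : c ^ n = d ^ 2 := by
    have : c ^ n * M = d ^ 2 * M := by rw [hdet]; ring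
    exact mul_right_cancel₀ hM0 this
  obtain ⟨k, rfl⟩ := hn
  by_cases hc : c = 0
  · exact ⟨0, by simp [hc]⟩
  · refine ⟨d / c ^ k, ?_⟩
    have hck : c ^ k ≠ 0 := pow_ne_zero _ hc
    field_simp
    rw [← hcn]
    ring

end Cfsg.Agent.S2625
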