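import Cfsg.Statements.S2627
import Cfsg.Agent.Lib.Helper44.OSum

set_option autoImplicit false
open Cfsg

namespace Cfsg.Agent.S2627

open Module QuadraticMap Matrix
open scoped commutatorElement
open Cfsg.Agent.Lib.Helper44.QSpace Cfsg.Agent.Lib.Helper44.OGroup Cfsg.Agent.Lib.Helper44.Spinor
open Cfsg.Agent.Lib.Helper44.OMat Cfsg.Agent.Lib.Helper44.CD2a Cfsg.Agent.Lib.Helper44.Omega2
open Cfsg.Agent.Lib.Helper44.OMat2 Cfsg.Agent.Lib.Helper44.OSum


/-- For an orthogonal direct sum Q = Q₁ ⊕ Q₂ of quadratic forms with non-degenerate polar forms over a finite field, an isometry g₁ of Q₁ extended by the identity on the second summand lies in Ω(Q) (the commutator subgroup of the orthogonal group of Q) if and only if g₁ lies in Ω(Q₁). (Excluded: the field of two elements when the first summand or the whole space has dimension 4, where the commutator subgroup of O⁺₄(2) is smaller than the group usually called Ω.) -/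
theorem result {F : Type*} [Field F] [Fintype F] {k l : ℕ} (h : Fintype.card F ≠ 2 ∨ (k ≠ 4 ∧ k + l ≠ 4)) (Q₁ : QuadraticForm F (Fin k → F)) (Q₂ : QuadraticForm F (Fin l → F)) (h₁ : (QuadraticMap.polarBilin Q₁).Nondegenerate) (h₂ : (QuadraticMap.polarBilin Q₂).Nondegenerate) (g₁ : ↥(Cfsg.isometryGroup F ⇑Q₁)) : (∃ g : ↥(Cfsg.isometryGroup F (fun v : Fin k ⊕ Fin l → F => Q₁ (v ∘ Sum.inl) + Q₂ (v ∘ Sum.inr))), g ∈ Cfsg.Omega F (fun v : Fin k ⊕ Fin l → F => Q₁ (v ∘ Sum.inl) + Q₂ (v ∘ Sum.inr)) ∧ ((g : Matrix.GeneralLinearGroup (Fin k ⊕ Fin l) F) : Matrix (Fin k ⊕ Fin l) (Fin k ⊕ Fin l) F) = Matrix.fromBlocks ((g₁ : Matrix.GeneralLinearGroup (Fin k) F) : Matrix (Fin k) (Fin k) F) 0 0 1) ↔ g₁ ∈ Cfsg.Omega F ⇑Q₁ := by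
  have hS₁ := sep_of_nondegenerate h₁
  have hS₂ := sep_of_nondegenerate h₂
  have hS := sep_sumQ hS₁ hS₂
  have hred : (∃ g : ↥(Cfsg.isometryGroup F (fun v : Fin k ⊕ Fin l → F =>
        Q₁ (v ∘ Sum.inl) + Q₂ (v ∘ Sum.inr))),
      g ∈ Cfsg.Omega F (fun v : Fin k ⊕ Fin l → F => Q₁ (v ∘ Sum.inl) + Q₂ (v ∘ Sum.inr)) ∧
      ((g : Matrix.GeneralLinearGroup (Fin k ⊕ Fin l) F)
        : Matrix (Fin k ⊕ Fin l) (Fin k ⊕ Fin l) F)
        = Matrix.fromBlocks ((g₁ : Matrix.GeneralLinearGroup (Fin k) F)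
          : Matrix (Fin k) (Fin k) F) 0 0 1)
      ↔ embL Q₁ Q₂ g₁ ∈ Cfsg.Omega F ⇑(sumQ Q₁ Q₂) := by
    constructor
    · rintro ⟨g, hg, hgm⟩
      have e : g = embL Q₁ Q₂ g₁ := by
        apply Subtype.ext
        apply Units.ext
        rw [hgm]
        rfl
      rw [← e]
      exact hg
    · intro hmem
      exact ⟨embL Q₁ Q₂ g₁, hmem, rfl⟩
  rw [hred]
  constructor
  swap
  · intro hg
    exact map_mem_commutator (embL Q₁ Q₂) hg
  intro hmem
  have hc₁ : Fintype.card F ≠ 2 ∨ Fintype.card (Fin k) ≠ 4 := by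
    rcases h with h | h
    · exact Or.inl h
    · right
      rw [Fintype.card_fin]
      exact h.1
  have hc : Fintype.card F ≠ 2 ∨ Fintype.card (Fin k ⊕ Fin l) ≠ 4 := by
    rcases h with h | h
    · exact Or.inl h
    · right
      rw [Fintype.card_sum, Fintype.card_fin, Fintype.card_fin]
      exact h.2
  have hCD₁ : CDP Q₁ := cdp_of_card hS₁ hc₁
  have hCD : CDP (sumQ Q₁ Q₂) := cdp_of_card hS hc
  obtain ⟨vs, hvs, hg₁⟩ := exists_prod_of_cdp hCD₁ g₁
  have hemb := isoEquiv_embL_prod Q₁ Q₂ g₁ vs hg₁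
  have hmem' : ((vs.map inlV).map (refl (sumQ Q₁ Q₂))).prod ∈ commutator ↥(O (sumQ Q₁ Q₂)) := by
    rw [← hemb]
    exact (mem_omega_iff (sumQ Q₁ Q₂) _).mp hmem
  have hvs' : ∀ v ∈ vs.map (inlV (ι₂ := Fin l)), sumQ Q₁ Q₂ v ≠ 0 := by
    intro v hv
    rw [List.mem_map] at hv
    obtain ⟨w, hw, rfl⟩ := hv
    rw [q_inlV]
    exact hvs w hw
  have hev : Even vs.length := by
    have := even_of_mem_commutator hS hCD _ hvs' hmem'
    rwa [List.length_map] at this
  rw [mem_omega_iff, hg₁]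
  by_cases h2 : (2 : F) = 0
  · have : CharP F 2 := CharTwo.of_one_ne_zero_of_two_eq_zero one_ne_zero h2
    exact (mem_commutator_iff_two hS₁ (good_of_card' hS₁ hc₁) vs hvs).mpr hev
  · by_cases hk : 2 ≤ k
    · have hd₁ : 2 ≤ finrank F (Fin k → F) := by
        rw [Module.finrank_fintype_fun_eq_card, Fintype.card_fin]
        exact hk
      have hd : 2 ≤ finrank F (Fin k ⊕ Fin l → F) := by
        rw [Module.finrank_fintype_fun_eq_card, Fintype.card_sum, Fintype.card_fin,
          Fintype.card_fin]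
        omega
      have hcrit := (mem_commutator_iff h2 hS hd _ hvs').mp hmem'
      rw [List.map_map] at hcrit
      have e : (fun v => (sumQ Q₁ Q₂) v) ∘ (inlV (ι₂ := Fin l)) = fun v => Q₁ v := by
        funext v
        exact q_inlV Q₁ Q₂ v
      rw [e] at hcrit
      exact (mem_commutator_iff h2 hS₁ hd₁ vs hvs).mpr ⟨hev, hcrit.2⟩
    · -- dimension at most one: all reflections coincide
      have hd₁ : finrank F (Fin k → F) ≤ 1 := by
        rw [Module.finrank_fintype_fun_eq_card, Fintype.card_fin]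
        omega
      obtain ⟨v₀, hv₀⟩ := finrank_le_one_iff.mp hd₁
      have hall : ∀ w : Fin k → F, Q₁ w ≠ 0 → refl Q₁ w = refl Q₁ v₀ := by
        intro w hw
        obtain ⟨c, hc⟩ := hv₀ w
        have hc0 : c ≠ 0 := by
          rintro rfl
          rw [zero_smul] at hc
          rw [← hc] at hw
          exact hw (QuadraticMap.map_zero Q₁)
        rw [← hc]
        exact Subtype.ext (reflE_smul Q₁ hc0 v₀)
      have hprod : ∀ ws : List (Fin k → F), (∀ w ∈ ws, Q₁ w ≠ 0) →
          (ws.map (refl Q₁)).prod = (refl Q₁ v₀) ^ ws.length := by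
        intro ws
        induction ws with
        | nil => intro _; simp
        | cons a ws ih =>
          intro hws
          rw [List.map_cons, List.prod_cons, ih (fun w hw => hws w (List.mem_cons_of_mem _ hw)),
            hall a (hws a List.mem_cons_self), List.length_cons, pow_succ']
      rw [hprod vs hvs]
      obtain ⟨j, hj⟩ := hev
      rw [hj, ← two_mul, pow_mul, pow_two, refl_mul_self, one_pow]
      exact Subgroup.one_mem _

end Cfsg.Agent.S2627
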