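import Cfsg.Statements.S2628
import Cfsg.Agent.Lib.Helper44.OSum

set_option autoImplicit false
open Cfsg

namespace Cfsg.Agent.S2628

open Module QuadraticMap Matrix
open scoped commutatorElement
open Cfsg.Agent.Lib.Helper44.QSpace Cfsg.Agent.Lib.Helper44.OGroup Cfsg.Agent.Lib.Helper44.Spinor
open Cfsg.Agent.Lib.Helper44.OMat Cfsg.Agent.Lib.Helper44.CD2a Cfsg.Agent.Lib.Helper44.Omega2
open Cfsg.Agent.Lib.Helper44.OMat2 Cfsg.Agent.Lib.Helper44.OSum


/-- For the orthogonal direct sum Q ⊕ Q of two copies of a quadratic form Q with non-degenerate polar form on F^k (F finite), every isometry g of Q acting diagonally, diag(g, g), lies in Ω(Q ⊕ Q), the commutator subgroup of the orthogonal group of Q ⊕ Q. (Excluded: k = 2 over the field of two elements, where Q ⊕ Q is the hyperbolic 4-space whose orthogonal group's commutator subgroup is smaller than the group usually called Ω.) -/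
theorem result {F : Type*} [Field F] [Fintype F] {k : ℕ} (h : Fintype.card F ≠ 2 ∨ k ≠ 2) (Q : QuadraticForm F (Fin k → F)) (hQ : (QuadraticMap.polarBilin Q).Nondegenerate) (g : ↥(Cfsg.isometryGroup F ⇑Q)) : ∃ x : ↥(Cfsg.isometryGroup F (fun v : Fin k ⊕ Fin k → F => Q (v ∘ Sum.inl) + Q (v ∘ Sum.inr))), x ∈ Cfsg.Omega F (fun v : Fin k ⊕ Fin k → F => Q (v ∘ Sum.inl) + Q (v ∘ Sum.inr)) ∧ ((x : Matrix.GeneralLinearGroup (Fin k ⊕ Fin k) F) : Matrix (Fin k ⊕ Fin k) (Fin k ⊕ Fin k) F) = Matrix.fromBlocks ((g : Matrix.GeneralLinearGroup (Fin k) F) : Matrix (Fin k) (Fin k) F) 0 0 ((g : Matrix.GeneralLinearGroup (Fin k) F) : Matrix (Fin k) (Fin k) F) := by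
  have hS := sep_of_nondegenerate hQ
  have hS' := sep_sumQ hS hS
  have hCD : CDP (sumQ Q Q) := cdp_of_card hS' (by
    rcases h with h | h
    · exact Or.inl h
    · right
      rw [Fintype.card_sum, Fintype.card_fin]
      omega)
  have hmem : blockIso Q Q (g, g) ∈ Cfsg.Omega F ⇑(sumQ Q Q) := by
    rw [blockIso_eq_mul]
    set σ : ↥(Cfsg.isometryGroup F ⇑(sumQ Q Q)) := ⟨swapGL, swapGL_mem Q⟩ with hσ
    have e : embR Q Q g = σ * embL Q Q g * σ⁻¹ := by
      rw [hσ, swap_mul_embL]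
      group
    rw [e]
    have e2 : embL Q Q g * (σ * embL Q Q g * σ⁻¹)
        = (embL Q Q g * embL Q Q g) * ⁅(embL Q Q g)⁻¹, σ⁆ := by
      rw [commutatorElement_def]
      group
    rw [e2]
    exact Subgroup.mul_mem _ (sq_mem_omega_of_cdp hCD _)
      (Subgroup.commutator_mem_commutator (Subgroup.mem_top _) (Subgroup.mem_top _))
  exact ⟨blockIso Q Q (g, g), hmem, rfl⟩

end Cfsg.Agent.S2628
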