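import Cfsg.Statements.S2630
import Cfsg.Agent.Lib.Helper44.MaxTS3

set_option autoImplicit false
open Cfsg

namespace Cfsg.Agent.S2630

open Module QuadraticMap Matrix
open Cfsg.Agent.Lib.Helper44.QSpace Cfsg.Agent.Lib.Helper44.OGroup Cfsg.Agent.Lib.Helper44.Spinor
open Cfsg.Agent.Lib.Helper44.CartanD Cfsg.Agent.Lib.Helper44.OMat Cfsg.Agent.Lib.Helper44.CD2a
open Cfsg.Agent.Lib.Helper44.Omega2 Cfsg.Agent.Lib.Helper44.OMat2 Cfsg.Agent.Lib.Helper44.ODet
open Cfsg.Agent.Lib.Helper44.MaxTS Cfsg.Agent.Lib.Helper44.MaxTS2 Cfsg.Agent.Lib.Helper44.MaxTS3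
open Cfsg.Agent.Lib.Helper44.NegPairs



/-- For the hyperbolic form Σ x_i y_i on F^(2m) over a finite field of characteristic two (m ≥ 1, excluding m = 2 over the field of two elements), an isometry g preserves the class of the maximal totally singular subspace U₀ = {y = 0} (m − dim(U₀ ∩ gU₀) even) if and only if g lies in Ω (the commutator subgroup of the orthogonal group): the stabiliser of each class is Ω. -/
theorem result {F : Type*} [Field F] [Fintype F] [CharP F 2] {m : ℕ} (hm : 1 ≤ m) (h : Fintype.card F ≠ 2 ∨ m ≠ 2) (g : ↥(Cfsg.isometryGroup F (Cfsg.quadFormPlus m F))) : Even (m - Module.finrank F ↥(LinearMap.ker (LinearMap.funLeft F F (Sum.inr : Fin m → Fin m ⊕ Fin m)) ⊓ (LinearMap.ker (LinearMap.funLeft F F (Sum.inr : Fin m → Fin m ⊕ Fin m))).map (Matrix.mulVecLin ((g : Matrix.GeneralLinearGroup (Fin m ⊕ Fin m) F) : Matrix (Fin m ⊕ Fin m) (Fin m ⊕ Fin m) F)))) ↔ g ∈ Cfsg.Omega F (Cfsg.quadFormPlus m F) := by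
  have hS := sep_plusQ (F := F) m
  have hG : Good (plusQ m F) := good_of_card' hS (by
    rcases h with h | h
    · exact Or.inl h
    · right
      rw [Fintype.card_sum, Fintype.card_fin]
      omega)
  have hCD : CDP (plusQ m F) := cdp_two hS hG
  obtain ⟨vs, hvs, hg⟩ := exists_prod_of_cdp hCD g
  have hp := parity_iso hS (by rw [Fintype.card_sum, Fintype.card_fin]; omega) (ts_std m) g vs
    hvs hg
  have hmem : g ∈ Cfsg.Omega F (Cfsg.quadFormPlus m F) ↔ Even vs.length := by
    rw [← mem_commutator_iff_two hS hG vs hvs, ← hg]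
    exact mem_omega_iff (plusQ m F) g
  rw [hmem, Nat.even_iff, Nat.even_iff, hp]

end Cfsg.Agent.S2630
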