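import Cfsg.Statements.S2631
import Cfsg.Agent.Lib.Helper44.TSTrans2

set_option autoImplicit false
open Cfsg

namespace Cfsg.Agent.S2631

open Module QuadraticMap Matrix
open Cfsg.Agent.Lib.Helper44.QSpace Cfsg.Agent.Lib.Helper44.OGroup Cfsg.Agent.Lib.Helper44.Spinor
open Cfsg.Agent.Lib.Helper44.CartanD Cfsg.Agent.Lib.Helper44.OMat Cfsg.Agent.Lib.Helper44.CD2a
open Cfsg.Agent.Lib.Helper44.Omega2 Cfsg.Agent.Lib.Helper44.OMat2 Cfsg.Agent.Lib.Helper44.ODet
open Cfsg.Agent.Lib.Helper44.MaxTS Cfsg.Agent.Lib.Helper44.MaxTS2 Cfsg.Agent.Lib.Helper44.MaxTS3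
open Cfsg.Agent.Lib.Helper44.NegPairs Cfsg.Agent.Lib.Helper44.TSTrans
open Cfsg.Agent.Lib.Helper44.TSTrans2



/-- For the hyperbolic form Σ x_i y_i on F^(2m) over a finite field (m ≥ 1, excluding m = 2 over the field of two elements), Ω (the commutator subgroup of the orthogonal group) acts transitively on each of the two classes of maximal totally singular subspaces: if U and W are m-dimensional totally singular subspaces with m − dim(U ∩ W) even, some element of Ω carries U to W. -/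
theorem result {F : Type*} [Field F] [Fintype F] {m : ℕ} (hm : 1 ≤ m) (h : Fintype.card F ≠ 2 ∨ m ≠ 2) (U W : Submodule F (Fin m ⊕ Fin m → F)) (hU : Module.finrank F U = m) (hW : Module.finrank F W = m) (hU0 : ∀ u ∈ U, Cfsg.quadFormPlus m F u = 0) (hW0 : ∀ w ∈ W, Cfsg.quadFormPlus m F w = 0) (he : Even (m - Module.finrank F ↥(U ⊓ W))) : ∃ g : ↥(Cfsg.isometryGroup F (Cfsg.quadFormPlus m F)), g ∈ Cfsg.Omega F (Cfsg.quadFormPlus m F) ∧ U.map (Matrix.mulVecLin ((g : Matrix.GeneralLinearGroup (Fin m ⊕ Fin m) F) : Matrix (Fin m ⊕ Fin m) (Fin m ⊕ Fin m) F)) = W := by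
  have hS := sep_plusQ (F := F) m
  have hTU : TS (plusQ m F) m U := ⟨hU, hU0⟩
  have hV : finrank F (Fin m ⊕ Fin m → F) = 2 * m := by
    rw [Module.finrank_fintype_fun_eq_card, Fintype.card_sum, Fintype.card_fin]
    omega
  obtain ⟨vs, hvs, hmap⟩ := exists_prod_map hS _ U W (Q := plusQ m F) hU0 hW0
    (by rw [hU, hW]) rfl
  have hp := parity_prod hS hV hTU vs hvs
  rw [hmap] at hp
  have hev : Even vs.length := by
    rw [Nat.even_iff] at he ⊢
    omega
  have hW0' : W ≠ ⊥ := by
    intro h0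
    rw [h0, finrank_bot] at hW
    omega
  exact exists_omega_map hS (by
      rcases h with h | h
      · exact Or.inl h
      · right
        rw [Fintype.card_sum, Fintype.card_fin]
        omega) (by rw [Fintype.card_sum, Fintype.card_fin]; omega) (Q := plusQ m F) hW0 hW0'
    vs hvs hev hmap

end Cfsg.Agent.S2631
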