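import Cfsg.Statements.S2633
import Cfsg.Agent.Lib.Helper44.TSTrans2

set_option autoImplicit false
open Cfsg

namespace Cfsg.Agent.S2633

open Module QuadraticMap Matrix
open Cfsg.Agent.Lib.Helper44.QSpace Cfsg.Agent.Lib.Helper44.OGroup Cfsg.Agent.Lib.Helper44.Spinor
open Cfsg.Agent.Lib.Helper44.CartanD Cfsg.Agent.Lib.Helper44.OMat Cfsg.Agent.Lib.Helper44.CD2a
open Cfsg.Agent.Lib.Helper44.Omega2 Cfsg.Agent.Lib.Helper44.OMat2 Cfsg.Agent.Lib.Helper44.ODet
open Cfsg.Agent.Lib.Helper44.MaxTS Cfsg.Agent.Lib.Helper44.MaxTS2 Cfsg.Agent.Lib.Helper44.MaxTS3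
open Cfsg.Agent.Lib.Helper44.NegPairs Cfsg.Agent.Lib.Helper44.TSTrans
open Cfsg.Agent.Lib.Helper44.TSTrans2



/-- Ω is transitive on totally singular subspaces of each dimension less than half the dimension: for a quadratic form Q on F^n with non-degenerate polar form (F finite; excluding dimension 4 over the field of two elements), if U and W are subspaces of the same dimension k with 2k < n on which Q vanishes, then some element of Ω (the commutator subgroup of the orthogonal group) carries U to W. -/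
theorem result {F : Type*} [Field F] [Fintype F] {n : ℕ} (h : Fintype.card F ≠ 2 ∨ n ≠ 4) (Q : QuadraticForm F (Fin n → F)) (hQ : (QuadraticMap.polarBilin Q).Nondegenerate) (U W : Submodule F (Fin n → F)) {k : ℕ} (hk : 2 * k < n) (hU : Module.finrank F U = k) (hW : Module.finrank F W = k) (hU0 : ∀ u ∈ U, Q u = 0) (hW0 : ∀ w ∈ W, Q w = 0) : ∃ g : ↥(Cfsg.isometryGroup F ⇑Q), g ∈ Cfsg.Omega F ⇑Q ∧ U.map (Matrix.mulVecLin ((g : Matrix.GeneralLinearGroup (Fin n) F) : Matrix (Fin n) (Fin n) F)) = W := by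
  have hS : Sep Q := sep_of_nondegenerate hQ
  by_cases hk0 : k = 0
  · subst hk0
    have hU' : U = ⊥ := Submodule.finrank_eq_zero.mp hU
    have hW' : W = ⊥ := Submodule.finrank_eq_zero.mp hW
    refine ⟨1, Subgroup.one_mem _, ?_⟩
    rw [hU', hW', Submodule.map_bot]
  · obtain ⟨vs₀, hvs₀, hmap₀⟩ := exists_prod_map hS _ U W hU0 hW0 (by rw [hU, hW]) rfl
    obtain ⟨v, hv, hfix⟩ := exists_refl_fix hS (W := W) (by
      rw [hW, Module.finrank_fintype_fun_eq_card, Fintype.card_fin]
      exact hk)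
    obtain ⟨vs, hvs, hev, hmap⟩ : ∃ vs : List (Fin n → F), (∀ v ∈ vs, Q v ≠ 0) ∧
        Even vs.length ∧ U.map (((vs.map (reflE Q)).prod : (Fin n → F) ≃ₗ[F] (Fin n → F)) :
          (Fin n → F) →ₗ[F] (Fin n → F)) = W := by
      by_cases he : Even vs₀.length
      · exact ⟨vs₀, hvs₀, he, hmap₀⟩
      · refine ⟨v :: vs₀, ?_, ?_, ?_⟩
        · intro x hx
          rcases List.mem_cons.mp hx with h1 | h1
          · rw [h1]; exact hv
          · exact hvs₀ x h1
        · rw [List.length_cons]
          rw [Nat.not_even_iff_odd] at he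
          exact he.add_one
        · rw [List.map_cons, List.prod_cons, map_mul_eq, hmap₀]
          exact hfix
    have hW0' : W ≠ ⊥ := by
      intro h0
      rw [h0, finrank_bot] at hW
      exact hk0 hW.symm
    exact exists_omega_map hS (by rw [Fintype.card_fin]; exact h)
      (by rw [Fintype.card_fin]; omega) hW0 hW0' vs hvs hev hmap

end Cfsg.Agent.S2633
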