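import Cfsg.Statements.S2634
import Cfsg.Agent.Lib.Helper44.OMat2

set_option autoImplicit false
open Cfsg

namespace Cfsg.Agent.S2634

open Module QuadraticMap Matrix
open Cfsg.Agent.Lib.Helper44.QSpace Cfsg.Agent.Lib.Helper44.OGroup Cfsg.Agent.Lib.Helper44.Spinor
open Cfsg.Agent.Lib.Helper44.OMat Cfsg.Agent.Lib.Helper44.CD2a Cfsg.Agent.Lib.Helper44.Omega2
open Cfsg.Agent.Lib.Helper44.OMat2


/-- Over a finite field of characteristic two, Ω (the commutator subgroup of the orthogonal group of a quadratic form Q on F^n with non-degenerate polar form; excluding dimension 4 over the field of two elements) acts transitively on the non-singular 1-spaces: for u, v with Q(u) ≠ 0 and Q(v) ≠ 0 some element of Ω carries the line through u to the line through v. -/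
theorem result {F : Type*} [Field F] [Fintype F] [CharP F 2] {n : ℕ} (h : Fintype.card F ≠ 2 ∨ n ≠ 4) (Q : QuadraticForm F (Fin n → F)) (hQ : (QuadraticMap.polarBilin Q).Nondegenerate) (u v : Fin n → F) (hu : Q u ≠ 0) (hv : Q v ≠ 0) : ∃ g : ↥(Cfsg.isometryGroup F ⇑Q), g ∈ Cfsg.Omega F ⇑Q ∧ (F ∙ ((g : Matrix.GeneralLinearGroup (Fin n) F) : Matrix (Fin n) (Fin n) F).mulVec u) = F ∙ v := by
  have hS := sep_of_nondegenerate hQ
  have hG := good_of_card' hS (by rw [Fintype.card_fin]; exact h)
  obtain ⟨l, hl, s, hs0, hlu⟩ := exists_mem_O_map_two hS hG hu hv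
  obtain ⟨l', hl', he, hl'u⟩ : ∃ l' : List (Fin n → F), (∀ x ∈ l', Q x ≠ 0) ∧ Even l'.length ∧
      (l'.map (reflE Q)).prod u = s • v := by
    by_cases hev : Even l.length
    · exact ⟨l, hl, hev, hlu⟩
    · refine ⟨l ++ [u], ?_, ?_, ?_⟩
      · intro x hx
        rcases List.mem_append.mp hx with h1 | h1
        · exact hl x h1
        · rw [List.mem_singleton] at h1
          rw [h1]; exact hu
      · rw [List.length_append, List.length_singleton]
        exact Nat.even_add_one.mpr hev
      · rw [List.map_append, List.prod_append, LinearEquiv.mul_apply]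
        simp only [List.map_cons, List.map_nil, List.prod_cons, List.prod_nil, mul_one]
        rw [reflE_of_orth (polar_self_two Q u), hlu]
  refine ⟨(isoEquiv Q).symm ((l'.map (refl Q)).prod), ?_, ?_⟩
  · rw [mem_omega_iff, MulEquiv.apply_symm_apply]
    exact (mem_commutator_iff_two hS hG l' hl').mpr he
  · rw [symm_prod_matrix_mulVec, hl'u]
    exact Submodule.span_singleton_smul_eq (IsUnit.mk0 s hs0) v

end Cfsg.Agent.S2634
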