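import Cfsg.Statements.S2635
import Cfsg.Agent.Lib.Helper44.OMat2

set_option autoImplicit false
open Cfsg

namespace Cfsg.Agent.S2635

open Module QuadraticMap Matrix
open Cfsg.Agent.Lib.Helper44.QSpace Cfsg.Agent.Lib.Helper44.OGroup Cfsg.Agent.Lib.Helper44.Spinor
open Cfsg.Agent.Lib.Helper44.OMat Cfsg.Agent.Lib.Helper44.CD2a Cfsg.Agent.Lib.Helper44.Omega2
open Cfsg.Agent.Lib.Helper44.OMat2


/-- Over a finite field of characteristic two, for a quadratic form Q on F^n with non-degenerate polar form, n ≥ 2, other than dimension 4 over the field of two elements, Ω (the commutator subgroup of the orthogonal group) is exactly the subgroup generated by the products of two reflections (orthogonal transvections) x ↦ x − Q(v)⁻¹ f(x, v) v, Q(v) ≠ 0: the products of an even number of reflections. -/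
theorem result {F : Type*} [Field F] [Fintype F] [CharP F 2] {n : ℕ} (hn : 2 ≤ n) (h : Fintype.card F ≠ 2 ∨ n ≠ 4) (Q : QuadraticForm F (Fin n → F)) (hQ : (QuadraticMap.polarBilin Q).Nondegenerate) : Cfsg.Omega F ⇑Q = Subgroup.closure {g : ↥(Cfsg.isometryGroup F ⇑Q) | ∃ u v : Fin n → F, Q u ≠ 0 ∧ Q v ≠ 0 ∧ ((g : Matrix.GeneralLinearGroup (Fin n) F) : Matrix (Fin n) (Fin n) F) = Cfsg.reflectionMatrix ⇑Q u * Cfsg.reflectionMatrix ⇑Q v} := by
  have hS := sep_of_nondegenerate hQ
  have hG := good_of_card' hS (by rw [Fintype.card_fin]; exact h)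
  apply le_antisymm
  · intro g hg
    obtain ⟨vs, hvs, hgv⟩ := exists_prod_of_cdp (cdp_two hS hG) g
    have hev : Even vs.length := by
      apply (mem_commutator_iff_two hS hG vs hvs).mp
      rw [← hgv]
      exact (mem_omega_iff Q g).mp hg
    have pairs : ∀ (k : ℕ) (ws : List (Fin n → F)), ws.length = 2 * k → (∀ v ∈ ws, Q v ≠ 0) →
        (isoEquiv Q).symm ((ws.map (refl Q)).prod) ∈ Subgroup.closure
          {g : ↥(Cfsg.isometryGroup F ⇑Q) | ∃ u v : Fin n → F, Q u ≠ 0 ∧ Q v ≠ 0 ∧
            ((g : Matrix.GeneralLinearGroup (Fin n) F) : Matrix (Fin n) (Fin n) F)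
              = Cfsg.reflectionMatrix ⇑Q u * Cfsg.reflectionMatrix ⇑Q v} := by
      intro k
      induction k with
      | zero =>
        intro ws hws _
        have : ws = [] := List.length_eq_zero_iff.mp (by omega)
        rw [this, List.map_nil, List.prod_nil, map_one]
        exact Subgroup.one_mem _
      | succ k ih =>
        intro ws hws hq
        rcases ws with _ | ⟨u, _ | ⟨v, rest⟩⟩
        · simp at hws
        · simp at hws
          omega
        · rw [List.map_cons, List.map_cons, List.prod_cons, List.prod_cons, ← mul_assoc, map_mul]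
          apply Subgroup.mul_mem
          · apply Subgroup.subset_closure
            refine ⟨u, v, hq u (by simp), hq v (by simp), ?_⟩
            rw [map_mul, Subgroup.coe_mul, Units.val_mul, symm_refl_matrix, symm_refl_matrix]
          · apply ih rest
            · simp at hws
              omega
            · intro x hx
              exact hq x (by simp [hx])
    obtain ⟨k, hk⟩ := hev
    have := pairs k vs (by omega) hvs
    rw [← hgv, MulEquiv.symm_apply_apply] at this
    exact this
  · rw [Subgroup.closure_le]
    rintro g ⟨u, v, hu, hv, hguv⟩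
    rw [SetLike.mem_coe, mem_omega_iff]
    have hgx : ∀ x, ((g : GL (Fin n) F) : Matrix (Fin n) (Fin n) F) *ᵥ x
        = ([u, v].map (reflE Q)).prod x := by
      intro x
      rw [← prod_reflection_mulVec, hguv]
      simp
    rw [isoEquiv_eq_prod Q g [u, v] hgx]
    apply (mem_commutator_iff_two hS hG [u, v] _).mpr ⟨1, rfl⟩
    intro x hx
    simp only [List.mem_cons, List.not_mem_nil, or_false] at hx
    rcases hx with h1 | h1
    · rw [h1]; exact hu
    · rw [h1]; exact hv

end Cfsg.Agent.S2635
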