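import Cfsg.Statements.S2636
import Cfsg.Agent.S2669

set_option autoImplicit false
open Cfsg

namespace Cfsg.Agent.S2636

open Matrix

theorem exists_entry_ne {R : Type*} [Field R] {n : ℕ} (hn : 1 ≤ n) (g : GL (Fin n) R) :
    ∃ i j, (g : Matrix (Fin n) (Fin n) R) i j ≠ 0 := by
  by_contra h
  push Not at h
  have h0 : (g : Matrix (Fin n) (Fin n) R) = 0 := by
    ext i j
    exact h i j
  have h1 : (g : Matrix (Fin n) (Fin n) R) * ((g⁻¹ : GL (Fin n) R) : Matrix (Fin n) (Fin n) R) = 1 :=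
    g.mul_inv
  rw [h0, zero_mul] at h1
  have := congrFun (congrFun h1 ⟨0, hn⟩) ⟨0, hn⟩
  simp at this

/-- scalar matrices as a homomorphism into `GL` -/
noncomputable def sc (R : Type*) [Field R] (n : ℕ) : Rˣ →* GL (Fin n) R :=
  Units.map (Matrix.scalar (Fin n)).toMonoidHom

theorem sc_coe {R : Type*} [Field R] (n : ℕ) (d : Rˣ) :
    ((sc R n d : GL (Fin n) R) : Matrix (Fin n) (Fin n) R) = (d : R) • (1 : Matrix (Fin n) (Fin n) R) := by
  show Matrix.scalar (Fin n) (d : R) = _
  rw [Matrix.smul_one_eq_diagonal]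
  rfl

theorem sc_mul_coe {R : Type*} [Field R] (n : ℕ) (d : Rˣ) (g : GL (Fin n) R) :
    ((sc R n d * g : GL (Fin n) R) : Matrix (Fin n) (Fin n) R) =
      (d : R) • (g : Matrix (Fin n) (Fin n) R) := by
  rw [Units.val_mul, sc_coe, Matrix.smul_mul, Matrix.one_mul]

theorem count {F : Type*} [Field F] [Fintype F] (n : ℕ) (hn : 1 ≤ n) (σ : F ≃+* F)
    (F₀ : Subfield F) (hmem : ∀ x : F, x ∈ F₀ ↔ σ x = x) :
    Nat.card Fˣ * Nat.card (GL (Fin n) F₀) =
      Nat.card {g : GL (Fin n) F // ∃ c : F, c ≠ 0 ∧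
        (g : Matrix (Fin n) (Fin n) F).map σ = c • (g : Matrix (Fin n) (Fin n) F)} *
        Nat.card F₀ˣ := by
  classical
  let ι : GL (Fin n) F₀ →* GL (Fin n) F := Matrix.GeneralLinearGroup.map F₀.subtype
  have hι : ∀ h : GL (Fin n) F₀, ((ι h : GL (Fin n) F) : Matrix (Fin n) (Fin n) F) =
      (h : Matrix (Fin n) (Fin n) F₀).map F₀.subtype := fun h => rfl
  have hσι : ∀ h : GL (Fin n) F₀, ((ι h : GL (Fin n) F) : Matrix (Fin n) (Fin n) F).map σ =
      ((ι h : GL (Fin n) F) : Matrix (Fin n) (Fin n) F) := by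
    intro h
    ext i j
    rw [hι]
    simp only [Matrix.map_apply]
    exact (hmem _).1 ((h : Matrix (Fin n) (Fin n) F₀) i j).2
  let S := {g : GL (Fin n) F // ∃ c : F, c ≠ 0 ∧
        (g : Matrix (Fin n) (Fin n) F).map σ = c • (g : Matrix (Fin n) (Fin n) F)}
  let f : Fˣ × GL (Fin n) F₀ → S := fun p => ⟨sc F n p.1 * ι p.2, by
    refine ⟨σ (p.1 : F) / (p.1 : F), div_ne_zero (by simp) (by simp), ?_⟩
    rw [sc_mul_coe]
    ext i j
    have := congrFun (congrFun (hσι p.2) i) j
    simp only [Matrix.map_apply, Matrix.smul_apply, smul_eq_mul] at this ⊢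
    rw [map_mul, this]
    field_simp⟩
  have hf_coe : ∀ p : Fˣ × GL (Fin n) F₀, (((f p : S) : GL (Fin n) F) : Matrix (Fin n) (Fin n) F) =
      (p.1 : F) • (p.2 : Matrix (Fin n) (Fin n) F₀).map F₀.subtype := by
    intro p
    show ((sc F n p.1 * ι p.2 : GL (Fin n) F) : Matrix (Fin n) (Fin n) F) = _
    rw [sc_mul_coe, hι]
  let act : F₀ˣ → Fˣ × GL (Fin n) F₀ → Fˣ × GL (Fin n) F₀ := fun e p =>
    (p.1 * (Units.map F₀.subtype.toMonoidHom e)⁻¹, sc F₀ n e * p.2)
  have hsurj : Function.Surjective f := by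
    rintro ⟨g, c, hc, hg⟩
    obtain ⟨i, j, hij⟩ := exists_entry_ne hn g
    set d : F := (g : Matrix (Fin n) (Fin n) F) i j with hd
    have hσd : σ d = c * d := by
      have := congrFun (congrFun hg i) j
      simpa using this
    have hfix : ∀ k l, d⁻¹ * (g : Matrix (Fin n) (Fin n) F) k l ∈ F₀ := by
      intro k l
      rw [hmem, map_mul, map_inv₀, hσd]
      have := congrFun (congrFun hg k) l
      simp only [Matrix.map_apply, Matrix.smul_apply, smul_eq_mul] at this
      rw [this]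
      field_simp
    let h₀ : Matrix (Fin n) (Fin n) F₀ := fun k l => ⟨d⁻¹ * (g : Matrix (Fin n) (Fin n) F) k l, hfix k l⟩
    have hh₀ : h₀.map F₀.subtype = d⁻¹ • (g : Matrix (Fin n) (Fin n) F) := by
      ext k l
      rfl
    have hdet : h₀.det ≠ 0 := by
      intro h0
      have h1 : (h₀.map F₀.subtype).det = 0 := by
        rw [← RingHom.mapMatrix_apply, ← RingHom.map_det, h0, map_zero]
      rw [hh₀, Matrix.det_smul] at h1
      have hgdet : (g : Matrix (Fin n) (Fin n) F).det ≠ 0 := by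
        have := (Matrix.isUnit_iff_isUnit_det _).1 g.isUnit
        exact this.ne_zero
      rcases mul_eq_zero.1 h1 with h | h
      · exact absurd h (pow_ne_zero _ (inv_ne_zero hij))
      · exact hgdet h
    refine ⟨(Units.mk0 d hij, Matrix.GeneralLinearGroup.mkOfDetNeZero h₀ hdet), ?_⟩
    apply Subtype.ext
    apply Units.ext
    rw [hf_coe]
    show d • h₀.map F₀.subtype = (g : Matrix (Fin n) (Fin n) F)
    rw [hh₀, smul_smul, mul_inv_cancel₀ hij, one_smul]
  have hact : ∀ e p, f (act e p) = f p := by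
    intro e p
    apply Subtype.ext
    apply Units.ext
    rw [hf_coe, hf_coe]
    show ((p.1 : F) * ((Units.map F₀.subtype.toMonoidHom e)⁻¹ : Fˣ)) •
      ((sc F₀ n e * p.2 : GL (Fin n) F₀) : Matrix (Fin n) (Fin n) F₀).map F₀.subtype = _
    rw [sc_mul_coe]
    ext k l
    simp only [Matrix.map_apply, Matrix.smul_apply, smul_eq_mul, Subfield.coe_subtype,
      Subfield.coe_mul, Units.val_inv_eq_inv_val, Units.coe_map, RingHom.toMonoidHom_eq_coe,
      MonoidHom.coe_coe]
    have he : ((e : F₀) : F) ≠ 0 := by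
      simp
    field_simp
  have huniq : ∀ p p', f p = f p' → ∃! e, act e p = p' := by
    rintro ⟨d, h⟩ ⟨d', h'⟩ hpp
    have hpp' := congrArg (fun s : S => ((s : GL (Fin n) F) : Matrix (Fin n) (Fin n) F)) hpp
    simp only [hf_coe] at hpp'
    obtain ⟨i, j, hij⟩ := exists_entry_ne hn h
    have hent : ∀ k l, (d : F) * ((h : Matrix (Fin n) (Fin n) F₀) k l : F) =
        (d' : F) * ((h' : Matrix (Fin n) (Fin n) F₀) k l : F) := by
      intro k l
      have := congrFun (congrFun hpp' k) l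
      simpa using this
    have hd0 : (d : F) ≠ 0 := d.ne_zero
    have hd'0 : (d' : F) ≠ 0 := d'.ne_zero
    have hij' : ((h : Matrix (Fin n) (Fin n) F₀) i j : F) ≠ 0 := by
      simpa using hij
    have hij'' : (h' : Matrix (Fin n) (Fin n) F₀) i j ≠ 0 := by
      intro h0
      have h4 := hent i j
      rw [h0] at h4
      have h5 : (d : F) * ((h : Matrix (Fin n) (Fin n) F₀) i j : F) = 0 := by
        rw [h4]; simp
      rcases mul_eq_zero.1 h5 with h3 | h3
      · exact hd0 h3
      · exact hij' h3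
    -- e = h' i j / h i j
    let e₀ : F₀ := (h' : Matrix (Fin n) (Fin n) F₀) i j / (h : Matrix (Fin n) (Fin n) F₀) i j
    have he₀ : e₀ ≠ 0 := div_ne_zero hij'' hij
    have he₀F : (e₀ : F) = (d : F) / (d' : F) := by
      show (((h' : Matrix (Fin n) (Fin n) F₀) i j / (h : Matrix (Fin n) (Fin n) F₀) i j : F₀) : F) = _
      rw [Subfield.coe_div]
      have := hent i j
      field_simp
      linear_combination -this
    refine ⟨Units.mk0 e₀ he₀, ?_, ?_⟩
    · show ((d * (Units.map F₀.subtype.toMonoidHom (Units.mk0 e₀ he₀))⁻¹,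
        sc F₀ n (Units.mk0 e₀ he₀) * h) : Fˣ × GL (Fin n) F₀) = (d', h')
      refine Prod.ext ?_ ?_
      · apply Units.ext
        show (d : F) * (((Units.map F₀.subtype.toMonoidHom (Units.mk0 e₀ he₀))⁻¹ : Fˣ) : F) = d'
        rw [Units.val_inv_eq_inv_val]
        show (d : F) * ((e₀ : F))⁻¹ = d'
        rw [he₀F]
        field_simp
      · apply Units.ext
        show ((sc F₀ n (Units.mk0 e₀ he₀) * h : GL (Fin n) F₀) : Matrix (Fin n) (Fin n) F₀) = h'
        rw [sc_mul_coe]
        ext k l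
        show ((e₀ * (h : Matrix (Fin n) (Fin n) F₀) k l : F₀) : F) = _
        rw [Subfield.coe_mul, he₀F]
        have := hent k l
        field_simp
        linear_combination this
    · intro e' he'
      have h1 := congrArg (fun p : Fˣ × GL (Fin n) F₀ => ((p.1 : Fˣ) : F)) he'
      have h2 : (d : F) * (((Units.map F₀.subtype.toMonoidHom e')⁻¹ : Fˣ) : F) = d' := h1
      rw [Units.val_inv_eq_inv_val] at h2
      have h3 : (d : F) * (((e' : F₀) : F))⁻¹ = d' := h2
      apply Units.ext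
      apply Subtype.ext
      show ((e' : F₀) : F) = (e₀ : F)
      rw [he₀F, ← h3]
      have he'0 : ((e' : F₀) : F) ≠ 0 := by simp
      field_simp
  rw [← Nat.card_prod]
  exact Cfsg.Agent.S2669.card_eq_mul f act hsurj hact huniq

/-- Centraliser of a field automorphism in PGL_n: let F be the field with q = q₀^r elements, σ a field automorphism of F of prime order r (so its fixed field has q₀ elements) and n ≥ 1. The invertible matrices g whose entrywise image under σ is a scalar multiple of g — those whose coset modulo scalars is fixed by σ — number (q − 1)/(q₀ − 1) · |GL_n(q₀)|; equivalently the centraliser in PGL_n(q) of the induced automorphism has the order of PGL_n(q₀). -/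
theorem result {F : Type*} [Field F] [Fintype F] {q₀ r n : ℕ} (hr : r.Prime) (hn : 1 ≤ n) (hF : Fintype.card F = q₀ ^ r) (σ : F ≃+* F) (hσ : orderOf σ = r) : Nat.card {g : GL (Fin n) F // ∃ c : F, c ≠ 0 ∧ (g : Matrix (Fin n) (Fin n) F).map σ = c • (g : Matrix (Fin n) (Fin n) F)} = (q₀ ^ r - 1) / (q₀ - 1) * ∏ i : Fin n, (q₀ ^ n - q₀ ^ (i : ℕ)) := by
  classical
  let G : Subgroup (RingAut F) := Subgroup.zpowers σ
  haveI : Finite (RingAut F) :=
    Finite.of_injective (fun e : RingAut F => (e : F → F)) DFunLike.coe_injective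
  haveI : Fintype G := Fintype.ofFinite G
  let F₀ : Subfield F := FixedPoints.subfield G F
  have hmem : ∀ x : F, x ∈ F₀ ↔ σ x = x := by
    intro x
    constructor
    · intro hx
      exact hx ⟨σ, Subgroup.mem_zpowers σ⟩
    · intro hx g
      have hle : G ≤ MulAction.stabilizer (RingAut F) x :=
        (Subgroup.zpowers_le).2 (MulAction.mem_stabilizer_iff.2 hx)
      exact MulAction.mem_stabilizer_iff.1 (hle g.2)
  have hfin : Module.finrank F₀ F = r := by
    rw [FixedPoints.finrank_eq_card G F, Fintype.card_eq_nat_card, Nat.card_zpowers, hσ]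
  haveI : Fintype F₀ := Fintype.ofFinite F₀
  have hcard0 : Fintype.card F₀ = q₀ := by
    have h := Module.card_eq_pow_finrank (K := F₀) (V := F)
    rw [hfin, hF] at h
    exact (Nat.pow_left_injective hr.ne_zero h).symm
  have hq₀ : 2 ≤ q₀ := by
    rw [← hcard0]
    exact Fintype.one_lt_card
  have hcount := count n hn σ F₀ hmem
  have e1 : Nat.card Fˣ = q₀ ^ r - 1 := by
    rw [Nat.card_units, Nat.card_eq_fintype_card, hF]
  have e2 : Nat.card F₀ˣ = q₀ - 1 := by
    rw [Nat.card_units, Nat.card_eq_fintype_card, hcard0]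
  have e3 : Nat.card (GL (Fin n) F₀) = ∏ i : Fin n, (q₀ ^ n - q₀ ^ (i : ℕ)) := by
    rw [Matrix.card_GL_field, hcard0]
  rw [e1, e2, e3] at hcount
  obtain ⟨M, hM⟩ : q₀ - 1 ∣ q₀ ^ r - 1 := by
    have := Nat.sub_dvd_pow_sub_pow q₀ 1 r
    simpa using this
  rw [hM, Nat.mul_div_cancel_left _ (by omega : 0 < q₀ - 1)]
  rw [hM] at hcount
  have h2 : (M * ∏ i : Fin n, (q₀ ^ n - q₀ ^ (i : ℕ))) * (q₀ - 1) =
      Nat.card {g : GL (Fin n) F // ∃ c : F, c ≠ 0 ∧
        (g : Matrix (Fin n) (Fin n) F).map σ = c • (g : Matrix (Fin n) (Fin n) F)} * (q₀ - 1) := by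
    rw [← hcount]; ring
  exact (Nat.eq_of_mul_eq_mul_right (by omega : 0 < q₀ - 1) h2).symm

end Cfsg.Agent.S2636
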