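import Cfsg.Statements.S2678
-- import your own Cfsg.Agent.* helpers here

set_option autoImplicit false
open Cfsg

namespace Cfsg.Agent.S2678

open Matrix
open scoped Kronecker


section General

variable {K F : Type*} [CommRing K] [CommRing F]
variable {l n l' : Type*} [Fintype l] [DecidableEq l] [Fintype n] [DecidableEq n]
  [Fintype l'] [DecidableEq l']

set_option linter.unusedSectionVars false

/-- entrywise expansion of a matrix over `K` into a block matrix over `F` -/
noncomputable def T (ρ : K →+* Matrix n n F) (m : Type*) [Fintype m] [DecidableEq m] :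
    Matrix m m K →+* Matrix (m × n) (m × n) F :=
  (Matrix.compRingEquiv m n F).toRingHom.comp ρ.mapMatrix

theorem T_apply (ρ : K →+* Matrix n n F) (m : Type*) [Fintype m] [DecidableEq m]
    (A : Matrix m m K) (i j : m) (u v : n) : T ρ m A (i, u) (j, v) = ρ (A i j) u v := rfl

theorem T_injective (ρ : K →+* Matrix n n F) (hρ : Function.Injective ρ) (m : Type*) [Fintype m]
    [DecidableEq m] : Function.Injective (T ρ m) := by
  intro A B h
  ext i j
  apply hρ
  ext u v
  have := congrFun (congrFun h (i, u)) (j, v)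
  rwa [T_apply, T_apply] at this

theorem T_transpose (ρ : K →+* Matrix n n F) (S : Matrix n n F)
    (hS : ∀ x, (ρ x)ᵀ * S = S * ρ x) (m : Type*) [Fintype m] [DecidableEq m] (A : Matrix m m K) :
    (T ρ m A)ᵀ * ((1 : Matrix m m F) ⊗ₖ S) = ((1 : Matrix m m F) ⊗ₖ S) * T ρ m Aᵀ := by
  ext ⟨i, u⟩ ⟨k, w⟩
  have h := congrFun (congrFun (hS (A k i)) u) w
  simp only [Matrix.mul_apply, Matrix.transpose_apply] at h
  simp only [Matrix.mul_apply, Matrix.transpose_apply, Fintype.sum_prod_type, T_apply,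
    Matrix.kroneckerMap_apply, Matrix.one_apply]
  simp only [ite_mul, one_mul, zero_mul, mul_ite, mul_zero]
  rw [Finset.sum_comm, Finset.sum_comm (γ := m)]
  simp only [Finset.sum_ite_eq, Finset.sum_ite_eq', Finset.mem_univ, if_true]
  exact h

theorem T_J (ρ : K →+* Matrix n n F) :
    T ρ (l ⊕ l) (J l K) = J l F ⊗ₖ (1 : Matrix n n F) := by
  ext ⟨i, u⟩ ⟨j, v⟩
  rw [T_apply, Matrix.kroneckerMap_apply]
  rcases i with i | i <;> rcases j with j | j
  · simp [Matrix.J]
  · simp only [Matrix.J, fromBlocks_apply₁₂, neg_apply]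
    by_cases h : i = j
    · subst h; simp
    · simp [Matrix.one_apply_ne h]
  · simp only [Matrix.J, fromBlocks_apply₂₁]
    by_cases h : i = j
    · subst h; simp
    · simp [Matrix.one_apply_ne h]
  · simp [Matrix.J]

/-- the two diagonal idempotents -/
def E₁ (l F : Type*) [DecidableEq l] [CommRing F] : Matrix (l ⊕ l) (l ⊕ l) F := fromBlocks 1 0 0 0
def E₂ (l F : Type*) [DecidableEq l] [CommRing F] : Matrix (l ⊕ l) (l ⊕ l) F := fromBlocks 0 0 0 1

theorem E₁_mul_E₁ : E₁ l F * E₁ l F = E₁ l F := by simp [E₁, fromBlocks_multiply]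
theorem E₂_mul_E₂ : E₂ l F * E₂ l F = E₂ l F := by simp [E₂, fromBlocks_multiply]
theorem E₁_mul_E₂ : E₁ l F * E₂ l F = 0 := by simp [E₁, E₂, fromBlocks_multiply]
theorem E₂_mul_E₁ : E₂ l F * E₁ l F = 0 := by simp [E₁, E₂, fromBlocks_multiply]
theorem E₁_add_E₂ : E₁ l F + E₂ l F = 1 := by simp [E₁, E₂, fromBlocks_add, fromBlocks_one]
theorem E₁_transpose : (E₁ l F)ᵀ = E₁ l F := by simp [E₁, fromBlocks_transpose]
theorem E₂_transpose : (E₂ l F)ᵀ = E₂ l F := by simp [E₂, fromBlocks_transpose]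
theorem E₁_J_E₁ : E₁ l F * J l F * E₁ l F = 0 := by simp [E₁, J, fromBlocks_multiply]
theorem E₂_J_E₂ : E₂ l F * J l F * E₂ l F = 0 := by simp [E₂, J, fromBlocks_multiply]
theorem E₁_J_E₂_add : E₁ l F * J l F * E₂ l F + E₂ l F * J l F * E₁ l F = J l F := by
  simp [E₁, E₂, J, fromBlocks_multiply, fromBlocks_add]

theorem T_symp (ρ : K →+* Matrix n n F) (S : Matrix n n F) (hS : ∀ x, (ρ x)ᵀ * S = S * ρ x)
    (A : Matrix (l ⊕ l) (l ⊕ l) K) (hA : Aᵀ * J l K * A = J l K) :
    (T ρ (l ⊕ l) A)ᵀ * (J l F ⊗ₖ S) * T ρ (l ⊕ l) A = J l F ⊗ₖ S := by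
  have hJS : J l F ⊗ₖ S = ((1 : Matrix (l ⊕ l) (l ⊕ l) F) ⊗ₖ S) * T ρ (l ⊕ l) (J l K) := by
    rw [T_J, ← Matrix.mul_kronecker_mul, Matrix.one_mul, Matrix.mul_one]
  rw [hJS, ← Matrix.mul_assoc, T_transpose ρ S hS, Matrix.mul_assoc, Matrix.mul_assoc, ← map_mul,
    ← map_mul, ← Matrix.mul_assoc, hA]

/-- the change of basis -/
def P (l : Type*) [DecidableEq l] (S : Matrix n n F) : Matrix ((l ⊕ l) × n) ((l ⊕ l) × n) F :=
  E₁ l F ⊗ₖ S + E₂ l F ⊗ₖ (1 : Matrix n n F)

theorem P_mul_P (S S' : Matrix n n F) (h : S * S' = 1) : P l S * P l S' = 1 := by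
  unfold P
  rw [Matrix.add_mul, Matrix.mul_add, Matrix.mul_add, ← mul_kronecker_mul, ← mul_kronecker_mul,
    ← mul_kronecker_mul, ← mul_kronecker_mul, E₁_mul_E₁, E₁_mul_E₂, E₂_mul_E₁, E₂_mul_E₂, h,
    zero_kronecker, zero_kronecker, Matrix.one_mul, add_zero, zero_add, ← add_kronecker,
    E₁_add_E₂, one_kronecker_one]

theorem P_transpose (S : Matrix n n F) (hS : Sᵀ = S) : (P l S)ᵀ = P l S := by
  unfold P
  rw [transpose_add, ← kroneckerMap_transpose, ← kroneckerMap_transpose, E₁_transpose,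
    E₂_transpose, hS, transpose_one]

theorem P_J_P (S : Matrix n n F) :
    P l S * (J l F ⊗ₖ (1 : Matrix n n F)) * P l S = J l F ⊗ₖ S := by
  unfold P
  simp only [Matrix.add_mul, Matrix.mul_add, ← mul_kronecker_mul, Matrix.mul_one, Matrix.one_mul]
  rw [E₁_J_E₁, E₂_J_E₂, zero_kronecker, zero_kronecker, zero_add, add_zero, add_comm,
    ← add_kronecker, E₁_J_E₂_add]

theorem conj_symp (ρ : K →+* Matrix n n F) (S S' : Matrix n n F)
    (hS : ∀ x, (ρ x)ᵀ * S = S * ρ x) (hSt : Sᵀ = S) (hSt' : S'ᵀ = S') (h1 : S * S' = 1)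
    (A : Matrix (l ⊕ l) (l ⊕ l) K) (hA : Aᵀ * J l K * A = J l K) :
    (P l S * T ρ (l ⊕ l) A * P l S')ᵀ * (J l F ⊗ₖ (1 : Matrix n n F)) *
      (P l S * T ρ (l ⊕ l) A * P l S') = J l F ⊗ₖ (1 : Matrix n n F) := by
  have e1 : (P l S * T ρ (l ⊕ l) A * P l S')ᵀ * (J l F ⊗ₖ (1 : Matrix n n F)) *
      (P l S * T ρ (l ⊕ l) A * P l S') =
      P l S' * ((T ρ (l ⊕ l) A)ᵀ * (P l S * (J l F ⊗ₖ (1 : Matrix n n F)) * P l S) *
        T ρ (l ⊕ l) A) * P l S' := by
    rw [transpose_mul, transpose_mul, P_transpose S hSt, P_transpose S' hSt']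
    simp only [Matrix.mul_assoc]
  rw [e1, P_J_P, T_symp ρ S hS A hA, ← P_J_P]
  have e2 : P l S' * (P l S * J l F ⊗ₖ (1 : Matrix n n F) * P l S) * P l S' =
      (P l S' * P l S) * J l F ⊗ₖ (1 : Matrix n n F) * (P l S * P l S') := by
    simp only [Matrix.mul_assoc]
  have h2 : S' * S = 1 := by
    have := congrArg transpose h1
    rwa [transpose_mul, hSt, hSt', transpose_one] at this
  rw [e2, P_mul_P S S' h1, P_mul_P S' S h2, Matrix.one_mul, Matrix.mul_one]

/-- the reindexing equivalence -/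
def eps (e : l × n ≃ l') : (l ⊕ l) × n ≃ l' ⊕ l' :=
  (Equiv.sumProdDistrib l l n).trans (Equiv.sumCongr e e)

theorem one_mul_one_apply (e : l × n ≃ l') (x y : l') :
    (1 : Matrix l l F) (e.symm x).1 (e.symm y).1 * (1 : Matrix n n F) (e.symm x).2 (e.symm y).2 =
      (1 : Matrix l' l' F) x y := by
  by_cases h : x = y
  · subst h; simp
  · have hne : e.symm x ≠ e.symm y := fun h' => h (e.symm.injective h')
    rw [Matrix.one_apply_ne h]
    by_cases h1 : (e.symm x).1 = (e.symm y).1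
    · have h2 : (e.symm x).2 ≠ (e.symm y).2 := fun h2 => hne (Prod.ext h1 h2)
      rw [Matrix.one_apply_ne h2, mul_zero]
    · rw [Matrix.one_apply_ne h1, zero_mul]

theorem reindex_J (e : l × n ≃ l') :
    Matrix.reindex (eps e) (eps e) (J l F ⊗ₖ (1 : Matrix n n F)) = J l' F := by
  ext x y
  rw [Matrix.reindex_apply, Matrix.submatrix_apply]
  rcases x with x | x <;> rcases y with y | y
  · simp [eps, Matrix.J]
  · simp only [eps, Matrix.J, Equiv.symm_trans_apply, Equiv.sumCongr_symm, Equiv.sumCongr_apply,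
      Sum.map_inl, Sum.map_inr, Equiv.sumProdDistrib_symm_apply_left,
      Equiv.sumProdDistrib_symm_apply_right, Matrix.kroneckerMap_apply, fromBlocks_apply₁₂,
      Matrix.neg_apply, neg_mul]
    rw [one_mul_one_apply]
  · simp only [eps, Matrix.J, Equiv.symm_trans_apply, Equiv.sumCongr_symm, Equiv.sumCongr_apply,
      Sum.map_inl, Sum.map_inr, Equiv.sumProdDistrib_symm_apply_left,
      Equiv.sumProdDistrib_symm_apply_right, Matrix.kroneckerMap_apply, fromBlocks_apply₂₁]
    rw [one_mul_one_apply]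
  · simp [eps, Matrix.J]

theorem P_mul_P' (S S' : Matrix n n F) (hSt : Sᵀ = S) (hSt' : S'ᵀ = S') (h1 : S * S' = 1) :
    P l S' * P l S = 1 := by
  have h2 : S' * S = 1 := by
    have := congrArg transpose h1
    rwa [transpose_mul, hSt, hSt', transpose_one] at this
  exact P_mul_P S' S h2

/-- the embedding of symplectic groups attached to `ρ`, `S` -/
noncomputable def Phi (ρ : K →+* Matrix n n F) (S S' : Matrix n n F) (e : l × n ≃ l')
    (hS : ∀ x, (ρ x)ᵀ * S = S * ρ x) (hSt : Sᵀ = S) (hSt' : S'ᵀ = S') (h1 : S * S' = 1) :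
    ↥(symplecticGroup l K) →* ↥(symplecticGroup l' F) where
  toFun A := ⟨Matrix.reindexRingEquiv F (eps e) (P l S * T ρ (l ⊕ l) A.1 * P l S'), by
    rw [SymplecticGroup.mem_iff', ← reindex_J e]
    have ht : (Matrix.reindexRingEquiv F (eps e) (P l S * T ρ (l ⊕ l) A.1 * P l S'))ᵀ =
        Matrix.reindexRingEquiv F (eps e) (P l S * T ρ (l ⊕ l) A.1 * P l S')ᵀ := by
      rw [Matrix.coe_reindexRingEquiv, Matrix.transpose_reindex]
    rw [ht, ← Matrix.coe_reindexRingEquiv, ← map_mul, ← map_mul,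
      conj_symp ρ S S' hS hSt hSt' h1 A.1 (SymplecticGroup.mem_iff'.1 A.2)]⟩
  map_one' := by
    apply Subtype.ext
    show Matrix.reindexRingEquiv F (eps e) (P l S * T ρ (l ⊕ l) 1 * P l S') = 1
    rw [map_one, Matrix.mul_one, P_mul_P S S' h1, map_one]
  map_mul' A B := by
    apply Subtype.ext
    show Matrix.reindexRingEquiv F (eps e) (P l S * T ρ (l ⊕ l) (A.1 * B.1) * P l S') =
      Matrix.reindexRingEquiv F (eps e) (P l S * T ρ (l ⊕ l) A.1 * P l S') *
        Matrix.reindexRingEquiv F (eps e) (P l S * T ρ (l ⊕ l) B.1 * P l S')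
    rw [← map_mul]
    congr 1
    have e1 : P l S * T ρ (l ⊕ l) A.1 * P l S' * (P l S * T ρ (l ⊕ l) B.1 * P l S') =
        P l S * T ρ (l ⊕ l) A.1 * (P l S' * P l S) * T ρ (l ⊕ l) B.1 * P l S' := by
      simp only [Matrix.mul_assoc]
    rw [e1, P_mul_P' S S' hSt hSt' h1, Matrix.mul_one, map_mul]
    simp only [Matrix.mul_assoc]

theorem Phi_injective (ρ : K →+* Matrix n n F) (hρ : Function.Injective ρ) (S S' : Matrix n n F)
    (e : l × n ≃ l')
    (hS : ∀ x, (ρ x)ᵀ * S = S * ρ x) (hSt : Sᵀ = S) (hSt' : S'ᵀ = S') (h1 : S * S' = 1) :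
    Function.Injective (Phi ρ S S' e hS hSt hSt' h1) := by
  intro A B h
  have h' : Matrix.reindexRingEquiv F (eps e) (P l S * T ρ (l ⊕ l) A.1 * P l S') =
      Matrix.reindexRingEquiv F (eps e) (P l S * T ρ (l ⊕ l) B.1 * P l S') :=
    congrArg Subtype.val h
  have h'' := (Matrix.reindexRingEquiv F (eps e)).injective h'
  have h3 : T ρ (l ⊕ l) A.1 = T ρ (l ⊕ l) B.1 := by
    have := congrArg (fun X => P l S' * X * P l S) h''
    beta_reduce at this
    have e1 : ∀ X : Matrix ((l ⊕ l) × n) ((l ⊕ l) × n) F,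
        P l S' * (P l S * X * P l S') * P l S = (P l S' * P l S) * X * (P l S' * P l S) := by
      intro X; simp only [Matrix.mul_assoc]
    rw [e1, e1, P_mul_P' S S' hSt hSt' h1, Matrix.one_mul, Matrix.mul_one, Matrix.one_mul,
      Matrix.mul_one] at this
    exact this
  exact Subtype.ext (T_injective ρ hρ _ h3)

end General

section Field

variable {K F : Type*} [Field K] [Fintype K] [Field F] [Fintype F]

theorem exists_rho (hKF : Fintype.card K = Fintype.card F ^ 2) :
    ∃ (ρ : K →+* Matrix (Fin 2) (Fin 2) F) (S S' : Matrix (Fin 2) (Fin 2) F),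
      Function.Injective ρ ∧ (∀ x, (ρ x)ᵀ * S = S * ρ x) ∧ Sᵀ = S ∧ S'ᵀ = S' ∧ S * S' = 1 := by
  classical
  obtain ⟨p, hp⟩ := CharP.exists F
  haveI : Fact p.Prime := ⟨CharP.char_is_prime F p⟩
  let L := FiniteField.Extension F p 2
  haveI : Fintype L := Fintype.ofFinite L
  have hcardL : Fintype.card L = Fintype.card F ^ 2 := by
    rw [Fintype.card_eq_nat_card, FiniteField.natCard_extension, Nat.card_eq_fintype_card]
  let φ : K ≃+* L := FiniteField.ringEquivOfCardEq (hKF.trans hcardL.symm)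
  have hfr : Module.finrank F L = 2 := FiniteField.finrank_extension F p 2
  let b : Module.Basis (Fin 2) F L := Module.finBasisOfFinrankEq F L hfr
  have hdet : (Algebra.traceMatrix F b).det ≠ 0 := by
    rw [Algebra.traceMatrix_of_basis]
    exact det_traceForm_ne_zero b
  have hunit : IsUnit (Algebra.traceMatrix F b).det := isUnit_iff_ne_zero.2 hdet
  have hsymm : (Algebra.traceMatrix F b)ᵀ = Algebra.traceMatrix F b := by
    ext i j
    simp only [Matrix.transpose_apply, Algebra.traceMatrix_apply, Algebra.traceForm_apply, mul_comm]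
  refine ⟨(Algebra.leftMulMatrix b).toRingHom.comp φ.toRingHom, Algebra.traceMatrix F b,
    (Algebra.traceMatrix F b)⁻¹, ?_, ?_, hsymm, ?_, ?_⟩
  · exact (Algebra.leftMulMatrix_injective b).comp φ.injective
  · intro x
    show (Algebra.leftMulMatrix b (φ x))ᵀ * Algebra.traceMatrix F b =
      Algebra.traceMatrix F b * Algebra.leftMulMatrix b (φ x)
    rw [Algebra.traceMatrix_of_basis, Algebra.leftMulMatrix_apply,
      ← LinearMap.BilinForm.toMatrix_compLeft, ← LinearMap.BilinForm.toMatrix_compRight]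
    congr 1
    ext u v
    simp [Algebra.traceForm_apply, mul_assoc, mul_comm, mul_left_comm]
  · rw [Matrix.transpose_nonsing_inv, hsymm]
  · exact Matrix.mul_nonsing_inv _ hunit

end Field



/-- Field-extension embedding of symplectic groups: for a field K with q² elements and a field F with q elements there is an injective homomorphism Sp_2a(K) → Sp_4a(F). -/
theorem result {K F : Type*} [Field K] [Fintype K] [Field F] [Fintype F] {q : ℕ} (hK : Fintype.card K = q ^ 2) (hF : Fintype.card F = q) (a : ℕ) : ∃ φ : ↥(Matrix.symplecticGroup (Fin a) K) →* ↥(Matrix.symplecticGroup (Fin (2 * a)) F), Function.Injective φ := by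
  obtain ⟨ρ, S, S', hρ, hS, hSt, hSt', h1⟩ := exists_rho (K := K) (F := F) (by rw [hK, hF])
  let e : Fin a × Fin 2 ≃ Fin (2 * a) := finProdFinEquiv.trans (finCongr (mul_comm a 2))
  exact ⟨Phi ρ S S' e hS hSt hSt' h1, Phi_injective ρ hρ S S' e hS hSt hSt' h1⟩

end Cfsg.Agent.S2678
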