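import Cfsg.Statements.S2639
import Cfsg.Agent.S2678

set_option autoImplicit false
open Cfsg

namespace Cfsg.Agent.S2639

open Matrix
open scoped Kronecker
open Cfsg.Agent.S2678 (T T_apply T_injective)

section General

variable {K F : Type*} [CommRing K] [CommRing F]
variable {n : Type*} [Fintype n] [DecidableEq n]

theorem one_kron_eq_comp (m : Type*) [Fintype m] [DecidableEq m] (Γ : Matrix n n F) :
    (1 : Matrix m m F) ⊗ₖ Γ = Matrix.comp m m n n F (Matrix.diagonal fun _ => Γ) := by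
  ext ⟨i, u⟩ ⟨k, w⟩
  simp only [Matrix.kroneckerMap_apply, Matrix.comp_apply, Matrix.one_apply, Matrix.diagonal_apply]
  split_ifs <;> simp

theorem T_unitary (ρ : K →+* Matrix n n F) (Γz : K →+ Matrix n n F) (q : ℕ)
    (hKI : ∀ x y z : K, (ρ x)ᵀ * Γz z * ρ y = Γz (x * z * y ^ q))
    (m : Type*) [Fintype m] [DecidableEq m] (A : Matrix m m K)
    (hA : Aᵀ * A.map (· ^ q) = 1) :
    (T ρ m A)ᵀ * ((1 : Matrix m m F) ⊗ₖ Γz 1) * T ρ m A = (1 : Matrix m m F) ⊗ₖ Γz 1 := by
  have hT : T ρ m A = Matrix.compRingEquiv m n F (A.map ρ) := rfl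
  have hTt : (T ρ m A)ᵀ = Matrix.compRingEquiv m n F ((A.map ρ)ᵀ.map (·ᵀ)) := rfl
  rw [one_kron_eq_comp, hTt, hT, ← Matrix.compRingEquiv_apply, ← map_mul, ← map_mul]
  congr 1
  ext i k : 1
  rw [Matrix.mul_apply]
  have h1 : ∀ j : m, (((A.map ρ)ᵀ.map (·ᵀ) : Matrix m m (Matrix n n F)) *
        (Matrix.diagonal (fun _ => Γz 1) : Matrix m m (Matrix n n F))) i j * (A.map ρ) j k =
      Γz (A j i * (A j k) ^ q) := by
    intro j
    rw [Matrix.mul_diagonal]
    simp only [Matrix.map_apply, Matrix.transpose_apply]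
    rw [hKI, mul_one]
  rw [Finset.sum_congr rfl (fun j _ => h1 j), ← map_sum]
  have h2 : ∑ j : m, A j i * (A j k) ^ q = (1 : Matrix m m K) i k := by
    rw [← hA, Matrix.mul_apply]
    simp only [Matrix.transpose_apply, Matrix.map_apply]
  rw [h2, Matrix.diagonal_apply, Matrix.one_apply]
  split_ifs <;> simp

end General

section Field

variable {K F : Type*} [Field K] [Fintype K] [Field F] [Fintype F]

theorem exists_data (hKF : Fintype.card K = Fintype.card F ^ 2) :
    ∃ (ρ : K →+* Matrix (Fin 2) (Fin 2) F) (Γz : K →+ Matrix (Fin 2) (Fin 2) F) (γ : F),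
      Function.Injective ρ ∧ γ ≠ 0 ∧ Γz 1 = !![0, γ; -γ, 0] ∧
      ∀ x y z : K, (ρ x)ᵀ * Γz z * ρ y = Γz (x * z * y ^ Fintype.card F) := by
  classical
  obtain ⟨p, hp⟩ := CharP.exists F
  haveI : Fact p.Prime := ⟨CharP.char_is_prime F p⟩
  let L := FiniteField.Extension F p 2
  haveI : Fintype L := Fintype.ofFinite L
  have hcardL : Fintype.card L = Fintype.card F ^ 2 := by
    rw [Fintype.card_eq_nat_card, FiniteField.natCard_extension, Nat.card_eq_fintype_card]
  let φ : K ≃+* L := FiniteField.ringEquivOfCardEq (hKF.trans hcardL.symm)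
  have hfr : Module.finrank F L = 2 := FiniteField.finrank_extension F p 2
  let b : Module.Basis (Fin 2) F L := Module.finBasisOfFinrankEq F L hfr
  let fr : L ≃ₐ[F] L := FiniteField.Extension.frob F p 2
  have hfr_apply : ∀ x : L, fr x = x ^ Fintype.card F := by
    intro x
    rw [FiniteField.Extension.frob_apply, Nat.card_eq_fintype_card]
  have hfr2 : ∀ x : L, fr (fr x) = x := by
    intro x
    rw [hfr_apply, hfr_apply, ← pow_mul, ← sq, ← hcardL, FiniteField.pow_card]
  -- an element moved by Frobenius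
  have hne : fr ≠ 1 := by
    intro h
    have hcard := FiniteField.natCard_algEquiv_extension F p 2
    have hall : ∀ g : L ≃ₐ[F] L, g = 1 := by
      intro g
      obtain ⟨i, -, rfl⟩ := FiniteField.Extension.exists_frob_pow_eq F p 2 g
      show fr ^ i = 1
      rw [h, one_pow]
    haveI : Subsingleton (L ≃ₐ[F] L) := ⟨fun a b => (hall a).trans (hall b).symm⟩
    have h1 := Finite.card_le_one_iff_subsingleton.2 this
    have h2 : Nat.card (L ≃ₐ[F] L) = 2 := hcard
    omega
  obtain ⟨x₀, hx₀⟩ : ∃ x₀ : L, fr x₀ ≠ x₀ := by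
    by_contra h
    have h' : ∀ x : L, fr x = x := fun x => by
      by_contra hx
      exact h ⟨x, hx⟩
    exact hne (AlgEquiv.ext h')
  let ε : L := x₀ - fr x₀
  have hε0 : ε ≠ 0 := sub_ne_zero.2 (Ne.symm hx₀)
  have hεfr : fr ε = -ε := by simp [ε, hfr2]
  let S := Algebra.traceMatrix F b
  let C := LinearMap.toMatrix b b fr.toLinearMap
  let ρL : L →+* Matrix (Fin 2) (Fin 2) F := (Algebra.leftMulMatrix b).toRingHom
  have hS : ∀ x : L, (ρL x)ᵀ * S = S * ρL x := by
    intro x
    show (Algebra.leftMulMatrix b x)ᵀ * Algebra.traceMatrix F b =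
      Algebra.traceMatrix F b * Algebra.leftMulMatrix b x
    rw [Algebra.traceMatrix_of_basis, Algebra.leftMulMatrix_apply,
      ← LinearMap.BilinForm.toMatrix_compLeft, ← LinearMap.BilinForm.toMatrix_compRight]
    congr 1
    ext u v
    simp [Algebra.traceForm_apply, mul_assoc, mul_comm, mul_left_comm]
  have hC : ∀ x : L, C * ρL x = ρL (fr x) * C := by
    intro x
    show LinearMap.toMatrix b b fr.toLinearMap * Algebra.leftMulMatrix b x =
      Algebra.leftMulMatrix b (fr x) * LinearMap.toMatrix b b fr.toLinearMap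
    rw [Algebra.leftMulMatrix_apply, Algebra.leftMulMatrix_apply, ← LinearMap.toMatrix_comp,
      ← LinearMap.toMatrix_comp]
    congr 1
    ext y
    simp
  -- the alternating form
  let β : L → L → F := fun x y => Algebra.trace F L (x * (ε * fr y))
  have hβ_self : ∀ x : L, β x x = 0 := by
    intro x
    show Algebra.trace F L (x * ((x₀ - fr x₀) * fr x)) = 0
    have e1 : x * ((x₀ - fr x₀) * fr x) = x₀ * (x * fr x) - fr (x₀ * (x * fr x)) := by
      simp only [map_mul, hfr2]; ring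
    rw [e1, map_sub, Algebra.trace_eq_of_algEquiv fr, sub_self]
  have hβ_skew : ∀ x y : L, β y x = -β x y := by
    intro x y
    show Algebra.trace F L (y * (ε * fr x)) = -Algebra.trace F L (x * (ε * fr y))
    have e1 : y * (ε * fr x) = -fr (x * (ε * fr y)) := by
      simp only [map_mul, hfr2, hεfr]; ring
    rw [e1, map_neg, Algebra.trace_eq_of_algEquiv fr]
  let Γ : Matrix (Fin 2) (Fin 2) F := S * ρL ε * C
  let B' : LinearMap.BilinForm F L :=
    (Algebra.traceForm F L).compRight ((LinearMap.mul F L ε).comp fr.toLinearMap)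
  have hB' : ∀ x y : L, B' x y = β x y := by
    intro x y
    simp [B', β, Algebra.traceForm_apply]
  have hΓB : Γ = LinearMap.BilinForm.toMatrix b B' := by
    show Algebra.traceMatrix F b * Algebra.leftMulMatrix b ε *
        LinearMap.toMatrix b b fr.toLinearMap = _
    rw [Algebra.traceMatrix_of_basis, Algebra.leftMulMatrix_apply, Matrix.mul_assoc,
      ← LinearMap.toMatrix_comp, ← LinearMap.BilinForm.toMatrix_compRight]
    rfl
  have hΓ_entry : ∀ u v : Fin 2, Γ u v = β (b u) (b v) := by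
    intro u v
    rw [hΓB, LinearMap.BilinForm.toMatrix_apply, hB']
  have hγ : Γ 0 1 ≠ 0 := by
    intro h0
    have hΓ0 : Γ = 0 := by
      ext u v
      fin_cases u <;> fin_cases v
      · show Γ 0 0 = 0
        rw [hΓ_entry]; exact hβ_self _
      · exact h0
      · show Γ 1 0 = 0
        rw [hΓ_entry, hβ_skew, ← hΓ_entry, h0, neg_zero]
      · show Γ 1 1 = 0
        rw [hΓ_entry]; exact hβ_self _
    have hB0 : B' = 0 := by
      have := hΓB.symm.trans hΓ0
      exact (LinearMap.BilinForm.toMatrix b).map_eq_zero_iff.1 this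
    have hβ0 : ∀ x y : L, β x y = 0 := by
      intro x y
      rw [← hB', hB0]
      rfl
    have htr : ∀ w : L, Algebra.trace F L w = 0 := by
      intro w
      have := hβ0 (w * ε⁻¹) 1
      simp only [β, map_one, mul_one] at this
      rwa [mul_assoc, inv_mul_cancel₀ hε0, mul_one] at this
    have hnd := traceForm_nondegenerate F L
    have h10 : (1 : L) = 0 := by
      apply hnd.1
      intro y
      rw [Algebra.traceForm_apply, one_mul]
      exact htr y
    exact one_ne_zero h10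
  let Γz : K →+ Matrix (Fin 2) (Fin 2) F :=
    AddMonoidHom.mk' (fun z => S * ρL (φ z * ε) * C) (by
      intro z z'
      simp only [map_add, add_mul, mul_add])
  refine ⟨ρL.comp φ.toRingHom, Γz, Γ 0 1, ?_, hγ, ?_, ?_⟩
  · exact (Algebra.leftMulMatrix_injective b).comp φ.injective
  · show S * ρL (φ 1 * ε) * C = _
    rw [map_one, one_mul]
    show Γ = _
    ext u v
    fin_cases u <;> fin_cases v
    · simp [hΓ_entry, hβ_self]
    · simp
    · show Γ 1 0 = -Γ 0 1
      rw [hΓ_entry, hΓ_entry, hβ_skew]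
    · simp [hΓ_entry, hβ_self]
  · intro x y z
    show (ρL (φ x))ᵀ * (S * ρL (φ z * ε) * C) * ρL (φ y) =
      S * ρL (φ (x * z * y ^ Fintype.card F) * ε) * C
    have e1 : (ρL (φ x))ᵀ * (S * ρL (φ z * ε) * C) * ρL (φ y) =
        ((ρL (φ x))ᵀ * S) * ρL (φ z * ε) * (C * ρL (φ y)) := by
      simp only [Matrix.mul_assoc]
    rw [e1, hS, hC, hfr_apply]
    have e2 : S * ρL (φ x) * ρL (φ z * ε) * (ρL (φ y ^ Fintype.card F) * C) =
        S * (ρL (φ x) * ρL (φ z * ε) * ρL (φ y ^ Fintype.card F)) * C := by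
      simp only [Matrix.mul_assoc]
    rw [e2, ← map_mul, ← map_mul]
    congr 3
    simp only [map_mul, map_pow]
    ring

end Field

section Assemble

variable {K F : Type*} [Field K] [Field F]

/-- reindexing `Fin m × Fin 2 ≃ Fin m ⊕ Fin m` -/
def e2 (m : ℕ) : Fin m × Fin 2 ≃ Fin m ⊕ Fin m where
  toFun p := if p.2 = 0 then Sum.inl p.1 else Sum.inr p.1
  invFun := Sum.elim (fun i => (i, 0)) (fun i => (i, 1))
  left_inv := by rintro ⟨i, j⟩; fin_cases j <;> simp
  right_inv := by rintro (i | i) <;> simp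

theorem reindex_gram (m : ℕ) (γ : F) :
    Matrix.reindex (e2 m) (e2 m) ((1 : Matrix (Fin m) (Fin m) F) ⊗ₖ !![0, γ; -γ, 0]) =
      (-γ) • J (Fin m) F := by
  ext x y
  rcases x with i | i <;> rcases y with k | k
  · simp [e2, Matrix.J]
  · simp [e2, Matrix.J, Matrix.one_apply]
    split_ifs <;> simp
  · simp [e2, Matrix.J, Matrix.one_apply]
    split_ifs <;> simp
  · simp [e2, Matrix.J]

theorem gu_cond (m q : ℕ) (hq : q ≠ 0) (g : GL (Fin m) K) (hg : g ∈ Cfsg.GU m K q) :
    (g : Matrix (Fin m) (Fin m) K)ᵀ * (g : Matrix (Fin m) (Fin m) K).map (· ^ q) = 1 := by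
  ext j k
  have h := hg (Pi.single j 1) (Pi.single k 1)
  have h' : ∑ i, ((g : Matrix (Fin m) (Fin m) K) *ᵥ Pi.single j 1) i *
      (((g : Matrix (Fin m) (Fin m) K) *ᵥ Pi.single k 1) i) ^ q =
      ∑ i, (Pi.single j (1 : K) : Fin m → K) i * ((Pi.single k (1 : K) : Fin m → K) i) ^ q := h
  simp only [Matrix.mulVec_single_one, Matrix.col_apply] at h'
  rw [Matrix.mul_apply]
  simp only [Matrix.transpose_apply, Matrix.map_apply]
  rw [h', Matrix.one_apply]
  simp [Pi.single_apply, hq, eq_comm]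

theorem embed (ρ : K →+* Matrix (Fin 2) (Fin 2) F) (Γz : K →+ Matrix (Fin 2) (Fin 2) F) (γ : F)
    (q : ℕ) (hq : q ≠ 0) (hρ : Function.Injective ρ) (hγ : γ ≠ 0) (hΓ : Γz 1 = !![0, γ; -γ, 0])
    (hKI : ∀ x y z : K, (ρ x)ᵀ * Γz z * ρ y = Γz (x * z * y ^ q)) (m : ℕ) :
    ∃ φ : ↥(Cfsg.GU m K q) →* ↥(Matrix.symplecticGroup (Fin m) F), Function.Injective φ := by
  let R := Matrix.reindexRingEquiv F (e2 m)
  let ψ : ↥(Cfsg.GU m K q) →* Matrix (Fin m ⊕ Fin m) (Fin m ⊕ Fin m) F :=
    (R.toRingHom.comp (T ρ (Fin m))).toMonoidHom.comp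
      ((Units.coeHom (Matrix (Fin m) (Fin m) K)).comp (Cfsg.GU m K q).subtype)
  have hψ : ∀ g : ↥(Cfsg.GU m K q), ψ g =
      R (T ρ (Fin m) ((g : GL (Fin m) K) : Matrix (Fin m) (Fin m) K)) := fun g => rfl
  have hmem : ∀ g : ↥(Cfsg.GU m K q), ψ g ∈ Matrix.symplecticGroup (Fin m) F := by
    intro g
    rw [SymplecticGroup.mem_iff', hψ]
    have h1 := T_unitary ρ Γz q hKI (Fin m) _ (gu_cond m q hq g.1 g.2)
    have h2 := congrArg R h1
    rw [map_mul, map_mul, hΓ] at h2
    have h3 : R ((1 : Matrix (Fin m) (Fin m) F) ⊗ₖ !![0, γ; -γ, 0]) = (-γ) • J (Fin m) F :=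
      reindex_gram m γ
    have h4 : R ((T ρ (Fin m) ((g : GL (Fin m) K) : Matrix (Fin m) (Fin m) K))ᵀ) =
        (R (T ρ (Fin m) ((g : GL (Fin m) K) : Matrix (Fin m) (Fin m) K)))ᵀ := by
      rw [Matrix.coe_reindexRingEquiv, Matrix.transpose_reindex]
    rw [h3, h4, Matrix.mul_smul, Matrix.smul_mul] at h2
    exact smul_right_injective _ (neg_ne_zero.2 hγ) h2
  refine ⟨ψ.codRestrict _ hmem, ?_⟩
  intro g g' h
  have h1 : ψ g = ψ g' := congrArg Subtype.val h
  rw [hψ, hψ] at h1
  have h2 := T_injective ρ hρ (Fin m) (R.injective h1)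
  exact Subtype.ext (Units.ext h2)

end Assemble



/-- The unitary group embeds in the symplectic group of twice the dimension over the subfield: for a field K with q² elements and a field F with q elements (isomorphic to the subfield of K of order q), there is an injective homomorphism GU_m(q) → Sp_2m(F). -/
theorem result {K F : Type*} [Field K] [Fintype K] [Field F] [Fintype F] {q : ℕ} (hK : Fintype.card K = q ^ 2) (hF : Fintype.card F = q) (m : ℕ) : ∃ φ : ↥(Cfsg.GU m K q) →* ↥(Matrix.symplecticGroup (Fin m) F), Function.Injective φ := by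
  subst hF
  obtain ⟨ρ, Γz, γ, hρ, hγ, hΓ, hKI⟩ := exists_data (K := K) (F := F) hK
  exact embed ρ Γz γ (Fintype.card F) Fintype.card_ne_zero hρ hγ hΓ hKI m

end Cfsg.Agent.S2639
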