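import Cfsg.Statements.S2642
import Mathlib
import Cfsg.Agent.Lib.Helper40.GUUnip
import Cfsg.Agent.S2570
import Cfsg.Agent.S2587
import Cfsg.Agent.S2588

set_option autoImplicit false
open Cfsg

namespace Cfsg.Agent.S2642
/-- Number of conjugacy classes of elements of order p in the general unitary group GU_n(q), q a power of p: every unipotent Jordan type occurs and the classes correspond to the partitions of n with all parts at most p other than the all-ones partition, exactly as in GL_n; so there are (number of partitions of n with parts ≤ p) − 1 classes. -/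
theorem result {K : Type*} [Field K] [Fintype K] {p q n : ℕ} [Fact p.Prime] [CharP K p] (hK : Fintype.card K = q ^ 2) : Nat.card {C : ConjClasses ↥(Cfsg.GU n K q) // ∃ g : ↥(Cfsg.GU n K q), ConjClasses.mk g = C ∧ orderOf g = p} = (Finset.univ.filter (fun μ : Nat.Partition n => ∀ a ∈ μ.parts, a ≤ p)).card - 1 := by
  classical
  rw [← Cfsg.Agent.S2570.result (F := K) (p := p) n]
  obtain ⟨φ, hφ, hφ2, l, hl⟩ := Cfsg.Agent.Lib.Helper40.HermAdj.exists_phi hK
  apply Nat.card_congr
  refine Equiv.ofBijective (fun C => ⟨ConjClasses.map (Subgroup.subtype (Cfsg.GU n K q)) C.1, by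
    obtain ⟨g, hg, hord⟩ := C.2
    exact ⟨(g : GL (Fin n) K), by rw [← hg]; rfl, by rw [Subgroup.orderOf_coe]; exact hord⟩⟩)
    ⟨?_, ?_⟩
  · rintro ⟨C, g, rfl, hg⟩ ⟨C', g', rfl, hg'⟩ h
    have h1 : ConjClasses.mk (g : GL (Fin n) K) = ConjClasses.mk (g' : GL (Fin n) K) :=
      congrArg Subtype.val h
    apply Subtype.ext
    show ConjClasses.mk g = ConjClasses.mk g'
    rw [ConjClasses.mk_eq_mk_iff_isConj] at h1 ⊢
    exact (Cfsg.Agent.S2587.result hK g g').mpr h1
  · rintro ⟨C, g, rfl, hg⟩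
    have hnil : IsNilpotent ((g : Matrix (Fin n) (Fin n) K) - 1) :=
      ⟨p, ((Cfsg.Agent.S2570.order_p_iff p n g).mp hg).1⟩
    have hg1 : (g : Matrix (Fin n) (Fin n) K) * ((g⁻¹ : GL (Fin n) K) : Matrix (Fin n) (Fin n) K) = 1 :=
      g.mul_inv
    have hg2 : ((g⁻¹ : GL (Fin n) K) : Matrix (Fin n) (Fin n) K) * (g : Matrix (Fin n) (Fin n) K) = 1 :=
      g.inv_mul
    obtain ⟨P, hP⟩ := Cfsg.Agent.Lib.Helper40.GUUnip.unip_conj_adj_inv φ hφ2
      (g : Matrix (Fin n) (Fin n) K) ((g⁻¹ : GL (Fin n) K) : Matrix (Fin n) (Fin n) K) hg1 hnil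
    have hmap : (g : Matrix (Fin n) (Fin n) K).map (fun x : K => x ^ q) =
        (g : Matrix (Fin n) (Fin n) K).map φ := by
      ext i j
      simp [hφ]
    have hadj : ((g : Matrix (Fin n) (Fin n) K).map (fun x : K => x ^ q)).transpose =
        Cfsg.Agent.Lib.Helper40.HermAdj.adj φ (g : Matrix (Fin n) (Fin n) K) := by
      rw [hmap]
      rfl
    have hinv : (Cfsg.Agent.Lib.Helper40.HermAdj.adj φ (g : Matrix (Fin n) (Fin n) K))⁻¹ =
        Cfsg.Agent.Lib.Helper40.HermAdj.adj φ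
          ((g⁻¹ : GL (Fin n) K) : Matrix (Fin n) (Fin n) K) := by
      apply Matrix.inv_eq_right_inv
      rw [← Cfsg.Agent.Lib.Helper40.HermAdj.adj_mul, hg2, Cfsg.Agent.Lib.Helper40.HermAdj.adj_one]
    have hconj : IsConj (g : Matrix (Fin n) (Fin n) K)
        (((g : Matrix (Fin n) (Fin n) K).map (fun x : K => x ^ q)).transpose)⁻¹ := by
      rw [hadj, hinv]
      exact ⟨P, hP⟩
    obtain ⟨B, hB⟩ := (Cfsg.Agent.S2588.result hK g).mpr hconj
    have hBord : orderOf B = p := by
      rw [← Subgroup.orderOf_coe]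
      obtain ⟨c, hc⟩ := hB
      rw [← SemiconjBy.orderOf_eq _ hc]
      exact hg
    refine ⟨⟨ConjClasses.mk B, B, rfl, hBord⟩, ?_⟩
    apply Subtype.ext
    show ConjClasses.mk (B : GL (Fin n) K) = ConjClasses.mk g
    rw [ConjClasses.mk_eq_mk_iff_isConj]
    exact hB.symm

end Cfsg.Agent.S2642
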