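import Cfsg.Statements.S2643
import Mathlib
import Cfsg.Agent.Lib.Helper40.SURegUnip

set_option autoImplicit false
open Cfsg

namespace Cfsg.Agent.S2643
/-- Regular unipotent classes of SU_n(q), n ≥ 2: the elements u of the special unitary group (isometries of Σ u_i v_i^q of determinant one over the field with q² elements) with (u − 1)^n = 0 and rank(u − 1) = n − 1 form exactly gcd(n, q + 1) conjugacy classes of SU_n(q). -/
theorem result {K : Type*} [Field K] [Fintype K] {q n : ℕ} (hK : Fintype.card K = q ^ 2) (hn : 2 ≤ n) : Nat.card {C : ConjClasses ↥(Cfsg.SU n K q) // ∃ u : ↥(Cfsg.SU n K q), ConjClasses.mk u = C ∧ (((u : GL (Fin n) K) : Matrix (Fin n) (Fin n) K) - 1) ^ n = 0 ∧ (((u : GL (Fin n) K) : Matrix (Fin n) (Fin n) K) - 1).rank = n - 1} = Nat.gcd n (q + 1) := by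
  classical
  obtain ⟨φ, hφ, hφ2, l, hl⟩ := Cfsg.Agent.Lib.Helper40.HermAdj.exists_phi hK
  obtain ⟨gm, hgm⟩ : ∃ gm : ↥(Cfsg.SU n K q) →* Matrix (Fin n) (Fin n) K,
      ∀ g : ↥(Cfsg.SU n K q), gm g = ((g : GL (Fin n) K) : Matrix (Fin n) (Fin n) K) :=
    ⟨(Cfsg.slToMat n K).comp (Subgroup.subtype _), fun _ => rfl⟩
  have key := Cfsg.Agent.Lib.Helper40.SURegUnip.su_regunip_count hK φ hφ hφ2 l hl
    (by omega : 0 < n) gm
    (by
      intro a b hab
      rw [hgm, hgm] at hab
      exact Subtype.ext (Subtype.ext hab))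
    (by
      intro g
      rw [hgm]
      exact (Cfsg.Agent.Lib.Helper40.HermAdj.preserves_iff φ hφ _).mp g.2)
    (by
      intro g
      rw [hgm]
      exact g.1.2)
    (by
      intro U hU1 hUdet
      obtain ⟨us, hus⟩ : ∃ us : Matrix.SpecialLinearGroup (Fin n) K,
          (us : Matrix (Fin n) (Fin n) K) = U := ⟨⟨U, hUdet⟩, rfl⟩
      have husm : us ∈ Cfsg.SU n K q := by
        have h1 : ∀ u v, Cfsg.hermForm n K q (Matrix.mulVec (us : Matrix (Fin n) (Fin n) K) u)
            (Matrix.mulVec (us : Matrix (Fin n) (Fin n) K) v) = Cfsg.hermForm n K q u v := by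
          rw [Cfsg.Agent.Lib.Helper40.HermAdj.preserves_iff φ hφ, hus]
          exact hU1
        exact h1
      refine ⟨⟨us, husm⟩, ?_⟩
      rw [hgm]
      exact hus)
  simp only [hgm] at key
  exact key

end Cfsg.Agent.S2643
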