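import Cfsg.Statements.S2645
import Mathlib
import Cfsg.Agent.S2568
import Cfsg.Agent.S2389
import Cfsg.Agent.Lib.Helper40.SpReal
import Cfsg.Agent.Lib.Helper40.RecipPoly

set_option autoImplicit false
open Cfsg

namespace Cfsg.Agent.S2645
open Polynomial UniqueFactorizationMonoid Cfsg.Agent.Lib.Helper40.RecipPoly
/-- Number of conjugacy classes of elements of odd prime order r, r different from the characteristic, in the symplectic group Sp_2m(q): let i be the multiplicative order of q modulo r and t = (r − 1)/i. If i is odd the eigenvalue orbits pair off (Λ ≠ Λ⁻¹) and the classes correspond to the non-zero (t/2)-tuples (a_j) with 2i Σ a_j ≤ 2m, giving C(⌊m/i⌋ + t/2, t/2) − 1 classes; if i is even (Λ = Λ⁻¹) they correspond to the non-zero t-tuples with i Σ a_j ≤ 2m, giving C(⌊2m/i⌋ + t, t) − 1 classes. -/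
theorem result {F : Type*} [Field F] [Fintype F] {p q : ℕ} [Fact p.Prime] [CharP F p] (hF : Fintype.card F = q) (m r i t : ℕ) (hr : r.Prime) (hr2 : r ≠ 2) (hrp : r ≠ p) (hi : i = orderOf (q : ZMod r)) (ht : t * i = r - 1) : Nat.card {C : ConjClasses ↥(Matrix.symplecticGroup (Fin m) F) // ∃ g : Matrix.symplecticGroup (Fin m) F, ConjClasses.mk g = C ∧ orderOf g = r} = if Odd i then Nat.choose (m / i + t / 2) (t / 2) - 1 else Nat.choose (2 * m / i + t) t - 1 := by
  classical
  subst hF
  have hp : p.Prime := Fact.out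
  have hr0 : (r : F) ≠ 0 := by
    rw [Ne, CharP.cast_eq_zero_iff F p]
    intro h
    exact hrp ((Nat.prime_dvd_prime_iff_eq hp hr).mp h).symm
  obtain ⟨S, hScard, hLS, hS, hSdvd⟩ :=
    Cfsg.Agent.S2568.cyclo_facts (F := F) (p := p) r i t hr hrp hi ht
  have hipos : 0 < i := by
    rcases Nat.eq_zero_or_pos i with h | h
    · subst h
      have := hr.two_le
      omega
    · exact h
  obtain ⟨L, hL⟩ : ∃ L : F[X], L = X - C (1 : F) := ⟨_, rfl⟩
  have hLirr : Irreducible L := hL ▸ irreducible_X_sub_C 1
  have hLm : L.Monic := hL ▸ monic_X_sub_C 1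
  have hLd : L.natDegree = 1 := hL ▸ natDegree_X_sub_C 1
  rw [← hL] at hLS hSdvd
  obtain ⟨φ, hφdef⟩ : ∃ φ : F →+* F, φ = RingHom.id F := ⟨_, rfl⟩
  have hφ1 : ∀ x, φ x = x ^ 1 := by
    intro x
    rw [hφdef, pow_one]
    rfl
  have hφ2 : ∀ x, φ (φ x) = x := by
    intro x
    rw [hφdef]
    rfl
  have hLs : rstar φ L = L := by
    rw [hL]
    exact rstar_X_sub_one φ
  have hLrev : L.reverse = -L := by
    have h1 := hLs
    unfold rstar at h1
    rw [hφdef, Polynomial.map_id] at h1
    have h2 : L.coeff 0 = -1 := by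
      rw [hL, coeff_sub, coeff_X_zero, coeff_C_zero, zero_sub]
    rw [h2] at h1
    simp only [inv_neg, inv_one, map_neg, map_one, neg_mul, one_mul] at h1
    exact neg_eq_iff_eq_neg.mp h1
  have hL0 : L.coeff 0 ≠ 0 := by
    rw [hL, coeff_sub, coeff_X_zero, coeff_C_zero, zero_sub]
    exact neg_ne_zero.mpr one_ne_zero
  have hXr0 : (X ^ r - C (1 : F)).coeff 0 ≠ 0 := by
    rw [coeff_sub, coeff_X_pow, coeff_C_zero, if_neg hr.ne_zero.symm, zero_sub]
    exact neg_ne_zero.mpr one_ne_zero
  have hSd : ∀ P ∈ S, P ∣ X ^ r - C (1 : F) := fun P hP =>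
    (hSdvd P (hS P hP).1 (hS P hP).2.1).mpr (Or.inr hP)
  have hS0 : ∀ P ∈ S, P.coeff 0 ≠ 0 := fun P hP => coeff0_of_dvd (hSd P hP) hXr0
  have hSs : ∀ P ∈ S, rstar φ P ∈ S := by
    intro P hP
    obtain ⟨Q, hQ⟩ := hSd P hP
    have h1 : rstar φ P ∣ X ^ r - C (1 : F) := by
      have h2 := rstar_X_pow_sub_one φ r hr.pos
      rw [hQ, rstar_mul] at h2
      exact ⟨rstar φ Q, by rw [hQ]; exact h2.symm⟩
    rcases (hSdvd _ (rstar_irreducible φ hφ2 P (hS P hP).1 (hS P hP).2.1 (hS0 P hP))
      (rstar_monic φ P (hS0 P hP))).mp h1 with h | h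
    · exfalso
      have h2 := rstar_star φ hφ2 P (hS P hP).2.1 (hS0 P hP)
      rw [h, hLs] at h2
      exact hLS (h2 ▸ hP)
    · exact h
  have hSss : ∀ P ∈ S, rstar φ (rstar φ P) = P := fun P hP =>
    rstar_star φ hφ2 P (hS P hP).2.1 (hS0 P hP)
  have hcrit : ∀ P ∈ S, (rstar φ P = P ↔ ∃ k : ℕ, r ∣ Fintype.card F ^ k + 1) := by
    intro P hP
    exact rstar_eq_iff (p := p) φ 1 0 (pow_zero p).symm hφ1 hφ2 r hr P (hS P hP).1 (hS P hP).2.1
      (fun h => hLS (by rw [hL, ← h]; exact hP)) (hSd P hP)
  have : Fact r.Prime := ⟨hr⟩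
  have hiff : (∃ k : ℕ, r ∣ Fintype.card F ^ k + 1) ↔ Even i := by
    constructor
    · rintro ⟨k, hk⟩
      by_contra hodd
      rw [Nat.not_even_iff_odd] at hodd
      have h1 : ((Fintype.card F : ℕ) : ZMod r) ^ k = -1 := by
        have h2 := (ZMod.natCast_eq_zero_iff _ _).mpr hk
        rw [Nat.cast_add, Nat.cast_pow, Nat.cast_one] at h2
        exact eq_neg_of_add_eq_zero_left h2
      have h3 : ((Fintype.card F : ℕ) : ZMod r) ^ (2 * k) = 1 := by
        rw [mul_comm, pow_mul, h1, neg_one_sq]
      have h4 : i ∣ 2 * k := by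
        rw [hi]
        exact orderOf_dvd_of_pow_eq_one h3
      have h5 : i ∣ k := (Nat.Coprime.dvd_of_dvd_mul_left
        (Nat.Coprime.symm (Nat.coprime_two_left.mpr hodd)) h4)
      have h6 : ((Fintype.card F : ℕ) : ZMod r) ^ k = 1 := by
        rw [hi] at h5
        exact orderOf_dvd_iff_pow_eq_one.mp h5
      rw [h6] at h1
      have h7 : ((2 : ℕ) : ZMod r) = 0 := by
        rw [Nat.cast_ofNat]
        linear_combination h1
      have h8 := (ZMod.natCast_eq_zero_iff _ _).mp h7
      exact hr2 ((Nat.prime_dvd_prime_iff_eq hr Nat.prime_two).mp h8)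
    · intro heven
      obtain ⟨j, hj⟩ := heven
      refine ⟨j, ?_⟩
      have h1 : (((Fintype.card F : ℕ) : ZMod r) ^ j) ^ 2 = 1 := by
        rw [← pow_mul, mul_comm, two_mul, ← hj, hi, pow_orderOf_eq_one]
      have h2 : ((Fintype.card F : ℕ) : ZMod r) ^ j ≠ 1 := by
        apply pow_ne_one_of_lt_orderOf
        · omega
        · rw [← hi]
          omega
      have h3 : ((Fintype.card F : ℕ) : ZMod r) ^ j = -1 := by
        have h4 : (((Fintype.card F : ℕ) : ZMod r) ^ j - 1) *
            (((Fintype.card F : ℕ) : ZMod r) ^ j + 1) = 0 := by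
          linear_combination h1
        rcases mul_eq_zero.mp h4 with h | h
        · exact absurd (sub_eq_zero.mp h) h2
        · exact eq_neg_of_add_eq_zero_left h
      apply (ZMod.natCast_eq_zero_iff _ _).mp
      rw [Nat.cast_add, Nat.cast_pow, Nat.cast_one, h3, neg_add_cancel]
  obtain ⟨s, hs⟩ : ∃ s : Set F[X], s = {c | c.Monic ∧ c.natDegree = 2 * m ∧
      (∀ P ∈ normalizedFactors c, P = L ∨ P ∈ S) ∧ c.reverse = c} := ⟨_, rfl⟩
  have hstar_of_rev : ∀ c : F[X], c.Monic → c.reverse = c → rstar φ c = c := by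
    intro c hcm hc
    have h1 := coeff_zero_reverse c
    rw [hc, hcm.leadingCoeff] at h1
    unfold rstar
    rw [hc, h1, hφdef, Polynomial.map_id]
    simp
  have hrev_of_star : ∀ c : F[X], c.coeff 0 = 1 → rstar φ c = c → c.reverse = c := by
    intro c h1 hc
    unfold rstar at hc
    rw [h1, hφdef, Polynomial.map_id] at hc
    simpa using hc
  have hscard : s.ncard = if Odd i then Nat.choose (m / i + t / 2) (t / 2)
      else Nat.choose (2 * m / i + t) t := by
    by_cases hodd : Odd i
    · rw [if_pos hodd]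
      have hne : ∀ P ∈ S, rstar φ P ≠ P := by
        intro P hP h
        have h1 := hiff.mp ((hcrit P hP).mp h)
        exact (Nat.not_even_iff_odd.mpr hodd) h1
      obtain ⟨R, hRS, hR, hRcard⟩ := exists_half S (rstar φ) hSs hSss hne
      obtain ⟨hstruct, hcount⟩ := count_fpf φ hφ2 L hLirr hLm hLd hL0 hLs S R i hipos
        (fun P hP => ⟨(hS P hP).1, (hS P hP).2.1, (hS P hP).2.2, hS0 P hP⟩) hLS hSs hRS hR (2 * m)
      have heq : Nat.card ↥s = Nat.card {c : F[X] // c.Monic ∧ c.natDegree = 2 * m ∧
          (∀ P ∈ normalizedFactors c, P = L ∨ P ∈ S) ∧ rstar φ c = c} := by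
        rw [hs]
        apply Nat.card_congr
        apply Equiv.subtypeEquivRight
        intro c
        constructor
        · rintro ⟨h1, h2, h3, h4⟩
          exact ⟨h1, h2, h3, hstar_of_rev c h1 h4⟩
        · rintro ⟨h1, h2, h3, h4⟩
          refine ⟨h1, h2, h3, ?_⟩
          obtain ⟨v, hvR, hvle, hvc⟩ := hstruct c h1 h2 h3 h4
          apply hrev_of_star c _ h4
          have hc0 : c.coeff 0 ≠ 0 := by
            intro h0
            unfold rstar at h4
            rw [h0, map_zero, inv_zero, map_zero, zero_mul] at h4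
            exact h1.ne_zero h4.symm
          have hvm : v.prod.Monic := by
            have h0 := Polynomial.monic_multiset_prod_of_monic v id
              (fun P hP => (hS P (hRS (hvR P hP))).2.1)
            rwa [Multiset.map_id] at h0
          have hv0 : v.prod.coeff 0 ≠ 0 := by
            apply coeff0_of_dvd _ hc0
            rw [hvc]
            exact Dvd.dvd.mul_left (Dvd.intro _ rfl) _
          have hev : Even (2 * m - 2 * i * Multiset.card v) := by
            have h5 : 2 * i * Multiset.card v = 2 * (i * Multiset.card v) := by ring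
            exact ⟨m - i * Multiset.card v, by omega⟩
          rw [hvc, mul_coeff_zero, mul_coeff_zero, rstar_coeff_zero φ _ hvm, hφdef,
            RingHom.id_apply, mul_inv_cancel₀ hv0, mul_one, coeff_zero_eq_eval_zero, eval_pow,
            ← coeff_zero_eq_eval_zero, hL, coeff_sub, coeff_X_zero, coeff_C_zero, zero_sub,
            Even.neg_pow hev, one_pow]
      rw [← Nat.card_coe_set_eq, heq, hcount]
      have h1 : 2 * m / (2 * i) = m / i := Nat.mul_div_mul_left m i two_pos
      have h2 : R.card = t / 2 := by omega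
      rw [h1, h2, add_comm, Nat.choose_symm_add]
    · rw [if_neg hodd]
      have heven : Even i := Nat.not_odd_iff_even.mp hodd
      have hfix : ∀ P ∈ S, P.reverse = P := by
        intro P hP
        have h1 : rstar φ P = P := (hcrit P hP).mpr (hiff.mpr heven)
        have h2 : P.reverse = C (P.coeff 0) * P := by
          have h3 := h1
          unfold rstar at h3
          rw [hφdef, Polynomial.map_id, RingHom.id_apply] at h3
          calc P.reverse = C (P.coeff 0) * (C (P.coeff 0)⁻¹ * P.reverse) := by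
                rw [← mul_assoc, ← C_mul, mul_inv_cancel₀ (hS0 P hP), C_1, one_mul]
            _ = C (P.coeff 0) * P := by rw [h3]
        have h4 := reverse_eval_one P
        rw [h2, eval_mul, eval_C] at h4
        have h5 : P.eval 1 ≠ 0 := by
          intro h0
          have h6 : X - C (1 : F) ∣ P := dvd_iff_isRoot.mpr h0
          apply hLS
          have h7 : L = P := by
            rw [hL]
            exact Polynomial.eq_of_monic_of_associated (monic_X_sub_C 1) (hS P hP).2.1
              ((irreducible_X_sub_C 1).associated_of_dvd (hS P hP).1 h6)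
          rw [h7]
          exact hP
        have h8 : P.coeff 0 = 1 := by
          have h9 : (P.coeff 0 - 1) * P.eval 1 = 0 := by linear_combination h4
          rcases mul_eq_zero.mp h9 with h | h
          · exact sub_eq_zero.mp h
          · exact absurd h h5
        rw [h2, h8, C_1, one_mul]
      have hcount := Cfsg.Agent.S2568.count_aux L hLirr hLm hLd S i hipos hS hLS (2 * m)
      have heq : Nat.card ↥s = Nat.card {c : F[X] // c.Monic ∧ c.natDegree = 2 * m ∧
          ∀ P ∈ normalizedFactors c, P = L ∨ P ∈ S} := by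
        rw [hs]
        apply Nat.card_congr
        apply Equiv.subtypeEquivRight
        intro c
        constructor
        · rintro ⟨h1, h2, h3, h4⟩
          exact ⟨h1, h2, h3⟩
        · rintro ⟨h1, h2, h3⟩
          refine ⟨h1, h2, h3, ?_⟩
          obtain ⟨N, hN⟩ : ∃ N, N = normalizedFactors c := ⟨_, rfl⟩
          rw [← hN] at h3
          obtain ⟨w, hw⟩ : ∃ w, w = N.filter (fun P => ¬ P = L) := ⟨_, rfl⟩
          have hwS : ∀ P ∈ w, P ∈ S := by
            intro P hP
            rw [hw, Multiset.mem_filter] at hP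
            rcases h3 P hP.1 with h | h
            · exact absurd h hP.2
            · exact h
          have hsplit : N = Multiset.replicate (Multiset.count L N) L + w := by
            have h5 := Multiset.filter_add_not (fun P => P = L) N
            have h6 : Multiset.filter (fun P => P = L) N =
                Multiset.replicate (Multiset.count L N) L := Multiset.filter_eq' N L
            rw [h6, ← hw] at h5
            exact h5.symm
          have hdeg : 2 * m = Multiset.count L N + Multiset.card w * i := by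
            rw [← h2, Cfsg.Agent.S2568.natDegree_eq_sum_nf c h1, ← hN]
            conv_lhs => rw [hsplit]
            rw [Multiset.map_add, Multiset.sum_add, Multiset.map_replicate,
              Multiset.sum_replicate, hLd, smul_eq_mul, mul_one,
              Multiset.map_congr rfl (fun P hP => (hS P (hwS P hP)).2.2), Multiset.map_const',
              Multiset.sum_replicate, smul_eq_mul]
          have hev : Even (Multiset.count L N) := by
            obtain ⟨j, hj⟩ := heven
            rw [hj] at hdeg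
            exact ⟨m - Multiset.card w * j, by
              have : Multiset.card w * (j + j) = Multiset.card w * j + Multiset.card w * j := by
                ring
              omega⟩
          have hcprod : c = L ^ (Multiset.count L N) * w.prod := by
            conv_lhs => rw [← Cfsg.Agent.S2568.prod_nf c h1, ← hN, hsplit]
            rw [Multiset.prod_add, Multiset.prod_replicate]
          rw [hcprod, reverse_mul_of_domain, reverse_pow', hLrev, Even.neg_pow hev,
            reverse_multiset_prod_fixed w (fun P hP => hfix P (hwS P hP))]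
      rw [← Nat.card_coe_set_eq, heq, hcount, hScard, add_comm, Nat.choose_symm_add]
  have hLn : L ^ (2 * m) ∈ s := by
    rw [hs]
    refine ⟨hLm.pow _, ?_, ?_, ?_⟩
    · rw [hLm.natDegree_pow, hLd, mul_one]
    · intro P hP
      rw [normalizedFactors_of_irreducible_pow hLirr, hLm.normalize_eq_self] at hP
      left
      exact Multiset.eq_of_mem_replicate hP
    · rw [reverse_pow', hLrev, Even.neg_pow (even_two_mul m)]
  have hdim : Fintype.card (Fin m ⊕ Fin m) = 2 * m := by
    rw [Fintype.card_sum, Fintype.card_fin, two_mul]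
  have hone : (1 : Matrix (Fin m ⊕ Fin m) (Fin m ⊕ Fin m) F).charpoly = L ^ (2 * m) := by
    rw [Matrix.charpoly_one, hdim, hL, map_one]
  have hinv : ∀ a b : Matrix.symplecticGroup (Fin m) F, IsConj a b →
      (a : Matrix (Fin m ⊕ Fin m) (Fin m ⊕ Fin m) F).charpoly =
        (b : Matrix (Fin m ⊕ Fin m) (Fin m ⊕ Fin m) F).charpoly := by
    intro a b hab
    obtain ⟨c, rfl⟩ := isConj_iff.mp hab
    have h1 : ((c * a * c⁻¹ : Matrix.symplecticGroup (Fin m) F) :
          Matrix (Fin m ⊕ Fin m) (Fin m ⊕ Fin m) F) =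
        (c : Matrix (Fin m ⊕ Fin m) (Fin m ⊕ Fin m) F) *
          (a : Matrix (Fin m ⊕ Fin m) (Fin m ⊕ Fin m) F) *
          ((c⁻¹ : Matrix.symplecticGroup (Fin m) F) :
            Matrix (Fin m ⊕ Fin m) (Fin m ⊕ Fin m) F) := rfl
    have h2 : ((c⁻¹ : Matrix.symplecticGroup (Fin m) F) :
          Matrix (Fin m ⊕ Fin m) (Fin m ⊕ Fin m) F) *
        (c : Matrix (Fin m ⊕ Fin m) (Fin m ⊕ Fin m) F) = 1 := by
      have h3 : c⁻¹ * c = 1 := inv_mul_cancel c
      exact congrArg Subtype.val h3
    rw [h1, Matrix.charpoly_mul_comm, ← Matrix.mul_assoc, h2, Matrix.one_mul]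
  obtain ⟨cp, hcp⟩ : ∃ cp : ConjClasses (Matrix.symplecticGroup (Fin m) F) → Polynomial F,
      ∀ g, cp (ConjClasses.mk g) = (g : Matrix (Fin m ⊕ Fin m) (Fin m ⊕ Fin m) F).charpoly :=
    ⟨Quotient.lift (fun g : Matrix.symplecticGroup (Fin m) F =>
        (g : Matrix (Fin m ⊕ Fin m) (Fin m ⊕ Fin m) F).charpoly)
      (fun a b hab => hinv a b hab), fun g => rfl⟩
  have hpow : ∀ g : Matrix.symplecticGroup (Fin m) F, orderOf g = r →
      (g : Matrix (Fin m ⊕ Fin m) (Fin m ⊕ Fin m) F) ^ r = 1 := by
    intro g hg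
    have h3 : g ^ r = 1 := by rw [← hg, pow_orderOf_eq_one]
    exact congrArg Subtype.val h3
  have hcop : r.Coprime p := (Nat.coprime_primes hr hp).mpr hrp
  have hprop : ∀ g : Matrix.symplecticGroup (Fin m) F, orderOf g = r →
      (g : Matrix (Fin m ⊕ Fin m) (Fin m ⊕ Fin m) F).charpoly ∈ s \ {L ^ (2 * m)} := by
    intro g hg
    have hgr := hpow g hg
    refine ⟨?_, ?_⟩
    · rw [hs]
      refine ⟨Matrix.charpoly_monic _, ?_, ?_, ?_⟩
      · rw [Matrix.charpoly_natDegree_eq_dim, hdim]
      · intro P hP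
        apply (hSdvd P (irreducible_of_normalized_factor P hP)
          (Cfsg.Agent.S2568.monic_of_mem_nf _ P hP)).mp
        apply dvd_of_mem_nf_charpoly' (g : Matrix (Fin m ⊕ Fin m) (Fin m ⊕ Fin m) F) _ _ P hP
        rw [map_sub, map_pow, aeval_X, aeval_C, map_one, hgr, sub_self]
      · exact Cfsg.Agent.Lib.Helper40.SpReal.charpoly_reverse _ g.2
    · intro hmem
      rw [Set.mem_singleton_iff, ← hone] at hmem
      obtain ⟨P, Q, hPQ, hQP, hPA⟩ := Cfsg.Agent.Lib.Helper40.SSConj.matrix_conj
        (g : Matrix (Fin m ⊕ Fin m) (Fin m ⊕ Fin m) F)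
        (1 : Matrix (Fin m ⊕ Fin m) (Fin m ⊕ Fin m) F) r hr0 hgr (one_pow r) hmem
      have h1 : (g : Matrix (Fin m ⊕ Fin m) (Fin m ⊕ Fin m) F) = 1 := by
        calc (g : Matrix (Fin m ⊕ Fin m) (Fin m ⊕ Fin m) F)
            = Q * P * (g : Matrix (Fin m ⊕ Fin m) (Fin m ⊕ Fin m) F) := by
              rw [hQP, one_mul]
          _ = Q * (1 * P) := by rw [mul_assoc, hPA]
          _ = 1 := by rw [one_mul, hQP]
      have h2 : g = 1 := Subtype.ext h1
      rw [h2, orderOf_one] at hg
      exact hr.one_lt.ne' hg.symm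
  have key : Nat.card {C : ConjClasses (Matrix.symplecticGroup (Fin m) F) //
        ∃ g : Matrix.symplecticGroup (Fin m) F, ConjClasses.mk g = C ∧ orderOf g = r} =
      Nat.card ↥(s \ {L ^ (2 * m)}) := by
    apply Nat.card_eq_of_bijective
      (fun c => (⟨cp c.1, by
        obtain ⟨g, hg, hgo⟩ := c.2
        rw [← hg, hcp]
        exact hprop g hgo⟩ : ↥(s \ {L ^ (2 * m)})))
    constructor
    · rintro ⟨C₁, g₁, rfl, h₁⟩ ⟨C₂, g₂, rfl, h₂⟩ h
      have hc : (g₁ : Matrix (Fin m ⊕ Fin m) (Fin m ⊕ Fin m) F).charpoly =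
          (g₂ : Matrix (Fin m ⊕ Fin m) (Fin m ⊕ Fin m) F).charpoly := by
        have := congrArg Subtype.val h
        simp only [hcp] at this
        exact this
      apply Subtype.ext
      show ConjClasses.mk g₁ = ConjClasses.mk g₂
      rw [ConjClasses.mk_eq_mk_iff_isConj]
      exact Cfsg.Agent.S2389.result p m g₁ g₂ (h₁ ▸ hcop) (h₂ ▸ hcop) hc
    · rintro ⟨c, hcs, hcne⟩
      rw [hs] at hcs
      obtain ⟨hcm, hcd, hcf, hcr⟩ := hcs
      obtain ⟨M, hM, hMc⟩ := Cfsg.Agent.Lib.Helper40.SpReal.exists_symp_coeffs m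
        (fun j : Fin m => c.coeff (j + 1))
      have hMcp : M.charpoly = c := by
        apply eq_of_coeff_symm m _ _ (Matrix.charpoly_monic M) hcm
          (by rw [Matrix.charpoly_natDegree_eq_dim, hdim]) hcd
          (Cfsg.Agent.Lib.Helper40.SpReal.charpoly_reverse M hM) hcr
        intro j
        exact hMc j
      obtain ⟨u, hucop, hucp⟩ := Cfsg.Agent.Lib.Helper40.SpReal.exists_pprime p
        (⟨M, hM⟩ : Matrix.symplecticGroup (Fin m) F)
      have hucp' : (u : Matrix (Fin m ⊕ Fin m) (Fin m ⊕ Fin m) F).charpoly = c := by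
        rw [hucp]
        exact hMcp
      have hGr : (u : Matrix (Fin m ⊕ Fin m) (Fin m ⊕ Fin m) F) ^ r = 1 := by
        apply pow_eq_one_of_charpoly' (p := p) _ r (orderOf u) hucop
        · have h3 : u ^ orderOf u = 1 := pow_orderOf_eq_one u
          exact congrArg Subtype.val h3
        · intro P hP
          rw [hucp'] at hP
          exact (hSdvd P (irreducible_of_normalized_factor P hP)
            (Cfsg.Agent.S2568.monic_of_mem_nf _ P hP)).mpr (hcf P hP)
      have hur : u ^ r = 1 := Subtype.ext hGr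
      have hord : orderOf u = r := by
        rcases (Nat.dvd_prime hr).mp (orderOf_dvd_of_pow_eq_one hur) with h | h
        · exfalso
          apply hcne
          rw [Set.mem_singleton_iff, ← hucp', orderOf_eq_one_iff.mp h, ← hone]
          rfl
        · exact h
      refine ⟨⟨ConjClasses.mk u, u, rfl, hord⟩, ?_⟩
      apply Subtype.ext
      show cp (ConjClasses.mk u) = c
      rw [hcp]
      exact hucp'
  rw [key, Nat.card_coe_set_eq, Set.ncard_sdiff_singleton_of_mem hLn, hscard]
  split_ifs <;> rfl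

end Cfsg.Agent.S2645
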