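import Cfsg.Statements.S2665
-- import your own Cfsg.Agent.* helpers here

set_option autoImplicit false
open scoped MatrixGroups
open Cfsg

namespace Cfsg.Agent.S2665

open Polynomial

section Fixed

variable {K : Type*} [Field K] (q : ℕ)

/-- the elimination polynomials -/
noncomputable def Y (a : ℕ → K) : ℕ → K[X]
  | 0 => C (a 0) * X ^ q
  | (i + 1) => (Y a i) ^ q + C (a (i + 1)) * X ^ q

theorem Y_dvd (a : ℕ → K) (hq : 2 ≤ q) (i : ℕ) : (X : K[X]) ^ q ∣ Y q a i := by
  induction i with
  | zero => exact Dvd.intro_left _ rfl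
  | succ i ih =>
    show X ^ q ∣ (Y q a i) ^ q + C (a (i + 1)) * X ^ q
    exact dvd_add (dvd_pow ih (by omega)) (Dvd.intro_left _ rfl)

theorem Y_ne_zero (a : ℕ → K) (hq : 2 ≤ q) (i : ℕ) (h : ∃ j ≤ i, a j ≠ 0) : Y q a i ≠ 0 := by
  induction i with
  | zero =>
    obtain ⟨j, hj, hj'⟩ := h
    obtain rfl : j = 0 := by omega
    exact mul_ne_zero (C_ne_zero.2 hj') (pow_ne_zero _ X_ne_zero)
  | succ i ih =>
    show (Y q a i) ^ q + C (a (i + 1)) * X ^ q ≠ 0
    by_cases h0 : Y q a i = 0
    · have ha : a (i + 1) ≠ 0 := by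
        obtain ⟨j, hj, hj'⟩ := h
        by_cases hji : j ≤ i
        · exact absurd h0 (ih ⟨j, hji, hj'⟩)
        · obtain rfl : j = i + 1 := by omega
          exact hj'
      rw [h0, zero_pow (by omega), zero_add]
      exact mul_ne_zero (C_ne_zero.2 ha) (pow_ne_zero _ X_ne_zero)
    · have hdeg : q ≤ (Y q a i).natDegree := by
        have := natDegree_le_of_dvd (Y_dvd q a hq i) h0
        simpa using this
      have h1 : (C (a (i + 1)) * X ^ q : K[X]).natDegree < ((Y q a i) ^ q).natDegree := by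
        rw [natDegree_pow]
        calc (C (a (i + 1)) * X ^ q : K[X]).natDegree ≤ q := natDegree_C_mul_X_pow_le _ _
          _ < q * q := by nlinarith
          _ ≤ q * (Y q a i).natDegree := Nat.mul_le_mul_left _ hdeg
      intro h2
      have h3 := natDegree_add_eq_left_of_natDegree_lt h1
      rw [h2, natDegree_zero] at h3
      omega

theorem exists_t [IsAlgClosed K] (a : ℕ → K) (hq : 2 ≤ q) (e : ℕ) (h : ∃ j ≤ e, a j ≠ 0) :
    ∃ t : K, t ≠ 0 ∧ (Y q a e).eval t = t := by
  obtain ⟨Z, hZ⟩ := Y_dvd q a hq e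
  have hZ0 : Z ≠ 0 := by
    intro h0
    rw [h0, mul_zero] at hZ
    exact Y_ne_zero q a hq e h hZ
  let H : K[X] := X ^ (q - 1) * Z - C 1
  have hdeg : H.degree ≠ 0 := by
    have h1 : H.natDegree = (X ^ (q - 1) * Z : K[X]).natDegree := natDegree_sub_C
    have h2 : (X ^ (q - 1) * Z : K[X]).natDegree = (q - 1) + Z.natDegree := by
      rw [natDegree_mul (pow_ne_zero _ X_ne_zero) hZ0, natDegree_X_pow]
    intro h0
    have h3 : H.natDegree = 0 := natDegree_eq_zero_iff_degree_le_zero.2 (le_of_eq h0)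
    omega
  obtain ⟨t, ht⟩ := IsAlgClosed.exists_root H hdeg
  have ht' : t ^ (q - 1) * Z.eval t = 1 := by
    have h1 : H.eval t = 0 := ht
    simp only [H, eval_sub, eval_mul, eval_pow, eval_X, eval_C] at h1
    linear_combination h1
  refine ⟨t, ?_, ?_⟩
  · rintro rfl
    rw [zero_pow (by omega), zero_mul] at ht'
    exact zero_ne_one ht'
  · rw [hZ, eval_mul, eval_pow, eval_X]
    have h1 : t ^ q = t * t ^ (q - 1) := by
      rw [← pow_succ']
      congr 1
      omega
    rw [h1]
    linear_combination t * ht'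

theorem exists_fixed [IsAlgClosed K] (φ : K →+* K) (hq : 2 ≤ q) (hφ : ∀ x, φ x = x ^ q)
    {V : Type*} [AddCommGroup V] [Module K V] [FiniteDimensional K V] [Nontrivial V]
    (Φ : V →ₛₗ[φ] V) (hΦ : Function.Injective Φ) : ∃ w : V, w ≠ 0 ∧ Φ w = w := by
  classical
  obtain ⟨v₀, hv₀⟩ := exists_ne (0 : V)
  let s : ℕ → V := fun i => Φ^[i] v₀
  have hs : ∀ i, s (i + 1) = Φ (s i) := fun i => Function.iterate_succ_apply' Φ i v₀
  let S : ℕ → Submodule K V := fun d => Submodule.span K (Set.range (fun i : Fin d => s i))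
  have hSmono : Monotone S := by
    intro d d' hdd'
    apply Submodule.span_mono
    rintro _ ⟨i, rfl⟩
    exact ⟨Fin.castLE hdd' i, rfl⟩
  have hstab : ∃ d, s d ∈ S d := by
    obtain ⟨n, hn⟩ := monotone_stabilizes_iff_noetherian.2 (inferInstance : IsNoetherian K V)
      ⟨S, hSmono⟩
    refine ⟨n, ?_⟩
    have h1 : s n ∈ S (n + 1) := Submodule.subset_span ⟨Fin.last n, rfl⟩
    have h2 : S n = S (n + 1) := hn (n + 1) (Nat.le_succ n)
    rw [h2]
    exact h1
  have hd : s (Nat.find hstab) ∈ S (Nat.find hstab) := Nat.find_spec hstab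
  have hmin : ∀ d' < Nat.find hstab, s d' ∉ S d' := fun d' h => Nat.find_min hstab h
  have hd0 : Nat.find hstab ≠ 0 := by
    intro h0
    rw [h0] at hd
    have h1 : S 0 = ⊥ := by
      simp [S]
    rw [h1, Submodule.mem_bot] at hd
    exact hv₀ hd
  obtain ⟨e, he⟩ : ∃ e, Nat.find hstab = e + 1 := Nat.exists_eq_succ_of_ne_zero hd0
  rw [he] at hd
  have hse : s e ∉ S e := hmin e (by omega)
  obtain ⟨c, hc⟩ := (Submodule.mem_span_range_iff_exists_fun K).1 hd
  let a : ℕ → K := fun i => if h : i < e + 1 then c ⟨i, h⟩ else 0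
  have ha : s (e + 1) = ∑ i ∈ Finset.range (e + 1), a i • s i := by
    rw [← hc, ← Fin.sum_univ_eq_sum_range (fun i => a i • s i) (e + 1)]
    apply Finset.sum_congr rfl
    intro i _
    have h1 : a (i : ℕ) = c i := by
      simp only [a]
      rw [dif_pos i.2]
    rw [h1]
  have hane : ∃ j ≤ e, a j ≠ 0 := by
    by_contra hcon
    push Not at hcon
    have h0 : s (e + 1) = 0 := by
      rw [ha]
      apply Finset.sum_eq_zero
      intro i hi
      rw [hcon i (by simpa [Nat.lt_succ_iff] using hi), zero_smul]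
    rw [hs] at h0
    have h1 : s e = 0 := hΦ (by rw [h0, map_zero])
    exact hse (h1 ▸ Submodule.zero_mem _)
  obtain ⟨t, ht0, ht⟩ := exists_t q a hq e hane
  let x : ℕ → K := fun i => (Y q a i).eval t
  have hx0 : x 0 = a 0 * t ^ q := by simp [x, Y]
  have hxs : ∀ i, x (i + 1) = (x i) ^ q + a (i + 1) * t ^ q := by
    intro i
    simp [x, Y]
  have hxe : x e = t := ht
  refine ⟨∑ i ∈ Finset.range (e + 1), x i • s i, ?_, ?_⟩
  · intro hw
    rw [Finset.sum_range_succ, hxe] at hw
    apply hse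
    have h1 : s e = -(t⁻¹ • ∑ i ∈ Finset.range e, x i • s i) := by
      have h2 := congrArg (fun y => t⁻¹ • y) hw
      simp only [smul_add, smul_zero, smul_smul, inv_mul_cancel₀ ht0, one_smul] at h2
      exact eq_neg_of_add_eq_zero_right h2
    rw [h1]
    apply Submodule.neg_mem
    apply Submodule.smul_mem
    apply Submodule.sum_mem
    intro i hi
    apply Submodule.smul_mem
    exact Submodule.subset_span ⟨⟨i, Finset.mem_range.1 hi⟩, rfl⟩
  · rw [map_sum]
    simp only [LinearMap.map_smulₛₗ, hφ, ← hs]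
    rw [Finset.sum_range_succ, ha, hxe]
    rw [Finset.sum_range_succ' (fun i => x i • s i), Finset.sum_range_succ' (fun i => a i • s i)]
    simp only [hxs, hx0]
    simp only [add_smul, Finset.sum_add_distrib, smul_add, Finset.smul_sum, smul_smul]
    have h5 : ∀ i, (t ^ q * a (i + 1)) • s (i + 1) = (a (i + 1) * t ^ q) • s (i + 1) := by
      intro i
      rw [mul_comm]
    simp only [h5, mul_comm (t ^ q) (a 0)]
    abel

end Fixed

section Main

open Matrix

variable {K : Type*} [Field K] (φ : K →+* K) (q : ℕ) {n : ℕ}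

/-- the semilinear map `v ↦ g (φ v)` -/
def Phi (g : Matrix (Fin n) (Fin n) K) : (Fin n → K) →ₛₗ[φ] (Fin n → K) where
  toFun v := g *ᵥ (φ ∘ v)
  map_add' v w := by
    have h : φ ∘ (v + w) = φ ∘ v + φ ∘ w := by
      funext i
      simp
    rw [h, Matrix.mulVec_add]
  map_smul' c v := by
    have h : φ ∘ (c • v) = φ c • (φ ∘ v) := by
      funext i
      simp
    rw [h, Matrix.mulVec_smul]

theorem Phi_apply (g : Matrix (Fin n) (Fin n) K) (v : Fin n → K) :
    Phi φ g v = g *ᵥ (φ ∘ v) := rfl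

theorem Phi_injective (g : GL (Fin n) K) :
    Function.Injective (Phi φ (g : Matrix (Fin n) (Fin n) K)) := by
  intro v w h
  have h1 : φ ∘ v = φ ∘ w := by
    have h2 := congrArg
      (fun y => ((g⁻¹ : GL (Fin n) K) : Matrix (Fin n) (Fin n) K) *ᵥ y) h
    simpa [Phi_apply, Matrix.mulVec_mulVec] using h2
  funext i
  exact φ.injective (congrFun h1 i)

theorem span_fixed [IsAlgClosed K] (hq : 2 ≤ q) (hφ : ∀ x, φ x = x ^ q) (g : GL (Fin n) K) :
    Submodule.span K {v : Fin n → K | Phi φ (g : Matrix (Fin n) (Fin n) K) v = v} = ⊤ := by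
  set Φ := Phi φ (g : Matrix (Fin n) (Fin n) K) with hΦdef
  set W : Set (Fin n → K) := {v | Φ v = v} with hW
  set U := Submodule.span K W with hU
  have hq0 : 0 < q := by omega
  have ha : ∀ u ∈ U, ∀ a : K, ∃ u' ∈ U, Φ u' - u' = a • u := by
    intro u hu
    induction hu using Submodule.span_induction with
    | mem w hw =>
      intro a
      obtain ⟨b, hb⟩ : ∃ b : K, b ^ q - b = a := by
        have hdeg : (X ^ q - X - C a : K[X]).degree ≠ 0 := by
          have h1 : (X ^ q - X - C a : K[X]).natDegree = q := by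
            rw [natDegree_sub_C]
            have h5 : (X : K[X]).natDegree < (X ^ q : K[X]).natDegree := by
              rw [natDegree_X_pow, natDegree_X]
              omega
            rw [natDegree_sub_eq_left_of_natDegree_lt h5, natDegree_X_pow]
          intro h0
          have h3 : (X ^ q - X - C a : K[X]).natDegree = 0 :=
            natDegree_eq_zero_iff_degree_le_zero.2 (le_of_eq h0)
          omega
        obtain ⟨b, hb⟩ := IsAlgClosed.exists_root _ hdeg
        refine ⟨b, ?_⟩
        have h1 : (X ^ q - X - C a : K[X]).eval b = 0 := hb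
        simp only [eval_sub, eval_pow, eval_X, eval_C] at h1
        linear_combination h1
      refine ⟨b • w, Submodule.smul_mem _ _ (Submodule.subset_span hw), ?_⟩
      rw [LinearMap.map_smulₛₗ, hφ, (hw : Φ w = w), ← sub_smul, hb]
    | zero =>
      intro a
      exact ⟨0, Submodule.zero_mem _, by simp⟩
    | add u₁ u₂ _ _ h₁ h₂ =>
      intro a
      obtain ⟨u₁', hu₁', e₁⟩ := h₁ a
      obtain ⟨u₂', hu₂', e₂⟩ := h₂ a
      refine ⟨u₁' + u₂', Submodule.add_mem _ hu₁' hu₂', ?_⟩
      rw [map_add, smul_add, ← e₁, ← e₂]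
      abel
    | smul c u _ h =>
      intro a
      obtain ⟨u', hu', e⟩ := h (a * c)
      exact ⟨u', hu', by rw [e, mul_smul]⟩
  have hb : ∀ u ∈ U, ∀ a : K, ∃ u' ∈ U, Φ u' = a • u := by
    intro u hu
    induction hu using Submodule.span_induction with
    | mem w hw =>
      intro a
      obtain ⟨b, hb⟩ := IsAlgClosed.exists_pow_nat_eq a hq0
      refine ⟨b • w, Submodule.smul_mem _ _ (Submodule.subset_span hw), ?_⟩
      rw [LinearMap.map_smulₛₗ, hφ, (hw : Φ w = w), hb]
    | zero =>
      intro a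
      exact ⟨0, Submodule.zero_mem _, by simp⟩
    | add u₁ u₂ _ _ h₁ h₂ =>
      intro a
      obtain ⟨u₁', hu₁', e₁⟩ := h₁ a
      obtain ⟨u₂', hu₂', e₂⟩ := h₂ a
      refine ⟨u₁' + u₂', Submodule.add_mem _ hu₁' hu₂', ?_⟩
      rw [map_add, smul_add, ← e₁, ← e₂]
    | smul c u _ h =>
      intro a
      obtain ⟨u', hu', e⟩ := h (a * c)
      exact ⟨u', hu', by rw [e, mul_smul]⟩
  have hstable : U ≤ U.comap Φ := by
    apply Submodule.span_le.2
    intro w hw
    show Φ w ∈ U
    rw [(hw : Φ w = w)]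
    exact Submodule.subset_span hw
  by_contra hne
  have hlt : U < ⊤ := lt_top_iff_ne_top.2 hne
  haveI : Nontrivial ((Fin n → K) ⧸ U) := Submodule.Quotient.nontrivial_iff.2 hne
  let Φ' := U.mapQ U Φ hstable
  have hinj : Function.Injective Φ' := by
    rw [injective_iff_map_eq_zero]
    intro y hy
    obtain ⟨v, rfl⟩ := Submodule.Quotient.mk_surjective U y
    rw [Submodule.mapQ_apply, Submodule.Quotient.mk_eq_zero] at hy
    obtain ⟨u', hu', e⟩ := hb _ hy 1
    rw [one_smul] at e
    have h1 : u' = v := Phi_injective φ g e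
    rw [Submodule.Quotient.mk_eq_zero, ← h1]
    exact hu'
  obtain ⟨y, hy0, hy⟩ := exists_fixed q φ hq hφ Φ' hinj
  obtain ⟨v, rfl⟩ := Submodule.Quotient.mk_surjective U y
  rw [Submodule.mapQ_apply] at hy
  have hmem : Φ v - v ∈ U := (Submodule.Quotient.eq U).1 hy
  obtain ⟨u, hu, e⟩ := ha _ hmem (-1)
  have hfix : Φ (v + u) = v + u := by
    rw [map_add]
    have h1 : Φ u = u + -(Φ v - v) := by
      rw [← sub_eq_iff_eq_add', e]
      simp
    rw [h1]
    abel
  have hvu : v + u ∈ U := Submodule.subset_span hfix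
  have hv : v ∈ U := by
    have h1 := Submodule.sub_mem U hvu hu
    simpa using h1
  exact hy0 ((Submodule.Quotient.mk_eq_zero U).2 hv)

theorem exists_matrix [IsAlgClosed K] (hq : 2 ≤ q) (hφ : ∀ x, φ x = x ^ q) (g : GL (Fin n) K) :
    ∃ x : GL (Fin n) K, (g : Matrix (Fin n) (Fin n) K) *
      (x : Matrix (Fin n) (Fin n) K).map φ = x := by
  classical
  have hspan := span_fixed φ q hq hφ g
  obtain ⟨b, hbW, hbspan, hli⟩ := exists_linearIndependent K
    {v : Fin n → K | Phi φ (g : Matrix (Fin n) (Fin n) K) v = v}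
  have hb_top : ⊤ ≤ Submodule.span K (Set.range (fun x : b => (x : Fin n → K))) := by
    rw [Subtype.range_coe, hbspan, hspan]
  let B := Module.Basis.mk hli hb_top
  haveI : Fintype b := FiniteDimensional.fintypeBasisIndex B
  have hcard : Fintype.card b = n := by
    rw [← Module.finrank_eq_card_basis B, Module.finrank_fin_fun]
  let eqv : b ≃ Fin n := Fintype.equivFinOfCardEq hcard
  let B' : Module.Basis (Fin n) K (Fin n → K) := B.reindex eqv
  have hB' : ∀ j, Phi φ (g : Matrix (Fin n) (Fin n) K) (B' j) = B' j := by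
    intro j
    have h1 : B' j = ((eqv.symm j : b) : Fin n → K) := by
      rw [Module.Basis.reindex_apply, Module.Basis.mk_apply]
    rw [h1]
    exact hbW (eqv.symm j).2
  let e := Pi.basisFun K (Fin n)
  let x : Matrix (Fin n) (Fin n) K := e.toMatrix B'
  let y : Matrix (Fin n) (Fin n) K := B'.toMatrix e
  have hxy : x * y = 1 := Module.Basis.toMatrix_mul_toMatrix_flip e B'
  have hyx : y * x = 1 := Module.Basis.toMatrix_mul_toMatrix_flip B' e
  refine ⟨⟨x, y, hxy, hyx⟩, ?_⟩
  show (g : Matrix (Fin n) (Fin n) K) * x.map φ = x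
  ext i j
  have h := congrFun (hB' j) i
  rw [Matrix.mul_apply]
  simpa [Phi_apply, Matrix.mulVec, dotProduct, x, Module.Basis.toMatrix_apply, e] using h

end Main

/-- The Lang–Steinberg Theorem for the general linear group. Let `K` be an algebraically closed field of prime characteristic `p`, let `q = p^f` with `f ≥ 1`, and let `σ` be the endomorphism of GL_n(K) raising every matrix entry to the `q`-th power. Then every element `g` of GL_n(K) can be written `g = x · σ(x)⁻¹` for some `x` in GL_n(K): the map `x ↦ x σ(x)⁻¹` is surjective. -/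
theorem result {K : Type*} [Field K] [IsAlgClosed K] (p : ℕ) [Fact p.Prime] [CharP K p]
    (f : ℕ) (hf : 1 ≤ f) (n : ℕ) (g : GL (Fin n) K) :
    ∃ x : GL (Fin n) K, g = x * (Matrix.GeneralLinearGroup.map (iterateFrobenius K p f) x)⁻¹ := by
  have hp : 2 ≤ p := (Fact.out : p.Prime).two_le
  have hq : 2 ≤ p ^ f := by
    calc 2 ≤ p := hp
      _ = p ^ 1 := (pow_one p).symm
      _ ≤ p ^ f := Nat.pow_le_pow_right (by omega) hf
  obtain ⟨x, hx⟩ := exists_matrix (iterateFrobenius K p f) (p ^ f) hq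
    (fun y => iterateFrobenius_def p f y) g
  refine ⟨x, ?_⟩
  rw [eq_mul_inv_iff_mul_eq]
  apply Units.ext
  rw [Units.val_mul]
  exact hx

end Cfsg.Agent.S2665
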