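import Cfsg.Statements.S2668

set_option autoImplicit false
open Cfsg

namespace Cfsg.Agent.S2668

theorem fixed_pow {X : Type*} [Group X] (σ : MulAut X) (y : X) (hy : σ y = y) (e : ℕ) :
    (σ ^ e) y = y := by
  induction e with
  | zero => simp
  | succ n ih => rw [pow_succ, MulAut.mul_apply, hy, ih]

theorem norm_telescope {X : Type*} [Group X] (σ : MulAut X) (a : X) (d : ℕ) :
    ((List.range d).map (fun i => (σ ^ i) (a * (σ a)⁻¹))).prod = a * ((σ ^ d) a)⁻¹ := by
  induction d with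
  | zero => simp
  | succ n ih =>
    rw [List.range_succ, List.map_append, List.prod_append, ih]
    simp only [List.map_cons, List.map_nil, List.prod_cons, List.prod_nil, mul_one, map_mul,
      map_inv]
    have : (σ ^ n) (σ a) = (σ ^ (n + 1)) a := by
      rw [pow_succ, MulAut.mul_apply]
    rw [this]
    group

theorem x_fixed {X : Type*} [Group X] (σ : MulAut X) (e : ℕ) (a : X)
    (hg : (σ ^ e) (a * (σ a)⁻¹) = a * (σ a)⁻¹) :
    σ (((σ ^ e) a)⁻¹ * a) = ((σ ^ e) a)⁻¹ * a := by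
  have h1 : σ ((σ ^ e) a) = (σ ^ e) (σ a) := by
    rw [← MulAut.mul_apply, ← MulAut.mul_apply, ← pow_succ, ← pow_succ']
  simp only [map_mul, map_inv] at hg ⊢
  rw [h1]
  generalize (σ ^ e) (σ a) = w at hg ⊢
  generalize (σ ^ e) a = u at hg ⊢
  generalize σ a = t at hg ⊢
  have hw : w = (u⁻¹ * (a * t⁻¹))⁻¹ := by
    rw [← hg]; group
  subst hw
  group

theorem pow_pow_apply {X : Type*} [Group X] (σ : MulAut X) (e : ℕ) (a x : X)
    (hx : σ x = x) (hax : (σ ^ e) a = a * x⁻¹) (d : ℕ) :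
    ((σ ^ e) ^ d) a = a * (x⁻¹) ^ d := by
  induction d with
  | zero => simp
  | succ n ih =>
    rw [pow_succ', MulAut.mul_apply, ih, map_mul, hax, map_pow, map_inv, fixed_pow σ x hx e,
      pow_succ']
    group

/-- Shintani descent is compatible with powers, in the abstract setting of an automorphism `σ` of a group `X`. For `g = a σ(a)⁻¹` fixed by `σᵉ` and `x = σᵉ(a)⁻¹ a` its Shintani image, put `h = g σ(g) ⋯ σ^(d-1)(g)`, the `X`-part of `(g σ)^d` in the semidirect product. Then `h = a σ^d(a)⁻¹`, `h` is fixed by `(σ^d)^e`, and the Shintani image of `h` for the pair `(σ^d, e)`, computed with the same `a`, is `(σ^d)^e(a)⁻¹ a = x^d`. So the `d`-th power map on the coset of `σ` corresponds under descent to the `d`-th power map on the fixed points of `σ`. -/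
theorem result {X : Type*} [Group X] (σ : MulAut X) (e d : ℕ) (he : 1 ≤ e) (hd : 1 ≤ d)
    (g : X) (hg : g ∈ (MulEquiv.toMonoidHom (σ ^ e)).eqLocus (MonoidHom.id X)) (a : X) (ha : g = a * (σ a)⁻¹) :
    ((List.range d).map (fun i => (σ ^ i) g)).prod = a * ((σ ^ d) a)⁻¹ ∧
      ((List.range d).map (fun i => (σ ^ i) g)).prod ∈ (MulEquiv.toMonoidHom ((σ ^ d) ^ e)).eqLocus (MonoidHom.id X) ∧
      (((σ ^ d) ^ e) a)⁻¹ * a = (((σ ^ e) a)⁻¹ * a) ^ d := by
  have hg' : (σ ^ e) g = g := hg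
  subst ha
  have hx := x_fixed σ e a hg'
  have hax : (σ ^ e) a = a * (((σ ^ e) a)⁻¹ * a)⁻¹ := by group
  have hpp := pow_pow_apply σ e a _ hx hax d
  have hcomm : (σ ^ d) ^ e = (σ ^ e) ^ d := by
    rw [← pow_mul, ← pow_mul, mul_comm]
  refine ⟨norm_telescope σ a d, ?_, ?_⟩
  · rw [norm_telescope σ a d]
    show ((σ ^ d) ^ e) (a * ((σ ^ d) a)⁻¹) = a * ((σ ^ d) a)⁻¹
    have h2 : ((σ ^ d) ^ e) ((σ ^ d) a) = (σ ^ d) (((σ ^ d) ^ e) a) := by
      rw [← MulAut.mul_apply, ← MulAut.mul_apply, ← pow_succ, ← pow_succ']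
    rw [map_mul, map_inv, h2, hcomm, hpp, map_mul, map_pow, map_inv, fixed_pow σ _ hx d]
    group
  · rw [hcomm, hpp]
    generalize ((σ ^ e) a)⁻¹ * a = x
    rw [inv_pow]
    group

end Cfsg.Agent.S2668
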