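import Cfsg.Statements.S2666
import Cfsg.Agent.S2668

set_option autoImplicit false
open Cfsg

namespace Cfsg.Agent.S2666

open Cfsg.Agent.S2668 in
/-- Shintani descent, in an abstract form. -/
theorem result {X : Type*} [Group X] (σ : MulAut X) (e : ℕ) (he : 1 ≤ e)
    (hL : ∀ g : X, ∃ a : X, g = a * (σ a)⁻¹) (hLe : ∀ g : X, ∃ a : X, g = a * ((σ ^ e) a)⁻¹) :
    (∀ g ∈ (MulEquiv.toMonoidHom (σ ^ e)).eqLocus (MonoidHom.id X), ∀ a : X, g = a * (σ a)⁻¹ →
        ((σ ^ e) a)⁻¹ * a ∈ (MulEquiv.toMonoidHom σ).eqLocus (MonoidHom.id X) ∧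
          a⁻¹ * ((List.range e).map (fun i => (σ ^ i) g)).prod * a = ((σ ^ e) a)⁻¹ * a) ∧
    (∀ g ∈ (MulEquiv.toMonoidHom (σ ^ e)).eqLocus (MonoidHom.id X), ∀ g' ∈ (MulEquiv.toMonoidHom (σ ^ e)).eqLocus (MonoidHom.id X), ∀ a b : X,
        g = a * (σ a)⁻¹ → g' = b * (σ b)⁻¹ →
          ((∃ k ∈ (MulEquiv.toMonoidHom (σ ^ e)).eqLocus (MonoidHom.id X), g' = k * g * (σ k)⁻¹) ↔
            (∃ h ∈ (MulEquiv.toMonoidHom σ).eqLocus (MonoidHom.id X), ((σ ^ e) b)⁻¹ * b = h * (((σ ^ e) a)⁻¹ * a) * h⁻¹))) ∧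
    (∀ x ∈ (MulEquiv.toMonoidHom σ).eqLocus (MonoidHom.id X), ∃ g ∈ (MulEquiv.toMonoidHom (σ ^ e)).eqLocus (MonoidHom.id X), ∃ a : X,
        g = a * (σ a)⁻¹ ∧ ((σ ^ e) a)⁻¹ * a = x) := by
  have mem1 : ∀ z : X, z ∈ (MulEquiv.toMonoidHom (σ ^ e)).eqLocus (MonoidHom.id X) ↔ (σ ^ e) z = z := by
    intro z; rfl
  have mem2 : ∀ z : X, z ∈ (MulEquiv.toMonoidHom σ).eqLocus (MonoidHom.id X) ↔ σ z = z := by
    intro z; rfl
  simp only [mem1, mem2]
  have hswap : ∀ z : X, σ ((σ ^ e) z) = (σ ^ e) (σ z) := by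
    intro z
    rw [← MulAut.mul_apply, ← MulAut.mul_apply, ← pow_succ, ← pow_succ']
  refine ⟨?_, ?_, ?_⟩
  · intro g hg a ha
    subst ha
    refine ⟨x_fixed σ e a hg, ?_⟩
    rw [norm_telescope σ a e]
    group
  · intro g hg g' hg' a b ha hb
    subst ha
    subst hb
    have hxa := x_fixed σ e a hg
    have hxb := x_fixed σ e b hg'
    constructor
    · rintro ⟨k, hk, hkg⟩
      -- h = b⁻¹ k a
      have hc : σ (b⁻¹ * k * a) = b⁻¹ * k * a := by
        simp only [map_mul, map_inv]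
        generalize σ k = s at hkg ⊢
        generalize σ a = t at hkg ⊢
        generalize σ b = r at hkg ⊢
        have hr : r = (b⁻¹ * (k * (a * t⁻¹) * s⁻¹))⁻¹ := by
          rw [← hkg]; group
        subst hr
        group
      refine ⟨b⁻¹ * k * a, hc, ?_⟩
      have hc' := fixed_pow σ _ hc e
      simp only [map_mul, map_inv] at hc'
      rw [hk] at hc'
      generalize (σ ^ e) a = u at hc' ⊢
      generalize (σ ^ e) b = w at hc' ⊢
      have hw : w = k * u * (b⁻¹ * k * a)⁻¹ := by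
        rw [← hc']; group
      subst hw
      group
    · rintro ⟨h, hh, hx⟩
      have hh' := fixed_pow σ _ hh e
      refine ⟨b * h * a⁻¹, ?_, ?_⟩
      · simp only [map_mul, map_inv]
        rw [hh']
        generalize (σ ^ e) a = u at hx ⊢
        generalize (σ ^ e) b = w at hx ⊢
        have hw : w = (h * (u⁻¹ * a) * h⁻¹ * b⁻¹)⁻¹ := by
          rw [← hx]; group
        subst hw
        group
      · simp only [map_mul, map_inv]
        rw [hh]
        group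
  · intro x hx
    obtain ⟨c, hc⟩ := hLe x⁻¹
    have hce : (σ ^ e) c = x * c := by
      have : ((σ ^ e) c)⁻¹ = c⁻¹ * x⁻¹ := by rw [hc]; group
      have h2 := congrArg (fun z => z⁻¹) this
      simpa using h2
    refine ⟨c⁻¹ * (σ c⁻¹)⁻¹, ?_, c⁻¹, rfl, ?_⟩
    · simp only [map_mul, map_inv, inv_inv]
      rw [← hswap, hce, map_mul, hx]
      group
    · rw [map_inv, hce]
      group

end Cfsg.Agent.S2666
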