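import Cfsg.Statements.S2667

set_option autoImplicit false
open Cfsg

namespace Cfsg.Agent.S2667

theorem fixed_pow {X : Type*} [Group X] (σ : MulAut X) (y : X) (hy : σ y = y) (e : ℕ) :
    (σ ^ e) y = y := by
  induction e with
  | zero => simp
  | succ n ih => rw [pow_succ, MulAut.mul_apply, hy, ih]

/-- In the situation of Shintani descent (`g = a σ(a)⁻¹` in `G`, the fixed points of `σᵉ`, and `x = σᵉ(a)⁻¹ a` in `H`, the fixed points of `σ`), conjugation by `a` carries the twisted centralizer of `g` in `G` onto the centralizer of `x` in `H`: an element `k` lies in `G` and satisfies `k g σ(k)⁻¹ = g` if and only if `a⁻¹ k a` lies in `H` and commutes with `x`. So the stabilizer of `g` under twisted conjugation is isomorphic to `C_H(x)`, and the Shintani map preserves centralizer orders. -/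
theorem result {X : Type*} [Group X] (σ : MulAut X) (e : ℕ) (he : 1 ≤ e)
    (g : X) (hg : g ∈ (MulEquiv.toMonoidHom (σ ^ e)).eqLocus (MonoidHom.id X)) (a : X) (ha : g = a * (σ a)⁻¹) (k : X) :
    (k ∈ (MulEquiv.toMonoidHom (σ ^ e)).eqLocus (MonoidHom.id X) ∧ k * g * (σ k)⁻¹ = g) ↔
      (a⁻¹ * k * a ∈ (MulEquiv.toMonoidHom σ).eqLocus (MonoidHom.id X) ∧
        (a⁻¹ * k * a) * (((σ ^ e) a)⁻¹ * a) = (((σ ^ e) a)⁻¹ * a) * (a⁻¹ * k * a)) := by
  have key : k * g * (σ k)⁻¹ = g ↔ σ (a⁻¹ * k * a) = a⁻¹ * k * a := by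
    subst ha
    simp only [map_mul, map_inv]
    generalize σ k = s
    generalize σ a = t
    constructor
    · intro h
      have hs : s = (a * t⁻¹)⁻¹ * (k * (a * t⁻¹)) := by
        rw [eq_inv_mul_iff_mul_eq]
        have := congrArg (· * s) h
        simpa [mul_assoc] using this.symm
      subst hs
      group
    · intro h
      have hs : s = t * (a⁻¹ * k * a) * t⁻¹ := by
        rw [← h]; group
      subst hs
      group
  have mem1 : ∀ z : X, z ∈ (MulEquiv.toMonoidHom (σ ^ e)).eqLocus (MonoidHom.id X) ↔ (σ ^ e) z = z := by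
    intro z; rfl
  have mem2 : ∀ z : X, z ∈ (MulEquiv.toMonoidHom σ).eqLocus (MonoidHom.id X) ↔ σ z = z := by
    intro z; rfl
  rw [mem1, mem2, key]
  constructor
  · rintro ⟨h1, h2⟩
    refine ⟨h2, ?_⟩
    have h3 := fixed_pow σ _ h2 e
    simp only [map_mul, map_inv] at h3
    rw [h1] at h3
    generalize (σ ^ e) a = u at h3 ⊢
    calc a⁻¹ * k * a * (u⁻¹ * a) = u⁻¹ * k * u * (u⁻¹ * a) := by rw [h3]
      _ = u⁻¹ * a * (a⁻¹ * k * a) := by group
  · rintro ⟨h1, h2⟩
    refine ⟨?_, h1⟩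
    have h3 := fixed_pow σ _ h1 e
    simp only [map_mul, map_inv] at h3
    generalize (σ ^ e) a = u at h3 h2 ⊢
    generalize (σ ^ e) k = w at h3 ⊢
    have hw : w = u * (a⁻¹ * k * a) * u⁻¹ := by
      rw [← h3]; group
    rw [hw]
    have : u * (a⁻¹ * k * a) * u⁻¹ = u * ((a⁻¹ * k * a) * (u⁻¹ * a)) * a⁻¹ := by group
    rw [this, h2]
    group

end Cfsg.Agent.S2667
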