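import Cfsg.Statements.S2670
import Mathlib
import Cfsg.Agent.Lib.Helper40.PGLPrime

set_option autoImplicit false
open Cfsg

namespace Cfsg.Agent.S2670

/-- Number of conjugacy classes of elements of prime order r in PGL_n(q) = GL_n(q)/scalars when r divides q − 1 (n ≥ 2): the classes of elements with a diagonalisable lift correspond to the orbits of the cyclic rotation on the r-tuples of eigenvalue multiplicities (a_0, …, a_(r−1)) summing to n with every a_j < n, and when r divides n there are r − 1 further classes (lifts acting irreducibly on blocks of size r); in all (C(n+r−1, r−1) − r − [r ∣ n])/r + r·[r ∣ n] classes. -/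
theorem result {F : Type*} [Field F] [Fintype F] {q : ℕ} (hF : Fintype.card F = q) {n r : ℕ} (hn : 2 ≤ n) (hr : r.Prime) (hrq : r ∣ q - 1) : Nat.card {C : ConjClasses (GL (Fin n) F ⧸ Subgroup.center (GL (Fin n) F)) // ∃ g : GL (Fin n) F ⧸ Subgroup.center (GL (Fin n) F), ConjClasses.mk g = C ∧ orderOf g = r} = (Nat.choose (n + r - 1) (r - 1) - r - (if r ∣ n then 1 else 0)) / r + r * (if r ∣ n then 1 else 0) := by
  subst hF
  have hn1 : 1 ≤ n := by omega
  have hA := Cfsg.Agent.Lib.Helper40.CenQuot.count (G := GL (Fin n) F) r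
    (Nat.choose (n + r - 1) (r - 1)) (if r ∣ n then 1 else 0)
    (Cfsg.Agent.Lib.Helper40.PGLPrime.card_cenTor hn1 r hrq)
    (Cfsg.Agent.Lib.Helper40.PGLPrime.card_clsTor_GL n r hr hrq)
    (fun z hz hzr hz1 => Cfsg.Agent.Lib.Helper40.PGLPrime.card_fixed hn1 r hr hrq z hz hzr hz1)
  have hS := Cfsg.Agent.Lib.Helper40.CenQuot.split (G := GL (Fin n) F)
    (Subgroup.center (GL (Fin n) F)) r hr
  have hB := Cfsg.Agent.Lib.Helper40.PGLPrime.card_B (F := F) hn1 r hr hrq
  rw [hB] at hS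
  obtain ⟨T, hT⟩ : ∃ T, T = Nat.card {D : ConjClasses (GL (Fin n) F ⧸ Subgroup.center (GL (Fin n) F)) //
      ∃ g : GL (Fin n) F, ConjClasses.mk (g : GL (Fin n) F ⧸ Subgroup.center (GL (Fin n) F)) = D ∧
        g ^ r = 1} := ⟨_, rfl⟩
  rw [← hT] at hA hS
  obtain ⟨S, hS'⟩ : ∃ S, S = Nat.card {C : ConjClasses (GL (Fin n) F ⧸ Subgroup.center (GL (Fin n) F)) //
      ∃ g : GL (Fin n) F ⧸ Subgroup.center (GL (Fin n) F), ConjClasses.mk g = C ∧ orderOf g = r} :=
    ⟨_, rfl⟩
  rw [← hS'] at hS ⊢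
  obtain ⟨Cn, hCn⟩ : ∃ Cn, Cn = Nat.choose (n + r - 1) (r - 1) := ⟨_, rfl⟩
  rw [← hCn] at hA ⊢
  have hr2 := hr.two_le
  by_cases hrn : r ∣ n
  · rw [if_pos hrn] at hA hS ⊢
    have hCge : r + 1 ≤ Cn := by
      have h1 : Nat.choose (r + 1) (r - 1) ≤ Nat.choose (n + r - 1) (r - 1) :=
        Nat.choose_le_choose _ (by omega)
      have h2 : Nat.choose (r + 1) (r - 1) = Nat.choose (r + 1) 2 := by
        have h3 : r - 1 = (r + 1) - 2 := by omega
        rw [h3]
        exact Nat.choose_symm (by omega)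
      rw [h2, Nat.choose_two_right, Nat.add_sub_cancel] at h1
      have h4 : r + 1 ≤ (r + 1) * r / 2 := by
        rw [Nat.le_div_iff_mul_le (by norm_num)]
        exact Nat.mul_le_mul_left _ hr2
      omega
    have hT2 : 2 ≤ T := by
      by_contra hlt
      have hT1 : T ≤ 1 := by omega
      have : T * r ≤ 1 * r := Nat.mul_le_mul_right r hT1
      omega
    have h5 : Cn - r - 1 = (T - 2) * r := by
      rw [Nat.sub_mul]
      omega
    rw [h5, Nat.mul_div_cancel _ hr.pos]
    omega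
  · rw [if_neg hrn] at hA hS ⊢
    have h5 : Cn - r - 0 = (T - 1) * r := by
      rw [Nat.sub_mul]
      omega
    rw [h5, Nat.mul_div_cancel _ hr.pos]
    omega

end Cfsg.Agent.S2670
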