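import Cfsg.Statements.S2671
import Mathlib
import Cfsg.Agent.S2568
import Cfsg.Agent.S2587
import Cfsg.Agent.Lib.Helper40.GUReal
import Cfsg.Agent.Lib.Helper40.RecipPoly

set_option autoImplicit false
open Cfsg

namespace Cfsg.Agent.S2671
open Polynomial UniqueFactorizationMonoid Cfsg.Agent.Lib.Helper40.RecipPoly
/-- Number of conjugacy classes of elements of odd prime order r in the general unitary group GU_n(q), for r not dividing q(q + 1): let i be the multiplicative order of q modulo r, b = i if i is odd and b = i/2 if i is even, and s = (r − 1)/b. If i ≢ 2 (mod 4) the eigenvalue orbits pair off into dual pairs of totally isotropic blocks and there are C(⌊n/(2b)⌋ + s/2, s/2) − 1 classes; if i ≡ 2 (mod 4) each orbit gives a non-degenerate block of dimension i/2 and there are C(⌊2n/i⌋ + s, s) − 1 classes. -/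
theorem result {K : Type*} [Field K] [Fintype K] {p q n r i b s : ℕ} [Fact p.Prime] [CharP K p] (hK : Fintype.card K = q ^ 2) (hr : r.Prime) (hr2 : r ≠ 2) (hrp : r ≠ p) (hi : i = orderOf (q : ZMod r)) (hi2 : i ≠ 2) (hb : b = if Odd i then i else i / 2) (hs : s * b = r - 1) : Nat.card {C : ConjClasses ↥(Cfsg.GU n K q) // ∃ g : ↥(Cfsg.GU n K q), ConjClasses.mk g = C ∧ orderOf g = r} = if i % 4 = 2 then Nat.choose (2 * n / i + s) s - 1 else Nat.choose (n / (2 * b) + s / 2) (s / 2) - 1 := by
  classical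
  have hp : p.Prime := Fact.out
  obtain ⟨φ, hφ, hφ2, l, hl⟩ := Cfsg.Agent.Lib.Helper40.HermAdj.exists_phi hK
  have hr0 : (r : K) ≠ 0 := by
    rw [Ne, CharP.cast_eq_zero_iff K p]
    intro h
    exact hrp ((Nat.prime_dvd_prime_iff_eq hp hr).mp h).symm
  obtain ⟨f, -, hf⟩ := FiniteField.card K p
  have hqdvd : q ∣ p ^ (f : ℕ) := by
    rw [← hf, hK]
    exact dvd_pow_self q two_ne_zero
  obtain ⟨e, -, hqe⟩ := (Nat.dvd_prime_pow hp).mp hqdvd
  have : Fact r.Prime := ⟨hr⟩
  have hx0 : (q : ZMod r) ≠ 0 := by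
    rw [Ne, ZMod.natCast_eq_zero_iff, hqe]
    intro h
    exact hrp ((Nat.prime_dvd_prime_iff_eq hr hp).mp (hr.dvd_of_dvd_pow h))
  have hbpos : 0 < b := by
    rcases Nat.eq_zero_or_pos b with h | h
    · subst h
      have := hr.two_le
      omega
    · exact h
  have hipos : 0 < i := by
    rcases Nat.eq_zero_or_pos i with h | h
    · subst h
      rw [if_neg (by decide)] at hb
      omega
    · exact h
  have hb' : b = orderOf ((Fintype.card K : ℕ) : ZMod r) := by
    rw [hK, Nat.cast_pow, orderOf_pow' _ two_ne_zero, ← hi, hb]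
    split_ifs with hodd
    · rw [Nat.Coprime.gcd_eq_one (Nat.Coprime.symm (Nat.coprime_two_left.mpr hodd)), Nat.div_one]
    · rw [Nat.gcd_eq_right (even_iff_two_dvd.mp (Nat.not_odd_iff_even.mp hodd))]
  obtain ⟨S, hScard, hLS, hS, hSdvd⟩ :=
    Cfsg.Agent.S2568.cyclo_facts (F := K) (p := p) r b s hr hrp hb' hs
  obtain ⟨L, hL⟩ : ∃ L : K[X], L = X - C (1 : K) := ⟨_, rfl⟩
  have hLirr : Irreducible L := hL ▸ irreducible_X_sub_C 1
  have hLm : L.Monic := hL ▸ monic_X_sub_C 1
  have hLd : L.natDegree = 1 := hL ▸ natDegree_X_sub_C 1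
  rw [← hL] at hLS hSdvd
  have hLs : rstar φ L = L := by
    rw [hL]
    exact rstar_X_sub_one φ
  have hL0 : L.coeff 0 ≠ 0 := by
    rw [hL, coeff_sub, coeff_X_zero, coeff_C_zero, zero_sub]
    exact neg_ne_zero.mpr one_ne_zero
  have hXr0 : (X ^ r - C (1 : K)).coeff 0 ≠ 0 := by
    rw [coeff_sub, coeff_X_pow, coeff_C_zero, if_neg hr.ne_zero.symm, zero_sub]
    exact neg_ne_zero.mpr one_ne_zero
  have hSd : ∀ P ∈ S, P ∣ X ^ r - C (1 : K) := fun P hP =>
    (hSdvd P (hS P hP).1 (hS P hP).2.1).mpr (Or.inr hP)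
  have hS0 : ∀ P ∈ S, P.coeff 0 ≠ 0 := fun P hP => coeff0_of_dvd (hSd P hP) hXr0
  have hSs : ∀ P ∈ S, rstar φ P ∈ S := by
    intro P hP
    obtain ⟨Q, hQ⟩ := hSd P hP
    have h1 : rstar φ P ∣ X ^ r - C (1 : K) := by
      have h2 := rstar_X_pow_sub_one φ r hr.pos
      rw [hQ, rstar_mul] at h2
      exact ⟨rstar φ Q, by rw [hQ]; exact h2.symm⟩
    rcases (hSdvd _ (rstar_irreducible φ hφ2 P (hS P hP).1 (hS P hP).2.1 (hS0 P hP))
      (rstar_monic φ P (hS0 P hP))).mp h1 with h | h
    · exfalso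
      have h2 := rstar_star φ hφ2 P (hS P hP).2.1 (hS0 P hP)
      rw [h, hLs] at h2
      exact hLS (h2 ▸ hP)
    · exact h
  have hSss : ∀ P ∈ S, rstar φ (rstar φ P) = P := fun P hP =>
    rstar_star φ hφ2 P (hS P hP).2.1 (hS0 P hP)
  have hcrit : ∀ P ∈ S, (rstar φ P = P ↔ ∃ k : ℕ, r ∣ Fintype.card K ^ k + q) := by
    intro P hP
    exact rstar_eq_iff (p := p) φ q e hqe hφ hφ2 r hr P (hS P hP).1 (hS P hP).2.1
      (fun h => hLS (by rw [hL, ← h]; exact hP)) (hSd P hP)
  have h2ne : (2 : ZMod r) ≠ 0 := by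
    intro h
    have h7 : ((2 : ℕ) : ZMod r) = 0 := by
      rw [Nat.cast_ofNat]
      exact h
    have h8 := (ZMod.natCast_eq_zero_iff _ _).mp h7
    exact hr2 ((Nat.prime_dvd_prime_iff_eq hr Nat.prime_two).mp h8)
  have hcast : ∀ k : ℕ, (r ∣ Fintype.card K ^ k + q ↔
      (q : ZMod r) ^ (2 * k) + (q : ZMod r) = 0) := by
    intro k
    rw [← ZMod.natCast_eq_zero_iff, hK, Nat.cast_add, Nat.cast_pow, Nat.cast_pow, ← pow_mul]
  have hiff : (∃ k : ℕ, r ∣ Fintype.card K ^ k + q) ↔ i % 4 = 2 := by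
    constructor
    · rintro ⟨k, hk⟩
      rw [hcast] at hk
      rcases Nat.eq_zero_or_pos k with hk0 | hkpos
      · subst hk0
        rw [mul_zero, pow_zero] at hk
        have h1 : (q : ZMod r) = -1 := by linear_combination hk
        have h2 : (q : ZMod r) ^ 2 = 1 := by rw [h1, neg_one_sq]
        have h3 : i ∣ 2 := by
          rw [hi]
          exact orderOf_dvd_of_pow_eq_one h2
        rcases (Nat.dvd_prime Nat.prime_two).mp h3 with h | h
        · exfalso
          rw [hi, orderOf_eq_one_iff] at h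
          rw [h] at h1
          apply h2ne
          linear_combination h1
        · rw [h]
      · have h1 : (q : ZMod r) ^ (2 * k - 1) = -1 := by
          have h2 : ((q : ZMod r) ^ (2 * k - 1) + 1) * (q : ZMod r) = 0 := by
            have h3 : (q : ZMod r) ^ (2 * k) = (q : ZMod r) ^ (2 * k - 1) * (q : ZMod r) := by
              rw [← pow_succ]
              congr 1
              omega
            rw [h3] at hk
            linear_combination hk
          rcases mul_eq_zero.mp h2 with h | h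
          · exact eq_neg_of_add_eq_zero_left h
          · exact absurd h hx0
        have h3 : i ∣ 2 * (2 * k - 1) := by
          rw [hi]
          apply orderOf_dvd_of_pow_eq_one
          rw [mul_comm, pow_mul, h1, neg_one_sq]
        have h4 : ¬ i ∣ 2 * k - 1 := by
          intro h
          rw [hi] at h
          have h5 := orderOf_dvd_iff_pow_eq_one.mp h
          rw [h1] at h5
          apply h2ne
          linear_combination -h5
        by_contra hmod
        rcases Nat.even_or_odd i with hev | hodd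
        · obtain ⟨c, hc⟩ := h3
          obtain ⟨a, ha⟩ : ∃ a, i = 4 * a := ⟨i / 4, by
            have := hev.two_dvd
            omega⟩
          rw [ha] at hc
          have h6 : 4 * a * c = 4 * (a * c) := by ring
          omega
        · exact h4 (Nat.Coprime.dvd_of_dvd_mul_left
            (Nat.Coprime.symm (Nat.coprime_two_left.mpr hodd)) h3)
    · intro hmod
      obtain ⟨j, hj⟩ : ∃ j, i = 2 * j := ⟨i / 2, by omega⟩
      refine ⟨(j + 1) / 2, ?_⟩
      rw [hcast]
      have h1 : ((q : ZMod r) ^ j) ^ 2 = 1 := by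
        rw [← pow_mul, mul_comm, ← hj, hi, pow_orderOf_eq_one]
      have h2 : (q : ZMod r) ^ j ≠ 1 := by
        apply pow_ne_one_of_lt_orderOf
        · omega
        · rw [← hi]
          omega
      have h3 : (q : ZMod r) ^ j = -1 := by
        have h4 : ((q : ZMod r) ^ j - 1) * ((q : ZMod r) ^ j + 1) = 0 := by
          linear_combination h1
        rcases mul_eq_zero.mp h4 with h | h
        · exact absurd (sub_eq_zero.mp h) h2
        · exact eq_neg_of_add_eq_zero_left h
      have h5 : 2 * ((j + 1) / 2) = j + 1 := by omega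
      rw [h5, pow_succ, h3]
      ring
  obtain ⟨D, hD⟩ : ∃ D : Set K[X], D = {c | c.Monic ∧ c.natDegree = n ∧
      (∀ P ∈ normalizedFactors c, P = L ∨ P ∈ S) ∧ rstar φ c = c} := ⟨_, rfl⟩
  have hDcard : D.ncard = if i % 4 = 2 then Nat.choose (2 * n / i + s) s
      else Nat.choose (n / (2 * b) + s / 2) (s / 2) := by
    by_cases hmod : i % 4 = 2
    · rw [if_pos hmod]
      have hfix : ∀ P ∈ S, rstar φ P = P := fun P hP => (hcrit P hP).mpr (hiff.mpr hmod)
      have hcount := Cfsg.Agent.S2568.count_aux L hLirr hLm hLd S b hbpos hS hLS n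
      have heq : Nat.card ↥D = Nat.card {c : K[X] // c.Monic ∧ c.natDegree = n ∧
          ∀ P ∈ normalizedFactors c, P = L ∨ P ∈ S} := by
        rw [hD]
        apply Nat.card_congr
        apply Equiv.subtypeEquivRight
        intro c
        constructor
        · rintro ⟨h1, h2, h3, h4⟩
          exact ⟨h1, h2, h3⟩
        · rintro ⟨h1, h2, h3⟩
          refine ⟨h1, h2, h3, ?_⟩
          have h5 : (normalizedFactors c).map (rstar φ) = normalizedFactors c := by
            conv_rhs => rw [← Multiset.map_id' (normalizedFactors c)]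
            apply Multiset.map_congr rfl
            intro P hP
            rcases h3 P hP with h | h
            · rw [h]
              exact hLs
            · exact hfix P h
          calc rstar φ c = rstar φ (normalizedFactors c).prod := by
                rw [Cfsg.Agent.S2568.prod_nf c h1]
            _ = c := by rw [rstar_multiset_prod, h5, Cfsg.Agent.S2568.prod_nf c h1]
      have hbv : b = i / 2 := by
        rw [hb, if_neg (by rw [Nat.odd_iff]; omega)]
      have h1 : 2 * n / i = n / b := by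
        have h2 : i = 2 * b := by omega
        rw [h2]
        exact Nat.mul_div_mul_left n b two_pos
      rw [← Nat.card_coe_set_eq, heq, hcount, hScard, h1, add_comm, Nat.choose_symm_add]
    · rw [if_neg hmod]
      have hne : ∀ P ∈ S, rstar φ P ≠ P := by
        intro P hP h
        exact hmod (hiff.mp ((hcrit P hP).mp h))
      obtain ⟨R, hRS, hR, hRcard⟩ := exists_half S (rstar φ) hSs hSss hne
      obtain ⟨-, hcount⟩ := count_fpf φ hφ2 L hLirr hLm hLd hL0 hLs S R b hbpos
        (fun P hP => ⟨(hS P hP).1, (hS P hP).2.1, (hS P hP).2.2, hS0 P hP⟩) hLS hSs hRS hR n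
      have heq : Nat.card ↥D = Nat.card {c : K[X] // c.Monic ∧ c.natDegree = n ∧
          (∀ P ∈ normalizedFactors c, P = L ∨ P ∈ S) ∧ rstar φ c = c} := by
        rw [hD]
        rfl
      have h2 : R.card = s / 2 := by omega
      rw [← Nat.card_coe_set_eq, heq, hcount, h2, add_comm, Nat.choose_symm_add]
  have hLn : L ^ n ∈ D := by
    rw [hD]
    refine ⟨hLm.pow _, ?_, ?_, ?_⟩
    · rw [hLm.natDegree_pow, hLd, mul_one]
    · intro P hP
      rw [normalizedFactors_of_irreducible_pow hLirr, hLm.normalize_eq_self] at hP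
      left
      exact Multiset.eq_of_mem_replicate hP
    · rw [Cfsg.Agent.Lib.Helper40.GUReal.rstar_pow, hLs]
  have hone : (1 : Matrix (Fin n) (Fin n) K).charpoly = L ^ n := by
    rw [Matrix.charpoly_one, Fintype.card_fin, hL, map_one]
  have hinv : ∀ a b : ↥(Cfsg.GU n K q), IsConj a b →
      ((a : GL (Fin n) K) : Matrix (Fin n) (Fin n) K).charpoly =
        ((b : GL (Fin n) K) : Matrix (Fin n) (Fin n) K).charpoly := by
    intro a b hab
    obtain ⟨c, rfl⟩ := isConj_iff.mp hab
    have h1 : (((c * a * c⁻¹ : ↥(Cfsg.GU n K q)) : GL (Fin n) K) : Matrix (Fin n) (Fin n) K) =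
        ((c : GL (Fin n) K) : Matrix (Fin n) (Fin n) K) *
          ((a : GL (Fin n) K) : Matrix (Fin n) (Fin n) K) *
          (((c : GL (Fin n) K)⁻¹ : GL (Fin n) K) : Matrix (Fin n) (Fin n) K) := rfl
    rw [h1, Matrix.coe_units_inv]
    exact (Matrix.charpoly_units_conj (c : GL (Fin n) K)
      ((a : GL (Fin n) K) : Matrix (Fin n) (Fin n) K)).symm
  obtain ⟨cp, hcp⟩ : ∃ cp : ConjClasses ↥(Cfsg.GU n K q) → Polynomial K,
      ∀ g : ↥(Cfsg.GU n K q), cp (ConjClasses.mk g) =
        ((g : GL (Fin n) K) : Matrix (Fin n) (Fin n) K).charpoly :=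
    ⟨Quotient.lift (fun g : ↥(Cfsg.GU n K q) =>
        ((g : GL (Fin n) K) : Matrix (Fin n) (Fin n) K).charpoly)
      (fun a b hab => hinv a b hab), fun g => rfl⟩
  have hpow : ∀ g : ↥(Cfsg.GU n K q), orderOf g = r →
      ((g : GL (Fin n) K) : Matrix (Fin n) (Fin n) K) ^ r = 1 := by
    intro g hg
    have h3 : g ^ r = 1 := by rw [← hg, pow_orderOf_eq_one]
    rw [← Units.val_pow_eq_pow_val, ← Subgroup.coe_pow, h3]
    rfl
  have hprop : ∀ g : ↥(Cfsg.GU n K q), orderOf g = r →
      ((g : GL (Fin n) K) : Matrix (Fin n) (Fin n) K).charpoly ∈ D \ {L ^ n} := by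
    intro g hg
    have hgr := hpow g hg
    have hu := (Cfsg.Agent.Lib.Helper40.HermAdj.mem_GU_iff φ hφ (g : GL (Fin n) K)).mp g.2
    refine ⟨?_, ?_⟩
    · rw [hD]
      refine ⟨Matrix.charpoly_monic _, by simp, ?_, ?_⟩
      · intro P hP
        apply (hSdvd P (irreducible_of_normalized_factor P hP)
          (Cfsg.Agent.S2568.monic_of_mem_nf _ P hP)).mp
        apply Cfsg.Agent.S2568.dvd_of_mem_nf_charpoly
          ((g : GL (Fin n) K) : Matrix (Fin n) (Fin n) K) _ _ P hP
        rw [map_sub, map_pow, aeval_X, aeval_C, map_one, hgr, sub_self]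
      · exact Cfsg.Agent.Lib.Helper40.GUReal.rstar_charpoly_of_unitary φ hφ2 _ hu
    · intro hmem
      rw [Set.mem_singleton_iff, ← hone] at hmem
      obtain ⟨P, Q, hPQ, hQP, hPA⟩ := Cfsg.Agent.Lib.Helper40.SSConj.matrix_conj
        ((g : GL (Fin n) K) : Matrix (Fin n) (Fin n) K) (1 : Matrix (Fin n) (Fin n) K) r hr0 hgr
        (one_pow r) hmem
      have h1 : ((g : GL (Fin n) K) : Matrix (Fin n) (Fin n) K) = 1 := by
        calc ((g : GL (Fin n) K) : Matrix (Fin n) (Fin n) K)
            = Q * P * ((g : GL (Fin n) K) : Matrix (Fin n) (Fin n) K) := by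
              rw [hQP, one_mul]
          _ = Q * (1 * P) := by rw [mul_assoc, hPA]
          _ = 1 := by rw [one_mul, hQP]
      have h2 : g = 1 := Subtype.ext (Units.ext h1)
      rw [h2, orderOf_one] at hg
      exact hr.one_lt.ne' hg.symm
  have key : Nat.card {C : ConjClasses ↥(Cfsg.GU n K q) //
        ∃ g : ↥(Cfsg.GU n K q), ConjClasses.mk g = C ∧ orderOf g = r} =
      Nat.card ↥(D \ {L ^ n}) := by
    apply Nat.card_eq_of_bijective
      (fun c => (⟨cp c.1, by
        obtain ⟨g, hg, hgo⟩ := c.2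
        rw [← hg, hcp]
        exact hprop g hgo⟩ : ↥(D \ {L ^ n})))
    constructor
    · rintro ⟨C₁, g₁, rfl, h₁⟩ ⟨C₂, g₂, rfl, h₂⟩ h
      have hc : ((g₁ : GL (Fin n) K) : Matrix (Fin n) (Fin n) K).charpoly =
          ((g₂ : GL (Fin n) K) : Matrix (Fin n) (Fin n) K).charpoly := by
        have := congrArg Subtype.val h
        simp only [hcp] at this
        exact this
      apply Subtype.ext
      show ConjClasses.mk g₁ = ConjClasses.mk g₂
      rw [ConjClasses.mk_eq_mk_iff_isConj]
      apply (Cfsg.Agent.S2587.result hK g₁ g₂).mpr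
      obtain ⟨P, Q, hPQ, hQP, hPA⟩ := Cfsg.Agent.Lib.Helper40.SSConj.matrix_conj
        ((g₁ : GL (Fin n) K) : Matrix (Fin n) (Fin n) K)
        ((g₂ : GL (Fin n) K) : Matrix (Fin n) (Fin n) K)
        r hr0 (hpow g₁ h₁) (hpow g₂ h₂) hc
      obtain ⟨u, hu⟩ : ∃ u : GL (Fin n) K,
          (u : Matrix (Fin n) (Fin n) K) = P := ⟨⟨P, Q, hPQ, hQP⟩, rfl⟩
      refine isConj_iff.mpr ⟨u, ?_⟩
      rw [mul_inv_eq_iff_eq_mul]
      apply Units.ext
      show (u : Matrix (Fin n) (Fin n) K) * ((g₁ : GL (Fin n) K) : Matrix (Fin n) (Fin n) K) =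
        ((g₂ : GL (Fin n) K) : Matrix (Fin n) (Fin n) K) * (u : Matrix (Fin n) (Fin n) K)
      rw [hu]
      exact hPA
    · rintro ⟨c, hcs, hcne⟩
      rw [hD] at hcs
      obtain ⟨hcm, hcd, hcf, hcr⟩ := hcs
      have hc0 : c.coeff 0 ≠ 0 := by
        intro h0
        unfold rstar at hcr
        rw [h0, map_zero, inv_zero, map_zero, zero_mul] at hcr
        exact hcm.ne_zero hcr.symm
      obtain ⟨U, hU, hUc, N, hNpos, hNcop, hUN⟩ :=
        Cfsg.Agent.Lib.Helper40.GUReal.exists_gu_charpoly φ hφ2 l hl p c hcm hcd hc0 hcr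
      have hGr : U ^ r = 1 := by
        apply Cfsg.Agent.S2568.pow_eq_one_of_charpoly U r N hNcop hUN
        intro P hP
        rw [hUc] at hP
        exact (hSdvd P (irreducible_of_normalized_factor P hP)
          (Cfsg.Agent.S2568.monic_of_mem_nf _ P hP)).mpr (hcf P hP)
      obtain ⟨u, hu'⟩ : ∃ u : GL (Fin n) K, (u : Matrix (Fin n) (Fin n) K) = U :=
        ⟨⟨U, Cfsg.Agent.Lib.Helper40.HermAdj.adj φ U, mul_eq_one_comm.mp hU, hU⟩, rfl⟩
      have humem : u ∈ Cfsg.GU n K q := by
        rw [Cfsg.Agent.Lib.Helper40.HermAdj.mem_GU_iff φ hφ, hu']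
        exact hU
      obtain ⟨g, hg⟩ : ∃ g : ↥(Cfsg.GU n K q), (g : GL (Fin n) K) = u := ⟨⟨u, humem⟩, rfl⟩
      have hgr : g ^ r = 1 := by
        apply Subtype.ext
        apply Units.ext
        rw [Subgroup.coe_pow, Units.val_pow_eq_pow_val, hg, hu']
        exact hGr
      have hord : orderOf g = r := by
        rcases (Nat.dvd_prime hr).mp (orderOf_dvd_of_pow_eq_one hgr) with h | h
        · exfalso
          apply hcne
          have h1 : g = 1 := orderOf_eq_one_iff.mp h
          have h2 : U = 1 := by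
            rw [← hu', ← hg, h1]
            rfl
          rw [Set.mem_singleton_iff, ← hUc, h2, hone]
        · exact h
      refine ⟨⟨ConjClasses.mk g, g, rfl, hord⟩, ?_⟩
      apply Subtype.ext
      show cp (ConjClasses.mk g) = c
      rw [hcp, hg, hu']
      exact hUc
  rw [key, Nat.card_coe_set_eq, Set.ncard_sdiff_singleton_of_mem hLn, hDcard]
  split_ifs <;> rfl

end Cfsg.Agent.S2671
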