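import Cfsg.Statements.S2672
import Mathlib
import Cfsg.Agent.Lib.Helper40.PGUPrime

set_option autoImplicit false
open Cfsg

namespace Cfsg.Agent.S2672

/-- Number of conjugacy classes of elements of odd prime order r in PGU_n(q) = GU_n(q)/scalars (n ≥ 3) when r divides q + 1: as in the linear case with q − 1 replaced by q + 1, the classes correspond to the rotation orbits on r-tuples of eigenvalue multiplicities summing to n with every entry < n, plus r − 1 further classes when r divides n; in all (C(n+r−1, r−1) − r − [r ∣ n])/r + r·[r ∣ n]. -/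
theorem result {K : Type*} [Field K] [Fintype K] {q n r : ℕ} (hK : Fintype.card K = q ^ 2) (hn : 3 ≤ n) (hr : r.Prime) (hr2 : r ≠ 2) (hrq : r ∣ q + 1) : Nat.card {C : ConjClasses (↥(Cfsg.GU n K q) ⧸ Subgroup.center ↥(Cfsg.GU n K q)) // ∃ g : ↥(Cfsg.GU n K q) ⧸ Subgroup.center ↥(Cfsg.GU n K q), ConjClasses.mk g = C ∧ orderOf g = r} = (Nat.choose (n + r - 1) (r - 1) - r - (if r ∣ n then 1 else 0)) / r + r * (if r ∣ n then 1 else 0) := by
  have hn1 : 1 ≤ n := by omega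
  have hA := Cfsg.Agent.Lib.Helper40.CenQuot.count (G := ↥(Cfsg.GU n K q)) r
    (Nat.choose (n + r - 1) (r - 1)) (if r ∣ n then 1 else 0)
    (Cfsg.Agent.Lib.Helper40.PGUPrime.card_cenTor_GU hK hn1 r hr hrq)
    (Cfsg.Agent.Lib.Helper40.PGUPrime.card_clsTor_GU hK n r hr hr2 hrq)
    (fun z hz hzr hz1 =>
      Cfsg.Agent.Lib.Helper40.PGUPrime.card_fixed_GU hK hn1 r hr hrq z hz hzr hz1)
  have hS := Cfsg.Agent.Lib.Helper40.CenQuot.split (G := ↥(Cfsg.GU n K q))
    (Subgroup.center ↥(Cfsg.GU n K q)) r hr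
  have hB := Cfsg.Agent.Lib.Helper40.PGUPrime.card_B_GU (K := K) (n := n) hK hn1 r hr hr2 hrq
  rw [hB] at hS
  obtain ⟨T, hT⟩ : ∃ T, T = Nat.card {D : ConjClasses (↥(Cfsg.GU n K q) ⧸ Subgroup.center ↥(Cfsg.GU n K q)) //
      ∃ g : ↥(Cfsg.GU n K q), ConjClasses.mk (g : ↥(Cfsg.GU n K q) ⧸ Subgroup.center ↥(Cfsg.GU n K q)) = D ∧ g ^ r = 1} := ⟨_, rfl⟩
  rw [← hT] at hA hS
  obtain ⟨S, hS'⟩ : ∃ S, S = Nat.card {C : ConjClasses (↥(Cfsg.GU n K q) ⧸ Subgroup.center ↥(Cfsg.GU n K q)) //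
      ∃ g : ↥(Cfsg.GU n K q) ⧸ Subgroup.center ↥(Cfsg.GU n K q), ConjClasses.mk g = C ∧ orderOf g = r} :=
    ⟨_, rfl⟩
  rw [← hS'] at hS ⊢
  obtain ⟨Cn, hCn⟩ : ∃ Cn, Cn = Nat.choose (n + r - 1) (r - 1) := ⟨_, rfl⟩
  rw [← hCn] at hA ⊢
  have hr2' := hr.two_le
  by_cases hrn : r ∣ n
  · rw [if_pos hrn] at hA hS ⊢
    have hCge : r + 1 ≤ Cn := by
      have h1 : Nat.choose (r + 1) (r - 1) ≤ Nat.choose (n + r - 1) (r - 1) :=
        Nat.choose_le_choose _ (by omega)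
      have h2 : Nat.choose (r + 1) (r - 1) = Nat.choose (r + 1) 2 := by
        have h3 : r - 1 = (r + 1) - 2 := by omega
        rw [h3]
        exact Nat.choose_symm (by omega)
      rw [h2, Nat.choose_two_right, Nat.add_sub_cancel] at h1
      have h4 : r + 1 ≤ (r + 1) * r / 2 := by
        rw [Nat.le_div_iff_mul_le (by norm_num)]
        exact Nat.mul_le_mul_left _ hr2'
      omega
    have hT2 : 2 ≤ T := by
      by_contra hlt
      have hT1 : T ≤ 1 := by omega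
      have : T * r ≤ 1 * r := Nat.mul_le_mul_right r hT1
      omega
    have h5 : Cn - r - 1 = (T - 2) * r := by
      rw [Nat.sub_mul]
      omega
    rw [h5, Nat.mul_div_cancel _ hr.pos]
    omega
  · rw [if_neg hrn] at hA hS ⊢
    have h5 : Cn - r - 0 = (T - 1) * r := by
      rw [Nat.sub_mul]
      omega
    rw [h5, Nat.mul_div_cancel _ hr.pos]
    omega

end Cfsg.Agent.S2672
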