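import Cfsg.Statements.S2673
import Cfsg.Agent.Lib.Helper44.OCls4
import Cfsg.Agent.Lib.Helper44.NegPairs

set_option autoImplicit false
open Cfsg

namespace Cfsg.Agent.S2673

open Cfsg.Agent.Lib.Helper44.OCls4 Cfsg.Agent.Lib.Helper44.NegPairs Cfsg.Agent.Lib.Helper44.QSpace


/-- Number of conjugacy classes of elements of odd prime order r ≠ p in the orthogonal group O_(2m+1)(q) of x_0² + Σ x_j y_j, q odd: with i the multiplicative order of q mod r and t = (r − 1)/i, there are C(⌊m/i⌋ + t/2, t/2) − 1 classes if i is odd (dual pairs of totally singular i-blocks) and C(⌊(2m+1)/i⌋ + t, t) − 1 if i is even (elliptic i-blocks). -/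
theorem result {F : Type*} [Field F] [Fintype F] {p q : ℕ} [Fact p.Prime] [CharP F p] (hF : Fintype.card F = q) (hq : Odd q) (m r i t : ℕ) (hr : r.Prime) (hr2 : r ≠ 2) (hrp : r ≠ p) (hi : i = orderOf (q : ZMod r)) (ht : t * i = r - 1) : Nat.card {C : ConjClasses ↥(Cfsg.isometryGroup F (Cfsg.quadFormOdd m F)) // ∃ g : ↥(Cfsg.isometryGroup F (Cfsg.quadFormOdd m F)), ConjClasses.mk g = C ∧ orderOf g = r} = if Odd i then Nat.choose (m / i + t / 2) (t / 2) - 1 else Nat.choose ((2 * m + 1) / i + t) t - 1 := by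
  classical
  subst hF
  have h2 : (2 : F) ≠ 0 := by
    intro h
    have : CharP F 2 := CharTwo.of_one_ne_zero_of_two_eq_zero one_ne_zero h
    have h3 := FiniteField.even_card_of_char_two (ringChar.eq F 2)
    rw [Nat.odd_iff] at hq
    omega
  have hS := sep_oddQ h2 m
  have hcard : Fintype.card (Unit ⊕ (Fin m ⊕ Fin m)) = 2 * m + 1 := by
    simp only [Fintype.card_sum, Fintype.card_unit, Fintype.card_fin]
    omega
  have hipos : 0 < i := by
    rcases Nat.eq_zero_or_pos i with h | h
    · subst h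
      have := hr.two_le
      omega
    · exact h
  have hmaster := master (p := p) (oddQ m F) hS (by rw [hcard]; omega) r i t hr hr2 hrp hi ht False
    (fun g _ _ hev => by
      rw [hcard] at hev
      exact absurd hev (by simp))
    (fun h => h.elim) (2 * m) (fun h => h.elim) (fun _ => by rw [hcard]; omega)
  have hgoal : Nat.card {C : ConjClasses ↥(Cfsg.isometryGroup F (Cfsg.quadFormOdd m F)) //
      ∃ g : ↥(Cfsg.isometryGroup F (Cfsg.quadFormOdd m F)), ConjClasses.mk g = C ∧ orderOf g = r}
      = (if Odd i then Nat.choose (2 * m / (2 * i) + t / 2) (t / 2)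
        else Nat.choose (2 * m / i + t) t) - 1 := hmaster
  rw [hgoal]
  by_cases hodd : Odd i
  · rw [if_pos hodd, if_pos hodd, Nat.mul_div_mul_left m i two_pos]
  · rw [if_neg hodd, if_neg hodd]
    obtain ⟨j, hj⟩ := Nat.not_odd_iff_even.mp hodd
    have hj2 : i = 2 * j := by omega
    have h5 : (2 * m + 1) / i = 2 * m / i := by
      rw [hj2, ← Nat.div_div_eq_div_mul, ← Nat.div_div_eq_div_mul]
      congr 1
      omega
    rw [h5]

end Cfsg.Agent.S2673
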