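import Cfsg.Statements.S2674
import Cfsg.Agent.Lib.Helper44.OTyp3

set_option autoImplicit false
open Cfsg

namespace Cfsg.Agent.S2674

open Polynomial Matrix
open Cfsg.Agent.Lib.Helper44.OCls4 Cfsg.Agent.Lib.Helper44.NegPairs Cfsg.Agent.Lib.Helper44.QSpace
open Cfsg.Agent.Lib.Helper44.OTyp1 Cfsg.Agent.Lib.Helper44.OTyp3 Cfsg.Agent.Lib.Helper44.OExt


/-- Number of conjugacy classes of elements of odd prime order r ≠ p in the orthogonal group O⁺_2m(q) of Σ x_j y_j (m ≥ 1): with i the multiplicative order of q mod r and t = (r − 1)/i — if i is odd, C(⌊m/i⌋ + t/2, t/2) − 1; if i is even, C(⌊2m/i⌋ + t, t) − 1 minus, when i divides 2m with odd quotient, the C(2m/i + t − 1, t − 1) tuples using the whole space (an odd number of elliptic i-blocks fills an elliptic, not a hyperbolic, space). -/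
theorem result {F : Type*} [Field F] [Fintype F] {p q : ℕ} [Fact p.Prime] [CharP F p] (hF : Fintype.card F = q) (m r i t : ℕ) (hm : 1 ≤ m) (hr : r.Prime) (hr2 : r ≠ 2) (hrp : r ≠ p) (hi : i = orderOf (q : ZMod r)) (ht : t * i = r - 1) : Nat.card {C : ConjClasses ↥(Cfsg.isometryGroup F (Cfsg.quadFormPlus m F)) // ∃ g : ↥(Cfsg.isometryGroup F (Cfsg.quadFormPlus m F)), ConjClasses.mk g = C ∧ orderOf g = r} = if Odd i then Nat.choose (m / i + t / 2) (t / 2) - 1 else Nat.choose (2 * m / i + t) t - 1 - (if i ∣ 2 * m ∧ Odd (2 * m / i) then Nat.choose (2 * m / i + t - 1) (t - 1) else 0) := by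
  classical
  subst hF
  obtain ⟨k, rfl⟩ : ∃ k, m = k + 1 := ⟨m - 1, by omega⟩
  have hS := sep_plusQ (F := F) (k + 1)
  have hcard : Fintype.card (Fin (k + 1) ⊕ Fin (k + 1)) = 2 * (k + 1) := by
    simp only [Fintype.card_sum, Fintype.card_fin]
    omega
  have hipos : 0 < i := by
    rcases Nat.eq_zero_or_pos i with h | h
    · subst h
      have := hr.two_le
      omega
    · exact h
  have htpos : 0 < t := by
    rcases Nat.eq_zero_or_pos t with h | h
    · subst h
      have := hr.two_le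
      omega
    · exact h
  have hq : 2 ≤ Fintype.card F := Fintype.one_lt_card
  have hne := NP_ne_NM (Fintype.card F) k hq
  have hsp := sing_plus (F := F) k
  obtain ⟨TOK, hTOK⟩ : ∃ TOK : Prop, TOK = (Odd i ∨ Even (2 * (k + 1) / i)) := ⟨_, rfl⟩
  have hobs : ∀ g : ↥(Cfsg.isometryGroup F ⇑(plusQ (k + 1) F)), orderOf g = r →
      ¬ (X - C (1 : F)) ∣ ((g : GL (Fin (k + 1) ⊕ Fin (k + 1)) F) :
        Matrix (Fin (k + 1) ⊕ Fin (k + 1)) (Fin (k + 1) ⊕ Fin (k + 1)) F).charpoly →
      Even (Fintype.card (Fin (k + 1) ⊕ Fin (k + 1))) → TOK := by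
    intro g hg hL _
    have hgr : ((g : GL (Fin (k + 1) ⊕ Fin (k + 1)) F) :
        Matrix (Fin (k + 1) ⊕ Fin (k + 1)) (Fin (k + 1) ⊕ Fin (k + 1)) F) ^ r = 1 := by
      rw [← Units.val_pow_eq_pow_val, ← Subgroup.coe_pow, ← hg, pow_orderOf_eq_one]
      rfl
    obtain ⟨o1, o2⟩ := obs_matrix (p := p) (plusQ (k + 1) F) hS hcard r i t hr hr2 hrp hi ht _ hgr
      (fun u => g.2 u u) hL
    rw [hTOK]
    by_contra hT
    exact hne (hsp.symm.trans (o2 hT))
  have hreal : TOK → ∀ (ι : Type) [Fintype ι] [DecidableEq ι] (s N : Matrix ι ι F),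
      Fintype.card ι = Fintype.card (Fin (k + 1) ⊕ Fin (k + 1)) → s ^ r = 1 → sᵀ * N * s = N →
      (N + Nᵀ).det ≠ 0 → ¬ (X - C (1 : F)) ∣ s.charpoly →
      ∃ j : (ι → F) →ₗ[F] (Fin (k + 1) ⊕ Fin (k + 1) → F),
        ∀ u, plusQ (k + 1) F (j u) = qN N u := by
    intro hT ι _ _ s N hc hsr hsN hN hL
    rw [hTOK] at hT
    obtain ⟨o1, -⟩ := obs_matrix (p := p) (qN N) (sep_qN hN) (hc.trans hcard) r i t hr hr2 hrp hi
      ht s hsr (qN_isom hsN) hL
    have h1 := o1 hT
    have hceq : Nat.card {v : ι → F // qN N v = 0}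
        = Nat.card {v : Fin (k + 1) ⊕ Fin (k + 1) → F // plusQ (k + 1) F v = 0} := by
      apply Nat.eq_of_mul_eq_mul_right (Fintype.card_pos (α := F))
      rw [h1, hsp]
    exact exists_iso (qN N) (plusQ (k + 1) F) (sep_qN hN) hS
      (by rw [Module.finrank_fintype_fun_eq_card, hc, hcard])
      (by rw [Module.finrank_fintype_fun_eq_card, hcard]) hceq
  by_cases hT : TOK
  · have hmaster := master (p := p) (plusQ (k + 1) F) hS (by rw [hcard]; omega) r i t hr hr2 hrp
      hi ht TOK hobs hreal (2 * (k + 1)) (fun _ => hcard.symm) (fun h => absurd hT h)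
    have hgoal : Nat.card {C : ConjClasses ↥(Cfsg.isometryGroup F (Cfsg.quadFormPlus (k + 1) F)) //
        ∃ g : ↥(Cfsg.isometryGroup F (Cfsg.quadFormPlus (k + 1) F)),
          ConjClasses.mk g = C ∧ orderOf g = r}
        = (if Odd i then Nat.choose (2 * (k + 1) / (2 * i) + t / 2) (t / 2)
          else Nat.choose (2 * (k + 1) / i + t) t) - 1 := hmaster
    rw [hgoal]
    rw [hTOK] at hT
    by_cases hodd : Odd i
    · rw [if_pos hodd, if_pos hodd, Nat.mul_div_mul_left (k + 1) i two_pos]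
    · rw [if_neg hodd, if_neg hodd]
      have hev : Even (2 * (k + 1) / i) := hT.resolve_left hodd
      rw [if_neg (fun h => (Nat.not_odd_iff_even.mpr hev) h.2), Nat.sub_zero]
  · have hmaster := master (p := p) (plusQ (k + 1) F) hS (by rw [hcard]; omega) r i t hr hr2 hrp
      hi ht TOK hobs hreal (2 * (k + 1) - 1) (fun h => absurd h hT) (fun _ => by rw [hcard])
    have hgoal : Nat.card {C : ConjClasses ↥(Cfsg.isometryGroup F (Cfsg.quadFormPlus (k + 1) F)) //
        ∃ g : ↥(Cfsg.isometryGroup F (Cfsg.quadFormPlus (k + 1) F)),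
          ConjClasses.mk g = C ∧ orderOf g = r}
        = (if Odd i then Nat.choose ((2 * (k + 1) - 1) / (2 * i) + t / 2) (t / 2)
          else Nat.choose ((2 * (k + 1) - 1) / i + t) t) - 1 := hmaster
    rw [hgoal]
    rw [hTOK] at hT
    have hodd : ¬ Odd i := fun h => hT (Or.inl h)
    have hK : Odd (2 * (k + 1) / i) := Nat.not_even_iff_odd.mp (fun h => hT (Or.inr h))
    rw [if_neg hodd, if_neg hodd]
    have ha := arith (2 * (k + 1)) i t (by omega) hipos htpos
    rw [ha]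
    congr 1
    by_cases hd : i ∣ 2 * (k + 1)
    · rw [if_pos hd, if_pos ⟨hd, hK⟩]
    · rw [if_neg hd, if_neg (fun h => hd h.1)]

end Cfsg.Agent.S2674
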