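import Cfsg.Statements.S2675
import Cfsg.Agent.Lib.Helper44.OTyp3
import Cfsg.Agent.Lib.Helper44.Inv6

set_option autoImplicit false
open Cfsg

namespace Cfsg.Agent.S2675

open Polynomial Matrix
open Cfsg.Agent.Lib.Helper44.OCls4 Cfsg.Agent.Lib.Helper44.NegPairs Cfsg.Agent.Lib.Helper44.QSpace
open Cfsg.Agent.Lib.Helper44.OTyp1 Cfsg.Agent.Lib.Helper44.OTyp3 Cfsg.Agent.Lib.Helper44.OExt


/-- Number of conjugacy classes of elements of odd prime order r ≠ p in the orthogonal group O⁻_2m(q) of an elliptic form Σ_(j<m−1) x_j y_j + z₁² + a z₁z₂ + c z₂² (binary part anisotropic, m ≥ 1): with i the multiplicative order of q mod r and t = (r − 1)/i — if i is odd, C(⌊m/i⌋ + t/2, t/2) − 1 minus, when i divides m, the C(m/i + t/2 − 1, t/2 − 1) tuples filling the whole space (dual pairs of totally singular blocks fill a hyperbolic space); if i is even, C(⌊2m/i⌋ + t, t) − 1 minus, when i divides 2m with even quotient, the C(2m/i + t − 1, t − 1) tuples filling the whole space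 with an even number of elliptic blocks. -/
theorem result {F : Type*} [Field F] [Fintype F] {p q : ℕ} [Fact p.Prime] [CharP F p] (hF : Fintype.card F = q) (m r i t : ℕ) (hm : 1 ≤ m) (a c : F) (hac : ∀ z₁ z₂ : F, z₁ ^ 2 + a * z₁ * z₂ + c * z₂ ^ 2 = 0 → z₁ = 0 ∧ z₂ = 0) (hr : r.Prime) (hr2 : r ≠ 2) (hrp : r ≠ p) (hi : i = orderOf (q : ZMod r)) (ht : t * i = r - 1) : Nat.card {C : ConjClasses ↥(Cfsg.isometryGroup F (Cfsg.quadFormMinus (m - 1) F a c)) // ∃ g : ↥(Cfsg.isometryGroup F (Cfsg.quadFormMinus (m - 1) F a c)), ConjClasses.mk g = C ∧ orderOf g = r} = if Odd i then Nat.choose (m / i + t / 2) (t / 2) - 1 - (if i ∣ m then Nat.choose (m / i + t / 2 - 1) (t / 2 - 1) else 0) else Nat.choose (2 * m / i + t) t - 1 - (if i ∣ 2 * m ∧ Even (2 * m / i) then Nat.choose (2 * m / i + t - 1) (t - 1) else 0) := by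
  classical
  subst hF
  obtain ⟨k, rfl⟩ : ∃ k, m = k + 1 := ⟨m - 1, by omega⟩
  have hS : Sep (minusQ k F a c) := by
    by_cases h2 : (2 : F) = 0
    · have : CharP F 2 := CharTwo.of_one_ne_zero_of_two_eq_zero one_ne_zero h2
      exact Cfsg.Agent.Lib.Helper44.Inv6.sep_minusQ_two k a c hac
    · exact sep_minusQ h2 k a c hac
  have hcard : Fintype.card ((Fin k ⊕ Fin k) ⊕ Fin 2) = 2 * (k + 1) := by
    simp only [Fintype.card_sum, Fintype.card_fin]
    omega
  have hipos : 0 < i := by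
    rcases Nat.eq_zero_or_pos i with h | h
    · subst h
      have := hr.two_le
      omega
    · exact h
  have htpos : 0 < t := by
    rcases Nat.eq_zero_or_pos t with h | h
    · subst h
      have := hr.two_le
      omega
    · exact h
  have hq : 2 ≤ Fintype.card F := Fintype.one_lt_card
  have hne := NP_ne_NM (Fintype.card F) k hq
  have hsm := sing_minus (F := F) k a c hac
  obtain ⟨TOK, hTOK⟩ : ∃ TOK : Prop, TOK = ¬ (Odd i ∨ Even (2 * (k + 1) / i)) := ⟨_, rfl⟩
  have hobs : ∀ g : ↥(Cfsg.isometryGroup F ⇑(minusQ k F a c)), orderOf g = r →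
      ¬ (X - C (1 : F)) ∣ ((g : GL ((Fin k ⊕ Fin k) ⊕ Fin 2) F) :
        Matrix ((Fin k ⊕ Fin k) ⊕ Fin 2) ((Fin k ⊕ Fin k) ⊕ Fin 2) F).charpoly →
      Even (Fintype.card ((Fin k ⊕ Fin k) ⊕ Fin 2)) → TOK := by
    intro g hg hL _
    have hgr : ((g : GL ((Fin k ⊕ Fin k) ⊕ Fin 2) F) :
        Matrix ((Fin k ⊕ Fin k) ⊕ Fin 2) ((Fin k ⊕ Fin k) ⊕ Fin 2) F) ^ r = 1 := by
      rw [← Units.val_pow_eq_pow_val, ← Subgroup.coe_pow, ← hg, pow_orderOf_eq_one]
      rfl
    obtain ⟨o1, o2⟩ := obs_matrix (p := p) (minusQ k F a c) hS hcard r i t hr hr2 hrp hi ht _ hgr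
      (fun u => g.2 u u) hL
    rw [hTOK]
    intro hT
    exact hne ((o1 hT).symm.trans hsm)
  have hreal : TOK → ∀ (ι : Type) [Fintype ι] [DecidableEq ι] (s N : Matrix ι ι F),
      Fintype.card ι = Fintype.card ((Fin k ⊕ Fin k) ⊕ Fin 2) → s ^ r = 1 → sᵀ * N * s = N →
      (N + Nᵀ).det ≠ 0 → ¬ (X - C (1 : F)) ∣ s.charpoly →
      ∃ j : (ι → F) →ₗ[F] ((Fin k ⊕ Fin k) ⊕ Fin 2 → F),
        ∀ u, minusQ k F a c (j u) = qN N u := by
    intro hT ι _ _ s N hc hsr hsN hN hL
    rw [hTOK] at hT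
    obtain ⟨-, o2⟩ := obs_matrix (p := p) (qN N) (sep_qN hN) (hc.trans hcard) r i t hr hr2 hrp hi
      ht s hsr (qN_isom hsN) hL
    have h1 := o2 hT
    have hceq : Nat.card {v : ι → F // qN N v = 0}
        = Nat.card {v : (Fin k ⊕ Fin k) ⊕ Fin 2 → F // minusQ k F a c v = 0} := by
      apply Nat.eq_of_mul_eq_mul_right (Fintype.card_pos (α := F))
      rw [h1, hsm]
    exact exists_iso (qN N) (minusQ k F a c) (sep_qN hN) hS
      (by rw [Module.finrank_fintype_fun_eq_card, hc, hcard])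
      (by rw [Module.finrank_fintype_fun_eq_card, hcard]) hceq
  by_cases hT : TOK
  · have hmaster := master (p := p) (minusQ k F a c) hS (by rw [hcard]; omega) r i t hr hr2 hrp
      hi ht TOK hobs hreal (2 * (k + 1)) (fun _ => hcard.symm) (fun h => absurd hT h)
    have hgoal : Nat.card {C : ConjClasses ↥(Cfsg.isometryGroup F
          (Cfsg.quadFormMinus (k + 1 - 1) F a c)) //
        ∃ g : ↥(Cfsg.isometryGroup F (Cfsg.quadFormMinus (k + 1 - 1) F a c)),
          ConjClasses.mk g = C ∧ orderOf g = r}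
        = (if Odd i then Nat.choose (2 * (k + 1) / (2 * i) + t / 2) (t / 2)
          else Nat.choose (2 * (k + 1) / i + t) t) - 1 := hmaster
    rw [hgoal]
    rw [hTOK] at hT
    have hodd : ¬ Odd i := fun h => hT (Or.inl h)
    have hK : ¬ Even (2 * (k + 1) / i) := fun h => hT (Or.inr h)
    rw [if_neg hodd, if_neg hodd, if_neg (fun h => hK h.2), Nat.sub_zero]
  · have hmaster := master (p := p) (minusQ k F a c) hS (by rw [hcard]; omega) r i t hr hr2 hrp
      hi ht TOK hobs hreal (2 * (k + 1) - 1) (fun h => absurd h hT) (fun _ => by rw [hcard])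
    have hgoal : Nat.card {C : ConjClasses ↥(Cfsg.isometryGroup F
          (Cfsg.quadFormMinus (k + 1 - 1) F a c)) //
        ∃ g : ↥(Cfsg.isometryGroup F (Cfsg.quadFormMinus (k + 1 - 1) F a c)),
          ConjClasses.mk g = C ∧ orderOf g = r}
        = (if Odd i then Nat.choose ((2 * (k + 1) - 1) / (2 * i) + t / 2) (t / 2)
          else Nat.choose ((2 * (k + 1) - 1) / i + t) t) - 1 := hmaster
    rw [hgoal]
    rw [hTOK, not_not] at hT
    by_cases hodd : Odd i
    · rw [if_pos hodd, if_pos hodd]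
      have ht2 : 1 ≤ t / 2 := by
        have hrodd : Odd r := hr.odd_of_ne_two hr2
        have h1 : Even (t * i) := by
          rw [ht]
          obtain ⟨w, hw⟩ := hrodd
          exact ⟨w, by omega⟩
        rcases Nat.even_mul.mp h1 with h | h
        · obtain ⟨w, hw⟩ := h
          omega
        · exact absurd h (Nat.not_even_iff_odd.mpr hodd)
      have ha := arith (k + 1) i (t / 2) (by omega) hipos ht2
      have h5 : (2 * (k + 1) - 1) / (2 * i) = (k + 1 - 1) / i := by
        rw [← Nat.div_div_eq_div_mul]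
        congr 1
        omega
      rw [h5, ha]
    · rw [if_neg hodd, if_neg hodd]
      have hK : Even (2 * (k + 1) / i) := hT.resolve_left hodd
      have ha := arith (2 * (k + 1)) i t (by omega) hipos htpos
      rw [ha]
      congr 1
      by_cases hd : i ∣ 2 * (k + 1)
      · rw [if_pos hd, if_pos ⟨hd, hK⟩]
      · rw [if_neg hd, if_neg (fun h => hd h.1)]

end Cfsg.Agent.S2675
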