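import Cfsg.Statements.S2677
import Cfsg.Agent.Lib.Helper45.SUCard

set_option autoImplicit false
open Cfsg

namespace Cfsg.Agent.S2677

open Matrix
open Cfsg.Agent.Lib.Helper45.GUCard Cfsg.Agent.Lib.Helper45.SUCard

section General

variable {F : Type*} [Field F] {n : ℕ} {q : ℕ} (φ : F →+* F) (hφ : ∀ x, φ x = x ^ q)

include hφ in
theorem preserves_of_U (M : Matrix (Fin n) (Fin n) F) (h : Mᵀ * M.map φ = 1) (u v : Fin n → F) :
    Cfsg.hermForm n F q (M *ᵥ u) (M *ᵥ v) = Cfsg.hermForm n F q u v := by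
  rw [herm_eq φ hφ, herm_eq φ hφ]
  have h1 : φ ∘ (M *ᵥ v) = M.map φ *ᵥ (φ ∘ v) := by
    funext i
    exact RingHom.map_mulVec φ M v i
  rw [h1, ← Matrix.vecMul_transpose, ← Matrix.dotProduct_mulVec, Matrix.mulVec_mulVec, h,
    Matrix.one_mulVec]

theorem U_smul (M : Matrix (Fin n) (Fin n) F) (h : Mᵀ * M.map φ = 1) (d : F) (hd : d * φ d = 1) :
    (d • M)ᵀ * (d • M).map φ = 1 := by
  have h1 : (d • M).map φ = φ d • M.map φ := by
    ext i j
    simp
  rw [h1, Matrix.transpose_smul, Matrix.smul_mul, Matrix.mul_smul, smul_smul, h, hd, one_smul]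

theorem exists_entry_ne {R : Type*} [Field R] {n : ℕ} (hn : 1 ≤ n) (g : GL (Fin n) R) :
    ∃ i j, (g : Matrix (Fin n) (Fin n) R) i j ≠ 0 := by
  by_contra h
  push Not at h
  have h0 : (g : Matrix (Fin n) (Fin n) R) = 0 := by
    ext i j
    exact h i j
  have h1 : (g : Matrix (Fin n) (Fin n) R) * ((g⁻¹ : GL (Fin n) R) : Matrix (Fin n) (Fin n) R) = 1 :=
    g.mul_inv
  rw [h0, zero_mul] at h1
  have := congrFun (congrFun h1 ⟨0, hn⟩) ⟨0, hn⟩
  simp at this

end General

section Count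

variable {K : Type*} [Field K] [Fintype K] {n : ℕ} {q q₀ : ℕ}

theorem count (hn : 1 ≤ n) (hK : Fintype.card K = q ^ 2) (σ : K ≃+* K) (K₀ : Subfield K)
    [Fintype K₀] (hK₀ : Fintype.card K₀ = q₀ ^ 2) (hmem : ∀ x : K, x ∈ K₀ ↔ σ x = x)
    (hpow : ∀ x : K₀, (x : K) ^ q = (x : K) ^ q₀) :
    Nat.card {d : K // d * d ^ q = 1} * Nat.card ↥(Cfsg.GU n K₀ q₀) =
      Nat.card {g : ↥(Cfsg.GU n K q) // ∃ c : K, c ≠ 0 ∧
        ((g : GL (Fin n) K) : Matrix (Fin n) (Fin n) K).map σ =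
          c • ((g : GL (Fin n) K) : Matrix (Fin n) (Fin n) K)} *
        Nat.card {e : K₀ // e * e ^ q₀ = 1} := by
  classical
  obtain ⟨φ, hφ, hinv⟩ := exists_conj hK
  obtain ⟨φ₀, hφ₀, hinv₀⟩ := exists_conj hK₀
  have hrel : ∀ x : K₀, φ (x : K) = ((φ₀ x : K₀) : K) := by
    intro x
    rw [hφ, hφ₀, hpow]
    rfl
  -- entrywise inclusion
  have hU : ∀ h : Matrix (Fin n) (Fin n) K₀,
      (h.map K₀.subtype)ᵀ * (h.map K₀.subtype).map φ = (hᵀ * h.map φ₀).map K₀.subtype := by
    intro h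
    ext i j
    simp only [Matrix.mul_apply, Matrix.map_apply, Matrix.transpose_apply,
      Subfield.coe_subtype, hrel]
    push_cast
    rfl
  have hσfix : ∀ h : Matrix (Fin n) (Fin n) K₀, (h.map K₀.subtype).map σ = h.map K₀.subtype := by
    intro h
    ext i j
    simp only [Matrix.map_apply]
    exact (hmem _).1 (h i j).2
  have hGU₀ : ∀ h : ↥(Cfsg.GU n K₀ q₀),
      ((h : GL (Fin n) K₀) : Matrix (Fin n) (Fin n) K₀)ᵀ *
        ((h : GL (Fin n) K₀) : Matrix (Fin n) (Fin n) K₀).map φ₀ = 1 := fun h =>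
    transpose_mul_map φ₀ hφ₀ _ (fun u v => (mem_GU_iff h.1).1 h.2 u v)
  have hGU : ∀ g : ↥(Cfsg.GU n K q),
      ((g : GL (Fin n) K) : Matrix (Fin n) (Fin n) K)ᵀ *
        ((g : GL (Fin n) K) : Matrix (Fin n) (Fin n) K).map φ = 1 := fun g =>
    transpose_mul_map φ hφ _ (fun u v => (mem_GU_iff g.1).1 g.2 u v)
  have hUK : ∀ h : ↥(Cfsg.GU n K₀ q₀),
      (((h : GL (Fin n) K₀) : Matrix (Fin n) (Fin n) K₀).map K₀.subtype)ᵀ *
        (((h : GL (Fin n) K₀) : Matrix (Fin n) (Fin n) K₀).map K₀.subtype).map φ = 1 := by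
    intro h
    rw [hU, hGU₀]
    ext i j
    simp [Matrix.one_apply]
    split_ifs <;> simp
  let S := {g : ↥(Cfsg.GU n K q) // ∃ c : K, c ≠ 0 ∧
        ((g : GL (Fin n) K) : Matrix (Fin n) (Fin n) K).map σ =
          c • ((g : GL (Fin n) K) : Matrix (Fin n) (Fin n) K)}
  let f : {d : K // d * d ^ q = 1} × ↥(Cfsg.GU n K₀ q₀) → S := fun p =>
    ⟨mkGU φ hφ ((p.1 : K) • ((p.2 : GL (Fin n) K₀) : Matrix (Fin n) (Fin n) K₀).map K₀.subtype)
      (preserves_of_U φ hφ _ (U_smul φ _ (hUK p.2) _ (by rw [hφ]; exact p.1.2))), by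
      have hd0 : (p.1 : K) ≠ 0 := by
        intro h0
        have := p.1.2
        rw [h0] at this
        simp at this
      refine ⟨σ (p.1 : K) / (p.1 : K), div_ne_zero (by simpa using hd0) hd0, ?_⟩
      rw [mkGU_coe]
      have h1 : ((p.1 : K) • ((p.2 : GL (Fin n) K₀) : Matrix (Fin n) (Fin n) K₀).map
          K₀.subtype).map σ = σ (p.1 : K) • (((p.2 : GL (Fin n) K₀) :
            Matrix (Fin n) (Fin n) K₀).map K₀.subtype).map σ := by
        ext i j
        simp
      rw [h1, hσfix, smul_smul, div_mul_cancel₀ _ hd0]⟩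
  have hf_coe : ∀ p : {d : K // d * d ^ q = 1} × ↥(Cfsg.GU n K₀ q₀),
      ((((f p : S) : ↥(Cfsg.GU n K q)) : GL (Fin n) K) : Matrix (Fin n) (Fin n) K) =
        (p.1 : K) • ((p.2 : GL (Fin n) K₀) : Matrix (Fin n) (Fin n) K₀).map K₀.subtype :=
    fun p => rfl
  have hC : ∀ e : {e : K₀ // e * e ^ q₀ = 1}, ((e : K₀) : K) * ((e : K₀) : K) ^ q = 1 := by
    intro e
    rw [hpow]
    have := congrArg (fun x : K₀ => (x : K)) e.2
    simpa using this
  have hC0 : ∀ e : {e : K₀ // e * e ^ q₀ = 1}, ((e : K₀) : K) ≠ 0 := by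
    intro e h0
    have := hC e
    rw [h0] at this
    simp at this
  let act : {e : K₀ // e * e ^ q₀ = 1} → {d : K // d * d ^ q = 1} × ↥(Cfsg.GU n K₀ q₀) →
      {d : K // d * d ^ q = 1} × ↥(Cfsg.GU n K₀ q₀) := fun e p =>
    (⟨(p.1 : K) * (((e : K₀) : K))⁻¹, by
        have h1 := hC e
        have h2 := p.1.2
        have h3 := hC0 e
        rw [mul_pow, inv_pow]
        field_simp
        rw [h2]
        linear_combination -h1⟩,
      mkGU φ₀ hφ₀ ((e : K₀) • ((p.2 : GL (Fin n) K₀) : Matrix (Fin n) (Fin n) K₀))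
        (preserves_of_U φ₀ hφ₀ _ (U_smul φ₀ _ (hGU₀ p.2) _ (by rw [hφ₀]; exact e.2))))
  rw [← Nat.card_prod]
  apply Cfsg.Agent.S2669.card_eq_mul f act
  · -- surjectivity
    rintro ⟨g, c, hc, hg⟩
    obtain ⟨i, j, hij⟩ := exists_entry_ne hn g.1
    set G : Matrix (Fin n) (Fin n) K := ((g : GL (Fin n) K) : Matrix (Fin n) (Fin n) K) with hG
    set d₁ : K := G i j with hd₁
    have hσd : σ d₁ = c * d₁ := by
      have := congrFun (congrFun hg i) j
      simpa using this
    have hfix : ∀ k l, d₁⁻¹ * G k l ∈ K₀ := by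
      intro k l
      rw [hmem, map_mul, map_inv₀, hσd]
      have := congrFun (congrFun hg k) l
      simp only [Matrix.map_apply, Matrix.smul_apply, smul_eq_mul] at this
      rw [this]
      field_simp
    let h₁ : Matrix (Fin n) (Fin n) K₀ := fun k l => ⟨d₁⁻¹ * G k l, hfix k l⟩
    have hh₁ : h₁.map K₀.subtype = d₁⁻¹ • G := by
      ext k l
      rfl
    -- the factor
    have hφd : φ d₁ ≠ 0 := (map_ne_zero φ).2 hij
    have hlam : (h₁.map K₀.subtype)ᵀ * (h₁.map K₀.subtype).map φ =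
        (d₁ * φ d₁)⁻¹ • (1 : Matrix (Fin n) (Fin n) K) := by
      have h1 : (d₁⁻¹ • G).map φ = (φ d₁)⁻¹ • G.map φ := by
        ext k l
        simp
      rw [hh₁, h1, Matrix.transpose_smul, Matrix.smul_mul, Matrix.mul_smul, smul_smul, hGU g,
        mul_inv]
    -- λ as an element of K₀
    let lam₀ : K₀ := (h₁ᵀ * h₁.map φ₀) ⟨0, hn⟩ ⟨0, hn⟩
    have hlam₀ : (lam₀ : K) = (d₁ * φ d₁)⁻¹ := by
      have h1 := congrFun (congrFun (hU h₁) ⟨0, hn⟩) ⟨0, hn⟩
      rw [hlam] at h1
      simp only [Matrix.smul_apply, Matrix.one_apply_eq, smul_eq_mul, mul_one, Matrix.map_apply,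
        Subfield.coe_subtype] at h1
      exact h1.symm
    have hlam₀ne : lam₀ ≠ 0 := by
      intro h0
      have : (lam₀ : K) = 0 := by rw [h0]; rfl
      rw [hlam₀] at this
      exact (inv_ne_zero (mul_ne_zero hij hφd)) this
    have hlam₀q : lam₀⁻¹ ^ q₀ = lam₀⁻¹ := by
      apply Subtype.ext
      show ((lam₀⁻¹ ^ q₀ : K₀) : K) = ((lam₀⁻¹ : K₀) : K)
      rw [SubmonoidClass.coe_pow, ← hpow, Subfield.coe_inv, hlam₀, inv_inv, ← hφ, map_mul, hinv,
        mul_comm]
    have hcard := Cfsg.Agent.Lib.Helper5.HermCount.card_norm_eq hK₀ lam₀⁻¹ (inv_ne_zero hlam₀ne)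
      hlam₀q
    have hne : Nonempty {x : K₀ // x * x ^ q₀ = lam₀⁻¹} := by
      rw [← Finite.card_pos_iff, hcard]
      omega
    obtain ⟨⟨e, he⟩⟩ := hne
    have he0 : e ≠ 0 := by
      rintro rfl
      rw [zero_mul] at he
      exact (inv_ne_zero hlam₀ne) he.symm
    have heK : (e : K) * (e : K) ^ q = (d₁ * φ d₁) := by
      rw [hpow]
      have := congrArg (fun x : K₀ => (x : K)) he
      simp only [Subfield.coe_mul, SubmonoidClass.coe_pow, Subfield.coe_inv, hlam₀, inv_inv] at this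
      exact this
    have heK0 : (e : K) ≠ 0 := by
      intro h0
      apply he0
      exact Subtype.ext h0
    -- h = e • h₁ is unitary over K₀
    have hUh : (e • h₁)ᵀ * (e • h₁).map φ₀ = 1 := by
      have h1 : ((e • h₁)ᵀ * (e • h₁).map φ₀).map K₀.subtype = (1 : Matrix (Fin n) (Fin n) K) := by
        rw [← hU]
        have h2 : (e • h₁).map K₀.subtype = (e : K) • h₁.map K₀.subtype := by
          ext k l
          simp
        have h3 : ((e : K) • h₁.map K₀.subtype).map φ = φ (e : K) • (h₁.map K₀.subtype).map φ := by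
          ext k l
          simp
        rw [h2, h3, Matrix.transpose_smul, Matrix.smul_mul, Matrix.mul_smul, smul_smul, hlam,
          smul_smul, hφ (e : K), heK, mul_inv_cancel₀ (mul_ne_zero hij hφd), one_smul]
      ext k l
      have h4 := congrFun (congrFun h1 k) l
      rw [Matrix.map_apply] at h4
      refine h4.trans ?_
      simp only [Matrix.one_apply]
      split_ifs <;> rfl
    have hdnorm : (d₁ * (e : K)⁻¹) * (d₁ * (e : K)⁻¹) ^ q = 1 := by
      rw [mul_pow, inv_pow, ← hφ d₁]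
      field_simp
      rw [← heK]
    refine ⟨(⟨d₁ * (e : K)⁻¹, hdnorm⟩, mkGU φ₀ hφ₀ (e • h₁) (preserves_of_U φ₀ hφ₀ _ hUh)), ?_⟩
    apply Subtype.ext
    apply Subtype.ext
    apply Units.ext
    rw [hf_coe]
    show (d₁ * (e : K)⁻¹) • (e • h₁).map K₀.subtype = G
    have h2 : (e • h₁).map K₀.subtype = (e : K) • h₁.map K₀.subtype := by
      ext k l
      simp
    rw [h2, hh₁, smul_smul, smul_smul]
    have h5 : d₁ * (e : K)⁻¹ * (e : K) * d₁⁻¹ = 1 := by
      field_simp
    rw [h5, one_smul]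
  · -- invariance
    intro e p
    apply Subtype.ext
    apply Subtype.ext
    apply Units.ext
    rw [hf_coe, hf_coe]
    show ((p.1 : K) * (((e : K₀) : K))⁻¹) •
      ((e : K₀) • ((p.2 : GL (Fin n) K₀) : Matrix (Fin n) (Fin n) K₀)).map K₀.subtype = _
    have h2 : ((e : K₀) • ((p.2 : GL (Fin n) K₀) : Matrix (Fin n) (Fin n) K₀)).map K₀.subtype =
        ((e : K₀) : K) • ((p.2 : GL (Fin n) K₀) : Matrix (Fin n) (Fin n) K₀).map K₀.subtype := by
      ext k l
      simp
    rw [h2, smul_smul, mul_assoc, inv_mul_cancel₀ (hC0 e), mul_one]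
  · -- free and transitive on fibres
    rintro ⟨d, h⟩ ⟨d', h'⟩ hpp
    have hpp' := congrArg (fun s : S =>
      (((s : ↥(Cfsg.GU n K q)) : GL (Fin n) K) : Matrix (Fin n) (Fin n) K)) hpp
    simp only [hf_coe] at hpp'
    obtain ⟨i, j, hij⟩ := exists_entry_ne hn h.1
    have hent : ∀ k l, (d : K) * (((h : GL (Fin n) K₀) : Matrix (Fin n) (Fin n) K₀) k l : K) =
        (d' : K) * (((h' : GL (Fin n) K₀) : Matrix (Fin n) (Fin n) K₀) k l : K) := by
      intro k l
      have := congrFun (congrFun hpp' k) l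
      simpa using this
    have hd0 : (d : K) ≠ 0 := by
      intro h0
      have := d.2
      rw [h0] at this
      simp at this
    have hd'0 : (d' : K) ≠ 0 := by
      intro h0
      have := d'.2
      rw [h0] at this
      simp at this
    have hij' : ((((h : GL (Fin n) K₀) : Matrix (Fin n) (Fin n) K₀) i j : K₀) : K) ≠ 0 := by
      intro h0
      exact hij (Subtype.ext h0)
    have hij'' : ((h' : GL (Fin n) K₀) : Matrix (Fin n) (Fin n) K₀) i j ≠ 0 := by
      intro h0
      have h4 := hent i j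
      rw [h0] at h4
      have h5 : (d : K) * ((((h : GL (Fin n) K₀) : Matrix (Fin n) (Fin n) K₀) i j : K₀) : K) = 0 := by
        rw [h4]
        simp
      rcases mul_eq_zero.1 h5 with h3 | h3
      · exact hd0 h3
      · exact hij' h3
    let e₀ : K₀ := ((h' : GL (Fin n) K₀) : Matrix (Fin n) (Fin n) K₀) i j /
      ((h : GL (Fin n) K₀) : Matrix (Fin n) (Fin n) K₀) i j
    have he₀F : (e₀ : K) = (d : K) / (d' : K) := by
      show ((((h' : GL (Fin n) K₀) : Matrix (Fin n) (Fin n) K₀) i j /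
        ((h : GL (Fin n) K₀) : Matrix (Fin n) (Fin n) K₀) i j : K₀) : K) = _
      rw [Subfield.coe_div]
      have := hent i j
      field_simp
      linear_combination -this
    have he₀norm : e₀ * e₀ ^ q₀ = 1 := by
      apply Subtype.ext
      show ((e₀ * e₀ ^ q₀ : K₀) : K) = 1
      rw [Subfield.coe_mul, SubmonoidClass.coe_pow, ← hpow, he₀F, div_pow]
      have h1 := d.2
      have h2 := d'.2
      have h3 : (d' : K) ^ q ≠ 0 := pow_ne_zero _ hd'0
      field_simp
      rw [h1, h2]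
    refine ⟨⟨e₀, he₀norm⟩, ?_, ?_⟩
    · refine Prod.ext ?_ ?_
      · apply Subtype.ext
        show (d : K) * ((e₀ : K))⁻¹ = d'
        rw [he₀F]
        field_simp
      · apply Subtype.ext
        apply Units.ext
        show e₀ • ((h : GL (Fin n) K₀) : Matrix (Fin n) (Fin n) K₀) = _
        ext k l
        show ((e₀ * ((h : GL (Fin n) K₀) : Matrix (Fin n) (Fin n) K₀) k l : K₀) : K) = _
        rw [Subfield.coe_mul, he₀F]
        have := hent k l
        field_simp
        linear_combination this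
    · intro e' he'
      have h1 := congrArg (fun p : {d : K // d * d ^ q = 1} × ↥(Cfsg.GU n K₀ q₀) =>
        ((p.1 : {d : K // d * d ^ q = 1}) : K)) he'
      have h3 : (d : K) * (((e' : K₀) : K))⁻¹ = d' := h1
      apply Subtype.ext
      apply Subtype.ext
      show ((e' : K₀) : K) = (e₀ : K)
      rw [he₀F, ← h3]
      have he'0 : ((e' : K₀) : K) ≠ 0 := hC0 e'
      field_simp

end Count

/-- Centraliser of a field automorphism of odd prime order in PGU_n(q): let q = q₀^r with r an odd prime, K the field with q² elements and σ a field automorphism of K of order r (fixed field of order q₀²). The elements g of GU_n(q) whose entrywise image under σ is a scalar multiple of g — those whose coset modulo the q + 1 unitary scalars is fixed by σ — number (q + 1)/(q₀ + 1) · |GU_n(q₀)|; equivalently the centraliser in PGU_n(q) of the induced automorphism has the order of PGU_n(q₀). -/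
theorem result {K : Type*} [Field K] [Fintype K] {q₀ q r n : ℕ} (hr : r.Prime) (hr2 : r ≠ 2) (hn : 1 ≤ n) (hq : q = q₀ ^ r) (hK : Fintype.card K = q ^ 2) (σ : K ≃+* K) (hσ : orderOf σ = r) : (Nat.card {g : ↥(Cfsg.GU n K q) // ∃ c : K, c ≠ 0 ∧ ((g : GL (Fin n) K) : Matrix (Fin n) (Fin n) K).map σ = c • ((g : GL (Fin n) K) : Matrix (Fin n) (Fin n) K)} : ℤ) = ((q + 1) / (q₀ + 1) : ℕ) * ((q₀ : ℤ) ^ (n * (n - 1) / 2) * ∏ i : Fin n, ((q₀ : ℤ) ^ ((i : ℕ) + 1) - (-1) ^ ((i : ℕ) + 1))) := by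
  classical
  have hr_odd : Odd r := hr.odd_of_ne_two hr2
  let G : Subgroup (RingAut K) := Subgroup.zpowers σ
  haveI : Finite (RingAut K) :=
    Finite.of_injective (fun e : RingAut K => (e : K → K)) DFunLike.coe_injective
  haveI : Fintype G := Fintype.ofFinite G
  let K₀ : Subfield K := FixedPoints.subfield G K
  have hmem : ∀ x : K, x ∈ K₀ ↔ σ x = x := by
    intro x
    constructor
    · intro hx
      exact hx ⟨σ, Subgroup.mem_zpowers σ⟩
    · intro hx g
      have hle : G ≤ MulAction.stabilizer (RingAut K) x :=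
        (Subgroup.zpowers_le).2 (MulAction.mem_stabilizer_iff.2 hx)
      exact MulAction.mem_stabilizer_iff.1 (hle g.2)
  have hfin : Module.finrank K₀ K = r := by
    rw [FixedPoints.finrank_eq_card G K, Fintype.card_eq_nat_card, Nat.card_zpowers, hσ]
  haveI : Fintype K₀ := Fintype.ofFinite K₀
  have hcard0 : Fintype.card K₀ = q₀ ^ 2 := by
    have h := Module.card_eq_pow_finrank (K := K₀) (V := K)
    rw [hfin, hK, hq] at h
    have h' : (q₀ ^ 2) ^ r = Fintype.card K₀ ^ r := by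
      rw [← h]
      ring
    exact (Nat.pow_left_injective hr.ne_zero h').symm
  have hq₀ : 2 ≤ q₀ := Cfsg.Agent.Lib.Helper5.HermCount.two_le hcard0
  have hpow : ∀ x : K₀, (x : K) ^ q = (x : K) ^ q₀ := by
    intro x
    have hx : (x : K) ^ (q₀ ^ 2) = x := by
      have h1 := FiniteField.pow_card x
      rw [hcard0] at h1
      have h2 := congrArg (fun y : K₀ => (y : K)) h1
      simpa using h2
    obtain ⟨j, hj⟩ := hr_odd
    rw [hq, hj]
    have hall : ∀ j : ℕ, (x : K) ^ (q₀ ^ (2 * j + 1)) = (x : K) ^ q₀ := by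
      intro j
      induction j with
      | zero => simp
      | succ j ih =>
        have e : q₀ ^ (2 * (j + 1) + 1) = q₀ ^ 2 * q₀ ^ (2 * j + 1) := by ring
        rw [e, pow_mul, hx, ih]
    exact hall j
  have hcount := count hn hK σ K₀ hcard0 hmem hpow
  have e1 : Nat.card {d : K // d * d ^ q = 1} = q + 1 :=
    Cfsg.Agent.Lib.Helper5.HermCount.card_norm_eq hK 1 one_ne_zero (one_pow q)
  have e2 : Nat.card {e : K₀ // e * e ^ q₀ = 1} = q₀ + 1 :=
    Cfsg.Agent.Lib.Helper5.HermCount.card_norm_eq hcard0 1 one_ne_zero (one_pow q₀)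
  have e3 := card_GU hcard0 n
  rw [e1, e2, e3] at hcount
  obtain ⟨M, hM⟩ : q₀ + 1 ∣ q + 1 := by
    rw [hq]
    have h1 := Odd.nat_add_dvd_pow_add_pow q₀ 1 hr_odd
    simpa using h1
  rw [hM, Nat.mul_div_cancel_left _ (by omega : 0 < q₀ + 1)]
  rw [hM] at hcount
  have h2 : Nat.card {g : ↥(Cfsg.GU n K q) // ∃ c : K, c ≠ 0 ∧
      ((g : GL (Fin n) K) : Matrix (Fin n) (Fin n) K).map σ =
        c • ((g : GL (Fin n) K) : Matrix (Fin n) (Fin n) K)} =
      M * (q₀ ^ (n * (n - 1) / 2) *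
        ∏ i ∈ Finset.range n, (if Even i then q₀ ^ (i + 1) + 1 else q₀ ^ (i + 1) - 1)) := by
    apply Nat.eq_of_mul_eq_mul_right (by omega : 0 < q₀ + 1)
    rw [← hcount]
    ring
  rw [h2]
  push_cast
  congr 2
  rw [Fin.prod_univ_eq_prod_range (fun i : ℕ => ((q₀ : ℤ) ^ (i + 1) - (-1) ^ (i + 1))) n]
  apply Finset.prod_congr rfl
  intro i _
  have h1 : 1 ≤ q₀ ^ (i + 1) := Nat.one_le_pow _ _ (by omega)
  by_cases hi : Even i
  · rw [if_pos hi, (Even.add_one hi).neg_one_pow]
    ring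
  · rw [if_neg hi]
    have hi' : Even (i + 1) := by
      rw [Nat.even_add_one]
      exact hi
    rw [hi'.neg_one_pow]
    push_cast [h1]
    ring

end Cfsg.Agent.S2677
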