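import Cfsg.Statements.S2693
-- import your own Cfsg.Agent.* helpers here
import Cfsg.Agent.Lib.Helper43.SpRootEven
import Cfsg.Agent.Lib.Helper43.SpInn

set_option autoImplicit false
open Cfsg

namespace Cfsg.Agent.S2693

open Cfsg.Agent.Lib.Helper43.SpBasic Cfsg.Agent.Lib.Helper43.SpAuts
  Cfsg.Agent.Lib.Helper43.SpCore1 Cfsg.Agent.Lib.Helper43.SpInn

/-- The automorphism group of a simple projective symplectic group PSp_{2m}(F) over a finite field of characteristic p, with m ≥ 2 and (2m, p) ≠ (4, 2), is generated by the automorphisms induced by the semilinear maps v ↦ g σ(v) with g conformal symplectic and σ an automorphism of F (the image of the projective semilinear symplectic group). For (2m, p) = (4, 2) the statement fails: a duality of the underlying polar space gives a further automorphism. -/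
theorem result {F : Type*} [Field F] [Fintype F] {p : ℕ} [Fact p.Prime] [CharP F p] {m : ℕ} (hm : 2 ≤ m) (h4 : m = 2 → p ≠ 2) :
    Cfsg.gammaPSp m F = ⊤ := by
  obtain ⟨n, -, hn⟩ := FiniteField.card F p
  have hperm : Perm m F := by
    by_cases h2 : (2 : F) = 0
    · have hp2 : p = 2 := by
        have h3 : p ∣ 2 := (CharP.cast_eq_zero_iff F p 2).1 (by exact_mod_cast h2)
        exact (Nat.prime_dvd_prime_iff_eq Fact.out Nat.prime_two).1 h3
      have hm3 : 3 ≤ m := by
        by_contra hlt
        exact h4 (by omega) hp2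
      exact Cfsg.Agent.Lib.Helper43.SpRootEven.perm_even n.pos hn hm3 h2
    · exact Cfsg.Agent.Lib.Helper43.SpRootOdd.perm_odd n.pos hn (by omega) h2
  rw [eq_top_iff]
  intro α _
  obtain ⟨h, σ, rfl⟩ := Cfsg.Agent.Lib.Helper43.SpCore4.core hm p hperm α
  unfold Cfsg.gammaPSp Cfsg.autSubgroupOf
  apply Subgroup.subset_closure
  exact ⟨(h : GL (Fin m ⊕ Fin m) F), σ, h.2, (isInduced_iff h σ _).2 rfl⟩

end Cfsg.Agent.S2693
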