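import Cfsg.Statements.S2697
-- import your own Cfsg.Agent.* helpers here
import Cfsg.Agent.Lib.Helper43.PSLnCoset

set_option autoImplicit false
open Cfsg

namespace Cfsg.Agent.S2697

open Cfsg.Agent.Lib.Helper43.PSLnBasic Cfsg.Agent.Lib.Helper43.PSLnAuts
  Cfsg.Agent.Lib.Helper43.PSLnAll Cfsg.Agent.Lib.Helper43.PSLnField
  Cfsg.Agent.Lib.Helper43.H90GL Cfsg.Agent.Lib.Helper43.H90Fin
  Cfsg.Agent.Lib.Helper43.PSLnGFOrd Cfsg.Agent.Lib.Helper43.PSLnCoset

theorem coset_aux {F : Type*} [Field F] {n : ℕ}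
    (x₀ : MulAut (Matrix.ProjectiveSpecialLinearGroup (Fin n) F)) (g₀ g₁ : GL (Fin n) F) (r : ℕ)
    (hr : r.Prime)
    (hord : orderOf (cGL g₁ * (cGL g₀ * x₀ * (cGL g₀)⁻¹)) = r)
    (hconj : ∀ g : GL (Fin n) F, (cGL g * x₀) ^ r = 1 →
      ∃ h : GL (Fin n) F, cGL g * x₀ = cGL h * x₀ * (cGL h)⁻¹) :
    Cfsg.IsConjUnder (Cfsg.inndiagPSL n F) (cGL g₀ * x₀ * (cGL g₀)⁻¹)
      (cGL g₁ * (cGL g₀ * x₀ * (cGL g₀)⁻¹)) := by
  have h1 : cGL g₁ * (cGL g₀ * x₀ * (cGL g₀)⁻¹) =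
      cGL g₀ * (cGL (g₀⁻¹ * g₁ * g₀) * x₀) * (cGL g₀)⁻¹ := by
    rw [map_mul, map_mul, map_inv]
    group
  have h2 : (cGL (g₀⁻¹ * g₁ * g₀) * x₀) ^ r = 1 := by
    have h3 : orderOf (cGL (g₀⁻¹ * g₁ * g₀) * x₀) = r := by
      rw [← hord, h1]
      exact ((MulAut.conj (cGL g₀)).orderOf_eq _).symm
    rw [← h3]
    exact pow_orderOf_eq_one _
  obtain ⟨h, hh⟩ := hconj _ h2
  refine ⟨cGL g₀ * cGL h * (cGL g₀)⁻¹, ?_, ?_⟩
  · exact Subgroup.mul_mem _ (Subgroup.mul_mem _ (cGL_mem_inndiag g₀) (cGL_mem_inndiag h))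
      (Subgroup.inv_mem _ (cGL_mem_inndiag g₀))
  · rw [h1, hh]
    group

/-- Let T = PSL_n(F) be simple over a finite field (n ≥ 2; |F| ≥ 4 when n = 2) and let x be a field automorphism or a graph-field automorphism of T of prime order r. Then an element y of the coset Inndiag(T)·x (that is, y = δ x with δ in the inner-diagonal group, the image of PGL_n(F)) has order r if and only if y is conjugate to x by an element of Inndiag(T). -/
theorem result {F : Type*} [Field F] [Fintype F] {p f : ℕ} [Fact p.Prime] (hF : Fintype.card F = p ^ f) (hf : 1 ≤ f) {n : ℕ} (hn : 2 ≤ n) (hs : n = 2 → 4 ≤ Fintype.card F) (x δ : MulAut (Matrix.ProjectiveSpecialLinearGroup (Fin n) F)) (hx : Cfsg.IsFieldAutClassPSL x ∨ Cfsg.IsGraphFieldAutClassPSL x) {r : ℕ} (hr : r.Prime) (hxr : orderOf x = r) (hδ : δ ∈ Cfsg.inndiagPSL n F) :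
    orderOf (δ * x) = r ↔ Cfsg.IsConjUnder (Cfsg.inndiagPSL n F) x (δ * x) := by
  constructor
  · intro hord
    obtain ⟨g₁, rfl⟩ := (mem_inndiag_iff δ).1 hδ
    rcases hx with hx | hx
    · obtain ⟨g₀, σ, hσ, rfl⟩ := field_normal_form hf hF hn x hx
      have hσr : orderOf σ = r := by
        rw [← hxr, ← orderOf_cσ hn σ]
        exact ((MulAut.conj (cGL g₀)).orderOf_eq (cσ σ)).symm
      apply coset_aux _ _ _ r hr hord
      intro g hg
      rw [← hσr] at hg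
      exact field_conj hn σ g hg
    · obtain ⟨hn3, g₀, σ, hσ, rfl⟩ := graph_field_normal_form hf hF x hx
      have hord0 : orderOf (cσ σ * cτ :
          MulAut (Matrix.ProjectiveSpecialLinearGroup (Fin n) F)) = r := by
        rw [← hxr]
        exact ((MulAut.conj (cGL g₀)).orderOf_eq (cσ σ * cτ)).symm
      obtain ⟨hr2, h2⟩ := gf_order hn3 σ hσ r hr hord0
      apply coset_aux _ _ _ r hr hord
      intro g hg
      rw [hr2] at hg
      exact gf_conj hn σ h2 g hg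
  · rintro ⟨h, -, heq⟩
    rw [heq, ← hxr]
    exact (MulAut.conj h).orderOf_eq x

end Cfsg.Agent.S2697
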