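import Cfsg.Statements.S2698
-- import your own Cfsg.Agent.* helpers here
import Cfsg.Agent.Lib.Helper43.PSLnFieldCent
import Cfsg.Agent.Lib.Helper43.CycIndex

set_option autoImplicit false
open Cfsg

namespace Cfsg.Agent.S2698

open Cfsg.Agent.Lib.Helper43.PSLnBasic Cfsg.Agent.Lib.Helper43.PSLnAuts
  Cfsg.Agent.Lib.Helper43.PSLnAll Cfsg.Agent.Lib.Helper43.PSLnField
  Cfsg.Agent.Lib.Helper43.SplitCount Cfsg.Agent.Lib.Helper43.PSLnSplit
  Cfsg.Agent.Lib.Helper43.H90GL Cfsg.Agent.Lib.Helper43.H90Fin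
  Cfsg.Agent.Lib.Helper43.PSLnFieldCent Cfsg.Agent.Lib.Helper43.PSLnOut
  Cfsg.Agent.Lib.Helper43.CycIndex

/-- Let T = PSL_n(F) be simple over the field F with p^f elements (n ≥ 2; p^f ≥ 4 when n = 2), G = Inndiag(T) the image of PGL_n(F) in Aut(T), and x a field automorphism of T of prime order r. Then r divides f; the centralizer C_G(x) is isomorphic to PGL_n(F₀) for the subfield size |F₀| = p^(f/r); and the G-class of x is the union of exactly gcd(n, (p^f − 1)/(p^(f/r) − 1)) classes under conjugation by T (the inner automorphism group). -/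
theorem result {F : Type*} [Field F] [Fintype F] {p f : ℕ} [Fact p.Prime] (hF : Fintype.card F = p ^ f) (hf : 1 ≤ f) {n : ℕ} (hn : 2 ≤ n) (hs : n = 2 → 4 ≤ Fintype.card F) (x : MulAut (Matrix.ProjectiveSpecialLinearGroup (Fin n) F)) (hx : Cfsg.IsFieldAutClassPSL x) {r : ℕ} (hr : r.Prime) (hxr : orderOf x = r) (F₀ : Type*) [Field F₀] [Fintype F₀] (hF₀ : Fintype.card F₀ = p ^ (f / r)) :
    r ∣ f ∧ Nonempty (↥(Cfsg.inndiagPSL n F ⊓ Subgroup.centralizer {x}) ≃* Matrix.ProjGenLinGroup (Fin n) F₀) ∧ Cfsg.splitClassCount (Cfsg.inndiagPSL n F) (Cfsg.Inn (Matrix.ProjectiveSpecialLinearGroup (Fin n) F)) x = Nat.gcd n ((p ^ f - 1) / (p ^ (f / r) - 1)) := by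
  obtain ⟨g, σ, hσ, rfl⟩ := field_normal_form hf hF hn x hx
  have hp : p.Prime := Fact.out
  have hpos : 0 < orderOf σ := orderOf_pos_ringAut σ
  have hord : orderOf σ = r := by
    rw [← hxr, ← orderOf_cσ hn σ]
    exact ((MulAut.conj (cGL g)).orderOf_eq (cσ σ)).symm
  have hdvd : r ∣ f := by
    have h1 := (ringAut_cyclic_card hf hF).2
    rw [← hord, ← h1]
    exact orderOf_dvd_natCard σ
  have hcardF : Nat.card F = p ^ f := by rw [Nat.card_eq_fintype_card, hF]
  have hq₀ : Nat.card (fixF σ) = p ^ (f / r) := by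
    have h1 := card_fixF σ
    rw [hord, hcardF] at h1
    have h2 : Nat.card (fixF σ) ∣ p ^ f := by
      rw [← h1]
      exact dvd_pow_self _ hr.ne_zero
    obtain ⟨m, hm, hm2⟩ := (Nat.dvd_prime_pow hp).1 h2
    rw [hm2, ← pow_mul] at h1
    have h3 : m * r = f := Nat.pow_right_injective hp.two_le h1
    rw [hm2]
    congr 1
    exact (Nat.div_eq_of_eq_mul_left hr.pos h3.symm).symm
  refine ⟨hdvd, ?_, ?_⟩
  · haveI := Fintype.ofFinite (fixF σ)
    have hc : Fintype.card (fixF σ) = Fintype.card F₀ := by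
      rw [hF₀, ← hq₀, Nat.card_eq_fintype_card]
    obtain ⟨e⟩ : Nonempty (↥(fixF σ) ≃+* F₀) := ⟨FiniteField.ringEquivOfCardEq hc⟩
    obtain ⟨e1⟩ := centralizer_field hn σ hpos
    obtain ⟨e2⟩ := centralizer_conj_equiv (Cfsg.inndiagPSL n F) (cσ σ) (cGL g) (cGL_mem_inndiag g)
    obtain ⟨e3⟩ := pgl_congr e n
    exact ⟨(e2.symm.trans e1).trans e3⟩
  · rw [splitClassCount_conj _ _ _ _ (cGL_mem_inndiag g), splitCount_field hn σ hpos]
    apply index_sup_pow
    rw [card_ker_thU, Nat.card_units, hq₀, hcardF]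
    apply Nat.mul_div_cancel'
    have h1 := card_fixF_sub_one_dvd σ
    rw [hq₀, hcardF] at h1
    exact h1

end Cfsg.Agent.S2698
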