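import Cfsg.Statements.S2699
import Cfsg.Agent.Lib.Helper45.GraphOdd

set_option autoImplicit false
open Cfsg

namespace Cfsg.Agent.S2699

open Matrix Cfsg.Agent.Lib.Helper43.PSLnBasic Cfsg.Agent.Lib.Helper43.PSLnAuts
  Cfsg.Agent.Lib.Helper45.GraphInv Cfsg.Agent.Lib.Helper45.SymChar2
  Cfsg.Agent.Lib.Helper45.GraphOdd

/-- shape of an involutory graph automorphism for odd `n`: symmetric (and non-alternating in
characteristic two) -/
theorem shape {F : Type*} [Field F] [Fintype F] {n m : ℕ} (hn : 3 ≤ n) (hnm : n = 2 * m + 1)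
    (γ : MulAut (Matrix.ProjectiveSpecialLinearGroup (Fin n) F))
    (hγ : Cfsg.IsGraphAutClassPSL γ) (hγ2 : orderOf γ = 2) :
    ∃ g : GL (Fin n) F, γ = cτ * cGL g ∧ (g : Matrix (Fin n) (Fin n) F)ᵀ = g ∧
      ((2 : F) = 0 → ∃ x : Fin n → F, x ⬝ᵥ (g : Matrix (Fin n) (Fin n) F) *ᵥ x ≠ 0) := by
  obtain ⟨-, g, rfl⟩ := (graph_iff γ).1 hγ
  have h := (order_two_iff hn g).1 hγ2
  by_cases h2 : (2 : F) = 0
  · have : CharP F 2 := CharTwo.of_one_ne_zero_of_two_eq_zero one_ne_zero h2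
    have hsym : (g : Matrix (Fin n) (Fin n) F)ᵀ = g := by
      rcases h with h | h
      · exact h
      · rw [h]
        ext i j
        rw [Matrix.neg_apply, CharTwo.neg_eq]
    refine ⟨g, rfl, hsym, fun _ => ?_⟩
    by_contra hcon
    have halt : ∀ x : Fin n → F, x ⬝ᵥ (g : Matrix (Fin n) (Fin n) F) *ᵥ x = 0 := by
      intro x
      by_contra hx
      exact hcon ⟨x, hx⟩
    obtain ⟨r, hr⟩ := even_of_alt _ halt (isUnit_det_coe g)
    omega
  · rcases h with h | h
    · exact ⟨g, rfl, h, fun h0 => absurd h0 h2⟩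
    · exact (not_skew_odd h2 hnm _ (isUnit_det_coe g) h).elim

/-- Let T = PSL_n(F) over the field with p^f elements with n ≥ 3 odd, n = 2m + 1, and G = Inndiag(T) the image of PGL_n(F). Every involutory graph automorphism γ of T (an inner-diagonal automorphism followed by inverse-transpose, of order 2) has centralizer C_G(γ) isomorphic to the projective conformal orthogonal group of the form x₀² + Σ xᵢ yᵢ in dimension n (for q even this group is isomorphic to Sp_{n−1}(q)), and any two involutory graph automorphisms are G-conjugate. -/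
theorem result {F : Type*} [Field F] [Fintype F] {p f : ℕ} [Fact p.Prime] (hF : Fintype.card F = p ^ f) (hf : 1 ≤ f) {n : ℕ} (hn : 3 ≤ n) {m : ℕ} (hnm : n = 2 * m + 1) (γ γ' : MulAut (Matrix.ProjectiveSpecialLinearGroup (Fin n) F)) (hγ : Cfsg.IsGraphAutClassPSL γ) (hγ2 : orderOf γ = 2) (hγ' : Cfsg.IsGraphAutClassPSL γ') (hγ'2 : orderOf γ' = 2) :
    Nonempty (↥(Cfsg.inndiagPSL n F ⊓ Subgroup.centralizer {γ}) ≃* Cfsg.PGO F (Cfsg.quadFormOdd m F)) ∧ Cfsg.IsConjUnder (Cfsg.inndiagPSL n F) γ γ' := by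
  classical
  have hn2 : 2 ≤ n := by omega
  obtain ⟨g, rfl, hsym, hna⟩ := shape hn hnm γ hγ hγ2
  obtain ⟨g', rfl, hsym', hna'⟩ := shape hn hnm γ' hγ' hγ'2
  by_cases h2 : (2 : F) = 0
  · have : CharP F 2 := CharTwo.of_one_ne_zero_of_two_eq_zero one_ne_zero h2
    exact ⟨cent_char2 hn2 hnm g hsym (hna h2), conj_char2 hn2 g g' hsym hsym' (hna h2) (hna' h2)⟩
  · exact ⟨cent_odd h2 hn2 hnm g hsym, conj_odd h2 hn2 hnm g g' hsym hsym'⟩

end Cfsg.Agent.S2699
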