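import Cfsg.Statements.S2700
import Cfsg.Agent.Lib.Helper45.GraphReps

set_option autoImplicit false
open Cfsg

namespace Cfsg.Agent.S2700

open Matrix Cfsg.Agent.Lib.Helper43.PSLnBasic Cfsg.Agent.Lib.Helper43.PSLnAuts
  Cfsg.Agent.Lib.Helper45.GraphInv Cfsg.Agent.Lib.Helper45.SymCong
  Cfsg.Agent.Lib.Helper45.GraphReps

theorem isUnit_det_coe {F : Type*} [Field F] {n : ℕ} (g : GL (Fin n) F) :
    IsUnit (g : Matrix (Fin n) (Fin n) F).det :=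
  (Matrix.isUnit_iff_isUnit_det _).1 g.isUnit

theorem coe_ne_zero {F : Type*} [Field F] {n : ℕ} (hn : 2 ≤ n) (g : GL (Fin n) F) :
    (g : Matrix (Fin n) (Fin n) F) ≠ 0 := by
  intro h0
  have h1 : (g : Matrix (Fin n) (Fin n) F) * ((g⁻¹ : GL (Fin n) F) : Matrix (Fin n) (Fin n) F) = 1 := by
    rw [← Units.val_mul, mul_inv_cancel, Units.val_one]
  rw [h0, Matrix.zero_mul] at h1
  have h2 := congrFun (congrFun h1 ⟨0, by omega⟩) ⟨0, by omega⟩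
  simp at h2

theorem conj_of_cong {F : Type*} [Field F] {n : ℕ} (hn : 2 ≤ n) (g g' : GL (Fin n) F)
    (k : Matrix (Fin n) (Fin n) F) (hk : IsUnit k.det)
    (e : (g' : Matrix (Fin n) (Fin n) F) = kᵀ * (g : Matrix (Fin n) (Fin n) F) * k) :
    Cfsg.IsConjUnder (Cfsg.inndiagPSL n F) (cτ * cGL g) (cτ * cGL g') := by
  rw [conj_iff hn]
  refine ⟨Matrix.GeneralLinearGroup.mkOfDetNeZero k hk.ne_zero, 1, ?_⟩
  rw [Units.val_one, one_smul]
  exact e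

theorem not_conj_skew_sym {F : Type*} [Field F] {n : ℕ} (hn : 2 ≤ n) (h2 : (2 : F) ≠ 0)
    (g g' : GL (Fin n) F)
    (hs : (g : Matrix (Fin n) (Fin n) F)ᵀ = -(g : Matrix (Fin n) (Fin n) F))
    (hs' : (g' : Matrix (Fin n) (Fin n) F)ᵀ = g') :
    ¬ Cfsg.IsConjUnder (Cfsg.inndiagPSL n F) (cτ * cGL g) (cτ * cGL g') := by
  rw [conj_iff hn]
  rintro ⟨k, t, e⟩
  have e' := congrArg Matrix.transpose e
  rw [hs', Matrix.transpose_smul, Matrix.transpose_mul, Matrix.transpose_mul,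
    Matrix.transpose_transpose, hs, Matrix.neg_mul, Matrix.mul_neg, ← Matrix.mul_assoc, smul_neg,
    ← e] at e'
  have h3 : (2 : F) • (g' : Matrix (Fin n) (Fin n) F) = 0 := by
    rw [two_smul]
    nth_rewrite 1 [e']
    exact neg_add_cancel _
  rcases smul_eq_zero.1 h3 with h | h
  · exact h2 h
  · exact coe_ne_zero hn g' h

theorem not_conj_sym {F : Type*} [Field F] {n m : ℕ} (hn : 2 ≤ n) (hnm : n = 2 * m)
    (g g' : GL (Fin n) F)
    (hnsq : ¬ IsSquare ((g : Matrix (Fin n) (Fin n) F).det * (g' : Matrix (Fin n) (Fin n) F).det)) :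
    ¬ Cfsg.IsConjUnder (Cfsg.inndiagPSL n F) (cτ * cGL g) (cτ * cGL g') := by
  rw [conj_iff hn]
  rintro ⟨k, t, e⟩
  apply hnsq
  refine ⟨(t : F) ^ m * (k : Matrix (Fin n) (Fin n) F).det * (g : Matrix (Fin n) (Fin n) F).det, ?_⟩
  have hp : (t : F) ^ n = (t : F) ^ m * (t : F) ^ m := by rw [hnm, two_mul, pow_add]
  rw [e, Matrix.det_smul, Matrix.det_mul, Matrix.det_mul, Matrix.det_transpose, Fintype.card_fin, hp]
  ring

/-- Let T = PSL_n(F) over a finite field of odd order with n = 2m ≥ 4 even, and G = Inndiag(T) the image of PGL_n(F). The involutory graph automorphisms of T fall into exactly three G-classes, with representatives γ₁, γ₂, γ₃ whose centralizers in G are isomorphic respectively to the projective conformal symplectic group PGSp_n(F), the projective conformal orthogonal group of the plus-type form Σ xᵢ yᵢ, and that of a minus-type form Σ xᵢ yᵢ + z₁² + a z₁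 z₂ + b z₂² (anisotropic binary part) in dimension n. -/
theorem result {F : Type*} [Field F] [Fintype F] (hodd : Odd (Fintype.card F)) {n m : ℕ} (hm : 2 ≤ m) (hnm : n = 2 * m) :
    ∃ (γ₁ γ₂ γ₃ : MulAut (Matrix.ProjectiveSpecialLinearGroup (Fin n) F)) (a b : F), (∀ z₁ z₂ : F, z₁ ^ 2 + a * z₁ * z₂ + b * z₂ ^ 2 = 0 → z₁ = 0 ∧ z₂ = 0) ∧ Cfsg.IsGraphAutClassPSL γ₁ ∧ orderOf γ₁ = 2 ∧ Cfsg.IsGraphAutClassPSL γ₂ ∧ orderOf γ₂ = 2 ∧ Cfsg.IsGraphAutClassPSL γ₃ ∧ orderOf γ₃ = 2 ∧ ¬ Cfsg.IsConjUnder (Cfsg.inndiagPSL n F) γ₁ γ₂ ∧ ¬ Cfsg.IsConjUnder (Cfsg.inndiagPSL n F) γ₁ γ₃ ∧ ¬ Cfsg.IsConjUnder (Cfsg.inndiagPSL n F) γ₂ γ₃ ∧ (∀ γ : MulAut (Matrix.ProjectiveSpecialLinearGroup (Fin n) F), Cfsg.IsGraphAutClassPSL γ → orderOf γ = 2 → Cfsg.IsConjUnder (Cfsg.inndiagPSL n F) γ₁ γ ∨ Cfsg.IsConjUnder (Cfsg.inndiagPSL n F) γ₂ γ ∨ Cfsg.IsConjUnder (Cfsg.inndiagPSL n F) γ₃ γ) ∧ Nonempty (↥(Cfsg.inndiagPSL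 n F ⊓ Subgroup.centralizer {γ₁}) ≃* Cfsg.PGSp m F) ∧ Nonempty (↥(Cfsg.inndiagPSL n F ⊓ Subgroup.centralizer {γ₂}) ≃* Cfsg.PGO F (Cfsg.quadFormPlus m F)) ∧ Nonempty (↥(Cfsg.inndiagPSL n F ⊓ Subgroup.centralizer {γ₃}) ≃* Cfsg.PGO F (Cfsg.quadFormMinus (m - 1) F a b)) := by
  classical
  have h2 : (2 : F) ≠ 0 := Cfsg.Agent.Lib.Helper44.FinSq.two_ne_zero_of_odd_card hodd
  have hn3 : 3 ≤ n := by omega
  have hn2 : 2 ≤ n := by omega
  obtain ⟨g₁, g₂, g₃, a, b, haniso, hs₁, hs₂, hs₃, hnsq, c₁, c₂, c₃⟩ :=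
    exists_reps (F := F) hodd hm hnm
  refine ⟨cτ * cGL g₁, cτ * cGL g₂, cτ * cGL g₃, a, b, haniso, ?_, ?_, ?_, ?_, ?_, ?_, ?_, ?_, ?_, ?_,
    c₁, c₂, c₃⟩
  · exact (graph_iff _).2 ⟨hn3, g₁, rfl⟩
  · exact (order_two_iff hn3 g₁).2 (Or.inr hs₁)
  · exact (graph_iff _).2 ⟨hn3, g₂, rfl⟩
  · exact (order_two_iff hn3 g₂).2 (Or.inl hs₂)
  · exact (graph_iff _).2 ⟨hn3, g₃, rfl⟩
  · exact (order_two_iff hn3 g₃).2 (Or.inl hs₃)
  · exact not_conj_skew_sym hn2 h2 g₁ g₂ hs₁ hs₂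
  · exact not_conj_skew_sym hn2 h2 g₁ g₃ hs₁ hs₃
  · exact not_conj_sym hn2 hnm g₂ g₃ hnsq
  · intro γ hγ ho
    obtain ⟨-, g, rfl⟩ := (graph_iff γ).1 hγ
    rcases (order_two_iff hn3 g).1 ho with hs | hs
    · by_cases hsq : IsSquare ((g₂ : Matrix (Fin n) (Fin n) F).det * (g : Matrix (Fin n) (Fin n) F).det)
      · right; left
        obtain ⟨k, hk, e⟩ := cong_of_det h2 _ _ hs₂ hs (isUnit_det_coe g₂) (isUnit_det_coe g) hsq
        exact conj_of_cong hn2 g₂ g k hk e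
      · right; right
        have hsq' : IsSquare ((g₃ : Matrix (Fin n) (Fin n) F).det * (g : Matrix (Fin n) (Fin n) F).det) := by
          obtain ⟨r, hr⟩ := Cfsg.Agent.Lib.Helper44.FinSq.isSquare_mul_of_not_of_not hnsq hsq
          have hd0 : (g₂ : Matrix (Fin n) (Fin n) F).det ≠ 0 := (isUnit_det_coe g₂).ne_zero
          refine ⟨r / (g₂ : Matrix (Fin n) (Fin n) F).det, ?_⟩
          field_simp
          linear_combination hr
        obtain ⟨k, hk, e⟩ := cong_of_det h2 _ _ hs₃ hs (isUnit_det_coe g₃) (isUnit_det_coe g) hsq'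
        exact conj_of_cong hn2 g₃ g k hk e
    · left
      obtain ⟨k, hk, e⟩ := skew_cong h2 _ _ hs₁ hs (isUnit_det_coe g₁) (isUnit_det_coe g)
      exact conj_of_cong hn2 g₁ g k hk e

end Cfsg.Agent.S2700
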