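import Cfsg.Statements.S2701
import Cfsg.Agent.Lib.Helper45.GraphEven2

set_option autoImplicit false
open Cfsg

namespace Cfsg.Agent.S2701

open Matrix Cfsg.Agent.Lib.Helper43.PSLnBasic Cfsg.Agent.Lib.Helper43.PSLnAuts
  Cfsg.Agent.Lib.Helper45.GraphInv Cfsg.Agent.Lib.Helper45.SymChar2
  Cfsg.Agent.Lib.Helper45.GraphReps Cfsg.Agent.Lib.Helper45.GraphChar2
  Cfsg.Agent.Lib.Helper45.GraphOdd Cfsg.Agent.Lib.Helper45.GraphEven2
  Cfsg.Agent.Lib.Helper45.SymCong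

/-- Let T = PSL_n(F) over a finite field of characteristic 2 with n = 2m ≥ 4 even, and G = Inndiag(T) the image of PGL_n(F). The involutory graph automorphisms of T fall into exactly two G-classes, with representatives γ₁ and γ₃ whose centralizers in G are isomorphic respectively to the symplectic group Sp_n(F) and to the centralizer in Sp_n(F) of a symplectic transvection. -/
theorem result {F : Type*} [Field F] [Fintype F] [CharP F 2] {n m : ℕ} (hm : 2 ≤ m) (hnm : n = 2 * m) :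
    ∃ (γ₁ γ₃ : MulAut (Matrix.ProjectiveSpecialLinearGroup (Fin n) F)) (t : ↥(Matrix.symplecticGroup (Fin m) F)), Cfsg.IsTransvection (t : Matrix (Fin m ⊕ Fin m) (Fin m ⊕ Fin m) F) ∧ Cfsg.IsGraphAutClassPSL γ₁ ∧ orderOf γ₁ = 2 ∧ Cfsg.IsGraphAutClassPSL γ₃ ∧ orderOf γ₃ = 2 ∧ ¬ Cfsg.IsConjUnder (Cfsg.inndiagPSL n F) γ₁ γ₃ ∧ (∀ γ : MulAut (Matrix.ProjectiveSpecialLinearGroup (Fin n) F), Cfsg.IsGraphAutClassPSL γ → orderOf γ = 2 → Cfsg.IsConjUnder (Cfsg.inndiagPSL n F) γ₁ γ ∨ Cfsg.IsConjUnder (Cfsg.inndiagPSL n F) γ₃ γ) ∧ Nonempty (↥(Cfsg.inndiagPSL n F ⊓ Subgroup.centralizer {γ₁}) ≃* ↥(Matrix.symplecticGroup (Fin m) F)) ∧ Nonempty (↥(Cfsg.inndiagPSL n F ⊓ Subgroup.centralizer {γ₃}) ≃* ↥(Subgroup.centralizer ({t} : Set ↥(Matrix.symplecticGroup (Fin m) F)))) := by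
  classical
  have hn2 : 2 ≤ n := by omega
  have hn3 : 3 ≤ n := by omega
  have hm0 : 0 < m := by omega
  have hc : Fintype.card (Fin n) = Fintype.card (Fin m ⊕ Fin m) := by
    simp [hnm]; omega
  let e : Fin n ≃ Fin m ⊕ Fin m := Fintype.equivOfCardEq hc
  let b : Fin m ⊕ Fin m → F := Pi.single (Sum.inl ⟨0, hm0⟩) 1
  have hb : b ≠ 0 := by
    intro h
    have := congrFun h (Sum.inl ⟨0, hm0⟩)
    simp [b] at this
  have hdJ : ((Matrix.J (Fin m) F).submatrix e e).det ≠ 0 := by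
    rw [Matrix.det_submatrix_equiv_self]
    exact (Matrix.isUnit_det_J (Fin m) F).ne_zero
  have hdE : ((Em b).submatrix e e).det ≠ 0 := by
    rw [Matrix.det_submatrix_equiv_self]
    exact (det_Em b).ne_zero
  let g₁ : GL (Fin n) F := Matrix.GeneralLinearGroup.mkOfDetNeZero _ hdJ
  let g₃ : GL (Fin n) F := Matrix.GeneralLinearGroup.mkOfDetNeZero _ hdE
  have hg₁ : (g₁ : Matrix (Fin n) (Fin n) F) = (Matrix.J (Fin m) F).submatrix e e := rfl
  have hg₃ : (g₃ : Matrix (Fin n) (Fin n) F) = (Em b).submatrix e e := rfl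
  have hs₁ : (g₁ : Matrix (Fin n) (Fin n) F)ᵀ = g₁ := by
    rw [hg₁, Matrix.transpose_submatrix, J_tr]
  have hs₃ : (g₃ : Matrix (Fin n) (Fin n) F)ᵀ = g₃ := by
    rw [hg₃, Matrix.transpose_submatrix, Em_transpose]
  have halt₁ : ∀ x : Fin n → F, x ⬝ᵥ (g₁ : Matrix (Fin n) (Fin n) F) *ᵥ x = 0 := by
    intro x
    rw [hg₁, dot_submatrix]
    exact alt_J _
  have hna₃ : ∃ x : Fin n → F, x ⬝ᵥ (g₃ : Matrix (Fin n) (Fin n) F) *ᵥ x ≠ 0 := by
    obtain ⟨x₀, hx₀⟩ := Em_nonalt b hb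
    refine ⟨fun i => x₀ (e i), ?_⟩
    rw [hg₃, dot_submatrix]
    simpa using hx₀
  refine ⟨cτ * cGL g₁, cτ * cGL g₃, tv b, tv_isTransvection b hb, ?_, ?_, ?_, ?_, ?_, ?_,
    cent_J hn2 hm0 e g₁ hg₁, cent_E hn2 hm0 e b hb g₃ hg₃⟩
  · exact (graph_iff _).2 ⟨hn3, g₁, rfl⟩
  · exact (order_two_iff hn3 g₁).2 (Or.inl hs₁)
  · exact (graph_iff _).2 ⟨hn3, g₃, rfl⟩
  · exact (order_two_iff hn3 g₃).2 (Or.inl hs₃)
  · rw [conj_iff hn2]
    rintro ⟨k, t, ek⟩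
    obtain ⟨x, hx⟩ := hna₃
    apply hx
    rw [ek, Matrix.smul_mulVec, dotProduct_smul, ← bil_conj, halt₁, smul_zero]
  · intro γ hγ ho
    obtain ⟨-, g, rfl⟩ := (graph_iff γ).1 hγ
    have hsym : (g : Matrix (Fin n) (Fin n) F)ᵀ = g := by
      rcases (order_two_iff hn3 g).1 ho with h | h
      · exact h
      · rw [h]
        ext i j
        rw [Matrix.neg_apply, CharTwo.neg_eq]
    by_cases halt : ∀ x : Fin n → F, x ⬝ᵥ (g : Matrix (Fin n) (Fin n) F) *ᵥ x = 0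
    · left
      obtain ⟨k, hk, ek⟩ := alt_cong (g₁ : Matrix (Fin n) (Fin n) F) (g : Matrix (Fin n) (Fin n) F)
        halt₁ halt (isUnit_det_coe g₁) (isUnit_det_coe g)
      exact conj_of_cong hn2 g₁ g k hk 1 one_ne_zero (by rw [one_smul]; exact ek)
    · right
      have hna : ∃ x : Fin n → F, x ⬝ᵥ (g : Matrix (Fin n) (Fin n) F) *ᵥ x ≠ 0 := by
        by_contra hcon
        apply halt
        intro x
        by_contra hx
        exact hcon ⟨x, hx⟩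
      exact conj_char2 hn2 g₃ g hs₃ hsym hna₃ hna

end Cfsg.Agent.S2701
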