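import Cfsg.Statements.S2702
import Cfsg.Agent.Lib.Helper45.GraphSplit
import Cfsg.Agent.Lib.Helper45.ProjCard

set_option autoImplicit false
open Cfsg

namespace Cfsg.Agent.S2702

open Matrix Cfsg.Agent.Lib.Helper43.PSLnBasic Cfsg.Agent.Lib.Helper43.PSLnAuts
  Cfsg.Agent.Lib.Helper45.GraphInv Cfsg.Agent.Lib.Helper45.SymCong
  Cfsg.Agent.Lib.Helper45.GraphReps Cfsg.Agent.Lib.Helper45.GraphOdd
  Cfsg.Agent.Lib.Helper45.GraphSplit Cfsg.Agent.Lib.Helper45.ProjCard

theorem charP_of_card {F : Type*} [Field F] [Fintype F] {p f : ℕ} [hp : Fact p.Prime]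
    (hF : Fintype.card F = p ^ f) : CharP F p := by
  have hc : CharP F (ringChar F) := ringChar.charP F
  obtain ⟨k, hprime, hk⟩ := FiniteField.card F (ringChar F)
  have hdvd : ringChar F ∣ p ^ f := by
    rw [← hF, hk]
    exact dvd_pow_self _ k.ne_zero
  have heq : ringChar F = p := (Nat.prime_dvd_prime_iff_eq hprime hp.out).1 (hprime.dvd_of_dvd_pow hdvd)
  rwa [heq] at hc

theorem cent_iso_of_conj {F : Type*} [Field F] {n : ℕ} {X : Type*} [Group X]
    (x y : MulAut (Matrix.ProjectiveSpecialLinearGroup (Fin n) F))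
    (h : Cfsg.IsConjUnder (Cfsg.inndiagPSL n F) x y)
    (hx : Nonempty (↥(Cfsg.inndiagPSL n F ⊓ Subgroup.centralizer {x}) ≃* X)) :
    Nonempty (↥(Cfsg.inndiagPSL n F ⊓ Subgroup.centralizer {y}) ≃* X) := by
  obtain ⟨d, hd, rfl⟩ := h
  obtain ⟨e⟩ := Cfsg.Agent.Lib.Helper43.SplitCount.centralizer_conj_equiv (Cfsg.inndiagPSL n F) x d hd
  obtain ⟨e'⟩ := hx
  exact ⟨e.symm.trans e'⟩

/-- Let T = PSL_n(F) over the field with q = p^f elements, n ≥ 3, G = Inndiag(T) the image of PGL_n(F), and γ an involutory graph automorphism of T. The G-class of γ is the union of exactly c T-classes, where: if n is even and q is odd, c = gcd(n/2, q − 1) when C_G(γ) is isomorphic to the projective conformal symplectic group PGSp_n(F) (symplectic type) and c = gcd(n, q − 1)/2 otherwise; and c = gcd(n, q − 1) when n is odd or q is even. -/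
theorem result {F : Type*} [Field F] [Fintype F] {p f : ℕ} [Fact p.Prime] (hF : Fintype.card F = p ^ f) (hf : 1 ≤ f) {n : ℕ} (hn : 3 ≤ n) (γ : MulAut (Matrix.ProjectiveSpecialLinearGroup (Fin n) F)) (hγ : Cfsg.IsGraphAutClassPSL γ) (hγ2 : orderOf γ = 2) :
    ((Even n ∧ Odd p ∧ Nonempty (↥(Cfsg.inndiagPSL n F ⊓ Subgroup.centralizer {γ}) ≃* Cfsg.PGSp (n / 2) F)) → Cfsg.splitClassCount (Cfsg.inndiagPSL n F) (Cfsg.Inn (Matrix.ProjectiveSpecialLinearGroup (Fin n) F)) γ = Nat.gcd (n / 2) (p ^ f - 1)) ∧ ((Even n ∧ Odd p ∧ ¬ Nonempty (↥(Cfsg.inndiagPSL n F ⊓ Subgroup.centralizer {γ}) ≃* Cfsg.PGSp (n / 2) F)) → Cfsg.splitClassCount (Cfsg.inndiagPSL n F) (Cfsg.Inn (Matrix.ProjectiveSpecialLinearGroup (Fin n) F)) γ = Nat.gcd n (p ^ f - 1) / 2) ∧ (¬ (Even n ∧ Odd p) → Cfsg.splitClassCount (Cfsg.inndiagPSL n F) (Cfsg.Inn (Matrix.ProjectiveSpecialLinearGroup (Fin n) F)) γ = Nat.gcd n (p ^ f - 1)) := by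
  classical
  obtain ⟨-, g, rfl⟩ := (graph_iff γ).1 hγ
  have hn2 : 2 ≤ n := by omega
  have hsym := (order_two_iff hn g).1 hγ2
  have hcardU : Nat.card Fˣ = p ^ f - 1 := by
    rw [Nat.card_units, Nat.card_eq_fintype_card, hF]
  by_cases hcase : Even n ∧ Odd p
  · obtain ⟨hev, hpodd⟩ := hcase
    obtain ⟨m, hm⟩ := hev
    have hnm : n = 2 * m := by omega
    have hm2 : 2 ≤ m := by omega
    have hodd : Odd (Fintype.card F) := by rw [hF]; exact hpodd.pow
    have h2 : (2 : F) ≠ 0 := Cfsg.Agent.Lib.Helper44.FinSq.two_ne_zero_of_odd_card hodd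
    have hdiv : n / 2 = m := by omega
    obtain ⟨g₁, g₂, g₃, a, b, haniso, hs₁, hs₂, hs₃, hnsq, c₁, c₂, c₃⟩ :=
      exists_reps (F := F) hodd hm2 hnm
    rcases hsym with hs | hs
    · -- orthogonal type
      have hnoiso : ¬ Nonempty (↥(Cfsg.inndiagPSL n F ⊓ Subgroup.centralizer {cτ * cGL g}) ≃*
          Cfsg.PGSp (n / 2) F) := by
        rw [hdiv]
        rintro ⟨e⟩
        by_cases hsq : IsSquare ((g₂ : Matrix (Fin n) (Fin n) F).det * (g : Matrix (Fin n) (Fin n) F).det)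
        · obtain ⟨k, hk, ek⟩ := cong_of_det h2 _ _ hs₂ hs (isUnit_det_coe g₂) (isUnit_det_coe g) hsq
          have hconj := conj_of_cong hn2 g₂ g k hk 1 one_ne_zero (by rw [one_smul]; exact ek)
          obtain ⟨e₂⟩ := cent_iso_of_conj _ _ hconj c₂
          exact pgo_plus_not_pgsp h2 (by omega) ⟨e₂.symm.trans e⟩
        · have hsq' : IsSquare ((g₃ : Matrix (Fin n) (Fin n) F).det * (g : Matrix (Fin n) (Fin n) F).det) := by
            obtain ⟨r, hr⟩ := Cfsg.Agent.Lib.Helper44.FinSq.isSquare_mul_of_not_of_not hnsq hsq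
            have hd0 : (g₂ : Matrix (Fin n) (Fin n) F).det ≠ 0 := (isUnit_det_coe g₂).ne_zero
            refine ⟨r / (g₂ : Matrix (Fin n) (Fin n) F).det, ?_⟩
            field_simp
            linear_combination hr
          obtain ⟨k, hk, ek⟩ := cong_of_det h2 _ _ hs₃ hs (isUnit_det_coe g₃) (isUnit_det_coe g) hsq'
          have hconj := conj_of_cong hn2 g₃ g k hk 1 one_ne_zero (by rw [one_smul]; exact ek)
          obtain ⟨e₃⟩ := cent_iso_of_conj _ _ hconj c₃
          exact pgo_minus_not_pgsp h2 (by omega) a b haniso ⟨e₃.symm.trans e⟩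
      refine ⟨fun h => absurd h.2.2 hnoiso, fun _ => ?_, fun h => absurd ⟨⟨m, hm⟩, hpodd⟩ h⟩
      obtain ⟨M, hM⟩ : ∃ M, 2 * M = Nat.card Fˣ := by
        obtain ⟨r, hr⟩ := hodd
        exact ⟨r, by rw [hcardU, ← hF, hr]; omega⟩
      rw [count_sym h2 hn2 hnm hM g hs, ← hcardU, ← hM, hnm, Nat.gcd_mul_left,
        Nat.mul_div_cancel_left _ (by norm_num)]
    · -- symplectic type
      have hiso : Nonempty (↥(Cfsg.inndiagPSL n F ⊓ Subgroup.centralizer {cτ * cGL g}) ≃*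
          Cfsg.PGSp (n / 2) F) := by
        rw [hdiv]
        obtain ⟨k, hk, ek⟩ := skew_cong h2 _ _ hs₁ hs (isUnit_det_coe g₁) (isUnit_det_coe g)
        have hconj := conj_of_cong hn2 g₁ g k hk 1 one_ne_zero (by rw [one_smul]; exact ek)
        exact cent_iso_of_conj _ _ hconj c₁
      refine ⟨fun _ => ?_, fun h => absurd hiso h.2.2, fun h => absurd ⟨⟨m, hm⟩, hpodd⟩ h⟩
      rw [count_skew h2 hn2 hnm g hs, hcardU, hdiv, Nat.gcd_comm]
  · refine ⟨fun h => absurd ⟨h.1, h.2.1⟩ hcase, fun h => absurd ⟨h.1, h.2.1⟩ hcase, fun _ => ?_⟩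
    have hroot : ∀ d t : Fˣ, d ^ 2 = t ^ n → ∃ s : Fˣ, d = s ^ n := by
      by_cases hev : Even n
      · have hp2 : p = 2 := by
          rcases (Fact.out : p.Prime).eq_two_or_odd' with h | h
          · exact h
          · exact absurd ⟨hev, h⟩ hcase
        subst hp2
        have : CharP F 2 := charP_of_card hF
        exact fun d t h => root_char2 d t h
      · exact fun d t h => root_odd (Nat.not_even_iff_odd.1 hev) d t h
    rw [count_general hn2 g hroot, hcardU, Nat.gcd_comm]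

end Cfsg.Agent.S2702
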