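import Cfsg.Statements.S2703
import Cfsg.Agent.Lib.Helper45.GraphCent
import Cfsg.Agent.Lib.Helper45.DotForms
import Cfsg.Agent.Lib.Helper44.FinSq

set_option autoImplicit false
open Cfsg

namespace Cfsg.Agent.S2703

open Matrix Cfsg.Agent.Lib.Helper43.PSLnAuts Cfsg.Agent.Lib.Helper43.PSLnField
  Cfsg.Agent.Lib.Helper45.GraphCent Cfsg.Agent.Lib.Helper45.DotForms in
theorem cent_dot {F : Type*} [Field F] (h2 : (2 : F) ≠ 0) {n : ℕ} (hn : 2 ≤ n)
    (ι : MulAut (Matrix.ProjectiveSpecialLinearGroup (Fin n) F)) (hι : Cfsg.IsInverseTransposeAutPSL ι) :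
    Nonempty (↥(Cfsg.inndiagPSL n F ⊓ Subgroup.centralizer {ι}) ≃* Cfsg.PGO F (dotQ (F := F) (Fin n))) := by
  have e1 : ι = cτ * cGL 1 := by rw [(isInvTransp_iff ι).1 hι, map_one, mul_one]
  subst e1
  have e2 : (fun v : Fin n → F => v ⬝ᵥ (((1 : GL (Fin n) F) : Matrix (Fin n) (Fin n) F) *ᵥ v))
      = dotQ (F := F) (Fin n) := by
    funext v
    rw [Units.val_one, Matrix.one_mulVec]
    unfold dotQ dotProduct
    exact Finset.sum_congr rfl (fun i _ => (sq (v i)).symm)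
  have key : ∀ Q₁ Q₂ : (Fin n → F) → F, Q₁ = Q₂ →
      Nonempty (↥(Cfsg.inndiagPSL n F ⊓ Subgroup.centralizer {cτ * cGL (1 : GL (Fin n) F)}) ≃* Cfsg.PGO F Q₁) →
      Nonempty (↥(Cfsg.inndiagPSL n F ⊓ Subgroup.centralizer {cτ * cGL (1 : GL (Fin n) F)}) ≃* Cfsg.PGO F Q₂) := by
    rintro _ _ rfl h
    exact h
  exact key _ _ e2 (cent_equiv hn h2 (1 : GL (Fin n) F) (by rw [Units.val_one, Matrix.transpose_one]))

theorem exists_ab {F : Type*} [Field F] [Fintype F] : ∃ a b : F, a ^ 2 + b ^ 2 = -1 := by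
  obtain ⟨p, hp⟩ := CharP.exists F
  have := hp
  have : NeZero p := ⟨(CharP.char_is_prime F p).ne_zero⟩
  obtain ⟨a, b, hab⟩ := CharP.sq_add_sq F p (-1)
  exact ⟨a, b, by simpa using hab⟩

open Cfsg.Agent.Lib.Helper45.DotForms in
/-- Let T = PSL_n(F) over the field with q elements, q odd, n = 2m ≥ 4 even, and ι the inverse-transpose automorphism. Its centralizer in G = Inndiag(T) (the image of PGL_n(F)) is isomorphic to the projective conformal orthogonal group of the plus-type form Σ xᵢ yᵢ in dimension n when n(q − 1)/4 is even, and to that of a minus-type form (Σ xᵢ yᵢ + z₁² + a z₁ z₂ + b z₂² with anisotropic binary part) when n(q − 1)/4 is odd. -/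
theorem result {F : Type*} [Field F] [Fintype F] (hodd : Odd (Fintype.card F)) {n m : ℕ} (hm : 2 ≤ m) (hnm : n = 2 * m) (ι : MulAut (Matrix.ProjectiveSpecialLinearGroup (Fin n) F)) (hι : Cfsg.IsInverseTransposeAutPSL ι) :
    (Even (n * (Fintype.card F - 1) / 4) → Nonempty (↥(Cfsg.inndiagPSL n F ⊓ Subgroup.centralizer {ι}) ≃* Cfsg.PGO F (Cfsg.quadFormPlus m F))) ∧ (¬ Even (n * (Fintype.card F - 1) / 4) → ∃ a b : F, (∀ z₁ z₂ : F, z₁ ^ 2 + a * z₁ * z₂ + b * z₂ ^ 2 = 0 → z₁ = 0 ∧ z₂ = 0) ∧ Nonempty (↥(Cfsg.inndiagPSL n F ⊓ Subgroup.centralizer {ι}) ≃* Cfsg.PGO F (Cfsg.quadFormMinus (m - 1) F a b))) := by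
  have h2 : (2 : F) ≠ 0 := Cfsg.Agent.Lib.Helper44.FinSq.two_ne_zero_of_odd_card hodd
  subst hnm
  obtain ⟨A⟩ := cent_dot h2 (by omega) ι hι
  obtain ⟨j, hj⟩ := hodd
  have hdiv : 2 * m * (Fintype.card F - 1) / 4 = m * j := by
    rw [hj, Nat.add_sub_cancel]
    have : 2 * m * (2 * j) = 4 * (m * j) := by ring
    rw [this, Nat.mul_div_cancel_left _ (by norm_num : 0 < 4)]
  have hsqiff := FiniteField.isSquare_neg_one_iff (F := F)
  obtain ⟨a, b, hab⟩ := exists_ab (F := F)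
  constructor
  · intro hE
    rw [hdiv, Nat.even_mul] at hE
    by_cases hsq : IsSquare (-1 : F)
    · obtain ⟨ε, hε⟩ := hsq
      obtain ⟨R, hR⟩ := exists_R_of_sq ε (by rw [sq, ← hε]) (Fin m)
      obtain ⟨B⟩ := dot_pgo_plus h2 (n := 2 * m) (m := m) rfl (Fin m) (Fintype.card_fin m) R hR
      exact ⟨A.trans B⟩
    · have h43 : Fintype.card F % 4 = 3 := by
        by_contra h
        exact hsq (hsqiff.2 h)
      have hm_even : Even m := by
        rcases hE with h | h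
        · exact h
        · exfalso
          obtain ⟨i, hi⟩ := h
          omega
      obtain ⟨k, hk⟩ := hm_even
      obtain ⟨R, hR⟩ := exists_R_of_pair a b hab k
      obtain ⟨B⟩ := dot_pgo_plus h2 (n := 2 * m) (m := m) rfl (Fin k ⊕ Fin k) (by simp; omega) R hR
      exact ⟨A.trans B⟩
  · intro hE
    rw [hdiv, Nat.even_mul] at hE
    rw [not_or] at hE
    obtain ⟨hmo, hjo⟩ := hE
    rw [Nat.not_even_iff_odd] at hmo hjo
    obtain ⟨k, hk⟩ := hmo
    obtain ⟨i, hi⟩ := hjo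
    have h43 : Fintype.card F % 4 = 3 := by omega
    have hns : ¬ IsSquare (-1 : F) := by
      rw [hsqiff]
      simp [h43]
    refine ⟨0, 1, ?_, ?_⟩
    · intro z₁ z₂ hz
      have hz' : z₁ ^ 2 + z₂ ^ 2 = 0 := by linear_combination hz
      by_cases h0 : z₂ = 0
      · subst h0
        refine ⟨?_, rfl⟩
        have : z₁ ^ 2 = 0 := by linear_combination hz'
        exact pow_eq_zero_iff (by norm_num) |>.1 this
      · exfalso
        apply hns
        refine ⟨z₁ / z₂, ?_⟩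
        field_simp
        linear_combination -hz'
    · obtain ⟨R, hR⟩ := exists_R_of_pair a b hab k
      obtain ⟨B⟩ := dot_pgo_minus h2 (n := 2 * m) (m := m - 1) (by omega) (Fin k ⊕ Fin k)
        (by simp; omega) R hR
      exact ⟨A.trans B⟩

end Cfsg.Agent.S2703
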