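import Cfsg.Statements.S2704
-- import your own Cfsg.Agent.* helpers here
import Cfsg.Agent.Lib.Helper43.PSLnGFCent
import Cfsg.Agent.Lib.Helper43.PSLnGFOrd
import Cfsg.Agent.Lib.Helper43.CycIndex

set_option autoImplicit false
open Cfsg

namespace Cfsg.Agent.S2704

open Cfsg.Agent.Lib.Helper43.PSLnBasic Cfsg.Agent.Lib.Helper43.PSLnAuts
  Cfsg.Agent.Lib.Helper43.PSLnAll Cfsg.Agent.Lib.Helper43.PSLnField
  Cfsg.Agent.Lib.Helper43.SplitCount Cfsg.Agent.Lib.Helper43.PSLnSplit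
  Cfsg.Agent.Lib.Helper43.H90GL Cfsg.Agent.Lib.Helper43.H90Fin
  Cfsg.Agent.Lib.Helper43.PSLnFieldCent Cfsg.Agent.Lib.Helper43.PSLnOut
  Cfsg.Agent.Lib.Helper43.CycIndex Cfsg.Agent.Lib.Helper43.PSLnGFCent
  Cfsg.Agent.Lib.Helper43.PSLnGFOrd Cfsg.Agent.Lib.Helper43.FrobInv

/-- Let T = PSL_n(F) over the field F with p^f elements, n ≥ 3, and G = Inndiag(T) the image of PGL_n(F). If x is an involutory graph-field automorphism of T then f is even; x is G-conjugate to every other involutory graph-field automorphism; C_G(x) is isomorphic to the projective general unitary group PGU_n(q₀) with q₀² = p^f, realised over F itself through the Hermitian form Σ uᵢ vᵢ^{q₀}; and the G-class of x is the union of exactly gcd(n, q₀ − 1) T-classes. -/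
theorem result {F : Type*} [Field F] [Fintype F] {p f : ℕ} [Fact p.Prime] (hF : Fintype.card F = p ^ f) (hf : 1 ≤ f) {n : ℕ} (hn : 3 ≤ n) (x : MulAut (Matrix.ProjectiveSpecialLinearGroup (Fin n) F)) (hx : Cfsg.IsGraphFieldAutClassPSL x) (hx2 : orderOf x = 2) :
    Even f ∧ (∀ y : MulAut (Matrix.ProjectiveSpecialLinearGroup (Fin n) F), Cfsg.IsGraphFieldAutClassPSL y → orderOf y = 2 → Cfsg.IsConjUnder (Cfsg.inndiagPSL n F) x y) ∧ Nonempty (↥(Cfsg.inndiagPSL n F ⊓ Subgroup.centralizer {x}) ≃* Cfsg.PGU n F (p ^ (f / 2))) ∧ Cfsg.splitClassCount (Cfsg.inndiagPSL n F) (Cfsg.Inn (Matrix.ProjectiveSpecialLinearGroup (Fin n) F)) x = Nat.gcd n (p ^ (f / 2) - 1) := by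
  obtain ⟨-, g, σ, hσ, rfl⟩ := graph_field_normal_form hf hF x hx
  have hn2 : 2 ≤ n := by omega
  have hord0 : orderOf (cσ σ * cτ : MulAut (Matrix.ProjectiveSpecialLinearGroup (Fin n) F)) = 2 := by
    rw [← hx2]
    exact ((MulAut.conj (cGL g)).orderOf_eq (cσ σ * cτ)).symm
  have h2 : orderOf σ = 2 := (gf_order hn σ hσ 2 Nat.prime_two hord0).2
  haveI : CharP F p := charP_of_card hf hF
  have hcardF : Nat.card F = p ^ f := by rw [Nat.card_eq_fintype_card, hF]
  obtain ⟨hdvd, hq₀⟩ := card_fixF_eq p f hcardF σ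
  rw [h2] at hdvd hq₀
  have hq : ∀ a : F, σ a = a ^ (p ^ (f / 2)) := sigma_eq_pow p σ h2 _ hq₀
  refine ⟨even_iff_two_dvd.2 hdvd, ?_, ?_, ?_⟩
  · intro y hy hy2
    obtain ⟨-, g', σ', hσ', rfl⟩ := graph_field_normal_form hf hF y hy
    have hord0' : orderOf (cσ σ' * cτ :
        MulAut (Matrix.ProjectiveSpecialLinearGroup (Fin n) F)) = 2 := by
      rw [← hy2]
      exact ((MulAut.conj (cGL g')).orderOf_eq (cσ σ' * cτ)).symm
    have h2' : orderOf σ' = 2 := (gf_order hn σ' hσ' 2 Nat.prime_two hord0').2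
    have heq : σ' = σ := involution_unique p f hcardF σ' σ h2' h2
    rw [heq]
    refine ⟨cGL g' * (cGL g)⁻¹, ?_, by group⟩
    exact Subgroup.mul_mem _ (cGL_mem_inndiag g') (Subgroup.inv_mem _ (cGL_mem_inndiag g))
  · obtain ⟨e1⟩ := centralizer_gf hn2 σ h2 _ hq
    obtain ⟨e2⟩ := centralizer_conj_equiv (Cfsg.inndiagPSL n F) (cσ σ * cτ) (cGL g)
      (cGL_mem_inndiag g)
    exact ⟨e2.symm.trans e1⟩
  · rw [splitClassCount_conj _ _ _ _ (cGL_mem_inndiag g), splitCount_gf hn2 σ h2]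
    apply index_sup_pow
    rw [Nat.card_units, ← hq₀]
    exact card_ker_nmU σ

end Cfsg.Agent.S2704
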