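import Cfsg.Statements.S2705
-- import your own Cfsg.Agent.* helpers here
import Cfsg.Agent.Lib.Helper43.SUFieldCent
import Cfsg.Agent.Lib.Helper43.SpInn

set_option autoImplicit false
open Cfsg

namespace Cfsg.Agent.S2705

open Cfsg.Agent.Lib.Helper43.SUBase Cfsg.Agent.Lib.Helper43.SUAuts
  Cfsg.Agent.Lib.Helper43.SUInn Cfsg.Agent.Lib.Helper43.SUOut
  Cfsg.Agent.Lib.Helper43.SUField Cfsg.Agent.Lib.Helper43.SUCoset
  Cfsg.Agent.Lib.Helper43.SUFieldCent Cfsg.Agent.Lib.Helper43.H90Fin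
  Cfsg.Agent.Lib.Helper43.SplitCountN

/-- Let T = PSU_n(q) be simple (n ≥ 3, (n, q) ≠ (3, 2), q = p^f), realised over the field F with q² elements, G = Inndiag(T) the image of PGU_n(q) in Aut(T), and x a field automorphism of T (conjugate to a standard field automorphism of odd order) of odd prime order r. Then r divides f; C_G(x) is isomorphic to PGU_n(q₀) with q₀ = p^(f/r), realised over a field F₀ with q₀² elements; and the G-class of x is the union of exactly gcd(n, (q + 1)/(q₀ + 1)) T-classes. -/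
theorem result {F : Type*} [Field F] [Fintype F] {p f q : ℕ} [Fact p.Prime] (hq : q = p ^ f) (hf : 1 ≤ f) (hF : Fintype.card F = q ^ 2) {n : ℕ} (hn : 3 ≤ n) (hs : ¬ (n = 3 ∧ q = 2)) (x : MulAut (Cfsg.PSU n F q)) (hx : Cfsg.IsFieldAutClassPSU x) {r : ℕ} (hr : r.Prime) (hro : Odd r) (hxr : orderOf x = r) (F₀ : Type*) [Field F₀] [Fintype F₀] (hF₀ : Fintype.card F₀ = p ^ (2 * (f / r))) :
    r ∣ f ∧ Nonempty (↥(Cfsg.inndiagPSU n F q ⊓ Subgroup.centralizer {x}) ≃* Cfsg.PGU n F₀ (p ^ (f / r))) ∧ Cfsg.splitClassCount (Cfsg.inndiagPSU n F q) (Cfsg.Inn (Cfsg.PSU n F q)) x = Nat.gcd n ((q + 1) / (p ^ (f / r) + 1)) := by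
  obtain ⟨α, σ, hσ, hodd, rfl⟩ := field_normal_form x hx
  have hord : orderOf σ = r := by
    rw [← hxr, ← orderOf_cσ hq hf hF hn σ]
    exact ((MulAut.conj α).orderOf_eq (cσ σ)).symm
  obtain ⟨hdvd, S, hcard⟩ := sub_of_odd hq hF (qd hF) σ hodd
  rw [hord] at hdvd hcard
  have hN : (Cfsg.inndiagPSU n F q).Normal := inndiag_normal hq hf hF hn hs
  have hK : Fintype.card F₀ = (p ^ (f / r)) ^ 2 := by rw [hF₀, ← pow_mul, mul_comm]
  haveI := Fintype.ofFinite (fixF σ)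
  have hcc : Fintype.card (fixF σ) = Fintype.card F₀ := by
    rw [hK, ← hcard, Nat.card_eq_fintype_card]
  obtain ⟨e⟩ : Nonempty (↥(fixF σ) ≃+* F₀) := ⟨FiniteField.ringEquivOfCardEq hcc⟩
  obtain ⟨φ, hφ⟩ : ∃ φ : F₀ →+* F, ∀ b, φ b = ((e.symm b : fixF σ) : F) :=
    ⟨(fixF σ).subtype.comp (e.symm : F₀ →+* ↥(fixF σ)), fun b => rfl⟩
  have hφ2 : ∀ a, σ a = a ↔ ∃ b, φ b = a := by
    intro a
    constructor
    · intro ha
      refine ⟨e ⟨a, (mem_fixF σ a).2 ha⟩, ?_⟩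
      rw [hφ, RingEquiv.symm_apply_apply]
    · rintro ⟨b, rfl⟩
      rw [hφ]
      exact (mem_fixF σ _).1 (e.symm b).2
  have hqr : q = (p ^ (f / r)) ^ r := by
    rw [hq, ← pow_mul, Nat.div_mul_cancel hdvd]
  have hc : ∀ y, (qd hF).φ (φ y) = φ ((qd hK).φ y) :=
    compat (qd hF) (qd hK) hK φ hro hqr
  refine ⟨hdvd, ?_, ?_⟩
  · obtain ⟨e1⟩ := centralizer_field hq hf hF hn S (qd hK) φ hc hφ2
    obtain ⟨e2⟩ := centralizer_conj_equiv_normal (Cfsg.inndiagPSU n F q) hN (cσ σ) α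
    exact ⟨e2.symm.trans e1⟩
  · rw [splitClassCount_conj_normal _ _ hN (Cfsg.Agent.Lib.Helper43.SpInn.inn_normal _)]
    apply splitCount_field_card hq hf hF hn S hK (qd hK) φ hc hφ2
    have h1 := Odd.nat_add_dvd_pow_add_pow (p ^ (f / r)) 1 hro
    rw [one_pow, ← hqr] at h1
    exact h1

end Cfsg.Agent.S2705
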