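import Cfsg.Statements.S2706
import Cfsg.Agent.Lib.Helper45.UShape
import Cfsg.Agent.Lib.Helper45.GraphOdd
-- import your own Cfsg.Agent.* helpers here

set_option autoImplicit false
open Cfsg

namespace Cfsg.Agent.S2706

open Matrix Cfsg.Agent.Lib.Helper43.SUBase Cfsg.Agent.Lib.Helper43.SUAuts
  Cfsg.Agent.Lib.Helper43.SUInn Cfsg.Agent.Lib.Helper45.UGraph Cfsg.Agent.Lib.Helper45.UDescAlg
  Cfsg.Agent.Lib.Helper45.UDesc Cfsg.Agent.Lib.Helper45.UStd Cfsg.Agent.Lib.Helper45.UShape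
  Cfsg.Agent.Lib.Helper45.SymChar2 Cfsg.Agent.Lib.Helper45.GraphOdd

/-- shape of an involutory graph automorphism of `PSU_n`, `n` odd: symmetric `h`, with symmetric
descended form (non-alternating in characteristic two) -/
theorem shapeU {F : Type*} [Field F] [Fintype F] {p f q : ℕ} [Fact p.Prime] (hq : q = p ^ f)
    (hf : 1 ≤ f) (hF : Fintype.card F = q ^ 2) {n m : ℕ} (hn : 3 ≤ n) (hnm : n = 2 * m + 1)
    {F₀ : Type*} [Field F₀] (D : QD F q) (ι : F₀ →+* F)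
    (hι : ∀ x : F, D.φ x = x ↔ x ∈ Set.range ι)
    (γ : MulAut (Cfsg.PSU n F q)) (hγ : Cfsg.IsGraphAutClassPSU γ) (hγ2 : orderOf γ = 2) :
    ∃ (h : ↥(Cfsg.GU n F q)) (k ki : Matrix (Fin n) (Fin n) F) (Sg : GL (Fin n) F₀),
      γ = gam D h ∧ Desc D ι 1 h k ki (Sg : Matrix (Fin n) (Fin n) F₀) ∧
      (Sg : Matrix (Fin n) (Fin n) F₀)ᵀ = Sg ∧
      ((2 : F₀) = 0 → ∃ x : Fin n → F₀, x ⬝ᵥ (Sg : Matrix (Fin n) (Fin n) F₀) *ᵥ x ≠ 0) := by
  obtain ⟨h, rfl, hh⟩ := shape hq hf hF hn D γ hγ hγ2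
  have hsym : (gm h)ᵀ = gm h := by
    by_cases h2 : (2 : F) = 0
    · have : CharP F 2 := CharTwo.of_one_ne_zero_of_two_eq_zero one_ne_zero h2
      rcases hh with h' | h'
      · exact h'
      · rw [h']
        ext i j
        rw [Matrix.neg_apply, CharTwo.neg_eq]
    · rcases hh with h' | h'
      · exact h'
      · exact (not_skew_odd h2 hnm _ (gm_det_isUnit h) h').elim
  obtain ⟨k, ki, Sg, hd, hS⟩ := desc_sym D ι hι h hsym
  refine ⟨h, k, ki, Sg, rfl, hd, hS, fun h2 => ?_⟩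
  by_contra hcon
  have halt : ∀ x : Fin n → F₀, x ⬝ᵥ (Sg : Matrix (Fin n) (Fin n) F₀) *ᵥ x = 0 := by
    intro x
    by_contra hx
    exact hcon ⟨x, hx⟩
  obtain ⟨r, hr⟩ := even_of_alt _ halt (isUnit_det_coe Sg)
  omega

/-- Let T = PSU_n(q) be simple with n = 2m + 1 ≥ 3 odd, realised over the field F with q² elements, and G = Inndiag(T) the image of PGU_n(q). Every involutory graph automorphism γ of T (an inner-diagonal automorphism times a standard field automorphism of even order, of order 2) has centralizer C_G(γ) isomorphic to the projective conformal orthogonal group of the form x₀² + Σ xᵢ yᵢ in dimension n over a field F₀ with q elements, and any two involutory graph automorphisms of T are G-conjugate. -/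
theorem result {F : Type*} [Field F] [Fintype F] {p f q : ℕ} [Fact p.Prime] (hq : q = p ^ f) (hf : 1 ≤ f) (hF : Fintype.card F = q ^ 2) {n : ℕ} (hn : 3 ≤ n) (hs : ¬ (n = 3 ∧ q = 2)) {m : ℕ} (hnm : n = 2 * m + 1) (F₀ : Type*) [Field F₀] [Fintype F₀] (hF₀ : Fintype.card F₀ = q) (γ γ' : MulAut (Cfsg.PSU n F q)) (hγ : Cfsg.IsGraphAutClassPSU γ) (hγ2 : orderOf γ = 2) (hγ' : Cfsg.IsGraphAutClassPSU γ') (hγ'2 : orderOf γ' = 2) :
    Nonempty (↥(Cfsg.inndiagPSU n F q ⊓ Subgroup.centralizer {γ}) ≃* Cfsg.PGO F₀ (Cfsg.quadFormOdd m F₀)) ∧ Cfsg.IsConjUnder (Cfsg.inndiagPSU n F q) γ γ' := by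
  classical
  have hn2 : 2 ≤ n := by omega
  obtain ⟨D, -⟩ : ∃ D : QD F q, D = qd hF := ⟨_, rfl⟩
  obtain ⟨ι, hι⟩ := exists_ι hF hF₀ D
  obtain ⟨h, k, ki, Sg, rfl, hd, hsym, hna⟩ := shapeU hq hf hF hn hnm D ι hι γ hγ hγ2
  obtain ⟨h', k', ki', Sg', rfl, hd', hsym', hna'⟩ := shapeU hq hf hF hn hnm D ι hι γ' hγ' hγ'2
  obtain ⟨e⟩ := cent_psl hq hf hF hn D ι hι Sg hd
  by_cases h2 : (2 : F₀) = 0
  · have : CharP F₀ 2 := CharTwo.of_one_ne_zero_of_two_eq_zero one_ne_zero h2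
    obtain ⟨e'⟩ := cent_char2 hn2 hnm Sg hsym (hna h2)
    refine ⟨⟨e.trans e'⟩, ?_⟩
    obtain ⟨T, hT, eT⟩ := cong_of_nonalt (Sg : Matrix (Fin n) (Fin n) F₀)
      (Sg' : Matrix (Fin n) (Fin n) F₀) hsym hsym' (isUnit_det_coe Sg) (isUnit_det_coe Sg')
      (hna h2) (hna' h2)
    exact conj_of_cong hq hf hF hn D ι hι hd hd' T hT 1 one_ne_zero (by rw [one_smul]; exact eT)
  · obtain ⟨e'⟩ := cent_odd h2 hn2 hnm Sg hsym
    refine ⟨⟨e.trans e'⟩, ?_⟩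
    obtain ⟨T, t, hT, ht0, eT⟩ := cong_scalar h2 hnm (Sg : Matrix (Fin n) (Fin n) F₀)
      (Sg' : Matrix (Fin n) (Fin n) F₀) hsym hsym' (isUnit_det_coe Sg) (isUnit_det_coe Sg')
    exact conj_of_cong hq hf hF hn D ι hι hd hd' T hT t ht0 eT

end Cfsg.Agent.S2706
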