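import Cfsg.Statements.S2707
import Cfsg.Agent.Lib.Helper45.UShape
import Cfsg.Agent.Lib.Helper45.GraphOdd
import Cfsg.Agent.Lib.Helper45.ProjCard
-- import your own Cfsg.Agent.* helpers here

set_option autoImplicit false
open Cfsg

namespace Cfsg.Agent.S2707

open Matrix Cfsg.Agent.Lib.Helper43.SUBase Cfsg.Agent.Lib.Helper43.SUAuts
  Cfsg.Agent.Lib.Helper43.SUInn Cfsg.Agent.Lib.Helper45.UGraph Cfsg.Agent.Lib.Helper45.UDescAlg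
  Cfsg.Agent.Lib.Helper45.UDesc Cfsg.Agent.Lib.Helper45.UStd Cfsg.Agent.Lib.Helper45.UShape
  Cfsg.Agent.Lib.Helper45.SymCong Cfsg.Agent.Lib.Helper45.GraphReps
open Cfsg.Agent.Lib.Helper45.GraphOdd (isUnit_det_coe)
open Cfsg.Agent.Lib.Helper44.QSpace Cfsg.Agent.Lib.Helper44.NegPairs
open Cfsg.Agent.Lib.Helper45.OmegaAutSim Cfsg.Agent.Lib.Helper45.ProjCard

/-- `PGO^+_{2m}(q) ≇ PGO^-_{2m}(q)` for `q` odd -/
theorem pgo_plus_not_minus {F : Type*} [Field F] [Fintype F] (h2 : (2 : F) ≠ 0) {m : ℕ}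
    (hm : 1 ≤ m) (a b : F)
    (hab : ∀ z₁ z₂ : F, z₁ ^ 2 + a * z₁ * z₂ + b * z₂ ^ 2 = 0 → z₁ = 0 ∧ z₂ = 0) :
    ¬ Nonempty (Cfsg.PGO F (Cfsg.quadFormPlus m F) ≃*
      Cfsg.PGO F (Cfsg.quadFormMinus (m - 1) F a b)) := by
  rintro ⟨e⟩
  obtain ⟨k, rfl⟩ : ∃ k, m = k + 1 := ⟨m - 1, by omega⟩
  rw [Nat.add_sub_cancel] at e
  have hc := Nat.card_congr e.toEquiv
  have : Nontrivial (Fin (k + 1) ⊕ Fin (k + 1) → F) := by
    have : Nonempty (Fin (k + 1) ⊕ Fin (k + 1)) := ⟨Sum.inl 0⟩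
    infer_instance
  obtain ⟨v₀, hv₀⟩ := exists_ne_zero (sep_plusQ (F := F) (k + 1))
  have h3 := card_pgo (plusQ (k + 1) F) hv₀ (plus_sim h2 (k + 1) hm)
  rw [coe_plusQ] at h3
  have hS := sep_minusQ h2 k a b hab
  have : Nontrivial ((Fin k ⊕ Fin k) ⊕ Fin 2 → F) := by
    have : Nonempty ((Fin k ⊕ Fin k) ⊕ Fin 2) := ⟨Sum.inr 0⟩
    infer_instance
  obtain ⟨w₀, hw₀⟩ := exists_ne_zero hS
  have h4 := card_pgo (minusQ k F a b) hw₀ (minus_sim h2 k a b hab)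
  rw [coe_minusQ] at h4
  rw [h3, h4] at hc
  obtain ⟨A, P, Y, hA, hP, hY, -, e2, e3⟩ := orders (F := F) h2 k
  rw [e2, e3 a b hab] at hc
  have hlt : 2 * A * Y * P < 2 * A * (Y + 2) * P := by
    have hT : 0 < 2 * A * P := by positivity
    nlinarith
  omega

/-- Let T = PSU_n(q) with n = 2m ≥ 4 even and q odd, realised over the field F with q² elements, and G = Inndiag(T) the image of PGU_n(q). The involutory graph automorphisms of T fall into exactly three G-classes, with representatives whose centralizers in G are isomorphic respectively to the projective conformal symplectic group PGSp_n(F₀), the projective conformal orthogonal group of the plus-type form Σ xᵢ yᵢ, and that of a minus-type form Σ xᵢ yᵢ + z₁² + a z₁ z₂ + b z₂² (anisotropic binary part) in dimension n, all over a field F₀ with q elements. -/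
theorem result {F : Type*} [Field F] [Fintype F] {q : ℕ} (hodd : Odd q) (hF : Fintype.card F = q ^ 2) {n m : ℕ} (hm : 2 ≤ m) (hnm : n = 2 * m) (F₀ : Type*) [Field F₀] [Fintype F₀] (hF₀ : Fintype.card F₀ = q) :
    ∃ (γ₁ γ₂ γ₃ : MulAut (Cfsg.PSU n F q)) (a b : F₀), (∀ z₁ z₂ : F₀, z₁ ^ 2 + a * z₁ * z₂ + b * z₂ ^ 2 = 0 → z₁ = 0 ∧ z₂ = 0) ∧ Cfsg.IsGraphAutClassPSU γ₁ ∧ orderOf γ₁ = 2 ∧ Cfsg.IsGraphAutClassPSU γ₂ ∧ orderOf γ₂ = 2 ∧ Cfsg.IsGraphAutClassPSU γ₃ ∧ orderOf γ₃ = 2 ∧ ¬ Cfsg.IsConjUnder (Cfsg.inndiagPSU n F q) γ₁ γ₂ ∧ ¬ Cfsg.IsConjUnder (Cfsg.inndiagPSU n F q) γ₁ γ₃ ∧ ¬ Cfsg.IsConjUnder (Cfsg.inndiagPSU n F q) γ₂ γ₃ ∧ (∀ γ : MulAut (Cfsg.PSU n F q), Cfsg.IsGraphAutClassPSU γ → orderOf γ = 2 → Cfsg.IsConjUnder (Cfsg.inndiagPSU n F q) γ₁ γ ∨ Cfsg.IsConjUnder (Cfsg.inndiagPSU n F q) γ₂ γ ∨ Cfsg.IsConjUnder (Cfsg.inndiagPSU n F q) γ₃ γ) ∧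 Nonempty (↥(Cfsg.inndiagPSU n F q ⊓ Subgroup.centralizer {γ₁}) ≃* Cfsg.PGSp m F₀) ∧ Nonempty (↥(Cfsg.inndiagPSU n F q ⊓ Subgroup.centralizer {γ₂}) ≃* Cfsg.PGO F₀ (Cfsg.quadFormPlus m F₀)) ∧ Nonempty (↥(Cfsg.inndiagPSU n F q ⊓ Subgroup.centralizer {γ₃}) ≃* Cfsg.PGO F₀ (Cfsg.quadFormMinus (m - 1) F₀ a b)) := by
  classical
  obtain ⟨p, f, hp, hq, hf⟩ := exists_pf hF
  haveI : Fact p.Prime := ⟨hp⟩
  have hn : 3 ≤ n := by omega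
  have hn2 : 2 ≤ n := by omega
  obtain ⟨D, -⟩ : ∃ D : QD F q, D = qd hF := ⟨_, rfl⟩
  obtain ⟨ι, hι⟩ := exists_ι hF hF₀ D
  have hodd₀ : Odd (Fintype.card F₀) := by rw [hF₀]; exact hodd
  have h2₀ : (2 : F₀) ≠ 0 := Cfsg.Agent.Lib.Helper44.FinSq.two_ne_zero_of_odd_card hodd₀
  obtain ⟨θ₀, hθ0, hθ⟩ := D.exists_skew
  obtain ⟨g₁, g₂, g₃, a, b, haniso, hs₁, hs₂, hs₃, hnsq, ⟨c₁⟩, ⟨c₂⟩, ⟨c₃⟩⟩ :=
    exists_reps (F := F₀) hodd₀ hm hnm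
  obtain ⟨h₁, k₁, ki₁, hd₁, hh₁⟩ := h_skew D ι hι θ₀ hθ0 hθ g₁ hs₁
  obtain ⟨h₂, k₂, ki₂, hd₂, hh₂⟩ := h_sym D ι hι g₂ hs₂
  obtain ⟨h₃, k₃, ki₃, hd₃, hh₃⟩ := h_sym D ι hι g₃ hs₃
  obtain ⟨e₁⟩ := cent_psl hq hf hF hn D ι hι g₁ hd₁
  obtain ⟨e₂⟩ := cent_psl hq hf hF hn D ι hι g₂ hd₂
  obtain ⟨e₃⟩ := cent_psl hq hf hF hn D ι hι g₃ hd₃
  have E₁ := e₁.trans c₁
  have E₂ := e₂.trans c₂
  have E₃ := e₃.trans c₃
  have key : ∀ (x y : MulAut (Cfsg.PSU n F q)), Cfsg.IsConjUnder (Cfsg.inndiagPSU n F q) x y →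
      Nonempty (↥(Cfsg.inndiagPSU n F q ⊓ Subgroup.centralizer {x}) ≃*
        ↥(Cfsg.inndiagPSU n F q ⊓ Subgroup.centralizer {y})) := by
    rintro x y ⟨d, hd, rfl⟩
    exact Cfsg.Agent.Lib.Helper43.SplitCount.centralizer_conj_equiv _ x d hd
  refine ⟨gam D h₁, gam D h₂, gam D h₃, a, b, haniso, gam_isGraph hn D h₁,
    (order_two_iff hq hf hF hn D h₁).2 (Or.inr hh₁), gam_isGraph hn D h₂,
    (order_two_iff hq hf hF hn D h₂).2 (Or.inl hh₂), gam_isGraph hn D h₃,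
    (order_two_iff hq hf hF hn D h₃).2 (Or.inl hh₃), ?_, ?_, ?_, ?_, ⟨E₁⟩, ⟨E₂⟩, ⟨E₃⟩⟩
  · intro hc
    obtain ⟨x⟩ := key _ _ hc
    exact pgo_plus_not_pgsp h2₀ (by omega) ⟨E₂.symm.trans (x.symm.trans E₁)⟩
  · intro hc
    obtain ⟨x⟩ := key _ _ hc
    exact pgo_minus_not_pgsp h2₀ (by omega) a b haniso ⟨E₃.symm.trans (x.symm.trans E₁)⟩
  · intro hc
    obtain ⟨x⟩ := key _ _ hc
    exact pgo_plus_not_minus h2₀ (by omega) a b haniso ⟨E₂.symm.trans (x.trans E₃)⟩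
  · intro γ hγ ho
    obtain ⟨h, rfl, hh⟩ := shape hq hf hF hn D γ hγ ho
    rcases hh with hs | hs
    · obtain ⟨k, ki, Sg, hd, hS⟩ := desc_sym D ι hι h hs
      by_cases hsq : IsSquare ((g₂ : Matrix (Fin n) (Fin n) F₀).det
          * (Sg : Matrix (Fin n) (Fin n) F₀).det)
      · right; left
        obtain ⟨T, hT, eT⟩ := cong_of_det h2₀ _ _ hs₂ hS (isUnit_det_coe g₂) (isUnit_det_coe Sg) hsq
        exact conj_of_cong hq hf hF hn D ι hι hd₂ hd T hT 1 one_ne_zero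
          (by rw [one_smul]; exact eT)
      · right; right
        have hsq' : IsSquare ((g₃ : Matrix (Fin n) (Fin n) F₀).det
            * (Sg : Matrix (Fin n) (Fin n) F₀).det) := by
          obtain ⟨r, hr⟩ := Cfsg.Agent.Lib.Helper44.FinSq.isSquare_mul_of_not_of_not hnsq hsq
          have hd0 : (g₂ : Matrix (Fin n) (Fin n) F₀).det ≠ 0 := (isUnit_det_coe g₂).ne_zero
          refine ⟨r / (g₂ : Matrix (Fin n) (Fin n) F₀).det, ?_⟩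
          field_simp
          linear_combination hr
        obtain ⟨T, hT, eT⟩ := cong_of_det h2₀ _ _ hs₃ hS (isUnit_det_coe g₃) (isUnit_det_coe Sg) hsq'
        exact conj_of_cong hq hf hF hn D ι hι hd₃ hd T hT 1 one_ne_zero
          (by rw [one_smul]; exact eT)
    · left
      obtain ⟨k, ki, Sg, hd, hS⟩ := desc_skew D ι hι θ₀ hθ0 hθ h hs
      obtain ⟨T, hT, eT⟩ := skew_cong h2₀ _ _ hs₁ hS (isUnit_det_coe g₁) (isUnit_det_coe Sg)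
      exact conj_of_cong hq hf hF hn D ι hι hd₁ hd T hT 1 one_ne_zero
        (by rw [one_smul]; exact eT)

end Cfsg.Agent.S2707
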