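import Cfsg.Statements.S2708
import Cfsg.Agent.Lib.Helper45.UAlt
import Cfsg.Agent.Lib.Helper45.GraphEven2

set_option autoImplicit false
open Cfsg

namespace Cfsg.Agent.S2708

open Matrix Cfsg.Agent.Lib.Helper43.SUBase Cfsg.Agent.Lib.Helper43.SUAuts
  Cfsg.Agent.Lib.Helper43.SUInn Cfsg.Agent.Lib.Helper45.UGraph Cfsg.Agent.Lib.Helper45.UDescAlg
  Cfsg.Agent.Lib.Helper45.UDesc Cfsg.Agent.Lib.Helper45.UStd Cfsg.Agent.Lib.Helper45.UShape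
  Cfsg.Agent.Lib.Helper45.UAlt
open Cfsg.Agent.Lib.Helper45.GraphOdd (isUnit_det_coe)
open Cfsg.Agent.Lib.Helper45.GraphReps (dot_submatrix)
open Cfsg.Agent.Lib.Helper45.GraphChar2 (alt_J)
open Cfsg.Agent.Lib.Helper45.SymChar2 (alt_cong cong_of_nonalt)
open Cfsg.Agent.Lib.Helper45.GraphEven2 (J_tr Em Em_transpose det_Em Em_nonalt tv tv_isTransvection
  cent_J cent_E)

/-- Let T = PSU_n(q) with n = 2m ≥ 4 even and q even, realised over the field F (of characteristic 2) with q² elements, and G = Inndiag(T) the image of PGU_n(q). The involutory graph automorphisms of T fall into exactly two G-classes, with representatives whose centralizers in G are isomorphic respectively to the symplectic group Sp_n(F₀) and to the centralizer in Sp_n(F₀) of a symplectic transvection, F₀ a field with q elements. -/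
theorem result {F : Type*} [Field F] [Fintype F] [CharP F 2] {q : ℕ} (hF : Fintype.card F = q ^ 2) {n m : ℕ} (hm : 2 ≤ m) (hnm : n = 2 * m) (F₀ : Type*) [Field F₀] [Fintype F₀] (hF₀ : Fintype.card F₀ = q) :
    ∃ (γ₁ γ₃ : MulAut (Cfsg.PSU n F q)) (t : ↥(Matrix.symplecticGroup (Fin m) F₀)), Cfsg.IsTransvection (t : Matrix (Fin m ⊕ Fin m) (Fin m ⊕ Fin m) F₀) ∧ Cfsg.IsGraphAutClassPSU γ₁ ∧ orderOf γ₁ = 2 ∧ Cfsg.IsGraphAutClassPSU γ₃ ∧ orderOf γ₃ = 2 ∧ ¬ Cfsg.IsConjUnder (Cfsg.inndiagPSU n F q) γ₁ γ₃ ∧ (∀ γ : MulAut (Cfsg.PSU n F q), Cfsg.IsGraphAutClassPSU γ → orderOf γ = 2 → Cfsg.IsConjUnder (Cfsg.inndiagPSU n F q) γ₁ γ ∨ Cfsg.IsConjUnder (Cfsg.inndiagPSU n F q) γ₃ γ) ∧ Nonempty (↥(Cfsg.inndiagPSU n F q ⊓ Subgroup.centralizer {γ₁}) ≃* ↥(Matrix.symplecticGroup (Fin m) F₀)) ∧ Nonempty (↥(Cfsg.inndiagPSU n F q ⊓ Subgroup.centralizer {γ₃}) ≃* ↥(Subgroup.centralizer ({t}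 : Set ↥(Matrix.symplecticGroup (Fin m) F₀)))) := by
  classical
  obtain ⟨p, f, hp, hq, hf⟩ := exists_pf hF
  haveI : Fact p.Prime := ⟨hp⟩
  have hn : 3 ≤ n := by omega
  have hn2 : 2 ≤ n := by omega
  have hm0 : 0 < m := by omega
  obtain ⟨D, -⟩ : ∃ D : QD F q, D = qd hF := ⟨_, rfl⟩
  obtain ⟨ι, hι⟩ := exists_ι hF hF₀ D
  haveI : CharP F₀ 2 := RingHom.charP ι ι.injective 2
  have hc : Fintype.card (Fin n) = Fintype.card (Fin m ⊕ Fin m) := by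
    simp [hnm]; omega
  let e : Fin n ≃ Fin m ⊕ Fin m := Fintype.equivOfCardEq hc
  let b : Fin m ⊕ Fin m → F₀ := Pi.single (Sum.inl ⟨0, hm0⟩) 1
  have hb : b ≠ 0 := by
    intro h
    have := congrFun h (Sum.inl ⟨0, hm0⟩)
    simp [b] at this
  have hdJ : ((Matrix.J (Fin m) F₀).submatrix e e).det ≠ 0 := by
    rw [Matrix.det_submatrix_equiv_self]
    exact (Matrix.isUnit_det_J (Fin m) F₀).ne_zero
  have hdE : ((Em b).submatrix e e).det ≠ 0 := by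
    rw [Matrix.det_submatrix_equiv_self]
    exact (det_Em b).ne_zero
  let g₁ : GL (Fin n) F₀ := Matrix.GeneralLinearGroup.mkOfDetNeZero _ hdJ
  let g₃ : GL (Fin n) F₀ := Matrix.GeneralLinearGroup.mkOfDetNeZero _ hdE
  have hg₁ : (g₁ : Matrix (Fin n) (Fin n) F₀) = (Matrix.J (Fin m) F₀).submatrix e e := rfl
  have hg₃ : (g₃ : Matrix (Fin n) (Fin n) F₀) = (Em b).submatrix e e := rfl
  have hs₁ : (g₁ : Matrix (Fin n) (Fin n) F₀)ᵀ = g₁ := by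
    rw [hg₁, Matrix.transpose_submatrix, J_tr]
  have hs₃ : (g₃ : Matrix (Fin n) (Fin n) F₀)ᵀ = g₃ := by
    rw [hg₃, Matrix.transpose_submatrix, Em_transpose]
  have halt₁ : ∀ x : Fin n → F₀, x ⬝ᵥ (g₁ : Matrix (Fin n) (Fin n) F₀) *ᵥ x = 0 := by
    intro x
    rw [hg₁, dot_submatrix]
    exact alt_J _
  have hna₃ : ∃ x : Fin n → F₀, x ⬝ᵥ (g₃ : Matrix (Fin n) (Fin n) F₀) *ᵥ x ≠ 0 := by
    obtain ⟨x₀, hx₀⟩ := Em_nonalt b hb
    refine ⟨fun i => x₀ (e i), ?_⟩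
    rw [hg₃, dot_submatrix]
    simpa using hx₀
  obtain ⟨h₁, k₁, ki₁, hd₁, hh₁⟩ := h_sym D ι hι g₁ hs₁
  obtain ⟨h₃, k₃, ki₃, hd₃, hh₃⟩ := h_sym D ι hι g₃ hs₃
  obtain ⟨e₁⟩ := cent_psl hq hf hF hn D ι hι g₁ hd₁
  obtain ⟨e₃⟩ := cent_psl hq hf hF hn D ι hι g₃ hd₃
  obtain ⟨c₁⟩ := cent_J hn2 hm0 e g₁ hg₁
  obtain ⟨c₃⟩ := cent_E hn2 hm0 e b hb g₃ hg₃
  refine ⟨gam D h₁, gam D h₃, tv b, tv_isTransvection b hb, gam_isGraph hn D h₁,
    (order_two_iff hq hf hF hn D h₁).2 (Or.inl hh₁), gam_isGraph hn D h₃,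
    (order_two_iff hq hf hF hn D h₃).2 (Or.inl hh₃), ?_, ?_, ⟨e₁.trans c₁⟩, ⟨e₃.trans c₃⟩⟩
  · rw [conj_iff hq hf hF hn D]
    rintro ⟨g, c, eg⟩
    obtain ⟨x, hx⟩ := hna₃
    apply hx
    apply alt_S_of_alt_h hd₃ hs₃
    intro y
    rw [eg]
    exact alt_cong'' _ _ _ (alt_h_of_alt_S hd₁ hs₁ halt₁) y
  · intro γ hγ ho
    obtain ⟨h, rfl, hh⟩ := shape hq hf hF hn D γ hγ ho
    have hs : (gm h)ᵀ = gm h := by
      rcases hh with h' | h'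
      · exact h'
      · rw [h']
        ext i j
        rw [Matrix.neg_apply, CharTwo.neg_eq]
    obtain ⟨k, ki, Sg, hd, hS⟩ := desc_sym D ι hι h hs
    by_cases halt : ∀ x : Fin n → F₀, x ⬝ᵥ (Sg : Matrix (Fin n) (Fin n) F₀) *ᵥ x = 0
    · left
      obtain ⟨T, hT, eT⟩ := alt_cong (g₁ : Matrix (Fin n) (Fin n) F₀)
        (Sg : Matrix (Fin n) (Fin n) F₀) halt₁ halt (isUnit_det_coe g₁) (isUnit_det_coe Sg)
      exact conj_of_cong hq hf hF hn D ι hι hd₁ hd T hT 1 one_ne_zero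
        (by rw [one_smul]; exact eT)
    · right
      have hna : ∃ x : Fin n → F₀, x ⬝ᵥ (Sg : Matrix (Fin n) (Fin n) F₀) *ᵥ x ≠ 0 := by
        by_contra hcon
        apply halt
        intro x
        by_contra hx
        exact hcon ⟨x, hx⟩
      obtain ⟨T, hT, eT⟩ := cong_of_nonalt (g₃ : Matrix (Fin n) (Fin n) F₀)
        (Sg : Matrix (Fin n) (Fin n) F₀) hs₃ hS (isUnit_det_coe g₃) (isUnit_det_coe Sg) hna₃ hna
      exact conj_of_cong hq hf hF hn D ι hι hd₃ hd T hT 1 one_ne_zero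
        (by rw [one_smul]; exact eT)

end Cfsg.Agent.S2708
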