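import Cfsg.Statements.S2709
import Cfsg.Agent.Lib.Helper45.USplit
import Cfsg.Agent.Lib.Helper45.ProjCard

set_option autoImplicit false
open Cfsg

namespace Cfsg.Agent.S2709

open Matrix Cfsg.Agent.Lib.Helper43.SUBase Cfsg.Agent.Lib.Helper43.SUAuts
  Cfsg.Agent.Lib.Helper43.SUInn Cfsg.Agent.Lib.Helper43.SUOut
  Cfsg.Agent.Lib.Helper45.UGraph Cfsg.Agent.Lib.Helper45.UDescAlg
  Cfsg.Agent.Lib.Helper45.UStd Cfsg.Agent.Lib.Helper45.UShape Cfsg.Agent.Lib.Helper45.USplit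
  Cfsg.Agent.Lib.Helper45.SymCong Cfsg.Agent.Lib.Helper45.GraphReps
  Cfsg.Agent.Lib.Helper45.ProjCard
open Cfsg.Agent.Lib.Helper45.GraphOdd (isUnit_det_coe)
open Cfsg.Agent.Lib.Helper45.UDesc (cent_psl)

theorem cent_iso_of_conj {F : Type*} [Field F] {n : ℕ} {X : Type*} [Group X]
    (x y : MulAut (Matrix.ProjectiveSpecialLinearGroup (Fin n) F))
    (h : Cfsg.IsConjUnder (Cfsg.inndiagPSL n F) x y)
    (hx : Nonempty (↥(Cfsg.inndiagPSL n F ⊓ Subgroup.centralizer {x}) ≃* X)) :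
    Nonempty (↥(Cfsg.inndiagPSL n F ⊓ Subgroup.centralizer {y}) ≃* X) := by
  obtain ⟨d, hd, rfl⟩ := h
  obtain ⟨e⟩ := Cfsg.Agent.Lib.Helper43.SplitCount.centralizer_conj_equiv (Cfsg.inndiagPSL n F) x d hd
  obtain ⟨e'⟩ := hx
  exact ⟨e.symm.trans e'⟩

/-- Let T = PSU_n(q) be simple (n ≥ 3, (n,q) ≠ (3,2), q = p^f), realised over the field F with q² elements, G = Inndiag(T) the image of PGU_n(q), and γ an involutory graph automorphism of T. The G-class of γ is the union of exactly c T-classes, where: if n is even and q is odd, c = gcd(n/2, q + 1) when C_G(γ) is isomorphic to PGSp_n(F₀) for a field F₀ with q elements (symplectic type) and c = gcd(n, q + 1)/2 otherwise; and c = gcd(n, q + 1) when n is odd or q is even. -/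
theorem result {F : Type*} [Field F] [Fintype F] {p f q : ℕ} [Fact p.Prime] (hq : q = p ^ f) (hf : 1 ≤ f) (hF : Fintype.card F = q ^ 2) {n : ℕ} (hn : 3 ≤ n) (hs : ¬ (n = 3 ∧ q = 2)) (F₀ : Type*) [Field F₀] [Fintype F₀] (hF₀ : Fintype.card F₀ = q) (γ : MulAut (Cfsg.PSU n F q)) (hγ : Cfsg.IsGraphAutClassPSU γ) (hγ2 : orderOf γ = 2) :
    ((Even n ∧ Odd q ∧ Nonempty (↥(Cfsg.inndiagPSU n F q ⊓ Subgroup.centralizer {γ}) ≃* Cfsg.PGSp (n / 2) F₀)) → Cfsg.splitClassCount (Cfsg.inndiagPSU n F q) (Cfsg.Inn (Cfsg.PSU n F q)) γ = Nat.gcd (n / 2) (q + 1)) ∧ ((Even n ∧ Odd q ∧ ¬ Nonempty (↥(Cfsg.inndiagPSU n F q ⊓ Subgroup.centralizer {γ}) ≃* Cfsg.PGSp (n / 2) F₀)) → Cfsg.splitClassCount (Cfsg.inndiagPSU n F q) (Cfsg.Inn (Cfsg.PSU n F q)) γ = Nat.gcd n (q + 1) / 2) ∧ (¬ (Even n ∧ Odd q) → Cfsg.splitClassCount (Cfsg.inndiagPSU n F q) (Cfsg.Inn (Cfsg.PSU n F q)) γ = Nat.gcd n (q + 1)) := by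
  classical
  obtain ⟨D, -⟩ : ∃ D : QD F q, D = qd hF := ⟨_, rfl⟩
  obtain ⟨ι, hι⟩ := exists_ι hF hF₀ D
  obtain ⟨θ₀, hθ0, hθ⟩ := D.exists_skew
  obtain ⟨h, rfl, hh⟩ := shape hq hf hF hn D γ hγ hγ2
  have hn2 : 2 ≤ n := by omega
  by_cases hcase : Even n ∧ Odd q
  · obtain ⟨hev, hqodd⟩ := hcase
    obtain ⟨m, hm⟩ := hev
    have hnm : n = 2 * m := by omega
    have hm2 : 2 ≤ m := by omega
    have hdiv : n / 2 = m := by omega
    have hodd₀ : Odd (Fintype.card F₀) := by rw [hF₀]; exact hqodd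
    have h2₀ : (2 : F₀) ≠ 0 := Cfsg.Agent.Lib.Helper44.FinSq.two_ne_zero_of_odd_card hodd₀
    have hoddF : Odd (Fintype.card F) := by rw [hF]; exact hqodd.pow
    have h2 : (2 : F) ≠ 0 := Cfsg.Agent.Lib.Helper44.FinSq.two_ne_zero_of_odd_card hoddF
    obtain ⟨g₁, g₂, g₃, a, b, haniso, hs₁, hs₂, hs₃, hnsq, c₁, c₂, c₃⟩ :=
      exists_reps (F := F₀) hodd₀ hm2 hnm
    rcases hh with hsym | hskew
    · -- orthogonal type
      obtain ⟨k, ki, Sg, hd, hS⟩ := desc_sym D ι hι h hsym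
      obtain ⟨eC⟩ := cent_psl hq hf hF hn D ι hι Sg hd
      have hnoiso : ¬ Nonempty (↥(Cfsg.inndiagPSU n F q ⊓ Subgroup.centralizer {gam D h}) ≃*
          Cfsg.PGSp (n / 2) F₀) := by
        rw [hdiv]
        rintro ⟨e⟩
        by_cases hsq : IsSquare ((g₂ : Matrix (Fin n) (Fin n) F₀).det
            * (Sg : Matrix (Fin n) (Fin n) F₀).det)
        · obtain ⟨T, hT, eT⟩ := cong_of_det h2₀ _ _ hs₂ hS (isUnit_det_coe g₂) (isUnit_det_coe Sg) hsq
          have hconj := Cfsg.Agent.Lib.Helper45.GraphOdd.conj_of_cong hn2 g₂ Sg T hT 1 one_ne_zero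
            (by rw [one_smul]; exact eT)
          obtain ⟨e₂⟩ := cent_iso_of_conj _ _ hconj c₂
          exact pgo_plus_not_pgsp h2₀ (by omega) ⟨e₂.symm.trans (eC.symm.trans e)⟩
        · have hsq' : IsSquare ((g₃ : Matrix (Fin n) (Fin n) F₀).det
              * (Sg : Matrix (Fin n) (Fin n) F₀).det) := by
            obtain ⟨r, hr⟩ := Cfsg.Agent.Lib.Helper44.FinSq.isSquare_mul_of_not_of_not hnsq hsq
            have hd0 : (g₂ : Matrix (Fin n) (Fin n) F₀).det ≠ 0 := (isUnit_det_coe g₂).ne_zero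
            refine ⟨r / (g₂ : Matrix (Fin n) (Fin n) F₀).det, ?_⟩
            field_simp
            linear_combination hr
          obtain ⟨T, hT, eT⟩ := cong_of_det h2₀ _ _ hs₃ hS (isUnit_det_coe g₃) (isUnit_det_coe Sg) hsq'
          have hconj := Cfsg.Agent.Lib.Helper45.GraphOdd.conj_of_cong hn2 g₃ Sg T hT 1 one_ne_zero
            (by rw [one_smul]; exact eT)
          obtain ⟨e₃⟩ := cent_iso_of_conj _ _ hconj c₃
          exact pgo_minus_not_pgsp h2₀ (by omega) a b haniso ⟨e₃.symm.trans (eC.symm.trans e)⟩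
      refine ⟨fun h => absurd h.2.2 hnoiso, fun _ => ?_, fun h => absurd ⟨⟨m, hm⟩, hqodd⟩ h⟩
      obtain ⟨M, hM⟩ : ∃ M, 2 * M = q + 1 := by
        obtain ⟨r, hr⟩ := hqodd
        exact ⟨r + 1, by omega⟩
      rw [count_sym hq hf hF hn h2 h2₀ hnm hM D ι hι hd hS, hnm, ← hM, Nat.gcd_mul_left,
        Nat.mul_div_cancel_left _ (by norm_num)]
    · -- symplectic type
      obtain ⟨k, ki, Sg, hd, hS⟩ := desc_skew D ι hι θ₀ hθ0 hθ h hskew
      obtain ⟨eC⟩ := cent_psl hq hf hF hn D ι hι Sg hd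
      have hiso : Nonempty (↥(Cfsg.inndiagPSU n F q ⊓ Subgroup.centralizer {gam D h}) ≃*
          Cfsg.PGSp (n / 2) F₀) := by
        rw [hdiv]
        obtain ⟨T, hT, eT⟩ := skew_cong h2₀ _ _ hs₁ hS (isUnit_det_coe g₁) (isUnit_det_coe Sg)
        have hconj := Cfsg.Agent.Lib.Helper45.GraphOdd.conj_of_cong hn2 g₁ Sg T hT 1 one_ne_zero
          (by rw [one_smul]; exact eT)
        obtain ⟨e₁⟩ := cent_iso_of_conj _ _ hconj c₁
        exact ⟨eC.trans e₁⟩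
      refine ⟨fun _ => ?_, fun h => absurd hiso h.2.2, fun h => absurd ⟨⟨m, hm⟩, hqodd⟩ h⟩
      rw [count_skew hq hf hF hn h2 h2₀ hnm D ι hι hd hS hskew, hdiv, Nat.gcd_comm]
  · refine ⟨fun h => absurd ⟨h.1, h.2.1⟩ hcase, fun h => absurd ⟨h.1, h.2.1⟩ hcase, fun _ => ?_⟩
    have hroot : ∀ d t : ↥(μ F q), d ^ 2 = t ^ n → ∃ s : ↥(μ F q), d = s ^ n := by
      by_cases hqe : Even q
      · exact fun d t h => root_even hq hf hF hn hqe d t h
      · have hno : Odd n := by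
          rw [← Nat.not_even_iff_odd]
          intro hev
          exact hcase ⟨hev, Nat.not_even_iff_odd.1 hqe⟩
        exact fun d t h => root_odd hq hf hF hn D hno d t h
    rw [count_general hq hf hF hn D h hroot, Nat.gcd_comm]

end Cfsg.Agent.S2709
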