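import Cfsg.Statements.S2710
import Cfsg.Agent.Lib.Helper45.UStd
import Cfsg.Agent.S2703
-- import your own Cfsg.Agent.* helpers here

set_option autoImplicit false
open Cfsg

namespace Cfsg.Agent.S2710

open Matrix Cfsg.Agent.Lib.Helper43.SUBase Cfsg.Agent.Lib.Helper43.SUAuts
  Cfsg.Agent.Lib.Helper43.SUInn Cfsg.Agent.Lib.Helper45.UGraph Cfsg.Agent.Lib.Helper45.UDescAlg
  Cfsg.Agent.Lib.Helper45.UDesc Cfsg.Agent.Lib.Helper45.UStd
open Cfsg.Agent.Lib.Helper40.HermAdj (adj adj_mul adj_one)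

/-- Let T = PSU_n(q) with n ≥ 4 divisible by 4 (n = 2m) and q odd, realised over the field F with q² elements, G = Inndiag(T) the image of PGU_n(q), and φ the standard field automorphism of T attached to the q-th power map of F (it induces inverse-transpose on the unitary matrices and is a graph automorphism). Its centralizer in G is isomorphic to the projective conformal orthogonal group of the plus-type form Σ xᵢ yᵢ in dimension n over a field F₀ with q elements. (Dimensions n ≡ 2 (mod 4) are not covered.) -/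
theorem result {F : Type*} [Field F] [Fintype F] {q : ℕ} (hodd : Odd q) (hF : Fintype.card F = q ^ 2) {n m : ℕ} (hm : 2 ≤ m) (hnm : n = 2 * m) (h4 : 4 ∣ n) (F₀ : Type*) [Field F₀] [Fintype F₀] (hF₀ : Fintype.card F₀ = q) (σ : F ≃+* F) (hσ : ∀ a : F, σ a = a ^ q) (φ : MulAut (Cfsg.PSU n F q)) (hφ : Cfsg.IsFieldAutPSUOf σ φ) :
    Nonempty (↥(Cfsg.inndiagPSU n F q ⊓ Subgroup.centralizer {φ}) ≃* Cfsg.PGO F₀ (Cfsg.quadFormPlus m F₀)) := by
  classical
  obtain ⟨p, f, hp, hq, hf⟩ := exists_pf hF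
  haveI : Fact p.Prime := ⟨hp⟩
  have hn : 3 ≤ n := by omega
  obtain ⟨D, -⟩ : ∃ D : QD F q, D = qd hF := ⟨_, rfl⟩
  obtain ⟨ι, hι⟩ := exists_ι hF hF₀ D
  have hσ' : σ = s0 D := by
    ext a
    rw [hσ, s0_apply, D.hφ]
  have hφ' : φ = gam D 1 := by
    rw [(isFieldOf_iff σ φ).1 hφ, hσ']
    unfold gam
    rw [map_one, one_mul]
  have hd : Desc D ι 1 (1 : ↥(Cfsg.GU n F q)) 1 1
      ((1 : GL (Fin n) F₀) : Matrix (Fin n) (Fin n) F₀) := by
    refine ⟨⟨Matrix.mul_one 1, Matrix.mul_one 1, ?_, one_ne_zero⟩, 1, one_ne_zero, ?_⟩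
    · rw [Units.val_one, map_one_ι, adj_one, Matrix.mul_one, one_smul, Matrix.mul_one]
    · rw [gm_one, adj_one]
      simp
  obtain ⟨e⟩ := cent_psl hq hf hF hn D ι hι 1 hd
  have hodd₀ : Odd (Fintype.card F₀) := by rw [hF₀]; exact hodd
  have hinv : Cfsg.IsInverseTransposeAutPSL
      (Cfsg.Agent.Lib.Helper43.PSLnAuts.cτ * Cfsg.Agent.Lib.Helper43.PSLnAuts.cGL (1 : GL (Fin n) F₀)) := by
    rw [map_one, mul_one]
    exact Cfsg.Agent.Lib.Helper43.PSLnPred.isInvTransp_cτ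
  have hEven : Even (n * (Fintype.card F₀ - 1) / 4) := by
    obtain ⟨j, hj⟩ := h4
    obtain ⟨i, hi⟩ := hodd
    rw [hF₀, hj, hi]
    have : 4 * j * (2 * i + 1 - 1) / 4 = j * (2 * i) := by
      rw [Nat.add_sub_cancel, Nat.mul_assoc, Nat.mul_div_cancel_left _ (by norm_num)]
    rw [this]
    exact ⟨j * i, by ring⟩
  obtain ⟨e'⟩ := (Cfsg.Agent.S2703.result (F := F₀) hodd₀ hm hnm _ hinv).1 hEven
  rw [hφ']
  exact ⟨e.trans e'⟩

end Cfsg.Agent.S2710
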