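import Cfsg.Statements.S2711
-- import your own Cfsg.Agent.* helpers here
import Cfsg.Agent.Lib.Helper43.SUCoset

set_option autoImplicit false
open Cfsg

namespace Cfsg.Agent.S2711

open Cfsg.Agent.Lib.Helper43.SUBase Cfsg.Agent.Lib.Helper43.SUAuts
  Cfsg.Agent.Lib.Helper43.SUInn Cfsg.Agent.Lib.Helper43.SUOut
  Cfsg.Agent.Lib.Helper43.SUField Cfsg.Agent.Lib.Helper43.SUCoset

/-- Let T = PSU_n(q) be simple (n ≥ 3, (n,q) ≠ (3,2)), realised over the field F with q² elements, and let x be a field automorphism of T (conjugate to a standard field automorphism of odd order) of prime order r. Then an element y of the coset Inndiag(T)·x (y = δ x with δ in the image of PGU_n(q)) has order r if and only if y is conjugate to x by an element of Inndiag(T). (T has no graph-field automorphisms.) -/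
theorem result {F : Type*} [Field F] [Fintype F] {p f q : ℕ} [Fact p.Prime] (hq : q = p ^ f) (hf : 1 ≤ f) (hF : Fintype.card F = q ^ 2) {n : ℕ} (hn : 3 ≤ n) (hs : ¬ (n = 3 ∧ q = 2)) (x δ : MulAut (Cfsg.PSU n F q)) (hx : Cfsg.IsFieldAutClassPSU x) {r : ℕ} (hr : r.Prime) (hxr : orderOf x = r) (hδ : δ ∈ Cfsg.inndiagPSU n F q) :
    orderOf (δ * x) = r ↔ Cfsg.IsConjUnder (Cfsg.inndiagPSU n F q) x (δ * x) := by
  constructor
  · intro hord
    obtain ⟨α, σ, hσ, hodd, rfl⟩ := field_normal_form x hx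
    have hN : (Cfsg.inndiagPSU n F q).Normal := inndiag_normal hq hf hF hn hs
    have hσr : orderOf σ = r := by
      rw [← hxr, ← orderOf_cσ hq hf hF hn σ]
      exact ((MulAut.conj α).orderOf_eq (cσ σ)).symm
    have hδ₀ : α⁻¹ * δ * α ∈ Cfsg.inndiagPSU n F q := by
      have h0 := hN.conj_mem δ hδ α⁻¹
      rwa [inv_inv] at h0
    obtain ⟨g, hg⟩ := (mem_inndiag_iff _).1 hδ₀
    have h1 : δ * (α * cσ σ * α⁻¹) = α * (cGU g * cσ σ) * α⁻¹ := by
      rw [← hg]
      group
    have h2 : (cGU g * cσ σ) ^ orderOf σ = 1 := by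
      have h3 : orderOf (cGU g * cσ σ) = r := by
        rw [← hord, h1]
        exact ((MulAut.conj α).orderOf_eq _).symm
      rw [hσr, ← h3]
      exact pow_orderOf_eq_one _
    obtain ⟨-, S, -⟩ := sub_of_odd hq hF (qd hF) σ hodd
    obtain ⟨h, hh⟩ := field_conj hq hf hF hn S g h2
    rw [h1, hh]
    refine ⟨α * cGU h * α⁻¹, hN.conj_mem _ (cGU_mem_inndiag h) α, ?_⟩
    group
  · rintro ⟨h, -, heq⟩
    rw [heq, ← hxr]
    exact (MulAut.conj h).orderOf_eq x

end Cfsg.Agent.S2711
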