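import Cfsg.Statements.S2712
-- import your own Cfsg.Agent.* helpers here
import Cfsg.Agent.Lib.Helper43.SpFieldCent
import Cfsg.Agent.Lib.Helper43.CycIndex

set_option autoImplicit false
open Cfsg

namespace Cfsg.Agent.S2712

open Cfsg.Agent.Lib.Helper43.SpBasic Cfsg.Agent.Lib.Helper43.SpAuts
  Cfsg.Agent.Lib.Helper43.SpGSp Cfsg.Agent.Lib.Helper43.SpInn
  Cfsg.Agent.Lib.Helper43.SplitCount Cfsg.Agent.Lib.Helper43.SplitCountN
  Cfsg.Agent.Lib.Helper43.H90GL Cfsg.Agent.Lib.Helper43.H90Fin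
  Cfsg.Agent.Lib.Helper43.SpFieldCent Cfsg.Agent.Lib.Helper43.PSLnOut
  Cfsg.Agent.Lib.Helper43.CycIndex

theorem gcd_two (n : ℕ) : Nat.gcd 2 n = 2 - n % 2 := by
  rw [Nat.gcd_rec]
  rcases Nat.mod_two_eq_zero_or_one n with h | h <;> rw [h] <;> rfl

theorem gcd_arith (p f r : ℕ) (hp : p.Prime) (hr : r.Prime) (hdvd : r ∣ f) (hf : 1 ≤ f) :
    Nat.gcd 2 ((p ^ f - 1) / (p ^ (f / r) - 1)) = Nat.gcd (Nat.gcd 2 (p ^ f - 1)) r := by
  obtain ⟨k, rfl⟩ := hdvd
  have hk : 1 ≤ k := by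
    rcases k with _ | k
    · simp at hf
    · omega
  rw [Nat.mul_div_cancel_left k hr.pos]
  have hq : 2 ≤ p ^ k := le_trans hp.two_le (Nat.le_self_pow (by omega) p)
  have h1 : p ^ (r * k) = (p ^ k) ^ r := by rw [← pow_mul, mul_comm]
  rw [h1, ← Nat.geomSum_eq hq r, gcd_two, gcd_two ((p ^ k) ^ r - 1)]
  have hr1 : 1 ≤ r := hr.pos
  rcases Nat.mod_two_eq_zero_or_one p with h2 | h2
  · have hq2 : (p ^ k) % 2 = 0 := by
      rw [Nat.pow_mod, h2, Nat.zero_pow (by omega)]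
    have hS : (∑ i ∈ Finset.range r, (p ^ k) ^ i) % 2 = 1 := by
      obtain ⟨r', rfl⟩ : ∃ r', r = r' + 1 := ⟨r - 1, by omega⟩
      rw [Finset.sum_range_succ', pow_zero, Nat.add_mod, Finset.sum_nat_mod]
      have h3 : ∀ i ∈ Finset.range r', (p ^ k) ^ (i + 1) % 2 = 0 := by
        intro i _
        rw [Nat.pow_mod, hq2, Nat.zero_pow (by omega)]
      rw [Finset.sum_congr rfl h3]
      simp
    have hT : ((p ^ k) ^ r - 1) % 2 = 1 := by
      have h3 : ((p ^ k) ^ r) % 2 = 0 := by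
        rw [Nat.pow_mod, hq2, Nat.zero_pow (by omega)]
      have h4 : 1 ≤ (p ^ k) ^ r := Nat.one_le_pow _ _ (by omega)
      omega
    rw [hS, hT]
    simp
  · have hq2 : (p ^ k) % 2 = 1 := by
      rw [Nat.pow_mod, h2, one_pow]
      rfl
    have hS : (∑ i ∈ Finset.range r, (p ^ k) ^ i) % 2 = r % 2 := by
      rw [Finset.sum_nat_mod]
      have h3 : ∀ i ∈ Finset.range r, (p ^ k) ^ i % 2 = 1 := by
        intro i _
        rw [Nat.pow_mod, hq2, one_pow]
        rfl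
      rw [Finset.sum_congr rfl h3]
      simp
    have hT : ((p ^ k) ^ r - 1) % 2 = 0 := by
      have h3 : ((p ^ k) ^ r) % 2 = 1 := by
        rw [Nat.pow_mod, hq2, one_pow]
        rfl
      omega
    rw [hS, hT, gcd_two]

/-- Let T = PSp_{2m}(F) be simple over the field F with p^f elements (m ≥ 2, (2m, |F|) ≠ (4, 2)), G = Inndiag(T) the image of the projective conformal symplectic group PGSp_{2m}(F), and x a field automorphism of T of prime order r. Then r divides f; C_G(x) is isomorphic to PGSp_{2m}(F₀) for a field F₀ with p^(f/r) elements; and the G-class of x is the union of exactly gcd(gcd(2, p^f − 1), r) T-classes. -/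
theorem result {F : Type*} [Field F] [Fintype F] {p f : ℕ} [Fact p.Prime] (hF : Fintype.card F = p ^ f) (hf : 1 ≤ f) {m : ℕ} (hm : 2 ≤ m) (hs : m = 2 → 3 ≤ Fintype.card F) (x : MulAut (Cfsg.PSp m F)) (hx : Cfsg.IsFieldAutClassPSp x) {r : ℕ} (hr : r.Prime) (hxr : orderOf x = r) (F₀ : Type*) [Field F₀] [Fintype F₀] (hF₀ : Fintype.card F₀ = p ^ (f / r)) :
    r ∣ f ∧ Nonempty (↥(Cfsg.inndiagPSp m F ⊓ Subgroup.centralizer {x}) ≃* Cfsg.PGSp m F₀) ∧ Cfsg.splitClassCount (Cfsg.inndiagPSp m F) (Cfsg.Inn (Cfsg.PSp m F)) x = Nat.gcd (Nat.gcd 2 (p ^ f - 1)) r := by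
  obtain ⟨α, σ, hσ, rfl⟩ := field_normal_form x hx
  have hp : p.Prime := Fact.out
  haveI : CharP F p := charP_of_card hf hF
  have hm1 : 1 ≤ m := by omega
  have hpos : 0 < orderOf σ := orderOf_pos_ringAut σ
  have hord : orderOf σ = r := by
    rw [← hxr, ← orderOf_cσ hm1 p σ]
    exact ((MulAut.conj α).orderOf_eq (cσ σ)).symm
  have hdvd : r ∣ f := by
    have h1 := (ringAut_cyclic_card hf hF).2
    rw [← hord, ← h1]
    exact orderOf_dvd_natCard σ
  have hcardF : Nat.card F = p ^ f := by rw [Nat.card_eq_fintype_card, hF]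
  have hq₀ : Nat.card (fixF σ) = p ^ (f / r) := by
    have h1 := card_fixF σ
    rw [hord, hcardF] at h1
    have h2 : Nat.card (fixF σ) ∣ p ^ f := by
      rw [← h1]
      exact dvd_pow_self _ hr.ne_zero
    obtain ⟨k, hk, hk2⟩ := (Nat.dvd_prime_pow hp).1 h2
    rw [hk2, ← pow_mul] at h1
    have h3 : k * r = f := Nat.pow_right_injective hp.two_le h1
    rw [hk2]
    congr 1
    exact (Nat.div_eq_of_eq_mul_left hr.pos h3.symm).symm
  have hN : (Cfsg.inndiagPSp m F).Normal := inndiag_normal hm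
  refine ⟨hdvd, ?_, ?_⟩
  · haveI := Fintype.ofFinite (fixF σ)
    have hc : Fintype.card (fixF σ) = Fintype.card F₀ := by
      rw [hF₀, ← hq₀, Nat.card_eq_fintype_card]
    obtain ⟨e⟩ : Nonempty (↥(fixF σ) ≃+* F₀) := ⟨FiniteField.ringEquivOfCardEq hc⟩
    obtain ⟨φ, hφ⟩ : ∃ φ : F₀ →+* F, ∀ b, φ b = ((e.symm b : fixF σ) : F) :=
      ⟨(fixF σ).subtype.comp (e.symm : F₀ →+* ↥(fixF σ)), fun b => rfl⟩
    have hφ2 : ∀ a, σ a = a ↔ ∃ b, φ b = a := by
      intro a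
      constructor
      · intro ha
        refine ⟨e ⟨a, (mem_fixF σ a).2 ha⟩, ?_⟩
        rw [hφ, RingEquiv.symm_apply_apply]
      · rintro ⟨b, rfl⟩
        rw [hφ]
        exact (mem_fixF σ _).1 (e.symm b).2
    obtain ⟨e1⟩ := centralizer_field hm1 p σ hpos φ hφ2
    obtain ⟨e2⟩ := centralizer_conj_equiv_normal (Cfsg.inndiagPSp m F) hN (cσ σ) α
    exact ⟨e2.symm.trans e1⟩
  · rw [splitClassCount_conj_normal _ _ hN (inn_normal _), splitCount_field hm1 p σ hpos,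
      index_sup_pow 2 ((p ^ f - 1) / (p ^ (f / r) - 1))]
    · exact gcd_arith p f r hp hr hdvd hf
    · rw [card_ker_thU, Nat.card_units, hq₀, hcardF]
      apply Nat.mul_div_cancel'
      have h1 := card_fixF_sub_one_dvd σ
      rw [hq₀, hcardF] at h1
      exact h1

end Cfsg.Agent.S2712
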