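import Cfsg.Statements.S2713
-- import your own Cfsg.Agent.* helpers here
import Cfsg.Agent.Lib.Helper43.SpCoset

set_option autoImplicit false
open Cfsg

namespace Cfsg.Agent.S2713

open Cfsg.Agent.Lib.Helper43.SpBasic Cfsg.Agent.Lib.Helper43.SpAuts
  Cfsg.Agent.Lib.Helper43.SpGSp Cfsg.Agent.Lib.Helper43.SpInn
  Cfsg.Agent.Lib.Helper43.SpCoset

/-- Let T = PSp_{2m}(F) be simple over a finite field (m ≥ 2, (2m, |F|) ≠ (4, 2)) and let x be a field automorphism of T of prime order r. Then an element y of the coset Inndiag(T)·x (y = δ x with δ in the image of the projective conformal symplectic group) has order r if and only if y is conjugate to x by an element of Inndiag(T). -/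
theorem result {F : Type*} [Field F] [Fintype F] {m : ℕ} (hm : 2 ≤ m) (hs : m = 2 → 3 ≤ Fintype.card F) (x δ : MulAut (Cfsg.PSp m F)) (hx : Cfsg.IsFieldAutClassPSp x) {r : ℕ} (hr : r.Prime) (hxr : orderOf x = r) (hδ : δ ∈ Cfsg.inndiagPSp m F) :
    orderOf (δ * x) = r ↔ Cfsg.IsConjUnder (Cfsg.inndiagPSp m F) x (δ * x) := by
  constructor
  · intro hord
    obtain ⟨α, σ, hσ, rfl⟩ := field_normal_form x hx
    obtain ⟨p, hp⟩ := CharP.exists F
    haveI := hp
    haveI : Fact p.Prime := ⟨CharP.char_is_prime F p⟩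
    have hm1 : 1 ≤ m := by omega
    have hN : (Cfsg.inndiagPSp m F).Normal := inndiag_normal hm
    have hσr : orderOf σ = r := by
      rw [← hxr, ← orderOf_cσ hm1 p σ]
      exact ((MulAut.conj α).orderOf_eq (cσ σ)).symm
    have hδ₀ : α⁻¹ * δ * α ∈ Cfsg.inndiagPSp m F := by
      have h0 := hN.conj_mem δ hδ α⁻¹
      rwa [inv_inv] at h0
    obtain ⟨g, hg⟩ := (mem_inndiag_iff _).1 hδ₀
    have h1 : δ * (α * cσ σ * α⁻¹) = α * (cGSp g * cσ σ) * α⁻¹ := by
      rw [← hg]
      group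
    have h2 : (cGSp g * cσ σ) ^ orderOf σ = 1 := by
      have h3 : orderOf (cGSp g * cσ σ) = r := by
        rw [← hord, h1]
        exact ((MulAut.conj α).orderOf_eq _).symm
      rw [hσr, ← h3]
      exact pow_orderOf_eq_one _
    obtain ⟨h, hh⟩ := field_conj hm1 p σ g h2
    rw [h1, hh]
    refine ⟨α * cGSp h * α⁻¹, hN.conj_mem _ (cGSp_mem_inndiag h) α, ?_⟩
    group
  · rintro ⟨h, -, heq⟩
    rw [heq, ← hxr]
    exact (MulAut.conj h).orderOf_eq x

end Cfsg.Agent.S2713
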