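import Cfsg.Statements.S2722
import Cfsg.Agent.Lib.Helper45.OmegaAutSim

set_option autoImplicit false
open Cfsg

namespace Cfsg.Agent.S2722

/-- Let T = PΩ⁺_{2m}(F) with m ≥ 4 and |F| = q odd. Inside Aut(T), the image G̃ of the conformal orthogonal group of the form modulo the image of the special orthogonal group is elementary abelian of order 4. -/
theorem result {F : Type*} [Field F] [Fintype F] (hodd : Odd (Fintype.card F)) {m : ℕ} (hm : 4 ≤ m) :
    (∃ φ : ↥(Cfsg.pgoAut F (Cfsg.quadFormPlus m F)) →* Multiplicative (ZMod 2 × ZMod 2), Function.Surjective φ ∧ φ.ker = (Cfsg.psoAut F (Cfsg.quadFormPlus m F)).subgroupOf (Cfsg.pgoAut F (Cfsg.quadFormPlus m F))) := by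
  have h2 : (2 : F) ≠ 0 := Cfsg.Agent.Lib.Helper44.FinSq.two_ne_zero_of_odd_card hodd
  have hcardι : Fintype.card (Fin m ⊕ Fin m) = 2 * m := by
    simp only [Fintype.card_sum, Fintype.card_fin]; omega
  exact Cfsg.Agent.Lib.Helper45.OmegaAutMain.pgo_mod_pso
    (Cfsg.Agent.Lib.Helper44.NegPairs.plusQ m F) h2
    (Cfsg.Agent.Lib.Helper44.NegPairs.sep_plusQ m) hcardι (by rw [hcardι]; omega)
    (Cfsg.Agent.Lib.Helper45.OmegaAutSim.plus_sim h2 m (by omega))

end Cfsg.Agent.S2722
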