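import Cfsg.Statements.S2723
import Cfsg.Agent.Lib.Helper45.OmegaAutIdx
import Cfsg.Agent.S0790

set_option autoImplicit false
open Cfsg

namespace Cfsg.Agent.S2723

/-- Let T = PΩ⁺_{2m}(F) with m ≥ 4 and |F| = q odd. The image of the special orthogonal group in Aut(T) contains the inner automorphism group T with index 1 (they coincide) when m is odd and q ≡ 3 (mod 4), and with index 2 otherwise (the index is 2 exactly when the discriminant of the form is a square). -/
theorem result {F : Type*} [Field F] [Fintype F] (hodd : Odd (Fintype.card F)) {m : ℕ} (hm : 4 ≤ m) :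
    ((Odd m ∧ Fintype.card F % 4 = 3) → (Cfsg.Inn (Cfsg.POmega F (Cfsg.quadFormPlus m F))).relIndex (Cfsg.psoAut F (Cfsg.quadFormPlus m F)) = 1) ∧ (¬ (Odd m ∧ Fintype.card F % 4 = 3) → (Cfsg.Inn (Cfsg.POmega F (Cfsg.quadFormPlus m F))).relIndex (Cfsg.psoAut F (Cfsg.quadFormPlus m F)) = 2) := by
  have h2 : (2 : F) ≠ 0 := Cfsg.Agent.Lib.Helper44.FinSq.two_ne_zero_of_odd_card hodd
  have hcardι : Fintype.card (Fin m ⊕ Fin m) = 2 * m := by
    simp only [Fintype.card_sum, Fintype.card_fin]; omega
  have key := Cfsg.Agent.Lib.Helper45.OmegaAutIdx.relIndex_inn_pso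
    (Cfsg.Agent.Lib.Helper44.NegPairs.plusQ m F) h2
    (Cfsg.Agent.Lib.Helper44.NegPairs.sep_plusQ m) hcardι (by rw [hcardι]; omega)
  have hiff := Cfsg.Agent.S0790.result (F := F) rfl hodd m (by omega)
  have hnum := Cfsg.Agent.Lib.Helper44.NegPairs.pow_mod_four_iff hodd m
  constructor
  · rintro ⟨hm1, hq3⟩
    apply key.2
    intro hneg
    have h1 := hnum.mp (hiff.mp hneg)
    rcases h1 with h | h
    · exact (Nat.not_even_iff_odd.mpr hm1) h
    · exact h hq3
  · intro hcond
    apply key.1
    apply hiff.mpr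
    apply hnum.mpr
    by_cases hq3 : Fintype.card F % 4 = 3
    · left
      rw [← Nat.not_odd_iff_even]
      intro hm1
      exact hcond ⟨hm1, hq3⟩
    · right; exact hq3

end Cfsg.Agent.S2723
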