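import Cfsg.Statements.S2726
import Cfsg.Agent.Lib.Helper45.OmegaAutSim

set_option autoImplicit false
open Cfsg

namespace Cfsg.Agent.S2726

/-- Let T = PΩ⁻_{2m+2}(F) with m ≥ 3 and |F| = q odd (form with anisotropic binary part). Inside Aut(T), the image G̃ of the conformal orthogonal group of the form modulo the image of the special orthogonal group is elementary abelian of order 4. -/
theorem result {F : Type*} [Field F] [Fintype F] (hodd : Odd (Fintype.card F)) {m : ℕ} (hm : 3 ≤ m) (a b : F) (hab : (∀ z₁ z₂ : F, z₁ ^ 2 + a * z₁ * z₂ + b * z₂ ^ 2 = 0 → z₁ = 0 ∧ z₂ = 0)) :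
    (∃ φ : ↥(Cfsg.pgoAut F (Cfsg.quadFormMinus m F a b)) →* Multiplicative (ZMod 2 × ZMod 2), Function.Surjective φ ∧ φ.ker = (Cfsg.psoAut F (Cfsg.quadFormMinus m F a b)).subgroupOf (Cfsg.pgoAut F (Cfsg.quadFormMinus m F a b))) := by
  have h2 : (2 : F) ≠ 0 := Cfsg.Agent.Lib.Helper44.FinSq.two_ne_zero_of_odd_card hodd
  have hcardι : Fintype.card ((Fin m ⊕ Fin m) ⊕ Fin 2) = 2 * (m + 1) := by
    simp only [Fintype.card_sum, Fintype.card_fin]; omega
  exact Cfsg.Agent.Lib.Helper45.OmegaAutMain.pgo_mod_pso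
    (Cfsg.Agent.Lib.Helper44.NegPairs.minusQ m F a b) h2
    (Cfsg.Agent.Lib.Helper44.NegPairs.sep_minusQ h2 m a b hab) hcardι (by rw [hcardι]; omega)
    (Cfsg.Agent.Lib.Helper45.OmegaAutSim.minus_sim h2 m a b hab)

end Cfsg.Agent.S2726
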