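import Cfsg.Statements.S2727
import Cfsg.Agent.Lib.Helper45.OmegaAutIdx
import Cfsg.Agent.S0791

set_option autoImplicit false
open Cfsg

namespace Cfsg.Agent.S2727

theorem minus_cond {q : ℕ} (hodd : Odd q) (m : ℕ) :
    q ^ (m + 1) % 4 = 3 ↔ (Even m ∧ q % 4 = 3) := by
  have hnum := Cfsg.Agent.Lib.Helper44.NegPairs.pow_mod_four_iff hodd (m + 1)
  have h13 : q ^ (m + 1) % 4 = 1 ∨ q ^ (m + 1) % 4 = 3 := by
    have : q ^ (m + 1) % 2 = 1 := by
      rw [Nat.pow_mod, Nat.odd_iff.mp hodd]; simp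
    omega
  constructor
  · intro h3
    have hn1 : ¬ (Even (m + 1) ∨ q % 4 ≠ 3) := by
      intro h
      have := hnum.mpr h
      omega
    push Not at hn1
    refine ⟨?_, hn1.2⟩
    have := hn1.1
    rw [Nat.not_even_iff_odd] at this
    rcases this with ⟨j, hj⟩
    exact ⟨j, by omega⟩
  · rintro ⟨⟨j, hj⟩, hq3⟩
    rcases h13 with h | h
    · rcases hnum.mp h with h' | h'
      · exfalso
        rcases h' with ⟨i, hi⟩
        omega
      · exact absurd hq3 h'
    · exact h


/-- Let T = PΩ⁻_{2m+2}(F) with m ≥ 3 and |F| = q odd (form with anisotropic binary part). The image of the special orthogonal group in Aut(T) contains the inner automorphism group T with index 2 when m is even and q ≡ 3 (mod 4), and coincides with it otherwise (the index is 2 exactly when the discriminant of the form is a square). -/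
theorem result {F : Type*} [Field F] [Fintype F] (hodd : Odd (Fintype.card F)) {m : ℕ} (hm : 3 ≤ m) (a b : F) (hab : (∀ z₁ z₂ : F, z₁ ^ 2 + a * z₁ * z₂ + b * z₂ ^ 2 = 0 → z₁ = 0 ∧ z₂ = 0)) :
    ((Even m ∧ Fintype.card F % 4 = 3) → (Cfsg.Inn (Cfsg.POmega F (Cfsg.quadFormMinus m F a b))).relIndex (Cfsg.psoAut F (Cfsg.quadFormMinus m F a b)) = 2) ∧ (¬ (Even m ∧ Fintype.card F % 4 = 3) → (Cfsg.Inn (Cfsg.POmega F (Cfsg.quadFormMinus m F a b))).relIndex (Cfsg.psoAut F (Cfsg.quadFormMinus m F a b)) = 1) := by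
  have h2 : (2 : F) ≠ 0 := Cfsg.Agent.Lib.Helper44.FinSq.two_ne_zero_of_odd_card hodd
  have hcardι : Fintype.card ((Fin m ⊕ Fin m) ⊕ Fin 2) = 2 * (m + 1) := by
    simp only [Fintype.card_sum, Fintype.card_fin]; omega
  have key := Cfsg.Agent.Lib.Helper45.OmegaAutIdx.relIndex_inn_pso
    (Cfsg.Agent.Lib.Helper44.NegPairs.minusQ m F a b) h2
    (Cfsg.Agent.Lib.Helper44.NegPairs.sep_minusQ h2 m a b hab) hcardι (by rw [hcardι]; omega)
  have hiff := Cfsg.Agent.S0791.result (F := F) rfl hodd (m + 1) (by omega) a b hab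
  have hnum := minus_cond hodd m
  constructor
  · intro hcond
    exact key.1 (hiff.mpr (hnum.mpr hcond))
  · intro hcond
    apply key.2
    intro hneg
    exact hcond (hnum.mp (hiff.mp hneg))

end Cfsg.Agent.S2727
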