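import Cfsg.Statements.S2738
import Mathlib

set_option autoImplicit false
open Cfsg

namespace Cfsg.Agent.S2738

/-- The special linear group SL(3, 4) has centre of order 3 and does not split over it: no subgroup is a complement to the centre (so SL(3, 4) is a non-split central extension of PSL(3, 4) by a group of order 3). -/
theorem result (F : Type*) [Field F] [Fintype F] (hF : Fintype.card F = 4) : Nat.card ↥(Subgroup.center (Matrix.SpecialLinearGroup (Fin 3) F)) = 3 ∧ ¬ ∃ K : Subgroup (Matrix.SpecialLinearGroup (Fin 3) F), Subgroup.IsComplement' (Subgroup.center (Matrix.SpecialLinearGroup (Fin 3) F)) K := by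
  classical
  have hcardU : Fintype.card Fˣ = 3 := by
    rw [Fintype.card_units, hF]
  constructor
  · rw [Nat.card_congr (Matrix.SpecialLinearGroup.center_equiv_rootsOfUnity (n := Fin 3) (R := F)).toEquiv]
    have hmax : max (Fintype.card (Fin 3)) 1 = 3 := by simp
    rw [hmax]
    have htop : rootsOfUnity 3 F = ⊤ := by
      rw [eq_top_iff]
      intro u _
      rw [mem_rootsOfUnity]
      have := pow_card_eq_one (x := u)
      rw [hcardU] at this
      exact this
    rw [htop, Nat.card_congr Subgroup.topEquiv.toEquiv, Nat.card_eq_fintype_card, hcardU]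
  · rintro ⟨K, hK⟩
    -- a unit of order 3
    obtain ⟨u, hu⟩ : ∃ u : Fˣ, u ≠ 1 := by
      have : Nontrivial Fˣ := by
        rw [← Fintype.one_lt_card_iff_nontrivial, hcardU]; norm_num
      exact exists_ne 1
    have hu3 : (u : F) ^ 3 = 1 := by
      have := pow_card_eq_one (x := u)
      rw [hcardU] at this
      have h2 := congrArg (fun v : Fˣ => (v : F)) this
      simpa using h2
    have hu1 : (u : F) ≠ 1 := by
      intro h; apply hu; ext; simpa using h
    set ω : F := (u : F) with hω
    -- the three matrices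
    let A : Matrix.SpecialLinearGroup (Fin 3) F :=
      ⟨!![1, 0, 0; 0, ω, 0; 0, 0, ω ^ 2], by
        rw [Matrix.det_fin_three]; simp; linear_combination hu3⟩
    let P : Matrix.SpecialLinearGroup (Fin 3) F :=
      ⟨!![0, 1, 0; 0, 0, 1; 1, 0, 0], by
        rw [Matrix.det_fin_three]; simp⟩
    let z : Matrix.SpecialLinearGroup (Fin 3) F :=
      ⟨!![ω, 0, 0; 0, ω, 0; 0, 0, ω], by
        rw [Matrix.det_fin_three]; simp; linear_combination hu3⟩
    have hzc : z ∈ Subgroup.center (Matrix.SpecialLinearGroup (Fin 3) F) := by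
      rw [Matrix.SpecialLinearGroup.mem_center_iff]
      refine ⟨ω, by simpa using hu3, ?_⟩
      ext i j
      fin_cases i <;> fin_cases j <;> simp [z, Matrix.scalar, Matrix.diagonal]
    have hz1 : z ≠ 1 := by
      intro h
      have := congrArg (fun M : Matrix.SpecialLinearGroup (Fin 3) F => (M : Matrix (Fin 3) (Fin 3) F) 0 0) h
      simp [z] at this
      exact hu1 this
    have hrel : P * A = z * A * P := by
      apply Subtype.ext
      simp only [Matrix.SpecialLinearGroup.coe_mul]
      show (!![0, 1, 0; 0, 0, 1; 1, 0, 0] : Matrix (Fin 3) (Fin 3) F) * !![1, 0, 0; 0, ω, 0; 0, 0, ω ^ 2]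
        = !![ω, 0, 0; 0, ω, 0; 0, 0, ω] * !![1, 0, 0; 0, ω, 0; 0, 0, ω ^ 2] * !![0, 1, 0; 0, 0, 1; 1, 0, 0]
      ext i j
      fin_cases i <;> fin_cases j <;>
        simp [Matrix.mul_apply, Fin.sum_univ_three] <;> first | ring1 | linear_combination hu3 | linear_combination (-1 : F) * hu3
    -- K is normal
    have hKn : K.Normal := by
      constructor
      intro n hn g
      obtain ⟨⟨c, k⟩, hck, -⟩ := (Subgroup.isComplement'_def.1 hK).existsUnique g
      simp only at hck
      have hc : ∀ g : Matrix.SpecialLinearGroup (Fin 3) F, g * (c : Matrix.SpecialLinearGroup (Fin 3) F) = (c : Matrix.SpecialLinearGroup (Fin 3) F) * g :=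
        fun g => Subgroup.mem_center_iff.1 c.2 g
      have : g * n * g⁻¹ = (k : Matrix.SpecialLinearGroup (Fin 3) F) * n * (k : Matrix.SpecialLinearGroup (Fin 3) F)⁻¹ := by
        rw [← hck]
        have h1 := hc ((k : Matrix.SpecialLinearGroup (Fin 3) F) * n * (k : Matrix.SpecialLinearGroup (Fin 3) F)⁻¹)
        calc (c : Matrix.SpecialLinearGroup (Fin 3) F) * k * n * ((c : Matrix.SpecialLinearGroup (Fin 3) F) * k)⁻¹
            = (c : Matrix.SpecialLinearGroup (Fin 3) F) * ((k : Matrix.SpecialLinearGroup (Fin 3) F) * n * (k : Matrix.SpecialLinearGroup (Fin 3) F)⁻¹) * (c : Matrix.SpecialLinearGroup (Fin 3) F)⁻¹ := by group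
          _ = ((k : Matrix.SpecialLinearGroup (Fin 3) F) * n * (k : Matrix.SpecialLinearGroup (Fin 3) F)⁻¹) * (c : Matrix.SpecialLinearGroup (Fin 3) F) * (c : Matrix.SpecialLinearGroup (Fin 3) F)⁻¹ := by rw [h1]
          _ = _ := by group
      rw [this]
      exact K.mul_mem (K.mul_mem k.2 hn) (K.inv_mem k.2)
    have hidx : K.index = 3 := by
      rw [hK.index_eq_card, Nat.card_congr (Matrix.SpecialLinearGroup.center_equiv_rootsOfUnity (n := Fin 3) (R := F)).toEquiv]
      have hmax : max (Fintype.card (Fin 3)) 1 = 3 := by simp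
      rw [hmax]
      have htop : rootsOfUnity 3 F = ⊤ := by
        rw [eq_top_iff]
        intro u _
        rw [mem_rootsOfUnity]
        have := pow_card_eq_one (x := u)
        rw [hcardU] at this
        exact this
      rw [htop, Nat.card_congr Subgroup.topEquiv.toEquiv, Nat.card_eq_fintype_card, hcardU]
    have hcardQ : Nat.card (Matrix.SpecialLinearGroup (Fin 3) F ⧸ K) = 3 := by
      rw [← Subgroup.index_eq_card]; exact hidx
    have : Fact (Nat.Prime 3) := ⟨by norm_num⟩
    have hcyc : IsCyclic (Matrix.SpecialLinearGroup (Fin 3) F ⧸ K) := isCyclic_of_prime_card hcardQ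
    have hcomm : ∀ a b : Matrix.SpecialLinearGroup (Fin 3) F ⧸ K, a * b = b * a := by
      intro a b
      let _ := hcyc.commGroup
      exact mul_comm a b
    have hzK : z ∈ K := by
      have hz : z = P * A * P⁻¹ * A⁻¹ := by
        rw [hrel]; group
      rw [← QuotientGroup.eq_one_iff, hz]
      simp only [QuotientGroup.mk_mul, QuotientGroup.mk_inv]
      rw [hcomm (P : Matrix.SpecialLinearGroup (Fin 3) F ⧸ K) A]
      group
    have hdisj := hK.disjoint
    have := hdisj.le_bot (show z ∈ Subgroup.center (Matrix.SpecialLinearGroup (Fin 3) F) ⊓ K from ⟨hzc, hzK⟩)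
    rw [Subgroup.mem_bot] at this
    exact hz1 this

end Cfsg.Agent.S2738
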