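import Cfsg.Statements.S2760
import Cfsg.Agent.Lib.Helper46.PCore

set_option autoImplicit false
open Cfsg

namespace Cfsg.Agent.S2760

open Cfsg.Agent.Lib.Helper46.PCore in
theorem lemmaA {G : Type*} [Group G] [Finite G]
    (hchar : Subgroup.centralizer (Cfsg.pCore 2 G : Set G) ≤ Cfsg.pCore 2 G)
    (H : Subgroup G) (hH : H.Normal) :
    H ⊓ Subgroup.centralizer (Cfsg.pCoreOf 2 H : Set G) ≤ Cfsg.pCoreOf 2 H := by
  have : Fact (Nat.Prime 2) := ⟨Nat.prime_two⟩
  have hQp : IsPGroup 2 (Cfsg.pCore 2 G) := pCore_isPGroup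
  have hQn : (Cfsg.pCore 2 G).Normal := Cfsg.pCore_normal 2 G
  have hQHn : (Cfsg.pCoreOf 2 H).Normal := pCoreOf_normal_of_normal hH
  have h1 : Cfsg.pCore 2 G ⊓ H ≤ Cfsg.pCoreOf 2 H := by
    apply le_pCoreOf inf_le_right
    · intro h hh n hn
      exact ⟨hQn.conj_mem n hn.1 h, H.mul_mem (H.mul_mem hh hn.2) (H.inv_mem hh)⟩
    · exact hQp.to_le inf_le_left
  have h2 : ∀ d ∈ H ⊓ Subgroup.centralizer (Cfsg.pCoreOf 2 H : Set G), (orderOf d).Coprime 2 → d = 1 := by
    intro d hd hcop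
    have hdQ : d ∈ Subgroup.centralizer (Cfsg.pCore 2 G : Set G) := by
      rw [Subgroup.mem_centralizer_iff]
      intro q hq
      have hcQ : q⁻¹ * (d * q * d⁻¹) ∈ Cfsg.pCore 2 G :=
        (Cfsg.pCore 2 G).mul_mem ((Cfsg.pCore 2 G).inv_mem hq) (hQn.conj_mem q hq d)
      have hcH : q⁻¹ * (d * q * d⁻¹) ∈ H := by
        have : q⁻¹ * (d * q * d⁻¹) = (q⁻¹ * d * q⁻¹⁻¹) * d⁻¹ := by group
        rw [this]
        exact H.mul_mem (hH.conj_mem d hd.1 q⁻¹) (H.inv_mem hd.1)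
      have hcQH : q⁻¹ * (d * q * d⁻¹) ∈ Cfsg.pCoreOf 2 H := h1 ⟨hcQ, hcH⟩
      have hdc : (q⁻¹ * (d * q * d⁻¹)) * d = d * (q⁻¹ * (d * q * d⁻¹)) :=
        (Subgroup.mem_centralizer_iff.1 hd.2) _ hcQH
      generalize hc : q⁻¹ * (d * q * d⁻¹) = c at hcQ hdc
      have hdq : d * q * d⁻¹ = q * c := by rw [← hc]; group
      have hpow : ∀ k : ℕ, d ^ k * q * (d ^ k)⁻¹ = q * c ^ k := by
        intro k
        induction k with
        | zero => simp
        | succ k ih =>
          have e1 : d ^ (k + 1) * q * (d ^ (k + 1))⁻¹ = d * (d ^ k * q * (d ^ k)⁻¹) * d⁻¹ := by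
            rw [pow_succ']; group
          rw [e1, ih]
          have hdck : d * c ^ k * d⁻¹ = c ^ k := by
            have hcomm : Commute d (c ^ k) := (show Commute d c from hdc.symm).pow_right k
            rw [hcomm.eq]; group
          calc d * (q * c ^ k) * d⁻¹ = (d * q * d⁻¹) * (d * c ^ k * d⁻¹) := by group
            _ = (q * c) * c ^ k := by rw [hdck, hdq]
            _ = q * c ^ (k + 1) := by rw [pow_succ']; group
      have h3 := hpow (orderOf d)
      rw [pow_orderOf_eq_one] at h3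
      have h3' : c ^ orderOf d = 1 := by
        have : q * c ^ orderOf d = q * 1 := by rw [← h3]; group
        exact mul_left_cancel this
      have hc1 : c = 1 := by
        obtain ⟨k, hk⟩ := hQp ⟨c, hcQ⟩
        have hk' : c ^ (2 ^ k) = 1 := by
          have := congrArg Subtype.val hk
          simpa using this
        have hcop' : Nat.Coprime (orderOf d) (2 ^ k) := Nat.Coprime.pow_right k hcop
        have := (pow_gcd_eq_one (a := c)).2 ⟨h3', hk'⟩
        rw [hcop'] at this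
        simpa using this
      rw [hc1, mul_one] at hdq
      calc q * d = (d * q * d⁻¹) * d := by rw [hdq]
        _ = d * q := by group
    exact eq_one_of_mem_of_coprime hQp (hchar hdQ) hcop
  have hDp : IsPGroup 2 (H ⊓ Subgroup.centralizer (Cfsg.pCoreOf 2 H : Set G) : Subgroup G) :=
    isPGroup_of_forall_coprime h2
  apply le_pCoreOf inf_le_left _ hDp
  intro h hh n hn
  rw [Subgroup.mem_inf] at hn ⊢
  refine ⟨H.mul_mem (H.mul_mem hh hn.1) (H.inv_mem hh), ?_⟩
  rw [Subgroup.mem_centralizer_iff]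
  intro y hy
  have hy' : h⁻¹ * y * h ∈ Cfsg.pCoreOf 2 H := by
    have := hQHn.conj_mem y hy h⁻¹
    simpa using this
  have hcomm := (Subgroup.mem_centralizer_iff.1 hn.2) _ hy'
  calc y * (h * n * h⁻¹) = h * ((h⁻¹ * y * h) * n) * h⁻¹ := by group
    _ = h * (n * (h⁻¹ * y * h)) * h⁻¹ := by rw [hcomm]
    _ = h * n * h⁻¹ * y := by group

open Cfsg.Agent.Lib.Helper46.PCore in
theorem transfer {G : Type*} [Group G] (H : Subgroup G)
    (h : H ⊓ Subgroup.centralizer (Cfsg.pCoreOf 2 H : Set G) ≤ Cfsg.pCoreOf 2 H) :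
    Subgroup.centralizer (Cfsg.pCore 2 ↥H : Set ↥H) ≤ Cfsg.pCore 2 ↥H := by
  intro x hx
  rw [← mem_pCoreOf_iff]
  apply h
  rw [Subgroup.mem_inf]
  refine ⟨x.2, ?_⟩
  rw [Subgroup.mem_centralizer_iff]
  intro y hy
  have hyH : y ∈ H := pCoreOf_le H hy
  have hy' : (⟨y, hyH⟩ : H) ∈ Cfsg.pCore 2 ↥H := (mem_pCoreOf_iff ⟨y, hyH⟩).1 hy
  have := (Subgroup.mem_centralizer_iff.1 hx) _ hy'
  have := congrArg Subtype.val this
  simpa using this

/-- Let G be a finite group with C_G(O₂(G)) ≤ O₂(G) and H a subgroup of G such that H is normal in G, or the subgroup O²(H) generated by the elements of H of odd order is normal in G. Then C_H(O₂(H)) ≤ O₂(H). -/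
theorem result {G : Type*} [Group G] [Finite G] (hchar : Subgroup.centralizer (Cfsg.pCore 2 G : Set G) ≤ Cfsg.pCore 2 G) (H : Subgroup G) (hH : H.Normal ∨ ((Cfsg.pResidual 2 ↥H).map H.subtype).Normal) : Subgroup.centralizer (Cfsg.pCore 2 ↥H : Set ↥H) ≤ Cfsg.pCore 2 ↥H := by
  have : Fact (Nat.Prime 2) := ⟨Nat.prime_two⟩
  apply transfer
  rcases hH with hH | hH
  · exact lemmaA hchar H hH
  · have hA := lemmaA hchar _ hH
    have hle : (Cfsg.pResidual 2 ↥H).map H.subtype ≤ H := Subgroup.map_subtype_le _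
    have hcore : Cfsg.pCoreOf 2 ((Cfsg.pResidual 2 ↥H).map H.subtype) ≤ Cfsg.pCoreOf 2 H := by
      apply Cfsg.Agent.Lib.Helper46.PCore.le_pCoreOf
      · exact (Cfsg.Agent.Lib.Helper46.PCore.pCoreOf_le _).trans hle
      · intro h _ n hn
        exact (Cfsg.Agent.Lib.Helper46.PCore.pCoreOf_normal_of_normal hH).conj_mem n hn h
      · exact Cfsg.Agent.Lib.Helper46.PCore.pCoreOf_isPGroup _
    have h2 : ∀ d ∈ H ⊓ Subgroup.centralizer (Cfsg.pCoreOf 2 H : Set G), (orderOf d).Coprime 2 → d = 1 := by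
      intro d hd hcop
      have hd0 : d ∈ (Cfsg.pResidual 2 ↥H).map H.subtype := by
        refine ⟨⟨d, hd.1⟩, ?_, rfl⟩
        unfold Cfsg.pResidual
        apply Subgroup.subset_closure
        show Nat.Coprime (orderOf (⟨d, hd.1⟩ : H)) 2
        rw [← Subgroup.orderOf_coe]
        exact hcop
      have hd1 : d ∈ Subgroup.centralizer (Cfsg.pCoreOf 2 ((Cfsg.pResidual 2 ↥H).map H.subtype) : Set G) := by
        rw [Subgroup.mem_centralizer_iff]
        intro y hy
        exact (Subgroup.mem_centralizer_iff.1 hd.2) y (hcore hy)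
      exact Cfsg.Agent.Lib.Helper46.PCore.eq_one_of_mem_of_coprime
        (Cfsg.Agent.Lib.Helper46.PCore.pCoreOf_isPGroup _) (hA ⟨hd0, hd1⟩) hcop
    have hDp : IsPGroup 2 (H ⊓ Subgroup.centralizer (Cfsg.pCoreOf 2 H : Set G) : Subgroup G) :=
      Cfsg.Agent.Lib.Helper46.PCore.isPGroup_of_forall_coprime h2
    apply Cfsg.Agent.Lib.Helper46.PCore.le_pCoreOf inf_le_left _ hDp
    intro h hh n hn
    rw [Subgroup.mem_inf] at hn ⊢
    refine ⟨H.mul_mem (H.mul_mem hh hn.1) (H.inv_mem hh), ?_⟩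
    rw [Subgroup.mem_centralizer_iff]
    intro y hy
    have hy' : h⁻¹ * y * h ∈ Cfsg.pCoreOf 2 H := by
      have := Cfsg.Agent.Lib.Helper46.PCore.pCoreOf_conj_mem (H.inv_mem hh) hy
      simpa using this
    have hcomm := (Subgroup.mem_centralizer_iff.1 hn.2) _ hy'
    calc y * (h * n * h⁻¹) = h * ((h⁻¹ * y * h) * n) * h⁻¹ := by group
      _ = h * (n * (h⁻¹ * y * h)) * h⁻¹ := by rw [hcomm]
      _ = h * n * h⁻¹ * y := by group

end Cfsg.Agent.S2760
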