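import Cfsg.Statements.S2763
import Cfsg.Agent.Lib.Helper46.QdC

set_option autoImplicit false
open Cfsg

namespace Cfsg.Agent.S2763

open Cfsg.Agent.Lib.Helper46.Qd Cfsg.Agent.Lib.Helper46.QdC in
theorem aux {p : ℕ} [Fact p.Prime] (Q : Subgroup (Matrix.SpecialLinearGroup (Fin 3) (ZMod p)))
    (hQ : Q = aff (ZMod p)) (S : Sylow p ↥Q) (T : Subgroup ↥(S : Subgroup ↥Q)) (hT : T ≠ ⊥)
    (hTc : T.Characteristic) :
    Subgroup.normalizer ((T.map (S : Subgroup ↥Q).subtype : Subgroup ↥Q) : Set ↥Q) =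
        Subgroup.normalizer ((S : Subgroup ↥Q) : Set ↥Q) ∧
      Subgroup.normalizer ((S : Subgroup ↥Q) : Set ↥Q) ≠ ⊤ := by
  subst hQ
  exact qd_normalizer_char S T hT hTc


/-- In the group Qd(p) (p prime; the natural semidirect product of an elementary abelian group of order p² by SL₂(p)), the normalizer of every nontrivial characteristic subgroup of a Sylow p-subgroup S equals the normalizer of S, which is a proper subgroup; in particular no such characteristic subgroup is normal. -/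
theorem result {p : ℕ} [Fact p.Prime] (S : Sylow p ↥(Cfsg.qd p)) (T : Subgroup ↥(S : Subgroup ↥(Cfsg.qd p))) (hT : T ≠ ⊥) (hTc : T.Characteristic) : Subgroup.normalizer ((T.map (S : Subgroup ↥(Cfsg.qd p)).subtype : Subgroup ↥(Cfsg.qd p)) : Set ↥(Cfsg.qd p)) = Subgroup.normalizer ((S : Subgroup ↥(Cfsg.qd p)) : Set ↥(Cfsg.qd p)) ∧ Subgroup.normalizer ((S : Subgroup ↥(Cfsg.qd p)) : Set ↥(Cfsg.qd p)) ≠ ⊤ := by
  exact aux (Cfsg.qd p) Cfsg.Agent.Lib.Helper46.Qd.closure_eq S T hT hTc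

end Cfsg.Agent.S2763
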