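import Cfsg.Statements.S2772
import Cfsg.Agent.Lib.Helper10.PUMain
import Cfsg.Agent.Lib.Helper10.SWFinal
import Cfsg.Agent.Lib.Helper59.PUFF1
import Cfsg.Agent.Lib.Helper59.PUCFG
import Cfsg.Agent.Lib.Helper98.PUFF2
import Cfsg.Agent.Lib.Helper98.PUFF3a
import Cfsg.Agent.Lib.Helper74.PUFF3b

set_option autoImplicit false
open Cfsg

namespace Cfsg.Agent.S2772

/-- Sims' Theorem in local form: let H be a finite non-abelian simple group and G a maximal subgroup of H with C_G(O₂(G)) ≤ O₂(G), such that N_H(S) is not contained in G for a Sylow 2-subgroup S of G and G/O₂(G) is dihedral of order 2q for a prime q. Then G is isomorphic to the symmetric group of degree 4 or to its direct product with a group of order 2. -/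
theorem result {H : Type*} [Group H] [Finite H] [IsSimpleGroup H] (hna : ¬ IsMulCommutative H) (G : Subgroup H) (hG : IsCoatom G) (hchar : Subgroup.centralizer (Cfsg.pCore 2 ↥G : Set ↥G) ≤ Cfsg.pCore 2 ↥G) (S : Sylow 2 ↥G) (hN : ¬ Subgroup.normalizer (((S : Subgroup ↥G).map G.subtype : Subgroup H) : Set H) ≤ G) (q : ℕ) (hq : q.Prime) (hD : Nonempty (↥G ⧸ Cfsg.pCore 2 ↥G ≃* DihedralGroup q)) : Nonempty (↥G ≃* Equiv.Perm (Fin 4)) ∨ Nonempty (↥G ≃* Equiv.Perm (Fin 4) × Multiplicative (ZMod 2)) := by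
  exact Cfsg.Agent.Lib.Helper10.PUMain.main
    Cfsg.Agent.Lib.Helper59.PUFF1.main Cfsg.Agent.Lib.Helper98.PUFF2.main
    Cfsg.Agent.Lib.Helper98.PUFF3a.main Cfsg.Agent.Lib.Helper74.PUFF3b.main
    Cfsg.Agent.Lib.Helper59.PUCFG.main
    (fun H _ _ G hG => Cfsg.Agent.Lib.Helper10.SWFinal.abs_thm G hG)
    G hG hchar S hN q hq hD

end Cfsg.Agent.S2772
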