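import Cfsg.Statements.S2779
import Cfsg.Agent.Lib.Helper46.NatSL2

set_option autoImplicit false
open Cfsg

namespace Cfsg.Agent.S2779

/-- Let L act on the elementary abelian p-group V (inside a finite group, by conjugation, faithfully) as SL₂(F) on its natural module, F a field with p^n elements, and let S be a Sylow p-subgroup of L. Then [V, S, S] = 1; |V| = p^(2n) and |C_V(S)| = p^n; and for every nonidentity s ∈ S and every v ∈ V outside C_V(S): C_V(s) = C_V(S) = [V, S] = [V, s] = the subgroup generated by the commutators [v, t], t ∈ S. -/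
theorem result {G : Type*} [Group G] [Finite G] {p : ℕ} [Fact p.Prime] {F : Type*} [Field F] [Fintype F] (n : ℕ) (hF : Fintype.card F = p ^ n) (V L : Subgroup G) (hnat : Cfsg.IsNaturalSL2Module F V L) (hf : L ⊓ Subgroup.centralizer (V : Set G) = ⊥) (S : Sylow p ↥L) (T : Subgroup G) (hT : T = ((S : Subgroup ↥L).map L.subtype)) : ⁅⁅V, T⁆, T⁆ = ⊥ ∧ Nat.card V = p ^ (2 * n) ∧ Nat.card ↥(V ⊓ Subgroup.centralizer ((T : Subgroup G) : Set G)) = p ^ n ∧ ∀ s ∈ T, s ≠ 1 → (V ⊓ Subgroup.centralizer ({s} : Set G)) = (V ⊓ Subgroup.centralizer ((T : Subgroup G) : Set G)) ∧ ⁅V, T⁆ = (V ⊓ Subgroup.centralizer ((T : Subgroup G) : Set G)) ∧ ⁅V, Subgroup.zpowers s⁆ = (V ⊓ Subgroup.centralizer ((T : Subgroup G) : Set G)) ∧ ∀ v ∈ V, v ∉ Subgroup.centralizer (T : Set G) → Subgroup.closure {x : G | ∃ t ∈ T, x = v * t * v⁻¹ * t⁻¹} = (V ⊓ Subgroup.centralizer ((T : Subgroup G) : Set G)) := by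
  open Cfsg.Agent.Lib.Helper46.NatSL2 in
  have hchar : CharP F p := charP_of_card hF
  open Cfsg.Agent.Lib.Helper46.NatSL2 in
  obtain ⟨R, E, hEmul, hEinj, hEsurj, hact, hdet, hRmul, hRinj, hRsurj, hTchar⟩ := package V L hnat hf S
  subst hT
  have hTL : (S : Subgroup L).map L.subtype ≤ L := by
    rintro _ ⟨x, -, rfl⟩
    exact x.2
  generalize (S : Subgroup L).map L.subtype = T at hTL hTchar ⊢
  have hE1 : E 1 = 0 := by
    have := hEmul 1 V.one_mem 1 V.one_mem
    rw [one_mul] at this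
    simpa using this
  have hEinv : ∀ g ∈ V, E g⁻¹ = - E g := by
    intro g hg
    have := hEmul g hg g⁻¹ (V.inv_mem hg)
    rw [mul_inv_cancel, hE1] at this
    exact eq_neg_of_add_eq_zero_right this.symm
  have hRT : ∀ t ∈ T, R t = !![1, R t 0 1; 0, 1] := by
    intro t ht
    obtain ⟨h0, h1⟩ := (hTchar t (hTL ht)).1 ht
    have hd := hdet t (hTL ht)
    rw [Matrix.det_fin_two, h0, h1] at hd
    have h11 : R t 1 1 = 1 := by linear_combination hd
    ext i j
    fin_cases i <;> fin_cases j <;> simp [h0, h1, h11]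
  have hactT : ∀ t ∈ T, ∀ v ∈ V, t * v * t⁻¹ ∈ V ∧
      E (t * v * t⁻¹) = ![E v 0 + R t 0 1 * E v 1, E v 1] := by
    intro t ht v hv
    obtain ⟨h1, h2⟩ := hact t (hTL ht) v hv
    refine ⟨h1, ?_⟩
    rw [h2, hRT t ht]
    ext i
    fin_cases i <;> simp [Matrix.mulVec, dotProduct, Fin.sum_univ_two]
  have hcomm : ∀ t ∈ T, ∀ v ∈ V, v * t * v⁻¹ * t⁻¹ ∈ V ∧
      E (v * t * v⁻¹ * t⁻¹) = ![- (R t 0 1 * E v 1), 0] := by
    intro t ht v hv
    obtain ⟨h1, h2⟩ := hactT t ht v hv
    have e1 : v * t * v⁻¹ * t⁻¹ = v * (t * v * t⁻¹)⁻¹ := by group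
    have h3 : v * (t * v * t⁻¹)⁻¹ ∈ V := V.mul_mem hv (V.inv_mem h1)
    rw [e1]
    refine ⟨h3, ?_⟩
    rw [hEmul v hv _ (V.inv_mem h1), hEinv _ h1, h2]
    ext i
    fin_cases i <;> simp
  have hTex : ∀ a : F, ∃ t ∈ T, R t 0 1 = a := by
    intro a
    obtain ⟨l, hl, hRl⟩ := hRsurj !![1, a; 0, 1] (by simp [Matrix.det_fin_two])
    exact ⟨l, (hTchar l hl).2 (by rw [hRl]; simp), by rw [hRl]; simp⟩
  have hfixed : ∀ t ∈ T, ∀ v ∈ V, E v 1 = 0 → t * v = v * t := by
    intro t ht v hv h0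
    obtain ⟨h1, h2⟩ := hactT t ht v hv
    have h3 : E (t * v * t⁻¹) = E v := by
      rw [h2]
      ext i
      fin_cases i <;> simp [h0]
    have h4 := hEinj _ h1 _ hv h3
    calc t * v = (t * v * t⁻¹) * t := by group
      _ = v * t := by rw [h4]
  have hmoved : ∀ t ∈ T, ∀ v ∈ V, t * v = v * t → R t 0 1 * E v 1 = 0 := by
    intro t ht v hv h1
    have h2 : t * v * t⁻¹ = v := by rw [h1]; group
    have h3 := (hactT t ht v hv).2
    rw [h2] at h3
    have h4 := congrFun h3 0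
    simp only [Matrix.cons_val_zero] at h4
    linear_combination -h4
  have hcent : ∀ v ∈ V, (v ∈ Subgroup.centralizer (T : Set G) ↔ E v 1 = 0) := by
    intro v hv
    constructor
    · intro hc
      obtain ⟨t, ht, hta⟩ := hTex 1
      have h1 := Subgroup.mem_centralizer_iff.1 hc t ht
      have h2 := hmoved t ht v hv h1
      rw [hta, one_mul] at h2
      exact h2
    · intro h0
      rw [Subgroup.mem_centralizer_iff]
      intro t ht
      exact hfixed t ht v hv h0
  have hR1 : R 1 = 1 := by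
    have h1 := hRmul 1 L.one_mem 1 L.one_mem
    rw [one_mul] at h1
    have hd := hdet 1 L.one_mem
    have hu : IsUnit (R 1).det := by rw [hd]; exact isUnit_one
    have h2 : (R 1)⁻¹ * R 1 = (R 1)⁻¹ * (R 1 * R 1) := congrArg (fun M => (R 1)⁻¹ * M) h1
    rw [← Matrix.mul_assoc, Matrix.nonsing_inv_mul _ hu, Matrix.one_mul] at h2
    exact h2.symm
  have hsne : ∀ s ∈ T, s ≠ 1 → R s 0 1 ≠ 0 := by
    intro s hs hs1 h0
    apply hs1
    apply hRinj s (hTL hs) 1 L.one_mem
    rw [hRT s hs, h0, hR1]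
    ext i j
    fin_cases i <;> fin_cases j <;> simp
  have hV₁mem : ∀ g, g ∈ V ⊓ Subgroup.centralizer (T : Set G) ↔ g ∈ V ∧ E g 1 = 0 := by
    intro g
    constructor
    · rintro ⟨h1, h2⟩
      exact ⟨h1, (hcent g h1).1 h2⟩
    · rintro ⟨h1, h2⟩
      exact ⟨h1, (hcent g h1).2 h2⟩
  have hcommV₁ : ∀ t ∈ T, ∀ v ∈ V, v * t * v⁻¹ * t⁻¹ ∈ V ⊓ Subgroup.centralizer (T : Set G) := by
    intro t ht v hv
    obtain ⟨h1, h2⟩ := hcomm t ht v hv
    rw [hV₁mem]
    refine ⟨h1, ?_⟩
    rw [h2]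
    simp
  have hrep : ∀ w ∈ V ⊓ Subgroup.centralizer (T : Set G), ∀ t ∈ T, ∀ v ∈ V,
      R t 0 1 * E v 1 = - E w 0 → w = v * t * v⁻¹ * t⁻¹ := by
    intro w hw t ht v hv h
    obtain ⟨hwV, hw1⟩ := (hV₁mem w).1 hw
    obtain ⟨h1, h2⟩ := hcomm t ht v hv
    apply hEinj w hwV _ h1
    rw [h2, h]
    ext i
    fin_cases i <;> simp [hw1]
  have hVT : ⁅V, T⁆ = V ⊓ Subgroup.centralizer (T : Set G) := by
    apply le_antisymm
    · rw [Subgroup.commutator_le]
      intro v hv t ht
      rw [commutatorElement_def]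
      exact hcommV₁ t ht v hv
    · intro w hw
      obtain ⟨v, hv, hEv⟩ := hEsurj ![0, 1]
      obtain ⟨t, ht, hta⟩ := hTex (- E w 0)
      have := hrep w hw t ht v hv (by rw [hta, hEv]; simp)
      rw [this, ← commutatorElement_def]
      exact Subgroup.commutator_mem_commutator hv ht
  refine ⟨?_, ?_, ?_, ?_⟩
  · rw [hVT, Subgroup.commutator_eq_bot_iff_le_centralizer]
    exact inf_le_right
  · have e : V ≃ (Fin 2 → F) := Equiv.ofBijective (fun v : V => E v)
      ⟨fun a b h => Subtype.ext (hEinj a a.2 b b.2 h), fun x => by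
        obtain ⟨g, hg, h⟩ := hEsurj x
        exact ⟨⟨g, hg⟩, h⟩⟩
    rw [Nat.card_congr e, Nat.card_eq_fintype_card, Fintype.card_fun, Fintype.card_fin, hF, ← pow_mul,
      mul_comm]
  · have e : ↥(V ⊓ Subgroup.centralizer (T : Set G)) ≃ F :=
      Equiv.ofBijective (fun w : ↥(V ⊓ Subgroup.centralizer (T : Set G)) => E w 0)
      ⟨fun a b h => by
        obtain ⟨haV, ha1⟩ := (hV₁mem a).1 a.2
        obtain ⟨hbV, hb1⟩ := (hV₁mem b).1 b.2
        apply Subtype.ext
        apply hEinj _ haV _ hbV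
        ext i
        fin_cases i
        · exact h
        · simp [ha1, hb1],
      fun c => by
        obtain ⟨g, hg, h⟩ := hEsurj ![c, 0]
        exact ⟨⟨g, (hV₁mem g).2 ⟨hg, by rw [h]; simp⟩⟩, by show E g 0 = c; rw [h]; simp⟩⟩
    rw [Nat.card_congr e, Nat.card_eq_fintype_card, hF]
  · intro s hs hs1
    refine ⟨?_, hVT, ?_, ?_⟩
    · ext g
      rw [hV₁mem, Subgroup.mem_inf]
      constructor
      · rintro ⟨h1, h2⟩
        refine ⟨h1, ?_⟩
        have h3 := hmoved s hs g h1 (Subgroup.mem_centralizer_iff.1 h2 s rfl)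
        rcases mul_eq_zero.1 h3 with h4 | h4
        · exact absurd h4 (hsne s hs hs1)
        · exact h4
      · rintro ⟨h1, h2⟩
        refine ⟨h1, ?_⟩
        rw [Subgroup.mem_centralizer_iff]
        intro h hh
        rw [Set.mem_singleton_iff] at hh
        subst hh
        exact hfixed h hs g h1 h2
    · apply le_antisymm
      · rw [← hVT]
        exact Subgroup.commutator_mono le_rfl (by rw [Subgroup.zpowers_le]; exact hs)
      · intro w hw
        obtain ⟨v, hv, hEv⟩ := hEsurj ![0, - E w 0 / R s 0 1]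
        have := hrep w hw s hs v hv (by
          rw [hEv]
          have := hsne s hs hs1
          simp
          field_simp)
        rw [this, ← commutatorElement_def]
        exact Subgroup.commutator_mem_commutator hv (Subgroup.mem_zpowers s)
    · intro v hv hvc
      have hv1 : E v 1 ≠ 0 := fun h => hvc ((hcent v hv).2 h)
      apply le_antisymm
      · rw [Subgroup.closure_le]
        rintro x ⟨t, ht, rfl⟩
        exact hcommV₁ t ht v hv
      · intro w hw
        obtain ⟨t, ht, hta⟩ := hTex (- E w 0 / E v 1)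
        have := hrep w hw t ht v hv (by rw [hta]; field_simp)
        rw [this]
        exact Subgroup.subset_closure ⟨t, ht, rfl⟩

end Cfsg.Agent.S2779
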