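import Cfsg.Statements.S2780
import Cfsg.Agent.Lib.Helper46.NatSL2
import Cfsg.Agent.Lib.Helper46.StrEmb

set_option autoImplicit false
open Cfsg

namespace Cfsg.Agent.S2780

/-- a matrix of determinant one over a field of characteristic `p` fixing a nonzero vector has
`p`-th power one -/
theorem pow_eq_one_of_fix {F : Type*} [Field F] {p : ℕ} [Fact p.Prime] [CharP F p]
    (A : Matrix (Fin 2) (Fin 2) F) (hdet : A.det = 1) (w : Fin 2 → F) (hw : w ≠ 0)
    (hfix : A.mulVec w = w) : A ^ p = 1 := by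
  have hpp : p.Prime := Fact.out
  have hN : (A - 1).det = 0 := by
    rw [← Matrix.exists_mulVec_eq_zero_iff]
    refine ⟨w, hw, ?_⟩
    rw [Matrix.sub_mulVec, hfix, Matrix.one_mulVec, sub_self]
  rw [Matrix.det_fin_two] at hdet hN
  simp only [Matrix.sub_apply, Matrix.one_apply_eq, Matrix.one_apply_ne, ne_eq, zero_ne_one,
    one_ne_zero, not_false_eq_true, sub_zero] at hN
  have htr : A 0 0 + A 1 1 = 2 := by linear_combination hdet - hN
  have hsq : (A - 1) * (A - 1) = 0 := by
    ext i j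
    fin_cases i <;> fin_cases j
    · simp [Matrix.mul_apply, Fin.sum_univ_two]
      linear_combination A 0 0 * htr - hdet
    · simp [Matrix.mul_apply, Fin.sum_univ_two]
      linear_combination A 0 1 * htr
    · simp [Matrix.mul_apply, Fin.sum_univ_two]
      linear_combination A 1 0 * htr
    · simp [Matrix.mul_apply, Fin.sum_univ_two]
      linear_combination A 1 1 * htr - hdet
  have hA : A = 1 + (A - 1) := by abel
  have hcomm : Commute (1 : Matrix (Fin 2) (Fin 2) F) (A - 1) := Commute.one_left _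
  rw [hA, add_pow_char_of_commute _ hcomm, one_pow]
  have h2 : (A - 1) ^ p = 0 := by
    have : p = 2 + (p - 2) := by have := hpp.two_le; omega
    rw [this, pow_add, pow_two, hsq, zero_mul]
  rw [h2, add_zero]


/-- Let L act on the elementary abelian p-group V (inside a finite group, faithfully) as SL₂(F) on its natural module, F a field with p^n elements, S a Sylow p-subgroup of L. Then: for every g ∈ L not normalizing S, V is the internal direct product of C_V(S) and C_V(gSg⁻¹); every nonidentity element of L of order prime to p acts on V without nonidentity fixed points; and C_V(S) and V/C_V(S) are irreducible for N_L(S): the only N_L(S)-invariant subgroups of C_V(S) are 1 and C_V(S), and the only N_L(S)-invariant subgroups between C_V(S) and V are those two. -/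
theorem result {G : Type*} [Group G] [Finite G] {p : ℕ} [Fact p.Prime] {F : Type*} [Field F] [Fintype F] (n : ℕ) (hF : Fintype.card F = p ^ n) (V L : Subgroup G) (hnat : Cfsg.IsNaturalSL2Module F V L) (hf : L ⊓ Subgroup.centralizer (V : Set G) = ⊥) (S : Sylow p ↥L) (T : Subgroup G) (hT : T = ((S : Subgroup ↥L).map L.subtype)) : (∀ g ∈ L, g ∉ Subgroup.normalizer (T : Set G) → Cfsg.IsInternalDirectProduct (V ⊓ Subgroup.centralizer ((T : Subgroup G) : Set G)) (V ⊓ Subgroup.centralizer ((T.map (MulAut.conj g).toMonoidHom : Subgroup G) : Set G)) V) ∧ (∀ x ∈ L, x ≠ 1 → (orderOf x).Coprime p → (V ⊓ Subgroup.centralizer ({x} : Set G)) = ⊥) ∧ (∀ U : Subgroup G, U ≤ (V ⊓ Subgroup.centralizer ((T : Subgroup G) : Set G)) → L ⊓ Subgroup.normalizer (T : Set G) ≤ Subgroup.normalizer (U : Set G) → U = ⊥ ∨ U = (V ⊓ Subgroup.centralizer ((T : Subgroup G) : Set G))) ∧ (∀ U : Subgroup G, (V ⊓ Subgroup.centralizer ((T : Subgroup G) : Set G)) ≤ U → U ≤ V → L ⊓ Subgroup.normalizer (T : Set G) ≤ Subgroup.normalizer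 (U : Set G) → U = (V ⊓ Subgroup.centralizer ((T : Subgroup G) : Set G)) ∨ U = V) := by
  open Cfsg.Agent.Lib.Helper46.NatSL2 in
  have hchar : CharP F p := charP_of_card hF
  open Cfsg.Agent.Lib.Helper46.NatSL2 in
  obtain ⟨R, E, hEmul, hEinj, hEsurj, hact, hdet, hRmul, hRinj, hRsurj, hTchar⟩ := package V L hnat hf S
  subst hT
  have hTL : (S : Subgroup L).map L.subtype ≤ L := by
    rintro _ ⟨x, -, rfl⟩
    exact x.2
  generalize (S : Subgroup L).map L.subtype = T at hTL hTchar ⊢
  have hE1 : E 1 = 0 := by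
    have := hEmul 1 V.one_mem 1 V.one_mem
    rw [one_mul] at this
    simpa using this
  have hE0 : ∀ g ∈ V, E g = 0 → g = 1 := fun g hg h => hEinj g hg 1 V.one_mem (by rw [h, hE1])
  have hVcomm : ∀ a ∈ V, ∀ b ∈ V, a * b = b * a := by
    intro a ha b hb
    apply hEinj _ (V.mul_mem ha hb) _ (V.mul_mem hb ha)
    rw [hEmul a ha b hb, hEmul b hb a ha, add_comm]
  have hRT : ∀ t ∈ T, R t = !![1, R t 0 1; 0, 1] := by
    intro t ht
    obtain ⟨h0, h1⟩ := (hTchar t (hTL ht)).1 ht
    have hd := hdet t (hTL ht)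
    rw [Matrix.det_fin_two, h0, h1] at hd
    have h11 : R t 1 1 = 1 := by linear_combination hd
    ext i j
    fin_cases i <;> fin_cases j <;> simp [h0, h1, h11]
  have hactT : ∀ t ∈ T, ∀ v ∈ V, t * v * t⁻¹ ∈ V ∧
      E (t * v * t⁻¹) = ![E v 0 + R t 0 1 * E v 1, E v 1] := by
    intro t ht v hv
    obtain ⟨h1, h2⟩ := hact t (hTL ht) v hv
    refine ⟨h1, ?_⟩
    rw [h2, hRT t ht]
    ext i
    fin_cases i <;> simp [Matrix.mulVec, dotProduct, Fin.sum_univ_two]
  have hTex : ∀ a : F, ∃ t ∈ T, R t 0 1 = a := by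
    intro a
    obtain ⟨l, hl, hRl⟩ := hRsurj !![1, a; 0, 1] (by simp [Matrix.det_fin_two])
    exact ⟨l, (hTchar l hl).2 (by rw [hRl]; simp), by rw [hRl]; simp⟩
  have hfixed : ∀ t ∈ T, ∀ v ∈ V, E v 1 = 0 → t * v = v * t := by
    intro t ht v hv h0
    obtain ⟨h1, h2⟩ := hactT t ht v hv
    have h3 : E (t * v * t⁻¹) = E v := by
      rw [h2]
      ext i
      fin_cases i <;> simp [h0]
    have h4 := hEinj _ h1 _ hv h3
    calc t * v = (t * v * t⁻¹) * t := by group
      _ = v * t := by rw [h4]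
  have hmoved : ∀ t ∈ T, ∀ v ∈ V, t * v = v * t → R t 0 1 * E v 1 = 0 := by
    intro t ht v hv h1
    have h2 : t * v * t⁻¹ = v := by rw [h1]; group
    have h3 := (hactT t ht v hv).2
    rw [h2] at h3
    have h4 := congrFun h3 0
    simp only [Matrix.cons_val_zero] at h4
    linear_combination -h4
  have hcent : ∀ v ∈ V, (v ∈ Subgroup.centralizer (T : Set G) ↔ E v 1 = 0) := by
    intro v hv
    constructor
    · intro hc
      obtain ⟨t, ht, hta⟩ := hTex 1
      have h1 := Subgroup.mem_centralizer_iff.1 hc t ht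
      have h2 := hmoved t ht v hv h1
      rw [hta, one_mul] at h2
      exact h2
    · intro h0
      rw [Subgroup.mem_centralizer_iff]
      intro t ht
      exact hfixed t ht v hv h0
  have hR1 : R 1 = 1 := by
    have h1 := hRmul 1 L.one_mem 1 L.one_mem
    rw [one_mul] at h1
    have hd := hdet 1 L.one_mem
    have hu : IsUnit (R 1).det := by rw [hd]; exact isUnit_one
    have h2 : (R 1)⁻¹ * R 1 = (R 1)⁻¹ * (R 1 * R 1) := congrArg (fun M => (R 1)⁻¹ * M) h1
    rw [← Matrix.mul_assoc, Matrix.nonsing_inv_mul _ hu, Matrix.one_mul] at h2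
    exact h2.symm
  have hV₁mem : ∀ g, g ∈ V ⊓ Subgroup.centralizer (T : Set G) ↔ g ∈ V ∧ E g 1 = 0 := by
    intro g
    constructor
    · rintro ⟨h1, h2⟩
      exact ⟨h1, (hcent g h1).1 h2⟩
    · rintro ⟨h1, h2⟩
      exact ⟨h1, (hcent g h1).2 h2⟩
  -- the inverse matrix
  have hRinv : ∀ l ∈ L, R l⁻¹ = !![R l 1 1, - R l 0 1; - R l 1 0, R l 0 0] := by
    intro l hl
    have hd := hdet l hl
    rw [Matrix.det_fin_two] at hd
    have h1 : R l⁻¹ * R l = 1 := by
      rw [← hRmul _ (L.inv_mem hl) _ hl, inv_mul_cancel, hR1]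
    have h2 : R l * !![R l 1 1, - R l 0 1; - R l 1 0, R l 0 0] = 1 := by
      ext i j
      fin_cases i <;> fin_cases j
      · simp [Matrix.mul_apply, Fin.sum_univ_two]
        linear_combination hd
      · simp [Matrix.mul_apply, Fin.sum_univ_two]
        ring
      · simp [Matrix.mul_apply, Fin.sum_univ_two]
        ring
      · simp [Matrix.mul_apply, Fin.sum_univ_two]
        linear_combination hd
    calc R l⁻¹ = R l⁻¹ * (R l * !![R l 1 1, - R l 0 1; - R l 1 0, R l 0 0]) := by
          rw [h2, Matrix.mul_one]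
      _ = !![R l 1 1, - R l 0 1; - R l 1 0, R l 0 0] := by
          rw [← Matrix.mul_assoc, h1, Matrix.one_mul]
  -- upper triangular elements normalize T
  have hconjT : ∀ l ∈ L, R l 1 0 = 0 → ∀ t ∈ T, l * t * l⁻¹ ∈ T := by
    intro l hl h10 t ht
    have hd := hdet l hl
    rw [Matrix.det_fin_two, h10] at hd
    have hmem : l * t * l⁻¹ ∈ L := L.mul_mem (L.mul_mem hl (hTL ht)) (L.inv_mem hl)
    rw [hTchar _ hmem, hRmul _ (L.mul_mem hl (hTL ht)) _ (L.inv_mem hl), hRmul _ hl _ (hTL ht),
      hRinv l hl, hRT t ht, h10]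
    constructor
    · simp [Matrix.mul_apply, Fin.sum_univ_two, h10]
      linear_combination hd
    · simp [Matrix.mul_apply, Fin.sum_univ_two, h10]
  have hNT : ∀ l ∈ L, R l 1 0 = 0 → l ∈ Subgroup.normalizer (T : Set G) := by
    intro l hl h10
    apply Cfsg.Agent.Lib.Helper46.StrEmb.mem_normalizer_of_conj_mem (hconjT l hl h10)
    intro t ht
    have h10' : R l⁻¹ 1 0 = 0 := by
      rw [hRinv l hl]
      simp [h10]
    have := hconjT l⁻¹ (L.inv_mem hl) h10' t ht
    rwa [inv_inv] at this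
  -- diagonal elements
  have hdiag : ∀ c : F, c ≠ 0 → ∃ d ∈ L, d ∈ Subgroup.normalizer (T : Set G) ∧ R d = !![c, 0; 0, c⁻¹] := by
    intro c hc
    obtain ⟨d, hd, hRd⟩ := hRsurj !![c, 0; 0, c⁻¹] (by simp [Matrix.det_fin_two, hc])
    exact ⟨d, hd, hNT d hd (by rw [hRd]; simp), hRd⟩
  refine ⟨?_, ?_, ?_, ?_⟩
  · -- direct product decomposition
    intro g hg hgN
    have hc : R g 1 0 ≠ 0 := fun h => hgN (hNT g hg h)
    have hcent2 : ∀ v ∈ V, (v ∈ Subgroup.centralizer
        ((T.map (MulAut.conj g).toMonoidHom : Subgroup G) : Set G) ↔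
        R g 0 0 * E v 1 = R g 1 0 * E v 0) := by
      intro v hv
      obtain ⟨h1, h2⟩ := hact g⁻¹ (L.inv_mem hg) v hv
      rw [inv_inv] at h1 h2
      have h3 : (g⁻¹ * v * g ∈ Subgroup.centralizer (T : Set G)) ↔
          R g 0 0 * E v 1 = R g 1 0 * E v 0 := by
        rw [hcent _ h1, h2, hRinv g hg]
        simp [Matrix.mulVec, dotProduct, Fin.sum_univ_two]
        constructor
        · intro h; linear_combination h
        · intro h; linear_combination h
      rw [← h3, Subgroup.mem_centralizer_iff, Subgroup.mem_centralizer_iff]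
      constructor
      · intro h t ht
        have h4 := h (g * t * g⁻¹) (Subgroup.mem_map.2 ⟨t, ht, rfl⟩)
        calc t * (g⁻¹ * v * g) = g⁻¹ * ((g * t * g⁻¹) * v) * g := by group
          _ = g⁻¹ * (v * (g * t * g⁻¹)) * g := by rw [h4]
          _ = g⁻¹ * v * g * t := by group
      · intro h x hx
        obtain ⟨t, ht, rfl⟩ := Subgroup.mem_map.1 hx
        have h4 := h t ht
        show g * t * g⁻¹ * v = v * (g * t * g⁻¹)
        calc g * t * g⁻¹ * v = g * (t * (g⁻¹ * v * g)) * g⁻¹ := by group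
          _ = g * ((g⁻¹ * v * g) * t) * g⁻¹ := by rw [h4]
          _ = v * (g * t * g⁻¹) := by group
    refine ⟨inf_le_left, inf_le_left, ?_, ?_, ?_⟩
    · intro a ha b hb
      exact hVcomm a ha.1 b hb.1
    · rw [Subgroup.eq_bot_iff_forall]
      rintro x ⟨hx1, hx2⟩
      obtain ⟨hxV, hx10⟩ := (hV₁mem x).1 hx1
      have h2 := (hcent2 x hxV).1 hx2.2
      rw [hx10, mul_zero] at h2
      have hx00 : E x 0 = 0 := by
        rcases mul_eq_zero.1 h2.symm with h | h
        · exact absurd h hc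
        · exact h
      apply hE0 x hxV
      ext i
      fin_cases i
      · exact hx00
      · exact hx10
    · apply le_antisymm (sup_le inf_le_left inf_le_left)
      intro v hv
      obtain ⟨v₂, hv₂, hEv₂⟩ := hEsurj ![R g 0 0 * E v 1 / R g 1 0, E v 1]
      obtain ⟨v₁, hv₁, hEv₁⟩ := hEsurj ![E v 0 - R g 0 0 * E v 1 / R g 1 0, 0]
      have hv12 : v = v₁ * v₂ := by
        apply hEinj v hv _ (V.mul_mem hv₁ hv₂)
        rw [hEmul v₁ hv₁ v₂ hv₂, hEv₁, hEv₂]
        ext i
        fin_cases i <;> simp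
      rw [hv12]
      apply Subgroup.mul_mem_sup
      · exact (hV₁mem v₁).2 ⟨hv₁, by rw [hEv₁]; simp⟩
      · refine ⟨hv₂, (hcent2 v₂ hv₂).2 ?_⟩
        rw [hEv₂]
        simp
        field_simp
  · -- p'-elements act fixed-point-freely
    intro x hx hx1 hcop
    rw [Subgroup.eq_bot_iff_forall]
    rintro v ⟨hv, hvc⟩
    by_contra hv1
    apply hx1
    have h1 := Subgroup.mem_centralizer_iff.1 hvc x rfl
    have h2 : x * v * x⁻¹ = v := by rw [h1]; group
    obtain ⟨h3, h4⟩ := hact x hx v hv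
    rw [h2] at h4
    have hEv : E v ≠ 0 := fun h => hv1 (hE0 v hv h)
    have h5 := pow_eq_one_of_fix (R x) (hdet x hx) (E v) hEv h4.symm
    have hpow : ∀ k : ℕ, R (x ^ k) = R x ^ k := by
      intro k
      induction k with
      | zero => rw [pow_zero, pow_zero, hR1]
      | succ k ih => rw [pow_succ, pow_succ, hRmul _ (L.pow_mem hx k) _ hx, ih]
    have h6 : x ^ p = 1 := hRinj _ (L.pow_mem hx p) 1 L.one_mem (by rw [hpow, h5, hR1])
    have h7 : orderOf x ∣ p := orderOf_dvd_of_pow_eq_one h6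
    have h8 : orderOf x = 1 := Nat.Coprime.eq_one_of_dvd hcop h7
    exact orderOf_eq_one_iff.1 h8
  · -- irreducibility of the fixed line
    intro U hU hUN
    by_cases hbot : U = ⊥
    · exact Or.inl hbot
    right
    apply le_antisymm hU
    obtain ⟨u, hu1⟩ := (Subgroup.ne_bot_iff_exists_ne_one.1 hbot)
    have huU' : (u : G) ∈ U := u.2
    obtain ⟨huV, hu10⟩ := (hV₁mem u).1 (hU huU')
    have hu00 : E (u : G) 0 ≠ 0 := by
      intro h
      apply hu1
      apply Subtype.ext
      apply hE0 _ huV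
      ext i
      fin_cases i
      · exact h
      · exact hu10
    intro w hw
    obtain ⟨hwV, hw10⟩ := (hV₁mem w).1 hw
    by_cases hw00 : E w 0 = 0
    · have : w = 1 := by
        apply hE0 w hwV
        ext i
        fin_cases i
        · exact hw00
        · exact hw10
      rw [this]
      exact U.one_mem
    · obtain ⟨d, hdL, hdN, hRd⟩ := hdiag (E w 0 / E (u : G) 0) (div_ne_zero hw00 hu00)
      have hdU := hUN ⟨hdL, hdN⟩
      have h1 := (Subgroup.mem_normalizer_iff.1 hdU (u : G)).1 huU'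
      obtain ⟨h2, h3⟩ := hact d hdL (u : G) huV
      have h4 : w = d * (u : G) * d⁻¹ := by
        apply hEinj w hwV _ h2
        rw [h3, hRd]
        ext i
        fin_cases i
        · simp [Matrix.mulVec, dotProduct, Fin.sum_univ_two]
          field_simp
        · simp [Matrix.mulVec, dotProduct, Fin.sum_univ_two, hw10, hu10]
      rw [h4]
      exact h1
  · -- irreducibility of the quotient
    intro U hU1 hU2 hUN
    by_cases heq : U = V ⊓ Subgroup.centralizer (T : Set G)
    · exact Or.inl heq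
    right
    apply le_antisymm hU2
    have hex : ∃ u ∈ U, u ∉ V ⊓ Subgroup.centralizer (T : Set G) := by
      by_contra hcon
      push Not at hcon
      exact heq (le_antisymm hcon hU1)
    obtain ⟨u, huU, hu1⟩ := hex
    have huV : u ∈ V := hU2 huU
    have hu10 : E u 1 ≠ 0 := fun h => hu1 ((hV₁mem u).2 ⟨huV, h⟩)
    intro w hwV
    by_cases hw10 : E w 1 = 0
    · exact hU1 ((hV₁mem w).2 ⟨hwV, hw10⟩)
    · obtain ⟨d, hdL, hdN, hRd⟩ := hdiag (E u 1 / E w 1) (div_ne_zero hu10 hw10)
      have hdU := hUN ⟨hdL, hdN⟩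
      have h1 := (Subgroup.mem_normalizer_iff.1 hdU u).1 huU
      obtain ⟨h2, h3⟩ := hact d hdL u huV
      obtain ⟨z, hzV, hEz⟩ := hEsurj ![E w 0 - E u 1 / E w 1 * E u 0, 0]
      have hzU : z ∈ U := hU1 ((hV₁mem z).2 ⟨hzV, by rw [hEz]; simp⟩)
      have h4 : w = d * u * d⁻¹ * z := by
        apply hEinj w hwV _ (V.mul_mem h2 hzV)
        rw [hEmul _ h2 _ hzV, h3, hRd, hEz]
        ext i
        fin_cases i
        · simp [Matrix.mulVec, dotProduct, Fin.sum_univ_two]
        · simp [Matrix.mulVec, dotProduct, Fin.sum_univ_two]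
          field_simp
      rw [h4]
      exact U.mul_mem h1 hzU

end Cfsg.Agent.S2780
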