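import Cfsg.Statements.S2781
import Mathlib

set_option autoImplicit false
open Cfsg

namespace Cfsg.Agent.S2781

/-- conjugation by a normalizing element, as an endomorphism of the subgroup -/
def cj {G : Type*} [Group G] (V : Subgroup G) (g : G)
    (hg : g ∈ Subgroup.normalizer (V : Set G)) : V →* V where
  toFun v := ⟨g * v * g⁻¹, (Subgroup.mem_normalizer_iff.1 hg v).1 v.2⟩
  map_one' := by ext; simp
  map_mul' a b := by ext; simp

theorem cj_coe {G : Type*} [Group G] (V : Subgroup G) (g : G)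
    (hg : g ∈ Subgroup.normalizer (V : Set G)) (v : V) :
    ((cj V g hg v : V) : G) = g * v * g⁻¹ := rfl

open scoped IsMulCommutative commutatorElement in
theorem avg {G : Type*} [Group G] [Finite G] {p : ℕ} [Fact p.Prime] (V R : Subgroup G)
    (hV : Cfsg.IsElementaryAbelian p V) (hRV : R ≤ Subgroup.normalizer (V : Set G))
    (S : Sylow p ↥R) (v : G) (hv : v ∈ V)
    (hvT : ∀ t : R, t ∈ (S : Subgroup R) → (t : G) * v = v * (t : G)) :
    v ∈ ⁅V, R⁆ ⊔ (V ⊓ Subgroup.centralizer ((R : Subgroup G) : Set G)) := by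
  classical
  have hpp : p.Prime := Fact.out
  have : IsMulCommutative V := hV.1
  let _ : Fintype (↥R ⧸ (S : Subgroup ↥R)) := Fintype.ofFinite _
  let f : ↥R ⧸ (S : Subgroup ↥R) → V := fun q => cj V (q.out : G) (hRV q.out.2) ⟨v, hv⟩
  -- the average
  have hf : ∀ (s : ↥R) (q : ↥R ⧸ (S : Subgroup ↥R)), cj V (s : G) (hRV s.2) (f q) = f (s • q) := by
    intro s q
    have h1 : s • q = QuotientGroup.mk (s * q.out) := by
      conv_lhs => rw [← QuotientGroup.out_eq' q]
      rfl
    obtain ⟨t, ht⟩ := QuotientGroup.mk_out_eq_mul (S : Subgroup ↥R) (s * q.out)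
    apply Subtype.ext
    rw [cj_coe]
    show (s : G) * ((q.out : ↥R) * v * ((q.out : ↥R) : G)⁻¹) * (s : G)⁻¹ = (((s • q).out : ↥R) : G) * v * (((s • q).out : ↥R) : G)⁻¹
    rw [h1, ht]
    have hc := hvT t t.2
    push_cast
    calc (s : G) * ((q.out : ↥R) * v * ((q.out : ↥R) : G)⁻¹) * (s : G)⁻¹
        = (s : G) * (q.out : ↥R) * (v * ((t : ↥R) : G) * ((t : ↥R) : G)⁻¹) * ((q.out : ↥R) : G)⁻¹ * (s : G)⁻¹ := by group
      _ = (s : G) * (q.out : ↥R) * (((t : ↥R) : G) * v * ((t : ↥R) : G)⁻¹) * ((q.out : ↥R) : G)⁻¹ * (s : G)⁻¹ := by rw [hc]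
      _ = _ := by group
  have hfix : ∀ s : ↥R, cj V (s : G) (hRV s.2) (∏ q, f q) = ∏ q, f q := by
    intro s
    rw [map_prod]
    simp_rw [hf s]
    exact (MulAction.bijective s).prod_comp f
  have ha : ((∏ q, f q : V) : G) ∈ V ⊓ Subgroup.centralizer ((R : Subgroup G) : Set G) := by
    rw [Subgroup.mem_inf]
    refine ⟨(∏ q, f q : V).2, ?_⟩
    rw [Subgroup.mem_centralizer_iff]
    intro r hr
    have := congrArg Subtype.val (hfix ⟨r, hr⟩)
    rw [cj_coe] at this
    calc r * ((∏ q, f q : V) : G) = (r * ((∏ q, f q : V) : G) * r⁻¹) * r := by group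
      _ = ((∏ q, f q : V) : G) * r := by rw [this]
  -- the average is v^n times a commutator
  have hc : ∀ q, ((⟨v, hv⟩ : V)⁻¹ * f q) ∈ (⁅V, R⁆ : Subgroup G).subgroupOf V := by
    intro q
    rw [Subgroup.mem_subgroupOf]
    have : (((⟨v, hv⟩ : V)⁻¹ * f q : V) : G) = ⁅v⁻¹, ((q.out : ↥R) : G)⁆ := by
      rw [commutatorElement_def]
      simp [f, cj_coe, mul_assoc]
    rw [this]
    exact Subgroup.commutator_mem_commutator (V.inv_mem hv) q.out.2
  have hprod : (∏ q, f q : V) = (⟨v, hv⟩ : V) ^ (Fintype.card (↥R ⧸ (S : Subgroup ↥R))) *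
      ∏ q, ((⟨v, hv⟩ : V)⁻¹ * f q) := by
    rw [← Finset.card_univ, ← Finset.prod_const, ← Finset.prod_mul_distrib]
    apply Finset.prod_congr rfl
    intro q _
    simp
  have hcmem : (∏ q, ((⟨v, hv⟩ : V)⁻¹ * f q) : V) ∈ (⁅V, R⁆ : Subgroup G).subgroupOf V :=
    Subgroup.prod_mem _ (fun q _ => hc q)
  -- invert n modulo p
  have hcop : (Fintype.card (↥R ⧸ (S : Subgroup ↥R))).Coprime p := by
    have h1 : Fintype.card (↥R ⧸ (S : Subgroup ↥R)) = (S : Subgroup ↥R).index := by
      rw [Subgroup.index, Nat.card_eq_fintype_card]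
    rw [h1]
    exact ((Nat.Prime.coprime_iff_not_dvd hpp).2 (S.not_dvd_index)).symm
  obtain ⟨m, -, hm⟩ := Nat.exists_mul_mod_eq_one_of_coprime hcop hpp.one_lt
  have hvp : (⟨v, hv⟩ : V) ^ p = 1 := by
    ext
    simpa using hV.2 v hv
  have hvn : ((⟨v, hv⟩ : V) ^ (Fintype.card (↥R ⧸ (S : Subgroup ↥R)))) ^ m = ⟨v, hv⟩ := by
    rw [← pow_mul]
    have e : Fintype.card (↥R ⧸ (S : Subgroup ↥R)) * m = p * (Fintype.card (↥R ⧸ (S : Subgroup ↥R)) * m / p) + 1 := by
      have := Nat.div_add_mod (Fintype.card (↥R ⧸ (S : Subgroup ↥R)) * m) p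
      omega
    rw [e, pow_succ, pow_mul, hvp, one_pow, one_mul]
  have hveq : (⟨v, hv⟩ : V) = ((∏ q, f q : V) * (∏ q, ((⟨v, hv⟩ : V)⁻¹ * f q) : V)⁻¹) ^ m := by
    rw [hprod, mul_inv_cancel_right, hvn]
  have hveq' : v = (((∏ q, f q : V) : G) * ((∏ q, ((⟨v, hv⟩ : V)⁻¹ * f q) : V) : G)⁻¹) ^ m := by
    have := congrArg Subtype.val hveq
    simpa using this
  rw [hveq']
  apply Subgroup.pow_mem
  apply Subgroup.mul_mem
  · exact (le_sup_right : _ ≤ ⁅V, R⁆ ⊔ (V ⊓ Subgroup.centralizer ((R : Subgroup G) : Set G))) ha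
  · apply Subgroup.inv_mem
    apply (le_sup_left : ⁅V, R⁆ ≤ ⁅V, R⁆ ⊔ (V ⊓ Subgroup.centralizer ((R : Subgroup G) : Set G)))
    rw [Subgroup.mem_subgroupOf] at hcmem
    exact hcmem

theorem pResidual_conj_mem {p : ℕ} {H : Type*} [Group H] (h r : H) (hr : r ∈ Cfsg.pResidual p H) :
    h * r * h⁻¹ ∈ Cfsg.pResidual p H := by
  unfold Cfsg.pResidual at hr ⊢
  induction hr using Subgroup.closure_induction with
  | mem x hx =>
    apply Subgroup.subset_closure
    show Nat.Coprime (orderOf (h * x * h⁻¹)) p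
    have : orderOf (h * x * h⁻¹) = orderOf x := by
      have := (MulAut.conj h).orderOf_eq x
      simpa using this
    rw [this]; exact hx
  | one => simp
  | mul x y _ _ hx hy =>
    have : h * (x * y) * h⁻¹ = (h * x * h⁻¹) * (h * y * h⁻¹) := by group
    rw [this]; exact Subgroup.mul_mem _ hx hy
  | inv x _ hx =>
    have : h * x⁻¹ * h⁻¹ = (h * x * h⁻¹)⁻¹ := by group
    rw [this]; exact Subgroup.inv_mem _ hx

/-- normalizer membership from one-sided conjugation invariance under a subgroup -/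
theorem le_normalizer_of_conj {G : Type*} [Group G] (H W : Subgroup G)
    (h : ∀ g ∈ H, ∀ w ∈ W, g * w * g⁻¹ ∈ W) : H ≤ Subgroup.normalizer (W : Set G) := by
  intro g hg
  rw [Subgroup.mem_normalizer_iff]
  intro w
  constructor
  · exact h g hg w
  · intro hw
    have := h g⁻¹ (H.inv_mem hg) _ hw
    have e : g⁻¹ * (g * w * g⁻¹) * g⁻¹⁻¹ = w := by group
    rwa [e] at this

/-- Let H act faithfully by conjugation on the elementary abelian p-subgroup V of a finite group, let O^p(H) be the subgroup of H generated by its elements of order prime to p, and T a Sylow p-subgroup of O^p(H). If V is generated by the H-conjugates of C_V(T) (V is the smallest H-invariant subgroup containing C_V(T)), then V = [V, O^p(H)]·C_V(O^p(H)). -/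
theorem result {G : Type*} [Group G] [Finite G] {p : ℕ} [Fact p.Prime] (V H : Subgroup G) (hV : Cfsg.IsElementaryAbelian p V) (hHV : H ≤ Subgroup.normalizer (V : Set G)) (hf : H ⊓ Subgroup.centralizer (V : Set G) = ⊥) (R : Subgroup G) (hR : R = (Cfsg.pResidual p ↥H).map H.subtype) (S : Sylow p ↥R) (T : Subgroup G) (hT : T = ((S : Subgroup ↥R).map R.subtype)) (hgen : ∀ W : Subgroup G, H ≤ Subgroup.normalizer (W : Set G) → (V ⊓ Subgroup.centralizer ((T : Subgroup G) : Set G)) ≤ W → V ≤ W) : ⁅V, R⁆ ⊔ (V ⊓ Subgroup.centralizer ((R : Subgroup G) : Set G)) = V := by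
  have hRH : R ≤ H := by rw [hR]; exact Subgroup.map_subtype_le _
  have hRV : R ≤ Subgroup.normalizer (V : Set G) := hRH.trans hHV
  have hRn : ∀ h ∈ H, ∀ r ∈ R, h * r * h⁻¹ ∈ R := by
    intro h hh r hr
    rw [hR] at hr ⊢
    obtain ⟨r', hr', rfl⟩ := hr
    exact ⟨⟨h, hh⟩ * r' * ⟨h, hh⟩⁻¹, pResidual_conj_mem _ _ hr', rfl⟩
  have hVn : ∀ h ∈ H, ∀ v ∈ V, h * v * h⁻¹ ∈ V := by
    intro h hh v hv
    exact (Subgroup.mem_normalizer_iff.1 (hHV hh) v).1 hv
  apply le_antisymm
  · apply sup_le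
    · rw [Subgroup.commutator_le]
      intro v hv r hr
      rw [commutatorElement_def]
      have := (Subgroup.mem_normalizer_iff.1 (hRV hr) v⁻¹).1 (V.inv_mem hv)
      have e : v * r * v⁻¹ * r⁻¹ = v * (r * v⁻¹ * r⁻¹) := by group
      rw [e]
      exact V.mul_mem hv this
    · exact inf_le_left
  · apply hgen
    · apply le_normalizer_of_conj
      intro g hg w hw
      -- conjugation by g preserves both parts
      have hmap : (⁅V, R⁆ ⊔ (V ⊓ Subgroup.centralizer ((R : Subgroup G) : Set G))).map (MulAut.conj g).toMonoidHom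
          ≤ ⁅V, R⁆ ⊔ (V ⊓ Subgroup.centralizer ((R : Subgroup G) : Set G)) := by
        rw [Subgroup.map_sup]
        apply sup_le_sup
        · rw [Subgroup.map_commutator]
          apply Subgroup.commutator_mono
          · rintro _ ⟨v, hv, rfl⟩
            exact hVn g hg v hv
          · rintro _ ⟨r, hr, rfl⟩
            exact hRn g hg r hr
        · rintro _ ⟨x, hx0, rfl⟩
          have hx : x ∈ V ⊓ Subgroup.centralizer ((R : Subgroup G) : Set G) := hx0
          rw [Subgroup.mem_inf] at hx ⊢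
          refine ⟨hVn g hg x hx.1, ?_⟩
          rw [Subgroup.mem_centralizer_iff]
          intro r hr
          have hr' : g⁻¹ * r * g ∈ R := by
            have := hRn g⁻¹ (H.inv_mem hg) r hr
            simpa using this
          have hc := (Subgroup.mem_centralizer_iff.1 hx.2) _ hr'
          show r * (g * x * g⁻¹) = (g * x * g⁻¹) * r
          calc r * (g * x * g⁻¹) = g * ((g⁻¹ * r * g) * x) * g⁻¹ := by group
            _ = g * (x * (g⁻¹ * r * g)) * g⁻¹ := by rw [hc]
            _ = (g * x * g⁻¹) * r := by group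
      exact hmap ⟨w, hw, rfl⟩
    · intro v hv
      rw [Subgroup.mem_inf] at hv
      apply avg V R hV hRV S v hv.1
      intro t ht
      have htT : (t : G) ∈ T := by
        rw [hT]
        exact ⟨t, ht, rfl⟩
      exact ((Subgroup.mem_centralizer_iff.1 hv.2) _ htT)

end Cfsg.Agent.S2781
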