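import Cfsg.Statements.S2787
import Cfsg.Agent.Lib.Helper18.Quad87
import Cfsg.Agent.Lib.Helper18.Q87PLUMB
import Cfsg.Agent.Lib.Helper18.Q87PSLSTR
import Cfsg.Agent.Lib.Helper31.Q87ORDP
import Cfsg.Agent.Lib.Helper31.Q87QEXT
import Cfsg.Agent.Lib.Helper31.Q87TRIV
import Cfsg.Agent.Lib.Helper31.Q87ABS595
import Cfsg.Agent.Lib.Helper6.Q87RLEM
import Cfsg.Agent.Lib.Helper15.Q87SLHOM
import Cfsg.Agent.Lib.Helper15.Q87PSLLIFT

set_option autoImplicit false
open Cfsg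

namespace Cfsg.Agent.S2787

/-- Let p be a prime and let H act by conjugation on the elementary abelian p-subgroup V of a finite group, irreducibly (no H-invariant subgroups of V other than 1 and V) and nontrivially, and suppose H/C_H(V) is isomorphic to PSL₂(F) for a field F with p^n elements, p^n odd, or p = 3 and H/C_H(V) is isomorphic to a Ree group ²G₂(3^(2m+1)), m ≥ 1. Then no subgroup A of H acting nontrivially on V acts quadratically: [V, A, A] = 1 forces [V, A] = 1. -/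
theorem result {G : Type*} [Group G] [Finite G] {p : ℕ} [Fact p.Prime] (V H : Subgroup G) (hV : Cfsg.IsElementaryAbelian p V) (hHV : H ≤ Subgroup.normalizer (V : Set G)) (hirr : ∀ U : Subgroup G, U ≤ V → H ≤ Subgroup.normalizer (U : Set G) → U = ⊥ ∨ U = V) (hnt : ¬ H ≤ Subgroup.centralizer (V : Set G)) [hn : ((Subgroup.centralizer (V : Set G)).subgroupOf H).Normal] (hq : (∃ (F : Type) (_ : Field F) (_ : Fintype F) (n : ℕ), Fintype.card F = p ^ n ∧ Odd (Fintype.card F) ∧ Nonempty (↥H ⧸ (Subgroup.centralizer (V : Set G)).subgroupOf H ≃* Matrix.ProjectiveSpecialLinearGroup (Fin 2) F)) ∨ (p = 3 ∧ Cfsg.Lie.IsoRee (↥H ⧸ (Subgroup.centralizer (V : Set G)).subgroupOf H))) (A : Subgroup G) (hA : A ≤ H) (hquad : ⁅⁅V, A⁆, A⁆ = ⊥) : ⁅V, A⁆ = ⊥ := by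
  exact Cfsg.Agent.Lib.Helper18.Quad87.final_of
    Cfsg.Agent.Lib.Helper18.Q87PLUMB.main
    Cfsg.Agent.Lib.Helper31.Q87QEXT.main
    Cfsg.Agent.Lib.Helper31.Q87TRIV.main
    Cfsg.Agent.Lib.Helper31.Q87ORDP.main
    Cfsg.Agent.Lib.Helper6.Q87RLEM.main
    (Cfsg.Agent.Lib.Helper18.Q87PSLSTR.main Cfsg.Agent.Lib.Helper15.Q87PSLLIFT.main
      Cfsg.Agent.Lib.Helper15.Q87SLHOM.main)
    Cfsg.Agent.Lib.Helper31.Q87ABS595.main
    V H hV hHV hq A hA hquad

end Cfsg.Agent.S2787
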