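import Cfsg.Statements.S2791
import Cfsg.Agent.Lib.Helper34.Alperin
import Cfsg.Agent.Lib.Helper34.SylIn2
import Cfsg.Agent.Lib.Helper33.Conj
import Cfsg.Agent.Lib.Helper48.CharPSub

set_option autoImplicit false
open Cfsg

namespace Cfsg.Agent.S2791

open Cfsg.Agent.Lib.Helper34.Alperin

variable {G : Type*} [Group G]

/-- The stability group, inside `N`, of the chain `1 ≤ P₀ ≤ I`. -/
def stab (N P₀ I : Subgroup G) : Subgroup G where
  carrier := {k | k ∈ N ∧ (∀ c ∈ P₀, k * c * k⁻¹ = c) ∧ ∀ a ∈ I, k * a * k⁻¹ * a⁻¹ ∈ P₀}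
  one_mem' := ⟨N.one_mem, fun c _ => by simp, fun a _ => by simp⟩
  mul_mem' := by
    rintro k k' ⟨hk1, hk2, hk3⟩ ⟨hk1', hk2', hk3'⟩
    refine ⟨N.mul_mem hk1 hk1', ?_, ?_⟩
    · intro c hc
      have e : k * k' * c * (k * k')⁻¹ = k * (k' * c * k'⁻¹) * k⁻¹ := by group
      rw [e, hk2' c hc, hk2 c hc]
    · intro a ha
      have e : k * k' * a * (k * k')⁻¹ * a⁻¹
          = k * (k' * a * k'⁻¹ * a⁻¹) * k⁻¹ * (k * a * k⁻¹ * a⁻¹) := by group
      rw [e, hk2 _ (hk3' a ha)]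
      exact P₀.mul_mem (hk3' a ha) (hk3 a ha)
  inv_mem' := by
    rintro k ⟨hk1, hk2, hk3⟩
    have hinv : ∀ c ∈ P₀, k⁻¹ * c * k⁻¹⁻¹ = c := by
      intro c hc
      have h := hk2 c hc
      calc k⁻¹ * c * k⁻¹⁻¹ = k⁻¹ * (k * c * k⁻¹) * k⁻¹⁻¹ := by rw [h]
        _ = c := by group
    refine ⟨N.inv_mem hk1, hinv, ?_⟩
    intro a ha
    have e : k⁻¹ * a * k⁻¹⁻¹ * a⁻¹ = k⁻¹ * (k * a * k⁻¹ * a⁻¹)⁻¹ * k⁻¹⁻¹ := by group
    rw [e, hinv _ (P₀.inv_mem (hk3 a ha))]
    exact P₀.inv_mem (hk3 a ha)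

theorem mem_stab {N P₀ I : Subgroup G} {k : G} :
    k ∈ stab N P₀ I ↔ k ∈ N ∧ (∀ c ∈ P₀, k * c * k⁻¹ = c) ∧ ∀ a ∈ I, k * a * k⁻¹ * a⁻¹ ∈ P₀ :=
  Iff.rfl

/-- Powers of an element of the stability group. -/
theorem stab_pow {N P₀ I : Subgroup G} {k : G} (hk : k ∈ stab N P₀ I) {a : G} (ha : a ∈ I) (m : ℕ) :
    k ^ m * a * (k ^ m)⁻¹ = (k * a * k⁻¹ * a⁻¹) ^ m * a := by
  induction m with
  | zero => simp
  | succ m ih =>
    have hc : k * a * k⁻¹ * a⁻¹ ∈ P₀ := (mem_stab.mp hk).2.2 a ha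
    have hkm : k ^ m ∈ stab N P₀ I := Subgroup.pow_mem _ hk m
    have h1 : k ^ m * (k * a * k⁻¹ * a⁻¹) * (k ^ m)⁻¹ = k * a * k⁻¹ * a⁻¹ :=
      (mem_stab.mp hkm).2.1 _ hc
    have e : k ^ (m + 1) * a * (k ^ (m + 1))⁻¹
        = (k ^ m * (k * a * k⁻¹ * a⁻¹) * (k ^ m)⁻¹) * (k ^ m * a * (k ^ m)⁻¹) := by
      rw [pow_succ]; group
    rw [e, h1, ih, pow_succ']
    group

/-- The data of the statement, in elementwise form. -/
structure Hyp {p : ℕ} (S : Sylow p G) (A : Subgroup G) : Prop where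
  le : A ≤ (S : Subgroup G)
  cl : ∀ x ∈ A, ∀ g : G, g * x * g⁻¹ ∈ (S : Subgroup G) → g * x * g⁻¹ ∈ A
  comm : ∀ x ∈ A, ∀ y ∈ A, x * y = y * x

theorem Hyp.normal {p : ℕ} {S : Sylow p G} {A : Subgroup G} (h : Hyp S A) {s a : G}
    (hs : s ∈ (S : Subgroup G)) (ha : a ∈ A) : s * a * s⁻¹ ∈ A :=
  h.cl a ha s (Subgroup.mul_mem _ (Subgroup.mul_mem _ hs (h.le ha)) (Subgroup.inv_mem _ hs))

theorem Hyp.le_normalizer {p : ℕ} {S : Sylow p G} {A : Subgroup G} (h : Hyp S A) :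
    (S : Subgroup G) ≤ Subgroup.normalizer (A : Set G) := by
  intro s hs
  rw [Subgroup.mem_normalizer_iff]
  intro a
  constructor
  · intro ha
    exact h.normal hs ha
  · intro ha
    have := h.normal (Subgroup.inv_mem _ hs) ha
    have e : s⁻¹ * (s * a * s⁻¹) * s⁻¹⁻¹ = a := by group
    rwa [e] at this

/-- In a finite group, `z T z⁻¹ ≤ T` (elementwise) puts `z` in the normalizer of `T`. -/
theorem mem_normalizer_of_conj_mem [Finite G] {T : Subgroup G} {z : G}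
    (h : ∀ a ∈ T, z * a * z⁻¹ ∈ T) : z ∈ Subgroup.normalizer (T : Set G) := by
  rw [Subgroup.mem_normalizer_iff_map_conj_eq]
  apply Subgroup.eq_of_le_of_card_ge
  · rintro _ ⟨a, ha, rfl⟩
    exact h a ha
  · exact (Subgroup.card_map_of_injective (MulAut.conj z).injective).ge

/-- The local step at a tame intersection `I`: an element of `N_G(I)` acts on `I` like an element
of `N_G(I)` normalizing `A ∩ N_G(I)`. -/
theorem tame_step [Finite G] {p : ℕ} [Fact p.Prime] {S : Sylow p G} {A : Subgroup G} (h : Hyp S A)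
    (I : Subgroup G) (hIS : I ≤ (S : Subgroup G))
    (htame : ¬ p ∣ ((S : Subgroup G) ⊓ Subgroup.normalizer (I : Set G)).relIndex
      (Subgroup.normalizer (I : Set G)))
    (x : G) (hx : x ∈ Subgroup.normalizer (I : Set G)) :
    ∃ y ∈ Subgroup.normalizer (I : Set G),
      y ∈ Subgroup.normalizer ((A ⊓ Subgroup.normalizer (I : Set G) : Subgroup G) : Set G) ∧
      ∀ a ∈ I, y⁻¹ * a * y = x⁻¹ * a * x := by
  classical
  set N : Subgroup G := Subgroup.normalizer (I : Set G) with hN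
  set P₀ : Subgroup G := A ⊓ I with hP₀
  set K : Subgroup G := stab N P₀ I with hK
  have hIN : I ≤ N := Subgroup.le_normalizer
  -- conjugation by elements of `N` preserves `I`
  have hNI : ∀ n ∈ N, ∀ a ∈ I, n * a * n⁻¹ ∈ I := fun n hn a ha =>
    (Subgroup.mem_normalizer_iff.mp hn a).mp ha
  have hNI' : ∀ n ∈ N, ∀ a ∈ I, n⁻¹ * a * n ∈ I := fun n hn a ha => by
    have := hNI n⁻¹ (N.inv_mem hn) a ha
    simpa using this
  -- `P₀` is `N`-invariant
  have hP₀inv : ∀ n ∈ N, ∀ c ∈ P₀, n * c * n⁻¹ ∈ P₀ := by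
    intro n hn c hc
    have h1 : n * c * n⁻¹ ∈ I := hNI n hn c (Subgroup.mem_inf.mp hc).2
    exact Subgroup.mem_inf.mpr ⟨h.cl c (Subgroup.mem_inf.mp hc).1 n (hIS h1), h1⟩
  have hKN : K ≤ N := fun k hk => (mem_stab.mp hk).1
  -- `K` is normal in `N`
  have hconjK : ∀ n ∈ N, ∀ k ∈ K, n * k * n⁻¹ ∈ K := by
    intro n hn k hk
    obtain ⟨hk1, hk2, hk3⟩ := mem_stab.mp hk
    refine mem_stab.mpr ⟨N.mul_mem (N.mul_mem hn hk1) (N.inv_mem hn), ?_, ?_⟩
    · intro c hc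
      have hc' : n⁻¹ * c * n⁻¹⁻¹ ∈ P₀ := hP₀inv n⁻¹ (N.inv_mem hn) c hc
      have e : n * k * n⁻¹ * c * (n * k * n⁻¹)⁻¹ = n * (k * (n⁻¹ * c * n⁻¹⁻¹) * k⁻¹) * n⁻¹ := by
        group
      rw [e, hk2 _ hc']
      group
    · intro a ha
      have ha' : n⁻¹ * a * n ∈ I := hNI' n hn a ha
      have e : n * k * n⁻¹ * a * (n * k * n⁻¹)⁻¹ * a⁻¹
          = n * (k * (n⁻¹ * a * n) * k⁻¹ * (n⁻¹ * a * n)⁻¹) * n⁻¹ := by group
      rw [e]
      exact hP₀inv n hn _ (hk3 _ ha')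
  have hNK : N ≤ Subgroup.normalizer (K : Set G) := by
    intro n hn
    rw [Subgroup.mem_normalizer_iff]
    intro k
    constructor
    · exact hconjK n hn k
    · intro hk
      have := hconjK n⁻¹ (N.inv_mem hn) _ hk
      have e : n⁻¹ * (n * k * n⁻¹) * n⁻¹⁻¹ = k := by group
      rwa [e] at this
  -- Sylow subgroups
  have hSylN : Cfsg.Agent.Lib.Helper33.Conj.IsSylIn p ((S : Subgroup G) ⊓ N) N :=
    ⟨inf_le_right, S.2.to_le inf_le_left, htame⟩
  have hSylK : Cfsg.Agent.Lib.Helper33.Conj.IsSylIn p (((S : Subgroup G) ⊓ N) ⊓ K) K :=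
    Cfsg.Agent.Lib.Helper48.CharPSub.isSylIn_inf_of_normal hSylN hKN hNK
  -- `A ∩ N ≤ K`
  have hA₀K : A ⊓ N ≤ K := by
    intro a' ha'
    obtain ⟨ha'A, ha'N⟩ := Subgroup.mem_inf.mp ha'
    refine mem_stab.mpr ⟨ha'N, ?_, ?_⟩
    · intro c hc
      rw [h.comm a' ha'A c (Subgroup.mem_inf.mp hc).1]
      group
    · intro a ha
      refine Subgroup.mem_inf.mpr ⟨?_, ?_⟩
      · have h1 : a * a'⁻¹ * a⁻¹ ∈ A := h.normal (hIS ha) (A.inv_mem ha'A)
        have e : a' * a * a'⁻¹ * a⁻¹ = a' * (a * a'⁻¹ * a⁻¹) := by group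
        rw [e]
        exact A.mul_mem ha'A h1
      · exact I.mul_mem (hNI a' ha'N a ha) (I.inv_mem ha)
  -- the conjugate `x⁻¹ (A ∩ N) x` lies in `K`
  set Q : Subgroup G := (A ⊓ N).map (MulAut.conj x⁻¹).toMonoidHom with hQ
  have hQK : Q ≤ K := by
    rintro _ ⟨a', ha', rfl⟩
    have := hconjK x⁻¹ (N.inv_mem hx) a' (hA₀K ha')
    simpa using this
  have hQp : IsPGroup p ↥Q := (S.2.to_le (inf_le_left.trans h.le)).map _
  obtain ⟨k, hkK, hk⟩ := hSylK.exists_cj_le hQK hQp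
  have hkN : k ∈ N := hKN hkK
  -- `k x⁻¹` normalizes `A ∩ N`
  have hz : k * x⁻¹ ∈ Subgroup.normalizer ((A ⊓ N : Subgroup G) : Set G) := by
    apply mem_normalizer_of_conj_mem
    intro a' ha'
    obtain ⟨ha'A, ha'N⟩ := Subgroup.mem_inf.mp ha'
    have h1 : k * (x⁻¹ * a' * x) * k⁻¹ ∈ ((S : Subgroup G) ⊓ N) ⊓ K := by
      apply hk
      refine ⟨x⁻¹ * a' * x, ⟨a', ha', by simp⟩, by simp⟩
    have h2 : k * (x⁻¹ * a' * x) * k⁻¹ ∈ (S : Subgroup G) :=
      (Subgroup.mem_inf.mp (Subgroup.mem_inf.mp h1).1).1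
    have e : k * x⁻¹ * a' * (k * x⁻¹)⁻¹ = k * (x⁻¹ * a' * x) * k⁻¹ := by group
    rw [e]
    refine Subgroup.mem_inf.mpr ⟨?_, (Subgroup.mem_inf.mp (Subgroup.mem_inf.mp h1).1).2⟩
    have e2 : k * (x⁻¹ * a' * x) * k⁻¹ = (k * x⁻¹) * a' * (k * x⁻¹)⁻¹ := by group
    rw [e2] at h2 ⊢
    exact h.cl a' ha'A _ h2
  -- `K` is a `p`-group modulo the centralizer of `I`
  let CK : Subgroup ↥K := (Subgroup.centralizer (I : Set G)).subgroupOf K
  have hCKn : CK.Normal := by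
    constructor
    intro c hc g
    rw [Subgroup.mem_subgroupOf] at hc ⊢
    rw [Subgroup.mem_centralizer_iff] at hc ⊢
    intro a ha
    have ha' : (g : G)⁻¹ * a * g ∈ I := hNI' g (hKN g.2) a ha
    have h1 := hc _ ha'
    have e1 : a * ((g * c * g⁻¹ : ↥K) : G) = g * ((g : G)⁻¹ * a * g * c) * (g : G)⁻¹ := by
      push_cast; group
    have e2 : ((g * c * g⁻¹ : ↥K) : G) * a = g * (c * ((g : G)⁻¹ * a * g)) * (g : G)⁻¹ := by
      push_cast; group
    rw [e1, e2, h1]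
  have hP₀p : IsPGroup p ↥P₀ := S.2.to_le (inf_le_left.trans h.le)
  obtain ⟨j, hj⟩ := IsPGroup.iff_card.mp hP₀p
  have hpK : IsPGroup p (↥K ⧸ CK) := by
    intro q
    induction q using QuotientGroup.induction_on with
    | H k' =>
      refine ⟨j, ?_⟩
      rw [← QuotientGroup.mk_pow, QuotientGroup.eq_one_iff]
      rw [Subgroup.mem_subgroupOf, Subgroup.mem_centralizer_iff]
      intro a ha
      have h1 := stab_pow k'.2 ha (p ^ j)
      have hc : (k' : G) * a * (k' : G)⁻¹ * a⁻¹ ∈ P₀ := (mem_stab.mp k'.2).2.2 a ha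
      have h2 : ((k' : G) * a * (k' : G)⁻¹ * a⁻¹) ^ (p ^ j) = 1 := by
        have := pow_card_eq_one' (G := ↥P₀) (x := ⟨_, hc⟩)
        rw [hj] at this
        simpa using congrArg Subtype.val this
      rw [h2, one_mul] at h1
      have e : ((k' ^ p ^ j : ↥K) : G) = (k' : G) ^ (p ^ j) := by push_cast; rfl
      rw [e]
      calc a * (k' : G) ^ (p ^ j) = (k' : G) ^ (p ^ j) * a * ((k' : G) ^ (p ^ j))⁻¹ * (k' : G) ^ (p ^ j) := by
            rw [h1]
        _ = (k' : G) ^ (p ^ j) * a := by group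
  obtain ⟨n, hn⟩ := IsPGroup.iff_card.mp hpK
  have hCKidx : CK.index = p ^ n := by rw [Subgroup.index_eq_card, hn]
  let SK : Subgroup ↥K := (((S : Subgroup G) ⊓ N) ⊓ K).subgroupOf K
  have hSKidx : ¬ p ∣ SK.index := hSylK.2.2
  have hTtop : SK ⊔ CK = ⊤ := by
    rw [← Subgroup.index_eq_one]
    have h1 : (SK ⊔ CK).index ∣ p ^ n := hCKidx ▸ Subgroup.index_dvd_of_le le_sup_right
    have h2 : (SK ⊔ CK).index ∣ SK.index := Subgroup.index_dvd_of_le le_sup_left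
    obtain ⟨i, -, hi⟩ := (Nat.dvd_prime_pow Fact.out).mp h1
    rcases Nat.eq_zero_or_pos i with rfl | hpos
    · simpa using hi
    · exfalso
      apply hSKidx
      refine dvd_trans ?_ h2
      rw [hi]
      exact dvd_pow_self p hpos.ne'
  have hkT : (⟨k, hkK⟩ : ↥K) ∈ ((SK ⊔ CK : Subgroup ↥K) : Set ↥K) := by
    rw [hTtop]; trivial
  have := hCKn
  rw [Subgroup.mul_normal] at hkT
  obtain ⟨r, hr, c, hc, hrc⟩ := Set.mem_mul.mp hkT
  have hrS : (r : G) ∈ (S : Subgroup G) :=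
    (Subgroup.mem_inf.mp (Subgroup.mem_inf.mp (Subgroup.mem_subgroupOf.mp hr)).1).1
  have hrN : (r : G) ∈ N := hKN r.2
  have hcC : (c : G) ∈ Subgroup.centralizer (I : Set G) := Subgroup.mem_subgroupOf.mp hc
  have hcN : (c : G) ∈ N := hKN c.2
  have hrc' : (r : G) * (c : G) = k := by
    have := congrArg Subtype.val hrc
    simpa using this
  -- `r` normalizes `A ∩ N`
  have hrn : (r : G) ∈ Subgroup.normalizer ((A ⊓ N : Subgroup G) : Set G) := by
    apply mem_normalizer_of_conj_mem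
    intro a' ha'
    obtain ⟨ha'A, ha'N⟩ := Subgroup.mem_inf.mp ha'
    exact Subgroup.mem_inf.mpr ⟨h.normal hrS ha'A, N.mul_mem (N.mul_mem hrN ha'N) (N.inv_mem hrN)⟩
  -- `y = x c⁻¹`
  have hcx : (c : G) * x⁻¹ ∈ Subgroup.normalizer ((A ⊓ N : Subgroup G) : Set G) := by
    have e : (c : G) * x⁻¹ = (r : G)⁻¹ * (k * x⁻¹) := by rw [← hrc']; group
    rw [e]
    exact Subgroup.mul_mem _ (Subgroup.inv_mem _ hrn) hz
  refine ⟨x * (c : G)⁻¹, N.mul_mem hx (N.inv_mem hcN), ?_, ?_⟩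
  · have e : x * (c : G)⁻¹ = ((c : G) * x⁻¹)⁻¹ := by group
    rw [e]
    exact Subgroup.inv_mem _ hcx
  · intro a ha
    have ha' : x⁻¹ * a * x ∈ I := hNI' x hx a ha
    have h1 := (Subgroup.mem_centralizer_iff.mp hcC) _ ha'
    calc (x * (c : G)⁻¹)⁻¹ * a * (x * (c : G)⁻¹) = (c : G) * (x⁻¹ * a * x) * (c : G)⁻¹ := by group
      _ = (x⁻¹ * a * x) * (c : G) * (c : G)⁻¹ := by rw [h1]
      _ = x⁻¹ * a * x := by group

/-- If `A` is not inside `I`, then `A ∩ N_G(I)` is not inside `I`. -/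
theorem exists_mem_not_mem [Finite G] {p : ℕ} [Fact p.Prime] {S : Sylow p G} {A : Subgroup G}
    (h : Hyp S A) (I : Subgroup G) (hIS : I ≤ (S : Subgroup G)) (hAI : ¬ A ≤ I) :
    ∃ a ∈ A, a ∈ Subgroup.normalizer (I : Set G) ∧ a ∉ I := by
  have hU : IsPGroup p ↥(I ⊔ A) := S.2.to_le (sup_le hIS h.le)
  have hne : I ≠ I ⊔ A := by
    intro he
    apply hAI
    rw [he]
    exact le_sup_right
  obtain ⟨u, huU, huN, huI⟩ :=
    Cfsg.Agent.Lib.Helper34.SylIn2.exists_mem_normalizer_notMem_of_isPGroup hU le_sup_left hne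
  have hu' : u ∈ ((I ⊔ A : Subgroup G) : Set G) := huU
  rw [Subgroup.coe_mul_of_left_le_normalizer_right I A (hIS.trans h.le_normalizer)] at hu'
  obtain ⟨i, hi, a, ha, rfl⟩ := Set.mem_mul.mp hu'
  refine ⟨a, ha, ?_, ?_⟩
  · have e : a = i⁻¹ * (i * a) := by group
    rw [e]
    exact Subgroup.mul_mem _ (Subgroup.inv_mem _ (Subgroup.le_normalizer hi)) huN
  · intro haI
    exact huI (I.mul_mem hi haI)

/-- The property to be proved for a subgroup `D` of `S`. -/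
def Ctl {p : ℕ} (S : Sylow p G) (A D : Subgroup G) : Prop :=
  ∀ g : G, (∀ a ∈ D, g⁻¹ * a * g ∈ (S : Subgroup G)) →
    ∃ y ∈ Subgroup.normalizer (A : Set G), ∀ a ∈ D, y⁻¹ * a * y = g⁻¹ * a * g

/-- One link of an Alperin chain is induced by an element of `N_G(A)`. -/
theorem link_control [Finite G] {p : ℕ} [Fact p.Prime] {S : Sylow p G} {A : Subgroup G}
    (h : Hyp S A) (D : Subgroup G)
    (IH : ∀ D' : Subgroup G, D' ≤ (S : Subgroup G) → Nat.card ↥D < Nat.card ↥D' → Ctl S A D')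
    (E : Subgroup G) (hcard : Nat.card ↥E = Nat.card ↥D) (Q : Sylow p G) (x : G)
    (hstep : Step S Q x) (hEI : E ≤ (S : Subgroup G) ⊓ (Q : Subgroup G)) :
    ∃ y ∈ Subgroup.normalizer (A : Set G), ∀ a ∈ E, y⁻¹ * a * y = x⁻¹ * a * x := by
  set I : Subgroup G := (S : Subgroup G) ⊓ (Q : Subgroup G) with hI
  have hIS : I ≤ (S : Subgroup G) := inf_le_left
  have hxN : x ∈ Subgroup.normalizer (I : Set G) := hstep.1
  have hxI : ∀ a ∈ I, x⁻¹ * a * x ∈ I := fun a ha => by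
    have := (Subgroup.mem_normalizer_iff.mp (Subgroup.inv_mem _ hxN) a).mp ha
    simpa using this
  by_cases hEeq : E = I
  · obtain ⟨y, hyN, hyA₀, hy⟩ := tame_step h I hIS hstep.2.1 x hxN
    by_cases hAI : A ≤ I
    · have e : A ⊓ Subgroup.normalizer (I : Set G) = A :=
        inf_eq_left.mpr (hAI.trans Subgroup.le_normalizer)
      rw [e] at hyA₀
      exact ⟨y, hyA₀, fun a ha => hy a (hEeq ▸ ha)⟩
    · obtain ⟨a₀, ha₀A, ha₀N, ha₀I⟩ := exists_mem_not_mem h I hIS hAI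
      set I₁ : Subgroup G := I ⊔ (A ⊓ Subgroup.normalizer (I : Set G)) with hI₁
      have hI₁S : I₁ ≤ (S : Subgroup G) := sup_le hIS (inf_le_left.trans h.le)
      have hlt : Nat.card ↥D < Nat.card ↥I₁ := by
        rw [← hcard, hEeq]
        by_contra hle
        have := Subgroup.eq_of_le_of_card_ge (le_sup_left : I ≤ I₁) (not_lt.mp hle)
        apply ha₀I
        rw [this]
        exact Subgroup.mem_sup_right (Subgroup.mem_inf.mpr ⟨ha₀A, ha₀N⟩)
      have hyI₁ : y ∈ Subgroup.normalizer (I₁ : Set G) := by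
        have h1 : I ≤ I₁.map (MulAut.conj y).toMonoidHom := by
          have := Subgroup.map_mono (f := (MulAut.conj y).toMonoidHom) (le_sup_left : I ≤ I₁)
          rwa [Cfsg.Agent.Lib.Helper33.Conj.cj_eq_of_mem_normalizer hyN] at this
        have h2 : A ⊓ Subgroup.normalizer (I : Set G) ≤ I₁.map (MulAut.conj y).toMonoidHom := by
          have := Subgroup.map_mono (f := (MulAut.conj y).toMonoidHom)
            (le_sup_right : A ⊓ Subgroup.normalizer (I : Set G) ≤ I₁)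
          rwa [Cfsg.Agent.Lib.Helper33.Conj.cj_eq_of_mem_normalizer hyA₀] at this
        rw [Subgroup.mem_normalizer_iff_map_conj_eq]
        exact (Subgroup.eq_of_le_of_card_ge (sup_le h1 h2)
          (Subgroup.card_map_of_injective (MulAut.conj y).injective).le).symm
      have hyI₁' : ∀ a ∈ I₁, y⁻¹ * a * y ∈ (S : Subgroup G) := fun a ha => by
        have := (Subgroup.mem_normalizer_iff.mp (Subgroup.inv_mem _ hyI₁) a).mp ha
        exact hI₁S (by simpa using this)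
      obtain ⟨y', hy'A, hy'⟩ := IH I₁ hI₁S hlt y hyI₁'
      refine ⟨y', hy'A, fun a ha => ?_⟩
      have haI : a ∈ I := hEeq ▸ ha
      rw [hy' a (Subgroup.mem_sup_left haI), hy a haI]
  · have hlt : Nat.card ↥D < Nat.card ↥I := by
      rw [← hcard]
      by_contra hle
      exact hEeq (Subgroup.eq_of_le_of_card_ge hEI (not_lt.mp hle))
    obtain ⟨y, hyA, hy⟩ := IH I hIS hlt x (fun a ha => hIS (hxI a ha))
    exact ⟨y, hyA, fun a ha => hy a (hEI ha)⟩

/-- A whole Alperin chain is induced by an element of `N_G(A)`. -/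
theorem chain_control [Finite G] {p : ℕ} [Fact p.Prime] {S : Sylow p G} {A : Subgroup G}
    (h : Hyp S A) (D : Subgroup G)
    (IH : ∀ D' : Subgroup G, D' ≤ (S : Subgroup G) → Nat.card ↥D < Nat.card ↥D' → Ctl S A D') :
    ∀ (l : List (Sylow p G × G)) (E : Subgroup G), Nat.card ↥E = Nat.card ↥D →
      Chain S (E : Set G) l →
      ∃ y ∈ Subgroup.normalizer (A : Set G),
        ∀ a ∈ E, y⁻¹ * a * y = ((l.map Prod.snd).prod)⁻¹ * a * (l.map Prod.snd).prod := by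
  intro l
  induction l with
  | nil =>
    intro E _ _
    exact ⟨1, Subgroup.one_mem _, fun a _ => by simp⟩
  | cons qx l ih =>
    obtain ⟨Q, x⟩ := qx
    intro E hcard hch
    obtain ⟨hstep, hEsub, htail⟩ := chain_cons.mp hch
    have hEI : E ≤ (S : Subgroup G) ⊓ (Q : Subgroup G) := fun a ha => hEsub ha
    rw [← coe_cjs] at htail
    obtain ⟨z, hzA, hz⟩ := ih (cjs x E) ((card_cjs x E).trans hcard) htail
    obtain ⟨y, hyA, hy⟩ := link_control h D IH E hcard Q x hstep hEI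
    refine ⟨y * z, Subgroup.mul_mem _ hyA hzA, fun a ha => ?_⟩
    have hmem : x⁻¹ * a * x ∈ cjs x E := by
      rw [mem_cjs]
      have e : x * (x⁻¹ * a * x) * x⁻¹ = a := by group
      rw [e]
      exact ha
    have h1 := hz _ hmem
    rw [← hy a ha] at h1
    rw [List.map_cons, List.prod_cons]
    calc (y * z)⁻¹ * a * (y * z) = z⁻¹ * (y⁻¹ * a * y) * z := by group
      _ = ((l.map Prod.snd).prod)⁻¹ * (y⁻¹ * a * y) * (l.map Prod.snd).prod := h1
      _ = ((l.map Prod.snd).prod)⁻¹ * (x⁻¹ * a * x) * (l.map Prod.snd).prod := by rw [hy a ha]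
      _ = (x * (l.map Prod.snd).prod)⁻¹ * a * (x * (l.map Prod.snd).prod) := by group

theorem ctl_of_larger [Finite G] {p : ℕ} [Fact p.Prime] {S : Sylow p G} {A : Subgroup G}
    (h : Hyp S A) (D : Subgroup G) (hDS : D ≤ (S : Subgroup G))
    (IH : ∀ D' : Subgroup G, D' ≤ (S : Subgroup G) → Nat.card ↥D < Nat.card ↥D' → Ctl S A D') :
    Ctl S A D := by
  intro g hg
  have hfus : Fus S (D : Set G) g := by
    apply fus_main S (D : Set G) g hDS
    rintro _ ⟨a, ha, rfl⟩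
    exact hg a ha
  obtain ⟨l, hl, hprod⟩ := hfus
  obtain ⟨y, hyA, hy⟩ := chain_control h D IH l D rfl hl
  rw [hprod] at hy
  exact ⟨y, hyA, hy⟩

theorem ctl_all [Finite G] {p : ℕ} [Fact p.Prime] {S : Sylow p G} {A : Subgroup G}
    (h : Hyp S A) : ∀ (n : ℕ) (D : Subgroup G), D ≤ (S : Subgroup G) →
      Nat.card ↥(S : Subgroup G) ≤ Nat.card ↥D + n → Ctl S A D := by
  intro n
  induction n with
  | zero =>
    intro D hDS hc
    apply ctl_of_larger h D hDS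
    intro D' hD'S hlt
    have := Subgroup.card_le_of_le hD'S
    omega
  | succ n ih =>
    intro D hDS hc
    apply ctl_of_larger h D hDS
    intro D' hD'S hlt
    exact ih D' hD'S (by omega)


/-- Let S be a Sylow p-subgroup of the finite group G and A an abelian subgroup of S that is strongly closed in S with respect to G. Then A controls strong fusion in G: for some Sylow p-subgroup T containing A, whenever a subset of T is conjugated into T by an element of G, the same elementwise conjugation is induced by an element of N_G(A). -/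
theorem result {G : Type*} [Group G] [Finite G] {p : ℕ} [Fact p.Prime] (S : Sylow p G) (A : Subgroup G) (hA : IsMulCommutative ↥A) (hsc : Cfsg.IsStronglyClosed A (S : Subgroup G)) : Cfsg.ControlsStrongFusion p A := by
  have hyp : Hyp S A := by
    refine ⟨hsc.1, hsc.2, ?_⟩
    intro x hx y hy
    have := hA.is_comm.comm (⟨x, hx⟩ : ↥A) ⟨y, hy⟩
    exact congrArg Subtype.val this
  refine ⟨S, hsc.1, fun B hB => ⟨hB, fun g hg => ?_⟩⟩
  have hDS : Subgroup.closure B ≤ (S : Subgroup G) := (Subgroup.closure_le _).mpr hB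
  have hD2 : ∀ a ∈ Subgroup.closure B, (g⁻¹)⁻¹ * a * g⁻¹ ∈ (S : Subgroup G) := by
    have hle : Subgroup.closure B ≤ Cfsg.Agent.Lib.Helper34.Alperin.cjs g (S : Subgroup G) := by
      rw [Subgroup.closure_le]
      intro a ha
      rw [SetLike.mem_coe, Cfsg.Agent.Lib.Helper34.Alperin.mem_cjs]
      exact hg ⟨a, ha, rfl⟩
    intro a ha
    have := Cfsg.Agent.Lib.Helper34.Alperin.mem_cjs.mp (hle ha)
    simpa using this
  obtain ⟨y, hyA, hy⟩ := ctl_all hyp (Nat.card ↥(S : Subgroup G)) (Subgroup.closure B) hDS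
    (Nat.le_add_left _ _) g⁻¹ hD2
  refine ⟨y⁻¹, Subgroup.inv_mem _ hyA, fun a ha => ?_⟩
  have := hy a (Subgroup.subset_closure ha)
  simp only [inv_inv] at this ⊢
  exact this.symm

end Cfsg.Agent.S2791
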