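import Cfsg.Statements.S2947
import Cfsg.Agent.Lib.Helper49.AxB
import Cfsg.Agent.Lib.Helper49.SylowConj

set_option autoImplicit false
open Cfsg

namespace Cfsg.Agent.S2947

open Cfsg.Agent.Lib.Helper49.CharP Cfsg.Agent.Lib.Helper49.AxB Cfsg.Agent.Lib.Helper49.SylowConj

/-- Membership in a conjugate `g X g⁻¹`. -/
theorem mem_map_conj_iff {G : Type*} [Group G] (g : G) (X : Subgroup G) (u : G) :
    u ∈ X.map (MulAut.conj g).toMonoidHom ↔ g⁻¹ * u * g ∈ X := by
  constructor
  · rintro ⟨x, hx, rfl⟩
    have : g⁻¹ * ((MulAut.conj g).toMonoidHom x) * g = x := by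
      simp [mul_assoc]
    rw [this]
    exact hx
  · intro h
    refine ⟨g⁻¹ * u * g, h, ?_⟩
    simp [mul_assoc]

/-- A nontrivial finite `2`-group has even order. -/
theorem two_dvd_card_of_ne_bot {G : Type*} [Group G] [Finite G] {X : Subgroup G} (hX : IsPGroup 2 X)
    (hne : X ≠ ⊥) : 2 ∣ Nat.card ↥X := by
  have : Fact (Nat.Prime 2) := ⟨Nat.prime_two⟩
  rcases hX.card_eq_or_dvd with h | h
  · exact absurd (Subgroup.card_eq_one.mp h) hne
  · exact h

/-- Let G be a finite group of characteristic 2 type in which every 2-local subgroup is solvable and the centralizer of Ω₁(Z(S)) lies in N_G(S) for every Sylow 2-subgroup S; suppose O₂(G) = 1, fix a Sylow 2-subgroup S and a 2-local subgroup M containing N_G(J(S)) (J the Thompson subgroup generated by the elementary abelian 2-subgroups of largest order). Then M is strongly embedded in G (a proper subgroup of even order whose intersection with each conjugate by an element outside M has odd order) if and only if no nontrivial 2-subgroup of M lies in a 2-local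 subgroup of G not contained in M. -/
theorem result {G : Type*} [Group G] [Finite G] (hL : Cfsg.IsCharacteristicTwoType G) (hN : ∀ N : Subgroup G, Cfsg.IsTwoLocal N → Group.IsSolvable ↥N)
    (hZ : ∀ S : Sylow 2 G, Subgroup.centralizer (Cfsg.omegaCenterOf (S : Subgroup G) : Set G) ≤ Subgroup.normalizer ((S : Subgroup G) : Set G)) (hO : Cfsg.pCore 2 G = ⊥) (S : Sylow 2 G) (M : Subgroup G) (hM : Cfsg.IsTwoLocal M)
    (hMJ : Subgroup.normalizer (Cfsg.thompsonSubgroupOf 2 (S : Subgroup G) : Set G) ≤ M) :
    Cfsg.IsStronglyEmbedded M ↔ Cfsg.straddlingTwoSubgroups M = ∅ := by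
  have hp2 : Fact (Nat.Prime 2) := ⟨Nat.prime_two⟩
  constructor
  · -- strongly embedded ⇒ no straddling subgroup
    rintro ⟨-, -, hodd⟩
    have SE1 : ∀ X : Subgroup G, IsPGroup 2 X → X ≠ ⊥ → X ≤ M →
        Subgroup.normalizer (X : Set G) ≤ M := by
      intro X hX hXne hXM g hg
      by_contra hgM
      have h1 := hodd g hgM
      have h2 : X ≤ M ⊓ M.map (MulAut.conj g).toMonoidHom := by
        intro u hu
        refine Subgroup.mem_inf.mpr ⟨hXM hu, ?_⟩
        rw [mem_map_conj_iff]
        have hg' : g⁻¹ ∈ Subgroup.normalizer (X : Set G) := Subgroup.inv_mem _ hg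
        have := (Subgroup.mem_normalizer_iff.mp hg' u).1 hu
        apply hXM
        simpa using this
      have h3 : 2 ∣ Nat.card ↥(M ⊓ M.map (MulAut.conj g).toMonoidHom : Subgroup G) :=
        (two_dvd_card_of_ne_bot hX hXne).trans (Subgroup.card_dvd_of_le h2)
      exact (Nat.not_even_iff_odd.mpr h1) (even_iff_two_dvd.mpr h3)
    rw [Set.eq_empty_iff_forall_notMem]
    rintro T ⟨hT, hTne, hTM, L, ⟨R, hR, hRne, rfl⟩, hTL, hLM⟩
    apply hLM
    have hTR : IsPGroup 2 (T ⊔ R : Subgroup G) := hT.to_sup_of_normal_right' hR hTL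
    have hBp : IsPGroup 2 ((T ⊔ R) ⊓ M : Subgroup G) := hTR.to_inf_left
    have hBne : (T ⊔ R) ⊓ M ≠ ⊥ := by
      intro h
      apply hTne
      rw [eq_bot_iff, ← h]
      exact le_inf le_sup_left hTM
    have hTRM : T ⊔ R ≤ M := by
      by_contra hcon
      have hne : (T ⊔ R) ⊓ M ≠ T ⊔ R := by
        intro h
        apply hcon
        rw [← h]
        exact inf_le_right
      obtain ⟨g, hg1, hg2, hg3⟩ := exists_mem_normalizer_not_mem hTR inf_le_left hne
      have hgM : g ∈ M := SE1 _ hBp hBne inf_le_right hg2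
      exact hg3 (Subgroup.mem_inf.mpr ⟨hg1, hgM⟩)
    exact SE1 R hR hRne (le_sup_right.trans hTRM)
  · -- no straddling subgroup ⇒ strongly embedded
    intro hempty
    have N1 : ∀ X : Subgroup G, IsPGroup 2 X → X ≠ ⊥ → X ≤ M →
        Subgroup.normalizer (X : Set G) ≤ M := by
      intro X hX hXne hXM
      by_contra hcon
      have : X ∈ Cfsg.straddlingTwoSubgroups M :=
        ⟨hX, hXne, hXM, _, ⟨X, hX, hXne, rfl⟩, Subgroup.le_normalizer, hcon⟩
      rw [hempty] at this
      exact this
    obtain ⟨R, hR, hRne, hMR⟩ := hM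
    have hRM : R ≤ M := hMR ▸ Subgroup.le_normalizer
    refine ⟨?_, ?_, ?_⟩
    · intro htop
      apply hRne
      rw [eq_bot_iff, ← hO]
      have hn : R.Normal := by
        rw [← Subgroup.normalizer_eq_top_iff, ← hMR, htop]
      exact le_pCore hn hR
    · exact even_iff_two_dvd.mpr ((two_dvd_card_of_ne_bot hR hRne).trans (Subgroup.card_dvd_of_le hRM))
    · intro g hgM
      rw [← Nat.not_even_iff_odd, even_iff_two_dvd]
      intro hdvd
      apply hgM
      set I : Subgroup G := M ⊓ M.map (MulAut.conj g).toMonoidHom with hI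
      obtain ⟨XI⟩ := (inferInstance : Nonempty (Sylow 2 ↥I))
      set X : Subgroup G := (XI : Subgroup ↥I).map I.subtype with hX
      have hXI : X ≤ I := Subgroup.map_subtype_le _
      have hXp : IsPGroup 2 X := XI.isPGroup'.map I.subtype
      have hXne : X ≠ ⊥ := by
        intro h
        rw [hX, Subgroup.map_eq_bot_iff_of_injective _ (Subgroup.subtype_injective I)] at h
        exact XI.ne_bot_of_dvd_card hdvd h
      have hXM : X ≤ M := hXI.trans inf_le_left
      -- maximality of X among 2-subgroups of I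
      have hmax : ∀ Y : Subgroup G, IsPGroup 2 Y → Y ≤ I → X ≤ Y → Y = X := by
        intro Y hY hYI hXY
        have h1 : (XI : Subgroup ↥I) ≤ Y.subgroupOf I := by
          intro u hu
          rw [Subgroup.mem_subgroupOf]
          exact hXY ⟨u, hu, rfl⟩
        have h2 := XI.is_maximal' (hY.comap_subtype) h1
        have h3 : (Y.subgroupOf I).map I.subtype = Y := Subgroup.map_subgroupOf_eq_of_le hYI
        rw [hX, ← h2]
        exact h3.symm
      -- the normalizer of X lies in I
      have hNX : Subgroup.normalizer (X : Set G) ≤ I := by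
        intro n hn
        refine Subgroup.mem_inf.mpr ⟨N1 X hXp hXne hXM hn, ?_⟩
        rw [mem_map_conj_iff]
        set X' : Subgroup G := X.map (MulAut.conj g⁻¹).toMonoidHom with hX'
        have hX'p : IsPGroup 2 X' := hXp.map _
        have hX'ne : X' ≠ ⊥ := by
          intro h
          rw [hX', Subgroup.map_eq_bot_iff_of_injective _ (MulAut.conj g⁻¹).injective] at h
          exact hXne h
        have hX'M : X' ≤ M := by
          rintro _ ⟨u, hu, rfl⟩
          have h1 : u ∈ M.map (MulAut.conj g).toMonoidHom := (Subgroup.mem_inf.mp (hXI hu)).2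
          rw [mem_map_conj_iff] at h1
          simpa using h1
        have h2 : (MulAut.conj g⁻¹).toMonoidHom n ∈ Subgroup.normalizer (X' : Set G) :=
          Subgroup.le_normalizer_map _ ⟨n, hn, rfl⟩
        have h3 := N1 X' hX'p hX'ne hX'M h2
        simpa using h3
      -- X is a Sylow 2-subgroup of G
      obtain ⟨P, hP⟩ := hXp.exists_le_sylow
      have hXP : X = (P : Subgroup G) := by
        by_contra hne
        obtain ⟨h, hh1, hh2, hh3⟩ := exists_mem_normalizer_not_mem P.isPGroup' hP hne
        have hYp : IsPGroup 2 ((P : Subgroup G) ⊓ Subgroup.normalizer (X : Set G) : Subgroup G) :=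
          P.isPGroup'.to_inf_left
        have h4 := hmax _ hYp (inf_le_right.trans hNX) (le_inf hP Subgroup.le_normalizer)
        apply hh3
        rw [← h4]
        exact Subgroup.mem_inf.mpr ⟨hh1, hh2⟩
      have hPM : (P : Subgroup G) ≤ M := hXP ▸ hXM
      -- g⁻¹ P g ≤ M
      have hP'M : ((g⁻¹ • P : Sylow 2 G) : Subgroup G) ≤ M := by
        intro u hu
        rw [mem_smul_sylow_iff, inv_inv] at hu
        have h1 : g * u * g⁻¹ ∈ I := hXI (hXP ▸ hu)
        have h2 : g * u * g⁻¹ ∈ M.map (MulAut.conj g).toMonoidHom := (Subgroup.mem_inf.mp h1).2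
        rw [mem_map_conj_iff] at h2
        have h3 : g⁻¹ * (g * u * g⁻¹) * g = u := by group
        rwa [h3] at h2
      obtain ⟨d, hdM, hd1, -⟩ := exists_smul_sylow_ge (g⁻¹ • P) M (P : Subgroup G) hP'M hPM P.isPGroup'
      have h5 : ((d • (g⁻¹ • P) : Sylow 2 G) : Subgroup G) = (P : Subgroup G) :=
        P.is_maximal' (d • (g⁻¹ • P) : Sylow 2 G).isPGroup' hd1
      have h6 : (d * g⁻¹) • P = P := by
        rw [mul_smul]
        exact Sylow.ext h5
      have h7 : d * g⁻¹ ∈ Subgroup.normalizer ((P : Subgroup G) : Set G) :=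
        Sylow.smul_eq_iff_mem_normalizer.mp h6
      have hPne : (P : Subgroup G) ≠ ⊥ := hXP ▸ hXne
      have h8 : d * g⁻¹ ∈ M := N1 _ P.isPGroup' hPne hPM h7
      have h9 : g⁻¹ ∈ M := by
        have := M.mul_mem (M.inv_mem hdM) h8
        simpa using this
      exact (Subgroup.inv_mem_iff M).mp h9

end Cfsg.Agent.S2947
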