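import Cfsg.Statements.S3084
import Cfsg.Agent.Lib.Helper51.XSHol

set_option autoImplicit false
open Cfsg

namespace Cfsg.Agent.S3084

open Cfsg.Agent.Lib.Helper30.XSExt Cfsg.Agent.Lib.Helper30.XSAut Cfsg.Agent.Lib.Helper51.XSAlg
  Cfsg.Agent.Lib.Helper51.XSHol

set_option linter.unusedVariables false

/-- Let K be a group acting faithfully and linearly on a finite-dimensional vector space U of dimension 2n ≥ 2 over the field with two elements, preserving a quadratic form q whose polar bilinear form is non-degenerate and which vanishes on some n-dimensional subspace (a non-singular form of plus type). Then there is a finite group R with a normal extraspecial 2-subgroup Q of order 2^(2n+1), an isomorphism of R/Q with K, and a surjective homomorphism χ from Q onto (the additive group of) U with kernel the centre of Q, such that χ carries conjugation by any r in R to the action of the image of r in K, and an element a of Q squares to the identity exactly when q vanishes at χ(a). -/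
theorem result {K : Type*} [Group K] {U : Type*} [AddCommGroup U] [Module (ZMod 2) U] [Module.Finite (ZMod 2) U] (n : ℕ) (hn1 : 1 ≤ n) (hn : Module.finrank (ZMod 2) U = 2 * n) (ρ : Representation (ZMod 2) K U) (hρ : Function.Injective ρ) (q : QuadraticForm (ZMod 2) U) (hq : ∀ (k : K) (u : U), q (ρ k u) = q u) (hnd : (QuadraticMap.polarBilin q).Nondegenerate) (hplus : ∃ W : Submodule (ZMod 2) U, Module.finrank (ZMod 2) ↥W = n ∧ ∀ w ∈ W, q w = 0) : ∃ (R : Type) (_ : Group R) (_ : Finite R) (Q : Subgroup R) (hN : Q.Normal) (e : R ⧸ Q ≃* K) (χ : ↥Q →* Multiplicative U), Cfsg.IsExtraspecial 2 ↥Q ∧ Nat.card ↥Q = 2 ^ (2 * n + 1) ∧ Function.Surjective χ ∧ χ.ker = Subgroup.center ↥Q ∧ (∀ (r : R) (a : ↥Q), χ ⟨r * a * r⁻¹, hN.conj_mem (a : R) a.2 r⟩ = Multiplicative.ofAdd (ρ (e (r : R ⧸ Q)) (Multiplicative.toAdd (χ a)))) ∧ ∀ a : ↥Q, a * a = 1 ↔ q (Multiplicative.toAdd (χ a)) = 0 := by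
  classical
  have hpos : 0 < 2 * n := by omega
  have : Nonempty (Fin (2 * n)) := ⟨⟨0, hpos⟩⟩
  obtain ⟨b⟩ : Nonempty (Module.Basis (Fin (2 * n)) (ZMod 2) U) :=
    ⟨Module.finBasisOfFinrankEq (ZMod 2) U hn⟩
  obtain ⟨τ, -⟩ : ∃ τ : U ≃ₗ[ZMod 2] (Fin (2 * n) → ZMod 2), τ = b.equivFun := ⟨_, rfl⟩
  obtain ⟨bil, hbil0⟩ : ∃ bil : LinearMap.BilinMap (ZMod 2) U (ZMod 2), bil = q.toBilin b :=
    ⟨_, rfl⟩
  have hbil : ∀ u, bil u u = q u := by
    intro u
    have h1 := QuadraticMap.toQuadraticMap_toBilin q b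
    rw [← hbil0] at h1
    have h2 := congrArg (fun Q : QuadraticMap (ZMod 2) U (ZMod 2) => Q u) h1
    exact h2
  have hpol : ∀ u v, bil u v + bil v u = QuadraticMap.polar q u v := by
    intro u v
    unfold QuadraticMap.polar
    rw [← hbil, ← hbil, ← hbil]
    simp only [map_add, LinearMap.add_apply]
    ring
  have hnd' : ∀ v : U, v ≠ 0 → ∃ w, bil v w + bil w v = 1 := by
    intro v hv
    have h1 : ∃ w, QuadraticMap.polar q v w ≠ 0 := by
      by_contra hall
      push Not at hall
      exact hv (hnd.1 v (fun w => hall w))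
    obtain ⟨w, hw⟩ := h1
    refine ⟨w, ?_⟩
    rw [hpol]
    rcases Cfsg.Agent.Lib.Helper30.XSModel.Mdl.zmod_two_cases (QuadraticMap.polar q v w) with h | h
    · exact absurd h hw
    · exact h
  obtain ⟨B, hB⟩ : ∃ B : Coc (Fin (2 * n) → ZMod 2),
      ∀ u v, B.β u v = bil (τ.symm u) (τ.symm v) :=
    ⟨{ β := fun u v => bil (τ.symm u) (τ.symm v)
       add_left := fun u v w => by simp only [map_add, LinearMap.add_apply]
       add_right := fun u v w => by simp only [map_add]
       two := fun v => by funext i; exact CharTwo.add_self_eq_zero _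
       nondeg := fun v hv => by
         have hv' : τ.symm v ≠ 0 := fun h => hv (by simpa using h)
         obtain ⟨w, hw⟩ := hnd' _ hv'
         refine ⟨τ w, ?_⟩
         simp only [LinearEquiv.symm_apply_apply]
         exact hw }, fun _ _ => rfl⟩
  obtain ⟨act, hact⟩ : ∃ act : K → (Fin (2 * n) → ZMod 2) → (Fin (2 * n) → ZMod 2),
      ∀ k v, act k v = τ (ρ k (τ.symm v)) := ⟨fun k v => τ (ρ k (τ.symm v)), fun _ _ => rfl⟩
  have H : ActHyp B act := by
    refine ⟨?_, ?_, ?_, ?_, ?_⟩
    · intro v
      rw [hact, map_one, Module.End.one_apply, LinearEquiv.apply_symm_apply]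
    · intro k k' v
      rw [hact, hact, hact, map_mul, Module.End.mul_apply, LinearEquiv.symm_apply_apply]
    · intro k u v
      rw [hact, hact, hact, map_add, map_add, map_add]
    · intro k v
      rw [hB, hB, hact, LinearEquiv.symm_apply_apply, hbil, hbil, hq]
    · intro k hk
      apply hρ
      rw [map_one]
      apply LinearMap.ext
      intro u
      have h1 := hk (τ u)
      rw [hact, LinearEquiv.symm_apply_apply] at h1
      rw [Module.End.one_apply]
      exact τ.injective h1
  obtain ⟨R, hG, hF, Q, hN, e, ψ, hψ⟩ := main H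
  obtain ⟨χ, hχ⟩ : ∃ χ : ↥Q →* Multiplicative U,
      ∀ a, χ a = Multiplicative.ofAdd (τ.symm (ψ a).v) :=
    ⟨{ toFun := fun a => Multiplicative.ofAdd (τ.symm (ψ a).v)
       map_one' := by
         rw [map_one]
         show Multiplicative.ofAdd (τ.symm (0 : Fin (2 * n) → ZMod 2)) = 1
         rw [map_zero]
         rfl
       map_mul' := fun a a' => by
         rw [map_mul, Ext.mul_v, map_add]
         rfl }, fun _ => rfl⟩
  have hcen : ∀ a : ↥Q, a ∈ Subgroup.center ↥Q ↔ (ψ a).v = 0 := by
    intro a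
    rw [Subgroup.mem_center_iff]
    constructor
    · intro ha
      have hc : ∀ y : Ext B, y * ψ a = ψ a * y := by
        intro y
        have h1 := ha (ψ.symm y)
        have h2 := congrArg ψ h1
        rw [map_mul, map_mul, MulEquiv.apply_symm_apply] at h2
        exact h2
      rcases Ext.central _ hc with h | h
      · rw [h]; rfl
      · rw [h]; rfl
    · intro ha g
      apply ψ.injective
      rw [map_mul, map_mul]
      rcases eq_one_or_zz_of_v _ ha with h | h
      · rw [h, mul_one, one_mul]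
      · rw [h]; exact (Ext.zz_mul _).symm
  refine ⟨R, hG, hF, Q, hN, e, χ, ?_, ?_, ?_, ?_, ?_, ?_⟩
  · exact extraspecial_of_mulEquiv ψ.symm Ext.extraspecial
  · rw [Nat.card_congr ψ.toEquiv, Ext.card, Nat.card_eq_fintype_card, Fintype.card_fun,
      ZMod.card, Fintype.card_fin, pow_succ, mul_comm]
  · intro m
    refine ⟨ψ.symm ⟨0, τ (Multiplicative.toAdd m)⟩, ?_⟩
    rw [hχ, MulEquiv.apply_symm_apply]
    show Multiplicative.ofAdd (τ.symm (τ (Multiplicative.toAdd m))) = m
    rw [LinearEquiv.symm_apply_apply]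
    rfl
  · ext a
    rw [MonoidHom.mem_ker, hcen, hχ]
    constructor
    · intro h
      have h1 : τ.symm (ψ a).v = 0 := h
      have h2 := congrArg τ h1
      rw [LinearEquiv.apply_symm_apply, map_zero] at h2
      exact h2
    · intro h
      rw [h, map_zero]
      rfl
  · intro r a
    rw [hχ, hχ, hψ, hact, LinearEquiv.symm_apply_apply]
    rfl
  · intro a
    rw [hχ]
    show a * a = 1 ↔ q (τ.symm (ψ a).v) = 0
    rw [← hbil, ← hB, ← Ext.sq_eq_one_iff, ← map_mul, MulEquiv.map_eq_one_iff]

end Cfsg.Agent.S3084
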