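import Cfsg.Statements.S3085
import Cfsg.Agent.Lib.Helper30.XSExt

set_option autoImplicit false
open Cfsg

namespace Cfsg.Agent.S3085

open Cfsg.Agent.Lib.Helper93.LargeExtra2 Cfsg.Agent.Lib.Helper30.XSCount
  Cfsg.Agent.Lib.Helper30.XSIso Cfsg.Agent.Lib.Helper30.XSModel Cfsg.Agent.Lib.Helper30.XSExt

/-- Six coordinates `(x1, y1, x2, y2, x3, y3)` over the field with two elements. -/
abbrev V3 : Type := ZMod 2 × ZMod 2 × ZMod 2 × ZMod 2 × ZMod 2 × ZMod 2

/-- The hyperbolic cocycle on three coordinate pairs. -/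
def b3 (u v : V3) : ZMod 2 := u.2.1 * v.1 + u.2.2.2.1 * v.2.2.1 + u.2.2.2.2.2 * v.2.2.2.2.1

set_option maxRecDepth 100000 in
set_option synthInstance.maxSize 2000 in
set_option synthInstance.maxHeartbeats 200000 in
theorem b3_nondeg : ∀ v : V3, v ≠ 0 → ∃ w, b3 v w + b3 w v = 1 := by decide

theorem v3_two : ∀ v : V3, v + v = 0 := by decide

def B3 : Coc V3 where
  β := b3
  add_left u v w := by simp only [b3, Prod.fst_add, Prod.snd_add]; ring
  add_right u v w := by simp only [b3, Prod.fst_add, Prod.snd_add]; ring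
  two := v3_two
  nondeg := b3_nondeg

/-- An isometry of order two. -/
def sfun : V3 → V3 := fun ⟨x1, y1, x2, y2, x3, y3⟩ => (y1, x1, x2, y2 + y3, x3 + x2, y3)
/-- A second isometry of order two, commuting with the first. -/
def tfun : V3 → V3 :=
  fun ⟨x1, y1, x2, y2, x3, y3⟩ => (x1 + y3, y1 + y3, x2, y2, x3 + x1 + y1 + y3, y3)
def lamS : V3 → ZMod 2 := fun ⟨x1, y1, _, _, _, _⟩ => x1 * y1
def lamT : V3 → ZMod 2 := fun ⟨x1, y1, _, _, _, y3⟩ => y1 * y3 + x1
def d3 : V3 := (1, 1, 0, 0, 1, 0)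

set_option maxRecDepth 100000 in
set_option synthInstance.maxSize 2000 in
set_option synthInstance.maxHeartbeats 200000 in
theorem s_add : ∀ u v : V3, sfun (u + v) = sfun u + sfun v := by decide

set_option maxRecDepth 100000 in
set_option synthInstance.maxSize 2000 in
set_option synthInstance.maxHeartbeats 200000 in
theorem t_add : ∀ u v : V3, tfun (u + v) = tfun u + tfun v := by decide

theorem s_inv : ∀ v : V3, sfun (sfun v) = v := by decide
theorem t_inv : ∀ v : V3, tfun (tfun v) = v := by decide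
theorem s_lam : ∀ v : V3, lamS (sfun v) = lamS v := by decide
theorem t_lam : ∀ v : V3, lamT (tfun v) = lamT v := by decide

set_option maxRecDepth 100000 in
set_option synthInstance.maxSize 2000 in
set_option synthInstance.maxHeartbeats 200000 in
theorem s_coc : ∀ u v : V3, lamS (u + v) + lamS u + lamS v = b3 (sfun u) (sfun v) + b3 u v := by
  decide

set_option maxRecDepth 100000 in
set_option synthInstance.maxSize 2000 in
set_option synthInstance.maxHeartbeats 200000 in
theorem t_coc : ∀ u v : V3, lamT (u + v) + lamT u + lamT v = b3 (tfun u) (tfun v) + b3 u v := by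
  decide

theorem st_comm : ∀ v : V3, sfun (tfun v) = tfun (sfun v) := by decide

theorem st_c : ∀ v : V3, lamT v + lamS (tfun v) =
    lamS v + lamT (sfun v) + (b3 d3 (tfun (sfun v)) + b3 (tfun (sfun v)) d3) := by decide

set_option maxRecDepth 100000 in
set_option synthInstance.maxSize 2000 in
set_option synthInstance.maxHeartbeats 200000 in
theorem key : ∀ a b : V3,
    ¬ (a + sfun a = 0 ∧ b + tfun b = 0 ∧ a + sfun b + d3 = b + tfun a) := by
  decide

theorem chi_sum_b3 : ∑ v : V3, Mdl.chi (b3 v v) = 8 := by decide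

/-- The cocycle of the model of order `2 ^ (2 * (m + 3) + 1)`. -/
abbrev BM (m : ℕ) : Coc (V3 × (Fin m → ZMod 2 × ZMod 2)) := B3.prod (Coc.hyp m)

/-- The model: an extraspecial group of plus type. -/
abbrev M (m : ℕ) : Type := Ext (BM m)

/-- An involutory automorphism of the model from an isometry of the first six coordinates. -/
def autOf (m : ℕ) (g : V3 → V3) (lam : V3 → ZMod 2)
    (hadd : ∀ u v, g (u + v) = g u + g v) (hinv : ∀ v, g (g v) = v)
    (hlam : ∀ v, lam (g v) = lam v)
    (hcoc : ∀ u v, lam (u + v) + lam u + lam v = b3 (g u) (g v) + b3 u v) : MulAut (M m) where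
  toFun x := ⟨x.c + lam x.v.1, (g x.v.1, x.v.2)⟩
  invFun x := ⟨x.c + lam x.v.1, (g x.v.1, x.v.2)⟩
  left_inv x := by
    apply Ext.ext
    · show x.c + lam x.v.1 + lam (g x.v.1) = x.c
      rw [hlam]
      have := CharTwo.add_self_eq_zero (lam x.v.1)
      linear_combination this
    · show (g (g x.v.1), x.v.2) = x.v
      rw [hinv]
  right_inv x := by
    apply Ext.ext
    · show x.c + lam x.v.1 + lam (g x.v.1) = x.c
      rw [hlam]
      have := CharTwo.add_self_eq_zero (lam x.v.1)
      linear_combination this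
    · show (g (g x.v.1), x.v.2) = x.v
      rw [hinv]
  map_mul' x y := by
    apply Ext.ext
    · show x.c + y.c + (b3 x.v.1 y.v.1 + (Coc.hyp m).β x.v.2 y.v.2) + lam (x.v.1 + y.v.1) =
        (x.c + lam x.v.1) + (y.c + lam y.v.1) +
          (b3 (g x.v.1) (g y.v.1) + (Coc.hyp m).β x.v.2 y.v.2)
      have h := hcoc x.v.1 y.v.1
      have h2 := CharTwo.add_self_eq_zero (lam x.v.1 + lam y.v.1)
      have h3 := CharTwo.add_self_eq_zero (b3 x.v.1 y.v.1)
      linear_combination h - h2 + h3
    · show (g (x.v.1 + y.v.1), x.v.2 + y.v.2) = (g x.v.1 + g y.v.1, x.v.2 + y.v.2)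
      rw [hadd]

theorem autOf_apply (m : ℕ) (g : V3 → V3) (lam : V3 → ZMod 2)
    (hadd : ∀ u v, g (u + v) = g u + g v) (hinv : ∀ v, g (g v) = v)
    (hlam : ∀ v, lam (g v) = lam v)
    (hcoc : ∀ u v, lam (u + v) + lam u + lam v = b3 (g u) (g v) + b3 u v) (x : M m) :
    autOf m g lam hadd hinv hlam hcoc x = ⟨x.c + lam x.v.1, (g x.v.1, x.v.2)⟩ := rfl

theorem autOf_sq (m : ℕ) (g : V3 → V3) (lam : V3 → ZMod 2)
    (hadd : ∀ u v, g (u + v) = g u + g v) (hinv : ∀ v, g (g v) = v)
    (hlam : ∀ v, lam (g v) = lam v)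
    (hcoc : ∀ u v, lam (u + v) + lam u + lam v = b3 (g u) (g v) + b3 u v) :
    autOf m g lam hadd hinv hlam hcoc * autOf m g lam hadd hinv hlam hcoc = 1 := by
  apply MulEquiv.ext
  intro x
  rw [MulAut.mul_apply, MulAut.one_apply]
  exact (autOf m g lam hadd hinv hlam hcoc).left_inv x

/-- The two automorphisms and the correcting element. -/
def S (m : ℕ) : MulAut (M m) := autOf m sfun lamS s_add s_inv s_lam s_coc
def T (m : ℕ) : MulAut (M m) := autOf m tfun lamT t_add t_inv t_lam t_coc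
def dM (m : ℕ) : M m := ⟨0, (d3, 0)⟩

theorem S_apply (m : ℕ) (x : M m) : S m x = ⟨x.c + lamS x.v.1, (sfun x.v.1, x.v.2)⟩ := rfl
theorem T_apply (m : ℕ) (x : M m) : T m x = ⟨x.c + lamT x.v.1, (tfun x.v.1, x.v.2)⟩ := rfl

theorem S_sq (m : ℕ) : S m * S m = 1 := autOf_sq m sfun lamS s_add s_inv s_lam s_coc
theorem T_sq (m : ℕ) : T m * T m = 1 := autOf_sq m tfun lamT t_add t_inv t_lam t_coc

theorem st_rel (m : ℕ) : S m * T m = MulAut.conj (dM m) * (T m * S m) := by
  apply MulEquiv.ext
  intro x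
  rw [MulAut.mul_apply, MulAut.mul_apply, MulAut.mul_apply, MulAut.conj_apply]
  apply Ext.ext
  · rw [Ext.conj_c]
    show x.c + lamT x.v.1 + lamS (tfun x.v.1) =
      x.c + lamS x.v.1 + lamT (sfun x.v.1) +
        ((b3 d3 (tfun (sfun x.v.1)) + (Coc.hyp m).β 0 x.v.2) +
          (b3 (tfun (sfun x.v.1)) d3 + (Coc.hyp m).β x.v.2 0))
    rw [Coc.zero_left, Coc.zero_right]
    have h := st_c x.v.1
    linear_combination h
  · rw [Ext.conj_v]
    show (sfun (tfun x.v.1), x.v.2) = (tfun (sfun x.v.1), x.v.2)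
    rw [st_comm]

theorem conj_comm {Q : Type*} [Group Q] (α : MulAut Q) (x : Q) :
    α * MulAut.conj x = MulAut.conj (α x) * α := by
  apply MulEquiv.ext
  intro y
  simp only [MulAut.mul_apply, MulAut.conj_apply, map_mul, map_inv]

/-- The group-theoretic core: a complement to the inner automorphisms yields commuting involutory
lifts. -/
theorem core {Q : Type*} [Group Q] (L : Subgroup (MulAut Q))
    (hdisj : ∀ x : Q, MulAut.conj x ∈ L → MulAut.conj x = 1)
    (hgen : ∀ α : MulAut Q, ∃ a : Q, MulAut.conj a * α ∈ L)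
    (S T : MulAut Q) (d : Q) (hS : S * S = 1) (hT : T * T = 1)
    (hST : S * T = MulAut.conj d * (T * S)) :
    ∃ a b : Q, MulAut.conj (a * S a) = 1 ∧ MulAut.conj (b * T b) = 1 ∧
      MulAut.conj (a * S b * d) = MulAut.conj (b * T a) := by
  obtain ⟨a, ha⟩ := hgen S
  obtain ⟨b, hb⟩ := hgen T
  have e1 : (MulAut.conj a * S) * (MulAut.conj a * S) = MulAut.conj (a * S a) := by
    calc (MulAut.conj a * S) * (MulAut.conj a * S)
        = MulAut.conj a * (S * MulAut.conj a) * S := by group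
      _ = MulAut.conj a * (MulAut.conj (S a) * S) * S := by rw [conj_comm S a]
      _ = MulAut.conj a * MulAut.conj (S a) * (S * S) := by group
      _ = MulAut.conj (a * S a) := by rw [hS, mul_one, map_mul]
  have e2 : (MulAut.conj b * T) * (MulAut.conj b * T) = MulAut.conj (b * T b) := by
    calc (MulAut.conj b * T) * (MulAut.conj b * T)
        = MulAut.conj b * (T * MulAut.conj b) * T := by group
      _ = MulAut.conj b * (MulAut.conj (T b) * T) * T := by rw [conj_comm T b]
      _ = MulAut.conj b * MulAut.conj (T b) * (T * T) := by group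
      _ = MulAut.conj (b * T b) := by rw [hT, mul_one, map_mul]
  have e3 : (MulAut.conj a * S) * (MulAut.conj b * T) =
      MulAut.conj (a * S b * d) * (T * S) := by
    calc (MulAut.conj a * S) * (MulAut.conj b * T)
        = MulAut.conj a * (S * MulAut.conj b) * T := by group
      _ = MulAut.conj a * (MulAut.conj (S b) * S) * T := by rw [conj_comm S b]
      _ = MulAut.conj a * MulAut.conj (S b) * (S * T) := by group
      _ = MulAut.conj a * MulAut.conj (S b) * (MulAut.conj d * (T * S)) := by rw [hST]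
      _ = MulAut.conj (a * S b * d) * (T * S) := by rw [map_mul, map_mul]; group
  have e4 : (MulAut.conj b * T) * (MulAut.conj a * S) = MulAut.conj (b * T a) * (T * S) := by
    calc (MulAut.conj b * T) * (MulAut.conj a * S)
        = MulAut.conj b * (T * MulAut.conj a) * S := by group
      _ = MulAut.conj b * (MulAut.conj (T a) * T) * S := by rw [conj_comm T a]
      _ = MulAut.conj (b * T a) * (T * S) := by rw [map_mul]; group
  refine ⟨a, b, ?_, ?_, ?_⟩
  · apply hdisj; rw [← e1]; exact L.mul_mem ha ha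
  · apply hdisj; rw [← e2]; exact L.mul_mem hb hb
  · have h5 : MulAut.conj ((a * S b * d) * (b * T a)⁻¹) ∈ L := by
      have h6 := L.mul_mem (L.mul_mem ha hb) (L.inv_mem (L.mul_mem hb ha))
      rw [e3, e4] at h6
      have e5 : MulAut.conj (a * S b * d) * (T * S) * (MulAut.conj (b * T a) * (T * S))⁻¹ =
          MulAut.conj ((a * S b * d) * (b * T a)⁻¹) := by
        have e6 : MulAut.conj ((a * S b * d) * (b * T a)⁻¹) =
            MulAut.conj (a * S b * d) * (MulAut.conj (b * T a))⁻¹ := by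
          rw [map_mul, map_inv]
        rw [e6]; group
      rwa [e5] at h6
    have h7 := hdisj _ h5
    rw [map_mul, map_inv, mul_inv_eq_one] at h7
    exact h7

theorem no_complement_model (m : ℕ) (L : Subgroup (MulAut (M m)))
    (hdisj : ∀ x : M m, MulAut.conj x ∈ L → MulAut.conj x = 1)
    (hgen : ∀ α : MulAut (M m), ∃ a : M m, MulAut.conj a * α ∈ L) : False := by
  obtain ⟨a, b, h1, h2, h3⟩ :=
    core L hdisj hgen (S m) (T m) (dM m) (S_sq m) (T_sq m) (st_rel m)
  have k1 : (a * S m a).v = (1 : M m).v := Ext.conj_inj (by rw [h1, map_one])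
  have k2 : (b * T m b).v = (1 : M m).v := Ext.conj_inj (by rw [h2, map_one])
  have k3 := Ext.conj_inj h3
  have j1 : a.v.1 + sfun a.v.1 = 0 := congrArg Prod.fst k1
  have j2 : b.v.1 + tfun b.v.1 = 0 := congrArg Prod.fst k2
  have j3 : a.v.1 + sfun b.v.1 + d3 = b.v.1 + tfun a.v.1 := congrArg Prod.fst k3
  exact key a.v.1 b.v.1 ⟨j1, j2, j3⟩

theorem no_complement_of_iso {Q : Type*} [Group Q] (m : ℕ) (e : Q ≃* M m)
    (L : Subgroup (MulAut Q)) : ¬ (Cfsg.Inn Q).IsComplement' L := by
  intro hc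
  have hconj : ∀ x : Q, MulAut.congr e (MulAut.conj x) = MulAut.conj (e x) := by
    intro x
    apply MulEquiv.ext
    intro y
    simp [MulAut.congr]
  apply no_complement_model m (L.map (MulAut.congr e).toMonoidHom)
  · intro x hx
    obtain ⟨ℓ, hℓ, hℓx⟩ := Subgroup.mem_map.mp hx
    have hℓx' : MulAut.congr e ℓ = MulAut.conj x := hℓx
    have h1 : ℓ = MulAut.conj (e.symm x) := by
      apply (MulAut.congr e).injective
      rw [hconj, MulEquiv.apply_symm_apply]
      exact hℓx'
    have h2 : ℓ ∈ Cfsg.Inn Q ⊓ L := ⟨⟨e.symm x, h1.symm⟩, hℓ⟩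
    rw [hc.disjoint.eq_bot] at h2
    have h3 : ℓ = 1 := Subgroup.mem_bot.mp h2
    rw [← hℓx', h3, map_one]
  · intro α
    obtain ⟨⟨⟨i, hi⟩, ⟨ℓ, hℓ⟩⟩, hil⟩ := hc.2 ((MulAut.congr e).symm α)
    have hil' : i * ℓ = (MulAut.congr e).symm α := hil
    obtain ⟨x, rfl⟩ := hi
    refine ⟨(e x)⁻¹, ?_⟩
    refine Subgroup.mem_map.mpr ⟨ℓ, hℓ, ?_⟩
    have h1 : α = MulAut.conj (e x) * MulAut.congr e ℓ := by
      rw [← hconj, ← map_mul, hil', MulEquiv.apply_symm_apply]
    show MulAut.congr e ℓ = MulAut.conj (e x)⁻¹ * α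
    rw [h1, map_inv]
    group

/-- Let Q be an extraspecial 2-group of order 2^(2n+1) with n ≥ 3 that is of plus type (it contains an elementary abelian subgroup of order 2^(n+1)). Then the group of inner automorphisms of Q has no complement in the full automorphism group of Q: the extension of the inner automorphism group (elementary abelian of order 2^(2n)) by the outer automorphism group (the orthogonal group of plus type) does not split. -/
theorem result {Q : Type*} [Group Q] [Finite Q] (n : ℕ) (hn : 3 ≤ n) (hQ : Cfsg.IsExtraspecial 2 Q) (hcard : Nat.card Q = 2 ^ (2 * n + 1)) (hplus : ∃ E : Subgroup Q, Cfsg.IsElementaryAbelian 2 E ∧ Nat.card ↥E = 2 ^ (n + 1)) (L : Subgroup (MulAut Q)) : ¬ (Cfsg.Inn Q).IsComplement' L := by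
  obtain ⟨m, rfl⟩ : ∃ m, n = m + 3 := ⟨n - 3, by omega⟩
  have : Nontrivial (V3 × (Fin m → ZMod 2 × ZMod 2)) :=
    ⟨⟨(d3, 0), 0, fun h => by
      have h1 : d3 = 0 := congrArg Prod.fst h
      revert h1; decide⟩⟩
  have hM : Cfsg.IsExtraspecial 2 (M m) := Ext.extraspecial
  have hMcard : Nat.card (M m) = 2 ^ (2 * (m + 3) + 1) := by
    rw [Ext.card, Nat.card_prod, Nat.card_pi]
    simp only [Nat.card_prod, Nat.card_zmod, Finset.prod_const, Finset.card_univ,
      Fintype.card_fin]
    rw [show (2 : ℕ) * 2 = 2 ^ 2 from rfl, ← pow_mul]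
    ring
  have hMS : Ssum (M m) = 2 ^ (m + 3 + 1) := by
    rw [Ext.ssum_eq, chi_sum_prod, chi_sum_hyp]
    have h8 : ∑ v : V3, Mdl.chi (B3.β v v) = 8 := chi_sum_b3
    rw [h8]
    ring
  have hQS : Ssum Q = 2 ^ (m + 3 + 1) := by
    obtain ⟨z, m', hz, -, hc', -, -, -⟩ := struct hQ
    have hm' : m' = m + 3 := by
      have h : 2 ^ (2 * m' + 1) = 2 ^ (2 * (m + 3) + 1) := by rw [← hc', ← hcard]
      have := Nat.pow_right_injective (le_refl 2) h
      omega
    subst hm'
    obtain ⟨A, ⟨hAc, hA2⟩, hAcard⟩ := hplus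
    exact (rank_le hz _ hc' A
      (fun a ha b hb => congrArg Subtype.val (hAc.is_comm.comm ⟨a, ha⟩ ⟨b, hb⟩)) hA2).2 hAcard
  obtain ⟨e⟩ := iso_of_ssum_eq hQ hM (hMcard.trans hcard.symm) (hQS.trans hMS.symm)
  exact no_complement_of_iso m e L

end Cfsg.Agent.S3085
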