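import Cfsg.Statements.S3356
import Cfsg.Agent.Lib.Helper33.Conj
import Cfsg.Agent.Lib.Helper59.HalfTrans
import Cfsg.Agent.Lib.Helper59.MinNormal2

set_option autoImplicit false
open Cfsg

namespace Cfsg.Agent.S3356

open MulAction Cfsg.Agent.Lib.Helper59.TwoTransSocle Cfsg.Agent.Lib.Helper59.HalfTrans
  Cfsg.Agent.Lib.Helper59.MinNormal2 Cfsg.Agent.Lib.Helper33.Conj

/-- Let G be a finite 3/2-transitive permutation group: G acts faithfully and transitively on a finite set, the point stabilizers are non-trivial, and for each point a all orbits of G_a on the remaining points have the same size. Suppose G has a regular normal subgroup N and G is not a Frobenius group (some two-point stabilizer is non-trivial). Then N is an elementary abelian p-group for some prime p, and every non-trivial normal subgroup of G contains N (so N is the unique minimal normal subgroup). -/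
theorem result {G Ω : Type*} [Group G] [Finite G]
    [MulAction G Ω] [FaithfulSMul G Ω] [Finite Ω] (htrans : MulAction.IsPretransitive G Ω)
    (hne : ∀ a : Ω, MulAction.stabilizer G a ≠ ⊥)
    (hhalf : ∀ a b c : Ω, b ≠ a → c ≠ a →
      Nat.card (MulAction.orbit (MulAction.stabilizer G a) b) = Nat.card (MulAction.orbit (MulAction.stabilizer G a) c))
    (N : Subgroup G) [hN : N.Normal] (hNt : MulAction.IsPretransitive N Ω) (hNr : ∀ a : Ω, MulAction.stabilizer N a = ⊥)
    (hnotF : ∃ a b : Ω, a ≠ b ∧ MulAction.stabilizer G a ⊓ MulAction.stabilizer G b ≠ ⊥) :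
    (∃ p : ℕ, p.Prime ∧ IsMulCommutative N ∧ ∀ x ∈ N, x ^ p = 1) ∧
    (∀ M : Subgroup G, M.Normal → M ≠ ⊥ → N ≤ M) := by
  classical
  obtain ⟨a0, b0, hab0, hnb⟩ := hnotF
  -- all two-point stabilizers have the same order
  have hfix : ∀ a b b' : Ω, b ≠ a → b' ≠ a →
      Nat.card (stabilizer G a ⊓ stabilizer G b : Subgroup G) =
        Nat.card (stabilizer G a ⊓ stabilizer G b' : Subgroup G) := by
    intro a b b' hb hb'
    have h1 := card_eq_ncard_orbit_mul (stabilizer G a) b
    have h2 := card_eq_ncard_orbit_mul (stabilizer G a) b'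
    have h3 := hhalf a b b' hb hb'
    rw [Nat.card_coe_set_eq, Nat.card_coe_set_eq] at h3
    rw [h3] at h1
    have hpos : 0 < (orbit (stabilizer G a) b').ncard := by
      rw [← Nat.card_coe_set_eq]
      exact Nat.card_pos_iff.mpr ⟨⟨⟨b', mem_orbit_self b'⟩⟩, inferInstance⟩
    exact Nat.eq_of_mul_eq_mul_left hpos (h1.symm.trans h2)
  have hc : ∀ a b : Ω, a ≠ b → Nat.card (stabilizer G a ⊓ stabilizer G b : Subgroup G) =
      Nat.card (stabilizer G a0 ⊓ stabilizer G b0 : Subgroup G) := by
    intro a b hab
    obtain ⟨g, hg⟩ := htrans.exists_smul_eq a0 a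
    have h1 : Nat.card (stabilizer G a ⊓ stabilizer G (g • b0) : Subgroup G) =
        Nat.card (stabilizer G a0 ⊓ stabilizer G b0 : Subgroup G) := by
      rw [← hg, stabilizer_smul_eq_stabilizer_map_conj, stabilizer_smul_eq_stabilizer_map_conj,
        ← cj_inf, card_cj]
    rw [← h1]
    apply hfix a b (g • b0) (Ne.symm hab)
    rw [← hg]
    intro h
    exact hab0 (smul_left_cancel g h).symm
  have hc1 : Nat.card (stabilizer G a0 ⊓ stabilizer G b0 : Subgroup G) ≠ 1 := by
    intro h
    exact hnb (Subgroup.eq_bot_of_card_eq _ h)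
  -- `N` is abelian
  have hab := abelian_of_half_transitive htrans N hNt hNr _ hc hc1 a0
  -- `G` is primitive
  have hprim : IsPreprimitive G Ω := IsPreprimitive.mk (fun {B} hB => by
    by_contra hB'
    rw [IsTrivialBlock, not_or] at hB'
    exact hc1 (Cfsg.Agent.Lib.Helper59.Wielandt.wielandt _ hc B hB hB'.1 hB'.2))
  have hNcard : Nat.card N = Nat.card Ω := by
    have h1 := card_eq_of_transitive N hNt a0
    have h2 : N ⊓ stabilizer G a0 = ⊥ := by
      rw [eq_bot_iff]
      intro y hy
      rw [Subgroup.mem_bot]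
      apply eq_of_smul_eq N hNr a0 y 1 hy.1 N.one_mem
      rw [one_smul]; exact hy.2
    rw [h2, Subgroup.card_bot, mul_one] at h1
    exact h1
  -- a nontrivial normal subgroup of `G` inside `N` is `N`
  have hmin : ∀ K : Subgroup G, K.Normal → K ≠ ⊥ → K ≤ N → K = N := by
    intro K hKn hK0 hKN
    have hKt := transitive_of_normal hprim K hKn hK0
    apply Subgroup.eq_of_le_of_card_ge hKN
    rw [hNcard, card_eq_of_transitive K hKt a0]
    exact Nat.le_mul_of_pos_right _ Nat.card_pos
  have hN0 : N ≠ ⊥ := by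
    intro h
    have h1 : b0 ∈ orbit N a0 := by
      obtain ⟨n, hn⟩ := hNt.exists_smul_eq a0 b0
      exact ⟨n, hn⟩
    obtain ⟨n, hn⟩ := h1
    have h2 : (n : G) ∈ (⊥ : Subgroup G) := h ▸ n.2
    rw [Subgroup.mem_bot] at h2
    have h3 : (n : G) • a0 = b0 := hn
    rw [h2, one_smul] at h3
    exact hab0 h3
  constructor
  · -- exponent `p`
    have hNnt : Nontrivial N := (Subgroup.nontrivial_iff_ne_bot N).mpr hN0
    have hcard : Nat.card N ≠ 1 := by
      intro h
      have h1 : Subsingleton N := (Nat.card_eq_one_iff_unique.mp h).1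
      exact not_subsingleton N h1
    obtain ⟨p, hp, hpd⟩ := Nat.exists_prime_and_dvd hcard
    have hfact : Fact p.Prime := ⟨hp⟩
    obtain ⟨z, hz⟩ := exists_prime_orderOf_dvd_card' p hpd
    refine ⟨p, hp, ⟨⟨fun x y => Subtype.ext (hab x x.2 y y.2)⟩⟩, ?_⟩
    let K : Subgroup G :=
      { carrier := {x | x ∈ N ∧ x ^ p = 1}
        mul_mem' := by
          rintro x y ⟨hx, hxp⟩ ⟨hy, hyp⟩
          refine ⟨N.mul_mem hx hy, ?_⟩
          have hcomm : Commute x y := hab x hx y hy
          rw [hcomm.mul_pow, hxp, hyp, one_mul]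
        one_mem' := ⟨N.one_mem, one_pow p⟩
        inv_mem' := by
          rintro x ⟨hx, hxp⟩
          exact ⟨N.inv_mem hx, by rw [inv_pow, hxp, inv_one]⟩ }
    have hKn : K.Normal := ⟨by
      rintro x ⟨hx, hxp⟩ g
      exact ⟨hN.conj_mem x hx g, by rw [conj_pow, hxp]; group⟩⟩
    have hK0 : K ≠ ⊥ := by
      intro h
      have hzK : (z : G) ∈ K := by
        refine ⟨z.2, ?_⟩
        have h2 := pow_orderOf_eq_one z
        rw [hz] at h2
        exact_mod_cast congrArg Subtype.val h2
      rw [h, Subgroup.mem_bot] at hzK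
      have hz1 : z = 1 := Subtype.ext hzK
      rw [hz1, orderOf_one] at hz
      exact hp.one_lt.ne hz
    have hKN : K = N := hmin K hKn hK0 (fun x hx => hx.1)
    intro x hx
    have hxK : x ∈ K := by rw [hKN]; exact hx
    exact hxK.2
  · intro M hMn hM0
    by_cases hinf : M ⊓ N = ⊥
    · exfalso
      apply hM0
      -- `M` centralizes `N`, hence lies in `N`
      have hMle : M ≤ N := by
        intro m hm
        obtain ⟨n, hn⟩ := hNt.exists_smul_eq a0 (m • a0)
        have hn' : (n : G) • a0 = m • a0 := hn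
        have hcomm : ∀ y ∈ N, (n : G)⁻¹ * m * y = y * ((n : G)⁻¹ * m) := by
          intro y hy
          have h1 : m * y = y * m :=
            (Subgroup.commute_of_normal_of_disjoint M N hMn hN (disjoint_iff.mpr hinf) m y hm
              hy).eq
          have h2 : (n : G)⁻¹ * y = y * (n : G)⁻¹ := by
            have h3 := hab n n.2 y hy
            calc (n : G)⁻¹ * y = (n : G)⁻¹ * (y * (n : G)) * (n : G)⁻¹ := by group
              _ = (n : G)⁻¹ * ((n : G) * y) * (n : G)⁻¹ := by rw [h3]
              _ = y * (n : G)⁻¹ := by group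
          calc (n : G)⁻¹ * m * y = (n : G)⁻¹ * (m * y) := by group
            _ = (n : G)⁻¹ * (y * m) := by rw [h1]
            _ = ((n : G)⁻¹ * y) * m := by group
            _ = (y * (n : G)⁻¹) * m := by rw [h2]
            _ = y * ((n : G)⁻¹ * m) := by group
        have hone : (n : G)⁻¹ * m = 1 := by
          apply FaithfulSMul.eq_of_smul_eq_smul (α := Ω)
          intro ω
          obtain ⟨y, hy⟩ := hNt.exists_smul_eq a0 ω
          have hy' : (y : G) • a0 = ω := hy
          rw [one_smul, ← hy', ← mul_smul, hcomm y y.2, mul_smul, mul_smul, ← hn', inv_smul_smul]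
        have : m = n := by
          have := congrArg (fun t => (n : G) * t) hone
          simpa using this
        rw [this]; exact n.2
      rw [← hinf]
      exact (inf_eq_left.mpr hMle).symm
    · have hKn : (M ⊓ N).Normal := Subgroup.normal_inf_normal M N
      have h1 := hmin (M ⊓ N) hKn hinf inf_le_right
      exact h1 ▸ inf_le_left

end Cfsg.Agent.S3356
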