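import Cfsg.Statements.S3362
import Cfsg.Agent.Lib.Helper56.Schreier

set_option autoImplicit false
open Cfsg

namespace Cfsg.Agent.S3362

open Cfsg.Agent.Lib.Helper56

abbrev Pm := Equiv.Perm (Fin 12)

def gs : Pm := Equiv.swap (3 : Fin 12) 5 * Equiv.swap (3 : Fin 12) 4 * Equiv.swap (6 : Fin 12) 8 * Equiv.swap (6 : Fin 12) 7 * Equiv.swap (9 : Fin 12) 11 * Equiv.swap (9 : Fin 12) 10
def gt : Pm := Equiv.swap (3 : Fin 12) 9 * Equiv.swap (3 : Fin 12) 6 * Equiv.swap (4 : Fin 12) 10 * Equiv.swap (4 : Fin 12) 7 * Equiv.swap (5 : Fin 12) 11 * Equiv.swap (5 : Fin 12) 8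
def gu : Pm := Equiv.swap (4 : Fin 12) 9 * Equiv.swap (4 : Fin 12) 5 * Equiv.swap (4 : Fin 12) 6 * Equiv.swap (7 : Fin 12) 10 * Equiv.swap (7 : Fin 12) 11 * Equiv.swap (7 : Fin 12) 8
def gv : Pm := Equiv.swap (4 : Fin 12) 11 * Equiv.swap (4 : Fin 12) 5 * Equiv.swap (4 : Fin 12) 7 * Equiv.swap (6 : Fin 12) 8 * Equiv.swap (6 : Fin 12) 9 * Equiv.swap (6 : Fin 12) 10
def gw : Pm := Equiv.swap (4 : Fin 12) 8 * Equiv.swap (4 : Fin 12) 5 * Equiv.swap (4 : Fin 12) 10 * Equiv.swap (6 : Fin 12) 7 * Equiv.swap (6 : Fin 12) 9 * Equiv.swap (6 : Fin 12) 11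
def gx1 : Pm := Equiv.swap (0 : Fin 12) 3 * Equiv.swap (6 : Fin 12) 7 * Equiv.swap (8 : Fin 12) 10 * Equiv.swap (9 : Fin 12) 11
def gx2 : Pm := Equiv.swap (0 : Fin 12) 1 * Equiv.swap (6 : Fin 12) 9 * Equiv.swap (7 : Fin 12) 10 * Equiv.swap (8 : Fin 12) 11
def gx3 : Pm := Equiv.swap (1 : Fin 12) 2 * Equiv.swap (6 : Fin 12) 11 * Equiv.swap (7 : Fin 12) 9 * Equiv.swap (8 : Fin 12) 10

def gen : Fin 8 → Pm
  | 0 => gs
  | 1 => gt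
  | 2 => gu
  | 3 => gv
  | 4 => gw
  | 5 => gx1
  | 6 => gx2
  | 7 => gx3

def tbl : List (List (Fin 12)) :=
  [[0, 1, 2, 4, 5, 3, 7, 8, 6, 10, 11, 9],
   [0, 1, 2, 6, 7, 8, 9, 10, 11, 3, 4, 5],
   [0, 1, 2, 3, 6, 9, 5, 8, 11, 4, 7, 10],
   [0, 1, 2, 3, 7, 11, 10, 5, 6, 8, 9, 4],
   [0, 1, 2, 3, 10, 8, 11, 6, 4, 7, 5, 9],
   [3, 1, 2, 0, 4, 5, 7, 6, 10, 11, 8, 9],
   [1, 0, 2, 3, 4, 5, 9, 10, 11, 6, 7, 8],
   [0, 2, 1, 3, 4, 5, 11, 9, 10, 7, 8, 6]]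

def L1 : List (Fin 8) := [2, 3, 4]

def W1 : List (List (Fin 8)) :=
  [[],
   [2],
   [3],
   [4],
   [2, 2],
   [4, 2],
   [2, 3],
   [3, 4]]

def C1 : List (Fin 8 × List (Fin 8) × List (Fin 8) × List (Fin 8)) :=
  [(2, [], [2], []),
   (2, [2], [2, 2], []),
   (2, [3], [2, 3], []),
   (2, [4], [3], []),
   (2, [2, 2], [3, 4], []),
   (2, [4, 2], [4], []),
   (2, [2, 3], [4, 2], []),
   (2, [3, 4], [], []),
   (3, [], [3], []),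
   (3, [2], [4], []),
   (3, [3], [2, 2], []),
   (3, [4], [3, 4], []),
   (3, [2, 2], [4, 2], []),
   (3, [4, 2], [], []),
   (3, [2, 3], [2], []),
   (3, [3, 4], [2, 3], []),
   (4, [], [4], []),
   (4, [2], [4, 2], []),
   (4, [3], [2], []),
   (4, [4], [2, 2], []),
   (4, [2, 2], [2, 3], []),
   (4, [4, 2], [3, 4], []),
   (4, [2, 3], [], []),
   (4, [3, 4], [3], [])]

def L2 : List (Fin 8) := [0, 1, 2, 3, 4]

def W2 : List (List (Fin 8)) :=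
  [[],
   [0],
   [1],
   [0, 0],
   [1, 0],
   [4, 0],
   [1, 1],
   [4, 1],
   [1, 0, 0]]

def C2 : List (Fin 8 × List (Fin 8) × List (Fin 8) × List (Fin 8)) :=
  [(0, [], [0], []),
   (0, [0], [0, 0], []),
   (0, [1], [1, 0], []),
   (0, [0, 0], [], []),
   (0, [1, 0], [1, 0, 0], []),
   (0, [4, 0], [4, 1], []),
   (0, [1, 1], [4, 0], [2, 3]),
   (0, [4, 1], [1, 1], [4]),
   (0, [1, 0, 0], [1], []),
   (1, [], [1], []),
   (1, [0], [1, 0], []),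
   (1, [1], [1, 1], []),
   (1, [0, 0], [1, 0, 0], []),
   (1, [1, 0], [4, 0], [2, 3]),
   (1, [4, 0], [0], [4]),
   (1, [1, 1], [], []),
   (1, [4, 1], [0, 0], [4]),
   (1, [1, 0, 0], [4, 1], [2, 3]),
   (2, [], [], [2]),
   (2, [0], [1], [2]),
   (2, [1], [0, 0], [2]),
   (2, [0, 0], [1, 1], [2]),
   (2, [1, 0], [1, 0, 0], [2]),
   (2, [4, 0], [1, 0], [3]),
   (2, [1, 1], [0], [2]),
   (2, [4, 1], [4, 0], [3, 4]),
   (2, [1, 0, 0], [4, 1], [3]),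
   (3, [], [], [3]),
   (3, [0], [1, 0], [3]),
   (3, [1], [4, 0], [3, 4]),
   (3, [0, 0], [4, 1], [3, 4]),
   (3, [1, 0], [0, 0], [3]),
   (3, [4, 0], [1, 1], [3, 4]),
   (3, [1, 1], [1, 0, 0], [3]),
   (3, [4, 1], [0], [3, 4]),
   (3, [1, 0, 0], [1], [3]),
   (4, [], [], [4]),
   (4, [0], [4, 0], []),
   (4, [1], [4, 1], []),
   (4, [0, 0], [1, 0, 0], [4]),
   (4, [1, 0], [1], [4]),
   (4, [4, 0], [0, 0], [2, 2]),
   (4, [1, 1], [1, 0], [4]),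
   (4, [4, 1], [1, 1], [2, 2]),
   (4, [1, 0, 0], [0], [4])]

def L3 : List (Fin 8) := [0, 1, 2, 3, 4, 5]

def W3 : List (List (Fin 8)) :=
  [[],
   [5],
   [0, 5],
   [1, 5],
   [0, 0, 5],
   [1, 0, 5],
   [4, 0, 5],
   [1, 1, 5],
   [4, 1, 5],
   [1, 0, 0, 5]]

def C3 : List (Fin 8 × List (Fin 8) × List (Fin 8) × List (Fin 8)) :=
  [(0, [], [], [0]),
   (0, [5], [0, 5], []),
   (0, [0, 5], [0, 0, 5], []),
   (0, [1, 5], [1, 0, 5], []),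
   (0, [0, 0, 5], [5], []),
   (0, [1, 0, 5], [1, 0, 0, 5], []),
   (0, [4, 0, 5], [4, 1, 5], []),
   (0, [1, 1, 5], [4, 0, 5], [4]),
   (0, [4, 1, 5], [1, 1, 5], [2, 3]),
   (0, [1, 0, 0, 5], [1, 5], []),
   (1, [], [], [1]),
   (1, [5], [1, 5], []),
   (1, [0, 5], [1, 0, 5], []),
   (1, [1, 5], [1, 1, 5], []),
   (1, [0, 0, 5], [1, 0, 0, 5], []),
   (1, [1, 0, 5], [4, 0, 5], [4]),
   (1, [4, 0, 5], [0, 5], [2, 3]),
   (1, [1, 1, 5], [5], []),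
   (1, [4, 1, 5], [0, 0, 5], [2, 3]),
   (1, [1, 0, 0, 5], [4, 1, 5], [4]),
   (2, [], [], [2]),
   (2, [5], [5], [3]),
   (2, [0, 5], [1, 5], [3]),
   (2, [1, 5], [0, 0, 5], [3]),
   (2, [0, 0, 5], [1, 1, 5], [3]),
   (2, [1, 0, 5], [1, 0, 0, 5], [3]),
   (2, [4, 0, 5], [1, 0, 5], [2]),
   (2, [1, 1, 5], [0, 5], [3]),
   (2, [4, 1, 5], [4, 0, 5], [4, 2]),
   (2, [1, 0, 0, 5], [4, 1, 5], [2]),
   (3, [], [], [3]),
   (3, [5], [5], [2]),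
   (3, [0, 5], [1, 0, 5], [2]),
   (3, [1, 5], [4, 0, 5], [4, 2]),
   (3, [0, 0, 5], [4, 1, 5], [4, 2]),
   (3, [1, 0, 5], [0, 0, 5], [2]),
   (3, [4, 0, 5], [1, 1, 5], [4, 2]),
   (3, [1, 1, 5], [1, 0, 0, 5], [2]),
   (3, [4, 1, 5], [0, 5], [4, 2]),
   (3, [1, 0, 0, 5], [1, 5], [2]),
   (4, [], [], [4]),
   (4, [5], [5], [2, 3]),
   (4, [0, 5], [4, 0, 5], []),
   (4, [1, 5], [4, 1, 5], []),
   (4, [0, 0, 5], [1, 0, 0, 5], [2, 3]),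
   (4, [1, 0, 5], [1, 5], [2, 3]),
   (4, [4, 0, 5], [0, 0, 5], [2, 2]),
   (4, [1, 1, 5], [1, 0, 5], [2, 3]),
   (4, [4, 1, 5], [1, 1, 5], [2, 2]),
   (4, [1, 0, 0, 5], [0, 5], [2, 3]),
   (5, [], [5], []),
   (5, [5], [], []),
   (5, [0, 5], [0, 5], [0, 0, 2, 2]),
   (5, [1, 5], [1, 0, 5], [1, 1, 2, 3]),
   (5, [0, 0, 5], [0, 0, 5], [0, 2, 2]),
   (5, [1, 0, 5], [1, 5], [4, 1]),
   (5, [4, 0, 5], [1, 0, 0, 5], [1, 0, 0, 2, 3]),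
   (5, [1, 1, 5], [4, 1, 5], [4, 1, 2, 3]),
   (5, [4, 1, 5], [1, 1, 5], [1, 0]),
   (5, [1, 0, 0, 5], [4, 0, 5], [0, 0, 4])]

def L4 : List (Fin 8) := [0, 1, 2, 3, 4, 5, 6]

def W4 : List (List (Fin 8)) :=
  [[],
   [6],
   [5, 6],
   [0, 5, 6],
   [1, 5, 6],
   [0, 0, 5, 6],
   [1, 0, 5, 6],
   [4, 0, 5, 6],
   [1, 1, 5, 6],
   [4, 1, 5, 6],
   [1, 0, 0, 5, 6]]

def C4 : List (Fin 8 × List (Fin 8) × List (Fin 8) × List (Fin 8)) :=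
  [(0, [], [], [0]),
   (0, [6], [6], [0]),
   (0, [5, 6], [0, 5, 6], []),
   (0, [0, 5, 6], [0, 0, 5, 6], []),
   (0, [1, 5, 6], [1, 0, 5, 6], []),
   (0, [0, 0, 5, 6], [5, 6], []),
   (0, [1, 0, 5, 6], [1, 0, 0, 5, 6], []),
   (0, [4, 0, 5, 6], [4, 1, 5, 6], []),
   (0, [1, 1, 5, 6], [4, 0, 5, 6], [3]),
   (0, [4, 1, 5, 6], [1, 1, 5, 6], [4, 2]),
   (0, [1, 0, 0, 5, 6], [1, 5, 6], []),
   (1, [], [], [1]),
   (1, [6], [6], [1, 1]),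
   (1, [5, 6], [1, 5, 6], []),
   (1, [0, 5, 6], [1, 0, 5, 6], []),
   (1, [1, 5, 6], [1, 1, 5, 6], []),
   (1, [0, 0, 5, 6], [1, 0, 0, 5, 6], []),
   (1, [1, 0, 5, 6], [4, 0, 5, 6], [3]),
   (1, [4, 0, 5, 6], [0, 5, 6], [4, 2]),
   (1, [1, 1, 5, 6], [5, 6], []),
   (1, [4, 1, 5, 6], [0, 0, 5, 6], [4, 2]),
   (1, [1, 0, 0, 5, 6], [4, 1, 5, 6], [3]),
   (2, [], [], [2]),
   (2, [6], [6], [3, 4]),
   (2, [5, 6], [5, 6], [4]),
   (2, [0, 5, 6], [1, 5, 6], [4]),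
   (2, [1, 5, 6], [0, 0, 5, 6], [4]),
   (2, [0, 0, 5, 6], [1, 1, 5, 6], [4]),
   (2, [1, 0, 5, 6], [1, 0, 0, 5, 6], [4]),
   (2, [4, 0, 5, 6], [1, 0, 5, 6], [3, 4]),
   (2, [1, 1, 5, 6], [0, 5, 6], [4]),
   (2, [4, 1, 5, 6], [4, 0, 5, 6], [2, 3]),
   (2, [1, 0, 0, 5, 6], [4, 1, 5, 6], [3, 4]),
   (3, [], [], [3]),
   (3, [6], [6], [4]),
   (3, [5, 6], [5, 6], [3, 4]),
   (3, [0, 5, 6], [1, 0, 5, 6], [3, 4]),
   (3, [1, 5, 6], [4, 0, 5, 6], [2, 3]),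
   (3, [0, 0, 5, 6], [4, 1, 5, 6], [2, 3]),
   (3, [1, 0, 5, 6], [0, 0, 5, 6], [3, 4]),
   (3, [4, 0, 5, 6], [1, 1, 5, 6], [2, 3]),
   (3, [1, 1, 5, 6], [1, 0, 0, 5, 6], [3, 4]),
   (3, [4, 1, 5, 6], [0, 5, 6], [2, 3]),
   (3, [1, 0, 0, 5, 6], [1, 5, 6], [3, 4]),
   (4, [], [], [4]),
   (4, [6], [6], [3]),
   (4, [5, 6], [5, 6], [4, 2]),
   (4, [0, 5, 6], [4, 0, 5, 6], []),
   (4, [1, 5, 6], [4, 1, 5, 6], []),
   (4, [0, 0, 5, 6], [1, 0, 0, 5, 6], [4, 2]),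
   (4, [1, 0, 5, 6], [1, 5, 6], [4, 2]),
   (4, [4, 0, 5, 6], [0, 0, 5, 6], [2, 2]),
   (4, [1, 1, 5, 6], [1, 0, 5, 6], [4, 2]),
   (4, [4, 1, 5, 6], [1, 1, 5, 6], [2, 2]),
   (4, [1, 0, 0, 5, 6], [0, 5, 6], [4, 2]),
   (5, [], [], [5]),
   (5, [6], [5, 6], []),
   (5, [5, 6], [6], []),
   (5, [0, 5, 6], [0, 5, 6], [0, 0, 2, 2]),
   (5, [1, 5, 6], [1, 0, 5, 6], [1, 4, 2]),
   (5, [0, 0, 5, 6], [0, 0, 5, 6], [0, 2, 2]),
   (5, [1, 0, 5, 6], [1, 5, 6], [1, 0, 0, 3]),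
   (5, [4, 0, 5, 6], [1, 0, 0, 5, 6], [4, 1, 2]),
   (5, [1, 1, 5, 6], [4, 1, 5, 6], [1, 0, 0]),
   (5, [4, 1, 5, 6], [1, 1, 5, 6], [4, 0, 2, 3]),
   (5, [1, 0, 0, 5, 6], [4, 0, 5, 6], [0, 0, 3]),
   (6, [], [6], []),
   (6, [6], [], []),
   (6, [5, 6], [5, 6], [5]),
   (6, [0, 5, 6], [0, 5, 6], [5]),
   (6, [1, 5, 6], [1, 1, 5, 6], [5]),
   (6, [0, 0, 5, 6], [0, 0, 5, 6], [5]),
   (6, [1, 0, 5, 6], [4, 0, 5, 6], [5, 2]),
   (6, [4, 0, 5, 6], [1, 0, 5, 6], [5, 4, 2]),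
   (6, [1, 1, 5, 6], [1, 5, 6], [5]),
   (6, [4, 1, 5, 6], [1, 0, 0, 5, 6], [5, 4, 2]),
   (6, [1, 0, 0, 5, 6], [4, 1, 5, 6], [5, 2])]

def L5 : List (Fin 8) := [0, 1, 2, 3, 4, 5, 6, 7]

def W5 : List (List (Fin 8)) :=
  [[],
   [7],
   [6, 7],
   [5, 6, 7],
   [0, 5, 6, 7],
   [1, 5, 6, 7],
   [0, 0, 5, 6, 7],
   [1, 0, 5, 6, 7],
   [4, 0, 5, 6, 7],
   [1, 1, 5, 6, 7],
   [4, 1, 5, 6, 7],
   [1, 0, 0, 5, 6, 7]]

def C5 : List (Fin 8 × List (Fin 8) × List (Fin 8) × List (Fin 8)) :=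
  [(0, [], [], [0]),
   (0, [7], [7], [0]),
   (0, [6, 7], [6, 7], [0]),
   (0, [5, 6, 7], [0, 5, 6, 7], []),
   (0, [0, 5, 6, 7], [0, 0, 5, 6, 7], []),
   (0, [1, 5, 6, 7], [1, 0, 5, 6, 7], []),
   (0, [0, 0, 5, 6, 7], [5, 6, 7], []),
   (0, [1, 0, 5, 6, 7], [1, 0, 0, 5, 6, 7], []),
   (0, [4, 0, 5, 6, 7], [4, 1, 5, 6, 7], []),
   (0, [1, 1, 5, 6, 7], [4, 0, 5, 6, 7], [3, 4]),
   (0, [4, 1, 5, 6, 7], [1, 1, 5, 6, 7], [2]),
   (0, [1, 0, 0, 5, 6, 7], [1, 5, 6, 7], []),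
   (1, [], [], [1]),
   (1, [7], [7], [4, 1, 2, 3]),
   (1, [6, 7], [6, 7], [1, 0]),
   (1, [5, 6, 7], [1, 5, 6, 7], []),
   (1, [0, 5, 6, 7], [1, 0, 5, 6, 7], []),
   (1, [1, 5, 6, 7], [1, 1, 5, 6, 7], []),
   (1, [0, 0, 5, 6, 7], [1, 0, 0, 5, 6, 7], []),
   (1, [1, 0, 5, 6, 7], [4, 0, 5, 6, 7], [3, 4]),
   (1, [4, 0, 5, 6, 7], [0, 5, 6, 7], [2]),
   (1, [1, 1, 5, 6, 7], [5, 6, 7], []),
   (1, [4, 1, 5, 6, 7], [0, 0, 5, 6, 7], [2]),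
   (1, [1, 0, 0, 5, 6, 7], [4, 1, 5, 6, 7], [3, 4]),
   (2, [], [], [2]),
   (2, [7], [7], [4, 2]),
   (2, [6, 7], [6, 7], [3]),
   (2, [5, 6, 7], [5, 6, 7], [2, 3]),
   (2, [0, 5, 6, 7], [1, 5, 6, 7], [2, 3]),
   (2, [1, 5, 6, 7], [0, 0, 5, 6, 7], [2, 3]),
   (2, [0, 0, 5, 6, 7], [1, 1, 5, 6, 7], [2, 3]),
   (2, [1, 0, 5, 6, 7], [1, 0, 0, 5, 6, 7], [2, 3]),
   (2, [4, 0, 5, 6, 7], [1, 0, 5, 6, 7], [3]),
   (2, [1, 1, 5, 6, 7], [0, 5, 6, 7], [2, 3]),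
   (2, [4, 1, 5, 6, 7], [4, 0, 5, 6, 7], [4]),
   (2, [1, 0, 0, 5, 6, 7], [4, 1, 5, 6, 7], [3]),
   (3, [], [], [3]),
   (3, [7], [7], [3, 4]),
   (3, [6, 7], [6, 7], [2, 3]),
   (3, [5, 6, 7], [5, 6, 7], [3]),
   (3, [0, 5, 6, 7], [1, 0, 5, 6, 7], [3]),
   (3, [1, 5, 6, 7], [4, 0, 5, 6, 7], [4]),
   (3, [0, 0, 5, 6, 7], [4, 1, 5, 6, 7], [4]),
   (3, [1, 0, 5, 6, 7], [0, 0, 5, 6, 7], [3]),
   (3, [4, 0, 5, 6, 7], [1, 1, 5, 6, 7], [4]),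
   (3, [1, 1, 5, 6, 7], [1, 0, 0, 5, 6, 7], [3]),
   (3, [4, 1, 5, 6, 7], [0, 5, 6, 7], [4]),
   (3, [1, 0, 0, 5, 6, 7], [1, 5, 6, 7], [3]),
   (4, [], [], [4]),
   (4, [7], [7], [2, 3]),
   (4, [6, 7], [6, 7], [3, 4]),
   (4, [5, 6, 7], [5, 6, 7], [2]),
   (4, [0, 5, 6, 7], [4, 0, 5, 6, 7], []),
   (4, [1, 5, 6, 7], [4, 1, 5, 6, 7], []),
   (4, [0, 0, 5, 6, 7], [1, 0, 0, 5, 6, 7], [2]),
   (4, [1, 0, 5, 6, 7], [1, 5, 6, 7], [2]),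
   (4, [4, 0, 5, 6, 7], [0, 0, 5, 6, 7], [2, 2]),
   (4, [1, 1, 5, 6, 7], [1, 0, 5, 6, 7], [2]),
   (4, [4, 1, 5, 6, 7], [1, 1, 5, 6, 7], [2, 2]),
   (4, [1, 0, 0, 5, 6, 7], [0, 5, 6, 7], [2]),
   (5, [], [], [5]),
   (5, [7], [7], [5]),
   (5, [6, 7], [5, 6, 7], []),
   (5, [5, 6, 7], [6, 7], []),
   (5, [0, 5, 6, 7], [0, 5, 6, 7], [0, 0, 2, 2]),
   (5, [1, 5, 6, 7], [1, 0, 5, 6, 7], [4, 1, 3]),
   (5, [0, 0, 5, 6, 7], [0, 0, 5, 6, 7], [0, 2, 2]),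
   (5, [1, 0, 5, 6, 7], [1, 5, 6, 7], [4, 0, 4, 2]),
   (5, [4, 0, 5, 6, 7], [1, 0, 0, 5, 6, 7], [1, 2]),
   (5, [1, 1, 5, 6, 7], [4, 1, 5, 6, 7], [4, 0, 2, 3]),
   (5, [4, 1, 5, 6, 7], [1, 1, 5, 6, 7], [1, 0, 0]),
   (5, [1, 0, 0, 5, 6, 7], [4, 0, 5, 6, 7], [0, 0, 3, 4]),
   (6, [], [], [6]),
   (6, [7], [6, 7], []),
   (6, [6, 7], [7], []),
   (6, [5, 6, 7], [5, 6, 7], [5]),
   (6, [0, 5, 6, 7], [0, 5, 6, 7], [5]),
   (6, [1, 5, 6, 7], [1, 1, 5, 6, 7], [5]),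
   (6, [0, 0, 5, 6, 7], [0, 0, 5, 6, 7], [5]),
   (6, [1, 0, 5, 6, 7], [4, 0, 5, 6, 7], [5, 4, 2]),
   (6, [4, 0, 5, 6, 7], [1, 0, 5, 6, 7], [5, 2]),
   (6, [1, 1, 5, 6, 7], [1, 5, 6, 7], [5]),
   (6, [4, 1, 5, 6, 7], [1, 0, 0, 5, 6, 7], [5, 2]),
   (6, [1, 0, 0, 5, 6, 7], [4, 1, 5, 6, 7], [5, 4, 2]),
   (7, [], [7], []),
   (7, [7], [], []),
   (7, [6, 7], [6, 7], [6]),
   (7, [5, 6, 7], [5, 6, 7], [6]),
   (7, [0, 5, 6, 7], [0, 5, 6, 7], [6]),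
   (7, [1, 5, 6, 7], [4, 1, 5, 6, 7], [6, 2]),
   (7, [0, 0, 5, 6, 7], [0, 0, 5, 6, 7], [6]),
   (7, [1, 0, 5, 6, 7], [1, 1, 5, 6, 7], [6]),
   (7, [4, 0, 5, 6, 7], [1, 0, 0, 5, 6, 7], [6, 2]),
   (7, [1, 1, 5, 6, 7], [1, 0, 5, 6, 7], [6]),
   (7, [4, 1, 5, 6, 7], [1, 5, 6, 7], [6, 2]),
   (7, [1, 0, 0, 5, 6, 7], [4, 0, 5, 6, 7], [6, 2])]

/-- The action of the `a`-th generator, by table lookup. -/
def act (a : Fin 8) (p : Fin 12) : Fin 12 := (tbl.getD a.val []).getD p.val 0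

theorem gen_act : ∀ (a : Fin 8) (p : Fin 12), gen a p = act a p := by decide

/-- The permutation given by a word in the generators. -/
def evalW : List (Fin 8) → Pm
  | [] => 1
  | a :: w => gen a * evalW w

/-- The action of a word on a point, by table lookup. -/
def actW : List (Fin 8) → Fin 12 → Fin 12
  | [], p => p
  | a :: w, p => act a (actW w p)

theorem evalW_apply (w : List (Fin 8)) (p : Fin 12) : evalW w p = actW w p := by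
  induction w with
  | nil => rfl
  | cons a w ih =>
    show gen a (evalW w p) = act a (actW w p)
    rw [ih, gen_act]

theorem evalW_append (w1 w2 : List (Fin 8)) : evalW (w1 ++ w2) = evalW w1 * evalW w2 := by
  induction w1 with
  | nil => simp [evalW]
  | cons a w ih =>
    show gen a * evalW (w ++ w2) = gen a * evalW w * evalW w2
    rw [ih, mul_assoc]

theorem evalW_mem (L : List (Fin 8)) (K : Subgroup Pm) (hK : ∀ a ∈ L, gen a ∈ K)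
    (w : List (Fin 8)) (hw : ∀ l ∈ w, l ∈ L) : evalW w ∈ K := by
  induction w with
  | nil => exact K.one_mem
  | cons a w ih =>
    exact K.mul_mem (hK a (hw a (List.mem_cons_self ..)))
      (ih (fun l hl => hw l (List.mem_cons_of_mem _ hl)))

/-- The generating set of a level. -/
def genSet (L : List (Fin 8)) : Set Pm := {g | ∃ a ∈ L, gen a = g}

theorem gen_mem (L : List (Fin 8)) : ∀ a ∈ L, gen a ∈ Subgroup.closure (genSet L) :=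
  fun a ha => Subgroup.subset_closure ⟨a, ha, rfl⟩

/-- Decidable certificate that all Schreier generators of a level lie in the previous level. -/
def CertOK (L : List (Fin 8)) (W : List (List (Fin 8))) (Lp : List (Fin 8))
    (C : List (Fin 8 × List (Fin 8) × List (Fin 8) × List (Fin 8))) : Prop :=
  ∀ a ∈ L, ∀ w ∈ W, ∃ t ∈ C, t.1 = a ∧ t.2.1 = w ∧ t.2.2.1 ∈ W ∧ (∀ l ∈ t.2.2.2, l ∈ Lp) ∧
    ∀ p : Fin 12, actW (a :: w) p = actW (t.2.2.1 ++ t.2.2.2) p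

instance (L : List (Fin 8)) (W : List (List (Fin 8))) (Lp : List (Fin 8))
    (C : List (Fin 8 × List (Fin 8) × List (Fin 8) × List (Fin 8))) :
    Decidable (CertOK L W Lp C) := by
  unfold CertOK
  infer_instance

section level
variable (L Lp : List (Fin 8)) (W : List (List (Fin 8))) (b : Fin 12)
  (C : List (Fin 8 × List (Fin 8) × List (Fin 8) × List (Fin 8)))
  (H : Subgroup Pm)
  (hH : ∀ a ∈ Lp, gen a ∈ H) (hHb : ∀ h ∈ H, h b = b)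
  (hnil : [] ∈ W) (hC : CertOK L W Lp C)

include hH hC in
theorem level_hS : ∀ g ∈ genSet L, ∀ u ∈ W.map evalW, ∃ u' ∈ W.map evalW, u'⁻¹ * (g * u) ∈ H := by
  rintro g ⟨a, ha, rfl⟩ u hu
  obtain ⟨w, hw, rfl⟩ := List.mem_map.mp hu
  obtain ⟨t, -, rfl, rfl, h3, h4, h5⟩ := hC a ha w hw
  refine ⟨evalW t.2.2.1, List.mem_map.mpr ⟨_, h3, rfl⟩, ?_⟩
  have e : gen t.1 * evalW t.2.1 = evalW t.2.2.1 * evalW t.2.2.2 := by
    rw [← evalW_append]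
    ext p
    have := h5 p
    rw [← evalW_apply, ← evalW_apply] at this
    exact congrArg Fin.val this
  rw [e, inv_mul_cancel_left]
  exact evalW_mem Lp H hH _ h4

include hnil in
theorem level_one : (1 : Pm) ∈ W.map evalW := List.mem_map.mpr ⟨[], hnil, rfl⟩

theorem level_nd (hnd : (W.map (fun w => actW w b)).Nodup) :
    ((W.map evalW).map (fun u : Pm => u • b)).Nodup := by
  rw [List.map_map]
  have : ((fun u : Pm => u • b) ∘ evalW) = fun w => actW w b := by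
    funext w
    exact evalW_apply w b
  rw [this]
  exact hnd

include hH hHb hnil hC in
theorem level_stab (hnd : (W.map (fun w => actW w b)).Nodup) :
    ∀ k ∈ Subgroup.closure (genSet L), k b = b → k ∈ H :=
  Schreier.stab (genSet L) H b (W.map evalW) (level_one W hnil)
    (level_hS L Lp W C H hH hC) hHb (level_nd W b hnd)

include hH hHb hnil hC in
theorem level_card (hnd : (W.map (fun w => actW w b)).Nodup)
    (hHK : H ≤ Subgroup.closure (genSet L)) (hWL : ∀ w ∈ W, ∀ l ∈ w, l ∈ L) :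
    Nat.card (Subgroup.closure (genSet L)) = W.length * Nat.card H := by
  have := Schreier.card (genSet L) H b (W.map evalW) (level_one W hnil)
    (level_hS L Lp W C H hH hC) hHb (level_nd W b hnd) hHK (by
      intro u hu
      obtain ⟨w, hw, rfl⟩ := List.mem_map.mp hu
      exact evalW_mem L _ (gen_mem L) w (hWL w hw))
  rw [this, List.length_map]

end level

theorem closure_fix (L : List (Fin 8)) (b : Fin 12) (h : ∀ a ∈ L, act a b = b) :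
    ∀ k ∈ Subgroup.closure (genSet L), k b = b := by
  have : Subgroup.closure (genSet L) ≤ MulAction.stabilizer Pm b := by
    rw [Subgroup.closure_le]
    rintro g ⟨a, ha, rfl⟩
    show gen a b = b
    rw [gen_act]
    exact h a ha
  exact fun k hk => this hk

theorem closure_mono (L L' : List (Fin 8)) (h : ∀ a ∈ L, a ∈ L') :
    Subgroup.closure (genSet L) ≤ Subgroup.closure (genSet L') := by
  apply Subgroup.closure_mono
  rintro g ⟨a, ha, rfl⟩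
  exact ⟨a, h a ha, rfl⟩


abbrev G1 : Subgroup Pm := Subgroup.closure (genSet L1)
abbrev G2 : Subgroup Pm := Subgroup.closure (genSet L2)
abbrev G3 : Subgroup Pm := Subgroup.closure (genSet L3)
abbrev G4 : Subgroup Pm := Subgroup.closure (genSet L4)
abbrev G5 : Subgroup Pm := Subgroup.closure (genSet L5)

set_option maxRecDepth 100000 in
theorem c1 : CertOK L1 W1 [] C1 := by decide
set_option maxRecDepth 100000 in
theorem c2 : CertOK L2 W2 L1 C2 := by decide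
set_option maxRecDepth 100000 in
theorem c3 : CertOK L3 W3 L2 C3 := by decide
set_option maxRecDepth 100000 in
theorem c4 : CertOK L4 W4 L3 C4 := by decide
set_option maxRecDepth 100000 in
theorem c5 : CertOK L5 W5 L4 C5 := by decide

theorem nd1 : (W1.map (fun w => actW w 4)).Nodup := by decide
theorem nd2 : (W2.map (fun w => actW w 3)).Nodup := by decide
theorem nd3 : (W3.map (fun w => actW w 0)).Nodup := by decide
theorem nd4 : (W4.map (fun w => actW w 1)).Nodup := by decide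
theorem nd5 : (W5.map (fun w => actW w 2)).Nodup := by decide

theorem wl1 : ∀ w ∈ W1, ∀ l ∈ w, l ∈ L1 := by decide
theorem wl2 : ∀ w ∈ W2, ∀ l ∈ w, l ∈ L2 := by decide
theorem wl3 : ∀ w ∈ W3, ∀ l ∈ w, l ∈ L3 := by decide
theorem wl4 : ∀ w ∈ W4, ∀ l ∈ w, l ∈ L4 := by decide
theorem wl5 : ∀ w ∈ W5, ∀ l ∈ w, l ∈ L5 := by decide

theorem fix2 : ∀ a ∈ L1, act a 3 = 3 := by decide
theorem fix3 : ∀ a ∈ L2, act a 0 = 0 := by decide
theorem fix4 : ∀ a ∈ L3, act a 1 = 1 := by decide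
theorem fix5 : ∀ a ∈ L4, act a 2 = 2 := by decide

theorem cov5 : ∀ q : Fin 12, ∃ w ∈ W5, actW w 2 = q := by decide
theorem cov4 : ∀ q : Fin 12, q ≠ 2 → ∃ w ∈ W4, actW w 1 = q := by decide
theorem cov3 : ∀ q : Fin 12, q ≠ 2 → q ≠ 1 → ∃ w ∈ W3, actW w 0 = q := by decide
theorem cov2 : ∀ q : Fin 12, q ≠ 2 → q ≠ 1 → q ≠ 0 → ∃ w ∈ W2, actW w 3 = q := by decide
theorem cov1 : ∀ q : Fin 12, q ≠ 2 → q ≠ 1 → q ≠ 0 → q ≠ 3 → ∃ w ∈ W1, actW w 4 = q := by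
  decide

theorem le12 : G1 ≤ G2 := closure_mono L1 L2 (by decide)
theorem le23 : G2 ≤ G3 := closure_mono L2 L3 (by decide)
theorem le34 : G3 ≤ G4 := closure_mono L3 L4 (by decide)
theorem le45 : G4 ≤ G5 := closure_mono L4 L5 (by decide)

theorem fixG1 : ∀ k ∈ G1, k 3 = 3 := closure_fix L1 3 fix2
theorem fixG2 : ∀ k ∈ G2, k 0 = 0 := closure_fix L2 0 fix3
theorem fixG3 : ∀ k ∈ G3, k 1 = 1 := closure_fix L3 1 fix4
theorem fixG4 : ∀ k ∈ G4, k 2 = 2 := closure_fix L4 2 fix5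

theorem stab1 : ∀ k ∈ G1, k 4 = 4 → k ∈ (⊥ : Subgroup Pm) :=
  level_stab L1 [] W1 4 C1 ⊥ (by simp) (by
    intro h hh
    rw [Subgroup.mem_bot.mp hh]; rfl) (by decide) c1 nd1

theorem stab2 : ∀ k ∈ G2, k 3 = 3 → k ∈ G1 :=
  level_stab L2 L1 W2 3 C2 G1 (gen_mem L1) fixG1 (by decide) c2 nd2

theorem stab3 : ∀ k ∈ G3, k 0 = 0 → k ∈ G2 :=
  level_stab L3 L2 W3 0 C3 G2 (gen_mem L2) fixG2 (by decide) c3 nd3

theorem stab4 : ∀ k ∈ G4, k 1 = 1 → k ∈ G3 :=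
  level_stab L4 L3 W4 1 C4 G3 (gen_mem L3) fixG3 (by decide) c4 nd4

theorem stab5 : ∀ k ∈ G5, k 2 = 2 → k ∈ G4 :=
  level_stab L5 L4 W5 2 C5 G4 (gen_mem L4) fixG4 (by decide) c5 nd5

theorem card1 : Nat.card G1 = 8 := by
  have := level_card L1 [] W1 4 C1 ⊥ (by simp) (by
    intro h hh
    rw [Subgroup.mem_bot.mp hh]; rfl) (by decide) c1 nd1 bot_le wl1
  rw [this, Subgroup.card_bot]
  rfl

theorem card2 : Nat.card G2 = 72 := by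
  have := level_card L2 L1 W2 3 C2 G1 (gen_mem L1) fixG1 (by decide) c2 nd2 le12 wl2
  rw [this, card1]
  rfl

theorem card3 : Nat.card G3 = 720 := by
  have := level_card L3 L2 W3 0 C3 G2 (gen_mem L2) fixG2 (by decide) c3 nd3 le23 wl3
  rw [this, card2]
  rfl

theorem card4 : Nat.card G4 = 7920 := by
  have := level_card L4 L3 W4 1 C4 G3 (gen_mem L3) fixG3 (by decide) c4 nd4 le34 wl4
  rw [this, card3]
  rfl

theorem card5 : Nat.card G5 = 95040 := by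
  have := level_card L5 L4 W5 2 C5 G4 (gen_mem L4) fixG4 (by decide) c5 nd5 le45 wl5
  rw [this, card4]
  rfl

theorem base_stab (k : Pm) (hk : k ∈ G5) (h2 : k 2 = 2) (h1 : k 1 = 1) (h0 : k 0 = 0)
    (h3 : k 3 = 3) (h4 : k 4 = 4) : k = 1 := by
  have a4 := stab5 k hk h2
  have a3 := stab4 k a4 h1
  have a2 := stab3 k a3 h0
  have a1 := stab2 k a2 h3
  exact Subgroup.mem_bot.mp (stab1 k a1 h4)

theorem inv_word (w : List (Fin 8)) (b q : Fin 12) (h : actW w b = q) :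
    (evalW w)⁻¹ q = b := by
  rw [Equiv.Perm.inv_eq_iff_eq, evalW_apply, h]

theorem to_base (y : Fin 5 ↪ Fin 12) :
    ∃ g ∈ G5, g (y 0) = 2 ∧ g (y 1) = 1 ∧ g (y 2) = 0 ∧ g (y 3) = 3 ∧ g (y 4) = 4 := by
  have hy : ∀ i j : Fin 5, i ≠ j → ∀ g : Pm, g (y i) ≠ g (y j) := by
    intro i j hij g h
    exact hij (y.injective (g.injective h))
  -- level 5
  obtain ⟨w5, hw5, e5⟩ := cov5 (y 0)
  have m5 : (evalW w5)⁻¹ ∈ G5 := inv_mem (evalW_mem L5 _ (gen_mem L5) w5 (wl5 w5 hw5))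
  have a5 := inv_word w5 2 (y 0) e5
  generalize (evalW w5)⁻¹ = g5 at m5 a5
  -- level 4
  have n41 : g5 (y 1) ≠ 2 := by rw [← a5]; exact hy 1 0 (by decide) g5
  obtain ⟨w4, hw4, e4⟩ := cov4 (g5 (y 1)) n41
  have m4 : (evalW w4)⁻¹ ∈ G4 := inv_mem (evalW_mem L4 _ (gen_mem L4) w4 (wl4 w4 hw4))
  have a4 := inv_word w4 1 _ e4
  generalize (evalW w4)⁻¹ = g4 at m4 a4
  have b4 : (g4 * g5) (y 0) = 2 := by
    show g4 (g5 (y 0)) = 2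
    rw [a5]; exact fixG4 g4 m4
  have b4' : (g4 * g5) (y 1) = 1 := a4
  have m45 : g4 * g5 ∈ G5 := mul_mem (le45 m4) m5
  generalize g4 * g5 = h4 at b4 b4' m45
  -- level 3
  have n31 : h4 (y 2) ≠ 2 := by rw [← b4]; exact hy 2 0 (by decide) h4
  have n32 : h4 (y 2) ≠ 1 := by rw [← b4']; exact hy 2 1 (by decide) h4
  obtain ⟨w3, hw3, e3⟩ := cov3 (h4 (y 2)) n31 n32
  have m3 : (evalW w3)⁻¹ ∈ G3 := inv_mem (evalW_mem L3 _ (gen_mem L3) w3 (wl3 w3 hw3))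
  have a3 := inv_word w3 0 _ e3
  generalize (evalW w3)⁻¹ = g3 at m3 a3
  have b3 : (g3 * h4) (y 0) = 2 := by
    show g3 (h4 (y 0)) = 2
    rw [b4]; exact fixG4 g3 (le34 m3)
  have b3' : (g3 * h4) (y 1) = 1 := by
    show g3 (h4 (y 1)) = 1
    rw [b4']; exact fixG3 g3 m3
  have b3'' : (g3 * h4) (y 2) = 0 := a3
  have m35 : g3 * h4 ∈ G5 := mul_mem (le45 (le34 m3)) m45
  generalize g3 * h4 = h3 at b3 b3' b3'' m35
  -- level 2
  have n21 : h3 (y 3) ≠ 2 := by rw [← b3]; exact hy 3 0 (by decide) h3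
  have n22 : h3 (y 3) ≠ 1 := by rw [← b3']; exact hy 3 1 (by decide) h3
  have n23 : h3 (y 3) ≠ 0 := by rw [← b3'']; exact hy 3 2 (by decide) h3
  obtain ⟨w2, hw2, e2⟩ := cov2 (h3 (y 3)) n21 n22 n23
  have m2 : (evalW w2)⁻¹ ∈ G2 := inv_mem (evalW_mem L2 _ (gen_mem L2) w2 (wl2 w2 hw2))
  have a2 := inv_word w2 3 _ e2
  generalize (evalW w2)⁻¹ = g2 at m2 a2
  have b2 : (g2 * h3) (y 0) = 2 := by
    show g2 (h3 (y 0)) = 2
    rw [b3]; exact fixG4 g2 (le34 (le23 m2))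
  have b2' : (g2 * h3) (y 1) = 1 := by
    show g2 (h3 (y 1)) = 1
    rw [b3']; exact fixG3 g2 (le23 m2)
  have b2'' : (g2 * h3) (y 2) = 0 := by
    show g2 (h3 (y 2)) = 0
    rw [b3'']; exact fixG2 g2 m2
  have b2''' : (g2 * h3) (y 3) = 3 := a2
  have m25 : g2 * h3 ∈ G5 := mul_mem (le45 (le34 (le23 m2))) m35
  generalize g2 * h3 = h2 at b2 b2' b2'' b2''' m25
  -- level 1
  have n11 : h2 (y 4) ≠ 2 := by rw [← b2]; exact hy 4 0 (by decide) h2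
  have n12 : h2 (y 4) ≠ 1 := by rw [← b2']; exact hy 4 1 (by decide) h2
  have n13 : h2 (y 4) ≠ 0 := by rw [← b2'']; exact hy 4 2 (by decide) h2
  have n14 : h2 (y 4) ≠ 3 := by rw [← b2''']; exact hy 4 3 (by decide) h2
  obtain ⟨w1, hw1, e1⟩ := cov1 (h2 (y 4)) n11 n12 n13 n14
  have m1 : (evalW w1)⁻¹ ∈ G1 := inv_mem (evalW_mem L1 _ (gen_mem L1) w1 (wl1 w1 hw1))
  have a1 := inv_word w1 4 _ e1
  generalize (evalW w1)⁻¹ = g1 at m1 a1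
  refine ⟨g1 * h2, mul_mem (le45 (le34 (le23 (le12 m1)))) m25, ?_, ?_, ?_, ?_, a1⟩
  · show g1 (h2 (y 0)) = 2
    rw [b2]; exact fixG4 g1 (le34 (le23 (le12 m1)))
  · show g1 (h2 (y 1)) = 1
    rw [b2']; exact fixG3 g1 (le23 (le12 m1))
  · show g1 (h2 (y 2)) = 0
    rw [b2'']; exact fixG2 g1 (le12 m1)
  · show g1 (h2 (y 3)) = 3
    rw [b2''']; exact fixG1 g1 m1

theorem genSet5 : genSet L5 = {gs, gt, gu, gv, gw, gx1, gx2, gx3} := by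
  ext g
  constructor
  · rintro ⟨a, -, rfl⟩
    fin_cases a <;> simp [gen]
  · intro hg
    simp only [Set.mem_insert_iff, Set.mem_singleton_iff] at hg
    rcases hg with rfl | rfl | rfl | rfl | rfl | rfl | rfl | rfl
    · exact ⟨0, by decide, rfl⟩
    · exact ⟨1, by decide, rfl⟩
    · exact ⟨2, by decide, rfl⟩
    · exact ⟨3, by decide, rfl⟩
    · exact ⟨4, by decide, rfl⟩
    · exact ⟨5, by decide, rfl⟩
    · exact ⟨6, by decide, rfl⟩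
    · exact ⟨7, by decide, rfl⟩

theorem genSet4 : genSet L4 = {gs, gt, gu, gv, gw, gx1, gx2} := by
  ext g
  constructor
  · rintro ⟨a, ha, rfl⟩
    fin_cases a <;> first | (exact absurd ha (by decide)) | simp [gen]
  · intro hg
    simp only [Set.mem_insert_iff, Set.mem_singleton_iff] at hg
    rcases hg with rfl | rfl | rfl | rfl | rfl | rfl | rfl
    · exact ⟨0, by decide, rfl⟩
    · exact ⟨1, by decide, rfl⟩
    · exact ⟨2, by decide, rfl⟩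
    · exact ⟨3, by decide, rfl⟩
    · exact ⟨4, by decide, rfl⟩
    · exact ⟨5, by decide, rfl⟩
    · exact ⟨6, by decide, rfl⟩

/-- An explicit construction of the Mathieu groups of degrees 11 and 12. On the points 0, …, 11 let s = (3 4 5)(6 7 8)(9 10 11), t = (3 6 9)(4 7 10)(5 8 11), u = (4 6 5 9)(7 8 11 10), v = (4 7 5 11)(6 10 9 8), w = (4 10 5 8)(6 11 9 7), x₁ = (0 3)(6 7)(8 10)(9 11), x₂ = (0 1)(6 9)(7 10)(8 11), x₃ = (1 2)(6 11)(7 9)(8 10) (each written as a product of transpositions). Then the group M₁₂ generated by all eight permutations is sharply 5-transitive on the 12 points and has order 95040, and the group M₁₁ generated by the first seven has order 7920 and is the stabilizer of the point 2 in M₁₂. -/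
theorem result
    (s t u v w x₁ x₂ x₃ : Equiv.Perm (Fin 12))
    (hs : s = Equiv.swap (3 : Fin 12) 5 * Equiv.swap (3 : Fin 12) 4 * Equiv.swap (6 : Fin 12) 8 * Equiv.swap (6 : Fin 12) 7 * Equiv.swap (9 : Fin 12) 11 * Equiv.swap (9 : Fin 12) 10) (ht : t = Equiv.swap (3 : Fin 12) 9 * Equiv.swap (3 : Fin 12) 6 * Equiv.swap (4 : Fin 12) 10 * Equiv.swap (4 : Fin 12) 7 * Equiv.swap (5 : Fin 12) 11 * Equiv.swap (5 : Fin 12) 8)
    (hu : u = Equiv.swap (4 : Fin 12) 9 * Equiv.swap (4 : Fin 12) 5 * Equiv.swap (4 : Fin 12) 6 * Equiv.swap (7 : Fin 12) 10 * Equiv.swap (7 : Fin 12) 11 * Equiv.swap (7 : Fin 12) 8) (hv : v = Equiv.swap (4 : Fin 12) 11 * Equiv.swap (4 : Fin 12) 5 * Equiv.swap (4 : Fin 12) 7 * Equiv.swap (6 : Fin 12) 8 * Equiv.swap (6 : Fin 12) 9 * Equiv.swap (6 : Fin 12) 10) (hw : w = Equiv.swap (4 : Fin 12) 8 * Equiv.swap (4 : Fin 12) 5 * Equiv.swap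 (4 : Fin 12) 10 * Equiv.swap (6 : Fin 12) 7 * Equiv.swap (6 : Fin 12) 9 * Equiv.swap (6 : Fin 12) 11)
    (hx₁ : x₁ = Equiv.swap (0 : Fin 12) 3 * Equiv.swap (6 : Fin 12) 7 * Equiv.swap (8 : Fin 12) 10 * Equiv.swap (9 : Fin 12) 11) (hx₂ : x₂ = Equiv.swap (0 : Fin 12) 1 * Equiv.swap (6 : Fin 12) 9 * Equiv.swap (7 : Fin 12) 10 * Equiv.swap (8 : Fin 12) 11)
    (hx₃ : x₃ = Equiv.swap (1 : Fin 12) 2 * Equiv.swap (6 : Fin 12) 11 * Equiv.swap (7 : Fin 12) 9 * Equiv.swap (8 : Fin 12) 10)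
    (M₁₂ M₁₁ : Subgroup (Equiv.Perm (Fin 12))) (hM₁₂ : M₁₂ = Subgroup.closure {s, t, u, v, w, x₁, x₂, x₃})
    (hM₁₁ : M₁₁ = Subgroup.closure {s, t, u, v, w, x₁, x₂}) :
    MulAction.IsMultiplyPretransitive M₁₂ (Fin 12) 5 ∧ (∀ y : Fin 5 ↪ Fin 12, MulAction.stabilizer M₁₂ y = ⊥) ∧
    Nat.card M₁₂ = 95040 ∧ Nat.card M₁₁ = 7920 ∧
    M₁₁ = M₁₂ ⊓ MulAction.stabilizer (Equiv.Perm (Fin 12)) (2 : Fin 12) := by
  have hs' : s = gs := hs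
  have ht' : t = gt := ht
  have hu' : u = gu := hu
  have hv' : v = gv := hv
  have hw' : w = gw := hw
  have hx₁' : x₁ = gx1 := hx₁
  have hx₂' : x₂ = gx2 := hx₂
  have hx₃' : x₃ = gx3 := hx₃
  have e12 : M₁₂ = G5 := by
    rw [hM₁₂, hs', ht', hu', hv', hw', hx₁', hx₂', hx₃', ← genSet5]
  have e11 : M₁₁ = G4 := by
    rw [hM₁₁, hs', ht', hu', hv', hw', hx₁', hx₂', ← genSet4]
  rw [e12, e11]
  refine ⟨?_, ?_, card5, card4, ?_⟩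
  · rw [MulAction.isMultiplyPretransitive_iff]
    intro y y'
    obtain ⟨g, hg, h0, h1, h2, h3, h4⟩ := to_base y
    obtain ⟨g', hg', h0', h1', h2', h3', h4'⟩ := to_base y'
    refine ⟨⟨g'⁻¹ * g, mul_mem (inv_mem hg') hg⟩, ?_⟩
    ext i
    rw [Function.Embedding.smul_apply]
    show ((g'⁻¹ * g) (y i) : ℕ) = y' i
    congr 1
    show g'⁻¹ (g (y i)) = y' i
    rw [Equiv.Perm.inv_eq_iff_eq]
    fin_cases i
    · exact h0.trans h0'.symm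
    · exact h1.trans h1'.symm
    · exact h2.trans h2'.symm
    · exact h3.trans h3'.symm
    · exact h4.trans h4'.symm
  · intro y
    rw [eq_bot_iff]
    rintro ⟨h, hh⟩ hstab
    rw [MulAction.mem_stabilizer_iff] at hstab
    have hfix : ∀ i, h (y i) = y i := by
      intro i
      have := congrArg (fun z : Fin 5 ↪ Fin 12 => z i) hstab
      exact this
    obtain ⟨g, hg, h0, h1, h2, h3, h4⟩ := to_base y
    have key : ∀ i (c : Fin 12), g (y i) = c → (g * h * g⁻¹) c = c := by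
      intro i c hc
      show g (h (g⁻¹ c)) = c
      have : g⁻¹ c = y i := by rw [Equiv.Perm.inv_eq_iff_eq, hc]
      rw [this, hfix i, hc]
    have hk : g * h * g⁻¹ = 1 :=
      base_stab _ (mul_mem (mul_mem hg hh) (inv_mem hg)) (key 0 2 h0) (key 1 1 h1) (key 2 0 h2)
        (key 3 3 h3) (key 4 4 h4)
    have h1' : h = 1 := by
      have : h = g⁻¹ * (g * h * g⁻¹) * g := by group
      rw [this, hk]; group
    rw [Subgroup.mem_bot]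
    exact Subtype.ext h1'
  · ext k
    rw [Subgroup.mem_inf, MulAction.mem_stabilizer_iff]
    constructor
    · intro hk
      exact ⟨le45 hk, fixG4 k hk⟩
    · rintro ⟨hk, hk2⟩
      exact stab5 k hk hk2

end Cfsg.Agent.S3362
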