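import Cfsg.Statements.S3374
import Cfsg.Agent.Lib.Helper56.SL25Pres

set_option autoImplicit false
open Cfsg

namespace Cfsg.Agent.S3374

open Cfsg.Agent.Lib.Helper56.SL25Pres
open scoped Pointwise

abbrev V := Fin 2 → ZMod 11
abbrev N := Multiplicative V

theorem mem_conj_smul {L : Type*} [Group L] (H : Subgroup L) (g x : L) :
    x ∈ MulAut.conj g • H ↔ g⁻¹ * x * g ∈ H := by
  rw [Subgroup.mem_pointwise_smul_iff_inv_smul_mem, MulAut.smul_def, MulAut.conj_inv_apply]

/-- The action of the presented group on `(ZMod 11)²` as automorphisms. -/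
noncomputable def ψ : P →* MulAut N :=
  (MulAutMultiplicative V).symm.toMonoidHom.comp
    ((DistribMulAction.toAddAut (V ≃ₗ[ZMod 11] V) V).comp
      ((Matrix.SpecialLinearGroup.toLin' (n := Fin 2) (R := ZMod 11)).comp θ))

theorem ψ_apply (p : P) (v : V) :
    ψ p (Multiplicative.ofAdd v) = Multiplicative.ofAdd ((θ p).1.mulVec v) := rfl

theorem ψ_fpf (p : P) (n : N) (hn : n ≠ 1) (h : ψ p n = n) : p = 1 := by
  by_contra hp
  apply hn
  have h1 : ψ p (Multiplicative.ofAdd (Multiplicative.toAdd n)) =
      Multiplicative.ofAdd (Multiplicative.toAdd n) := h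
  rw [ψ_apply] at h1
  have h2 := θ_fpf p hp (Multiplicative.toAdd n) (Multiplicative.ofAdd.injective h1)
  exact Multiplicative.toAdd.injective h2

abbrev L := N ⋊[ψ] P

noncomputable def H : Subgroup L := (SemidirectProduct.inr : P →* L).range

theorem mem_H (g : L) : g ∈ H ↔ g.left = 1 := by
  constructor
  · rintro ⟨p, rfl⟩
    rfl
  · intro h
    refine ⟨g.right, ?_⟩
    ext
    · rw [h]; rfl
    · rfl

theorem finite_L : Finite L := by
  have : Finite P := finite_P
  exact Finite.of_equiv _ (SemidirectProduct.equivProd (φ := ψ)).symm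

/-- SL(2,5) occurs as a Frobenius complement: there is a finite group L with a subgroup H isomorphic to SL(2,5) which is a non-trivial proper subgroup meeting each conjugate gHg⁻¹ with g outside H trivially. -/
theorem result :
    ∃ (L : Type) (_ : Group L) (_ : Finite L) (H : Subgroup L),
      Cfsg.IsFrobeniusComplement H ∧ Nonempty (H ≃* Matrix.SpecialLinearGroup (Fin 2) (ZMod 5)) := by
  refine ⟨L, inferInstance, finite_L, H, ⟨?_, ?_, ?_⟩, ?_⟩
  · -- H ≠ ⊥
    intro hbot
    have hz : (SemidirectProduct.inr z : L) ∈ H := ⟨z, rfl⟩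
    rw [hbot, Subgroup.mem_bot] at hz
    have hz1 : z = 1 := by
      have := congrArg SemidirectProduct.right hz
      simpa using this
    have h11 : θ z = 1 := by rw [hz1, map_one]
    rw [θ_z] at h11
    revert h11
    decide
  · -- H ≠ ⊤
    intro htop
    have hv : (SemidirectProduct.inl (Multiplicative.ofAdd (fun _ => 1 : V)) : L) ∈ H := by
      rw [htop]; trivial
    rw [mem_H] at hv
    have hv' : Multiplicative.ofAdd (fun _ => 1 : V) = 1 := hv
    have h0 : (fun _ => 1 : V) = 0 := Multiplicative.ofAdd.injective hv'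
    have := congrFun h0 0
    revert this
    decide
  · intro g hg
    rw [mem_H] at hg
    rw [eq_bot_iff]
    intro h hh
    rw [Subgroup.mem_inf, mem_conj_smul, mem_H, mem_H] at hh
    obtain ⟨h1, h2⟩ := hh
    rw [Subgroup.mem_bot]
    have key : ψ h.right g.left = g.left := by
      have e : (g⁻¹ * h * g).left = ψ g.right⁻¹ (g.left⁻¹ * ψ h.right g.left) := by
        simp only [SemidirectProduct.mul_left, SemidirectProduct.inv_left,
          SemidirectProduct.mul_right, SemidirectProduct.inv_right, h1, map_mul, map_inv,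
          map_one, mul_one, MulAut.mul_apply]
      rw [e] at h2
      have h3 : g.left⁻¹ * ψ h.right g.left = 1 := by
        have := congrArg (ψ g.right) h2
        simpa using this
      rw [inv_mul_eq_one] at h3
      exact h3.symm
    have hr : h.right = 1 := ψ_fpf h.right g.left hg key
    exact SemidirectProduct.ext h1 hr
  · have e1 : P ≃* H := MonoidHom.ofInjective SemidirectProduct.inr_injective
    exact ⟨e1.symm.trans presEquiv⟩

end Cfsg.Agent.S3374
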