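import Cfsg.Statements.S3375

set_option autoImplicit false
open Cfsg

namespace Cfsg.Agent.S3375

/-- Any `γ`-invariant subgroup of index two is inverted by `γ`, when `γ` is an involutive
automorphism with exactly two fixed points. -/
theorem inverted_of_invariant {H : Type*} [Group H] [Finite H] (γ : MulAut H)
    (hinv : ∀ h : H, γ (γ h) = h) (hfix : Nat.card {h : H // γ h = h} = 2)
    (A : Subgroup H) (hA : A.index = 2) (hAγ : ∀ a ∈ A, γ a ∈ A) :
    ∀ a ∈ A, γ a = a⁻¹ := by
  classical
  -- the subgroup of fixed points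
  let C : Subgroup H :=
    { carrier := {h | γ h = h}
      mul_mem' := by
        intro a b ha hb
        simp only [Set.mem_ofPred_eq] at ha hb ⊢
        rw [map_mul, ha, hb]
      one_mem' := by simp
      inv_mem' := by
        intro a ha
        simp only [Set.mem_ofPred_eq] at ha ⊢
        rw [map_inv, ha] }
  have hCcard : Nat.card C = 2 := hfix
  have hCidx : C.index * 2 = Nat.card H := by rw [← hCcard]; exact C.index_mul_card
  have hAcard : 2 * Nat.card A = Nat.card H := by rw [← hA]; exact A.index_mul_card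
  have hAC : Nat.card A = C.index := by omega
  -- the commutator map
  let f : H → H := fun h => h * (γ h)⁻¹
  have hfA : ∀ h, f h ∈ A := by
    intro h
    show h * (γ h)⁻¹ ∈ A
    rw [Subgroup.mul_mem_iff_of_index_two hA, inv_mem_iff]
    exact ⟨fun hh => hAγ h hh, fun hh => by simpa [hinv] using hAγ _ hh⟩
  -- induced injective map on the quotient
  let F : H ⧸ C → A := Quotient.lift (fun h => (⟨f h, hfA h⟩ : A)) (by
    intro a b hab
    have hab' : a⁻¹ * b ∈ C := QuotientGroup.leftRel_apply.mp hab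
    have h1 : γ (a⁻¹ * b) = a⁻¹ * b := hab'
    rw [map_mul, map_inv] at h1
    apply Subtype.ext
    show a * (γ a)⁻¹ = b * (γ b)⁻¹
    have h2 : γ b = γ a * (a⁻¹ * b) := by rw [← h1]; group
    rw [h2]; group)
  have hFinj : Function.Injective F := by
    intro x y
    refine Quotient.inductionOn₂ x y ?_
    intro a b hab
    have h1 : a * (γ a)⁻¹ = b * (γ b)⁻¹ := congrArg Subtype.val hab
    apply Quotient.sound
    apply QuotientGroup.leftRel_apply.mpr
    show γ (a⁻¹ * b) = a⁻¹ * b
    rw [map_mul, map_inv]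
    have h2 : (γ a)⁻¹ = a⁻¹ * (b * (γ b)⁻¹) := by rw [← h1]; group
    rw [h2]; group
  have hFbij : Function.Bijective F := by
    have : Nat.card (H ⧸ C) = Nat.card A := by rw [hAC]; rfl
    exact (Nat.bijective_iff_injective_and_card F).mpr ⟨hFinj, this⟩
  intro a ha
  obtain ⟨x, hx⟩ := hFbij.2 ⟨a, ha⟩
  obtain ⟨h, rfl⟩ := QuotientGroup.mk_surjective x
  have h1 : h * (γ h)⁻¹ = a := congrArg Subtype.val hx
  rw [← h1, map_mul, map_inv, hinv]
  group

/-- Let γ be an automorphism of order 2 of a finite group H. (i) If γ fixes only the identity, then H is abelian and γ inverts every element. (ii) If γ has exactly two fixed points and H has a subgroup of index 2, then H has a γ-invariant abelian subgroup of index 2 on which γ acts by inversion. -/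
theorem result {H : Type*} [Group H] [Finite H] (γ : MulAut H) (hγ : orderOf γ = 2) :
    ((∀ h : H, γ h = h → h = 1) → (∀ a b : H, a * b = b * a) ∧ ∀ h : H, γ h = h⁻¹) ∧
    ((Nat.card {h : H // γ h = h} = 2 ∧ ∃ M : Subgroup H, M.index = 2) →
      ∃ A : Subgroup H, A.index = 2 ∧ IsMulCommutative A ∧ (∀ a ∈ A, γ a ∈ A) ∧ ∀ a ∈ A, γ a = a⁻¹) := by
  have hinv : ∀ h : H, γ (γ h) = h := by
    intro h
    have h2 : γ ^ 2 = 1 := by rw [← hγ]; exact pow_orderOf_eq_one γ
    have := congrArg (fun φ : MulAut H => φ h) h2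
    simpa [pow_two] using this
  refine ⟨?_, ?_⟩
  · intro hfpf
    have hφ : MonoidHom.FixedPointFree (γ : H → H) := hfpf
    have h2 : Function.Involutive (γ : H → H) := hinv
    refine ⟨fun a b => (hφ.commute_all_of_involutive h2 a b), fun h => ?_⟩
    have := hφ.coe_eq_inv_of_involutive h2
    exact congrFun this h
  · rintro ⟨hfix, M, hM⟩
    -- a γ-invariant subgroup of index two
    obtain ⟨A, hA, hAγ⟩ : ∃ A : Subgroup H, A.index = 2 ∧ ∀ a ∈ A, γ a ∈ A := by
      by_cases hMγ : ∀ a ∈ M, γ a ∈ M
      · exact ⟨M, hM, hMγ⟩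
      · push Not at hMγ
        obtain ⟨h₀, hh₀, hγh₀⟩ := hMγ
        let A : Subgroup H :=
          { carrier := {h | h ∈ M ↔ γ h ∈ M}
            mul_mem' := by
              intro a b ha hb
              simp only [Set.mem_ofPred_eq] at ha hb ⊢
              rw [map_mul, Subgroup.mul_mem_iff_of_index_two hM, Subgroup.mul_mem_iff_of_index_two hM,
                ha, hb]
            one_mem' := by simp
            inv_mem' := by
              intro a ha
              simp only [Set.mem_ofPred_eq] at ha ⊢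
              rw [map_inv, inv_mem_iff, inv_mem_iff, ha] }
        refine ⟨A, ?_, ?_⟩
        · rw [Subgroup.index_eq_two_iff]
          refine ⟨h₀, fun b => ?_⟩
          have e1 : b * h₀ ∈ A ↔ (b * h₀ ∈ M ↔ γ (b * h₀) ∈ M) := Iff.rfl
          have e2 : b ∈ A ↔ (b ∈ M ↔ γ b ∈ M) := Iff.rfl
          rw [e1, e2, map_mul, Subgroup.mul_mem_iff_of_index_two hM,
            Subgroup.mul_mem_iff_of_index_two hM]
          simp only [hh₀, hγh₀, iff_true, iff_false]
          by_cases hb : b ∈ M <;> by_cases hb' : γ b ∈ M <;> simp [hb, hb', Xor]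
        · intro a ha
          have ha' : a ∈ M ↔ γ a ∈ M := ha
          show γ a ∈ M ↔ γ (γ a) ∈ M
          rw [hinv, ha']
    have hinvA := inverted_of_invariant γ hinv hfix A hA hAγ
    refine ⟨A, hA, ⟨⟨fun a b => ?_⟩⟩, hAγ, hinvA⟩
    apply Subtype.ext
    have h1 := hinvA _ (A.mul_mem a.2 b.2)
    rw [map_mul, hinvA _ a.2, hinvA _ b.2] at h1
    have h2 : ((a : H)⁻¹ * (b : H)⁻¹)⁻¹ = (((a : H) * (b : H))⁻¹)⁻¹ := by rw [h1]
    simpa using h2.symm

end Cfsg.Agent.S3375
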