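import Cfsg.Statements.S3379

set_option autoImplicit false
open Cfsg

namespace Cfsg.Agent.S3379

/-- Let G be a finite group all of whose Sylow subgroups are cyclic. Then G is generated by two elements x and y of coprime orders n and m with x⁻¹yx = y^r, where gcd(r − 1, m) = 1 and r^n ≡ 1 (mod m). -/
theorem result {G : Type*} [Group G] [Finite G]
    (hZ : ∀ (p : ℕ) [Fact p.Prime] (P : Sylow p G), IsCyclic (P : Subgroup G)) :
    ∃ (x y : G) (n m r : ℕ), Subgroup.closure {x, y} = ⊤ ∧ orderOf x = n ∧ orderOf y = m ∧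
      x⁻¹ * y * x = y ^ r ∧ Nat.Coprime (r - 1) m ∧ Nat.Coprime n m ∧ 1 ≤ r ∧ r ^ n % m = 1 % m := by
  have hZG : IsZGroup G := ⟨fun p hp P => by have := Fact.mk hp; exact hZ p P⟩
  have hcyc : IsCyclic (commutator G) := IsZGroup.isCyclic_commutator G
  obtain ⟨y', hy'⟩ := hcyc.exists_generator
  obtain ⟨H, hH⟩ := Subgroup.exists_right_complement'_of_coprime (IsZGroup.coprime_commutator_index G)
  have h1 : Abelianization G ≃* H := hH.symm.QuotientMulEquiv
  have hHc : IsCyclic H := isCyclic_of_surjective _ h1.surjective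
  obtain ⟨x', hx'⟩ := hHc.exists_generator
  -- basic facts
  have hyG : ∀ g : G, g ∈ commutator G → g ∈ Subgroup.zpowers (y' : G) := by
    intro g hg
    obtain ⟨k, hk⟩ := Subgroup.mem_zpowers_iff.mp (hy' ⟨g, hg⟩)
    refine Subgroup.mem_zpowers_iff.mpr ⟨k, ?_⟩
    have := congrArg Subtype.val hk
    simpa using this
  have hxG : ∀ g : G, g ∈ H → g ∈ Subgroup.zpowers (x' : G) := by
    intro g hg
    obtain ⟨k, hk⟩ := Subgroup.mem_zpowers_iff.mp (hx' ⟨g, hg⟩)
    refine Subgroup.mem_zpowers_iff.mpr ⟨k, ?_⟩
    have := congrArg Subtype.val hk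
    simpa using this
  have hym : orderOf (y' : G) = Nat.card (commutator G) := by
    rw [Subgroup.orderOf_coe, orderOf_eq_card_of_forall_mem_zpowers hy']
  have hxn : orderOf (x' : G) = Nat.card H := by
    rw [Subgroup.orderOf_coe, orderOf_eq_card_of_forall_mem_zpowers hx']
  have hmpos : 0 < orderOf (y' : G) := orderOf_pos _
  have hclos : Subgroup.closure {(x' : G), (y' : G)} = ⊤ := by
    rw [eq_top_iff, ← hH.sup_eq_top]
    refine sup_le ?_ ?_
    · intro g hg
      have h2 := hyG g hg
      rw [Subgroup.zpowers_eq_closure] at h2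
      exact Subgroup.closure_mono (by simp) h2
    · intro g hg
      have h2 := hxG g hg
      rw [Subgroup.zpowers_eq_closure] at h2
      exact Subgroup.closure_mono (by simp) h2
  -- conjugates of y are powers of y
  have hconj : ∀ g : G, g * (y' : G) * g⁻¹ ∈ Subgroup.zpowers (y' : G) := by
    intro g
    apply hyG
    exact (inferInstance : (commutator G).Normal).conj_mem _ y'.2 g
  obtain ⟨k, hk⟩ := Subgroup.mem_zpowers_iff.mp (hconj (x' : G)⁻¹)
  rw [inv_inv] at hk
  set m := orderOf (y' : G) with hm
  -- choose natural exponent r ≥ 1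
  obtain ⟨r, hr1, hr⟩ : ∃ r : ℕ, 1 ≤ r ∧ (y' : G) ^ r = (x' : G)⁻¹ * (y' : G) * (x' : G) := by
    refine ⟨(k % (m : ℤ)).toNat + m, by omega, ?_⟩
    rw [← hk, pow_add, pow_orderOf_eq_one, mul_one, ← zpow_natCast,
      Int.toNat_of_nonneg (Int.emod_nonneg _ (by exact_mod_cast hmpos.ne')), zpow_mod_orderOf]
  refine ⟨(x' : G), (y' : G), orderOf (x' : G), m, r, hclos, rfl, rfl, hr.symm, ?_, ?_, hr1, ?_⟩
  · -- coprime (r - 1) m
    set u : G := (y' : G) ^ (r - 1) with hu
    have hyu : (y' : G) * u = (y' : G) ^ r := by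
      rw [hu, ← pow_succ']
      congr 1
      omega
    -- N = zpowers u is normal
    have hNn : (Subgroup.zpowers u).Normal := by
      constructor
      intro n hn g
      obtain ⟨j, rfl⟩ := Subgroup.mem_zpowers_iff.mp hn
      obtain ⟨i, hi⟩ := Subgroup.mem_zpowers_iff.mp (hconj g)
      have : g * u ^ j * g⁻¹ = u ^ (i * j) := by
        have e1 : g * u ^ j * g⁻¹ = (g * u * g⁻¹) ^ j := by
          simp [conj_zpow]
        have e2 : g * u * g⁻¹ = u ^ i := by
          rw [hu]
          have : g * (y' : G) ^ (r - 1) * g⁻¹ = (g * (y' : G) * g⁻¹) ^ (r - 1) := by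
            simp [conj_pow]
          rw [this, ← hi, ← zpow_natCast, ← zpow_natCast, ← zpow_mul, ← zpow_mul, mul_comm]
        rw [e1, e2, zpow_mul]
      rw [this]
      exact Subgroup.zpow_mem_zpowers _ _
    -- the quotient by N is commutative, since generated by two commuting elements
    have hcomm : commutator G ≤ Subgroup.zpowers u := by
      have hker : (QuotientGroup.mk' (Subgroup.zpowers u)).ker = Subgroup.zpowers u :=
        QuotientGroup.ker_mk' _
      rw [← hker]
      have hab : ∀ a b : G ⧸ Subgroup.zpowers u, a * b = b * a := by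
        -- centralizer argument
        have hxy : (QuotientGroup.mk' (Subgroup.zpowers u) (x' : G)) *
            (QuotientGroup.mk' (Subgroup.zpowers u) (y' : G)) =
            (QuotientGroup.mk' (Subgroup.zpowers u) (y' : G)) *
            (QuotientGroup.mk' (Subgroup.zpowers u) (x' : G)) := by
          rw [← map_mul, ← map_mul]
          apply (QuotientGroup.eq (s := Subgroup.zpowers u)).mpr
          have : ((x' : G) * (y' : G))⁻¹ * ((y' : G) * (x' : G)) = u := by
            have h3 : (x' : G)⁻¹ * (y' : G) * (x' : G) = (y' : G) * u := by rw [hyu, hr]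
            have h4 : (y' : G) * (x' : G) = (x' : G) * (y' : G) * u := by
              rw [mul_assoc, ← h3]; group
            rw [h4]; group
          rw [this]
          exact Subgroup.mem_zpowers u
        have hgen : Subgroup.closure {QuotientGroup.mk' (Subgroup.zpowers u) (x' : G),
            QuotientGroup.mk' (Subgroup.zpowers u) (y' : G)} = ⊤ := by
          have := congrArg (Subgroup.map (QuotientGroup.mk' (Subgroup.zpowers u))) hclos
          rw [MonoidHom.map_closure, Subgroup.map_top_of_surjective _
            (QuotientGroup.mk'_surjective _)] at this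
          rw [← this]
          congr 1
          ext z
          simp [Set.image_pair]
        have hcentX : ∀ a : G ⧸ Subgroup.zpowers u,
            a ∈ Subgroup.centralizer {QuotientGroup.mk' (Subgroup.zpowers u) (x' : G),
              QuotientGroup.mk' (Subgroup.zpowers u) (y' : G)} := by
          intro a
          have ha : a ∈ Subgroup.closure {QuotientGroup.mk' (Subgroup.zpowers u) (x' : G),
            QuotientGroup.mk' (Subgroup.zpowers u) (y' : G)} := by rw [hgen]; trivial
          refine (Subgroup.closure_le _).mpr ?_ ha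
          intro b hb
          rw [SetLike.mem_coe, Subgroup.mem_centralizer_iff]
          intro c hc
          rcases hb with rfl | rfl <;> rcases hc with rfl | rfl
          · rfl
          · exact hxy.symm
          · exact hxy
          · rfl
        intro a b
        have hb : b ∈ Subgroup.closure {QuotientGroup.mk' (Subgroup.zpowers u) (x' : G),
            QuotientGroup.mk' (Subgroup.zpowers u) (y' : G)} := by rw [hgen]; trivial
        have : b ∈ Subgroup.centralizer {a} := by
          refine (Subgroup.closure_le _).mpr ?_ hb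
          intro c hc
          rw [SetLike.mem_coe, Subgroup.mem_centralizer_iff]
          intro d hd
          rw [Set.mem_singleton_iff] at hd
          subst hd
          have := hcentX d
          rw [Subgroup.mem_centralizer_iff] at this
          exact (this c hc).symm
        rw [Subgroup.mem_centralizer_iff] at this
        exact this a rfl
      let _ : CommGroup (G ⧸ Subgroup.zpowers u) := { (inferInstance : Group _) with mul_comm := hab }
      exact Abelianization.commutator_subset_ker (QuotientGroup.mk' (Subgroup.zpowers u))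
    have hyN : (y' : G) ∈ Subgroup.zpowers u := hcomm y'.2
    obtain ⟨j, hj⟩ := Subgroup.mem_zpowers_iff.mp hyN
    -- y = y^((r-1) j)
    have hj' : (y' : G) ^ (((r - 1 : ℕ) : ℤ) * j) = (y' : G) ^ (1 : ℤ) := by
      rw [zpow_mul, zpow_natCast, hj, zpow_one]
    rw [zpow_eq_zpow_iff_modEq] at hj'
    -- gcd divides 1
    have hd : ((Nat.gcd (r - 1) m : ℕ) : ℤ) ∣ 1 := by
      have h5 : ((Nat.gcd (r - 1) m : ℕ) : ℤ) ∣ ((r - 1 : ℕ) : ℤ) * j :=
        Dvd.dvd.mul_right (Int.natCast_dvd_natCast.mpr (Nat.gcd_dvd_left _ _)) _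
      have h6 : ((Nat.gcd (r - 1) m : ℕ) : ℤ) ∣ (m : ℤ) :=
        Int.natCast_dvd_natCast.mpr (Nat.gcd_dvd_right _ _)
      have h7 := (Int.modEq_iff_dvd.mp hj')
      have h8 : ((Nat.gcd (r - 1) m : ℕ) : ℤ) ∣ 1 - ((r - 1 : ℕ) : ℤ) * j := h6.trans h7
      have := dvd_add h8 h5
      simpa using this
    have : Nat.gcd (r - 1) m ∣ 1 := by exact_mod_cast hd
    exact Nat.dvd_one.mp this
  · -- coprime n m
    rw [hxn, hym]
    have := IsZGroup.coprime_commutator_index G
    rw [hH.symm.index_eq_card] at this
    exact this.symm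
  · -- r ^ n ≡ 1 mod m
    have key : ∀ i : ℕ, ((x' : G) ^ i)⁻¹ * (y' : G) * (x' : G) ^ i = (y' : G) ^ (r ^ i) := by
      intro i
      induction i with
      | zero => simp
      | succ i ih =>
        have : ((x' : G) ^ (i + 1))⁻¹ * (y' : G) * (x' : G) ^ (i + 1)
            = (x' : G)⁻¹ * (((x' : G) ^ i)⁻¹ * (y' : G) * (x' : G) ^ i) * (x' : G) := by
          rw [pow_succ]; group
        rw [this, ih]
        have : (x' : G)⁻¹ * (y' : G) ^ (r ^ i) * (x' : G) = ((x' : G)⁻¹ * (y' : G) * (x' : G)) ^ (r ^ i) := by
          have := conj_pow (a := (x' : G)⁻¹) (b := (y' : G)) (i := r ^ i)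
          simpa using this.symm
        rw [this, ← hr, ← pow_mul, pow_succ, mul_comm]
    have h9 := key (orderOf (x' : G))
    rw [pow_orderOf_eq_one, inv_one, one_mul, mul_one] at h9
    have h10 : (y' : G) ^ (r ^ orderOf (x' : G)) = (y' : G) ^ 1 := by rw [← h9, pow_one]
    exact (pow_eq_pow_iff_modEq.mp h10)

end Cfsg.Agent.S3379
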