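import Cfsg.Statements.S3381

set_option autoImplicit false
open Cfsg

namespace Cfsg.Agent.S3381

/-- Let G be a finite group acting faithfully and linearly on a non-trivial finite vector space V over the field with q elements (q prime) so that every non-zero vector has a stabilizer of order 2, and suppose G has a central involution. Then V has q^(2r) elements for some r and G contains exactly q^r + 1 non-central involutions. -/
theorem result
    (q : ℕ) [Fact q.Prime] {V : Type*} [AddCommGroup V] [Module (ZMod q) V] [Finite V] [Nontrivial V]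
    {G : Type*} [Group G] [Finite G] (ρ : G →* (V ≃ₗ[ZMod q] V)) (hρ : Function.Injective ρ)
    (hstab : ∀ v : V, v ≠ 0 → Nat.card {g : G // ρ g v = v} = 2)
    (z : G) (hz : orderOf z = 2) (hzc : z ∈ Subgroup.center G) :
    ∃ r : ℕ, Nat.card V = q ^ (2 * r) ∧
      Nat.card {g : G // orderOf g = 2 ∧ g ∉ Subgroup.center G} = q ^ r + 1 := by
  classical
  have hmul : ∀ (g h : G) (v : V), ρ (g * h) v = ρ g (ρ h v) := by
    intro g h v; rw [map_mul]; rfl
  have hone : ∀ v : V, ρ 1 v = v := by intro v; rw [map_one]; rfl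
  have hex : ∀ v : V, v ≠ 0 → ∃ t : G, t ≠ 1 ∧ ρ t v = v := by
    intro v hv
    have h := hstab v hv
    rw [Nat.card_eq_two_iff' (⟨1, hone v⟩ : {g : G // ρ g v = v})] at h
    obtain ⟨t, ht, -⟩ := h
    exact ⟨t.1, fun h1 => ht (Subtype.ext h1), t.2⟩
  have huniq : ∀ v : V, v ≠ 0 → ∀ g h : G, g ≠ 1 → h ≠ 1 → ρ g v = v → ρ h v = v → g = h := by
    intro v hv g h hg hh hgv hhv
    have h2 := hstab v hv
    rw [Nat.card_eq_two_iff' (⟨1, hone v⟩ : {g : G // ρ g v = v})] at h2
    obtain ⟨t, -, ht⟩ := h2
    have e1 := ht ⟨g, hgv⟩ (fun h1 => hg (congrArg Subtype.val h1))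
    have e2 := ht ⟨h, hhv⟩ (fun h1 => hh (congrArg Subtype.val h1))
    exact congrArg Subtype.val (e1.trans e2.symm)
  have hne_id : ∀ g : G, g ≠ 1 → ∃ v : V, ρ g v ≠ v := by
    intro g hg
    by_contra hall
    push Not at hall
    apply hg
    apply hρ
    ext v
    rw [hall v, hone]
  -- a central involution fixes no nonzero vector
  have hcent : ∀ z' : G, z' ∈ Subgroup.center G → z' ≠ 1 → z' * z' = 1 →
      ∀ u : V, ρ z' u = u → u = 0 := by
    intro z' hz'c hz'1 hz'2 u hu
    by_contra hu0
    obtain ⟨v₀, hv₀⟩ := hne_id z' hz'1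
    have hv₀0 : v₀ ≠ 0 := by
      rintro rfl
      exact hv₀ (map_zero _)
    set w := v₀ - ρ z' v₀ with hw
    have hw0 : w ≠ 0 := sub_ne_zero.mpr (Ne.symm hv₀)
    have hzw : ρ z' w = -w := by
      rw [hw, map_sub, ← hmul, hz'2, hone]; abel
    obtain ⟨t, ht1, htv⟩ := hex v₀ hv₀0
    have htz : t ≠ z' := by
      rintro rfl
      exact hv₀ htv
    have hcomm : ∀ (g : G) (x : V), ρ g (ρ z' x) = ρ z' (ρ g x) := by
      intro g x
      rw [← hmul, ← hmul, (Subgroup.mem_center_iff.mp hz'c g)]
    have htw : ρ t w = w := by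
      rw [hw, map_sub, hcomm, htv]
    have hzw' : ρ z' w ≠ w := fun h => htz (huniq w hw0 t z' ht1 hz'1 htw h)
    have hww : w + w ≠ 0 := by
      intro h
      apply hzw'
      rw [hzw]
      exact neg_eq_of_add_eq_zero_left h
    by_cases hx : u + w = 0
    · have h1 : w = -u := eq_neg_of_add_eq_zero_right hx
      apply hzw'
      rw [h1, map_neg, hu]
    · obtain ⟨s, hs1, hsx⟩ := hex (u + w) hx
      have hsx' : ρ s (u - w) = u - w := by
        have : ρ z' (u + w) = u - w := by
          rw [map_add, hu, hzw]; abel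
        rw [← this, hcomm, hsx]
      have hsu : ρ s (u + u) = u + u := by
        have : u + u = (u + w) + (u - w) := by abel
        rw [this, map_add, hsx, hsx']
      have hsw : ρ s (w + w) = w + w := by
        have : w + w = (u + w) - (u - w) := by abel
        rw [this, map_sub, hsx, hsx']
      have huu : u + u ≠ 0 := by
        intro h
        have h2 : (2 : ZMod q) • u = 0 := by rw [two_smul]; exact h
        rcases smul_eq_zero.mp h2 with h3 | h3
        · apply hww
          rw [← two_smul (ZMod q) w, h3, zero_smul]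
        · exact hu0 h3
      have hzuu : ρ z' (u + u) = u + u := by rw [map_add, hu]
      have hsz : s = z' := huniq (u + u) huu s z' hs1 hz'1 hsu hzuu
      rw [hsz] at hsw
      have htww : ρ t (w + w) = w + w := by rw [map_add, htw]
      exact htz (huniq (w + w) hww t z' ht1 hz'1 htww hsw)
  have hneg : ∀ z' : G, z' ∈ Subgroup.center G → z' ≠ 1 → z' * z' = 1 →
      ∀ v : V, ρ z' v = -v := by
    intro z' hz'c hz'1 hz'2 v
    have h1 : ρ z' (v + ρ z' v) = v + ρ z' v := by
      rw [map_add, ← hmul, hz'2, hone, add_comm]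
    have h2 := hcent z' hz'c hz'1 hz'2 _ h1
    exact (neg_eq_of_add_eq_zero_right h2).symm
  have hz1 : z ≠ 1 := by
    intro h
    rw [h, orderOf_one] at hz
    exact absurd hz (by norm_num)
  have hz2 : z * z = 1 := by
    rw [← pow_two, ← hz]; exact pow_orderOf_eq_one z
  have hnegz : ∀ v : V, ρ z v = -v := hneg z hzc hz1 hz2
  have h2tor : ∀ v : V, v + v = 0 → v = 0 := by
    intro v hv
    apply hcent z hzc hz1 hz2
    rw [hnegz]
    exact neg_eq_of_add_eq_zero_left hv
  -- stabilizer elements are non-central involutions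
  have hinvol : ∀ v : V, v ≠ 0 → ∀ t : G, t ≠ 1 → ρ t v = v →
      (orderOf t = 2 ∧ t ∉ Subgroup.center G) := by
    intro v hv t ht1 htv
    have htt : t * t = 1 := by
      by_contra h
      have := huniq v hv (t * t) t h ht1 (by rw [hmul, htv, htv]) htv
      exact ht1 (by simpa using this)
    refine ⟨orderOf_eq_prime (by rw [pow_two]; exact htt) ht1, fun hc => ?_⟩
    have h1 := hneg t hc ht1 htt v
    rw [htv] at h1
    exact hv (h2tor v (add_eq_zero_iff_eq_neg.mpr h1))
  -- properties of non-central involutions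
  have hI1 : ∀ t : G, orderOf t = 2 → t ≠ 1 := by
    intro t ht h
    rw [h, orderOf_one] at ht
    exact absurd ht (by norm_num)
  have hI2 : ∀ t : G, orderOf t = 2 → t * t = 1 := by
    intro t ht
    rw [← pow_two, ← ht]; exact pow_orderOf_eq_one t
  have hzcomm : ∀ g : G, g * z = z * g := fun g => Subgroup.mem_center_iff.mp hzc g
  have hItz : ∀ t : G, orderOf t = 2 → t ∉ Subgroup.center G →
      (orderOf (t * z) = 2 ∧ t * z ∉ Subgroup.center G) := by
    intro t ht htc
    have h1 : t * z ≠ 1 := by
      intro h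
      apply htc
      have : t = z⁻¹ := eq_inv_of_mul_eq_one_left h
      rw [this]
      exact Subgroup.inv_mem _ hzc
    have h2 : (t * z) * (t * z) = 1 := by
      calc (t * z) * (t * z) = t * (z * t) * z := by group
        _ = t * (t * z) * z := by rw [hzcomm t]
        _ = (t * t) * (z * z) := by group
        _ = 1 := by rw [hI2 t ht, hz2, mul_one]
    refine ⟨orderOf_eq_prime (by rw [pow_two]; exact h2) h1, fun hc => htc ?_⟩
    have : t = (t * z) * z⁻¹ := by group
    rw [this]
    exact Subgroup.mul_mem _ hc (Subgroup.inv_mem _ hzc)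
  have hρtz : ∀ (t : G) (v : V), ρ (t * z) v = -(ρ t v) := by
    intro t v
    rw [hmul, hnegz, map_neg]
  have htzz : ∀ t : G, t * z * z = t := by
    intro t; rw [mul_assoc, hz2, mul_one]
  have hnz : ∀ t : G, orderOf t = 2 → t ∉ Subgroup.center G → ∃ a : V, a ≠ 0 ∧ ρ t a = a := by
    intro t ht htc
    obtain ⟨v, hv⟩ := hne_id (t * z) (hI1 _ (hItz t ht htc).1)
    refine ⟨v + ρ t v, ?_, ?_⟩
    · intro h
      apply hv
      rw [hρtz]
      exact neg_eq_of_add_eq_zero_left h
    · rw [map_add, ← hmul, hI2 t ht, hone, add_comm]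
  -- fixed spaces
  let C : G → Submodule (ZMod q) V := fun g =>
    LinearMap.ker (((ρ g : V ≃ₗ[ZMod q] V) : V →ₗ[ZMod q] V) - LinearMap.id)
  have hC : ∀ (g : G) (v : V), v ∈ C g ↔ ρ g v = v := by
    intro g v
    simp only [C, LinearMap.mem_ker, LinearMap.sub_apply, LinearMap.id_coe, id_eq, sub_eq_zero]
    rfl
  let c : G → ℕ := fun g => Nat.card (C g)
  have hcpos : ∀ g : G, 0 < c g := fun g => Nat.card_pos
  have hL2 : ∀ g h : G, g ≠ 1 → h ≠ 1 → g ≠ h → c g * c h ≤ Nat.card V := by
    intro g h hg hh hgh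
    show Nat.card (C g) * Nat.card (C h) ≤ Nat.card V
    rw [← Nat.card_prod]
    apply Nat.card_le_card_of_injective (fun p : C g × C h => (p.1 : V) + (p.2 : V))
    rintro ⟨a, b⟩ ⟨a', b'⟩ hab
    simp only at hab
    have hd : (a : V) - a' = b' - b := by
      rw [sub_eq_sub_iff_add_eq_add, hab, add_comm]
    have hd0 : (a : V) - a' = 0 := by
      by_contra hne
      have h1 : ρ g ((a : V) - a') = (a : V) - a' := (hC g _).mp ((C g).sub_mem a.2 a'.2)
      have h2 : ρ h ((a : V) - a') = (a : V) - a' := by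
        rw [hd]; exact (hC h _).mp ((C h).sub_mem b'.2 b.2)
      exact hgh (huniq _ hne g h hg hh h1 h2)
    have hd1 : (b' : V) - b = 0 := by rw [← hd, hd0]
    have e1 : a = a' := Subtype.ext (sub_eq_zero.mp hd0)
    have e2 : b = b' := Subtype.ext (sub_eq_zero.mp hd1).symm
    rw [e1, e2]
  have hL3 : ∀ t : G, orderOf t = 2 → t ∉ Subgroup.center G → c t * c (t * z) = Nat.card V := by
    intro t ht htc
    apply le_antisymm
    · apply hL2 t (t * z) (hI1 t ht) (hI1 _ (hItz t ht htc).1)
      intro h
      apply hz1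
      have : t * z = t * 1 := by rw [mul_one]; exact h.symm
      exact mul_left_cancel this
    · show Nat.card V ≤ Nat.card (C t) * Nat.card (C (t * z))
      rw [← Nat.card_prod]
      apply Nat.card_le_card_of_injective (fun v : V =>
        ((⟨v + ρ t v, (hC t _).mpr (by rw [map_add, ← hmul, hI2 t ht, hone, add_comm])⟩ : C t),
         (⟨v - ρ t v, (hC (t * z) _).mpr (by
            rw [hρtz, map_sub, ← hmul, hI2 t ht, hone]; abel)⟩ : C (t * z))))
      intro v v' hvv
      simp only [Prod.mk.injEq, Subtype.mk.injEq] at hvv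
      obtain ⟨h1, h2⟩ := hvv
      have h3 : (v - v') + (v - v') = 0 := by
        have : (v - v') + (v - v') = (v + ρ t v) + (v - ρ t v) - ((v' + ρ t v') + (v' - ρ t v')) := by
          abel
        rw [this, h1, h2, sub_self]
      exact sub_eq_zero.mp (h2tor _ h3)
  -- all fixed spaces of non-central involutions have the same size
  have hsq : ∀ t : G, orderOf t = 2 → t ∉ Subgroup.center G → c t * c t = Nat.card V := by
    intro t ht htc
    obtain ⟨htz2, htzc⟩ := hItz t ht htc
    obtain ⟨a, ha0, hta⟩ := hnz t ht htc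
    obtain ⟨b, hb0, htb⟩ := hnz (t * z) htz2 htzc
    have htb' : ρ t b = -b := by
      have := hρtz t b
      rw [htb] at this
      exact neg_eq_iff_eq_neg.mp this.symm
    have hx : a + b ≠ 0 := by
      intro h
      have h1 : a = -b := eq_neg_of_add_eq_zero_left h
      have h2 : ρ t a = -a := by
        rw [h1, map_neg, htb', neg_neg]
      rw [hta] at h2
      exact ha0 (h2tor a (add_eq_zero_iff_eq_neg.mpr h2))
    obtain ⟨s, hs1, hsx⟩ := hex (a + b) hx
    obtain ⟨hs2, hsc⟩ := hinvol (a + b) hx s hs1 hsx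
    obtain ⟨hsz2, hszc⟩ := hItz s hs2 hsc
    have hst : s ≠ t := by
      rintro rfl
      rw [map_add, hta, htb'] at hsx
      have : b + b = 0 := by
        have h1 : a + -b = a + b := hsx
        have h2 : -b = b := add_left_cancel h1
        nth_rewrite 1 [← h2]
        exact neg_add_cancel b
      exact hb0 (h2tor b this)
    have hstz : s ≠ t * z := by
      rintro rfl
      rw [map_add, htb, hρtz, hta] at hsx
      have : a + a = 0 := by
        have h1 : -a + b = a + b := hsx
        have h2 : -a = a := add_right_cancel h1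
        nth_rewrite 1 [← h2]
        exact neg_add_cancel a
      exact ha0 (h2tor a this)
    have ht1 := hI1 t ht
    have htz1 := hI1 _ htz2
    have hsz1 := hI1 _ hsz2
    have hN := hL3 t ht htc
    have hN' := hL3 s hs2 hsc
    have e1 := hL2 s t hs1 ht1 hst
    have e2 := hL2 s (t * z) hs1 htz1 hstz
    have e3 := hL2 t (s * z) ht1 hsz1 (by
      intro h; apply hstz; rw [h, htzz])
    have e4 := hL2 (t * z) (s * z) htz1 hsz1 (by
      intro h; exact hst (mul_right_cancel h).symm)
    have p1 := hcpos t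
    have p2 := hcpos (t * z)
    have p3 := hcpos s
    have p4 := hcpos (s * z)
    -- c s ≤ c t, c t ≤ c s, c (t z) ≤ c s, c s ≤ c (t z)
    have i1 : c s ≤ c (t * z) := by
      have : c s * c t ≤ c (t * z) * c t := by rw [mul_comm (c (t * z))]; omega
      exact Nat.le_of_mul_le_mul_right this p1
    have i2 : c s ≤ c t := by
      have : c s * c (t * z) ≤ c t * c (t * z) := by omega
      exact Nat.le_of_mul_le_mul_right this p2
    have i3 : c t ≤ c s := by
      have : c t * c (s * z) ≤ c s * c (s * z) := by omega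
      exact Nat.le_of_mul_le_mul_right this p4
    have i4 : c (t * z) ≤ c s := by
      have : c (t * z) * c (s * z) ≤ c s * c (s * z) := by omega
      exact Nat.le_of_mul_le_mul_right this p4
    have : c (t * z) = c t := by omega
    rw [← hN, this]
  -- pick one non-central involution
  obtain ⟨v₁, hv₁⟩ := exists_ne (0 : V)
  obtain ⟨t₀, ht₀1, ht₀v⟩ := hex v₁ hv₁
  obtain ⟨ht₀2, ht₀c⟩ := hinvol v₁ hv₁ t₀ ht₀1 ht₀v
  have hc0 : c t₀ = q ^ Module.finrank (ZMod q) (C t₀) := by
    show Nat.card (C t₀) = _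
    rw [Module.natCard_eq_pow_finrank (K := ZMod q), Nat.card_zmod]
  set r := Module.finrank (ZMod q) (C t₀) with hr
  have hVc : Nat.card V = q ^ (2 * r) := by
    rw [← hsq t₀ ht₀2 ht₀c, hc0, two_mul, pow_add]
  have hceq : ∀ t : G, orderOf t = 2 → t ∉ Subgroup.center G → c t = q ^ r := by
    intro t ht htc
    have h1 := hsq t ht htc
    have h2 := hsq t₀ ht₀2 ht₀c
    rw [← hc0]
    exact Nat.mul_self_inj.mp (h1.trans h2.symm)
  refine ⟨r, hVc, ?_⟩
  -- counting
  have := Fintype.ofFinite V
  have := Fintype.ofFinite G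
  let I : Finset G := Finset.univ.filter (fun g : G => orderOf g = 2 ∧ g ∉ Subgroup.center G)
  let Fx : G → Finset V := fun t => Finset.univ.filter (fun v : V => ρ t v = v ∧ v ≠ 0)
  have hIcard : Nat.card {g : G // orderOf g = 2 ∧ g ∉ Subgroup.center G} = I.card := by
    rw [Nat.card_eq_fintype_card, Fintype.card_subtype]
  have hFx : ∀ t ∈ I, (Fx t).card = q ^ r - 1 := by
    intro t ht
    obtain ⟨ht2, htc⟩ := (Finset.mem_filter.mp ht).2
    have h1 : (Finset.univ.filter (fun v : V => ρ t v = v)).card = q ^ r := by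
      rw [← hceq t ht2 htc]
      show _ = Nat.card (C t)
      rw [Nat.card_eq_fintype_card, ← Fintype.card_subtype]
      apply Fintype.card_congr
      exact Equiv.subtypeEquivRight (fun v => (hC t v).symm)
    have h2 : Fx t = (Finset.univ.filter (fun v : V => ρ t v = v)).erase 0 := by
      ext v
      simp only [Fx, Finset.mem_filter, Finset.mem_univ, true_and, Finset.mem_erase]
      tauto
    rw [h2, Finset.card_erase_of_mem (by simp), h1]
  have hNZ : (Finset.univ.filter (fun v : V => v ≠ 0)) = I.biUnion Fx := by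
    ext v
    simp only [Finset.mem_filter, Finset.mem_univ, true_and, Finset.mem_biUnion, I, Fx]
    constructor
    · intro hv
      obtain ⟨t, ht1, htv⟩ := hex v hv
      exact ⟨t, hinvol v hv t ht1 htv, htv, hv⟩
    · rintro ⟨t, -, -, hv⟩
      exact hv
  have hdisj : ∀ x ∈ I, ∀ y ∈ I, x ≠ y → Disjoint (Fx x) (Fx y) := by
    intro x hx y hy hxy
    rw [Finset.disjoint_left]
    intro v hvx hvy
    simp only [Fx, Finset.mem_filter, Finset.mem_univ, true_and] at hvx hvy
    have hx2 := (Finset.mem_filter.mp hx).2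
    have hy2 := (Finset.mem_filter.mp hy).2
    exact hxy (huniq v hvx.2 x y (hI1 x hx2.1) (hI1 y hy2.1) hvx.1 hvy.1)
  have hcount : Fintype.card V - 1 = I.card * (q ^ r - 1) := by
    have h1 : (Finset.univ.filter (fun v : V => v ≠ 0)).card = Fintype.card V - 1 := by
      rw [Finset.filter_ne' Finset.univ (0 : V), Finset.card_erase_of_mem (Finset.mem_univ _),
        Finset.card_univ]
    rw [← h1, hNZ, Finset.card_biUnion hdisj, Finset.sum_congr rfl hFx, Finset.sum_const,
      smul_eq_mul]
  rw [hIcard]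
  rw [Nat.card_eq_fintype_card] at hVc
  have hq : 2 ≤ q := (Fact.out : q.Prime).two_le
  have hr0 : 2 ≤ q ^ r := by
    -- the fixed space of t₀ contains a nonzero vector
    by_contra h
    have h1 : q ^ r = 1 := by
      have : 0 < q ^ r := Nat.pow_pos (by omega)
      omega
    have h2 : c t₀ = 1 := by rw [hc0]; exact h1
    have h3 := (Nat.card_eq_one_iff_unique.mp h2).1
    have h4 : (⟨v₁, (hC t₀ v₁).mpr ht₀v⟩ : C t₀) = ⟨0, (C t₀).zero_mem⟩ := Subsingleton.elim _ _
    exact hv₁ (congrArg Subtype.val h4)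
  have hfin : I.card * (q ^ r - 1) = (q ^ r + 1) * (q ^ r - 1) := by
    rw [← hcount, hVc, two_mul, pow_add]
    have : q ^ r * q ^ r - 1 = (q ^ r + 1) * (q ^ r - 1) := by
      zify [show 1 ≤ q ^ r by omega, show 1 ≤ q ^ r * q ^ r by nlinarith]
      ring
    exact this
  exact Nat.eq_of_mul_eq_mul_right (by omega) hfin

end Cfsg.Agent.S3381
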