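import Mathlib
import Cfsg.Statements.S3382

set_option autoImplicit false
open Cfsg

namespace Cfsg.Agent.S3382

section abstract

variable {Γ : Type*} [Group Γ]

theorem fix_of_delta (α : MulAut Γ) (r : ℕ) (hr : Odd r) (hα : α ^ r = 1) (x : Γ)
    (hδ : α (α x * x⁻¹) = α x * x⁻¹) (K : ℕ) (hK : (α x * x⁻¹) ^ (2 ^ K) = 1) : α x = x := by
  obtain ⟨δ, hδd⟩ : ∃ δ, δ = α x * x⁻¹ := ⟨_, rfl⟩
  rw [← hδd] at hδ hK
  have hαx : α x = δ * x := by rw [hδd]; group
  have key : ∀ j : ℕ, (α ^ j) x = δ ^ j * x := by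
    intro j
    induction j with
    | zero => simp
    | succ j ih =>
      rw [pow_succ', MulAut.mul_apply, ih, map_mul, map_pow, hδ, hαx, pow_succ, mul_assoc]
  have h1 : δ ^ r = 1 := by
    have h := key r
    rw [hα, MulAut.one_apply] at h
    exact mul_right_cancel (b := x) (by rw [one_mul]; exact h.symm)
  have h2 : orderOf δ ∣ r := orderOf_dvd_of_pow_eq_one h1
  have h3 : orderOf δ ∣ 2 ^ K := orderOf_dvd_of_pow_eq_one hK
  have hcop : Nat.Coprime (2 ^ K) r := (Nat.coprime_two_left.2 hr).pow_left K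
  have h4 : orderOf δ ∣ Nat.gcd (2 ^ K) r := Nat.dvd_gcd h3 h2
  have h5 : Nat.gcd (2 ^ K) r = 1 := hcop
  rw [h5] at h4
  have h6 : δ = 1 := orderOf_eq_one_iff.1 (Nat.dvd_one.1 h4)
  rw [hαx, h6, one_mul]

theorem no_swap (α : MulAut Γ) (r : ℕ) (hr : Odd r) (hα : α ^ r = 1) (x y : Γ)
    (hxy : α x = y) (hyx : α y = x) : x = y := by
  obtain ⟨j, rfl⟩ := hr
  have key : ∀ i : ℕ, (α ^ (2 * i)) x = x := by
    intro i
    induction i with
    | zero => simp
    | succ i ih =>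
      rw [show 2 * (i + 1) = 2 * i + 1 + 1 by ring, pow_succ, pow_succ, MulAut.mul_apply,
        MulAut.mul_apply, hxy, hyx, ih]
  have h2 : (α ^ (2 * j + 1)) x = y := by
    rw [pow_succ', MulAut.mul_apply, key j, hxy]
  have h3 : (α ^ (2 * j + 1)) x = x := by rw [hα]; rfl
  exact h3.symm.trans h2

theorem pair_fixed (α : MulAut Γ) (r : ℕ) (hr : Odd r) (hα : α ^ r = 1) (P : Γ → Prop)
    (hP : ∀ g, P g → P (α g)) (p₁ p₂ : Γ) (h₁ : P p₁) (h₂ : P p₂)
    (hcl : ∀ g, P g → g = p₁ ∨ g = p₂) : α p₁ = p₁ ∧ α p₂ = p₂ := by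
  rcases hcl _ (hP _ h₁) with e1 | e1 <;> rcases hcl _ (hP _ h₂) with e2 | e2
  · have h : p₁ = p₂ := α.injective (e1.trans e2.symm)
    exact ⟨e1, e2.trans h⟩
  · exact ⟨e1, e2⟩
  · have h : p₁ = p₂ := no_swap α r hr hα p₁ p₂ e1 e2
    exact ⟨e1.trans h.symm, e2.trans h⟩
  · have h : p₁ = p₂ := α.injective (e1.trans e2.symm)
    exact ⟨e1.trans h.symm, e2⟩

theorem coset_fixed (α : MulAut Γ) (r : ℕ) (hr : Odd r) (hα : α ^ r = 1) (H : Set Γ)
    (hfix : ∀ h ∈ H, α h = h) (h2 : ∀ h ∈ H, ∃ K : ℕ, h ^ (2 ^ K) = 1)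
    (hidx : ∀ x y, x ∉ H → y ∉ H → y * x⁻¹ ∈ H) : ∀ x, α x = x := by
  intro x
  by_cases hx : x ∈ H
  · exact hfix x hx
  · have hαx : α x ∉ H := by
      intro hmem
      have h1 := hfix _ hmem
      have h2' : α x = x := α.injective h1
      rw [h2'] at hmem
      exact hx hmem
    have hδ := hidx x (α x) hx hαx
    obtain ⟨K, hK⟩ := h2 _ hδ
    exact fix_of_delta α r hr hα x (hfix _ hδ) K hK

theorem main_abs (D : Subgroup Γ)
    (hcomm : ∀ x ∈ D, ∀ y ∈ D, x * y = y * x)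
    (hsq : ∀ w, w ∉ D → ∀ g, w * w * g = g * (w * w))
    (h₀ : Γ) (g₁ : Γ) (hh₀n : h₀ * h₀ * g₁ ≠ g₁ * (h₀ * h₀))
    (hh₀w : ∀ w, w ∉ D → w * h₀ ≠ h₀ * w)
    (z e₁ e₂ : Γ) (hz : ∀ g, z * g = g * z) (he₁ : ∃ g, e₁ * g ≠ g * e₁)
    (he₂ : ∃ g, e₂ * g ≠ g * e₂)
    (he₁D : e₁ ∈ D) (he₂D : e₂ ∈ D) (he₁2 : e₁ * e₁ = 1) (he₂2 : e₂ * e₂ = 1)
    (hΩ : ∀ g ∈ D, g * g = 1 → g = 1 ∨ g = z ∨ g = e₁ ∨ g = e₂)
    (h2 : ∀ g ∈ D, ∃ K : ℕ, g ^ (2 ^ K) = 1)
    (hidx : ∀ x y, x ∉ D → y ∉ D → y * x⁻¹ ∈ D)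
    (α : MulAut Γ) (r : ℕ) (hr : Odd r) (hα : α ^ r = 1) : ∀ x, α x = x := by
  -- Step 1: α preserves D
  have hD : ∀ g, g ∈ D → α g ∈ D := by
    intro g hg
    by_contra hn
    have h1 := hh₀w _ hn
    have h2' : α.symm h₀ ∈ D := by
      by_contra hn2
      have h := hsq _ hn2 (α.symm g₁)
      apply hh₀n
      have h' := congrArg α h
      simpa [map_mul] using h'
    have h3 := hcomm g hg _ h2'
    apply h1
    have h' := congrArg α h3
    simpa [map_mul] using h'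
  have hcen : ∀ c, (∀ g, c * g = g * c) → ∀ g, α c * g = g * α c := by
    intro c hc g
    have h' := congrArg α (hc (α.symm g))
    simpa [map_mul] using h'
  have hncen : ∀ c, (∃ g, c * g ≠ g * c) → ∃ g, α c * g ≠ g * α c := by
    rintro c ⟨g, hg⟩
    refine ⟨α g, fun h => hg (α.injective ?_)⟩
    simpa [map_mul] using h
  have hsqα : ∀ g, g * g = 1 → α g * α g = 1 := by
    intro g hg
    rw [← map_mul, hg, map_one]
  -- e₁, e₂ fixed
  have hpair := pair_fixed α r hr hα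
    (fun g => g ∈ D ∧ g * g = 1 ∧ ∃ g', g * g' ≠ g' * g)
    (fun g hg => ⟨hD g hg.1, hsqα g hg.2.1, hncen g hg.2.2⟩) e₁ e₂
    ⟨he₁D, he₁2, he₁⟩ ⟨he₂D, he₂2, he₂⟩
    (by
      rintro g ⟨hgD, hg2, g', hg'⟩
      rcases hΩ g hgD hg2 with rfl | rfl | rfl | rfl
      · exact absurd (by rw [one_mul, mul_one]) hg'
      · exact absurd (hz g') hg'
      · exact Or.inl rfl
      · exact Or.inr rfl)
  -- z fixed (when relevant)
  have hzfix : z ∈ D → z * z = 1 → α z = z := by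
    intro hzD hz2
    rcases hΩ (α z) (hD z hzD) (hsqα z hz2) with h | h | h | h
    · have : z = 1 := α.injective (h.trans (map_one α).symm)
      rw [this, map_one]
    · exact h
    · exfalso
      obtain ⟨g, hg⟩ := he₁
      apply hg
      rw [← h]; exact hcen z hz g
    · exfalso
      obtain ⟨g, hg⟩ := he₂
      apply hg
      rw [← h]; exact hcen z hz g
  -- Step 3
  have step3 : ∀ K : ℕ, ∀ g ∈ D, g ^ (2 ^ K) = 1 → α g = g := by
    intro K
    induction K with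
    | zero =>
      intro g _ hg
      rw [pow_zero, pow_one] at hg
      rw [hg, map_one]
    | succ K ih =>
      intro g hg hg2
      have hgg : (g * g) ^ (2 ^ K) = 1 := by
        rw [← pow_two, ← pow_mul, ← pow_succ']; exact hg2
      have hfixgg := ih (g * g) (D.mul_mem hg hg) hgg
      have hδD : α g * g⁻¹ ∈ D := D.mul_mem (hD g hg) (D.inv_mem hg)
      have hc := hcomm (g⁻¹) (D.inv_mem hg) (α g) (hD g hg)
      have hδ2 : α g * g⁻¹ * (α g * g⁻¹) = 1 := by
        calc α g * g⁻¹ * (α g * g⁻¹) = α g * (g⁻¹ * α g) * g⁻¹ := by group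
          _ = α g * (α g * g⁻¹) * g⁻¹ := by rw [hc]
          _ = α (g * g) * (g * g)⁻¹ := by rw [map_mul]; group
          _ = 1 := by rw [hfixgg, mul_inv_cancel]
      have hδfix : α (α g * g⁻¹) = α g * g⁻¹ := by
        rcases hΩ _ hδD hδ2 with h | h | h | h
        · rw [h, map_one]
        · rw [h]; rw [h] at hδD hδ2; exact hzfix hδD hδ2
        · rw [h]; exact hpair.1
        · rw [h]; exact hpair.2
      exact fix_of_delta α r hr hα g hδfix 1 (by rw [pow_one, pow_two]; exact hδ2)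
  exact coset_fixed α r hr hα (D : Set Γ)
    (fun h hh => by obtain ⟨K, hK⟩ := h2 h hh; exact step3 K h hh hK) h2 hidx

end abstract

section concrete

/-- the ambient group of linear automorphisms of the plane -/
abbrev E (K : Type*) [Field K] := (Fin 2 → K) ≃ₗ[K] (Fin 2 → K)

variable {K : Type*} [Field K]

/-- diagonal shape -/
abbrev IsD (f : E K) (a b : K) : Prop := ∀ v, f v = ![a * v 0, b * v 1]

/-- antidiagonal shape -/
abbrev IsW (f : E K) (a b : K) : Prop := ∀ v, f v = ![a * v 1, b * v 0]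

theorem isD_mul_isD {f g : E K} {a b c d : K} (hf : IsD f a b) (hg : IsD g c d) :
    IsD (f * g) (a * c) (b * d) := by
  intro v
  show f (g v) = _
  rw [hf (g v), hg v]
  simp [mul_assoc]

theorem isD_mul_isW {f g : E K} {a b c d : K} (hf : IsD f a b) (hg : IsW g c d) :
    IsW (f * g) (a * c) (b * d) := by
  intro v
  show f (g v) = _
  rw [hf (g v), hg v]
  simp [mul_assoc]

theorem isW_mul_isD {f g : E K} {a b c d : K} (hf : IsW f a b) (hg : IsD g c d) :
    IsW (f * g) (a * d) (b * c) := by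
  intro v
  show f (g v) = _
  rw [hf (g v), hg v]
  simp [mul_assoc]

theorem isW_mul_isW {f g : E K} {a b c d : K} (hf : IsW f a b) (hg : IsW g c d) :
    IsD (f * g) (a * d) (b * c) := by
  intro v
  show f (g v) = _
  rw [hf (g v), hg v]
  simp [mul_assoc]

theorem isD_ext {f g : E K} {a b : K} (hf : IsD f a b) (hg : IsD g a b) : f = g :=
  LinearEquiv.ext fun v => (hf v).trans (hg v).symm

theorem isW_ext {f g : E K} {a b : K} (hf : IsW f a b) (hg : IsW g a b) : f = g :=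
  LinearEquiv.ext fun v => (hf v).trans (hg v).symm

theorem isD_congr {f : E K} {a b a' b' : K} (hf : IsD f a b) (ha : a = a') (hb : b = b') :
    IsD f a' b' := by
  rw [← ha, ← hb]; exact hf

theorem isW_congr {f : E K} {a b a' b' : K} (hf : IsW f a b) (ha : a = a') (hb : b = b') :
    IsW f a' b' := by
  rw [← ha, ← hb]; exact hf

theorem isD_params {f : E K} {a b c d : K} (h1 : IsD f a b) (h2 : IsD f c d) :
    a = c ∧ b = d := by
  have E1 := (h1 ![1, 0]).symm.trans (h2 ![1, 0])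
  have E2 := (h1 ![0, 1]).symm.trans (h2 ![0, 1])
  have e1 : a = c := by simpa using congrFun E1 0
  have e2 : b = d := by simpa using congrFun E2 1
  exact ⟨e1, e2⟩

theorem isW_params {f : E K} {a b c d : K} (h1 : IsW f a b) (h2 : IsW f c d) :
    a = c ∧ b = d := by
  have E1 := (h1 ![1, 0]).symm.trans (h2 ![1, 0])
  have E2 := (h1 ![0, 1]).symm.trans (h2 ![0, 1])
  have e1 : a = c := by simpa using congrFun E2 0
  have e2 : b = d := by simpa using congrFun E1 1
  exact ⟨e1, e2⟩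

theorem isD_isW_zero {f : E K} {a b c d : K} (h1 : IsD f a b) (h2 : IsW f c d) :
    a = 0 ∧ b = 0 := by
  have E1 := (h1 ![1, 0]).symm.trans (h2 ![1, 0])
  have E2 := (h1 ![0, 1]).symm.trans (h2 ![0, 1])
  have e1 : a = 0 := by simpa using congrFun E1 0
  have e4 : b = 0 := by simpa using congrFun E2 1
  exact ⟨e1, e4⟩

theorem isD_one : IsD (1 : E K) 1 1 := by
  intro v
  funext i
  show v i = ![1 * v 0, 1 * v 1] i
  fin_cases i <;> simp

theorem exists_isD (a b : K) (ha : a ≠ 0) (hb : b ≠ 0) : ∃ f : E K, IsD f a b := by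
  refine ⟨LinearEquiv.ofLinearMap
    { toFun := fun v => ![a * v 0, b * v 1]
      map_add' := fun u v => by
        funext i; fin_cases i <;> simp [mul_add]
      map_smul' := fun c v => by
        funext i; fin_cases i <;> simp [mul_left_comm] }
    { toFun := fun v => ![a⁻¹ * v 0, b⁻¹ * v 1]
      map_add' := fun u v => by
        funext i; fin_cases i <;> simp [mul_add]
      map_smul' := fun c v => by
        funext i; fin_cases i <;> simp [mul_left_comm] }
    (LinearMap.ext fun v => funext fun i => by fin_cases i <;> simp [ha, hb])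
    (LinearMap.ext fun v => funext fun i => by fin_cases i <;> simp [ha, hb]), fun v => rfl⟩

theorem exists_isW (a b : K) (ha : a ≠ 0) (hb : b ≠ 0) : ∃ f : E K, IsW f a b := by
  refine ⟨LinearEquiv.ofLinearMap
    { toFun := fun v => ![a * v 1, b * v 0]
      map_add' := fun u v => by
        funext i; fin_cases i <;> simp [mul_add]
      map_smul' := fun c v => by
        funext i; fin_cases i <;> simp [mul_left_comm] }
    { toFun := fun v => ![b⁻¹ * v 1, a⁻¹ * v 0]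
      map_add' := fun u v => by
        funext i; fin_cases i <;> simp [mul_add]
      map_smul' := fun c v => by
        funext i; fin_cases i <;> simp [mul_left_comm] }
    (LinearMap.ext fun v => funext fun i => by fin_cases i <;> simp [ha, hb])
    (LinearMap.ext fun v => funext fun i => by fin_cases i <;> simp [ha, hb]), fun v => rfl⟩

theorem nz_of_prod (a b : K) (h : a * b = 1 ∨ a * b = -1) : a ≠ 0 ∧ b ≠ 0 := by
  constructor
  · rintro rfl; simp at h
  · rintro rfl; simp at h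

/-- the specification of the subgroup `T` -/
def TSpec (T : Subgroup (E K)) : Prop :=
  ∀ f, f ∈ T ↔ (∃ a b : K, (a * b = 1 ∨ a * b = -1) ∧ IsD f a b) ∨
    (∃ a b : K, (a * b = 1 ∨ a * b = -1) ∧ IsW f a b)

theorem T_shape (T : Subgroup (E K)) (hT : TSpec T) (x : T) :
    (∃ a b : K, (a * b = 1 ∨ a * b = -1) ∧ IsD (x : E K) a b) ∨
    (∃ a b : K, (a * b = 1 ∨ a * b = -1) ∧ IsW (x : E K) a b) := (hT x.1).1 x.2

theorem T_exD (T : Subgroup (E K)) (hT : TSpec T) (a b : K) (hab : a * b = 1 ∨ a * b = -1) :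
    ∃ x : T, IsD (x : E K) a b := by
  obtain ⟨f, hf⟩ := exists_isD a b (nz_of_prod a b hab).1 (nz_of_prod a b hab).2
  exact ⟨⟨f, (hT f).2 (Or.inl ⟨a, b, hab, hf⟩)⟩, hf⟩

theorem T_exW (T : Subgroup (E K)) (hT : TSpec T) (a b : K) (hab : a * b = 1 ∨ a * b = -1) :
    ∃ x : T, IsW (x : E K) a b := by
  obtain ⟨f, hf⟩ := exists_isW a b (nz_of_prod a b hab).1 (nz_of_prod a b hab).2
  exact ⟨⟨f, (hT f).2 (Or.inr ⟨a, b, hab, hf⟩)⟩, hf⟩

theorem T_D_params (T : Subgroup (E K)) (hT : TSpec T) (x : T) {a b : K}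
    (h : IsD (x : E K) a b) : a * b = 1 ∨ a * b = -1 := by
  rcases T_shape T hT x with ⟨c, d, hcd, h'⟩ | ⟨c, d, hcd, h'⟩
  · obtain ⟨e1, e2⟩ := isD_params h h'
    rw [e1, e2]; exact hcd
  · exfalso
    obtain ⟨e1, e2⟩ := isD_isW_zero h h'
    -- a = 0, b = 0, so x maps everything to 0, contradiction with injectivity
    have h1 := h ![1, 0]
    have h0 := h ![0, 0]
    have : (x : E K) ![1, 0] = (x : E K) ![0, 0] := by
      rw [h1, h0, e1, e2]; simp
    have h2 := (x : E K).injective this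
    have h3 := congrFun h2 0
    simp at h3

theorem T_W_params (T : Subgroup (E K)) (hT : TSpec T) (x : T) {a b : K}
    (h : IsW (x : E K) a b) : a * b = 1 ∨ a * b = -1 := by
  rcases T_shape T hT x with ⟨c, d, hcd, h'⟩ | ⟨c, d, hcd, h'⟩
  · exfalso
    obtain ⟨e1, e2⟩ := isD_isW_zero h' h
    exact (nz_of_prod c d hcd).1 e1
  · obtain ⟨e1, e2⟩ := isW_params h h'
    rw [e1, e2]; exact hcd

/-- the diagonal subgroup -/
def DT (T : Subgroup (E K)) (hT : TSpec T) : Subgroup T where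
  carrier := {x | ∃ a b : K, IsD (x : E K) a b}
  mul_mem' := by
    rintro x y ⟨a, b, hx⟩ ⟨c, d, hy⟩
    exact ⟨a * c, b * d, isD_mul_isD hx hy⟩
  one_mem' := ⟨1, 1, isD_one⟩
  inv_mem' := by
    rintro x ⟨a, b, hx⟩
    rcases T_shape T hT x⁻¹ with ⟨c, d, -, h⟩ | ⟨c, d, hcd, h⟩
    · exact ⟨c, d, h⟩
    · exfalso
      have h1 : IsW ((x * x⁻¹ : T) : E K) (a * c) (b * d) := isD_mul_isW hx h
      rw [mul_inv_cancel] at h1
      have h2 := (isD_isW_zero (isD_one (K := K)) h1).1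
      exact one_ne_zero h2

theorem mem_DT (T : Subgroup (E K)) (hT : TSpec T) (x : T) :
    x ∈ DT T hT ↔ ∃ a b : K, IsD (x : E K) a b := Iff.rfl

theorem not_mem_DT (T : Subgroup (E K)) (hT : TSpec T) (x : T) (hx : x ∉ DT T hT) :
    ∃ a b : K, (a * b = 1 ∨ a * b = -1) ∧ IsW (x : E K) a b := by
  rcases T_shape T hT x with ⟨c, d, -, h'⟩ | h'
  · exact absurd ⟨c, d, h'⟩ hx
  · exact h'

theorem comm_D (T : Subgroup (E K)) (hT : TSpec T) :
    ∀ x ∈ DT T hT, ∀ y ∈ DT T hT, x * y = y * x := by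
  rintro x ⟨a, b, hx⟩ y ⟨c, d, hy⟩
  apply Subtype.ext
  exact isD_ext (isD_mul_isD hx hy) (isD_congr (isD_mul_isD hy hx) (mul_comm _ _) (mul_comm _ _))

theorem scalar_central (T : Subgroup (E K)) (hT : TSpec T) (x : T) (s : K)
    (h : IsD (x : E K) s s) (g : T) : x * g = g * x := by
  apply Subtype.ext
  rcases T_shape T hT g with ⟨c, d, -, h'⟩ | ⟨c, d, -, h'⟩
  · exact isD_ext (isD_mul_isD h h')
      (isD_congr (isD_mul_isD h' h) (mul_comm _ _) (mul_comm _ _))
  · exact isW_ext (isD_mul_isW h h')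
      (isW_congr (isW_mul_isD h' h) (mul_comm _ _) (mul_comm _ _))

theorem sq_central (T : Subgroup (E K)) (hT : TSpec T) :
    ∀ w, w ∉ DT T hT → ∀ g, w * w * g = g * (w * w) := by
  intro w hw g
  obtain ⟨a, b, -, hwW⟩ := not_mem_DT T hT w hw
  have h1 : IsD ((w * w : T) : E K) (a * b) (a * b) :=
    isD_congr (isW_mul_isW hwW hwW) rfl (mul_comm _ _)
  exact scalar_central T hT (w * w) (a * b) h1 g

theorem isD_pow_T (T : Subgroup (E K)) (x : T) {a b : K} (h : IsD (x : E K) a b) (n : ℕ) :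
    IsD ((x ^ n : T) : E K) (a ^ n) (b ^ n) := by
  induction n with
  | zero =>
    rw [pow_zero, pow_zero, pow_zero]
    exact isD_one
  | succ n ih =>
    rw [pow_succ, pow_succ, pow_succ]
    exact isD_mul_isD ih h

theorem pow_two_pow (T : Subgroup (E K)) (hT : TSpec T) (m : ℕ)
    (hm : ∀ a : K, a ≠ 0 → a ^ (2 ^ m) = 1) (x : T) (hx : x ∈ DT T hT) : x ^ (2 ^ m) = 1 := by
  obtain ⟨a, b, h⟩ := hx
  have hab := nz_of_prod a b (T_D_params T hT x h)
  apply Subtype.ext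
  exact isD_ext (isD_congr (isD_pow_T T x h (2 ^ m)) (hm a hab.1) (hm b hab.2)) isD_one

theorem all_pow (T : Subgroup (E K)) (hT : TSpec T) (m : ℕ)
    (hm : ∀ a : K, a ≠ 0 → a ^ (2 ^ m) = 1) (x : T) : x ^ (2 ^ (m + 1)) = 1 := by
  have h1 : (x * x) ^ (2 ^ m) = 1 := by
    apply pow_two_pow T hT m hm
    rcases T_shape T hT x with ⟨c, d, -, h'⟩ | ⟨c, d, -, h'⟩
    · exact ⟨_, _, isD_mul_isD h' h'⟩
    · exact ⟨_, _, isW_mul_isW h' h'⟩
  rw [pow_succ', pow_mul, pow_two]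
  exact h1

theorem hidx_D (T : Subgroup (E K)) (hT : TSpec T) :
    ∀ x y, x ∉ DT T hT → y ∉ DT T hT → y * x⁻¹ ∈ DT T hT := by
  intro x y hx hy
  have hxi : x⁻¹ ∉ DT T hT := fun h => hx (by simpa using (DT T hT).inv_mem h)
  obtain ⟨a, b, -, h1⟩ := not_mem_DT T hT y hy
  obtain ⟨c, d, -, h2⟩ := not_mem_DT T hT x⁻¹ hxi
  exact ⟨_, _, isW_mul_isW h1 h2⟩

theorem main_case (T : Subgroup (E K)) (hT : TSpec T) (m : ℕ)
    (hm : ∀ a : K, a ≠ 0 → a ^ (2 ^ m) = 1) (h2 : (1 : K) ≠ -1) (h3 : (2 : K)⁻¹ ≠ 2)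
    (h15 : (2 : K) * 2 ≠ 2⁻¹ * 2⁻¹) (h20 : (2 : K) ≠ 0)
    (α : MulAut T) (r : ℕ) (hr : Odd r) (hα : α ^ r = 1) : ∀ x, α x = x := by
  obtain ⟨h₀, hh₀⟩ := T_exD T hT 2 2⁻¹ (Or.inl (mul_inv_cancel₀ h20))
  obtain ⟨g₁, hg₁⟩ := T_exW T hT 1 1 (Or.inl (mul_one 1))
  obtain ⟨z, hz⟩ := T_exD T hT (-1) (-1) (Or.inl (by ring))
  obtain ⟨e₁, he₁⟩ := T_exD T hT 1 (-1) (Or.inr (by ring))
  obtain ⟨e₂, he₂⟩ := T_exD T hT (-1) 1 (Or.inr (by ring))
  refine main_abs (DT T hT) (comm_D T hT) (sq_central T hT) h₀ g₁ ?_ ?_ z e₁ e₂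
    (scalar_central T hT z (-1) hz) ⟨g₁, ?_⟩ ⟨g₁, ?_⟩ ⟨_, _, he₁⟩ ⟨_, _, he₂⟩ ?_ ?_ ?_
    (fun g hg => ⟨m, pow_two_pow T hT m hm g hg⟩) (hidx_D T hT) α r hr hα
  · intro h
    have h1 : IsW ((h₀ * h₀ * g₁ : T) : E K) (2 * 2 * 1) (2⁻¹ * 2⁻¹ * 1) :=
      isD_mul_isW (isD_mul_isD hh₀ hh₀) hg₁
    have h2' : IsW ((g₁ * (h₀ * h₀) : T) : E K) (1 * (2⁻¹ * 2⁻¹)) (1 * (2 * 2)) :=
      isW_mul_isD hg₁ (isD_mul_isD hh₀ hh₀)
    rw [h] at h1
    have e := (isW_params h1 h2').1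
    apply h15
    rw [mul_one, one_mul] at e
    exact e
  · intro w hw h
    obtain ⟨a, b, hab, hwW⟩ := not_mem_DT T hT w hw
    have h1 : IsW ((w * h₀ : T) : E K) (a * 2⁻¹) (b * 2) := isW_mul_isD hwW hh₀
    have h2' : IsW ((h₀ * w : T) : E K) (2 * a) (2⁻¹ * b) := isD_mul_isW hh₀ hwW
    rw [h] at h1
    have e := (isW_params h1 h2').1
    have ha : a ≠ 0 := (nz_of_prod a b hab).1
    apply h3
    have e' : a * 2⁻¹ = a * 2 := by rw [e, mul_comm]
    exact mul_left_cancel₀ ha e'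
  · intro h
    have h1 : IsW ((e₁ * g₁ : T) : E K) (1 * 1) (-1 * 1) := isD_mul_isW he₁ hg₁
    have h2' : IsW ((g₁ * e₁ : T) : E K) (1 * (-1)) (1 * 1) := isW_mul_isD hg₁ he₁
    rw [h] at h1
    have e := (isW_params h1 h2').1
    apply h2
    rw [mul_one, one_mul] at e
    exact e
  · intro h
    have h1 : IsW ((e₂ * g₁ : T) : E K) (-1 * 1) (1 * 1) := isD_mul_isW he₂ hg₁
    have h2' : IsW ((g₁ * e₂ : T) : E K) (1 * 1) (1 * (-1)) := isW_mul_isD hg₁ he₂
    rw [h] at h1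
    have e := (isW_params h1 h2').1
    apply h2
    rw [mul_one, mul_one] at e
    exact e.symm
  · apply Subtype.ext
    exact isD_ext (isD_congr (isD_mul_isD he₁ he₁) (by ring) (by ring)) isD_one
  · apply Subtype.ext
    exact isD_ext (isD_congr (isD_mul_isD he₂ he₂) (by ring) (by ring)) isD_one
  · rintro g ⟨a, b, hg⟩ hgg
    have h1 : IsD ((g * g : T) : E K) (a * a) (b * b) := isD_mul_isD hg hg
    rw [hgg] at h1
    obtain ⟨ea, eb⟩ := isD_params h1 isD_one
    rcases mul_self_eq_one_iff.1 ea with ha | ha <;> rcases mul_self_eq_one_iff.1 eb with hb | hb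
    · left; exact Subtype.ext (isD_ext (isD_congr hg ha hb) isD_one)
    · right; right; left; exact Subtype.ext (isD_ext (isD_congr hg ha hb) he₁)
    · right; right; right; exact Subtype.ext (isD_ext (isD_congr hg ha hb) he₂)
    · right; left; exact Subtype.ext (isD_ext (isD_congr hg ha hb) hz)

/-- the "determinant one" part -/
def S1 (T : Subgroup (E K)) : Set T :=
  {x | (∃ a b : K, a * b = 1 ∧ IsD (x : E K) a b) ∨ (∃ a b : K, a * b = -1 ∧ IsW (x : E K) a b)}

theorem not_S1 (T : Subgroup (E K)) (hT : TSpec T) (x : T) (hx : x ∉ S1 T) :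
    (∃ a b : K, a * b = -1 ∧ IsD (x : E K) a b) ∨ (∃ a b : K, a * b = 1 ∧ IsW (x : E K) a b) := by
  rcases T_shape T hT x with ⟨a, b, hab, h⟩ | ⟨a, b, hab, h⟩
  · rcases hab with hab | hab
    · exact absurd (Or.inl ⟨a, b, hab, h⟩) hx
    · exact Or.inl ⟨a, b, hab, h⟩
  · rcases hab with hab | hab
    · exact Or.inr ⟨a, b, hab, h⟩
    · exact absurd (Or.inr ⟨a, b, hab, h⟩) hx

theorem inv_not_S1 (T : Subgroup (E K)) (hT : TSpec T) (x : T)
    (hx : (∃ a b : K, a * b = -1 ∧ IsD (x : E K) a b) ∨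
      (∃ a b : K, a * b = 1 ∧ IsW (x : E K) a b)) :
    (∃ a b : K, a * b = -1 ∧ IsD ((x⁻¹ : T) : E K) a b) ∨
      (∃ a b : K, a * b = 1 ∧ IsW ((x⁻¹ : T) : E K) a b) := by
  rcases hx with ⟨a, b, hab, h⟩ | ⟨a, b, hab, h⟩
  · rcases T_shape T hT x⁻¹ with ⟨c, d, -, h'⟩ | ⟨c, d, -, h'⟩
    · left
      refine ⟨c, d, ?_, h'⟩
      have h1 : IsD ((x * x⁻¹ : T) : E K) (a * c) (b * d) := isD_mul_isD h h'
      rw [mul_inv_cancel] at h1
      obtain ⟨e1, e2⟩ := isD_params h1 isD_one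
      have e3 : a * b * (c * d) = 1 := by
        rw [mul_mul_mul_comm, e1, e2, mul_one]
      rw [hab] at e3
      linear_combination (-1 : K) * e3
    · exfalso
      have h1 : IsW ((x * x⁻¹ : T) : E K) (a * c) (b * d) := isD_mul_isW h h'
      rw [mul_inv_cancel] at h1
      exact one_ne_zero (isD_isW_zero (isD_one (K := K)) h1).1
  · rcases T_shape T hT x⁻¹ with ⟨c, d, -, h'⟩ | ⟨c, d, -, h'⟩
    · exfalso
      have h1 : IsW ((x * x⁻¹ : T) : E K) (a * d) (b * c) := isW_mul_isD h h'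
      rw [mul_inv_cancel] at h1
      exact one_ne_zero (isD_isW_zero (isD_one (K := K)) h1).1
    · right
      refine ⟨c, d, ?_, h'⟩
      have h1 : IsD ((x * x⁻¹ : T) : E K) (a * d) (b * c) := isW_mul_isW h h'
      rw [mul_inv_cancel] at h1
      obtain ⟨e1, e2⟩ := isD_params h1 isD_one
      have e3 : a * b * (c * d) = 1 := by
        rw [show a * b * (c * d) = a * d * (b * c) by ring, e1, e2, mul_one]
      rw [hab, one_mul] at e3
      exact e3

theorem hidx_S1 (T : Subgroup (E K)) (hT : TSpec T) :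
    ∀ x y, x ∉ S1 T → y ∉ S1 T → y * x⁻¹ ∈ S1 T := by
  intro x y hx hy
  have hxi := inv_not_S1 T hT x (not_S1 T hT x hx)
  have hy' := not_S1 T hT y hy
  rcases hy' with ⟨a, b, hab, h⟩ | ⟨a, b, hab, h⟩ <;>
    rcases hxi with ⟨c, d, hcd, h'⟩ | ⟨c, d, hcd, h'⟩
  · left
    refine ⟨_, _, ?_, isD_mul_isD h h'⟩
    rw [show a * c * (b * d) = a * b * (c * d) by ring, hab, hcd]; ring
  · right
    refine ⟨_, _, ?_, isD_mul_isW h h'⟩
    rw [show a * c * (b * d) = a * b * (c * d) by ring, hab, hcd]; ring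
  · right
    refine ⟨_, _, ?_, isW_mul_isD h h'⟩
    rw [show a * d * (b * c) = a * b * (c * d) by ring, hab, hcd]; ring
  · left
    refine ⟨_, _, ?_, isW_mul_isW h h'⟩
    rw [show a * d * (b * c) = a * b * (c * d) by ring, hab, hcd]; ring

theorem case_three (T : Subgroup (E K)) (hT : TSpec T)
    (hK3 : ∀ a : K, a ≠ 0 → a = 1 ∨ a = -1) (h2 : (1 : K) ≠ -1)
    (α : MulAut T) (r : ℕ) (hr : Odd r) (hα : α ^ r = 1) : ∀ x, α x = x := by
  obtain ⟨r₁, hr₁⟩ := T_exW T hT (-1) 1 (Or.inr (by ring))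
  obtain ⟨r₂, hr₂⟩ := T_exW T hT 1 (-1) (Or.inr (by ring))
  have hm : ∀ a : K, a ≠ 0 → a ^ (2 ^ 1) = 1 := by
    intro a ha
    rcases hK3 a ha with rfl | rfl <;> simp
  -- classification of elements with det one / W-shape with product -1
  have hW : ∀ g : T, ∀ a b : K, a * b = -1 → IsW (g : E K) a b → g = r₁ ∨ g = r₂ := by
    intro g a b hab h
    have ha := (nz_of_prod a b (Or.inr hab)).1
    rcases hK3 a ha with ha1 | ha1
    · right
      rw [ha1, one_mul] at hab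
      exact Subtype.ext (isW_ext (isW_congr h ha1 hab) hr₂)
    · left
      rw [ha1] at hab
      have hb : b = 1 := by linear_combination (-1 : K) * hab
      exact Subtype.ext (isW_ext (isW_congr h ha1 hb) hr₁)
  have hcl : ∀ g : T, g * g ≠ 1 → g = r₁ ∨ g = r₂ := by
    intro g hg
    rcases T_shape T hT g with ⟨a, b, hab, h⟩ | ⟨a, b, hab, h⟩
    · exfalso
      apply hg
      obtain ⟨ha, hb⟩ := nz_of_prod a b hab
      have haa : a * a = 1 := mul_self_eq_one_iff.2 (hK3 a ha)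
      have hbb : b * b = 1 := mul_self_eq_one_iff.2 (hK3 b hb)
      exact Subtype.ext (isD_ext (isD_congr (isD_mul_isD h h) haa hbb) isD_one)
    · rcases hab with hab | hab
      · exfalso
        apply hg
        exact Subtype.ext (isD_ext (isD_congr (isW_mul_isW h h) hab
          (by rw [mul_comm]; exact hab)) isD_one)
      · exact hW g a b hab h
  have hPr : ∀ g : T, ∀ a b : K, a * b = -1 → IsW (g : E K) a b → g * g ≠ 1 := by
    intro g a b hab h hgg
    have h1 : IsD ((g * g : T) : E K) (a * b) (b * a) := isW_mul_isW h h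
    rw [hgg] at h1
    have e := (isD_params h1 isD_one).1
    rw [hab] at e
    exact h2 e.symm
  have hpair := pair_fixed α r hr hα (fun g => g * g ≠ 1)
    (fun g hg h => hg (by
      have h' : α (g * g) = α 1 := by rw [map_mul, h, map_one]
      exact α.injective h')) r₁ r₂
    (hPr r₁ _ _ (by ring) hr₁) (hPr r₂ _ _ (by ring) hr₂) hcl
  refine coset_fixed α r hr hα (S1 T) ?_ (fun h _ => ⟨2, all_pow T hT 1 hm h⟩) (hidx_S1 T hT)
  rintro x (⟨a, b, hab, h⟩ | ⟨a, b, hab, h⟩)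
  · have ha := (nz_of_prod a b (Or.inl hab)).1
    rcases hK3 a ha with ha1 | ha1
    · rw [ha1, one_mul] at hab
      have : x = 1 := Subtype.ext (isD_ext (isD_congr h ha1 hab) isD_one)
      rw [this, map_one]
    · rw [ha1] at hab
      have hb : b = -1 := by linear_combination (-1 : K) * hab
      have : x = r₁ * r₁ := Subtype.ext (isD_ext (isD_congr h ha1 hb)
        (isD_congr (isW_mul_isW hr₁ hr₁) (by ring) (by ring)))
      rw [this, map_mul, hpair.1]
  · rcases hW x a b hab h with rfl | rfl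
    · exact hpair.1
    · exact hpair.2

theorem case_two (T : Subgroup (E K)) (hT : TSpec T)
    (hK2 : ∀ a : K, a ≠ 0 → a = 1)
    (α : MulAut T) (r : ℕ) (hr : Odd r) (hα : α ^ r = 1) : ∀ x, α x = x := by
  obtain ⟨g₁, hg₁⟩ := T_exW T hT 1 1 (Or.inl (mul_one 1))
  have hcl : ∀ g : T, g = 1 ∨ g = g₁ := by
    intro g
    rcases T_shape T hT g with ⟨a, b, hab, h⟩ | ⟨a, b, hab, h⟩
    · left
      obtain ⟨ha, hb⟩ := nz_of_prod a b hab
      exact Subtype.ext (isD_ext (isD_congr h (hK2 a ha) (hK2 b hb)) isD_one)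
    · right
      obtain ⟨ha, hb⟩ := nz_of_prod a b hab
      exact Subtype.ext (isW_ext (isW_congr h (hK2 a ha) (hK2 b hb)) hg₁)
  refine coset_fixed α r hr hα {1} ?_ ?_ ?_
  · intro h hh
    rw [Set.mem_singleton_iff] at hh
    rw [hh, map_one]
  · intro h hh
    rw [Set.mem_singleton_iff] at hh
    exact ⟨0, by rw [hh, one_pow]⟩
  · intro x y hx hy
    rw [Set.mem_singleton_iff] at hx hy ⊢
    have hx' : x = g₁ := (hcl x).resolve_left hx
    have hy' : y = g₁ := (hcl y).resolve_left hy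
    rw [hx', hy', mul_inv_cancel]

end concrete

theorem convT {q : ℕ} [Fact q.Prime] (T : Subgroup (E (ZMod q)))
    (hT : ∀ f, f ∈ T ↔ ∃ a s : ZMod q, a ≠ 0 ∧ (s = 1 ∨ s = -1) ∧
      ((∀ v, f v = ![a * v 0, s * a⁻¹ * v 1]) ∨ (∀ v, f v = ![s * a⁻¹ * v 1, a * v 0]))) :
    TSpec T := by
  intro f
  rw [hT f]
  constructor
  · rintro ⟨a, s, ha, hs, h | h⟩
    · left
      refine ⟨a, s * a⁻¹, ?_, h⟩
      have e : a * (s * a⁻¹) = s := by field_simp
      rw [e]; exact hs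
    · right
      refine ⟨s * a⁻¹, a, ?_, h⟩
      have e : s * a⁻¹ * a = s := by field_simp
      rw [e]; exact hs
  · rintro (⟨a, b, hab, h⟩ | ⟨a, b, hab, h⟩)
    · have ha : a ≠ 0 := (nz_of_prod a b hab).1
      refine ⟨a, a * b, ha, hab, Or.inl ?_⟩
      have e : a * b * a⁻¹ = b := by field_simp
      intro v; rw [e]; exact h v
    · have hb : b ≠ 0 := (nz_of_prod a b hab).2
      refine ⟨b, a * b, hb, hab, Or.inr ?_⟩
      have e : a * b * b⁻¹ = a := by field_simp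
      intro v; rw [e]; exact h v

theorem zmod2_fact : ∀ a : ZMod 2, a ≠ 0 → a = 1 := by decide

theorem zmod3_fact : ∀ a : ZMod 3, a ≠ 0 → a = 1 ∨ a = -1 := by decide

theorem zmod3_ne : (1 : ZMod 3) ≠ -1 := by decide

theorem natne {q : ℕ} (n : ℕ) (h : ¬ q ∣ n) : ((n : ℕ) : ZMod q) ≠ 0 :=
  fun h0 => h ((ZMod.natCast_eq_zero_iff n q).1 h0)

/-- Let q = 2^m + 1 be a prime other than 5. Then the automorphism group of the group of linear maps of F_q² of the forms (x, y) ↦ (a x, ± a⁻¹ y) and (x, y) ↦ (± a⁻¹ y, a x) with a ≠ 0 is itself a 2-group. -/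
theorem result (q m : ℕ) [Fact q.Prime] (hq : q = 2 ^ m + 1) (hq5 : q ≠ 5)
    (T : Subgroup ((Fin 2 → ZMod q) ≃ₗ[ZMod q] (Fin 2 → ZMod q)))
    (hT : ∀ f, f ∈ T ↔ ∃ a s : ZMod q, a ≠ 0 ∧ (s = 1 ∨ s = -1) ∧
      ((∀ v, f v = ![a * v 0, s * a⁻¹ * v 1]) ∨ (∀ v, f v = ![s * a⁻¹ * v 1, a * v 0]))) :
    IsPGroup 2 (MulAut T) := by
  have hT' : TSpec T := convT T hT
  have hp : q.Prime := Fact.out
  haveI : Finite (E (ZMod q)) :=
    Finite.of_injective (fun f : E (ZMod q) => (f : (Fin 2 → ZMod q) → (Fin 2 → ZMod q)))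
      DFunLike.coe_injective
  haveI : Finite T := inferInstance
  haveI : Finite (MulAut T) :=
    Finite.of_injective (fun a : MulAut T => (a : T → T)) DFunLike.coe_injective
  have key : ∀ (α : MulAut T) (r : ℕ), Odd r → α ^ r = 1 → ∀ x, α x = x := by
    intro α r hr hα
    by_cases h2 : q = 2
    · subst h2
      exact case_two T hT' zmod2_fact α r hr hα
    · by_cases h3 : q = 3
      · subst h3
        exact case_three T hT' zmod3_fact zmod3_ne α r hr hα
      · have hd2 : ¬ q ∣ 2 := fun h => h2 ((Nat.prime_dvd_prime_iff_eq hp Nat.prime_two).1 h)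
        have hd3 : ¬ q ∣ 3 := fun h => h3 ((Nat.prime_dvd_prime_iff_eq hp Nat.prime_three).1 h)
        have hd15 : ¬ q ∣ 15 := by
          intro h
          have h' : q ∣ 3 * 5 := h
          rcases (Nat.Prime.dvd_mul hp).1 h' with h'' | h''
          · exact hd3 h''
          · exact hq5 ((Nat.prime_dvd_prime_iff_eq hp Nat.prime_five).1 h'')
        have h20 : (2 : ZMod q) ≠ 0 := by
          have := natne (q := q) 2 hd2
          exact_mod_cast this
        have h30 : (3 : ZMod q) ≠ 0 := by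
          have := natne (q := q) 3 hd3
          exact_mod_cast this
        have h150 : (15 : ZMod q) ≠ 0 := by
          have := natne (q := q) 15 hd15
          exact_mod_cast this
        have hinv : (2 : ZMod q) * 2⁻¹ = 1 := mul_inv_cancel₀ h20
        have hm : ∀ a : ZMod q, a ≠ 0 → a ^ (2 ^ m) = 1 := by
          intro a ha
          have h := ZMod.pow_card_sub_one_eq_one ha
          have hq' : q - 1 = 2 ^ m := by rw [hq]; simp
          rw [hq'] at h
          exact h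
        refine main_case T hT' m hm ?_ ?_ ?_ h20 α r hr hα
        · intro h
          apply h20
          linear_combination h
        · intro h
          apply h30
          rw [h] at hinv
          linear_combination hinv
        · intro h
          apply h150
          have e : (2 : ZMod q) * 2 * (2 * 2) = 1 := by
            calc (2 : ZMod q) * 2 * (2 * 2) = 2⁻¹ * 2⁻¹ * (2 * 2) := by rw [← h]
              _ = (2 * 2⁻¹) * (2 * 2⁻¹) := by ring
              _ = 1 := by rw [hinv, one_mul]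
          linear_combination e
  intro α
  have hpos : orderOf α ≠ 0 := (orderOf_pos α).ne'
  obtain ⟨k, r, hr, hkr⟩ := Nat.exists_eq_two_pow_mul_odd hpos
  refine ⟨k, ?_⟩
  apply MulEquiv.ext
  intro x
  have h := key (α ^ 2 ^ k) r hr (by rw [← pow_mul, ← hkr, pow_orderOf_eq_one])
  exact h x

end Cfsg.Agent.S3382
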