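import Cfsg.Statements.S3383

set_option autoImplicit false
open Cfsg

namespace Cfsg.Agent.S3383

open scoped Pointwise

theorem mem_conj_smul {L : Type*} [Group L] (H : Subgroup L) (g x : L) :
    x ∈ MulAut.conj g • H ↔ g⁻¹ * x * g ∈ H := by
  rw [Subgroup.mem_pointwise_smul_iff_inv_smul_mem, MulAut.smul_def, MulAut.conj_inv_apply]

/-- Every normal subgroup is comparable with the Frobenius kernel. -/
theorem comparable {L : Type*} [Group L] [Finite L]
    (H : Subgroup L) (hH : Cfsg.IsFrobeniusComplement H)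
    (K : Subgroup L) (hK : (K : Set L) = Cfsg.frobeniusKernel H)
    (N : Subgroup L) (hN : N.Normal) : K ≤ N ∨ N ≤ K := by
  have memK : ∀ x : L, x ∈ K ↔ (x = 1 ∨ ∀ g : L, x ∉ MulAut.conj g • H) := by
    intro x
    have := Set.ext_iff.mp hK x
    exact this
  have hKn : ∀ x ∈ K, ∀ g : L, g * x * g⁻¹ ∈ K := by
    intro x hx g
    rcases (memK x).mp hx with rfl | hx'
    · simp
    · refine (memK _).mpr (Or.inr fun a ha => hx' (g⁻¹ * a) ?_)
      rw [mem_conj_smul] at ha ⊢
      have : (g⁻¹ * a)⁻¹ * x * (g⁻¹ * a) = a⁻¹ * (g * x * g⁻¹) * a := by group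
      rw [this]; exact ha
  have hKH : ∀ x ∈ K, x ∈ H → x = 1 := by
    intro x hx hxH
    rcases (memK x).mp hx with rfl | hx'
    · rfl
    · exact absurd (by rw [mem_conj_smul]; simpa using hxH) (hx' 1)
  have hcent : ∀ h ∈ H, h ≠ 1 → ∀ g : L, g * h * g⁻¹ = h → g ∈ H := by
    intro h hh hne g hg
    by_contra hgH
    have h1 := hH.2.2 g hgH
    have h2 : h ∈ H ⊓ (MulAut.conj g • H) := by
      have h3 : h ∈ MulAut.conj g • H := by
        rw [mem_conj_smul]
        have : g⁻¹ * h * g = h := by
          conv_lhs => rw [← hg]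
          group
        rw [this]; exact hh
      exact Subgroup.mem_inf.mpr ⟨hh, h3⟩
    rw [h1] at h2
    exact hne (Subgroup.mem_bot.mp h2)
  by_cases hNH : N ⊓ H = ⊥
  · right
    intro x hx
    refine (memK x).mpr ?_
    by_cases hx1 : x = 1
    · exact Or.inl hx1
    · refine Or.inr fun g hg => hx1 ?_
      rw [mem_conj_smul] at hg
      have h1 : g⁻¹ * x * g ∈ N ⊓ H := by
        refine ⟨?_, hg⟩
        have := hN.conj_mem x hx g⁻¹
        simpa using this
      rw [hNH, Subgroup.mem_bot] at h1
      have : x = g * (g⁻¹ * x * g) * g⁻¹ := by group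
      rw [this, h1]; group
  · left
    obtain ⟨h, hhNH, hne⟩ : ∃ h ∈ N ⊓ H, h ≠ 1 := by
      by_contra hcon
      push Not at hcon
      exact hNH ((Subgroup.eq_bot_iff_forall _).mpr hcon)
    have hhN : h ∈ N := hhNH.1
    have hhH : h ∈ H := hhNH.2
    -- injective map K → K ⊓ N
    let φ : K → (K ⊓ N : Subgroup L) := fun k =>
      ⟨h⁻¹ * (k : L)⁻¹ * h * (k : L), by
        refine ⟨?_, ?_⟩
        · have h1 : h⁻¹ * (k : L)⁻¹ * h ∈ K := by
            have := hKn _ (K.inv_mem k.2) h⁻¹
            simpa using this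
          exact K.mul_mem h1 k.2
        · have h1 : (k : L)⁻¹ * h * (k : L) ∈ N := by
            have := hN.conj_mem h hhN (k : L)⁻¹
            simpa using this
          have : h⁻¹ * (k : L)⁻¹ * h * (k : L) = h⁻¹ * ((k : L)⁻¹ * h * (k : L)) := by group
          rw [this]
          exact N.mul_mem (N.inv_mem hhN) h1⟩
    have hφ : Function.Injective φ := by
      intro k k' hkk
      have h1 : h⁻¹ * (k : L)⁻¹ * h * (k : L) = h⁻¹ * (k' : L)⁻¹ * h * (k' : L) :=
        congrArg Subtype.val hkk
      have h2 : ((k' : L) * (k : L)⁻¹) * h * ((k' : L) * (k : L)⁻¹)⁻¹ = h := by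
        have h3 : (k : L)⁻¹ * h * (k : L) = (k' : L)⁻¹ * h * (k' : L) := by
          have := congrArg (fun t => h * t) h1
          simpa [mul_assoc] using this
        have : ((k' : L) * (k : L)⁻¹) * h * ((k' : L) * (k : L)⁻¹)⁻¹
            = (k' : L) * ((k : L)⁻¹ * h * (k : L)) * (k' : L)⁻¹ := by group
        rw [this, h3]; group
      have h4 := hcent h hhH hne _ h2
      have h5 := hKH _ (K.mul_mem k'.2 (K.inv_mem k.2)) h4
      apply Subtype.ext
      have : (k' : L) = (k : L) := by
        have := mul_inv_eq_one.mp h5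
        exact this
      exact this.symm
    have hcard : Nat.card K ≤ Nat.card (K ⊓ N : Subgroup L) :=
      Nat.card_le_card_of_injective φ hφ
    have heq : K ⊓ N = K := Subgroup.eq_of_le_of_card_ge inf_le_left hcard
    rw [← heq]; exact inf_le_right

/-- Let H be a Frobenius complement in a finite group L and K the Frobenius kernel (as a subgroup). Then K is characteristic in L, and every normal subgroup of L either contains K or is contained in K. -/
theorem result {L : Type*} [Group L] [Finite L]
    (H : Subgroup L) (hH : Cfsg.IsFrobeniusComplement H)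
    (K : Subgroup L) (hK : (K : Set L) = Cfsg.frobeniusKernel H) :
    K.Characteristic ∧ ∀ N : Subgroup L, N.Normal → K ≤ N ∨ N ≤ K := by
  refine ⟨?_, fun N hN => comparable H hH K hK N hN⟩
  -- K is normal
  have hKnorm : K.Normal := by
    constructor
    intro x hx g
    have memK : ∀ x : L, x ∈ K ↔ (x = 1 ∨ ∀ g : L, x ∉ MulAut.conj g • H) := by
      intro x
      have := Set.ext_iff.mp hK x
      exact this
    rcases (memK x).mp hx with rfl | hx'
    · simp
    · refine (memK _).mpr (Or.inr fun a ha => hx' (g⁻¹ * a) ?_)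
      rw [mem_conj_smul] at ha ⊢
      have : (g⁻¹ * a)⁻¹ * x * (g⁻¹ * a) = a⁻¹ * (g * x * g⁻¹) * a := by group
      rw [this]; exact ha
  rw [Subgroup.characteristic_iff_map_eq]
  intro ϕ
  have hn : (K.map ϕ.toMonoidHom).Normal := hKnorm.map _ ϕ.surjective
  have hcard : Nat.card (K.map ϕ.toMonoidHom) = Nat.card K :=
    Subgroup.card_map_of_injective ϕ.injective
  rcases comparable H hH K hK _ hn with h | h
  · exact (Subgroup.eq_of_le_of_card_ge h hcard.le).symm
  · exact Subgroup.eq_of_le_of_card_ge h hcard.ge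

end Cfsg.Agent.S3383
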