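import Cfsg.Statements.S3704
import Mathlib

set_option autoImplicit false
set_option linter.unusedSectionVars false
open Cfsg

namespace Cfsg.Agent.S3704

open MulAction

section aux

variable {G Ω : Type*} [Group G] [MulAction G Ω] (H : Subgroup G)

/-- colour of a point relative to a coset -/
noncomputable def kap (x : G ⧸ H) (α : Ω) : orbitRel.Quotient H Ω :=
  Quotient.liftOn' x (fun g => (Quotient.mk'' (g⁻¹ • α) : orbitRel.Quotient H Ω)) (by
    intro a b hab
    rw [QuotientGroup.leftRel_apply] at hab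
    apply Quotient.sound'
    show orbitRel H Ω (a⁻¹ • α) (b⁻¹ • α)
    rw [orbitRel_apply]
    refine ⟨⟨a⁻¹ * b, hab⟩, ?_⟩
    show (a⁻¹ * b) • b⁻¹ • α = a⁻¹ • α
    rw [mul_smul, smul_inv_smul])

theorem kap_mk (g : G) (α : Ω) :
    kap H (g : G ⧸ H) α = (Quotient.mk'' (g⁻¹ • α) : orbitRel.Quotient H Ω) := rfl

theorem kap_smul (g : G) (x : G ⧸ H) (α : Ω) : kap H (g • x) (g • α) = kap H x α := by
  induction x using QuotientGroup.induction_on with
  | H g' =>
    rw [MulAction.Quotient.smul_coe, kap_mk, kap_mk, smul_eq_mul, mul_inv_rev, mul_smul,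
      inv_smul_smul]

theorem kap_smul' (g : G) (x : G ⧸ H) (α : Ω) : kap H x (g • α) = kap H (g⁻¹ • x) α := by
  rw [← kap_smul H g (g⁻¹ • x) α, smul_inv_smul]

variable [Fintype Ω] [Fintype (G ⧸ H)] [DecidableEq (orbitRel.Quotient H Ω)]

/-- number of points of colour `i` -/
noncomputable def dd (i : orbitRel.Quotient H Ω) : ℚ :=
  ∑ α : Ω, if (Quotient.mk'' α : orbitRel.Quotient H Ω) = i then 1 else 0

/-- number of cosets giving colours `i`, `j` to two points -/
noncomputable def cc (i j : orbitRel.Quotient H Ω) (α β : Ω) : ℚ :=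
  ∑ x : G ⧸ H, (if kap H x α = i then (1 : ℚ) else 0) * (if kap H x β = j then 1 else 0)

theorem cc_smul (i j : orbitRel.Quotient H Ω) (g : G) (α β : Ω) :
    cc H i j (g • α) (g • β) = cc H i j α β := by
  unfold cc
  simp only [kap_smul']
  exact Equiv.sum_comp (MulAction.toPerm g⁻¹ : Equiv.Perm (G ⧸ H))
    (fun y => (if kap H y α = i then (1 : ℚ) else 0) * (if kap H y β = j then 1 else 0))

theorem sum_kap (x : G ⧸ H) (j : orbitRel.Quotient H Ω) :
    (∑ β : Ω, if kap H x β = j then (1 : ℚ) else 0) = dd H j := by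
  induction x using QuotientGroup.induction_on with
  | H g =>
    simp only [kap_mk]
    exact Equiv.sum_comp (MulAction.toPerm g⁻¹ : Equiv.Perm Ω)
      (fun β => if (Quotient.mk'' β : orbitRel.Quotient H Ω) = j then (1 : ℚ) else 0)

theorem cc_self (i : orbitRel.Quotient H Ω) (α : Ω) :
    cc H i i α α = ∑ x : G ⧸ H, if kap H x α = i then (1 : ℚ) else 0 := by
  unfold cc
  apply Finset.sum_congr rfl
  intro x _
  split_ifs <;> simp

theorem sum_cc_right (i j : orbitRel.Quotient H Ω) (α : Ω) :
    ∑ β : Ω, cc H i j α β = cc H i i α α * dd H j := by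
  rw [cc_self]
  unfold cc
  rw [Finset.sum_comm, Finset.sum_mul]
  apply Finset.sum_congr rfl
  intro x _
  rw [← Finset.mul_sum, sum_kap]

theorem sum_cc_diag (i : orbitRel.Quotient H Ω) :
    ∑ α : Ω, cc H i i α α = (Fintype.card (G ⧸ H) : ℚ) * dd H i := by
  simp only [cc_self]
  rw [Finset.sum_comm]
  simp only [sum_kap]
  rw [Finset.sum_const, Finset.card_univ, nsmul_eq_mul]

theorem cc_diag_ne (i j : orbitRel.Quotient H Ω) (hij : i ≠ j) (α : Ω) : cc H i j α α = 0 := by
  unfold cc
  apply Finset.sum_eq_zero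
  intro x _
  by_cases h : kap H x α = i
  · rw [if_pos h, if_neg (by rw [h]; exact hij), mul_zero]
  · rw [if_neg h, zero_mul]

theorem one_le_dd (i : orbitRel.Quotient H Ω) : 1 ≤ dd H i := by
  obtain ⟨α, hα⟩ := Quotient.exists_rep i
  unfold dd
  have h1 : (if (Quotient.mk'' α : orbitRel.Quotient H Ω) = i then (1 : ℚ) else 0) = 1 := by
    rw [if_pos]; exact hα
  have h2 := Finset.single_le_sum (f := fun α => if (Quotient.mk'' α : orbitRel.Quotient H Ω) = i then (1 : ℚ) else 0)
    (fun β _ => by split_ifs <;> norm_num) (Finset.mem_univ α)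
  rw [h1] at h2
  exact h2

theorem dd_add_le (i j : orbitRel.Quotient H Ω) (hij : i ≠ j) :
    dd H i + dd H j ≤ (Fintype.card Ω : ℚ) := by
  unfold dd
  rw [← Finset.sum_add_distrib]
  calc _ ≤ ∑ _α : Ω, (1 : ℚ) := by
        apply Finset.sum_le_sum
        intro α _
        by_cases h : (Quotient.mk'' α : orbitRel.Quotient H Ω) = i
        · rw [if_pos h, if_neg (by rw [h]; exact hij)]; norm_num
        · rw [if_neg h]; split_ifs <;> norm_num
    _ = (Fintype.card Ω : ℚ) := by simp

end aux

/-- Let G be a finite group acting faithfully and 2-transitively on a finite set Ω of size n, and let H be a subgroup of index n in G which is not transitive on Ω and fixes no point of Ω. Then H has exactly two orbits on Ω. -/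
theorem result {G Ω : Type*} [Group G] [Finite G] [MulAction G Ω] [FaithfulSMul G Ω] [Finite Ω] (h2 : MulAction.IsMultiplyPretransitive G Ω 2) (H : Subgroup G) (hidx : H.index = Nat.card Ω) (hnt : ¬ MulAction.IsPretransitive H Ω) (hfix : ∀ a : Ω, ∃ h : H, h • a ≠ a) : Nat.card (MulAction.orbitRel.Quotient H Ω) = 2 := by
  classical
  have instΩ : Fintype Ω := Fintype.ofFinite Ω
  have instX : Fintype (G ⧸ H) := Fintype.ofFinite _
  have instQ : Fintype (orbitRel.Quotient H Ω) := Fintype.ofFinite _
  have h2' : ∀ {a b c d : Ω}, a ≠ b → c ≠ d → ∃ g : G, g • a = c ∧ g • b = d :=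
    is_two_pretransitive_iff.mp h2
  have hnsub : ¬ Subsingleton (orbitRel.Quotient H Ω) :=
    fun h => hnt ((pretransitive_iff_subsingleton_quotient H Ω).mpr h)
  have hnt' : Nontrivial (orbitRel.Quotient H Ω) := not_subsingleton_iff_nontrivial.mp hnsub
  have h1lt : 1 < Fintype.card (orbitRel.Quotient H Ω) :=
    Fintype.one_lt_card_iff_nontrivial.mpr hnt'
  rw [Nat.card_eq_fintype_card]
  by_contra hcard
  have h2lt : 2 < Fintype.card (orbitRel.Quotient H Ω) := by omega
  obtain ⟨i1, i2, i3, h12, h13, h23⟩ := Fintype.two_lt_card_iff.mp h2lt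
  have hcardXnat : Fintype.card (G ⧸ H) = Fintype.card Ω := by
    rw [← Nat.card_eq_fintype_card, ← Nat.card_eq_fintype_card, ← hidx, Subgroup.index_eq_card]
  have hcardX : (Fintype.card (G ⧸ H) : ℚ) = (Fintype.card Ω : ℚ) := by
    exact_mod_cast hcardXnat
  set n : ℚ := (Fintype.card Ω : ℚ) with hn
  have hd1 := one_le_dd H i1
  have hd2 := one_le_dd H i2
  have hd3 := one_le_dd H i3
  have hd12 := dd_add_le H i1 i2 h12
  rw [← hn] at hd12
  set d1 := dd H i1 with hd1def
  set d2 := dd H i2 with hd2def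
  set d3 := dd H i3 with hd3def
  have htr : ∀ α β : Ω, ∃ g : G, g • α = β := by
    have := h2
    exact fun α β => (isPretransitive_of_is_two_pretransitive (G := G) (α := Ω)).exists_smul_eq α β
  have hn0 : n ≠ 0 := by linarith
  have hdiag : ∀ (i : orbitRel.Quotient H Ω) (α : Ω), cc H i i α α = dd H i := by
    intro i α
    have hconst : ∀ β : Ω, cc H i i β β = cc H i i α α := by
      intro β
      obtain ⟨g, rfl⟩ := htr α β
      exact cc_smul H i i g α α
    have h := sum_cc_diag H i
    rw [Finset.sum_congr rfl (fun β _ => hconst β), Finset.sum_const, Finset.card_univ,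
      nsmul_eq_mul, hcardX] at h
    exact mul_left_cancel₀ hn0 h
  obtain ⟨α₀, hα₀⟩ := Quotient.exists_rep i1
  obtain ⟨β₀, hβ₀⟩ := Quotient.exists_rep i2
  have hne₀ : α₀ ≠ β₀ := by
    rintro rfl; exact h12 (hα₀.symm.trans hβ₀)
  have hoff : ∀ (i j : orbitRel.Quotient H Ω) (α β : Ω), α ≠ β →
      cc H i j α β = cc H i j α₀ β₀ := by
    intro i j α β hαβ
    obtain ⟨g, rfl, rfl⟩ := h2' hne₀ hαβ
    exact cc_smul H i j g α₀ β₀
  have hsum : ∀ (i j : orbitRel.Quotient H Ω),
      dd H i * dd H j = cc H i j α₀ α₀ + (n - 1) * cc H i j α₀ β₀ := by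
    intro i j
    have h := sum_cc_right H i j α₀
    rw [hdiag] at h
    rw [← h, ← Finset.add_sum_erase Finset.univ _ (Finset.mem_univ α₀)]
    congr 1
    rw [Finset.sum_congr rfl (fun β hβ => hoff i j α₀ β (Finset.ne_of_mem_erase hβ).symm),
      Finset.sum_const, Finset.card_erase_of_mem (Finset.mem_univ α₀), Finset.card_univ,
      nsmul_eq_mul, Nat.cast_sub (Fintype.card_pos_iff.mpr ⟨α₀⟩), Nat.cast_one]
  set lam := cc H i1 i1 α₀ β₀ with hlam
  set mu2 := cc H i2 i1 α₀ β₀ with hmu2
  set mu3 := cc H i3 i1 α₀ β₀ with hmu3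
  have h11 : d1 * d1 = d1 + (n - 1) * lam := by
    have := hsum i1 i1
    rwa [hdiag] at this
  have h21 : d2 * d1 = (n - 1) * mu2 := by
    have := hsum i2 i1
    rwa [cc_diag_ne H i2 i1 h12.symm, zero_add] at this
  have h31 : d3 * d1 = (n - 1) * mu3 := by
    have := hsum i3 i1
    rwa [cc_diag_ne H i3 i1 h13.symm, zero_add] at this
  have hn1 : 0 < n - 1 := by linarith
  have hmu2pos : 0 < mu2 := by
    have : 0 < (n - 1) * mu2 := by rw [← h21]; positivity
    exact (pos_iff_pos_of_mul_pos this).mp hn1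
  have hmu3pos : 0 < mu3 := by
    have : 0 < (n - 1) * mu3 := by rw [← h31]; positivity
    exact (pos_iff_pos_of_mul_pos this).mp hn1
  have hlam0 : 0 ≤ lam := by
    have : 0 ≤ (n - 1) * lam := by nlinarith
    exact (mul_nonneg_iff_of_pos_left hn1).mp this
  have hdl : 0 < d1 - lam := by
    have : 0 < (n - 1) * (d1 - lam) := by nlinarith
    exact (pos_iff_pos_of_mul_pos this).mp hn1
  -- incidence matrices
  let M : orbitRel.Quotient H Ω → Matrix Ω (G ⧸ H) ℚ :=
    fun i α x => if kap H x α = i then 1 else 0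
  have hMM : ∀ i j α β, (M i * (M j).transpose) α β = cc H i j α β := by
    intro i j α β
    rfl
  have hM11 : ∀ α β, (M i1 * (M i1).transpose) α β = if α = β then d1 else lam := by
    intro α β
    rw [hMM]
    by_cases h : α = β
    · subst h; rw [if_pos rfl, hdiag]
    · rw [if_neg h, hoff i1 i1 α β h]
  have hM21 : ∀ α β, (M i2 * (M i1).transpose) α β = if α = β then 0 else mu2 := by
    intro α β
    rw [hMM]
    by_cases h : α = β
    · subst h; rw [if_pos rfl, cc_diag_ne H i2 i1 h12.symm]
    · rw [if_neg h, hoff i2 i1 α β h]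
  have hM31 : ∀ α β, (M i3 * (M i1).transpose) α β = if α = β then 0 else mu3 := by
    intro α β
    rw [hMM]
    by_cases h : α = β
    · subst h; rw [if_pos rfl, cc_diag_ne H i3 i1 h13.symm]
    · rw [if_neg h, hoff i3 i1 α β h]
  have hinj : Function.Injective ((M i1).transpose).mulVecLin := by
    rw [injective_iff_map_eq_zero]
    intro v hv
    have hv' : (M i1).transpose.mulVec v = 0 := hv
    have h0 : (M i1 * (M i1).transpose).mulVec v = 0 := by
      rw [← Matrix.mulVec_mulVec, hv', Matrix.mulVec_zero]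
    have key : ∀ α, (d1 - lam) * v α + lam * ∑ β, v β = 0 := by
      intro α
      have h := congrFun h0 α
      simp only [Matrix.mulVec, dotProduct, hM11, Pi.zero_apply] at h
      rw [← h]
      have h' : ∀ β, (if α = β then d1 else lam) * v β
          = (if α = β then (d1 - lam) * v β else 0) + lam * v β := by
        intro β; split_ifs <;> ring
      simp only [h', Finset.sum_add_distrib, Finset.sum_ite_eq, Finset.mem_univ, if_true,
        Finset.mul_sum]
    have hs : ∑ β, v β = 0 := by
      have h := Finset.sum_congr (s₁ := (Finset.univ : Finset Ω)) rfl (fun α _ => key α)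
      simp only [Finset.sum_add_distrib, ← Finset.mul_sum, Finset.sum_const, Finset.card_univ,
        nsmul_eq_mul, mul_zero] at h
      have hpos : 0 < (d1 - lam) + n * lam := by nlinarith
      have h' : ((d1 - lam) + n * lam) * ∑ β, v β = 0 := by
        rw [← h]; ring
      exact (mul_eq_zero.mp h').resolve_left hpos.ne'
    funext α
    have h := key α
    rw [hs, mul_zero, add_zero] at h
    exact (mul_eq_zero.mp h).resolve_left hdl.ne'
  have hsurj : Function.Surjective ((M i1).transpose).mulVecLin := by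
    refine (LinearMap.injective_iff_surjective_of_finrank_eq_finrank ?_).mp hinj
    rw [Module.finrank_fintype_fun_eq_card, Module.finrank_fintype_fun_eq_card, hcardXnat]
  have hfin : ∀ u : (G ⧸ H) → ℚ, (mu3 • M i2).mulVec u = (mu2 • M i3).mulVec u := by
    intro u
    obtain ⟨v, rfl⟩ := hsurj u
    show (mu3 • M i2).mulVec ((M i1).transpose.mulVec v) = (mu2 • M i3).mulVec ((M i1).transpose.mulVec v)
    rw [Matrix.mulVec_mulVec, Matrix.mulVec_mulVec]
    congr 1
    ext α β
    rw [Matrix.smul_mul, Matrix.smul_mul, Matrix.smul_apply, Matrix.smul_apply, hM21, hM31]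
    split_ifs <;> simp [mul_comm]
  obtain ⟨γ, hγ⟩ := Quotient.exists_rep i2
  have hγ' : (Quotient.mk'' γ : orbitRel.Quotient H Ω) = i2 := hγ
  have h := congrFun (hfin (Pi.single ((1 : G) : G ⧸ H) 1)) γ
  rw [Matrix.mulVec_single_one, Matrix.mulVec_single_one] at h
  have h' : mu3 * (if kap H ((1 : G) : G ⧸ H) γ = i2 then (1 : ℚ) else 0)
      = mu2 * (if kap H ((1 : G) : G ⧸ H) γ = i3 then (1 : ℚ) else 0) := h
  have hk : kap H ((1 : G) : G ⧸ H) γ = i2 := by
    rw [kap_mk, inv_one, one_smul]; exact hγ'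
  rw [hk, if_pos rfl, if_neg h23] at h'
  linarith

end Cfsg.Agent.S3704
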