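-- Statement S3707: a primitive group with a Jordan set of at most half the degree is 3-transitive.
import Cfsg.Statements.S3707
import Mathlib

set_option autoImplicit false
open Cfsg

namespace Cfsg.Agent.S3707

open scoped Pointwise
open MulAction

/-- Jordan sets: the pointwise stabilizer of the complement is transitive on the set. -/
def IsJ (G : Type*) {Ω : Type*} [Group G] [MulAction G Ω] (Δ : Set Ω) : Prop :=
  ∀ x ∈ Δ, ∀ y ∈ Δ, ∃ g : G, (∀ z ∉ Δ, g • z = z) ∧ g • x = y

section basic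

variable {G Ω : Type*} [Group G] [MulAction G Ω]

theorem IsJ.smul {Δ : Set Ω} (h : IsJ G Δ) (g : G) : IsJ G (g • Δ) := by
  intro x hx y hy
  obtain ⟨x', hx', rfl⟩ := hx
  obtain ⟨y', hy', rfl⟩ := hy
  obtain ⟨k, hk, hkx⟩ := h x' hx' y' hy'
  refine ⟨g * k * g⁻¹, ?_, ?_⟩
  · intro z hz
    have hz' : g⁻¹ • z ∉ Δ := by
      intro h'
      apply hz
      rw [Set.mem_smul_set_iff_inv_smul_mem]
      exact h'
    rw [mul_smul, mul_smul, hk _ hz', smul_inv_smul]
  · rw [mul_smul, mul_smul, inv_smul_smul, hkx]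

theorem IsJ.union {Δ₁ Δ₂ : Set Ω} (h₁ : IsJ G Δ₁) (h₂ : IsJ G Δ₂)
    (hne : (Δ₁ ∩ Δ₂).Nonempty) : IsJ G (Δ₁ ∪ Δ₂) := by
  obtain ⟨c, hc1, hc2⟩ := hne
  have toC : ∀ x ∈ Δ₁ ∪ Δ₂, ∃ g : G, (∀ z ∉ Δ₁ ∪ Δ₂, g • z = z) ∧ g • x = c := by
    rintro x (hx | hx)
    · obtain ⟨g, hg, hgx⟩ := h₁ x hx c hc1
      exact ⟨g, fun z hz => hg z (fun h => hz (Or.inl h)), hgx⟩
    · obtain ⟨g, hg, hgx⟩ := h₂ x hx c hc2
      exact ⟨g, fun z hz => hg z (fun h => hz (Or.inr h)), hgx⟩
  intro x hx y hy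
  obtain ⟨g₁, hg₁, hg₁x⟩ := toC x hx
  obtain ⟨g₂, hg₂, hg₂y⟩ := toC y hy
  refine ⟨g₂⁻¹ * g₁, ?_, ?_⟩
  · intro z hz
    rw [mul_smul, hg₁ z hz, inv_smul_eq_iff, hg₂ z hz]
  · rw [mul_smul, hg₁x, inv_smul_eq_iff, hg₂y]

/-- a block of a point stabilizer that meets a Jordan set avoiding the point, without being
contained in it, contains it -/
theorem IsJ.subset_block {Δ : Set Ω} (hΔ : IsJ G Δ) {a : Ω} (ha : a ∉ Δ) {B : Set Ω}
    (hB : IsBlock (stabilizer G a) B) {u v : Ω} (hu : u ∈ B) (huΔ : u ∉ Δ) (hv : v ∈ B)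
    (hvΔ : v ∈ Δ) : Δ ⊆ B := by
  intro w hw
  obtain ⟨g, hg, hgv⟩ := hΔ v hvΔ w hw
  have hga : g ∈ stabilizer G a := hg a ha
  have hgu : (⟨g, hga⟩ : stabilizer G a) • u ∈ B := by
    change g • u ∈ B
    rw [hg u huΔ]
    exact hu
  have hgB := hB.smul_eq_of_mem hu hgu
  rw [← hgB, ← hgv]
  exact Set.smul_mem_smul_set (a := (⟨g, hga⟩ : stabilizer G a)) hv

theorem isPretransitive_ofFixingSubgroup_of_isJ {s : Set Ω} (h : IsJ G sᶜ) :
    IsPretransitive (fixingSubgroup G s) (SubMulAction.ofFixingSubgroup G s) := by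
  constructor
  intro x y
  have hx : (x : Ω) ∈ sᶜ := x.2
  have hy : (y : Ω) ∈ sᶜ := y.2
  obtain ⟨g, hg, hgx⟩ := h x hx y hy
  refine ⟨⟨g, ?_⟩, ?_⟩
  · rw [mem_fixingSubgroup_iff]
    intro z hz
    exact hg z (fun h => h hz)
  · exact Subtype.ext hgx

end basic

/-- counting: in a transitive action, a set with less than half of the points can be avoided by
the images of two given points simultaneously -/
theorem sep {H X : Type*} [Group H] [MulAction H X] [Finite H] [Finite X] [IsPretransitive H X]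
    (S : Set X) (hS : 2 * S.ncard < Nat.card X) (y a : X) : ∃ h : H, h • y ∉ S ∧ h • a ∉ S := by
  classical
  have := Fintype.ofFinite H
  have := Fintype.ofFinite X
  let c : X → ℕ := fun u => (Finset.univ.filter (fun h : H => h • u ∈ S)).card
  have hconst : ∀ u u', c u = c u' := by
    intro u u'
    obtain ⟨k, hk⟩ := exists_smul_eq H u' u
    apply Finset.card_bij (fun h _ => h * k)
    · intro h hh
      simp only [Finset.mem_filter, Finset.mem_univ, true_and] at hh ⊢
      rwa [mul_smul, hk]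
    · intro h₁ _ h₂ _ e
      exact mul_right_cancel e
    · intro h hh
      refine ⟨h * k⁻¹, ?_, by simp⟩
      simp only [Finset.mem_filter, Finset.mem_univ, true_and] at hh ⊢
      rw [← hk, ← mul_smul]
      simpa using hh
  have hsum : ∑ u : X, c u = ∑ h : H, (Finset.univ.filter (fun u : X => h • u ∈ S)).card := by
    simp only [c, Finset.card_filter]
    exact Finset.sum_comm
  have hperm : ∀ h : H, (Finset.univ.filter (fun u : X => h • u ∈ S)).card = S.ncard := by
    intro h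
    rw [Set.ncard_eq_toFinset_card' S]
    apply Finset.card_bij (fun u _ => h • u)
    · intro u hu
      simpa using hu
    · intro u₁ _ u₂ _ e
      exact smul_left_cancel h e
    · intro s hs
      exact ⟨h⁻¹ • s, by simpa using hs, by simp⟩
  have hc : ∀ u, c u * Fintype.card X = S.ncard * Fintype.card H := by
    intro u
    have h1 : ∑ u' : X, c u' = Fintype.card X * c u := by
      rw [Finset.sum_congr rfl (fun u' _ => hconst u' u), Finset.sum_const, Finset.card_univ,
        smul_eq_mul]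
    rw [hsum, Finset.sum_congr rfl (fun h _ => hperm h), Finset.sum_const, Finset.card_univ,
      smul_eq_mul] at h1
    linarith [h1]
  by_contra hcon
  push Not at hcon
  have hcover : Fintype.card H ≤ c y + c a := by
    calc Fintype.card H = (Finset.univ : Finset H).card := Finset.card_univ.symm
      _ ≤ ((Finset.univ.filter (fun h : H => h • y ∈ S)) ∪
            (Finset.univ.filter (fun h : H => h • a ∈ S))).card := by
          apply Finset.card_le_card
          intro h _
          by_cases h1 : h • y ∈ S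
          · simp [h1]
          · simp [hcon h h1]
      _ ≤ c y + c a := Finset.card_union_le _ _
  have h3 : Fintype.card H * Fintype.card X ≤ 2 * S.ncard * Fintype.card H := by
    calc Fintype.card H * Fintype.card X ≤ (c y + c a) * Fintype.card X :=
          Nat.mul_le_mul_right _ hcover
      _ = 2 * S.ncard * Fintype.card H := by rw [add_mul, hc, hc]; ring
  have hpos : 0 < Fintype.card H := Fintype.card_pos
  rw [Nat.card_eq_fintype_card] at hS
  nlinarith

section core

variable {G Ω : Type*} [Group G] [MulAction G Ω] [Finite G] [Finite Ω]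

/-- a translate of a small set containing `x` and avoiding `y` and `a` -/
theorem exists_translate (h2t : IsMultiplyPretransitive G Ω 2) (Γ : Set Ω) (hΓne : Γ.Nonempty)
    (hm : 2 * Γ.ncard ≤ Nat.card Ω) {x y a : Ω} (hxy : x ≠ y) (hxa : x ≠ a) :
    ∃ g : G, x ∈ g • Γ ∧ y ∉ g • Γ ∧ a ∉ g • Γ := by
  obtain ⟨x', hx'⟩ := hΓne
  have htr : IsPretransitive G Ω := isPretransitive_of_is_two_pretransitive
  obtain ⟨g₀, hg₀⟩ := exists_smul_eq G x x'
  have hy₀ : g₀ • y ≠ x' := by
    rw [← hg₀]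
    exact fun h => hxy (smul_left_cancel g₀ h).symm
  have ha₀ : g₀ • a ≠ x' := by
    rw [← hg₀]
    exact fun h => hxa (smul_left_cancel g₀ h).symm
  have htrH : IsPretransitive (stabilizer G x') (SubMulAction.ofStabilizer G x') := by
    rw [← is_one_pretransitive_iff]
    exact SubMulAction.ofStabilizer.isMultiplyPretransitive.mp h2t
  let S : Set (SubMulAction.ofStabilizer G x') := {z | (z : Ω) ∈ Γ}
  have hSim : Subtype.val '' S = Γ \ {x'} := by
    ext z
    constructor
    · rintro ⟨w, hw, rfl⟩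
      exact ⟨hw, w.2⟩
    · rintro ⟨hz, hzx⟩
      exact ⟨⟨z, hzx⟩, hz, rfl⟩
  have hScard : S.ncard = Γ.ncard - 1 := by
    rw [← Set.ncard_image_of_injective S Subtype.val_injective, hSim,
      Set.ncard_sdiff_singleton_of_mem hx']
  have hXcard : Nat.card (SubMulAction.ofStabilizer G x') + 1 = Nat.card Ω :=
    SubMulAction.nat_card_ofStabilizer_add_one_eq G x'
  have hΓpos : 0 < Γ.ncard := (Set.ncard_pos).mpr ⟨x', hx'⟩
  obtain ⟨h, hhy, hha⟩ := sep (H := stabilizer G x') S (by omega) ⟨g₀ • y, hy₀⟩ ⟨g₀ • a, ha₀⟩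
  refine ⟨((h : G) * g₀)⁻¹, ?_, ?_, ?_⟩
  · rw [Set.mem_smul_set_iff_inv_smul_mem, inv_inv, mul_smul, hg₀]
    have : (h : G) • x' = x' := h.2
    rw [this]
    exact hx'
  · rw [Set.mem_smul_set_iff_inv_smul_mem, inv_inv, mul_smul]
    exact hhy
  · rw [Set.mem_smul_set_iff_inv_smul_mem, inv_inv, mul_smul]
    exact hha

/-- a non-trivial block of a point stabilizer, in a 2-transitive group with a small Jordan set,
is everything -/
theorem block_full (h2t : IsMultiplyPretransitive G Ω 2) (Γ : Set Ω) (hΓ : IsJ G Γ)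
    (h1 : 1 < Γ.ncard) (hm : 2 * Γ.ncard ≤ Nat.card Ω) {a : Ω} {B : Set Ω}
    (hB : IsBlock (stabilizer G a) B) (haB : a ∉ B) {x y : Ω} (hx : x ∈ B) (hy : y ∈ B)
    (hxy : x ≠ y) : ∀ z, z ≠ a → z ∈ B := by
  have htr : IsPretransitive G Ω := isPretransitive_of_is_two_pretransitive
  have h2 : ∀ {a b c d : Ω}, a ≠ b → c ≠ d → ∃ g : G, g • a = c ∧ g • b = d :=
    is_two_pretransitive_iff.mp h2t
  have hΓne : Γ.Nonempty := by
    rw [← Set.ncard_pos]
    omega
  have hxa : x ≠ a := fun h => haB (h ▸ hx)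
  obtain ⟨g, hxg, hyg, hag⟩ := exists_translate h2t Γ hΓne hm hxy hxa
  have hΔ : IsJ G (g • Γ) := hΓ.smul g
  have hΔB : g • Γ ⊆ B := hΔ.subset_block hag hB hy hyg hx hxg
  obtain ⟨C, hCmax⟩ := exists_maximal_of_wellFoundedGT
    (fun C : Set Ω => IsJ G C ∧ g • Γ ⊆ C ∧ C ⊆ B) ⟨g • Γ, hΔ, subset_rfl, hΔB⟩
  obtain ⟨hCJ, hΔC, hCB⟩ := hCmax.prop
  have hxC : x ∈ C := hΔC hxg
  have haC : a ∉ C := fun h => haB (hCB h)
  -- `C` is a block
  have hCblock : IsBlock (stabilizer G a) C := by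
    rw [isBlock_iff_smul_eq_of_nonempty]
    intro k hk
    obtain ⟨w, hwk, hwC⟩ := hk
    have hkB : k • B = B := by
      apply hB.smul_eq_of_nonempty
      exact ⟨w, Set.smul_set_mono hCB hwk, hCB hwC⟩
    have hkCJ : IsJ G (k • C) := hCJ.smul (k : G)
    have hkCB : k • C ⊆ B := by
      rw [← hkB]
      exact Set.smul_set_mono hCB
    have hU : IsJ G (C ∪ k • C) := hCJ.union hkCJ ⟨w, hwC, hwk⟩
    have hle : C ∪ k • C ≤ C := hCmax.le_of_ge
      ⟨hU, hΔC.trans Set.subset_union_left, Set.union_subset hCB hkCB⟩ Set.subset_union_left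
    have hsub : k • C ⊆ C := Set.subset_union_right.trans hle
    exact Set.eq_of_subset_of_ncard_le hsub (by rw [Set.ncard_smul_set])
  by_contra hcon
  push Not at hcon
  obtain ⟨z, hza, hzB⟩ := hcon
  have hzC : z ∉ C := fun h => hzB (hCB h)
  -- a translate of `C` under the stabilizer, disjoint from `C`
  obtain ⟨k, hka, hkx⟩ := h2 (a := a) (b := x) (c := a) (d := z) hxa.symm hza.symm
  let k' : stabilizer G a := ⟨k, hka⟩
  have hkC : Disjoint (k' • C) C := by
    apply hCblock.disjoint_smul_of_ne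
    intro h
    apply hzC
    rw [← h, ← hkx]
    exact Set.smul_mem_smul_set (a := k') hxC
  have hak : a ∉ k' • C := by
    intro h
    rw [Set.mem_smul_set_iff_inv_smul_mem] at h
    have h' : k'⁻¹ • a = a := (k'⁻¹).2
    rw [h'] at h
    exact haC h
  have hcard1 : 2 * C.ncard + 1 ≤ Nat.card Ω := by
    have hd : (k' • C ∪ C).ncard = (k' • C).ncard + C.ncard := Set.ncard_union_eq hkC
    rw [Set.ncard_smul_set] at hd
    have hsub : k' • C ∪ C ⊆ {a}ᶜ := by
      intro w hw
      rcases hw with hw | hw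
      · exact fun h => hak (h ▸ hw)
      · exact fun h => haC (h ▸ hw)
    have hle := Set.ncard_le_ncard hsub
    rw [Set.ncard_compl, Set.ncard_singleton] at hle
    have hpos : 0 < Nat.card Ω := Nat.card_pos_iff.mpr ⟨⟨a⟩, inferInstance⟩
    omega
  -- a second point of `C`
  obtain ⟨y', hy'C, hy'x⟩ : ∃ y' ∈ C, y' ≠ x := by
    have h1' : 1 < (g • Γ).ncard := by
      rw [Set.ncard_smul_set]
      exact h1
    obtain ⟨u, hu, v, hv, huv⟩ := (Set.one_lt_ncard (Set.toFinite _)).mp h1'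
    by_cases hux : u = x
    · exact ⟨v, hΔC hv, fun h => huv (hux.trans h.symm)⟩
    · exact ⟨u, hΔC hu, hux⟩
  obtain ⟨g', hg'x, hg'y⟩ := h2 (a := x) (b := y') (c := x) (d := z) hy'x.symm
    (fun h => hzC (h ▸ hxC))
  have hxC' : x ∈ g' • C := by
    have := Set.smul_mem_smul_set (a := g') hxC
    rwa [hg'x] at this
  have hzC' : z ∈ g' • C := by
    have := Set.smul_mem_smul_set (a := g') hy'C
    rwa [hg'y] at this
  -- translates of `C` avoiding `a` are translates under the stabilizer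
  have hSC : ∀ g'' : G, a ∉ g'' • C → ∃ k'' : stabilizer G a, g'' • C = k'' • C := by
    intro g'' ha''
    have hw : g'' • x ∈ g'' • C := Set.smul_mem_smul_set hxC
    have hwa : g'' • x ≠ a := fun h => ha'' (h ▸ hw)
    obtain ⟨k₁, hk₁a, hk₁x⟩ := h2 (a := a) (b := x) (c := a) (d := g'' • x) hxa.symm hwa.symm
    let k'' : stabilizer G a := ⟨k₁, hk₁a⟩
    refine ⟨k'', ?_⟩
    have hblk : IsBlock (stabilizer G a) (k'' • C) := hCblock.translate k''
    have hJ'' : IsJ G (g'' • C) := hCJ.smul g''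
    have hwk : g'' • x ∈ k'' • C := by
      have := Set.smul_mem_smul_set (a := k'') hxC
      rwa [show k'' • x = g'' • x from hk₁x] at this
    have hsub : k'' • C ⊆ g'' • C := by
      by_contra hns
      obtain ⟨u, huk, hug⟩ := Set.not_subset.mp hns
      have hsub' := hJ''.subset_block ha'' hblk huk hug hwk hw
      have heq := Set.eq_of_subset_of_ncard_le hsub'
        (by rw [Set.ncard_smul_set, Set.ncard_smul_set])
      exact hug (heq ▸ huk)
    exact (Set.eq_of_subset_of_ncard_le hsub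
      (by rw [Set.ncard_smul_set, Set.ncard_smul_set])).symm
  -- `C` and `g' • C` cover everything
  have hcover : C ∪ g' • C = Set.univ := by
    by_contra hne
    obtain ⟨a', ha'⟩ := (Set.ne_univ_iff_exists_notMem _).mp hne
    obtain ⟨h, hh⟩ := exists_smul_eq G a' a
    have h1 : a ∉ h • C := by
      rw [← hh]
      intro hmem
      exact ha' (Or.inl ((Set.smul_mem_smul_set_iff).mp hmem))
    have h2' : a ∉ (h * g') • C := by
      rw [← hh, mul_smul]
      intro hmem
      exact ha' (Or.inr ((Set.smul_mem_smul_set_iff).mp hmem))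
    obtain ⟨k₁, hk₁⟩ := hSC h h1
    obtain ⟨k₂, hk₂⟩ := hSC (h * g') h2'
    have hnd : ¬ Disjoint (k₁ • C) (k₂ • C) := by
      rw [← hk₁, ← hk₂, Set.not_disjoint_iff]
      refine ⟨h • x, Set.smul_mem_smul_set hxC, ?_⟩
      rw [mul_smul]
      exact Set.smul_mem_smul_set hxC'
    have heq : k₁ • C = k₂ • C := by
      by_contra hne'
      exact hnd (hCblock hne')
    rw [← hk₁, ← hk₂, mul_smul] at heq
    have heq' : C = g' • C := smul_left_cancel h heq
    exact hzC (heq' ▸ hzC')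
  have h3 := Set.ncard_union_add_ncard_inter C (g' • C)
  rw [hcover, Set.ncard_univ, Set.ncard_smul_set] at h3
  have h4 : 0 < (C ∩ g' • C).ncard := by
    rw [Set.ncard_pos]
    exact ⟨x, hxC, hxC'⟩
  omega

/-- point stabilizers are primitive on the remaining points -/
theorem isPreprimitive_stabilizer (h2t : IsMultiplyPretransitive G Ω 2) (Γ : Set Ω)
    (hΓ : IsJ G Γ) (h1 : 1 < Γ.ncard) (hm : 2 * Γ.ncard ≤ Nat.card Ω) (a : Ω) :
    IsPreprimitive (stabilizer G a) (SubMulAction.ofStabilizer G a) := by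
  have htr : IsPretransitive G Ω := isPretransitive_of_is_two_pretransitive
  have htrH : IsPretransitive (stabilizer G a) (SubMulAction.ofStabilizer G a) := by
    rw [← is_one_pretransitive_iff]
    exact SubMulAction.ofStabilizer.isMultiplyPretransitive.mp h2t
  refine { toIsPretransitive := htrH, isTrivialBlock_of_isBlock := ?_ }
  intro B hB
  by_cases hs : B.Subsingleton
  · exact Or.inl hs
  · right
    rw [Set.not_subsingleton_iff] at hs
    obtain ⟨x, hx, y, hy, hxy⟩ := hs
    have hB' : IsBlock (stabilizer G a) (Subtype.val '' B : Set Ω) := isBlock_subtypeVal.mpr hB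
    have haB' : a ∉ (Subtype.val '' B : Set Ω) := SubMulAction.notMem_val_image G B
    have hall := block_full h2t Γ hΓ h1 hm hB' haB' (Set.mem_image_of_mem _ hx)
      (Set.mem_image_of_mem _ hy) (fun h => hxy (Subtype.ext h))
    apply Set.eq_univ_of_forall
    intro z
    obtain ⟨w, hw, hwz⟩ := hall z z.2
    have hwz' : w = z := Subtype.ext hwz
    exact hwz' ▸ hw

end core

/-- Let G be a finite primitive permutation group on Ω of degree n and Γ ⊂ Ω a subset with 1 < #Γ ≤ n/2 such that the pointwise stabilizer of Ω ∖ Γ is transitive on Γ. Then G is 3-transitive on Ω. -/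
theorem result {G Ω : Type*} [Group G] [Finite G] [MulAction G Ω] [FaithfulSMul G Ω] [Finite Ω] (hprim : MulAction.IsPreprimitive G Ω) (Γ : Set Ω) (h1 : 1 < Γ.ncard) (h2 : 2 * Γ.ncard ≤ Nat.card Ω) (htr : ∀ x ∈ Γ, ∀ y ∈ Γ, ∃ g : G, (∀ z ∉ Γ, g • z = z) ∧ g • x = y) : MulAction.IsMultiplyPretransitive G Ω 3 := by
  have hΓ : IsJ G Γ := htr
  have hc : Γ.ncard + Γᶜ.ncard = Nat.card Ω := Set.ncard_add_ncard_compl Γ
  have h2t : IsMultiplyPretransitive G Ω 2 := by
    obtain ⟨n, hn⟩ : ∃ n, Γᶜ.ncard = n + 1 := ⟨Γᶜ.ncard - 1, by omega⟩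
    apply hprim.is_two_pretransitive hn (by omega)
    apply isPretransitive_ofFixingSubgroup_of_isJ
    rw [compl_compl]
    exact hΓ
  have htrans : IsPretransitive G Ω := hprim.toIsPretransitive
  have hcompl : 1 < Γᶜ.ncard := by omega
  obtain ⟨a, ha, b, hb, hab⟩ := (Set.one_lt_ncard (Set.toFinite _)).mp hcompl
  have hprimH := isPreprimitive_stabilizer h2t Γ hΓ h1 h2 a
  rw [SubMulAction.ofStabilizer.isMultiplyPretransitive (a := a)]
  let s' : Set (SubMulAction.ofStabilizer G a) := {z | (z : Ω) ∉ Γ}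
  have hJ' : IsJ (stabilizer G a) s'ᶜ := by
    intro x hx y hy
    have hx' : (x : Ω) ∈ Γ := by simpa [s'] using hx
    have hy' : (y : Ω) ∈ Γ := by simpa [s'] using hy
    obtain ⟨g, hg, hgx⟩ := htr x hx' y hy'
    refine ⟨⟨g, hg a ha⟩, ?_, Subtype.ext hgx⟩
    intro z hz
    have hz' : (z : Ω) ∉ Γ := by simpa [s'] using hz
    exact Subtype.ext (hg z hz')
  have hs'1 : 0 < s'.ncard := by
    rw [Set.ncard_pos]
    exact ⟨⟨b, fun h => hab h.symm⟩, hb⟩
  have hs'2 : 1 < s'ᶜ.ncard := by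
    obtain ⟨u, hu, v, hv, huv⟩ := (Set.one_lt_ncard (Set.toFinite _)).mp h1
    rw [Set.one_lt_ncard (Set.toFinite _)]
    refine ⟨⟨u, fun h => ha (h ▸ hu)⟩, ?_, ⟨v, fun h => ha (h ▸ hv)⟩, ?_,
      fun h => huv (congrArg Subtype.val h)⟩
    · simpa [s'] using hu
    · simpa [s'] using hv
  have hc' : s'.ncard + s'ᶜ.ncard = Nat.card (SubMulAction.ofStabilizer G a) :=
    Set.ncard_add_ncard_compl s'
  obtain ⟨n, hn⟩ : ∃ n, s'.ncard = n + 1 := ⟨s'.ncard - 1, by omega⟩
  exact hprimH.is_two_pretransitive hn (by omega) (isPretransitive_ofFixingSubgroup_of_isJ hJ')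

end Cfsg.Agent.S3707
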