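import Cfsg.Statements.S3733
import Mathlib

set_option autoImplicit false
open Cfsg

namespace Cfsg.Agent.S3733

open scoped IsMulCommutative in
/-- Let A and V be subgroups of a finite group with V abelian and nontrivial and A normalizing V. Suppose a nonempty finite family of proper subgroups of A partitions A: every non-identity element of A lies in exactly one member. If the number of members minus one is coprime to the order of V, then some member B of the family has a non-identity fixed point on V, that is V ∩ C(B) ≠ 1. -/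
theorem result {G : Type*} [Group G] [Finite G] (A V : Subgroup G) (hVab : IsMulCommutative V) (hV : V ≠ ⊥) (hAV : A ≤ Subgroup.normalizer (V : Set G)) (𝒜 : Finset (Subgroup G)) (hne : 𝒜.Nonempty) (hprop : ∀ B ∈ 𝒜, B < A) (hpart : ∀ a ∈ A, a ≠ 1 → ∃! B, B ∈ 𝒜 ∧ a ∈ B) (hk : (𝒜.card - 1).Coprime (Nat.card V)) : ∃ B ∈ 𝒜, V ⊓ Subgroup.centralizer (B : Set G) ≠ ⊥ := by
  classical
  by_contra hcon
  push Not at hcon
  have : Fintype G := Fintype.ofFinite G
  -- the conjugation action on V
  let f : G → V → V := fun a v =>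
    if h : a ∈ Subgroup.normalizer (V : Set G) then
      ⟨a * v * a⁻¹, (Subgroup.mem_normalizer_iff.mp h v).mp v.2⟩ else v
  have hf_val : ∀ a ∈ A, ∀ v : V, ((f a v : V) : G) = a * v * a⁻¹ := by
    intro a ha v
    simp only [f, dif_pos (hAV ha)]
  have hf_mul : ∀ a ∈ A, ∀ b ∈ A, ∀ v : V, f (a * b) v = f a (f b v) := by
    intro a ha b hb v
    apply Subtype.ext
    rw [hf_val _ (A.mul_mem ha hb), hf_val a ha, hf_val b hb]
    group
  have hf_one : ∀ v : V, f 1 v = v := by
    intro v
    apply Subtype.ext
    rw [hf_val 1 A.one_mem]; simp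
  -- f a is multiplicative
  have hf_hom : ∀ a ∈ A, ∀ (s : Finset G) (F : G → V), f a (∏ x ∈ s, F x) = ∏ x ∈ s, f a (F x) := by
    intro a ha s F
    induction s using Finset.induction_on with
    | empty =>
      simp only [Finset.prod_empty]
      apply Subtype.ext
      rw [hf_val a ha]; simp
    | insert x s hx ih =>
      rw [Finset.prod_insert hx, Finset.prod_insert hx, ← ih]
      apply Subtype.ext
      rw [hf_val a ha]
      simp only [Subgroup.coe_mul]
      rw [hf_val a ha, hf_val a ha]
      group
  -- norm over a subgroup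
  let N : Subgroup G → V → V := fun B v => ∏ b ∈ Finset.univ.filter (· ∈ B), f b v
  -- the norm is fixed by B
  have hN_fix : ∀ B : Subgroup G, B ≤ A → ∀ v : V, ∀ b ∈ B, f b (N B v) = N B v := by
    intro B hBA v b hb
    simp only [N]
    rw [hf_hom b (hBA hb)]
    refine Finset.prod_bij (fun x _ => b * x) ?_ ?_ ?_ ?_
    · intro x hx
      simp only [Finset.mem_filter, Finset.mem_univ, true_and] at hx ⊢
      exact B.mul_mem hb hx
    · intro x _ y _ hxy
      exact mul_left_cancel hxy
    · intro y hy
      simp only [Finset.mem_filter, Finset.mem_univ, true_and] at hy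
      refine ⟨b⁻¹ * y, ?_, by simp⟩
      simp only [Finset.mem_filter, Finset.mem_univ, true_and]
      exact B.mul_mem (B.inv_mem hb) hy
    · intro x hx
      simp only [Finset.mem_filter, Finset.mem_univ, true_and] at hx
      rw [hf_mul b (hBA hb) x (hBA hx)]
  -- hence the norm lies in the centralizer of B
  have hN_cent : ∀ B : Subgroup G, B ≤ A → ∀ v : V, ((N B v : V) : G) ∈ V ⊓ Subgroup.centralizer (B : Set G) := by
    intro B hBA v
    refine ⟨(N B v).2, Subgroup.mem_centralizer_iff.mpr ?_⟩
    intro b hb
    have h1 := congrArg Subtype.val (hN_fix B hBA v b hb)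
    rw [hf_val b (hBA hb)] at h1
    calc b * (N B v : G) = b * (N B v : G) * b⁻¹ * b := by group
      _ = (N B v : G) * b := by rw [h1]
  obtain ⟨B₀, hB₀⟩ := hne
  have hN_one : ∀ B ∈ 𝒜, ∀ v : V, N B v = 1 := by
    intro B hB v
    have h1 := hN_cent B (hprop B hB).le v
    rw [hcon B hB, Subgroup.mem_bot] at h1
    exact Subtype.ext h1
  have hNA_one : ∀ v : V, N A v = 1 := by
    intro v
    have h1 := hN_cent A le_rfl v
    have h2 : V ⊓ Subgroup.centralizer (A : Set G) ≤ V ⊓ Subgroup.centralizer (B₀ : Set G) :=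
      inf_le_inf_left V (Subgroup.centralizer_le (hprop B₀ hB₀).le)
    have h3 := h2 h1
    rw [hcon B₀ hB₀, Subgroup.mem_bot] at h3
    exact Subtype.ext h3
  -- counting identity
  have hcount : ∀ v : V, ∏ B ∈ 𝒜, N B v = N A v * v ^ (𝒜.card - 1) := by
    intro v
    simp only [N]
    have h1 : ∀ B ∈ 𝒜, ∏ b ∈ Finset.univ.filter (· ∈ B), f b v
        = ∏ a ∈ Finset.univ.filter (· ∈ A), if a ∈ B then f a v else 1 := by
      intro B hB
      rw [← Finset.prod_filter, Finset.filter_filter]
      congr 1
      ext x
      simp only [Finset.mem_filter, Finset.mem_univ, true_and]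
      constructor
      · intro hx; exact ⟨(hprop B hB).le hx, hx⟩
      · intro hx; exact hx.2
    rw [Finset.prod_congr rfl h1, Finset.prod_comm]
    have h2 : ∀ a ∈ Finset.univ.filter (· ∈ A), (∏ B ∈ 𝒜, if a ∈ B then f a v else 1)
        = f a v * (if a = 1 then v ^ (𝒜.card - 1) else 1) := by
      intro a ha
      simp only [Finset.mem_filter, Finset.mem_univ, true_and] at ha
      rw [Finset.prod_ite, Finset.prod_const_one, mul_one, Finset.prod_const]
      by_cases h1a : a = 1
      · subst h1a
        rw [if_pos rfl, hf_one]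
        have : Finset.filter (fun B : Subgroup G => (1 : G) ∈ B) 𝒜 = 𝒜 := by
          apply Finset.filter_true_of_mem
          intro B _; exact B.one_mem
        rw [this]
        have hpos : 0 < 𝒜.card := Finset.card_pos.mpr ⟨B₀, hB₀⟩
        rw [← pow_succ']
        congr 1
        omega
      · rw [if_neg h1a, mul_one]
        obtain ⟨B, ⟨hB, haB⟩, huniq⟩ := hpart a ha h1a
        have : Finset.filter (fun B : Subgroup G => a ∈ B) 𝒜 = {B} := by
          ext B'
          simp only [Finset.mem_filter, Finset.mem_singleton]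
          constructor
          · intro h; exact huniq B' h
          · intro h; subst h; exact ⟨hB, haB⟩
        rw [this, Finset.card_singleton, pow_one]
    rw [Finset.prod_congr rfl h2, Finset.prod_mul_distrib]
    congr 1
    rw [Finset.prod_ite_eq']
    simp
  -- conclusion
  have hpow : ∀ v : V, v ^ (𝒜.card - 1) = 1 := by
    intro v
    have h := hcount v
    rw [hNA_one, one_mul, Finset.prod_congr rfl (fun B hB => hN_one B hB v), Finset.prod_const_one] at h
    exact h.symm
  apply hV
  rw [Subgroup.eq_bot_iff_forall]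
  intro x hx
  have h1 := hpow ⟨x, hx⟩
  have h2 : (⟨x, hx⟩ : V) ^ Nat.card V = 1 := pow_card_eq_one'
  have h3 : orderOf (⟨x, hx⟩ : V) ∣ 1 := by
    have := Nat.dvd_gcd (orderOf_dvd_of_pow_eq_one h1) (orderOf_dvd_of_pow_eq_one h2)
    rwa [Nat.Coprime.gcd_eq_one hk] at this
  have h4 : (⟨x, hx⟩ : V) = 1 := orderOf_eq_one_iff.mp (Nat.dvd_one.mp h3)
  exact congrArg Subtype.val h4

end Cfsg.Agent.S3733
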