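import Mathlib
import Cfsg.Statements.S3734
import Cfsg.Agent.S0058
import Cfsg.Agent.S0026
import Cfsg.Agent.Lib.Helper24.ConjAction

set_option autoImplicit false

open Cfsg

namespace Cfsg.Agent.S3734

open scoped commutatorElement Pointwise
open Cfsg.Agent.Lib.Helper24.ConjAction

/-- rank-2 coprime generation, automorphism form (via the semidirect product) -/
theorem rank2_aut {H : Type*} [Group H] [Finite H] (Abar : Subgroup (MulAut H))
    (hab : ∀ u ∈ Abar, ∀ v ∈ Abar, u * v = v * u)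
    (hcop : (Nat.card Abar).Coprime (Nat.card H)) (x y : MulAut H) (hx : x ∈ Abar) (hy : y ∈ Abar)
    (r : ℕ) [Fact r.Prime] (hxr : x ^ r = 1) (hyr : y ^ r = 1) (J : Subgroup H)
    (h0 : ∀ g : H, y g = g → g ∈ J)
    (h1 : ∀ j < r, ∀ g : H, (x * y ^ j) g = g → g ∈ J) : ∀ g : H, g ∈ J := by
  haveI : Finite (MulAut H) := Finite.of_injective (fun f : MulAut H => (f : H → H))
    (fun f g h => MulEquiv.ext (congrFun h))
  let S := H ⋊[Abar.subtype] ↥Abar
  haveI : Finite S := Finite.of_equiv _ (SemidirectProduct.equivProd (φ := Abar.subtype)).symm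
  let i : H →* S := SemidirectProduct.inl
  let A' : Subgroup S := (SemidirectProduct.inr : ↥Abar →* S).range
  let X' : Subgroup S := i.range
  haveI : IsMulCommutative A' := ⟨⟨by
    rintro ⟨_, ⟨u, rfl⟩⟩ ⟨_, ⟨v, rfl⟩⟩
    apply Subtype.ext
    show (SemidirectProduct.inr u : S) * SemidirectProduct.inr v
      = SemidirectProduct.inr v * SemidirectProduct.inr u
    rw [← map_mul, ← map_mul]
    congr 1
    exact Subtype.ext (hab u u.2 v v.2)⟩⟩
  have hnorm : A' ≤ Subgroup.normalizer (X' : Set S) := by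
    have : X'.Normal := by
      show ((SemidirectProduct.inl : H →* S).range).Normal
      rw [SemidirectProduct.range_inl_eq_ker_rightHom]; infer_instance
    rw [Subgroup.normalizer_eq_top]
    exact le_top
  have hcard : (Nat.card A').Coprime (Nat.card X') := by
    have e1 : Nat.card A' = Nat.card Abar :=
      (Nat.card_congr (Equiv.ofInjective _ SemidirectProduct.inr_injective)).symm
    have e2 : Nat.card X' = Nat.card H :=
      (Nat.card_congr (Equiv.ofInjective _ SemidirectProduct.inl_injective)).symm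
    rw [e1, e2]; exact hcop
  have hfix : ∀ (u : ↥Abar) (z : S), z ∈ X' →
      z ∈ Subgroup.centralizer {(SemidirectProduct.inr u : S)} →
      ∃ g : H, z = i g ∧ (u : MulAut H) g = g := by
    rintro u _ ⟨g, rfl⟩ hz
    refine ⟨g, rfl, ?_⟩
    rw [Subgroup.mem_centralizer_iff] at hz
    have h2 := hz _ (Set.mem_singleton _)
    have h3 := SemidirectProduct.inl_aut (φ := Abar.subtype) u g
    have h4 : (SemidirectProduct.inl (Abar.subtype u g) : S) = SemidirectProduct.inl g := by
      rw [h3, h2, mul_assoc, ← map_mul, mul_inv_cancel, map_one, mul_one]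
    exact SemidirectProduct.inl_injective h4
  have hgen := Cfsg.Agent.S0058.rank2_gen A' X' (J.map i) hnorm hcard
    (SemidirectProduct.inr ⟨x, hx⟩) (SemidirectProduct.inr ⟨y, hy⟩) ⟨_, rfl⟩ ⟨_, rfl⟩ r
    (by
      rw [← map_pow]
      have : (⟨x, hx⟩ : ↥Abar) ^ r = 1 := Subtype.ext (by simpa using hxr)
      rw [this, map_one])
    (by
      rw [← map_pow]
      have : (⟨y, hy⟩ : ↥Abar) ^ r = 1 := Subtype.ext (by simpa using hyr)
      rw [this, map_one])
    (by
      rintro z ⟨hz1, hz2⟩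
      obtain ⟨g, rfl, hg⟩ := hfix ⟨y, hy⟩ z hz1 hz2
      exact ⟨g, h0 g hg, rfl⟩)
    (by
      intro j hj
      rintro z ⟨hz1, hz2⟩
      have e : (SemidirectProduct.inr (⟨x, hx⟩ : ↥Abar) : S) * (SemidirectProduct.inr ⟨y, hy⟩) ^ j
          = SemidirectProduct.inr ((⟨x, hx⟩ : ↥Abar) * ⟨y, hy⟩ ^ j) := by
        rw [map_mul, map_pow]
      rw [e] at hz2
      obtain ⟨g, rfl, hg⟩ := hfix _ z hz1 hz2
      exact ⟨g, h1 j hj g (by simpa using hg), rfl⟩)
  intro g
  obtain ⟨g', hg', hgg⟩ := hgen ⟨g, rfl⟩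
  rw [← SemidirectProduct.inl_injective hgg]; exact hg'

variable {X : Type*} [Group X]

theorem mem_normalizer_inf {G C : Subgroup X} {a : X}
    (h1 : a ∈ Subgroup.normalizer (G : Set X)) (h2 : a ∈ C) :
    a ∈ Subgroup.normalizer ((G ⊓ C : Subgroup X) : Set X) := by
  rw [Subgroup.mem_normalizer_iff]
  intro g
  rw [Subgroup.mem_inf, Subgroup.mem_inf, ← Subgroup.mem_normalizer_iff.mp h1 g]
  constructor
  · rintro ⟨hg1, hg2⟩
    exact ⟨hg1, C.mul_mem (C.mul_mem h2 hg2) (C.inv_mem h2)⟩
  · rintro ⟨hg1, hg2⟩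
    refine ⟨hg1, ?_⟩
    have := C.mul_mem (C.mul_mem (C.inv_mem h2) hg2) h2
    simpa [mul_assoc] using this

theorem conj_comm_of_commute {c b : X} (n : X) (h : b * c = c * b) :
    c * ⁅n, b⁆ * c⁻¹ = ⁅c * n * c⁻¹, b⁆ := by
  have h1 : c⁻¹ * b = b * c⁻¹ := by
    calc c⁻¹ * b = c⁻¹ * (b * c) * c⁻¹ := by group
      _ = c⁻¹ * (c * b) * c⁻¹ := by rw [h]
      _ = b * c⁻¹ := by group
  have h2 : b⁻¹ * c⁻¹ = c⁻¹ * b⁻¹ := by
    calc b⁻¹ * c⁻¹ = (c * b)⁻¹ := by group
      _ = (b * c)⁻¹ := by rw [h]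
      _ = c⁻¹ * b⁻¹ := by group
  simp only [commutatorElement_def]
  calc c * (n * b * n⁻¹ * b⁻¹) * c⁻¹ = c * n * b * n⁻¹ * (b⁻¹ * c⁻¹) := by group
    _ = c * n * b * n⁻¹ * (c⁻¹ * b⁻¹) := by rw [h2]
    _ = c * n * (b * c⁻¹) * c * n⁻¹ * c⁻¹ * b⁻¹ := by group
    _ = c * n * (c⁻¹ * b) * c * n⁻¹ * c⁻¹ * b⁻¹ := by rw [h1]
    _ = c * n * c⁻¹ * b * (c * n * c⁻¹)⁻¹ * b⁻¹ := by group

theorem conj_mem_biSup {ι : Type*} (f : ι → Subgroup X) (S : Set ι) (g : X)
    (h : ∀ i ∈ S, ∀ k ∈ f i, g * k * g⁻¹ ∈ f i) :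
    ∀ k ∈ ⨆ i ∈ S, f i, g * k * g⁻¹ ∈ ⨆ i ∈ S, f i := by
  have key : (⨆ i ∈ S, f i) ≤ (⨆ i ∈ S, f i).comap (MulAut.conj g).toMonoidHom := by
    apply iSup₂_le
    intro i hi k hk
    rw [Subgroup.mem_comap]
    exact (le_biSup f hi) (h i hi k hk)
  intro k hk
  exact key hk

/-- part (a) -/
theorem gen_le [Finite X] (A : Subgroup X) [hAab : IsMulCommutative A] :
    ∀ (n : ℕ) (G : Subgroup X), Nat.card G = n → A ≤ Subgroup.normalizer (G : Set X) →
      (Nat.card A).Coprime (Nat.card G) →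
      G ≤ ⨆ B ∈ {B : Subgroup X | B ≤ A ∧ ∃ a ∈ A, B ⊔ Subgroup.zpowers a = A},
        G ⊓ Subgroup.centralizer (B : Set X) := by
  intro n
  induction n using Nat.strong_induction_on with
  | _ n ih =>
    intro G hn hAG hcop
    set J := ⨆ B ∈ {B : Subgroup X | B ≤ A ∧ ∃ a ∈ A, B ⊔ Subgroup.zpowers a = A},
        G ⊓ Subgroup.centralizer (B : Set X) with hJ
    have key : ∀ e ∈ A, ¬ (G ≤ Subgroup.centralizer {e}) →
        G ⊓ Subgroup.centralizer {e} ≤ J := by
      intro e he hne
      have hlt : Nat.card (G ⊓ Subgroup.centralizer {e} : Subgroup X) < n := by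
        rw [← hn]
        by_contra hcon
        push_neg at hcon
        have h2 := Subgroup.eq_of_le_of_card_ge
          (inf_le_left : G ⊓ Subgroup.centralizer {e} ≤ G) hcon
        apply hne
        rw [← h2]
        exact inf_le_right
      have hnorm : A ≤ Subgroup.normalizer
          ((G ⊓ Subgroup.centralizer {e} : Subgroup X) : Set X) := by
        intro a ha
        apply mem_normalizer_inf (hAG ha)
        rw [Subgroup.mem_centralizer_iff]
        intro z hz
        rw [Set.mem_singleton_iff] at hz; subst hz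
        exact setLike_mul_comm he ha
      have hcop' : (Nat.card A).Coprime
          (Nat.card (G ⊓ Subgroup.centralizer {e} : Subgroup X)) :=
        Nat.Coprime.coprime_dvd_right (Subgroup.card_dvd_of_le inf_le_left) hcop
      refine (ih _ hlt _ rfl hnorm hcop').trans ?_
      apply iSup₂_mono
      intro B _
      exact inf_le_inf_right _ inf_le_left
    set φ := conjHom A G hAG with hφ
    by_cases hcyc : IsCyclic ↥φ.range
    · obtain ⟨⟨_, ⟨a, rfl⟩⟩, hgen⟩ := hcyc.exists_generator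
      have hB : (A ⊓ Subgroup.centralizer (G : Set X)) ∈
          {B : Subgroup X | B ≤ A ∧ ∃ a ∈ A, B ⊔ Subgroup.zpowers a = A} := by
        refine ⟨inf_le_left, (a : X), a.2, ?_⟩
        apply le_antisymm
        · exact sup_le inf_le_left ((Subgroup.zpowers_le).mpr a.2)
        · intro u hu
          have h1 := hgen ⟨φ ⟨u, hu⟩, ⟨_, rfl⟩⟩
          obtain ⟨k, hk⟩ := Subgroup.mem_zpowers_iff.mp h1
          have h2 : φ (a ^ k) = φ ⟨u, hu⟩ := by
            have := congrArg Subtype.val hk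
            rw [map_zpow]
            simpa using this
          have hd : ((a : X) ^ k)⁻¹ * u ∈ A ⊓ Subgroup.centralizer (G : Set X) := by
            refine ⟨A.mul_mem (A.inv_mem (A.zpow_mem a.2 k)) hu, ?_⟩
            show _ ∈ Subgroup.centralizer _
            rw [Subgroup.mem_centralizer_iff]
            intro g hg
            have h3 := congrArg (fun f => ((f ⟨g, hg⟩ : ↥G) : X)) h2
            simp only [hφ, conjHom_apply, Subgroup.coe_zpow] at h3
            have h4 : g = ((a : X) ^ k)⁻¹ * (u * g * u⁻¹) * (a : X) ^ k := by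
              rw [← h3]; group
            calc g * (((a : X) ^ k)⁻¹ * u)
                = ((a : X) ^ k)⁻¹ * (u * g * u⁻¹) * (a : X) ^ k * (((a : X) ^ k)⁻¹ * u) := by
                  rw [← h4]
              _ = ((a : X) ^ k)⁻¹ * u * g := by group
          have e : u = (a : X) ^ k * (((a : X) ^ k)⁻¹ * u) := by group
          rw [e]
          exact Subgroup.mul_mem _ (Subgroup.mem_sup_right (Subgroup.zpow_mem_zpowers _ k))
            (Subgroup.mem_sup_left hd)
      refine le_trans ?_ (le_biSup (fun B : Subgroup X => G ⊓ Subgroup.centralizer (B : Set X)) hB)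
      refine le_inf le_rfl ?_
      intro g hg
      rw [Subgroup.mem_centralizer_iff]
      intro d hd
      have := (Subgroup.mem_centralizer_iff.mp hd.2) g hg
      exact this.symm
    · obtain ⟨r, hr, x, y, hx, hy, hy1, hxy⟩ := Cfsg.Agent.S0058.exists_xy (α := ↥φ.range)
        (by
          rintro ⟨_, ⟨u, rfl⟩⟩ ⟨_, ⟨v, rfl⟩⟩
          apply Subtype.ext
          show φ u * φ v = φ v * φ u
          rw [← map_mul, ← map_mul]
          congr 1
          exact Subtype.ext (setLike_mul_comm u.2 v.2)) hcyc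
      have := Fact.mk hr
      have fixJ : ∀ u' : MulAut ↥G, u' ∈ φ.range → u' ≠ 1 → ∀ g : ↥G, u' g = g → (g : X) ∈ J := by
        rintro u' ⟨b, rfl⟩ hne g hg
        apply key b b.2 ?_
        · refine ⟨g.2, ?_⟩
          show _ ∈ Subgroup.centralizer _
          rw [Subgroup.mem_centralizer_iff]
          intro z hz
          rw [Set.mem_singleton_iff] at hz; subst hz
          have h3 := congrArg Subtype.val hg
          simp only [hφ, conjHom_apply] at h3
          calc (b : X) * g = b * g * (b : X)⁻¹ * b := by group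
            _ = g * b := by rw [h3]
        · intro hle
          apply hne
          apply MulEquiv.ext
          intro g'
          apply Subtype.ext
          simp only [hφ, conjHom_apply]
          have h4 := (Subgroup.mem_centralizer_iff.mp (hle g'.2)) (b : X) (Set.mem_singleton _)
          show (b : X) * g' * (b : X)⁻¹ = g'
          rw [h4]; group
      have hall := rank2_aut φ.range
        (by
          rintro _ ⟨u, rfl⟩ _ ⟨v, rfl⟩
          rw [← map_mul, ← map_mul]
          congr 1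
          exact Subtype.ext (setLike_mul_comm u.2 v.2))
        (card_range_coprime A G hAG hcop) (x : MulAut ↥G) (y : MulAut ↥G) x.2 y.2 r
        (by have := congrArg Subtype.val hx; simpa using this)
        (by have := congrArg Subtype.val hy; simpa using this)
        (J.subgroupOf G)
        (by
          intro g hg
          rw [Subgroup.mem_subgroupOf]
          exact fixJ _ y.2 (fun h => hy1 (Subtype.ext h)) g hg)
        (by
          intro j hj g hg
          rw [Subgroup.mem_subgroupOf]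
          refine fixJ _ (x * y ^ j).2 (fun h => hxy j hj (Subtype.ext ?_)) g (by simpa using hg)
          simpa using h)
      intro g hg
      have := hall ⟨g, hg⟩
      rwa [Subgroup.mem_subgroupOf] at this

/-- part (b) -/
theorem comm_le [Finite X] (A G : Subgroup X) [hAab : IsMulCommutative A]
    (hAG : A ≤ Subgroup.normalizer (G : Set X)) (hcop : (Nat.card A).Coprime (Nat.card G)) :
    ⁅G, A⁆ ≤ ⨆ B ∈ {B : Subgroup X | B ≤ A ∧ ∃ a ∈ A, B ⊔ Subgroup.zpowers a = A},
        ⁅G ⊓ Subgroup.centralizer (B : Set X), A⁆ := by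
  have hsolvA : Group.IsSolvable A :=
    Group.isSolvable_of_comm (fun u v => Subtype.ext (setLike_mul_comm u.2 v.2))
  set N := ⁅G, A⁆ with hN
  have hNG : N ≤ G := Cfsg.Agent.S0026.commutator_le_of_le_normalizer hAG
  have hAN : A ≤ Subgroup.normalizer (N : Set X) :=
    Cfsg.Agent.S0026.le_normalizer_commutator_right G A
  have hcopN : (Nat.card A).Coprime (Nat.card N) :=
    Nat.Coprime.coprime_dvd_right (Subgroup.card_dvd_of_le hNG) hcop
  set KN := ⨆ B ∈ {B : Subgroup X | B ≤ A ∧ ∃ a ∈ A, B ⊔ Subgroup.zpowers a = A},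
        ⁅N ⊓ Subgroup.centralizer (B : Set X), A⁆ with hKN
  have hA_KN : ∀ a ∈ A, ∀ k ∈ KN, a * k * a⁻¹ ∈ KN := by
    intro a ha
    apply conj_mem_biSup
    intro B hB k hk
    exact (Subgroup.mem_normalizer_iff.mp
      (Cfsg.Agent.S0026.le_normalizer_commutator_right _ A ha) k).mp hk
  have hC_KN : ∀ c ∈ N ⊓ Subgroup.centralizer (A : Set X), ∀ k ∈ KN, c * k * c⁻¹ ∈ KN := by
    intro c hc
    apply conj_mem_biSup
    intro B hB k hk
    have hcB : c ∈ N ⊓ Subgroup.centralizer (B : Set X) :=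
      ⟨hc.1, Subgroup.centralizer_le (SetLike.coe_subset_coe.mpr hB.1) hc.2⟩
    exact (Subgroup.mem_normalizer_iff.mp
      (Cfsg.Agent.S0026.le_normalizer_commutator_left _ A hcB) k).mp hk
  have hCn : N ⊓ Subgroup.centralizer (A : Set X) ≤ Subgroup.normalizer (KN : Set X) := by
    intro c hc
    apply Cfsg.Agent.S0026.mem_normalizer_of_conj_mem (hC_KN c hc)
    intro k hk
    have := hC_KN c⁻¹ (Subgroup.inv_mem _ hc) k hk
    rwa [inv_inv] at this
  -- N ≤ C_N(A) ⊔ KN
  have hNle : N ≤ (N ⊓ Subgroup.centralizer (A : Set X)) ⊔ KN := by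
    refine (gen_le A _ N rfl hAN hcopN).trans ?_
    apply iSup₂_le
    intro B hB
    have hBn : A ≤ Subgroup.normalizer
        ((N ⊓ Subgroup.centralizer (B : Set X) : Subgroup X) : Set X) := by
      intro a ha
      apply mem_normalizer_inf (hAN ha)
      rw [Subgroup.mem_centralizer_iff]
      intro z hz
      exact setLike_mul_comm (hB.1 hz) ha
    have hcopB : (Nat.card A).Coprime
        (Nat.card (N ⊓ Subgroup.centralizer (B : Set X) : Subgroup X)) :=
      Nat.Coprime.coprime_dvd_right (Subgroup.card_dvd_of_le inf_le_left) hcopN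
    intro k hk
    obtain ⟨c, hc, w, hw, rfl⟩ := Cfsg.Agent.S0026.exists_decomp A _ hBn hcopB (Or.inl hsolvA) k hk
    refine Subgroup.mul_mem _ (Subgroup.mem_sup_left ⟨hc.1.1, hc.2⟩) (Subgroup.mem_sup_right ?_)
    exact (le_biSup (fun B : Subgroup X => ⁅N ⊓ Subgroup.centralizer (B : Set X), A⁆) hB) hw
  -- [N, A] ≤ KN
  have hNA : ⁅N, A⁆ ≤ KN := by
    rw [Subgroup.commutator_le]
    intro n hn a ha
    have h1 : n ∈ (((N ⊓ Subgroup.centralizer (A : Set X)) ⊔ KN : Subgroup X) : Set X) := hNle hn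
    rw [Subgroup.coe_mul_of_left_le_normalizer_right _ _ hCn] at h1
    obtain ⟨c, hc, k, hk, rfl⟩ := Set.mem_mul.mp h1
    have hca : a * c = c * a := (Subgroup.mem_centralizer_iff.mp hc.2) a ha
    have e : ⁅c * k, a⁆ = c * (k * (a * k⁻¹ * a⁻¹)) * c⁻¹ := by
      have hca' : a * c⁻¹ = c⁻¹ * a := by
        calc a * c⁻¹ = c⁻¹ * (c * a) * c⁻¹ := by group
          _ = c⁻¹ * (a * c) * c⁻¹ := by rw [hca]
          _ = c⁻¹ * a := by group
      simp only [commutatorElement_def, mul_inv_rev]
      calc c * k * a * (k⁻¹ * c⁻¹) * a⁻¹ = c * k * a * k⁻¹ * (a * c)⁻¹ := by group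
        _ = c * k * a * k⁻¹ * (c * a)⁻¹ := by rw [hca]
        _ = c * (k * (a * k⁻¹ * a⁻¹)) * c⁻¹ := by group
    rw [e]
    apply hC_KN c hc
    exact Subgroup.mul_mem _ hk (hA_KN a ha _ (Subgroup.inv_mem _ hk))
  -- [G, A] ≤ [N, A]
  have hGA : ⁅G, A⁆ ≤ ⁅N, A⁆ := by
    rw [Subgroup.commutator_le]
    intro g hg a ha
    obtain ⟨c, hc, w, hw, rfl⟩ := Cfsg.Agent.S0026.exists_decomp A G hAG hcop (Or.inl hsolvA) g hg
    have hca : a * c = c * a := (Subgroup.mem_centralizer_iff.mp hc.2) a ha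
    have e : ⁅c * w, a⁆ = c * ⁅w, a⁆ * c⁻¹ := by
      simp only [commutatorElement_def, mul_inv_rev]
      calc c * w * a * (w⁻¹ * c⁻¹) * a⁻¹ = c * w * a * w⁻¹ * (a * c)⁻¹ := by group
        _ = c * w * a * w⁻¹ * (c * a)⁻¹ := by rw [hca]
        _ = c * (w * a * w⁻¹ * a⁻¹) * c⁻¹ := by group
    rw [e]
    -- c normalizes [N, A]: c ∈ G normalizes N = [G,A]; c centralizes A
    have hcN : c ∈ Subgroup.normalizer (N : Set X) :=
      Cfsg.Agent.S0026.le_normalizer_commutator_left G A hc.1
    have h1 : ⁅N, A⁆ ≤ (⁅N, A⁆ : Subgroup X).comap (MulAut.conj c).toMonoidHom := by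
      rw [Subgroup.commutator_le]
      intro n hn b hb
      rw [Subgroup.mem_comap]
      have hcb : b * c = c * b := (Subgroup.mem_centralizer_iff.mp hc.2) b hb
      have e2 : (MulAut.conj c).toMonoidHom ⁅n, b⁆ = ⁅c * n * c⁻¹, b⁆ :=
        conj_comm_of_commute n hcb
      rw [e2]
      exact Subgroup.commutator_mem_commutator
        ((Subgroup.mem_normalizer_iff.mp hcN n).mp hn) hb
    exact h1 (Subgroup.commutator_mem_commutator hw ha)
  refine hGA.trans (hNA.trans ?_)
  apply iSup₂_mono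
  intro B _
  exact Subgroup.commutator_mono (inf_le_inf_right _ hNG) le_rfl

/-- Let A and G be subgroups of a finite group with A abelian, A normalizing G and the orders of A and G coprime. Then G is generated by the fixed-point subgroups C_G(B) of those subgroups B of A for which A/B is cyclic (that is, A = ⟨B, a⟩ for some a), and [G, A] is generated by the commutator subgroups [C_G(B), A] over the same subgroups B. -/
theorem result {X : Type*} [Group X] [Finite X] (A G : Subgroup X) (hAab : IsMulCommutative A) (hAG : A ≤ Subgroup.normalizer (G : Set X)) (hcop : (Nat.card A).Coprime (Nat.card G)) : (⨆ B ∈ {B : Subgroup X | B ≤ A ∧ ∃ a ∈ A, B ⊔ Subgroup.zpowers a = A}, G ⊓ Subgroup.centralizer (B : Set X)) = G ∧ (⨆ B ∈ {B : Subgroup X | B ≤ A ∧ ∃ a ∈ A, B ⊔ Subgroup.zpowers a = A}, ⁅G ⊓ Subgroup.centralizer (B : Set X), A⁆) = ⁅G, A⁆ := by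
  haveI := hAab
  refine ⟨le_antisymm (iSup₂_le (fun B _ => inf_le_left)) (gen_le A _ G rfl hAG hcop), ?_⟩
  refine le_antisymm (iSup₂_le (fun B _ => Subgroup.commutator_mono inf_le_left le_rfl)) ?_
  exact comm_le A G hAG hcop

end Cfsg.Agent.S3734
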