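import Cfsg.Statements.S3735
import Mathlib

set_option autoImplicit false
open Cfsg

namespace Cfsg.Agent.S3735

section aux

variable {G : Type*} [Group G]

/-- `U` is invariant under conjugation by `K`. -/
def Inv (K U : Subgroup G) : Prop := ∀ k ∈ K, ∀ x ∈ U, k * x * k⁻¹ ∈ U

theorem inv_iff (K U : Subgroup G) : Inv K U ↔ K ≤ Subgroup.normalizer (U : Set G) := by
  constructor
  · intro h k hk
    rw [Subgroup.mem_normalizer_iff]
    intro x
    refine ⟨h k hk x, fun hx => ?_⟩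
    have := h k⁻¹ (K.inv_mem hk) _ hx
    simpa [mul_assoc] using this
  · intro h k hk x hx
    exact (Subgroup.mem_normalizer_iff.mp (h hk) x).mp hx

theorem inv_sSup {K : Subgroup G} {S : Set (Subgroup G)} (h : ∀ U ∈ S, Inv K U) :
    Inv K (sSup S) := by
  intro k hk x hx
  have hle : sSup S ≤ (sSup S).comap (MulAut.conj k).toMonoidHom := by
    apply sSup_le
    intro U hU y hy
    rw [Subgroup.mem_comap]
    exact (le_sSup hU : U ≤ sSup S) (h U hU k hk y hy)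
  exact hle hx

theorem inv_sup {K U W : Subgroup G} (hU : Inv K U) (hW : Inv K W) : Inv K (U ⊔ W) := by
  rw [← sSup_pair]
  apply inv_sSup
  intro X hX
  rcases hX with rfl | rfl
  · exact hU
  · exact hW

theorem inv_inf {K U W : Subgroup G} (hU : Inv K U) (hW : Inv K W) : Inv K (U ⊓ W) := by
  intro k hk x hx
  exact ⟨hU k hk x hx.1, hW k hk x hx.2⟩

theorem inv_bot (K : Subgroup G) : Inv K ⊥ := by
  intro k _ x hx
  rw [Subgroup.mem_bot] at hx
  subst hx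
  simp

theorem inv_mono {K K' U : Subgroup G} (h : K' ≤ K) (hU : Inv K U) : Inv K' U :=
  fun k hk x hx => hU k (h hk) x hx

/-- conjugate of a subgroup -/
def cj (h : G) (U : Subgroup G) : Subgroup G := U.map (MulAut.conj h).toMonoidHom

theorem mem_cj {h : G} {U : Subgroup G} {y : G} : y ∈ cj h U ↔ ∃ x ∈ U, h * x * h⁻¹ = y := by
  unfold cj
  rw [Subgroup.mem_map]
  rfl

theorem cj_cj (h h' : G) (U : Subgroup G) : cj h (cj h' U) = cj (h * h') U := by
  ext y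
  simp only [mem_cj]
  constructor
  · rintro ⟨x, ⟨z, hz, rfl⟩, rfl⟩
    exact ⟨z, hz, by group⟩
  · rintro ⟨z, hz, rfl⟩
    exact ⟨h' * z * h'⁻¹, ⟨z, hz, rfl⟩, by group⟩

theorem cj_one (U : Subgroup G) : cj 1 U = U := by
  ext y
  simp [mem_cj]

theorem cj_mono (h : G) {U W : Subgroup G} (hUW : U ≤ W) : cj h U ≤ cj h W :=
  Subgroup.map_mono hUW

theorem cj_ne_bot (h : G) {U : Subgroup G} (hU : U ≠ ⊥) : cj h U ≠ ⊥ := by
  intro hb
  apply hU
  have : cj h⁻¹ (cj h U) = U := by rw [cj_cj, inv_mul_cancel, cj_one]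
  rw [← this, hb]
  ext y
  simp [mem_cj, eq_comm]

theorem cj_le_of_inv {K M : Subgroup G} (hM : Inv K M) {h : G} (hh : h ∈ K) {U : Subgroup G}
    (hU : U ≤ M) : cj h U ≤ M := by
  intro y hy
  obtain ⟨x, hx, rfl⟩ := mem_cj.mp hy
  exact hM h hh x (hU hx)

theorem inv_cj {A U : Subgroup G} (hU : Inv A U) {h : G}
    (hh : ∀ a ∈ A, h⁻¹ * a * h ∈ A) : Inv A (cj h U) := by
  intro a ha y hy
  obtain ⟨x, hx, rfl⟩ := mem_cj.mp hy
  rw [mem_cj]
  refine ⟨(h⁻¹ * a * h) * x * (h⁻¹ * a * h)⁻¹, hU _ (hh a ha) x hx, by group⟩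

/-- minimal nontrivial invariant subgroups -/
def IsAt (K N : Subgroup G) : Prop :=
  N ≠ ⊥ ∧ Inv K N ∧ ∀ N' : Subgroup G, N' ≤ N → Inv K N' → N' ≠ ⊥ → N' = N

theorem exists_atom [Finite G] (K M : Subgroup G) (hM : M ≠ ⊥) (hinv : Inv K M) :
    ∃ N : Subgroup G, N ≤ M ∧ IsAt K N := by
  obtain ⟨m, hm⟩ := exists_minimal_of_wellFoundedLT
    (fun N : Subgroup G => N ≠ ⊥ ∧ Inv K N ∧ N ≤ M) ⟨M, hM, hinv, le_rfl⟩
  refine ⟨m, hm.prop.2.2, hm.prop.1, hm.prop.2.1, ?_⟩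
  intro N' hN' hinv' hne
  exact le_antisymm hN' (hm.le_of_le ⟨hne, hinv', hN'.trans hm.prop.2.2⟩ hN')

theorem mem_sup_of_commute {W N : Subgroup G} (hc : ∀ w ∈ W, ∀ n ∈ N, w * n = n * w) {x : G}
    (hx : x ∈ W ⊔ N) : ∃ w ∈ W, ∃ n ∈ N, x = w * n := by
  let P : Subgroup G :=
    { carrier := {x | ∃ w ∈ W, ∃ n ∈ N, x = w * n}
      mul_mem' := by
        rintro _ _ ⟨w, hw, n, hn, rfl⟩ ⟨w', hw', n', hn', rfl⟩
        refine ⟨w * w', W.mul_mem hw hw', n * n', N.mul_mem hn hn', ?_⟩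
        calc w * n * (w' * n') = w * (n * w') * n' := by group
          _ = w * (w' * n) * n' := by rw [hc w' hw' n hn]
          _ = w * w' * (n * n') := by group
      one_mem' := ⟨1, W.one_mem, 1, N.one_mem, by simp⟩
      inv_mem' := by
        rintro _ ⟨w, hw, n, hn, rfl⟩
        refine ⟨w⁻¹, W.inv_mem hw, n⁻¹, N.inv_mem hn, ?_⟩
        rw [mul_inv_rev, hc w⁻¹ (W.inv_mem hw) n⁻¹ (N.inv_mem hn)] }
  have hle : W ⊔ N ≤ P := by
    apply sup_le
    · intro w hw; exact ⟨w, hw, 1, N.one_mem, by simp⟩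
    · intro n hn; exact ⟨1, W.one_mem, n, hn, by simp⟩
  exact hle hx

theorem compl_of_atoms [Finite G] (K V : Subgroup G)
    (hVab : ∀ x ∈ V, ∀ y ∈ V, x * y = y * x)
    (hV : V ≤ sSup {N : Subgroup G | N ≤ V ∧ IsAt K N})
    (U : Subgroup G) (hUV : U ≤ V) (hU : Inv K U) :
    ∃ W : Subgroup G, W ≤ V ∧ Inv K W ∧ U ⊓ W = ⊥ ∧ U ⊔ W = V := by
  obtain ⟨W, hW⟩ := exists_maximal_of_wellFoundedGT
    (fun W : Subgroup G => W ≤ V ∧ Inv K W ∧ U ⊓ W = ⊥) ⟨⊥, bot_le, inv_bot K, inf_bot_eq _⟩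
  obtain ⟨hWV, hWinv, hUW⟩ := hW.prop
  refine ⟨W, hWV, hWinv, hUW, le_antisymm (sup_le hUV hWV) (hV.trans ?_)⟩
  apply sSup_le
  rintro N ⟨hNV, hNne, hNinv, hNmin⟩
  by_contra hN
  have h1 : N ⊓ (U ⊔ W) = ⊥ := by
    by_contra hne
    have := hNmin (N ⊓ (U ⊔ W)) inf_le_left (inv_inf hNinv (inv_sup hU hWinv)) hne
    exact hN (this ▸ inf_le_right)
  have h2 : U ⊓ (W ⊔ N) = ⊥ := by
    rw [Subgroup.eq_bot_iff_forall]
    rintro x ⟨hxU, hxWN⟩
    obtain ⟨w, hw, n, hn, rfl⟩ := mem_sup_of_commute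
      (fun w hw n hn => hVab w (hWV hw) n (hNV hn)) hxWN
    have hn1 : n ∈ N ⊓ (U ⊔ W) := by
      refine ⟨hn, ?_⟩
      have : n = w⁻¹ * (w * n) := by group
      rw [this]
      exact (U ⊔ W).mul_mem ((U ⊔ W).inv_mem (Subgroup.mem_sup_right hw)) (Subgroup.mem_sup_left hxU)
    rw [h1, Subgroup.mem_bot] at hn1
    subst hn1
    rw [mul_one] at hxU ⊢
    have : w ∈ U ⊓ W := ⟨hxU, hw⟩
    rwa [hUW, Subgroup.mem_bot] at this
  have h3 : W ⊔ N ≤ W := hW.le_of_ge ⟨sup_le hWV hNV, inv_sup hWinv hNinv, h2⟩ le_sup_left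
  exact hN ((le_sup_right.trans h3).trans le_sup_right)

end aux

/-- Clifford's Theorem for actions on finite abelian groups, first part. Let H and V be subgroups of a finite group with V abelian and H normalizing V, and let A be a normal subgroup of H. If every H-invariant subgroup of V has an H-invariant complement in V, then every A-invariant subgroup of V has an A-invariant complement in V. -/
theorem result {G : Type*} [Group G] [Finite G] (H A V : Subgroup G) (hVab : IsMulCommutative V) (hHV : H ≤ Subgroup.normalizer (V : Set G)) (hAH : A ≤ H) (hAn : H ≤ Subgroup.normalizer (A : Set G)) (hss : ∀ U : Subgroup G, U ≤ V → H ≤ Subgroup.normalizer (U : Set G) → ∃ W : Subgroup G, W ≤ V ∧ H ≤ Subgroup.normalizer (W : Set G) ∧ U ⊓ W = ⊥ ∧ U ⊔ W = V) (U : Subgroup G) (hUV : U ≤ V) (hAU : A ≤ Subgroup.normalizer (U : Set G)) : ∃ W : Subgroup G, W ≤ V ∧ A ≤ Subgroup.normalizer (W : Set G) ∧ U ⊓ W = ⊥ ∧ U ⊔ W = V := by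
  have hVinvH : Inv H V := (inv_iff H V).mpr hHV
  have hVc : ∀ x ∈ V, ∀ y ∈ V, x * y = y * x := by
    intro x hx y hy
    have := mul_comm' (⟨x, hx⟩ : V) ⟨y, hy⟩
    exact congrArg Subtype.val this
  -- V is generated by its H-atoms
  have step1 : V ≤ sSup {M : Subgroup G | M ≤ V ∧ IsAt H M} := by
    set S := sSup {M : Subgroup G | M ≤ V ∧ IsAt H M} with hS
    have hSV : S ≤ V := sSup_le (fun M hM => hM.1)
    have hSinv : Inv H S := inv_sSup (fun M hM => hM.2.2.1)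
    obtain ⟨W, hWV, hWn, hSW, hSWV⟩ := hss S hSV ((inv_iff H S).mp hSinv)
    have hWbot : W = ⊥ := by
      by_contra hne
      obtain ⟨N, hNW, hNat⟩ := exists_atom H W hne ((inv_iff H W).mpr hWn)
      have hNS : N ≤ S := le_sSup ⟨hNW.trans hWV, hNat⟩
      have : N ≤ S ⊓ W := le_inf hNS hNW
      rw [hSW] at this
      exact hNat.1 (le_bot_iff.mp this)
    rw [hWbot, sup_bot_eq] at hSWV
    exact hSWV.ge
  -- each H-atom is generated by A-atoms
  have step2 : ∀ M : Subgroup G, M ≤ V → IsAt H M →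
      M ≤ sSup {N : Subgroup G | N ≤ V ∧ IsAt A N} := by
    intro M hMV hMat
    obtain ⟨hMne, hMinv, hMmin⟩ := hMat
    obtain ⟨N, hNM, hNne, hNinv, hNmin⟩ := exists_atom A M hMne (inv_mono hAH hMinv)
    set J := sSup {X : Subgroup G | ∃ h ∈ H, X = cj h N} with hJ
    have hJM : J ≤ M := by
      apply sSup_le
      rintro X ⟨h, hh, rfl⟩
      exact cj_le_of_inv hMinv hh hNM
    have hJinv : Inv H J := by
      intro k hk x hx
      have hle : J ≤ J.comap (MulAut.conj k).toMonoidHom := by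
        apply sSup_le
        rintro X ⟨h, hh, rfl⟩ y hy
        rw [Subgroup.mem_comap]
        have h1 : cj (k * h) N ≤ J := le_sSup ⟨k * h, H.mul_mem hk hh, rfl⟩
        apply h1
        rw [← cj_cj]
        exact mem_cj.mpr ⟨y, hy, rfl⟩
      exact hle hx
    have hNJ : N ≤ J := by
      have : cj 1 N ≤ J := le_sSup ⟨1, H.one_mem, rfl⟩
      rwa [cj_one] at this
    have hJne : J ≠ ⊥ := fun hb => hNne (le_bot_iff.mp (hb ▸ hNJ))
    have hJeq : J = M := hMmin J hJM hJinv hJne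
    rw [← hJeq]
    apply sSup_le
    rintro X ⟨h, hh, rfl⟩
    apply le_sSup
    have hnorm : ∀ (h : G), h ∈ H → ∀ a ∈ A, h⁻¹ * a * h ∈ A := by
      intro h hh a ha
      have := (Subgroup.mem_normalizer_iff.mp (hAn (H.inv_mem hh)) a).mp ha
      simpa using this
    refine ⟨(cj_le_of_inv hMinv hh hNM).trans hMV, cj_ne_bot h hNne, inv_cj hNinv (hnorm h hh), ?_⟩
    intro N' hN' hN'inv hN'ne
    have h1 : cj h⁻¹ N' ≤ N := by
      have := cj_mono h⁻¹ hN'
      rwa [cj_cj, inv_mul_cancel, cj_one] at this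
    have h2 : cj h⁻¹ N' = N := by
      refine hNmin _ h1 (inv_cj hN'inv ?_) (cj_ne_bot h⁻¹ hN'ne)
      intro a ha
      have := hnorm h⁻¹ (H.inv_mem hh) a ha
      simpa using this
    rw [← h2, cj_cj, mul_inv_cancel, cj_one]
  have step3 : V ≤ sSup {N : Subgroup G | N ≤ V ∧ IsAt A N} := by
    refine step1.trans (sSup_le ?_)
    rintro M ⟨hMV, hMat⟩
    exact step2 M hMV hMat
  obtain ⟨W, hWV, hWinv, h1, h2⟩ := compl_of_atoms A V hVc step3 U hUV ((inv_iff A U).mpr hAU)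
  exact ⟨W, hWV, (inv_iff A W).mp hWinv, h1, h2⟩

end Cfsg.Agent.S3735
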