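import Mathlib
import Cfsg.Statements.S3738
import Cfsg.Agent.Lib.Helper24.RealCount
import Cfsg.Agent.Lib.Helper24.ConjAction
import Cfsg.Agent.Lib.Helper24.SpecialGroup
import Cfsg.Agent.S0026
import Cfsg.Agent.S0027

set_option autoImplicit false
open Cfsg

namespace Cfsg.Agent.S3738

open scoped commutatorElement
open Cfsg.Agent.Lib.Helper24.ConjAction Cfsg.Agent.Lib.Helper24.SpecialGroup

/-- The closure of a set of pairwise commuting involutions is elementary abelian. -/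
theorem closure_elementary {X : Type*} [Group X] (S : Set X)
    (hcomm : ∀ a ∈ S, ∀ b ∈ S, a * b = b * a) (hsq : ∀ a ∈ S, a ^ 2 = 1) :
    (∀ a ∈ Subgroup.closure S, ∀ b ∈ Subgroup.closure S, a * b = b * a) ∧
      ∀ a ∈ Subgroup.closure S, a ^ 2 = 1 := by
  have h1 : Subgroup.closure S ≤ Subgroup.centralizer S := by
    rw [Subgroup.closure_le]
    intro a ha
    exact Subgroup.mem_centralizer_iff.mpr (fun b hb => hcomm b hb a ha)
  have h2 : ∀ a ∈ Subgroup.closure S, ∀ b ∈ Subgroup.closure S, a * b = b * a := by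
    intro a ha b hb
    have h3 : Subgroup.closure S ≤ Subgroup.centralizer {a} := by
      rw [Subgroup.closure_le]
      intro c hc
      refine Subgroup.mem_centralizer_iff.mpr (fun h hh => ?_)
      rw [Set.mem_singleton_iff.mp hh]
      exact (Subgroup.mem_centralizer_iff.mp (h1 ha) c hc).symm
    exact Subgroup.mem_centralizer_iff.mp (h3 hb) a rfl
  refine ⟨h2, fun a ha => ?_⟩
  refine Subgroup.closure_induction (p := fun y _ => y ^ 2 = 1) hsq (one_pow 2) ?_ ?_ ha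
  · intro x y hx hy hx2 hy2
    have hc : Commute x y := h2 x hx y hy
    rw [hc.mul_pow, hx2, hy2, one_mul]
  · intro x _ hx2
    rw [inv_pow, hx2, inv_one]

theorem mem_normalizer_commutator {X : Type*} [Group X] {H K : Subgroup X} {g : X}
    (hH : g ∈ Subgroup.normalizer (H : Set X)) (hK : g ∈ Subgroup.normalizer (K : Set X)) :
    g ∈ Subgroup.normalizer ((⁅H, K⁆ : Subgroup X) : Set X) := by
  have key : ∀ g : X, g ∈ Subgroup.normalizer (H : Set X) →
      g ∈ Subgroup.normalizer (K : Set X) → ∀ w ∈ ⁅H, K⁆, g * w * g⁻¹ ∈ ⁅H, K⁆ := by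
    intro g hH hK w hw
    have h1 : ⁅H, K⁆ ≤ (⁅H, K⁆ : Subgroup X).comap (MulAut.conj g).toMonoidHom := by
      rw [Subgroup.commutator_le]
      intro h hh k hk
      rw [Subgroup.mem_comap]
      change g * ⁅h, k⁆ * g⁻¹ ∈ ⁅H, K⁆
      have e : g * ⁅h, k⁆ * g⁻¹ = ⁅g * h * g⁻¹, g * k * g⁻¹⁆ := by
        simp only [commutatorElement_def]; group
      rw [e]
      exact Subgroup.commutator_mem_commutator ((Subgroup.mem_normalizer_iff.mp hH h).mp hh)
        ((Subgroup.mem_normalizer_iff.mp hK k).mp hk)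
    exact h1 hw
  apply Cfsg.Agent.S0026.mem_normalizer_of_conj_mem (key g hH hK)
  intro h hh
  have := key g⁻¹ (Subgroup.inv_mem _ hH) (Subgroup.inv_mem _ hK) h hh
  rwa [inv_inv] at this

/-- An element `d` of `3`-power order acting without non-identity fixed points on an elementary
abelian `2`-group `Ω` of order at most `4`: `d ^ 3` centralizes `Ω`. -/
theorem conj_cube_fixed {X : Type*} [Group X] [Finite X] (d : X) (k : ℕ) (hd : d ^ 3 ^ k = 1)
    (Ω : Subgroup X) (hΩ4 : Nat.card Ω ≤ 4)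
    (hab : ∀ x ∈ Ω, ∀ y ∈ Ω, x * y = y * x) (hexp : ∀ x ∈ Ω, x ^ 2 = 1)
    (hdΩ : ∀ x ∈ Ω, d * x * d⁻¹ ∈ Ω) (hfpf : ∀ x ∈ Ω, d * x * d⁻¹ = x → x = 1) :
    ∀ x ∈ Ω, d ^ 3 * x * (d ^ 3)⁻¹ = x := by
  intro x hx
  by_cases hx1 : x = 1
  · subst hx1; simp
  obtain ⟨x', hx'⟩ : ∃ x', x' = d * x * d⁻¹ := ⟨_, rfl⟩
  obtain ⟨x'', hx''⟩ : ∃ x'', x'' = d * x' * d⁻¹ := ⟨_, rfl⟩
  have hx'Ω : x' ∈ Ω := hx' ▸ hdΩ x hx
  have hx''Ω : x'' ∈ Ω := hx'' ▸ hdΩ x' hx'Ω
  have hx'1 : x' ≠ 1 := by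
    rw [hx']; intro h; apply hx1
    have : x = d⁻¹ * (d * x * d⁻¹) * d := by group
    rw [this, h]; group
  have hxx' : x ≠ x' := fun h => hx1 (hfpf x hx (by rw [← hx', ← h]))
  have hx'x'' : x' ≠ x'' := fun h => hx'1 (hfpf x' hx'Ω (by rw [← hx'', ← h]))
  have hodd : x'' ≠ x := by
    intro h
    apply hxx'
    have hc2 : Commute (d ^ 2) x := by
      have : d ^ 2 * x * (d ^ 2)⁻¹ = x := by
        calc d ^ 2 * x * (d ^ 2)⁻¹ = d * (d * x * d⁻¹) * d⁻¹ := by rw [pow_two]; group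
          _ = x'' := by rw [← hx', ← hx'']
          _ = x := h
      exact (mul_inv_eq_iff_eq_mul.mp this)
    have hm : 2 * ((3 ^ k + 1) / 2) = 3 ^ k + 1 := by
      have : 3 ^ k % 2 = 1 := by rw [Nat.pow_mod]; norm_num
      omega
    have hc : Commute ((d ^ 2) ^ ((3 ^ k + 1) / 2)) x := hc2.pow_left _
    rw [← pow_mul, hm, pow_succ, hd, one_mul] at hc
    rw [hx', hc.eq]; group
  obtain ⟨p, hp⟩ : ∃ p, p = x * x' := ⟨_, rfl⟩
  have hpΩ : p ∈ Ω := hp ▸ Ω.mul_mem hx hx'Ω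
  have hinvx : ∀ y ∈ Ω, y⁻¹ = y := fun y hy => by
    have := hexp y hy
    rw [pow_two] at this
    exact inv_eq_of_mul_eq_one_left this
  have hp1 : p ≠ 1 := by
    rw [hp]; intro h
    apply hxx'
    have := eq_inv_of_mul_eq_one_left h
    rw [this, hinvx x' hx'Ω]
  have hpx : p ≠ x := by
    rw [hp]; intro h
    exact hx'1 (by simpa using h)
  have hpx' : p ≠ x' := by
    rw [hp]; intro h
    exact hx1 (by simpa using h)
  have hsub : ({1, x, x', p} : Set X) ⊆ (Ω : Set X) := by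
    intro y hy
    simp only [Set.mem_insert_iff, Set.mem_singleton_iff] at hy
    rcases hy with rfl | rfl | rfl | rfl
    · exact Ω.one_mem
    · exact hx
    · exact hx'Ω
    · exact hpΩ
  have n1 : x' ∉ ({p} : Set X) := by
    simp only [Set.mem_singleton_iff]; exact hpx'.symm
  have n2 : x ∉ ({x', p} : Set X) := by
    simp only [Set.mem_insert_iff, Set.mem_singleton_iff, not_or]; exact ⟨hxx', hpx.symm⟩
  have n3 : (1 : X) ∉ ({x, x', p} : Set X) := by
    simp only [Set.mem_insert_iff, Set.mem_singleton_iff, not_or]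
    exact ⟨fun h => hx1 h.symm, fun h => hx'1 h.symm, fun h => hp1 h.symm⟩
  have h4 : ({1, x, x', p} : Set X).ncard = 4 := by
    rw [Set.ncard_insert_of_notMem n3, Set.ncard_insert_of_notMem n2,
      Set.ncard_insert_of_notMem n1, Set.ncard_singleton]
  have heq := Set.eq_of_subset_of_ncard_le hsub (by
    rw [h4, ← Nat.card_coe_set_eq]; exact hΩ4) (Set.toFinite _)
  have hmem : x'' ∈ ({1, x, x', p} : Set X) := by rw [heq]; exact hx''Ω
  simp only [Set.mem_insert_iff, Set.mem_singleton_iff] at hmem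
  have hx''p : x'' = p := by
    rcases hmem with h | h | h | h
    · exfalso; apply hx'1
      have : x' = d⁻¹ * x'' * d := by rw [hx'']; group
      rw [this, h]; group
    · exact absurd h hodd
    · exact absurd h.symm hx'x''
    · exact h
  have e1 : d ^ 3 * x * (d ^ 3)⁻¹ = d * x'' * d⁻¹ := by
    rw [hx'', hx', pow_succ, pow_two]; group
  rw [e1, hx''p, hp]
  have e2 : d * (x * x') * d⁻¹ = (d * x * d⁻¹) * (d * x' * d⁻¹) := by group
  rw [e2, ← hx', ← hx'', hx''p, hp, hab x' hx'Ω (x * x') (Ω.mul_mem hx hx'Ω), mul_assoc,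
    ← pow_two, hexp x' hx'Ω, mul_one]

/-- Step 1: `d ^ 3` centralizes every `d`-invariant abelian `2`-subgroup of rank at most `2`
on which `d` acts without fixed points. -/
theorem centralizes_abelian {X : Type*} [Group X] [Finite X] (d : X) (k : ℕ)
    (hd : d ^ 3 ^ k = 1) (B : Subgroup X) (hB2 : IsPGroup 2 B)
    (hBab : ∀ x ∈ B, ∀ y ∈ B, x * y = y * x)
    (hdB : d ∈ Subgroup.normalizer (B : Set X)) (hfpf : ∀ x ∈ B, x * d = d * x → x = 1)
    (hrank : ∀ E : Subgroup X, E ≤ B → (∀ x ∈ E, x ^ 2 = 1) → Nat.card E ≤ 4) :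
    ∀ x ∈ B, x * d ^ 3 = d ^ 3 * x := by
  let Ω : Subgroup X :=
    { carrier := {x | x ∈ B ∧ x ^ 2 = 1}
      mul_mem' := by
        rintro a b ⟨ha, ha2⟩ ⟨hb, hb2⟩
        exact ⟨B.mul_mem ha hb, by
          rw [(show Commute a b from hBab a ha b hb).mul_pow, ha2, hb2, one_mul]⟩
      one_mem' := ⟨B.one_mem, one_pow 2⟩
      inv_mem' := by
        rintro a ⟨ha, ha2⟩
        exact ⟨B.inv_mem ha, by rw [inv_pow, ha2, inv_one]⟩ }
  have hΩB : Ω ≤ B := fun x hx => hx.1
  have hcore := conj_cube_fixed d k hd Ω (hrank Ω hΩB (fun x hx => hx.2))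
    (fun x hx y hy => hBab x hx.1 y hy.1) (fun x hx => hx.2)
    (fun x hx => ⟨(Subgroup.mem_normalizer_iff.mp hdB x).mp hx.1, by
      rw [conj_pow, hx.2]; group⟩)
    (fun x hx h => hfpf x hx.1 (by rw [mul_inv_eq_iff_eq_mul] at h; exact h.symm))
  apply centralizes_abelian_of_centralizes_omega 2 (d ^ 3) B ?_ hB2 hBab
    (Subgroup.pow_mem _ hdB 3) ?_
  · obtain ⟨m, hm⟩ := hB2.exists_card_eq
    rw [hm]
    have h1 : orderOf (d ^ 3) ∣ 3 ^ k :=
      orderOf_dvd_of_pow_eq_one (by rw [← pow_mul, mul_comm, pow_mul, hd, one_pow])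
    exact Nat.Coprime.coprime_dvd_left h1 (Nat.Coprime.pow _ _ (by norm_num))
  · intro x hx hx2
    have := hcore x ⟨hx, hx2⟩
    rw [mul_inv_eq_iff_eq_mul] at this
    exact this.symm

/-- The counting lemma (Higman's bound for Suzuki `2`-groups with `|Z| = 4`): a finite group `Q`
with a subgroup `Z` of exponent `2` and order at most `4`, containing all squares and all
involutions, with an automorphism `δ` of `3`-power order acting without non-identity fixed
points on `Z` and such that the fixed points of `δ ^ 3` lie in `Z`, satisfies `Q = Z`. -/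
theorem eq_top_of_suzuki {Q : Type*} [Group Q] [Finite Q] (Z : Subgroup Q) (δ : MulAut Q)
    (k : ℕ) (hδ : δ ^ 3 ^ k = 1) (hδZ : ∀ z ∈ Z, δ z ∈ Z) (hZ1 : Z ≠ ⊥)
    (hZ4 : Nat.card Z ≤ 4) (hZsq : ∀ z ∈ Z, z ^ 2 = 1) (hsq : ∀ x : Q, x ^ 2 ∈ Z)
    (hinv : Nat.card Z = 4 → ∀ x : Q, x ^ 2 = 1 → x ∈ Z)
    (hfpf : ∀ z ∈ Z, δ z = z → z = 1) (hτ : ∀ x : Q, (δ ^ 3) x = x → x ∈ Z) : Z = ⊤ := by
  classical
  haveI : Fintype Q := Fintype.ofFinite Q
  have hpowfix : ∀ (f : MulAut Q) (x : Q), f x = x → ∀ m : ℕ, (f ^ m) x = x := by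
    intro f x hfx m
    induction m with
    | zero => simp
    | succ m ih => rw [pow_succ, MulAut.mul_apply, hfx, ih]
  have hodd : ∀ x : Q, δ (δ x) = x → δ x = x := by
    intro x hx
    have h2 : (δ ^ 2) x = x := by rw [pow_two, MulAut.mul_apply]; exact hx
    have hm : 2 * ((3 ^ k + 1) / 2) = 3 ^ k + 1 := by
      have : 3 ^ k % 2 = 1 := by rw [Nat.pow_mod]; norm_num
      omega
    have h3 := hpowfix (δ ^ 2) x h2 ((3 ^ k + 1) / 2)
    rw [← pow_mul, hm, pow_succ, hδ, one_mul] at h3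
    exact h3
  obtain ⟨z₁, hz₁Z, hz₁⟩ : ∃ z ∈ Z, z ≠ 1 := by
    by_contra hcon
    push_neg at hcon
    exact hZ1 ((Subgroup.eq_bot_iff_forall _).mpr hcon)
  obtain ⟨z₂, hz₂⟩ : ∃ z₂, z₂ = δ z₁ := ⟨_, rfl⟩
  obtain ⟨z₃, hz₃⟩ : ∃ z₃, z₃ = δ z₂ := ⟨_, rfl⟩
  have hz₂Z : z₂ ∈ Z := hz₂ ▸ hδZ z₁ hz₁Z
  have hz₃Z : z₃ ∈ Z := hz₃ ▸ hδZ z₂ hz₂Z
  have h21 : z₂ ≠ 1 := by rw [hz₂]; intro h; exact hz₁ (by simpa using h)
  have h31 : z₃ ≠ 1 := by rw [hz₃]; intro h; exact h21 (by simpa using h)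
  have h12 : z₁ ≠ z₂ := by
    intro h; exact hz₁ (hfpf z₁ hz₁Z (by rw [← hz₂, ← h]))
  have h23 : z₂ ≠ z₃ := by
    intro h; exact h21 (hfpf z₂ hz₂Z (by rw [← hz₃, ← h]))
  have h13 : z₁ ≠ z₃ := by
    intro h
    apply hz₁
    apply hfpf z₁ hz₁Z
    apply hodd
    rw [← hz₂, ← hz₃, ← h]
  obtain ⟨S, hS⟩ : ∃ S : Finset Q, S = {1, z₁, z₂, z₃} := ⟨_, rfl⟩
  have n1 : z₂ ∉ ({z₃} : Finset Q) := by
    simp only [Finset.mem_singleton]; exact h23
  have n2 : z₁ ∉ ({z₂, z₃} : Finset Q) := by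
    simp only [Finset.mem_insert, Finset.mem_singleton, not_or]; exact ⟨h12, h13⟩
  have n3 : (1 : Q) ∉ ({z₁, z₂, z₃} : Finset Q) := by
    simp only [Finset.mem_insert, Finset.mem_singleton, not_or]
    exact ⟨hz₁.symm, h21.symm, h31.symm⟩
  have hScard : S.card = 4 := by
    rw [hS, Finset.card_insert_of_notMem n3, Finset.card_insert_of_notMem n2,
      Finset.card_insert_of_notMem n1, Finset.card_singleton]
  have hSeq : S = Finset.univ.filter (fun z : Q => z ∈ Z) := by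
    have hsub : S ⊆ Finset.univ.filter (fun z : Q => z ∈ Z) := by
      intro z hz
      rw [hS] at hz
      simp only [Finset.mem_insert, Finset.mem_singleton] at hz
      simp only [Finset.mem_filter, Finset.mem_univ, true_and]
      rcases hz with rfl | rfl | rfl | rfl
      · exact Z.one_mem
      · exact hz₁Z
      · exact hz₂Z
      · exact hz₃Z
    have hcard : (Finset.univ.filter (fun z : Q => z ∈ Z)).card ≤ S.card := by
      rw [hScard, ← Fintype.card_subtype, ← Nat.card_eq_fintype_card]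
      exact hZ4
    exact Finset.eq_of_subset_of_card_le hsub hcard
  have hZS : ∀ z : Q, z ∈ Z ↔ z ∈ S := by
    intro z
    rw [hSeq]
    simp
  have hZcard : Nat.card Z = 4 := by
    rw [← hScard, hSeq, ← Fintype.card_subtype, ← Nat.card_eq_fintype_card]
  have hinv' := hinv hZcard
  have hδz₃ : δ z₃ = z₁ := by
    have hmem : δ z₃ ∈ S := (hZS _).mp (hδZ z₃ hz₃Z)
    rw [hS] at hmem
    simp only [Finset.mem_insert, Finset.mem_singleton] at hmem
    rcases hmem with h | h | h | h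
    · exact absurd (by simpa using h) h31
    · exact h
    · exfalso; rw [hz₂] at h; exact h13 (δ.injective h).symm
    · exact absurd (hfpf z₃ hz₃Z h) h31
  have hτz₁ : (δ ^ 3) z₁ = z₁ := by
    rw [pow_succ, pow_two, MulAut.mul_apply, MulAut.mul_apply, ← hz₂, ← hz₃, hδz₃]
  obtain ⟨F, hF⟩ : ∃ F : Q → Finset Q,
      F = fun z => Finset.univ.filter (fun x : Q => x ^ 2 = z) := ⟨_, rfl⟩
  have hFmem : ∀ z x, x ∈ F z ↔ x ^ 2 = z := by
    intro z x; rw [hF]; simp
  have hFδ : ∀ z, (F (δ z)).card = (F z).card := by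
    intro z
    have : F (δ z) = (F z).image δ := by
      ext y
      rw [hFmem, Finset.mem_image]
      constructor
      · intro hy
        refine ⟨δ⁻¹ y, (hFmem _ _).mpr ?_, by simp⟩
        rw [← map_pow, hy]; simp
      · rintro ⟨x, hx, rfl⟩
        rw [← map_pow, (hFmem _ _).mp hx]
    rw [this, Finset.card_image_of_injective _ δ.injective]
  have hF1 : (F 1).card = 4 := by
    rw [← hScard]
    congr 1
    ext x
    rw [hFmem, ← hZS]
    exact ⟨hinv' x, hZsq x⟩
  obtain ⟨N, hN⟩ : ∃ N, N = (F z₁).card := ⟨_, rfl⟩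
  have hF2 : (F z₂).card = N := by rw [hz₂, hFδ, hN]
  have hF3 : (F z₃).card = N := by rw [hz₃, hFδ, hF2]
  have hsum4 : ∀ g : Q → ℕ, ∑ z ∈ S, g z = g 1 + (g z₁ + (g z₂ + g z₃)) := by
    intro g
    rw [hS, Finset.sum_insert n3, Finset.sum_insert n2, Finset.sum_insert n1,
      Finset.sum_singleton]
  have hmaps : ∀ x ∈ (Finset.univ : Finset Q), x ^ 2 ∈ S := fun x _ => (hZS _).mp (hsq x)
  have hcardQ : Fintype.card Q = 4 + 3 * N := by
    have h := Finset.card_eq_sum_card_fiberwise (f := fun x : Q => x ^ 2)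
      (s := Finset.univ) (t := S) hmaps
    rw [Finset.card_univ, hsum4] at h
    have e : ∀ z, (Finset.univ.filter (fun x : Q => x ^ 2 = z)).card = (F z).card := by
      intro z; rw [hF]
    rw [e, e, e, e, hF1, ← hN, hF2, hF3] at h
    omega
  have hT : ∑ x : Q, (Finset.univ.filter (fun y : Q => y ^ 2 = x ^ 2)).card =
      16 + 3 * (N * N) := by
    have h := Finset.sum_fiberwise_of_maps_to (s := Finset.univ) (t := S)
      (g := fun x : Q => x ^ 2) hmaps
      (fun x : Q => (Finset.univ.filter (fun y : Q => y ^ 2 = x ^ 2)).card)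
    rw [← h, hsum4]
    have e : ∀ z, ∑ x ∈ Finset.univ.filter (fun x : Q => x ^ 2 = z),
        (Finset.univ.filter (fun y : Q => y ^ 2 = x ^ 2)).card = (F z).card * (F z).card := by
      intro z
      rw [Finset.sum_congr rfl (g := fun _ => (F z).card), Finset.sum_const, smul_eq_mul]
      · rw [hF]
      · intro x hx
        simp only [Finset.mem_filter, Finset.mem_univ, true_and] at hx
        rw [hx, hF]
    rw [e, e, e, e, hF1, ← hN, hF2, hF3]
    ring
  have hdiv : Fintype.card Q ∣ 16 + 3 * (N * N) :=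
    hT ▸ Cfsg.Agent.Lib.Helper24.RealCount.card_dvd_sum_sq
  have h3N : 3 ∣ N := by
    have := Cfsg.Agent.Lib.Helper24.RealCount.three_dvd_card_of_fixed_point_free (δ ^ 3) k
      (by rw [← pow_mul, mul_comm, pow_mul, hδ, one_pow]) (fun x => x ^ 2 = z₁) (fun x => by
        rw [← map_pow]
        constructor
        · intro h; rw [← hτz₁] at h; exact (δ ^ 3).injective h
        · intro h; rw [h, hτz₁]) (fun x hx hfix => by
        have := hZsq x (hτ x hfix)
        rw [hx] at this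
        exact hz₁ this)
    rw [Nat.card_eq_fintype_card, Fintype.card_subtype] at this
    rw [hN, hF]
    exact this
  obtain ⟨j, rfl⟩ := h3N
  have hj : j = 0 := by
    rw [hcardQ] at hdiv
    have h64 : 4 + 3 * (3 * j) ∣ 64 := by
      have e : 3 * (16 + 3 * (3 * j * (3 * j))) + 8 * (4 + 3 * (3 * j)) =
          (4 + 3 * (3 * j)) * (4 + 3 * (3 * j)) + 64 := by ring
      have h1 : 4 + 3 * (3 * j) ∣ 3 * (16 + 3 * (3 * j * (3 * j))) + 8 * (4 + 3 * (3 * j)) :=
        dvd_add (dvd_mul_of_dvd_right hdiv 3) (dvd_mul_left _ 8)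
      rw [e] at h1
      exact (Nat.dvd_add_right (dvd_mul_right _ _)).mp h1
    have hle := Nat.le_of_dvd (by norm_num) h64
    have hj6 : j ≤ 6 := by omega
    interval_cases j <;> first | rfl | omega
  subst hj
  apply Subgroup.eq_top_of_card_eq
  rw [hZcard, Nat.card_eq_fintype_card, hcardQ]

/-- Let d be a non-identity 3-element of a finite group and P a 2-subgroup normalized by d on which ⟨d⟩ acts faithfully (no non-identity power of d centralizes P) and without non-identity fixed points (C_P(d) = 1). If every abelian subgroup of P has 2-rank at most 2, then d has order 3. -/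
theorem result {X : Type*} [Group X] [Finite X] (d : X) (n : ℕ) (hn : 1 ≤ n) (hd : orderOf d = 3 ^ n) (P : Subgroup X) (hP : IsPGroup 2 P) (hdP : d ∈ Subgroup.normalizer (P : Set X)) (hfaith : Subgroup.zpowers d ⊓ Subgroup.centralizer (P : Set X) = ⊥) (hfpf : P ⊓ Subgroup.centralizer {d} = ⊥) (hrank : ∀ V : Subgroup X, V ≤ P → IsMulCommutative V → Cfsg.PRankLE 2 2 V) : orderOf d = 3 := by
  classical
  by_contra hne
  have hd3k : d ^ 3 ^ n = 1 := by rw [← hd]; exact pow_orderOf_eq_one d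
  have ht1 : d ^ 3 ≠ 1 := by
    intro h
    have hdvd : orderOf d ∣ 3 := orderOf_dvd_of_pow_eq_one h
    rcases (Nat.dvd_prime Nat.prime_three).mp hdvd with h1 | h3
    · rw [hd] at h1
      have : 3 ^ 1 ≤ 3 ^ n := Nat.pow_le_pow_right (by norm_num) hn
      omega
    · exact hne h3
  have hrk : ∀ E : Subgroup X, E ≤ P → (∀ x ∈ E, ∀ y ∈ E, x * y = y * x) →
      (∀ x ∈ E, x ^ 2 = 1) → Nat.card E ≤ 4 := by
    intro E hEP hab hexp
    have hcomm : IsMulCommutative E := ⟨⟨fun a b => Subtype.ext (hab a a.2 b b.2)⟩⟩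
    have h := hrank E hEP hcomm (⊤ : Subgroup E)
      ⟨⟨fun a b => Subtype.ext (Subtype.ext (hab a.1 a.1.2 b.1 b.1.2))⟩⟩
      (fun a _ => Subtype.ext (by simpa using hexp a a.2))
    rw [Subgroup.card_top] at h
    norm_num at h
    exact h
  have hfp : ∀ x ∈ P, x * d = d * x → x = 1 := by
    intro x hx hxd
    have : x ∈ P ⊓ Subgroup.centralizer {d} :=
      ⟨hx, Subgroup.mem_centralizer_iff.mpr (fun h hh => by
        rw [Set.mem_singleton_iff.mp hh]; exact hxd.symm)⟩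
    rw [hfpf, Subgroup.mem_bot] at this
    exact this
  have step1 : ∀ B : Subgroup X, B ≤ P → d ∈ Subgroup.normalizer (B : Set X) →
      (∀ x ∈ B, ∀ y ∈ B, x * y = y * x) → ∀ x ∈ B, x * d ^ 3 = d ^ 3 * x := by
    intro B hBP hdB hBab
    exact centralizes_abelian d n hd3k B (hP.to_le hBP) hBab hdB (fun x hx => hfp x (hBP hx))
      (fun E hEB hexp => hrk E (hEB.trans hBP) (fun x hx y hy => hBab x (hEB hx) y (hEB hy)) hexp)
  have hnotc : ¬ ∀ x ∈ P, x * d ^ 3 = d ^ 3 * x := by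
    intro h
    have : d ^ 3 ∈ Subgroup.zpowers d ⊓ Subgroup.centralizer (P : Set X) :=
      ⟨Subgroup.pow_mem _ (Subgroup.mem_zpowers d) 3,
        Subgroup.mem_centralizer_iff.mpr (fun x hx => h x hx)⟩
    rw [hfaith, Subgroup.mem_bot] at this
    exact ht1 this
  obtain ⟨P₀, ⟨hP₀P, hdP₀, hP₀nc⟩, hmin⟩ : ∃ P₀ : Subgroup X,
      (P₀ ≤ P ∧ d ∈ Subgroup.normalizer (P₀ : Set X) ∧ ¬ ∀ x ∈ P₀, x * d ^ 3 = d ^ 3 * x) ∧
      ∀ B : Subgroup X, B ≤ P₀ → d ∈ Subgroup.normalizer (B : Set X) →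
        (¬ ∀ x ∈ B, x * d ^ 3 = d ^ 3 * x) → B = P₀ := by
    have hex : ∃ k, ∃ B : Subgroup X, (B ≤ P ∧ d ∈ Subgroup.normalizer (B : Set X) ∧
        ¬ ∀ x ∈ B, x * d ^ 3 = d ^ 3 * x) ∧ Nat.card B = k := ⟨_, P, ⟨le_rfl, hdP, hnotc⟩, rfl⟩
    obtain ⟨P₀, hP₀, hk⟩ := Nat.find_spec hex
    refine ⟨P₀, hP₀, fun B hB hdB hBnc => ?_⟩
    have := Nat.find_min' hex ⟨B, ⟨hB.trans hP₀.1, hdB, hBnc⟩, rfl⟩
    exact Subgroup.eq_of_le_of_card_ge hB (by rw [hk]; exact this)
  have hP₀2 : IsPGroup 2 P₀ := hP.to_le hP₀P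
  obtain ⟨A, hAdef⟩ : ∃ A : Subgroup X, A = Subgroup.zpowers (d ^ 3) := ⟨_, rfl⟩
  have hAcomm : ∀ a ∈ A, ∀ x : X, x * d ^ 3 = d ^ 3 * x → x * a = a * x := by
    intro a ha x hx
    rw [hAdef] at ha
    obtain ⟨j, rfl⟩ := Subgroup.mem_zpowers_iff.mp ha
    exact ((show Commute x (d ^ 3) from hx).zpow_right j).eq
  have hAd : ∀ a ∈ A, d * a = a * d := by
    intro a ha
    rw [hAdef] at ha
    obtain ⟨j, rfl⟩ := Subgroup.mem_zpowers_iff.mp ha
    exact (((Commute.refl d).pow_right 3).zpow_right j).eq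
  have hAP₀ : A ≤ Subgroup.normalizer (P₀ : Set X) := by
    rw [hAdef, Subgroup.zpowers_le]
    exact Subgroup.pow_mem _ hdP₀ 3
  have hdA : d ∈ Subgroup.normalizer (A : Set X) := by
    apply Cfsg.Agent.S0026.mem_normalizer_of_conj_mem
    · intro a ha
      have : d * a * d⁻¹ = a := by rw [hAd a ha]; group
      rw [this]; exact ha
    · intro a ha
      have : d⁻¹ * a * d = a := by rw [mul_assoc, ← hAd a ha]; group
      rw [this]; exact ha
  have hAcop2 : (Nat.card A).Coprime 2 := by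
    rw [hAdef, Nat.card_zpowers]
    have h1 : orderOf (d ^ 3) ∣ 3 ^ n :=
      orderOf_dvd_of_pow_eq_one (by rw [← pow_mul, mul_comm, pow_mul, hd3k, one_pow])
    exact Nat.Coprime.coprime_dvd_left h1 (Nat.Coprime.pow_left _ (by norm_num))
  obtain ⟨m, hm⟩ := hP₀2.exists_card_eq
  have hAcop : (Nat.card A).Coprime (Nat.card P₀) := by
    rw [hm]; exact Nat.Coprime.pow_right m hAcop2
  have hsolv : Group.IsSolvable A ∨ Group.IsSolvable P₀ := Or.inr (by
    haveI := hP₀2.isNilpotent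
    infer_instance)
  have hTT : ⁅P₀, A⁆ = P₀ := by
    apply hmin
    · exact Cfsg.Agent.S0026.commutator_le_of_le_normalizer hAP₀
    · exact mem_normalizer_commutator hdP₀ hdA
    · intro hcen
      apply hP₀nc
      have h1 : ⁅⁅P₀, A⁆, A⁆ = ⊥ := by
        rw [Subgroup.commutator_eq_bot_iff_le_centralizer]
        intro x hx
        rw [Subgroup.mem_centralizer_iff]
        intro a ha
        exact (hAcomm a ha x (hcen x hx)).symm
      rw [Cfsg.Agent.S0027.result A P₀ hAP₀ hAcop hsolv,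
        Subgroup.commutator_eq_bot_iff_le_centralizer] at h1
      intro x hx
      have := h1 hx
      rw [Subgroup.mem_centralizer_iff] at this
      exact (this (d ^ 3) (by rw [hAdef]; exact Subgroup.mem_zpowers _)).symm
  obtain ⟨Abar, hAbar⟩ : ∃ Abar : Subgroup (MulAut P₀), Abar = (conjHom A P₀ hAP₀).range :=
    ⟨_, rfl⟩
  have hAbarcop : (Nat.card Abar).Coprime 2 := by
    rw [hAbar]; exact card_range_coprime A P₀ hAP₀ hAcop2
  have hgen : Subgroup.closure {x : P₀ | ∃ g : P₀, ∃ a ∈ Abar, x = g⁻¹ * a g} = ⊤ := by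
    rw [eq_top_iff]
    intro x _
    have hx : (x : X) ∈ ⁅P₀, A⁆ := by rw [hTT]; exact x.2
    have hle : ⁅P₀, A⁆ ≤
        (Subgroup.closure {x : P₀ | ∃ g : P₀, ∃ a ∈ Abar, x = g⁻¹ * a g}).map P₀.subtype := by
      rw [Subgroup.commutator_le]
      intro t ht a ha
      refine ⟨⟨⁅t, a⁆, ?_⟩, Subgroup.subset_closure ⟨⟨t⁻¹, P₀.inv_mem ht⟩,
        conjHom A P₀ hAP₀ ⟨a, ha⟩, by rw [hAbar]; exact ⟨⟨a, ha⟩, rfl⟩, ?_⟩, rfl⟩
      · rw [← hTT]; exact Subgroup.commutator_mem_commutator ht ha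
      · apply Subtype.ext
        simp only [Subgroup.coe_mul, Subgroup.coe_inv, conjHom_apply, commutatorElement_def]
        group
    obtain ⟨y, hy, hyx⟩ := hle hx
    have : y = x := Subtype.ext hyx
    rw [← this]; exact hy
  have hchar : ∀ H : Subgroup P₀, H.Characteristic → (∀ x ∈ H, ∀ y ∈ H, x * y = y * x) →
      ∀ a ∈ Abar, ∀ h ∈ H, a h = h := by
    intro H hH hHab a ha h hh
    rw [hAbar] at ha
    obtain ⟨a0, ha0, ha0w⟩ := exists_of_mem_range A P₀ hAP₀ a ha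
    apply Subtype.ext
    rw [ha0w]
    have hc := step1 (H.map P₀.subtype) ((Subgroup.map_subtype_le H).trans hP₀P)
      (le_normalizer_map_of_characteristic P₀ H hH hdP₀) (by
        rintro _ ⟨x, hx, rfl⟩ _ ⟨y, hy, rfl⟩
        exact congrArg Subtype.val (hHab x hx y hy)) (h : X) ⟨h, hh, rfl⟩
    have := hAcomm a0 ha0 (h : X) hc
    rw [← this, mul_inv_cancel_right]
  haveI : Fact (Nat.Prime 2) := ⟨Nat.prime_two⟩
  obtain ⟨hcomm, hsq, hfixed⟩ := special_of_coprime_action hP₀2 Abar hAbarcop hgen hchar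
  -- the automorphism induced by `d`
  obtain ⟨δ, hδdef⟩ : ∃ δ : MulAut P₀, δ = conjAut P₀ d hdP₀ := ⟨_, rfl⟩
  have hδapp : ∀ w : P₀, ((δ w : P₀) : X) = d * w * d⁻¹ := fun w => by rw [hδdef]; rfl
  have hδpow : ∀ (j : ℕ) (w : P₀), (((δ ^ j) w : P₀) : X) = d ^ j * w * (d ^ j)⁻¹ := by
    intro j
    induction j with
    | zero => intro w; simp
    | succ j ih =>
      intro w
      rw [pow_succ', MulAut.mul_apply, hδapp, ih, pow_succ']
      group
  have hZsq : ∀ z ∈ Subgroup.center P₀, z ^ 2 = 1 := by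
    intro z hz
    rw [← hcomm, commutator_def, Subgroup.commutator_def] at hz
    have hcl : ∀ y ∈ Subgroup.closure {g : P₀ | ∃ g₁ ∈ (⊤ : Subgroup P₀),
        ∃ g₂ ∈ (⊤ : Subgroup P₀), ⁅g₁, g₂⁆ = g}, y ∈ Subgroup.center P₀ := by
      intro y hy
      rw [← hcomm, commutator_def, Subgroup.commutator_def]
      exact hy
    refine Subgroup.closure_induction (p := fun y _ => y ^ 2 = 1) ?_ (one_pow 2) ?_ ?_ hz
    · rintro y ⟨g₁, -, g₂, -, rfl⟩
      have hcen : ⁅g₁, g₂⁆ ∈ Subgroup.center P₀ := by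
        rw [← hcomm]
        exact Subgroup.commutator_mem_commutator (Subgroup.mem_top _) (Subgroup.mem_top _)
      rw [← commutator_pow_left g₁ g₂ ((Subgroup.mem_center_iff.mp hcen g₁).symm) 2,
        commutatorElement_eq_one_iff_mul_comm]
      exact (Subgroup.mem_center_iff.mp (hsq g₁) g₂).symm
    · intro x y hx hy hx2 hy2
      have hc : Commute x y := (Subgroup.mem_center_iff.mp (hcl x hx) y).symm
      rw [hc.mul_pow, hx2, hy2, one_mul]
    · intro x _ hx2
      rw [inv_pow, hx2, inv_one]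
  obtain ⟨Z', hZ'⟩ : ∃ Z' : Subgroup X, Z' = (Subgroup.center P₀).map P₀.subtype := ⟨_, rfl⟩
  have hZ'P₀ : Z' ≤ P₀ := hZ' ▸ Subgroup.map_subtype_le _
  have hZ'mem : ∀ x : P₀, (x : X) ∈ Z' ↔ x ∈ Subgroup.center P₀ := by
    intro x
    rw [hZ']
    constructor
    · rintro ⟨y, hy, hyx⟩
      have : y = x := Subtype.ext hyx
      rw [← this]; exact hy
    · intro hx; exact ⟨x, hx, rfl⟩
  have hZ'comm : ∀ z ∈ Z', ∀ y ∈ P₀, z * y = y * z := by
    intro z hz y hy
    rw [hZ'] at hz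
    obtain ⟨z0, hz0, rfl⟩ := hz
    exact (congrArg Subtype.val (Subgroup.mem_center_iff.mp hz0 ⟨y, hy⟩)).symm
  have hZ'sq : ∀ z ∈ Z', z ^ 2 = 1 := by
    intro z hz
    rw [hZ'] at hz
    obtain ⟨z0, hz0, rfl⟩ := hz
    have := congrArg Subtype.val (hZsq z0 hz0)
    simpa using this
  have hZ'card : Nat.card Z' = Nat.card (Subgroup.center P₀) := by
    rw [hZ']; exact Subgroup.card_subtype _ _
  have hall : Subgroup.center P₀ = ⊤ := by
    apply eq_top_of_suzuki (Subgroup.center P₀) δ n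
    · ext w
      rw [hδpow, hd3k]
      simp
    · intro z hz
      have h := (Subgroup.centerCharacteristic (G := P₀)).fixed δ
      have hc : z ∈ (Subgroup.center P₀).comap δ.toMonoidHom := by rw [h]; exact hz
      exact hc
    · intro hbot
      apply hP₀nc
      intro x hx
      have hx1 : (⟨x, hx⟩ : P₀) ∈ Subgroup.center P₀ := by
        rw [Subgroup.mem_center_iff]
        intro g
        have hc : ⁅g, (⟨x, hx⟩ : P₀)⁆ ∈ Subgroup.center P₀ := by
          rw [← hcomm]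
          exact Subgroup.commutator_mem_commutator (Subgroup.mem_top _) (Subgroup.mem_top _)
        rw [hbot, Subgroup.mem_bot, commutatorElement_eq_one_iff_mul_comm] at hc
        exact hc
      rw [hbot, Subgroup.mem_bot] at hx1
      have : x = 1 := congrArg Subtype.val hx1
      rw [this, one_mul, mul_one]
    · rw [← hZ'card]
      exact hrk Z' (hZ'P₀.trans hP₀P) (fun x hx y hy => hZ'comm x hx y (hZ'P₀ hy)) hZ'sq
    · exact hZsq
    · exact hsq
    · intro hcard4 x hx2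
      by_contra hxZ
      obtain ⟨hEab, hEsq⟩ := closure_elementary ((Z' : Set X) ∪ {(x : X)}) (by
        rintro a (ha | ha) b (hb | hb)
        · exact hZ'comm a ha b (hZ'P₀ hb)
        · rw [Set.mem_singleton_iff.mp hb]; exact hZ'comm a ha _ x.2
        · rw [Set.mem_singleton_iff.mp ha]; exact (hZ'comm b hb _ x.2).symm
        · rw [Set.mem_singleton_iff.mp ha, Set.mem_singleton_iff.mp hb]) (by
        rintro a (ha | ha)
        · exact hZ'sq a ha
        · rw [Set.mem_singleton_iff.mp ha]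
          have := congrArg Subtype.val hx2
          simpa using this)
      have hEP₀ : Subgroup.closure ((Z' : Set X) ∪ {(x : X)}) ≤ P₀ := by
        rw [Subgroup.closure_le]
        rintro a (ha | ha)
        · exact hZ'P₀ ha
        · rw [Set.mem_singleton_iff.mp ha]; exact x.2
      have hZ'E : Z' ≤ Subgroup.closure ((Z' : Set X) ∪ {(x : X)}) :=
        fun a ha => Subgroup.subset_closure (Or.inl ha)
      have hE4 := hrk _ (hEP₀.trans hP₀P) hEab hEsq
      have heq := Subgroup.eq_of_le_of_card_ge hZ'E (by rw [hZ'card, hcard4]; exact hE4)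
      apply hxZ
      rw [← hZ'mem, heq]
      exact Subgroup.subset_closure (Or.inr rfl)
    · intro z hz hδz
      have h1 : d * (z : X) * d⁻¹ = z := by rw [← hδapp, hδz]
      have h2 : (z : X) = 1 := hfp z (hP₀P z.2) (by
        rw [mul_inv_eq_iff_eq_mul] at h1; exact h1.symm)
      exact Subtype.ext h2
    · intro x hx
      rw [hfixed]
      intro a ha
      rw [hAbar] at ha
      obtain ⟨a0, ha0, ha0w⟩ := exists_of_mem_range A P₀ hAP₀ a ha
      apply Subtype.ext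
      rw [ha0w]
      have h1 : d ^ 3 * (x : X) * (d ^ 3)⁻¹ = x := by rw [← hδpow, hx]
      have h2 : (x : X) * d ^ 3 = d ^ 3 * x := by
        rw [mul_inv_eq_iff_eq_mul] at h1; exact h1.symm
      rw [← hAcomm a0 ha0 (x : X) h2, mul_inv_cancel_right]
  apply hP₀nc
  intro x hx
  have hxc : (⟨x, hx⟩ : P₀) ∈ Subgroup.center P₀ := hall ▸ Subgroup.mem_top _
  have hfixx := (hfixed _).mp hxc (conjHom A P₀ hAP₀ ⟨d ^ 3, by
    rw [hAdef]; exact Subgroup.mem_zpowers _⟩) (by rw [hAbar]; exact ⟨_, rfl⟩)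
  have h1 := congrArg Subtype.val hfixx
  rw [conjHom_apply] at h1
  have h2 : d ^ 3 * x * (d ^ 3)⁻¹ = x := h1
  rw [mul_inv_eq_iff_eq_mul] at h2
  exact h2.symm

end Cfsg.Agent.S3738
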