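import Mathlib
import Cfsg.Statements.S3739
import Cfsg.Agent.S3734
import Cfsg.Agent.S3738
import Cfsg.Agent.Lib.Helper53.PGroupBasics
import Cfsg.Agent.Lib.Helper53.ElemAb
import Cfsg.Agent.Lib.Helper23.RankTwo
import Cfsg.Agent.Lib.Helper76.PSolv

set_option autoImplicit false
open Cfsg

namespace Cfsg.Agent.S3739

open Cfsg.Agent.Lib.Helper53.ElemAb

/-- A non-identity element of `p`-power order has a power of order `p`. -/
theorem exists_pow_prime_order {G : Type*} [Group G] (p : ℕ) (x : G) (hx1 : x ≠ 1) (k : ℕ)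
    (hx : x ^ p ^ k = 1) : ∃ i : ℕ, x ^ p ^ i ≠ 1 ∧ (x ^ p ^ i) ^ p = 1 := by
  classical
  have hex : ∃ j, x ^ p ^ j = 1 := ⟨k, hx⟩
  have hj := Nat.find_spec hex
  have hj0 : Nat.find hex ≠ 0 := by
    intro h0
    rw [h0, pow_zero, pow_one] at hj
    exact hx1 hj
  obtain ⟨i, hi⟩ := Nat.exists_eq_succ_of_ne_zero hj0
  refine ⟨i, ?_, ?_⟩
  · intro h
    have := Nat.find_min' hex h
    omega
  · rw [← pow_mul, ← pow_succ, ← Nat.succ_eq_add_one, ← hi]
    exact hj

theorem eq_one_of_two_three {G : Type*} [Group G] (x : G) (a b : ℕ) (h2 : x ^ 2 ^ a = 1)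
    (h3 : x ^ 3 ^ b = 1) : x = 1 := by
  have h1 : orderOf x ∣ Nat.gcd (2 ^ a) (3 ^ b) :=
    Nat.dvd_gcd (orderOf_dvd_of_pow_eq_one h2) (orderOf_dvd_of_pow_eq_one h3)
  have hc : Nat.gcd (2 ^ a) (3 ^ b) = 1 := Nat.Coprime.pow a b (by norm_num)
  rw [hc, Nat.dvd_one, orderOf_eq_one_iff] at h1
  exact h1

/-- Elements of the join of a subgroup with a cyclic group commuting with it. -/
theorem mem_sup_zpowers {G : Type*} [Group G] (B : Subgroup G) (a : G)
    (hBa : ∀ b ∈ B, b * a = a * b) :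
    ∀ x ∈ B ⊔ Subgroup.zpowers a, ∃ b ∈ B, ∃ l : ℤ, x = b * a ^ l := by
  let T : Subgroup G :=
    { carrier := {x | ∃ b ∈ B, ∃ l : ℤ, x = b * a ^ l}
      mul_mem' := by
        rintro x y ⟨b, hb, l, rfl⟩ ⟨b', hb', l', rfl⟩
        refine ⟨b * b', B.mul_mem hb hb', l + l', ?_⟩
        have hc : Commute (a ^ l) b' := ((show Commute b' a from hBa b' hb').zpow_right l).symm
        rw [zpow_add]
        calc b * a ^ l * (b' * a ^ l') = b * (a ^ l * b') * a ^ l' := by group
          _ = b * (b' * a ^ l) * a ^ l' := by rw [hc.eq]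
          _ = b * b' * (a ^ l * a ^ l') := by group
      one_mem' := ⟨1, B.one_mem, 0, by simp⟩
      inv_mem' := by
        rintro x ⟨b, hb, l, rfl⟩
        refine ⟨b⁻¹, B.inv_mem hb, -l, ?_⟩
        have hc : Commute (a ^ l) b := ((show Commute b a from hBa b hb).zpow_right l).symm
        rw [mul_inv_rev, zpow_neg]
        exact (hc.inv_left.inv_right).eq }
  have h1 : B ≤ T := fun b hb => ⟨b, hb, 0, by simp⟩
  have h2 : Subgroup.zpowers a ≤ T := by
    rw [Subgroup.zpowers_le]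
    exact ⟨1, B.one_mem, 1, by simp⟩
  intro x hx
  exact (sup_le h1 h2) hx

/-- The elements of a four-group. -/
theorem four_eq {G : Type*} [Group G] [Finite G] (W : Subgroup G) (hW4 : Nat.card W = 4)
    (hexp : ∀ w ∈ W, w ^ 2 = 1) (a b : G) (ha : a ∈ W) (hb : b ∈ W) (ha1 : a ≠ 1) (hb1 : b ≠ 1)
    (hab : a ≠ b) : ∀ w ∈ W, w = 1 ∨ w = a ∨ w = b ∨ w = a * b := by
  have hS : ({1, a, b, a * b} : Set G) ⊆ (W : Set G) := by
    intro x hx
    simp only [Set.mem_insert_iff, Set.mem_singleton_iff] at hx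
    rcases hx with h | h | h | h <;> rw [h]
    · exact W.one_mem
    · exact ha
    · exact hb
    · exact W.mul_mem ha hb
  have hab1 : a * b ≠ 1 := by
    intro h
    apply hab
    have : a * b = a * a := by rw [h, ← pow_two, hexp a ha]
    exact (mul_left_cancel this).symm
  have n3 : b ≠ a * b := fun h => ha1 (by simpa using h)
  have n2 : a ∉ ({b, a * b} : Set G) := by
    intro h
    simp only [Set.mem_insert_iff, Set.mem_singleton_iff] at h
    rcases h with h | h
    · exact hab h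
    · exact hb1 (by simpa using h)
  have n1 : (1 : G) ∉ ({a, b, a * b} : Set G) := by
    intro h
    simp only [Set.mem_insert_iff, Set.mem_singleton_iff] at h
    rcases h with h | h | h
    · exact ha1 h.symm
    · exact hb1 h.symm
    · exact hab1 h.symm
  have hcard : ({1, a, b, a * b} : Set G).ncard = 4 := by
    rw [Set.ncard_insert_of_notMem n1, Set.ncard_insert_of_notMem n2, Set.ncard_pair n3]
  have heq : ({1, a, b, a * b} : Set G) = (W : Set G) :=
    Set.eq_of_subset_of_ncard_le hS (by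
      rw [hcard, ← Nat.card_coe_set_eq]; exact hW4.le) (Set.toFinite _)
  intro w hw
  have hmem : w ∈ ({1, a, b, a * b} : Set G) := by rw [heq]; exact hw
  simpa only [Set.mem_insert_iff, Set.mem_singleton_iff] using hmem

/-- An element of odd order normalizing a four-group and fixing one of its non-identity
elements centralizes it. -/
theorem centralizes_four {G : Type*} [Group G] [Finite G] (W : Subgroup G)
    (hW4 : Nat.card W = 4) (hexp : ∀ w ∈ W, w ^ 2 = 1) (e : G) (m : ℕ)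
    (hm : e ^ (2 * m + 1) = 1) (he : ∀ w ∈ W, e * w * e⁻¹ ∈ W) (w₀ : G) (hw₀ : w₀ ∈ W)
    (hw₀1 : w₀ ≠ 1) (hfix : e * w₀ * e⁻¹ = w₀) : ∀ w ∈ W, e * w * e⁻¹ = w := by
  have h1 : ∀ w ∈ W, e * w * e⁻¹ = w ∨ e * w * e⁻¹ = w₀ * w := by
    intro w hw
    by_cases hw1 : w = 1
    · left; rw [hw1]; group
    by_cases hw0 : w = w₀
    · left; rw [hw0]; exact hfix
    rcases four_eq W hW4 hexp w₀ w hw₀ hw hw₀1 hw1 (Ne.symm hw0) (e * w * e⁻¹) (he w hw)
      with h | h | h | h
    · exfalso; apply hw1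
      have h' : e * w * e⁻¹ = e * 1 * e⁻¹ := by rw [h]; group
      exact mul_left_cancel (mul_right_cancel h')
    · exfalso; apply hw0
      have h' : e * w * e⁻¹ = e * w₀ * e⁻¹ := h.trans hfix.symm
      exact mul_left_cancel (mul_right_cancel h')
    · left; exact h
    · right; exact h
  have h2 : ∀ w ∈ W, e ^ 2 * w * (e ^ 2)⁻¹ = w := by
    intro w hw
    have e1 : e ^ 2 * w * (e ^ 2)⁻¹ = e * (e * w * e⁻¹) * e⁻¹ := by rw [pow_two]; group
    rw [e1]
    rcases h1 w hw with h | h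
    · rw [h, h]
    · rw [h]
      have e2 : e * (w₀ * w) * e⁻¹ = (e * w₀ * e⁻¹) * (e * w * e⁻¹) := by group
      rw [e2, hfix, h, ← mul_assoc, ← pow_two, hexp w₀ hw₀, one_mul]
  intro w hw
  have hc : Commute (e ^ 2) w := by
    have := h2 w hw
    rw [mul_inv_eq_iff_eq_mul] at this
    exact this
  have he' : (e ^ 2) ^ (m + 1) = e := by
    rw [← pow_mul, show 2 * (m + 1) = (2 * m + 1) + 1 by ring, pow_succ, hm, one_mul]
  have hc2 : Commute e w := by
    have := hc.pow_left (m + 1)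
    rwa [he'] at this
  rw [hc2.eq]; exact mul_inv_cancel_right _ _

/-- Let G be a finite group with C_G(O₂(G)) ≤ O₂(G) containing an element of order 6, and let d be a non-identity 3-element of G normalizing a nontrivial elementary abelian 2-subgroup W with C_W(d) = 1. Then G has an elementary abelian subgroup of order 8. -/
theorem result {G : Type*} [Group G] [Finite G] (hchar : Subgroup.centralizer (Cfsg.pCore 2 G : Set G) ≤ Cfsg.pCore 2 G) (hsix : ∃ g : G, orderOf g = 6) (d : G) (hd1 : d ≠ 1) (hd : IsPGroup 3 ↥(Subgroup.zpowers d)) (W : Subgroup G) (hW : Cfsg.IsElementaryAbelian 2 W) (hW1 : W ≠ ⊥) (hdW : d ∈ Subgroup.normalizer (W : Set G)) (hfpf : W ⊓ Subgroup.centralizer {d} = ⊥) : ∃ E : Subgroup G, Cfsg.IsElementaryAbelian 2 E ∧ Nat.card E = 8 := by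
  classical
  by_contra hno
  obtain ⟨hWab, hWexp⟩ := (elemAb_iff 2 W).mp hW
  -- the rank bound
  have hrk : ∀ E : Subgroup G, Cfsg.IsElementaryAbelian 2 E → Nat.card E ≤ 4 := by
    intro E hE
    by_contra h
    have h := not_le.mp h
    have hE2 : IsPGroup 2 E := by
      intro x
      refine ⟨1, ?_⟩
      rw [pow_one]
      exact Subtype.ext (by simpa using ((elemAb_iff 2 E).mp hE).2 x x.2)
    obtain ⟨k, hk⟩ := IsPGroup.iff_card.mp hE2
    have hk3 : 3 ≤ k := by
      by_contra hk3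
      have h2 : k ≤ 2 := by omega
      have : 2 ^ k ≤ 2 ^ 2 := Nat.pow_le_pow_right (by norm_num) h2
      omega
    obtain ⟨K, hK⟩ := Sylow.exists_subgroup_card_pow_prime 2
      (show 2 ^ 3 ∣ Nat.card E by rw [hk]; exact pow_dvd_pow 2 hk3)
    apply hno
    refine ⟨K.map E.subtype, elemAb_of_le hE (Subgroup.map_subtype_le K), ?_⟩
    rw [Subgroup.card_subtype, hK]
    norm_num
  have hW2 : IsPGroup 2 W := by
    intro x
    refine ⟨1, ?_⟩
    rw [pow_one]
    exact Subtype.ext (by simpa using hWexp x x.2)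
  obtain ⟨w₀, hw₀W, hw₀1⟩ : ∃ w ∈ W, w ≠ 1 := by
    by_contra h
    push Not at h
    exact hW1 ((Subgroup.eq_bot_iff_forall W).mpr h)
  have hdconj : ∀ w ∈ W, d * w * d⁻¹ ∈ W := fun w hw =>
    (Subgroup.mem_normalizer_iff.mp hdW w).mp hw
  have hdfix : ∀ w ∈ W, d * w * d⁻¹ = w → w = 1 := by
    intro w hw h
    have : w ∈ W ⊓ Subgroup.centralizer {d} := by
      refine ⟨hw, Subgroup.mem_centralizer_iff.mpr (fun x hx => ?_)⟩
      rw [Set.mem_singleton_iff.mp hx]
      rw [mul_inv_eq_iff_eq_mul] at h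
      exact h
    rw [hfpf, Subgroup.mem_bot] at this
    exact this
  have hW4 : Nat.card W = 4 := by
    have h4 := hrk W hW
    obtain ⟨k, hk⟩ := IsPGroup.iff_card.mp hW2
    have hk0 : k ≠ 0 := by
      rintro rfl
      exact hW1 (Subgroup.eq_bot_of_card_eq W (by simpa using hk))
    have hk1 : k ≠ 1 := by
      rintro rfl
      rw [pow_one] at hk
      have hsub : ({1, w₀} : Set G) ⊆ (W : Set G) := by
        intro x hx
        simp only [Set.mem_insert_iff, Set.mem_singleton_iff] at hx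
        rcases hx with h | h <;> rw [h]
        · exact W.one_mem
        · exact hw₀W
      have heq : ({1, w₀} : Set G) = (W : Set G) :=
        Set.eq_of_subset_of_ncard_le hsub (by
          rw [Set.ncard_pair (Ne.symm hw₀1), ← Nat.card_coe_set_eq]; exact hk.le) (Set.toFinite _)
      have hmem : d * w₀ * d⁻¹ ∈ ({1, w₀} : Set G) := by rw [heq]; exact hdconj w₀ hw₀W
      simp only [Set.mem_insert_iff, Set.mem_singleton_iff] at hmem
      rcases hmem with h | h
      · apply hw₀1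
        have h' : d * w₀ * d⁻¹ = d * 1 * d⁻¹ := by rw [h]; group
        exact mul_left_cancel (mul_right_cancel h')
      · exact hw₀1 (hdfix w₀ hw₀W h)
    have hk2 : k ≤ 2 := by
      by_contra hk2
      have : 2 ^ 3 ≤ 2 ^ k := Nat.pow_le_pow_right (by norm_num) (by omega)
      omega
    have : k = 2 := by omega
    rw [hk, this]
    norm_num
  -- an involution centralizing `W` lies in `W`
  have hstar : ∀ s : G, s ^ 2 = 1 → (∀ w ∈ W, s * w = w * s) → s ∈ W := by
    intro s hs2 hsW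
    by_contra hsn
    have hZ : Cfsg.IsElementaryAbelian 2 (Subgroup.zpowers s) := by
      rw [Subgroup.zpowers_eq_closure]
      apply elemAb_closure
      · intro x hx y hy
        rw [Set.mem_singleton_iff.mp hx, Set.mem_singleton_iff.mp hy]
      · intro x hx
        rw [Set.mem_singleton_iff.mp hx]; exact hs2
    have hE := Cfsg.Agent.Lib.Helper23.RankTwo.elemAb_sup hW hZ (by
      intro a ha b hb
      obtain ⟨j, rfl⟩ := Subgroup.mem_zpowers_iff.mp hb
      exact ((show Commute s a from hsW a ha).zpow_left j).eq.symm)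
    have h4 := hrk _ hE
    have hle : W ≤ W ⊔ Subgroup.zpowers s := le_sup_left
    have heq : W = W ⊔ Subgroup.zpowers s :=
      Subgroup.eq_of_le_of_card_ge hle (by rw [hW4]; exact h4)
    apply hsn
    have : s ∈ W ⊔ Subgroup.zpowers s := Subgroup.mem_sup_right (Subgroup.mem_zpowers s)
    rw [← heq] at this
    exact this
  -- the `2`-core
  obtain ⟨Q, hQdef⟩ : ∃ Q : Subgroup G, Q = Cfsg.pCore 2 G := ⟨_, rfl⟩
  rw [← hQdef] at hchar
  have hQn : Q.Normal := by
    rw [hQdef]; exact Subgroup.sSup_normal _ (fun _ h => h.1)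
  have hQ2 : IsPGroup 2 Q := by
    rw [hQdef]; exact Cfsg.Agent.Lib.Helper76.PSolv.pCore_isPGroup 2
  have hQ₁ : IsPGroup 2 ↥(Q ⊔ W) := IsPGroup.to_sup_of_normal_left hQ2 hW2
  have : Nontrivial ↥(Q ⊔ W) :=
    ⟨⟨⟨w₀, (le_sup_right : W ≤ Q ⊔ W) hw₀W⟩, 1, fun h => hw₀1 (congrArg Subtype.val h)⟩⟩
  have := hQ₁.center_nontrivial
  obtain ⟨z, hz1⟩ := exists_ne (1 : Subgroup.center ↥(Q ⊔ W))
  have hzc : ∀ y ∈ Q ⊔ W, y * ((z : ↥(Q ⊔ W)) : G) = ((z : ↥(Q ⊔ W)) : G) * y := by
    intro y hy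
    have := Subgroup.mem_center_iff.mp z.2 ⟨y, hy⟩
    exact congrArg Subtype.val this
  have hz1' : ((z : ↥(Q ⊔ W)) : G) ≠ 1 := by
    intro h
    apply hz1
    exact Subtype.ext (Subtype.ext h)
  obtain ⟨k₁, hk₁⟩ := hQ₁ (z : ↥(Q ⊔ W))
  have hk₁' : ((z : ↥(Q ⊔ W)) : G) ^ 2 ^ k₁ = 1 := by
    simpa using congrArg Subtype.val hk₁
  obtain ⟨i₁, hi₁, hi₁'⟩ := exists_pow_prime_order 2 _ hz1' k₁ hk₁'
  obtain ⟨w₁, hw₁def⟩ : ∃ w₁ : G, w₁ = ((z : ↥(Q ⊔ W)) : G) ^ 2 ^ i₁ := ⟨_, rfl⟩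
  rw [← hw₁def] at hi₁ hi₁'
  have hw₁c : ∀ y ∈ Q ⊔ W, y * w₁ = w₁ * y := fun y hy => by
    rw [hw₁def]
    exact ((show Commute y ((z : ↥(Q ⊔ W)) : G) from hzc y hy).pow_right _).eq
  have hw₁W : w₁ ∈ W := hstar w₁ hi₁' (fun w hw => (hw₁c w (Subgroup.mem_sup_right hw)).symm)
  have hdQ : ∀ q ∈ Q, d⁻¹ * q * d ∈ Q := fun q hq => by
    have := hQn.conj_mem q hq d⁻¹
    simpa using this
  have hw₁Q : ∀ q ∈ Q, q * w₁ = w₁ * q := fun q hq => hw₁c q (Subgroup.mem_sup_left hq)
  have hw₂Q : ∀ q ∈ Q, q * (d * w₁ * d⁻¹) = (d * w₁ * d⁻¹) * q := by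
    intro q hq
    have h := hw₁Q _ (hdQ q hq)
    calc q * (d * w₁ * d⁻¹) = d * ((d⁻¹ * q * d) * w₁) * d⁻¹ := by group
      _ = d * (w₁ * (d⁻¹ * q * d)) * d⁻¹ := by rw [h]
      _ = (d * w₁ * d⁻¹) * q := by group
  have hw₂W : d * w₁ * d⁻¹ ∈ W := hdconj w₁ hw₁W
  have hw₂1 : d * w₁ * d⁻¹ ≠ 1 := by
    intro h
    apply hi₁
    have h' : d * w₁ * d⁻¹ = d * 1 * d⁻¹ := by rw [h]; group
    exact mul_left_cancel (mul_right_cancel h')
  have hw₁₂ : w₁ ≠ d * w₁ * d⁻¹ := fun h => hi₁ (hdfix w₁ hw₁W h.symm)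
  have hWcQ : ∀ w ∈ W, ∀ q ∈ Q, q * w = w * q := by
    intro w hw q hq
    rcases four_eq W hW4 hWexp w₁ (d * w₁ * d⁻¹) hw₁W hw₂W hi₁ hw₂1 hw₁₂ w hw with h | h | h | h
    · rw [h, mul_one, one_mul]
    · rw [h]; exact hw₁Q q hq
    · rw [h]; exact hw₂Q q hq
    · rw [h]
      calc q * (w₁ * (d * w₁ * d⁻¹)) = (q * w₁) * (d * w₁ * d⁻¹) := (mul_assoc _ _ _).symm
        _ = w₁ * (q * (d * w₁ * d⁻¹)) := by rw [hw₁Q q hq]; exact mul_assoc _ _ _
        _ = w₁ * (d * w₁ * d⁻¹) * q := by rw [hw₂Q q hq]; exact (mul_assoc _ _ _).symm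
  have hWQ : W ≤ Q := by
    intro w hw
    apply hchar
    exact Subgroup.mem_centralizer_iff.mpr (fun q hq => hWcQ w hw q hq)
  have hinvW : ∀ s ∈ Q, s ^ 2 = 1 → s ∈ W := fun s hs hs2 =>
    hstar s hs2 (fun w hw => hWcQ w hw s hs)
  have hWn : ∀ h : G, ∀ w ∈ W, h * w * h⁻¹ ∈ W := by
    intro h w hw
    apply hinvW
    · exact hQn.conj_mem w (hWQ hw) h
    · rw [conj_pow, hWexp w hw]; group
  -- odd-order elements not centralizing `W` act without fixed points on `Q`
  have hF : ∀ (e : G) (m : ℕ), e ^ (2 * m + 1) = 1 → (¬ ∀ w ∈ W, e * w * e⁻¹ = w) →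
      ∀ x ∈ Q, x * e = e * x → x = 1 := by
    intro e m hm hne x hx hxe
    by_contra hx1
    obtain ⟨k, hk⟩ := hQ2 ⟨x, hx⟩
    have hk' : x ^ 2 ^ k = 1 := by simpa using congrArg Subtype.val hk
    obtain ⟨i, hi, hi'⟩ := exists_pow_prime_order 2 x hx1 k hk'
    have huW : x ^ 2 ^ i ∈ W := hinvW _ (Q.pow_mem hx _) hi'
    apply hne
    apply centralizes_four W hW4 hWexp e m hm (hWn e) (x ^ 2 ^ i) huW hi
    have hc : Commute (x ^ 2 ^ i) e := (show Commute x e from hxe).pow_left _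
    rw [← hc.eq, mul_inv_cancel_right]
  -- the element of order `6`
  obtain ⟨t, c, ht2, ht1, hc3, hc1, htc⟩ : ∃ t c : G, t ^ 2 = 1 ∧ t ≠ 1 ∧
      c ^ (2 * 1 + 1) = 1 ∧ c ≠ 1 ∧ Commute t c := by
    obtain ⟨g, hg⟩ := hsix
    have hg6 : g ^ 6 = 1 := by rw [← hg]; exact pow_orderOf_eq_one g
    refine ⟨g ^ 3, g ^ 2, by rw [← pow_mul]; exact hg6, ?_, by rw [← pow_mul]; exact hg6, ?_,
      (Commute.refl g).pow_pow 3 2⟩
    · intro h
      have := orderOf_dvd_of_pow_eq_one h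
      rw [hg] at this
      omega
    · intro h
      have := orderOf_dvd_of_pow_eq_one h
      rw [hg] at this
      omega
  have hcW : ∀ w ∈ W, c * w * c⁻¹ = w := by
    by_cases hA : ∀ w ∈ W, t * w = w * t
    · have htW : t ∈ W := hstar _ ht2 hA
      apply centralizes_four W hW4 hWexp c 1 hc3 (hWn _) t htW ht1
      rw [← htc.eq, mul_inv_cancel_right]
    · push Not at hA
      obtain ⟨w, hw, hwt⟩ := hA
      have htw : t * w * t⁻¹ ∈ W := hWn t w hw
      have e2 : t * t = 1 := by rw [← pow_two]; exact ht2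
      have htinv : t⁻¹ = t := by
        rw [inv_eq_iff_mul_eq_one]; exact e2
      have hu1 : w * (t * w * t⁻¹) ≠ 1 := by
        intro h
        apply hwt
        have hw2 := hWexp w hw
        have h3 : t * w * t⁻¹ = w := by
          have : w * (t * w * t⁻¹) = w * w := by rw [h, ← pow_two, hw2]
          exact mul_left_cancel this
        rw [mul_inv_eq_iff_eq_mul] at h3
        exact h3
      have hut : t * (w * (t * w * t⁻¹)) * t⁻¹ = w * (t * w * t⁻¹) := by
        have e1 : t * (w * (t * w * t⁻¹)) * t⁻¹ = (t * w * t⁻¹) * (t * t * w * (t⁻¹ * t⁻¹)) := by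
          group
        have e3 : t⁻¹ * t⁻¹ = 1 := by rw [htinv]; exact e2
        rw [e1, e2, e3, one_mul, mul_one]
        exact hWab _ htw _ hw
      have huW : w * (t * w * t⁻¹) ∈ W := W.mul_mem hw htw
      obtain ⟨u, hudef⟩ : ∃ u : G, u = w * (t * w * t⁻¹) := ⟨_, rfl⟩
      rw [← hudef] at hu1 hut huW
      have hcu : c * u * c⁻¹ = u := by
        by_contra hne
        have hu'W : c * u * c⁻¹ ∈ W := hWn c u huW
        have hu'1 : c * u * c⁻¹ ≠ 1 := by
          intro h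
          apply hu1
          have h' : c * u * c⁻¹ = c * 1 * c⁻¹ := by rw [h]; group
          exact mul_left_cancel (mul_right_cancel h')
        have hu't : t * (c * u * c⁻¹) * t⁻¹ = c * u * c⁻¹ := by
          have e1 : t * (c * u * c⁻¹) * t⁻¹ = (t * c) * u * (t * c)⁻¹ := by group
          rw [e1, htc.eq]
          have e4 : c * t * u * (c * t)⁻¹ = c * (t * u * t⁻¹) * c⁻¹ := by group
          rw [e4, hut]
        apply hwt
        have hall : ∀ v ∈ W, t * v * t⁻¹ = v := by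
          intro v hv
          rcases four_eq W hW4 hWexp u (c * u * c⁻¹) huW hu'W hu1 hu'1 (Ne.symm hne) v hv
            with h | h | h | h
          · rw [h]; group
          · rw [h]; exact hut
          · rw [h]; exact hu't
          · rw [h]
            have e5 : t * (u * (c * u * c⁻¹)) * t⁻¹ =
                (t * u * t⁻¹) * (t * (c * u * c⁻¹) * t⁻¹) := by group
            rw [e5, hut, hu't]
        have := hall w hw
        rw [mul_inv_eq_iff_eq_mul] at this
        exact this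
      exact centralizes_four W hW4 hWexp c 1 hc3 (hWn c) u huW hu1 hcu
  -- the centralizer of `W`
  haveI hWnormal : W.Normal := ⟨fun w hw h => hWn h w hw⟩
  obtain ⟨C, hCdef⟩ : ∃ C : Subgroup G, C = Subgroup.centralizer (W : Set G) := ⟨_, rfl⟩
  haveI hCn : C.Normal := by rw [hCdef]; infer_instance
  have hCmem : ∀ e : G, e ∈ C ↔ ∀ w ∈ W, e * w * e⁻¹ = w := by
    intro e
    rw [hCdef, Subgroup.mem_centralizer_iff]
    constructor
    · intro h w hw
      rw [← h w hw, mul_inv_cancel_right]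
    · intro h w hw
      have := h w hw
      rw [mul_inv_eq_iff_eq_mul] at this
      exact this.symm
  have hcC : c ∈ C := (hCmem c).mpr hcW
  have hdC : d ∉ C := by
    intro h
    exact hw₀1 (hdfix w₀ hw₀W ((hCmem d).mp h w₀ hw₀W))
  obtain ⟨S, hS⟩ := hd.exists_le_sylow
  have hc3grp : IsPGroup 3 (Subgroup.zpowers c) := by
    apply IsPGroup.of_card (n := 1)
    rw [Nat.card_zpowers, pow_one]
    exact orderOf_eq_prime hc3 hc1
  obtain ⟨S', hS'⟩ := hc3grp.exists_le_sylow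
  obtain ⟨h, hh⟩ := MulAction.exists_smul_eq G S' S
  have hc'S : h * c * h⁻¹ ∈ (S : Subgroup G) := by
    rw [← hh, Sylow.coe_subgroup_smul]
    exact Subgroup.smul_mem_pointwise_smul c (MulAut.conj h) _ (hS' (Subgroup.mem_zpowers c))
  have hc'C : h * c * h⁻¹ ∈ C := hCn.conj_mem c hcC h
  have hc'1 : h * c * h⁻¹ ≠ 1 := by
    intro h1
    apply hc1
    have h' : h * c * h⁻¹ = h * 1 * h⁻¹ := by rw [h1]; group
    exact mul_left_cancel (mul_right_cancel h')
  have hS3 : IsPGroup 3 ↥(S : Subgroup G) := S.isPGroup'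
  haveI : (C.subgroupOf (S : Subgroup G)).Normal := hCn.subgroupOf _
  have hNne : C.subgroupOf (S : Subgroup G) ≠ ⊥ := by
    intro hbot
    have : (⟨h * c * h⁻¹, hc'S⟩ : ↥(S : Subgroup G)) ∈ C.subgroupOf (S : Subgroup G) :=
      Subgroup.mem_subgroupOf.mpr hc'C
    rw [hbot, Subgroup.mem_bot] at this
    exact hc'1 (congrArg Subtype.val this)
  obtain ⟨z₀, hz₀N, hz₀1, hz₀c⟩ :=
    Cfsg.Agent.Lib.Helper53.PGroupBasics.exists_center_mem_normal hS3
      (C.subgroupOf (S : Subgroup G)) hNne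
  have hz₀C : (z₀ : G) ∈ C := Subgroup.mem_subgroupOf.mp hz₀N
  have hz₀1' : (z₀ : G) ≠ 1 := fun h => hz₀1 (Subtype.ext h)
  have hdS : d ∈ (S : Subgroup G) := hS (Subgroup.mem_zpowers d)
  have hz₀d : Commute (z₀ : G) d := by
    have := Subgroup.mem_center_iff.mp hz₀c ⟨d, hdS⟩
    exact (congrArg Subtype.val this).symm
  obtain ⟨k₂, hk₂⟩ := hS3 z₀
  have hk₂' : (z₀ : G) ^ 3 ^ k₂ = 1 := by simpa using congrArg Subtype.val hk₂
  obtain ⟨i₂, hz₂1, hz₂3⟩ := exists_pow_prime_order 3 _ hz₀1' k₂ hk₂'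
  obtain ⟨z₂, hz₂def⟩ : ∃ z₂ : G, z₂ = (z₀ : G) ^ 3 ^ i₂ := ⟨_, rfl⟩
  rw [← hz₂def] at hz₂1 hz₂3
  have hz₂C : z₂ ∈ C := by rw [hz₂def]; exact C.pow_mem hz₀C _
  have hz₂d : Commute z₂ d := by rw [hz₂def]; exact hz₀d.pow_left _
  -- `d` has order `3`
  obtain ⟨n, hn⟩ := IsPGroup.iff_card.mp hd
  rw [Nat.card_zpowers] at hn
  have hn1 : 1 ≤ n := by
    by_contra h
    have h0 : n = 0 := by omega
    rw [h0, pow_zero, orderOf_eq_one_iff] at hn
    exact hd1 hn
  obtain ⟨m, hm⟩ : ∃ m, 3 ^ n = 2 * m + 1 := Odd.pow (by decide : Odd 3)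
  have hdm : d ^ (2 * m + 1) = 1 := by rw [← hm, ← hn]; exact pow_orderOf_eq_one d
  have hdnc : ¬ ∀ w ∈ W, d * w * d⁻¹ = w := fun h => hdC ((hCmem d).mpr h)
  have hd3 : orderOf d = 3 := by
    apply Cfsg.Agent.S3738.result d n hn1 hn Q hQ2
    · rw [Subgroup.normalizer_eq_top]; exact Subgroup.mem_top d
    · rw [eq_bot_iff]
      rintro x ⟨hx1, hx2⟩
      have hxQ : x ∈ Q := hchar hx2
      obtain ⟨k, hk⟩ := hQ2 ⟨x, hxQ⟩
      have hk' : x ^ 2 ^ k = 1 := by simpa using congrArg Subtype.val hk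
      obtain ⟨k', hk2⟩ := hd ⟨x, hx1⟩
      have hk'' : x ^ 3 ^ k' = 1 := by simpa using congrArg Subtype.val hk2
      rw [Subgroup.mem_bot]
      exact eq_one_of_two_three x k k' hk' hk''
    · rw [eq_bot_iff]
      rintro x ⟨hx1, hx2⟩
      rw [Subgroup.mem_bot]
      apply hF d m hdm hdnc x hx1
      exact (Subgroup.mem_centralizer_iff.mp hx2 d rfl).symm
    · intro V hVQ hVab A hAab hAexp
      have hE : Cfsg.IsElementaryAbelian 2 (A.map V.subtype) := elemAb_map V.subtype ⟨hAab, hAexp⟩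
      have := hrk _ hE
      rw [Subgroup.card_subtype] at this
      norm_num
      exact this
  have hd3' : d ^ 3 = 1 := by rw [← hd3]; exact pow_orderOf_eq_one d
  -- the group `E = ⟨z₂⟩ × ⟨d⟩`
  obtain ⟨E, hEdef⟩ : ∃ E : Subgroup G, E = Subgroup.zpowers z₂ ⊔ Subgroup.zpowers d := ⟨_, rfl⟩
  have hEel : Cfsg.IsElementaryAbelian 3 E := by
    rw [hEdef]
    apply Cfsg.Agent.Lib.Helper23.RankTwo.elemAb_sup
    · rw [Subgroup.zpowers_eq_closure]
      apply elemAb_closure
      · intro x hx y hy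
        rw [Set.mem_singleton_iff.mp hx, Set.mem_singleton_iff.mp hy]
      · intro x hx
        rw [Set.mem_singleton_iff.mp hx]; exact hz₂3
    · rw [Subgroup.zpowers_eq_closure]
      apply elemAb_closure
      · intro x hx y hy
        rw [Set.mem_singleton_iff.mp hx, Set.mem_singleton_iff.mp hy]
      · intro x hx
        rw [Set.mem_singleton_iff.mp hx]; exact hd3'
    · intro a ha b hb
      obtain ⟨i, rfl⟩ := Subgroup.mem_zpowers_iff.mp ha
      obtain ⟨j, rfl⟩ := Subgroup.mem_zpowers_iff.mp hb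
      exact ((hz₂d.zpow_left i).zpow_right j).eq
  obtain ⟨hEab', hEexp⟩ := (elemAb_iff 3 E).mp hEel
  have hE3 : IsPGroup 3 E := fun x =>
    ⟨1, by rw [pow_one]; exact Subtype.ext (by simpa using hEexp x x.2)⟩
  have hcop : (Nat.card E).Coprime (Nat.card Q) := by
    obtain ⟨a, ha⟩ := IsPGroup.iff_card.mp hE3
    obtain ⟨b, hb⟩ := IsPGroup.iff_card.mp hQ2
    rw [ha, hb]; exact Nat.Coprime.pow _ _ (by norm_num)
  have hgen := (Cfsg.Agent.S3734.result E Q hEel.1
    (by rw [Subgroup.normalizer_eq_top]; exact le_top) hcop).1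
  have hdE : d ∈ E := by rw [hEdef]; exact Subgroup.mem_sup_right (Subgroup.mem_zpowers d)
  have hz₂E : z₂ ∈ E := by rw [hEdef]; exact Subgroup.mem_sup_left (Subgroup.mem_zpowers z₂)
  have hle : Q ≤ Subgroup.centralizer {z₂} := by
    refine hgen.symm.le.trans (iSup₂_le (fun B hB => ?_))
    obtain ⟨hBE, a, haE, hBa⟩ := hB
    by_cases hBC : B ≤ C
    · have hz₂B : z₂ ∈ B := by
        have hsup := mem_sup_zpowers B a (fun b hb => hEab' b (hBE hb) a haE)
        have haC : a ∉ C := by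
          intro haC
          obtain ⟨b, hb, l, hl⟩ := hsup d (by rw [hBa]; exact hdE)
          apply hdC
          rw [hl]
          exact C.mul_mem (hBC hb) (C.zpow_mem haC l)
        obtain ⟨b, hb, l, hl⟩ := hsup z₂ (by rw [hBa]; exact hz₂E)
        have ha3 : a ^ (3 : ℤ) = 1 := by
          rw [zpow_ofNat]
          exact hEexp a haE
        have halC : a ^ l ∈ C := by
          have : a ^ l = b⁻¹ * z₂ := by rw [hl]; group
          rw [this]
          exact C.mul_mem (C.inv_mem (hBC hb)) hz₂C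
        have hal : a ^ l = 1 := by
          rw [zpow_eq_zpow_emod l ha3] at halC ⊢
          have h0 : 0 ≤ l % 3 := Int.emod_nonneg l (by norm_num)
          have h3 : l % 3 < 3 := Int.emod_lt_of_pos l (by norm_num)
          obtain h | h | h : l % 3 = 0 ∨ l % 3 = 1 ∨ l % 3 = 2 := by omega
          · rw [h, zpow_zero]
          · rw [h, zpow_one] at halC; exact absurd halC haC
          · rw [h, zpow_ofNat] at halC
            exfalso; apply haC
            have : a = (a ^ 2) ^ 2 := by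
              rw [← pow_mul, show 2 * 2 = 3 + 1 by norm_num, pow_succ, hEexp a haE, one_mul]
            rw [this]; exact C.pow_mem halC 2
        rw [hl, hal, mul_one]; exact hb
      exact inf_le_right.trans (Subgroup.centralizer_le (Set.singleton_subset_iff.mpr hz₂B))
    · obtain ⟨e, heB, heC⟩ := SetLike.not_le_iff_exists.mp hBC
      intro x hx
      have hx1 : x = 1 := by
        apply hF e 1 (show e ^ (2 * 1 + 1) = 1 from hEexp e (hBE heB))
          (fun h => heC ((hCmem e).mpr h)) x hx.1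
        exact (Subgroup.mem_centralizer_iff.mp hx.2 e heB).symm
      rw [hx1]; exact Subgroup.one_mem _
  have hz₂cQ : z₂ ∈ Subgroup.centralizer (Q : Set G) := by
    rw [Subgroup.mem_centralizer_iff]
    intro q hq
    exact (Subgroup.mem_centralizer_iff.mp (hle hq) z₂ rfl).symm
  have hz₂Q : z₂ ∈ Q := hchar hz₂cQ
  obtain ⟨k, hk⟩ := hQ2 ⟨z₂, hz₂Q⟩
  have hk' : z₂ ^ 2 ^ k = 1 := by simpa using congrArg Subtype.val hk
  exact hz₂1 (eq_one_of_two_three z₂ k 1 hk' (by rw [pow_one]; exact hz₂3))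

end Cfsg.Agent.S3739
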