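import Mathlib
import Cfsg.Statements.S3740
import Cfsg.Agent.Lib.Helper53.SL2Unip
import Cfsg.Agent.Lib.Helper53.NormalizerChar
import Cfsg.Agent.Lib.Helper54.Quaternion
import Cfsg.Agent.Lib.Helper2.SL23

set_option autoImplicit false
open Cfsg

namespace Cfsg.Agent.S3740

open Matrix Subgroup
open Cfsg.Agent.Lib.Helper53.SL2Inv Cfsg.Agent.Lib.Helper53.SL2Unip
open Cfsg.Agent.Lib.Helper53.NormalizerChar
open Cfsg.Agent.Lib.Helper54.UniqueSubgroup

/-- Group-theoretic core: `z` is the unique involution of `G` and is central; `a` has odd prime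
order `p` and normalises the `p'`-subgroup `R`; no element of `R` other than `1, z` commutes
with its `a`-conjugate; `a` does not centralise `R`. Then `p = 3`, `R ≅ Q₈`, `R⟨a⟩ ≅ SL₂(3)`. -/
theorem core {G : Type*} [Group G] [Finite G] (p : ℕ) [Fact p.Prime] (hp : p ≠ 2) (z a : G)
    (hz2 : z * z = 1) (hz1 : z ≠ 1) (hzc : ∀ g : G, z * g = g * z)
    (hinv : ∀ g : G, g * g = 1 → g = 1 ∨ g = z) (hap : a ^ p = 1)
    (R : Subgroup G) (hR : (Nat.card R).Coprime p) (haR : a ∈ normalizer (R : Set G))
    (hstar : ∀ x ∈ R, x * (a * x * a⁻¹) = a * x * a⁻¹ * x → x = 1 ∨ x = z)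
    (hex : ∃ x ∈ R, x * a ≠ a * x) :
    p = 3 ∧ Nonempty (R ≃* QuaternionGroup 2) ∧
      Nonempty (↥(R ⊔ zpowers a) ≃* Matrix.SpecialLinearGroup (Fin 2) (ZMod 3)) := by
  classical
  have hpr : p.Prime := Fact.out
  obtain ⟨x0, hx0R, hx0⟩ := hex
  obtain ⟨σ, hσdef⟩ : ∃ σ : MulAut R, σ = conjAut R a haR := ⟨_, rfl⟩
  have hσ : ∀ x : R, ((σ x : R) : G) = a * x * a⁻¹ := fun x => by rw [hσdef]; rfl
  have hσpow : ∀ (m : ℕ) (x : R), (((σ ^ m) x : R) : G) = a ^ m * x * (a ^ m)⁻¹ := by
    intro m
    induction m with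
    | zero => intro x; simp
    | succ m ih =>
      intro x
      rw [pow_succ, MulAut.mul_apply, ih, hσ, pow_succ]
      group
  have hσp : σ ^ p = 1 := by
    ext x
    rw [hσpow, hap]
    simp
  -- an abelian `R` is impossible
  have hab : (∀ x y : R, x * y = y * x) → False := by
    intro hcomm
    apply hx0
    have h1 := hcomm ⟨x0, hx0R⟩ (σ ⟨x0, hx0R⟩)
    have h2 : x0 * (a * x0 * a⁻¹) = a * x0 * a⁻¹ * x0 := by
      have := congrArg Subtype.val h1
      rw [Subgroup.coe_mul, Subgroup.coe_mul, hσ] at this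
      exact this
    rcases hstar x0 hx0R h2 with h | h
    · rw [h]; simp
    · rw [h]; exact hzc a
  -- `R` is a `2`-group
  have hprime : ∀ r : ℕ, r.Prime → r ∣ Nat.card R → r = 2 := by
    intro r hr hrR
    by_contra hr2
    have : Fact r.Prime := ⟨hr⟩
    have hP : IsPGroup p (zpowers σ) := by
      rintro ⟨g, hg⟩
      obtain ⟨i, rfl⟩ := mem_zpowers_iff.mp hg
      refine ⟨1, Subtype.ext ?_⟩
      show (σ ^ i) ^ (p ^ 1) = 1
      rw [pow_one, ← zpow_natCast, ← _root_.zpow_mul, mul_comm, _root_.zpow_mul, zpow_natCast,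
        hσp, _root_.one_zpow]
    have hcard : ¬ p ∣ Nat.card (Sylow r R) := by
      intro hdvd
      obtain ⟨S⟩ : Nonempty (Sylow r R) := inferInstance
      have h1 : Nat.card (Sylow r R) ∣ Nat.card R :=
        (S.card_dvd_index).trans (Subgroup.index_dvd_card _)
      have := hR.symm.eq_one_of_dvd (hdvd.trans h1)
      exact hpr.one_lt.ne' this
    obtain ⟨S, hS⟩ := hP.nonempty_fixed_point_of_prime_not_dvd_card (Sylow r R) hcard
    have hSfix : σ • S = S := hS ⟨σ, mem_zpowers σ⟩
    have hSmem : ∀ z : R, z ∈ (S : Subgroup R) → σ z ∈ (S : Subgroup R) := by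
      intro z hz
      have h1 := Subgroup.smul_mem_pointwise_smul z σ (S : Subgroup R) hz
      rw [← Sylow.pointwise_smul_def, hSfix] at h1
      exact h1
    have hSne : (S : Subgroup R) ≠ ⊥ := S.ne_bot_of_dvd_card hrR
    have : Nontrivial (S : Subgroup R) := (Subgroup.nontrivial_iff_ne_bot _).mpr hSne
    have := S.isPGroup'.center_nontrivial
    obtain ⟨⟨c, hc⟩, hc1⟩ := exists_ne (1 : Subgroup.center (S : Subgroup R))
    have hcomm := Subgroup.mem_center_iff.mp hc ⟨σ c, hSmem c c.2⟩
    have h2 : ((c : R) : G) * (a * ((c : R) : G) * a⁻¹) =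
        a * ((c : R) : G) * a⁻¹ * ((c : R) : G) := by
      have := congrArg (fun t : (S : Subgroup R) => ((t : R) : G)) hcomm
      simp only [Subgroup.coe_mul, hσ] at this
      exact this.symm
    have hcne : ((c : R) : G) ≠ 1 := by
      intro h
      apply hc1
      apply Subtype.ext
      apply Subtype.ext
      apply Subtype.ext
      exact h
    rcases hstar _ (c : R).2 h2 with h | h
    · exact hcne h
    · have ho : orderOf ((c : R) : G) = 2 := by
        rw [h]
        exact orderOf_eq_prime (by rw [pow_two]; exact hz2) hz1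
      obtain ⟨k, hk⟩ := S.isPGroup' c
      have h3 : ((c : R) : G) ^ (r ^ k) = 1 := by
        have := congrArg (fun t : (S : Subgroup R) => ((t : R) : G)) hk
        simpa using this
      have h4 : 2 ∣ r ^ k := ho ▸ orderOf_dvd_of_pow_eq_one h3
      have h5 : 2 ∣ r := Nat.Prime.dvd_of_dvd_pow Nat.prime_two h4
      exact hr2 ((Nat.prime_dvd_prime_iff_eq Nat.prime_two hr).mp h5).symm
  have hR2 : IsPGroup 2 R := by
    have hne : Nat.card R ≠ 0 := Nat.card_pos.ne'
    exact IsPGroup.of_card
      (Nat.eq_prime_pow_of_unique_prime_dvd hne (fun {d} hd hdR => hprime d hd hdR))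
  have hUI : UI 2 R := by
    intro g h hg hh hg1
    have hgG : (g : G) * g = 1 := by
      have := congrArg Subtype.val hg
      simpa [pow_two] using this
    have hhG : (h : G) * h = 1 := by
      have := congrArg Subtype.val hh
      simpa [pow_two] using this
    rcases hinv _ hgG with h' | h'
    · exact absurd (Subtype.ext h') hg1
    rcases hinv _ hhG with h'' | h''
    · have : h = 1 := Subtype.ext h''
      rw [this]; exact one_mem _
    · have : h = g := Subtype.ext (h''.trans h'.symm)
      rw [this]; exact mem_zpowers g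
  -- classification of `2`-groups with a unique involution
  have hQ : Nonempty (R ≃* QuaternionGroup 2) := by
    rcases Cfsg.Agent.Lib.Helper54.Quaternion.isCyclic_or_quaternion hR2 hUI with
      hcyc | ⟨n, ⟨e⟩⟩
    · exfalso
      obtain ⟨g, hg⟩ := hcyc.exists_generator
      apply hab
      intro x y
      obtain ⟨i, rfl⟩ := mem_zpowers_iff.mp (hg x)
      obtain ⟨j, rfl⟩ := mem_zpowers_iff.mp (hg y)
      rw [← _root_.zpow_add, ← _root_.zpow_add, add_comm]
    · rcases Nat.lt_trichotomy n 1 with hn | hn | hn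
      · have hn0 : n = 0 := by omega
        subst hn0
        exfalso
        have hc4 : Nat.card R = 2 ^ 2 := by
          rw [Nat.card_congr e.toEquiv, Nat.card_eq_fintype_card, QuaternionGroup.card]
          norm_num
        exact hab (IsPGroup.commutative_of_card_eq_prime_sq hc4)
      · subst hn
        exact ⟨e⟩
      · exfalso
        have hN : 4 ≤ 2 ^ n := by
          calc 4 = 2 ^ 2 := by norm_num
            _ ≤ 2 ^ n := Nat.pow_le_pow_right (by norm_num) hn
        have : NeZero (2 ^ n) := ⟨by positivity⟩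
        obtain ⟨c, hc⟩ : ∃ c : R, e c = QuaternionGroup.a 1 := e.surjective _
        have hoc : orderOf c = 2 * 2 ^ n := by
          rw [← MulEquiv.orderOf_eq e c, hc, QuaternionGroup.orderOf_a_one]
        have hoc' : orderOf (e (σ c)) = 2 * 2 ^ n := by
          rw [MulEquiv.orderOf_eq, MulEquiv.orderOf_eq, hoc]
        have hcomm : c * σ c = σ c * c := by
          apply e.injective
          rw [map_mul, map_mul, hc]
          rcases hq : e (σ c) with j | j
          · rw [QuaternionGroup.a_mul_a, QuaternionGroup.a_mul_a, add_comm]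
          · rw [hq, QuaternionGroup.orderOf_xa] at hoc'
            omega
        have h2 : (c : G) * (a * c * a⁻¹) = a * c * a⁻¹ * c := by
          have := congrArg Subtype.val hcomm
          rw [Subgroup.coe_mul, Subgroup.coe_mul, hσ] at this
          exact this
        have h3 : (c : G) * c = 1 := by
          rcases hstar _ c.2 h2 with h | h
          · rw [h, mul_one]
          · rw [h, hz2]
        have h4 : orderOf c ∣ 2 :=
          orderOf_dvd_of_pow_eq_one (by rw [pow_two]; exact Subtype.ext h3)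
        rw [hoc] at h4
        have := Nat.le_of_dvd (by norm_num) h4
        omega
  obtain ⟨e⟩ := hQ
  have hp3 : p = 3 := by
    by_contra hp3
    have h12 := Cfsg.Agent.Lib.Helper2.SL23.aut_pow_twelve (MulAut.congr e σ)
    rw [← map_pow] at h12
    have h12' : σ ^ 12 = 1 := (MulAut.congr e).injective (by rw [h12, map_one])
    have hcop : Nat.Coprime p 12 := by
      rw [Nat.Prime.coprime_iff_not_dvd hpr]
      intro hd
      have hd' : p ∣ 2 ^ 2 * 3 := by norm_num; exact hd
      rcases (Nat.Prime.dvd_mul hpr).mp hd' with h | h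
      · exact hp ((Nat.prime_dvd_prime_iff_eq hpr Nat.prime_two).mp (hpr.dvd_of_dvd_pow h))
      · exact hp3 ((Nat.prime_dvd_prime_iff_eq hpr Nat.prime_three).mp h)
    have h1 : σ ^ (Nat.gcd p 12) = 1 := pow_gcd_eq_one.mpr ⟨hσp, h12'⟩
    rw [hcop, pow_one] at h1
    apply hx0
    have h2 := hσ ⟨x0, hx0R⟩
    rw [h1] at h2
    have h3 : x0 = a * x0 * a⁻¹ := h2
    calc x0 * a = (a * x0 * a⁻¹) * a := by rw [← h3]
      _ = a * x0 := by group
  refine ⟨hp3, ⟨e⟩, ?_⟩
  subst hp3
  have hRM : R ≤ R ⊔ zpowers a := le_sup_left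
  have haM : a ∈ R ⊔ zpowers a := (le_sup_right : zpowers a ≤ R ⊔ zpowers a) (mem_zpowers a)
  apply Cfsg.Agent.Lib.Helper2.SL23.iso_sl23 (R.subgroupOf (R ⊔ zpowers a))
    ((Subgroup.subgroupOfEquivOfLe hRM).trans e) ⟨a, haM⟩
  · exact Subtype.ext hap
  · rw [Subgroup.mem_normalizer_iff]
    intro h
    rw [Subgroup.mem_subgroupOf, Subgroup.mem_subgroupOf]
    exact Subgroup.mem_normalizer_iff.mp haR h
  · refine ⟨⟨x0, hRM hx0R⟩, Subgroup.mem_subgroupOf.mpr hx0R, fun h => hx0 ?_⟩
    have := congrArg Subtype.val h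
    exact this.symm
  · apply Subgroup.map_injective (Subgroup.subtype_injective (R ⊔ zpowers a))
    rw [Subgroup.map_sup, Subgroup.map_subgroupOf_eq_of_le hRM, MonoidHom.map_zpowers,
      ← MonoidHom.range_eq_map, Subgroup.range_subtype]
    rfl

/-- Let F be a finite field of odd characteristic p and let a be a p-element of SL₂(F) normalizing a subgroup R of order prime to p with [R, a] ≠ 1. Then p = 3, R is a quaternion group of order 8, and R⟨a⟩ is isomorphic to SL₂(3). -/
theorem result (F : Type) [Field F] [Fintype F] {p : ℕ} [Fact p.Prime] [CharP F p] (hp : p ≠ 2) (a : Matrix.SpecialLinearGroup (Fin 2) F) (ha : IsPGroup p ↥(Subgroup.zpowers a)) (R : Subgroup (Matrix.SpecialLinearGroup (Fin 2) F)) (hR : (Nat.card R).Coprime p) (haR : a ∈ Subgroup.normalizer (R : Set (Matrix.SpecialLinearGroup (Fin 2) F))) (hnt : ⁅R, Subgroup.zpowers a⁆ ≠ ⊥) : p = 3 ∧ Nonempty (↥R ≃* QuaternionGroup 2) ∧ Nonempty (↥(R ⊔ Subgroup.zpowers a) ≃* Matrix.SpecialLinearGroup (Fin 2) (ZMod 3)) := by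
  classical
  have hpr : p.Prime := Fact.out
  have h2 : (2 : F) ≠ 0 := by
    intro h
    have h' : ((2 : ℕ) : F) = 0 := by exact_mod_cast h
    rw [CharP.cast_eq_zero_iff F p] at h'
    exact hp ((Nat.prime_dvd_prime_iff_eq hpr Nat.prime_two).mp h')
  obtain ⟨k, hk⟩ := ha ⟨a, mem_zpowers a⟩
  have hak : a ^ (p ^ k) = 1 := by
    have := congrArg Subtype.val hk
    simpa using this
  have hta : tr a = 2 := tr_eq_two_of_pow p a k hak
  have hap : a ^ p = 1 := pow_char_eq_one p a hta
  have ha1 : a ≠ 1 := by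
    rintro rfl
    apply hnt
    rw [Subgroup.zpowers_one_eq_bot]
    exact Subgroup.commutator_bot_right R
  have hex : ∃ x ∈ R, x * a ≠ a * x := by
    by_contra hall
    push Not at hall
    apply hnt
    rw [Subgroup.commutator_eq_bot_iff_le_centralizer]
    intro r hr
    rw [Subgroup.mem_centralizer_iff]
    intro h hh
    obtain ⟨i, rfl⟩ := Subgroup.mem_zpowers_iff.mp hh
    exact ((Commute.zpow_right (hall r hr) i).eq).symm
  have hRx : ∀ x ∈ R, (orderOf x).Coprime p := by
    intro x hx
    have h1 : orderOf x ∣ Nat.card R := by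
      have := orderOf_dvd_natCard (⟨x, hx⟩ : R)
      rwa [Subgroup.orderOf_mk] at this
    exact Nat.Coprime.coprime_dvd_left h1 hR
  exact core p hp negOne a negOne_mul_negOne (negOne_ne_one h2) negOne_comm
    (fun g hg => sq_eq_one h2 g hg) hap R hR haR
    (fun x hx hc => eq_one_or_negOne_of_commute_conj p hp h2 a x hta ha1 (hRx x hx) hc) hex

end Cfsg.Agent.S3740
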