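import Cfsg.Statements.S3741

set_option autoImplicit false
open Cfsg

namespace Cfsg.Agent.S3741

variable {G : Type*} [Group G]

lemma mem_centralizer_singleton {a b : G} :
    b ∈ Subgroup.centralizer ({a} : Set G) ↔ a * b = b * a := by
  rw [Subgroup.mem_centralizer_iff]
  simp

lemma comm_eq_of_commute {a x y : G} (h : a * (x⁻¹ * y) = x⁻¹ * y * a) :
    a * x * a⁻¹ * x⁻¹ = a * y * a⁻¹ * y⁻¹ := by
  have h1 : x⁻¹ * y * a⁻¹ = a⁻¹ * (x⁻¹ * y) := by
    calc x⁻¹ * y * a⁻¹ = a⁻¹ * (a * (x⁻¹ * y)) * a⁻¹ := by group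
      _ = a⁻¹ * (x⁻¹ * y * a) * a⁻¹ := by rw [h]
      _ = a⁻¹ * (x⁻¹ * y) := by group
  calc a * x * a⁻¹ * x⁻¹ = a * x * (a⁻¹ * (x⁻¹ * y)) * y⁻¹ := by group
    _ = a * x * (x⁻¹ * y * a⁻¹) * y⁻¹ := by rw [← h1]
    _ = a * y * a⁻¹ * y⁻¹ := by group

lemma commute_of_comm_eq {a x y : G} (h : a * x * a⁻¹ * x⁻¹ = a * y * a⁻¹ * y⁻¹) :
    a * (x⁻¹ * y) = x⁻¹ * y * a := by
  have h1 : x * a⁻¹ * x⁻¹ = y * a⁻¹ * y⁻¹ := by
    calc x * a⁻¹ * x⁻¹ = a⁻¹ * (a * x * a⁻¹ * x⁻¹) := by group
      _ = a⁻¹ * (a * y * a⁻¹ * y⁻¹) := by rw [h]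
      _ = y * a⁻¹ * y⁻¹ := by group
  calc a * (x⁻¹ * y) = a * (x⁻¹ * (y * a⁻¹ * y⁻¹) * y) * a := by group
    _ = a * (x⁻¹ * (x * a⁻¹ * x⁻¹) * y) * a := by rw [h1]
    _ = x⁻¹ * y * a := by group

/-- The index in `B` of the centralizer of `a` is at most the size of any subgroup containing
all the commutators `[a, b]`, `b ∈ B`. -/
lemma relIndex_le_card (B Z : Subgroup G) [Finite Z] (a : G)
    (h : ∀ b ∈ B, a * b * a⁻¹ * b⁻¹ ∈ Z) :
    (B ⊓ Subgroup.centralizer ({a} : Set G)).relIndex B ≤ Nat.card Z := by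
  have hmem : ∀ c : B, c ∈ (B ⊓ Subgroup.centralizer ({a} : Set G)).subgroupOf B ↔
      a * (c : G) = (c : G) * a := by
    intro c
    rw [Subgroup.mem_subgroupOf, Subgroup.mem_inf, mem_centralizer_singleton]
    exact ⟨fun hc => hc.2, fun hc => ⟨c.2, hc⟩⟩
  have hwd : ∀ b b' : B,
      QuotientGroup.leftRel ((B ⊓ Subgroup.centralizer ({a} : Set G)).subgroupOf B) b b' →
      (⟨a * (b : G) * a⁻¹ * (b : G)⁻¹, h b b.2⟩ : Z) =
        ⟨a * (b' : G) * a⁻¹ * (b' : G)⁻¹, h b' b'.2⟩ := by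
    intro b b' hbb'
    rw [QuotientGroup.leftRel_apply, hmem] at hbb'
    apply Subtype.ext
    apply comm_eq_of_commute
    simpa using hbb'
  show Nat.card (B ⧸ (B ⊓ Subgroup.centralizer ({a} : Set G)).subgroupOf B) ≤ Nat.card Z
  refine Nat.card_le_card_of_injective (fun q => Quotient.liftOn' q
    (fun b : B => (⟨a * (b : G) * a⁻¹ * (b : G)⁻¹, h b b.2⟩ : Z)) hwd) ?_
  rintro ⟨b⟩ ⟨b'⟩ hbb'
  have h2 : a * (b : G) * a⁻¹ * (b : G)⁻¹ = a * (b' : G) * a⁻¹ * (b' : G)⁻¹ :=
    congrArg Subtype.val hbb'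
  refine QuotientGroup.eq.mpr ((hmem _).mpr ?_)
  have h3 := commute_of_comm_eq h2
  simpa using h3

lemma card_mul_relIndex {C B : Subgroup G} (h : C ≤ B) :
    Nat.card C * C.relIndex B = Nat.card B := by
  have h1 := Subgroup.relIndex_mul_relIndex ⊥ C B bot_le h
  rwa [Subgroup.relIndex_bot_left, Subgroup.relIndex_bot_left] at h1

open Classical in
lemma elem_formula [Finite G] {p : ℕ} [Fact p.Prime] (hG : IsPGroup p G) (B Z : Subgroup G)
    (hZ : Nat.card Z ≤ p) (a : G) (h : ∀ b ∈ B, a * b * a⁻¹ * b⁻¹ ∈ Z) :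
    p * Nat.card ↥(B ⊓ Subgroup.centralizer ({a} : Set G)) =
      Nat.card B * (if a ∈ Subgroup.centralizer (B : Set G) then p else 1) := by
  have hp : p.Prime := Fact.out
  have hle := (relIndex_le_card B Z a h).trans hZ
  have hmul := card_mul_relIndex (inf_le_left : B ⊓ Subgroup.centralizer ({a} : Set G) ≤ B)
  obtain ⟨n, hn⟩ : ∃ n, (B ⊓ Subgroup.centralizer ({a} : Set G)).relIndex B = p ^ n :=
    (hG.to_subgroup B).index ((B ⊓ Subgroup.centralizer ({a} : Set G)).subgroupOf B)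
  by_cases hc : a ∈ Subgroup.centralizer (B : Set G)
  · have hCB : B ⊓ Subgroup.centralizer ({a} : Set G) = B := by
      apply inf_eq_left.mpr
      intro b hb
      rw [mem_centralizer_singleton]
      exact (Subgroup.mem_centralizer_iff.mp hc b hb).symm
    rw [if_pos hc, hCB, mul_comm]
  · rw [if_neg hc, mul_one]
    have hr1 : (B ⊓ Subgroup.centralizer ({a} : Set G)).relIndex B ≠ 1 := by
      intro h1
      rw [Subgroup.relIndex_eq_one] at h1
      apply hc
      rw [Subgroup.mem_centralizer_iff]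
      intro b hb
      exact (mem_centralizer_singleton.mp (Subgroup.mem_inf.mp (h1 hb)).2).symm
    have hr : (B ⊓ Subgroup.centralizer ({a} : Set G)).relIndex B = p := by
      rw [hn] at hle hr1 ⊢
      have hn1 : n ≠ 0 := by
        rintro rfl
        exact hr1 (pow_zero p)
      have hn2 : n ≤ 1 := by
        by_contra hcon
        push Not at hcon
        have h2 : p ^ 2 ≤ p ^ n := Nat.pow_le_pow_right hp.pos hcon
        have h3 := hp.two_le
        nlinarith
      have hn3 : n = 1 := by omega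
      rw [hn3, pow_one]
    rw [← hmul, hr, mul_comm]

open Classical in
lemma card_eq_sum [Fintype G] (H : Subgroup G) :
    Nat.card H = ∑ x : G, if x ∈ H then 1 else 0 := by
  rw [Nat.card_eq_fintype_card,
    Fintype.card_of_subtype (Finset.univ.filter (· ∈ H)) (by simp), Finset.card_filter]

open Classical in
lemma count_formula [Fintype G] (A B : Subgroup G) (p : ℕ) (hp : 1 ≤ p)
    (h : ∀ a ∈ A, p * Nat.card ↥(B ⊓ Subgroup.centralizer ({a} : Set G)) =
      Nat.card B * (if a ∈ Subgroup.centralizer (B : Set G) then p else 1)) :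
    p * (∑ a : G, ∑ b : G, if (a ∈ A ∧ b ∈ B ∧ a * b = b * a) then 1 else 0) =
      Nat.card B *
        (Nat.card A + (p - 1) * Nat.card ↥(A ⊓ Subgroup.centralizer (B : Set G))) := by
  have h1 : ∀ a : G, (∑ b : G, if (a ∈ A ∧ b ∈ B ∧ a * b = b * a) then 1 else 0) =
      if a ∈ A then Nat.card ↥(B ⊓ Subgroup.centralizer ({a} : Set G)) else 0 := by
    intro a
    by_cases ha : a ∈ A
    · rw [if_pos ha, card_eq_sum]
      apply Finset.sum_congr rfl
      intro b _
      refine if_congr ?_ rfl rfl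
      rw [Subgroup.mem_inf, mem_centralizer_singleton]
      exact ⟨fun hh => ⟨hh.2.1, hh.2.2⟩, fun hh => ⟨ha, hh.1, hh.2⟩⟩
    · rw [if_neg ha]
      apply Finset.sum_eq_zero
      intro b _
      rw [if_neg]
      exact fun hh => ha hh.1
  have h2 : ∀ a : G,
      p * (if a ∈ A then Nat.card ↥(B ⊓ Subgroup.centralizer ({a} : Set G)) else 0) =
      Nat.card B * ((if a ∈ A then 1 else 0) +
        (p - 1) * (if a ∈ A ⊓ Subgroup.centralizer (B : Set G) then 1 else 0)) := by
    intro a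
    by_cases ha : a ∈ A
    · have h3 := h a ha
      by_cases hc : a ∈ Subgroup.centralizer (B : Set G)
      · have hac : a ∈ A ⊓ Subgroup.centralizer (B : Set G) := Subgroup.mem_inf.mpr ⟨ha, hc⟩
        rw [if_pos hc] at h3
        rw [if_pos ha, if_pos ha, if_pos hac, h3]
        congr 1
        omega
      · have hac : a ∉ A ⊓ Subgroup.centralizer (B : Set G) :=
          fun h' => hc (Subgroup.mem_inf.mp h').2
        rw [if_neg hc] at h3
        rw [if_pos ha, if_pos ha, if_neg hac, h3]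
        simp
    · have hac : a ∉ A ⊓ Subgroup.centralizer (B : Set G) :=
        fun h' => ha (Subgroup.mem_inf.mp h').1
      rw [if_neg ha, if_neg ha, if_neg hac]
      simp
  calc p * (∑ a : G, ∑ b : G, if (a ∈ A ∧ b ∈ B ∧ a * b = b * a) then 1 else 0)
      = ∑ a : G,
          p * (if a ∈ A then Nat.card ↥(B ⊓ Subgroup.centralizer ({a} : Set G)) else 0) := by
        rw [Finset.mul_sum]
        exact Finset.sum_congr rfl (fun a _ => by rw [h1 a])
    _ = ∑ a : G, Nat.card B * ((if a ∈ A then 1 else 0) +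
          (p - 1) * (if a ∈ A ⊓ Subgroup.centralizer (B : Set G) then 1 else 0)) :=
        Finset.sum_congr rfl (fun a _ => h2 a)
    _ = Nat.card B *
        (Nat.card A + (p - 1) * Nat.card ↥(A ⊓ Subgroup.centralizer (B : Set G))) := by
        rw [← Finset.mul_sum, Finset.sum_add_distrib, ← Finset.mul_sum, ← card_eq_sum,
          ← card_eq_sum]

open Classical in
lemma count_symm [Fintype G] (A B : Subgroup G) :
    (∑ a : G, ∑ b : G, if (a ∈ A ∧ b ∈ B ∧ a * b = b * a) then 1 else 0) =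
      ∑ b : G, ∑ a : G, if (b ∈ B ∧ a ∈ A ∧ b * a = a * b) then 1 else 0 := by
  rw [Finset.sum_comm]
  refine Finset.sum_congr rfl (fun b _ => Finset.sum_congr rfl (fun a _ => ?_))
  exact if_congr ⟨fun h => ⟨h.2.1, h.1, h.2.2.symm⟩, fun h => ⟨h.2.1, h.1, h.2.2.symm⟩⟩ rfl rfl

open Classical in
lemma card_identity [Fintype G] (A B : Subgroup G) (p : ℕ) (hp : 2 ≤ p)
    (hA : ∀ a ∈ A, p * Nat.card ↥(B ⊓ Subgroup.centralizer ({a} : Set G)) =
      Nat.card B * (if a ∈ Subgroup.centralizer (B : Set G) then p else 1))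
    (hB : ∀ b ∈ B, p * Nat.card ↥(A ⊓ Subgroup.centralizer ({b} : Set G)) =
      Nat.card A * (if b ∈ Subgroup.centralizer (A : Set G) then p else 1)) :
    Nat.card B * Nat.card ↥(A ⊓ Subgroup.centralizer (B : Set G)) =
      Nat.card A * Nat.card ↥(B ⊓ Subgroup.centralizer (A : Set G)) := by
  have e1 := count_formula A B p (by omega) hA
  have e2 := count_formula B A p (by omega) hB
  rw [count_symm A B, e2] at e1
  obtain ⟨q, hq⟩ : ∃ q, p - 1 = q := ⟨_, rfl⟩
  rw [hq] at e1
  have hq1 : 0 < q := by omega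
  have h7 : Nat.card A * Nat.card B +
      q * (Nat.card A * Nat.card ↥(B ⊓ Subgroup.centralizer (A : Set G))) =
      Nat.card A * Nat.card B +
        q * (Nat.card B * Nat.card ↥(A ⊓ Subgroup.centralizer (B : Set G))) := by
    calc Nat.card A * Nat.card B +
          q * (Nat.card A * Nat.card ↥(B ⊓ Subgroup.centralizer (A : Set G)))
        = Nat.card A *
            (Nat.card B + q * Nat.card ↥(B ⊓ Subgroup.centralizer (A : Set G))) := by ring
      _ = Nat.card B *
            (Nat.card A + q * Nat.card ↥(A ⊓ Subgroup.centralizer (B : Set G))) := e1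
      _ = Nat.card A * Nat.card B +
          q * (Nat.card B * Nat.card ↥(A ⊓ Subgroup.centralizer (B : Set G))) := by ring
  exact (Nat.eq_of_mul_eq_mul_left hq1 (Nat.add_left_cancel h7)).symm

/-- Let A and B be subgroups of a finite p-group with [A, B] ≤ A ∩ B and [A, B] of order at most p. Then |A : C_A(B)| = |B : C_B(A)|. -/
theorem result {G : Type*} [Group G] [Finite G] {p : ℕ} [Fact p.Prime] (hG : IsPGroup p G) (A B : Subgroup G) (hAB : ⁅A, B⁆ ≤ A ⊓ B) (hcard : Nat.card ↥⁅A, B⁆ ≤ p) : (A ⊓ Subgroup.centralizer (B : Set G)).relIndex A = (B ⊓ Subgroup.centralizer (A : Set G)).relIndex B := by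
  haveI : Fintype G := Fintype.ofFinite G
  have hp : p.Prime := Fact.out
  have e4 := card_identity A B p hp.two_le
    (fun a ha => elem_formula hG B ⁅A, B⁆ hcard a (fun b hb => by
      have h1 := Subgroup.commutator_mem_commutator ha hb
      rwa [commutatorElement_def] at h1))
    (fun b hb => elem_formula hG A ⁅A, B⁆ hcard b (fun a ha => by
      have h1 := Subgroup.commutator_mem_commutator hb ha
      rw [Subgroup.commutator_comm B A] at h1
      rwa [commutatorElement_def] at h1))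
  have hrA := card_mul_relIndex (inf_le_left : A ⊓ Subgroup.centralizer (B : Set G) ≤ A)
  have hrB := card_mul_relIndex (inf_le_left : B ⊓ Subgroup.centralizer (A : Set G) ≤ B)
  have hpos : 0 < Nat.card ↥(A ⊓ Subgroup.centralizer (B : Set G)) *
      Nat.card ↥(B ⊓ Subgroup.centralizer (A : Set G)) := Nat.mul_pos Nat.card_pos Nat.card_pos
  apply Nat.eq_of_mul_eq_mul_left hpos
  calc Nat.card ↥(A ⊓ Subgroup.centralizer (B : Set G)) *
        Nat.card ↥(B ⊓ Subgroup.centralizer (A : Set G)) *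
        (A ⊓ Subgroup.centralizer (B : Set G)).relIndex A
      = Nat.card ↥(A ⊓ Subgroup.centralizer (B : Set G)) *
        (A ⊓ Subgroup.centralizer (B : Set G)).relIndex A *
        Nat.card ↥(B ⊓ Subgroup.centralizer (A : Set G)) := by ring
    _ = Nat.card A * Nat.card ↥(B ⊓ Subgroup.centralizer (A : Set G)) := by rw [hrA]
    _ = Nat.card B * Nat.card ↥(A ⊓ Subgroup.centralizer (B : Set G)) := e4.symm
    _ = Nat.card ↥(B ⊓ Subgroup.centralizer (A : Set G)) *
        (B ⊓ Subgroup.centralizer (A : Set G)).relIndex B *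
        Nat.card ↥(A ⊓ Subgroup.centralizer (B : Set G)) := by rw [hrB]
    _ = Nat.card ↥(A ⊓ Subgroup.centralizer (B : Set G)) *
        Nat.card ↥(B ⊓ Subgroup.centralizer (A : Set G)) *
        (B ⊓ Subgroup.centralizer (A : Set G)).relIndex B := by ring

end Cfsg.Agent.S3741
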