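import Cfsg.Statements.S3745
import Cfsg.Agent.Lib.Helper72.CoprimeHall

set_option autoImplicit false
open Cfsg

namespace Cfsg.Agent.S3745

open Cfsg.Agent.Lib.Helper72.CoprimeHall

/-- Hall `π`-subgroups in terms of their order -/
theorem isPiHallOf_iff {X : Type*} [Group X] [Finite X] (π : Set ℕ) (H G : Subgroup X) (m n : ℕ)
    (hG : Nat.card G = m * n) (hm : ∀ p : ℕ, p.Prime → p ∣ m → p ∈ π)
    (hn : ∀ p : ℕ, p.Prime → p ∣ n → p ∉ π) :
    Cfsg.IsPiHallOf π H G ↔ H ≤ G ∧ Nat.card H = m := by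
  have hGpos : 0 < Nat.card G := Nat.card_pos
  have hmpos : 0 < m := by
    rcases Nat.eq_zero_or_pos m with h | h
    · rw [h, zero_mul] at hG; omega
    · exact h
  constructor
  · rintro ⟨hle, h1, h2⟩
    refine ⟨hle, ?_⟩
    have h3 := card_mul_relIndex hle
    rw [hG] at h3
    have c1 : (Nat.card H).Coprime n := coprime_of_pi h1 hn
    have c2 : m.Coprime (H.relIndex G) :=
      Nat.coprime_of_dvd fun p hp h4 h5 => h2 p hp (hm p hp h4) h5
    have d1 : Nat.card H ∣ m := c1.dvd_of_dvd_mul_right ⟨_, h3.symm⟩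
    have d2 : m ∣ Nat.card H := c2.dvd_of_dvd_mul_right ⟨n, h3⟩
    exact Nat.dvd_antisymm d1 d2
  · rintro ⟨hle, hc⟩
    refine ⟨hle, ?_, ?_⟩
    · intro p hp hpd
      rw [hc] at hpd
      exact hm p hp hpd
    · intro p hp hpπ hpd
      have h3 := card_mul_relIndex hle
      rw [hG, hc] at h3
      have h4 : H.relIndex G = n := Nat.eq_of_mul_eq_mul_left hmpos h3
      rw [h4] at hpd
      exact hn p hp hpd hpπ

/-- Coprime action on a solvable group and Hall subgroups. Let A and G be subgroups of a finite group with A normalizing G, the orders of A and G coprime, and G solvable, and let π be a set of primes. Then (a) G has an A-invariant Hall π-subgroup; (b) any two A-invariant Hall π-subgroups of G are conjugate by an element of C_G(A); (c) every A-invariant π-subgroup of G lies in an A-invariant Hall π-subgroup of G. -/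
theorem result {X : Type*} [Group X] [Finite X] (A G : Subgroup X) (hAG : A ≤ Subgroup.normalizer (G : Set X)) (hcop : (Nat.card A).Coprime (Nat.card G)) (hsolv : Group.IsSolvable G) (π : Set ℕ) : (∃ H : Subgroup X, Cfsg.IsPiHallOf π H G ∧ A ≤ Subgroup.normalizer (H : Set X)) ∧ (∀ H₁ H₂ : Subgroup X, Cfsg.IsPiHallOf π H₁ G → A ≤ Subgroup.normalizer (H₁ : Set X) → Cfsg.IsPiHallOf π H₂ G → A ≤ Subgroup.normalizer (H₂ : Set X) → ∃ c ∈ G ⊓ Subgroup.centralizer (A : Set X), H₂ = H₁.map (MulAut.conj c).toMonoidHom) ∧ (∀ U : Subgroup X, U ≤ G → A ≤ Subgroup.normalizer (U : Set X) → (∀ p : ℕ, p.Prime → p ∣ Nat.card U → p ∈ π) → ∃ H : Subgroup X, Cfsg.IsPiHallOf π H G ∧ A ≤ Subgroup.normalizer (H : Set X) ∧ U ≤ H) := by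
  obtain ⟨m, n, hG, hm, hn⟩ := exists_pi_split π (Nat.card G) Nat.card_pos.ne'
  have hmn : m.Coprime n := coprime_of_pi hm hn
  have hiff := fun H => isPiHallOf_iff π H G m n hG hm hn
  refine ⟨?_, ?_, ?_⟩
  · obtain ⟨H, h1, h2, h3⟩ := gen_exists A G hAG hcop m n hG hmn
    exact ⟨H, (hiff H).mpr ⟨h1, h2⟩, h3⟩
  · intro H₁ H₂ h1 n1 h2 n2
    obtain ⟨c, hc, hcH⟩ := gen_conj A G hAG hcop m n hG hmn H₁ H₂ ((hiff H₁).mp h1).1
      ((hiff H₁).mp h1).2 n1 ((hiff H₂).mp h2).1 ((hiff H₂).mp h2).2 n2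
    exact ⟨c, hc, hcH.symm⟩
  · intro U hUG hAU hU
    obtain ⟨H, h1, h2, h3, h4⟩ := gen_contain A G hAG hcop m n hG hmn U hUG hAU
      (coprime_of_pi hU hn)
    exact ⟨H, (hiff H).mpr ⟨h1, h2⟩, h3, h4⟩

end Cfsg.Agent.S3745
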