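import Cfsg.Statements.S3746
import Cfsg.Agent.Lib.Helper34.PComp

set_option autoImplicit false
open Cfsg

namespace Cfsg.Agent.S3746

open Cfsg.Agent.Lib

/-- Let Z ≤ Z(G) be a central subgroup of a finite group G and E a subgroup of G containing Z whose image E/Z is a component of G/Z (subnormal and quasisimple). Then the derived subgroup [E, E] is a component of G. -/
theorem result {G : Type*} [Group G] [Finite G] (Z : Subgroup G) (hZ : Z ≤ Subgroup.center G) [Z.Normal] (E : Subgroup G) (hZE : Z ≤ E) (hE : Cfsg.IsComponent (E.map (QuotientGroup.mk' Z))) : Cfsg.IsComponent ⁅E, E⁆ := by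
  obtain ⟨hsn, hqs⟩ := hE
  have hperfbar : ⁅E.map (QuotientGroup.mk' Z), E.map (QuotientGroup.mk' Z)⁆ =
      E.map (QuotientGroup.mk' Z) := Subgroup.isPerfect_iff.mp hqs.1
  have hmap : (⁅E, E⁆).map (QuotientGroup.mk' Z) = E.map (QuotientGroup.mk' Z) := by
    rw [Subgroup.map_commutator, hperfbar]
  have hker : (QuotientGroup.mk' Z).ker = Z := QuotientGroup.ker_mk' Z
  have hE'E : ⁅E, E⁆ ≤ E := by
    rw [Subgroup.commutator_le]
    intro a ha b hb
    rw [commutatorElement_def]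
    exact E.mul_mem (E.mul_mem (E.mul_mem ha hb) (E.inv_mem ha)) (E.inv_mem hb)
  have hEle : E ≤ ⁅E, E⁆ ⊔ Z := by
    have h1 : E ≤ (E.map (QuotientGroup.mk' Z)).comap (QuotientGroup.mk' Z) :=
      Subgroup.le_comap_map _ _
    rw [← hmap, Subgroup.comap_map_eq, hker] at h1
    exact h1
  have hperf : ⁅⁅E, E⁆, ⁅E, E⁆⁆ = ⁅E, E⁆ := by
    apply le_antisymm (Subgroup.commutator_mono hE'E hE'E)
    refine (Subgroup.commutator_mono hEle hEle).trans ?_
    rw [Subgroup.commutator_le]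
    intro x hx y hy
    rw [Subgroup.mem_sup_of_normal_right] at hx hy
    obtain ⟨a, ha, z, hz, rfl⟩ := hx
    obtain ⟨b, hb, w, hw, rfl⟩ := hy
    rw [Helper21.Quasi.commutatorElement_mul_central_left _ _ _ (hZ hz),
      Helper21.Quasi.commutatorElement_mul_central_right _ _ _ (hZ hw)]
    exact Subgroup.commutator_mem_commutator ha hb
  have hnorm : (⁅E, E⁆.subgroupOf E).Normal := by
    have h1 : ⁅E, E⁆.subgroupOf E = commutator ↥E := by
      rw [← Subgroup.map_subtype_commutator]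
      exact Subgroup.comap_map_eq_self_of_injective E.subtype_injective _
    rw [h1]
    infer_instance
  have hEsn : E.IsSubnormal := by
    have h1 : ((E.map (QuotientGroup.mk' Z)).comap (QuotientGroup.mk' Z)).IsSubnormal :=
      hsn.comap _
    rw [Subgroup.comap_map_eq, hker, sup_eq_left.mpr hZE] at h1
    exact h1
  have hsn' : (⁅E, E⁆).IsSubnormal := Subgroup.IsSubnormal.trans hE'E hnorm.isSubnormal hEsn
  have hperf' : Group.IsPerfect ↥(⁅E, E⁆) := Subgroup.isPerfect_iff.mpr hperf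
  obtain ⟨φ, hφdef⟩ : ∃ φ : ↥(⁅E, E⁆) →* ↥(E.map (QuotientGroup.mk' Z)),
      ∀ x, (φ x : G ⧸ Z) = QuotientGroup.mk' Z x.1 :=
    ⟨((QuotientGroup.mk' Z).comp (⁅E, E⁆).subtype).codRestrict (E.map (QuotientGroup.mk' Z))
      (fun x => ⟨x.1, hE'E x.2, rfl⟩), fun x => rfl⟩
  have hφ : Function.Surjective φ := by
    rintro ⟨y, hy⟩
    have hy' : y ∈ (⁅E, E⁆).map (QuotientGroup.mk' Z) := by rw [hmap]; exact hy
    obtain ⟨x, hx, hxy⟩ := hy'
    exact ⟨⟨x, hx⟩, Subtype.ext ((hφdef ⟨x, hx⟩).trans hxy)⟩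
  have hkerφ : φ.ker ≤ Subgroup.center ↥(⁅E, E⁆) := by
    intro x hx
    rw [MonoidHom.mem_ker] at hx
    have h1 : (QuotientGroup.mk' Z) x.1 = 1 := by
      rw [← hφdef x, hx]; rfl
    have h2 : x.1 ∈ Z := by
      have h3 := (MonoidHom.mem_ker (f := QuotientGroup.mk' Z)).mpr h1
      rwa [hker] at h3
    rw [Subgroup.mem_center_iff]
    intro g
    apply Subtype.ext
    exact Subgroup.mem_center_iff.mp (hZ h2) g.1
  exact ⟨hsn', Helper34.PComp.quasisimple_of_central_ext φ hφ hkerφ hperf' hqs⟩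

end Cfsg.Agent.S3746
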