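import Cfsg.Statements.S3748
import Cfsg.Agent.Lib.Helper62.Wielandt
import Cfsg.Agent.Lib.Helper71.Fitting

set_option autoImplicit false
open Cfsg

namespace Cfsg.Agent.S3748

open Cfsg.Agent.Lib.Helper62 in
open scoped Pointwise in
/-- Call a proper subgroup M of G primitive when M = N_G(N) for every non-trivial normal subgroup N of M. If M is a primitive subgroup of the finite group G, then no non-trivial subnormal subgroup of G is contained in M; in particular M ∩ F(G) = 1. -/
theorem result {G : Type*} [Group G] [Finite G] (M : Subgroup G) (hM : M ≠ ⊤) (hprim : ∀ N : Subgroup G, N ≤ M → M ≤ Subgroup.normalizer (N : Set G) → N ≠ ⊥ → Subgroup.normalizer (N : Set G) = M) : (∀ L : Subgroup G, L.IsSubnormal → L ≤ M → L = ⊥) ∧ M ⊓ Cfsg.fittingSubgroup G = ⊥ := by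
  classical
  have claim1 : ∀ L : Subgroup G, L.IsSubnormal → L ≤ M → L = ⊥ := by
    have hL0sn : (sSup {L : Subgroup G | L.IsSubnormal ∧ L ≤ M}).IsSubnormal :=
      Wielandt.sSup_isSubnormal _ (fun U hU => hU.1)
    have hL0M : sSup {L : Subgroup G | L.IsSubnormal ∧ L ≤ M} ≤ M := sSup_le (fun U hU => hU.2)
    have hMN : M ≤ Subgroup.normalizer
        ((sSup {L : Subgroup G | L.IsSubnormal ∧ L ≤ M} : Subgroup G) : Set G) := by
      intro m hm
      rw [← Wielandt.conj_smul_eq_iff]
      apply Wielandt.smul_eq_of_le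
      exact le_sSup ⟨hL0sn.smul _, Subgroup.conj_smul_le_of_le hL0M ⟨m, hm⟩⟩
    have hL0bot : sSup {L : Subgroup G | L.IsSubnormal ∧ L ≤ M} = ⊥ := by
      by_contra hne
      have hNL0 := hprim _ hL0M hMN hne
      have hL0top : sSup {L : Subgroup G | L.IsSubnormal ∧ L ≤ M} ≠ ⊤ :=
        fun h => hM (top_le_iff.mp (h ▸ hL0M))
      rcases Subgroup.IsSubnormal.iff_eq_top_or_exists.mp hL0sn with h | ⟨K, hLK, hK, hN⟩
      · exact hL0top h
      · have hKN := (Subgroup.normal_subgroupOf_iff_le_normalizer hLK.le).mp hN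
        rw [hNL0] at hKN
        exact absurd (le_sSup (show K ∈ {L : Subgroup G | L.IsSubnormal ∧ L ≤ M} from ⟨hK, hKN⟩)) (not_le_of_gt hLK)
    intro L hL hLM
    have : L ≤ sSup {L : Subgroup G | L.IsSubnormal ∧ L ≤ M} := le_sSup ⟨hL, hLM⟩
    rw [hL0bot] at this
    exact le_bot_iff.mp this
  refine ⟨claim1, ?_⟩
  apply claim1
  · have hFn : (Cfsg.fittingSubgroup G).Normal := Cfsg.Agent.Lib.Helper71.Fitting.fitting_normal G
    haveI : Group.IsNilpotent (Cfsg.fittingSubgroup G) :=
      Cfsg.Agent.Lib.Helper71.Fitting.fitting_isNilpotent G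
    have h1 : ((M ⊓ Cfsg.fittingSubgroup G).subgroupOf (Cfsg.fittingSubgroup G)).IsSubnormal :=
      Wielandt.isSubnormal_of_isNilpotent _
    exact Subgroup.IsSubnormal.trans inf_le_right h1 hFn.isSubnormal
  · exact inf_le_left

end Cfsg.Agent.S3748
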