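import Cfsg.Statements.S3760

set_option autoImplicit false
open Cfsg

namespace Cfsg.Agent.S3760

theorem result {G : Type*} [Group G] {X : Type*} [MulAction G X] (htrans : ∀ a b : X, ∃ g : G, g • a = b) (x : X) (K : Subgroup G) (hK : K ≤ MulAction.stabilizer G x) : (∀ a b : X, (∀ k ∈ K, k • a = a) → (∀ k ∈ K, k • b = b) → ∃ g ∈ Subgroup.normalizer (K : Set G), g • a = b) ↔ ∀ g : G, K.map (MulAut.conj g).toMonoidHom ≤ MulAction.stabilizer G x → ∃ h ∈ MulAction.stabilizer G x, K.map (MulAut.conj g).toMonoidHom = K.map (MulAut.conj h).toMonoidHom := by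
  constructor
  · intro h g hg
    have h1 : ∀ k ∈ K, k • (g⁻¹ • x) = g⁻¹ • x := by
      intro k hk
      have : (g * k * g⁻¹) ∈ MulAction.stabilizer G x := by
        apply hg
        exact ⟨k, hk, by simp [MulAut.conj_apply]⟩
      rw [MulAction.mem_stabilizer_iff] at this
      rw [← mul_smul]
      calc (k * g⁻¹) • x = (g⁻¹ * (g * k * g⁻¹)) • x := by group
        _ = g⁻¹ • x := by rw [mul_smul, this]
    have h2 : ∀ k ∈ K, k • x = x := fun k hk => hK hk
    obtain ⟨n, hn, hnx⟩ := h _ _ h1 h2
    refine ⟨g * n⁻¹, ?_, ?_⟩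
    · rw [MulAction.mem_stabilizer_iff, mul_smul]
      have : n⁻¹ • x = g⁻¹ • x := by
        conv_lhs => rw [← hnx]
        rw [← mul_smul]; simp
      rw [this, ← mul_smul]; simp
    · ext y
      simp only [Subgroup.mem_map, MulEquiv.coe_toMonoidHom, MulAut.conj_apply]
      constructor
      · rintro ⟨k, hk, rfl⟩
        refine ⟨n * k * n⁻¹, ?_, by group⟩
        exact (Subgroup.mem_normalizer_iff.mp hn k).mp hk
      · rintro ⟨k, hk, rfl⟩
        refine ⟨n⁻¹ * k * n, ?_, by group⟩
        exact (Subgroup.mem_normalizer_iff''.mp hn k).mp hk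
  · intro h a b ha hb
    have key : ∀ a : X, (∀ k ∈ K, k • a = a) → ∃ n ∈ Subgroup.normalizer (K : Set G), n • x = a := by
      intro a ha
      obtain ⟨g, rfl⟩ := htrans x a
      have h1 : K.map (MulAut.conj g⁻¹).toMonoidHom ≤ MulAction.stabilizer G x := by
        rintro y ⟨k, hk, rfl⟩
        simp only [MulEquiv.coe_toMonoidHom, MulAut.conj_apply, inv_inv]
        rw [MulAction.mem_stabilizer_iff, mul_smul, mul_smul, ha k hk, ← mul_smul]
        simp
      obtain ⟨t, ht, hEq⟩ := h g⁻¹ h1
      refine ⟨g * t, ?_, ?_⟩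
      · rw [Subgroup.mem_normalizer_iff]
        intro k
        constructor
        · intro hk
          have : t * k * t⁻¹ ∈ K.map (MulAut.conj g⁻¹).toMonoidHom := by
            rw [hEq]; exact ⟨k, hk, by simp [MulAut.conj_apply]⟩
          obtain ⟨k', hk', hkk⟩ := this
          simp only [MulEquiv.coe_toMonoidHom, MulAut.conj_apply, inv_inv] at hkk
          have : g * t * k * (g * t)⁻¹ = k' := by
            have : g * t * k * (g * t)⁻¹ = g * (t * k * t⁻¹) * g⁻¹ := by group
            rw [this, ← hkk]; group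
          rw [this]; exact hk'
        · intro hk
          have : g⁻¹ * (g * t * k * (g * t)⁻¹) * g⁻¹⁻¹ ∈ K.map (MulAut.conj g⁻¹).toMonoidHom :=
            ⟨_, hk, by simp [MulAut.conj_apply]⟩
          rw [hEq] at this
          obtain ⟨k', hk', hkk⟩ := this
          simp only [MulEquiv.coe_toMonoidHom, MulAut.conj_apply] at hkk
          have : k = k' := by
            have e : g⁻¹ * (g * t * k * (g * t)⁻¹) * g⁻¹⁻¹ = t * k * t⁻¹ := by group
            rw [e] at hkk
            have := congrArg (fun z => t⁻¹ * z * t) hkk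
            have e1 : t⁻¹ * (t * k' * t⁻¹) * t = k' := by group
            have e2 : t⁻¹ * (t * k * t⁻¹) * t = k := by group
            rw [e1, e2] at this
            exact this.symm
          rw [this]; exact hk'
      · rw [mul_smul, MulAction.mem_stabilizer_iff.mp ht]
    obtain ⟨n1, hn1, rfl⟩ := key a ha
    obtain ⟨n2, hn2, rfl⟩ := key b hb
    refine ⟨n2 * n1⁻¹, Subgroup.mul_mem _ hn2 (Subgroup.inv_mem _ hn1), ?_⟩
    rw [mul_smul, ← mul_smul n1⁻¹]; simp

end Cfsg.Agent.S3760
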