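import Cfsg.Statements.S3763
import Cfsg.Agent.Lib.Helper30.XSIso

set_option autoImplicit false
open Cfsg

namespace Cfsg.Agent.S3763

open Cfsg.Agent.Lib.Helper30.XSIso Cfsg.Agent.Lib.Helper93.LargeExtra2

universe u

theorem profile {E : Type u} [Group E] [Finite E] (hE : Cfsg.IsExtraspecial 2 E) (n : ℕ)
    (hn : Nat.card E = 2 ^ (2 * n + 1)) :
    (Ssum E = 2 ^ (n + 1) ∧ Cfsg.PRankLE 2 (n + 1) E ∧ ¬ Cfsg.PRankLE 2 n E) ∨
    (Ssum E = -2 ^ (n + 1) ∧ Cfsg.PRankLE 2 n E ∧ ¬ Cfsg.PRankLE 2 (n - 1) E) := by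
  obtain ⟨z, m, hz, hm1, hcard, hS, hA, hplus⟩ := struct hE
  have hmn : m = n := by
    have h : 2 ^ (2 * m + 1) = 2 ^ (2 * n + 1) := by rw [← hcard, ← hn]
    have := Nat.pow_right_injective (le_refl 2) h
    omega
  subst hmn
  have hcomm : ∀ A : Subgroup E, IsMulCommutative A → ∀ a ∈ A, ∀ b ∈ A, a * b = b * a := by
    intro A hA a ha b hb
    exact congrArg Subtype.val (hA.is_comm.comm ⟨a, ha⟩ ⟨b, hb⟩)
  have hpos : (0 : ℤ) < 2 ^ (m + 1) := by positivity
  rcases hS with hS | hS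
  · left
    refine ⟨hS, ?_, ?_⟩
    · intro A hAc hA2
      exact (rank_le hz m hcard A (hcomm A hAc) hA2).1
    · intro hP
      obtain ⟨A, hAc, hA2, hAcard⟩ := hplus (by rw [hS]; exact hpos)
      have := hP A ⟨⟨fun a b => Subtype.ext (hAc a a.2 b b.2)⟩⟩ hA2
      rw [hAcard] at this
      have : 2 ^ m < 2 ^ (m + 1) := Nat.pow_lt_pow_right (by norm_num) (by omega)
      omega
  · right
    refine ⟨hS, ?_, ?_⟩
    · intro A hAc hA2
      obtain ⟨hle, heq⟩ := rank_le hz m hcard A (hcomm A hAc) hA2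
      have hdvd : Nat.card A ∣ 2 ^ (2 * m + 1) := by
        rw [← hcard]; exact Subgroup.card_subgroup_dvd_card A
      obtain ⟨j, -, hj⟩ := (Nat.dvd_prime_pow Nat.prime_two).mp hdvd
      rw [hj] at hle heq ⊢
      have hj1 : j ≤ m + 1 := (Nat.pow_le_pow_iff_right (by norm_num)).mp hle
      have hj2 : j ≠ m + 1 := by
        intro h
        have := heq (by rw [h])
        rw [hS] at this
        linarith
      exact Nat.pow_le_pow_right (by norm_num) (by omega)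
    · intro hP
      obtain ⟨A, hAc, hA2, hAcard⟩ := hA
      have := hP A ⟨⟨fun a b => Subtype.ext (hAc a a.2 b b.2)⟩⟩ hA2
      rw [hAcard] at this
      have : 2 ^ (m - 1) < 2 ^ m := Nat.pow_lt_pow_right (by norm_num) (by omega)
      omega

/-- Let E be an extraspecial 2-group of order 2^(2n+1). Then the largest elementary abelian subgroups of E have order 2^n or 2^(n+1); and two extraspecial 2-groups of the same order whose largest elementary abelian subgroups have the same order are isomorphic. -/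
theorem result {E : Type*} [Group E] [Finite E] (hE : Cfsg.IsExtraspecial 2 E) (n : ℕ) (hn : Nat.card E = 2 ^ (2 * n + 1)) : ((Cfsg.PRankLE 2 n E ∧ ¬ Cfsg.PRankLE 2 (n - 1) E) ∨ (Cfsg.PRankLE 2 (n + 1) E ∧ ¬ Cfsg.PRankLE 2 n E)) ∧ ∀ (E' : Type*) [Group E'] [Finite E'], Cfsg.IsExtraspecial 2 E' → Nat.card E' = Nat.card E → (∀ k : ℕ, Cfsg.PRankLE 2 k E ↔ Cfsg.PRankLE 2 k E') → Nonempty (E ≃* E') := by
  have hp := profile hE n hn
  refine ⟨?_, ?_⟩
  · rcases hp with ⟨-, h1, h2⟩ | ⟨-, h1, h2⟩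
    · exact Or.inr ⟨h1, h2⟩
    · exact Or.inl ⟨h1, h2⟩
  · intro E' _ _ hE' hcard hk
    have hp' := profile hE' n (hcard.trans hn)
    apply iso_of_ssum_eq hE hE' hcard
    rcases hp with ⟨hS, h1, h2⟩ | ⟨hS, h1, h2⟩ <;> rcases hp' with ⟨hS', h1', h2'⟩ | ⟨hS', h1', h2'⟩
    · rw [hS, hS']
    · exact (h2 ((hk n).mpr h1')).elim
    · exact (h2' ((hk n).mp h1)).elim
    · rw [hS, hS']

end Cfsg.Agent.S3763
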