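import Cfsg.Statements.S3766
import Mathlib
import Cfsg.Agent.Lib.Helper71.Fitting

set_option autoImplicit false
open Cfsg

namespace Cfsg.Agent.S3766

open Subgroup
open scoped commutatorElement

variable {G : Type*} [Group G]

theorem characteristic_sSup (S : Set (Subgroup G))
    (hS : ∀ (φ : G ≃* G), ∀ N ∈ S, N.map φ.toMonoidHom ∈ S) : (sSup S).Characteristic := by
  rw [characteristic_iff_map_le]
  intro φ
  rw [map_le_iff_le_comap]
  apply sSup_le
  intro N hN
  rw [← map_le_iff_le_comap]
  exact le_sSup (hS φ N hN)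

theorem fitting_characteristic (G : Type*) [Group G] : (Cfsg.fittingSubgroup G).Characteristic := by
  apply characteristic_sSup
  rintro φ N ⟨hN, hnil⟩
  refine ⟨hN.map _ φ.surjective, ?_⟩
  exact Group.nilpotent_of_mulEquiv (N.equivMapOfInjective φ.toMonoidHom φ.injective)

/-- chief factor `U / V` of `G` -/
def IsChief (U V : Subgroup G) : Prop :=
  U.Normal ∧ V.Normal ∧ V < U ∧ ∀ W : Subgroup G, W.Normal → V ≤ W → W ≤ U → W = V ∨ W = U

/-- iterated commutator `[U, D, ..., D]` -/
def iter (D : Subgroup G) : ℕ → Subgroup G → Subgroup G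
  | 0, U => U
  | k + 1, U => iter D k ⁅U, D⁆

theorem iter_mono (D : Subgroup G) :
    ∀ (k : ℕ) {U V : Subgroup G}, U ≤ V → iter D k U ≤ iter D k V
  | 0, _, _, h => h
  | k + 1, _, _, h => iter_mono D k (commutator_mono h le_rfl)

theorem iter_lcs (D : Subgroup G) :
    ∀ (j n : ℕ), iter D j (D.lowerCentralSeries n) = D.lowerCentralSeries (n + j)
  | 0, n => rfl
  | j + 1, n => by
    show iter D j ⁅D.lowerCentralSeries n, D⁆ = _
    rw [← Subgroup.lowerCentralSeries_succ, iter_lcs D j (n + 1)]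
    congr 1
    ring

theorem exists_chief [Finite G] (U : Subgroup G) (hU : U.Normal) (hne : U ≠ ⊥) :
    ∃ V, IsChief U V := by
  obtain ⟨V, -, hV⟩ := Finite.exists_le_maximal (p := fun V : Subgroup G => V.Normal ∧ V < U)
    (a := ⊥) ⟨normal_bot, bot_lt_iff_ne_bot.mpr hne⟩
  refine ⟨V, hU, hV.1.1, hV.1.2, ?_⟩
  intro W hW hVW hWU
  by_cases h : W = U
  · exact Or.inr h
  · left
    exact le_antisymm (hV.2 ⟨hW, lt_of_le_of_ne hWU h⟩ hVW) hVW

theorem iter_bot [Finite G] (F D : Subgroup G)
    (hD : ∀ U V : Subgroup G, IsChief U V → U ≤ F → ⁅U, D⁆ ≤ V) :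
    ∀ (n : ℕ) (U : Subgroup G), U.Normal → U ≤ F → Nat.card U ≤ n → ∃ k, iter D k U = ⊥ := by
  intro n
  induction n with
  | zero =>
    intro U _ _ h
    have := Nat.card_pos (α := U)
    omega
  | succ n ih =>
    intro U hU hUF hcard
    by_cases hne : U = ⊥
    · exact ⟨0, hne⟩
    · obtain ⟨V, hV⟩ := exists_chief U hU hne
      have hlt : Nat.card V < Nat.card U := by
        have h1 : Nat.card V ≤ Nat.card U := card_le_of_le hV.2.2.1.le
        rcases Nat.lt_or_ge (Nat.card V) (Nat.card U) with h2 | h2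
        · exact h2
        · exact absurd (eq_of_le_of_card_ge hV.2.2.1.le h2) hV.2.2.1.ne
      obtain ⟨k, hk⟩ := ih V hV.2.1 (hV.2.2.1.le.trans hUF) (by omega)
      refine ⟨k + 1, ?_⟩
      have h3 : iter D (k + 1) U ≤ iter D k V := iter_mono D k (hD U V hV hUF)
      rw [hk] at h3
      exact le_bot_iff.mp h3

theorem F_normal (N : Subgroup G) [N.Normal] :
    ((Cfsg.fittingSubgroup ↥N).map N.subtype).Normal := by
  haveI := fitting_characteristic ↥N
  infer_instance

theorem F_lcs [Finite G] (N : Subgroup G) :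
    ∃ c, ((Cfsg.fittingSubgroup ↥N).map N.subtype).lowerCentralSeries c = ⊥ := by
  haveI := Cfsg.Agent.Lib.Helper71.Fitting.fitting_isNilpotent ↥N
  obtain ⟨c, hc⟩ := (isNilpotent_iff_lowerCentralSeries (Cfsg.fittingSubgroup ↥N)).mp inferInstance
  exact ⟨c, by rw [← map_lowerCentralSeries, hc, Subgroup.map_bot]⟩

theorem KS [Finite G] (N : Subgroup G) [N.Normal] (D : Subgroup G) (hDn : D.Normal) (hDN : D ≤ N)
    (hDD : ⁅D, D⁆ ≤ (Cfsg.fittingSubgroup ↥N).map N.subtype)
    (hD : ∀ U V : Subgroup G, IsChief U V → U ≤ (Cfsg.fittingSubgroup ↥N).map N.subtype → ⁅U, D⁆ ≤ V) :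
    D ≤ (Cfsg.fittingSubgroup ↥N).map N.subtype := by
  set F := (Cfsg.fittingSubgroup ↥N).map N.subtype with hF
  have hFn : F.Normal := F_normal N
  obtain ⟨k, hk⟩ := iter_bot F D hD (Nat.card F) F hFn le_rfl le_rfl
  have h1 : D.lowerCentralSeries (1 + k) ≤ iter D k F := by
    rw [← iter_lcs D k 1]
    exact iter_mono D k hDD
  rw [hk] at h1
  haveI hnil : Group.IsNilpotent ↥D :=
    (isNilpotent_iff_lowerCentralSeries D).mpr ⟨1 + k, le_bot_iff.mp h1⟩
  have h2 : D.subgroupOf N ≤ Cfsg.fittingSubgroup ↥N := by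
    apply le_sSup
    refine ⟨hDn.subgroupOf N, ?_⟩
    exact Group.nilpotent_of_mulEquiv (subgroupOfEquivOfLe hDN).symm
  calc D = (D.subgroupOf N).map N.subtype := (map_subgroupOf_eq_of_le hDN).symm
    _ ≤ F := map_mono h2

theorem partA [Finite G] (N : Subgroup G) [N.Normal] (U V : Subgroup G) (hch : IsChief U V) :
    ⁅U, (Cfsg.fittingSubgroup ↥N).map N.subtype⁆ ≤ V := by
  set F := (Cfsg.fittingSubgroup ↥N).map N.subtype with hF
  haveI hFn : F.Normal := F_normal N
  obtain ⟨hU, hV, hVU, hmax⟩ := hch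
  haveI := hU
  haveI := hV
  have hW : (V ⊔ ⁅U, F⁆).Normal := inferInstance
  rcases hmax (V ⊔ ⁅U, F⁆) hW le_sup_left (sup_le hVU.le (commutator_le_left U F)) with h | h
  · rw [← h]; exact le_sup_right
  · exfalso
    have hker : (QuotientGroup.mk' V).ker = V := QuotientGroup.ker_mk' V
    have hVbot : V.map (QuotientGroup.mk' V) = ⊥ := by
      rw [Subgroup.map_eq_bot_iff, hker]
    have hUbar : U.map (QuotientGroup.mk' V) =
        ⁅U.map (QuotientGroup.mk' V), F.map (QuotientGroup.mk' V)⁆ := by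
      conv_lhs => rw [← h]
      rw [Subgroup.map_sup, map_commutator, hVbot, bot_sup_eq]
    haveI : (F.map (QuotientGroup.mk' V)).Normal :=
      Subgroup.Normal.map hFn _ (QuotientGroup.mk'_surjective V)
    have key : ∀ k, U.map (QuotientGroup.mk' V) ≤ (F.map (QuotientGroup.mk' V)).lowerCentralSeries k := by
      intro k
      induction k with
      | zero =>
        rw [hUbar]
        exact commutator_le_right _ _
      | succ k ih =>
        rw [Subgroup.lowerCentralSeries_succ]
        conv_lhs => rw [hUbar]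
        exact commutator_mono ih le_rfl
    obtain ⟨c, hc⟩ := F_lcs N
    have hc' : (F.map (QuotientGroup.mk' V)).lowerCentralSeries c = ⊥ := by
      rw [← map_lowerCentralSeries, hc, Subgroup.map_bot]
    have hUV := key c
    rw [hc', le_bot_iff, Subgroup.map_eq_bot_iff, hker] at hUV
    exact absurd hUV (not_le_of_gt hVU)

/-- the derived chain of a subgroup -/
def dch (K : Subgroup G) : ℕ → Subgroup G
  | 0 => K
  | j + 1 => ⁅dch K j, dch K j⁆

theorem dch_normal (K : Subgroup G) [K.Normal] : ∀ j, (dch K j).Normal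
  | 0 => by unfold dch; infer_instance
  | j + 1 => by
    haveI := dch_normal K j
    unfold dch
    infer_instance

theorem dch_le (K : Subgroup G) [K.Normal] : ∀ j, dch K j ≤ K
  | 0 => le_rfl
  | j + 1 => by
    haveI := dch_normal K j
    exact (commutator_le_left (dch K j) (dch K j)).trans (dch_le K j)

theorem dch_le_derived (K : Subgroup G) : ∀ j, dch K j ≤ derivedSeries G j
  | 0 => le_top
  | j + 1 => by
    rw [derivedSeries_succ]
    exact commutator_mono (dch_le_derived K j) (dch_le_derived K j)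

theorem result {G : Type*} [Group G] [Finite G] (hG : Group.IsSolvable G) (N : Subgroup G) [N.Normal] (g : G) : (g ∈ (Cfsg.fittingSubgroup ↥N).map N.subtype ↔ g ∈ N ∧ ∀ U V : Subgroup G, (U.Normal ∧ V.Normal ∧ V < U ∧ ∀ W : Subgroup G, W.Normal → V ≤ W → W ≤ U → W = V ∨ W = U) → ∀ u ∈ U, u * g * u⁻¹ * g⁻¹ ∈ V) ∧ (g ∈ (Cfsg.fittingSubgroup ↥N).map N.subtype ↔ g ∈ N ∧ ∀ U V : Subgroup G, (U.Normal ∧ V.Normal ∧ V < U ∧ ∀ W : Subgroup G, W.Normal → V ≤ W → W ≤ U → W = V ∨ W = U) → U ≤ (Cfsg.fittingSubgroup ↥N).map N.subtype → ∀ u ∈ U, u * g * u⁻¹ * g⁻¹ ∈ V) := by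
  set F := (Cfsg.fittingSubgroup ↥N).map N.subtype with hF
  have hFN : F ≤ N := by
    rintro x ⟨y, -, rfl⟩
    exact y.2
  have dirA : g ∈ F → g ∈ N ∧ ∀ U V : Subgroup G, IsChief U V → ∀ u ∈ U, u * g * u⁻¹ * g⁻¹ ∈ V := by
    intro hg
    refine ⟨hFN hg, fun U V hch u hu => ?_⟩
    have h1 := partA N U V hch
    have h2 : ⁅u, g⁆ ∈ ⁅U, F⁆ := commutator_mem_commutator hu hg
    rw [commutatorElement_def] at h2
    exact h1 h2
  have dirB : g ∈ N → (∀ U V : Subgroup G, IsChief U V → U ≤ F → ∀ u ∈ U, u * g * u⁻¹ * g⁻¹ ∈ V) →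
      g ∈ F := by
    intro hgN hcent
    set K := normalClosure ({g} : Set G) with hK
    have hKN : K ≤ N := normalClosure_le_normal (by simpa using hgN)
    have hKc : ∀ U V : Subgroup G, IsChief U V → U ≤ F → ⁅U, K⁆ ≤ V := by
      intro U V hch hUF
      have hU : U.Normal := hch.1
      haveI hV : V.Normal := hch.2.1
      haveI : (U.map (QuotientGroup.mk' V)).Normal :=
        Subgroup.Normal.map hU _ (QuotientGroup.mk'_surjective V)
      let S : Subgroup G :=
        (centralizer ((U.map (QuotientGroup.mk' V) : Subgroup (G ⧸ V)) : Set (G ⧸ V))).comap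
          (QuotientGroup.mk' V)
      have hSn : S.Normal := inferInstance
      have hgS : g ∈ S := by
        show (QuotientGroup.mk' V) g ∈ centralizer _
        rw [mem_centralizer_iff]
        rintro _ ⟨u, hu, rfl⟩
        have h1 := hcent U V hch hUF u hu
        have h2 : (QuotientGroup.mk' V) (u * g * u⁻¹ * g⁻¹) = 1 :=
          (QuotientGroup.eq_one_iff _).mpr h1
        rw [map_mul, map_mul, map_mul, map_inv, map_inv] at h2
        have h3 := mul_inv_eq_one.mp h2
        rw [mul_inv_eq_iff_eq_mul] at h3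
        exact h3
      have hKS : K ≤ S := normalClosure_le_normal (by simpa using hgS)
      rw [commutator_le]
      intro u hu k hk
      have h1 : (QuotientGroup.mk' V) k ∈ centralizer _ := hKS hk
      rw [mem_centralizer_iff] at h1
      have h2 := h1 ((QuotientGroup.mk' V) u) (mem_map_of_mem _ hu)
      rw [commutatorElement_def]
      apply (QuotientGroup.eq_one_iff _).mp
      show (QuotientGroup.mk' V) (u * k * u⁻¹ * k⁻¹) = 1
      rw [map_mul, map_mul, map_mul, map_inv, map_inv, h2]
      group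
    have hstep : ∀ j, dch K (j + 1) ≤ F → dch K j ≤ F := by
      intro j hj
      refine KS N (dch K j) (dch_normal K j) ((dch_le K j).trans hKN) hj ?_
      intro U V hch hUF
      exact (commutator_mono le_rfl (dch_le K j)).trans (hKc U V hch hUF)
    obtain ⟨k, hk⟩ := hG.solvable
    have hbot : dch K k ≤ F := by
      have := dch_le_derived K k
      rw [hk] at this
      exact this.trans bot_le
    have hdown : ∀ m, m ≤ k → dch K (k - m) ≤ F := by
      intro m
      induction m with
      | zero => intro _; exact hbot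
      | succ m ih =>
        intro hm
        apply hstep
        have e : k - (m + 1) + 1 = k - m := by omega
        rw [e]
        exact ih (by omega)
    have hK0 : K ≤ F := by
      have := hdown k le_rfl
      rw [Nat.sub_self] at this
      exact this
    exact hK0 (subset_normalClosure (Set.mem_singleton g))
  constructor
  · constructor
    · intro hg
      exact dirA hg
    · rintro ⟨hgN, h⟩
      exact dirB hgN (fun U V hch _ u hu => h U V hch u hu)
  · constructor
    · intro hg
      obtain ⟨h1, h2⟩ := dirA hg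
      exact ⟨h1, fun U V hch _ u hu => h2 U V hch u hu⟩
    · rintro ⟨hgN, h⟩
      exact dirB hgN (fun U V hch hUF u hu => h U V hch hUF u hu)

end Cfsg.Agent.S3766
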