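import Cfsg.Statements.S3767
import Cfsg.Agent.Lib.Helper1.SympCount
import Cfsg.Agent.Lib.Helper24.ConjAction

set_option autoImplicit false
open Cfsg

namespace Cfsg.Agent.S3767

open scoped commutatorElement
open Cfsg.Agent.Lib.Helper24.ConjAction

theorem comm_mul_left {Q : Type*} [Group Q] (u u' v : Q) (h : ⁅u', v⁆ ∈ Subgroup.center Q) :
    ⁅u * u', v⁆ = ⁅u', v⁆ * ⁅u, v⁆ := by
  have h1 := Subgroup.mem_center_iff.mp h u
  calc ⁅u * u', v⁆ = (u * ⁅u', v⁆) * (v * u⁻¹ * v⁻¹) := by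
        simp only [commutatorElement_def]; group
    _ = (⁅u', v⁆ * u) * (v * u⁻¹ * v⁻¹) := by rw [h1]
    _ = ⁅u', v⁆ * ⁅u, v⁆ := by simp only [commutatorElement_def]; group

theorem comm_mul_right {Q : Type*} [Group Q] (u v v' : Q) (h : ⁅u, v'⁆ ∈ Subgroup.center Q) :
    ⁅u, v * v'⁆ = ⁅u, v⁆ * ⁅u, v'⁆ := by
  have h1 := Subgroup.mem_center_iff.mp h v
  calc ⁅u, v * v'⁆ = u * v * u⁻¹ * v⁻¹ * ((v * ⁅u, v'⁆) * v⁻¹) := by
        simp only [commutatorElement_def]; group
    _ = u * v * u⁻¹ * v⁻¹ * ((⁅u, v'⁆ * v) * v⁻¹) := by rw [h1]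
    _ = ⁅u, v⁆ * ⁅u, v'⁆ := by simp only [commutatorElement_def]; group

/-- Let P be an extraspecial p-group of order p^(2n+1) and H a cyclic group of order h prime to p acting on P (inside a common finite group: H normalizes P) so that C_P(x) = Z(P) for every non-identity x ∈ H. Then h divides p^n + 1 or h divides p^n − 1. -/
theorem result {G : Type*} [Group G] [Finite G] {p : ℕ} [Fact p.Prime] (P H : Subgroup G) (hP : Cfsg.IsExtraspecial p ↥P) (n : ℕ) (hn : Nat.card P = p ^ (2 * n + 1)) (hH : IsCyclic H) (hcop : (Nat.card H).Coprime p) (hHP : H ≤ Subgroup.normalizer (P : Set G)) (hfix : ∀ x ∈ H, x ≠ 1 → P ⊓ Subgroup.centralizer {x} = (Subgroup.center ↥P).map P.subtype) : Nat.card H ∣ p ^ n + 1 ∨ Nat.card H ∣ p ^ n - 1 := by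
  obtain ⟨⟨hPp, hfr, hcomm⟩, hZ⟩ := hP
  have hcm : ∀ u v : ↥P, ⁅u, v⁆ ∈ Subgroup.center ↥P := by
    intro u v
    rw [← hcomm, commutator_def]
    exact Subgroup.commutator_mem_commutator (Subgroup.mem_top u) (Subgroup.mem_top v)
  have hcardM : Nat.card (Multiplicative (ZMod p)) = p := by
    rw [Nat.card_congr Multiplicative.toAdd, Nat.card_zmod]
  let ψ : ↥(Subgroup.center ↥P) ≃* Multiplicative (ZMod p) := mulEquivOfPrimeCardEq hZ hcardM
  obtain ⟨φ, hφmul, hφone⟩ : ∃ φ : ↥P → ZMod p,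
      (∀ z z', z ∈ Subgroup.center ↥P → z' ∈ Subgroup.center ↥P → φ (z * z') = φ z + φ z') ∧
      (∀ z, z ∈ Subgroup.center ↥P → (φ z = 0 ↔ z = 1)) := by
    classical
    refine ⟨fun z => if h : z ∈ Subgroup.center ↥P then Multiplicative.toAdd (ψ ⟨z, h⟩) else 0,
      ?_, ?_⟩
    · intro z z' hz hz'
      simp only [dif_pos hz, dif_pos hz', dif_pos (mul_mem hz hz')]
      rw [← toAdd_mul, ← map_mul]
      rfl
    · intro z hz
      simp only [dif_pos hz]
      rw [toAdd_eq_zero, MulEquiv.map_eq_one_iff]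
      constructor
      · intro h; exact congrArg Subtype.val h
      · intro h; exact Subtype.ext h
  obtain ⟨x₀, hx₀⟩ := hH.exists_generator
  have hord : orderOf x₀ = Nat.card H := orderOf_eq_card_of_forall_mem_zpowers hx₀
  obtain ⟨θ, hθ⟩ : ∃ θ : MulAut ↥P, θ = conjHom H P hHP x₀ := ⟨_, rfl⟩
  have hθpow : ∀ k : ℕ, θ ^ k = conjHom H P hHP (x₀ ^ k) := fun k => by
    rw [hθ, map_pow]
  have hcen : ∀ x ∈ H, ∀ z : ↥P, z ∈ Subgroup.center ↥P → x * (z : G) * x⁻¹ = z := by
    intro x hx z hz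
    by_cases hx1 : x = 1
    · subst hx1; simp
    · have h := hfix x hx hx1
      have hz' : (z : G) ∈ (Subgroup.center ↥P).map P.subtype := ⟨z, hz, rfl⟩
      rw [← h] at hz'
      have := Subgroup.mem_centralizer_iff.mp hz'.2 x (Set.mem_singleton x)
      rw [this]; simp
  have hfixZ : ∀ (x : ↥H) (z : ↥P), z ∈ Subgroup.center ↥P → conjHom H P hHP x z = z := by
    intro x z hz
    apply Subtype.ext
    rw [conjHom_apply]
    exact hcen x x.2 z hz
  refine (Cfsg.Agent.Lib.Helper1.SympCount.main p n (Nat.card H) (Subgroup.center ↥P) hZ hn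
    (fun u v => φ ⁅u, v⁆) θ Nat.card_pos hcop ?_ ?_ ?_ ?_ ?_ ?_ ?_).symm
  · intro u u' v
    show φ ⁅u * u', v⁆ = φ ⁅u, v⁆ + φ ⁅u', v⁆
    rw [comm_mul_left u u' v (hcm u' v), hφmul _ _ (hcm u' v) (hcm u v), add_comm]
  · intro u v v'
    show φ ⁅u, v * v'⁆ = φ ⁅u, v⁆ + φ ⁅u, v'⁆
    rw [comm_mul_right u v v' (hcm u v'), hφmul _ _ (hcm u v) (hcm u v')]
  · intro u
    show φ ⁅u, u⁆ = 0
    rw [commutatorElement_self, hφone 1 (Subgroup.one_mem _)]
  · intro w
    constructor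
    · intro h
      rw [Subgroup.mem_center_iff]
      intro g
      have := (hφone _ (hcm g w)).mp (h g)
      exact (commutatorElement_eq_one_iff_mul_comm.mp this)
    · intro hw u
      show φ ⁅u, w⁆ = 0
      rw [hφone _ (hcm u w), commutatorElement_eq_one_iff_mul_comm]
      exact Subgroup.mem_center_iff.mp hw u
  · intro u v
    show φ ⁅θ u, θ v⁆ = φ ⁅u, v⁆
    rw [← map_commutatorElement, hθ, hfixZ x₀ _ (hcm u v)]
  · intro u
    rw [hθpow, ← hord, pow_orderOf_eq_one, map_one]; rfl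
  · intro k u hk hu
    by_contra hmk
    apply hu
    have hx1 : x₀ ^ k ≠ 1 := by
      intro h
      exact hmk (by rw [← hord]; exact orderOf_dvd_of_pow_eq_one h)
    rw [hθpow] at hk
    obtain ⟨τ, hτ⟩ : ∃ τ : MulAut ↥P, τ = conjHom H P hHP (x₀ ^ k) := ⟨_, rfl⟩
    rw [← hτ] at hk
    obtain ⟨z, hz⟩ : ∃ z : ↥P, z = τ u * u⁻¹ := ⟨_, rfl⟩
    rw [← hz] at hk
    have hτu : τ u = z * u := by rw [hz]; group
    have hτz : τ z = z := by rw [hτ]; exact hfixZ _ z hk
    have hpow : ∀ j : ℕ, (τ ^ j) u = z ^ j * u := by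
      intro j
      induction j with
      | zero => simp
      | succ j ih =>
        rw [pow_succ', MulAut.mul_apply, ih, map_mul, map_pow, hτz, hτu, pow_succ', mul_assoc]
        rw [← mul_assoc, ← mul_assoc, ← pow_succ, ← pow_succ']
    have hτm : τ ^ Nat.card H = 1 := by
      rw [hτ, ← map_pow, ← pow_mul, mul_comm, pow_mul, ← hord, pow_orderOf_eq_one, one_pow,
        map_one]
    have hzm : z ^ Nat.card H = 1 := by
      have := hpow (Nat.card H)
      rw [hτm] at this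
      have h2 : u = z ^ Nat.card H * u := this
      have h3 : z ^ Nat.card H * u = 1 * u := by rw [one_mul]; exact h2.symm
      exact mul_right_cancel h3
    have hzp : z ^ p = 1 := by
      have : (⟨z, hk⟩ : ↥(Subgroup.center ↥P)) ^ Nat.card ↥(Subgroup.center ↥P) = 1 :=
        pow_card_eq_one'
      rw [hZ] at this
      exact congrArg Subtype.val this
    have hz1 : z = 1 := by
      have h1 : orderOf z ∣ Nat.card H := orderOf_dvd_of_pow_eq_one hzm
      have h2 : orderOf z ∣ p := orderOf_dvd_of_pow_eq_one hzp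
      have h3 : orderOf z ∣ 1 := by
        have := Nat.dvd_gcd h1 h2
        rwa [Nat.Coprime.gcd_eq_one hcop] at this
      exact orderOf_eq_one_iff.mp (Nat.dvd_one.mp h3)
    have hτu' : τ u = u := by rw [hτu, hz1, one_mul]
    have hx : ((x₀ ^ k : ↥H) : G) ∈ H := (x₀ ^ k).2
    have hxne : ((x₀ ^ k : ↥H) : G) ≠ 1 := fun h => hx1 (Subtype.ext h)
    have hmem : (u : G) ∈ P ⊓ Subgroup.centralizer {((x₀ ^ k : ↥H) : G)} := by
      refine Subgroup.mem_inf.mpr ⟨u.2, ?_⟩
      rw [Subgroup.mem_centralizer_iff]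
      intro y hy
      rw [Set.mem_singleton_iff] at hy
      subst hy
      have := congrArg Subtype.val hτu'
      rw [hτ, conjHom_apply] at this
      exact (mul_inv_eq_iff_eq_mul.mp this)
    rw [hfix _ hx hxne] at hmem
    obtain ⟨z', hz', hz'u⟩ := hmem
    have : z' = u := Subtype.ext hz'u
    rw [← this]; exact hz'

end Cfsg.Agent.S3767
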