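import Cfsg.Statements.S3768
import Cfsg.Agent.Lib.Helper71.Fitting

set_option autoImplicit false
open Cfsg

namespace Cfsg.Agent.S3768

open scoped Pointwise

variable {G : Type*} [Group G]

lemma mem_conj_smul (H : Subgroup G) (g x : G) :
    x ∈ MulAut.conj g • H ↔ g⁻¹ * x * g ∈ H := by
  rw [Subgroup.mem_pointwise_smul_iff_inv_smul_mem]
  simp [MulAut.smul_def]

lemma ti {R : Subgroup G} (hR : IsFrobeniusComplement R) {r c : G} (hr : r ∈ R) (hr1 : r ≠ 1)
    (hc : c⁻¹ * r * c ∈ R) : c ∈ R := by
  by_contra hcR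
  have := hR.2.2 c hcR
  have hmem : r ∈ R ⊓ MulAut.conj c • R := ⟨hr, (mem_conj_smul R c r).2 hc⟩
  rw [this] at hmem
  exact hr1 (Subgroup.mem_bot.1 hmem)

omit [Group G] in
lemma ncard_eq_filter [Fintype G] (S : Set G) [DecidablePred (· ∈ S)] :
    S.ncard = (Finset.univ.filter (· ∈ S)).card := by
  rw [← Set.ncard_coe_finset]; congr 1; ext; simp

lemma count [Finite G] {R : Subgroup G} (hR : IsFrobeniusComplement R) (N : Subgroup G)
    [hN : N.Normal] :
    Nat.card G * (((N ⊓ R : Subgroup G) : Set G) \ {1}).ncard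
      = Nat.card R * ((N : Set G) \ frobeniusKernel R).ncard := by
  classical
  have := Fintype.ofFinite G
  let P : G → G → Prop := fun x n => n ∈ N ∧ n ≠ 1 ∧ x⁻¹ * n * x ∈ R
  have key := Finset.sum_card_bipartiteAbove_eq_sum_card_bipartiteBelow
    (s := (Finset.univ : Finset G)) (t := (Finset.univ : Finset G)) P
  have h1 : ∀ x : G, (Finset.univ.bipartiteAbove P x).card
      = (((N ⊓ R : Subgroup G) : Set G) \ {1}).ncard := by
    intro x
    rw [ncard_eq_filter]
    refine Finset.card_bij (fun n _ => x⁻¹ * n * x) ?_ ?_ ?_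
    · intro n hn
      simp only [Finset.bipartiteAbove, Finset.mem_filter, Finset.mem_univ, true_and, P] at hn
      simp only [Finset.mem_filter, Finset.mem_univ, true_and]
      obtain ⟨hnN, hn1, hnR⟩ := hn
      refine ⟨⟨?_, hnR⟩, ?_⟩
      · have := hN.conj_mem n hnN x⁻¹
        simpa using this
      · intro h
        apply hn1
        have h' : x⁻¹ * n * x = 1 := h
        have : n = x * (x⁻¹ * n * x) * x⁻¹ := by group
        rw [this, h']; group
    · intro a _ b _ h
      simpa using h
    · intro m hm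
      simp only [Finset.mem_filter, Finset.mem_univ, true_and] at hm
      obtain ⟨⟨hmN, hmR⟩, hm1⟩ := hm
      refine ⟨x * m * x⁻¹, ?_, by group⟩
      simp only [Finset.bipartiteAbove, Finset.mem_filter, Finset.mem_univ, true_and, P]
      refine ⟨hN.conj_mem m hmN x, ?_, ?_⟩
      · intro h
        apply hm1
        have : m = x⁻¹ * (x * m * x⁻¹) * x := by group
        rw [this, h]; simp
      · have : x⁻¹ * (x * m * x⁻¹) * x = m := by group
        rw [this]; exact hmR
  have h2 : ∀ n : G, (Finset.univ.bipartiteBelow P n).card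
      = if n ∈ (N : Set G) \ frobeniusKernel R then Nat.card R else 0 := by
    intro n
    split_ifs with hn
    · obtain ⟨hnN, hnK⟩ := hn
      have hn1 : n ≠ 1 := fun h => hnK (Or.inl h)
      have : ∃ g : G, n ∈ MulAut.conj g • R := by
        by_contra hcon
        exact hnK (Or.inr (fun g hg => hcon ⟨g, hg⟩))
      obtain ⟨g, hg⟩ := this
      rw [mem_conj_smul] at hg
      have hg1 : g⁻¹ * n * g ≠ 1 := by
        intro h
        apply hn1
        have : n = g * (g⁻¹ * n * g) * g⁻¹ := by group
        rw [this, h]; group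
      have : Finset.univ.bipartiteBelow P n
          = (Finset.univ.filter (· ∈ R)).image (fun r => g * r) := by
        ext x
        simp only [Finset.bipartiteBelow, Finset.mem_filter, Finset.mem_univ, true_and,
          Finset.mem_image, P]
        constructor
        · rintro ⟨_, _, hx⟩
          refine ⟨g⁻¹ * x, ?_, by group⟩
          apply ti hR hg hg1
          have : (g⁻¹ * x)⁻¹ * (g⁻¹ * n * g) * (g⁻¹ * x) = x⁻¹ * n * x := by group
          rw [this]; exact hx
        · rintro ⟨r, hr, rfl⟩
          refine ⟨hnN, hn1, ?_⟩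
          have : (g * r)⁻¹ * n * (g * r) = r⁻¹ * (g⁻¹ * n * g) * r := by group
          rw [this]
          exact R.mul_mem (R.mul_mem (R.inv_mem hr) hg) hr
      rw [this, Finset.card_image_of_injective _ (mul_right_injective g)]
      have h3 := ncard_eq_filter (R : Set G)
      simp only [SetLike.mem_coe] at h3
      rw [← h3]
      exact (Nat.card_coe_set_eq (R : Set G)).symm
    · rw [Finset.card_eq_zero]
      ext x
      simp only [Finset.bipartiteBelow, Finset.mem_filter, Finset.mem_univ, true_and, P,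
        Finset.notMem_empty, iff_false]
      rintro ⟨hnN, hn1, hx⟩
      apply hn
      refine ⟨hnN, ?_⟩
      rintro (h | h)
      · exact hn1 h
      · exact h x ((mem_conj_smul R x n).2 hx)
  simp only [h1, h2] at key
  rw [Finset.sum_const, Finset.card_univ, smul_eq_mul, ← Finset.sum_filter, Finset.sum_const,
    smul_eq_mul, ← ncard_eq_filter, ← Nat.card_eq_fintype_card] at key
  rw [key, mul_comm]

lemma card_kernel [Finite G] {R : Subgroup G} (hR : IsFrobeniusComplement R) :
    (frobeniusKernel R).ncard = R.index := by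
  have h := count hR (⊤ : Subgroup G)
  rw [top_inf_eq] at h
  have h1 : ((R : Set G) \ {1}).ncard + 1 = Nat.card R := by
    rw [Set.ncard_sdiff_singleton_add_one (R.one_mem) (Set.toFinite _)]
    exact Nat.card_coe_set_eq _
  have h2 : (((⊤ : Subgroup G) : Set G) \ frobeniusKernel R).ncard + (frobeniusKernel R).ncard
      = Nat.card G := by
    rw [Subgroup.coe_top, Set.ncard_sdiff_add_ncard_of_subset (Set.subset_univ _) (Set.toFinite _),
      Set.ncard_univ]
  have h3 : Nat.card G = R.index * Nat.card R := (Subgroup.index_mul_card R).symm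
  generalize ((R : Set G) \ {1}).ncard = a at *
  generalize (((⊤ : Subgroup G) : Set G) \ frobeniusKernel R).ncard = b at *
  generalize (frobeniusKernel R).ncard = k at *
  generalize R.index = t at *
  generalize Nat.card R = r at *
  generalize Nat.card G = g at *
  subst h1 h3
  have h4 : t * a = b := by
    have : (a + 1) * (t * a) = (a + 1) * b := by rw [← h]; ring
    exact Nat.eq_of_mul_eq_mul_left (by omega) this
  subst h4
  linarith

lemma inf_eq_bot [Finite G] {R : Subgroup G} (hR : IsFrobeniusComplement R) (N : Subgroup G)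
    [N.Normal] (hKN : ¬ frobeniusKernel R ⊆ N) : N ⊓ R = ⊥ := by
  by_contra hne
  apply hKN
  have h := count hR N
  have hK := card_kernel hR
  have hδ : 1 < Nat.card (N ⊓ R : Subgroup G) := by
    rw [Subgroup.one_lt_card_iff_ne_bot]; exact hne
  have h1 : ((((N ⊓ R : Subgroup G)) : Set G) \ {1}).ncard + 1 = Nat.card (N ⊓ R : Subgroup G) := by
    rw [Set.ncard_sdiff_singleton_add_one ((N ⊓ R).one_mem) (Set.toFinite _)]
    exact Nat.card_coe_set_eq _
  have h2 : ((N : Set G) ∩ frobeniusKernel R).ncard + ((N : Set G) \ frobeniusKernel R).ncard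
      = Nat.card N := by
    rw [Set.ncard_inter_add_ncard_sdiff_eq_ncard _ _ (Set.toFinite _)]
    exact Nat.card_coe_set_eq _
  have h3 : Nat.card G = R.index * Nat.card R := (Subgroup.index_mul_card R).symm
  have h4 : R.relIndex N ∣ R.index :=
    Cfsg.Agent.Lib.Helper71.Fitting.relIndex_dvd_index_of_normal_right R N
  have h5 : Nat.card (N ⊓ R : Subgroup G) * R.relIndex N = Nat.card N := by
    have := Subgroup.relIndex_mul_relIndex (⊥ : Subgroup G) (N ⊓ R) N bot_le inf_le_left
    rw [Subgroup.relIndex_bot_left, Subgroup.relIndex_bot_left, inf_comm,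
      Subgroup.inf_relIndex_right] at this
    rw [inf_comm]; exact this
  have h6 : ((N : Set G) ∩ frobeniusKernel R).ncard ≤ (frobeniusKernel R).ncard :=
    Set.ncard_le_ncard Set.inter_subset_right (Set.toFinite _)
  have h7 : 0 < ((N : Set G) ∩ frobeniusKernel R).ncard := by
    rw [Set.ncard_pos (Set.toFinite _)]
    exact ⟨1, N.one_mem, Or.inl rfl⟩
  have ht : 0 < R.index := Nat.pos_of_ne_zero Subgroup.index_ne_zero_of_finite
  have hr : 0 < Nat.card R := Nat.card_pos
  have h8 : (frobeniusKernel R).ncard ≤ ((N : Set G) ∩ frobeniusKernel R).ncard := by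
    rw [hK]
    generalize ((((N ⊓ R : Subgroup G)) : Set G) \ {1}).ncard = d at *
    generalize ((N : Set G) ∩ frobeniusKernel R).ncard = κ at *
    generalize ((N : Set G) \ frobeniusKernel R).ncard = m at *
    generalize Nat.card (N ⊓ R : Subgroup G) = δ at *
    generalize R.relIndex N = a at *
    generalize R.index = t at *
    generalize Nat.card R = r at *
    generalize Nat.card G = g at *
    generalize Nat.card N = n at *
    subst h3 h1
    have h9 : t * d = m := by
      have : r * (t * d) = r * m := by rw [← h]; ring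
      exact Nat.eq_of_mul_eq_mul_left hr this
    subst h9
    obtain ⟨c, rfl⟩ := h4
    rcases Nat.lt_or_ge c 2 with hc | hc
    · interval_cases c
      · simp at ht
      · rw [mul_one] at *
        have : (d + 1) * a = a * d + a := by ring
        omega
    · exfalso
      have hd : 1 ≤ d := by omega
      have ha : 0 < a := Nat.pos_of_mul_pos_right ht
      have e1 : a * 2 * d ≤ a * c * d := Nat.mul_le_mul_right d (Nat.mul_le_mul_left a hc)
      have e2 : a * 1 ≤ a * d := Nat.mul_le_mul_left a hd
      nlinarith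
  have := Set.eq_of_subset_of_ncard_le Set.inter_subset_right h8 (Set.toFinite _)
  rw [← this]; exact Set.inter_subset_left

lemma twist [Finite G] {R : Subgroup G} (hR : IsFrobeniusComplement R) (N : Subgroup G)
    [hN : N.Normal] (hNR : N ⊓ R = ⊥) {r : G} (hr : r ∈ R) (hr1 : r ≠ 1) {n : G} (hn : n ∈ N) :
    ∃ a ∈ N, r * n = a⁻¹ * r * a := by
  let f : N → N := fun a => ⟨r⁻¹ * (a : G)⁻¹ * r * a, by
    have h1 : r⁻¹ * (a : G)⁻¹ * r ∈ N := by
      have := hN.conj_mem _ (N.inv_mem a.2) r⁻¹
      simpa using this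
    exact N.mul_mem h1 a.2⟩
  have hf : Function.Injective f := by
    intro a b hab
    have hab' : r⁻¹ * (a : G)⁻¹ * r * a = r⁻¹ * (b : G)⁻¹ * r * b := congrArg Subtype.val hab
    have hc : ((a : G) * (b : G)⁻¹)⁻¹ * r * ((a : G) * (b : G)⁻¹) ∈ R := by
      have : ((a : G) * (b : G)⁻¹)⁻¹ * r * ((a : G) * (b : G)⁻¹)
          = (b : G) * (r * (r⁻¹ * (a : G)⁻¹ * r * a)) * (b : G)⁻¹ := by group
      rw [this, hab']
      have : (b : G) * (r * (r⁻¹ * (b : G)⁻¹ * r * b)) * (b : G)⁻¹ = r := by group
      rw [this]; exact hr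
    have h1 := ti hR hr hr1 hc
    have h2 : (a : G) * (b : G)⁻¹ ∈ N ⊓ R := ⟨N.mul_mem a.2 (N.inv_mem b.2), h1⟩
    rw [hNR, Subgroup.mem_bot] at h2
    exact Subtype.ext (mul_inv_eq_one.1 h2)
  obtain ⟨a, ha⟩ := (Finite.injective_iff_surjective.1 hf) ⟨n, hn⟩
  refine ⟨a, a.2, ?_⟩
  have ha' : r⁻¹ * (a : G)⁻¹ * r * a = n := congrArg Subtype.val ha
  rw [← ha']; group


lemma key [Finite G] {R : Subgroup G} (hR : IsFrobeniusComplement R) (N : Subgroup G)
    [hN : N.Normal] (hNR : N ⊓ R = ⊥) (g k : G)
    (h : (QuotientGroup.mk' N g)⁻¹ * QuotientGroup.mk' N k * QuotientGroup.mk' N g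
      ∈ R.map (QuotientGroup.mk' N)) :
    k ∈ N ∨ ∃ c, QuotientGroup.mk' N c = QuotientGroup.mk' N g ∧ c⁻¹ * k * c ∈ R := by
  obtain ⟨r, hr, hrk⟩ := h
  have hn : r⁻¹ * (g⁻¹ * k * g) ∈ N := by
    rw [← QuotientGroup.eq_one_iff]
    have : ((r⁻¹ * (g⁻¹ * k * g) : G) : G ⧸ N)
        = (QuotientGroup.mk' N r)⁻¹ * ((QuotientGroup.mk' N g)⁻¹ * QuotientGroup.mk' N k
          * QuotientGroup.mk' N g) := by
      simp
    rw [this, ← hrk]; simp
  by_cases hr1 : r = 1
  · left
    subst hr1
    have h1 : g⁻¹ * k * g ∈ N := by simpa using hn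
    have h2 := hN.conj_mem _ h1 g
    have h3 : g * (g⁻¹ * k * g) * g⁻¹ = k := by group
    rwa [h3] at h2
  · right
    obtain ⟨a, ha, hra⟩ := twist hR N hNR hr hr1 hn
    refine ⟨g * a⁻¹, ?_, ?_⟩
    · rw [map_mul, map_inv]
      have : QuotientGroup.mk' N a = 1 := by
        rw [QuotientGroup.mk'_apply, QuotientGroup.eq_one_iff]; exact ha
      rw [this]; simp
    · have h1 : g⁻¹ * k * g = a⁻¹ * r * a := by rw [← hra]; group
      have h2 : (g * a⁻¹)⁻¹ * k * (g * a⁻¹) = r := by
        calc (g * a⁻¹)⁻¹ * k * (g * a⁻¹) = a * (g⁻¹ * k * g) * a⁻¹ := by group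
          _ = r := by rw [h1]; group
      rw [h2]; exact hr

/-- Let G be a finite Frobenius group with Frobenius complement R and Frobenius kernel K (the identity together with the elements in no conjugate of R), and let N be a normal subgroup of G not containing K. Then G/N is a Frobenius group with Frobenius complement RN/N whose Frobenius kernel is the image of K. -/
theorem result {G : Type*} [Group G] [Finite G] (R : Subgroup G) (hR : Cfsg.IsFrobeniusComplement R) (N : Subgroup G) [N.Normal] (hKN : ¬ Cfsg.frobeniusKernel R ⊆ N) : Cfsg.IsFrobeniusComplement (R.map (QuotientGroup.mk' N)) ∧ Cfsg.frobeniusKernel (R.map (QuotientGroup.mk' N)) = QuotientGroup.mk' N '' Cfsg.frobeniusKernel R := by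
  have hNR := inf_eq_bot hR N hKN
  have hsurj := QuotientGroup.mk'_surjective N
  have hker : ∀ x : G, QuotientGroup.mk' N x = 1 ↔ x ∈ N := by
    intro x
    rw [QuotientGroup.mk'_apply, QuotientGroup.eq_one_iff]
  refine ⟨⟨?_, ?_, ?_⟩, ?_⟩
  · intro h
    rw [Subgroup.map_eq_bot_iff, QuotientGroup.ker_mk'] at h
    apply hR.1
    rw [← hNR]
    exact (inf_eq_right.2 h).symm
  · intro h
    obtain ⟨k, hkK, hkN⟩ := Set.not_subset.1 hKN
    have h1 : (QuotientGroup.mk' N 1)⁻¹ * QuotientGroup.mk' N k * QuotientGroup.mk' N 1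
        ∈ R.map (QuotientGroup.mk' N) := by
      rw [h]; exact Subgroup.mem_top _
    rcases key hR N hNR 1 k h1 with h2 | ⟨c, -, hc⟩
    · exact hkN h2
    · rcases hkK with h3 | h3
      · apply hkN
        change k ∈ N
        rw [h3]; exact N.one_mem
      · exact h3 c ((mem_conj_smul R c k).2 hc)
  · intro gbar hg
    obtain ⟨g, rfl⟩ := hsurj gbar
    rw [eq_bot_iff]
    rintro xbar ⟨hx1, hx2⟩
    obtain ⟨r1, hr1, rfl⟩ := hx1
    have hx2' := (mem_conj_smul _ _ _).1 hx2
    rw [Subgroup.mem_bot]
    rcases key hR N hNR g r1 hx2' with h2 | ⟨c, hcg, hc⟩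
    · exact (hker r1).2 h2
    · by_cases h3 : r1 = 1
      · rw [h3, map_one]
      · exfalso
        apply hg
        rw [← hcg]
        exact Subgroup.mem_map_of_mem _ (ti hR hr1 h3 hc)
  · ext xbar
    constructor
    · intro hx
      obtain ⟨x, rfl⟩ := hsurj xbar
      by_cases hxK : x ∈ frobeniusKernel R
      · exact ⟨x, hxK, rfl⟩
      · have hx1 : ¬ (x = 1 ∨ ∀ g : G, x ∉ MulAut.conj g • R) := hxK
        have hx2 : ∃ g : G, x ∈ MulAut.conj g • R := by
          by_contra hcon
          exact hx1 (Or.inr (fun g hg => hcon ⟨g, hg⟩))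
        obtain ⟨g, hg⟩ := hx2
        rcases hx with h1 | h1
        · exact ⟨1, Or.inl rfl, by rw [h1, map_one]⟩
        · exfalso
          apply h1 (QuotientGroup.mk' N g)
          rw [mem_conj_smul]
          have : (QuotientGroup.mk' N g)⁻¹ * QuotientGroup.mk' N x * QuotientGroup.mk' N g
              = QuotientGroup.mk' N (g⁻¹ * x * g) := by simp
          rw [this]
          exact Subgroup.mem_map_of_mem _ ((mem_conj_smul R g x).1 hg)
    · rintro ⟨k, hk, rfl⟩
      by_cases h1 : QuotientGroup.mk' N k = 1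
      · exact Or.inl h1
      · right
        intro gbar hg
        obtain ⟨g, rfl⟩ := hsurj gbar
        rw [mem_conj_smul] at hg
        rcases key hR N hNR g k hg with h2 | ⟨c, -, hc⟩
        · exact h1 ((hker k).2 h2)
        · rcases hk with h3 | h3
          · apply h1; rw [h3, map_one]
          · exact h3 c ((mem_conj_smul R c k).2 hc)


end Cfsg.Agent.S3768
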