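import Cfsg.Statements.S3772
import Mathlib
import Cfsg.Agent.Lib.Helper63.PFrattini

set_option autoImplicit false
open Cfsg

namespace Cfsg.Agent.S3772

open Cfsg.Agent.Lib.Helper63.PFrattini
open scoped commutatorElement

/-- sign of an element: `1` if trivial, `-1` otherwise -/
noncomputable def sgn {G : Type*} [Group G] (t : G) : ℤ :=
  @ite ℤ (t = 1) (Classical.propDecidable _) 1 (-1)

theorem sgn_of_eq {G : Type*} [Group G] {t : G} (h : t = 1) : sgn t = 1 := by
  unfold sgn; rw [if_pos h]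

theorem sgn_of_ne {G : Type*} [Group G] {t : G} (h : t ≠ 1) : sgn t = -1 := by
  unfold sgn; rw [if_neg h]

theorem sgn_one {G : Type*} [Group G] : sgn (1 : G) = 1 := sgn_of_eq rfl

theorem sgn_sq {G : Type*} [Group G] (t : G) : sgn t * sgn t = 1 := by
  by_cases h : t = 1
  · rw [sgn_of_eq h]; norm_num
  · rw [sgn_of_ne h]; norm_num

theorem sgn_eq_one_iff {G : Type*} [Group G] (t : G) : sgn t = 1 ↔ t = 1 := by
  constructor
  · intro h
    by_contra h1
    rw [sgn_of_ne h1] at h
    norm_num at h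
  · exact sgn_of_eq

theorem sgn_congr {G : Type*} [Group G] (s t : G) (h : s = 1 ↔ t = 1) : sgn s = sgn t := by
  by_cases hs : s = 1
  · rw [sgn_of_eq hs, sgn_of_eq (h.mp hs)]
  · rw [sgn_of_ne hs, sgn_of_ne (fun ht => hs (h.mpr ht))]

theorem exists_z {G : Type*} [Group G] (Φ : Subgroup G) (hΦ : Nat.card Φ = 2) :
    ∃ z ∈ Φ, z ≠ 1 ∧ z * z = 1 ∧ ∀ w ∈ Φ, w = 1 ∨ w = z := by
  obtain ⟨y, hy1, hy2⟩ := (Nat.card_eq_two_iff' (1 : Φ)).mp hΦ
  have hall : ∀ w ∈ Φ, w = 1 ∨ w = (y : G) := by
    intro w hw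
    by_cases h : w = 1
    · exact Or.inl h
    · right
      have := hy2 ⟨w, hw⟩ (fun h' => h (congrArg Subtype.val h'))
      exact congrArg Subtype.val this
  have hy1' : (y : G) ≠ 1 := fun h => hy1 (Subtype.ext h)
  refine ⟨y, y.2, hy1', ?_, hall⟩
  rcases hall _ (Φ.mul_mem y.2 y.2) with h | h
  · exact h
  · exfalso
    apply hy1'
    calc (y : G) = ((y : G) * y) * (y : G)⁻¹ := by group
      _ = 1 := by rw [h]; group

theorem sgn_mul {G : Type*} [Group G] (Φ : Subgroup G) (hΦ : Nat.card Φ = 2) (s t : G)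
    (hs : s ∈ Φ) (ht : t ∈ Φ) : sgn (s * t) = sgn s * sgn t := by
  obtain ⟨z, hz, hz1, hzz, hall⟩ := exists_z Φ hΦ
  rcases hall s hs with rfl | rfl <;> rcases hall t ht with rfl | rfl
  · rw [one_mul, sgn_one, one_mul]
  · rw [one_mul, sgn_one, one_mul]
  · rw [mul_one, sgn_one, mul_one]
  · rw [hzz, sgn_one, sgn_sq]

section main

variable {G : Type*} [Group G] [Finite G]

/-- the square sign -/
noncomputable def eps (x : G) : ℤ := sgn (x ^ 2)

/-- the commutation sign -/
noncomputable def chi (x w : G) : ℤ := sgn (x * w * x⁻¹ * w⁻¹)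

theorem chi_eq_one_iff (x w : G) : chi x w = 1 ↔ x * w = w * x := by
  unfold chi
  rw [sgn_eq_one_iff]
  constructor
  · intro h1
    calc x * w = (x * w * x⁻¹ * w⁻¹) * (w * x) := by group
      _ = w * x := by rw [h1, one_mul]
  · intro h
    rw [h]; group

theorem K1 (hG : IsPGroup 2 G) (hΦ : Nat.card (frattini G) = 2) (x w : G) :
    eps x * eps (x⁻¹ * w) = eps w * chi x w := by
  haveI : Fact (Nat.Prime 2) := ⟨Nat.prime_two⟩
  have hc : frattini G ≤ Subgroup.center G := normal_card_prime_le_center hG _ hΦ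
  have hx2 : x ^ 2 ∈ frattini G := pow_mem_frattini hG x
  have hw2 : w ^ 2 ∈ frattini G := pow_mem_frattini hG w
  have hcm : w * x⁻¹ * w⁻¹ * x⁻¹⁻¹ ∈ frattini G := comm_mem_frattini hG w x⁻¹
  have hcm' : x * w * x⁻¹ * w⁻¹ ∈ frattini G := comm_mem_frattini hG x w
  have hxi2 : (x ^ 2)⁻¹ ∈ frattini G := Subgroup.inv_mem _ hx2
  have hcent : ∀ g : G, g * (w * x⁻¹ * w⁻¹ * x⁻¹⁻¹) = (w * x⁻¹ * w⁻¹ * x⁻¹⁻¹) * g := by
    intro g
    have := Subgroup.mem_center_iff.mp (hc hcm) g
    exact this
  have e1 : (x⁻¹ * w) ^ 2 = (w * x⁻¹ * w⁻¹ * x⁻¹⁻¹) * ((x ^ 2)⁻¹ * w ^ 2) := by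
    calc (x⁻¹ * w) ^ 2 = x⁻¹ * (w * x⁻¹ * w⁻¹ * x⁻¹⁻¹) * (x⁻¹ * w ^ 2) := by
          rw [pow_two, pow_two]; group
      _ = (w * x⁻¹ * w⁻¹ * x⁻¹⁻¹) * x⁻¹ * (x⁻¹ * w ^ 2) := by rw [hcent x⁻¹]
      _ = _ := by rw [pow_two, pow_two]; group
  have e2 : sgn ((x ^ 2)⁻¹) = sgn (x ^ 2) := sgn_congr _ _ inv_eq_one
  have e3 : sgn (w * x⁻¹ * w⁻¹ * x⁻¹⁻¹) = sgn (x * w * x⁻¹ * w⁻¹) := by
    apply sgn_congr
    · have a := chi_eq_one_iff w x⁻¹
      have b := chi_eq_one_iff x w
      unfold chi at a b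
      rw [sgn_eq_one_iff] at a b
      rw [a, b]
      constructor
      · intro h
        calc x * w = x * (w * x⁻¹) * x := by group
          _ = x * (x⁻¹ * w) * x := by rw [h]
          _ = w * x := by group
      · intro h
        calc w * x⁻¹ = x⁻¹ * (x * w) * x⁻¹ := by group
          _ = x⁻¹ * (w * x) * x⁻¹ := by rw [h]
          _ = x⁻¹ * w := by group
  unfold eps chi
  rw [e1, sgn_mul _ hΦ _ _ hcm (Subgroup.mul_mem _ hxi2 hw2), sgn_mul _ hΦ _ _ hxi2 hw2, e2, e3]
  have := sgn_sq (x ^ 2)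
  linear_combination (sgn (x * w * x⁻¹ * w⁻¹) * sgn (w ^ 2)) * this

theorem chi_mul (hG : IsPGroup 2 G) (hΦ : Nat.card (frattini G) = 2) (g x w : G) :
    chi (g * x) w = chi g w * chi x w := by
  haveI : Fact (Nat.Prime 2) := ⟨Nat.prime_two⟩
  have hc : frattini G ≤ Subgroup.center G := normal_card_prime_le_center hG _ hΦ
  have h1 : x * w * x⁻¹ * w⁻¹ ∈ frattini G := comm_mem_frattini hG x w
  have h2 : g * w * g⁻¹ * w⁻¹ ∈ frattini G := comm_mem_frattini hG g w
  have hcent : ∀ t : G, t * (x * w * x⁻¹ * w⁻¹) = (x * w * x⁻¹ * w⁻¹) * t :=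
    fun t => Subgroup.mem_center_iff.mp (hc h1) t
  have e : g * x * w * (g * x)⁻¹ * w⁻¹ = (g * w * g⁻¹ * w⁻¹) * (x * w * x⁻¹ * w⁻¹) := by
    calc g * x * w * (g * x)⁻¹ * w⁻¹ = g * (x * w * x⁻¹ * w⁻¹) * (w * g⁻¹ * w⁻¹) := by group
      _ = (x * w * x⁻¹ * w⁻¹) * g * (w * g⁻¹ * w⁻¹) := by rw [hcent g]
      _ = (x * w * x⁻¹ * w⁻¹) * (g * w * g⁻¹ * w⁻¹) := by group
      _ = _ := by rw [← hcent]
  unfold chi
  rw [e, sgn_mul _ hΦ _ _ h2 h1]

theorem eps_mul_central (hG : IsPGroup 2 G) (hΦ : Nat.card (frattini G) = 2) (w0 w : G)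
    (hw0 : w0 ∈ Subgroup.center G) : eps (w0 * w) = eps w0 * eps w := by
  haveI : Fact (Nat.Prime 2) := ⟨Nat.prime_two⟩
  have hcomm : Commute w0 w := (Subgroup.mem_center_iff.mp hw0 w).symm
  unfold eps
  rw [hcomm.mul_pow, sgn_mul _ hΦ _ _ (pow_mem_frattini hG w0) (pow_mem_frattini hG w)]

theorem sq_pow_two (S : ℤ) (k : ℕ) (h : S * S = 2 ^ k) :
    ∃ m : ℕ, k = 2 * m ∧ (S = 2 ^ m ∨ S = -2 ^ m) := by
  have h1 : S.natAbs * S.natAbs = 2 ^ k := by
    have := congrArg Int.natAbs h
    rw [Int.natAbs_mul, Int.natAbs_pow] at this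
    simpa using this
  have hd : S.natAbs ∣ 2 ^ k := ⟨_, h1.symm⟩
  obtain ⟨m, -, hm⟩ := (Nat.dvd_prime_pow Nat.prime_two).mp hd
  rw [hm, ← pow_add] at h1
  have hk : m + m = k := Nat.pow_right_injective (le_refl 2) h1
  refine ⟨m, by omega, ?_⟩
  rcases Int.natAbs_eq S with h2 | h2
  · left; rw [h2, hm]; push_cast; rfl
  · right; rw [h2, hm]; push_cast; rfl

theorem frattini_eq_bot_of_sq (h : ∀ x : G, x ^ 2 = 1) (z : G) (hz : z ∈ frattini G) : z = 1 := by
  classical
  by_contra hz1
  have hcomm : ∀ x y : G, x * y = y * x := by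
    intro x y
    have h1 := h (x * y)
    have hx := h x
    have hy := h y
    rw [pow_two] at h1 hx hy
    calc x * y = x * (x * y * (x * y)) * y := by rw [h1, mul_one]
      _ = (x * x) * (y * x) * (y * y) := by group
      _ = y * x := by rw [hx, hy, one_mul, mul_one]
  obtain ⟨K, -, hK⟩ := Finite.exists_le_maximal (p := fun K : Subgroup G => z ∉ K) (a := ⊥)
    (by simpa using hz1)
  have hKz : z ∉ K := hK.1
  have hsup : K ⊔ Subgroup.zpowers z = ⊤ := by
    by_contra hne
    obtain ⟨y, hy⟩ : ∃ y : G, y ∉ K ⊔ Subgroup.zpowers z := by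
      by_contra hcon
      exact hne (eq_top_iff.mpr fun x _ => by_contra fun hx => hcon ⟨x, hx⟩)
    have hyK : y ∉ K := fun hyK => hy (le_sup_left (a := K) hyK)
    let L : Subgroup G :=
      { carrier := {g | g ∈ K ∨ y * g ∈ K}
        one_mem' := Or.inl K.one_mem
        mul_mem' := by
          rintro a b (ha | ha) (hb | hb)
          · exact Or.inl (K.mul_mem ha hb)
          · right
            have : y * (a * b) = a * (y * b) := by rw [← mul_assoc, hcomm y a, mul_assoc]
            rw [this]; exact K.mul_mem ha hb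
          · right
            rw [← mul_assoc]; exact K.mul_mem ha hb
          · left
            have : a * b = (y * a) * (y * b) := by
              have hy2 := h y
              rw [pow_two] at hy2
              calc a * b = (y * y) * (a * b) := by rw [hy2, one_mul]
                _ = y * (y * a) * b := by group
                _ = y * (a * y) * b := by rw [hcomm y a]
                _ = (y * a) * (y * b) := by group
            rw [this]; exact K.mul_mem ha hb
        inv_mem' := by
          intro a ha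
          have : a⁻¹ = a := by
            have ha2 := h a
            rw [pow_two] at ha2
            exact inv_eq_of_mul_eq_one_left ha2
          show a⁻¹ ∈ K ∨ y * a⁻¹ ∈ K
          rw [this]; exact ha }
    have hKL : K ≤ L := fun g hg => Or.inl hg
    have hyL : y ∈ L := by
      right
      have hy2 := h y
      rw [pow_two] at hy2
      rw [hy2]; exact K.one_mem
    have hzL : z ∈ L := by
      by_contra hzL
      exact hyK (hK.2 hzL hKL hyL)
    rcases hzL with hzK | hyz
    · exact hKz hzK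
    · apply hy
      have : y = (y * z) * z := by
        have hz2 := h z
        rw [pow_two] at hz2
        rw [mul_assoc, hz2, mul_one]
      rw [this]
      exact Subgroup.mul_mem _ (le_sup_left (a := K) hyz)
        (le_sup_right (b := Subgroup.zpowers z) (Subgroup.mem_zpowers z))
  have hle : Subgroup.zpowers z ≤ frattini G := by
    rw [Subgroup.zpowers_le]; exact hz
  have : K ⊔ frattini G = ⊤ := by
    rw [eq_top_iff, ← hsup]
    exact sup_le_sup_left hle K
  have hKtop := frattini_nongenerating this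
  rw [hKtop] at hKz
  exact hKz trivial

end main

section sums

variable {G : Type*} [Group G] [Fintype G]

theorem sum_chi (hG : IsPGroup 2 G) (hΦ : Nat.card (frattini G) = 2) (w : G) [Decidable (w ∈ Subgroup.center G)] :
    ∑ x : G, chi x w = if w ∈ Subgroup.center G then (Fintype.card G : ℤ) else 0 := by
  classical
  split_ifs with hw
  · have : ∀ x, chi x w = 1 := fun x =>
      (chi_eq_one_iff x w).mpr (Subgroup.mem_center_iff.mp hw x)
    simp [this]
  · have : ∃ g : G, g * w ≠ w * g := by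
      by_contra hcon
      exact hw (Subgroup.mem_center_iff.mpr fun g => by_contra fun hg => hcon ⟨g, hg⟩)
    obtain ⟨g, hg⟩ := this
    have hgm : chi g w = -1 := by
      unfold chi
      apply sgn_of_ne
      intro h
      exact hg ((chi_eq_one_iff g w).mp (by unfold chi; rw [sgn_of_eq h]))
    have h1 : ∑ x, chi x w = ∑ x, chi (g * x) w :=
      (Equiv.sum_comp (Equiv.mulLeft g) (fun x => chi x w)).symm
    simp_rw [chi_mul hG hΦ, hgm] at h1
    rw [← Finset.mul_sum] at h1
    linarith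

theorem S_sq (hG : IsPGroup 2 G) (hΦ : Nat.card (frattini G) = 2) [DecidablePred (· ∈ Subgroup.center G)] :
    (∑ x : G, eps x) * (∑ x : G, eps x) =
      (Fintype.card G : ℤ) * ∑ w : G, (if w ∈ Subgroup.center G then eps w else 0) := by
  classical
  calc (∑ x : G, eps x) * (∑ y : G, eps y) = ∑ x : G, ∑ y : G, eps x * eps y := by
        rw [Finset.sum_mul_sum]
    _ = ∑ x : G, ∑ w : G, eps x * eps (x⁻¹ * w) := by
        refine Finset.sum_congr rfl fun x _ => ?_
        exact (Equiv.sum_comp (Equiv.mulLeft x⁻¹) (fun y => eps x * eps y)).symm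
    _ = ∑ x : G, ∑ w : G, eps w * chi x w := by simp_rw [K1 hG hΦ]
    _ = ∑ w : G, ∑ x : G, eps w * chi x w := Finset.sum_comm
    _ = ∑ w : G, eps w * ∑ x : G, chi x w := by simp_rw [Finset.mul_sum]
    _ = ∑ w : G, eps w * (if w ∈ Subgroup.center G then (Fintype.card G : ℤ) else 0) := by
        simp_rw [sum_chi hG hΦ]
    _ = _ := by
        rw [Finset.mul_sum]
        refine Finset.sum_congr rfl fun w _ => ?_
        split_ifs <;> ring

theorem T_val (hG : IsPGroup 2 G) (hΦ : Nat.card (frattini G) = 2) [DecidablePred (· ∈ Subgroup.center G)] :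
    (∑ w : G, (if w ∈ Subgroup.center G then eps w else 0) = 0) ∨
    ((∀ w ∈ Subgroup.center G, w ^ 2 = 1) ∧
      ∑ w : G, (if w ∈ Subgroup.center G then eps w else 0) = (Nat.card (Subgroup.center G) : ℤ)) := by
  classical
  by_cases h : ∀ w ∈ Subgroup.center G, w ^ 2 = 1
  · right
    refine ⟨h, ?_⟩
    have : ∀ w : G, (if w ∈ Subgroup.center G then eps w else 0) =
        (if w ∈ Subgroup.center G then (1 : ℤ) else 0) := by
      intro w
      split_ifs with hw
      · unfold eps; exact sgn_of_eq (h w hw)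
      · rfl
    simp_rw [this]
    rw [Finset.sum_boole, Nat.card_eq_fintype_card, Fintype.card_subtype]
  · left
    obtain ⟨w0, hw0, hw0sq⟩ : ∃ w0 ∈ Subgroup.center G, w0 ^ 2 ≠ 1 := by
      by_contra hcon
      exact h fun w hw => by_contra fun hne => hcon ⟨w, hw, hne⟩
    have he : eps w0 = -1 := by unfold eps; exact sgn_of_ne hw0sq
    have h1 : ∑ w : G, (if w ∈ Subgroup.center G then eps w else 0) =
        ∑ w : G, (if w0 * w ∈ Subgroup.center G then eps (w0 * w) else 0) :=
      (Equiv.sum_comp (Equiv.mulLeft w0) (fun w => if w ∈ Subgroup.center G then eps w else 0)).symm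
    have h2 : ∀ w : G, (if w0 * w ∈ Subgroup.center G then eps (w0 * w) else 0) =
        -(if w ∈ Subgroup.center G then eps w else 0) := by
      intro w
      rw [eps_mul_central hG hΦ w0 w hw0, he]
      by_cases hw : w ∈ Subgroup.center G
      · rw [if_pos hw, if_pos ((Subgroup.mul_mem_cancel_left _ hw0).mpr hw)]; ring
      · rw [if_neg hw, if_neg (fun hc => hw ((Subgroup.mul_mem_cancel_left _ hw0).mp hc))]; ring
    simp_rw [h2] at h1
    rw [Finset.sum_neg_distrib] at h1
    linarith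

theorem S_eq [DecidableEq G] : (∑ x : G, eps x) =
    2 * ((Finset.univ.filter (fun x : G => x ^ 2 = 1)).card : ℤ) - (Fintype.card G : ℤ) := by
  have : ∀ x : G, eps x = 2 * (if x ^ 2 = 1 then (1 : ℤ) else 0) - 1 := by
    intro x
    unfold eps
    split_ifs with h
    · rw [sgn_of_eq h]; norm_num
    · rw [sgn_of_ne h]; norm_num
  simp_rw [this]
  rw [Finset.sum_sub_distrib, ← Finset.mul_sum, Finset.sum_boole]
  simp

end sums

theorem result {G : Type*} [Group G] [Finite G] (hG : IsPGroup 2 G) (hΦ : Nat.card (frattini G) = 2) (d : ℕ) (hd : (frattini G).index = 2 ^ d) : (Nat.card {x : G // x ^ 2 = 1} = 2 ^ d ∨ ∃ r : ℕ, 1 ≤ r ∧ 2 * r ≤ d ∧ (Nat.card {x : G // x ^ 2 = 1} = 2 ^ d + 2 ^ (d - r) ∨ Nat.card {x : G // x ^ 2 = 1} + 2 ^ (d - r) = 2 ^ d)) ∧ (∀ r : ℕ, d = 2 * r → (Nat.card {x : G // x ^ 2 = 1} = 2 ^ d + 2 ^ r ∨ Nat.card {x : G // x ^ 2 = 1} + 2 ^ r = 2 ^ d) → Cfsg.IsExtraspecial 2 G) := by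
  classical
  haveI : Fact (Nat.Prime 2) := ⟨Nat.prime_two⟩
  haveI : Fintype G := Fintype.ofFinite G
  have hcardG : Nat.card G = 2 ^ (d + 1) := by
    rw [← Subgroup.card_mul_index (frattini G), hΦ, hd, pow_succ]; ring
  have hcardG' : (Fintype.card G : ℤ) = 2 ^ (d + 1) := by
    rw [← Nat.card_eq_fintype_card, hcardG]; push_cast; rfl
  set j := Nat.card {x : G // x ^ 2 = 1} with hj
  have hjc : j = (Finset.univ.filter (fun x : G => x ^ 2 = 1)).card := by
    rw [hj, Nat.card_eq_fintype_card, Fintype.card_subtype]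
  have hS := S_eq (G := G)
  rw [← hjc, hcardG'] at hS
  have hSS := S_sq hG hΦ
  rw [hS, hcardG'] at hSS
  obtain ⟨c, hc⟩ := IsPGroup.iff_card.mp (hG.to_subgroup (Subgroup.center G))
  have hΦc : frattini G ≤ Subgroup.center G := normal_card_prime_le_center hG _ hΦ
  have hc1 : 1 ≤ c := by
    have h1 := Subgroup.card_le_of_le hΦc
    rw [hΦ, hc] at h1
    by_contra h0
    have h2 : c = 0 := by omega
    rw [h2] at h1
    norm_num at h1
  have hcd : c ≤ d + 1 := by
    have h1 : Nat.card (Subgroup.center G) ∣ Nat.card G := Subgroup.card_subgroup_dvd_card _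
    rw [hc, hcardG] at h1
    exact (Nat.pow_dvd_pow_iff_le_right (le_refl 2)).mp h1
  have key : (2 * (j : ℤ) - 2 ^ (d + 1) = 0) ∨ ((∀ w ∈ Subgroup.center G, w ^ 2 = 1) ∧
      (2 * (j : ℤ) - 2 ^ (d + 1)) * (2 * (j : ℤ) - 2 ^ (d + 1)) = 2 ^ (d + 1 + c)) := by
    rcases T_val hG hΦ with hT | ⟨hall, hT⟩
    · left
      rw [hT, mul_zero] at hSS
      exact mul_self_eq_zero.mp hSS
    · right
      refine ⟨hall, ?_⟩
      rw [hSS, hT, hc]
      push_cast
      rw [← pow_add]
  constructor
  · rcases key with h0 | ⟨hall, hsq⟩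
    · left
      have h1 : (j : ℤ) = 2 ^ d := by rw [pow_succ] at h0; linarith
      exact_mod_cast h1
    · right
      obtain ⟨m, hm, hS'⟩ := sq_pow_two _ _ hsq
      have hcne : c ≠ d + 1 := by
        intro hceq
        have htop : Subgroup.center G = ⊤ :=
          Subgroup.eq_top_of_card_eq _ (by rw [hc, hceq, hcardG])
        have hall' : ∀ x : G, x ^ 2 = 1 := fun x => hall x (by rw [htop]; trivial)
        obtain ⟨z, hz, hz1, -, -⟩ := exists_z _ hΦ
        exact hz1 (frattini_eq_bot_of_sq hall' z hz)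
      have hm1 : m ≤ d := by omega
      have hm0 : 1 ≤ m := by omega
      refine ⟨d + 1 - m, by omega, by omega, ?_⟩
      have e : d - (d + 1 - m) = m - 1 := by omega
      rw [e]
      obtain ⟨m', rfl⟩ : ∃ m', m = m' + 1 := ⟨m - 1, by omega⟩
      simp only [Nat.add_sub_cancel]
      rcases hS' with h1 | h1
      · left
        have h2 : (j : ℤ) = 2 ^ d + 2 ^ m' := by rw [pow_succ, pow_succ] at h1; linarith
        exact_mod_cast h2
      · right
        have h2 : (j : ℤ) + 2 ^ m' = 2 ^ d := by rw [pow_succ, pow_succ] at h1; linarith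
        exact_mod_cast h2
  · intro r hdr hjr
    have hSval : (2 * (j : ℤ) - 2 ^ (d + 1)) * (2 * (j : ℤ) - 2 ^ (d + 1)) = 2 ^ (d + 2) := by
      have e1 : (2 : ℤ) ^ (d + 2) = 2 ^ (r + 1) * 2 ^ (r + 1) := by
        rw [← pow_add, hdr]; congr 1; ring
      rw [e1]
      rcases hjr with h1 | h1
      · have h2 : (j : ℤ) = 2 ^ d + 2 ^ r := by exact_mod_cast h1
        have h3 : 2 * (j : ℤ) - 2 ^ (d + 1) = 2 ^ (r + 1) := by
          rw [h2, pow_succ, pow_succ]; ring
        rw [h3]
      · have h2 : (j : ℤ) + 2 ^ r = 2 ^ d := by exact_mod_cast h1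
        have h3 : 2 * (j : ℤ) - 2 ^ (d + 1) = -2 ^ (r + 1) := by
          rw [pow_succ, pow_succ, ← h2]; ring
        rw [h3]; ring
    have hS0 : 2 * (j : ℤ) - 2 ^ (d + 1) ≠ 0 := by
      intro h0
      rw [h0, mul_zero] at hSval
      exact (pow_ne_zero _ (by norm_num : (2 : ℤ) ≠ 0)) hSval.symm
    rcases key with h0 | ⟨hall, hsq⟩
    · exact absurd h0 hS0
    · have hc1' : c = 1 := by
        rw [hSval] at hsq
        have := Int.pow_right_injective (by norm_num : 1 < (2 : ℤ).natAbs) hsq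
        omega
      rw [hc1', pow_one] at hc
      have hfc : frattini G = Subgroup.center G :=
        Subgroup.eq_of_le_of_card_ge hΦc (by rw [hc, hΦ])
      have hcomle : commutator G ≤ Subgroup.center G := by
        rw [← hfc]; exact commutator_le_frattini hG
      have hcomne : commutator G ≠ ⊥ := by
        intro hbot
        have hcomm : ∀ x y : G, x * y = y * x := by
          intro x y
          have h1 : ⁅x, y⁆ ∈ commutator G := by
            rw [commutator_def]
            exact Subgroup.commutator_mem_commutator (Subgroup.mem_top x) (Subgroup.mem_top y)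
          rw [hbot, Subgroup.mem_bot] at h1
          exact (commutatorElement_eq_one_iff_commute.mp h1).eq
        have htop : Subgroup.center G = ⊤ := by
          rw [eq_top_iff]
          intro x _
          rw [Subgroup.mem_center_iff]
          intro g
          exact hcomm g x
        have h2 : Nat.card G = 2 := by
          rw [← hc, htop, Subgroup.card_top]
        have hd0 : d = 0 := by
          rw [hcardG] at h2
          have : (2 : ℕ) ^ (d + 1) = 2 ^ 1 := by rw [pow_one]; exact h2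
          have := Nat.pow_right_injective (le_refl 2) this
          omega
        rw [hd0, pow_zero, Subgroup.index_eq_one] at hd
        haveI : Nontrivial G := Finite.one_lt_card_iff_nontrivial.mp (by rw [h2]; norm_num)
        rcases eq_top_or_exists_le_coatom (⊥ : Subgroup G) with h3 | ⟨M, hM, -⟩
        · exact bot_ne_top h3
        · have := frattini_le_coatom hM
          rw [hd] at this
          exact hM.1 (eq_top_iff.mpr this)
      have hcomcard : Nat.card (commutator G) = 2 := by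
        have h1 : Nat.card (commutator G) ∣ 2 := by
          rw [← hc]; exact Subgroup.card_dvd_of_le hcomle
        rcases (Nat.dvd_prime Nat.prime_two).mp h1 with h2 | h2
        · exact absurd (Subgroup.card_eq_one.mp h2) hcomne
        · exact h2
      have hcc : commutator G = Subgroup.center G :=
        Subgroup.eq_of_le_of_card_ge hcomle (by rw [hc, hcomcard])
      exact ⟨⟨hG, hfc, hcc⟩, hc⟩

end Cfsg.Agent.S3772
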