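import Cfsg.Statements.S3773
import Cfsg.Agent.Lib.Helper63.CW2
import Cfsg.Agent.Lib.Helper63.PFrattini
import Cfsg.Agent.Lib.Helper90.Frattini2

set_option autoImplicit false
open Cfsg

namespace Cfsg.Agent.S3773

open Cfsg.Agent.Lib.Helper63
open scoped commutatorElement

/-- Squares are central when the commutator `c` of `x` and `y` is a central involution. -/
theorem sq_comm_aux {G : Type*} [Group G] (x y c : G) (e1 : x * y = c * (y * x))
    (h1 : x * c = c * x) (hcc : c * c = 1) : x * x * y = y * (x * x) := by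
  calc x * x * y = x * (x * y) := mul_assoc _ _ _
    _ = x * (c * (y * x)) := by rw [e1]
    _ = (x * c) * (y * x) := (mul_assoc _ _ _).symm
    _ = c * x * (y * x) := by rw [h1]
    _ = c * ((x * y) * x) := by simp only [mul_assoc]
    _ = c * ((c * (y * x)) * x) := by rw [e1]
    _ = (c * c) * (y * (x * x)) := by simp only [mul_assoc]
    _ = y * (x * x) := by rw [hcc, one_mul]

/-- The squaring map is quadratic when commutators are central. -/
theorem quad_aux {G : Type*} [Group G] (x y c : G) (e1 : y * x = c * (x * y))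
    (hc : ∀ z, c * z = z * c) : (x * y) * (x * y) = (x * x) * (y * y) * c := by
  calc (x * y) * (x * y) = x * (y * x) * y := by simp only [mul_assoc]
    _ = x * (c * (x * y)) * y := by rw [e1]
    _ = (x * c) * (x * y) * y := by simp only [mul_assoc]
    _ = (c * x) * (x * y) * y := by rw [← hc x]
    _ = c * ((x * x) * (y * y)) := by simp only [mul_assoc]
    _ = (x * x) * (y * y) * c := hc _

/-- Let G be a finite 2-group of nilpotency class at most 2 and exponent dividing 4 in which the elements x with x² = 1 form a subgroup N. Then |G| ≤ |N|³, and |G| < |N|³ unless G is special. -/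
theorem result {G : Type*} [Group G] [Finite G] (hG : IsPGroup 2 G) (hcl : (⊤ : Subgroup G).lowerCentralSeries 2 = ⊥) (hexp : ∀ x : G, x ^ 4 = 1) (hN : ∀ x y : G, x ^ 2 = 1 → y ^ 2 = 1 → (x * y) ^ 2 = 1) : Nat.card G ≤ Nat.card {x : G // x ^ 2 = 1} ^ 3 ∧ (¬ Cfsg.IsSpecial 2 G → Nat.card G < Nat.card {x : G // x ^ 2 = 1} ^ 3) := by
  classical
  -- commutators are central
  have hcen : ∀ x y z : G, (x * y * x⁻¹ * y⁻¹) * z = z * (x * y * x⁻¹ * y⁻¹) := by
    intro x y z
    have h1 : ⁅⁅x, y⁆, z⁆ ∈ (⊤ : Subgroup G).lowerCentralSeries 2 := by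
      rw [Subgroup.lowerCentralSeries_succ, Subgroup.lowerCentralSeries_succ,
        Subgroup.lowerCentralSeries_zero]
      exact Subgroup.commutator_mem_commutator
        (Subgroup.commutator_mem_commutator (Subgroup.mem_top x) (Subgroup.mem_top y))
        (Subgroup.mem_top z)
    rw [hcl, Subgroup.mem_bot] at h1
    have h2 := commutatorElement_eq_one_iff_mul_comm.1 h1
    rw [commutatorElement_def] at h2
    exact h2
  have hsq2 : ∀ x : G, x * x * (x * x) = 1 := by
    intro x
    have h := hexp x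
    rw [show (4 : ℕ) = 2 + 2 from rfl, pow_add, pow_two] at h
    exact h
  have hinv : ∀ x y : G, x * x = 1 → y * y = 1 → (x * y) * (x * y) = 1 := by
    intro x y hx hy
    have h := hN x y (by rw [pow_two]; exact hx) (by rw [pow_two]; exact hy)
    rwa [pow_two] at h
  -- commutators are involutions
  have hcsq : ∀ x y : G, (x * y * x⁻¹ * y⁻¹) * (x * y * x⁻¹ * y⁻¹) = 1 := by
    intro x y
    have e : x * y * x⁻¹ * y⁻¹ = (x * x) * ((x⁻¹ * y) * (x⁻¹ * y)) * (y⁻¹ * y⁻¹) := by group
    rw [e]
    exact hinv _ _ (hinv _ _ (hsq2 x) (hsq2 _)) (hsq2 _)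
  -- squares are central
  have hsqc : ∀ x y : G, x * x * y = y * (x * x) := by
    intro x y
    exact sq_comm_aux x y (x * y * x⁻¹ * y⁻¹) (by group) (hcen x y x).symm (hcsq x y)
  -- the group of central involutions
  let N₀ : Subgroup G :=
    { carrier := {g | (∀ z : G, g * z = z * g) ∧ g * g = 1}
      one_mem' := ⟨fun z => by rw [one_mul, mul_one], one_mul 1⟩
      mul_mem' := by
        rintro a b ⟨ha, ha2⟩ ⟨hb, hb2⟩
        refine ⟨fun z => ?_, ?_⟩
        · rw [mul_assoc, hb z, ← mul_assoc, ha z, mul_assoc]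
        · calc a * b * (a * b) = a * (b * a) * b := by simp only [mul_assoc]
            _ = a * (a * b) * b := by rw [hb a]
            _ = (a * a) * (b * b) := by simp only [mul_assoc]
            _ = 1 := by rw [ha2, hb2, one_mul]
      inv_mem' := by
        rintro a ⟨ha, ha2⟩
        have e : a⁻¹ = a := inv_eq_of_mul_eq_one_left ha2
        rw [e]
        exact ⟨ha, ha2⟩ }
  have hN₀ : ∀ g, g ∈ N₀ ↔ ((∀ z : G, g * z = z * g) ∧ g * g = 1) := fun g => Iff.rfl
  have hqmem : ∀ x : G, x * x ∈ N₀ := fun x => (hN₀ _).2 ⟨fun z => hsqc x z, hsq2 x⟩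
  have hβmem : ∀ x y : G, y * x * y⁻¹ * x⁻¹ ∈ N₀ :=
    fun x y => (hN₀ _).2 ⟨fun z => hcen y x z, hcsq y x⟩
  have hW : ∀ w : N₀, w * w = 1 := fun w => Subtype.ext ((hN₀ _).1 w.2).2
  let q : G → N₀ := fun x => ⟨x * x, hqmem x⟩
  let β : G → G → N₀ := fun x y => ⟨y * x * y⁻¹ * x⁻¹, hβmem x y⟩
  have hq : ∀ x y, q (x * y) = q x * q y * β x y := by
    intro x y
    apply Subtype.ext
    show (x * y) * (x * y) = (x * x) * (y * y) * (y * x * y⁻¹ * x⁻¹)
    exact quad_aux x y (y * x * y⁻¹ * x⁻¹) (by group) (fun z => hcen y x z)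
  have hβ : ∀ x y z, β (x * y) z = β x z * β y z := by
    intro x y z
    apply Subtype.ext
    show z * (x * y) * z⁻¹ * (x * y)⁻¹ = (z * x * z⁻¹ * x⁻¹) * (z * y * z⁻¹ * y⁻¹)
    have e : z * (x * y) * z⁻¹ * (x * y)⁻¹ = z * x * z⁻¹ * ((z * y * z⁻¹ * y⁻¹) * x⁻¹) := by
      group
    rw [e, hcen z y x⁻¹]
    simp only [mul_assoc]
  have hq1 : q 1 = 1 := by
    apply Subtype.ext
    show (1 : G) * 1 = 1
    rw [one_mul]
  obtain ⟨n, hn⟩ : ∃ n, n = Nat.card {x : G // x ^ 2 = 1} := ⟨_, rfl⟩
  obtain ⟨m, hm⟩ : ∃ m, m = Nat.card N₀ := ⟨_, rfl⟩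
  rw [← hn]
  -- the main bound
  have h1 := CW2.cw2 hW q β hq hβ ⊥ 1 (by rw [Subgroup.mem_bot]; exact hq1)
  rw [Subgroup.card_bot, one_pow, mul_one, ← hm] at h1
  have hZ : Nat.card {x : G // q x ∈ (⊥ : Subgroup N₀)} = n := by
    rw [hn]
    apply Nat.card_congr
    apply Equiv.subtypeEquivRight
    intro x
    rw [Subgroup.mem_bot, pow_two]
    constructor
    · intro h
      exact congrArg Subtype.val h
    · intro h
      exact Subtype.ext h
  rw [hZ] at h1
  have hmn : m ≤ n := by
    rw [hm, hn]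
    apply Nat.card_le_card_of_injective (fun w : N₀ =>
      (⟨w.1, by rw [pow_two]; exact ((hN₀ _).1 w.2).2⟩ : {x : G // x ^ 2 = 1}))
    intro a b hab
    exact Subtype.ext (congrArg (fun u : {x : G // x ^ 2 = 1} => (u : G)) hab)
  have hmain : Nat.card G ≤ n ^ 3 := by
    calc Nat.card G ≤ n * m ^ 2 := h1
      _ ≤ n * n ^ 2 := Nat.mul_le_mul_left _ (Nat.pow_le_pow_left hmn 2)
      _ = n ^ 3 := by ring
  refine ⟨hmain, ?_⟩
  intro hns
  by_contra hlt
  push Not at hlt
  apply hns
  have hposG : 0 < Nat.card G := Nat.card_pos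
  -- (a) central elements are involutions
  have ha : ∀ z : G, (∀ g : G, z * g = g * z) → z * z = 1 := by
    intro z hz
    by_contra hzz
    let w : N₀ := q z
    have hw1 : w ≠ 1 := fun h => hzz (congrArg Subtype.val h)
    let T : Subgroup N₀ :=
      { carrier := {y | y = 1 ∨ y = w}
        one_mem' := Or.inl rfl
        mul_mem' := by
          intro a b ha hb
          rcases ha with ha | ha <;> rcases hb with hb | hb
          · left; rw [ha, hb, one_mul]
          · right; rw [ha, hb, one_mul]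
          · right; rw [ha, hb, mul_one]
          · left; rw [ha, hb, hW]
        inv_mem' := by
          intro a ha
          rcases ha with ha | ha
          · left; rw [ha, inv_one]
          · right; rw [ha]; exact inv_eq_of_mul_eq_one_left (hW w) }
    have hT : ∀ y, y ∈ T ↔ (y = 1 ∨ y = w) := fun y => Iff.rfl
    have hTcard : 2 ≤ Nat.card T := by
      have hne : T ≠ ⊥ := by
        intro h
        have hwT : w ∈ T := (hT w).2 (Or.inr rfl)
        rw [h, Subgroup.mem_bot] at hwT
        exact hw1 hwT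
      exact (Subgroup.one_lt_card_iff_ne_bot T).2 hne
    have h2 := CW2.cw2 hW q β hq hβ T 1 ((hT _).2 (Or.inl hq1))
    rw [← hm] at h2
    have hkey : ∀ x : G, x * x = z * z → (z⁻¹ * x) ^ 2 = 1 := by
      intro x hx
      rw [pow_two]
      have hz' : x * z⁻¹ = z⁻¹ * x := by
        calc x * z⁻¹ = z⁻¹ * (z * x) * z⁻¹ := by group
          _ = z⁻¹ * (x * z) * z⁻¹ := by rw [hz x]
          _ = z⁻¹ * x := by group
      calc z⁻¹ * x * (z⁻¹ * x) = z⁻¹ * (x * z⁻¹) * x := by simp only [mul_assoc]
        _ = z⁻¹ * (z⁻¹ * x) * x := by rw [hz']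
        _ = z⁻¹ * z⁻¹ * (x * x) := by simp only [mul_assoc]
        _ = 1 := by rw [hx]; group
    have h3 : Nat.card {x : G // q x ∈ T} ≤ n + n := by
      have e1 : Nat.card {x : G // q x ∈ T} = {x : G | q x ∈ T}.ncard := Nat.card_coe_set_eq _
      have e2 : n = {x : G | x ^ 2 = 1}.ncard := by
        rw [hn]
        exact Nat.card_coe_set_eq _
      rw [e1, e2]
      have hsub : {x : G | q x ∈ T} ⊆
          {x : G | x ^ 2 = 1} ∪ (fun y => z * y) '' {x : G | x ^ 2 = 1} := by
        intro x hx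
        rcases (hT _).1 hx with h' | h'
        · left
          show x ^ 2 = 1
          rw [pow_two]
          exact congrArg Subtype.val h'
        · right
          exact ⟨z⁻¹ * x, hkey x (congrArg Subtype.val h'), mul_inv_cancel_left z x⟩
      calc {x : G | q x ∈ T}.ncard
          ≤ ({x : G | x ^ 2 = 1} ∪ (fun y => z * y) '' {x : G | x ^ 2 = 1}).ncard :=
            Set.ncard_le_ncard hsub (Set.toFinite _)
        _ ≤ {x : G | x ^ 2 = 1}.ncard + ((fun y => z * y) '' {x : G | x ^ 2 = 1}).ncard :=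
            Set.ncard_union_le _ _
        _ ≤ {x : G | x ^ 2 = 1}.ncard + {x : G | x ^ 2 = 1}.ncard :=
            Nat.add_le_add_left (Set.ncard_image_le (Set.toFinite _)) _
    have h4 : Nat.card G * 4 ≤ (n + n) * n ^ 2 := by
      calc Nat.card G * 4 ≤ Nat.card G * Nat.card T ^ 2 :=
            Nat.mul_le_mul_left _ (Nat.pow_le_pow_left hTcard 2)
        _ ≤ Nat.card {x : G // q x ∈ T} * m ^ 2 := h2
        _ ≤ (n + n) * n ^ 2 := Nat.mul_le_mul h3 (Nat.pow_le_pow_left hmn 2)
    have h5 : (n + n) * n ^ 2 = 2 * n ^ 3 := by ring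
    rw [h5] at h4
    omega
  -- (b) involutions are products of commutators
  have hb : ∀ x : G, x * x = 1 → x ∈ commutator G := by
    let T' : Subgroup G := commutator G
    have hT'N₀ : T' ≤ N₀ := by
      show commutator G ≤ N₀
      rw [commutator_eq_closure, Subgroup.closure_le]
      rintro g ⟨a, b, rfl⟩
      rw [commutatorElement_def]
      exact hβmem b a
    have hβT' : ∀ x y : G, y * x * y⁻¹ * x⁻¹ ∈ T' := by
      intro x y
      have h := Subgroup.commutator_mem_commutator (Subgroup.mem_top y) (Subgroup.mem_top x)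
      rw [commutatorElement_def] at h
      exact h
    let T'' : Subgroup N₀ := T'.subgroupOf N₀
    have hT'' : ∀ w : N₀, w ∈ T'' ↔ (w : G) ∈ T' := fun w => Subgroup.mem_subgroupOf
    have hc1 := CW2.cw1 hW q β hq hβ T'' (fun x y => (hT'' _).2 (hβT' x y)) 1
      ((hT'' _).2 (by rw [hq1]; exact T'.one_mem))
    rw [← hm] at hc1
    let Z' : Subgroup G :=
      { carrier := {x | x * x ∈ T'}
        one_mem' := by
          show (1 : G) * 1 ∈ T'
          rw [one_mul]
          exact T'.one_mem
        mul_mem' := by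
          intro a b ha hb
          show (a * b) * (a * b) ∈ T'
          have e' : (a * b) * (a * b) = (a * a) * (b * b) * (b * a * b⁻¹ * a⁻¹) :=
            congrArg Subtype.val (hq a b)
          rw [e']
          exact T'.mul_mem (T'.mul_mem ha hb) (hβT' a b)
        inv_mem' := by
          intro a ha
          show a⁻¹ * a⁻¹ ∈ T'
          have e' : a⁻¹ * a⁻¹ = (a * a)⁻¹ := by group
          rw [e']
          exact T'.inv_mem ha }
    have hW' : ∀ w : T', w * w = 1 := fun w => Subtype.ext ((hN₀ _).1 (hT'N₀ w.2)).2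
    let q' : Z' → T' := fun x => ⟨(x : G) * x, x.2⟩
    let β' : Z' → Z' → T' := fun x y => ⟨(y : G) * x * (y : G)⁻¹ * (x : G)⁻¹, hβT' x y⟩
    have hq' : ∀ x y, q' (x * y) = q' x * q' y * β' x y := by
      intro x y
      apply Subtype.ext
      show ((x : G) * y) * ((x : G) * y)
        = ((x : G) * x) * ((y : G) * y) * ((y : G) * x * (y : G)⁻¹ * (x : G)⁻¹)
      exact congrArg (fun u : N₀ => (u : G)) (hq x y)
    have hβ' : ∀ x y z, β' (x * y) z = β' x z * β' y z := by
      intro x y z
      apply Subtype.ext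
      show (z : G) * ((x : G) * y) * (z : G)⁻¹ * ((x : G) * y)⁻¹
        = ((z : G) * x * (z : G)⁻¹ * (x : G)⁻¹) * ((z : G) * y * (z : G)⁻¹ * (y : G)⁻¹)
      exact congrArg (fun u : N₀ => (u : G)) (hβ x y z)
    have hc2 := CW2.cw2 hW' q' β' hq' hβ' ⊥ 1 (by
      rw [Subgroup.mem_bot]
      apply Subtype.ext
      show (1 : G) * 1 = 1
      rw [one_mul])
    rw [Subgroup.card_bot, one_pow, mul_one] at hc2
    have h5 : Nat.card {x : Z' // q' x ∈ (⊥ : Subgroup T')} ≤ n := by
      rw [hn]
      apply Nat.card_le_card_of_injective (fun x : {x : Z' // q' x ∈ (⊥ : Subgroup T')} =>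
        (⟨((x : Z') : G), by
          have h := x.2
          rw [Subgroup.mem_bot] at h
          rw [pow_two]
          exact congrArg Subtype.val h⟩ : {x : G // x ^ 2 = 1}))
      intro a b hab
      exact Subtype.ext (Subtype.ext (congrArg (fun u : {x : G // x ^ 2 = 1} => (u : G)) hab))
    have h6 : Nat.card {x : G // q x ∈ T''} ≤ Nat.card Z' := by
      apply Nat.card_le_card_of_injective (fun x : {x : G // q x ∈ T''} =>
        (⟨x.1, (hT'' _).1 x.2⟩ : Z'))
      intro a b hab
      exact Subtype.ext (congrArg (fun u : Z' => (u : G)) hab)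
    have h7 : Nat.card T' ≤ Nat.card T'' := by
      apply Nat.card_le_card_of_injective (fun t : T' =>
        (⟨⟨t.1, hT'N₀ t.2⟩, (hT'' _).2 t.2⟩ : T''))
      intro a b hab
      exact Subtype.ext (congrArg (fun u : T'' => ((u : N₀) : G)) hab)
    have hposT : 0 < Nat.card T' := Nat.card_pos
    have hposn : 0 < n := by
      rw [hn]
      have : Nonempty {x : G // x ^ 2 = 1} := ⟨⟨1, one_pow 2⟩⟩
      exact Nat.card_pos
    have h8 : Nat.card G * Nat.card T' ≤ n * Nat.card T' ^ 2 * n := by
      calc Nat.card G * Nat.card T' ≤ Nat.card G * Nat.card T'' := Nat.mul_le_mul_left _ h7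
        _ ≤ Nat.card {x : G // q x ∈ T''} * m := hc1
        _ ≤ Nat.card Z' * m := Nat.mul_le_mul_right _ h6
        _ ≤ (Nat.card {x : Z' // q' x ∈ (⊥ : Subgroup T')} * Nat.card T' ^ 2) * m :=
            Nat.mul_le_mul_right _ hc2
        _ ≤ (n * Nat.card T' ^ 2) * n := Nat.mul_le_mul (Nat.mul_le_mul_right _ h5) hmn
    have h9 : n ≤ Nat.card T' := by
      have hA : n ^ 3 * Nat.card T' ≤ n * Nat.card T' ^ 2 * n :=
        le_trans (Nat.mul_le_mul_right _ hlt) h8
      have hB : n * Nat.card T' ^ 2 * n = (n ^ 2 * Nat.card T') * Nat.card T' := by ring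
      have hC : n ^ 3 * Nat.card T' = (n ^ 2 * Nat.card T') * n := by ring
      rw [hB, hC] at hA
      exact Nat.le_of_mul_le_mul_left hA (by positivity)
    have hinj : Function.Injective (fun t : T' =>
        (⟨t.1, by rw [pow_two]; exact ((hN₀ _).1 (hT'N₀ t.2)).2⟩ : {x : G // x ^ 2 = 1})) := by
      intro a b hab
      exact Subtype.ext (congrArg (fun u : {x : G // x ^ 2 = 1} => (u : G)) hab)
    have hbij := hinj.bijective_of_nat_card_le (by rw [← hn]; exact h9)
    intro x hx
    obtain ⟨t, ht⟩ := hbij.2 ⟨x, by rw [pow_two]; exact hx⟩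
    have hte : (t : G) = x := congrArg Subtype.val ht
    rw [← hte]
    exact t.2
  -- (c) assembling
  have : Fact (Nat.Prime 2) := ⟨Nat.prime_two⟩
  have hcomm_le : commutator G ≤ Subgroup.center G := by
    rw [commutator_eq_closure, Subgroup.closure_le]
    rintro g ⟨a, b, rfl⟩
    rw [SetLike.mem_coe, Subgroup.mem_center_iff]
    intro z
    rw [commutatorElement_def]
    exact (hcen a b z).symm
  have hcen_le : Subgroup.center G ≤ commutator G := by
    intro z hz
    rw [Subgroup.mem_center_iff] at hz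
    exact hb z (ha z (fun g => (hz g).symm))
  have hcomm_eq : commutator G = Subgroup.center G := le_antisymm hcomm_le hcen_le
  refine ⟨hG, ?_, hcomm_eq⟩
  apply le_antisymm
  · apply Cfsg.Agent.Lib.Helper90.Frattini2.frattini_le_of_sq_comm
    · intro x
      rw [pow_two, Subgroup.mem_center_iff]
      intro g
      exact (hsqc x g).symm
    · intro u v
      rw [Subgroup.mem_center_iff]
      intro g
      exact (hcen u v g).symm
  · rw [← hcomm_eq]
    exact PFrattini.commutator_le_frattini hG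

end Cfsg.Agent.S3773
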