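import Cfsg.Statements.S3774
import Mathlib

set_option autoImplicit false
open Cfsg

namespace Cfsg.Agent.S3774

theorem result {G : Type*} [Group G] [Finite G] [Nontrivial G] (hG : IsPGroup 2 G) (htrans : ∀ x y : G, x ≠ 1 → x ^ 2 = 1 → y ≠ 1 → y ^ 2 = 1 → ∃ a : MulAut G, a x = y) : (∀ x : G, x ^ 2 = 1 → x ∈ Subgroup.center G) ∧ ∃ m : ℕ, Nat.card G = Nat.card {z : G // z ^ 2 = 1} ^ m := by
  classical
  haveI : Fact (Nat.Prime 2) := ⟨Nat.prime_two⟩
  haveI : Fintype G := Fintype.ofFinite G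
  have hf : ∀ x : G, x ≠ 1 → x ^ (orderOf x / 2) ≠ 1 ∧ (x ^ (orderOf x / 2)) ^ 2 = 1 := by
    intro x hx
    obtain ⟨k, hk⟩ := (IsPGroup.iff_orderOf.mp hG) x
    have hk1 : k ≠ 0 := by
      rintro rfl
      simp at hk
      exact hx hk
    obtain ⟨j, rfl⟩ := Nat.exists_eq_succ_of_ne_zero hk1
    have h2 : orderOf x / 2 = 2 ^ j := by rw [hk, pow_succ]; simp
    rw [h2]
    constructor
    · intro h
      have h3 := orderOf_dvd_of_pow_eq_one h
      rw [hk] at h3
      have h4 := Nat.le_of_dvd (by positivity) h3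
      rw [pow_succ] at h4
      have : 0 < 2 ^ j := by positivity
      omega
    · rw [← pow_mul, ← pow_succ, ← hk, pow_orderOf_eq_one]
  have hcenter : ∀ x : G, x ^ 2 = 1 → x ∈ Subgroup.center G := by
    intro x hx
    by_cases hx1 : x = 1
    · rw [hx1]; exact Subgroup.one_mem _
    haveI := hG.center_nontrivial
    obtain ⟨⟨z, hz⟩, hz1⟩ := exists_ne (1 : Subgroup.center G)
    have hz1' : z ≠ 1 := fun h => hz1 (Subtype.ext h)
    have hz'c : z ^ (orderOf z / 2) ∈ Subgroup.center G := Subgroup.pow_mem _ hz _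
    obtain ⟨h1, h2⟩ := hf z hz1'
    obtain ⟨a, ha⟩ := htrans _ x h1 h2 hx1 hx
    rw [Subgroup.mem_center_iff] at hz'c ⊢
    intro g
    have h3 := hz'c (a.symm g)
    have h4 := congrArg a h3
    simpa [map_mul, ha] using h4
  refine ⟨hcenter, ?_⟩
  -- the subgroup of elements of order dividing two
  let V : Subgroup G :=
    { carrier := {z | z ^ 2 = 1}
      one_mem' := by simp
      mul_mem' := by
        intro a b ha hb
        have hc : Commute a b := by
          have := hcenter a ha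
          rw [Subgroup.mem_center_iff] at this
          exact (this b).symm
        show (a * b) ^ 2 = 1
        rw [hc.mul_pow, show a ^ 2 = 1 from ha, show b ^ 2 = 1 from hb, one_mul]
      inv_mem' := by
        intro a ha
        show (a⁻¹) ^ 2 = 1
        rw [inv_pow, show a ^ 2 = 1 from ha, inv_one] }
  have hVc : Nat.card {z : G // z ^ 2 = 1} = Nat.card V := rfl
  obtain ⟨k, hk⟩ := IsPGroup.iff_card.mp (hG.to_subgroup V)
  obtain ⟨n, hn⟩ := IsPGroup.iff_card.mp hG
  have hVcard : Nat.card {z : G // z ^ 2 = 1} = (Finset.univ.filter (fun z : G => z ^ 2 = 1)).card := by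
    rw [Nat.card_eq_fintype_card, Fintype.card_subtype]
  have hGcard : Nat.card G = (Finset.univ : Finset G).card := by
    rw [Nat.card_eq_fintype_card]; rfl
  -- fibers
  set f : G → G := fun x => x ^ (orderOf x / 2) with hfdef
  set s : Finset G := Finset.univ.erase 1 with hs
  set t : Finset G := (Finset.univ.filter (fun z : G => z ^ 2 = 1)).erase 1 with ht
  have hmaps : (s : Set G).MapsTo f t := by
    intro x hx
    have hx1 : x ≠ 1 := by simpa [hs] using hx
    obtain ⟨h1, h2⟩ := hf x hx1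
    simp only [ht, Finset.coe_erase, Finset.coe_filter, Finset.mem_univ, true_and, Set.mem_diff,
      Set.mem_setOf_eq, Set.mem_singleton_iff]
    exact ⟨h2, h1⟩
  have hsum := Finset.card_eq_sum_card_fiberwise hmaps
  obtain ⟨x0, hx0⟩ := exists_ne (1 : G)
  have hz0 : f x0 ∈ t := hmaps (by simp [hs, hx0])
  have hfib : ∀ b ∈ t, (s.filter (fun a => f a = b)).card = (s.filter (fun a => f a = f x0)).card := by
    intro b hb
    have hb' : b ≠ 1 ∧ b ^ 2 = 1 := by simpa [ht] using hb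
    have hz' : f x0 ≠ 1 ∧ (f x0) ^ 2 = 1 := by simpa [ht] using hz0
    obtain ⟨a, ha⟩ := htrans b (f x0) hb'.1 hb'.2 hz'.1 hz'.2
    refine Finset.card_equiv a.toEquiv ?_
    intro x
    have hfa : f (a x) = a (f x) := by
      simp only [hfdef]
      rw [MulEquiv.orderOf_eq, map_pow]
    simp only [hs, Finset.mem_filter, Finset.mem_erase, Finset.mem_univ, and_true, MulEquiv.toEquiv_eq_coe,
      EquivLike.coe_coe, ne_eq]
    rw [hfa, ← ha]
    simp
  rw [Finset.sum_congr rfl hfib, Finset.sum_const, smul_eq_mul] at hsum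
  have hscard : s.card = 2 ^ n - 1 := by
    rw [hs, Finset.card_erase_of_mem (Finset.mem_univ _), ← hGcard, hn]
  have htcard : t.card = 2 ^ k - 1 := by
    rw [ht, Finset.card_erase_of_mem (by simp), ← hVcard, hVc, hk]
  rw [hscard, htcard] at hsum
  have hdvd : 2 ^ k - 1 ∣ 2 ^ n - 1 := ⟨_, hsum⟩
  have hgcd := Nat.pow_sub_one_gcd_pow_sub_one 2 k n
  rw [Nat.gcd_eq_left hdvd] at hgcd
  have h1 : 1 ≤ 2 ^ k := Nat.one_le_two_pow
  have h2 : 1 ≤ 2 ^ (Nat.gcd k n) := Nat.one_le_two_pow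
  have h3 : 2 ^ k = 2 ^ (Nat.gcd k n) := by omega
  have h4 : k = Nat.gcd k n := Nat.pow_right_injective (le_refl 2) h3
  have h5 : k ∣ n := Nat.gcd_eq_left_iff_dvd.mp h4.symm
  obtain ⟨m, rfl⟩ := h5
  refine ⟨m, ?_⟩
  rw [hVc, hk, hn, pow_mul]

end Cfsg.Agent.S3774
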