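import Mathlib
import Cfsg.Statements.S3775
import Cfsg.Agent.S0660
import Cfsg.Agent.Lib.Helper24.PGroupBasic

set_option autoImplicit false
open Cfsg

namespace Cfsg.Agent.S3775

section Section3775

variable {A : Type*} [CommGroup A]

/-- invariance in element form -/
def Inv' (X : Subgroup (MulAut A)) (B : Subgroup A) : Prop := ∀ x ∈ X, ∀ b ∈ B, x b ∈ B

theorem inv_iff (X : Subgroup (MulAut A)) (B : Subgroup A) :
    (∀ x ∈ X, B.map x.toMonoidHom = B) ↔ Inv' X B := by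
  constructor
  · intro h x hx b hb
    have : x b ∈ B.map x.toMonoidHom := Subgroup.mem_map_of_mem _ hb
    rwa [h x hx] at this
  · intro h x hx
    apply le_antisymm
    · rintro _ ⟨b, hb, rfl⟩
      exact h x hx b hb
    · intro b hb
      refine ⟨x⁻¹ b, h x⁻¹ (inv_mem hx) b hb, ?_⟩
      show x (x⁻¹ b) = b
      simp

theorem inv'_map_pow {X : Subgroup (MulAut A)} {B : Subgroup A} (h : Inv' X B) (n : ℕ) :
    Inv' X (B.map (powMonoidHom n)) := by
  rintro x hx _ ⟨b, hb, rfl⟩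
  exact ⟨x b, h x hx b hb, by simp⟩

theorem inv'_comap_pow {X : Subgroup (MulAut A)} {B : Subgroup A} (h : Inv' X B) (n : ℕ) :
    Inv' X (B.comap (powMonoidHom n)) := by
  intro x hx b hb
  rw [Subgroup.mem_comap, powMonoidHom_apply] at hb ⊢
  rw [← map_pow]
  exact h x hx _ hb

theorem inv'_inf {X : Subgroup (MulAut A)} {B C : Subgroup A} (hB : Inv' X B) (hC : Inv' X C) :
    Inv' X (B ⊓ C) := fun x hx b hb =>
  Subgroup.mem_inf.mpr ⟨hB x hx b (Subgroup.mem_inf.mp hb).1, hC x hx b (Subgroup.mem_inf.mp hb).2⟩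

theorem inv'_bot (X : Subgroup (MulAut A)) : Inv' X (⊥ : Subgroup A) := by
  intro x hx b hb
  rw [Subgroup.mem_bot] at hb ⊢
  rw [hb, map_one]

theorem inv'_top (X : Subgroup (MulAut A)) : Inv' X (⊤ : Subgroup A) :=
  fun x hx b hb => Subgroup.mem_top _

/-- Maschke (direct factor form), from `S0660` through the semidirect product. -/
theorem maschke [Finite A] {p : ℕ} [Fact p.Prime] (hA : IsPGroup p A) (X : Subgroup (MulAut A))
    (hX : (Nat.card X).Coprime p) (V U W : Subgroup A) (hV : Inv' X V) (hU : Inv' X U)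
    (hUV : U ≤ V) (hWV : W ≤ V) (hUW : U ⊓ W = ⊥) (hUWV : U ⊔ W = V) :
    ∃ W' : Subgroup A, Inv' X W' ∧ W' ≤ V ∧ U ⊓ W' = ⊥ ∧ U ⊔ W' = V := by
  classical
  let G := A ⋊[X.subtype] ↥X
  haveI : Finite (MulAut A) := Finite.of_injective (fun f : MulAut A => (f : A → A))
    (fun f g h => MulEquiv.ext (congrFun h))
  haveI : Finite G := Finite.of_equiv _ (SemidirectProduct.equivProd (φ := X.subtype)).symm
  let i : A →* G := SemidirectProduct.inl
  have hi : Function.Injective i := SemidirectProduct.inl_injective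
  let R : Subgroup G := (SemidirectProduct.inr : ↥X →* G).range
  have hnorm : ∀ B : Subgroup A, Inv' X B → R ≤ Subgroup.normalizer ((B.map i : Subgroup G) : Set G) := by
    intro B hB
    have key : ∀ x : ↥X, ∀ z ∈ B.map i, (SemidirectProduct.inr x : G) * z * (SemidirectProduct.inr x : G)⁻¹ ∈ B.map i := by
      rintro x _ ⟨b, hb, rfl⟩
      refine ⟨(x : MulAut A) b, hB x x.2 b hb, ?_⟩
      have := SemidirectProduct.inl_aut (φ := X.subtype) x b
      rw [map_inv] at this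
      exact this
    rintro _ ⟨x, rfl⟩
    rw [Subgroup.mem_normalizer_iff]
    intro z
    constructor
    · exact key x z
    · intro hz
      have := key x⁻¹ _ hz
      rw [map_inv] at this
      simpa [mul_assoc] using this
  have hVab : IsMulCommutative ↥(V.map i) := by
    rw [isMulCommutative_iff]
    rintro ⟨_, a, ha, rfl⟩ ⟨_, b, hb, rfl⟩
    apply Subtype.ext
    show i a * i b = i b * i a
    rw [← map_mul, ← map_mul, mul_comm]
  have hcop : (Nat.card R).Coprime (Nat.card ↥(V.map i)) := by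
    have h1 : Nat.card R = Nat.card X := by
      show Nat.card (SemidirectProduct.inr : ↥X →* G).range = _
      exact Nat.card_congr (Equiv.ofInjective _ SemidirectProduct.inr_injective).symm
    rw [h1, Subgroup.card_map_of_injective hi]
    obtain ⟨n, hn⟩ := IsPGroup.iff_card.mp (hA.to_subgroup V)
    rw [hn]
    exact Nat.Coprime.pow_right n hX
  obtain ⟨W', hW'V, hW'n, hUW', hUW'V⟩ := Cfsg.Agent.S0660.result (V.map i) R (U.map i) hVab
    (hnorm V hV) hcop (Subgroup.map_mono hUV) (hnorm U hU) (W.map i) (Subgroup.map_mono hWV)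
    (by rw [← Subgroup.map_inf _ _ _ hi, hUW, Subgroup.map_bot])
    (by rw [← Subgroup.map_sup, hUWV])
  have hW'r : W' ≤ i.range := hW'V.trans (by rw [MonoidHom.range_eq_map]; exact Subgroup.map_mono le_top)
  have hmc : (W'.comap i).map i = W' := Subgroup.map_comap_eq_self hW'r
  refine ⟨W'.comap i, ?_, ?_, ?_, ?_⟩
  · intro x hx b hb
    rw [Subgroup.mem_comap] at hb ⊢
    have h1 : (SemidirectProduct.inr (⟨x, hx⟩ : ↥X) : G) ∈ R := ⟨_, rfl⟩
    have h2 := (Subgroup.mem_normalizer_iff.mp (hW'n h1) (i b)).mp hb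
    have h3 := SemidirectProduct.inl_aut (φ := X.subtype) (⟨x, hx⟩ : ↥X) b
    rw [map_inv] at h3
    rw [← h3] at h2
    exact h2
  · have := Subgroup.comap_mono (f := i) hW'V
    rwa [Subgroup.comap_map_eq_self_of_injective hi] at this
  · apply Subgroup.map_injective hi
    rw [Subgroup.map_inf _ _ _ hi, hmc, hUW', Subgroup.map_bot]
  · apply Subgroup.map_injective hi
    rw [Subgroup.map_sup, hmc, hUW'V]

/-- A complement exists for `D` in `V` as soon as elements outside `D ⊔ C` can be adjusted to have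
`p`-th power in `C`. -/
theorem exists_complement [Finite A] (p : ℕ) [Fact p.Prime] (V D C₀ : Subgroup A) (hDV : D ≤ V)
    (hC₀V : C₀ ≤ V) (hC₀D : C₀ ⊓ D = ⊥)
    (hstep : ∀ C : Subgroup A, C₀ ≤ C → C ≤ V → C ⊓ D = ⊥ → ∀ a ∈ V, a ∉ D ⊔ C →
      ∃ a' ∈ V, a' ∉ D ⊔ C ∧ a' ^ p ∈ C) :
    ∃ C : Subgroup A, C₀ ≤ C ∧ C ≤ V ∧ D ⊓ C = ⊥ ∧ D ⊔ C = V := by
  obtain ⟨C, ⟨hCV, hCD⟩, hC₀C, hmax⟩ :=
    Cfsg.Agent.Lib.Helper24.PGroupBasic.exists_maximal_subgroup
      (fun C => C ≤ V ∧ C ⊓ D = ⊥) C₀ ⟨hC₀V, hC₀D⟩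
  refine ⟨C, hC₀C, hCV, by rw [inf_comm]; exact hCD, ?_⟩
  by_contra hne
  have hlt : D ⊔ C < V := lt_of_le_of_ne (sup_le hDV hCV) hne
  obtain ⟨a, haV, haDC⟩ := SetLike.exists_of_lt hlt
  obtain ⟨a', ha'V, ha'DC, ha'p⟩ := hstep C hC₀C hCV hCD a haV haDC
  have hpred : (C ⊔ Subgroup.zpowers a') ≤ V ∧ (C ⊔ Subgroup.zpowers a') ⊓ D = ⊥ := by
    refine ⟨sup_le hCV (by rw [Subgroup.zpowers_le]; exact ha'V), ?_⟩
    rw [eq_bot_iff]
    intro x hx
    obtain ⟨hx1, hxD⟩ := Subgroup.mem_inf.mp hx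
    obtain ⟨c, hc, z, hz, rfl⟩ := Subgroup.mem_sup.mp hx1
    obtain ⟨k, rfl⟩ := Subgroup.mem_zpowers_iff.mp hz
    by_cases hk : (p : ℤ) ∣ k
    · obtain ⟨j, rfl⟩ := hk
      have : a' ^ ((p : ℤ) * j) ∈ C := by
        rw [zpow_mul, zpow_natCast]; exact zpow_mem ha'p j
      have h2 : c * a' ^ ((p : ℤ) * j) ∈ C ⊓ D := Subgroup.mem_inf.mpr ⟨mul_mem hc this, hxD⟩
      rw [hCD] at h2; exact h2
    · exfalso
      apply ha'DC
      have hcop : IsCoprime k (p : ℤ) := by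
        have hp : Prime (p : ℤ) := Nat.prime_iff_prime_int.mp Fact.out
        exact ((Prime.coprime_iff_not_dvd hp).mpr hk).symm
      obtain ⟨u, v, huv⟩ := hcop
      have h3 : a' ^ k ∈ D ⊔ C := by
        have : a' ^ k = c⁻¹ * (c * a' ^ k) := by group
        rw [this]
        exact mul_mem (Subgroup.mem_sup_right (inv_mem hc)) (Subgroup.mem_sup_left hxD)
      have h4 : a' = (a' ^ k) ^ u * (a' ^ (p : ℤ)) ^ v := by
        rw [← zpow_mul, ← zpow_mul, ← zpow_add]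
        have : k * u + (p : ℤ) * v = 1 := by linarith [huv]
        rw [this, zpow_one]
      rw [h4]
      refine mul_mem (zpow_mem h3 u) (Subgroup.mem_sup_right (zpow_mem ?_ v))
      rw [zpow_natCast]; exact ha'p
  have heq := hmax _ hpred le_sup_left
  apply ha'DC
  apply Subgroup.mem_sup_right
  rw [← heq]
  exact Subgroup.mem_sup_right (Subgroup.mem_zpowers a')

theorem pow_comp (p e : ℕ) :
    (powMonoidHom (p ^ e) : A →* A).comp (powMonoidHom p) = powMonoidHom (p ^ (e + 1)) := by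
  ext a
  simp only [MonoidHom.comp_apply, powMonoidHom_apply]
  rw [← pow_mul, pow_succ']

theorem mem_ker_pow (p : ℕ) (a : A) : a ∈ (powMonoidHom p : A →* A).ker ↔ a ^ p = 1 := by
  rw [MonoidHom.mem_ker, powMonoidHom_apply]

/-- The key induction: a minimal invariant subgroup `D` whose `p ^ e`-th powers fill the minimal
invariant subgroup `U` has `Ω₁(D) ≤ U`. -/
theorem omega_le_of_minimal [Finite A] {p : ℕ} [Fact p.Prime] (hA : IsPGroup p A)
    (X : Subgroup (MulAut A)) (hX : (Nat.card X).Coprime p) (U : Subgroup A) (hUinv : Inv' X U) :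
    ∀ e : ℕ, ∀ D : Subgroup A, Inv' X D → D.map (powMonoidHom (p ^ e)) = U →
      (∀ D' : Subgroup A, Inv' X D' → D' ≤ D → D'.map (powMonoidHom (p ^ e)) = U → D' = D) →
      (∀ d ∈ D, d ^ (p ^ (e + 1)) = 1) → ∀ d ∈ D, d ^ p = 1 → d ∈ U := by
  intro e
  induction e with
  | zero =>
    intro D hD hDU _ _ d hd _
    rw [← hDU]
    exact ⟨d, hd, by simp⟩
  | succ e ih =>
    intro D hD hDU hmin hexp d hd hdp
    set D₁ := D.map (powMonoidHom p) with hD₁
    have hD₁inv : Inv' X D₁ := inv'_map_pow hD p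
    have hD₁U : D₁.map (powMonoidHom (p ^ e)) = U := by
      rw [hD₁, Subgroup.map_map, pow_comp, hDU]
    have hD₁min : ∀ D' : Subgroup A, Inv' X D' → D' ≤ D₁ →
        D'.map (powMonoidHom (p ^ e)) = U → D' = D₁ := by
      intro D₂ hD₂ hD₂le hD₂U
      have hD₃inv : Inv' X (D ⊓ D₂.comap (powMonoidHom p)) := inv'_inf hD (inv'_comap_pow hD₂ p)
      have hD₃map : (D ⊓ D₂.comap (powMonoidHom p)).map (powMonoidHom p) = D₂ := by
        apply le_antisymm
        · rintro _ ⟨a, ha, rfl⟩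
          exact (Subgroup.mem_inf.mp ha).2
        · intro b hb
          obtain ⟨a, ha, rfl⟩ := hD₂le hb
          exact ⟨a, Subgroup.mem_inf.mpr ⟨ha, hb⟩, rfl⟩
      have hD₃U : (D ⊓ D₂.comap (powMonoidHom p)).map (powMonoidHom (p ^ (e + 1))) = U := by
        rw [← hD₂U, ← pow_comp, ← Subgroup.map_map, hD₃map]
      have h3 := hmin _ hD₃inv inf_le_left hD₃U
      rw [← hD₃map, h3]
    have hD₁exp : ∀ d ∈ D₁, d ^ (p ^ (e + 1)) = 1 := by
      rintro _ ⟨a, ha, rfl⟩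
      rw [powMonoidHom_apply, ← pow_mul, ← pow_succ']
      exact hexp a ha
    have hD₁Ω := ih D₁ hD₁inv hD₁U hD₁min hD₁exp
    have hΩinv : Inv' X (D ⊓ (powMonoidHom p : A →* A).ker) := inv'_inf hD (by
      have := inv'_comap_pow (inv'_bot X) p
      rwa [MonoidHom.comap_bot] at this)
    have hUΩ : U ≤ D ⊓ (powMonoidHom p : A →* A).ker := by
      rw [← hDU]
      rintro _ ⟨a, ha, rfl⟩
      refine Subgroup.mem_inf.mpr ⟨pow_mem ha _, ?_⟩
      rw [mem_ker_pow, powMonoidHom_apply, ← pow_mul, ← pow_succ]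
      exact hexp a ha
    by_contra hdU
    obtain ⟨W₀, -, hW₀Ω, hUW₀, hUW₀Ω⟩ := exists_complement p (D ⊓ (powMonoidHom p : A →* A).ker)
      U ⊥ hUΩ bot_le (bot_inf_eq _)
      (by
        intro C _ hCΩ _ a ha haDC
        refine ⟨a, ha, haDC, ?_⟩
        have : a ^ p = 1 := (mem_ker_pow p a).mp (Subgroup.mem_inf.mp ha).2
        rw [this]; exact one_mem _)
    obtain ⟨U', hU'inv, hU'Ω, hUU', hUU'Ω⟩ :=
      maschke hA X hX _ U W₀ hΩinv hUinv hUΩ hW₀Ω hUW₀ hUW₀Ω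
    have hU'ne : U' ≠ ⊥ := by
      intro h
      rw [h, sup_bot_eq] at hUU'Ω
      apply hdU
      rw [hUU'Ω]
      exact Subgroup.mem_inf.mpr ⟨hd, (mem_ker_pow p d).mpr hdp⟩
    have hU'D₁ : D₁ ⊓ U' = ⊥ := by
      rw [eq_bot_iff]
      intro x hx
      obtain ⟨hx1, hx2⟩ := Subgroup.mem_inf.mp hx
      have hxp : x ^ p = 1 := (mem_ker_pow p x).mp (Subgroup.mem_inf.mp (hU'Ω hx2)).2
      have hxU : x ∈ U := hD₁Ω x hx1 hxp
      have : x ∈ U ⊓ U' := Subgroup.mem_inf.mpr ⟨hxU, hx2⟩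
      rwa [hUU'] at this
    have hU'D : U' ≤ D := hU'Ω.trans inf_le_left
    have hD₁D : D₁ ≤ D := by
      rintro _ ⟨a, ha, rfl⟩
      exact pow_mem ha p
    obtain ⟨C, hD₁C, hCD, hU'C, hU'CD⟩ := exists_complement p D U' D₁ hU'D hD₁D hU'D₁
      (by
        intro C hD₁C hCD _ a ha haDC
        exact ⟨a, ha, haDC, hD₁C ⟨a, ha, rfl⟩⟩)
    obtain ⟨D', hD'inv, hD'D, hU'D', hU'D'D⟩ :=
      maschke hA X hX D U' C hD hU'inv hU'D hCD hU'C hU'CD
    have hD'U : D'.map (powMonoidHom (p ^ (e + 1))) = U := by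
      rw [← hDU, ← hU'D'D, Subgroup.map_sup]
      have : U'.map (powMonoidHom (p ^ (e + 1))) = ⊥ := by
        rw [eq_bot_iff]
        rintro _ ⟨a, ha, rfl⟩
        have hap : a ^ p = 1 := (mem_ker_pow p a).mp (Subgroup.mem_inf.mp (hU'Ω ha)).2
        rw [Subgroup.mem_bot, powMonoidHom_apply, pow_succ', pow_mul, hap, one_pow]
      rw [this, bot_sup_eq]
    have hD'eq := hmin D' hD'inv hD'D hD'U
    apply hU'ne
    rw [eq_bot_iff, ← hU'D']
    intro x hx
    exact Subgroup.mem_inf.mpr ⟨hx, by rw [hD'eq]; exact hU'D hx⟩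

theorem two_three {p : ℕ} (X : Subgroup (MulAut A))
    (h : ∀ B : Subgroup A, Inv' X B → ∃ i : ℕ, ∀ a : A, a ∈ B ↔ a ^ p ^ i = 1) :
    ∀ B : Subgroup A, Inv' X B → (∀ b ∈ B, b ^ p = 1) → B = ⊥ ∨ ∀ a : A, a ∈ B ↔ a ^ p = 1 := by
  intro B hB hBp
  obtain ⟨i, hi⟩ := h B hB
  rcases Nat.eq_zero_or_pos i with rfl | hpos
  · left
    rw [eq_bot_iff]
    intro a ha
    have := (hi a).mp ha
    simpa using this
  · right
    intro a
    refine ⟨hBp a, fun ha => (hi a).mpr ?_⟩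
    obtain ⟨j, rfl⟩ : ∃ j, i = j + 1 := ⟨i - 1, by omega⟩
    rw [pow_succ', pow_mul, ha, one_pow]

theorem two_one {p : ℕ} (X : Subgroup (MulAut A))
    (h : ∀ B : Subgroup A, Inv' X B → ∃ i : ℕ, ∀ a : A, a ∈ B ↔ a ^ p ^ i = 1) :
    ¬ ∃ B C : Subgroup A, B ≠ ⊥ ∧ C ≠ ⊥ ∧ Inv' X B ∧ Inv' X C ∧ B ⊓ C = ⊥ ∧ B ⊔ C = ⊤ := by
  rintro ⟨B, C, hB, hC, hBi, hCi, hBC, -⟩
  obtain ⟨i, hi⟩ := h B hBi
  obtain ⟨j, hj⟩ := h C hCi
  rcases le_total i j with hij | hij
  · apply hB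
    rw [eq_bot_iff, ← hBC]
    intro a ha
    refine Subgroup.mem_inf.mpr ⟨ha, (hj a).mpr ?_⟩
    obtain ⟨k, rfl⟩ := Nat.exists_eq_add_of_le hij
    rw [pow_add, pow_mul, (hi a).mp ha, one_pow]
  · apply hC
    rw [eq_bot_iff, ← hBC]
    intro a ha
    refine Subgroup.mem_inf.mpr ⟨(hi a).mpr ?_, ha⟩
    obtain ⟨k, rfl⟩ := Nat.exists_eq_add_of_le hij
    rw [pow_add, pow_mul, (hj a).mp ha, one_pow]

theorem three_two [Finite A] {p : ℕ} [Fact p.Prime] (hA : IsPGroup p A) (X : Subgroup (MulAut A))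
    (h : ∀ B : Subgroup A, Inv' X B → (∀ b ∈ B, b ^ p = 1) → B = ⊥ ∨ ∀ a : A, a ∈ B ↔ a ^ p = 1) :
    ∀ B : Subgroup A, Inv' X B → ∃ i : ℕ, ∀ a : A, a ∈ B ↔ a ^ p ^ i = 1 := by
  have key : ∀ i : ℕ, ∀ B : Subgroup A, Inv' X B → (∀ b ∈ B, b ^ p ^ i = 1) →
      (∀ j, j < i → ∃ b ∈ B, b ^ p ^ j ≠ 1) → ∀ a : A, a ∈ B ↔ a ^ p ^ i = 1 := by
    intro i
    induction i with
    | zero =>
      intro B hB hexp _ a
      constructor
      · exact hexp a
      · intro ha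
        rw [pow_zero, pow_one] at ha
        rw [ha]; exact one_mem _
    | succ i ih =>
      intro B hB hexp hex a
      refine ⟨hexp a, fun ha => ?_⟩
      obtain ⟨b₀, hb₀B, hb₀⟩ := hex i (Nat.lt_succ_self i)
      have hB₁inv : Inv' X (B.map (powMonoidHom (p ^ i))) := inv'_map_pow hB _
      have hB₁p : ∀ b ∈ B.map (powMonoidHom (p ^ i)), b ^ p = 1 := by
        rintro _ ⟨b, hb, rfl⟩
        rw [powMonoidHom_apply, ← pow_mul, ← pow_succ]
        exact hexp b hb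
      have hB₁ : ∀ a : A, a ∈ B.map (powMonoidHom (p ^ i)) ↔ a ^ p = 1 := by
        rcases h _ hB₁inv hB₁p with h0 | h1
        · exfalso
          apply hb₀
          have : b₀ ^ p ^ i ∈ B.map (powMonoidHom (p ^ i)) := ⟨b₀, hb₀B, rfl⟩
          rwa [h0, Subgroup.mem_bot] at this
        · exact h1
      have hB'inv : Inv' X (B ⊓ (powMonoidHom (p ^ i) : A →* A).ker) := inv'_inf hB (by
        have := inv'_comap_pow (inv'_bot X) (p ^ i)
        rwa [MonoidHom.comap_bot] at this)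
      have hB' := ih _ hB'inv (fun b hb => (mem_ker_pow _ b).mp (Subgroup.mem_inf.mp hb).2) (by
        intro j hj
        refine ⟨b₀ ^ p, Subgroup.mem_inf.mpr ⟨pow_mem hb₀B p, ?_⟩, ?_⟩
        · rw [mem_ker_pow, ← pow_mul, ← pow_succ']
          exact hexp b₀ hb₀B
        · intro hc
          apply hb₀
          rw [← pow_mul, ← pow_succ'] at hc
          obtain ⟨k, rfl⟩ := Nat.exists_eq_add_of_le (Nat.succ_le_of_lt hj)
          rw [pow_add, pow_mul, hc, one_pow])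
      have h1 : a ^ p ^ i ∈ B.map (powMonoidHom (p ^ i)) := by
        rw [hB₁, ← pow_mul, ← pow_succ]
        exact ha
      obtain ⟨b, hb, hba⟩ := h1
      rw [powMonoidHom_apply] at hba
      have h2 : a * b⁻¹ ∈ B ⊓ (powMonoidHom (p ^ i) : A →* A).ker := by
        rw [hB']
        rw [mul_pow, inv_pow, hba, mul_inv_cancel]
      have h3 : a = (a * b⁻¹) * b := by group
      rw [h3]
      exact mul_mem (Subgroup.mem_inf.mp h2).1 hb
  intro B hB
  classical
  have hex : ∃ i : ℕ, ∀ b ∈ B, b ^ p ^ i = 1 := by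
    obtain ⟨n, hn⟩ := IsPGroup.iff_card.mp hA
    exact ⟨n, fun b _ => by rw [← hn]; exact pow_card_eq_one'⟩
  refine ⟨Nat.find hex, key _ B hB (Nat.find_spec hex) ?_⟩
  intro j hj
  have := Nat.find_min hex hj
  push_neg at this
  exact this

theorem one_three [Finite A] {p : ℕ} [Fact p.Prime] (hA : IsPGroup p A) (X : Subgroup (MulAut A))
    (hX : (Nat.card X).Coprime p)
    (h1 : ¬ ∃ B C : Subgroup A, B ≠ ⊥ ∧ C ≠ ⊥ ∧ Inv' X B ∧ Inv' X C ∧ B ⊓ C = ⊥ ∧ B ⊔ C = ⊤) :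
    ∀ B : Subgroup A, Inv' X B → (∀ b ∈ B, b ^ p = 1) → B = ⊥ ∨ ∀ a : A, a ∈ B ↔ a ^ p = 1 := by
  intro B hBinv hBp
  by_cases hB : B = ⊥
  · exact Or.inl hB
  right
  classical
  have hex : ∃ i : ℕ, ∀ a : A, a ^ p ^ i = 1 := by
    obtain ⟨n, hn⟩ := IsPGroup.iff_card.mp hA
    exact ⟨n, fun b => by rw [← hn]; exact pow_card_eq_one'⟩
  have hfs := Nat.find_spec hex
  have hfpos : Nat.find hex ≠ 0 := by
    intro h0
    rw [h0] at hfs
    apply hB
    rw [eq_bot_iff]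
    intro b _
    have := hfs b
    simpa using this
  obtain ⟨e, he⟩ : ∃ e, Nat.find hex = e + 1 := ⟨Nat.find hex - 1, by omega⟩
  rw [he] at hfs
  have hmin : ∃ a₀ : A, a₀ ^ p ^ e ≠ 1 := by
    have := Nat.find_min hex (m := e) (by omega)
    push_neg at this
    exact this
  obtain ⟨a₀, ha₀⟩ := hmin
  have hTinv : Inv' X (powMonoidHom (p ^ e) : A →* A).range := by
    rw [MonoidHom.range_eq_map]; exact inv'_map_pow (inv'_top X) _
  have hTp : ∀ t ∈ (powMonoidHom (p ^ e) : A →* A).range, t ^ p = 1 := by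
    rintro _ ⟨a, rfl⟩
    rw [powMonoidHom_apply, ← pow_mul, ← pow_succ]
    exact hfs a
  have hTne : (powMonoidHom (p ^ e) : A →* A).range ≠ ⊥ := by
    intro h
    apply ha₀
    have : a₀ ^ p ^ e ∈ (powMonoidHom (p ^ e) : A →* A).range := ⟨a₀, rfl⟩
    rwa [h, Subgroup.mem_bot] at this
  obtain ⟨U, ⟨hUinv, hUT, hUne⟩, hUmin⟩ := WellFounded.has_min (wellFounded_lt (α := Subgroup A))
    {U : Subgroup A | Inv' X U ∧ U ≤ (powMonoidHom (p ^ e) : A →* A).range ∧ U ≠ ⊥}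
    ⟨_, hTinv, le_rfl, hTne⟩
  obtain ⟨D, ⟨hDinv, hDU⟩, hDmin⟩ := WellFounded.has_min (wellFounded_lt (α := Subgroup A))
    {D : Subgroup A | Inv' X D ∧ D.map (powMonoidHom (p ^ e)) = U}
    ⟨U.comap (powMonoidHom (p ^ e)), inv'_comap_pow hUinv _, Subgroup.map_comap_eq_self hUT⟩
  have hDmin' : ∀ D' : Subgroup A, Inv' X D' → D' ≤ D →
      D'.map (powMonoidHom (p ^ e)) = U → D' = D := by
    intro D' hD' hle hmap
    by_contra hne
    exact hDmin D' ⟨hD', hmap⟩ (lt_of_le_of_ne hle hne)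
  have hΩ := omega_le_of_minimal hA X hX U hUinv e D hDinv hDU hDmin' (fun d _ => hfs d)
  have hroot : ∀ j : ℕ, j ≤ e → ∀ d ∈ D, d ^ p ^ j = 1 → ∃ t ∈ D, t ^ p ^ (e + 1 - j) = d := by
    intro j
    induction j with
    | zero =>
      intro _ d hd hd1
      rw [pow_zero, pow_one] at hd1
      exact ⟨1, one_mem _, by rw [hd1, one_pow]⟩
    | succ j ih =>
      intro hj d hd hd1
      have h1 : d ^ p ^ j ∈ U := hΩ _ (pow_mem hd _) (by rw [← pow_mul, ← pow_succ]; exact hd1)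
      rw [← hDU] at h1
      obtain ⟨t, ht, htd⟩ := h1
      rw [powMonoidHom_apply] at htd
      have hs : (t ^ p ^ (e - j)) ^ p ^ j = d ^ p ^ j := by
        rw [← pow_mul, ← pow_add, Nat.sub_add_cancel (by omega), htd]
      obtain ⟨t₂, ht₂, ht₂d⟩ := ih (by omega) (d * (t ^ p ^ (e - j))⁻¹)
        (mul_mem hd (inv_mem (pow_mem ht _))) (by rw [mul_pow, inv_pow, hs, mul_inv_cancel])
      refine ⟨t₂ ^ p * t, mul_mem (pow_mem ht₂ p) ht, ?_⟩
      have e1 : e + 1 - (j + 1) = e - j := by omega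
      have e2 : e + 1 - j = (e - j) + 1 := by omega
      rw [e1, mul_pow, ← pow_mul, ← pow_succ', ← e2, ht₂d, inv_mul_cancel_right]
  obtain ⟨C, -, -, hDC, hDCtop⟩ := exists_complement p ⊤ D ⊥ le_top bot_le (bot_inf_eq _)
    (by
      intro C _ _ hCD a _ haDC
      have hexk : ∃ k : ℕ, a ^ p ^ k ∈ D ⊔ C := ⟨e + 1, by rw [hfs a]; exact one_mem _⟩
      have hk0 : Nat.find hexk ≠ 0 := by
        intro h0
        have := Nat.find_spec hexk
        rw [h0, pow_zero, pow_one] at this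
        exact haDC this
      obtain ⟨k, hk⟩ : ∃ k, Nat.find hexk = k + 1 := ⟨Nat.find hexk - 1, by omega⟩
      have ha1 : a ^ p ^ k ∉ D ⊔ C := Nat.find_min hexk (by omega)
      have ha1p : (a ^ p ^ k) ^ p ∈ D ⊔ C := by
        have := Nat.find_spec hexk
        rw [hk, pow_succ, pow_mul] at this
        exact this
      obtain ⟨d, hd, c, hc, hdc⟩ := Subgroup.mem_sup.mp ha1p
      have hd1 : d ^ p ^ e = 1 := by
        have h1 : (d * c) ^ p ^ e = 1 := by
          rw [hdc, ← pow_mul, ← pow_succ']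
          exact hfs _
        rw [mul_pow] at h1
        have h2 : d ^ p ^ e ∈ C ⊓ D := by
          refine Subgroup.mem_inf.mpr ⟨?_, pow_mem hd _⟩
          have : d ^ p ^ e = (c ^ p ^ e)⁻¹ := eq_inv_of_mul_eq_one_left h1
          rw [this]; exact inv_mem (pow_mem hc _)
        rwa [hCD, Subgroup.mem_bot] at h2
      obtain ⟨d₁, hd₁, hd₁d⟩ := hroot e le_rfl d hd hd1
      have e3 : e + 1 - e = 1 := by omega
      rw [e3, pow_one] at hd₁d
      refine ⟨a ^ p ^ k * d₁⁻¹, Subgroup.mem_top _, ?_, ?_⟩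
      · intro hmem
        apply ha1
        have : a ^ p ^ k = (a ^ p ^ k * d₁⁻¹) * d₁ := by group
        rw [this]
        exact mul_mem hmem (Subgroup.mem_sup_left hd₁)
      · rw [mul_pow, inv_pow, hd₁d, ← hdc]
        have : d * c * d⁻¹ = c := by rw [mul_comm d c, mul_inv_cancel_right]
        rw [this]; exact hc)
  obtain ⟨C', hC'inv, -, hDC', hDC'top⟩ :=
    maschke hA X hX ⊤ D C (inv'_top X) hDinv le_top le_top hDC hDCtop
  have hDne : D ≠ ⊥ := by
    intro h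
    apply hUne
    rw [← hDU, h, Subgroup.map_bot]
  have hC'bot : C' = ⊥ := by
    by_contra hne
    exact h1 ⟨D, C', hDne, hne, hDinv, hC'inv, hDC', hDC'top⟩
  have hDtop : D = ⊤ := by rw [← hDC'top, hC'bot, sup_bot_eq]
  have hΩU : ∀ a : A, a ^ p = 1 → a ∈ U :=
    fun a ha => hΩ a (by rw [hDtop]; exact Subgroup.mem_top a) ha
  have hBU : B = U := by
    have hle : B ≤ U := fun b hb => hΩU b (hBp b hb)
    by_contra hne
    exact hUmin B ⟨hBinv, hle.trans hUT, hB⟩ (lt_of_le_of_ne hle hne)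
  intro a
  rw [hBU]
  exact ⟨fun ha => hTp a (hUT ha), hΩU a⟩

end Section3775

/-- Let A be a finite abelian p-group and X a group of automorphisms of A of order prime to p. Call a subgroup of A invariant when every element of X maps it onto itself. Then the following are equivalent: (i) A is not the direct product of two nontrivial invariant subgroups; (ii) every invariant subgroup of A is one of the subgroups Ω_i(A) = {a : a^(p^i) = 1}; (iii) the subgroup Ω₁(A) of elements of order dividing p has no invariant subgroups other than 1 and itself. -/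
theorem result {A : Type*} [CommGroup A] [Finite A] {p : ℕ} [Fact p.Prime] (hA : IsPGroup p A) (X : Subgroup (MulAut A)) (hX : (Nat.card X).Coprime p) : ((¬ ∃ B C : Subgroup A, B ≠ ⊥ ∧ C ≠ ⊥ ∧ (∀ x ∈ X, B.map x.toMonoidHom = B) ∧ (∀ x ∈ X, C.map x.toMonoidHom = C) ∧ B ⊓ C = ⊥ ∧ B ⊔ C = ⊤) ↔ (∀ B : Subgroup A, (∀ x ∈ X, B.map x.toMonoidHom = B) → ∃ i : ℕ, ∀ a : A, a ∈ B ↔ a ^ p ^ i = 1)) ∧ ((∀ B : Subgroup A, (∀ x ∈ X, B.map x.toMonoidHom = B) → ∃ i : ℕ, ∀ a : A, a ∈ B ↔ a ^ p ^ i = 1) ↔ (∀ B : Subgroup A, (∀ x ∈ X, B.map x.toMonoidHom = B) → (∀ b ∈ B, b ^ p = 1) → B = ⊥ ∨ ∀ a : A, a ∈ B ↔ a ^ p = 1)) := by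
  simp only [inv_iff]
  exact ⟨⟨fun h => three_two hA X (one_three hA X hX h), two_one X⟩, ⟨two_three X, three_two hA X⟩⟩

end Cfsg.Agent.S3775
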