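import Cfsg.Statements.S3778
-- import your own Cfsg.Agent.* helpers here

set_option autoImplicit false
open Cfsg

namespace Cfsg.Agent.S3778

open scoped commutatorElement

/-- lower central series abbreviation -/
abbrev Lc (G : Type*) [Group G] (i : ℕ) : Subgroup G := (⊤ : Subgroup G).lowerCentralSeries i

/-- the subgroup of elements acting trivially on `L i / L (i+2)` -/
def Kc (G : Type*) [Group G] (i : ℕ) : Subgroup G where
  carrier := {x | ∀ u ∈ Lc G i, ⁅u, x⁆ ∈ Lc G (i + 2)}
  one_mem' := by
    intro u _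
    have e : ⁅u, (1 : G)⁆ = 1 := by simp [commutatorElement_def]
    rw [e]
    exact one_mem _
  mul_mem' := by
    intro x y hx hy u hu
    have e : ⁅u, x * y⁆ = ⁅u, x⁆ * (x * ⁅u, y⁆ * x⁻¹) := by
      simp only [commutatorElement_def]; group
    rw [e]
    exact mul_mem (hx u hu)
      ((inferInstance : (Lc G (i + 2)).Normal).conj_mem _ (hy u hu) x)
  inv_mem' := by
    intro x hx u hu
    have e : ⁅u, x⁻¹⁆ = x⁻¹ * (⁅u, x⁆)⁻¹ * x⁻¹⁻¹ := by
      simp only [commutatorElement_def]; group
    rw [e]
    exact (inferInstance : (Lc G (i + 2)).Normal).conj_mem _ (inv_mem (hx u hu)) x⁻¹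

section aux

variable {G : Type*} [Group G]

theorem mem_Kc {i : ℕ} {x : G} : x ∈ Kc G i ↔ ∀ u ∈ Lc G i, ⁅u, x⁆ ∈ Lc G (i + 2) := Iff.rfl

theorem Lc_succ (i : ℕ) : Lc G (i + 1) = ⁅Lc G i, (⊤ : Subgroup G)⁆ := rfl

theorem Kc_ne_top {c : ℕ} (hc : ∀ j < c, Lc G j ≠ ⊥) (hcb : Lc G c = ⊥) {i : ℕ}
    (hi : i + 1 < c) : Kc G i ≠ ⊤ := by
  intro htop
  have h1 : Lc G (i + 1) ≤ Lc G (i + 2) := by
    rw [Lc_succ, Subgroup.commutator_le]
    intro u hu x _
    have : x ∈ Kc G i := by rw [htop]; trivial
    exact this u hu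
  have h2 : Lc G (i + 2) = Lc G (i + 1) :=
    le_antisymm (Subgroup.lowerCentralSeries_antitone _ (Nat.le_succ _)) h1
  have h3 : ∀ k, Lc G (i + 1 + k) = Lc G (i + 1) := by
    intro k
    induction k with
    | zero => rfl
    | succ k ih =>
      have e : Lc G (i + 1 + (k + 1)) = ⁅Lc G (i + 1 + k), (⊤ : Subgroup G)⁆ := rfl
      rw [e, ih]
      exact h2
  have h4 := h3 (c - (i + 1))
  rw [show i + 1 + (c - (i + 1)) = c by omega, hcb] at h4
  exact hc (i + 1) hi h4.symm

theorem card_mul_le_of_lt [Finite G] {p : ℕ} [Fact p.Prime] (hG : IsPGroup p G)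
    {H H' : Subgroup G} (hle : H ≤ H') (hne : H ≠ H') : Nat.card H * p ≤ Nat.card H' := by
  have h1 : H.relIndex H' * Nat.card H = Nat.card H' := by
    have := Subgroup.relIndex_mul_relIndex (⊥ : Subgroup G) H H' bot_le hle
    rw [Subgroup.relIndex_bot_left, Subgroup.relIndex_bot_left] at this
    rw [mul_comm]; exact this
  obtain ⟨n, hn⟩ := (hG.to_subgroup H').index (H.subgroupOf H')
  have hn' : H.relIndex H' = p ^ n := hn
  have hn0 : n ≠ 0 := by
    rintro rfl
    rw [pow_zero, Subgroup.relIndex_eq_one] at hn'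
    exact hne (le_antisymm hle hn')
  have hd : p ∣ H.relIndex H' := by rw [hn']; exact dvd_pow_self p hn0
  have hpos : 0 < H.relIndex H' := by
    rw [hn']; exact pow_pos (Fact.out : p.Prime).pos n
  have hp : p ≤ H.relIndex H' := Nat.le_of_dvd hpos hd
  calc Nat.card H * p ≤ Nat.card H * H.relIndex H' := Nat.mul_le_mul_left _ hp
    _ = Nat.card H' := by rw [mul_comm]; exact h1

theorem not_mem_Kc_imp {x : G} {j : ℕ} (hx : x ∉ Kc G j) :
    Lc G (j + 1) ⊔ Subgroup.centralizer ({x} : Set G) ≠
      Lc G j ⊔ Subgroup.centralizer ({x} : Set G) := by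
  intro heq
  apply hx
  intro u hu
  have hu' : u ∈ Lc G (j + 1) ⊔ Subgroup.centralizer ({x} : Set G) := by
    rw [heq]; exact Subgroup.mem_sup_left hu
  rw [← SetLike.mem_coe, Subgroup.normal_mul] at hu'
  obtain ⟨v, hv, c, hc, rfl⟩ := Set.mem_mul.1 hu'
  have hcx : c * x = x * c :=
    (Subgroup.mem_centralizer_iff.1 hc x (Set.mem_singleton x)).symm
  have e : ⁅v * c, x⁆ = ⁅v, x⁆ := by
    simp only [commutatorElement_def]
    have h1 : c * x * c⁻¹ = x := by rw [hcx]; group
    calc v * c * x * (v * c)⁻¹ * x⁻¹ = v * (c * x * c⁻¹) * v⁻¹ * x⁻¹ := by group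
      _ = v * x * v⁻¹ * x⁻¹ := by rw [h1]
  rw [e]
  exact Subgroup.commutator_mem_commutator hv (Subgroup.mem_top x)

open Classical in
theorem count_le [Finite G] {p : ℕ} [Fact p.Prime] (hG : IsPGroup p G) (x : G) (j : ℕ) :
    Nat.card (Lc G j ⊔ Subgroup.centralizer ({x} : Set G) : Subgroup G) *
      p ^ ((Finset.range j).filter (fun i => x ∉ Kc G i)).card ≤ Nat.card G := by
  induction j with
  | zero =>
    have e : Lc G 0 ⊔ Subgroup.centralizer ({x} : Set G) = ⊤ := by
      rw [eq_top_iff]; exact le_sup_left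
    rw [e]
    simp
  | succ j ih =>
    have hle : Lc G (j + 1) ⊔ Subgroup.centralizer ({x} : Set G) ≤
        Lc G j ⊔ Subgroup.centralizer ({x} : Set G) :=
      sup_le_sup_right (Subgroup.lowerCentralSeries_antitone _ (Nat.le_succ j)) _
    rw [Finset.range_add_one, Finset.filter_insert]
    by_cases hx : x ∈ Kc G j
    · rw [if_neg (not_not.2 hx)]
      exact le_trans (Nat.mul_le_mul_right _ (Subgroup.card_le_of_le hle)) ih
    · rw [if_pos hx, Finset.card_insert_of_notMem (by simp), pow_succ]
      have h1 := card_mul_le_of_lt hG hle (not_mem_Kc_imp hx)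
      calc Nat.card (Lc G (j + 1) ⊔ Subgroup.centralizer ({x} : Set G) : Subgroup G) *
            (p ^ ((Finset.range j).filter (fun i => x ∉ Kc G i)).card * p)
          = (Nat.card (Lc G (j + 1) ⊔ Subgroup.centralizer ({x} : Set G) : Subgroup G) * p) *
            p ^ ((Finset.range j).filter (fun i => x ∉ Kc G i)).card := by ring
        _ ≤ Nat.card (Lc G j ⊔ Subgroup.centralizer ({x} : Set G) : Subgroup G) *
            p ^ ((Finset.range j).filter (fun i => x ∉ Kc G i)).card :=
            Nat.mul_le_mul_right _ h1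
        _ ≤ Nat.card G := ih

open Classical in
theorem count_le_b [Finite G] {p : ℕ} [Fact p.Prime] (hG : IsPGroup p G) (b : ℕ)
    (hb : ∀ x : G, (Subgroup.centralizer ({x} : Set G)).index ≤ p ^ b) (x : G) (j : ℕ) :
    ((Finset.range j).filter (fun i => x ∉ Kc G i)).card ≤ b := by
  have h1 := count_le hG x j
  have h2 : Nat.card (Subgroup.centralizer ({x} : Set G)) ≤
      Nat.card (Lc G j ⊔ Subgroup.centralizer ({x} : Set G) : Subgroup G) :=
    Subgroup.card_le_of_le le_sup_right
  have h3 : Nat.card (Subgroup.centralizer ({x} : Set G)) *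
      (Subgroup.centralizer ({x} : Set G)).index = Nat.card G := Subgroup.card_mul_index _
  have h4 : Nat.card (Subgroup.centralizer ({x} : Set G)) *
      p ^ ((Finset.range j).filter (fun i => x ∉ Kc G i)).card ≤
      Nat.card (Subgroup.centralizer ({x} : Set G)) *
        (Subgroup.centralizer ({x} : Set G)).index := by
    rw [h3]
    exact le_trans (Nat.mul_le_mul_right _ h2) h1
  have h5 : p ^ ((Finset.range j).filter (fun i => x ∉ Kc G i)).card ≤
      (Subgroup.centralizer ({x} : Set G)).index :=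
    Nat.le_of_mul_le_mul_left h4 Nat.card_pos
  exact (Nat.pow_le_pow_iff_right (Fact.out : p.Prime).one_lt).1 (h5.trans (hb x))

open Classical in
theorem double_count [Fintype G] {p : ℕ} [Fact p.Prime] (hG : IsPGroup p G) (b : ℕ)
    (hb : ∀ x : G, (Subgroup.centralizer ({x} : Set G)).index ≤ p ^ b) (hb0 : b ≠ 0)
    {c : ℕ} (hc : ∀ j < c, Lc G j ≠ ⊥) (hcb : Lc G c = ⊥) :
    (c - 1) * (p - 1) < b * p := by
  have hp : p.Prime := Fact.out
  set n := c - 1 with hn
  set N := Fintype.card G with hN
  have hNpos : 0 < N := Fintype.card_pos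
  -- upper bound
  have hS1 : ∑ x : G, ((Finset.range n).filter (fun i => x ∉ Kc G i)).card ≤ (N - 1) * b := by
    rw [← Finset.sum_erase_add _ _ (Finset.mem_univ (1 : G))]
    have h1 : ((Finset.range n).filter (fun i => (1 : G) ∉ Kc G i)).card = 0 := by
      rw [Finset.card_eq_zero, Finset.filter_eq_empty_iff]
      intro i _ h
      exact h (one_mem _)
    rw [h1, add_zero]
    have h2 := Finset.sum_le_card_nsmul ((Finset.univ : Finset G).erase 1)
      (fun x => ((Finset.range n).filter (fun i => x ∉ Kc G i)).card) b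
      (fun x _ => count_le_b hG b hb x n)
    rw [Finset.card_erase_of_mem (Finset.mem_univ _), Finset.card_univ, smul_eq_mul] at h2
    exact h2
  -- lower bound
  have hS2 : n * ((p - 1) * N) ≤
      p * ∑ x : G, ((Finset.range n).filter (fun i => x ∉ Kc G i)).card := by
    have e : ∑ x : G, ((Finset.range n).filter (fun i => x ∉ Kc G i)).card =
        ∑ i ∈ Finset.range n, ((Finset.univ : Finset G).filter (fun x => x ∉ Kc G i)).card := by
      simp_rw [Finset.card_filter]
      exact Finset.sum_comm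
    rw [e, Finset.mul_sum]
    have h3 := Finset.card_nsmul_le_sum (Finset.range n)
      (fun i => p * ((Finset.univ : Finset G).filter (fun x => x ∉ Kc G i)).card) ((p - 1) * N) ?_
    · rw [Finset.card_range, smul_eq_mul] at h3
      exact h3
    · intro i hi
      have hi' : i + 1 < c := by
        have := Finset.mem_range.1 hi
        omega
      have hne := Kc_ne_top hc hcb hi'
      have h4 := card_mul_le_of_lt hG (le_top : Kc G i ≤ ⊤) hne
      have h5 : Nat.card (⊤ : Subgroup G) = N := by
        rw [Subgroup.card_top, Nat.card_eq_fintype_card]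
      rw [h5] at h4
      have hK : Nat.card (Kc G i) =
          ((Finset.univ : Finset G).filter (fun x => x ∈ Kc G i)).card := by
        rw [Nat.card_eq_fintype_card]
        exact Fintype.card_of_subtype _ (fun x => by simp)
      have h6 := Finset.card_filter_add_card_filter_not
        (s := (Finset.univ : Finset G)) (fun x => x ∈ Kc G i)
      rw [Finset.card_univ, ← hK] at h6
      have h7 : (p - 1) * N = p * N - N := by rw [Nat.sub_mul, one_mul]
      have h8 : p * Nat.card (Kc G i) +
          p * ((Finset.univ : Finset G).filter (fun x => x ∉ Kc G i)).card = p * N := by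
        rw [← mul_add, h6]
      have h9 : p * Nat.card (Kc G i) ≤ N := by rw [mul_comm]; exact h4
      show (p - 1) * N ≤ p * ((Finset.univ : Finset G).filter (fun x => x ∉ Kc G i)).card
      rw [h7]
      omega
  have h10 : p * ∑ x : G, ((Finset.range n).filter (fun i => x ∉ Kc G i)).card ≤
      p * ((N - 1) * b) := Nat.mul_le_mul_left _ hS1
  have h11 : p * ((N - 1) * b) < p * (N * b) := by
    apply Nat.mul_lt_mul_of_pos_left _ hp.pos
    apply Nat.mul_lt_mul_of_pos_right _ (Nat.pos_of_ne_zero hb0)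
    omega
  have h12 : (n * (p - 1)) * N < (b * p) * N := by
    calc (n * (p - 1)) * N = n * ((p - 1) * N) := by ring
      _ ≤ p * ((N - 1) * b) := hS2.trans h10
      _ < p * (N * b) := h11
      _ = (b * p) * N := by ring
  exact Nat.lt_of_mul_lt_mul_right h12

end aux

/-- If G is a finite p-group in which every conjugacy class has at most p^b elements (every element has centralizer of index at most p^b), then G is abelian when b = 0, and when b ≥ 1 its nilpotency class c satisfies (c − 1)(p − 1) < bp, that is c < bp/(p − 1) + 1, and hence c ≤ 2b. -/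
theorem result {G : Type*} [Group G] [Finite G] {p : ℕ} [Fact p.Prime] (hG : IsPGroup p G) (b : ℕ) (hb : ∀ x : G, (Subgroup.centralizer ({x} : Set G)).index ≤ p ^ b) : ∃ c : ℕ, (⊤ : Subgroup G).lowerCentralSeries c = ⊥ ∧ (b ≠ 0 → (c - 1) * (p - 1) < b * p ∧ c ≤ 2 * b) ∧ (b = 0 → c ≤ 1) := by
  classical
  have hp : p.Prime := Fact.out
  have : Group.IsNilpotent G := hG.isNilpotent
  have hex : ∃ n, Lc G n = ⊥ := Subgroup.nilpotent_iff_lowerCentralSeries.1 inferInstance
  have hcb : Lc G (Nat.find hex) = ⊥ := Nat.find_spec hex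
  have hc : ∀ j < Nat.find hex, Lc G j ≠ ⊥ := fun j hj => Nat.find_min hex hj
  refine ⟨Nat.find hex, hcb, ?_, ?_⟩
  · intro hb0
    cases nonempty_fintype G
    have key := double_count hG b hb hb0 hc hcb
    refine ⟨key, ?_⟩
    by_contra hcon
    push Not at hcon
    have ht : 1 ≤ p - 1 := by have := hp.two_le; omega
    have hpt : p = (p - 1) + 1 := by omega
    have h1 : 2 * b * (p - 1) ≤ (Nat.find hex - 1) * (p - 1) :=
      Nat.mul_le_mul_right _ (by omega)
    have h2 : b * p = b * (p - 1) + b := by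
      conv_lhs => rw [hpt]
      ring
    have h3 : b * 1 ≤ b * (p - 1) := Nat.mul_le_mul_left _ ht
    have h4 : 2 * b * (p - 1) = 2 * (b * (p - 1)) := by ring
    omega
  · intro hb0
    subst hb0
    apply Nat.find_min' hex
    show ⁅(⊤ : Subgroup G), (⊤ : Subgroup G)⁆ = ⊥
    rw [Subgroup.commutator_eq_bot_iff_le_centralizer]
    intro x _
    rw [Subgroup.mem_centralizer_iff]
    intro y _
    have h1 := hb y
    rw [pow_zero] at h1
    have h2 : (Subgroup.centralizer ({y} : Set G)).index = 1 := by
      have := Subgroup.index_ne_zero_of_finite (H := Subgroup.centralizer ({y} : Set G))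
      omega
    rw [Subgroup.index_eq_one] at h2
    have h3 : x ∈ Subgroup.centralizer ({y} : Set G) := by rw [h2]; trivial
    exact (Subgroup.mem_centralizer_iff.1 h3 y (Set.mem_singleton y))

end Cfsg.Agent.S3778
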