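import Cfsg.Statements.S3780
import Mathlib

set_option autoImplicit false
open Cfsg

namespace Cfsg.Agent.S3780

theorem L1 {A : Type*} [AddCommGroup A] [Finite A] {p : ℕ} (hp : p.Prime) (a : AddMonoid.End A)
    (ha : a ^ p = 1) :
    Nat.card {x : A // p • x = 0} ≤ (Nat.card {x : A // a x = x}) ^ p := by
  classical
  set N : AddMonoid.End A := a - 1 with hN
  let W : AddSubgroup A := (nsmulAddMonoidHom p : A →+ A).ker
  have hW : ∀ x : A, x ∈ W ↔ p • x = 0 := fun x => by
    simp [W, AddMonoidHom.mem_ker]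
  let K : ℕ → AddSubgroup A := fun i => W ⊓ AddMonoidHom.ker (N ^ i : A →+ A)
  have hK : ∀ i (x : A), x ∈ K i ↔ p • x = 0 ∧ (N ^ i) x = 0 := fun i x => by
    simp only [K, AddSubgroup.mem_inf, hW]
    rfl
  -- N ^ p kills W
  have hNp : ∀ x : A, p • x = 0 → (N ^ p) x = 0 := by
    intro x hx
    have hcomm : Commute a (-1 : AddMonoid.End A) := (Commute.one_right a).neg_right
    obtain ⟨r, hr⟩ := hcomm.exists_add_pow_prime_eq hp
    have hN' : N = a + (-1) := by rw [hN, sub_eq_add_neg]
    rw [hN', hr, ha]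
    have h1 : ((p : AddMonoid.End A) * a * (-1) * r) x = 0 := by
      rw [mul_assoc, mul_assoc, AddMonoid.End.coe_mul, Function.comp_apply,
        AddMonoid.End.natCast_apply, ← map_nsmul, hx, map_zero]
    have h2 : ((1 : AddMonoid.End A) + (-1) ^ p) x = 0 := by
      rcases hp.eq_two_or_odd' with rfl | hodd
      · have : ((1 : AddMonoid.End A) + (-1) ^ 2) = (2 : ℕ) := by norm_num
        rw [this, AddMonoid.End.natCast_apply, hx]
      · rw [hodd.neg_one_pow]; simp
    have h3 : ((1 : AddMonoid.End A) + (-1) ^ p + (p : AddMonoid.End A) * a * (-1) * r) x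
        = ((1 : AddMonoid.End A) + (-1) ^ p) x + ((p : AddMonoid.End A) * a * (-1) * r) x := rfl
    rw [h3, h1, h2, add_zero]
  -- step inequality
  have hstep : ∀ i, Nat.card (K (i + 1)) ≤ Nat.card (K i) * Nat.card (K 1) := by
    intro i
    let g : K (i + 1) →+ K 1 :=
      { toFun := fun x => ⟨(N ^ i) x.1, by
          have hx := (hK (i + 1) x.1).mp x.2
          rw [hK]
          refine ⟨by rw [← map_nsmul, hx.1, map_zero], ?_⟩
          have : (N ^ 1) ((N ^ i) x.1) = (N ^ (i + 1)) x.1 := by
            rw [pow_succ' N i]; simp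
          rw [this, hx.2]⟩
        map_zero' := by ext; simp
        map_add' := fun x y => by ext; simp }
    have h1 : Nat.card (K (i + 1)) = Nat.card g.ker * Nat.card g.range := by
      rw [← AddSubgroup.index_ker, AddSubgroup.card_mul_index]
    have h2 : Nat.card g.ker ≤ Nat.card (K i) := by
      let φ : g.ker → K i := fun x => ⟨x.1.1, by
        have hx := (hK (i + 1) x.1.1).mp x.1.2
        rw [hK]
        refine ⟨hx.1, ?_⟩
        have := x.2
        rw [AddMonoidHom.mem_ker] at this
        have h := congrArg Subtype.val this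
        simpa [g] using h⟩
      refine Nat.card_le_card_of_injective φ ?_
      intro x y hxy
      have := congrArg Subtype.val hxy
      exact Subtype.ext (Subtype.ext this)
    have h3 : Nat.card g.range ≤ Nat.card (K 1) :=
      Nat.card_le_card_of_injective Subtype.val Subtype.val_injective
    rw [h1]
    exact Nat.mul_le_mul h2 h3
  have hind : ∀ i, Nat.card (K i) ≤ (Nat.card (K 1)) ^ i := by
    intro i
    induction i with
    | zero =>
      have : K 0 = ⊥ := by
        ext x
        rw [hK]
        simp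
        intro h; rw [h]; simp
      rw [this]; simp
    | succ i ih =>
      calc Nat.card (K (i + 1)) ≤ Nat.card (K i) * Nat.card (K 1) := hstep i
        _ ≤ (Nat.card (K 1)) ^ i * Nat.card (K 1) := Nat.mul_le_mul_right _ ih
        _ = (Nat.card (K 1)) ^ (i + 1) := by rw [pow_succ]
  have hKp : Nat.card {x : A // p • x = 0} ≤ Nat.card (K p) := by
    let φ : {x : A // p • x = 0} → K p := fun x => ⟨x.1, by rw [hK]; exact ⟨x.2, hNp x.1 x.2⟩⟩
    refine Nat.card_le_card_of_injective φ ?_
    intro x y hxy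
    have h := congrArg Subtype.val hxy
    exact Subtype.ext h
  have hK1 : Nat.card (K 1) ≤ Nat.card {x : A // a x = x} := by
    let φ : K 1 → {x : A // a x = x} := fun x => ⟨x.1, by
      have hx := ((hK 1 x.1).mp x.2).2
      rw [pow_one, hN] at hx
      have : (a - 1) x.1 = a x.1 - x.1 := rfl
      rw [this] at hx
      exact sub_eq_zero.mp hx⟩
    refine Nat.card_le_card_of_injective φ ?_
    intro x y hxy
    have h := congrArg Subtype.val hxy
    exact Subtype.ext h
  calc Nat.card {x : A // p • x = 0} ≤ Nat.card (K p) := hKp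
    _ ≤ (Nat.card (K 1)) ^ p := hind p
    _ ≤ (Nat.card {x : A // a x = x}) ^ p := Nat.pow_le_pow_left hK1 p

theorem gen {V : Type*} [CommGroup V] [Finite V] {p : ℕ} [Fact p.Prime] (hV : IsPGroup p V) :
    ∀ (j : ℕ) (H : Subgroup V), H.index < p ^ (j + 1) →
      ∃ S : Finset V, S.card ≤ j ∧ H ⊔ Subgroup.closure (S : Set V) = ⊤ := by
  classical
  have hp : p.Prime := Fact.out
  intro j
  induction j with
  | zero =>
    intro H hH
    obtain ⟨m, hm⟩ := hV.index H
    have hm0 : m = 0 := by
      by_contra h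
      have : p ^ 1 ≤ p ^ m := Nat.pow_le_pow_right hp.pos (Nat.one_le_iff_ne_zero.mpr h)
      rw [hm, zero_add] at hH
      omega
    rw [hm0, pow_zero, Subgroup.index_eq_one] at hm
    exact ⟨∅, by simp, by rw [hm]; simp⟩
  | succ j ih =>
    intro H hH
    by_cases hHtop : H = ⊤
    · exact ⟨∅, by simp, by rw [hHtop]; simp⟩
    · obtain ⟨s, hs⟩ : ∃ s : V, s ∉ H := by
        by_contra h
        exact hHtop (eq_top_iff.mpr fun x _ => by_contra fun hx => h ⟨x, hx⟩)
      have hle : H ≤ H ⊔ Subgroup.zpowers s := le_sup_left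
      have hrel := Subgroup.relIndex_mul_index hle
      have hne1 : H.relIndex (H ⊔ Subgroup.zpowers s) ≠ 1 := by
        intro h1
        rw [Subgroup.relIndex_eq_one] at h1
        exact hs (h1 (le_sup_right (a := H) (Subgroup.mem_zpowers s)))
      obtain ⟨e, he⟩ := hV.index H
      have hdvd : H.relIndex (H ⊔ Subgroup.zpowers s) ∣ p ^ e := by
        rw [← he, ← hrel]; exact dvd_mul_right _ _
      obtain ⟨m, -, hm⟩ := (Nat.dvd_prime_pow hp).mp hdvd
      have hm0 : m ≠ 0 := by
        rintro rfl
        exact hne1 (by rw [hm, pow_zero])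
      have hpm : p ≤ p ^ m := by
        calc p = p ^ 1 := (pow_one p).symm
          _ ≤ p ^ m := Nat.pow_le_pow_right hp.pos (Nat.one_le_iff_ne_zero.mpr hm0)
      have hidx : (H ⊔ Subgroup.zpowers s).index < p ^ (j + 1) := by
        by_contra hcon
        rw [not_lt] at hcon
        have : p ^ (j + 1 + 1) ≤ H.index := by
          rw [← hrel, hm]
          calc p ^ (j + 1 + 1) = p * p ^ (j + 1) := by rw [pow_succ]; ring
            _ ≤ p ^ m * (H ⊔ Subgroup.zpowers s).index := Nat.mul_le_mul hpm hcon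
        omega
      obtain ⟨S', hS', hS'top⟩ := ih _ hidx
      refine ⟨insert s S', (Finset.card_insert_le s S').trans (Nat.succ_le_succ hS'), ?_⟩
      rw [Finset.coe_insert, Set.insert_eq, Subgroup.closure_union, ← Subgroup.zpowers_eq_closure, ← sup_assoc]
      exact hS'top

theorem closure_top_of_sup_pow {V : Type*} [CommGroup V] [Finite V] {p : ℕ} [Fact p.Prime]
    (hV : IsPGroup p V) (K : Subgroup V)
    (hK : (powMonoidHom p : V →* V).range ⊔ K = ⊤) : K = ⊤ := by
  have key : ∀ (j : ℕ) (v : V), ∃ k ∈ K, ∃ u : V, v = k * u ^ (p ^ j) := by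
    intro j
    induction j with
    | zero => intro v; exact ⟨1, K.one_mem, v, by simp⟩
    | succ j ih =>
      intro v
      obtain ⟨k, hk, u, rfl⟩ := ih v
      have hu : u ∈ (powMonoidHom p : V →* V).range ⊔ K := by rw [hK]; trivial
      obtain ⟨y, ⟨w, rfl⟩, z, hz, rfl⟩ := Subgroup.mem_sup.mp hu
      refine ⟨k * z ^ (p ^ j), K.mul_mem hk (K.pow_mem hz _), w, ?_⟩
      simp only [powMonoidHom_apply]
      rw [mul_pow, ← pow_mul, pow_succ]
      rw [mul_assoc, mul_comm (z ^ p ^ j), mul_comm p]
  obtain ⟨n, hn⟩ := IsPGroup.iff_card.mp hV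
  rw [eq_top_iff]
  intro v _
  obtain ⟨k, hk, u, rfl⟩ := key n v
  rw [← hn, pow_card_eq_one', mul_one]
  exact hk

theorem result {V : Type*} [CommGroup V] [Finite V] {p : ℕ} [Fact p.Prime] (hV : IsPGroup p V) (α : MulAut V) (hα : orderOf α = p) (n : ℕ) (hfix : Nat.card {v : V // α v = v} = p ^ n) : ∃ S : Finset V, S.card ≤ p * n ∧ Subgroup.closure (S : Set V) = ⊤ := by
  classical
  have hp : p.Prime := Fact.out
  -- additive version of α
  let a : AddMonoid.End (Additive V) := MonoidHom.toAdditive α.toMonoidHom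
  have hapow : ∀ (k : ℕ) (x : Additive V), (a ^ k) x = Additive.ofMul ((α ^ k) x.toMul) := by
    intro k
    induction k with
    | zero => intro x; simp
    | succ k ih =>
      intro x
      rw [pow_succ', AddMonoid.End.coe_mul, Function.comp_apply, ih, pow_succ', MulAut.mul_apply]
      rfl
  have ha : a ^ p = 1 := by
    ext x
    rw [hapow, ← hα, pow_orderOf_eq_one]
    rfl
  have h1 := L1 hp a ha
  have h2 : Nat.card {x : Additive V // a x = x} = p ^ n := by
    rw [← hfix]
    rfl
  have h3 : Nat.card {x : Additive V // p • x = 0} = Nat.card (powMonoidHom p : V →* V).ker := by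
    refine Nat.card_congr (Equiv.subtypeEquiv Additive.toMul ?_)
    intro x
    rw [MonoidHom.mem_ker, powMonoidHom_apply]
    rfl
  rw [h2, h3, ← Subgroup.index_range, ← pow_mul, mul_comm n p] at h1
  have h4 : (powMonoidHom p : V →* V).range.index < p ^ (p * n + 1) :=
    lt_of_le_of_lt h1 (Nat.pow_lt_pow_right hp.one_lt (Nat.lt_succ_self _))
  obtain ⟨S, hS, hSt⟩ := gen hV (p * n) _ h4
  exact ⟨S, hS, closure_top_of_sup_pow hV _ hSt⟩

end Cfsg.Agent.S3780
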