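import Cfsg.Statements.S3781
import Mathlib

set_option autoImplicit false
open Cfsg

namespace Cfsg.Agent.S3781

variable {G : Type*} [Group G]

theorem three_subgroups_normal (M : Subgroup G) [M.Normal] (H₁ H₂ H₃ : Subgroup G)
    (h1 : ⁅⁅H₂, H₃⁆, H₁⁆ ≤ M) (h2 : ⁅⁅H₃, H₁⁆, H₂⁆ ≤ M) : ⁅⁅H₁, H₂⁆, H₃⁆ ≤ M := by
  have key : ∀ K : Subgroup G, K ≤ M ↔ K.map (QuotientGroup.mk' M) = ⊥ := by
    intro K
    rw [Subgroup.map_eq_bot_iff, QuotientGroup.ker_mk']
  rw [key, Subgroup.map_commutator, Subgroup.map_commutator] at h1 h2 ⊢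
  exact Subgroup.commutator_commutator_eq_bot_of_rotate h1 h2

/-- the chain `B, [B,G], [B,G,G], ...` -/
def Bch (B : Subgroup G) : ℕ → Subgroup G
  | 0 => B
  | j + 1 => ⁅Bch B j, (⊤ : Subgroup G)⁆

theorem Bch_normal (B : Subgroup G) [B.Normal] : ∀ j, (Bch B j).Normal
  | 0 => by unfold Bch; infer_instance
  | j + 1 => by
    haveI := Bch_normal B j
    unfold Bch
    infer_instance

theorem Bch_comm_lcs (B : Subgroup G) [B.Normal] :
    ∀ k j, ⁅Bch B j, (⊤ : Subgroup G).lowerCentralSeries k⁆ ≤ Bch B (j + k + 1) := by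
  intro k
  induction k with
  | zero => intro j; exact le_refl _
  | succ k ih =>
    intro j
    rw [Subgroup.lowerCentralSeries_succ, Subgroup.commutator_comm]
    haveI := Bch_normal B (j + (k + 1) + 1)
    apply three_subgroups_normal
    · have h1 : ⁅(⊤ : Subgroup G), Bch B j⁆ = Bch B (j + 1) := by
        rw [Subgroup.commutator_comm]; rfl
      rw [h1]
      have := ih (j + 1)
      have e : j + 1 + k + 1 = j + (k + 1) + 1 := by ring
      rw [e] at this
      exact this
    · have h1 := ih j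
      have h2 : ⁅⁅Bch B j, (⊤ : Subgroup G).lowerCentralSeries k⁆, (⊤ : Subgroup G)⁆ ≤
          ⁅Bch B (j + k + 1), (⊤ : Subgroup G)⁆ := Subgroup.commutator_mono h1 le_rfl
      exact h2

theorem eq_bot_of_le_commutator_top [Group.IsNilpotent G] (X : Subgroup G)
    (h : X ≤ ⁅X, (⊤ : Subgroup G)⁆) : X = ⊥ := by
  have key : ∀ k, X ≤ (⊤ : Subgroup G).lowerCentralSeries k := by
    intro k
    induction k with
    | zero => exact le_top
    | succ k ih =>
      rw [Subgroup.lowerCentralSeries_succ]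
      exact h.trans (Subgroup.commutator_mono ih le_rfl)
  obtain ⟨c, hc⟩ := Subgroup.nilpotent_iff_lowerCentralSeries.mp (inferInstance : Group.IsNilpotent G)
  rw [eq_bot_iff, ← hc]
  exact key c

theorem Bch_card [Finite G] {p : ℕ} [Fact p.Prime] (hG : IsPGroup p G) (X : Subgroup G) [X.Normal] :
    ∀ j, Bch X j = ⊥ ∨ Nat.card (Bch X j) * p ^ j ≤ Nat.card X := by
  have hp : p.Prime := Fact.out
  haveI : Group.IsNilpotent G := hG.isNilpotent
  intro j
  induction j with
  | zero => right; simp [Bch]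
  | succ j ih =>
    haveI := Bch_normal X j
    rcases ih with h | h
    · left
      show ⁅Bch X j, (⊤ : Subgroup G)⁆ = ⊥
      rw [h]; exact Subgroup.commutator_bot_left _
    · by_cases hbot : Bch X (j + 1) = ⊥
      · exact Or.inl hbot
      · right
        have hle : Bch X (j + 1) ≤ Bch X j := Subgroup.commutator_le_left _ _
        have hne : Bch X (j + 1) ≠ Bch X j := by
          intro heq
          have h1 : Bch X j ≤ ⁅Bch X j, (⊤ : Subgroup G)⁆ := by
            conv_lhs => rw [← heq]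
            exact le_refl _
          have h2 := eq_bot_of_le_commutator_top _ h1
          rw [h2] at heq
          exact hbot heq
        obtain ⟨a, ha⟩ := IsPGroup.iff_card.mp (hG.to_subgroup (Bch X (j + 1)))
        obtain ⟨b, hb⟩ := IsPGroup.iff_card.mp (hG.to_subgroup (Bch X j))
        have hdvd : Nat.card (Bch X (j + 1)) ∣ Nat.card (Bch X j) := Subgroup.card_dvd_of_le hle
        have hab : a < b := by
          rw [ha, hb] at hdvd
          have h1 : a ≤ b := (Nat.pow_dvd_pow_iff_le_right hp.one_lt).mp hdvd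
          rcases Nat.lt_or_ge a b with h2 | h2
          · exact h2
          · exfalso
            have h3 : a = b := le_antisymm h1 h2
            apply hne
            exact Subgroup.eq_of_le_of_card_ge hle (by rw [ha, hb, h3])
        calc Nat.card (Bch X (j + 1)) * p ^ (j + 1) = p ^ (a + 1) * p ^ j := by
              rw [ha, pow_succ, pow_succ]; ring
          _ ≤ p ^ b * p ^ j := Nat.mul_le_mul_right _ (Nat.pow_le_pow_right hp.pos hab)
          _ = Nat.card (Bch X j) * p ^ j := by rw [hb]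
          _ ≤ Nat.card X := h

theorem Bch_map {Q : Type*} [Group Q] (f : G →* Q) (hf : Function.Surjective f) (B : Subgroup G) :
    ∀ j, (Bch B j).map f = Bch (B.map f) j
  | 0 => rfl
  | j + 1 => by
    show (⁅Bch B j, (⊤ : Subgroup G)⁆).map f = ⁅Bch (B.map f) j, (⊤ : Subgroup Q)⁆
    rw [Subgroup.map_commutator, Bch_map f hf B j, Subgroup.map_top_of_surjective f hf]

theorem lcs_normal (N : Subgroup G) [N.Normal] : ∀ k, (N.lowerCentralSeries k).Normal
  | 0 => by rw [Subgroup.lowerCentralSeries_zero]; infer_instance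
  | k + 1 => by
    haveI := lcs_normal N k
    rw [Subgroup.lowerCentralSeries_succ]
    infer_instance

theorem result {G : Type*} [Group G] [Finite G] {p : ℕ} [Fact p.Prime] (hG : IsPGroup p G) (n : ℕ) (hn : 1 ≤ n) (N : Subgroup G) [N.Normal] (hN : N ≤ (⊤ : Subgroup G).lowerCentralSeries (n - 1)) (i : ℕ) (hi : 1 < i) (hne : N.lowerCentralSeries i ≠ ⊥) : p ^ n ≤ (N.lowerCentralSeries i).relIndex (N.lowerCentralSeries (i - 1)) := by
  have hp : p.Prime := Fact.out
  haveI : Group.IsNilpotent G := hG.isNilpotent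
  obtain ⟨i', rfl⟩ : ∃ i', i = i' + 1 := ⟨i - 1, by omega⟩
  simp only [Nat.add_sub_cancel] at *
  set B := N.lowerCentralSeries i' with hB
  set C := N.lowerCentralSeries (i' + 1) with hC
  have hCB : C = ⁅B, N⁆ := rfl
  haveI hBn : B.Normal := lcs_normal N i'
  haveI hCn : C.Normal := lcs_normal N (i' + 1)
  by_contra hcon
  rw [not_le] at hcon
  -- quotient
  have hker : (QuotientGroup.mk' C).ker = C := QuotientGroup.ker_mk' C
  have hrel : C.relIndex B = Nat.card (B.map (QuotientGroup.mk' C)) := by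
    have h := Subgroup.relIndex_ker (K := B) (QuotientGroup.mk' C)
    rw [hker] at h
    exact h
  set X := B.map (QuotientGroup.mk' C) with hX
  haveI hXn : X.Normal := Subgroup.Normal.map hBn _ (QuotientGroup.mk'_surjective C)
  have hQ : IsPGroup p (G ⧸ C) := hG.to_quotient C
  obtain ⟨e, he⟩ := IsPGroup.iff_card.mp (hQ.to_subgroup X)
  have hen : e ≤ n - 1 := by
    rw [hrel, he] at hcon
    have := (Nat.pow_lt_pow_iff_right hp.one_lt).mp hcon
    omega
  have hXbot : Bch X (n - 1) = ⊥ := by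
    rcases Bch_card hQ X (n - 1) with h | h
    · exact h
    · rw [he] at h
      have h1 : p ^ e ≤ p ^ (n - 1) := Nat.pow_le_pow_right hp.pos hen
      have h2 : Nat.card (Bch X (n - 1)) * p ^ (n - 1) ≤ 1 * p ^ (n - 1) := by
        rw [one_mul]; exact h.trans h1
      have h3 : Nat.card (Bch X (n - 1)) ≤ 1 :=
        Nat.le_of_mul_le_mul_right h2 (Nat.pow_pos hp.pos)
      have h4 : Nat.card (Bch X (n - 1)) = 1 := le_antisymm h3 Nat.card_pos
      exact Subgroup.card_eq_one.mp h4
  have hBle : Bch B (n - 1) ≤ C := by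
    have h1 := Bch_map (QuotientGroup.mk' C) (QuotientGroup.mk'_surjective C) B (n - 1)
    rw [← hX, hXbot, Subgroup.map_eq_bot_iff, hker] at h1
    exact h1
  have hBn' : Bch B n ≤ ⁅C, (⊤ : Subgroup G)⁆ := by
    obtain ⟨n', rfl⟩ : ∃ n', n = n' + 1 := ⟨n - 1, by omega⟩
    simp only [Nat.add_sub_cancel] at hBle
    exact Subgroup.commutator_mono hBle le_rfl
  have hCle : C ≤ Bch B n := by
    rw [hCB]
    have h1 : ⁅B, N⁆ ≤ ⁅Bch B 0, (⊤ : Subgroup G).lowerCentralSeries (n - 1)⁆ :=
      Subgroup.commutator_mono (le_refl B) hN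
    have h2 := Bch_comm_lcs B (n - 1) 0
    have e : 0 + (n - 1) + 1 = n := by omega
    rw [e] at h2
    exact h1.trans h2
  exact hne (eq_bot_of_le_commutator_top C (hCle.trans hBn'))

end Cfsg.Agent.S3781
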