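import Cfsg.Statements.S3784
import Mathlib

set_option autoImplicit false
open Cfsg

namespace Cfsg.Agent.S3784

theorem lemA (q : ℕ) (hq : Odd q) : ∀ k : ℕ, ∃ S : ℕ, Odd S ∧ q ^ (2 * k + 1) + 1 = (q + 1) * S := by
  intro k
  induction k with
  | zero => exact ⟨1, odd_one, by simp⟩
  | succ k ih =>
    obtain ⟨S, hS, hk⟩ := ih
    obtain ⟨t, rfl⟩ := hq
    obtain ⟨s, rfl⟩ := hS
    have hle : 2 * t ≤ (2 * t + 1) * (2 * t + 1) * (2 * s + 1) := by nlinarith
    refine ⟨(2 * t + 1) * (2 * t + 1) * (2 * s + 1) - 2 * t, ?_, ?_⟩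
    · have : Odd ((2 * t + 1) * (2 * t + 1) * (2 * s + 1)) :=
        ((odd_two_mul_add_one t).mul (odd_two_mul_add_one t)).mul (odd_two_mul_add_one s)
      obtain ⟨m, hm⟩ := this
      exact ⟨m - t, by omega⟩
    · have e : 2 * (k + 1) + 1 = (2 * k + 1) + 2 := by ring
      rw [e, pow_add]
      zify [hle]
      zify at hk
      have hk' : ((2 * t + 1 : ℕ) : ℤ) ^ (2 * k + 1) = (2 * t + 1 + 1) * (2 * s + 1) - 1 := by
        push_cast; linarith
      push_cast at hk' ⊢
      rw [hk']
      ring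

theorem lemB (p : ℕ) (hp : Odd p) : ∀ k : ℕ, ∃ T : ℕ, Odd T ∧ p ^ (2 * k + 1) = (p - 1) * T + 1 := by
  intro k
  induction k with
  | zero =>
    refine ⟨1, odd_one, ?_⟩
    obtain ⟨t, rfl⟩ := hp
    simp
  | succ k ih =>
    obtain ⟨T, hT, hk⟩ := ih
    obtain ⟨t, rfl⟩ := hp
    refine ⟨(2 * t + 1) * (2 * t + 1) * T + (2 * t + 1) + 1, ?_, ?_⟩
    · have h1 : Odd ((2 * t + 1) * (2 * t + 1) * T) :=
        ((odd_two_mul_add_one t).mul (odd_two_mul_add_one t)).mul hT
      obtain ⟨m, hm⟩ := h1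
      exact ⟨m + t + 1, by omega⟩
    · have e : 2 * (k + 1) + 1 = (2 * k + 1) + 2 := by ring
      rw [e, pow_add, hk]
      have : 2 * t + 1 - 1 = 2 * t := by omega
      rw [this]
      ring

theorem odd_dvd_two_pow (S n : ℕ) (hS : Odd S) (h : S ∣ 2 ^ n) : S = 1 := by
  obtain ⟨j, -, rfl⟩ := (Nat.dvd_prime_pow Nat.prime_two).mp h
  rcases Nat.eq_zero_or_pos j with rfl | hj
  · simp
  · exfalso
    have : Even (2 ^ j) := (Nat.even_pow).mpr ⟨even_two, hj.ne'⟩
    exact (Nat.not_odd_iff_even.mpr this) hS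

theorem result (p q a b : ℕ) (hp : p.Prime) (hq : q.Prime) (ha : 1 ≤ a) (hb : 1 ≤ b) (h : p ^ a = q ^ b + 1) : (p = 2 ∧ b = 1 ∧ a.Prime ∧ q + 1 = 2 ^ a) ∨ (q = 2 ∧ a = 1 ∧ (∃ m : ℕ, b = 2 ^ m) ∧ p = 2 ^ b + 1) ∨ (p ^ a = 9 ∧ q ^ b = 8) := by
  rcases hp.eq_two_or_odd' with rfl | hpodd
  · -- p = 2
    left
    have hqodd : Odd q := by
      rcases hq.eq_two_or_odd' with rfl | hqo
      · exfalso
        have h1 : Even (2 ^ a) := (Nat.even_pow).mpr ⟨even_two, by omega⟩
        have h2 : Even (2 ^ b) := (Nat.even_pow).mpr ⟨even_two, by omega⟩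
        rw [h] at h1
        exact (Nat.not_even_iff_odd.mpr (h2.add_one)) h1
      · exact hqo
    have hbodd : Odd b := by
      by_contra hbe
      rw [Nat.not_odd_iff_even] at hbe
      obtain ⟨c, rfl⟩ := hbe
      have hq4 : q ^ (c + c) % 4 = 1 := by
        rw [← two_mul, pow_mul]
        have : q ^ 2 % 4 = 1 := by
          obtain ⟨t, rfl⟩ := hqodd
          have : (2 * t + 1) ^ 2 = 4 * (t * t + t) + 1 := by ring
          rw [this]; omega
        rw [Nat.pow_mod, this]; simp
      have ha2 : a = 1 := by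
        by_contra ha1
        have : 2 ≤ a := by omega
        obtain ⟨d, rfl⟩ := Nat.exists_eq_add_of_le this
        have : 2 ^ (2 + d) % 4 = 0 := by rw [pow_add]; norm_num
        omega
      rw [ha2] at h
      have : 2 ≤ q ^ (c + c) := by
        calc 2 ≤ q := hq.two_le
          _ = q ^ 1 := (pow_one q).symm
          _ ≤ q ^ (c + c) := Nat.pow_le_pow_right hq.pos hb
      omega
    obtain ⟨k, rfl⟩ := hbodd
    obtain ⟨S, hSodd, hS⟩ := lemA q hqodd k
    have hS1 : S = 1 := odd_dvd_two_pow S a hSodd (by rw [h, hS]; exact dvd_mul_left _ _)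
    rw [hS1, mul_one] at hS
    have hk : 2 * k + 1 = 1 := by
      have : q ^ (2 * k + 1) = q ^ 1 := by rw [pow_one]; omega
      exact Nat.pow_right_injective hq.two_le this
    have hqa : q + 1 = 2 ^ a := by rw [h, hS]
    refine ⟨rfl, hk, ?_, hqa⟩
    have hqp : (2 ^ a - 1).Prime := by
      have : 2 ^ a - 1 = q := by omega
      rw [this]; exact hq
    have ha1 : a ≠ 1 := by
      rintro rfl
      have : q = 1 := by omega
      exact hq.one_lt.ne' this
    exact (Nat.prime_of_pow_sub_one_prime ha1 hqp).2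
  · -- p odd, so q = 2
    right
    have hq2 : q = 2 := by
      rcases hq.eq_two_or_odd' with rfl | hqo
      · rfl
      · exfalso
        have h1 : Odd (p ^ a) := hpodd.pow
        have h2 : Odd (q ^ b) := hqo.pow
        rw [h] at h1
        exact (Nat.not_odd_iff_even.mpr (h2.add_one)) h1
    subst hq2
    rcases Nat.even_or_odd a with hae | hao
    · -- a even
      right
      obtain ⟨k, rfl⟩ := hae
      have hk : 1 ≤ k := by omega
      have hfac : (p ^ k - 1) * (p ^ k + 1) = 2 ^ b := by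
        have h1 : 1 ≤ p ^ k := Nat.one_le_pow _ _ hp.pos
        have : p ^ (k + k) = p ^ k * p ^ k := pow_add p k k
        rw [this] at h
        zify [h1]
        zify at h
        linarith
      have hd1 : p ^ k - 1 ∣ 2 ^ b := ⟨_, hfac.symm⟩
      have hd2 : p ^ k + 1 ∣ 2 ^ b := ⟨_, by rw [mul_comm]; exact hfac.symm⟩
      obtain ⟨s, -, hs⟩ := (Nat.dvd_prime_pow Nat.prime_two).mp hd1
      obtain ⟨t, -, ht⟩ := (Nat.dvd_prime_pow Nat.prime_two).mp hd2
      have h2 : 2 ≤ p ^ k := by
        calc 2 ≤ p := hp.two_le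
          _ = p ^ 1 := (pow_one p).symm
          _ ≤ p ^ k := Nat.pow_le_pow_right hp.pos hk
      have hst : 2 ^ t = 2 ^ s + 2 := by omega
      have hs1 : s = 1 := by
        rcases Nat.lt_or_ge s 2 with hlt | hge
        · interval_cases s
          · exfalso
            -- 2^t = 3 impossible
            have : 2 ^ t = 3 := by simpa using hst
            have ht2 : t < 2 := by
              by_contra hc
              have : 2 ^ 2 ≤ 2 ^ t := Nat.pow_le_pow_right (by norm_num) (by omega)
              omega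
            interval_cases t <;> omega
          · rfl
        · exfalso
          obtain ⟨d, rfl⟩ := Nat.exists_eq_add_of_le hge
          have hts : 2 + d < t := by
            by_contra hc
            have : 2 ^ t ≤ 2 ^ (2 + d) := Nat.pow_le_pow_right (by norm_num) (by omega)
            omega
          obtain ⟨e, rfl⟩ := Nat.exists_eq_add_of_lt hts
          have e1 : 2 ^ (2 + d + e + 1) = 4 * (2 ^ d * 2 ^ (e + 1)) := by ring
          have e2 : 2 ^ (2 + d) = 4 * 2 ^ d := by ring
          omega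
      rw [hs1] at hs
      have hpk : p ^ k = 3 := by omega
      have hpow : p ^ (k + k) = 9 := by rw [pow_add, hpk]; norm_num
      refine ⟨hpow, ?_⟩
      omega
    · -- a odd
      left
      obtain ⟨k, rfl⟩ := hao
      obtain ⟨T, hTodd, hT⟩ := lemB p hpodd k
      have hT1 : T = 1 := odd_dvd_two_pow T b hTodd (by
        have : (p - 1) * T = 2 ^ b := by omega
        exact ⟨_, by rw [mul_comm]; exact this.symm⟩)
      rw [hT1, mul_one] at hT
      have hk : 2 * k + 1 = 1 := by
        have : p ^ (2 * k + 1) = p ^ 1 := by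
          rw [pow_one, hT]
          have := hp.one_lt
          omega
        exact Nat.pow_right_injective hp.two_le this
      have hpb : p = 2 ^ b + 1 := by
        rw [hk, pow_one] at h; exact h
      refine ⟨rfl, hk, ?_, hpb⟩
      exact Nat.pow_of_pow_add_prime (by norm_num) (by omega) (hpb ▸ hp)

end Cfsg.Agent.S3784
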