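-- Statement S3785.
import Cfsg.Statements.S3785
import Cfsg.Agent.S0044
import Cfsg.Agent.Lib.Helper78.Fitting
import Cfsg.Agent.Lib.Helper24.Coprime

set_option autoImplicit false
open Cfsg

namespace Cfsg.Agent.S3785

open Cfsg.Agent.Lib.Helper78.Fitting Cfsg.Agent.Lib.Helper24.Coprime

/-- The centralizer of a conjugation-invariant set is normal. -/
theorem normal_centralizer_of_invariant {G : Type*} [Group G] (S : Set G)
    (hS : ∀ x ∈ S, ∀ t : G, t * x * t⁻¹ ∈ S) : (Subgroup.centralizer S).Normal := by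
  refine ⟨fun c hc t => ?_⟩
  rw [Subgroup.mem_centralizer_iff] at hc ⊢
  intro x hx
  have h1 := hc (t⁻¹ * x * t) (by simpa using hS x hx t⁻¹)
  calc x * (t * c * t⁻¹) = t * (t⁻¹ * x * t * c) * t⁻¹ := by group
    _ = t * (c * (t⁻¹ * x * t)) * t⁻¹ := by rw [h1]
    _ = t * c * t⁻¹ * x := by group

/-- An element of order prime to `p` commuting with all prime-order elements of `F(G)`, where
`F(G)` has odd order, centralizes `O_p(G)`. -/
theorem centralizes_pCore {G : Type*} [Group G] [Finite G]
    (hodd : Odd (Nat.card (Cfsg.fittingSubgroup G))) (c : G)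
    (hc : ∀ x ∈ Cfsg.fittingSubgroup G, (orderOf x).Prime → c * x = x * c) (p : ℕ)
    [Fact p.Prime] (hcp : (orderOf c).Coprime p) : ∀ x ∈ Cfsg.pCore p G, x * c = c * x := by
  have hPF : Cfsg.pCore p G ≤ Cfsg.fittingSubgroup G := pCore_le_fitting p
  have hP : IsPGroup p (Cfsg.pCore p G) := pCore_isPGroup p
  by_cases hp2 : p = 2
  · subst hp2
    intro x hx
    have h1 : orderOf x ∣ Nat.card (Cfsg.fittingSubgroup G) :=
      Subgroup.orderOf_dvd_natCard _ (hPF hx)
    obtain ⟨k, hk⟩ := hP ⟨x, hx⟩
    have hk' : x ^ 2 ^ k = 1 := by simpa using congrArg Subtype.val hk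
    have h2 : orderOf x ∣ 2 ^ k := orderOf_dvd_of_pow_eq_one hk'
    have h3 : Odd (orderOf x) := hodd.of_dvd_nat h1
    have hcop : Nat.Coprime (orderOf x) (2 ^ k) :=
      Nat.Coprime.pow_right k (Nat.coprime_two_right.mpr h3)
    have h4 : orderOf x = 1 := Nat.Coprime.eq_one_of_dvd hcop h2
    rw [orderOf_eq_one_iff.mp h4, one_mul, mul_one]
  · refine centralizes_of_centralizes_omega p hp2 c hcp (Cfsg.pCore p G) hP ?_ ?_
    · have : (Cfsg.pCore p G).Normal := Cfsg.Agent.Lib.Helper78.Fitting.pCore_normal p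
      rw [Subgroup.normalizer_eq_top]
      exact Subgroup.mem_top c
    · intro x hx hxp
      by_cases hx1 : x = 1
      · rw [hx1, one_mul, mul_one]
      · have hox : orderOf x = p := orderOf_eq_prime hxp hx1
        exact (hc x (hPF hx) (hox ▸ Fact.out)).symm

/-- The prime-power case. -/
theorem mem_fitting_of_prime_pow {G : Type*} [Group G] [Finite G] (hG : Group.IsSolvable G)
    (hodd : Odd (Nat.card (Cfsg.fittingSubgroup G))) (q : ℕ) [Fact q.Prime] (c : G) (k : ℕ)
    (hck : orderOf c = q ^ k)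
    (hc : ∀ x ∈ Cfsg.fittingSubgroup G, (orderOf x).Prime → c * x = x * c) :
    c ∈ Cfsg.fittingSubgroup G := by
  classical
  have hq : q.Prime := Fact.out
  have hFn : (Cfsg.fittingSubgroup G).Normal := fitting_normal
  have hqn : (Cfsg.pCore q G).Normal := Cfsg.Agent.Lib.Helper78.Fitting.pCore_normal q
  obtain ⟨E, hE⟩ : ∃ E : Subgroup G, E = Subgroup.centralizer
      ({x | x ∈ Cfsg.fittingSubgroup G ∧ (orderOf x).Prime} ∪
        {x | ∃ p : ℕ, p.Prime ∧ p ≠ q ∧ x ∈ Cfsg.pCore p G}) := ⟨_, rfl⟩
  have hEn : E.Normal := by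
    rw [hE]
    apply normal_centralizer_of_invariant
    rintro x (⟨hxF, hxo⟩ | ⟨p, hp, hpq, hxp⟩) t
    · left
      refine ⟨hFn.conj_mem x hxF t, ?_⟩
      have := (MulAut.conj t).orderOf_eq x
      rw [MulAut.conj_apply] at this
      rwa [this]
    · right
      exact ⟨p, hp, hpq, (Cfsg.Agent.Lib.Helper78.Fitting.pCore_normal p).conj_mem x hxp t⟩
  have hES : ∀ e ∈ E, ∀ x ∈ Cfsg.fittingSubgroup G, (orderOf x).Prime → e * x = x * e := by
    intro e he x hx hxo
    rw [hE] at he
    exact (Subgroup.mem_centralizer_iff.mp he x (Or.inl ⟨hx, hxo⟩)).symm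
  have hET : ∀ e ∈ E, ∀ p : ℕ, p.Prime → p ≠ q → ∀ x ∈ Cfsg.pCore p G, x * e = e * x := by
    intro e he p hp hpq x hx
    rw [hE] at he
    exact Subgroup.mem_centralizer_iff.mp he x (Or.inr ⟨p, hp, hpq, hx⟩)
  have hcE : c ∈ E := by
    rw [hE, Subgroup.mem_centralizer_iff]
    rintro x (⟨hxF, hxo⟩ | ⟨p, hp, hpq, hxp⟩)
    · exact (hc x hxF hxo).symm
    · haveI : Fact p.Prime := ⟨hp⟩
      refine centralizes_pCore hodd c hc p ?_ x hxp
      rw [hck]
      exact Nat.Coprime.pow_left k ((Nat.coprime_primes hq hp).mpr (Ne.symm hpq))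
  -- elements of `E` of order prime to `q` are centralized by `E`
  have hcent : ∀ y ∈ E, (orderOf y).Coprime q → ∀ e ∈ E, e * y = y * e := by
    intro y hy hyq e he
    have hyall : ∀ p : ℕ, p.Prime → ∀ x ∈ Cfsg.pCore p G, x * y = y * x := by
      intro p hp x hx
      by_cases hpq : p = q
      · subst hpq
        exact centralizes_pCore hodd y (hES y hy) p hyq x hx
      · exact hET y hy p hp hpq x hx
    have hyF : y ∈ Subgroup.centralizer (Cfsg.fittingSubgroup G : Set G) := by
      have hle : Cfsg.fittingSubgroup G ≤ Subgroup.centralizer {y} := by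
        rw [fitting_eq_iSup_pCore]
        refine iSup_le (fun p => ?_)
        intro x hx
        rw [Subgroup.mem_centralizer_iff]
        intro z hz
        rw [Set.mem_singleton_iff] at hz
        subst hz
        exact (hyall p p.2 x hx).symm
      rw [Subgroup.mem_centralizer_iff]
      intro x hx
      exact (Subgroup.mem_centralizer_iff.mp (hle hx) y rfl).symm
    haveI : Group.IsSolvable G := hG
    have hyF' : y ∈ Cfsg.fittingSubgroup G := Cfsg.Agent.S0044.result hyF
    have hFle : Cfsg.fittingSubgroup G ≤ Cfsg.pCore q G ⊔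
        Subgroup.closure {x | ∃ p : ℕ, p.Prime ∧ p ≠ q ∧ x ∈ Cfsg.pCore p G} := by
      rw [fitting_eq_iSup_pCore]
      refine iSup_le (fun p => ?_)
      by_cases hpq : (p : ℕ) = q
      · rw [hpq]; exact le_sup_left
      · refine le_trans ?_ le_sup_right
        intro x hx
        exact Subgroup.subset_closure ⟨(p : ℕ), p.2, hpq, hx⟩
    have hy2 : y ∈ ((Cfsg.pCore q G ⊔
        Subgroup.closure {x | ∃ p : ℕ, p.Prime ∧ p ≠ q ∧ x ∈ Cfsg.pCore p G} : Subgroup G) : Set G) :=
      hFle hyF'
    rw [Subgroup.normal_mul] at hy2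
    obtain ⟨a, ha, b, hb, hab⟩ := Set.mem_mul.mp hy2
    obtain ⟨j, hj⟩ := (pCore_isPGroup (G := G) q) ⟨a, ha⟩
    have hj' : a ^ q ^ j = 1 := by simpa using congrArg Subtype.val hj
    have hya : a * y = y * a :=
      Subgroup.mem_centralizer_iff.mp hyF a ((pCore_le_fitting q) ha)
    have hab' : Commute a b := by
      have hb' : b = a⁻¹ * y := by rw [← hab]; group
      show a * b = b * a
      rw [hb', ← mul_assoc, mul_inv_cancel, one_mul, mul_assoc, ← hya, ← mul_assoc,
        inv_mul_cancel, one_mul]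
    have hyb : y ^ q ^ j = b ^ q ^ j := by
      rw [← hab, hab'.mul_pow, hj', one_mul]
    -- `e` commutes with `b ^ q ^ j`
    have heb : ∀ z ∈ Subgroup.closure {x | ∃ p : ℕ, p.Prime ∧ p ≠ q ∧ x ∈ Cfsg.pCore p G},
        z * e = e * z := by
      have hle : Subgroup.closure {x | ∃ p : ℕ, p.Prime ∧ p ≠ q ∧ x ∈ Cfsg.pCore p G} ≤
          Subgroup.centralizer {e} := by
        rw [Subgroup.closure_le]
        rintro x ⟨p, hp, hpq, hxp⟩
        rw [SetLike.mem_coe, Subgroup.mem_centralizer_iff]
        intro z hz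
        rw [Set.mem_singleton_iff] at hz
        subst hz
        exact (hET z he p hp hpq x hxp).symm
      intro z hz
      exact (Subgroup.mem_centralizer_iff.mp (hle hz) e rfl).symm
    have hew : Commute e (y ^ q ^ j) := by
      rw [hyb]
      exact (heb _ (Subgroup.pow_mem _ hb _)).symm
    have hcop : IsCoprime ((q ^ j : ℕ) : ℤ) ((orderOf y : ℕ) : ℤ) :=
      Nat.isCoprime_iff_coprime.mpr (Nat.Coprime.pow_left j hyq.symm)
    obtain ⟨u, v, huv⟩ := hcop
    have hyw : y = (y ^ q ^ j) ^ u := by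
      have h1 : y = (y ^ q ^ j) ^ u * (y ^ orderOf y) ^ v := by
        rw [← zpow_natCast, ← zpow_natCast, ← zpow_mul, ← zpow_mul, ← zpow_add,
          mul_comm _ u, mul_comm _ v, huv, zpow_one]
      rw [pow_orderOf_eq_one, one_zpow, mul_one] at h1
      exact h1
    rw [hyw]
    exact (hew.zpow_right u).eq
  have hEnil : Group.IsNilpotent E := by
    apply Group.of_quotient_center_nilpotent
    have hpg : IsPGroup q (E ⧸ Subgroup.center E) := by
      intro x
      induction x using QuotientGroup.induction_on with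
      | H e =>
        obtain ⟨k', m, hm, hkm⟩ := Nat.exists_eq_pow_mul_and_not_dvd
          (orderOf_pos (e : G)).ne' q hq.ne_one
        refine ⟨k', ?_⟩
        rw [← QuotientGroup.mk_pow, QuotientGroup.eq_one_iff, Subgroup.mem_center_iff]
        intro e'
        apply Subtype.ext
        simp only [Subgroup.coe_mul, Subgroup.coe_pow]
        refine hcent ((e : G) ^ q ^ k') (Subgroup.pow_mem _ e.2 _) ?_ e' e'.2
        have h1 : ((e : G) ^ q ^ k') ^ m = 1 := by
          rw [← pow_mul, ← hkm, pow_orderOf_eq_one]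
        have h2 : orderOf ((e : G) ^ q ^ k') ∣ m := orderOf_dvd_of_pow_eq_one h1
        have h3 : Nat.Coprime m q := (Nat.Coprime.symm ((Nat.Prime.coprime_iff_not_dvd hq).mpr hm))
        exact Nat.Coprime.coprime_dvd_left h2 h3
    exact hpg.isNilpotent
  exact (le_fitting hEn hEnil) hcE

/-- Let G be a finite solvable group whose Fitting subgroup F(G) has odd order. If an element g of G commutes with every element of prime order of F(G), then g ∈ F(G). -/
theorem result {G : Type*} [Group G] [Finite G] (hG : Group.IsSolvable G) (hodd : Odd (Nat.card (Cfsg.fittingSubgroup G))) (g : G) (hg : ∀ x ∈ Cfsg.fittingSubgroup G, (orderOf x).Prime → g * x = x * g) : g ∈ Cfsg.fittingSubgroup G := by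
  have key : ∀ n : ℕ, ∀ c : G, orderOf c = n →
      (∀ x ∈ Cfsg.fittingSubgroup G, (orderOf x).Prime → c * x = x * c) →
      c ∈ Cfsg.fittingSubgroup G := by
    intro n
    induction n using Nat.strong_induction_on with
    | _ n ih =>
      intro c hcn hc
      by_cases hn1 : n = 1
      · rw [hn1] at hcn
        rw [orderOf_eq_one_iff.mp hcn]
        exact Subgroup.one_mem _
      have hnpos : 0 < n := hcn ▸ orderOf_pos c
      obtain ⟨q, hq, hqn⟩ := Nat.exists_prime_and_dvd hn1
      haveI : Fact q.Prime := ⟨hq⟩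
      obtain ⟨k, m, hm, hkm⟩ := Nat.exists_eq_pow_mul_and_not_dvd hnpos.ne' q hq.ne_one
      by_cases hm1 : m = 1
      · rw [hm1, mul_one] at hkm
        exact mem_fitting_of_prime_pow hG hodd q c k (hcn.trans hkm) hc
      · have hmpos : 0 < m := by
          rcases Nat.eq_zero_or_pos m with h | h
          · rw [h, mul_zero] at hkm; omega
          · exact h
        have hk0 : k ≠ 0 := by
          rintro rfl
          rw [pow_zero, one_mul] at hkm
          exact hm (hkm ▸ hqn)
        have hqk : 1 < q ^ k := Nat.one_lt_pow hk0 hq.one_lt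
        have hcomm : ∀ (i : ℕ), ∀ x ∈ Cfsg.fittingSubgroup G, (orderOf x).Prime →
            c ^ i * x = x * c ^ i := by
          intro i x hx hxo
          have : Commute c x := hc x hx hxo
          exact (this.pow_left i).eq
        have ho1 : orderOf (c ^ q ^ k) = m := by
          rw [orderOf_pow_of_dvd (pow_pos hq.pos k).ne' (by rw [hcn, hkm]; exact dvd_mul_right _ _),
            hcn, hkm, Nat.mul_div_cancel_left _ (pow_pos hq.pos k)]
        have ho2 : orderOf (c ^ m) = q ^ k := by
          rw [orderOf_pow_of_dvd hmpos.ne' (by rw [hcn, hkm]; exact dvd_mul_left _ _),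
            hcn, hkm, Nat.mul_div_cancel _ hmpos]
        have hlt1 : m < n := by
          rw [hkm]; nlinarith
        have hlt2 : q ^ k < n := by
          rw [hkm]
          have : 1 < m := by omega
          nlinarith
        have h1 := ih m hlt1 (c ^ q ^ k) ho1 (hcomm _)
        have h2 := ih (q ^ k) hlt2 (c ^ m) ho2 (hcomm _)
        have hcop : IsCoprime ((q ^ k : ℕ) : ℤ) ((m : ℕ) : ℤ) :=
          Nat.isCoprime_iff_coprime.mpr
            (Nat.Coprime.pow_left k ((Nat.Prime.coprime_iff_not_dvd hq).mpr hm))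
        obtain ⟨u, v, huv⟩ := hcop
        have hce : c = (c ^ q ^ k) ^ u * (c ^ m) ^ v := by
          rw [← zpow_natCast, ← zpow_natCast, ← zpow_mul, ← zpow_mul, ← zpow_add,
            mul_comm _ u, mul_comm _ v, huv, zpow_one]
        rw [hce]
        exact Subgroup.mul_mem _ (Subgroup.zpow_mem _ h1 u) (Subgroup.zpow_mem _ h2 v)
  exact key (orderOf g) g rfl hg

end Cfsg.Agent.S3785
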