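import Cfsg.Statements.S3790
import Cfsg.Agent.Lib.Helper63.PLength

set_option autoImplicit false
open Cfsg

namespace Cfsg.Agent.S3790

open Cfsg.Agent.Lib.Helper63.PLength

universe u

theorem main (p : ℕ) [Fact p.Prime] : ∀ (r : ℕ) (q : Fin r → ℕ) (l : Fin r → ℕ),
    (∀ i, (q i).Prime ∧ q i ≠ p) → ∀ (G : Type u) [Group G] [Finite G],
    (∀ s : ℕ, s.Prime → s ∣ Nat.card G → s ≠ p → ∃ i, q i = s) →
    (∀ i, PLengthLE (q i) (l i) G) → PLengthLE p (∏ i, (1 + l i)) G := by
  have hp : p.Prime := Fact.out
  intro r
  induction r with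
  | zero =>
    intro q l hq G _ _ hcover hl
    rw [Finset.univ_eq_empty, Finset.prod_empty]
    have h1 : Nat.card G = p ^ (Nat.card G).primeFactorsList.length := by
      apply Nat.eq_prime_pow_of_unique_prime_dvd Nat.card_pos.ne'
      intro s hs hdvd
      by_contra hne
      obtain ⟨i, -⟩ := hcover s hs hdvd hne
      exact i.elim0
    exact pLengthLE_one_of_card h1
  | succ r ih =>
    intro q l hq G _ _ hcover hl
    rw [Fin.prod_univ_castSucc]
    have hq' : (q (Fin.last r)).Prime := (hq (Fin.last r)).1
    have hq'p : q (Fin.last r) ≠ p := (hq (Fin.last r)).2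
    haveI : Fact (q (Fin.last r)).Prime := ⟨hq'⟩
    have inner : ∀ (k : ℕ) (G : Type u) [Group G] [Finite G],
        (∀ s : ℕ, s.Prime → s ∣ Nat.card G → s ≠ p → ∃ i, q i = s) →
        (∀ i : Fin r, PLengthLE (q i.castSucc) (l i.castSucc) G) →
        PLengthLE (q (Fin.last r)) k G →
        PLengthLE p ((∏ i : Fin r, (1 + l i.castSucc)) * (1 + k)) G := by
      intro k
      induction k with
      | zero =>
        intro G _ _ hcover hl₀ hk
        have hNtop : (upperPSeries (q (Fin.last r)) G 1).1 = ⊤ := hk
        have hcovN : ∀ s : ℕ, s.Prime → s ∣ Nat.card (upperPSeries (q (Fin.last r)) G 1).1 →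
            s ≠ p → ∃ i : Fin r, q i.castSucc = s := by
          intro s hs hdvd hne
          obtain ⟨j, hj⟩ := hcover s hs (hdvd.trans (Subgroup.card_subgroup_dvd_card _)) hne
          rcases Fin.eq_castSucc_or_eq_last j with ⟨i, rfl⟩ | rfl
          · exact ⟨i, hj⟩
          · exfalso
            have h3 := card_upper_one_coprime (q (Fin.last r)) G
            rw [← hj] at hdvd
            exact (Nat.Prime.coprime_iff_not_dvd hq').1 h3.symm hdvd
        have hN := ih (fun i => q i.castSucc) (fun i => l i.castSucc) (fun i => hq i.castSucc)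
          ↥(upperPSeries (q (Fin.last r)) G 1).1 hcovN
          (fun i => by
            haveI : Fact (q i.castSucc).Prime := ⟨(hq i.castSucc).1⟩
            exact PLengthLE.subgroup (hl₀ i) _)
        rw [add_zero, mul_one]
        apply PLengthLE.of_surjective hN (upperPSeries (q (Fin.last r)) G 1).1.subtype
        intro g
        exact ⟨⟨g, by rw [hNtop]; exact Subgroup.mem_top g⟩, rfl⟩
      | succ k ihk =>
        intro G _ _ hcover hl₀ hk
        -- the quotient by O_{q',q}
        have hQ : PLengthLE (q (Fin.last r)) k (G ⧸ (upperPSeries (q (Fin.last r)) G 2).1) :=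
          PLengthLE.quotient_upper 1 hk
        have hcovQ : ∀ s : ℕ, s.Prime →
            s ∣ Nat.card (G ⧸ (upperPSeries (q (Fin.last r)) G 2).1) → s ≠ p →
            ∃ i, q i = s := fun s hs hdvd hne =>
          hcover s hs (hdvd.trans (Subgroup.card_quotient_dvd_card _)) hne
        have hlQ : ∀ i : Fin r, PLengthLE (q i.castSucc) (l i.castSucc)
            (G ⧸ (upperPSeries (q (Fin.last r)) G 2).1) := by
          intro i
          haveI : Fact (q i.castSucc).Prime := ⟨(hq i.castSucc).1⟩
          exact PLengthLE.of_surjective (hl₀ i) _ (QuotientGroup.mk'_surjective _)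
        have h1 := ihk (G ⧸ (upperPSeries (q (Fin.last r)) G 2).1) hcovQ hlQ hQ
        -- the subgroup O_{q',q}
        have hNM : (upperPSeries (q (Fin.last r)) G 1).1 ≤ (upperPSeries (q (Fin.last r)) G 2).1 :=
          upperPSeries_le_succ _ G 1
        have hcardN' : Nat.card ((upperPSeries (q (Fin.last r)) G 1).1.subgroupOf
            (upperPSeries (q (Fin.last r)) G 2).1)
            = Nat.card (upperPSeries (q (Fin.last r)) G 1).1 :=
          Nat.card_congr (Subgroup.subgroupOfEquivOfLe hNM).toEquiv
        have hcovN : ∀ s : ℕ, s.Prime →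
            s ∣ Nat.card ((upperPSeries (q (Fin.last r)) G 1).1.subgroupOf
              (upperPSeries (q (Fin.last r)) G 2).1) →
            s ≠ p → ∃ i : Fin r, q i.castSucc = s := by
          intro s hs hdvd hne
          rw [hcardN'] at hdvd
          obtain ⟨j, hj⟩ := hcover s hs (hdvd.trans (Subgroup.card_subgroup_dvd_card _)) hne
          rcases Fin.eq_castSucc_or_eq_last j with ⟨i, rfl⟩ | rfl
          · exact ⟨i, hj⟩
          · exfalso
            have h3 := card_upper_one_coprime (q (Fin.last r)) G
            rw [← hj] at hdvd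
            exact (Nat.Prime.coprime_iff_not_dvd hq').1 h3.symm hdvd
        have hN := ih (fun i => q i.castSucc) (fun i => l i.castSucc) (fun i => hq i.castSucc)
          ↥((upperPSeries (q (Fin.last r)) G 1).1.subgroupOf
            (upperPSeries (q (Fin.last r)) G 2).1) hcovN
          (fun i => by
            haveI : Fact (q i.castSucc).Prime := ⟨(hq i.castSucc).1⟩
            exact PLengthLE.subgroup (PLengthLE.subgroup (hl₀ i) _) _)
        have hMN : PLengthLE p 0 (↥(upperPSeries (q (Fin.last r)) G 2).1 ⧸
            (upperPSeries (q (Fin.last r)) G 1).1.subgroupOf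
              (upperPSeries (q (Fin.last r)) G 2).1) := by
          apply pLengthLE_zero_of_coprime
          rw [← Subgroup.index_eq_card]
          obtain ⟨j, hj⟩ := relIndex_upper_one_two (q (Fin.last r)) G
          have hj' : ((upperPSeries (q (Fin.last r)) G 1).1.subgroupOf
              (upperPSeries (q (Fin.last r)) G 2).1).index = q (Fin.last r) ^ j := hj
          rw [hj']
          exact Nat.Coprime.pow_left j ((Nat.coprime_primes hq' hp).2 hq'p)
        have hM := pLengthLE_add ((upperPSeries (q (Fin.last r)) G 1).1.subgroupOf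
            (upperPSeries (q (Fin.last r)) G 2).1) hN hMN
        have h2 := pLengthLE_add (upperPSeries (q (Fin.last r)) G 2).1 hM h1
        have e : (∏ i : Fin r, (1 + l i.castSucc)) * (1 + (k + 1))
            = (∏ i : Fin r, (1 + l i.castSucc)) + 0
              + (∏ i : Fin r, (1 + l i.castSucc)) * (1 + k) := by ring
        rw [e]; exact h2
    exact inner (l (Fin.last r)) G hcover (fun i => hl i.castSucc) (hl (Fin.last r))

/-- Let G be a finite solvable group and p a prime. Suppose p₁, …, p_r are distinct primes, all different from p, that include every prime dividing the order of G other than p, and that G has p_i-length at most l_i for each i. Then G has p-length at most the product of the numbers 1 + l_i. -/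
theorem result {G : Type*} [Group G] [Finite G] (hG : Group.IsSolvable G) (p : ℕ) [Fact p.Prime] (r : ℕ) (q : Fin r → ℕ) (hq : ∀ i, (q i).Prime ∧ q i ≠ p) (hinj : Function.Injective q) (hcover : ∀ s : ℕ, s.Prime → s ∣ Nat.card G → s ≠ p → ∃ i, q i = s) (l : Fin r → ℕ) (hl : ∀ i, Cfsg.PLengthLE (q i) (l i) G) : Cfsg.PLengthLE p (Finset.univ.prod fun i => 1 + l i) G := by
  exact main p r q l hq G hcover hl

end Cfsg.Agent.S3790
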