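import Cfsg.Statements.S3791
import Cfsg.Agent.Lib.Helper63.PLength

set_option autoImplicit false
open Cfsg

namespace Cfsg.Agent.S3791

open Cfsg.Agent.Lib.Helper63.PLength

universe u

lemma derived_le_of_quotient {G : Type*} [Group G] (N : Subgroup G) [N.Normal] (m : ℕ)
    (h : derivedSeries (G ⧸ N) m = ⊥) : derivedSeries G m ≤ N := by
  have h1 := map_derivedSeries_eq (QuotientGroup.mk'_surjective N) m
  rw [h, Subgroup.map_eq_bot_iff, QuotientGroup.ker_mk'] at h1
  exact h1

lemma derived_add {G : Type*} [Group G] (N : Subgroup G) (m d : ℕ)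
    (h1 : derivedSeries G m ≤ N) (h2 : derivedSeries ↥N d = ⊥) :
    derivedSeries G (m + d) = ⊥ := by
  have key : ∀ j, derivedSeries G (m + j) ≤ (derivedSeries ↥N j).map N.subtype := by
    intro j
    induction j with
    | zero =>
      rw [derivedSeries_zero, ← MonoidHom.range_eq_map, Subgroup.range_subtype]; exact h1
    | succ j ih =>
      rw [← add_assoc, derivedSeries_succ, derivedSeries_succ, Subgroup.map_commutator]
      exact Subgroup.commutator_mono ih ih
  have h3 := key d
  rw [h2, Subgroup.map_bot] at h3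
  exact le_bot_iff.1 h3

lemma derived_sylow_quotient {G : Type*} [Group G] [Finite G] {p : ℕ} [Fact p.Prime]
    (N : Subgroup G) [N.Normal] (d : ℕ)
    (h : ∀ S : Sylow p G, derivedSeries ↥(S : Subgroup G) d = ⊥) :
    ∀ S : Sylow p (G ⧸ N), derivedSeries ↥(S : Subgroup (G ⧸ N)) d = ⊥ := by
  intro Sbar
  obtain ⟨S, rfl⟩ := Sylow.mapSurjective_surjective (QuotientGroup.mk'_surjective N) p Sbar
  have h1 := h S
  have h2 := map_derivedSeries_eq
    ((QuotientGroup.mk' N).subgroupMap_surjective (S : Subgroup G)) d
  rw [h1, Subgroup.map_bot] at h2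
  exact h2.symm

lemma derived_of_le_sylow {G : Type*} [Group G] {p : ℕ} (M : Subgroup G) (S : Sylow p G)
    (hMS : M ≤ (S : Subgroup G)) (d : ℕ) (h : derivedSeries ↥(S : Subgroup G) d = ⊥) :
    derivedSeries ↥M d = ⊥ := by
  have h1 := map_derivedSeries_le_derivedSeries (Subgroup.inclusion hMS) d
  rw [h, le_bot_iff, Subgroup.map_eq_bot_iff_of_injective _ (Subgroup.inclusion_injective hMS)]
    at h1
  exact h1

theorem main (r : ℕ) (q : Fin r → ℕ) (hq : ∀ i, (q i).Prime) (d : Fin r → ℕ) :
    ∀ (n : ℕ) (G : Type u) [Group G] [Finite G], Nat.card G = n →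
      (∀ s : ℕ, s.Prime → s ∣ Nat.card G → ∃ i, q i = s) →
      (∀ i (S : Sylow (q i) G), derivedSeries ↥(S : Subgroup G) (d i) = ⊥) →
      ∀ l : Fin r → ℕ, (∀ i, PLengthLE (q i) (l i) G) →
      derivedSeries G (∑ i, d i * l i) = ⊥ := by
  intro n
  induction n using Nat.strong_induction_on with
  | _ n ih =>
  intro G _ _ hn hcover hd l hl
  by_cases htriv : Subsingleton G
  · exact Subsingleton.elim _ _
  have key : ∀ i, derivedSeries G (∑ i, d i * l i) ≤ (upperPSeries (q i) G 1).1 := by
    intro i
    have : Fact (q i).Prime := ⟨hq i⟩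
    by_cases hN : (upperPSeries (q i) G 1).1 = ⊥
    · -- O_{p'}(G) = 1
      have hM : (upperPSeries (q i) G 2).1 ≠ ⊥ := fun h2 =>
        htriv (subsingleton_of_two_eq_bot h2 (hl i))
      have hli : l i ≠ 0 := by
        intro h0
        have h1 : (upperPSeries (q i) G (2 * l i + 1)).1 = ⊤ := hl i
        rw [h0] at h1
        have h2 : (upperPSeries (q i) G 1).1 = ⊤ := h1
        rw [hN] at h2
        apply htriv
        refine ⟨fun a b => ?_⟩
        have ha : a ∈ (⊥ : Subgroup G) := by rw [h2]; exact Subgroup.mem_top a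
        have hb : b ∈ (⊥ : Subgroup G) := by rw [h2]; exact Subgroup.mem_top b
        rw [Subgroup.mem_bot] at ha hb
        rw [ha, hb]
      obtain ⟨k, hk⟩ := Nat.exists_eq_add_one_of_ne_zero hli
      have hlk : PLengthLE (q i) (k + 1) G := by rw [← hk]; exact hl i
      have hQ : PLengthLE (q i) k (G ⧸ (upperPSeries (q i) G 2).1) :=
        PLengthLE.quotient_upper 1 hlk
      have hcard : Nat.card (G ⧸ (upperPSeries (q i) G 2).1) < n := by
        rw [← hn, ← Subgroup.index_eq_card,
          ← Subgroup.index_mul_card (upperPSeries (q i) G 2).1]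
        have h1 : 1 < Nat.card (upperPSeries (q i) G 2).1 :=
          (Subgroup.one_lt_card_iff_ne_bot _).2 hM
        have h2 : 0 < (upperPSeries (q i) G 2).1.index :=
          Nat.pos_of_ne_zero Subgroup.index_ne_zero_of_finite
        nlinarith
      have hl' : ∀ j, PLengthLE (q j) (if j = i then k else l j)
          (G ⧸ (upperPSeries (q i) G 2).1) := by
        intro j
        by_cases hj : j = i
        · subst hj; rw [if_pos rfl]; exact hQ
        · rw [if_neg hj]
          have : Fact (q j).Prime := ⟨hq j⟩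
          exact PLengthLE.of_surjective (hl j) _ (QuotientGroup.mk'_surjective _)
      have hcov' : ∀ s : ℕ, s.Prime → s ∣ Nat.card (G ⧸ (upperPSeries (q i) G 2).1) →
          ∃ i, q i = s := fun s hs hdvd =>
        hcover s hs (hdvd.trans (Subgroup.card_quotient_dvd_card _))
      have hd' : ∀ j (S : Sylow (q j) (G ⧸ (upperPSeries (q i) G 2).1)),
          derivedSeries ↥(S : Subgroup (G ⧸ (upperPSeries (q i) G 2).1)) (d j) = ⊥ := by
        intro j
        have : Fact (q j).Prime := ⟨hq j⟩
        exact derived_sylow_quotient _ (d j) (hd j)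
      have h1 := ih _ hcard (G ⧸ (upperPSeries (q i) G 2).1) rfl hcov' hd' _ hl'
      have h2 := derived_le_of_quotient _ _ h1
      have hMp : IsPGroup (q i) (upperPSeries (q i) G 2).1 := isPGroup_upper_two (q i) G hN
      have hMS : (upperPSeries (q i) G 2).1 ≤ ((default : Sylow (q i) G) : Subgroup G) :=
        hMp.le_sylow_of_normal _
      have h3 := derived_of_le_sylow _ _ hMS (d i) (hd i default)
      have h4 := derived_add _ _ _ h2 h3
      have hsum : (∑ j, d j * if j = i then k else l j) + d i = ∑ j, d j * l j := by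
        rw [← Finset.add_sum_erase Finset.univ _ (Finset.mem_univ i),
          ← Finset.add_sum_erase Finset.univ (fun j => d j * l j) (Finset.mem_univ i)]
        have h5 : ∑ x ∈ Finset.univ.erase i, d x * (if x = i then k else l x)
            = ∑ x ∈ Finset.univ.erase i, d x * l x := by
          apply Finset.sum_congr rfl
          intro x hx
          rw [if_neg (Finset.ne_of_mem_erase hx)]
        rw [h5, if_pos rfl, hk]
        ring
      rw [hsum] at h4
      rw [h4]; exact bot_le
    · -- O_{p'}(G) ≠ 1 : pass to the quotient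
      have hcard : Nat.card (G ⧸ (upperPSeries (q i) G 1).1) < n := by
        rw [← hn, ← Subgroup.index_eq_card,
          ← Subgroup.index_mul_card (upperPSeries (q i) G 1).1]
        have h1 : 1 < Nat.card (upperPSeries (q i) G 1).1 :=
          (Subgroup.one_lt_card_iff_ne_bot _).2 hN
        have h2 : 0 < (upperPSeries (q i) G 1).1.index :=
          Nat.pos_of_ne_zero Subgroup.index_ne_zero_of_finite
        nlinarith
      have hl' : ∀ j, PLengthLE (q j) (l j) (G ⧸ (upperPSeries (q i) G 1).1) := by
        intro j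
        have : Fact (q j).Prime := ⟨hq j⟩
        exact PLengthLE.of_surjective (hl j) _ (QuotientGroup.mk'_surjective _)
      have hcov' : ∀ s : ℕ, s.Prime → s ∣ Nat.card (G ⧸ (upperPSeries (q i) G 1).1) →
          ∃ i, q i = s := fun s hs hdvd =>
        hcover s hs (hdvd.trans (Subgroup.card_quotient_dvd_card _))
      have hd' : ∀ j (S : Sylow (q j) (G ⧸ (upperPSeries (q i) G 1).1)),
          derivedSeries ↥(S : Subgroup (G ⧸ (upperPSeries (q i) G 1).1)) (d j) = ⊥ := by
        intro j
        have : Fact (q j).Prime := ⟨hq j⟩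
        exact derived_sylow_quotient _ (d j) (hd j)
      have h1 := ih _ hcard (G ⧸ (upperPSeries (q i) G 1).1) rfl hcov' hd' _ hl'
      exact derived_le_of_quotient _ _ h1
  -- intersection of the O_{q_i'}(G) is trivial
  rw [eq_bot_iff]
  intro x hx
  rw [Subgroup.mem_bot]
  rw [← orderOf_eq_one_iff, Nat.eq_one_iff_not_exists_prime_dvd]
  intro s hs hdvd
  obtain ⟨i, rfl⟩ := hcover s hs (hdvd.trans (orderOf_dvd_natCard x))
  have : Fact (q i).Prime := ⟨hq i⟩
  have h1 : x ∈ (upperPSeries (q i) G 1).1 := key i hx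
  have h2 : orderOf x ∣ Nat.card (upperPSeries (q i) G 1).1 := by
    have := orderOf_dvd_natCard (⟨x, h1⟩ : (upperPSeries (q i) G 1).1)
    rwa [Subgroup.orderOf_mk] at this
  have h3 := card_upper_one_coprime (q i) G
  exact (Nat.Prime.coprime_iff_not_dvd (hq i)).1 h3.symm (hdvd.trans h2)

/-- The Hall–Higman bound on derived length: let G be a finite solvable group, let p₁, …, p_r be distinct primes that include every prime dividing the order of G, and suppose that for each i the Sylow p_i-subgroups of G have derived length at most d_i and G has p_i-length at most l_i. Then G has derived length at most Σ d_i l_i. -/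
theorem result {G : Type*} [Group G] [Finite G] (hG : Group.IsSolvable G) (r : ℕ) (q : Fin r → ℕ) (hq : ∀ i, (q i).Prime) (hinj : Function.Injective q) (hcover : ∀ s : ℕ, s.Prime → s ∣ Nat.card G → ∃ i, q i = s) (d l : Fin r → ℕ) (hd : ∀ i, ∀ P : Subgroup G, (haveI := Fact.mk (hq i); ∃ S : Sylow (q i) G, (S : Subgroup G) = P) → derivedSeries ↥P (d i) = ⊥) (hl : ∀ i, Cfsg.PLengthLE (q i) (l i) G) : derivedSeries G (Finset.univ.sum fun i => d i * l i) = ⊥ := by
  exact main r q hq d (Nat.card G) G rfl hcover (fun i S => hd i S ⟨S, rfl⟩) l hl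

end Cfsg.Agent.S3791
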