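import Cfsg.Statements.S3797
import Cfsg.Agent.Lib.Helper2.ThAsm
import Cfsg.Agent.Lib.Helper32.Homocyc
import Cfsg.Agent.Lib.Helper63.PLength

set_option autoImplicit false
open Cfsg

namespace Cfsg.Agent.S3797

open Cfsg.Agent.Lib.Helper2.ThAsm Cfsg.Agent.Lib.Helper32.Homocyc

/-- conjugation by an element of the normalizer, as an automorphism of the subgroup -/
def conjAut {G : Type*} [Group G] (S : Subgroup G) (n : Subgroup.normalizer (S : Set G)) :
    MulAut ↥S where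
  toFun s := ⟨n * s * (n : G)⁻¹, (Subgroup.mem_normalizer_iff.1 n.2 s).1 s.2⟩
  invFun s := ⟨(n : G)⁻¹ * s * n, by
    have := (Subgroup.mem_normalizer_iff.1 (Subgroup.inv_mem _ n.2) s).1 s.2
    simpa using this⟩
  left_inv s := by apply Subtype.ext; show (n : G)⁻¹ * (n * s * (n : G)⁻¹) * n = s; group
  right_inv s := by apply Subtype.ext; show (n : G) * ((n : G)⁻¹ * s * n) * (n : G)⁻¹ = s; group
  map_mul' s t := by
    apply Subtype.ext
    show (n : G) * (s * t) * (n : G)⁻¹ = (n * s * (n : G)⁻¹) * (n * t * (n : G)⁻¹)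
    group

def conjHom {G : Type*} [Group G] (S : Subgroup G) :
    Subgroup.normalizer (S : Set G) →* MulAut ↥S where
  toFun := conjAut S
  map_one' := by
    ext s
    show ((1 : G) * s * (1 : G)⁻¹ : G) = s
    group
  map_mul' a b := by
    ext s
    show ((a * b : G) * s * (a * b : G)⁻¹ : G) = a * (b * s * (b : G)⁻¹) * (a : G)⁻¹
    group

theorem result {G : Type*} [Group G] [Finite G] (hG : Group.IsSolvable G) (heven : Even (Nat.card G)) (S : Sylow 2 G) (htwo : ∃ x y : G, x ∈ (S : Subgroup G) ∧ y ∈ (S : Subgroup G) ∧ x ≠ y ∧ x ≠ 1 ∧ x ^ 2 = 1 ∧ y ≠ 1 ∧ y ^ 2 = 1) (hconj : ∀ x y : G, x ≠ 1 → x ^ 2 = 1 → y ≠ 1 → y ^ 2 = 1 → IsConj x y) : Cfsg.PLengthLE 2 1 G ∧ ((∃ m r : ℕ, Nonempty (↥(S : Subgroup G) ≃* (Fin r → Multiplicative (ZMod (2 ^ m))))) ∨ (¬ IsMulCommutative (S : Subgroup G) ∧ ∃ Y : Subgroup (MulAut ↥(S : Subgroup G)), Group.IsSolvable Y ∧ ∀ x y : ↥(S : Subgroup G), x ≠ 1 → x ^ 2 = 1 → y ≠ 1 → y ^ 2 = 1 → ∃ a ∈ Y,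 a x = y)) := by
  classical
  haveI : Fact (Nat.Prime 2) := ⟨Nat.prime_two⟩
  haveI := hG
  set O := Cfsg.pPrimeCore 2 G with hOdef
  have hOcard : (Nat.card O).Coprime 2 := Cfsg.Agent.Lib.Helper23.Cores.pPrimeCore_card_coprime 2
  let π := QuotientGroup.mk' O
  have hπ : Function.Surjective π := QuotientGroup.mk'_surjective O
  have hOq : ∀ K : Subgroup (G ⧸ O), K.Normal → (Nat.card K).Coprime 2 → K = ⊥ :=
    Cfsg.Agent.Lib.Helper55.SolvCore.quotient_pPrimeCore_core_trivial 2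
  have hsolq : Group.IsSolvable (G ⧸ O) := inferInstance
  -- S ∩ O = 1
  have hOS : ∀ s : G, s ∈ (S : Subgroup G) → s ∈ O → s = 1 := by
    intro s hs hsO
    obtain ⟨k, hk⟩ := S.isPGroup' ⟨s, hs⟩
    have hk' : s ^ 2 ^ k = 1 := by
      have := congrArg Subtype.val hk
      simpa using this
    have h1 : orderOf s ∣ 2 ^ k := orderOf_dvd_of_pow_eq_one hk'
    have h2 : orderOf s ∣ Nat.card O := by
      have h3 : orderOf (⟨s, hsO⟩ : O) ∣ Nat.card O := orderOf_dvd_natCard _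
      rwa [Subgroup.orderOf_mk] at h3
    have hcop : Nat.Coprime (2 ^ k) (Nat.card O) := Nat.Coprime.pow_left _ hOcard.symm
    exact orderOf_eq_one_iff.1 (Nat.eq_one_of_dvd_coprimes hcop h1 h2)
  -- lifting involutions
  have hlift : ∀ xb : G ⧸ O, xb ≠ 1 → xb ^ 2 = 1 → ∃ x : G, π x = xb ∧ x ≠ 1 ∧ x ^ 2 = 1 := by
    intro xb hxb1 hxb2
    obtain ⟨g, rfl⟩ := hπ xb
    have hg2 : g ^ 2 ∈ O := by
      have : π (g ^ 2) = 1 := by rw [map_pow]; exact hxb2
      exact (QuotientGroup.eq_one_iff _).1 this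
    have hodd : Odd (Nat.card O) := by
      rw [← Nat.not_even_iff_odd, even_iff_two_dvd]
      intro h
      have := Nat.Coprime.eq_one_of_dvd hOcard.symm h
      omega
    obtain ⟨j, hj⟩ := hodd
    have hpow : (g ^ 2) ^ Nat.card O = 1 := by
      have h3 : (⟨g ^ 2, hg2⟩ : O) ^ Nat.card O = 1 := pow_card_eq_one'
      have := congrArg Subtype.val h3
      rwa [Subgroup.coe_pow, Subgroup.coe_one] at this
    refine ⟨g ^ Nat.card O, ?_, ?_, ?_⟩
    · rw [map_pow, hj, pow_succ, pow_mul, hxb2, one_pow, one_mul]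
    · intro h
      apply hxb1
      have h4 : π (g ^ Nat.card O) = π g := by
        rw [map_pow, hj, pow_succ, pow_mul, hxb2, one_pow, one_mul]
      rw [← h4, h, map_one]
    · rw [← pow_mul, mul_comm, pow_mul]; exact hpow
  have hconjq : ∀ x y : G ⧸ O, x ≠ 1 → x ^ 2 = 1 → y ≠ 1 → y ^ 2 = 1 →
      ∃ g : G ⧸ O, g * x * g⁻¹ = y := by
    intro xb yb hx1 hx2 hy1 hy2
    obtain ⟨x, rfl, hx1', hx2'⟩ := hlift xb hx1 hx2
    obtain ⟨y, rfl, hy1', hy2'⟩ := hlift yb hy1 hy2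
    obtain ⟨c, hc⟩ := isConj_iff.1 (hconj x y hx1' hx2' hy1' hy2')
    refine ⟨π c, ?_⟩
    rw [← hc]; simp
  obtain ⟨x0, y0, hx0S, hy0S, hxy, hx1, hx2, hy1, hy2⟩ := htwo
  have h2q : ∃ x y : G ⧸ O, x ≠ y ∧ x ≠ 1 ∧ x ^ 2 = 1 ∧ y ≠ 1 ∧ y ^ 2 = 1 := by
    refine ⟨π x0, π y0, ?_, ?_, ?_, ?_, ?_⟩
    · intro h
      have h1 : x0⁻¹ * y0 ∈ O := by
        have h5 : π (x0⁻¹ * y0) = 1 := by rw [map_mul, map_inv, h]; simp
        exact (QuotientGroup.eq_one_iff _).1 h5
      have := hOS _ (Subgroup.mul_mem _ (Subgroup.inv_mem _ hx0S) hy0S) h1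
      exact hxy (inv_mul_eq_one.1 this)
    · intro h
      exact hx1 (hOS x0 hx0S ((QuotientGroup.eq_one_iff _).1 h))
    · rw [← map_pow, hx2, map_one]
    · intro h
      exact hy1 (hOS y0 hy0S ((QuotientGroup.eq_one_iff _).1 h))
    · rw [← map_pow, hy2, map_one]
  obtain ⟨Qb, hQbn, hQbp, hQbc, hQball⟩ := core hsolq hOq hconjq h2q
  haveI := hQbn
  have hmain : ∀ x y : G, x ∈ (S : Subgroup G) → y ∈ (S : Subgroup G) → x ≠ 1 → x ^ 2 = 1 →
      y ≠ 1 → y ^ 2 = 1 → ∃ n ∈ Subgroup.normalizer ((S : Subgroup G) : Set G), n * x * n⁻¹ = y := by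
    intro x y hxS hyS hx1' hx2' hy1' hy2'
    obtain ⟨c, hc⟩ := isConj_iff.1 (hconj x y hx1' hx2' hy1' hy2')
    set L := Qb.comap π with hLdef
    haveI hLn : L.Normal := hQbn.comap π
    have hSL : (S : Subgroup G) ≤ L := by
      intro s hs
      obtain ⟨k, hk⟩ := S.isPGroup' ⟨s, hs⟩
      have hk' : s ^ 2 ^ k = 1 := by
        have := congrArg Subtype.val hk
        simpa using this
      show π s ∈ Qb
      apply hQball (π s) k
      rw [← map_pow, hk', map_one]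
    have hfr := Sylow.normalizer_sup_eq_top' S hSL
    have hcmem : c ∈ (↑(Subgroup.normalizer (S : Set G) ⊔ L) : Set G) := by
      rw [hfr]; exact Set.mem_univ c
    rw [Subgroup.mul_normal] at hcmem
    obtain ⟨n, hn0, l, hl, rfl⟩ := Set.mem_mul.1 hcmem
    have hn : n ∈ Subgroup.normalizer ((S : Subgroup G) : Set G) := hn0
    refine ⟨n, hn, ?_⟩
    have hn' : n⁻¹ ∈ Subgroup.normalizer ((S : Subgroup G) : Set G) := Subgroup.inv_mem _ hn
    have hxl : l * x * l⁻¹ ∈ (S : Subgroup G) := by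
      have h1 := (Subgroup.mem_normalizer_iff.1 hn' y).1 hyS
      have h2 : n⁻¹ * y * n⁻¹⁻¹ = l * x * l⁻¹ := by rw [← hc]; group
      rwa [h2] at h1
    have hπl : π l ∈ Qb := hl
    have hπx2 : (π x) ^ 2 = 1 := by rw [← map_pow, hx2', map_one]
    have hcomm := hQbc (π x) hπx2 (π l) hπl
    have hO' : l * x * l⁻¹ * x⁻¹ ∈ O := by
      apply (QuotientGroup.eq_one_iff _).1
      show π (l * x * l⁻¹ * x⁻¹) = 1
      rw [map_mul, map_mul, map_mul, map_inv, map_inv, ← hcomm]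
      group
    have h3 := hOS _ (Subgroup.mul_mem _ hxl (Subgroup.inv_mem _ hxS)) hO'
    have h4 : l * x * l⁻¹ = x := by
      have := mul_inv_eq_one.1 h3
      exact this
    rw [← hc]
    calc n * x * n⁻¹ = n * (l * x * l⁻¹) * n⁻¹ := by rw [h4]
      _ = n * l * x * (n * l)⁻¹ := by group
  constructor
  · -- p-length
    have h1 : Cfsg.PLengthLE 2 0 O :=
      Cfsg.Agent.Lib.Helper63.PLength.pLengthLE_zero_of_coprime hOcard
    have ha : Cfsg.PLengthLE 2 1 Qb := by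
      obtain ⟨n, hn⟩ := (IsPGroup.iff_card).1 hQbp
      exact Cfsg.Agent.Lib.Helper63.PLength.pLengthLE_one_of_card hn
    have hb : Cfsg.PLengthLE 2 0 ((G ⧸ O) ⧸ Qb) := by
      apply Cfsg.Agent.Lib.Helper63.PLength.pLengthLE_zero_of_coprime
      rw [Nat.coprime_comm, Nat.Prime.coprime_iff_not_dvd Nat.prime_two]
      intro hdvd
      obtain ⟨gb, hgb⟩ := exists_prime_orderOf_dvd_card' 2 hdvd
      obtain ⟨g, rfl⟩ := QuotientGroup.mk'_surjective Qb gb
      have hg1 : g ∉ Qb := by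
        intro h
        have : (QuotientGroup.mk' Qb) g = 1 := (QuotientGroup.eq_one_iff _).2 h
        rw [this, orderOf_one] at hgb
        omega
      have hg2 : g ^ 2 ∈ Qb := by
        have := pow_orderOf_eq_one (QuotientGroup.mk' Qb g)
        rw [hgb, ← map_pow] at this
        exact (QuotientGroup.eq_one_iff _).1 this
      obtain ⟨k, hk⟩ := hQbp ⟨g ^ 2, hg2⟩
      have hk' : (g ^ 2) ^ 2 ^ k = 1 := by
        have := congrArg Subtype.val hk
        simpa using this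
      apply hg1
      apply hQball g (k + 1)
      rw [pow_succ, mul_comm, pow_mul]; exact hk'
    have hq : Cfsg.PLengthLE 2 (1 + 0) (G ⧸ O) :=
      Cfsg.Agent.Lib.Helper63.PLength.pLengthLE_add Qb ha hb
    exact Cfsg.Agent.Lib.Helper63.PLength.pLengthLE_add O h1 hq
  · have hmain' : ∀ x y : ↥(S : Subgroup G), x ≠ 1 → x ^ 2 = 1 → y ≠ 1 → y ^ 2 = 1 →
        ∃ n : Subgroup.normalizer ((S : Subgroup G) : Set G), conjAut (S : Subgroup G) n x = y := by
      intro x y hx1' hx2' hy1' hy2'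
      have h1 : (x : G) ≠ 1 := fun h => hx1' (Subtype.ext h)
      have h2 : (x : G) ^ 2 = 1 := by
        have := congrArg Subtype.val hx2'
        simpa using this
      have h3 : (y : G) ≠ 1 := fun h => hy1' (Subtype.ext h)
      have h4 : (y : G) ^ 2 = 1 := by
        have := congrArg Subtype.val hy2'
        simpa using this
      obtain ⟨n, hn, hnxy⟩ := hmain x y x.2 y.2 h1 h2 h3 h4
      exact ⟨⟨n, hn⟩, Subtype.ext hnxy⟩
    by_cases hcS : IsMulCommutative ↥(S : Subgroup G)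
    · left
      letI : CommGroup ↥(S : Subgroup G) :=
        { (inferInstance : Group ↥(S : Subgroup G)) with
          mul_comm := fun a b => hcS.is_comm.comm a b }
      refine homocyclic_of_transitive S.isPGroup' ?_
      intro x y hx1' hx2' hy1' hy2'
      obtain ⟨n, hn⟩ := hmain' x y hx1' hx2' hy1' hy2'
      exact ⟨conjAut (S : Subgroup G) n, hn⟩
    · right
      refine ⟨hcS, (conjHom (S : Subgroup G)).range, ?_, ?_⟩
      · exact Group.isSolvable_of_surjective (MonoidHom.rangeRestrict_surjective (conjHom (S : Subgroup G)))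
      · intro x y hx1' hx2' hy1' hy2'
        obtain ⟨n, hn⟩ := hmain' x y hx1' hx2' hy1' hy2'
        exact ⟨conjAut (S : Subgroup G) n, ⟨n, rfl⟩, hn⟩

end Cfsg.Agent.S3797
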