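import Cfsg.Statements.S3799
import Cfsg.Agent.Lib.Helper63.PFrattini

set_option autoImplicit false
open Cfsg

namespace Cfsg.Agent.S3799

open scoped commutatorElement
open Matrix

/-- The abstract Heisenberg group on `F^n × F^n × F`. -/
@[ext] structure Heis (n : ℕ) (F : Type) where
  a : Fin n → F
  b : Fin n → F
  c : F

variable {n : ℕ} {F : Type} [CommRing F]

namespace Heis

instance : Mul (Heis n F) := ⟨fun x y => ⟨x.a + y.a, x.b + y.b, x.c + y.c + x.a ⬝ᵥ y.b⟩⟩
instance : One (Heis n F) := ⟨⟨0, 0, 0⟩⟩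
instance : Inv (Heis n F) := ⟨fun x => ⟨-x.a, -x.b, -x.c + x.a ⬝ᵥ x.b⟩⟩

@[simp] lemma mul_a (x y : Heis n F) : (x * y).a = x.a + y.a := rfl
@[simp] lemma mul_b (x y : Heis n F) : (x * y).b = x.b + y.b := rfl
@[simp] lemma mul_c (x y : Heis n F) : (x * y).c = x.c + y.c + x.a ⬝ᵥ y.b := rfl
@[simp] lemma one_a : (1 : Heis n F).a = 0 := rfl
@[simp] lemma one_b : (1 : Heis n F).b = 0 := rfl
@[simp] lemma one_c : (1 : Heis n F).c = 0 := rfl
@[simp] lemma inv_a (x : Heis n F) : (x⁻¹).a = -x.a := rfl
@[simp] lemma inv_b (x : Heis n F) : (x⁻¹).b = -x.b := rfl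
@[simp] lemma inv_c (x : Heis n F) : (x⁻¹).c = -x.c + x.a ⬝ᵥ x.b := rfl

instance : Group (Heis n F) := Group.ofLeftAxioms
  (by
    intro x y z
    refine Heis.ext ?_ ?_ ?_
    · simp [add_assoc]
    · simp [add_assoc]
    · simp [add_dotProduct, dotProduct_add]; ring)
  (by
    intro x
    refine Heis.ext ?_ ?_ ?_ <;> simp)
  (by
    intro x
    refine Heis.ext ?_ ?_ ?_ <;> simp)

lemma pow_eq (x : Heis n F) (k : ℕ) :
    x ^ k = ⟨(k : F) • x.a, (k : F) • x.b, (k : F) * x.c + ((k.choose 2 : ℕ) : F) * (x.a ⬝ᵥ x.b)⟩ := by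
  induction k with
  | zero => refine Heis.ext ?_ ?_ ?_ <;> simp
  | succ k ih =>
    rw [pow_succ, ih]
    refine Heis.ext ?_ ?_ ?_
    · simp [add_smul]
    · simp [add_smul]
    · simp [Nat.choose_succ_succ', smul_dotProduct]; ring

lemma mem_center_iff' (x : Heis n F) : x ∈ Subgroup.center (Heis n F) ↔ x.a = 0 ∧ x.b = 0 := by
  classical
  rw [Subgroup.mem_center_iff]
  constructor
  · intro h
    constructor
    · funext i
      have h1 := congrArg Heis.c (h ⟨0, Pi.single i 1, 0⟩)
      simpa using h1.symm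
    · funext i
      have h1 := congrArg Heis.c (h ⟨Pi.single i 1, 0, 0⟩)
      simpa using h1
  · rintro ⟨ha, hb⟩ g
    refine Heis.ext ?_ ?_ ?_ <;> simp [ha, hb, add_comm]

lemma comm_eq (x y : Heis n F) : ⁅x, y⁆ = ⟨0, 0, x.a ⬝ᵥ y.b - y.a ⬝ᵥ x.b⟩ := by
  rw [commutatorElement_def]
  refine Heis.ext ?_ ?_ ?_
  · simp
  · simp
  · simp [add_dotProduct]; ring

lemma commutator_eq_center (hn : 0 < n) :
    commutator (Heis n F) = Subgroup.center (Heis n F) := by
  classical
  apply le_antisymm
  · rw [commutator_def, Subgroup.commutator_le]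
    intro x _ y _
    rw [comm_eq, mem_center_iff']
    exact ⟨rfl, rfl⟩
  · intro z hz
    obtain ⟨ha, hb⟩ := (mem_center_iff' z).1 hz
    have h1 : z = ⁅(⟨Pi.single ⟨0, hn⟩ z.c, 0, 0⟩ : Heis n F), ⟨0, Pi.single ⟨0, hn⟩ 1, 0⟩⁆ := by
      rw [comm_eq]
      refine Heis.ext ?_ ?_ ?_ <;> simp [ha, hb]
    rw [h1, commutator_def]
    exact Subgroup.commutator_mem_commutator (Subgroup.mem_top _) (Subgroup.mem_top _)

/-- coordinate projections as homomorphisms -/
def projA (i : Fin n) : Heis n F →* Multiplicative F where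
  toFun x := Multiplicative.ofAdd (x.a i)
  map_one' := rfl
  map_mul' _ _ := rfl

def projB (i : Fin n) : Heis n F →* Multiplicative F where
  toFun x := Multiplicative.ofAdd (x.b i)
  map_one' := rfl
  map_mul' _ _ := rfl

lemma projA_surjective (i : Fin n) : Function.Surjective (projA (F := F) i) := by
  classical
  intro t
  refine ⟨⟨Pi.single i (Multiplicative.toAdd t), 0, 0⟩, ?_⟩
  show Multiplicative.ofAdd ((Pi.single i (Multiplicative.toAdd t) : Fin n → F) i) = t
  simp

lemma projB_surjective (i : Fin n) : Function.Surjective (projB (F := F) i) := by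
  classical
  intro t
  refine ⟨⟨0, Pi.single i (Multiplicative.toAdd t), 0⟩, ?_⟩
  show Multiplicative.ofAdd ((Pi.single i (Multiplicative.toAdd t) : Fin n → F) i) = t
  simp

def equivProd : Heis n F ≃ (Fin n → F) × (Fin n → F) × F where
  toFun x := (x.a, x.b, x.c)
  invFun t := ⟨t.1, t.2.1, t.2.2⟩
  left_inv _ := rfl
  right_inv _ := rfl

/-- the nilpotent part of the matrix of an element -/
def nil (x : Heis n F) : Matrix (Fin n ⊕ Bool) (Fin n ⊕ Bool) F :=
  Matrix.of fun i j => match i, j with
    | .inr false, .inl j => x.a j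
    | .inr false, .inr true => x.c
    | .inl i, .inr true => x.b i
    | _, _ => 0

lemma nil_one : nil (1 : Heis n F) = 0 := by
  ext i j
  rcases i with i | (_ | _) <;> rcases j with j | (_ | _) <;> simp [nil]

lemma nil_mul (x y : Heis n F) : nil (x * y) = nil x + nil y + nil x * nil y := by
  ext i j
  rcases i with i | (_ | _) <;> rcases j with j | (_ | _) <;>
    simp [nil, Matrix.mul_apply, Fintype.sum_sum_type, dotProduct]

/-- the matrix representation -/
def toMat : Heis n F →* Matrix (Fin n ⊕ Bool) (Fin n ⊕ Bool) F where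
  toFun x := 1 + nil x
  map_one' := by rw [nil_one, add_zero]
  map_mul' x y := by
    rw [nil_mul]
    noncomm_ring

lemma toMat_injective : Function.Injective (toMat (n := n) (F := F)) := by
  intro x y h
  have h1 : nil x = nil y := add_left_cancel (a := (1 : Matrix (Fin n ⊕ Bool) (Fin n ⊕ Bool) F)) h
  refine Heis.ext ?_ ?_ ?_
  · funext j
    have := congrFun (congrFun h1 (.inr false)) (.inl j)
    simpa [nil] using this
  · funext i
    have := congrFun (congrFun h1 (.inl i)) (.inr true)
    simpa [nil] using this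
  · have := congrFun (congrFun h1 (.inr false)) (.inr true)
    simpa [nil] using this

end Heis

lemma isCoatom_of_index_prime {G : Type*} [Group G] (K : Subgroup G) (h : K.index.Prime) :
    IsCoatom K := by
  refine ⟨?_, ?_⟩
  · intro htop
    rw [htop, Subgroup.index_top] at h
    exact Nat.not_prime_one h
  · intro L hL
    have h1 := Subgroup.relIndex_mul_index hL.le
    rcases (Nat.dvd_prime h).1 (Dvd.intro_left _ h1) with h2 | h2
    · exact Subgroup.index_eq_one.1 h2
    · exfalso
      rw [h2] at h1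
      have h3 : K.relIndex L = 1 := by
        have : K.relIndex L * K.index = 1 * K.index := by rw [h1, one_mul]
        exact Nat.eq_of_mul_eq_mul_right h.pos this
      exact (not_le_of_gt hL) (Subgroup.relIndex_eq_one.1 h3)

/-- Being extraspecial is invariant under isomorphism. -/
theorem isExtraspecial_of_mulEquiv {P P' : Type*} [Group P] [Group P'] {p : ℕ} (e : P ≃* P')
    (h : Cfsg.IsExtraspecial p P) : Cfsg.IsExtraspecial p P' := by
  obtain ⟨⟨hp, hfr, hcomm⟩, hcard⟩ := h
  have hcen : ∀ x : P', x ∈ Subgroup.center P' ↔ e.symm x ∈ Subgroup.center P := by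
    intro x
    rw [Subgroup.mem_center_iff, Subgroup.mem_center_iff]
    constructor
    · intro hx g
      have := congrArg e.symm (hx (e g))
      simpa using this
    · intro hx g
      have := congrArg e (hx (e.symm g))
      simpa using this
  have hfrat : ∀ x : P', x ∈ frattini P' ↔ e.symm x ∈ frattini P := by
    intro x
    constructor
    · intro hx
      exact frattini_le_comap_frattini_of_surjective (φ := e.symm.toMonoidHom) e.symm.surjective hx
    · intro hx
      have := frattini_le_comap_frattini_of_surjective (φ := e.toMonoidHom) e.surjective hx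
      simpa using this
  have hmap : (Subgroup.center P).map e.toMonoidHom = Subgroup.center P' := by
    ext x
    rw [hcen]
    constructor
    · rintro ⟨y, hy, rfl⟩
      simpa using hy
    · intro hx
      exact ⟨e.symm x, hx, by simp⟩
  refine ⟨⟨hp.of_equiv e, ?_, ?_⟩, ?_⟩
  · ext x
    rw [hfrat, hcen, hfr]
  · have h1 : commutator P' = (commutator P).map e.toMonoidHom := by
      rw [commutator_def, commutator_def, Subgroup.map_commutator,
        Subgroup.map_top_of_surjective _ e.surjective]
    rw [h1, hcomm, hmap]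
  · rw [← hmap, Subgroup.card_map_of_injective e.injective]
    exact hcard

section ZModp

variable (p : ℕ) [Fact p.Prime]

instance : Finite (Heis n (ZMod p)) := Finite.of_equiv _ (Heis.equivProd (n := n) (F := ZMod p)).symm

omit [Fact p.Prime] in
lemma card_heis : Nat.card (Heis n (ZMod p)) = p ^ (1 + 2 * n) := by
  rw [Nat.card_congr (Heis.equivProd (n := n) (F := ZMod p))]
  simp only [Nat.card_prod, Nat.card_fun, Nat.card_zmod, Nat.card_fin]
  ring

lemma pow_p (hp2 : p ≠ 2) (x : Heis n (ZMod p)) : x ^ p = 1 := by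
  have hp : p.Prime := Fact.out
  rw [Heis.pow_eq]
  have h1 : ((p : ℕ) : ZMod p) = 0 := CharP.cast_eq_zero (ZMod p) p
  have h2 : ((p.choose 2 : ℕ) : ZMod p) = 0 := by
    rw [ZMod.natCast_eq_zero_iff]
    apply hp.dvd_choose_self (by norm_num)
    have := hp.two_le
    omega
  rw [h1, h2]
  refine Heis.ext ?_ ?_ ?_ <;> simp

lemma card_center : Nat.card (Subgroup.center (Heis n (ZMod p))) = p := by
  have h : Nat.card (Subgroup.center (Heis n (ZMod p))) = Nat.card (ZMod p) := Nat.card_congr
    { toFun := fun z => z.1.c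
      invFun := fun c => ⟨⟨0, 0, c⟩, (Heis.mem_center_iff' _).2 ⟨rfl, rfl⟩⟩
      left_inv := fun z => by
        obtain ⟨ha, hb⟩ := (Heis.mem_center_iff' z.1).1 z.2
        apply Subtype.ext
        refine Heis.ext ?_ ?_ ?_
        · exact ha.symm
        · exact hb.symm
        · rfl
      right_inv := fun c => rfl }
  rw [h, Nat.card_zmod]

lemma ker_index {f : Heis n (ZMod p) →* Multiplicative (ZMod p)} (hf : Function.Surjective f) :
    f.ker.index = p := by
  rw [Subgroup.index_ker, MonoidHom.range_eq_top.2 hf, Subgroup.card_top]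
  rw [Nat.card_congr Multiplicative.toAdd, Nat.card_zmod]

theorem heis_extraspecial (hn : 0 < n) : Cfsg.IsExtraspecial p (Heis n (ZMod p)) := by
  have hp : p.Prime := Fact.out
  have hP : IsPGroup p (Heis n (ZMod p)) := IsPGroup.of_card (card_heis p)
  refine ⟨⟨hP, ?_, Heis.commutator_eq_center hn⟩, card_center p⟩
  apply le_antisymm
  · intro x hx
    rw [Cfsg.Agent.Lib.Helper63.PFrattini.mem_frattini_iff] at hx
    rw [Heis.mem_center_iff']
    constructor
    · funext i
      have h1 := hx _ (isCoatom_of_index_prime (Heis.projA (F := ZMod p) i).ker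
        (by rw [ker_index p (Heis.projA_surjective i)]; exact hp))
      rw [MonoidHom.mem_ker] at h1
      exact ofAdd_eq_one.1 h1
    · funext i
      have h1 := hx _ (isCoatom_of_index_prime (Heis.projB (F := ZMod p) i).ker
        (by rw [ker_index p (Heis.projB_surjective i)]; exact hp))
      rw [MonoidHom.mem_ker] at h1
      exact ofAdd_eq_one.1 h1
  · rw [← Heis.commutator_eq_center hn]
    exact Cfsg.Agent.Lib.Helper63.PFrattini.commutator_le_frattini hP

end ZModp

/-- For every odd prime p and every n ≥ 1 there is an extraspecial p-group of order p^(1+2n) and exponent p; concretely, the general linear group of degree n + 2 over the field with p elements contains such a subgroup. -/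
theorem result (p : ℕ) [Fact p.Prime] (hp : p ≠ 2) (n : ℕ) (hn : 1 ≤ n) : ∃ E : Subgroup (Matrix.GeneralLinearGroup (Fin (n + 2)) (ZMod p)), Cfsg.IsExtraspecial p ↥E ∧ Nat.card E = p ^ (1 + 2 * n) ∧ ∀ x ∈ E, x ^ p = 1 := by
  classical
  have hcard : Fintype.card (Fin n ⊕ Bool) = n + 2 := by simp
  let e : Fin n ⊕ Bool ≃ Fin (n + 2) := Fintype.equivFinOfCardEq hcard
  let r : Matrix (Fin n ⊕ Bool) (Fin n ⊕ Bool) (ZMod p) ≃* Matrix (Fin (n + 2)) (Fin (n + 2)) (ZMod p) :=
    (Matrix.reindexAlgEquiv (ZMod p) (ZMod p) e).toMulEquiv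
  let ι : Heis n (ZMod p) →* Matrix.GeneralLinearGroup (Fin (n + 2)) (ZMod p) :=
    (Units.mapEquiv r).toMonoidHom.comp (Heis.toMat (n := n) (F := ZMod p)).toHomUnits
  have hinj : Function.Injective ι := by
    intro x y h
    have h1 : (Heis.toMat (n := n) (F := ZMod p)).toHomUnits x = (Heis.toMat (n := n) (F := ZMod p)).toHomUnits y :=
      (Units.mapEquiv r).injective h
    have h2 := congrArg Units.val h1
    rw [MonoidHom.coe_toHomUnits, MonoidHom.coe_toHomUnits] at h2
    exact Heis.toMat_injective h2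
  refine ⟨ι.range, isExtraspecial_of_mulEquiv (MonoidHom.ofInjective hinj) (heis_extraspecial p hn), ?_, ?_⟩
  · rw [← Nat.card_congr (MonoidHom.ofInjective hinj).toEquiv, card_heis]
  · rintro _ ⟨h, rfl⟩
    rw [← map_pow, pow_p p hp, map_one]

end Cfsg.Agent.S3799
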