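import Cfsg.Statements.S3979
import Mathlib

set_option autoImplicit false
open Cfsg

namespace Cfsg.Agent.S3979

/-- In a stem extension of a cyclic group the kernel is trivial. -/
theorem ker_eq_bot_of_isCyclic {Γ : Type*} {G : Type*} [Group Γ] [Group G] [IsCyclic G]
    (σ : Γ →* G) (hσ : Cfsg.IsStemExtension σ) : σ.ker = ⊥ := by
  obtain ⟨hsurj, hcent, hcomm⟩ := hσ
  -- Γ is commutative since Γ / center is cyclic
  have hcomm2 : ∀ a b : Γ, a * b = b * a := by
    intro a b
    have := MonoidHom.isMulCommutative_of_isCyclic_of_ker_le_center σ hcent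
    exact mul_comm' a b
  have hcommutator : commutator Γ = ⊥ := by
    rw [commutator_def, Subgroup.commutator_eq_bot_iff_le_centralizer]
    intro x _
    rw [Subgroup.mem_centralizer_iff]
    intro y _
    exact hcomm2 y x
  exact le_bot_iff.mp (hcommutator ▸ hcomm)

/-- A finite cyclic group has trivial Schur multiplier. -/
theorem result {G : Type*} [Group G] [Finite G] [IsCyclic G] : Cfsg.HasCyclicSchurMultiplier G 1 := by
  constructor
  · refine ⟨G, inferInstance, inferInstance, MonoidHom.id G, ?_, ?_⟩
    · refine ⟨Function.surjective_id, ?_, ?_⟩ <;> simp [MonoidHom.ker_id]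
    · refine ⟨?_⟩
      have h1 : (MonoidHom.id G).ker = ⊥ := MonoidHom.ker_id
      rw [h1]
      haveI : Unique (Multiplicative (ZMod 1)) := by
        change Unique (ZMod 1)
        infer_instance
      exact MulEquiv.ofUnique
  · intro Γ _ _ σ hσ
    have hk := ker_eq_bot_of_isCyclic σ hσ
    refine ⟨1, ?_⟩
    intro x
    refine ⟨1, ?_⟩
    have hx : (x : Γ) ∈ (⊥ : Subgroup Γ) := hk ▸ x.2
    rw [Subgroup.mem_bot] at hx
    apply Subtype.ext
    simp [hx]

end Cfsg.Agent.S3979
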