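import Cfsg.Statements.S3950
import Mathlib
import Cfsg.Agent.Lib.Helper66.Stem
import Cfsg.Agent.Lib.Helper66.Heis
import Cfsg.Agent.S3979

set_option autoImplicit false
open Cfsg
open scoped commutatorElement

namespace Cfsg.Agent.S3950

open Cfsg.Agent.Lib.Helper66.Stem Cfsg.Agent.Lib.Helper66.Heis

universe u

/-- A product of cyclic groups of pairwise coprime orders is cyclic. -/
theorem isCyclic_pi_of_coprime {ι : Type} [Fintype ι] (n : ι → ℕ)
    (hcop : Pairwise (Function.onFun Nat.Coprime n)) :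
    IsCyclic ((i : ι) → Multiplicative (ZMod (n i))) := by
  let E := ZMod.prodEquivPi n hcop
  let f : Multiplicative (ZMod (∏ i, n i)) →* ((i : ι) → Multiplicative (ZMod (n i))) :=
    { toFun := fun x i => Multiplicative.ofAdd (E x.toAdd i)
      map_one' := by
        funext i
        show Multiplicative.ofAdd (E 0 i) = 1
        rw [map_zero]; rfl
      map_mul' := by
        intro x y
        funext i
        show Multiplicative.ofAdd (E (x.toAdd + y.toAdd) i) = _
        rw [map_add]; rfl }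
  have hf : Function.Surjective f := by
    intro y
    obtain ⟨x, hx⟩ := E.surjective (fun i => (y i).toAdd)
    refine ⟨Multiplicative.ofAdd x, ?_⟩
    funext i
    show Multiplicative.ofAdd (E x i) = y i
    rw [hx]; rfl
  exact isCyclic_of_surjective f hf

/-- A non-cyclic finite abelian group maps onto `C_p × C_p` for some prime `p`. -/
theorem exists_surj_of_not_cyclic {G : Type u} [CommGroup G] [Finite G] (h : ¬ IsCyclic G) :
    ∃ (p : ℕ) (_ : p.Prime) (φ : G →* Multiplicative (ZMod p × ZMod p)), Function.Surjective φ := by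
  classical
  obtain ⟨ι, _, n, hn, ⟨e⟩⟩ := CommGroup.equiv_prod_multiplicative_zmod_of_finite G
  by_cases hcop : Pairwise (Function.onFun Nat.Coprime n)
  · exfalso
    apply h
    have := isCyclic_pi_of_coprime n hcop
    exact isCyclic_of_surjective e.symm.toMonoidHom e.symm.surjective
  · rw [Pairwise] at hcop
    push Not at hcop
    obtain ⟨i, j, hij, hnc⟩ := hcop
    change ¬ Nat.Coprime (n i) (n j) at hnc
    rw [Nat.Prime.not_coprime_iff_dvd] at hnc
    obtain ⟨p, hp, hpi, hpj⟩ := hnc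
    let ci : ZMod (n i) →+* ZMod p := ZMod.castHom hpi (ZMod p)
    let cj : ZMod (n j) →+* ZMod p := ZMod.castHom hpj (ZMod p)
    let ψ : ((k : ι) → Multiplicative (ZMod (n k))) →* Multiplicative (ZMod p × ZMod p) :=
      { toFun := fun x => Multiplicative.ofAdd (ci (x i).toAdd, cj (x j).toAdd)
        map_one' := by
          show Multiplicative.ofAdd (ci 0, cj 0) = 1
          rw [map_zero, map_zero]; rfl
        map_mul' := by
          intro x y
          show Multiplicative.ofAdd (ci ((x i).toAdd + (y i).toAdd), cj ((x j).toAdd + (y j).toAdd)) = _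
          rw [map_add, map_add]; rfl }
    refine ⟨p, hp, ψ.comp e.toMonoidHom, ?_⟩
    suffices hψ : Function.Surjective ψ by
      intro t
      obtain ⟨x, hx⟩ := hψ t
      obtain ⟨g, hg⟩ := e.surjective x
      exact ⟨g, by show ψ (e g) = t; rw [hg, hx]⟩
    intro t
    obtain ⟨a, ha⟩ := ZMod.castHom_surjective hpi t.toAdd.1
    obtain ⟨b, hb⟩ := ZMod.castHom_surjective hpj t.toAdd.2
    let x : (k : ι) → Multiplicative (ZMod (n k)) :=
      Function.update (Function.update (fun _ => 1) i (Multiplicative.ofAdd a)) j (Multiplicative.ofAdd b)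
    refine ⟨x, ?_⟩
    have hxi : x i = Multiplicative.ofAdd a := by
      simp only [x]
      rw [Function.update_of_ne hij, Function.update_self]
    have hxj : x j = Multiplicative.ofAdd b := by
      simp only [x]
      rw [Function.update_self]
    show Multiplicative.ofAdd (ci (x i).toAdd, cj (x j).toAdd) = t
    rw [hxi, hxj]
    show Multiplicative.ofAdd (ci a, cj b) = t
    have ha' : ci a = t.toAdd.1 := ha
    have hb' : cj b = t.toAdd.2 := hb
    rw [ha', hb']
    rfl

/-- From a surjection onto `C_p × C_p` we get a stem extension with nontrivial kernel. -/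
theorem exists_stem_of_surj {G : Type u} [CommGroup G] [Finite G] (p : ℕ) (hp : p.Prime)
    (φ : G →* Multiplicative (ZMod p × ZMod p)) (hφ : Function.Surjective φ) :
    ∃ (Γ : Type u) (_ : Group Γ) (_ : Finite Γ) (σ : Γ →* G), Cfsg.IsStemExtension σ ∧ σ.ker ≠ ⊥ := by
  have : NeZero p := ⟨hp.ne_zero⟩
  have : Fact p.Prime := ⟨hp⟩
  let H := Heis p p dvd_rfl
  let P : H →* Multiplicative (ZMod p × ZMod p) := proj p p dvd_rfl
  let Γ : Subgroup (G × H) :=
    MonoidHom.eqLocus (φ.comp (MonoidHom.fst G H)) (P.comp (MonoidHom.snd G H))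
  have hmem : ∀ x : G × H, x ∈ Γ ↔ φ x.1 = P x.2 := fun x => Iff.rfl
  let σ : Γ →* G := (MonoidHom.fst G H).comp Γ.subtype
  have hσ : ∀ x : Γ, σ x = x.1.1 := fun x => rfl
  have hker : ∀ x : Γ, x ∈ σ.ker → x.1.2 ∈ P.ker := by
    intro x hx
    rw [MonoidHom.mem_ker, hσ] at hx
    rw [MonoidHom.mem_ker]
    have := (hmem x.1).mp x.2
    rw [← this, hx, map_one]
  refine ⟨Γ, inferInstance, inferInstance, σ, ⟨?_, ?_, ?_⟩, ?_⟩
  · intro g
    obtain ⟨e, he⟩ := proj_surjective (m := p) (n := p) (h := dvd_rfl) (φ g)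
    exact ⟨⟨(g, e), (hmem (g, e)).mpr he.symm⟩, rfl⟩
  · intro x hx
    have h2 := ker_proj_le_center (hker x hx)
    rw [Subgroup.mem_center_iff] at h2 ⊢
    intro y
    apply Subtype.ext
    apply Prod.ext
    · show y.1.1 * x.1.1 = x.1.1 * y.1.1
      exact mul_comm _ _
    · show y.1.2 * x.1.2 = x.1.2 * y.1.2
      exact h2 y.1.2
  · intro x hx
    have h1 : x.1.1 = 1 := by
      rw [MonoidHom.mem_ker, hσ] at hx; exact hx
    have h2 := (mem_ker_proj x.1.2).mp (hker x hx)
    have h3 : x.1.2 = ⟨0, 0, x.1.2.c⟩ := by ext <;> simp [h2.1, h2.2]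
    obtain ⟨g₁, hg₁⟩ := hφ (P ⟨1, 0, 0⟩)
    obtain ⟨g₂, hg₂⟩ := hφ (P ⟨0, x.1.2.c, 0⟩)
    let γ₁ : Γ := ⟨(g₁, ⟨1, 0, 0⟩), (hmem _).mpr hg₁⟩
    let γ₂ : Γ := ⟨(g₂, ⟨0, x.1.2.c, 0⟩), (hmem _).mpr hg₂⟩
    have : x = ⁅γ₁, γ₂⁆ := by
      apply Subtype.ext
      apply Prod.ext
      · show x.1.1 = ⁅g₁, g₂⁆
        rw [h1, commutatorElement_def, mul_comm g₁ g₂]; group
      · show x.1.2 = ⁅(⟨1, 0, 0⟩ : H), (⟨0, x.1.2.c, 0⟩ : H)⁆
        rw [← central_eq_commutator]
        exact h3
    rw [this]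
    exact Subgroup.commutator_mem_commutator (Subgroup.mem_top _) (Subgroup.mem_top _)
  · intro hbot
    have hz : (⟨((1 : G), (⟨0, 0, 1⟩ : H)), (hmem _).mpr (by rw [map_one]; rfl)⟩ : Γ) ∈ σ.ker := by
      rw [MonoidHom.mem_ker]; rfl
    rw [hbot, Subgroup.mem_bot] at hz
    have h1 := congrArg (fun y : Γ => y.1.2.c) hz
    have h2 : (1 : ZMod p) = 0 := h1
    exact one_ne_zero h2

theorem result {G : Type*} [CommGroup G] [Finite G] : Cfsg.HasCyclicSchurMultiplier G 1 ↔ IsCyclic G := by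
  constructor
  · intro h
    by_contra hnc
    obtain ⟨p, hp, φ, hφ⟩ := exists_surj_of_not_cyclic hnc
    obtain ⟨Γ, _, _, σ, hσ, hne⟩ := exists_stem_of_surj p hp φ hφ
    exact hne (ker_eq_bot_of_hasCyclicSchurMultiplier_one h Γ σ hσ)
  · intro h
    exact Cfsg.Agent.S3979.result

end Cfsg.Agent.S3950
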