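import Cfsg.Statements.S3951
import Mathlib
import Cfsg.Agent.Lib.Helper66.Stem
import Cfsg.Agent.Lib.Helper66.Heis

set_option autoImplicit false
open Cfsg
open scoped commutatorElement

namespace Cfsg.Agent.S3951

open Cfsg.Agent.Lib.Helper66.Stem Cfsg.Agent.Lib.Helper66.Heis

/-- `ZMod m × ZMod n` is generated by `(1, 0)` and `(0, 1)`. -/
theorem closure_gens (m n : ℕ) [NeZero m] [NeZero n] :
    Subgroup.closure ({Multiplicative.ofAdd ((1, 0) : ZMod m × ZMod n),
      Multiplicative.ofAdd ((0, 1) : ZMod m × ZMod n)} : Set (Multiplicative (ZMod m × ZMod n))) = ⊤ := by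
  rw [eq_top_iff]
  intro t _
  have ht : t = Multiplicative.ofAdd ((1, 0) : ZMod m × ZMod n) ^ (t.toAdd.1.val) *
      Multiplicative.ofAdd ((0, 1) : ZMod m × ZMod n) ^ (t.toAdd.2.val) := by
    rw [← ofAdd_nsmul, ← ofAdd_nsmul, ← ofAdd_add]
    apply Multiplicative.toAdd.injective
    show t.toAdd = _
    ext <;> simp
  rw [ht]
  exact Subgroup.mul_mem _ (Subgroup.pow_mem _ (Subgroup.subset_closure (by simp)) _)
    (Subgroup.pow_mem _ (Subgroup.subset_closure (by simp)) _)

theorem result (m n : ℕ) [NeZero m] [NeZero n] (hnm : n ∣ m) : Cfsg.HasCyclicSchurMultiplier (Multiplicative (ZMod m × ZMod n)) n := by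
  constructor
  · exact ⟨Heis m n hnm, inferInstance, inferInstance, proj m n hnm, proj_isStemExtension, ⟨kerEquiv m n hnm⟩⟩
  · intro Γ _ _ σ hσ
    obtain ⟨hsurj, hcent, hcomm⟩ := hσ
    obtain ⟨X, hX⟩ := hsurj (Multiplicative.ofAdd ((1, 0) : ZMod m × ZMod n))
    obtain ⟨Y, hY⟩ := hsurj (Multiplicative.ofAdd ((0, 1) : ZMod m × ZMod n))
    have hw : ⁅X, Y⁆ ∈ σ.ker := by
      rw [MonoidHom.mem_ker, map_commutatorElement, commutatorElement_def]
      rw [mul_comm (σ X) (σ Y)]; group
    have hwc := hcent hw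
    rw [Subgroup.mem_center_iff] at hwc
    have hle : commutator Γ ≤ Subgroup.zpowers ⁅X, Y⁆ := by
      apply commutator_le_zpowers σ hcent ({X, Y} : Set Γ)
      · rw [Set.image_pair, hX, hY]; exact closure_gens m n
      · intro s _
        left
        rw [hwc s]; group
      · rintro s (rfl | rfl) t (rfl | rfl)
        · rw [commutatorElement_self]; exact Subgroup.one_mem _
        · exact Subgroup.mem_zpowers _
        · have : ⁅s, t⁆ = ⁅t, s⁆⁻¹ := (commutatorElement_inv t s).symm
          rw [this]; exact Subgroup.inv_mem _ (Subgroup.mem_zpowers _)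
        · rw [commutatorElement_self]; exact Subgroup.one_mem _
    apply exists_surjective_zmod_of_le_zpowers σ.ker ⁅X, Y⁆ n ?_ (le_trans hcomm hle)
    -- w ^ n = 1
    have hYn : Y ^ n ∈ σ.ker := by
      rw [MonoidHom.mem_ker, map_pow, hY, ← ofAdd_nsmul]
      have : n • ((0, 1) : ZMod m × ZMod n) = 0 := by
        ext <;> simp
      rw [this]; rfl
    have hYc := hcent hYn
    rw [Subgroup.mem_center_iff] at hYc
    have h1 : X * Y * X⁻¹ = ⁅X, Y⁆ * Y := by rw [commutatorElement_def]; group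
    have h2 : X * Y ^ n * X⁻¹ = (X * Y * X⁻¹) ^ n := by
      have := map_pow (MulAut.conj X) Y n
      simpa [MulAut.conj_apply] using this
    have h3 : Commute ⁅X, Y⁆ Y := (hwc Y).symm
    rw [h1, h3.mul_pow] at h2
    have h4 : X * Y ^ n * X⁻¹ = Y ^ n := by rw [hYc X]; group
    rw [h4] at h2
    exact (mul_eq_right.mp h2.symm)

end Cfsg.Agent.S3951
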