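import Cfsg.Statements.S3952
import Mathlib
import Cfsg.Prelude.Def_Characters
import Cfsg.Agent.Lib.CT.MatCoeff
import Cfsg.Agent.Lib.CT.Orth

set_option autoImplicit false
open Cfsg

namespace Cfsg.Agent.S3952

open Matrix Cfsg.Agent.Lib.CT.MatCoeff Cfsg.Agent.Lib.CT.Orth Cfsg.Agent.Lib.CT.Wedderburn

/-- Central character data of an irreducible character with respect to a central subgroup
contained in the commutator subgroup: the degree `d`, the linear character `ω` of `K` with
`χ k = ω k * d`, and `ω ^ d = 1` (determinant argument). -/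
theorem exists_central_char {Γ : Type*} [Group Γ] [Finite Γ] (K : Subgroup Γ)
    (hKc : K ≤ Subgroup.center Γ) (hKd : K ≤ commutator Γ) (χ : IrrCharacter Γ) :
    ∃ (d : ℕ) (ω : K →* ℂˣ), (χ : Γ → ℂ) 1 = d ∧ (∀ k : K, (χ : Γ → ℂ) k = (ω k : ℂ) * d) ∧
      (∀ k : K, (ω k) ^ d = 1) := by
  obtain ⟨n, ρ, hirr, hρ⟩ := χ.2
  have hn : 0 < n := pos_dim ρ
  have hsc : ∀ k : K, ∃ c : ℂ, mat ρ (k : Γ) = c • (1 : Matrix (Fin n) (Fin n) ℂ) := fun k =>
    schur_scalar ρ (mat ρ k) (by
      intro g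
      rw [← mat_mul, ← mat_mul, Subgroup.mem_center_iff.mp (hKc k.2) g])
  choose c hc using hsc
  have hc1 : c 1 = 1 := by
    have h := hc 1
    rw [Subgroup.coe_one, mat_one] at h
    have h' := congrFun (congrFun h ⟨0, hn⟩) ⟨0, hn⟩
    simpa using h'.symm
  have hcm : ∀ k k' : K, c (k * k') = c k * c k' := by
    intro k k'
    have h := hc (k * k')
    rw [Subgroup.coe_mul, mat_mul, hc k, hc k'] at h
    have h' := congrFun (congrFun h ⟨0, hn⟩) ⟨0, hn⟩
    have h'' : c (k * k') = c k' * c k := by simpa using h'.symm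
    rw [h'', mul_comm]
  let f : K →* ℂ := { toFun := c, map_one' := hc1, map_mul' := hcm }
  let D : Γ →* ℂ :=
    { toFun := fun g => (mat ρ g).det
      map_one' := by rw [mat_one, det_one]
      map_mul' := fun g h => by rw [mat_mul, det_mul] }
  refine ⟨n, f.toHomUnits, ?_, ?_, ?_⟩
  · rw [← hρ, character_eq_trace, mat_one, trace_one, Fintype.card_fin]
  · intro k
    rw [← hρ, character_eq_trace, hc k, trace_smul, trace_one, Fintype.card_fin, smul_eq_mul]
    rfl
  · intro k
    apply Units.ext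
    rw [Units.val_pow_eq_pow_val, Units.val_one]
    show c k ^ n = 1
    have h1 : D.toHomUnits (k : Γ) = 1 :=
      Abelianization.commutator_subset_ker D.toHomUnits (hKd k.2)
    have h2 : (mat ρ (k : Γ)).det = 1 := congrArg Units.val h1
    rw [hc k, det_smul, det_one, mul_one, Fintype.card_fin] at h2
    exact h2

/-- If `A` is the Schur multiplier of the finite group `Q`, then the square of the exponent of `A` divides the order of `Q`. -/
theorem result {Q : Type*} [Group Q] [Finite Q] {A : Type*} [CommGroup A] (hA : Cfsg.HasSchurMultiplier Q A) : Monoid.exponent A ^ 2 ∣ Nat.card Q := by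
  classical
  obtain ⟨⟨Γ, _, _, σ, ⟨hσs, hσc, hσd⟩, ⟨e⟩⟩, -⟩ := hA
  have hAfin : Finite A := Finite.of_equiv _ e.toEquiv
  have := Fintype.ofFinite Γ
  have := finite_irrCharacter Γ
  have := Fintype.ofFinite (IrrCharacter Γ)
  have := Fintype.ofFinite σ.ker
  have h0 : NeZero ((Monoid.exponent A : ℕ) : ℂ) :=
    ⟨Nat.cast_ne_zero.mpr Monoid.exponent_ne_zero_of_finite⟩
  obtain ⟨eD⟩ := CommGroup.monoidHom_mulEquiv_of_hasEnoughRootsOfUnity A ℂ
  have : Finite (A →* ℂˣ) := Finite.of_equiv _ eD.symm.toEquiv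
  have hex : Monoid.ExponentExists (A →* ℂˣ) := Monoid.ExponentExists.of_finite (G := A →* ℂˣ)
  obtain ⟨lam, hlam⟩ := Monoid.exists_orderOf_eq_exponent (G := A →* ℂˣ) hex
  rw [Monoid.exponent_eq_of_mulEquiv eD] at hlam
  choose d ω hd1 hdk hdpow using exists_central_char σ.ker hσc hσd
  let lamK : σ.ker →* ℂˣ := lam.comp e.toMonoidHom
  have hdvd : ∀ χ, ω χ = lamK → Monoid.exponent A ∣ d χ := by
    intro χ hχ
    rw [← hlam]
    apply orderOf_dvd_of_pow_eq_one
    apply MonoidHom.ext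
    intro a
    rw [MonoidHom.pow_apply, MonoidHom.one_apply]
    have h := hdpow χ (e.symm a)
    rw [hχ] at h
    simpa [lamK] using h
  have hsum : ∀ k : σ.ker, ∑ χ : IrrCharacter Γ, ((d χ : ℂ)) ^ 2 * (ω χ k : ℂ) =
      if k = 1 then (Nat.card Γ : ℂ) else 0 := by
    intro k
    split_ifs with hk
    · subst hk
      rw [← sum_apply_one_sq_sum]
      refine Finset.sum_congr rfl fun χ _ => ?_
      rw [map_one, Units.val_one, mul_one, hd1 χ]
    · have hk' : (k : Γ) ≠ 1 := fun h => hk (Subtype.ext h)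
      rw [← sum_apply_one_mul_of_ne_sum (k : Γ) hk']
      refine Finset.sum_congr rfl fun χ _ => ?_
      rw [hd1 χ, hdk χ k]
      ring
  have key : (Nat.card σ.ker : ℂ) *
      ∑ χ : IrrCharacter Γ, (if ω χ = lamK then ((d χ : ℂ)) ^ 2 else 0) = (Nat.card Γ : ℂ) := by
    have h1 : ∑ k : σ.ker, (((lamK k)⁻¹ : ℂˣ) : ℂ) *
        ∑ χ : IrrCharacter Γ, ((d χ : ℂ)) ^ 2 * (ω χ k : ℂ) = (Nat.card Γ : ℂ) := by
      simp_rw [hsum]
      rw [Finset.sum_eq_single 1]
      · simp
      · intro k _ hk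
        rw [if_neg hk, mul_zero]
      · intro h
        exact absurd (Finset.mem_univ _) h
    rw [← h1]
    simp_rw [Finset.mul_sum]
    rw [Finset.sum_comm]
    refine Finset.sum_congr rfl fun χ _ => ?_
    have h2 := sum_hom_units (G := σ.ker) (R := ℂ) ((Units.coeHom ℂ).comp (ω χ * lamK⁻¹))
    have h3 : ((Units.coeHom ℂ).comp (ω χ * lamK⁻¹) = 1) ↔ ω χ = lamK := by
      constructor
      · intro h
        have h4 : ω χ * lamK⁻¹ = 1 := by
          apply MonoidHom.ext
          intro k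
          have := DFunLike.congr_fun h k
          exact Units.ext this
        exact mul_inv_eq_one.mp h4
      · intro h
        apply MonoidHom.ext
        intro k
        simp [h]
    have h5 : ∑ k : σ.ker, (((lamK k)⁻¹ : ℂˣ) : ℂ) * ((d χ : ℂ) ^ 2 * (ω χ k : ℂ)) =
        (d χ : ℂ) ^ 2 * ∑ k : σ.ker, ((Units.coeHom ℂ).comp (ω χ * lamK⁻¹)) k := by
      rw [Finset.mul_sum]
      refine Finset.sum_congr rfl fun k _ => ?_
      simp only [MonoidHom.coe_comp, Function.comp_apply, MonoidHom.mul_apply,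
        MonoidHom.inv_apply, Units.coeHom_apply, Units.val_mul]
      ring
    rw [h5, h2]
    by_cases hχ : ω χ = lamK
    · rw [if_pos hχ, if_pos (h3.mpr hχ), Nat.card_eq_fintype_card]
      ring
    · rw [if_neg hχ, if_neg (fun h => hχ (h3.mp h))]
      simp
  have hcard : Nat.card Γ = Nat.card Q * Nat.card σ.ker := by
    rw [Subgroup.card_eq_card_quotient_mul_card_subgroup σ.ker,
      Nat.card_congr (QuotientGroup.quotientKerEquivOfSurjective σ hσs).toEquiv]
  have key2 : Nat.card σ.ker * ∑ χ : IrrCharacter Γ, (if ω χ = lamK then (d χ) ^ 2 else 0) =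
      Nat.card Γ := by
    have : ((Nat.card σ.ker * ∑ χ : IrrCharacter Γ, (if ω χ = lamK then (d χ) ^ 2 else 0) : ℕ) : ℂ)
        = (Nat.card Γ : ℂ) := by
      rw [← key]
      push_cast
      congr 1
    exact_mod_cast this
  have key3 : ∑ χ : IrrCharacter Γ, (if ω χ = lamK then (d χ) ^ 2 else 0) = Nat.card Q := by
    rw [hcard, mul_comm (Nat.card Q)] at key2
    exact Nat.eq_of_mul_eq_mul_left Nat.card_pos key2
  rw [← key3]
  apply Finset.dvd_sum
  intro χ _
  split_ifs with hχ
  · exact pow_dvd_pow_of_dvd (hdvd χ hχ) 2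
  · exact dvd_zero _

end Cfsg.Agent.S3952
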