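import Mathlib
import Cfsg.Statements.S3953
import Cfsg.Agent.Lib.Helper66.ResCor

set_option autoImplicit false
open Cfsg

namespace Cfsg.Agent.S3953

open Cfsg.Agent.Lib.Helper66

/-- If `c ∘ N` is the `m`-th power map on the finite commutative group `A`, `m` prime to `p`,
then the `p`-primary component of `A` is isomorphic to a direct factor of `B`. -/
theorem exists_direct_factor {A B : Type*} [CommGroup A] [CommGroup B] [Finite A] (p : ℕ)
    [Fact p.Prime] (N : A →* B) (c : B →* A) (m : ℕ) (hm : ¬ p ∣ m)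
    (h : ∀ a, c (N a) = a ^ m) :
    ∃ C D : Subgroup B, C ⊓ D = ⊥ ∧ C ⊔ D = ⊤ ∧
      Nonempty (CommGroup.primaryComponent A p ≃* C) := by
  classical
  have hp := (Fact.out : p.Prime)
  obtain ⟨k, e, he, hn⟩ : ∃ k e : ℕ, ¬ p ∣ e ∧ Nat.card A = p ^ k * e :=
    Nat.exists_eq_pow_mul_and_not_dvd Nat.card_pos.ne' p hp.ne_one
  have hme : ¬ p ∣ m * e := by
    intro hd
    rcases (Nat.Prime.dvd_mul hp).mp hd with h' | h'
    · exact hm h'
    · exact he h'
  have key : ∀ a ∈ CommGroup.primaryComponent A p, ∀ j : ℕ, ¬ p ∣ j → a ^ j = 1 → a = 1 := by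
    intro a ha j hj haj
    obtain ⟨n, hn'⟩ := CommGroup.mem_primaryComponent_iff_orderOf.mp ha
    have hd : orderOf a ∣ j := orderOf_dvd_of_pow_eq_one haj
    rw [hn'] at hd
    rcases n with _ | n
    · rw [pow_zero] at hn'
      exact orderOf_eq_one_iff.mp hn'
    · exact absurd (dvd_trans (dvd_pow_self p (Nat.succ_ne_zero n)) hd) hj
  let f : ↥(CommGroup.primaryComponent A p) →* B :=
    N.comp (CommGroup.primaryComponent A p).subtype
  have hf : Function.Injective f := by
    rw [injective_iff_map_eq_one]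
    intro a ha
    apply Subtype.ext
    apply key a a.2 m hm
    have h1 : N (a : A) = 1 := ha
    rw [← h, h1, map_one]
  let D : Subgroup B := ((powMonoidHom e : A →* A).comp c).ker
  refine ⟨f.range, D, ?_, ?_, ⟨MonoidHom.ofInjective hf⟩⟩
  · rw [eq_bot_iff]
    rintro b ⟨⟨a, rfl⟩, hbD⟩
    have h1 : (c (N (a : A))) ^ e = 1 := MonoidHom.mem_ker.mp hbD
    rw [h, ← pow_mul] at h1
    have ha1 : (a : A) = 1 := key a a.2 (m * e) hme h1
    rw [Subgroup.mem_bot]
    show N (a : A) = 1
    rw [ha1, map_one]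
  · rw [eq_top_iff]
    intro b _
    have hae : (c b) ^ e ∈ CommGroup.primaryComponent A p := by
      rw [CommGroup.mem_primaryComponent]
      refine ⟨k, ?_⟩
      rw [← pow_mul, mul_comm, ← hn]
      exact pow_card_eq_one'
    have hPG : IsPGroup p (CommGroup.primaryComponent A p) :=
      CommGroup.primaryComponent.isPGroup
    obtain ⟨j, hj⟩ := IsPGroup.iff_card.mp hPG
    have hcop : (Nat.card (CommGroup.primaryComponent A p)).Coprime (m * e) := by
      rw [hj]
      exact Nat.Coprime.pow_left j ((Nat.Prime.coprime_iff_not_dvd hp).mpr hme)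
    obtain ⟨a', ha'⟩ := (powCoprime hcop).surjective ⟨(c b) ^ e, hae⟩
    have ha'' : (a' : A) ^ (m * e) = (c b) ^ e := congrArg Subtype.val ha'
    have hbD : b * (f a')⁻¹ ∈ D := by
      rw [MonoidHom.mem_ker]
      show (c (b * (N (a' : A))⁻¹)) ^ e = 1
      rw [map_mul, map_inv, h, mul_pow, inv_pow, ← pow_mul, ha'', mul_inv_cancel]
    have hb : b = f a' * (b * (f a')⁻¹) := by
      rw [mul_comm (f a'), inv_mul_cancel_right]
    rw [hb]
    exact Subgroup.mul_mem_sup ⟨a', rfl⟩ hbD

/-- Let `P` be a Sylow `p`-subgroup of the finite group `G`, let `A` be the Schur multiplier of `G` and `B` that of `P`. Then the `p`-primary component of `A` is isomorphic to a direct factor of `B`: there are subgroups `C` and `D` of `B` meeting trivially and generating `B`, with `C` isomorphic to the `p`-primary component of `A`. -/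
theorem result {G : Type*} [Group G] [Finite G] (p : ℕ) [Fact p.Prime] (P : Sylow p G) {A B : Type*} [CommGroup A] [CommGroup B] (hA : Cfsg.HasSchurMultiplier G A) (hB : Cfsg.HasSchurMultiplier P B) : ∃ C D : Subgroup B, C ⊓ D = ⊥ ∧ C ⊔ D = ⊤ ∧ Nonempty (CommGroup.primaryComponent A p ≃* C) := by
  obtain ⟨eA⟩ := Hopf.equiv_T_of_hasSchurMultiplier (Hopf.can G) (Hopf.can_surjective G) hA
  have hB' : Cfsg.HasSchurMultiplier ↥(P : Subgroup G) B := hB
  obtain ⟨eB⟩ := Hopf.equiv_T_of_hasSchurMultiplier (Hopf.can ↥(P : Subgroup G))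
    (Hopf.can_surjective _) hB'
  obtain ⟨res, cor, hrc⟩ := ResCor.exists_res_cor (P : Subgroup G)
  have hTfin := Hopf.finite_T (Hopf.can G) (Hopf.can_surjective G)
  have hAfin : Finite A := Finite.of_equiv _ eA.symm.toEquiv
  refine exists_direct_factor p ((eB.symm.toMonoidHom.comp res).comp eA.toMonoidHom)
    ((eA.symm.toMonoidHom.comp cor).comp eB.toMonoidHom) (P : Subgroup G).index
    P.not_dvd_index ?_
  intro a
  simp [hrc]

end Cfsg.Agent.S3953
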