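import Cfsg.Statements.S3954
import Mathlib
import Cfsg.Agent.Lib.Helper35.Stem
import Cfsg.Agent.Lib.Helper66.Hopf2

set_option autoImplicit false
open Cfsg

namespace Cfsg.Agent.S3954


/-- A quotient of a finite commutative group embeds in the group (duality). -/
theorem exists_injective_of_quotient {B : Type*} [CommGroup B] [Finite B] (N : Subgroup B) :
    ∃ j : B ⧸ N →* B, Function.Injective j := by
  have h0 : NeZero ((Monoid.exponent B : ℕ) : ℂ) :=
    ⟨Nat.cast_ne_zero.mpr Monoid.exponent_ne_zero_of_finite⟩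
  have h1 : NeZero ((Monoid.exponent (B ⧸ N) : ℕ) : ℂ) :=
    ⟨Nat.cast_ne_zero.mpr Monoid.exponent_ne_zero_of_finite⟩
  obtain ⟨e₁⟩ := CommGroup.monoidHom_mulEquiv_of_hasEnoughRootsOfUnity (B ⧸ N) ℂ
  obtain ⟨e₂⟩ := CommGroup.monoidHom_mulEquiv_of_hasEnoughRootsOfUnity B ℂ
  refine ⟨(e₂.toMonoidHom.comp (MonoidHom.compHom' (QuotientGroup.mk' N))).comp
    e₁.symm.toMonoidHom, ?_⟩
  intro x y hxy
  simp only [MonoidHom.coe_comp, MulEquiv.coe_toMonoidHom, Function.comp_apply] at hxy
  have h2 := e₂.injective hxy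
  apply e₁.symm.injective
  apply MonoidHom.ext
  intro q
  obtain ⟨b, rfl⟩ := QuotientGroup.mk'_surjective N q
  exact DFunLike.congr_fun h2 b

/-- If a group embeds into the image of a homomorphism from a finite commutative group `B`,
then it embeds in `B`. -/
theorem exists_injective_of_range {B H R : Type*} [CommGroup B] [Finite B] [Group H] [Group R]
    (f : B →* H) (ψ : R →* H) (hψ : Function.Injective ψ) (h : ∀ r, ψ r ∈ f.range) :
    ∃ j : R →* B, Function.Injective j := by
  obtain ⟨j, hj⟩ := exists_injective_of_quotient f.ker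
  refine ⟨(j.comp (QuotientGroup.quotientKerEquivRange f).symm.toMonoidHom).comp
    (ψ.codRestrict f.range h), ?_⟩
  intro x y hxy
  simp only [MonoidHom.coe_comp, MulEquiv.coe_toMonoidHom, Function.comp_apply] at hxy
  have h2 := (QuotientGroup.quotientKerEquivRange f).symm.injective (hj hxy)
  exact hψ (congrArg Subtype.val h2)

/-- Let `U` be a subgroup of index `m` in the finite group `G`, let `A` be the Schur multiplier of `G` and `B` that of `U`. Then the subgroup of `m`-th powers of `A` is isomorphic to a subgroup of `B`. -/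
theorem result {G : Type*} [Group G] [Finite G] (U : Subgroup G) {A B : Type*} [CommGroup A] [CommGroup B] (hA : Cfsg.HasSchurMultiplier G A) (hB : Cfsg.HasSchurMultiplier U B) : ∃ C : Subgroup B, Nonempty ((powMonoidHom U.index : A →* A).range ≃* C) := by
  obtain ⟨⟨Γ, _, _, σ, ⟨hσs, hσc, hσd⟩, ⟨e⟩⟩, -⟩ := hA
  obtain ⟨⟨Δ, _, _, τ, hτ, ⟨eB⟩⟩, -⟩ := id hB
  have hBfin : Finite B := Finite.of_equiv _ eB.toEquiv
  let H : Subgroup Γ := U.comap σ
  let ξ : H →* U := σ.subgroupComap U
  have hξ : Function.Surjective ξ := MonoidHom.subgroupComap_surjective_of_surjective σ U hσs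
  have hker : ∀ x : H, x ∈ ξ.ker ↔ (x : Γ) ∈ σ.ker := by
    intro x
    rw [MonoidHom.mem_ker, MonoidHom.mem_ker]
    constructor
    · intro hx
      exact congrArg Subtype.val hx
    · intro hx
      exact Subtype.ext hx
  have hc : ξ.ker ≤ Subgroup.center H := by
    intro x hx
    rw [Subgroup.mem_center_iff]
    intro y
    have h1 := hσc ((hker x).mp hx)
    rw [Subgroup.mem_center_iff] at h1
    exact Subtype.ext (h1 y)
  obtain ⟨f, hf⟩ := Cfsg.Agent.Lib.Helper66.Hopf2.exists_hom_of_hasSchurMultiplier hB ξ hξ hc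
  have hidx : H.index = U.index := Subgroup.index_comap_of_surjective U hσs
  have hle : σ.ker ≤ H := by
    intro x hx
    show σ x ∈ U
    rw [MonoidHom.mem_ker.mp hx]
    exact U.one_mem
  let ψ₀ : A →* H := (Subgroup.inclusion hle).comp e.symm.toMonoidHom
  have hψ₀ : Function.Injective ψ₀ := by
    intro a b hab
    exact e.symm.injective (Subgroup.inclusion_injective hle hab)
  let R : Subgroup A := (powMonoidHom U.index : A →* A).range
  have key : ∀ r : R, (ψ₀.comp R.subtype) r ∈ f.range := by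
    rintro ⟨x, a, rfl⟩
    have hk : ((e.symm a : σ.ker) : Γ) ∈ σ.ker := (e.symm a).2
    have h1 := Cfsg.Agent.Lib.Helper35.Stem.pow_index_mem_commutator H (hσc hk) (hσd hk)
    rw [hidx, ← Subgroup.map_subtype_commutator] at h1
    obtain ⟨y, hy, hy'⟩ := h1
    have hy2 : y ∈ ξ.ker := by
      rw [hker]
      have : (y : Γ) = ((e.symm a : σ.ker) : Γ) ^ U.index := hy'
      rw [this]
      exact Subgroup.pow_mem _ hk _
    obtain ⟨b, hb⟩ := (hf y).mp ⟨hy, hy2⟩
    refine ⟨b, ?_⟩
    rw [hb]
    apply Subtype.ext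
    have : (y : Γ) = ((e.symm a : σ.ker) : Γ) ^ U.index := hy'
    rw [this]
    simp [ψ₀]
  obtain ⟨j, hj⟩ := exists_injective_of_range f (ψ₀.comp R.subtype)
    (hψ₀.comp Subtype.val_injective) key
  exact ⟨j.range, ⟨MonoidHom.ofInjective hj⟩⟩

end Cfsg.Agent.S3954
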