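import Cfsg.Statements.S3956
import Mathlib
import Cfsg.Agent.Lib.Helper66.Hopf
import Cfsg.Agent.Lib.Helper78.ProjSchur2

set_option autoImplicit false
universe u v
open Cfsg

namespace Cfsg.Agent.S3956

/-- Let `σ : Γ →* Q` be a finite stem extension of the finite group `Q` such that every homomorphism from `Q` to the quotient of `GL n ℂ` by its centre, for every `n`, lifts along `σ` to a homomorphism `Γ →* GL n ℂ`. Then `σ` is a Schur covering group of `Q`: for every finite stem extension `τ : Δ →* Q` with `Δ` in the same universe as `Q`, the kernel of `τ` is a homomorphic image of the kernel of `σ`. -/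
theorem result {Q : Type u} [Group Q] [Finite Q] {Γ : Type v} [Group Γ] [Finite Γ] (σ : Γ →* Q) (hσ : Cfsg.IsStemExtension σ) (hlift : ∀ (n : ℕ) (γ : Q →* (GL (Fin n) ℂ ⧸ Subgroup.center (GL (Fin n) ℂ))), ∃ ρ : Γ →* GL (Fin n) ℂ, (QuotientGroup.mk' (Subgroup.center (GL (Fin n) ℂ))).comp ρ = γ.comp σ) (Δ : Type u) [Group Δ] [Finite Δ] (τ : Δ →* Q) (hτ : Cfsg.IsStemExtension τ) : ∃ π : σ.ker →* τ.ker, Function.Surjective π := by
  obtain ⟨Δ₀, _, _, τ₀, hτ₀, ⟨e₀⟩⟩ :=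
    Cfsg.Agent.Lib.Helper66.Hopf.exists_cover (Cfsg.Agent.Lib.Helper66.Hopf.can Q)
      (Cfsg.Agent.Lib.Helper66.Hopf.can_surjective Q)
  obtain ⟨f, hf⟩ := Cfsg.Agent.Lib.Helper66.Hopf.exists_surjective_T_ker
    (Cfsg.Agent.Lib.Helper66.Hopf.can Q) (Cfsg.Agent.Lib.Helper66.Hopf.can_surjective Q) σ hσ
  obtain ⟨f', hf'⟩ := Cfsg.Agent.Lib.Helper66.Hopf.exists_surjective_T_ker
    (Cfsg.Agent.Lib.Helper66.Hopf.can Q) (Cfsg.Agent.Lib.Helper66.Hopf.can_surjective Q) τ hτ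
  have hfin := Cfsg.Agent.Lib.Helper66.Hopf.finite_T (Cfsg.Agent.Lib.Helper66.Hopf.can Q)
    (Cfsg.Agent.Lib.Helper66.Hopf.can_surjective Q)
  have hcard : Nat.card (Cfsg.Agent.Lib.Helper66.Hopf.T (Cfsg.Agent.Lib.Helper66.Hopf.can Q)) ≤
      Nat.card σ.ker := by
    rw [← Nat.card_congr e₀.toEquiv]
    exact Cfsg.Agent.Lib.Helper78.ProjSchur2.card_ker_le_of_lift σ hσ.1 hlift τ₀ hτ₀
  have hbij : Function.Bijective f := hf.bijective_of_nat_card_le hcard
  let eT := MulEquiv.ofBijective f hbij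
  exact ⟨f'.comp eT.symm.toMonoidHom, hf'.comp eT.symm.surjective⟩

end Cfsg.Agent.S3956
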