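import Mathlib
import Cfsg.Statements.S3958
import Cfsg.Agent.Lib.Helper66.Hopf

set_option autoImplicit false
open Cfsg

namespace Cfsg.Agent.S3958

universe u v

open scoped commutatorElement
open Cfsg.Agent.Lib.Helper66

theorem map_commutator_of_surjective {E Q : Type*} [Group E] [Group Q] (ρ : E →* Q)
    (hρ : Function.Surjective ρ) : (_root_.commutator E).map ρ = _root_.commutator Q := by
  rw [commutator_def, Subgroup.map_commutator, ← MonoidHom.range_eq_map,
    MonoidHom.range_eq_top.mpr hρ, ← commutator_def]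

/-- Let `σ : Γ →* Q` be a finite stem extension of the finite group `Q` with `Γ` of trivial Schur multiplier. Then `σ` is a Schur covering group of `Q`: for every finite stem extension `τ : Δ →* Q` with `Δ` in the same universe as `Q`, the kernel of `τ` is a homomorphic image of the kernel of `σ`. -/
theorem result {Q : Type u} [Group Q] [Finite Q] {Γ : Type v} [Group Γ] [Finite Γ] (σ : Γ →* Q) (hσ : Cfsg.IsStemExtension σ) (hΓ : Cfsg.HasCyclicSchurMultiplier Γ 1) (Δ : Type u) [Group Δ] [Finite Δ] (τ : Δ →* Q) (hτ : Cfsg.IsStemExtension τ) : ∃ π : σ.ker →* τ.ker, Function.Surjective π := by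
  obtain ⟨hσs, hσc, hσk⟩ := hσ
  obtain ⟨hτs, hτc, hτk⟩ := hτ
  let P : Subgroup (Γ × Δ) :=
    MonoidHom.eqLocus (σ.comp (MonoidHom.fst Γ Δ)) (τ.comp (MonoidHom.snd Γ Δ))
  let pr₁ : P →* Γ := (MonoidHom.fst Γ Δ).comp P.subtype
  let pr₂ : P →* Δ := (MonoidHom.snd Γ Δ).comp P.subtype
  have hP : ∀ p : P, σ (pr₁ p) = τ (pr₂ p) := fun p => p.2
  have hpr₁ : Function.Surjective pr₁ := by
    intro g
    obtain ⟨x, hx⟩ := hτs (σ g)
    exact ⟨⟨(g, x), hx.symm⟩, rfl⟩
  have hpr₂ : Function.Surjective pr₂ := by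
    intro d
    obtain ⟨x, hx⟩ := hσs (τ d)
    exact ⟨⟨(x, d), hx⟩, rfl⟩
  have hker : pr₁.ker ≤ Subgroup.center P := by
    intro p hp
    have hp1 : (p : Γ × Δ).1 = 1 := hp
    have hp2 : (p : Γ × Δ).2 ∈ Subgroup.center Δ := by
      apply hτc
      rw [MonoidHom.mem_ker]
      have h3 : σ (p : Γ × Δ).1 = τ (p : Γ × Δ).2 := hP p
      rw [← h3, hp1, map_one]
    rw [Subgroup.mem_center_iff]
    intro d
    apply Subtype.ext
    apply Prod.ext
    · change (d : Γ × Δ).1 * (p : Γ × Δ).1 = (p : Γ × Δ).1 * (d : Γ × Δ).1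
      rw [hp1, one_mul, mul_one]
    · exact Subgroup.mem_center_iff.mp hp2 _
  have hbot := Hopf.commutator_inf_ker_eq_bot_of_trivial Γ hΓ pr₁ hpr₁ hker
  let W : Subgroup P := _root_.commutator P ⊓ (σ.comp pr₁).ker
  have hW1 : ∀ w : W, (w : P) ∈ _root_.commutator P := fun w => (Subgroup.mem_inf.mp w.2).1
  have hW2 : ∀ w : W, σ (pr₁ (w : P)) = 1 := fun w => (Subgroup.mem_inf.mp w.2).2
  let fW : W →* σ.ker := (pr₁.comp W.subtype).codRestrict σ.ker (fun w => hW2 w)
  let gW : W →* τ.ker := (pr₂.comp W.subtype).codRestrict τ.ker (fun w => by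
    rw [MonoidHom.mem_ker]
    change τ (pr₂ (w : P)) = 1
    rw [← hP]; exact hW2 w)
  have hfinj : Function.Injective fW := by
    rw [injective_iff_map_eq_one]
    intro w hw
    have h1 : pr₁ (w : P) = 1 := congrArg Subtype.val hw
    have : (w : P) ∈ _root_.commutator P ⊓ pr₁.ker := Subgroup.mem_inf.mpr ⟨hW1 w, h1⟩
    rw [hbot, Subgroup.mem_bot] at this
    exact Subtype.ext this
  have hfsurj : Function.Surjective fW := by
    rintro ⟨c, hc⟩
    have h1 : c ∈ (_root_.commutator P).map pr₁ := by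
      rw [map_commutator_of_surjective pr₁ hpr₁]; exact hσk hc
    obtain ⟨p, hp, rfl⟩ := h1
    exact ⟨⟨p, Subgroup.mem_inf.mpr ⟨hp, hc⟩⟩, rfl⟩
  let e : W ≃* σ.ker := MulEquiv.ofBijective fW ⟨hfinj, hfsurj⟩
  refine ⟨gW.comp e.symm.toMonoidHom, ?_⟩
  rintro ⟨k, hk⟩
  have h1 : k ∈ (_root_.commutator P).map pr₂ := by
    rw [map_commutator_of_surjective pr₂ hpr₂]; exact hτk hk
  obtain ⟨p, hp, rfl⟩ := h1
  have hpW : p ∈ W := Subgroup.mem_inf.mpr ⟨hp, by
    rw [MonoidHom.mem_ker]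
    change σ (pr₁ p) = 1
    rw [hP]; exact hk⟩
  refine ⟨e ⟨p, hpW⟩, ?_⟩
  change gW (e.symm (e ⟨p, hpW⟩)) = _
  rw [e.symm_apply_apply]
  rfl

end Cfsg.Agent.S3958
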