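import Mathlib
import Cfsg.Statements.S3960
import Cfsg.Agent.Lib.Helper66.Hopf

set_option autoImplicit false
open Cfsg

namespace Cfsg.Agent.S3960

universe u

open scoped commutatorElement
open Cfsg.Agent.Lib.Helper66

/-- Two homomorphisms from a perfect group that agree modulo a central kernel are equal. -/
theorem hom_eq_of_perfect {G X Q : Type*} [Group G] [Group X] [Group Q]
    (hG : _root_.commutator G = ⊤) (ξ : X →* Q) (hc : ξ.ker ≤ Subgroup.center X)
    (η₁ η₂ : G →* X) (h : ξ.comp η₁ = ξ.comp η₂) : η₁ = η₂ := by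
  have hz : ∀ a : G, (η₂ a)⁻¹ * η₁ a ∈ Subgroup.center X := by
    intro a
    apply hc
    rw [MonoidHom.mem_ker, map_mul, map_inv, ← MonoidHom.comp_apply, ← MonoidHom.comp_apply, h,
      inv_mul_cancel]
  have hle : _root_.commutator G ≤ MonoidHom.eqLocus η₁ η₂ := by
    rw [commutator_def, Subgroup.commutator_le]
    intro a _ b _
    change η₁ ⁅a, b⁆ = η₂ ⁅a, b⁆
    rw [map_commutatorElement, map_commutatorElement]
    have ha : η₁ a = η₂ a * ((η₂ a)⁻¹ * η₁ a) := by group
    have hb : η₁ b = η₂ b * ((η₂ b)⁻¹ * η₁ b) := by group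
    rw [ha, hb, Hopf.commutatorElement_mul_central_left _ _ _ (hz a),
      Hopf.commutatorElement_mul_central_right _ _ _ (hz b)]
  rw [hG] at hle
  ext a
  exact hle (Subgroup.mem_top a)

/-- Let `ρ : E → Q` be surjective with central kernel and `Q` perfect. Then `E = E' · ker ρ`
and `E'` is perfect and maps onto `Q`. -/
theorem commutator_sup_ker {E Q : Type*} [Group E] [Group Q] (hQ : _root_.commutator Q = ⊤)
    (ρ : E →* Q) (hρ : Function.Surjective ρ) : _root_.commutator E ⊔ ρ.ker = ⊤ := by
  rw [eq_top_iff]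
  intro e _
  have h1 : ρ e ∈ Subgroup.map ρ ⁅(⊤ : Subgroup E), (⊤ : Subgroup E)⁆ := by
    rw [Subgroup.map_commutator, ← MonoidHom.range_eq_map, MonoidHom.range_eq_top.mpr hρ,
      ← commutator_def, hQ]
    exact Subgroup.mem_top _
  obtain ⟨c, hc, hce⟩ := h1
  have h2 : c⁻¹ * e ∈ ρ.ker := by
    rw [MonoidHom.mem_ker, map_mul, map_inv, hce, inv_mul_cancel]
  have : e = c * (c⁻¹ * e) := by group
  rw [this]
  exact Subgroup.mul_mem _ (Subgroup.mem_sup_left (by rw [commutator_def]; exact hc))
    (Subgroup.mem_sup_right h2)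

theorem commutator_perfect {E Q : Type*} [Group E] [Group Q] (hQ : _root_.commutator Q = ⊤)
    (ρ : E →* Q) (hρ : Function.Surjective ρ) (hc : ρ.ker ≤ Subgroup.center E) :
    ⁅_root_.commutator E, _root_.commutator E⁆ = _root_.commutator E := by
  have h1 := commutator_sup_ker hQ ρ hρ
  have h2 := Hopf.commutator_sup_central (_root_.commutator E) ρ.ker hc
  rw [h1, ← commutator_def] at h2
  exact h2.symm

theorem commutator_map_surjective {E Q : Type*} [Group E] [Group Q]
    (hQ : _root_.commutator Q = ⊤) (ρ : E →* Q) (hρ : Function.Surjective ρ) (q : Q) :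
    ∃ c ∈ _root_.commutator E, ρ c = q := by
  have h1 : q ∈ Subgroup.map ρ ⁅(⊤ : Subgroup E), (⊤ : Subgroup E)⁆ := by
    rw [Subgroup.map_commutator, ← MonoidHom.range_eq_map, MonoidHom.range_eq_top.mpr hρ,
      ← commutator_def, hQ]
    exact Subgroup.mem_top _
  obtain ⟨c, hc, hce⟩ := h1
  exact ⟨c, by rw [commutator_def]; exact hc, hce⟩

/-- A finite perfect group `Q` has a universal central extension: a finite perfect group `G` in the universe of `Q` and a surjective homomorphism `π : G →* Q` with central kernel such that for every group `X` in that universe and every surjective homomorphism `ξ : X →* Q` with central kernel there is exactly one homomorphism `η : G →* X` with `ξ ∘ η = π`. -/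
theorem result {Q : Type u} [Group Q] [Finite Q] (hQ : Group.IsPerfect Q) : ∃ (G : Type u) (_ : Group G) (_ : Finite G) (π : G →* Q), Group.IsPerfect G ∧ Function.Surjective π ∧ π.ker ≤ Subgroup.center G ∧ ∀ (X : Type u) [Group X] (ξ : X →* Q), Function.Surjective ξ → ξ.ker ≤ Subgroup.center X → ∃! η : G →* X, ξ.comp η = π := by
  have hQ' : _root_.commutator Q = ⊤ := hQ.commutator_eq_top
  have hsurj := Hopf.πE_surjective (Hopf.can Q) (Hopf.can_surjective Q)
  have hcen : (Hopf.πE (Hopf.can Q)).ker ≤ Subgroup.center (Hopf.E (Hopf.can Q)) :=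
    Hopf.Z_le_center (Hopf.can Q)
  have hperf : Group.IsPerfect (_root_.commutator (Hopf.E (Hopf.can Q))) :=
    Subgroup.isPerfect_iff.mpr (commutator_perfect hQ' _ hsurj hcen)
  refine ⟨_root_.commutator (Hopf.E (Hopf.can Q)), inferInstance,
    Hopf.finite_commutator (Hopf.can Q) (Hopf.can_surjective Q),
    (Hopf.πE (Hopf.can Q)).comp (_root_.commutator (Hopf.E (Hopf.can Q))).subtype,
    hperf, ?_, ?_, ?_⟩
  · intro q
    obtain ⟨c, hc, hcq⟩ := commutator_map_surjective hQ' _ hsurj q
    exact ⟨⟨c, hc⟩, hcq⟩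
  · intro c hc
    rw [Subgroup.mem_center_iff]
    intro d
    apply Subtype.ext
    have h1 : (c : Hopf.E (Hopf.can Q)) ∈ Subgroup.center (Hopf.E (Hopf.can Q)) := hcen hc
    exact Subgroup.mem_center_iff.mp h1 d
  · intro X _ ξ hξ hξc
    obtain ⟨θ, hθ⟩ := Hopf.exists_lift (Hopf.can Q) ξ hξ hξc
    refine ⟨θ.comp (_root_.commutator (Hopf.E (Hopf.can Q))).subtype, ?_, ?_⟩
    · change ξ.comp (θ.comp _) = _
      rw [← MonoidHom.comp_assoc, hθ]
    · intro η hη
      apply hom_eq_of_perfect hperf.commutator_eq_top ξ hξc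
      rw [hη, ← MonoidHom.comp_assoc, hθ]

end Cfsg.Agent.S3960
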