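import Mathlib
import Cfsg.Statements.S3961
import Cfsg.Agent.Lib.Helper66.Hopf
import Cfsg.Agent.Lib.Helper66.Stem
import Cfsg.Agent.S3960

set_option autoImplicit false
open Cfsg

namespace Cfsg.Agent.S3961

universe u v

open scoped commutatorElement
open Cfsg.Agent.Lib.Helper66

/-- If `G` is finite perfect with trivial Schur multiplier, every central extension `ξ : X → Q`
of a central quotient `Q` of `G` receives a lift of `π : G → Q`. -/
theorem backward {G : Type u} {Q : Type v} [Group G] [Group Q] [Finite G]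
    (hG : Group.IsPerfect G) (π : G →* Q)
    (h : Cfsg.HasCyclicSchurMultiplier G 1) (X : Type u) [Group X] (ξ : X →* Q)
    (hξ : Function.Surjective ξ) (hξc : ξ.ker ≤ Subgroup.center X) :
    ∃ η : G →* X, ξ.comp η = π := by
  -- the pullback
  let P : Subgroup (G × X) :=
    MonoidHom.eqLocus (π.comp (MonoidHom.fst G X)) (ξ.comp (MonoidHom.snd G X))
  let pr₁ : P →* G := (MonoidHom.fst G X).comp P.subtype
  have hP : ∀ p : P, π (p : G × X).1 = ξ (p : G × X).2 := fun p => p.2
  have hpr₁ : Function.Surjective pr₁ := by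
    intro g
    obtain ⟨x, hx⟩ := hξ (π g)
    exact ⟨⟨(g, x), hx.symm⟩, rfl⟩
  have hker : pr₁.ker ≤ Subgroup.center P := by
    intro p hp
    have hp1 : (p : G × X).1 = 1 := hp
    have hp2 : (p : G × X).2 ∈ Subgroup.center X := by
      apply hξc
      rw [MonoidHom.mem_ker, ← hP p, hp1, map_one]
    rw [Subgroup.mem_center_iff]
    intro d
    apply Subtype.ext
    apply Prod.ext
    · change (d : G × X).1 * (p : G × X).1 = (p : G × X).1 * (d : G × X).1
      rw [hp1, one_mul, mul_one]
    · exact Subgroup.mem_center_iff.mp hp2 _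
  have hbot := Hopf.commutator_inf_ker_eq_bot_of_trivial G h pr₁ hpr₁ hker
  let f : _root_.commutator P →* G := pr₁.comp (_root_.commutator P).subtype
  have hfinj : Function.Injective f := by
    rw [injective_iff_map_eq_one]
    intro c hc
    have : (c : P) ∈ _root_.commutator P ⊓ pr₁.ker := Subgroup.mem_inf.mpr ⟨c.2, hc⟩
    rw [hbot, Subgroup.mem_bot] at this
    exact Subtype.ext this
  have hfsurj : Function.Surjective f := by
    intro g
    obtain ⟨c, hc, hcg⟩ := S3960.commutator_map_surjective hG.commutator_eq_top pr₁ hpr₁ g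
    exact ⟨⟨c, hc⟩, hcg⟩
  let e : _root_.commutator P ≃* G := MulEquiv.ofBijective f ⟨hfinj, hfsurj⟩
  refine ⟨(((MonoidHom.snd G X).comp P.subtype).comp (_root_.commutator P).subtype).comp
    e.symm.toMonoidHom, ?_⟩
  ext g
  have h1 : f (e.symm g) = g := e.apply_symm_apply g
  change ξ (((e.symm g : _root_.commutator P) : P) : G × X).2 = π g
  rw [← hP]
  exact congrArg π h1

theorem forward {G : Type u} {Q : Type v} [Group G] [Group Q] [Finite G]
    (hG : Group.IsPerfect G) (π : G →* Q) (hπ : Function.Surjective π)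
    (hker : π.ker ≤ Subgroup.center G)
    (hU : ∀ (X : Type u) [Group X] (ξ : X →* Q), Function.Surjective ξ →
      ξ.ker ≤ Subgroup.center X → ∃ η : G →* X, ξ.comp η = π) :
    Cfsg.HasCyclicSchurMultiplier G 1 := by
  apply Stem.hasCyclicSchurMultiplier_one
  intro Γ _ _ σ hσ
  obtain ⟨hσs, hσc, hσk⟩ := hσ
  -- Γ is perfect
  have hΓ : _root_.commutator Γ = ⊤ := by
    have := S3960.commutator_sup_ker hG.commutator_eq_top σ hσs
    rwa [sup_eq_left.mpr hσk] at this
  -- the kernel of π ∘ σ is central
  have hc : (π.comp σ).ker ≤ Subgroup.center Γ := by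
    intro z hz
    have hσz : σ z ∈ Subgroup.center G := hker hz
    have h1 : (MulAut.conj z).toMonoidHom = MonoidHom.id Γ := by
      apply S3960.hom_eq_of_perfect hΓ σ hσc
      ext g
      change σ (z * g * z⁻¹) = σ g
      rw [map_mul, map_mul, map_inv, ← Subgroup.mem_center_iff.mp hσz (σ g), mul_inv_cancel_right]
    rw [Subgroup.mem_center_iff]
    intro g
    have h2 : z * g * z⁻¹ = g := DFunLike.congr_fun h1 g
    calc g * z = (z * g * z⁻¹) * z := by rw [h2]
      _ = z * g := by group
  obtain ⟨η, hη⟩ := hU Γ (π.comp σ) (hπ.comp hσs) hc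
  have hση : σ.comp η = MonoidHom.id G := by
    apply S3960.hom_eq_of_perfect hG.commutator_eq_top π hker
    rw [← MonoidHom.comp_assoc, hη, MonoidHom.comp_id]
  have hsup : η.range ⊔ σ.ker = ⊤ := by
    rw [eq_top_iff]
    intro γ _
    have h1 : (η (σ γ))⁻¹ * γ ∈ σ.ker := by
      rw [MonoidHom.mem_ker, map_mul, map_inv]
      have : σ (η (σ γ)) = σ γ := DFunLike.congr_fun hση (σ γ)
      rw [this, inv_mul_cancel]
    have : γ = η (σ γ) * ((η (σ γ))⁻¹ * γ) := by group
    rw [this]
    exact Subgroup.mul_mem _ (Subgroup.mem_sup_left ⟨_, rfl⟩) (Subgroup.mem_sup_right h1)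
  have hle : σ.ker ≤ η.range := by
    have h1 : _root_.commutator Γ = ⁅η.range, η.range⁆ := by
      rw [commutator_def, ← hsup, Hopf.commutator_sup_central _ _ hσc]
    have h2 : ⁅η.range, η.range⁆ ≤ η.range := by
      rw [Subgroup.commutator_le]
      intro a ha b hb
      exact Subgroup.commutator_mem_commutator ha hb |> fun _ => by
        rw [commutatorElement_def]
        exact Subgroup.mul_mem _ (Subgroup.mul_mem _ (Subgroup.mul_mem _ ha hb)
          (Subgroup.inv_mem _ ha)) (Subgroup.inv_mem _ hb)
    exact hσk.trans (h1 ▸ h2)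
  rw [eq_bot_iff]
  intro k hk
  obtain ⟨g, rfl⟩ := hle hk
  have h1 : σ (η g) = g := DFunLike.congr_fun hση g
  have h2 : g = 1 := by rw [← h1]; exact hk
  rw [Subgroup.mem_bot, h2, map_one]

/-- Let `π : G →* Q` be a surjective homomorphism with central kernel from a finite perfect group `G` (a perfect cover of `Q`). Then `π` is universal, in the sense that every surjective homomorphism `ξ : X →* Q` with central kernel from a group `X` in the universe of `G` admits a homomorphism `η : G →* X` with `ξ ∘ η = π`, if and only if `G` has trivial Schur multiplier. -/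
theorem result {G : Type u} {Q : Type v} [Group G] [Group Q] [Finite G] (hG : Group.IsPerfect G) (π : G →* Q) (hπ : Function.Surjective π) (hker : π.ker ≤ Subgroup.center G) : (∀ (X : Type u) [Group X] (ξ : X →* Q), Function.Surjective ξ → ξ.ker ≤ Subgroup.center X → ∃ η : G →* X, ξ.comp η = π) ↔ Cfsg.HasCyclicSchurMultiplier G 1 := by
  constructor
  · exact forward hG π hπ hker
  · intro h X _ ξ hξ hξc
    exact backward hG π h X ξ hξ hξc

end Cfsg.Agent.S3961
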