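import Cfsg.Statements.S3962
import Mathlib

set_option autoImplicit false
open Cfsg

namespace Cfsg.Agent.S3962

/-- In a perfect group, an element whose commutators with everything are central is central. -/
theorem mem_center_of_comm_central {G : Type*} [Group G] (hG : Group.IsPerfect G) (g : G)
    (h : ∀ x : G, g * x * g⁻¹ * x⁻¹ ∈ Subgroup.center G) : g ∈ Subgroup.center G := by
  -- the map x ↦ g x g⁻¹ x⁻¹ is a homomorphism into the center
  let f : G →* Subgroup.center G :=
    { toFun := fun x => ⟨g * x * g⁻¹ * x⁻¹, h x⟩
      map_one' := by apply Subtype.ext; simp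
      map_mul' := by
        intro x y
        apply Subtype.ext
        have hy := h y
        rw [Subgroup.mem_center_iff] at hy
        have := hy x
        show g * (x * y) * g⁻¹ * (x * y)⁻¹ = (g * x * g⁻¹ * x⁻¹) * (g * y * g⁻¹ * y⁻¹)
        calc g * (x * y) * g⁻¹ * (x * y)⁻¹ = g * x * g⁻¹ * ((g * y * g⁻¹ * y⁻¹) * x⁻¹) := by group
          _ = g * x * g⁻¹ * (x⁻¹ * (g * y * g⁻¹ * y⁻¹)) := by
              congr 1
              have h2 := hy x⁻¹
              exact h2.symm
          _ = _ := by group }
  have hker : f.ker = ⊤ := by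
    have h1 : commutator G ≤ f.ker := by
      rw [commutator_def, Subgroup.commutator_le]
      intro a _ b _
      rw [MonoidHom.mem_ker, map_commutatorElement]
      apply Subtype.ext
      have hb := (f b).2
      rw [Subgroup.mem_center_iff] at hb
      have := hb (f a)
      simp only [commutatorElement_def, Subgroup.coe_mul, Subgroup.coe_inv, Subgroup.coe_one]
      rw [this]
      group
    rw [eq_top_iff]
    have h2 : commutator G = ⊤ := by
      rw [Group.isPerfect_def] at hG
      exact hG
    rw [← h2]
    exact h1
  rw [Subgroup.mem_center_iff]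
  intro x
  have hx : x ∈ f.ker := hker ▸ Subgroup.mem_top x
  rw [MonoidHom.mem_ker] at hx
  have hx' : g * x * g⁻¹ * x⁻¹ = 1 := congrArg Subtype.val hx
  calc x * g = (g * x * g⁻¹ * x⁻¹)⁻¹ * (g * x) := by group
    _ = g * x := by rw [hx']; simp

theorem result {G Q : Type*} [Group G] [Group Q] (hG : Group.IsPerfect G) (π : G →* Q) (hπ : Function.Surjective π) (hker : π.ker ≤ Subgroup.center G) : (Subgroup.center G).map π = Subgroup.center Q := by
  apply le_antisymm
  · rintro _ ⟨g, hg, rfl⟩
    rw [Subgroup.mem_center_iff]
    intro q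
    obtain ⟨x, rfl⟩ := hπ q
    rw [SetLike.mem_coe, Subgroup.mem_center_iff] at hg
    rw [← map_mul, ← map_mul, hg x]
  · intro q hq
    obtain ⟨g, rfl⟩ := hπ q
    refine ⟨g, ?_, rfl⟩
    apply mem_center_of_comm_central hG
    intro x
    apply hker
    rw [MonoidHom.mem_ker]
    rw [Subgroup.mem_center_iff] at hq
    have := hq (π x)
    simp only [map_mul, map_inv]
    rw [← this]
    group

end Cfsg.Agent.S3962
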