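import Cfsg.Statements.S3963
import Cfsg.Agent.Lib.Lead.Stem
import Cfsg.Agent.Lib.Lead.StemDihedralType

set_option autoImplicit false
open Cfsg

namespace Cfsg.Agent.S3963

open Cfsg.Agent.Lib.Lead.Stem Cfsg.Agent.Lib.Lead.StemDihedralType

/-- For every `n ≥ 1` the dicyclic (generalized quaternion) group of order `4 n` has trivial Schur multiplier. -/
theorem result (n : ℕ) [NeZero n] : Cfsg.HasCyclicSchurMultiplier (QuaternionGroup n) 1 := by
  apply hasCyclicSchurMultiplier_one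
  intro Γ _ _ σ hσ
  obtain ⟨A, hA⟩ := hσ.1 (QuaternionGroup.a 1)
  obtain ⟨X, hX⟩ := hσ.1 (QuaternionGroup.xa 0)
  have hgen : ∀ g : QuaternionGroup n, ∃ ε m : ℕ, g = σ X ^ ε * σ A ^ m := by
    rw [hA, hX]
    rintro (i | i)
    · exact ⟨0, i.val, by simp⟩
    · exact ⟨1, i.val, by simp⟩
  have hinv : σ X * σ A * (σ X)⁻¹ = (σ A)⁻¹ := by
    rw [hA, hX]
    rw [mul_inv_eq_iff_eq_mul, eq_inv_mul_iff_mul_eq, QuaternionGroup.xa_mul_a,
      QuaternionGroup.a_mul_xa]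
    congr 1
    ring
  have hle := commutator_le_zpowers σ hσ.2.1 A X hgen hinv
  have hpow := pow_eq_one σ hσ.2.1 A X hinv n (by rw [hA, hX]; simp)
  rw [eq_bot_iff]
  intro k hk
  obtain ⟨i, hi⟩ := Subgroup.mem_zpowers_iff.mp (hle (hσ.2.2 hk))
  have hσc : σ (A * A * (A * (X * A * X⁻¹))⁻¹) = (QuaternionGroup.a 1) ^ 2 := by
    rw [map_mul, map_mul, map_inv, map_mul, map_mul, map_mul, map_inv, hinv, mul_inv_cancel,
      inv_one, mul_one, hA, sq]
  have hord : orderOf (σ (A * A * (A * (X * A * X⁻¹))⁻¹)) = n := by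
    rw [hσc, orderOf_pow' _ (by norm_num), QuaternionGroup.orderOf_a_one]
    have : Nat.gcd (2 * n) 2 = 2 := by
      simp
    rw [this]
    omega
  have h1 : (σ (A * A * (A * (X * A * X⁻¹))⁻¹)) ^ i = 1 := by
    rw [← map_zpow, hi]
    exact hk
  have hdvd : (n : ℤ) ∣ i := by
    rw [← hord]
    exact orderOf_dvd_iff_zpow_eq_one.mpr h1
  obtain ⟨j, rfl⟩ := hdvd
  rw [Subgroup.mem_bot, ← hi, zpow_mul, zpow_natCast, hpow, one_zpow]

end Cfsg.Agent.S3963
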