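import Cfsg.Statements.S3964
import Cfsg.Agent.Lib.Lead.Stem

set_option autoImplicit false
open Cfsg

namespace Cfsg.Agent.S3964

open Cfsg.Agent.Lib.Lead.Stem

theorem index_zpowers {G : Type*} [Group G] [Finite G] (g : G) :
    (Subgroup.zpowers g).index * orderOf g = Nat.card G := by
  rw [← Nat.card_zpowers, Subgroup.index_mul_card]

/-- For odd `n` the dihedral group of order `2 n` has trivial Schur multiplier. -/
theorem result (n : ℕ) (hn : Odd n) : Cfsg.HasCyclicSchurMultiplier (DihedralGroup n) 1 := by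
  have hn0 : n ≠ 0 := by
    rintro rfl
    simp at hn
  haveI : NeZero n := ⟨hn0⟩
  apply hasCyclicSchurMultiplier_one
  intro Γ _ _ σ hσ
  rw [eq_bot_iff]
  intro k hk
  have i1 : (Subgroup.zpowers (DihedralGroup.r (1 : ZMod n))).index = 2 := by
    have h := index_zpowers (DihedralGroup.r (1 : ZMod n))
    rw [DihedralGroup.orderOf_r_one, DihedralGroup.nat_card] at h
    exact Nat.eq_of_mul_eq_mul_right (Nat.pos_of_ne_zero hn0) h
  have i2 : (Subgroup.zpowers (DihedralGroup.sr (0 : ZMod n))).index = n := by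
    have h := index_zpowers (DihedralGroup.sr (0 : ZMod n))
    rw [DihedralGroup.orderOf_sr, DihedralGroup.nat_card] at h
    omega
  have h1 := ker_pow_index_zpowers_eq_one σ hσ (DihedralGroup.r (1 : ZMod n)) k hk
  have h2 := ker_pow_index_zpowers_eq_one σ hσ (DihedralGroup.sr (0 : ZMod n)) k hk
  rw [i1] at h1
  rw [i2] at h2
  have d1 := orderOf_dvd_of_pow_eq_one h1
  have d2 := orderOf_dvd_of_pow_eq_one h2
  have hc : Nat.Coprime 2 n := (Nat.coprime_two_left).mpr hn
  have : orderOf k = 1 := Nat.eq_one_of_dvd_coprimes hc d1 d2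
  rw [Subgroup.mem_bot]
  exact orderOf_eq_one_iff.mp this

end Cfsg.Agent.S3964
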