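import Cfsg.Statements.S3966
import Mathlib

set_option autoImplicit false
open Cfsg
open scoped commutatorElement

namespace Cfsg.Agent.S3966

/-- The reduction map `ZMod (2 n) → ZMod n`. -/
noncomputable def red (n : ℕ) : ZMod (2 * n) →+* ZMod n := ZMod.castHom (Dvd.intro_left 2 rfl) (ZMod n)

theorem red_n (n : ℕ) : red n (n : ZMod (2 * n)) = 0 := by
  simp [red]

/-- The covering map from the dicyclic group to the dihedral group. -/
noncomputable def cover (n : ℕ) : QuaternionGroup n →* DihedralGroup n where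
  toFun
    | QuaternionGroup.a i => DihedralGroup.r (red n i)
    | QuaternionGroup.xa i => DihedralGroup.sr (red n i)
  map_one' := by
    show DihedralGroup.r (red n 0) = 1
    simp
  map_mul' := by
    rintro (i | i) (j | j)
    · simp
    · simp
    · simp
    · simp

theorem cover_a (n : ℕ) (i : ZMod (2 * n)) : cover n (QuaternionGroup.a i) = DihedralGroup.r (red n i) := rfl
theorem cover_xa (n : ℕ) (i : ZMod (2 * n)) : cover n (QuaternionGroup.xa i) = DihedralGroup.sr (red n i) := rfl

theorem red_surjective (n : ℕ) : Function.Surjective (red n) :=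
  ZMod.castHom_surjective _

theorem cover_surjective (n : ℕ) : Function.Surjective (cover n) := by
  rintro (i | i)
  · obtain ⟨j, rfl⟩ := red_surjective n i
    exact ⟨QuaternionGroup.a j, rfl⟩
  · obtain ⟨j, rfl⟩ := red_surjective n i
    exact ⟨QuaternionGroup.xa j, rfl⟩

/-- Elements of the kernel are `a i` with `i` reducing to zero. -/
theorem mem_ker (n : ℕ) (g : QuaternionGroup n) (hg : g ∈ (cover n).ker) :
    ∃ i : ZMod (2 * n), g = QuaternionGroup.a i ∧ red n i = 0 := by
  rw [MonoidHom.mem_ker] at hg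
  rcases g with i | i
  · refine ⟨i, rfl, ?_⟩
    rw [cover_a, DihedralGroup.one_def] at hg
    exact DihedralGroup.r.inj hg
  · rw [cover_xa, DihedralGroup.one_def] at hg
    cases hg

/-- If `i` reduces to zero modulo `n`, then `i` is a multiple of `n` in `ZMod (2 n)`. -/
theorem exists_mul_of_red_zero (n : ℕ) [NeZero n] (i : ZMod (2 * n)) (hi : red n i = 0) :
    ∃ t : ℕ, i = ((n * t : ℕ) : ZMod (2 * n)) := by
  have h1 : ((i.val : ℕ) : ZMod n) = 0 := by
    have : red n ((i.val : ℕ) : ZMod (2 * n)) = ((i.val : ℕ) : ZMod n) := map_natCast (red n) i.val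
    rw [← this, ZMod.natCast_zmod_val, hi]
  rw [ZMod.natCast_eq_zero_iff] at h1
  obtain ⟨t, ht⟩ := h1
  refine ⟨t, ?_⟩
  rw [← ht, ZMod.natCast_zmod_val]

theorem result (n : ℕ) [NeZero n] (hn : Even n) : ∃ σ : QuaternionGroup n →* DihedralGroup n, Cfsg.IsStemExtension σ ∧ Nat.card σ.ker = 2 := by
  refine ⟨cover n, ⟨cover_surjective n, ?_, ?_⟩, ?_⟩
  · -- central
    intro g hg
    obtain ⟨i, rfl, hi⟩ := mem_ker n g hg
    obtain ⟨t, rfl⟩ := exists_mul_of_red_zero n i hi
    have h2 : ((n * t : ℕ) : ZMod (2 * n)) + ((n * t : ℕ) : ZMod (2 * n)) = 0 := by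
      rw [← Nat.cast_add, ZMod.natCast_eq_zero_iff]
      exact ⟨t, by ring⟩
    rw [Subgroup.mem_center_iff]
    rintro (j | j)
    · simp [add_comm]
    · simp only [QuaternionGroup.xa_mul_a, QuaternionGroup.a_mul_xa]
      congr 1
      rw [sub_eq_add_neg]
      congr 1
      exact (neg_eq_of_add_eq_zero_left h2).symm
  · -- in the commutator subgroup
    intro g hg
    obtain ⟨i, rfl, hi⟩ := mem_ker n g hg
    obtain ⟨t, rfl⟩ := exists_mul_of_red_zero n i hi
    obtain ⟨m, hm⟩ := hn
    -- a (n t) = a (2 m t) = ⁅xa 0, a (-(m t))⁆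
    have hcomm : ∀ k : ZMod (2 * n), ⁅(QuaternionGroup.xa 0 : QuaternionGroup n), QuaternionGroup.a k⁆ = QuaternionGroup.a (-(k + k)) := by
      intro k
      rw [commutatorElement_def]
      have hinv1 : (QuaternionGroup.xa (0 : ZMod (2 * n)) : QuaternionGroup n)⁻¹ = QuaternionGroup.xa (n + 0) := rfl
      have hinv2 : (QuaternionGroup.a k : QuaternionGroup n)⁻¹ = QuaternionGroup.a (-k) := rfl
      rw [hinv1, hinv2]
      simp only [QuaternionGroup.xa_mul_a, QuaternionGroup.xa_mul_xa, QuaternionGroup.a_mul_a]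
      congr 1
      have h2n : ((n : ℕ) : ZMod (2 * n)) + n = 0 := by
        rw [← Nat.cast_add, ZMod.natCast_eq_zero_iff]
        exact ⟨1, by ring⟩
      linear_combination h2n
    have : (QuaternionGroup.a ((n * t : ℕ) : ZMod (2 * n)) : QuaternionGroup n) =
        ⁅(QuaternionGroup.xa 0 : QuaternionGroup n), QuaternionGroup.a (-((m * t : ℕ) : ZMod (2 * n)))⁆ := by
      rw [hcomm]
      congr 1
      rw [hm]
      push_cast
      ring
    rw [this]
    exact Subgroup.commutator_mem_commutator (Subgroup.mem_top _) (Subgroup.mem_top _)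
  · -- the kernel has two elements
    have h1 : Nat.card (QuaternionGroup n) = 4 * n := by
      rw [Nat.card_eq_fintype_card, QuaternionGroup.card]
    have h2 : Nat.card (DihedralGroup n) = 2 * n := DihedralGroup.nat_card
    have h3 := Subgroup.card_eq_card_quotient_mul_card_subgroup (cover n).ker
    have h4 : Nat.card (QuaternionGroup n ⧸ (cover n).ker) = Nat.card (DihedralGroup n) :=
      Nat.card_congr (QuotientGroup.quotientKerEquivOfSurjective (cover n) (cover_surjective n)).toEquiv
    rw [h1, h4, h2] at h3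
    have hn0 : 0 < n := Nat.pos_of_ne_zero (NeZero.ne n)
    nlinarith [h3]

end Cfsg.Agent.S3966
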