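import Cfsg.Statements.S3965
import Mathlib
import Cfsg.Agent.Lib.Helper66.Stem
import Cfsg.Agent.Lib.Helper66.DihedralStem
import Cfsg.Agent.S3966

set_option autoImplicit false
open Cfsg

namespace Cfsg.Agent.S3965

open Cfsg.Agent.Lib.Helper66.Stem Cfsg.Agent.Lib.Helper66.DihedralStem

theorem result (n : ℕ) [NeZero n] (hn : Even n) : Cfsg.HasCyclicSchurMultiplier (DihedralGroup n) 2 := by
  constructor
  · obtain ⟨σ, hσ, hcard⟩ := Cfsg.Agent.S3966.result n hn
    refine ⟨QuaternionGroup n, inferInstance, inferInstance, σ, hσ, ⟨?_⟩⟩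
    exact mulEquivOfPrimeCardEq (p := 2) hcard (by simp [Nat.card_eq_fintype_card])
  · intro Γ _ _ σ hσ
    obtain ⟨w, hwn, hσw, hle⟩ := dihedral_main n σ hσ
    obtain ⟨m, hm⟩ := hn
    apply exists_surjective_zmod_of_le_zpowers σ.ker (w ^ m) 2
    · rw [← pow_mul]
      have : m * 2 = n := by omega
      rw [this, hwn]
    · intro k hk
      obtain ⟨i, rfl⟩ := hle hk
      have h1 : σ (w ^ i) = 1 := hk
      rw [map_zpow, hσw, DihedralGroup.r_zpow, DihedralGroup.one_def] at h1
      have h2 : ((-2 : ZMod n) * (i : ZMod n)) = 0 := DihedralGroup.r.inj h1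
      have h3 : (n : ℤ) ∣ -2 * i := by
        rw [← ZMod.intCast_zmod_eq_zero_iff_dvd]
        push_cast
        exact h2
      obtain ⟨t, ht⟩ := h3
      have h4 : i = (m : ℤ) * (-t) := by
        have : 2 * i = 2 * ((m : ℤ) * (-t)) := by
          rw [hm] at ht
          push_cast at ht
          linear_combination -ht
        exact mul_left_cancel₀ (by norm_num) this
      refine ⟨-t, ?_⟩
      show (w ^ m) ^ (-t) = w ^ i
      rw [h4, zpow_mul, zpow_natCast]

end Cfsg.Agent.S3965
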