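import Cfsg.Statements.S3967
import Cfsg.Agent.Lib.Helper66.Metacyclic

set_option autoImplicit false
open Cfsg

namespace Cfsg.Agent.S3967

open Cfsg.Agent.Lib.Helper66.Hopf Cfsg.Agent.Lib.Helper66.Metacyclic
open scoped commutatorElement

/-- degree in `a` -/
def degA : FreeGroup Bool →* Multiplicative ℤ :=
  FreeGroup.lift (fun c => cond c (Multiplicative.ofAdd 1) 1)

/-- degree in `b` -/
def degB : FreeGroup Bool →* Multiplicative ℤ :=
  FreeGroup.lift (fun c => cond c 1 (Multiplicative.ofAdd 1))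

theorem FR_le_ker_of_comm {G : Type*} [Group G] (π : FreeGroup Bool →* G) {C : Type*}
    [CommGroup C] (φ : FreeGroup Bool →* C) : FR π ≤ φ.ker :=
  (FR_le_commutator π).trans (Abelianization.commutator_subset_ker φ)

/-- a degree map on `E` -/
def degE {G : Type*} [Group G] (π : FreeGroup Bool →* G)
    (φ : FreeGroup Bool →* Multiplicative ℤ) : E π →* Multiplicative ℤ :=
  QuotientGroup.lift (FR π) φ (FR_le_ker_of_comm π φ)

theorem degE_eq_one {G : Type*} [Group G] (π : FreeGroup Bool →* G)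
    (φ : FreeGroup Bool →* Multiplicative ℤ) (e : E π) (he : e ∈ commutator (E π)) :
    degE π φ e = 1 :=
  Abelianization.commutator_subset_ker (degE π φ) he

theorem main_aux (d m' r' s l n : ℕ) (hd : 0 < d) (hm' : 0 < m') (hn : 0 < n)
    (hcop : Nat.Coprime m' r')
    (hS : ∑ i ∈ Finset.range n, (d * r' + 1) ^ i = m' * s) :
    Cfsg.HasCyclicSchurMultiplier (PresentedGroup (rels (d * m') n (d * r' + 1) (m' * l)))
      (Nat.gcd l (Nat.gcd d s)) := by
  have hm : 0 < d * m' := Nat.mul_pos hd hm'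
  have := finite_G (m := d * m') (n := n) (r := d * r' + 1) (t := m' * l) hm hn
  set π := PresentedGroup.mk (rels (d * m') n (d * r' + 1) (m' * l)) with hπ
  have hπs : Function.Surjective π := PresentedGroup.mk_surjective _
  have hkerπ : ∀ f, π f = 1 ↔ f ∈ Subgroup.normalClosure (rels (d * m') n (d * r' + 1) (m' * l)) :=
    fun f => PresentedGroup.mk_eq_one_iff
  let q : FreeGroup Bool →* E π := QuotientGroup.mk' (FR π)
  have hqs : Function.Surjective q := QuotientGroup.mk'_surjective (FR π)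
  set A : E π := q (FreeGroup.of true) with hA
  set B : E π := q (FreeGroup.of false) with hB
  set x : E π := A ^ (d * m') with hx
  set y : E π := B ^ n * (A ^ (m' * l))⁻¹ with hy
  set z : E π := B * A * B⁻¹ * (A ^ (d * r' + 1))⁻¹ with hz
  have hxq : x = q (FreeGroup.of true ^ (d * m')) := by rw [map_pow]
  have hyq : y = q (FreeGroup.of false ^ n * (FreeGroup.of true ^ (m' * l))⁻¹) := by
    rw [map_mul, map_inv, map_pow, map_pow]
  have hzq : z = q (FreeGroup.of false * FreeGroup.of true * (FreeGroup.of false)⁻¹ *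
      (FreeGroup.of true ^ (d * r' + 1))⁻¹) := by
    rw [map_mul, map_mul, map_mul, map_inv, map_inv, map_pow]
  have hxZ : x ∈ Z π := by
    rw [hxq]; exact (mem_Z π _).mpr (PresentedGroup.one_of_mem (by simp [rels]))
  have hyZ : y ∈ Z π := by
    rw [hyq]; exact (mem_Z π _).mpr (PresentedGroup.one_of_mem (by simp [rels]))
  have hzZ : z ∈ Z π := by
    rw [hzq]; exact (mem_Z π _).mpr (PresentedGroup.one_of_mem (by simp [rels]))
  have hxc : x ∈ Subgroup.center (E π) := Z_le_center π hxZ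
  have hyc : y ∈ Subgroup.center (E π) := Z_le_center π hyZ
  have hzc : z ∈ Subgroup.center (E π) := Z_le_center π hzZ
  set w : E π := z ^ m' * x ^ r' with hw
  -- the relations
  obtain ⟨R1, R2, R3⟩ := rel_lemmas A B (d * m') n (d * r') (m' * l) hxc hyc hzc
  have hzg : ∀ g : E π, Commute z g := fun g => (Subgroup.mem_center_iff.mp hzc g).symm
  have hzx : Commute (z ^ m') (x ^ r') := ((hzg x).pow_left m').pow_right r'
  have hwk : ∀ k : ℕ, w ^ k = z ^ (m' * k) * A ^ (d * r' * (m' * k)) := by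
    intro k
    rw [hw, hzx.mul_pow, ← pow_mul, ← pow_mul, hx, ← pow_mul]
    congr 2; ring
  have hw1 : w ^ d = 1 := by rw [hwk, mul_comm m' d]; exact R1
  have hw2 : w ^ l = 1 := by rw [hwk]; exact R2
  have hw3 : w ^ s = 1 := by rw [hwk, ← hS]; exact R3
  have hup : orderOf w ∣ Nat.gcd l (Nat.gcd d s) :=
    Nat.dvd_gcd (orderOf_dvd_of_pow_eq_one hw2)
      (Nat.dvd_gcd (orderOf_dvd_of_pow_eq_one hw1) (orderOf_dvd_of_pow_eq_one hw3))
  -- the lower bound
  have hlow : Nat.gcd l (Nat.gcd d s) ∣ orderOf w := by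
    apply lower π d m' r' s l n hm' hn hS (fun f hf => (hkerπ f).mp hf) (orderOf w)
    have h1 : q (((FreeGroup.of false * FreeGroup.of true * (FreeGroup.of false)⁻¹ *
        (FreeGroup.of true ^ (d * r' + 1))⁻¹) ^ m' * (FreeGroup.of true ^ (d * m')) ^ r') ^
          orderOf w) = 1 := by
      rw [map_pow, map_mul, map_pow, map_pow, ← hzq, ← hxq, pow_orderOf_eq_one]
    exact (QuotientGroup.eq_one_iff _).mp h1
  have hord : orderOf w = Nat.gcd l (Nat.gcd d s) := Nat.dvd_antisymm hup hlow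
  -- `w ∈ T`
  have hwZ : w ∈ Z π := mul_mem (pow_mem hzZ _) (pow_mem hxZ _)
  have hwC : w ∈ commutator (E π) := by
    have h1 : ⁅B, A⁆ = z * A ^ (d * r') := by
      rw [commutatorElement_def, hz, pow_succ, mul_inv_rev, mul_assoc (B * A * B⁻¹),
        mul_assoc A⁻¹, inv_mul_cancel, mul_one]
    have h2 : w = ⁅B, A⁆ ^ m' := by
      rw [h1, (hzg _).mul_pow, ← pow_mul, hw, hx, ← pow_mul]
      congr 2; ring
    rw [h2, commutator_def]
    exact pow_mem (Subgroup.commutator_mem_commutator (Subgroup.mem_top _) (Subgroup.mem_top _)) _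
  have hwT : w ∈ T π := ⟨hwZ, hwC⟩
  -- `Z ≤ ⟨x, y, z⟩`
  have hZle : Z π ≤ Subgroup.closure {x, y, z} := by
    intro e he
    obtain ⟨f, rfl⟩ := hqs e
    have hf : f ∈ Subgroup.normalClosure (rels (d * m') n (d * r' + 1) (m' * l)) :=
      (hkerπ f).mp ((mem_Z π _).mp he)
    have : (Subgroup.closure {x, y, z}).Normal := normal_of_le_center _ (by
      rw [Subgroup.closure_le]
      rintro _ (rfl | rfl | rfl) <;> assumption)
    have hle : Subgroup.normalClosure (rels (d * m') n (d * r' + 1) (m' * l))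
        ≤ (Subgroup.closure {x, y, z}).comap q := by
      apply Subgroup.normalClosure_le_normal
      rintro _ (rfl | rfl | rfl)
      · exact Subgroup.subset_closure (by rw [← hxq]; simp)
      · exact Subgroup.subset_closure (by rw [← hyq]; simp)
      · exact Subgroup.subset_closure (by rw [← hzq]; simp)
    exact hle hf
  -- `T ≤ ⟨w⟩`
  have hAa : degE π degA A = Multiplicative.ofAdd 1 := by
    show degA (FreeGroup.of true) = _
    rw [degA, FreeGroup.lift_apply_of]; rfl
  have hAb : degE π degA B = 1 := by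
    show degA (FreeGroup.of false) = _
    rw [degA, FreeGroup.lift_apply_of]; rfl
  have hBa : degE π degB A = 1 := by
    show degB (FreeGroup.of true) = _
    rw [degB, FreeGroup.lift_apply_of]; rfl
  have hBb : degE π degB B = Multiplicative.ofAdd 1 := by
    show degB (FreeGroup.of false) = _
    rw [degB, FreeGroup.lift_apply_of]; rfl
  have hTle : T π ≤ Subgroup.zpowers w := by
    intro e he
    obtain ⟨α, β, γ, rfl⟩ := mem_closure_triple hxc hyc hzc (hZle he.1)
    have hdA := degE_eq_one π degA _ he.2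
    have hdB := degE_eq_one π degB _ he.2
    simp only [map_mul, map_zpow, map_pow, map_inv, hx, hy, hz, hAa, hAb, hBa, hBb] at hdA hdB
    have hdA' := congrArg Multiplicative.toAdd hdA
    have hdB' := congrArg Multiplicative.toAdd hdB
    simp at hdA' hdB'
    have hβ : β = 0 := by
      rcases hdB' with h | h
      · exact h
      · omega
    subst hβ
    have h1 : (m' : ℤ) * α = r' * γ := by
      have hd0 : (d : ℤ) ≠ 0 := by exact_mod_cast hd.ne'
      apply mul_left_cancel₀ hd0
      linear_combination hdA'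
    have h2 : (m' : ℤ) ∣ γ := by
      have hc : IsCoprime (m' : ℤ) (r' : ℤ) := Nat.isCoprime_iff_coprime.mpr hcop
      exact hc.dvd_of_dvd_mul_left ⟨α, h1.symm⟩
    obtain ⟨k, rfl⟩ := h2
    have h3 : α = r' * k := by
      have hm0 : (m' : ℤ) ≠ 0 := by exact_mod_cast hm'.ne'
      apply mul_left_cancel₀ hm0
      rw [h1]; ring
    subst h3
    refine Subgroup.mem_zpowers_iff.mpr ⟨k, ?_⟩
    rw [hw, hzx.mul_zpow, ← zpow_natCast z m', ← zpow_natCast x r', ← zpow_mul, ← zpow_mul,
      zpow_zero, mul_one]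
    exact ((hzg x).zpow_zpow _ _).eq
  have hTeq : T π = Subgroup.zpowers w := le_antisymm hTle (Subgroup.zpowers_le.mpr hwT)
  have hgen : ∀ e : T π, e ∈ Subgroup.zpowers (⟨w, hwT⟩ : T π) := by
    rintro ⟨e, he⟩
    obtain ⟨k, hk⟩ := Subgroup.mem_zpowers_iff.mp (hTle he)
    exact Subgroup.mem_zpowers_iff.mpr ⟨k, Subtype.ext (by rw [Subgroup.coe_zpow]; exact hk)⟩
  have hcard : Nat.card (T π) = Nat.gcd l (Nat.gcd d s) := by
    rw [← hord, ← Nat.card_zpowers w, hTeq]
  exact hasSchurMultiplier_of_equiv π hπs (zmodMulEquivOfGenerator hgen hcard)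

/-- Let `m, n ≥ 1`, `r ≥ 1` with `r ^ n ≡ 1 (mod m)`, and `l` a natural number; put `d = gcd(m, r - 1)`, `t = m l / d` and `h = d · gcd(m, 1 + r + ⋯ + r^(n-1)) / m`. The group presented by generators `a, b` and relations `a ^ m = 1`, `b ^ n = a ^ t`, `b a b⁻¹ = a ^ r` (a metacyclic group of order `m n`) has Schur multiplier cyclic of order `gcd(l, h)`. -/
theorem result (m n r l : ℕ) (hm : 0 < m) (hn : 0 < n) (hr : 0 < r) (hrn : r ^ n ≡ 1 [MOD m]) : Cfsg.HasCyclicSchurMultiplier (PresentedGroup ({FreeGroup.of true ^ m, (FreeGroup.of false) ^ n * (FreeGroup.of true ^ (m * l / Nat.gcd m (r - 1)))⁻¹, FreeGroup.of false * FreeGroup.of true * (FreeGroup.of false)⁻¹ * (FreeGroup.of true ^ r)⁻¹} : Set (FreeGroup Bool))) (Nat.gcd l (Nat.gcd m (r - 1) * Nat.gcd m (∑ i ∈ Finset.range n, r ^ i) / m)) := by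
  obtain ⟨d, m', r', s, hd, hm', hcop, rfl, rfl, hS, hg⟩ := arith m n r hm hr hrn
  have e1 : d * m' * l / Nat.gcd (d * m') (d * r' + 1 - 1) = m' * l := by
    rw [hg, mul_assoc, Nat.mul_div_cancel_left _ hd]
  have e2 : Nat.gcd (d * m') (d * r' + 1 - 1) *
      Nat.gcd (d * m') (∑ i ∈ Finset.range n, (d * r' + 1) ^ i) / (d * m') = Nat.gcd d s := by
    rw [hg, hS, mul_comm d m', Nat.gcd_mul_left, ← mul_assoc, mul_comm d m',
      Nat.mul_div_cancel_left _ (Nat.mul_pos hm' hd)]
  rw [e1, e2]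
  exact main_aux d m' r' s l n hd hm' hn hcop hS

end Cfsg.Agent.S3967
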