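import Cfsg.Statements.S3968
import Cfsg.Agent.Lib.CT.NormOne
import Cfsg.Agent.Lib.CT.Kernel
import Cfsg.Agent.Lib.CT.LinChar
import Cfsg.Agent.Lib.CT.PairCount
import Cfsg.Agent.Lib.Helper80.Integrality
import Cfsg.Agent.Lib.Helper80.Burnside

set_option autoImplicit false
open Cfsg

namespace Cfsg.Agent.S3968

open Cfsg.Agent.Lib.Helper80.Integrality

/-- If all irreducible constituents of a character are linear, it is trivial on commutators. -/
theorem comm_of_linear {A : Type*} [Group A] [Fintype A] [Fintype (IrrCharacter A)]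
    {ψ : A → ℂ} (m : IrrCharacter A → ℕ)
    (hexp : ∀ g, ψ g = ∑ μ : IrrCharacter A, (m μ : ℂ) * (μ : A → ℂ) g)
    (hlin : ∀ μ : IrrCharacter A, m μ ≠ 0 → (μ : A → ℂ) 1 = 1) (a b : A) :
    ψ (a * b * a⁻¹ * b⁻¹) = ψ 1 := by
  rw [hexp, hexp]
  refine Finset.sum_congr rfl (fun μ _ => ?_)
  by_cases hm : m μ = 0
  · rw [hm]; simp
  · have h1 := hlin μ hm
    have hc := isCharacter_of_isIrrCharacter μ.2
    have hmul := Cfsg.Agent.Lib.CT.LinChar.linear_mul hc h1
    have hinv := Cfsg.Agent.Lib.CT.LinChar.linear_inv hc h1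
    have hne := Cfsg.Agent.Lib.CT.LinChar.linear_ne_zero hc h1
    rw [hmul, hmul, hmul, hinv, hinv, h1]
    congr 1
    field_simp [hne a, hne b]

/-- Let `p` be a prime and `G` a finite group with a faithful irreducible complex character of degree `p` (so `G` is an irreducible linear group in `p` variables). If `p ^ 2` divides the order of `G`, then the centre of `G` is nontrivial. -/
theorem result {G : Type*} [Group G] [Finite G] (p : ℕ) (hp : p.Prime) (χ : Cfsg.IrrCharacter G) (hdeg : χ.1 1 = p) (hfaith : ∀ g : G, χ.1 g = χ.1 1 → g = 1) (hdiv : p ^ 2 ∣ Nat.card G) : Subgroup.center G ≠ ⊥ := by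
  classical
  intro hZ
  have : Fact p.Prime := ⟨hp⟩
  have : Fintype G := Fintype.ofFinite G
  have hc : IsCharacter G (χ : G → ℂ) := isCharacter_of_isIrrCharacter χ.2
  have hcd : charDegree (χ : G → ℂ) = p := by
    have := apply_one_eq_charDegree hc
    rw [hdeg] at this
    exact_mod_cast this.symm
  let P : Sylow p G := default
  have hPdvd : p ^ 2 ∣ Nat.card P := P.pow_dvd_card_of_pow_dvd_card hdiv
  obtain ⟨n, hn⟩ := IsPGroup.iff_card.1 P.2
  -- vanishing on elements centralized by P
  have hzero : ∀ x : G, (∀ y ∈ P, y * x = x * y) → x ≠ 1 → (χ : G → ℂ) x = 0 := by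
    intro x hx hx1
    have hle : (P : Subgroup G) ≤ Subgroup.centralizer ({x} : Set G) := by
      intro y hy
      rw [Subgroup.mem_centralizer_iff]
      intro h hh
      rw [Set.mem_singleton_iff] at hh
      subst hh
      exact (hx y hy).symm
    have hnd : ¬ p ∣ (Subgroup.centralizer ({x} : Set G)).index := fun h =>
      P.not_dvd_index (h.trans (Subgroup.index_dvd_of_le hle))
    have hcop : Nat.Coprime (charDegree (χ : G → ℂ)) (Subgroup.centralizer ({x} : Set G)).index := by
      rw [hcd]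
      exact (Nat.Prime.coprime_iff_not_dvd hp).2 hnd
    rcases Cfsg.Agent.Lib.Helper80.Burnside.irr_eq_zero_or_norm_eq_of_coprime χ x hcop with h | h
    · exact h
    · exfalso
      have := Cfsg.Agent.Lib.CT.Kernel.mem_center_of_norm_eq hc hfaith h
      rw [hZ, Subgroup.mem_bot] at this
      exact hx1 this
  -- restriction to P
  have hcP : IsCharacter ↥(P : Subgroup G) (fun k : ↥(P : Subgroup G) => (χ : G → ℂ) k) :=
    Cfsg.Agent.Lib.CT.Ops.isCharacter_restrict (P : Subgroup G) hc
  have := Cfsg.Agent.Lib.CT.Wedderburn.finite_irrCharacter ↥(P : Subgroup G)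
  have : Fintype (IrrCharacter ↥(P : Subgroup G)) := Fintype.ofFinite _
  obtain ⟨m, -, hexp⟩ := Cfsg.Agent.Lib.CT.NormOne.exists_mult hcP
  have hexp' : ∀ g : ↥(P : Subgroup G), (χ : G → ℂ) g
      = ∑ μ : IrrCharacter ↥(P : Subgroup G), (m μ : ℂ) * (μ : ↥(P : Subgroup G) → ℂ) g := by
    intro g
    have := hexp g
    rw [finsum_eq_sum_of_fintype] at this
    exact this
  have hd : ∀ μ : IrrCharacter ↥(P : Subgroup G),
      (μ : ↥(P : Subgroup G) → ℂ) 1 = (charDegree (μ : ↥(P : Subgroup G) → ℂ) : ℂ) := fun μ =>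
    apply_one_eq_charDegree (isCharacter_of_isIrrCharacter μ.2)
  have hsum : p = ∑ μ : IrrCharacter ↥(P : Subgroup G),
      m μ * charDegree (μ : ↥(P : Subgroup G) → ℂ) := by
    have h1 := hexp' 1
    rw [OneMemClass.coe_one, hdeg] at h1
    simp only [hd] at h1
    exact_mod_cast h1
  by_cases hlin : ∀ μ : IrrCharacter ↥(P : Subgroup G), m μ ≠ 0 →
      (μ : ↥(P : Subgroup G) → ℂ) 1 = 1
  · -- P is abelian
    have hab : ∀ a b : ↥(P : Subgroup G), a * b = b * a := by
      intro a b
      have h1 := comm_of_linear (ψ := fun k : ↥(P : Subgroup G) => (χ : G → ℂ) k) m hexp' hlin a b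
      have h2 : ((a * b * a⁻¹ * b⁻¹ : ↥(P : Subgroup G)) : G) = 1 := hfaith _ h1
      have h3 : a * b * a⁻¹ * b⁻¹ = 1 := Subtype.ext h2
      calc a * b = (a * b * a⁻¹ * b⁻¹) * (b * a) := by group
        _ = b * a := by rw [h3, one_mul]
    obtain ⟨m', hm'⟩ := Cfsg.Agent.Lib.CT.PairCount.char_sum_subgroup hc (P : Subgroup G)
    have hsingle : ∑ w : ↥(P : Subgroup G), (χ : G → ℂ) (w : G) = (p : ℂ) := by
      rw [Finset.sum_eq_single (1 : ↥(P : Subgroup G))]
      · rw [OneMemClass.coe_one, hdeg]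
      · intro w _ hw
        apply hzero
        · intro y hy
          exact congrArg Subtype.val (hab ⟨y, hy⟩ w)
        · intro h
          exact hw (Subtype.ext h)
      · intro h
        exact absurd (Finset.mem_univ _) h
    rw [hsingle] at hm'
    have hnat : p = Nat.card ↥(P : Subgroup G) * m' := by exact_mod_cast hm'
    have h4 : p ^ 2 ∣ p := hPdvd.trans (Dvd.intro _ hnat.symm)
    have h5 := Nat.le_of_dvd hp.pos h4
    have h6 : p < p ^ 2 := by
      have := hp.one_lt
      nlinarith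
    omega
  · -- some constituent is nonlinear, so the restriction is irreducible
    push Not at hlin
    obtain ⟨μ₀, hm0, hne1⟩ := hlin
    have hdpos : ∀ μ : IrrCharacter ↥(P : Subgroup G),
        0 < charDegree (μ : ↥(P : Subgroup G) → ℂ) := fun μ => charDegree_pos μ
    have hdne : charDegree (μ₀ : ↥(P : Subgroup G) → ℂ) ≠ 1 := by
      intro h
      apply hne1
      rw [hd μ₀, h]
      simp
    have hpd : p ∣ charDegree (μ₀ : ↥(P : Subgroup G) → ℂ) := by
      have h1 : charDegree (μ₀ : ↥(P : Subgroup G) → ℂ) ∣ p ^ n := by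
        rw [← hn]
        exact charDegree_dvd_card μ₀
      obtain ⟨k, -, hk⟩ := (Nat.dvd_prime_pow hp).1 h1
      rw [hk] at hdne ⊢
      rcases Nat.eq_zero_or_pos k with rfl | hkpos
      · exact absurd (pow_zero p) hdne
      · exact dvd_pow_self p hkpos.ne'
    have hple : p ≤ charDegree (μ₀ : ↥(P : Subgroup G) → ℂ) := Nat.le_of_dvd (hdpos μ₀) hpd
    have hsplit : p = m μ₀ * charDegree (μ₀ : ↥(P : Subgroup G) → ℂ)
        + ∑ μ ∈ Finset.univ.erase μ₀, m μ * charDegree (μ : ↥(P : Subgroup G) → ℂ) := by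
      rw [Finset.add_sum_erase Finset.univ
        (fun μ : IrrCharacter ↥(P : Subgroup G) => m μ * charDegree (μ : ↥(P : Subgroup G) → ℂ))
        (Finset.mem_univ μ₀)]
      exact hsum
    have hm1 : 1 ≤ m μ₀ := Nat.pos_of_ne_zero hm0
    have hge : charDegree (μ₀ : ↥(P : Subgroup G) → ℂ)
        ≤ m μ₀ * charDegree (μ₀ : ↥(P : Subgroup G) → ℂ) := Nat.le_mul_of_pos_left _ hm1
    have hrest : ∑ μ ∈ Finset.univ.erase μ₀, m μ * charDegree (μ : ↥(P : Subgroup G) → ℂ) = 0 := by
      omega
    have hm0' : m μ₀ * charDegree (μ₀ : ↥(P : Subgroup G) → ℂ) = p := by omega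
    have hmone : m μ₀ = 1 := by
      by_contra hne
      have h2 : 2 ≤ m μ₀ := by omega
      have : 2 * charDegree (μ₀ : ↥(P : Subgroup G) → ℂ)
          ≤ m μ₀ * charDegree (μ₀ : ↥(P : Subgroup G) → ℂ) := Nat.mul_le_mul_right _ h2
      have hpp := hp.pos
      omega
    have hothers : ∀ μ : IrrCharacter ↥(P : Subgroup G), μ ≠ μ₀ → m μ = 0 := by
      intro μ hμ
      have h1 := (Finset.sum_eq_zero_iff.1 hrest) μ (Finset.mem_erase.2 ⟨hμ, Finset.mem_univ _⟩)
      rcases Nat.mul_eq_zero.1 h1 with h | h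
      · exact h
      · exact absurd h (hdpos μ).ne'
    have heq : (fun k : ↥(P : Subgroup G) => (χ : G → ℂ) k) = (μ₀ : ↥(P : Subgroup G) → ℂ) := by
      funext g
      rw [hexp' g, Finset.sum_eq_single μ₀]
      · rw [hmone]; simp
      · intro μ _ hμ
        rw [hothers μ hμ]; simp
      · intro h
        exact absurd (Finset.mem_univ _) h
    have hirrP : IsIrrCharacter ↥(P : Subgroup G) (fun k : ↥(P : Subgroup G) => (χ : G → ℂ) k) := by
      rw [heq]; exact μ₀.2
    -- a nontrivial central element of P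
    have hPnt : Nontrivial ↥(P : Subgroup G) := by
      rw [← Finite.one_lt_card_iff_nontrivial]
      have h1 : 0 < Nat.card ↥(P : Subgroup G) := Nat.card_pos
      have h2 := Nat.le_of_dvd h1 hPdvd
      have h3 : 1 < p ^ 2 := Nat.one_lt_pow (by norm_num) hp.one_lt
      omega
    have hcnt : Nontrivial (Subgroup.center ↥(P : Subgroup G)) := P.2.center_nontrivial
    obtain ⟨z, hz⟩ := exists_ne (1 : Subgroup.center ↥(P : Subgroup G))
    have hzc : (z : ↥(P : Subgroup G)) ∈ Subgroup.center ↥(P : Subgroup G) := z.2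
    have hnorm := Cfsg.Agent.Lib.CT.Kernel.norm_eq_of_mem_center hirrP hzc
    have hz0 : (χ : G → ℂ) ((z : ↥(P : Subgroup G)) : G) = 0 := by
      apply hzero
      · intro y hy
        have := Subgroup.mem_center_iff.1 hzc ⟨y, hy⟩
        exact congrArg Subtype.val this
      · intro h
        apply hz
        apply Subtype.ext
        apply Subtype.ext
        exact h
    simp only [hz0, norm_zero, OneMemClass.coe_one] at hnorm
    rw [hdeg] at hnorm
    simp at hnorm
    exact hp.ne_zero (by exact_mod_cast hnorm.symm)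

end Cfsg.Agent.S3968
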