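import Cfsg.Statements.S3972
import Cfsg.Agent.Lib.Helper59.Schur

set_option autoImplicit false
open Cfsg

namespace Cfsg.Agent.S3972

/-- Let `p` be a prime, `m ≥ 2`, and `G` a transitive but not doubly transitive permutation group on `p ^ m` points containing a permutation of order `p ^ m` (necessarily a full cycle). Then `G` is imprimitive, and the normal closure in `G` of the `p ^ (m - 1)`-th power of that permutation is an intransitive normal subgroup. -/
theorem result {Ω : Type*} [Fintype Ω] [DecidableEq Ω] (p m : ℕ) (hp : p.Prime) (hm : 2 ≤ m) (hΩ : Fintype.card Ω = p ^ m) (G : Subgroup (Equiv.Perm Ω)) (htr : MulAction.IsPretransitive G Ω) (h2 : ¬ MulAction.IsMultiplyPretransitive G Ω 2) (g : G) (hg : orderOf g = p ^ m) : ¬ MulAction.IsPreprimitive G Ω ∧ ¬ MulAction.IsPretransitive (Subgroup.normalClosure ({g ^ (p ^ (m - 1))} : Set G)) Ω := by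
  classical
  have hgpow : g ^ (p ^ m) = 1 := by rw [← hg]; exact pow_orderOf_eq_one g
  have hlt : p ^ (m - 1) < p ^ m := Nat.pow_lt_pow_right hp.one_lt (by omega)
  have hz1 : g ^ (p ^ (m - 1)) ≠ 1 := by
    intro h
    have h1 := orderOf_dvd_of_pow_eq_one h
    rw [hg] at h1
    have := Nat.le_of_dvd (pow_pos hp.pos _) h1
    omega
  obtain ⟨ω, hω⟩ : ∃ ω : Ω, g ^ (p ^ (m - 1)) • ω ≠ ω := by
    by_contra hcon
    push Not at hcon
    apply hz1
    apply Subtype.ext
    ext ω
    exact hcon ω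
  have hper : Function.minimalPeriod ((g • ·) : Ω → Ω) ω = Nat.card Ω := by
    have h1 : Function.minimalPeriod ((g • ·) : Ω → Ω) ω ∣ p ^ m :=
      MulAction.pow_smul_eq_iff_minimalPeriod_dvd.mp (by rw [hgpow, one_smul])
    have h3 : ¬ Function.minimalPeriod ((g • ·) : Ω → Ω) ω ∣ p ^ (m - 1) :=
      fun h => hω (MulAction.pow_smul_eq_iff_minimalPeriod_dvd.mpr h)
    obtain ⟨i, hi, hgi⟩ := (Nat.dvd_prime_pow hp).mp h1
    rw [hgi] at h3 ⊢
    have him : i = m := by
      by_contra hne
      exact h3 (pow_dvd_pow p (by omega))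
    rw [him, Nat.card_eq_fintype_card, hΩ]
  have hc := Cfsg.Agent.Lib.Helper59.Schur.trans_of_minimalPeriod g ω hper
  have hnprim : ¬ MulAction.IsPreprimitive G Ω := by
    intro hprim
    apply h2
    apply Cfsg.Agent.Lib.Helper59.Schur.schur_cyclic hprim g hc
    · rw [Nat.card_eq_fintype_card, hΩ]
      have e : p ^ m = p * p ^ (m - 1) := by rw [← pow_succ']; congr 1; omega
      rw [e]
      apply Nat.not_prime_mul hp.one_lt.ne'
      have : 1 < p ^ (m - 1) := Nat.one_lt_pow (by omega) hp.one_lt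
      omega
    · rw [Nat.card_eq_fintype_card, hΩ]
      calc 2 ≤ p := hp.two_le
        _ = p ^ 1 := (pow_one p).symm
        _ ≤ p ^ m := Nat.pow_le_pow_right hp.pos (by omega)
  refine ⟨hnprim, ?_⟩
  obtain ⟨B, hB, hBt⟩ : ∃ B : Set Ω, MulAction.IsBlock G B ∧ ¬ MulAction.IsTrivialBlock B := by
    by_contra hcon
    push Not at hcon
    exact hnprim ⟨fun {B} hB => hcon B hB⟩
  exact Cfsg.Agent.Lib.Helper59.Schur.not_transitive_normalClosure g p m hp (by omega) hgpow hc
    B hB hBt

end Cfsg.Agent.S3972
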