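import Mathlib
import Cfsg.Statements.S3973
import Cfsg.Agent.Lib.Helper66.Hopf

set_option autoImplicit false
open Cfsg

namespace Cfsg.Agent.S3973

open Cfsg.Agent.Lib.Helper66

/-- `Z π = R/[F,R]` is commutative. -/
@[reducible] def commGroupZ {α : Type*} {G : Type*} [Group G] (π : FreeGroup α →* G) :
    CommGroup (Hopf.Z π) :=
  { (inferInstance : Group (Hopf.Z π)) with
    mul_comm := fun a b =>
      Subtype.ext (Subgroup.mem_center_iff.mp (Hopf.Z_le_center π a.2) b).symm }

/-- `Z π` is generated by the images of a set of normal generators of `ker π`. -/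
theorem Z_eq_closure {α : Type*} {G : Type*} [Group G] (π : FreeGroup α →* G)
    (rels : Set (FreeGroup α)) (hker : π.ker = Subgroup.normalClosure rels) :
    Hopf.Z π = Subgroup.closure ((QuotientGroup.mk' (Hopf.FR π)) '' rels) := by
  have h1 : Hopf.Z π = (π.ker).map (QuotientGroup.mk' (Hopf.FR π)) := by
    ext e
    obtain ⟨f, rfl⟩ := QuotientGroup.mk_surjective e
    rw [Hopf.mem_Z, Hopf.πE_mk]
    constructor
    · intro h; exact ⟨f, h, rfl⟩
    · rintro ⟨f', hf', h⟩
      have h2 : Hopf.πE π ((QuotientGroup.mk' (Hopf.FR π)) f') = Hopf.πE π (QuotientGroup.mk f) := by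
        rw [h]
      rw [Hopf.πE_mk] at h2
      rw [← h2]
      exact hf'
  have hsub : (QuotientGroup.mk' (Hopf.FR π)) '' rels ⊆ (Hopf.Z π : Set (Hopf.E π)) := by
    rintro _ ⟨ρ, hρ, rfl⟩
    have : ρ ∈ π.ker := by rw [hker]; exact Subgroup.subset_normalClosure hρ
    exact (Hopf.mem_Z π _).mpr this
  rw [h1, hker, Subgroup.map_normalClosure _ _ (QuotientGroup.mk'_surjective _)]
  apply le_antisymm
  · have : (Subgroup.closure ((QuotientGroup.mk' (Hopf.FR π)) '' rels)).Normal :=
      Hopf.normal_of_le_center _ (((Subgroup.closure_le _).mpr hsub).trans (Hopf.Z_le_center π))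
    exact Subgroup.normalClosure_le_normal Subgroup.subset_closure
  · exact Subgroup.closure_le_normalClosure

/-- The canonical map `E → F^{ab}`. -/
noncomputable def toAb {α : Type*} {G : Type*} [Group G] (π : FreeGroup α →* G) :
    Hopf.E π →* Abelianization (FreeGroup α) :=
  QuotientGroup.lift (Hopf.FR π) Abelianization.of (by
    rw [Abelianization.ker_of]; exact Hopf.FR_le_commutator π)

theorem toAb_mk {α : Type*} {G : Type*} [Group G] (π : FreeGroup α →* G) (f : FreeGroup α) :
    toAb π (QuotientGroup.mk f) = Abelianization.of f := rfl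

theorem toAb_eq_one_iff {α : Type*} {G : Type*} [Group G] (π : FreeGroup α →* G) (e : Hopf.E π) :
    toAb π e = 1 ↔ e ∈ _root_.commutator (Hopf.E π) := by
  constructor
  · intro h
    obtain ⟨f, rfl⟩ := QuotientGroup.mk_surjective e
    rw [toAb_mk] at h
    have h3 : f ∈ _root_.commutator (FreeGroup α) := by
      rw [← Abelianization.ker_of]; exact h
    rw [commutator_def] at h3 ⊢
    have h4 : (QuotientGroup.mk' (Hopf.FR π)) f ∈ Subgroup.map (QuotientGroup.mk' (Hopf.FR π))
        ⁅(⊤ : Subgroup (FreeGroup α)), (⊤ : Subgroup (FreeGroup α))⁆ := ⟨f, h3, rfl⟩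
    rw [Subgroup.map_commutator] at h4
    exact Subgroup.commutator_mono le_top le_top h4
  · intro h
    exact Abelianization.commutator_subset_ker (toAb π) h

theorem finrank_freeAbelianGroup (σ : Type*) [Fintype σ] :
    Module.finrank ℤ (FreeAbelianGroup σ) = Fintype.card σ := by
  rw [(FreeAbelianGroup.equivFinsupp σ).toIntLinearEquiv.finrank_eq, Module.finrank_finsupp_self]

/-- Linear algebra: a map `ℤ^r → ℤ^n` whose range contains `m • ℤ^n` (`m > 0`) has a kernel
of rank at most `r - n`. -/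
theorem finrank_ker_le {M N : Type*} [AddCommGroup M] [AddCommGroup N] [Module.Free ℤ M]
    [Module.Finite ℤ M] [Module.Free ℤ N] [Module.Finite ℤ N] (ψ : M →ₗ[ℤ] N) (m : ℕ)
    (hm : 0 < m) (h : ∀ y : N, m • y ∈ LinearMap.range ψ) :
    Module.finrank ℤ (LinearMap.ker ψ) ≤ Module.finrank ℤ M - Module.finrank ℤ N := by
  have h1 := Submodule.finrank_quotient_add_finrank (LinearMap.ker ψ)
  rw [ψ.quotKerEquivRange.finrank_eq] at h1
  let j : N →ₗ[ℤ] LinearMap.range ψ :=
    { toFun := fun y => ⟨m • y, h y⟩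
      map_add' := fun y z => Subtype.ext (smul_add _ _ _)
      map_smul' := fun c y => Subtype.ext (smul_comm _ _ _) }
  have hj : Function.Injective j := by
    intro y z hyz
    have h2 : m • y = m • z := congrArg Subtype.val hyz
    have h3 : (m : ℤ) • (y - z) = 0 := by rw [Nat.cast_smul_eq_nsmul, smul_sub, h2, sub_self]
    rcases smul_eq_zero.mp h3 with h4 | h4
    · have : m = 0 := by exact_mod_cast h4
      omega
    · exact sub_eq_zero.mp h4
  have h2 := LinearMap.finrank_le_finrank_of_injective hj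
  omega

/-- The kernel of `π` being normally generated by `r` relators, `T π` is generated by
`r - n` elements. -/
theorem exists_generators {n : ℕ} {G : Type*} [Group G] [Finite G]
    (π : FreeGroup (Fin n) →* G)
    (rels : Finset (FreeGroup (Fin n)))
    (hker : π.ker = Subgroup.normalClosure (rels : Set (FreeGroup (Fin n)))) :
    ∃ S : Finset (Hopf.T π), Subgroup.closure (S : Set (Hopf.T π)) = ⊤ ∧
      S.card ≤ rels.card - n := by
  classical
  letI : CommGroup (Hopf.Z π) := commGroupZ π
  let q : FreeGroup (Fin n) →* Hopf.E π := QuotientGroup.mk' (Hopf.FR π)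
  have hZ := Z_eq_closure π (rels : Set (FreeGroup (Fin n))) hker
  have hq : ∀ ρ ∈ rels, q ρ ∈ Hopf.Z π := fun ρ hρ => by
    rw [hZ]; exact Subgroup.subset_closure ⟨ρ, hρ, rfl⟩
  let Φ : FreeAbelianGroup rels →+ Additive (Hopf.Z π) :=
    FreeAbelianGroup.lift (fun ρ => Additive.ofMul (⟨q ρ.1, hq ρ.1 ρ.2⟩ : Hopf.Z π))
  -- `Φ` is onto
  have hΦ : ∀ e ∈ Hopf.Z π, ∃ v, (((Φ v).toMul : Hopf.Z π) : Hopf.E π) = e := by
    intro e he
    rw [hZ] at he
    induction he using Subgroup.closure_induction with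
    | mem x hx =>
      obtain ⟨ρ, hρ, rfl⟩ := hx
      refine ⟨FreeAbelianGroup.of ⟨ρ, hρ⟩, ?_⟩
      rw [FreeAbelianGroup.lift_apply_of]
      rfl
    | one => exact ⟨0, by rw [map_zero]; rfl⟩
    | mul x y _ _ hx hy =>
      obtain ⟨v, hv⟩ := hx
      obtain ⟨w, hw⟩ := hy
      refine ⟨v + w, ?_⟩
      rw [map_add, toMul_add, Subgroup.coe_mul, hv, hw]
    | inv x _ hx =>
      obtain ⟨v, hv⟩ := hx
      refine ⟨-v, ?_⟩
      rw [map_neg, toMul_neg, Subgroup.coe_inv, hv]
  let aZ : Additive (Hopf.Z π) →+ FreeAbelianGroup (Fin n) :=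
    MonoidHom.toAdditive ((toAb π).comp (Hopf.Z π).subtype)
  have haZ : ∀ z : Additive (Hopf.Z π),
      aZ z = Additive.ofMul (toAb π ((z.toMul : Hopf.Z π) : Hopf.E π)) := fun z => rfl
  let ψ : FreeAbelianGroup rels →ₗ[ℤ] FreeAbelianGroup (Fin n) := (aZ.comp Φ).toIntLinearMap
  have hψ : ∀ v, ψ v = aZ (Φ v) := fun v => rfl
  have hrange : ∀ y : FreeAbelianGroup (Fin n), Nat.card G • y ∈ LinearMap.range ψ := by
    intro y
    obtain ⟨f, hf⟩ := QuotientGroup.mk_surjective (s := _root_.commutator (FreeGroup (Fin n)))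
      (Additive.toMul y)
    have he : (q f) ^ Nat.card G ∈ Hopf.Z π := by
      rw [Hopf.mem_Z, map_pow]
      exact pow_card_eq_one'
    obtain ⟨v, hv⟩ := hΦ _ he
    refine ⟨v, ?_⟩
    rw [hψ, haZ, hv, map_pow]
    have h1 : toAb π (q f) = Additive.toMul y := hf
    rw [h1]
    rfl
  have hK := finrank_ker_le ψ (Nat.card G) Nat.card_pos hrange
  rw [finrank_freeAbelianGroup, finrank_freeAbelianGroup, Fintype.card_coe, Fintype.card_fin]
    at hK
  -- a basis of the kernel
  let b := Module.finBasis ℤ (LinearMap.ker ψ)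
  have hT : ∀ v ∈ LinearMap.ker ψ, (((Φ v).toMul : Hopf.Z π) : Hopf.E π) ∈ Hopf.T π := by
    intro v hv
    refine Subgroup.mem_inf.mpr ⟨((Φ v).toMul : Hopf.Z π).2, ?_⟩
    rw [← toAb_eq_one_iff]
    have h1 : ψ v = 0 := hv
    rw [hψ, haZ] at h1
    exact h1
  let S : Finset (Hopf.T π) := Finset.univ.image
    (fun i => (⟨_, hT (b i).1 (b i).2⟩ : Hopf.T π))
  refine ⟨S, ?_, ?_⟩
  · rw [eq_top_iff]
    rintro ⟨t, ht⟩ -
    obtain ⟨v, hv⟩ := hΦ t (Hopf.T_le_Z π ht)
    have hvK : v ∈ LinearMap.ker ψ := by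
      rw [LinearMap.mem_ker, hψ, haZ, hv]
      exact congrArg Additive.ofMul ((toAb_eq_one_iff π t).mpr (Hopf.T_le_commutator π ht))
    have key : ∀ w : LinearMap.ker ψ, (⟨_, hT w.1 w.2⟩ : Hopf.T π) ∈
        Subgroup.closure (S : Set (Hopf.T π)) := by
      intro w
      have hw : w ∈ Submodule.span ℤ (Set.range b) := by rw [b.span_eq]; trivial
      induction hw using Submodule.span_induction with
      | mem x hx =>
        obtain ⟨i, rfl⟩ := hx
        exact Subgroup.subset_closure (Finset.mem_coe.mpr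
          (Finset.mem_image.mpr ⟨i, Finset.mem_univ _, rfl⟩))
      | zero =>
        have : (⟨_, hT (0 : LinearMap.ker ψ).1 (0 : LinearMap.ker ψ).2⟩ : Hopf.T π) = 1 := by
          apply Subtype.ext
          show (((Φ 0).toMul : Hopf.Z π) : Hopf.E π) = 1
          rw [map_zero]; rfl
        rw [this]; exact Subgroup.one_mem _
      | add x y _ _ hx hy =>
        have : (⟨_, hT (x + y).1 (x + y).2⟩ : Hopf.T π) =
            (⟨_, hT x.1 x.2⟩ : Hopf.T π) * (⟨_, hT y.1 y.2⟩ : Hopf.T π) := by
          apply Subtype.ext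
          show (((Φ (x.1 + y.1)).toMul : Hopf.Z π) : Hopf.E π) = _
          rw [map_add, toMul_add, Subgroup.coe_mul]; rfl
        rw [this]; exact Subgroup.mul_mem _ hx hy
      | smul c x _ hx =>
        have : (⟨_, hT (c • x).1 (c • x).2⟩ : Hopf.T π) =
            (⟨_, hT x.1 x.2⟩ : Hopf.T π) ^ c := by
          apply Subtype.ext
          show (((Φ (c • x.1)).toMul : Hopf.Z π) : Hopf.E π) = _
          rw [map_zsmul, toMul_zsmul, Subgroup.coe_zpow, Subgroup.coe_zpow]
        rw [this]; exact Subgroup.zpow_mem _ hx c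
    have h2 := key ⟨v, hvK⟩
    have h3 : (⟨_, hT v hvK⟩ : Hopf.T π) = ⟨t, ht⟩ := Subtype.ext hv
    rw [h3] at h2
    exact h2
  · calc S.card ≤ (Finset.univ : Finset (Fin (Module.finrank ℤ (LinearMap.ker ψ)))).card :=
        Finset.card_image_le
      _ = Module.finrank ℤ (LinearMap.ker ψ) := by rw [Finset.card_univ, Fintype.card_fin]
      _ ≤ rels.card - n := hK

/-- If a finite group is presented by `n` generators and a finite set of `r` relators, then its Schur multiplier can be generated by `r - n` elements. In particular a finite group with a presentation having as many relators as generators has trivial Schur multiplier. -/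
theorem result (n : ℕ) (rels : Finset (FreeGroup (Fin n))) [Finite (PresentedGroup (rels : Set (FreeGroup (Fin n))))] {A : Type*} [CommGroup A] [Finite A] (hA : Cfsg.HasSchurMultiplier (PresentedGroup (rels : Set (FreeGroup (Fin n)))) A) : Group.rank A ≤ rels.card - n := by
  let π : FreeGroup (Fin n) →* PresentedGroup (rels : Set (FreeGroup (Fin n))) :=
    PresentedGroup.mk _
  have hπ : Function.Surjective π := PresentedGroup.mk_surjective _
  have hker : π.ker = Subgroup.normalClosure (rels : Set (FreeGroup (Fin n))) :=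
    QuotientGroup.ker_mk' _
  obtain ⟨S, hS, hcard⟩ := exists_generators π rels hker
  obtain ⟨e⟩ := Hopf.equiv_T_of_hasSchurMultiplier π hπ hA
  have := Hopf.finite_T π hπ
  calc Group.rank A ≤ Group.rank (Hopf.T π) :=
        Group.rank_le_of_surjective e.symm.toMonoidHom e.symm.surjective
    _ ≤ S.card := Group.rank_le hS
    _ ≤ _ := hcard

end Cfsg.Agent.S3973
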