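import Mathlib
import Cfsg.Statements.S3980
import Cfsg.Agent.Lib.Helper66.Hopf2
import Cfsg.Agent.S3958

set_option autoImplicit false
open Cfsg

namespace Cfsg.Agent.S3980

universe u v w

open scoped commutatorElement
open Cfsg.Agent.Lib.Helper66

theorem pow_card_abelianization_mem {Q : Type*} [Group Q] [Finite Q] (q : Q) :
    q ^ Nat.card (Abelianization Q) ∈ _root_.commutator Q := by
  rw [← Abelianization.ker_of, MonoidHom.mem_ker, map_pow]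
  exact pow_card_eq_one'

/-- The product of two stem extensions is a stem extension. -/
theorem prod_stem {Γ₁ Γ₂ Q₁ Q₂ : Type*} [Group Γ₁] [Group Γ₂] [Group Q₁] [Group Q₂]
    (σ₁ : Γ₁ →* Q₁) (σ₂ : Γ₂ →* Q₂) (h₁ : Cfsg.IsStemExtension σ₁)
    (h₂ : Cfsg.IsStemExtension σ₂) : Cfsg.IsStemExtension (σ₁.prodMap σ₂) := by
  obtain ⟨hs₁, hc₁, hk₁⟩ := h₁
  obtain ⟨hs₂, hc₂, hk₂⟩ := h₂
  refine ⟨?_, ?_, ?_⟩
  · rintro ⟨q₁, q₂⟩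
    obtain ⟨a, rfl⟩ := hs₁ q₁
    obtain ⟨b, rfl⟩ := hs₂ q₂
    exact ⟨(a, b), rfl⟩
  · rintro ⟨a, b⟩ hab
    have ha : a ∈ σ₁.ker := congrArg Prod.fst hab
    have hb : b ∈ σ₂.ker := congrArg Prod.snd hab
    rw [Subgroup.mem_center_iff]
    rintro ⟨c, d⟩
    exact Prod.ext (Subgroup.mem_center_iff.mp (hc₁ ha) c) (Subgroup.mem_center_iff.mp (hc₂ hb) d)
  · rintro ⟨a, b⟩ hab
    have ha : a ∈ σ₁.ker := congrArg Prod.fst hab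
    have hb : b ∈ σ₂.ker := congrArg Prod.snd hab
    rw [commutator_def, ← Subgroup.top_prod_top, Subgroup.commutator_prod_prod, Subgroup.mem_prod]
    exact ⟨by rw [← commutator_def]; exact hk₁ ha, by rw [← commutator_def]; exact hk₂ hb⟩

/-- The kernel of a product map is the product of the kernels. -/
def prodKerEquiv {Γ₁ Γ₂ Q₁ Q₂ : Type*} [Group Γ₁] [Group Γ₂] [Group Q₁] [Group Q₂]
    (σ₁ : Γ₁ →* Q₁) (σ₂ : Γ₂ →* Q₂) : (σ₁.prodMap σ₂).ker ≃* σ₁.ker × σ₂.ker where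
  toFun x := (⟨x.1.1, congrArg Prod.fst x.2⟩, ⟨x.1.2, congrArg Prod.snd x.2⟩)
  invFun y := ⟨(y.1.1, y.2.1), Prod.ext y.1.2 y.2.2⟩
  left_inv _ := rfl
  right_inv _ := rfl
  map_mul' _ _ := rfl

/-- One-sided bilinearity lemma. -/
theorem commutator_pow_eq_one {Γ : Type*} [Group Γ] (H₁ H₂ : Subgroup Γ)
    (hcen : ∀ x ∈ H₁, ∀ y ∈ H₂, ⁅x, y⁆ ∈ Subgroup.center Γ) (Z' : Subgroup Γ)
    (hZ' : Z' ≤ Subgroup.center Γ) (n : ℕ) (h₂ : ∀ y ∈ H₂, y ^ n ∈ ⁅H₂, H₂⁆ ⊔ Z')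
    (x : Γ) (hx : x ∈ H₁) (y : Γ) (hy : y ∈ H₂) : ⁅x, y⁆ ^ n = 1 := by
  -- conjugation by `x` moves elements of `H₂` by central elements
  have hconj : ∀ b ∈ H₂, x * b * x⁻¹ = b * ⁅x, b⁆ := by
    intro b hb
    have h1 : ⁅x, b⁆ * b = b * ⁅x, b⁆ := (Subgroup.mem_center_iff.mp (hcen x hx b hb) b).symm
    rw [← h1, commutatorElement_def]; group
  have hA : ⁅H₂, H₂⁆ ⊔ Z' ≤ Subgroup.centralizer ({x} : Set Γ) := by
    apply sup_le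
    · rw [Subgroup.commutator_le]
      intro a ha b hb
      rw [Subgroup.mem_centralizer_iff]
      intro z hz
      rw [Set.mem_singleton_iff] at hz
      subst hz
      have h1 : z * ⁅a, b⁆ * z⁻¹ = ⁅a, b⁆ := by
        have h2 : z * ⁅a, b⁆ * z⁻¹ = ⁅z * a * z⁻¹, z * b * z⁻¹⁆ := by
          rw [commutatorElement_def, commutatorElement_def]; group
        rw [h2, hconj a ha, hconj b hb,
          Hopf.commutatorElement_mul_central_left _ _ _ (hcen z hx a ha),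
          Hopf.commutatorElement_mul_central_right _ _ _ (hcen z hx b hb)]
      calc z * ⁅a, b⁆ = (z * ⁅a, b⁆ * z⁻¹) * z := by group
        _ = ⁅a, b⁆ * z := by rw [h1]
    · intro z hz
      rw [Subgroup.mem_centralizer_iff]
      intro w hw
      rw [Set.mem_singleton_iff] at hw
      subst hw
      exact Subgroup.mem_center_iff.mp (hZ' hz) w
  have hB : ∀ m : ℕ, ⁅x, y⁆ ^ m = ⁅x, y ^ m⁆ := by
    intro m
    induction m with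
    | zero => rw [pow_zero, pow_zero, commutatorElement_def]; group
    | succ m ih =>
      have h1 : ⁅x, y ^ m * y⁆ = ⁅x, y ^ m⁆ * (y ^ m * ⁅x, y⁆ * (y ^ m)⁻¹) := by
        rw [commutatorElement_def, commutatorElement_def, commutatorElement_def]; group
      have h2 : y ^ m * ⁅x, y⁆ * (y ^ m)⁻¹ = ⁅x, y⁆ := by
        rw [Subgroup.mem_center_iff.mp (hcen x hx y hy) (y ^ m), mul_inv_cancel_right]
      rw [pow_succ, pow_succ, h1, h2, ih]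
  rw [hB]
  have h3 := hA (h₂ y hy)
  rw [Subgroup.mem_centralizer_iff] at h3
  have h4 := h3 x rfl
  rw [commutatorElement_def, h4]; group

/-- Two subgroups whose mutual commutators are central and whose "abelianizations" have
coprime exponents commute elementwise. -/
theorem comm_of_coprime {Γ : Type*} [Group Γ] (H₁ H₂ : Subgroup Γ)
    (hcen : ∀ x ∈ H₁, ∀ y ∈ H₂, ⁅x, y⁆ ∈ Subgroup.center Γ) (Z' : Subgroup Γ)
    (hZ' : Z' ≤ Subgroup.center Γ) (n₁ n₂ : ℕ) (hcop : n₁.Coprime n₂)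
    (h₁ : ∀ x ∈ H₁, x ^ n₁ ∈ ⁅H₁, H₁⁆ ⊔ Z') (h₂ : ∀ y ∈ H₂, y ^ n₂ ∈ ⁅H₂, H₂⁆ ⊔ Z')
    (x : Γ) (hx : x ∈ H₁) (y : Γ) (hy : y ∈ H₂) : x * y = y * x := by
  have e1 := commutator_pow_eq_one H₁ H₂ hcen Z' hZ' n₂ h₂ x hx y hy
  have hcen' : ∀ y ∈ H₂, ∀ x ∈ H₁, ⁅y, x⁆ ∈ Subgroup.center Γ := by
    intro y hy x hx
    rw [← commutatorElement_inv]
    exact Subgroup.inv_mem _ (hcen x hx y hy)
  have e2 := commutator_pow_eq_one H₂ H₁ hcen' Z' hZ' n₁ h₁ y hy x hx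
  rw [← commutatorElement_inv, inv_pow, inv_eq_one] at e2
  have e3 := pow_gcd_eq_one.mpr ⟨e2, e1⟩
  rw [Nat.Coprime] at hcop
  rw [hcop, pow_one] at e3
  rw [commutatorElement_def] at e3
  exact mul_inv_eq_iff_eq_mul.mp (mul_inv_eq_one.mp e3)

/-- Every stem kernel of `Q₁ × Q₂` is an image of `A × B` (coprime commutator quotients). -/
theorem part2 {Q₁ : Type u} {Q₂ : Type v} [Group Q₁] [Group Q₂] [Finite Q₁] [Finite Q₂]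
    {A B : Type w} [CommGroup A] [CommGroup B] (hA : Cfsg.HasSchurMultiplier Q₁ A)
    (hB : Cfsg.HasSchurMultiplier Q₂ B)
    (hcop : Nat.Coprime (Nat.card (Abelianization Q₁)) (Nat.card (Abelianization Q₂)))
    {Γ : Type*} [Group Γ] (σ : Γ →* Q₁ × Q₂) (hσ : Cfsg.IsStemExtension σ) :
    ∃ π : A × B →* σ.ker, Function.Surjective π := by
  obtain ⟨hσs, hσc, hσk⟩ := hσ
  let Γ₁ : Subgroup Γ := ((MonoidHom.snd Q₁ Q₂).comp σ).ker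
  let Γ₂ : Subgroup Γ := ((MonoidHom.fst Q₁ Q₂).comp σ).ker
  have hΓ₁ : ∀ γ : Γ, γ ∈ Γ₁ ↔ (σ γ).2 = 1 := fun γ => MonoidHom.mem_ker
  have hΓ₂ : ∀ γ : Γ, γ ∈ Γ₂ ↔ (σ γ).1 = 1 := fun γ => MonoidHom.mem_ker
  have hkerσ : ∀ γ : Γ, γ ∈ σ.ker ↔ (σ γ).1 = 1 ∧ (σ γ).2 = 1 := fun γ => by
    rw [MonoidHom.mem_ker, Prod.ext_iff]; rfl
  let σ₁ : Γ₁ →* Q₁ := ((MonoidHom.fst Q₁ Q₂).comp σ).comp Γ₁.subtype
  let σ₂ : Γ₂ →* Q₂ := ((MonoidHom.snd Q₁ Q₂).comp σ).comp Γ₂.subtype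
  have hσ₁ : ∀ x : Γ₁, σ₁ x = (σ (x : Γ)).1 := fun x => rfl
  have hσ₂ : ∀ x : Γ₂, σ₂ x = (σ (x : Γ)).2 := fun x => rfl
  have hs₁ : Function.Surjective σ₁ := by
    intro q
    obtain ⟨γ, hγ⟩ := hσs (q, 1)
    exact ⟨⟨γ, (hΓ₁ γ).mpr (by rw [hγ])⟩, by rw [hσ₁]; simp only; rw [hγ]⟩
  have hs₂ : Function.Surjective σ₂ := by
    intro q
    obtain ⟨γ, hγ⟩ := hσs (1, q)
    exact ⟨⟨γ, (hΓ₂ γ).mpr (by rw [hγ])⟩, by rw [hσ₂]; simp only; rw [hγ]⟩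
  have hk₁ : ∀ x : Γ₁, x ∈ σ₁.ker → (x : Γ) ∈ σ.ker := by
    intro x hx
    exact (hkerσ _).mpr ⟨hx, (hΓ₁ _).mp x.2⟩
  have hk₂ : ∀ x : Γ₂, x ∈ σ₂.ker → (x : Γ) ∈ σ.ker := by
    intro x hx
    exact (hkerσ _).mpr ⟨(hΓ₂ _).mp x.2, hx⟩
  have hc₁ : σ₁.ker ≤ Subgroup.center Γ₁ := by
    intro x hx
    rw [Subgroup.mem_center_iff]
    intro d
    exact Subtype.ext (Subgroup.mem_center_iff.mp (hσc (hk₁ x hx)) d)
  have hc₂ : σ₂.ker ≤ Subgroup.center Γ₂ := by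
    intro x hx
    rw [Subgroup.mem_center_iff]
    intro d
    exact Subtype.ext (Subgroup.mem_center_iff.mp (hσc (hk₂ x hx)) d)
  obtain ⟨f₁, hf₁⟩ := Hopf2.exists_hom_of_hasSchurMultiplier hA σ₁ hs₁ hc₁
  obtain ⟨f₂, hf₂⟩ := Hopf2.exists_hom_of_hasSchurMultiplier hB σ₂ hs₂ hc₂
  let g₁ : A →* σ.ker := (Γ₁.subtype.comp f₁).codRestrict σ.ker (fun a =>
    hk₁ _ (Subgroup.mem_inf.mp ((hf₁ (f₁ a)).mpr ⟨a, rfl⟩)).2)
  let g₂ : B →* σ.ker := (Γ₂.subtype.comp f₂).codRestrict σ.ker (fun b =>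
    hk₂ _ (Subgroup.mem_inf.mp ((hf₂ (f₂ b)).mpr ⟨b, rfl⟩)).2)
  have hcomm : ∀ (a : A) (b : B), Commute (g₁ a) (g₂ b) := by
    intro a b
    exact Subtype.ext (Subgroup.mem_center_iff.mp (hσc (g₂ b).2) (g₁ a))
  refine ⟨MonoidHom.noncommCoprod g₁ g₂ hcomm, ?_⟩
  -- the two factors commute
  have hcen : ∀ x ∈ Γ₁, ∀ y ∈ Γ₂, ⁅x, y⁆ ∈ Subgroup.center Γ := by
    intro x hx y hy
    apply hσc
    rw [hkerσ, map_commutatorElement]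
    constructor
    · change ⁅(σ x).1, (σ y).1⁆ = 1
      rw [(hΓ₂ y).mp hy, commutatorElement_one_right]
    · change ⁅(σ x).2, (σ y).2⁆ = 1
      rw [(hΓ₁ x).mp hx, commutatorElement_one_left]
  have hp₁ : ∀ x ∈ Γ₁, x ^ Nat.card (Abelianization Q₁) ∈ ⁅Γ₁, Γ₁⁆ ⊔ σ.ker := by
    intro x hx
    have h1 : σ₁ ⟨x, hx⟩ ^ Nat.card (Abelianization Q₁) ∈ _root_.commutator Q₁ :=
      pow_card_abelianization_mem _
    rw [← S3958.map_commutator_of_surjective σ₁ hs₁] at h1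
    obtain ⟨c, hc, hce⟩ := h1
    have h2 : c⁻¹ * ⟨x, hx⟩ ^ Nat.card (Abelianization Q₁) ∈ σ₁.ker := by
      rw [MonoidHom.mem_ker, map_mul, map_inv, map_pow, hce, inv_mul_cancel]
    have h3 : (c : Γ) ∈ ⁅Γ₁, Γ₁⁆ := by
      rw [← Subgroup.map_subtype_commutator]; exact ⟨c, hc, rfl⟩
    have h4 : x ^ Nat.card (Abelianization Q₁) =
        (c : Γ) * ((c : Γ)⁻¹ * x ^ Nat.card (Abelianization Q₁)) := by group
    rw [h4]
    exact Subgroup.mul_mem _ (Subgroup.mem_sup_left h3) (Subgroup.mem_sup_right (hk₁ _ h2))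
  have hp₂ : ∀ y ∈ Γ₂, y ^ Nat.card (Abelianization Q₂) ∈ ⁅Γ₂, Γ₂⁆ ⊔ σ.ker := by
    intro x hx
    have h1 : σ₂ ⟨x, hx⟩ ^ Nat.card (Abelianization Q₂) ∈ _root_.commutator Q₂ :=
      pow_card_abelianization_mem _
    rw [← S3958.map_commutator_of_surjective σ₂ hs₂] at h1
    obtain ⟨c, hc, hce⟩ := h1
    have h2 : c⁻¹ * ⟨x, hx⟩ ^ Nat.card (Abelianization Q₂) ∈ σ₂.ker := by
      rw [MonoidHom.mem_ker, map_mul, map_inv, map_pow, hce, inv_mul_cancel]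
    have h3 : (c : Γ) ∈ ⁅Γ₂, Γ₂⁆ := by
      rw [← Subgroup.map_subtype_commutator]; exact ⟨c, hc, rfl⟩
    have h4 : x ^ Nat.card (Abelianization Q₂) =
        (c : Γ) * ((c : Γ)⁻¹ * x ^ Nat.card (Abelianization Q₂)) := by group
    rw [h4]
    exact Subgroup.mul_mem _ (Subgroup.mem_sup_left h3) (Subgroup.mem_sup_right (hk₂ _ h2))
  have hcommΓ : ∀ (x : Γ₁) (y : Γ₂), Commute (Γ₁.subtype x) (Γ₂.subtype y) := fun x y =>
    comm_of_coprime Γ₁ Γ₂ hcen σ.ker hσc _ _ hcop hp₁ hp₂ x x.2 y y.2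
  let μ : Γ₁ × Γ₂ →* Γ := MonoidHom.noncommCoprod Γ₁.subtype Γ₂.subtype hcommΓ
  have hμ : Function.Surjective μ := by
    intro γ
    obtain ⟨γ₁, hγ₁⟩ := hσs ((σ γ).1, 1)
    have h1 : γ₁ ∈ Γ₁ := (hΓ₁ γ₁).mpr (by rw [hγ₁])
    have h2 : γ₁⁻¹ * γ ∈ Γ₂ := by
      rw [hΓ₂, map_mul, map_inv, hγ₁]
      change ((σ γ).1)⁻¹ * (σ γ).1 = 1
      rw [inv_mul_cancel]
    refine ⟨(⟨γ₁, h1⟩, ⟨γ₁⁻¹ * γ, h2⟩), ?_⟩
    rw [MonoidHom.noncommCoprod_apply]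
    change γ₁ * (γ₁⁻¹ * γ) = γ
    group
  rintro ⟨k, hk⟩
  have h1 : k ∈ (_root_.commutator (Γ₁ × Γ₂)).map μ := by
    rw [S3958.map_commutator_of_surjective μ hμ]; exact hσk hk
  obtain ⟨⟨c₁, c₂⟩, hc0, rfl⟩ := h1
  have hc : (c₁, c₂) ∈ _root_.commutator (↥Γ₁ × ↥Γ₂) := hc0
  rw [commutator_def, ← Subgroup.top_prod_top, Subgroup.commutator_prod_prod, Subgroup.mem_prod,
    ← commutator_def, ← commutator_def] at hc
  obtain ⟨hc₁', hc₂'⟩ := hc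
  have hμc : μ (c₁, c₂) = (c₁ : Γ) * (c₂ : Γ) := by
    rw [MonoidHom.noncommCoprod_apply]; rfl
  rw [hμc] at hk
  have hk' := (hkerσ _).mp hk
  rw [map_mul] at hk'
  have e1 : (σ (c₁ : Γ)).1 = 1 := by
    have := hk'.1
    change (σ (c₁ : Γ)).1 * (σ (c₂ : Γ)).1 = 1 at this
    rwa [(hΓ₂ _).mp c₂.2, mul_one] at this
  have e2 : (σ (c₂ : Γ)).2 = 1 := by
    have := hk'.2
    change (σ (c₁ : Γ)).2 * (σ (c₂ : Γ)).2 = 1 at this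
    rwa [(hΓ₁ _).mp c₁.2, one_mul] at this
  obtain ⟨a, ha⟩ := (hf₁ c₁).mp (Subgroup.mem_inf.mpr ⟨hc₁', e1⟩)
  obtain ⟨b, hb⟩ := (hf₂ c₂).mp (Subgroup.mem_inf.mpr ⟨hc₂', e2⟩)
  refine ⟨(a, b), Subtype.ext ?_⟩
  rw [MonoidHom.noncommCoprod_apply]
  change ((f₁ a : Γ₁) : Γ) * ((f₂ b : Γ₂) : Γ) = μ (c₁, c₂)
  rw [ha, hb, hμc]

/-- Let `Q₁` and `Q₂` be finite groups whose commutator quotients have coprime orders, with Schur multipliers `A` and `B`. Then the Schur multiplier of `Q₁ × Q₂` is isomorphic to `A × B`. -/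
theorem result {Q₁ : Type u} {Q₂ : Type v} [Group Q₁] [Group Q₂] [Finite Q₁] [Finite Q₂] {A B : Type w} [CommGroup A] [CommGroup B] (hA : Cfsg.HasSchurMultiplier Q₁ A) (hB : Cfsg.HasSchurMultiplier Q₂ B) (hcop : Nat.Coprime (Nat.card (Abelianization Q₁)) (Nat.card (Abelianization Q₂))) : Cfsg.HasSchurMultiplier (Q₁ × Q₂) (A × B) := by
  refine ⟨?_, ?_⟩
  · obtain ⟨Γ₁, i₁, j₁, σ₁, hσ₁, ⟨e₁⟩⟩ := hA.1
    obtain ⟨Γ₂, i₂, j₂, σ₂, hσ₂, ⟨e₂⟩⟩ := hB.1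
    exact ⟨Γ₁ × Γ₂, inferInstance, inferInstance, σ₁.prodMap σ₂, prod_stem σ₁ σ₂ hσ₁ hσ₂,
      ⟨(prodKerEquiv σ₁ σ₂).trans (MulEquiv.prodCongr e₁ e₂)⟩⟩
  · intro Γ _ _ σ hσ
    exact part2 hA hB hcop σ hσ

end Cfsg.Agent.S3980
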