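import Mathlib
import Cfsg.Statements.S3974
import Cfsg.Agent.Lib.Helper66.Hopf
import Cfsg.Agent.S3958
import Cfsg.Agent.S3973
import Cfsg.Agent.S3980

set_option autoImplicit false
open Cfsg

namespace Cfsg.Agent.S3974

universe u v

open scoped commutatorElement
open Cfsg.Agent.Lib.Helper66

/-- Extension of homomorphisms from a subgroup meeting the commutator subgroup trivially,
when the quotient of the abelianization has exponent prime to the order of the target. -/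
theorem exists_extension {E : Type*} [Group E] (S : Subgroup E)
    (hS : S ⊓ _root_.commutator E = ⊥) {D : Type*} [CommGroup D] [Finite D] (m : ℕ)
    (hm : (Nat.card D).Coprime m) (hpow : ∀ x : E, x ^ m ∈ S ⊔ _root_.commutator E)
    (f : S →* D) : ∃ g : E →* D, ∀ s : S, g s = f s := by
  let ab : E →* Abelianization E := Abelianization.of
  let j : S →* Abelianization E := ab.comp S.subtype
  have hj : Function.Injective j := by
    rw [injective_iff_map_eq_one]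
    intro s hs
    have h1 : (s : E) ∈ _root_.commutator E := by rw [← Abelianization.ker_of]; exact hs
    have h2 : (s : E) ∈ S ⊓ _root_.commutator E := Subgroup.mem_inf.mpr ⟨s.2, h1⟩
    rw [hS, Subgroup.mem_bot] at h2
    exact Subtype.ext h2
  have hrange : ∀ b : Abelianization E, (powMonoidHom m) b ∈ j.range := by
    intro b
    obtain ⟨x, rfl⟩ := QuotientGroup.mk_surjective b
    obtain ⟨s, hs, d, hd, hsd⟩ := Subgroup.mem_sup_of_normal_right.mp (hpow x)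
    refine ⟨⟨s, hs⟩, ?_⟩
    have h1 : ab d = 1 := by
      have : d ∈ (Abelianization.of : E →* Abelianization E).ker := by
        rw [Abelianization.ker_of]; exact hd
      exact this
    have h2 : ab (x ^ m) = ab s := by rw [← hsd, map_mul, h1, mul_one]
    rw [map_pow] at h2
    exact h2.symm
  let ν : Abelianization E →* S :=
    (MonoidHom.ofInjective hj).symm.toMonoidHom.comp ((powMonoidHom m).codRestrict j.range hrange)
  have hν : ∀ s : S, ν (ab s) = s ^ m := by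
    intro s
    apply hj
    have h1 : j (ν (ab s)) = (ab s) ^ m := by
      have := MonoidHom.ofInjective_apply hj (x := ν (ab s))
      rw [← this]
      show ((MonoidHom.ofInjective hj) ((MonoidHom.ofInjective hj).symm _) : Abelianization E) = _
      rw [MulEquiv.apply_symm_apply]
      rfl
    rw [h1, map_pow]
    rfl
  have hbij : Function.Bijective (powMonoidHom m : D →* D) := (powCoprime hm).bijective
  let pinv : D ≃* D := MulEquiv.ofBijective (powMonoidHom m) hbij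
  refine ⟨pinv.symm.toMonoidHom.comp (f.comp (ν.comp ab)), fun s => ?_⟩
  show pinv.symm (f (ν (ab s))) = f s
  rw [hν, map_pow, MulEquiv.symm_apply_eq]
  rfl

/-- In a free `ℤ`-module, an element not divisible by `p` has a coordinate not divisible
by `p`. -/
theorem exists_functional {N : Type*} [AddCommGroup N] [Module.Free ℤ N] (n₀ : N) (p : ℕ)
    (h : ∀ n' : N, (p : ℤ) • n' ≠ n₀) : ∃ ℓ : N →+ ℤ, ¬ (p : ℤ) ∣ ℓ n₀ := by
  by_contra hall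
  push Not at hall
  let b := Module.Free.chooseBasis ℤ N
  have hi : ∀ i, (p : ℤ) ∣ b.repr n₀ i := fun i => hall (b.coord i).toAddMonoidHom
  apply h (b.repr.symm ((b.repr n₀).mapRange (· / (p : ℤ)) (Int.zero_ediv _)))
  apply b.repr.injective
  rw [map_smul, LinearEquiv.apply_symm_apply]
  ext i
  rw [Finsupp.smul_apply, Finsupp.mapRange_apply, smul_eq_mul]
  exact Int.mul_ediv_cancel' (hi i)

theorem card_eq_of_stem {Γ Q : Type*} [Group Γ] [Group Q] (σ : Γ →* Q)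
    (hσ : Function.Surjective σ) : Nat.card Γ = Nat.card σ.ker * Nat.card Q := by
  rw [← Subgroup.card_mul_index σ.ker, Subgroup.index_ker, MonoidHom.range_eq_top.mpr hσ,
    Subgroup.card_top]

/-- Coprime case: any two Schur covers are isomorphic over `Q`. -/
theorem backward {Q : Type u} [Group Q] [Finite Q] {A : Type v} [CommGroup A]
    (hA : Cfsg.HasSchurMultiplier Q A)
    (hcop : Nat.Coprime (Nat.card (Abelianization Q)) (Nat.card A))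
    (Γ₁ Γ₂ : Type u) [Group Γ₁] [Finite Γ₁] [Group Γ₂] [Finite Γ₂] (σ₁ : Γ₁ →* Q)
    (σ₂ : Γ₂ →* Q) (h₁ : Cfsg.IsStemExtension σ₁) (h₂ : Cfsg.IsStemExtension σ₂)
    (e₁ : σ₁.ker ≃* A) (e₂ : σ₂.ker ≃* A) :
    ∃ e : Γ₁ ≃* Γ₂, σ₂.comp e.toMonoidHom = σ₁ := by
  let π := Hopf.can Q
  have hπ : Function.Surjective π := Hopf.can_surjective Q
  obtain ⟨hs₁, hc₁, hk₁⟩ := h₁
  obtain ⟨hs₂, hc₂, hk₂⟩ := h₂
  obtain ⟨θ₁, hθ₁⟩ := Hopf.exists_lift π σ₁ hs₁ hc₁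
  obtain ⟨θ₂, hθ₂⟩ := Hopf.exists_lift π σ₂ hs₂ hc₂
  have hθ₁s := Hopf.surjective_of_stem π hπ σ₁ hc₁ hk₁ θ₁ hθ₁
  have hmap₁ := Hopf.map_T_eq_ker π hπ σ₁ hc₁ hk₁ θ₁ hθ₁
  obtain ⟨eT⟩ := Hopf.equiv_T_of_hasSchurMultiplier π hπ hA
  have hAfin : Finite A := Finite.of_equiv σ₁.ker e₁.toEquiv
  have hTfin : Finite (Hopf.T π) := Hopf.finite_T π hπ
  -- `θ₁` is injective on `T`
  have hinj : ∀ t ∈ Hopf.T π, θ₁ t = 1 → t = 1 := by
    let φ : Hopf.T π →* σ₁.ker :=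
      (θ₁.comp (Hopf.T π).subtype).codRestrict σ₁.ker (fun t => hmap₁ ▸ ⟨t, t.2, rfl⟩)
    have hφs : Function.Surjective φ := by
      rintro ⟨x, hx⟩
      rw [← hmap₁] at hx
      obtain ⟨t, ht, rfl⟩ := hx
      exact ⟨⟨t, ht⟩, rfl⟩
    have hcard : Nat.card (Hopf.T π) ≤ Nat.card σ₁.ker := by
      rw [Nat.card_congr e₁.toEquiv, Nat.card_congr eT.toEquiv]
    have hφb := hφs.bijective_of_nat_card_le hcard
    intro t ht h
    have h2 : φ ⟨t, ht⟩ = φ 1 := by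
      rw [map_one]; exact Subtype.ext h
    exact congrArg Subtype.val (hφb.1 h2)
  have hS₁Z : θ₁.ker ≤ Hopf.Z π := by
    intro e he
    rw [Hopf.mem_Z, ← hθ₁, MonoidHom.comp_apply, MonoidHom.mem_ker.mp he, map_one]
  have hS₁ : θ₁.ker ⊓ _root_.commutator (Hopf.E π) = ⊥ := by
    rw [eq_bot_iff]
    intro x hx
    obtain ⟨hx1, hx2⟩ := Subgroup.mem_inf.mp hx
    rw [Subgroup.mem_bot]
    exact hinj x (Subgroup.mem_inf.mpr ⟨hS₁Z hx1, hx2⟩) hx1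
  have hpow : ∀ x : Hopf.E π, x ^ Nat.card (Abelianization Q) ∈
      θ₁.ker ⊔ _root_.commutator (Hopf.E π) := by
    intro x
    have h1 : (Hopf.πE π x) ^ Nat.card (Abelianization Q) ∈ _root_.commutator Q :=
      S3980.pow_card_abelianization_mem _
    rw [← S3958.map_commutator_of_surjective (Hopf.πE π) (Hopf.πE_surjective π hπ)] at h1
    obtain ⟨d, hd, hde⟩ := h1
    have hz : x ^ Nat.card (Abelianization Q) * d⁻¹ ∈ Hopf.Z π := by
      rw [Hopf.mem_Z, map_mul, map_inv, map_pow, hde, mul_inv_cancel]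
    have h2 : θ₁ (x ^ Nat.card (Abelianization Q) * d⁻¹) ∈ σ₁.ker := by
      rw [MonoidHom.mem_ker, ← MonoidHom.comp_apply, hθ₁]; exact (Hopf.mem_Z π _).mp hz
    rw [← hmap₁] at h2
    obtain ⟨t, ht, hte⟩ := h2
    have h3 : x ^ Nat.card (Abelianization Q) * d⁻¹ * t⁻¹ ∈ θ₁.ker := by
      rw [MonoidHom.mem_ker, map_mul, map_inv, hte, mul_inv_cancel]
    have h4 : x ^ Nat.card (Abelianization Q) =
        (x ^ Nat.card (Abelianization Q) * d⁻¹ * t⁻¹) * (t * d) := by group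
    rw [h4]
    exact Subgroup.mul_mem _ (Subgroup.mem_sup_left h3) (Subgroup.mem_sup_right
      (Subgroup.mul_mem _ (Hopf.T_le_commutator π ht) hd))
  -- the homomorphism to be extended
  let f : θ₁.ker →* A := e₂.toMonoidHom.comp
    ((θ₂.comp θ₁.ker.subtype).codRestrict σ₂.ker (fun s => by
      rw [MonoidHom.mem_ker, ← MonoidHom.comp_apply, ← MonoidHom.comp_assoc, hθ₂]
      exact (Hopf.mem_Z π _).mp (hS₁Z s.2)))
  obtain ⟨g, hg⟩ := exists_extension θ₁.ker hS₁ (Nat.card (Abelianization Q)) hcop.symm hpow f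
  have hcen : ∀ x : Hopf.E π, ((e₂.symm (g x) : σ₂.ker) : Γ₂) ∈ Subgroup.center Γ₂ :=
    fun x => hc₂ (e₂.symm (g x)).2
  let θ₂' : Hopf.E π →* Γ₂ := MonoidHom.mk'
    (fun x => θ₂ x * ((e₂.symm (g x) : σ₂.ker) : Γ₂)⁻¹) (by
      intro a b
      have h1 := Subgroup.mem_center_iff.mp (Subgroup.inv_mem _ (hcen a)) (θ₂ b)
      rw [map_mul, map_mul, map_mul, Subgroup.coe_mul, mul_inv_rev]
      calc θ₂ a * θ₂ b * (((e₂.symm (g b) : σ₂.ker) : Γ₂)⁻¹ * ((e₂.symm (g a) : σ₂.ker) : Γ₂)⁻¹)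
          = θ₂ a * (θ₂ b * ((e₂.symm (g a) : σ₂.ker) : Γ₂)⁻¹) *
              ((e₂.symm (g b) : σ₂.ker) : Γ₂)⁻¹ := by
            have h2 := Subgroup.mem_center_iff.mp (Subgroup.inv_mem _ (hcen a))
              (((e₂.symm (g b) : σ₂.ker) : Γ₂)⁻¹)
            rw [mul_assoc, mul_assoc, mul_assoc, h2]
        _ = θ₂ a * ((e₂.symm (g a) : σ₂.ker) : Γ₂)⁻¹ *
              (θ₂ b * ((e₂.symm (g b) : σ₂.ker) : Γ₂)⁻¹) := by
            rw [h1]; group)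
  have hθ₂'a : ∀ x, θ₂' x = θ₂ x * ((e₂.symm (g x) : σ₂.ker) : Γ₂)⁻¹ := fun x => rfl
  have hθ₂' : σ₂.comp θ₂' = Hopf.πE π := by
    refine MonoidHom.ext fun x => ?_
    rw [MonoidHom.comp_apply, hθ₂'a, map_mul, map_inv,
      MonoidHom.mem_ker.mp (e₂.symm (g x)).2, inv_one, mul_one, ← MonoidHom.comp_apply, hθ₂]
  have hker : θ₁.ker ≤ θ₂'.ker := by
    intro s hs
    rw [MonoidHom.mem_ker, hθ₂'a]
    have h1 : g s = f ⟨s, hs⟩ := hg ⟨s, hs⟩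
    rw [h1]
    show θ₂ s * ((e₂.symm (e₂ _) : σ₂.ker) : Γ₂)⁻¹ = 1
    rw [MulEquiv.symm_apply_apply]
    exact mul_inv_cancel _
  have hθ₂'s := Hopf.surjective_of_stem π hπ σ₂ hc₂ hk₂ θ₂' hθ₂'
  let e' : Γ₁ →* Γ₂ := (MonoidHom.liftOfSurjective θ₁ hθ₁s) ⟨θ₂', hker⟩
  have he' : ∀ x, e' (θ₁ x) = θ₂' x := fun x =>
    MonoidHom.liftOfRightInverse_comp_apply θ₁ _ _ ⟨θ₂', hker⟩ x
  have he's : Function.Surjective e' := by
    intro y
    obtain ⟨x, rfl⟩ := hθ₂'s y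
    exact ⟨θ₁ x, he' x⟩
  have hcard : Nat.card Γ₁ ≤ Nat.card Γ₂ := by
    rw [card_eq_of_stem σ₁ hs₁, card_eq_of_stem σ₂ hs₂, Nat.card_congr e₁.toEquiv,
      Nat.card_congr e₂.toEquiv]
  refine ⟨MulEquiv.ofBijective e' (he's.bijective_of_nat_card_le hcard), ?_⟩
  refine MonoidHom.ext fun y => ?_
  obtain ⟨x, rfl⟩ := hθ₁s y
  show σ₂ (e' (θ₁ x)) = σ₁ (θ₁ x)
  rw [he', ← MonoidHom.comp_apply, hθ₂', ← MonoidHom.comp_apply, hθ₁]

/-- Subgroups of `Z π` are commutative. -/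
@[reducible] def commGroupOfLe {α : Type*} {G : Type*} [Group G] (π : FreeGroup α →* G)
    (S : Subgroup (Hopf.E π)) (hS : S ≤ Hopf.Z π) : CommGroup S :=
  { (inferInstance : Group S) with
    mul_comm := fun a b =>
      Subtype.ext (Subgroup.mem_center_iff.mp (Hopf.Z_le_center π (hS a.2)) b).symm }

/-- A homomorphism `S₁ → T` which sends `s₀` to a non-`p`-th power. -/
theorem exists_hom_not_pow {Q : Type u} [Group Q] [Finite Q] (p : ℕ) (hp : p.Prime)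
    (S₁ : Subgroup (Hopf.E (Hopf.can Q))) (hS₁Z : S₁ ≤ Hopf.Z (Hopf.can Q))
    (hS₁c : S₁ ⊓ _root_.commutator (Hopf.E (Hopf.can Q)) = ⊥)
    (s₀ : S₁) (hs₀p : ∀ s : S₁, s ^ p ≠ s₀)
    (t₀ : Hopf.T (Hopf.can Q)) (ht₀ : ∀ u : Hopf.T (Hopf.can Q), u ^ p ≠ t₀) :
    ∃ φ : S₁ →* Hopf.T (Hopf.can Q), ∀ u : Hopf.T (Hopf.can Q), u ^ p ≠ φ s₀ := by
  classical
  letI : CommGroup S₁ := commGroupOfLe (Hopf.can Q) S₁ hS₁Z
  letI : CommGroup (Hopf.T (Hopf.can Q)) :=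
    commGroupOfLe (Hopf.can Q) (Hopf.T (Hopf.can Q)) (Hopf.T_le_Z (Hopf.can Q))
  let Jadd : Additive S₁ →+ FreeAbelianGroup Q :=
    MonoidHom.toAdditive ((S3973.toAb (Hopf.can Q)).comp S₁.subtype)
  let J : Additive S₁ →ₗ[ℤ] FreeAbelianGroup Q := Jadd.toIntLinearMap
  have hJ : Function.Injective J := by
    rw [← LinearMap.ker_eq_bot, LinearMap.ker_eq_bot']
    intro z hz
    have h2 : S3973.toAb (Hopf.can Q) ((z.toMul : S₁) : Hopf.E (Hopf.can Q)) = 1 := hz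
    rw [S3973.toAb_eq_one_iff] at h2
    have h3 : ((z.toMul : S₁) : Hopf.E (Hopf.can Q)) ∈
        S₁ ⊓ _root_.commutator (Hopf.E (Hopf.can Q)) :=
      Subgroup.mem_inf.mpr ⟨(z.toMul : S₁).2, h2⟩
    rw [hS₁c, Subgroup.mem_bot] at h3
    have h4 : (z.toMul : S₁) = 1 := Subtype.ext h3
    exact congrArg Additive.ofMul h4
  have hfree : Module.Free ℤ (Additive S₁) :=
    Module.Free.of_equiv (LinearEquiv.ofInjective J hJ).symm
  obtain ⟨ℓ, hℓ⟩ := exists_functional (Additive.ofMul s₀) p (by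
    intro n' hn'
    rw [natCast_zsmul] at hn'
    exact hs₀p (n'.toMul : S₁) (congrArg Additive.toMul hn'))
  let φ : S₁ →* Hopf.T (Hopf.can Q) :=
    MonoidHom.mk' (fun s => t₀ ^ ℓ (Additive.ofMul s)) (fun a b => by
      rw [ofMul_mul, map_add, zpow_add])
  have hφa : ∀ s, φ s = t₀ ^ ℓ (Additive.ofMul s) := fun s => rfl
  refine ⟨φ, ?_⟩
  intro u hu
  rw [hφa] at hu
  obtain ⟨a, b', hab⟩ :=
    (Irreducible.coprime_iff_not_dvd (Nat.prime_iff_prime_int.mp hp).irreducible).mpr hℓ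
  apply ht₀ (t₀ ^ a * u ^ b')
  calc (t₀ ^ a * u ^ b') ^ p = (t₀ ^ a) ^ p * (u ^ p) ^ b' := by
        rw [mul_pow, ← zpow_natCast (u ^ b'), ← zpow_mul, mul_comm b', zpow_mul, zpow_natCast]
    _ = t₀ ^ (a * (p : ℤ) + b' * ℓ (Additive.ofMul s₀)) := by
        rw [hu, ← zpow_natCast (t₀ ^ a), ← zpow_mul, ← zpow_mul, ← zpow_add,
          mul_comm _ b']
    _ = t₀ := by rw [hab, zpow_one]

/-- Twisting a complement of `T` in `Z` by a homomorphism to `T` gives a complement. -/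
theorem exists_twisted_compl {α : Type*} {G : Type*} [Group G] (π : FreeGroup α →* G)
    (S₁ : Subgroup (Hopf.E π)) (hS₁Z : S₁ ≤ Hopf.Z π) (hS₁T : S₁ ⊓ Hopf.T π = ⊥)
    (hS₁sup : S₁ ⊔ Hopf.T π = Hopf.Z π) (φ : S₁ →* Hopf.T π) :
    ∃ S₂ : Subgroup (Hopf.E π), S₂ ≤ Hopf.Z π ∧ S₂ ⊓ Hopf.T π = ⊥ ∧ S₂ ⊔ Hopf.T π = Hopf.Z π ∧
      ∀ s : S₁, (s : Hopf.E π) * (φ s : Hopf.E π) ∈ S₂ := by
  have hcenter : ∀ z ∈ Hopf.Z π, ∀ x : Hopf.E π, x * z = z * x := fun z hz x =>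
    Subgroup.mem_center_iff.mp (Hopf.Z_le_center π hz) x
  let ι₂ : S₁ →* Hopf.E π := MonoidHom.mk' (fun s => (s : Hopf.E π) * (φ s : Hopf.E π)) (by
    intro a b'
    rw [map_mul, Subgroup.coe_mul, Subgroup.coe_mul]
    have h2 := hcenter (φ a : Hopf.E π) (Hopf.T_le_Z π (φ a).2) (b' : Hopf.E π)
    calc (a : Hopf.E π) * b' * ((φ a : Hopf.E π) * (φ b' : Hopf.E π))
        = a * (b' * (φ a : Hopf.E π)) * (φ b' : Hopf.E π) := by
          rw [mul_assoc, mul_assoc, mul_assoc]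
      _ = a * (φ a : Hopf.E π) * (b' * (φ b' : Hopf.E π)) := by
          rw [h2, mul_assoc, mul_assoc, mul_assoc])
  have hι₂ : ∀ s, ι₂ s = (s : Hopf.E π) * (φ s : Hopf.E π) := fun s => rfl
  have hS₂Z : ι₂.range ≤ Hopf.Z π := by
    rintro _ ⟨s, rfl⟩
    rw [hι₂]
    exact Subgroup.mul_mem _ (hS₁Z s.2) (Hopf.T_le_Z π (φ s).2)
  refine ⟨ι₂.range, hS₂Z, ?_, ?_, fun s => ⟨s, rfl⟩⟩
  · rw [eq_bot_iff]
    rintro x hx
    obtain ⟨⟨s, rfl⟩, hx2⟩ := Subgroup.mem_inf.mp hx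
    rw [hι₂] at hx2
    have h2 : (s : Hopf.E π) ∈ Hopf.T π := by
      have := Subgroup.mul_mem _ hx2 (Subgroup.inv_mem _ (φ s).2)
      rwa [mul_inv_cancel_right] at this
    have h3 : (s : Hopf.E π) ∈ S₁ ⊓ Hopf.T π := Subgroup.mem_inf.mpr ⟨s.2, h2⟩
    rw [hS₁T, Subgroup.mem_bot] at h3
    have h4 : s = 1 := Subtype.ext h3
    rw [h4, map_one]
    exact Subgroup.one_mem _
  · apply le_antisymm (sup_le hS₂Z (Hopf.T_le_Z π))
    rw [← hS₁sup]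
    apply sup_le _ le_sup_right
    intro s hs
    have h2 : s = ι₂ ⟨s, hs⟩ * ((φ ⟨s, hs⟩ : Hopf.E π))⁻¹ := by
      rw [hι₂, mul_inv_cancel_right]
    rw [h2]
    exact Subgroup.mul_mem _ (Subgroup.mem_sup_left ⟨_, rfl⟩)
      (Subgroup.mem_sup_right (Subgroup.inv_mem _ (φ ⟨s, hs⟩).2))

/-- An isomorphism over `G` between `E/S₁` and `E/S₂` forces divisibility. -/
theorem exists_pow_of_iso {α : Type*} {G : Type*} [Group G] (π : FreeGroup α →* G)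
    (S₁ S₂ : Subgroup (Hopf.E π)) [S₁.Normal] [S₂.Normal] (hS₁Z : S₁ ≤ Hopf.Z π)
    (hS₂Z : S₂ ≤ Hopf.Z π) (hS₂T : S₂ ⊓ Hopf.T π = ⊥) (hS₂sup : S₂ ⊔ Hopf.T π = Hopf.Z π)
    (e : Hopf.E π ⧸ S₁ ≃* Hopf.E π ⧸ S₂)
    (he : (Hopf.σS π S₂ hS₂Z).comp e.toMonoidHom = Hopf.σS π S₁ hS₁Z)
    (x₀ s₀ d₀ t' : Hopf.E π) (p : ℕ) (hx₀p : x₀ ^ p = s₀ * d₀) (hs₀ : s₀ ∈ S₁)
    (hd₀ : d₀ ∈ _root_.commutator (Hopf.E π)) (ht' : t' ∈ Hopf.T π) (hst : s₀ * t' ∈ S₂) :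
    ∃ u ∈ Hopf.T π, u ^ p = t' := by
  have hcenter : ∀ z ∈ Hopf.Z π, ∀ x : Hopf.E π, x * z = z * x := fun z hz x =>
    Subgroup.mem_center_iff.mp (Hopf.Z_le_center π hz) x
  -- the kernel of `σS₂` is central
  have hkc : ∀ k ∈ (Hopf.σS π S₂ hS₂Z).ker, ∀ g : Hopf.E π ⧸ S₂, g * k = k * g := by
    intro k hk g
    rw [Hopf.ker_σS] at hk
    obtain ⟨z, hz, rfl⟩ := hk
    obtain ⟨x, rfl⟩ := QuotientGroup.mk_surjective g
    show (QuotientGroup.mk x : Hopf.E π ⧸ S₂) * QuotientGroup.mk z =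
      QuotientGroup.mk z * QuotientGroup.mk x
    rw [← QuotientGroup.mk_mul, ← QuotientGroup.mk_mul, hcenter z hz x]
  let Y : Hopf.E π → Hopf.E π ⧸ S₂ := fun x =>
    e (QuotientGroup.mk x) * (QuotientGroup.mk x : Hopf.E π ⧸ S₂)⁻¹
  have hYker : ∀ x : Hopf.E π, Y x ∈ (Hopf.σS π S₂ hS₂Z).ker := by
    intro x
    have h2 : Hopf.σS π S₂ hS₂Z (e (QuotientGroup.mk x)) = Hopf.πE π x :=
      DFunLike.congr_fun he (QuotientGroup.mk x)
    rw [MonoidHom.mem_ker, map_mul, map_inv, h2, Hopf.σS_mk, mul_inv_cancel]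
  have hYmul : ∀ a b : Hopf.E π, Y (a * b) = Y a * Y b := by
    intro a b
    have h2 := hkc _ (hYker b) ((QuotientGroup.mk a : Hopf.E π ⧸ S₂)⁻¹)
    show e (QuotientGroup.mk (a * b)) * (QuotientGroup.mk (a * b) : Hopf.E π ⧸ S₂)⁻¹ =
      e (QuotientGroup.mk a) * (QuotientGroup.mk a : Hopf.E π ⧸ S₂)⁻¹ * Y b
    rw [QuotientGroup.mk_mul, QuotientGroup.mk_mul, map_mul, mul_inv_rev,
      mul_assoc (e (QuotientGroup.mk a)) _ (Y b), h2]
    show _ = e (QuotientGroup.mk a) * (e (QuotientGroup.mk b) *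
      (QuotientGroup.mk b : Hopf.E π ⧸ S₂)⁻¹ * (QuotientGroup.mk a : Hopf.E π ⧸ S₂)⁻¹)
    rw [mul_assoc, mul_assoc]
  let y : Hopf.E π →* Hopf.E π ⧸ S₂ := MonoidHom.mk' Y hYmul
  have hy : ∀ x, y x = Y x := fun x => rfl
  -- `y` kills commutators
  have hycomm : _root_.commutator (Hopf.E π) ≤ y.ker := by
    rw [commutator_def, Subgroup.commutator_le]
    intro a _ b _
    rw [MonoidHom.mem_ker, map_commutatorElement, commutatorElement_def, hy, hy]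
    rw [hkc _ (hYker b) (Y a), mul_inv_cancel_right, mul_inv_cancel]
  have hyd : y d₀ = 1 := MonoidHom.mem_ker.mp (hycomm hd₀)
  have hys : y s₀ = QuotientGroup.mk t' := by
    rw [hy]
    have h2 : (QuotientGroup.mk s₀ : Hopf.E π ⧸ S₁) = 1 := (QuotientGroup.eq_one_iff s₀).mpr hs₀
    have h3 : (QuotientGroup.mk (s₀ * t') : Hopf.E π ⧸ S₂) = 1 :=
      (QuotientGroup.eq_one_iff _).mpr hst
    rw [QuotientGroup.mk_mul] at h3
    show e (QuotientGroup.mk s₀) * (QuotientGroup.mk s₀ : Hopf.E π ⧸ S₂)⁻¹ = _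
    rw [h2, map_one, one_mul]
    exact inv_eq_of_mul_eq_one_right h3
  have hyp : (y x₀) ^ p = QuotientGroup.mk t' := by
    rw [← map_pow, hx₀p, map_mul, hyd, mul_one, hys]
  have h5 := hYker x₀
  rw [Hopf.ker_σS, ← hS₂sup] at h5
  obtain ⟨z, hz', hze⟩ := h5
  obtain ⟨s', hs', u, hu, rfl⟩ := Subgroup.mem_sup_of_normal_right.mp hz'
  have h6 : (QuotientGroup.mk u : Hopf.E π ⧸ S₂) = y x₀ := by
    rw [hy, ← hze]
    show (QuotientGroup.mk u : Hopf.E π ⧸ S₂) = QuotientGroup.mk (s' * u)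
    rw [QuotientGroup.mk_mul, (QuotientGroup.eq_one_iff s').mpr hs', one_mul]
  rw [← h6, ← QuotientGroup.mk_pow] at hyp
  have h7 : (u ^ p)⁻¹ * t' ∈ S₂ := QuotientGroup.eq.mp hyp
  have h8 : (u ^ p)⁻¹ * t' ∈ S₂ ⊓ Hopf.T π :=
    Subgroup.mem_inf.mpr ⟨h7, Subgroup.mul_mem _ (Subgroup.inv_mem _ (Subgroup.pow_mem _ hu p))
      ht'⟩
  rw [hS₂T, Subgroup.mem_bot] at h8
  exact ⟨u, hu, inv_mul_eq_one.mp h8⟩

/-- Non-coprime case: two Schur covers which are not isomorphic over `Q`. -/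
theorem forward {Q : Type u} [Group Q] [Finite Q] {A : Type v} [CommGroup A]
    (hA : Cfsg.HasSchurMultiplier Q A)
    (h : ∀ (Γ₁ Γ₂ : Type u) [Group Γ₁] [Finite Γ₁] [Group Γ₂] [Finite Γ₂] (σ₁ : Γ₁ →* Q)
      (σ₂ : Γ₂ →* Q), Cfsg.IsStemExtension σ₁ → Cfsg.IsStemExtension σ₂ →
      Nonempty (σ₁.ker ≃* A) → Nonempty (σ₂.ker ≃* A) →
      ∃ e : Γ₁ ≃* Γ₂, σ₂.comp e.toMonoidHom = σ₁) :
    Nat.Coprime (Nat.card (Abelianization Q)) (Nat.card A) := by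
  classical
  by_contra hnc
  obtain ⟨p, hp, hpm, hpA⟩ := Nat.Prime.not_coprime_iff_dvd.mp hnc
  have : Fact p.Prime := ⟨hp⟩
  have hπ : Function.Surjective (Hopf.can Q) := Hopf.can_surjective Q
  obtain ⟨eT⟩ := Hopf.equiv_T_of_hasSchurMultiplier (Hopf.can Q) hπ hA
  have hTfin : Finite (Hopf.T (Hopf.can Q)) := Hopf.finite_T (Hopf.can Q) hπ
  have hpT : p ∣ Nat.card (Hopf.T (Hopf.can Q)) := by rwa [← Nat.card_congr eT.toEquiv]
  obtain ⟨S₁, hS₁Z, hS₁T, hS₁sup⟩ :=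
    Hopf.exists_compl (Hopf.can Q) hπ (Hopf.Z (Hopf.can Q)) le_rfl
      (sup_eq_left.mpr (Hopf.T_le_Z (Hopf.can Q)))
  have hS₁n : S₁.Normal :=
    Hopf.normal_of_le_center S₁ (hS₁Z.trans (Hopf.Z_le_center (Hopf.can Q)))
  have hcenter : ∀ z ∈ Hopf.Z (Hopf.can Q), ∀ x : Hopf.E (Hopf.can Q), x * z = z * x :=
    fun z hz x => Subgroup.mem_center_iff.mp (Hopf.Z_le_center (Hopf.can Q) hz) x
  -- an element of order `p` in the commutator quotient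
  obtain ⟨b, hb⟩ := exists_prime_orderOf_dvd_card' p hpm
  obtain ⟨q₀, hq₀b⟩ : ∃ q₀ : Q, Abelianization.of q₀ = b := QuotientGroup.mk_surjective b
  obtain ⟨x₀, hx₀⟩ := Hopf.πE_surjective (Hopf.can Q) hπ q₀
  have hq₀ : q₀ ∉ _root_.commutator Q := by
    intro hq
    have h1 : b = 1 := by
      rw [← hq₀b]
      have : q₀ ∈ (Abelianization.of : Q →* Abelianization Q).ker := by
        rw [Abelianization.ker_of]; exact hq
      exact this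
    rw [h1, orderOf_one] at hb
    exact hp.one_lt.ne hb
  have h1 : (Hopf.πE (Hopf.can Q) x₀) ^ p ∈ _root_.commutator Q := by
    rw [hx₀, ← Abelianization.ker_of, MonoidHom.mem_ker, map_pow, hq₀b, ← hb]
    exact pow_orderOf_eq_one _
  rw [← S3958.map_commutator_of_surjective (Hopf.πE (Hopf.can Q))
    (Hopf.πE_surjective (Hopf.can Q) hπ)] at h1
  obtain ⟨d, hd, hde⟩ := h1
  have hz : x₀ ^ p * d⁻¹ ∈ Hopf.Z (Hopf.can Q) := by
    rw [Hopf.mem_Z, map_mul, map_inv, map_pow, hde, mul_inv_cancel]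
  rw [← hS₁sup] at hz
  obtain ⟨s₀, hs₀, t, ht, hst⟩ := Subgroup.mem_sup_of_normal_right.mp hz
  have hd₀ : t * d ∈ _root_.commutator (Hopf.E (Hopf.can Q)) :=
    Subgroup.mul_mem _ (Hopf.T_le_commutator (Hopf.can Q) ht) hd
  have hx₀p : x₀ ^ p = s₀ * (t * d) := by
    rw [← mul_assoc, hst, inv_mul_cancel_right]
  -- `s₀` is not a `p`-th power in `S₁`
  have hs₀p : ∀ s : S₁, s ^ p ≠ ⟨s₀, hs₀⟩ := by
    intro s hsp
    have hsp' : (s : Hopf.E (Hopf.can Q)) ^ p = s₀ := congrArg Subtype.val hsp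
    have hcomm : Commute x₀ (s : Hopf.E (Hopf.can Q))⁻¹ :=
      hcenter _ (Subgroup.inv_mem _ (hS₁Z s.2)) x₀
    have h2 : (x₀ * (s : Hopf.E (Hopf.can Q))⁻¹) ^ p = t * d := by
      rw [hcomm.mul_pow, inv_pow, hsp', hx₀p]
      rw [← hcenter s₀ (hS₁Z hs₀) (t * d), mul_inv_cancel_right]
    have h3 : x₀ * (s : Hopf.E (Hopf.can Q))⁻¹ ∈ _root_.commutator (Hopf.E (Hopf.can Q)) :=
      Hopf.mem_commutator_of_pow_mem (Hopf.can Q) _ p hp.pos (h2 ▸ hd₀)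
    have h4 : Hopf.πE (Hopf.can Q) (x₀ * (s : Hopf.E (Hopf.can Q))⁻¹) ∈ _root_.commutator Q := by
      rw [← S3958.map_commutator_of_surjective (Hopf.πE (Hopf.can Q))
        (Hopf.πE_surjective (Hopf.can Q) hπ)]
      exact ⟨_, h3, rfl⟩
    rw [map_mul, map_inv, (Hopf.mem_Z (Hopf.can Q) _).mp (hS₁Z s.2), inv_one, mul_one, hx₀] at h4
    exact hq₀ h4
  -- an element of `T` which is not a `p`-th power
  obtain ⟨t₀, ht₀⟩ : ∃ t₀ : Hopf.T (Hopf.can Q), ∀ u : Hopf.T (Hopf.can Q), u ^ p ≠ t₀ := by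
    by_contra hall
    push Not at hall
    have hsurj : Function.Surjective (fun u : Hopf.T (Hopf.can Q) => u ^ p) := hall
    have hinj := Finite.injective_iff_surjective.mpr hsurj
    obtain ⟨t₁, ht₁⟩ := exists_prime_orderOf_dvd_card' p hpT
    have h2 : t₁ ^ p = (1 : Hopf.T (Hopf.can Q)) ^ p := by
      rw [one_pow, ← ht₁]; exact pow_orderOf_eq_one _
    have h3 : t₁ = 1 := hinj h2
    rw [h3, orderOf_one] at ht₁
    exact hp.one_lt.ne ht₁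
  have hS₁c : S₁ ⊓ _root_.commutator (Hopf.E (Hopf.can Q)) = ⊥ := by
    rw [eq_bot_iff, ← hS₁T]
    intro x hx
    obtain ⟨hx1, hx2⟩ := Subgroup.mem_inf.mp hx
    exact Subgroup.mem_inf.mpr ⟨hx1, Subgroup.mem_inf.mpr ⟨hS₁Z hx1, hx2⟩⟩
  obtain ⟨φ, hφ⟩ := exists_hom_not_pow p hp S₁ hS₁Z hS₁c ⟨s₀, hs₀⟩ hs₀p t₀ ht₀
  obtain ⟨S₂, hS₂Z, hS₂T, hS₂sup, hS₂φ⟩ :=
    exists_twisted_compl (Hopf.can Q) S₁ hS₁Z hS₁T hS₁sup φ
  have hS₂n : S₂.Normal :=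
    Hopf.normal_of_le_center _ (hS₂Z.trans (Hopf.Z_le_center (Hopf.can Q)))
  -- the two covers
  have hfin₁ : Finite (Hopf.E (Hopf.can Q) ⧸ S₁) :=
    Hopf.σS_finite (Hopf.can Q) hπ S₁ hS₁Z hS₁sup
  have hfin₂ : Finite (Hopf.E (Hopf.can Q) ⧸ S₂) :=
    Hopf.σS_finite (Hopf.can Q) hπ S₂ hS₂Z hS₂sup
  obtain ⟨k₁⟩ := Hopf.σS_kerEquiv (Hopf.can Q) S₁ hS₁Z hS₁T hS₁sup
  obtain ⟨k₂⟩ := Hopf.σS_kerEquiv (Hopf.can Q) S₂ hS₂Z hS₂T hS₂sup
  obtain ⟨e, he⟩ := h (Hopf.E (Hopf.can Q) ⧸ S₁) (Hopf.E (Hopf.can Q) ⧸ S₂)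
    (Hopf.σS (Hopf.can Q) S₁ hS₁Z) (Hopf.σS (Hopf.can Q) S₂ hS₂Z)
    (Hopf.σS_isStem (Hopf.can Q) hπ S₁ hS₁Z hS₁sup)
    (Hopf.σS_isStem (Hopf.can Q) hπ S₂ hS₂Z hS₂sup)
    ⟨k₁.trans eT.symm⟩ ⟨k₂.trans eT.symm⟩
  obtain ⟨u, hu, hup⟩ := exists_pow_of_iso (Hopf.can Q) S₁ S₂ hS₁Z hS₂Z hS₂T hS₂sup e he
    x₀ s₀ (t * d) (φ ⟨s₀, hs₀⟩ : Hopf.E (Hopf.can Q)) p hx₀p hs₀ hd₀ (φ ⟨s₀, hs₀⟩).2
    (hS₂φ ⟨s₀, hs₀⟩)
  exact hφ ⟨u, hu⟩ (Subtype.ext hup)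

/-- Let `Q` be a finite group with Schur multiplier `A`. Any two Schur covering groups of `Q` (finite stem extensions `σ₁ : Γ₁ →* Q`, `σ₂ : Γ₂ →* Q` with kernels isomorphic to `A`, `Γ₁, Γ₂` in the universe of `Q`) are isomorphic over `Q` — there is a group isomorphism `e : Γ₁ ≃* Γ₂` with `σ₂ ∘ e = σ₁` — if and only if the order of the commutator quotient of `Q` is coprime to the order of `A`. In particular a finite perfect group has a unique Schur covering group up to isomorphism over it. -/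
theorem result {Q : Type u} [Group Q] [Finite Q] {A : Type v} [CommGroup A] (hA : Cfsg.HasSchurMultiplier Q A) : (∀ (Γ₁ Γ₂ : Type u) [Group Γ₁] [Finite Γ₁] [Group Γ₂] [Finite Γ₂] (σ₁ : Γ₁ →* Q) (σ₂ : Γ₂ →* Q), Cfsg.IsStemExtension σ₁ → Cfsg.IsStemExtension σ₂ → Nonempty (σ₁.ker ≃* A) → Nonempty (σ₂.ker ≃* A) → ∃ e : Γ₁ ≃* Γ₂, σ₂.comp e.toMonoidHom = σ₁) ↔ Nat.Coprime (Nat.card (Abelianization Q)) (Nat.card A) := by
  constructor
  · intro h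
    exact forward hA h
  · intro hcop Γ₁ Γ₂ _ _ _ _ σ₁ σ₂ h₁ h₂ ⟨e₁⟩ ⟨e₂⟩
    exact backward hA hcop Γ₁ Γ₂ σ₁ σ₂ h₁ h₂ e₁ e₂

end Cfsg.Agent.S3974
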