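import Mathlib
import Cfsg.Statements.S3976
import Cfsg.Agent.Lib.Helper91.SubCount

set_option autoImplicit false

open Cfsg

open scoped Pointwise

namespace Cfsg.Agent.S3976

open Cfsg.Agent.Lib.Helper91

/-- Let `p` be a prime and `G` a group of order `p ^ m`. For every `s ≤ m` the number of normal subgroups of `G` of order `p ^ s` is congruent to `1` modulo `p`. -/
theorem result {G : Type*} [Group G] [Finite G] (p m s : ℕ) (hp : p.Prime) (hG : Nat.card G = p ^ m) (hs : s ≤ m) : Nat.card {H : Subgroup G // H.Normal ∧ Nat.card H = p ^ s} ≡ 1 [MOD p] := by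
  letI : MulAction G (Subgroup G) :=
    MulAction.compHom (Subgroup G) (MulAut.conj : G →* MulAut G)
  have hsmul : ∀ (g : G) (H : Subgroup G), g • H = MulAut.conj g • H := fun g H => rfl
  have h1 : Nat.card {H : Subgroup G // Nat.card H = p ^ s} ≡ 1 [MOD p] :=
    SubCount.card_subgroups_modEq_one G p s hp (by rw [hG]; exact pow_dvd_pow p hs)
  have h2 := SubCount.card_modEq_of_invariant (G := G) (X := Subgroup G)
    {H : Subgroup G | Nat.card H = p ^ s} {H : Subgroup G | H.Normal ∧ Nat.card H = p ^ s}
    (fun H hH => hH.2)
    (fun g H hH => by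
      show Nat.card (g • H : Subgroup G) = p ^ s
      rw [hsmul, Hall.card_conj_smul]
      exact hH)
    (fun g H hH => by
      have hgH : g • H = H := by
        rw [hsmul]
        ext x
        rw [Hall.mem_conj_smul]
        exact ⟨fun h => by simpa [mul_assoc] using hH.1.conj_mem _ h g,
          fun h => by simpa [mul_assoc] using hH.1.conj_mem _ h g⁻¹⟩
      rw [hgH]
      exact hH)
    p
    (fun H hH hHn => by
      have hidx : (MulAction.stabilizer G H).index ∣ p ^ m := by
        rw [← hG]
        exact Subgroup.index_dvd_card _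
      obtain ⟨j, hj, hKj⟩ := (Nat.dvd_prime_pow hp).mp hidx
      rcases Nat.eq_zero_or_pos j with rfl | hjpos
      · exfalso
        apply hHn
        refine ⟨?_, hH⟩
        rw [pow_zero, Subgroup.index_eq_one] at hKj
        constructor
        intro x hx g
        have hg : g ∈ MulAction.stabilizer G H := by
          rw [hKj]
          trivial
        rw [MulAction.mem_stabilizer_iff, hsmul] at hg
        rw [← hg, Hall.mem_conj_smul]
        simpa [mul_assoc] using hx
      · rw [hKj]
        exact dvd_pow_self p hjpos.ne')
  exact h2.symm.trans h1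

end Cfsg.Agent.S3976
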