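import Cfsg.Statements.S3978
import Mathlib
import Cfsg.Agent.Lib.Helper66.Stem
import Cfsg.Agent.Lib.Helper78.ProjSchur2

set_option autoImplicit false
open Cfsg

namespace Cfsg.Agent.S3978

/-- A finite group `Q` has trivial Schur multiplier if and only if, for every `n`, every homomorphism from `Q` to the projective general linear group (the quotient of `GL n ℂ` by its centre) lifts to a homomorphism into `GL n ℂ`. -/
theorem result {Q : Type*} [Group Q] [Finite Q] : Cfsg.HasCyclicSchurMultiplier Q 1 ↔ ∀ (n : ℕ) (γ : Q →* (GL (Fin n) ℂ ⧸ Subgroup.center (GL (Fin n) ℂ))), ∃ ρ : Q →* GL (Fin n) ℂ, (QuotientGroup.mk' (Subgroup.center (GL (Fin n) ℂ))).comp ρ = γ := by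
  have hid : Cfsg.IsStemExtension (MonoidHom.id Q) := by
    refine ⟨Function.surjective_id, ?_, ?_⟩ <;> simp [MonoidHom.ker_id]
  constructor
  · intro hA n γ
    have hk : Nonempty ((MonoidHom.id Q).ker ≃* Multiplicative (ZMod 1)) := by
      have h1 : (MonoidHom.id Q).ker = ⊥ := MonoidHom.ker_id
      rw [h1]
      have : Unique (Multiplicative (ZMod 1)) := by
        change Unique (ZMod 1)
        infer_instance
      exact ⟨MulEquiv.ofUnique⟩
    obtain ⟨ρ, hρ⟩ := Cfsg.Agent.Lib.Helper78.ProjSchur.exists_lift_of_cover hA (MonoidHom.id Q)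
      hid hk γ
    exact ⟨ρ, by rw [hρ, MonoidHom.comp_id]⟩
  · intro hlift
    apply Cfsg.Agent.Lib.Helper66.Stem.hasCyclicSchurMultiplier_one
    intro Γ _ _ σ hσ
    have hlift' : ∀ (n : ℕ) (γ : Q →* (GL (Fin n) ℂ ⧸ Subgroup.center (GL (Fin n) ℂ))),
        ∃ ρ : Q →* GL (Fin n) ℂ,
          (QuotientGroup.mk' (Subgroup.center (GL (Fin n) ℂ))).comp ρ =
            γ.comp (MonoidHom.id Q) := by
      intro n γ
      obtain ⟨ρ, hρ⟩ := hlift n γ
      exact ⟨ρ, by rw [hρ, MonoidHom.comp_id]⟩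
    have h1 := Cfsg.Agent.Lib.Helper78.ProjSchur2.card_ker_le_of_lift (MonoidHom.id Q)
      Function.surjective_id hlift' σ hσ
    have h2 : Nat.card (MonoidHom.id Q).ker = 1 := by
      have h3 : (MonoidHom.id Q).ker = ⊥ := MonoidHom.ker_id
      rw [h3]
      exact Subgroup.card_bot
    rw [h2] at h1
    exact Subgroup.eq_bot_of_card_le _ h1

end Cfsg.Agent.S3978
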