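import Cfsg.Statements.S3992
import Cfsg.Agent.S0003
import Cfsg.Agent.S0038
import Cfsg.Agent.Lib.Helper54.FpfCyclic
import Cfsg.Agent.Lib.Helper9.CS2
import Cfsg.Agent.Lib.Helper91.Hall
import Cfsg.Agent.Lib.Helper46.PCore

set_option autoImplicit false
open Cfsg

namespace Cfsg.Agent.S3992

open Subgroup

/-- Every nonidentity element has prime power order. -/
def EPPO (G : Type*) [Group G] : Prop := ∀ g : G, g ≠ 1 → IsPrimePow (orderOf g)

theorem eppo_comm {G : Type*} [Group G] (hpp : EPPO G) {x y : G} (hc : Commute x y)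
    (hcop : (orderOf x).Coprime (orderOf y)) : x = 1 ∨ y = 1 := by
  by_contra hcon
  push Not at hcon
  obtain ⟨hx, hy⟩ := hcon
  have hxy : orderOf (x * y) = orderOf x * orderOf y :=
    hc.orderOf_mul_eq_mul_orderOf_of_coprime hcop
  have hx1 : orderOf x ≠ 1 := fun h => hx (orderOf_eq_one_iff.mp h)
  have hy1 : orderOf y ≠ 1 := fun h => hy (orderOf_eq_one_iff.mp h)
  have hxy1 : x * y ≠ 1 := by
    intro h
    rw [h, orderOf_one] at hxy
    exact hx1 (Nat.eq_one_of_mul_eq_one_right hxy.symm)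
  obtain ⟨p, k, hp, hk, hpk⟩ := hpp (x * y) hxy1
  have hp' : p.Prime := hp.nat_prime
  have hdx : orderOf x ∣ p ^ k := by rw [hpk, hxy]; exact dvd_mul_right _ _
  have hdy : orderOf y ∣ p ^ k := by rw [hpk, hxy]; exact dvd_mul_left _ _
  obtain ⟨i, hi, hxi⟩ := (Nat.dvd_prime_pow hp').mp hdx
  obtain ⟨j, hj, hyj⟩ := (Nat.dvd_prime_pow hp').mp hdy
  have hpx : p ∣ orderOf x := by
    rw [hxi]
    exact dvd_pow_self p (by rintro rfl; exact hx1 (by simpa using hxi))
  have hpy : p ∣ orderOf y := by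
    rw [hyj]
    exact dvd_pow_self p (by rintro rfl; exact hy1 (by simpa using hyj))
  exact hp'.one_lt.ne' (Nat.eq_one_of_dvd_coprimes hcop hpx hpy)

theorem eppo_subgroup {G : Type*} [Group G] (hpp : EPPO G) (H : Subgroup G) : EPPO H := by
  intro h hh
  have := hpp (h : G) (fun e => hh (Subtype.ext e))
  rwa [Subgroup.orderOf_coe] at this

/-- an element of order prime to `p` and a commuting `p`-element: one of them is trivial. -/
theorem eppo_fpf {G : Type*} [Group G] (hpp : EPPO G) {p : ℕ} (hp : p.Prime) {a x : G}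
    (ha : ¬ p ∣ orderOf a) (hx : ∃ k : ℕ, x ^ p ^ k = 1) (hc : a * x = x * a) (ha1 : a ≠ 1) :
    x = 1 := by
  obtain ⟨k, hk⟩ := hx
  have h1 : orderOf x ∣ p ^ k := orderOf_dvd_of_pow_eq_one hk
  have h2 : (orderOf a).Coprime (orderOf x) :=
    Nat.Coprime.coprime_dvd_right h1 (((Nat.Prime.coprime_iff_not_dvd hp).mpr ha).symm.pow_right k)
  rcases eppo_comm hpp (show Commute a x from hc) h2 with h | h
  · exact absurd h ha1
  · exact h

/-- Higman: a solvable group in which all elements have prime power order has at most two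
prime divisors. -/
theorem solvable_eppo (H : Type*) [Group H] [Finite H] [Group.IsSolvable H] (hpp : EPPO H) :
    (Nat.card H).primeFactors.card ≤ 2 := by
  classical
  rcases subsingleton_or_nontrivial H with hs | hnt
  · have : Nat.card H = 1 := Nat.card_eq_one_iff_unique.mpr ⟨hs, ⟨1⟩⟩
    rw [this]; simp
  obtain ⟨p, V, hp, hVn, hVc, hVp, hVne⟩ :=
    Cfsg.Agent.Lib.Helper91.Hall.exists_normal_abelian_pgroup H
  haveI : Fact p.Prime := ⟨hp⟩
  have hcard0 : Nat.card H ≠ 0 := Nat.card_pos.ne'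
  obtain ⟨k, m, hpm, hmk⟩ : ∃ k m : ℕ, ¬ p ∣ m ∧ Nat.card H = m * p ^ k := by
    obtain ⟨k, m, hm, hkm⟩ := Nat.exists_eq_pow_mul_and_not_dvd hcard0 p hp.ne_one
    exact ⟨k, m, hm, by rw [hkm]; ring⟩
  have hcop : m.Coprime (p ^ k) :=
    (((Nat.Prime.coprime_iff_not_dvd hp).mpr hpm).symm).pow_right k
  obtain ⟨K, hK⟩ := Cfsg.Agent.S0003.result m (p ^ k) hmk hcop
  rcases subsingleton_or_nontrivial K with hKs | hKnt
  · have hm1 : m = 1 := by rw [← hK]; exact Nat.card_eq_one_iff_unique.mpr ⟨hKs, ⟨1⟩⟩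
    have hsub : (Nat.card H).primeFactors ⊆ {p} := by
      intro r hr
      rw [Nat.mem_primeFactors] at hr
      obtain ⟨hr1, hr2, _⟩ := hr
      rw [hmk, hm1, one_mul] at hr2
      have := (Nat.prime_dvd_prime_iff_eq hr1 hp).mp (hr1.dvd_of_dvd_pow hr2)
      simp [this]
    exact (Finset.card_le_card hsub).trans (by simp)
  obtain ⟨q, W, hq, hWn, hWc, hWq, hWne⟩ :=
    Cfsg.Agent.Lib.Helper91.Hall.exists_normal_abelian_pgroup K
  by_cases hall : ∀ r : ℕ, r.Prime → r ∣ m → r = q
  · have hsub : (Nat.card H).primeFactors ⊆ {p, q} := by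
      intro r hr
      rw [Nat.mem_primeFactors] at hr
      obtain ⟨hr1, hr2, _⟩ := hr
      rw [hmk] at hr2
      rcases (Nat.Prime.dvd_mul hr1).mp hr2 with h | h
      · simp [hall r hr1 h]
      · have := (Nat.prime_dvd_prime_iff_eq hr1 hp).mp (hr1.dvd_of_dvd_pow h)
        simp [this]
    exact (Finset.card_le_card hsub).trans Finset.card_le_two
  · exfalso
    push Not at hall
    obtain ⟨r, hr, hrm, hrq⟩ := hall
    haveI : Fact r.Prime := ⟨hr⟩
    obtain ⟨y, hy⟩ := exists_prime_orderOf_dvd_card' (G := K) r (by rw [hK]; exact hrm)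
    have hyH : orderOf (y : H) = r := by rw [Subgroup.orderOf_coe]; exact hy
    have hKp : ∀ h ∈ K, ¬ p ∣ orderOf h := by
      intro h hh hph
      have h1 : orderOf h ∣ Nat.card K := by
        have := orderOf_dvd_natCard (⟨h, hh⟩ : K)
        rwa [← Subgroup.orderOf_coe] at this
      rw [hK] at h1
      exact hpm (hph.trans h1)
    apply Cfsg.Agent.S0038.frob_fpf_false K V (W.map K.subtype) (y : H)
    · rw [normalizer_eq_top]; exact le_top
    · rw [hK]
      obtain ⟨j, hj⟩ := IsPGroup.iff_card.mp hVp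
      rw [hj]
      exact (((Nat.Prime.coprime_iff_not_dvd hp).mpr hpm).symm).pow_right j
    · exact hVne
    · intro h hh hh1 v hv hcomm
      have hvp : ∃ j : ℕ, v ^ p ^ j = 1 := by
        obtain ⟨j, hj⟩ := hVp ⟨v, hv⟩
        exact ⟨j, by simpa using congrArg Subtype.val hj⟩
      exact eppo_fpf hpp hp (hKp h hh) hvp hcomm hh1
    · exact map_subtype_le _
    · exact y.2
    · intro h1
      rw [h1, orderOf_one] at hyH
      exact hr.one_lt.ne hyH
    · intro hbot
      apply hWne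
      rw [eq_bot_iff]
      intro w hw
      have : (w : H) ∈ W.map K.subtype := ⟨w, hw, rfl⟩
      rw [hbot, mem_bot] at this
      rw [mem_bot]
      exact Subtype.ext this
    · apply Group.isSolvable_of_comm
      rintro ⟨a, a', ha', rfl⟩ ⟨b, b', hb', rfl⟩
      apply Subtype.ext
      have := hWc.is_comm.comm ⟨a', ha'⟩ ⟨b', hb'⟩
      have h2 : a' * b' = b' * a' := congrArg Subtype.val this
      show K.subtype a' * K.subtype b' = K.subtype b' * K.subtype a'
      rw [← map_mul, ← map_mul, h2]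
    · rw [mem_normalizer_iff]
      intro x
      constructor
      · rintro ⟨w, hw, rfl⟩
        exact ⟨y * w * y⁻¹, hWn.conj_mem w hw y, rfl⟩
      · rintro ⟨w, hw, hwx⟩
        have hx : x = ((y⁻¹ * w * y : K) : H) := by
          have : (w : H) = (y : H) * x * (y : H)⁻¹ := hwx
          simp [this]; group
        rw [hx]
        refine ⟨y⁻¹ * w * y, ?_, rfl⟩
        have := hWn.conj_mem w hw y⁻¹
        simpa using this
    · intro h hh hh1 u hu hcomm
      obtain ⟨w, hw, rfl⟩ := hu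
      have hwq : ∃ j : ℕ, (w : H) ^ q ^ j = 1 := by
        obtain ⟨j, hj⟩ := hWq ⟨w, hw⟩
        refine ⟨j, ?_⟩
        have h2 : w ^ q ^ j = 1 := congrArg Subtype.val hj
        have h3 : ((w ^ q ^ j : K) : H) = 1 := by rw [h2]; rfl
        simpa using h3
      have hhq : ¬ q ∣ orderOf h := by
        intro hqh
        have h1 : orderOf h ∣ orderOf (y : H) := orderOf_dvd_of_mem_zpowers hh
        rw [hyH] at h1
        have := (Nat.prime_dvd_prime_iff_eq hq hr).mp (hqh.trans h1)
        exact hrq this.symm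
      exact eppo_fpf hpp hq hhq hwq hcomm.symm hh1

theorem center_ne_bot {G : Type*} [Group G] [Finite G] {q : ℕ} [Fact q.Prime] (Q : Subgroup G)
    (hq : IsPGroup q Q) (hne : Q ≠ ⊥) : Q ⊓ centralizer (Q : Set G) ≠ ⊥ := by
  haveI : Nontrivial ↥Q := (Subgroup.nontrivial_iff_ne_bot Q).mpr hne
  haveI := hq.center_nontrivial
  obtain ⟨z0, hz0⟩ := exists_ne (1 : Subgroup.center ↥Q)
  intro hbot
  have hmem : ((z0 : ↥Q) : G) ∈ Q ⊓ centralizer (Q : Set G) := by
    refine Subgroup.mem_inf.mpr ⟨(z0 : ↥Q).2, ?_⟩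
    refine Subgroup.mem_centralizer_iff.mpr ?_
    intro h hh
    have := (Subgroup.mem_center_iff.mp z0.2) ⟨h, hh⟩
    exact congrArg Subtype.val this
  rw [hbot, mem_bot] at hmem
  apply hz0
  apply Subtype.ext
  apply Subtype.ext
  exact hmem

theorem radical_pgroup {G : Type*} [Group G] [Finite G] (hns : ¬ Group.IsSolvable G)
    (hpp : EPPO G) (R : Subgroup G) [R.Normal] (hRs : Group.IsSolvable ↥R) :
    ∃ p : ℕ, p.Prime ∧ IsPGroup p ↥R := by
  classical
  by_cases hR : R = ⊥
  · refine ⟨2, Nat.prime_two, ?_⟩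
    subst hR
    exact IsPGroup.of_bot
  obtain ⟨p, V, hp, hVR, hVn, hVne, hVp, hVc⟩ :=
    Cfsg.Agent.Lib.Helper9.CS2.exists_abelian_normal_pgroup_le R hR
  refine ⟨p, hp, ?_⟩
  by_contra hnot
  have hex : ∃ q : ℕ, q.Prime ∧ q ∣ Nat.card R ∧ q ≠ p := by
    by_contra hcon
    push Not at hcon
    apply hnot
    haveI : Fact p.Prime := ⟨hp⟩
    exact IsPGroup.of_card (Nat.eq_prime_pow_of_unique_prime_dvd Nat.card_pos.ne'
      (fun {d} hd hdR => hcon d hd hdR))
  obtain ⟨q, hq, hqR, hqp⟩ := hex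
  haveI : Fact q.Prime := ⟨hq⟩
  obtain ⟨Q⟩ : Nonempty (Sylow q R) := inferInstance
  set Q' : Subgroup G := (Q : Subgroup R).map R.subtype with hQ'
  have hfrat : normalizer (Q' : Set G) ⊔ R = ⊤ := Sylow.normalizer_sup_eq_top Q
  have hQ'q : IsPGroup q Q' := Q.2.map R.subtype
  have hQ'ne : Q' ≠ ⊥ := by
    intro hbot
    have h1 : Nat.card Q' = Nat.card (Q : Subgroup R) :=
      Subgroup.card_map_of_injective (Subgroup.subtype_injective R)
    rw [hbot, Subgroup.card_bot, Sylow.card_eq_multiplicity] at h1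
    have h2 : (Nat.card R).factorization q ≠ 0 := by
      have := (hq.factorization_pos_of_dvd Nat.card_pos.ne' hqR)
      omega
    have h3 := Nat.one_lt_pow h2 hq.one_lt
    omega
  set Z : Subgroup G := Q' ⊓ centralizer (Q' : Set G) with hZ
  have hZne : Z ≠ ⊥ := center_ne_bot Q' hQ'q hQ'ne
  have hZc : ∀ a b : ↥Z, a * b = b * a := by
    intro a b
    apply Subtype.ext
    exact (mem_centralizer_iff.mp b.2.2 a a.2.1)
  have hZV : Z ≤ normalizer (V : Set G) := by rw [normalizer_eq_top]; exact le_top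
  have hqpow : ∀ a ∈ Q', ∃ j : ℕ, a ^ q ^ j = 1 := by
    intro a ha
    obtain ⟨j, hj⟩ := hQ'q ⟨a, ha⟩
    exact ⟨j, by simpa using congrArg Subtype.val hj⟩
  have hZfpf : ∀ a ∈ Z, a ≠ 1 → ∀ x ∈ V, a * x = x * a → x = 1 := by
    intro a ha ha1 x hx hc
    have hap : ¬ p ∣ orderOf a := by
      obtain ⟨j, hj⟩ := hqpow a ha.1
      have h1 : orderOf a ∣ q ^ j := orderOf_dvd_of_pow_eq_one hj
      intro hpa
      have := (Nat.prime_dvd_prime_iff_eq hp hq).mp (hp.dvd_of_dvd_pow (hpa.trans h1))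
      exact hqp this.symm
    have hxp : ∃ j : ℕ, x ^ p ^ j = 1 := by
      obtain ⟨j, hj⟩ := hVp ⟨x, hx⟩
      exact ⟨j, by simpa using congrArg Subtype.val hj⟩
    exact eppo_fpf hpp hp hap hxp hc ha1
  have hVab : ∀ x ∈ V, ∀ y ∈ V, x * y = y * x := by
    intro x hx y hy
    exact congrArg Subtype.val (hVc.is_comm.comm ⟨x, hx⟩ ⟨y, hy⟩)
  have hZcyc : IsCyclic ↥Z :=
    Cfsg.Agent.Lib.Helper54.FpfCyclic.isCyclic_of_fpf Z V hVab hVne hZV hZfpf (Or.inl hZc)
  have hNZ : Group.IsSolvable (normalizer (Z : Set G)) := by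
    have hC : IsPGroup q ((centralizer (Z : Set G)).subgroupOf (normalizer (Z : Set G))) := by
      obtain ⟨z, hz, hz1⟩ : ∃ z ∈ Z, z ≠ 1 := by
        by_contra hcon
        push Not at hcon
        exact hZne ((Subgroup.eq_bot_iff_forall Z).mpr hcon)
      have hzq : ∃ j : ℕ, z ^ q ^ j = 1 := hqpow z hz.1
      intro c
      have hcC : ((c : normalizer (Z : Set G)) : G) ∈ centralizer (Z : Set G) :=
        Subgroup.mem_subgroupOf.mp c.2
      have hcz : ((c : normalizer (Z : Set G)) : G) * z = z * ((c : normalizer (Z : Set G)) : G) :=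
        (mem_centralizer_iff.mp hcC z hz).symm
      by_cases hc1 : ((c : normalizer (Z : Set G)) : G) = 1
      · refine ⟨0, ?_⟩
        apply Subtype.ext
        apply Subtype.ext
        simpa using hc1
      · obtain ⟨r, k, hr, hk, hrk⟩ := hpp _ hc1
        have hr' := hr.nat_prime
        by_cases hrq : r = q
        · refine ⟨k, ?_⟩
          apply Subtype.ext
          apply Subtype.ext
          have : ((c : normalizer (Z : Set G)) : G) ^ q ^ k = 1 := by
            rw [← hrq, hrk]; exact pow_orderOf_eq_one _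
          simpa using this
        · exfalso
          have hqc : ¬ q ∣ orderOf ((c : normalizer (Z : Set G)) : G) := by
            rw [← hrk]
            intro h
            exact hrq ((Nat.prime_dvd_prime_iff_eq hq hr').mp (hq.dvd_of_dvd_pow h)).symm
          exact hz1 (eppo_fpf hpp hq hqc hzq hcz hc1)
    haveI hCs : Group.IsSolvable ((centralizer (Z : Set G)).subgroupOf (normalizer (Z : Set G))) := by
      haveI := hC.isNilpotent
      infer_instance
    haveI hAs : Group.IsSolvable (MulAut ↥Z) := by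
      haveI := hZcyc
      exact Group.isSolvable_of_isSolvable_injective
        (f := (IsCyclic.mulAutMulEquiv ↥Z).toMonoidHom) (IsCyclic.mulAutMulEquiv ↥Z).injective
    refine Group.isSolvable_of_ker_le_range
      ((centralizer (Z : Set G)).subgroupOf (normalizer (Z : Set G))).subtype
      Z.normalizerMonoidHom ?_
    rw [normalizerMonoidHom_ker, Subgroup.range_subtype]
  have hle : normalizer (Q' : Set G) ≤ normalizer (Z : Set G) :=
    Cfsg.Agent.Lib.Helper54.FpfNorm.normalizer_le_normalizer_inf_centralizer Q'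
  haveI hNQ : Group.IsSolvable (normalizer (Q' : Set G)) :=
    Group.isSolvable_of_isSolvable_injective (Subgroup.inclusion_injective hle)
  apply hns
  haveI : Group.IsSolvable (G ⧸ R) := by
    have hsurj : Function.Surjective
        ((QuotientGroup.mk' R).comp (normalizer (Q' : Set G)).subtype) := by
      intro y
      obtain ⟨g, rfl⟩ := QuotientGroup.mk'_surjective R y
      have hg : g ∈ normalizer (Q' : Set G) ⊔ R := by rw [hfrat]; exact mem_top g
      obtain ⟨n, hn, r, hr, rfl⟩ := Subgroup.mem_sup_of_normal_right.mp hg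
      refine ⟨⟨n, hn⟩, ?_⟩
      simp only [MonoidHom.coe_comp, Function.comp_apply, Subgroup.coe_subtype,
        QuotientGroup.mk'_apply]
      rw [QuotientGroup.eq]
      simpa using hr
    exact Group.isSolvable_of_surjective hsurj
  exact Group.isSolvable_of_ker_le_range R.subtype (QuotientGroup.mk' R)
    (by rw [QuotientGroup.ker_mk', Subgroup.range_subtype])

theorem exists_two_orders {G : Type*} [Group G] [Finite G] (X : Subgroup G) (hX : X ≠ ⊥)
    (hnp : ∀ q : ℕ, q.Prime → ¬ IsPGroup q X) :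
    ∃ q r : ℕ, q.Prime ∧ r.Prime ∧ q ≠ r ∧ (∃ t ∈ X, orderOf t = q) ∧
      (∃ s ∈ X, orderOf s = r) := by
  have hcard1 : Nat.card X ≠ 1 := fun h => hX (Subgroup.card_eq_one.mp h)
  obtain ⟨q, hq, hqX⟩ := Nat.exists_prime_and_dvd hcard1
  have hex : ∃ r : ℕ, r.Prime ∧ r ∣ Nat.card X ∧ r ≠ q := by
    by_contra hcon
    push Not at hcon
    haveI : Fact q.Prime := ⟨hq⟩
    exact hnp q hq (IsPGroup.of_card (Nat.eq_prime_pow_of_unique_prime_dvd Nat.card_pos.ne'
      (fun {d} hd hdX => hcon d hd hdX)))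
  obtain ⟨r, hr, hrX, hrq⟩ := hex
  haveI : Fact q.Prime := ⟨hq⟩
  haveI : Fact r.Prime := ⟨hr⟩
  obtain ⟨t, ht⟩ := exists_prime_orderOf_dvd_card' (G := X) q hqX
  obtain ⟨s, hs⟩ := exists_prime_orderOf_dvd_card' (G := X) r hrX
  exact ⟨q, r, hq, hr, fun h => hrq h.symm, ⟨t, t.2, by rw [Subgroup.orderOf_coe]; exact ht⟩,
    ⟨s, s.2, by rw [Subgroup.orderOf_coe]; exact hs⟩⟩

theorem commute_of_inf_eq_bot {G : Type*} [Group G] (A B : Subgroup G)
    (hAB : A ≤ normalizer (B : Set G)) (hBA : B ≤ normalizer (A : Set G)) (h : A ⊓ B = ⊥)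
    {a b : G} (ha : a ∈ A) (hb : b ∈ B) : a * b = b * a := by
  have h1 : a * b * a⁻¹ * b⁻¹ ∈ A ⊓ B := by
    refine Subgroup.mem_inf.mpr ⟨?_, ?_⟩
    · have h2 : b * a⁻¹ * b⁻¹ ∈ A := (mem_normalizer_iff.mp (hBA hb) a⁻¹).mp (inv_mem ha)
      have h3 := mul_mem ha h2
      have e : a * b * a⁻¹ * b⁻¹ = a * (b * a⁻¹ * b⁻¹) := by group
      rw [e]; exact h3
    · have h2 : a * b * a⁻¹ ∈ B := (mem_normalizer_iff.mp (hAB ha) b).mp hb
      exact mul_mem h2 (inv_mem hb)
  rw [h, mem_bot] at h1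
  have e : a * b = (a * b * a⁻¹ * b⁻¹) * (b * a) := by group
  rw [e, h1, one_mul]

theorem quot_no_solvable {G : Type*} [Group G] (R : Subgroup G) [R.Normal]
    (hRmax : ∀ N : Subgroup G, N.Normal → Group.IsSolvable ↥N → N ≤ R)
    (hRs : Group.IsSolvable ↥R)
    (N : Subgroup (G ⧸ R)) (hN : N.Normal) (hs : Group.IsSolvable ↥N) : N = ⊥ := by
  have h1 : (N.comap (QuotientGroup.mk' R)).Normal := hN.comap _
  have h2 : Group.IsSolvable ↥(N.comap (QuotientGroup.mk' R)) := by
    have hle : R ≤ N.comap (QuotientGroup.mk' R) := by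
      intro x hx
      rw [Subgroup.mem_comap]
      have : QuotientGroup.mk' R x = 1 := (QuotientGroup.eq_one_iff x).mpr hx
      rw [this]; exact one_mem _
    refine Group.isSolvable_of_ker_le_range (Subgroup.inclusion hle)
      ((QuotientGroup.mk' R).subgroupComap N) ?_
    intro x hx
    rw [MonoidHom.mem_ker] at hx
    have hx' : (QuotientGroup.mk' R) (x : G) = 1 := congrArg Subtype.val hx
    have hxR : (x : G) ∈ R := (QuotientGroup.eq_one_iff _).mp hx'
    exact ⟨⟨x, hxR⟩, Subtype.ext rfl⟩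
  have h3 := hRmax _ h1 h2
  rw [eq_bot_iff]
  intro y hy
  obtain ⟨x, rfl⟩ := QuotientGroup.mk'_surjective R y
  have : x ∈ R := h3 (Subgroup.mem_comap.mpr hy)
  rw [Subgroup.mem_bot]
  exact (QuotientGroup.eq_one_iff x).mpr this

theorem quotient_structure {Q : Type*} [Group Q] [Finite Q] [Nontrivial Q] (hpp : EPPO Q)
    (hrad : ∀ N : Subgroup Q, N.Normal → Group.IsSolvable ↥N → N = ⊥) :
    ∃ M : Subgroup Q, M.Normal ∧ IsSimpleGroup ↥M ∧ ¬ IsMulCommutative ↥M ∧
        ∀ N : Subgroup Q, N.Normal → N ≠ ⊥ → M ≤ N := by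
  classical
  obtain ⟨M, ⟨hMn, hMne⟩, hMmin⟩ := WellFounded.has_min
    (wellFounded_lt : WellFounded ((· < ·) : Subgroup Q → Subgroup Q → Prop))
    {M : Subgroup Q | M.Normal ∧ M ≠ ⊥} ⟨⊤, inferInstance, top_ne_bot⟩
  have hMmin' : ∀ N : Subgroup Q, N.Normal → N ≠ ⊥ → N ≤ M → N = M := by
    intro N hN hNne hNM
    by_contra hne
    exact hMmin N ⟨hN, hNne⟩ (lt_of_le_of_ne hNM hne)
  have hnotp : ∀ X : Subgroup Q, X.Normal → X ≠ ⊥ → ∀ q : ℕ, q.Prime → ¬ IsPGroup q X := by
    intro X hXn hXne q hq hXq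
    haveI : Fact q.Prime := ⟨hq⟩
    haveI := hXq.isNilpotent
    exact hXne (hrad X hXn inferInstance)
  have key : ∀ T : Subgroup Q, T ≤ M → T ≠ ⊥ → M ≤ normalizer (T : Set Q) → T = M := by
    by_contra hcon
    push Not at hcon
    obtain ⟨T1, hT1M, hT1ne, hT1n, hT1⟩ := hcon
    obtain ⟨T0, ⟨hT0M, hT0ne, hT0n⟩, hT0min⟩ := WellFounded.has_min
      (wellFounded_lt : WellFounded ((· < ·) : Subgroup Q → Subgroup Q → Prop))
      {T : Subgroup Q | T ≤ M ∧ T ≠ ⊥ ∧ M ≤ normalizer (T : Set Q)} ⟨T1, hT1M, hT1ne, hT1n⟩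
    have hT0np : ∀ q : ℕ, q.Prime → ¬ IsPGroup q T0 := by
      intro q hq hT0q
      haveI : Fact q.Prime := ⟨hq⟩
      have h1 : T0 ≤ pCoreOf q M := Cfsg.Agent.Lib.Helper46.PCore.le_pCoreOf hT0M
        (fun h hh n hn => (mem_normalizer_iff.mp (hT0n hh) n).mp hn) hT0q
      have h2 : (pCoreOf q M).Normal := Cfsg.Agent.Lib.Helper46.PCore.pCoreOf_normal_of_normal hMn
      have h3 : IsPGroup q (pCoreOf q M) := Cfsg.Agent.Lib.Helper46.PCore.pCoreOf_isPGroup M
      have h4 : pCoreOf q M ≠ ⊥ := fun h => hT0ne (le_bot_iff.mp (h ▸ h1))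
      exact hnotp _ h2 h4 q hq h3
    obtain ⟨q, r, hq, hr, hqr, ⟨t, ht, hto⟩, ⟨s, hs, hso⟩⟩ := exists_two_orders T0 hT0ne hT0np
    have hconj : ∀ g : Q, ∀ x ∈ T0, g * x * g⁻¹ ∈ T0 := by
      intro g
      set Tg : Subgroup Q := T0.comap (MulAut.conj g).toMonoidHom with hTg
      have hmem : ∀ x, x ∈ Tg ↔ g * x * g⁻¹ ∈ T0 := fun x => by
        rw [hTg, mem_comap]; rfl
      have hTgM : Tg ≤ M := by
        intro x hx
        have h1 : g * x * g⁻¹ ∈ M := hT0M ((hmem x).mp hx)
        have h2 := hMn.conj_mem _ h1 g⁻¹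
        have e : g⁻¹ * (g * x * g⁻¹) * g⁻¹⁻¹ = x := by group
        rwa [e] at h2
      have hTgn : M ≤ normalizer (Tg : Set Q) := by
        intro m hm
        rw [mem_normalizer_iff]
        intro x
        rw [hmem, hmem]
        have hm' : g * m * g⁻¹ ∈ M := hMn.conj_mem m hm g
        have h1 := mem_normalizer_iff.mp (hT0n hm') (g * x * g⁻¹)
        rw [h1]
        have e : g * m * g⁻¹ * (g * x * g⁻¹) * (g * m * g⁻¹)⁻¹ = g * (m * x * m⁻¹) * g⁻¹ := by
          group
        rw [e]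
      have hI : T0 ⊓ Tg ≠ ⊥ := by
        intro hbot
        have hs' : g⁻¹ * s * g ∈ Tg := by
          rw [hmem]
          have e : g * (g⁻¹ * s * g) * g⁻¹ = s := by group
          rw [e]; exact hs
        have hcomm := commute_of_inf_eq_bot T0 Tg (hT0M.trans hTgn) (hTgM.trans hT0n) hbot ht hs'
        have ho : orderOf (g⁻¹ * s * g) = r := by
          have h1 := MulEquiv.orderOf_eq (MulAut.conj g⁻¹) s
          rw [MulAut.conj_apply, inv_inv] at h1
          rw [h1, hso]
        rcases eppo_comm hpp (show Commute t (g⁻¹ * s * g) from hcomm)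
          (by rw [hto, ho]; exact (Nat.coprime_primes hq hr).mpr hqr) with h | h
        · rw [h, orderOf_one] at hto; exact hq.one_lt.ne hto
        · rw [h, orderOf_one] at ho; exact hr.one_lt.ne ho
      have hIeq : T0 ⊓ Tg = T0 := by
        by_contra hne
        refine hT0min (T0 ⊓ Tg) ⟨inf_le_left.trans hT0M, hI, ?_⟩ (lt_of_le_of_ne inf_le_left hne)
        intro m hm
        rw [mem_normalizer_iff]
        intro x
        rw [mem_inf, mem_inf, ← mem_normalizer_iff.mp (hT0n hm) x,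
          ← mem_normalizer_iff.mp (hTgn hm) x]
      intro x hx
      have hx2 : x ∈ T0 ⊓ Tg := by rw [hIeq]; exact hx
      exact (hmem x).mp hx2.2
    have hT0normal : T0.Normal := ⟨fun x hx g => hconj g x hx⟩
    have hT0eq : T0 = M := hMmin' T0 hT0normal hT0ne hT0M
    apply hT1
    by_contra hne
    exact hT0min T1 ⟨hT1M, hT1ne, hT1n⟩ (hT0eq ▸ lt_of_le_of_ne hT1M hne)
  have hMnc : ¬ IsMulCommutative ↥M := by
    intro hc
    haveI : Group.IsSolvable ↥M := Group.isSolvable_of_comm (fun a b => hc.is_comm.comm a b)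
    exact hMne (hrad M hMn inferInstance)
  have hMsimple : IsSimpleGroup ↥M := by
    haveI : Nontrivial ↥M := (Subgroup.nontrivial_iff_ne_bot M).mpr hMne
    refine ⟨fun T hT => ?_⟩
    by_cases hTb : T = ⊥
    · exact Or.inl hTb
    right
    have h1 : T.map M.subtype = M := by
      apply key
      · exact map_subtype_le T
      · intro h
        apply hTb
        rw [eq_bot_iff]
        intro x hx
        have hx2 : (x : Q) ∈ T.map M.subtype := ⟨x, hx, rfl⟩
        rw [h, mem_bot] at hx2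
        rw [mem_bot]
        exact Subtype.ext hx2
      · intro m hm
        rw [mem_normalizer_iff]
        intro x
        constructor
        · rintro ⟨w, hw, rfl⟩
          exact ⟨⟨m, hm⟩ * w * ⟨m, hm⟩⁻¹, hT.conj_mem w hw _, rfl⟩
        · rintro ⟨w, hw, hwx⟩
          have hwx' : (w : Q) = m * x * m⁻¹ := hwx
          have hx : x = (((⟨m, hm⟩ : M)⁻¹ * w * ⟨m, hm⟩ : M) : Q) := by
            simp [hwx']; group
          rw [hx]
          refine ⟨(⟨m, hm⟩ : M)⁻¹ * w * ⟨m, hm⟩, ?_, rfl⟩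
          have := hT.conj_mem w hw (⟨m, hm⟩ : M)⁻¹
          simpa using this
    rw [eq_top_iff]
    intro x _
    have hx2 : (x : Q) ∈ T.map M.subtype := by rw [h1]; exact x.2
    obtain ⟨w, hw, hwx⟩ := hx2
    have hwx2 : w = x := Subtype.ext hwx
    rw [← hwx2]; exact hw
  refine ⟨M, hMn, hMsimple, hMnc, ?_⟩
  intro N hN hNne
  have hMN : M ⊓ N ≠ ⊥ := by
    intro hbot
    obtain ⟨q, r, hq, hr, hqr, ⟨t, ht, hto⟩, ⟨s, hs, hso⟩⟩ :=
      exists_two_orders M hMne (hnotp M hMn hMne)
    have hcard1 : Nat.card N ≠ 1 := fun h => hNne (Subgroup.card_eq_one.mp h)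
    obtain ⟨l, hl, hlN⟩ := Nat.exists_prime_and_dvd hcard1
    haveI : Fact l.Prime := ⟨hl⟩
    obtain ⟨n, hn⟩ := exists_prime_orderOf_dvd_card' (G := N) l hlN
    have hno : orderOf (n : Q) = l := by rw [Subgroup.orderOf_coe]; exact hn
    have hnorm1 : M ≤ normalizer (N : Set Q) := by rw [normalizer_eq_top]; exact le_top
    have hnorm2 : N ≤ normalizer (M : Set Q) := by rw [normalizer_eq_top]; exact le_top
    have hn1 : (n : Q) ≠ 1 := by
      intro h; rw [h, orderOf_one] at hno; exact hl.one_lt.ne hno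
    by_cases hlq : l = q
    · have hc := commute_of_inf_eq_bot M N hnorm1 hnorm2 hbot hs n.2
      rcases eppo_comm hpp (show Commute s (n : Q) from hc)
        (by rw [hso, hno, hlq]; exact (Nat.coprime_primes hr hq).mpr (fun h => hqr h.symm))
        with h | h
      · rw [h, orderOf_one] at hso; exact hr.one_lt.ne hso
      · exact hn1 h
    · have hc := commute_of_inf_eq_bot M N hnorm1 hnorm2 hbot ht n.2
      rcases eppo_comm hpp (show Commute t (n : Q) from hc)
        (by rw [hto, hno]; exact (Nat.coprime_primes hq hl).mpr (fun h => hlq h.symm))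
        with h | h
      · rw [h, orderOf_one] at hto; exact hq.one_lt.ne hto
      · exact hn1 h
  haveI := hMn
  haveI := hN
  have hMNeq : M ⊓ N = M := hMmin' (M ⊓ N) inferInstance hMN inf_le_left
  exact inf_eq_left.mp hMNeq

/-- Let G be a finite non-solvable group in which every element has prime-power order, and let R be its largest solvable normal subgroup. Then R is a p-group for some prime p; G/R has a non-abelian simple normal subgroup contained in every nontrivial normal subgroup of G/R (its unique minimal normal subgroup); and the order of every solvable subgroup of G has at most two prime divisors. -/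
theorem result {G : Type*} [Group G] [Finite G] (hns : ¬ Group.IsSolvable G) (hpp : ∀ g : G, g ≠ 1 → IsPrimePow (orderOf g))
    (R : Subgroup G) [R.Normal] (hRs : Group.IsSolvable ↥R) (hRmax : ∀ N : Subgroup G, N.Normal → Group.IsSolvable ↥N → N ≤ R) :
    (∃ p : ℕ, p.Prime ∧ IsPGroup p ↥R) ∧
      (∃ M : Subgroup (G ⧸ R), M.Normal ∧ IsSimpleGroup ↥M ∧ ¬ IsMulCommutative ↥M ∧
        ∀ N : Subgroup (G ⧸ R), N.Normal → N ≠ ⊥ → M ≤ N) ∧
      ∀ H : Subgroup G, Group.IsSolvable ↥H → (Nat.card ↥H).primeFactors.card ≤ 2 := by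
  have hppE : EPPO G := hpp
  refine ⟨radical_pgroup hns hppE R hRs, ?_, ?_⟩
  · haveI : Nontrivial (G ⧸ R) := by
      by_contra hnt
      rw [not_nontrivial_iff_subsingleton] at hnt
      apply hns
      exact Group.isSolvable_of_ker_le_range R.subtype (QuotientGroup.mk' R)
        (by rw [QuotientGroup.ker_mk', Subgroup.range_subtype])
    have hppQ : EPPO (G ⧸ R) := by
      intro y hy
      obtain ⟨g, rfl⟩ := QuotientGroup.mk'_surjective R y
      have hg1 : g ≠ 1 := by rintro rfl; exact hy (map_one _)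
      obtain ⟨p, k, hp, hk, hpk⟩ := hppE g hg1
      have hdvd : orderOf (QuotientGroup.mk' R g) ∣ p ^ k := by
        rw [hpk]; exact orderOf_map_dvd _ g
      obtain ⟨i, hi, hio⟩ := (Nat.dvd_prime_pow hp.nat_prime).mp hdvd
      refine ⟨p, i, hp, ?_, hio.symm⟩
      rcases Nat.eq_zero_or_pos i with h0 | h0
      · exfalso
        rw [h0, pow_zero] at hio
        exact hy (orderOf_eq_one_iff.mp hio)
      · exact h0
    exact quotient_structure hppQ (fun N hN hs => quot_no_solvable R hRmax hRs N hN hs)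
  · intro H hH
    haveI := hH
    exact solvable_eppo H (eppo_subgroup hppE H)

end Cfsg.Agent.S3992
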