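import Cfsg.Statements.S3998
import Cfsg.Agent.Lib.Lead.OrdTypeAsm
import Cfsg.Agent.Lib.Helper55.OrdCNTZERO
import Cfsg.Agent.Lib.Helper55.OrdSOLVQ
import Cfsg.Agent.Lib.Helper46.OTCNTSYL
import Cfsg.Agent.Lib.Helper23.OTNORMCNT
import Cfsg.Agent.Lib.Helper63.OTCNTQUOT
import Cfsg.Agent.Lib.Helper97.OTCNTONE
import Cfsg.Agent.Lib.Helper71.OTCNTCONGR

set_option autoImplicit false
open Cfsg

namespace Cfsg.Agent.S3998

/-- Let G and H be finite groups with the same order type (for every m the same number of elements of order m). If G is supersolvable then H is solvable. -/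
theorem result {G H : Type*} [Group G] [Finite G] [Group H] [Finite H] (hT : (∀ m : ℕ, Nat.card {g : G // orderOf g = m} = Nat.card {h : H // orderOf h = m})) (hG : Cfsg.IsSupersolvable G) :
    Group.IsSolvable H :=
  Cfsg.Agent.Lib.Lead.OrdTypeAsm.main_of
    Cfsg.Agent.Lib.Helper55.OrdCNTZERO.main Cfsg.Agent.Lib.Helper55.OrdCNTZERO.main
    Cfsg.Agent.Lib.Helper46.OTCNTSYL.main Cfsg.Agent.Lib.Helper23.OTNORMCNT.main
    Cfsg.Agent.Lib.Helper63.OTCNTQUOT.main Cfsg.Agent.Lib.Helper63.OTCNTQUOT.main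
    Cfsg.Agent.Lib.Helper97.OTCNTONE.main Cfsg.Agent.Lib.Helper97.OTCNTONE.main
    Cfsg.Agent.Lib.Helper55.OrdSOLVQ.main
    (Nat.card G) G H rfl hG (Cfsg.Agent.Lib.Helper71.OTCNTCONGR.main G H hT)

end Cfsg.Agent.S3998
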