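import Cfsg.Statements.S4002
import Mathlib
import Cfsg.Agent.Lib.Helper91.Hall

set_option autoImplicit false
open Cfsg

namespace Cfsg.Agent.S4002

universe u

/-- the norm argument: a Frobenius-like group `Q ⋊ ⟨y⟩` acting freely on an abelian group -/
theorem core {A : Type*} [CommGroup A] {K : Type*} [Group K] (c : K →* MulAut A)
    (Q : Subgroup K) [Finite Q] (y : K) (r : ℕ) (hr : 0 < r) (hyr : y ^ r = 1)
    (hQ1 : ∃ m₀ ∈ Q, ∀ a : A, c m₀ a = a → a = 1)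
    (hy : ∀ a : A, c y a = a → a = 1)
    (hyQ : ∀ m ∈ Q, y * m * y⁻¹ ∈ Q)
    (hC : ∀ m ∈ Q, ∀ j, 0 < j → j < r → m * y ^ j = y ^ j * m → m = 1) :
    ∀ a : A, a ^ Nat.card Q = 1 := by
  classical
  have := Fintype.ofFinite Q
  have hNQ : ∀ w : A, ∏ m : Q, c (m : K) w = 1 := by
    intro w
    obtain ⟨m₀, hm₀, hfix⟩ := hQ1
    apply hfix
    rw [map_prod]
    have h1 : ∀ m : Q, c m₀ (c (m : K) w) = c (((⟨m₀, hm₀⟩ : Q) * m : Q) : K) w := by
      intro m
      rw [Subgroup.coe_mul, map_mul]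
      rfl
    simp_rw [h1]
    exact Fintype.prod_equiv (Equiv.mulLeft (⟨m₀, hm₀⟩ : Q)) _ _ (fun m => rfl)
  have hNY : ∀ w : A, ∏ j ∈ Finset.range r, c (y ^ j) w = 1 := by
    intro w
    apply hy
    rw [map_prod]
    have h0 : ∀ j, c y (c (y ^ j) w) = c (y ^ (j + 1)) w := by
      intro j; rw [pow_succ', map_mul]; rfl
    simp_rw [h0]
    have h1 := Finset.prod_range_succ (fun j => c (y ^ j) w) r
    have h2 := Finset.prod_range_succ' (fun j => c (y ^ j) w) r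
    rw [h1] at h2
    simp only [hyr, pow_zero] at h2
    exact (mul_right_cancel h2).symm
  have hIco : ∀ w : A, ∏ j ∈ Finset.Ico 1 r, c (y ^ j) w = w⁻¹ := by
    intro w
    have h1 := hNY w
    rw [Finset.range_eq_Ico, Finset.prod_eq_prod_Ico_succ_bot hr] at h1
    simp only [pow_zero, map_one, MulAut.one_apply, zero_add] at h1
    exact eq_inv_of_mul_eq_one_right h1
  have hpowQ : ∀ j : ℕ, ∀ m ∈ Q, y ^ j * m * (y ^ j)⁻¹ ∈ Q := by
    intro j
    induction j with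
    | zero => intro m hm; simpa using hm
    | succ j ih =>
      intro m hm
      have := hyQ _ (ih m hm)
      have e : y ^ (j + 1) * m * (y ^ (j + 1))⁻¹ = y * (y ^ j * m * (y ^ j)⁻¹) * y⁻¹ := by
        rw [pow_succ']; group
      rw [e]; exact this
  have hconj : ∀ j, 0 < j → j < r → ∀ a : A,
      ∏ m : Q, c ((m : K) * y ^ j * (m : K)⁻¹) a = 1 := by
    intro j hj0 hjr a
    let φ : Q → Q := fun m => ⟨(m : K) * (y ^ j * (m : K)⁻¹ * (y ^ j)⁻¹),
      Q.mul_mem m.2 (hpowQ j _ (Q.inv_mem m.2))⟩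
    have hφinj : Function.Injective φ := by
      intro m m' hmm
      have h1 : (m : K) * (y ^ j * (m : K)⁻¹ * (y ^ j)⁻¹)
          = (m' : K) * (y ^ j * (m' : K)⁻¹ * (y ^ j)⁻¹) := congrArg Subtype.val hmm
      have h2 : ((m' : K)⁻¹ * (m : K)) * y ^ j = y ^ j * ((m' : K)⁻¹ * (m : K)) := by
        have h3 : (m : K) * y ^ j * (m : K)⁻¹ = (m' : K) * y ^ j * (m' : K)⁻¹ := by
          have := congrArg (fun z => z * y ^ j) h1
          simpa [mul_assoc] using this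
        calc ((m' : K)⁻¹ * (m : K)) * y ^ j
            = (m' : K)⁻¹ * ((m : K) * y ^ j * (m : K)⁻¹) * (m : K) := by group
          _ = (m' : K)⁻¹ * ((m' : K) * y ^ j * (m' : K)⁻¹) * (m : K) := by rw [h3]
          _ = y ^ j * ((m' : K)⁻¹ * (m : K)) := by group
      have h4 := hC _ (Q.mul_mem (Q.inv_mem m'.2) m.2) j hj0 hjr h2
      apply Subtype.ext
      have : (m : K) = (m' : K) := by
        calc (m : K) = (m' : K) * ((m' : K)⁻¹ * (m : K)) := by group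
          _ = (m' : K) := by rw [h4, mul_one]
      exact this
    have hφbij : Function.Bijective φ := Finite.injective_iff_bijective.1 hφinj
    have h1 : ∀ m : Q, c ((m : K) * y ^ j * (m : K)⁻¹) a = c (((φ m : Q) : K) * y ^ j) a := by
      intro m
      have : (m : K) * y ^ j * (m : K)⁻¹ = ((φ m : Q) : K) * y ^ j := by
        show (m : K) * y ^ j * (m : K)⁻¹ = (m : K) * (y ^ j * (m : K)⁻¹ * (y ^ j)⁻¹) * y ^ j
        group
      rw [this]
    simp_rw [h1]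
    rw [hφbij.prod_comp (fun m' : Q => c ((m' : K) * y ^ j) a)]
    have h2 : ∀ m : Q, c ((m : K) * y ^ j) a = c (m : K) (c (y ^ j) a) := by
      intro m; rw [map_mul]; rfl
    simp_rw [h2]
    exact hNQ _
  intro a
  have hmain : ∏ j ∈ Finset.Ico 1 r, ∏ m : Q, c ((m : K) * y ^ j * (m : K)⁻¹) a = 1 := by
    apply Finset.prod_eq_one
    intro j hj
    rw [Finset.mem_Ico] at hj
    exact hconj j hj.1 hj.2 a
  rw [Finset.prod_comm] at hmain
  have h3 : ∀ m : Q, ∏ j ∈ Finset.Ico 1 r, c ((m : K) * y ^ j * (m : K)⁻¹) a = a⁻¹ := by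
    intro m
    have h4 : ∀ j, c ((m : K) * y ^ j * (m : K)⁻¹) a
        = c (m : K) (c (y ^ j) (c (m : K)⁻¹ a)) := by
      intro j; rw [map_mul, map_mul]; rfl
    simp_rw [h4]
    rw [← map_prod, hIco, map_inv]
    have h5 : c (m : K) (c (m : K)⁻¹ a) = a := by
      have : c (m : K) (c (m : K)⁻¹ a) = (c (m : K) * c (m : K)⁻¹) a := rfl
      rw [this, ← map_mul, mul_inv_cancel, map_one]; rfl
    rw [h5]
  simp_rw [h3] at hmain
  rw [Finset.prod_const, Finset.card_univ, inv_pow, inv_eq_one] at hmain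
  rw [Nat.card_eq_fintype_card]
  exact hmain

theorem exists_orderOf_mul {H : Type*} [Group H] [Finite H] {s t : ℕ} (hs : s.Prime)
    (ht : t.Prime) (hst : s ≠ t) (a b : H) (hab : Commute a b) (ha : s ∣ orderOf a)
    (hb : t ∣ orderOf b) : ∃ g : H, orderOf g = s * t := by
  refine ⟨a ^ (orderOf a / s) * b ^ (orderOf b / t), ?_⟩
  have h1 : orderOf (a ^ (orderOf a / s)) = s :=
    orderOf_pow_orderOf_div (orderOf_pos a).ne' ha
  have h2 : orderOf (b ^ (orderOf b / t)) = t :=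
    orderOf_pow_orderOf_div (orderOf_pos b).ne' hb
  have hc : Commute (a ^ (orderOf a / s)) (b ^ (orderOf b / t)) := hab.pow_pow _ _
  rw [hc.orderOf_mul_eq_mul_orderOf_of_coprime
    (by rw [h1, h2]; exact (Nat.coprime_primes hs ht).2 hst), h1, h2]

theorem dvd_orderOf_of_mem {H : Type*} [Group H] {s : ℕ} (hs : s.Prime) (V : Subgroup H)
    (hV : IsPGroup s V) {a : H} (ha : a ∈ V) (ha1 : a ≠ 1) : s ∣ orderOf a := by
  obtain ⟨k, hk⟩ := hV ⟨a, ha⟩
  have hk' : a ^ s ^ k = 1 := by simpa using congrArg Subtype.val hk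
  obtain ⟨i, -, hi⟩ := (Nat.dvd_prime_pow hs).1 (orderOf_dvd_of_pow_eq_one hk')
  rcases Nat.eq_zero_or_pos i with rfl | hpos
  · exfalso; apply ha1; rw [pow_zero, orderOf_eq_one_iff] at hi; exact hi
  · rw [hi]; exact dvd_pow_self s hpos.ne'

open scoped IsMulCommutative in
theorem B2 {H : Type*} [Group H] [Finite H] {s t t' : ℕ} (hs : s.Prime) (ht : t.Prime)
    (ht' : t'.Prime) (hst : s ≠ t) (hst' : s ≠ t') (htt' : t ≠ t')
    (V : Subgroup H) [V.Normal] [hVc : IsMulCommutative V] (hVs : IsPGroup s V) (hV1 : V ≠ ⊥)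
    (Q : Subgroup H) (hQt : IsPGroup t Q) (hQ1 : Q ≠ ⊥)
    (y : H) (hy : orderOf y = t') (hyQ : ∀ m ∈ Q, y * m * y⁻¹ ∈ Q) :
    ∃ g : H, orderOf g = s * t ∨ orderOf g = s * t' ∨ orderOf g = t * t' := by
  by_contra hcon
  have hno : ∀ g : H, ¬ (orderOf g = s * t ∨ orderOf g = s * t' ∨ orderOf g = t * t') :=
    fun g hg => hcon ⟨g, hg⟩
  have hfQ : ∀ m ∈ Q, m ≠ 1 → ∀ v ∈ V, m * v = v * m → v = 1 := by
    intro m hm hm1 v hv hcomm
    by_contra hv1
    obtain ⟨g, hg⟩ := exists_orderOf_mul hs ht hst v m hcomm.symm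
      (dvd_orderOf_of_mem hs V hVs hv hv1) (dvd_orderOf_of_mem ht Q hQt hm hm1)
    exact hno g (Or.inl hg)
  have hfy : ∀ v ∈ V, y * v = v * y → v = 1 := by
    intro v hv hcomm
    by_contra hv1
    obtain ⟨g, hg⟩ := exists_orderOf_mul hs ht' hst' v y hcomm.symm
      (dvd_orderOf_of_mem hs V hVs hv hv1) (by rw [hy])
    exact hno g (Or.inr (Or.inl hg))
  have hC : ∀ m ∈ Q, ∀ j, 0 < j → j < t' → m * y ^ j = y ^ j * m → m = 1 := by
    intro m hm j hj0 hjt hcomm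
    by_contra hm1
    have hcop : (orderOf y).Coprime j := by
      rw [hy]
      exact (Nat.Prime.coprime_iff_not_dvd ht').2 (Nat.not_dvd_of_pos_of_lt hj0 hjt)
    have hyj : orderOf (y ^ j) = t' := by rw [hcop.orderOf_pow, hy]
    obtain ⟨g, hg⟩ := exists_orderOf_mul ht ht' htt' m (y ^ j) hcomm
      (dvd_orderOf_of_mem ht Q hQt hm hm1) (by rw [hyj])
    exact hno g (Or.inr (Or.inr hg))
  obtain ⟨m₀, hm₀, hm₀1⟩ : ∃ m₀ ∈ Q, m₀ ≠ 1 := by
    by_contra hcon2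
    apply hQ1
    rw [Subgroup.eq_bot_iff_forall]
    intro x hx
    by_contra hx1
    exact hcon2 ⟨x, hx, hx1⟩
  have hfix : ∀ (h : H), (∀ v ∈ V, h * v = v * h → v = 1) →
      ∀ a : V, (MulAut.conjNormal h : MulAut V) a = a → a = 1 := by
    intro h hh a ha
    have h1 : h * (a : H) * h⁻¹ = (a : H) := by
      rw [← MulAut.conjNormal_apply]; exact congrArg Subtype.val ha
    have h2 : h * (a : H) = (a : H) * h := by
      calc h * (a : H) = h * (a : H) * h⁻¹ * h := by group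
        _ = (a : H) * h := by rw [h1]
    exact Subtype.ext (hh a a.2 h2)
  have hcore := core (A := V) (MulAut.conjNormal : H →* MulAut V) Q y t' ht'.pos
    (by rw [← hy]; exact pow_orderOf_eq_one y)
    ⟨m₀, hm₀, hfix m₀ (hfQ m₀ hm₀ hm₀1)⟩ (hfix y hfy) hyQ hC
  obtain ⟨v, hv, hv1⟩ : ∃ v ∈ V, v ≠ 1 := by
    by_contra hcon2
    apply hV1
    rw [Subgroup.eq_bot_iff_forall]
    intro x hx
    by_contra hx1
    exact hcon2 ⟨x, hx, hx1⟩
  have h1 : v ^ Nat.card Q = 1 := by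
    have := hcore ⟨v, hv⟩
    simpa using congrArg Subtype.val this
  have h2 : s ∣ Nat.card Q :=
    (dvd_orderOf_of_mem hs V hVs hv hv1).trans (orderOf_dvd_of_pow_eq_one h1)
  have : Fact t.Prime := ⟨ht⟩
  obtain ⟨k, hk⟩ := hQt.exists_card_eq
  rw [hk] at h2
  exact hst ((Nat.prime_dvd_prime_iff_eq hs ht).1 (hs.dvd_of_dvd_pow h2))

theorem B1 (H : Type u) [Group H] [Finite H] [Group.IsSolvable H] {s t₁ t₂ : ℕ}
    (hs : s.Prime) (h₁ : t₁.Prime) (h₂ : t₂.Prime) (hs1 : s ≠ t₁) (hs2 : s ≠ t₂)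
    (h12 : t₁ ≠ t₂) (e e₁ e₂ : ℕ) (he₁ : e₁ ≠ 0) (he₂ : e₂ ≠ 0)
    (hcard : Nat.card H = s ^ e * (t₁ ^ e₁ * t₂ ^ e₂))
    (V : Subgroup H) [V.Normal] [hVc : IsMulCommutative V] (hVs : IsPGroup s V) (hV1 : V ≠ ⊥) :
    ∃ g : H, orderOf g = s * t₁ ∨ orderOf g = s * t₂ ∨ orderOf g = t₁ * t₂ := by
  have hcop : (t₁ ^ e₁ * t₂ ^ e₂).Coprime (s ^ e) := by
    apply Nat.Coprime.mul_left
    · exact Nat.Coprime.pow _ _ ((Nat.coprime_primes h₁ hs).2 hs1.symm)
    · exact Nat.Coprime.pow _ _ ((Nat.coprime_primes h₂ hs).2 hs2.symm)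
  obtain ⟨K, hK⟩ := Cfsg.Agent.Lib.Helper91.Hall.hall_exists (G := H) (t₁ ^ e₁ * t₂ ^ e₂) (s ^ e)
    (by rw [hcard, mul_comm]) hcop
  have hKnt : Nontrivial K := by
    rw [← Finite.one_lt_card_iff_nontrivial, hK]
    have h1 : 1 < t₁ ^ e₁ := Nat.one_lt_pow he₁ h₁.one_lt
    have h2 : 0 < t₂ ^ e₂ := pow_pos h₂.pos _
    nlinarith
  obtain ⟨t, M, htp, hMn, hMc, hMt, hM1⟩ :=
    Cfsg.Agent.Lib.Helper91.Hall.exists_normal_abelian_pgroup K
  have htM : t ∣ Nat.card M := by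
    have : Fact t.Prime := ⟨htp⟩
    obtain ⟨k, hk⟩ := hMt.exists_card_eq
    rw [hk]
    apply dvd_pow_self
    rintro rfl
    rw [pow_zero] at hk
    exact hM1 ((Subgroup.card_eq_one).1 hk)
  have htK : t ∣ t₁ ^ e₁ * t₂ ^ e₂ := by
    rw [← hK]; exact htM.trans (Subgroup.card_subgroup_dvd_card M)
  have ht : t = t₁ ∨ t = t₂ := by
    rcases (Nat.Prime.dvd_mul htp).1 htK with h | h
    · exact Or.inl ((Nat.prime_dvd_prime_iff_eq htp h₁).1 (htp.dvd_of_dvd_pow h))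
    · exact Or.inr ((Nat.prime_dvd_prime_iff_eq htp h₂).1 (htp.dvd_of_dvd_pow h))
  have hQt : IsPGroup t (M.map K.subtype) := hMt.map _
  have hQ1 : M.map K.subtype ≠ ⊥ := by
    intro h
    exact hM1 ((Subgroup.map_eq_bot_iff_of_injective _ K.subtype_injective).1 h)
  have hyQ : ∀ y : K, ∀ m ∈ M.map K.subtype, (y : H) * m * (y : H)⁻¹ ∈ M.map K.subtype := by
    rintro y _ ⟨m', hm', rfl⟩
    exact ⟨y * m' * y⁻¹, hMn.conj_mem m' hm' y, by simp⟩
  rcases ht with rfl | rfl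
  · have : Fact t₂.Prime := ⟨h₂⟩
    obtain ⟨y, hy⟩ := exists_prime_orderOf_dvd_card' (G := K) t₂
      (by rw [hK]; exact dvd_mul_of_dvd_right (dvd_pow_self _ he₂) _)
    exact B2 hs h₁ h₂ hs1 hs2 h12 V hVs hV1 (M.map K.subtype) hQt hQ1 (y : H)
      (by rw [Subgroup.orderOf_coe]; exact hy) (hyQ y)
  · have : Fact t₁.Prime := ⟨h₁⟩
    obtain ⟨y, hy⟩ := exists_prime_orderOf_dvd_card' (G := K) t₁
      (by rw [hK]; exact dvd_mul_of_dvd_left (dvd_pow_self _ he₁) _)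
    obtain ⟨g, hg⟩ := B2 hs h₂ h₁ hs2 hs1 h12.symm V hVs hV1 (M.map K.subtype) hQt hQ1 (y : H)
      (by rw [Subgroup.orderOf_coe]; exact hy) (hyQ y)
    refine ⟨g, ?_⟩
    rcases hg with h | h | h
    · exact Or.inr (Or.inl h)
    · exact Or.inl h
    · exact Or.inr (Or.inr (by rw [mul_comm]; exact h))

/-- a finite solvable group whose order is divisible by three distinct primes has an element
whose order is the product of two of them -/
theorem three_primes (G : Type u) [Group G] [Finite G] [Group.IsSolvable G] {p q r : ℕ}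
    (hp : p.Prime) (hq : q.Prime) (hr : r.Prime) (hpq : p ≠ q) (hpr : p ≠ r) (hqr : q ≠ r)
    (hpG : p ∣ Nat.card G) (hqG : q ∣ Nat.card G) (hrG : r ∣ Nat.card G) :
    ∃ g : G, orderOf g = p * q ∨ orderOf g = p * r ∨ orderOf g = q * r := by
  obtain ⟨a, N₁, hN₁, h1⟩ :=
    Nat.exists_eq_pow_mul_and_not_dvd (n := Nat.card G) Nat.card_pos.ne' p hp.ne_one
  have hN₁0 : N₁ ≠ 0 := by
    rintro rfl
    rw [mul_zero] at h1
    exact Nat.card_pos.ne' h1
  obtain ⟨b, N₂, hN₂, h2⟩ := Nat.exists_eq_pow_mul_and_not_dvd hN₁0 q hq.ne_one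
  have hN₂0 : N₂ ≠ 0 := by
    rintro rfl
    rw [mul_zero] at h2
    exact hN₁0 h2
  obtain ⟨c, N₃, hN₃, h3⟩ := Nat.exists_eq_pow_mul_and_not_dvd hN₂0 r hr.ne_one
  have ha : a ≠ 0 := by
    rintro rfl
    rw [pow_zero, one_mul] at h1
    exact hN₁ (h1 ▸ hpG)
  have hb : b ≠ 0 := by
    rintro rfl
    rw [pow_zero, one_mul] at h2
    have : q ∣ p ^ a * N₁ := h1 ▸ hqG
    rcases (Nat.Prime.dvd_mul hq).1 this with h | h
    · exact hpq ((Nat.prime_dvd_prime_iff_eq hq hp).1 (hq.dvd_of_dvd_pow h)).symm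
    · exact hN₂ (h2 ▸ h)
  have hc : c ≠ 0 := by
    rintro rfl
    rw [pow_zero, one_mul] at h3
    have : r ∣ p ^ a * N₁ := h1 ▸ hrG
    rcases (Nat.Prime.dvd_mul hr).1 this with h | h
    · exact hpr ((Nat.prime_dvd_prime_iff_eq hr hp).1 (hr.dvd_of_dvd_pow h)).symm
    · rw [h2] at h
      rcases (Nat.Prime.dvd_mul hr).1 h with h' | h'
      · exact hqr ((Nat.prime_dvd_prime_iff_eq hr hq).1 (hr.dvd_of_dvd_pow h')).symm
      · exact hN₃ (h3 ▸ h')
  have hpN₃ : ¬ p ∣ N₃ := fun h => hN₁ (by rw [h2, h3]; exact (h.mul_left _).mul_left _)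
  have hqN₃ : ¬ q ∣ N₃ := fun h => hN₂ (by rw [h3]; exact h.mul_left _)
  have hcard : Nat.card G = (p ^ a * (q ^ b * r ^ c)) * N₃ := by
    rw [h1, h2, h3]; ring
  have hcop : (p ^ a * (q ^ b * r ^ c)).Coprime N₃ := by
    apply Nat.Coprime.mul_left
    · exact Nat.Coprime.pow_left _ ((Nat.Prime.coprime_iff_not_dvd hp).2 hpN₃)
    · apply Nat.Coprime.mul_left
      · exact Nat.Coprime.pow_left _ ((Nat.Prime.coprime_iff_not_dvd hq).2 hqN₃)
      · exact Nat.Coprime.pow_left _ ((Nat.Prime.coprime_iff_not_dvd hr).2 hN₃)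
  obtain ⟨H, hH⟩ := Cfsg.Agent.Lib.Helper91.Hall.hall_exists (G := G) _ _ hcard hcop
  have hHnt : Nontrivial H := by
    rw [← Finite.one_lt_card_iff_nontrivial, hH]
    have h1 : 1 < p ^ a := Nat.one_lt_pow ha hp.one_lt
    have h2 : 0 < q ^ b * r ^ c := Nat.mul_pos (pow_pos hq.pos _) (pow_pos hr.pos _)
    nlinarith
  obtain ⟨s, V, hsp, hVn, hVc, hVs, hV1⟩ :=
    Cfsg.Agent.Lib.Helper91.Hall.exists_normal_abelian_pgroup H
  have hsV : s ∣ Nat.card V := by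
    have : Fact s.Prime := ⟨hsp⟩
    obtain ⟨k, hk⟩ := hVs.exists_card_eq
    rw [hk]
    apply dvd_pow_self
    rintro rfl
    rw [pow_zero] at hk
    exact hV1 ((Subgroup.card_eq_one).1 hk)
  have hsH : s ∣ p ^ a * (q ^ b * r ^ c) := by
    rw [← hH]; exact hsV.trans (Subgroup.card_subgroup_dvd_card V)
  have hs3 : s = p ∨ s = q ∨ s = r := by
    rcases (Nat.Prime.dvd_mul hsp).1 hsH with h | h
    · exact Or.inl ((Nat.prime_dvd_prime_iff_eq hsp hp).1 (hsp.dvd_of_dvd_pow h))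
    · rcases (Nat.Prime.dvd_mul hsp).1 h with h' | h'
      · exact Or.inr (Or.inl ((Nat.prime_dvd_prime_iff_eq hsp hq).1 (hsp.dvd_of_dvd_pow h')))
      · exact Or.inr (Or.inr ((Nat.prime_dvd_prime_iff_eq hsp hr).1 (hsp.dvd_of_dvd_pow h')))
  have lift : ∀ (g : H) (k : ℕ), orderOf g = k → orderOf (g : G) = k := by
    intro g k hk; rw [Subgroup.orderOf_coe]; exact hk
  rcases hs3 with rfl | rfl | rfl
  · obtain ⟨g, hg⟩ := B1 H hsp hq hr hpq hpr hqr a b c hb hc hH V hVs hV1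
    refine ⟨(g : G), ?_⟩
    rcases hg with h | h | h
    · exact Or.inl (lift g _ h)
    · exact Or.inr (Or.inl (lift g _ h))
    · exact Or.inr (Or.inr (lift g _ h))
  · obtain ⟨g, hg⟩ := B1 H hsp hp hr hpq.symm hqr hpr b a c ha hc
      (by rw [hH]; ring) V hVs hV1
    refine ⟨(g : G), ?_⟩
    rcases hg with h | h | h
    · exact Or.inl (by rw [mul_comm]; exact lift g _ h)
    · exact Or.inr (Or.inr (lift g _ h))
    · exact Or.inr (Or.inl (lift g _ h))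
  · obtain ⟨g, hg⟩ := B1 H hsp hp hq hpr.symm hqr.symm hpq c a b ha hb
      (by rw [hH]; ring) V hVs hV1
    refine ⟨(g : G), ?_⟩
    rcases hg with h | h | h
    · exact Or.inr (Or.inl (by rw [mul_comm]; exact lift g _ h))
    · exact Or.inr (Or.inr (by rw [mul_comm]; exact lift g _ h))
    · exact Or.inl (lift g _ h)

theorem exists_three_primes (n : ℕ) (hn : 7 ≤ n) :
    ∃ p q r : ℕ, p.Prime ∧ q.Prime ∧ r.Prime ∧ p < q ∧ q < r ∧ r ≤ n ∧ n < p * q := by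
  by_cases h1 : n ≤ 14
  · exact ⟨3, 5, 7, by norm_num, by norm_num, by norm_num, by norm_num, by norm_num, hn,
      by omega⟩
  by_cases h2 : n ≤ 34
  · exact ⟨5, 7, 11, by norm_num, by norm_num, by norm_num, by norm_num, by norm_num,
      by omega, by omega⟩
  have hm4 : 4 ≤ n / 8 := by omega
  obtain ⟨p, hp, hp1, hp2⟩ := Nat.exists_prime_lt_and_le_two_mul (n / 8) (by omega)
  obtain ⟨q, hq, hq1, hq2⟩ := Nat.exists_prime_lt_and_le_two_mul (2 * (n / 8)) (by omega)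
  obtain ⟨r, hr, hr1, hr2⟩ := Nat.exists_prime_lt_and_le_two_mul (4 * (n / 8)) (by omega)
  refine ⟨p, q, r, hp, hq, hr, by omega, by omega, by omega, ?_⟩
  have h3 : (n / 8 + 1) * (2 * (n / 8) + 1) ≤ p * q := Nat.mul_le_mul hp1 hq1
  have h4 : n < 8 * (n / 8) + 8 := by omega
  nlinarith

/-- If the set of element orders of a finite group G is {1, 2, …, n} with n ≥ 7, then G is not solvable. -/
theorem result {G : Type*} [Group G] [Finite G] (n : ℕ) (hn : 7 ≤ n) (h : Set.range (orderOf : G → ℕ) = {k : ℕ | 1 ≤ k ∧ k ≤ n}) : ¬ Group.IsSolvable G := by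
  intro hsol
  obtain ⟨p, q, r, hp, hq, hr, hpq, hqr, hrn, hnpq⟩ := exists_three_primes n hn
  have hdvd : ∀ k, 1 ≤ k → k ≤ n → k ∣ Nat.card G := by
    intro k h1 h2
    have : k ∈ Set.range (orderOf : G → ℕ) := by rw [h]; exact ⟨h1, h2⟩
    obtain ⟨g, rfl⟩ := this
    exact orderOf_dvd_natCard g
  have hle : ∀ g : G, orderOf g ≤ n := by
    intro g
    have : orderOf g ∈ Set.range (orderOf : G → ℕ) := ⟨g, rfl⟩
    rw [h] at this
    exact this.2
  obtain ⟨g, hg⟩ := three_primes G hp hq hr (by omega) (by omega) (by omega)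
    (hdvd p hp.pos (by omega)) (hdvd q hq.pos (by omega)) (hdvd r hr.pos hrn)
  have hgn := hle g
  have hp0 := hp.pos
  rcases hg with hg | hg | hg <;> rw [hg] at hgn
  · omega
  · nlinarith
  · nlinarith

end Cfsg.Agent.S4002
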