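import Cfsg.Statements.S4005
import Cfsg.Agent.Lib.Helper52.EAC

set_option autoImplicit false
open Cfsg

namespace Cfsg.Agent.S4005

open Cfsg.Agent.Lib.Helper52.EAC Cfsg.Agent.Lib.Helper52.KleinFusion

theorem comm_of_sq {G : Type*} [Group G] (a b : G) (ha : a * a = 1) (hb : b * b = 1)
    (hab : (a * b) * (a * b) = 1) : a * b = b * a := by
  have h1 : a⁻¹ = a := inv_eq_of_mul_eq_one_right ha
  have h2 : b⁻¹ = b := inv_eq_of_mul_eq_one_right hb
  have h3 : (a * b)⁻¹ = a * b := inv_eq_of_mul_eq_one_right hab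
  rw [mul_inv_rev, h1, h2] at h3
  exact h3.symm

theorem three_pow_mod_eight (k : ℕ) : 3 ^ k % 8 = 1 ∨ 3 ^ k % 8 = 3 := by
  induction k with
  | zero => left; norm_num
  | succ k ih =>
    rcases ih with h | h
    · right; rw [pow_succ, Nat.mul_mod, h]
    · left; rw [pow_succ, Nat.mul_mod, h]

/-- The non-normal, non-cyclic case is impossible. -/
theorem no_setup {G : Type*} [Group G] [Finite G]
    (hord : ∀ g : G, orderOf g = 1 ∨ orderOf g = 2 ∨ orderOf g = 3) (hG : Setup G) : False := by
  classical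
  obtain ⟨S, S', hne⟩ := hG.nn
  have hD := card_D hG S S' hne
  -- `D` is a 3-group
  have hD3 : IsPGroup 3 ↥(Subgroup.normalizer ((S : Subgroup G) : Set G) ⊓
      Subgroup.normalizer ((S' : Subgroup G) : Set G)) := by
    intro d
    refine ⟨1, Subtype.ext ?_⟩
    obtain ⟨h1, h2⟩ := (mem_D_iff S S' d).1 d.2
    show (d : G) ^ 3 ^ 1 = 1
    rw [pow_one]
    rcases hord (d : G) with h | h | h
    · rw [orderOf_eq_one_iff.1 h, one_pow]
    · exfalso
      have hsq : (d : G) * (d : G) = 1 := sq_of_orderOf_two h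
      have := D_sq hG S S' hne d h1 h2 hsq
      rw [this, orderOf_one] at h
      exact absurd h (by norm_num)
    · rw [← h, pow_orderOf_eq_one]
  obtain ⟨k, hk⟩ := IsPGroup.iff_card.1 hD3
  obtain ⟨m, hm⟩ := IsPGroup.iff_card.1 S.isPGroup'
  have hm' : Nat.card (S : Subgroup G) = 2 ^ m := hm
  rw [hk, hm'] at hD
  -- `D ≠ 1`
  have hk1 : 1 ≤ k := by
    obtain ⟨d, hd1, hd2, hd⟩ := D_ne_one hG S S' hne
    have hnt : Nontrivial ↥(Subgroup.normalizer ((S : Subgroup G) : Set G) ⊓
        Subgroup.normalizer ((S' : Subgroup G) : Set G)) :=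
      ⟨⟨⟨d, (mem_D_iff S S' d).2 ⟨hd1, hd2⟩⟩, 1, fun hh => hd (congrArg Subtype.val hh)⟩⟩
    have := Finite.one_lt_card (α := ↥(Subgroup.normalizer ((S : Subgroup G) : Set G) ⊓
        Subgroup.normalizer ((S' : Subgroup G) : Set G)))
    rw [hk] at this
    by_contra hk0
    have : k = 0 := by omega
    subst this
    simp at this
  -- `2 ^ m = 4`
  have hm2 : m = 2 := by
    have h3 : 3 ≤ 3 ^ k := by
      calc 3 = 3 ^ 1 := by norm_num
        _ ≤ 3 ^ k := Nat.pow_le_pow_right (by norm_num) hk1
    by_contra hm2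
    have hm3 : 3 ≤ m := by
      by_contra hlt
      have : m ≤ 1 := by omega
      have : 2 ^ m ≤ 2 ^ 1 := Nat.pow_le_pow_right (by norm_num) this
      omega
    have h8 : 8 ∣ 2 ^ m := by
      calc 8 = 2 ^ 3 := by norm_num
        _ ∣ 2 ^ m := pow_dvd_pow 2 hm3
    have := three_pow_mod_eight k
    omega
  subst hm2
  -- the number of Sylow 2-subgroups is 5
  have hcard : Nat.card (Sylow 2 G) = 5 := by
    let f : ↥(S : Subgroup G) → {X : Sylow 2 G // X ≠ S} := fun t =>
      ⟨(t : G) • S', by
        intro hh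
        apply hne
        have := congrArg (fun X => (t : G)⁻¹ • X) hh
        simp only [inv_smul_smul] at this
        rw [inv_fix _ S (fix_of_mem S t t.2)] at this
        exact this.symm⟩
    have hf : Function.Bijective f := by
      constructor
      · intro t₁ t₂ h12
        have := congrArg Subtype.val h12
        exact Subtype.ext (S_trans_unique hG S S' (Ne.symm hne) t₁ t₂ t₁.2 t₂.2 this)
      · rintro ⟨X, hX⟩
        obtain ⟨t, ht, htX⟩ := S_trans hG S S' X (Ne.symm hne) hX
        exact ⟨⟨t, ht⟩, Subtype.ext htX⟩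
    have h1 : Nat.card {X : Sylow 2 G // X ≠ S} = 2 ^ 2 := by
      rw [← Nat.card_congr (Equiv.ofBijective f hf)]; exact hm'
    have h2 : Nat.card (Sylow 2 G) = Nat.card {X : Sylow 2 G // X ≠ S} + 1 := by
      rw [← Finite.card_option]
      exact (Nat.card_congr (Equiv.optionSubtypeNe S)).symm
    rw [h2, h1]; norm_num
  have h5 : 5 ∣ Nat.card G := by
    have h1 := Sylow.card_dvd_index S
    rw [hcard] at h1
    exact h1.trans (Subgroup.index_dvd_card _)
  have hp5 : Fact (Nat.Prime 5) := ⟨by norm_num⟩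
  obtain ⟨x, hx⟩ := exists_prime_orderOf_dvd_card' 5 h5
  rcases hord x with h | h | h <;> omega


/-- A finite group whose set of element orders is exactly {1, 2, 3} has either a normal elementary abelian 3-subgroup of index 2 or a normal elementary abelian 2-subgroup of index 3. -/
theorem result {G : Type*} [Group G] [Finite G] (h : Set.range (orderOf : G → ℕ) = {k : ℕ | 1 ≤ k ∧ k ≤ 3}) :
    (∃ N : Subgroup G, N.Normal ∧ Cfsg.IsElementaryAbelian 3 N ∧ N.index = 2) ∨
      (∃ N : Subgroup G, N.Normal ∧ Cfsg.IsElementaryAbelian 2 N ∧ N.index = 3) := by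
  have hord : ∀ g : G, orderOf g = 1 ∨ orderOf g = 2 ∨ orderOf g = 3 := by
    intro g
    have hg : orderOf g ∈ Set.range (orderOf : G → ℕ) := ⟨g, rfl⟩
    rw [h] at hg
    obtain ⟨h1, h2⟩ := hg
    omega
  have hex2 : ∃ t : G, orderOf t = 2 := by
    have : (2 : ℕ) ∈ {k : ℕ | 1 ≤ k ∧ k ≤ 3} := ⟨by norm_num, by norm_num⟩
    rw [← h] at this
    exact this
  have hex3 : ∃ g : G, orderOf g = 3 := by
    have : (3 : ℕ) ∈ {k : ℕ | 1 ≤ k ∧ k ≤ 3} := ⟨by norm_num, by norm_num⟩
    rw [← h] at this
    exact this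
  -- an element commuting with an involution has square one
  have hC' : ∀ t : G, orderOf t = 2 → ∀ c : G, c * t = t * c → c * c = 1 := by
    intro t ht c hc
    rcases hord c with h1 | h1 | h1
    · rw [orderOf_eq_one_iff.1 h1, one_mul]
    · rw [← pow_two, ← h1, pow_orderOf_eq_one]
    · exfalso
      have hcomm : Commute c t := hc
      have h6 := hcomm.orderOf_mul_eq_mul_orderOf_of_coprime (by rw [h1, ht]; norm_num)
      rw [h1, ht] at h6
      rcases hord (c * t) with h7 | h7 | h7 <;> omega
  have hC : ∀ t : G, orderOf t = 2 → IsMulCommutative (Subgroup.centralizer ({t} : Set G)) ∧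
      ∀ c ∈ Subgroup.centralizer ({t} : Set G), c ^ 2 = 1 := by
    intro t ht
    have hsq : ∀ c ∈ Subgroup.centralizer ({t} : Set G), c * c = 1 := by
      intro c hc
      have := Subgroup.mem_centralizer_iff.1 hc t (Set.mem_singleton t)
      exact hC' t ht c this.symm
    refine ⟨⟨⟨fun a b => Subtype.ext ?_⟩⟩, fun c hc => by rw [pow_two]; exact hsq c hc⟩
    exact comm_of_sq (a : G) (b : G) (hsq a a.2) (hsq b b.2) (hsq _ (mul_mem a.2 b.2))
  obtain ⟨t, ht⟩ := hex2
  have ht2 : t * t = 1 := by rw [← pow_two, ← ht, pow_orderOf_eq_one]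
  have ht1 : t ≠ 1 := by
    intro hh; rw [hh, orderOf_one] at ht; exact absurd ht (by norm_num)
  have P : Sylow 2 G := default
  -- elements of `P` have square one
  have hPsq : ∀ x ∈ (P : Subgroup G), x * x = 1 := by
    intro x hx
    obtain ⟨j, hj⟩ := P.isPGroup' ⟨x, hx⟩
    have hj' : x ^ 2 ^ j = 1 := by
      have := congrArg Subtype.val hj
      simpa using this
    rcases hord x with h1 | h1 | h1
    · rw [orderOf_eq_one_iff.1 h1, one_mul]
    · rw [← pow_two, ← h1, pow_orderOf_eq_one]
    · exfalso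
      have hdvd := orderOf_dvd_of_pow_eq_one hj'
      rw [h1] at hdvd
      have := (Nat.Prime.dvd_of_dvd_pow Nat.prime_three hdvd)
      omega
  by_cases hnn : (P : Subgroup G).Normal
  · -- `P` normal: second alternative
    right
    have hPtop : Subgroup.normalizer ((P : Subgroup G) : Set G) = ⊤ :=
      Subgroup.normalizer_eq_top_iff.2 hnn
    have hinvP : ∀ s : G, s * s = 1 → s ∈ (P : Subgroup G) := by
      intro s hs
      apply mem_of_pow_two P s _ 1 (by rw [pow_one, pow_two]; exact hs)
      have : s ∈ Subgroup.normalizer ((P : Subgroup G) : Set G) := by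
        rw [hPtop]; exact Subgroup.mem_top s
      exact this
    have htP : t ∈ (P : Subgroup G) := hinvP t ht2
    have hPcomm : ∀ x ∈ (P : Subgroup G), ∀ y ∈ (P : Subgroup G), x * y = y * x :=
      fun x hx y hy => comm_of_sq x y (hPsq x hx) (hPsq y hy) (hPsq _ (mul_mem hx hy))
    -- fixed-point-free relation for elements of order 3
    have hrel : ∀ g : G, orderOf g = 3 → ∀ v ∈ (P : Subgroup G),
        g * (g * v * g⁻¹) * g⁻¹ = v * (g * v * g⁻¹) := by
      intro g hg v hv
      have hg3 : g * g * g = 1 := by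
        have : g ^ 3 = 1 := by rw [← hg, pow_orderOf_eq_one]
        calc g * g * g = g ^ 3 := by rw [pow_succ, pow_two]
          _ = 1 := this
      have hv1 : g * v * g⁻¹ ∈ (P : Subgroup G) := hnn.conj_mem v hv g
      have hv2 : g * (g * v * g⁻¹) * g⁻¹ ∈ (P : Subgroup G) := hnn.conj_mem _ hv1 g
      -- `u = v * gvg⁻¹ * g²vg⁻²` commutes with `g`
      have hu : v * (g * v * g⁻¹) * (g * (g * v * g⁻¹) * g⁻¹) ∈ (P : Subgroup G) :=
        mul_mem (mul_mem hv hv1) hv2
      have hginv : g⁻¹ = g * g := by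
        rw [inv_eq_iff_mul_eq_one, ← mul_assoc]; exact hg3
      have hcu : g * (v * (g * v * g⁻¹) * (g * (g * v * g⁻¹) * g⁻¹)) * g⁻¹ =
          v * (g * v * g⁻¹) * (g * (g * v * g⁻¹) * g⁻¹) := by
        have e3 : g * (g * (g * v * g⁻¹) * g⁻¹) * g⁻¹ = v := by
          calc g * (g * (g * v * g⁻¹) * g⁻¹) * g⁻¹
              = (g * g * g) * v * (g * g * g)⁻¹ := by group
            _ = v := by rw [hg3]; group
        calc g * (v * (g * v * g⁻¹) * (g * (g * v * g⁻¹) * g⁻¹)) * g⁻¹
            = (g * v * g⁻¹) * (g * (g * v * g⁻¹) * g⁻¹) *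
                (g * (g * (g * v * g⁻¹) * g⁻¹) * g⁻¹) := by group
          _ = (g * v * g⁻¹) * (g * (g * v * g⁻¹) * g⁻¹) * v := by rw [e3]
          _ = v * ((g * v * g⁻¹) * (g * (g * v * g⁻¹) * g⁻¹)) :=
              hPcomm _ (mul_mem hv1 hv2) v hv
          _ = v * (g * v * g⁻¹) * (g * (g * v * g⁻¹) * g⁻¹) := by group
      have hu1 : v * (g * v * g⁻¹) * (g * (g * v * g⁻¹) * g⁻¹) = 1 := by
        by_contra hne
        have ou : orderOf (v * (g * v * g⁻¹) * (g * (g * v * g⁻¹) * g⁻¹)) = 2 :=
          orderOf_eq_prime (by rw [pow_two]; exact hPsq _ hu) hne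
        have hcomm : g * (v * (g * v * g⁻¹) * (g * (g * v * g⁻¹) * g⁻¹)) =
            (v * (g * v * g⁻¹) * (g * (g * v * g⁻¹) * g⁻¹)) * g := by
          calc g * (v * (g * v * g⁻¹) * (g * (g * v * g⁻¹) * g⁻¹))
              = (g * (v * (g * v * g⁻¹) * (g * (g * v * g⁻¹) * g⁻¹)) * g⁻¹) * g := by group
            _ = (v * (g * v * g⁻¹) * (g * (g * v * g⁻¹) * g⁻¹)) * g := by rw [hcu]
        have := hC' _ ou g hcomm
        have hdvd : orderOf g ∣ 2 := orderOf_dvd_of_pow_eq_one (by rw [pow_two]; exact this)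
        rw [hg] at hdvd
        exact absurd hdvd (by norm_num)
      -- so `g²vg⁻² = (v * gvg⁻¹)⁻¹ = v * gvg⁻¹`
      have h1 : g * (g * v * g⁻¹) * g⁻¹ = (v * (g * v * g⁻¹))⁻¹ :=
        eq_inv_of_mul_eq_one_right hu1
      rw [h1]
      exact inv_eq_of_mul_eq_one_right (hPsq _ (mul_mem hv hv1))
    -- the index of `P` is 3
    have hQ3 : IsPGroup 3 (G ⧸ (P : Subgroup G)) := by
      intro q
      obtain ⟨g, rfl⟩ := QuotientGroup.mk_surjective q
      refine ⟨1, ?_⟩
      rw [pow_one, ← QuotientGroup.mk_pow, QuotientGroup.eq_one_iff]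
      rcases hord g with h1 | h1 | h1
      · rw [orderOf_eq_one_iff.1 h1, one_pow]; exact one_mem _
      · have : g * g = 1 := by rw [← pow_two, ← h1, pow_orderOf_eq_one]
        exact pow_mem (hinvP g this) 3
      · rw [← h1, pow_orderOf_eq_one]; exact one_mem _
    obtain ⟨b, hb⟩ := IsPGroup.iff_card.1 hQ3
    have hidx : (P : Subgroup G).index = 3 ^ b := hb
    have hp3 : Fact (Nat.Prime 3) := ⟨Nat.prime_three⟩
    have Q : Sylow 3 G := default
    have hQord : ∀ x ∈ (Q : Subgroup G), x ≠ 1 → orderOf x = 3 := by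
      intro x hx hx1
      obtain ⟨j, hj⟩ := Q.isPGroup' ⟨x, hx⟩
      have hj' : x ^ 3 ^ j = 1 := by
        have := congrArg Subtype.val hj
        simpa using this
      rcases hord x with h1 | h1 | h1
      · exact absurd (orderOf_eq_one_iff.1 h1) hx1
      · exfalso
        have hdvd := orderOf_dvd_of_pow_eq_one hj'
        rw [h1] at hdvd
        have := (Nat.Prime.dvd_of_dvd_pow Nat.prime_two hdvd)
        omega
      · exact h1
    have hQcard : Nat.card (Q : Subgroup G) = 3 := by
      obtain ⟨c, hc⟩ := IsPGroup.iff_card.1 Q.isPGroup'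
      have hc' : Nat.card (Q : Subgroup G) = 3 ^ c := hc
      by_contra hne3
      -- `c ≠ 0`
      obtain ⟨g, hg⟩ := hex3
      have h3dvd : 3 ∣ Nat.card G := by
        rw [← hg]; exact orderOf_dvd_natCard g
      have hQbot : (Q : Subgroup G) ≠ ⊥ := Q.ne_bot_of_dvd_card h3dvd
      have hQnt : Nontrivial (Q : Subgroup G) := (Subgroup.nontrivial_iff_ne_bot _).2 hQbot
      have hc2 : 2 ≤ c := by
        by_contra hlt
        have hc01 : c = 0 ∨ c = 1 := by omega
        rcases hc01 with h0 | h0
        · subst h0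
          have := Finite.one_lt_card (α := (Q : Subgroup G))
          rw [hc'] at this
          simp at this
        · subst h0
          exact hne3 (by rw [hc']; norm_num)
      have hcn : Nontrivial (Subgroup.center (Q : Subgroup G)) :=
        IsPGroup.center_nontrivial Q.isPGroup'
      obtain ⟨z, hz1⟩ := exists_ne (1 : Subgroup.center (Q : Subgroup G))
      have hzQ : ((z : (Q : Subgroup G)) : G) ∈ (Q : Subgroup G) := (z : (Q : Subgroup G)).2
      have hz1' : ((z : (Q : Subgroup G)) : G) ≠ 1 := by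
        intro hh
        apply hz1
        apply Subtype.ext
        apply Subtype.ext
        exact hh
      have hzc : ∀ y ∈ (Q : Subgroup G), y * ((z : (Q : Subgroup G)) : G) =
          ((z : (Q : Subgroup G)) : G) * y := by
        intro y hy
        have := Subgroup.mem_center_iff.1 z.2 ⟨y, hy⟩
        exact congrArg Subtype.val this
      have oz := hQord _ hzQ hz1'
      -- an element of `Q` outside `⟨z⟩`
      obtain ⟨y, hyQ, hyz⟩ : ∃ y ∈ (Q : Subgroup G),
          y ∉ Subgroup.zpowers ((z : (Q : Subgroup G)) : G) := by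
        by_contra hcon
        push Not at hcon
        have hle : (Q : Subgroup G) ≤ Subgroup.zpowers ((z : (Q : Subgroup G)) : G) := hcon
        have h1 := Subgroup.card_le_of_le hle
        rw [Nat.card_zpowers, oz, hc'] at h1
        have : 3 ^ 2 ≤ 3 ^ c := Nat.pow_le_pow_right (by norm_num) hc2
        omega
      have hy1 : y ≠ 1 := fun hh => hyz (hh ▸ one_mem _)
      have oy := hQord y hyQ hy1
      have hzy1 : ((z : (Q : Subgroup G)) : G) * y ≠ 1 := by
        intro hh
        apply hyz
        have : y = (((z : (Q : Subgroup G)) : G))⁻¹ := (inv_eq_of_mul_eq_one_right hh).symm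
        rw [this]
        exact inv_mem (Subgroup.mem_zpowers _)
      have ozy := hQord _ (mul_mem hzQ hyQ) hzy1
      -- the three relations give `z v z⁻¹ = y v y⁻¹` for `v = t`
      have hcomm : ((z : (Q : Subgroup G)) : G) * y = y * ((z : (Q : Subgroup G)) : G) :=
        (hzc y hyQ).symm
      have key : ∀ x w : G, orderOf x = 3 → orderOf w = 3 → orderOf (x * w) = 3 →
          x * w = w * x → ∀ v ∈ (P : Subgroup G), x * v * x⁻¹ = w * v * w⁻¹ := by
        intro x w ox ow oxw hxw v hv
        have hv1 : w * v * w⁻¹ ∈ (P : Subgroup G) := hnn.conj_mem v hv w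
        have hv2 : x * v * x⁻¹ ∈ (P : Subgroup G) := hnn.conj_mem v hv x
        have hv3 : x * (w * v * w⁻¹) * x⁻¹ ∈ (P : Subgroup G) := hnn.conj_mem _ hv1 x
        have r1 := hrel w ow v hv
        have r2 := hrel x ox v hv
        have r3 := hrel x ox (w * v * w⁻¹) hv1
        have r4 := hrel (x * w) oxw v hv
        -- `(xw)² v (xw)⁻² = x² (w² v w⁻²) x⁻²`
        have e1 : x * w * (x * w * v * (x * w)⁻¹) * (x * w)⁻¹ =
            x * (x * (w * (w * v * w⁻¹) * w⁻¹) * x⁻¹) * x⁻¹ := by
          have hwx : w * x = x * w := hxw.symm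
          calc x * w * (x * w * v * (x * w)⁻¹) * (x * w)⁻¹
              = x * (w * x) * w * v * w⁻¹ * (w * x)⁻¹ * x⁻¹ := by group
            _ = x * (x * w) * w * v * w⁻¹ * (x * w)⁻¹ * x⁻¹ := by rw [hwx]
            _ = x * (x * (w * (w * v * w⁻¹) * w⁻¹) * x⁻¹) * x⁻¹ := by group
        have e2 : x * w * v * (x * w)⁻¹ = x * (w * v * w⁻¹) * x⁻¹ := by group
        rw [e1, e2, r1] at r4
        -- r4 : x * (x * (v * (w v w⁻¹)) * x⁻¹) * x⁻¹ = v * (x (w v w⁻¹) x⁻¹)
        have e3 : x * (x * (v * (w * v * w⁻¹)) * x⁻¹) * x⁻¹ =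
            (x * (x * v * x⁻¹) * x⁻¹) * (x * (x * (w * v * w⁻¹) * x⁻¹) * x⁻¹) := by group
        rw [e3, r2, r3] at r4
        -- r4 : v * (x v x⁻¹) * ((w v w⁻¹) * (x (w v w⁻¹) x⁻¹)) = v * (x (w v w⁻¹) x⁻¹)
        have r5 : (x * v * x⁻¹) * (w * v * w⁻¹) = 1 := by
          have : v * ((x * v * x⁻¹) * (w * v * w⁻¹) * (x * (w * v * w⁻¹) * x⁻¹)) =
              v * (1 * (x * (w * v * w⁻¹) * x⁻¹)) := by
            rw [one_mul, ← r4]; group
          exact mul_right_cancel (mul_left_cancel this)
        calc x * v * x⁻¹ = (w * v * w⁻¹)⁻¹ := eq_inv_of_mul_eq_one_left r5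
          _ = w * v * w⁻¹ := inv_eq_of_mul_eq_one_right (hPsq _ hv1)
      have hk := key _ y oz oy ozy hcomm t htP
      -- so `y⁻¹ z` commutes with `t`
      have hc : (y⁻¹ * ((z : (Q : Subgroup G)) : G)) * t =
          t * (y⁻¹ * ((z : (Q : Subgroup G)) : G)) := by
        calc (y⁻¹ * ((z : (Q : Subgroup G)) : G)) * t
            = y⁻¹ * (((z : (Q : Subgroup G)) : G) * t * (((z : (Q : Subgroup G)) : G))⁻¹) *
                ((z : (Q : Subgroup G)) : G) := by group
          _ = y⁻¹ * (y * t * y⁻¹) * ((z : (Q : Subgroup G)) : G) := by rw [hk]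
          _ = t * (y⁻¹ * ((z : (Q : Subgroup G)) : G)) := by group
      have hsq := hC' t ht _ hc
      have hne1 : y⁻¹ * ((z : (Q : Subgroup G)) : G) ≠ 1 := by
        intro hh
        apply hyz
        have : y = ((z : (Q : Subgroup G)) : G) := (inv_mul_eq_one.1 hh)
        rw [this]; exact Subgroup.mem_zpowers _
      have o3 := hQord _ (mul_mem (inv_mem hyQ) hzQ) hne1
      have hdvd : orderOf (y⁻¹ * ((z : (Q : Subgroup G)) : G)) ∣ 2 :=
        orderOf_dvd_of_pow_eq_one (by rw [pow_two]; exact hsq)
      rw [o3] at hdvd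
      exact absurd hdvd (by norm_num)
    have hb1 : b = 1 := by
      have h1 : 3 ^ b ∣ Nat.card G := by
        rw [← hidx]; exact Subgroup.index_dvd_card _
      have h2 := Q.pow_dvd_card_of_pow_dvd_card h1
      have h2' : 3 ^ b ∣ Nat.card (Q : Subgroup G) := h2
      rw [hQcard] at h2'
      have hb_le : b ≤ 1 := by
        by_contra hlt
        have : 3 ^ 2 ≤ 3 ^ b := Nat.pow_le_pow_right (by norm_num) (by omega)
        have := Nat.le_of_dvd (by norm_num) h2'
        omega
      have hb0 : b ≠ 0 := by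
        intro h0
        rw [h0, pow_zero] at hidx
        have htop := Subgroup.index_eq_one.1 hidx
        obtain ⟨g, hg⟩ := hex3
        have hgP : g ∈ (P : Subgroup G) := by rw [htop]; exact Subgroup.mem_top g
        have := hPsq g hgP
        have hdvd : orderOf g ∣ 2 := orderOf_dvd_of_pow_eq_one (by rw [pow_two]; exact this)
        rw [hg] at hdvd
        exact absurd hdvd (by norm_num)
      omega
    refine ⟨(P : Subgroup G), hnn, ⟨⟨⟨fun a b => Subtype.ext (hPcomm a a.2 b b.2)⟩⟩, ?_⟩, ?_⟩
    · intro a ha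
      rw [pow_two]; exact hPsq a ha
    · rw [hidx, hb1, pow_one]
  · -- `P` not normal
    by_cases hnc : IsCyclic (P : Subgroup G)
    · -- cyclic: normal complement of index 2
      left
      -- `P = {1, t₀}`
      have hNC : Subgroup.normalizer (P : Set G) ≤ Subgroup.centralizer (P : Set G) := by
        intro n hn
        rw [Subgroup.mem_centralizer_iff]
        intro x hx
        obtain ⟨g, hg⟩ := hnc.exists_generator
        have hgsq : (g : G) * (g : G) = 1 := hPsq g g.2
        have hx' : x ∈ (P : Subgroup G) := hx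
        have hxg : x = 1 ∨ x = (g : G) := by
          have := hg ⟨x, hx'⟩
          obtain ⟨k, hk⟩ := Subgroup.mem_zpowers_iff.1 this
          have hk' : (g : G) ^ k = x := by
            have := congrArg Subtype.val hk
            simpa using this
          rcases Int.emod_two_eq_zero_or_one k with h0 | h0
          · left
            obtain ⟨j, hj⟩ := Int.dvd_of_emod_eq_zero h0
            rw [← hk', hj, zpow_mul, zpow_two, hgsq, one_zpow]
          · right
            have : k = 2 * (k / 2) + 1 := by omega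
            rw [← hk', this, zpow_add, zpow_mul, zpow_two, hgsq, one_zpow, one_mul, zpow_one]
        rcases hxg with rfl | rfl
        · simp
        · -- `n g n⁻¹ ∈ P`, so it is `1` or `g`
          have hconj : n * (g : G) * n⁻¹ ∈ (P : Subgroup G) :=
            (Subgroup.mem_normalizer_iff.1 hn (g : G)).1 g.2
          have := hg ⟨_, hconj⟩
          obtain ⟨k, hk⟩ := Subgroup.mem_zpowers_iff.1 this
          have hk' : (g : G) ^ k = n * (g : G) * n⁻¹ := by
            have := congrArg Subtype.val hk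
            simpa using this
          rcases Int.emod_two_eq_zero_or_one k with h0 | h0
          · obtain ⟨j, hj⟩ := Int.dvd_of_emod_eq_zero h0
            rw [hj, zpow_mul, zpow_two, hgsq, one_zpow] at hk'
            have hg1 : (g : G) = 1 := by
              have : (g : G) = n⁻¹ * (n * (g : G) * n⁻¹) * n := by group
              rw [this, ← hk']; group
            rw [hg1]; simp
          · have hk2 : k = 2 * (k / 2) + 1 := by omega
            rw [hk2, zpow_add, zpow_mul, zpow_two, hgsq, one_zpow, one_mul, zpow_one] at hk'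
            calc (g : G) * n = (n * (g : G) * n⁻¹) * n := by rw [← hk']
              _ = n * (g : G) := by group
      obtain ⟨N, hNn, hNP⟩ := exists_normal_complement P hNC
      have hidxN : N.index = Nat.card (P : Subgroup G) := hNP.symm.index_eq_card
      have hcardN : (P : Subgroup G).index = Nat.card N := hNP.index_eq_card
      have hoddN : ¬ 2 ∣ Nat.card N := by
        rw [← hcardN]; exact P.not_dvd_index
      -- `t` lies in a conjugate of `P`; all Sylow 2-subgroups have order 2
      have hcardP : Nat.card (P : Subgroup G) = 2 := by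
        obtain ⟨g, hg⟩ := hnc.exists_generator
        have hgsq : (g : G) * (g : G) = 1 := hPsq g g.2
        have hle : Nat.card (P : Subgroup G) ≤ 2 := by
          have h1 : Nat.card (P : Subgroup G) = orderOf g := by
            rw [← Nat.card_zpowers]
            have : Subgroup.zpowers g = ⊤ := (Subgroup.eq_top_iff' _).2 hg
            rw [this, Subgroup.card_top]
          rw [h1]
          apply Nat.le_of_dvd (by norm_num)
          apply orderOf_dvd_of_pow_eq_one
          apply Subtype.ext
          rw [pow_two]; exact hgsq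
        have h2dvd : 2 ∣ Nat.card G := by
          rw [← ht]; exact orderOf_dvd_natCard t
        have hPbot : (P : Subgroup G) ≠ ⊥ := P.ne_bot_of_dvd_card h2dvd
        have hPnt : Nontrivial (P : Subgroup G) := (Subgroup.nontrivial_iff_ne_bot _).2 hPbot
        have := Finite.one_lt_card (α := (P : Subgroup G))
        omega
      have hNord : ∀ c ∈ N, c ^ 3 = 1 := by
        intro c hc
        rcases hord c with h1 | h1 | h1
        · rw [orderOf_eq_one_iff.1 h1, one_pow]
        · exfalso
          apply hoddN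
          rw [← h1]
          exact Subgroup.orderOf_dvd_natCard N hc
        · rw [← h1, pow_orderOf_eq_one]
      have hNsq : ∀ c ∈ N, c * c = 1 → c = 1 := by
        intro c hc hsq
        have h3 := hNord c hc
        calc c = c ^ 3 * (c * c)⁻¹ := by group
          _ = 1 := by rw [h3, hsq]; group
      have hinv : ∀ c ∈ N, t * c * t⁻¹ = c⁻¹ := by
        apply inverts_of_fpf N t ht2
        · intro c hc
          exact hNn.conj_mem c hc t
        · intro c hc hct
          exact hNsq c hc (hC' t ht c hct.symm)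
      refine ⟨N, hNn, ⟨⟨⟨fun a b => Subtype.ext ?_⟩⟩, hNord⟩, ?_⟩
      · exact comm_of_inverted t (a : G) (b : G) (hinv a a.2) (hinv b b.2)
          (hinv _ (mul_mem a.2 b.2))
      · rw [hidxN, hcardP]
    · exact (no_setup hord (setup_of P hnc hnn hC)).elim

end Cfsg.Agent.S4005
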