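import Cfsg.Statements.S4006
import Cfsg.Agent.Lib.Helper55.OC4C

set_option autoImplicit false
open Cfsg

namespace Cfsg.Agent.S4006

open Cfsg.Agent.Lib.Helper55.OC4

/-- A finite group whose set of element orders is exactly {1, 2, 3, 4} has a normal subgroup N such that either N is a 2-group of exponent 4 and nilpotency class at most 2 with G/N of order 3, or N is an elementary abelian 2-group with G/N isomorphic to the symmetric group of degree 3, or N is an elementary abelian 3-group with G/N cyclic of order 4 or quaternion of order 8. -/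
theorem result {G : Type*} [Group G] [Finite G] (h : Set.range (orderOf : G → ℕ) = {k : ℕ | 1 ≤ k ∧ k ≤ 4}) :
    ∃ (N : Subgroup G) (_ : N.Normal),
      (IsPGroup 2 ↥N ∧ Monoid.exponent ↥N = 4 ∧ Group.nilpotencyClass ↥N ≤ 2 ∧ N.index = 3) ∨
      (Cfsg.IsElementaryAbelian 2 N ∧ Nonempty (G ⧸ N ≃* Equiv.Perm (Fin 3))) ∨
      (Cfsg.IsElementaryAbelian 3 N ∧ ((IsCyclic (G ⧸ N) ∧ N.index = 4) ∨ Nonempty (G ⧸ N ≃* QuaternionGroup 2))) := by
  have hO : OC G := by
    intro g
    have hg : orderOf g ∈ {k : ℕ | 1 ≤ k ∧ k ≤ 4} := h ▸ Set.mem_range_self g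
    obtain ⟨h1, h4⟩ := hg
    have hcases : orderOf g = 1 ∨ orderOf g = 2 ∨ orderOf g = 3 ∨ orderOf g = 4 := by omega
    rcases hcases with e | e | e | e
    · left; rw [orderOf_eq_one_iff] at e; rw [e, one_pow]
    · left; exact pow4_of_pow2 (by rw [← e]; exact pow_orderOf_eq_one g)
    · right; rw [← e]; exact pow_orderOf_eq_one g
    · left; rw [← e]; exact pow_orderOf_eq_one g
  have ex : ∀ k, 1 ≤ k → k ≤ 4 → ∃ g : G, orderOf g = k := by
    intro k h1 h4
    have hk : k ∈ Set.range (orderOf : G → ℕ) := by rw [h]; exact ⟨h1, h4⟩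
    exact hk
  obtain ⟨z, hz⟩ := ex 2 (by norm_num) (by norm_num)
  obtain ⟨x, hx⟩ := ex 3 (by norm_num) (by norm_num)
  obtain ⟨w, hw⟩ := ex 4 (by norm_num) (by norm_num)
  have hz2 : z ^ 2 = 1 := by rw [← hz]; exact pow_orderOf_eq_one z
  have hz1 : z ≠ 1 := by intro e; rw [e, orderOf_one] at hz; norm_num at hz
  have hx3 : x ^ 3 = 1 := by rw [← hx]; exact pow_orderOf_eq_one x
  have hx1 : x ≠ 1 := by intro e; rw [e, orderOf_one] at hx; norm_num at hx
  have hnt : Nontrivial G := ⟨⟨z, 1, hz1⟩⟩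
  have hf2 : Fact (Nat.Prime 2) := ⟨Nat.prime_two⟩
  have hf3 : Fact (Nat.Prime 3) := ⟨Nat.prime_three⟩
  obtain ⟨T⟩ : Nonempty (Sylow 2 G) := inferInstance
  obtain ⟨P⟩ : Nonempty (Sylow 3 G) := inferInstance
  by_cases hP : (P : Subgroup G).normalCore = ⊥
  · have hT : (T : Subgroup G).normalCore ≠ ⊥ :=
      (hO.core_dichotomy T P).resolve_right (not_not.2 hP)
    have hTi := hO.sylow2_index T hT hx3 hx1
    refine ⟨(T : Subgroup G).normalCore, inferInstance, ?_⟩
    rcases OC.core2_index T hTi with h3 | h6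
    · exact Or.inl (caseA3 hO T h3 hx3 hx1 hw)
    · exact Or.inr (Or.inl (caseA6 hO T hTi h6 hx3 hx1))
  · exact ⟨(P : Subgroup G).normalCore, inferInstance,
      Or.inr (Or.inr (caseB hO P hP z hz2 hz1 w hw))⟩

end Cfsg.Agent.S4006
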