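import Mathlib
import Cfsg.Statements.S4198

set_option autoImplicit false
open Cfsg

namespace Cfsg.Agent.S4198

open Equiv

/-- Cycle types of permutations of `n` points. -/
def T (n : ℕ) : Set (Multiset ℕ) := {m | m.sum ≤ n ∧ ∀ a ∈ m, 2 ≤ a}

theorem cycleType_mem_T {n : ℕ} (g : Perm (Fin n)) : g.cycleType ∈ T n :=
  ⟨by simpa using g.sum_cycleType_le, fun _ ha => Perm.two_le_of_mem_cycleType ha⟩

theorem exists_of_mem_T {n : ℕ} {m : Multiset ℕ} (hm : m ∈ T n) :
    ∃ g : Perm (Fin n), g.cycleType = m :=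
  (Perm.exists_with_cycleType_iff (Fin n)).2 (by simpa [T] using hm)

theorem T_finite (n : ℕ) : (T n).Finite :=
  (Set.finite_range (fun g : Perm (Fin n) => g.cycleType)).subset
    (fun m hm => by obtain ⟨g, rfl⟩ := exists_of_mem_T hm; exact ⟨g, rfl⟩)

theorem card_conjClasses_perm (n : ℕ) :
    Nat.card (ConjClasses (Perm (Fin n))) = (T n).ncard := by
  let f : ConjClasses (Perm (Fin n)) → T n :=
    Quotient.lift (fun g : Perm (Fin n) => (⟨g.cycleType, cycleType_mem_T g⟩ : T n))
      (fun a b (h : IsConj a b) => Subtype.ext (Perm.isConj_iff_cycleType_eq.1 h))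
  have hf : Function.Bijective f := by
    constructor
    · intro c c' h
      obtain ⟨g, rfl⟩ := ConjClasses.mk_surjective c
      obtain ⟨g', rfl⟩ := ConjClasses.mk_surjective c'
      have h' : g.cycleType = g'.cycleType := congrArg Subtype.val h
      exact ConjClasses.mk_eq_mk_iff_isConj.2 (Perm.isConj_iff_cycleType_eq.2 h')
    · rintro ⟨m, hm⟩
      obtain ⟨g, rfl⟩ := exists_of_mem_T hm
      exact ⟨ConjClasses.mk g, rfl⟩
  rw [Nat.card_congr (Equiv.ofBijective f hf), Nat.card_coe_set_eq]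

/-- The smallest part. -/
noncomputable def lo (m : Multiset ℕ) : ℕ := sInf {a | a ∈ m}

theorem lo_mem {m : Multiset ℕ} (h : m ≠ 0) : lo m ∈ m := by
  obtain ⟨a, ha⟩ := Multiset.exists_mem_of_ne_zero h
  exact Nat.sInf_mem (s := {a | a ∈ m}) ⟨a, ha⟩

theorem lo_le {m : Multiset ℕ} {a : ℕ} (ha : a ∈ m) : lo m ≤ a :=
  Nat.sInf_le (s := {a | a ∈ m}) ha

theorem dec_inj {m m' : Multiset ℕ} (hm : m ≠ 0) (hm' : m' ≠ 0) (h1 : 1 ≤ lo m)
    (h1' : 1 ≤ lo m')
    (h : (lo m - 1) ::ₘ m.erase (lo m) = (lo m' - 1) ::ₘ m'.erase (lo m')) : m = m' := by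
  have hs := lo_mem hm
  have hs' := lo_mem hm'
  have hge : ∀ x ∈ m.erase (lo m), lo m ≤ x := fun x hx => lo_le (Multiset.mem_of_mem_erase hx)
  have hge' : ∀ x ∈ m'.erase (lo m'), lo m' ≤ x :=
    fun x hx => lo_le (Multiset.mem_of_mem_erase hx)
  have e1 : lo m - 1 ∈ (lo m' - 1) ::ₘ m'.erase (lo m') := h ▸ Multiset.mem_cons_self _ _
  have e2 : lo m' - 1 ∈ (lo m - 1) ::ₘ m.erase (lo m) := h.symm ▸ Multiset.mem_cons_self _ _
  have hlo : lo m = lo m' := by
    rcases Multiset.mem_cons.1 e1 with h3 | h3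
    · omega
    · rcases Multiset.mem_cons.1 e2 with h4 | h4
      · omega
      · have := hge' _ h3
        have := hge _ h4
        omega
  rw [hlo] at h
  have h5 := (Multiset.cons_inj_right _).1 h
  have hs2 : lo m' ∈ m := hlo ▸ hs
  calc m = lo m' ::ₘ m.erase (lo m') := (Multiset.cons_erase hs2).symm
    _ = lo m' ::ₘ m'.erase (lo m') := by rw [h5]
    _ = m' := Multiset.cons_erase hs'

theorem sum_dec {m : Multiset ℕ} (hm : m ≠ 0) (h1 : 1 ≤ lo m) :
    ((lo m - 1) ::ₘ m.erase (lo m)).sum + 1 = m.sum := by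
  have := Multiset.sum_erase (lo_mem hm)
  rw [Multiset.sum_cons]
  omega

theorem card_dec {m : Multiset ℕ} (hm : m ≠ 0) :
    Multiset.card ((lo m - 1) ::ₘ m.erase (lo m)) = Multiset.card m := by
  conv_rhs => rw [← Multiset.cons_erase (lo_mem hm)]
  rw [Multiset.card_cons, Multiset.card_cons]

theorem ncard_T_five : (T 5).ncard ≤ 7 := by
  have hsub : T 5 ⊆ (({0, {2}, {3}, {4}, {5}, {2, 2}, {2, 3}} : Finset (Multiset ℕ)) :
      Set (Multiset ℕ)) := by
    intro m hm
    obtain ⟨hs, h2⟩ := hm
    rcases Multiset.empty_or_exists_mem m with rfl | ⟨a, ha⟩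
    · simp
    · obtain ⟨m₁, rfl⟩ := Multiset.exists_cons_of_mem ha
      have ha2 := h2 a (Multiset.mem_cons_self a m₁)
      rw [Multiset.sum_cons] at hs
      rcases Multiset.empty_or_exists_mem m₁ with rfl | ⟨b, hb⟩
      · have : a ≤ 5 := by simpa using hs
        interval_cases a <;> simp
      · obtain ⟨m₂, rfl⟩ := Multiset.exists_cons_of_mem hb
        have hb2 := h2 b (by simp)
        rw [Multiset.sum_cons] at hs
        have hm₂ : m₂ = 0 := by
          rcases Multiset.empty_or_exists_mem m₂ with rfl | ⟨c, hc⟩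
          · rfl
          · exfalso
            have hc2 := h2 c (by simp [hc])
            have := Multiset.le_sum_of_mem hc
            omega
        subst hm₂
        simp only [Multiset.sum_zero, add_zero] at hs
        have : a ≤ 3 := by omega
        have : b ≤ 3 := by omega
        interval_cases a <;> interval_cases b <;> first | omega | decide
  calc (T 5).ncard ≤ ((({0, {2}, {3}, {4}, {5}, {2, 2}, {2, 3}} : Finset (Multiset ℕ)) :
      Set (Multiset ℕ))).ncard := Set.ncard_le_ncard hsub (Finset.finite_toSet _)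
    _ = Finset.card ({0, {2}, {3}, {4}, {5}, {2, 2}, {2, 3}} : Finset (Multiset ℕ)) :=
      Set.ncard_coe_finset _
    _ ≤ 7 := by decide

theorem ncard_T_succ (n : ℕ) : (T (n + 1)).ncard ≤ 2 * (T n).ncard := by
  classical
  have hsub : T (n + 1) ⊆ T n ∪ {m | m ∈ T (n + 1) ∧ m.sum = n + 1} := by
    intro m hm
    by_cases h : m.sum = n + 1
    · exact Or.inr ⟨hm, h⟩
    · exact Or.inl ⟨by have := hm.1; omega, hm.2⟩
  have hQ : ({m | m ∈ T (n + 1) ∧ m.sum = n + 1} : Set (Multiset ℕ)).ncard ≤ (T n).ncard := by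
    have hne : ∀ m : Multiset ℕ, m.sum = n + 1 → m ≠ 0 := by
      rintro m hm rfl
      simp at hm
    refine Set.ncard_le_ncard_of_injOn
      (fun m => if lo m = 2 then m.erase 2 else (lo m - 1) ::ₘ m.erase (lo m)) ?_ ?_ (T_finite n)
    · rintro m ⟨hm, hsum⟩
      have hm0 := hne m hsum
      have hlo := lo_mem hm0
      have hlo2 := hm.2 _ hlo
      by_cases h : lo m = 2
      · simp only [if_pos h]
        have h2m : 2 ∈ m := h ▸ hlo
        have := Multiset.sum_erase h2m
        exact ⟨by omega, fun a ha => hm.2 a (Multiset.mem_of_mem_erase ha)⟩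
      · simp only [if_neg h]
        have := sum_dec hm0 (by omega)
        refine ⟨by omega, fun a ha => ?_⟩
        rcases Multiset.mem_cons.1 ha with h3 | h3
        · omega
        · exact hm.2 a (Multiset.mem_of_mem_erase h3)
    · rintro m ⟨hm, hsum⟩ m' ⟨hm', hsum'⟩ h
      have hm0 := hne m hsum
      have hm0' := hne m' hsum'
      have hlo := lo_mem hm0
      have hlo' := lo_mem hm0'
      have hlo2 := hm.2 _ hlo
      have hlo2' := hm'.2 _ hlo'
      simp only at h
      by_cases h1 : lo m = 2 <;> by_cases h2 : lo m' = 2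
      · rw [if_pos h1, if_pos h2] at h
        have h2m : 2 ∈ m := h1 ▸ hlo
        have h2m' : 2 ∈ m' := h2 ▸ hlo'
        rw [← Multiset.cons_erase h2m, ← Multiset.cons_erase h2m', h]
      · exfalso
        rw [if_pos h1, if_neg h2] at h
        have h2m : 2 ∈ m := h1 ▸ hlo
        have e1 := Multiset.sum_erase h2m
        have e2 := sum_dec hm0' (by omega)
        rw [h] at e1
        omega
      · exfalso
        rw [if_neg h1, if_pos h2] at h
        have h2m' : 2 ∈ m' := h2 ▸ hlo'
        have e1 := Multiset.sum_erase h2m'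
        have e2 := sum_dec hm0 (by omega)
        rw [← h] at e1
        omega
      · rw [if_neg h1, if_neg h2] at h
        exact dec_inj hm0 hm0' (by omega) (by omega) h
  calc (T (n + 1)).ncard ≤ (T n ∪ {m | m ∈ T (n + 1) ∧ m.sum = n + 1}).ncard :=
      Set.ncard_le_ncard hsub ((T_finite n).union ((T_finite (n + 1)).subset (fun m hm => hm.1)))
    _ ≤ (T n).ncard + ({m | m ∈ T (n + 1) ∧ m.sum = n + 1} : Set (Multiset ℕ)).ncard :=
      Set.ncard_union_le _ _
    _ ≤ 2 * (T n).ncard := by omega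

theorem ncard_T_le (n : ℕ) (hn : 5 ≤ n) : (T n).ncard ≤ 2 ^ (n - 2) := by
  induction n, hn using Nat.le_induction with
  | base => exact ncard_T_five.trans (by norm_num)
  | succ n hn ih =>
    have h1 := ncard_T_succ n
    have h2 : 2 ^ (n + 1 - 2) = 2 * 2 ^ (n - 2) := by
      rw [show n + 1 - 2 = (n - 2) + 1 by omega, pow_succ, mul_comm]
    rw [h2]
    omega

/-- Even cycle types. -/
def Te (n : ℕ) : Set (Multiset ℕ) := {m | m ∈ T n ∧ Even (m.sum + Multiset.card m)}

/-- Odd cycle types. -/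
def To (n : ℕ) : Set (Multiset ℕ) := {m | m ∈ T n ∧ ¬ Even (m.sum + Multiset.card m)}

/-- Cycle types with distinct odd parts and at most one fixed point. -/
def DO (n : ℕ) : Set (Multiset ℕ) :=
  {m | m ∈ T n ∧ ((∀ c ∈ m, Odd c) ∧ n ≤ m.sum + 1 ∧ ∀ i, m.count i ≤ 1)}

theorem even_of_all_odd (m : Multiset ℕ) (h : ∀ c ∈ m, Odd c) :
    Even (m.sum + Multiset.card m) := by
  induction m using Multiset.induction_on with
  | empty => simp
  | cons a m ih =>
    have ha : Odd a := h a (Multiset.mem_cons_self a m)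
    have ih' := ih (fun c hc => h c (Multiset.mem_cons_of_mem hc))
    rw [Multiset.sum_cons, Multiset.card_cons]
    have : a + m.sum + (Multiset.card m + 1) = (a + 1) + (m.sum + Multiset.card m) := by ring
    rw [this]
    exact Even.add ha.add_one ih'

theorem ncard_T_eq (n : ℕ) : (T n).ncard = (Te n).ncard + (To n).ncard := by
  have hTe : (Te n).Finite := (T_finite n).subset (fun m hm => hm.1)
  have hTo : (To n).Finite := (T_finite n).subset (fun m hm => hm.1)
  have hU : T n = Te n ∪ To n := by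
    ext m
    constructor
    · intro hm
      by_cases h : Even (m.sum + Multiset.card m)
      · exact Or.inl ⟨hm, h⟩
      · exact Or.inr ⟨hm, h⟩
    · rintro (h | h)
      · exact h.1
      · exact h.1
  rw [hU]
  apply Set.ncard_union_eq _ hTe hTo
  rw [Set.disjoint_left]
  intro m h1 h2
  exact h2.2 h1.2

theorem ncard_DO_lt (n : ℕ) (hn : 5 ≤ n) : (DO n).ncard < (To n).ncard := by
  classical
  have hTo : (To n).Finite := (T_finite n).subset (fun m hm => hm.1)
  have h2mem : ({2} : Multiset ℕ) ∈ To n := by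
    refine ⟨⟨by simp; omega, by simp⟩, ?_⟩
    simp
    decide
  have hne : ∀ m ∈ DO n, m ≠ 0 := by
    rintro m ⟨-, -, hm, -⟩ rfl
    simp at hm
    omega
  have hle : (DO n).ncard ≤ (To n \ {({2} : Multiset ℕ)}).ncard := by
    refine Set.ncard_le_ncard_of_injOn (fun m => (lo m - 1) ::ₘ m.erase (lo m)) ?_ ?_
      (hTo.subset Set.sdiff_subset)
    · intro m hm
      have hm0 := hne m hm
      obtain ⟨hT, hodd, hsum, hcount⟩ := hm
      have hlo := lo_mem hm0
      have hlo2 := hT.2 _ hlo
      have hlo_odd := hodd _ hlo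
      have hlo3 : 3 ≤ lo m := by
        rcases hlo_odd with ⟨k, hk⟩
        omega
      have hs := sum_dec hm0 (by omega)
      have hc := card_dec hm0
      refine ⟨⟨⟨by have := hT.1; omega, fun a ha => ?_⟩, ?_⟩, ?_⟩
      · rcases Multiset.mem_cons.1 ha with h3 | h3
        · omega
        · exact hT.2 a (Multiset.mem_of_mem_erase h3)
      · have hev := even_of_all_odd m hodd
        rw [hc]
        rw [Nat.even_iff] at hev ⊢
        omega
      · intro h
        rw [Set.mem_singleton_iff] at h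
        have h3 : ((lo m - 1) ::ₘ m.erase (lo m)).sum = 2 := by rw [h]; simp
        omega
    · intro m hm m' hm' h
      have hm0 := hne m hm
      have hm0' := hne m' hm'
      have hlo2 := hm.1.2 _ (lo_mem hm0)
      have hlo2' := hm'.1.2 _ (lo_mem hm0')
      exact dec_inj hm0 hm0' (by omega) (by omega) h
  exact lt_of_le_of_lt hle (Set.ncard_sdiff_singleton_lt_of_mem h2mem hTo)

theorem isConj_of_odd_centralizer {n : ℕ} (g g' : alternatingGroup (Fin n))
    (h : (g : Perm (Fin n)).cycleType = (g' : Perm (Fin n)).cycleType)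
    (τ : Perm (Fin n)) (hτ : τ * (g : Perm (Fin n)) = (g : Perm (Fin n)) * τ)
    (hτs : Perm.sign τ = -1) : IsConj g g' := by
  obtain ⟨π, hπ⟩ := isConj_iff.1 (Perm.isConj_iff_cycleType_eq.2 h)
  rcases Int.units_eq_one_or (Perm.sign π) with hs | hs
  · exact isConj_iff.2 ⟨⟨π, Perm.mem_alternatingGroup.2 hs⟩, Subtype.ext hπ⟩
  · refine isConj_iff.2 ⟨⟨π * τ, Perm.mem_alternatingGroup.2 (by rw [map_mul, hs, hτs]; rfl)⟩,
      Subtype.ext ?_⟩
    show π * τ * (g : Perm (Fin n)) * (π * τ)⁻¹ = g'
    rw [← hπ, mul_assoc π τ, hτ]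
    group

theorem isConj_of_three {n : ℕ} (g g' g'' : alternatingGroup (Fin n))
    (h : (g : Perm (Fin n)).cycleType = (g' : Perm (Fin n)).cycleType)
    (h' : (g : Perm (Fin n)).cycleType = (g'' : Perm (Fin n)).cycleType)
    (hn : ¬ IsConj g g') (hn' : ¬ IsConj g g'') : IsConj g' g'' := by
  obtain ⟨π, hπ⟩ := isConj_iff.1 (Perm.isConj_iff_cycleType_eq.2 h)
  obtain ⟨ρ, hρ⟩ := isConj_iff.1 (Perm.isConj_iff_cycleType_eq.2 h')
  have hπs : Perm.sign π = -1 := by
    rcases Int.units_eq_one_or (Perm.sign π) with hs | hs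
    · exact absurd (isConj_iff.2 ⟨⟨π, Perm.mem_alternatingGroup.2 hs⟩, Subtype.ext hπ⟩) hn
    · exact hs
  have hρs : Perm.sign ρ = -1 := by
    rcases Int.units_eq_one_or (Perm.sign ρ) with hs | hs
    · exact absurd (isConj_iff.2 ⟨⟨ρ, Perm.mem_alternatingGroup.2 hs⟩, Subtype.ext hρ⟩) hn'
    · exact hs
  refine isConj_iff.2 ⟨⟨ρ * π⁻¹, Perm.mem_alternatingGroup.2
    (by rw [map_mul, map_inv, hπs, hρs]; rfl)⟩, Subtype.ext ?_⟩
  show ρ * π⁻¹ * (g' : Perm (Fin n)) * (ρ * π⁻¹)⁻¹ = g''
  rw [← hπ, ← hρ]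
  group

theorem card_conjClasses_alt_le (n : ℕ) :
    Nat.card (ConjClasses (alternatingGroup (Fin n))) ≤ (Te n).ncard + (DO n).ncard := by
  classical
  let φ : ConjClasses (alternatingGroup (Fin n)) → Multiset ℕ :=
    Quotient.lift (fun g : alternatingGroup (Fin n) => (g : Perm (Fin n)).cycleType)
      (fun a b (h : IsConj a b) =>
        Perm.isConj_iff_cycleType_eq.1 ((alternatingGroup (Fin n)).subtype.map_isConj h))
  have hφ : ∀ g : alternatingGroup (Fin n),
      φ (ConjClasses.mk g) = (g : Perm (Fin n)).cycleType := fun g => rfl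
  let rep : Multiset ℕ → ConjClasses (alternatingGroup (Fin n)) := fun m =>
    if h : ∃ c, φ c = m then h.choose else ConjClasses.mk 1
  have hrep : ∀ c, φ (rep (φ c)) = φ c := by
    intro c
    have h : ∃ c', φ c' = φ c := ⟨c, rfl⟩
    simp only [rep, dif_pos h]
    exact h.choose_spec
  let Φ : ConjClasses (alternatingGroup (Fin n)) → Multiset ℕ ⊕ Multiset ℕ := fun c =>
    if c = rep (φ c) then Sum.inl (φ c) else Sum.inr (φ c)
  have hinj : Function.Injective Φ := by
    intro c c' h
    by_cases h1 : c = rep (φ c) <;> by_cases h2 : c' = rep (φ c')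
    · simp only [Φ, if_pos h1, if_pos h2] at h
      have := Sum.inl.inj h
      rw [h1, h2, this]
    · simp only [Φ, if_pos h1, if_neg h2] at h
      exact absurd h (by simp)
    · simp only [Φ, if_neg h1, if_pos h2] at h
      exact absurd h (by simp)
    · simp only [Φ, if_neg h1, if_neg h2] at h
      have hφeq : φ c = φ c' := Sum.inr.inj h
      obtain ⟨g, rfl⟩ := ConjClasses.mk_surjective c
      obtain ⟨g', rfl⟩ := ConjClasses.mk_surjective c'
      obtain ⟨r, hr⟩ := ConjClasses.mk_surjective (rep (φ (ConjClasses.mk g)))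
      have hr1 : (r : Perm (Fin n)).cycleType = (g : Perm (Fin n)).cycleType := by
        rw [← hφ r, hr, hrep, hφ]
      have hr2 : (r : Perm (Fin n)).cycleType = (g' : Perm (Fin n)).cycleType := by
        rw [hr1, ← hφ g, hφeq, hφ]
      have n1 : ¬ IsConj r g := by
        intro hc
        apply h1
        rw [← hr]
        exact (ConjClasses.mk_eq_mk_iff_isConj.2 hc).symm
      have n2 : ¬ IsConj r g' := by
        intro hc
        apply h2
        rw [← hφeq, ← hr]
        exact (ConjClasses.mk_eq_mk_iff_isConj.2 hc).symm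
      exact ConjClasses.mk_eq_mk_iff_isConj.2 (isConj_of_three r g g' hr1 hr2 n1 n2)
  have himg : ∀ c, Φ c ∈ Sum.inl '' (Te n) ∪ Sum.inr '' (DO n) := by
    intro c
    obtain ⟨g, rfl⟩ := ConjClasses.mk_surjective c
    have hT : (g : Perm (Fin n)).cycleType ∈ T n := cycleType_mem_T _
    by_cases h1 : ConjClasses.mk g = rep (φ (ConjClasses.mk g))
    · left
      simp only [Φ, if_pos h1]
      refine ⟨_, ⟨hT, ?_⟩, rfl⟩
      have hs := Perm.mem_alternatingGroup.1 g.2
      rw [Perm.sign_of_cycleType] at hs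
      by_contra hodd
      rw [Nat.not_even_iff_odd] at hodd
      rw [hodd.neg_one_pow] at hs
      exact absurd hs (by decide)
    · right
      simp only [Φ, if_neg h1]
      refine ⟨_, ⟨hT, ?_⟩, rfl⟩
      obtain ⟨r, hr⟩ := ConjClasses.mk_surjective (rep (φ (ConjClasses.mk g)))
      have hr1 : (g : Perm (Fin n)).cycleType = (r : Perm (Fin n)).cycleType := by
        rw [← hφ r, hr, hrep, hφ]
      have n1 : ¬ IsConj g r :=
        fun hc => h1 (by rw [← hr]; exact ConjClasses.mk_eq_mk_iff_isConj.2 hc)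
      have hcent : Subgroup.centralizer {(g : Perm (Fin n))} ≤ alternatingGroup (Fin n) := by
        intro τ hτ
        rw [Subgroup.mem_centralizer_singleton_iff] at hτ
        rw [Perm.mem_alternatingGroup]
        rcases Int.units_eq_one_or (Perm.sign τ) with hs | hs
        · exact hs
        · exact absurd (isConj_of_odd_centralizer g r hr1 τ hτ hs) n1
      have := Perm.centralizer_le_alternating_iff.1 hcent
      simpa using this
  have hfin : (Sum.inl '' (Te n) ∪ Sum.inr '' (DO n) : Set (Multiset ℕ ⊕ Multiset ℕ)).Finite :=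
    (((T_finite n).subset (fun m hm => hm.1)).image _).union
      (((T_finite n).subset (fun m hm => hm.1)).image _)
  calc Nat.card (ConjClasses (alternatingGroup (Fin n)))
      = (Set.univ : Set (ConjClasses (alternatingGroup (Fin n)))).ncard :=
        (Set.ncard_univ _).symm
    _ ≤ (Sum.inl '' (Te n) ∪ Sum.inr '' (DO n) : Set (Multiset ℕ ⊕ Multiset ℕ)).ncard :=
        Set.ncard_le_ncard_of_injOn Φ (fun c _ => himg c) (fun c _ c' _ h => hinj h) hfin
    _ ≤ (Sum.inl '' (Te n) : Set (Multiset ℕ ⊕ Multiset ℕ)).ncard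
          + (Sum.inr '' (DO n) : Set (Multiset ℕ ⊕ Multiset ℕ)).ncard := Set.ncard_union_le _ _
    _ = (Te n).ncard + (DO n).ncard := by
        rw [Set.ncard_image_of_injective _ Sum.inl_injective,
          Set.ncard_image_of_injective _ Sum.inr_injective]

/-- For n ≥ 5 the alternating group of degree n has strictly fewer conjugacy classes than the symmetric group of degree n, and the symmetric group of degree n (whose classes correspond to the partitions of n) has at most 2^(n−2) conjugacy classes. -/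
theorem result (n : ℕ) (hn : 5 ≤ n) : Nat.card (ConjClasses (alternatingGroup (Fin n))) < Nat.card (ConjClasses (Equiv.Perm (Fin n))) ∧ Nat.card (ConjClasses (Equiv.Perm (Fin n))) ≤ 2 ^ (n - 2) := by
  rw [card_conjClasses_perm]
  refine ⟨?_, ncard_T_le n hn⟩
  have h1 := card_conjClasses_alt_le n
  have h2 := ncard_DO_lt n hn
  have h3 := ncard_T_eq n
  omega

end Cfsg.Agent.S4198
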