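import Cfsg.Statements.S4200
import Mathlib
import Cfsg.Agent.Lib.Helper51.CardSup

set_option autoImplicit false
open Cfsg

namespace Cfsg.Agent.S4200

open Subgroup

variable {X : Type*} [Group X]

/-- number of elements of `X` commuting with `x` -/
noncomputable def cX (x : X) : ℕ := Nat.card {x' : X // Commute x x'}

/-- number of elements of `Y` commuting with `x` -/
noncomputable def cY (Y : Subgroup X) (x : X) : ℕ := Nat.card {y : Y // Commute x (y : X)}

theorem cX_eq (x : X) : cX x = Nat.card (centralizer ({x} : Set X)) := by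
  apply Nat.card_congr
  exact Equiv.subtypeEquivRight (fun x' => by
    rw [mem_centralizer_singleton_iff]
    exact ⟨fun h => h.eq.symm, fun h => h.symm⟩)

theorem cY_eq (Y : Subgroup X) (x : X) :
    cY Y x = Nat.card (centralizer ({x} : Set X) ⊓ Y : Subgroup X) := by
  apply Nat.card_congr
  exact
    { toFun := fun y => ⟨(y.1 : X),
        ⟨mem_centralizer_singleton_iff.mpr y.2.eq.symm, y.1.2⟩⟩
      invFun := fun z => ⟨⟨z.1, z.2.2⟩, (mem_centralizer_singleton_iff.mp z.2.1).symm⟩
      left_inv := fun y => rfl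
      right_inv := fun z => rfl }

theorem cY_le_cX [Finite X] (Y : Subgroup X) (x : X) : cY Y x ≤ cX x := by
  apply Nat.card_le_card_of_injective (fun y : {y : Y // Commute x (y : X)} =>
    (⟨(y.1 : X), y.2⟩ : {x' : X // Commute x x'}))
  intro a b h
  apply Subtype.ext
  apply Subtype.ext
  exact congrArg (fun z : {x' : X // Commute x x'} => z.1) h

theorem cX_le [Finite X] (Y : Subgroup X) (x : X) : cX x ≤ Y.index * cY Y x := by
  rw [cX_eq, cY_eq]
  have h1 := Cfsg.Agent.Lib.Helper51.CardSup.card_mul_card_le (centralizer ({x} : Set X)) Y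
  have h2 : Nat.card (centralizer ({x} : Set X) ⊔ Y : Subgroup X) ≤ Nat.card X :=
    Subgroup.card_le_card_group _
  have h3 : Y.index * Nat.card Y = Nat.card X := Y.index_mul_card
  have hYpos : 0 < Nat.card Y := Nat.card_pos
  have h4 : Nat.card (centralizer ({x} : Set X)) * Nat.card Y ≤
      (Y.index * Nat.card (centralizer ({x} : Set X) ⊓ Y : Subgroup X)) * Nat.card Y := by
    calc Nat.card (centralizer ({x} : Set X)) * Nat.card Y
        ≤ Nat.card (centralizer ({x} : Set X) ⊔ Y : Subgroup X) *
          Nat.card (centralizer ({x} : Set X) ⊓ Y : Subgroup X) := h1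
      _ ≤ Nat.card X * Nat.card (centralizer ({x} : Set X) ⊓ Y : Subgroup X) :=
          Nat.mul_le_mul_right _ h2
      _ = _ := by rw [← h3]; ring
  exact Nat.le_of_mul_le_mul_right h4 hYpos

theorem cX_lt [Finite X] (Y : Subgroup X) (y : X) (hy : y ∈ Y) (g : X) (hg : g * y * g⁻¹ ∉ Y) :
    cX y < Y.index * cY Y y := by
  by_contra hcon
  push Not at hcon
  have heq : cX y = Y.index * cY Y y := le_antisymm (cX_le Y y) hcon
  rw [cX_eq, cY_eq] at heq
  have h1 := Cfsg.Agent.Lib.Helper51.CardSup.card_mul_card_le (centralizer ({y} : Set X)) Y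
  have h2 : Nat.card (centralizer ({y} : Set X) ⊔ Y : Subgroup X) ≤ Nat.card X :=
    Subgroup.card_le_card_group _
  have h3 : Y.index * Nat.card Y = Nat.card X := Y.index_mul_card
  have hIpos : 0 < Nat.card (centralizer ({y} : Set X) ⊓ Y : Subgroup X) := Nat.card_pos
  have h5 : Nat.card (centralizer ({y} : Set X)) * Nat.card Y =
      Nat.card X * Nat.card (centralizer ({y} : Set X) ⊓ Y : Subgroup X) := by
    rw [heq, ← h3]; ring
  have h6 : Nat.card X * Nat.card (centralizer ({y} : Set X) ⊓ Y : Subgroup X) ≤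
      Nat.card (centralizer ({y} : Set X) ⊔ Y : Subgroup X) *
        Nat.card (centralizer ({y} : Set X) ⊓ Y : Subgroup X) := h5 ▸ h1
  have h7 : Nat.card X ≤ Nat.card (centralizer ({y} : Set X) ⊔ Y : Subgroup X) :=
    Nat.le_of_mul_le_mul_right h6 hIpos
  have htop : (centralizer ({y} : Set X) ⊔ Y : Subgroup X) = ⊤ := Subgroup.eq_top_of_le_card _ h7
  have hcard : Nat.card (centralizer ({y} : Set X) ⊔ Y : Subgroup X) *
      Nat.card (centralizer ({y} : Set X) ⊓ Y : Subgroup X) =
      Nat.card (centralizer ({y} : Set X)) * Nat.card Y := by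
    rw [h5, htop, Subgroup.card_top]
  obtain ⟨k, hk, h, hh, hgkh⟩ := Cfsg.Agent.Lib.Helper51.CardSup.exists_mul_of_card_eq
    (centralizer ({y} : Set X)) Y hcard g (htop ▸ Subgroup.mem_top g)
  apply hg
  rw [mem_centralizer_singleton_iff] at hh
  have e : g * y * g⁻¹ = k * y * k⁻¹ := by
    rw [hgkh]
    calc k * h * y * (k * h)⁻¹ = k * (h * y) * h⁻¹ * k⁻¹ := by group
      _ = k * (y * h) * h⁻¹ * k⁻¹ := by rw [hh]
      _ = k * y * k⁻¹ := by group
  rw [e]
  exact Y.mul_mem (Y.mul_mem hk hy) (Y.inv_mem hk)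

/-- Let Y be a subgroup of the finite group X, of index m. Then the numbers of conjugacy classes satisfy k(Y) ≤ m·k(X) and k(X) ≤ m·k(Y), and the second inequality is strict unless Y is normal in X. -/
theorem result {X : Type*} [Group X] [Finite X] (Y : Subgroup X) : Nat.card (ConjClasses Y) ≤ Y.index * Nat.card (ConjClasses X) ∧ Nat.card (ConjClasses X) ≤ Y.index * Nat.card (ConjClasses Y) ∧ (¬ Y.Normal → Nat.card (ConjClasses X) < Y.index * Nat.card (ConjClasses Y)) := by
  classical
  have : Fintype X := Fintype.ofFinite X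
  have : Fintype Y := Fintype.ofFinite Y
  have hX : Nat.card (ConjClasses X) * Nat.card X = ∑ x : X, cX x := by
    rw [← card_comm_eq_card_conjClasses_mul_card,
      Nat.card_congr (Equiv.subtypeProdEquivSigmaSubtype (fun a b : X => Commute a b)),
      Nat.card_sigma]
    rfl
  have hY : Nat.card (ConjClasses Y) * Nat.card Y = ∑ y : Y, cY Y (y : X) := by
    rw [← card_comm_eq_card_conjClasses_mul_card,
      Nat.card_congr (Equiv.subtypeProdEquivSigmaSubtype (fun a b : Y => Commute a b)),
      Nat.card_sigma]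
    refine Finset.sum_congr rfl fun y _ => ?_
    apply Nat.card_congr
    exact Equiv.subtypeEquivRight (fun y' =>
      ⟨fun h => congrArg Subtype.val h.eq, fun h => Subtype.ext h.eq⟩)
  have hswap : ∑ x : X, cY Y x = ∑ y : Y, cX (y : X) := by
    have h1 : Nat.card {p : X × Y // Commute p.1 (p.2 : X)} = ∑ x : X, cY Y x := by
      rw [Nat.card_congr (Equiv.subtypeProdEquivSigmaSubtype
        (fun (a : X) (b : Y) => Commute a (b : X))), Nat.card_sigma]
      rfl
    have h2 : Nat.card {p : X × Y // Commute p.1 (p.2 : X)} = ∑ y : Y, cX (y : X) := by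
      have e : {p : X × Y // Commute p.1 (p.2 : X)} ≃ {q : Y × X // Commute (q.1 : X) q.2} :=
        (Equiv.prodComm X Y).subtypeEquiv (fun p => ⟨fun h => h.symm, fun h => h.symm⟩)
      rw [Nat.card_congr e, Nat.card_congr (Equiv.subtypeProdEquivSigmaSubtype
        (fun (a : Y) (b : X) => Commute (a : X) b)), Nat.card_sigma]
      rfl
    rw [← h1, h2]
  have hm : Y.index * Nat.card Y = Nat.card X := Y.index_mul_card
  have hYpos : 0 < Nat.card Y := Nat.card_pos
  have hmpos : 0 < Y.index := Nat.pos_of_ne_zero Subgroup.index_ne_zero_of_finite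
  refine ⟨?_, ?_, ?_⟩
  · have h : Nat.card (ConjClasses Y) * Nat.card Y ≤ Nat.card (ConjClasses X) * Nat.card X := by
      rw [hX, hY]
      calc ∑ y : Y, cY Y (y : X) ≤ ∑ y : Y, cX (y : X) :=
            Finset.sum_le_sum fun y _ => cY_le_cX Y y
        _ = ∑ x : X, cY Y x := hswap.symm
        _ ≤ ∑ x : X, cX x := Finset.sum_le_sum fun x _ => cY_le_cX Y x
    rw [← hm] at h
    have h' : Nat.card (ConjClasses Y) * Nat.card Y ≤
        (Y.index * Nat.card (ConjClasses X)) * Nat.card Y := by
      calc _ ≤ _ := h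
        _ = _ := by ring
    exact Nat.le_of_mul_le_mul_right h' hYpos
  · have h : Nat.card (ConjClasses X) * Nat.card X ≤
        Y.index * (Y.index * (Nat.card (ConjClasses Y) * Nat.card Y)) := by
      rw [hX, hY]
      calc ∑ x : X, cX x ≤ ∑ x : X, Y.index * cY Y x :=
            Finset.sum_le_sum fun x _ => cX_le Y x
        _ = Y.index * ∑ y : Y, cX (y : X) := by rw [← Finset.mul_sum, hswap]
        _ ≤ Y.index * ∑ y : Y, Y.index * cY Y (y : X) :=
            Nat.mul_le_mul_left _ (Finset.sum_le_sum fun y _ => cX_le Y y)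
        _ = _ := by rw [← Finset.mul_sum]
    rw [← hm] at h
    have h' : Nat.card (ConjClasses X) * (Y.index * Nat.card Y) ≤
        (Y.index * Nat.card (ConjClasses Y)) * (Y.index * Nat.card Y) := by
      calc _ ≤ _ := h
        _ = _ := by ring
    exact Nat.le_of_mul_le_mul_right h' (Nat.mul_pos hmpos hYpos)
  · intro hn
    obtain ⟨y, hy, g, hg⟩ : ∃ y ∈ Y, ∃ g : X, g * y * g⁻¹ ∉ Y := by
      by_contra hcon
      push Not at hcon
      exact hn ⟨fun n hn g => hcon n hn g⟩
    have h : Nat.card (ConjClasses X) * Nat.card X <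
        Y.index * (Y.index * (Nat.card (ConjClasses Y) * Nat.card Y)) := by
      rw [hX, hY]
      calc ∑ x : X, cX x ≤ ∑ x : X, Y.index * cY Y x :=
            Finset.sum_le_sum fun x _ => cX_le Y x
        _ = Y.index * ∑ y : Y, cX (y : X) := by rw [← Finset.mul_sum, hswap]
        _ < Y.index * ∑ y : Y, Y.index * cY Y (y : X) := by
            apply Nat.mul_lt_mul_of_pos_left _ hmpos
            exact Finset.sum_lt_sum (fun y _ => cX_le Y y)
              ⟨⟨y, hy⟩, Finset.mem_univ _, cX_lt Y y hy g hg⟩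
        _ = _ := by rw [← Finset.mul_sum]
    rw [← hm] at h
    have h' : Nat.card (ConjClasses X) * (Y.index * Nat.card Y) <
        (Y.index * Nat.card (ConjClasses Y)) * (Y.index * Nat.card Y) := by
      calc _ < _ := h
        _ = _ := by ring
    exact Nat.lt_of_mul_lt_mul_right h'

end Cfsg.Agent.S4200
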