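import Cfsg.Statements.S4201
import Mathlib

set_option autoImplicit false
open Cfsg

namespace Cfsg.Agent.S4201

open Subgroup

variable {X : Type*} [Group X] [Finite X] (N : Subgroup X) [N.Normal]

omit [N.Normal] in
/-- The elements of a coset commuting with `z` inject into the elements of `N` commuting with `z`. -/
theorem coset_commute_le (q : X ⧸ N) (z : X) :
    Nat.card {x : X // (x : X ⧸ N) = q ∧ Commute x z} ≤ Nat.card {n : N // Commute (n : X) z} := by
  by_cases h : Nonempty {x : X // (x : X ⧸ N) = q ∧ Commute x z}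
  · obtain ⟨⟨x0, hx0q, hx0z⟩⟩ := h
    apply Nat.card_le_card_of_injective (fun x : {x : X // (x : X ⧸ N) = q ∧ Commute x z} =>
      (⟨⟨x0⁻¹ * x.1, by
        rw [← QuotientGroup.eq, hx0q, x.2.1]⟩, (hx0z.inv_left).mul_left x.2.2⟩ :
        {n : N // Commute (n : X) z}))
    intro x x' hxx'
    have h1 : x0⁻¹ * x.1 = x0⁻¹ * x'.1 :=
      congrArg (fun w : {n : N // Commute (n : X) z} => ((w.1 : N) : X)) hxx'
    exact Subtype.ext (mul_left_cancel h1)
  · rw [not_nonempty_iff] at h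
    rw [Nat.card_of_isEmpty]
    exact Nat.zero_le _

omit [N.Normal] in
/-- Bound for the number of commuting pairs in a pair of cosets. -/
theorem fiber_le (a b : X ⧸ N) :
    Nat.card {p : X × X // Commute p.1 p.2 ∧ (p.1 : X ⧸ N) = a ∧ (p.2 : X ⧸ N) = b} ≤
      Nat.card {p : N × N // Commute p.1 p.2} := by
  classical
  have : Fintype {x : X // (x : X ⧸ N) = a} := Fintype.ofFinite _
  have : Fintype N := Fintype.ofFinite _
  let E1 : {p : X × X // Commute p.1 p.2 ∧ (p.1 : X ⧸ N) = a ∧ (p.2 : X ⧸ N) = b} ≃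
      Σ x : {x : X // (x : X ⧸ N) = a}, {y : X // (y : X ⧸ N) = b ∧ Commute y x.1} :=
    { toFun := fun p => ⟨⟨p.1.1, p.2.2.1⟩, ⟨p.1.2, p.2.2.2, p.2.1.symm⟩⟩
      invFun := fun s => ⟨(s.1.1, s.2.1), s.2.2.2.symm, s.1.2, s.2.2.1⟩
      left_inv := fun p => rfl
      right_inv := fun s => rfl }
  let E2 : (Σ x : {x : X // (x : X ⧸ N) = a}, {n : N // Commute (n : X) x.1}) ≃
      Σ n : N, {x : X // (x : X ⧸ N) = a ∧ Commute x (n : X)} :=
    { toFun := fun s => ⟨s.2.1, ⟨s.1.1, s.1.2, s.2.2.symm⟩⟩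
      invFun := fun t => ⟨⟨t.2.1, t.2.2.1⟩, ⟨t.1, t.2.2.2.symm⟩⟩
      left_inv := fun s => rfl
      right_inv := fun t => rfl }
  let E3 : (Σ n : N, {m : N // Commute (m : X) (n : X)}) ≃ {p : N × N // Commute p.1 p.2} :=
    { toFun := fun s => ⟨(s.2.1, s.1), Subtype.ext s.2.2.eq⟩
      invFun := fun p => ⟨p.1.2, ⟨p.1.1, congrArg Subtype.val p.2.eq⟩⟩
      left_inv := fun s => rfl
      right_inv := fun p => rfl }
  calc Nat.card {p : X × X // Commute p.1 p.2 ∧ (p.1 : X ⧸ N) = a ∧ (p.2 : X ⧸ N) = b}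
      = ∑ x : {x : X // (x : X ⧸ N) = a}, Nat.card {y : X // (y : X ⧸ N) = b ∧ Commute y x.1} := by
        rw [Nat.card_congr E1, Nat.card_sigma]
    _ ≤ ∑ x : {x : X // (x : X ⧸ N) = a}, Nat.card {n : N // Commute (n : X) x.1} :=
        Finset.sum_le_sum fun x _ => coset_commute_le N b x.1
    _ = ∑ n : N, Nat.card {x : X // (x : X ⧸ N) = a ∧ Commute x (n : X)} := by
        rw [← Nat.card_sigma, Nat.card_congr E2, Nat.card_sigma]
    _ ≤ ∑ n : N, Nat.card {m : N // Commute (m : X) (n : X)} :=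
        Finset.sum_le_sum fun n _ => coset_commute_le N a n
    _ = Nat.card {p : N × N // Commute p.1 p.2} := by
        rw [← Nat.card_sigma, Nat.card_congr E3]

/-- If N is a normal subgroup of the finite group X then k(X) ≤ k(N)·k(X ⧸ N), where k denotes the number of conjugacy classes. -/
theorem result {X : Type*} [Group X] [Finite X] (N : Subgroup X) [N.Normal] : Nat.card (ConjClasses X) ≤ Nat.card (ConjClasses N) * Nat.card (ConjClasses (X ⧸ N)) := by
  classical
  have : Fintype {t : (X ⧸ N) × (X ⧸ N) // Commute t.1 t.2} := Fintype.ofFinite _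
  let π : {p : X × X // Commute p.1 p.2} → {t : (X ⧸ N) × (X ⧸ N) // Commute t.1 t.2} :=
    fun p => ⟨((p.1.1 : X ⧸ N), (p.1.2 : X ⧸ N)), p.2.map (QuotientGroup.mk' N)⟩
  have hfib : ∀ t : {t : (X ⧸ N) × (X ⧸ N) // Commute t.1 t.2},
      Nat.card {s : {p : X × X // Commute p.1 p.2} // π s = t} ≤
        Nat.card {p : N × N // Commute p.1 p.2} := by
    intro t
    let E : {s : {p : X × X // Commute p.1 p.2} // π s = t} ≃
        {p : X × X // Commute p.1 p.2 ∧ (p.1 : X ⧸ N) = t.1.1 ∧ (p.2 : X ⧸ N) = t.1.2} :=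
      { toFun := fun s => ⟨s.1.1, s.1.2, congrArg (fun u : {t : (X ⧸ N) × (X ⧸ N) //
            Commute t.1 t.2} => u.1.1) s.2, congrArg (fun u : {t : (X ⧸ N) × (X ⧸ N) //
            Commute t.1 t.2} => u.1.2) s.2⟩
        invFun := fun p => ⟨⟨p.1, p.2.1⟩, Subtype.ext (Prod.ext p.2.2.1 p.2.2.2)⟩
        left_inv := fun s => rfl
        right_inv := fun p => rfl }
    rw [Nat.card_congr E]
    exact fiber_le N t.1.1 t.1.2
  have h1 : Nat.card {p : X × X // Commute p.1 p.2} ≤
      Nat.card {t : (X ⧸ N) × (X ⧸ N) // Commute t.1 t.2} *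
        Nat.card {p : N × N // Commute p.1 p.2} := by
    rw [← Nat.card_congr (Equiv.sigmaFiberEquiv π), Nat.card_sigma]
    calc ∑ t, Nat.card {s : {p : X × X // Commute p.1 p.2} // π s = t}
        ≤ ∑ _t : {t : (X ⧸ N) × (X ⧸ N) // Commute t.1 t.2},
            Nat.card {p : N × N // Commute p.1 p.2} := Finset.sum_le_sum fun t _ => hfib t
      _ = _ := by
          rw [Finset.sum_const, Finset.card_univ, smul_eq_mul, ← Nat.card_eq_fintype_card]
  rw [card_comm_eq_card_conjClasses_mul_card, card_comm_eq_card_conjClasses_mul_card,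
    card_comm_eq_card_conjClasses_mul_card] at h1
  have h2 : Nat.card X = Nat.card (X ⧸ N) * Nat.card N :=
    Subgroup.card_eq_card_quotient_mul_card_subgroup N
  have hpos : 0 < Nat.card X := Nat.card_pos
  have h3 : Nat.card (ConjClasses X) * Nat.card X ≤
      (Nat.card (ConjClasses N) * Nat.card (ConjClasses (X ⧸ N))) * Nat.card X := by
    calc _ ≤ _ := h1
      _ = _ := by rw [h2]; ring
  exact Nat.le_of_mul_le_mul_right h3 hpos

end Cfsg.Agent.S4201
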