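import Cfsg.Statements.S4203
import Cfsg.Agent.S0144

set_option autoImplicit false
open Cfsg

namespace Cfsg.Agent.S4203

/-- Number theory: `q ≤ p` primes, `q^k ≡ 1 mod p` for `k = 1` or `2` forces `q = 2`, `p = 3`. -/
theorem nt_aux {p q : ℕ} (hp : p.Prime) (hq : q.Prime) (hqp : q ≤ p) {m : ℕ}
    (hm : m = q ∨ m = q ^ 2) (h1 : m ≡ 1 [MOD p]) : q = 2 ∧ p = 3 := by
  have hp2 := hp.two_le
  have hq2 := hq.two_le
  rcases hm with rfl | rfl
  · exfalso
    rcases hqp.eq_or_lt with rfl | hlt
    · have : (m : ℕ) % m = 1 % m := h1
      rw [Nat.mod_self, Nat.mod_eq_of_lt (by omega)] at this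
      omega
    · have : (m : ℕ) % p = 1 % p := h1
      rw [Nat.mod_eq_of_lt hlt, Nat.mod_eq_of_lt (by omega)] at this
      omega
  · have hdvd : p ∣ q ^ 2 - 1 := (Nat.modEq_iff_dvd' (Nat.one_le_pow _ _ (by omega))).1 h1.symm
    have hfac : q ^ 2 - 1 = (q - 1) * (q + 1) := by
      obtain ⟨k, rfl⟩ : ∃ k, q = k + 1 := ⟨q - 1, by omega⟩
      simp only [Nat.add_sub_cancel]
      have : (k + 1) ^ 2 = k * (k + 1 + 1) + 1 := by ring
      rw [this, Nat.add_sub_cancel]
    rw [hfac] at hdvd
    rcases (Nat.Prime.dvd_mul hp).1 hdvd with h | h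
    · exfalso
      have := Nat.le_of_dvd (by omega) h
      omega
    · have hle := Nat.le_of_dvd (by omega) h
      have hpq : p = q ∨ p = q + 1 := by omega
      rcases hpq with rfl | rfl
      · exfalso
        have : p ∣ 1 := (Nat.dvd_add_right (dvd_refl p)).1 h
        have := Nat.le_of_dvd (by omega) this
        omega
      · rcases hq.eq_two_or_odd with h2 | hodd
        · exact ⟨h2, by omega⟩
        · exfalso
          rcases hp.eq_two_or_odd with h2 | hodd'
          · omega
          · omega

/-- A positive number all of whose prime factors are `≤ 3` is `2^a * 3^b`. -/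
theorem two_three_aux {n : ℕ} (hn : n ≠ 0) (h : ∀ r : ℕ, r.Prime → r ∣ n → r ≤ 3) :
    ∃ a b : ℕ, n = 2 ^ a * 3 ^ b := by
  induction n using Nat.strong_induction_on with
  | _ n ih =>
    by_cases h1 : n = 1
    · exact ⟨0, 0, by simp [h1]⟩
    · obtain ⟨r, hr, hrn⟩ := Nat.exists_prime_and_dvd h1
      have hr3 := h r hr hrn
      obtain ⟨m, rfl⟩ := hrn
      have hm0 : m ≠ 0 := by rintro rfl; simp at hn
      have hlt : m < r * m := by
        have := hr.two_le
        nlinarith [Nat.pos_of_ne_zero hm0]
      obtain ⟨a, b, hab⟩ := ih m hlt hm0 (fun s hs hsm => h s hs (Dvd.dvd.mul_left hsm r))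
      have hr2 := hr.two_le
      have : r = 2 ∨ r = 3 := by omega
      rcases this with rfl | rfl
      · exact ⟨a + 1, b, by rw [hab]; ring⟩
      · exact ⟨a, b + 1, by rw [hab]; ring⟩

/-- Index of a subgroup containing a Sylow normalizer is `≡ 1 mod p`. -/
theorem index_modEq_one {G : Type*} [Group G] [Finite G] {p : ℕ} [Fact p.Prime]
    (P : Sylow p G) (M : Subgroup G) (hM : Subgroup.normalizer ((P : Subgroup G) : Set G) ≤ M) :
    M.index ≡ 1 [MOD p] := by
  have hPM : (P : Subgroup G) ≤ M := Subgroup.le_normalizer.trans hM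
  have h1 : (Subgroup.normalizer ((P : Subgroup G) : Set G)).index ≡ 1 [MOD p] := by
    have := card_sylow_modEq_one p G
    rw [Sylow.card_eq_index_normalizer P] at this
    exact this
  have h2 : (Subgroup.normalizer ((P : Subgroup G) : Set G)).relIndex M ≡ 1 [MOD p] := by
    have := card_sylow_modEq_one p M
    rw [Sylow.card_eq_index_normalizer (P.subtype hPM)] at this
    change (Subgroup.normalizer (((P : Subgroup G).subgroupOf M : Subgroup M) : Set M)).index
      ≡ 1 [MOD p] at this
    rw [← Subgroup.subgroupOf_normalizer_eq hPM] at this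
    exact this
  have h3 : (Subgroup.normalizer ((P : Subgroup G) : Set G)).relIndex M * M.index = (Subgroup.normalizer ((P : Subgroup G) : Set G)).index :=
    Subgroup.relIndex_mul_index hM
  rw [← h3] at h1
  have h4 : (Subgroup.normalizer ((P : Subgroup G) : Set G)).relIndex M * M.index ≡ 1 * M.index [MOD p] :=
    Nat.ModEq.mul_right _ h2
  rw [one_mul] at h4
  exact h4.symm.trans h1

theorem main (n : ℕ) : ∀ (G : Type*) [Group G] [Finite G], Nat.card G = n →
    (∀ M : Subgroup G, IsCoatom M → ∃ p : ℕ, p.Prime ∧ (M.index = p ∨ M.index = p ^ 2)) →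
    Group.IsSolvable G := by
  induction n using Nat.strong_induction_on with
  | _ n ih =>
    intro G _ _ hn h
    by_cases htriv : Nat.card G = 1
    · have : Subsingleton G := (Nat.card_eq_one_iff_unique.1 htriv).1
      infer_instance
    -- largest prime factor
    have hne : (Nat.card G).primeFactors.Nonempty := by
      rw [Nat.nonempty_primeFactors]
      have := Nat.card_pos (α := G)
      omega
    set p := (Nat.card G).primeFactors.max' hne with hp_def
    have hpmem : p ∈ (Nat.card G).primeFactors := Finset.max'_mem _ hne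
    have hp : p.Prime := Nat.prime_of_mem_primeFactors hpmem
    have hpdvd : p ∣ Nat.card G := Nat.dvd_of_mem_primeFactors hpmem
    have hmax : ∀ r : ℕ, r.Prime → r ∣ Nat.card G → r ≤ p := by
      intro r hr hrd
      exact Finset.le_max' _ r (Nat.mem_primeFactors.2 ⟨hr, hrd, Nat.card_pos.ne'⟩)
    have : Fact p.Prime := ⟨hp⟩
    obtain P : Sylow p G := default
    by_cases hnorm : (P : Subgroup G).Normal
    · -- quotient is solvable by induction
      have hPne : (P : Subgroup G) ≠ ⊥ := by
        intro hbot
        have := P.card_eq_multiplicity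
        rw [hbot, Subgroup.card_bot] at this
        have h0 : (Nat.card G).factorization p = 0 := by
          by_contra h0
          have : 1 < p ^ (Nat.card G).factorization p := Nat.one_lt_pow h0 hp.one_lt
          omega
        have := (hp.factorization_pos_of_dvd Nat.card_pos.ne' hpdvd)
        omega
      have hlt : Nat.card (G ⧸ (P : Subgroup G)) < n := by
        rw [← hn, ← Subgroup.index_eq_card, ← Subgroup.index_mul_card (P : Subgroup G)]
        have h1 : 1 < Nat.card (P : Subgroup G) := by
          rw [Subgroup.one_lt_card_iff_ne_bot]; exact hPne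
        have h2 : 0 < (P : Subgroup G).index := Nat.pos_of_ne_zero Subgroup.index_ne_zero_of_finite
        nlinarith
      have hQ : Group.IsSolvable (G ⧸ (P : Subgroup G)) := by
        refine ih _ hlt (G ⧸ (P : Subgroup G)) rfl ?_
        intro M' hM'
        have hco := Subgroup.isCoatom_comap_of_surjective
          (QuotientGroup.mk'_surjective (P : Subgroup G)) hM'
        obtain ⟨q, hq, hqi⟩ := h _ hco
        rw [Subgroup.index_comap_of_surjective _ (QuotientGroup.mk'_surjective (P : Subgroup G))]
          at hqi
        exact ⟨q, hq, hqi⟩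
      have hPs : Group.IsSolvable (P : Subgroup G) := by
        have : Group.IsNilpotent (P : Subgroup G) := P.isPGroup'.isNilpotent
        infer_instance
      exact Group.isSolvable_of_ker_le_range (P : Subgroup G).subtype (QuotientGroup.mk' (P : Subgroup G))
        (by rw [QuotientGroup.ker_mk', Subgroup.range_subtype])
    · -- a maximal subgroup containing the normalizer
      have hNne : Subgroup.normalizer ((P : Subgroup G) : Set G) ≠ ⊤ := by
        intro htop
        exact hnorm (Subgroup.normalizer_eq_top_iff.1 htop)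
      obtain ⟨M, hMco, hNM⟩ := (eq_top_or_exists_le_coatom _).resolve_left hNne
      obtain ⟨q, hq, hqi⟩ := h M hMco
      have hmod := index_modEq_one P M hNM
      have hqdvd : q ∣ Nat.card G := by
        have h1 : M.index ∣ Nat.card G := Subgroup.index_dvd_card M
        rcases hqi with h2 | h2
        · rw [h2] at h1; exact h1
        · rw [h2] at h1; exact (dvd_pow_self q (by norm_num)).trans h1
      have hqp := hmax q hq hqdvd
      obtain ⟨-, hp3⟩ := nt_aux hp hq hqp hqi hmod
      obtain ⟨a, b, hab⟩ := two_three_aux (Nat.card_pos (α := G)).ne'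
        (fun r hr hrd => hp3 ▸ hmax r hr hrd)
      exact Cfsg.Agent.S0144.result 2 3 a b Nat.prime_two Nat.prime_three hab

/-- A finite group in which every maximal subgroup has index a prime or the square of a prime is solvable. -/
theorem result {G : Type*} [Group G] [Finite G] (h : ∀ M : Subgroup G, IsCoatom M → ∃ p : ℕ, p.Prime ∧ (M.index = p ∨ M.index = p ^ 2)) : Group.IsSolvable G := by
  exact main (Nat.card G) G rfl h

end Cfsg.Agent.S4203
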