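import Cfsg.Statements.S4204

set_option autoImplicit false
open Cfsg

namespace Cfsg.Agent.S4204

variable {G : Type*} [Group G]

theorem comm_le_iff (N : Subgroup G) [N.Normal] (X Y : Subgroup G) :
    ⁅X, Y⁆ ≤ N ↔ X.map (QuotientGroup.mk' N) ≤
      Subgroup.centralizer (Y.map (QuotientGroup.mk' N) : Set (G ⧸ N)) := by
  rw [← Subgroup.commutator_eq_bot_iff_le_centralizer, ← Subgroup.map_commutator,
    Subgroup.map_eq_bot_iff, QuotientGroup.ker_mk']

theorem comm_iSup_le {ι : Sort*} (N : Subgroup G) [N.Normal] (X : ι → Subgroup G) (Y : Subgroup G)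
    (h : ∀ i, ⁅X i, Y⁆ ≤ N) : ⁅⨆ i, X i, Y⁆ ≤ N := by
  rw [comm_le_iff, Subgroup.map_iSup]
  exact iSup_le fun i => (comm_le_iff N (X i) Y).mp (h i)

theorem comm_sup_right_le (N : Subgroup G) [N.Normal] (X Y₁ Y₂ : Subgroup G)
    (h1 : ⁅X, Y₁⁆ ≤ N) (h2 : ⁅X, Y₂⁆ ≤ N) : ⁅X, Y₁ ⊔ Y₂⁆ ≤ N := by
  rw [Subgroup.commutator_comm] at h1 h2 ⊢
  rw [comm_le_iff] at h1 h2 ⊢
  rw [Subgroup.map_sup]
  exact sup_le h1 h2

/-- shifted lower central series: term 0 is the whole group -/
def ser (H : Subgroup G) : ℕ → Subgroup G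
  | 0 => ⊤
  | i + 1 => H.lowerCentralSeries i

theorem lcs_normal (H : Subgroup G) [H.Normal] (i : ℕ) : (H.lowerCentralSeries i).Normal := by
  induction i with
  | zero => simpa using ‹H.Normal›
  | succ i ih =>
    rw [Subgroup.lowerCentralSeries_succ]
    exact Subgroup.commutator_normal _ _

instance ser_normal (H : Subgroup G) [H.Normal] (i : ℕ) : (ser H i).Normal := by
  cases i with
  | zero => exact Subgroup.normal_top
  | succ i => exact lcs_normal H i

theorem ser_step (H : Subgroup G) [H.Normal] (i : ℕ) : ⁅ser H i, H⁆ ≤ ser H (i + 1) := by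
  cases i with
  | zero => exact Subgroup.commutator_le_right _ _
  | succ i => exact le_rfl

theorem ser_eq_bot (H : Subgroup G) (c i : ℕ) (hc : H.lowerCentralSeries c = ⊥) (hi : c + 1 ≤ i) :
    ser H i = ⊥ := by
  obtain ⟨j, rfl⟩ : ∃ j, i = j + 1 := ⟨i - 1, by omega⟩
  have : H.lowerCentralSeries j ≤ H.lowerCentralSeries c :=
    Subgroup.lowerCentralSeries_antitone H (by omega)
  rw [hc] at this
  exact le_bot_iff.mp this

theorem key (H K : Subgroup G) [H.Normal] [K.Normal] (n : ℕ) :
    (H ⊔ K).lowerCentralSeries n ≤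
      ⨆ (p : ℕ × ℕ) (_ : p.1 + p.2 = n + 1), ser H p.1 ⊓ ser K p.2 := by
  induction n with
  | zero =>
    rw [Subgroup.lowerCentralSeries_zero]
    refine sup_le ?_ ?_
    · refine le_iSup₂_of_le (1, 0) rfl ?_
      simp [ser]
    · refine le_iSup₂_of_le (0, 1) rfl ?_
      simp [ser]
  | succ n ih =>
    rw [Subgroup.lowerCentralSeries_succ]
    refine (Subgroup.commutator_mono ih le_rfl).trans ?_
    apply comm_sup_right_le
    · apply comm_iSup_le
      intro p
      apply comm_iSup_le
      intro hp
      refine le_iSup₂_of_le (p.1 + 1, p.2) (by simp only; omega) ?_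
      refine le_inf ?_ ?_
      · exact (Subgroup.commutator_mono inf_le_left le_rfl).trans (ser_step H p.1)
      · exact (Subgroup.commutator_mono inf_le_right le_rfl).trans (Subgroup.commutator_le_left _ _)
    · apply comm_iSup_le
      intro p
      apply comm_iSup_le
      intro hp
      refine le_iSup₂_of_le (p.1, p.2 + 1) (by simp only; omega) ?_
      refine le_inf ?_ ?_
      · exact (Subgroup.commutator_mono inf_le_left le_rfl).trans (Subgroup.commutator_le_left _ _)
      · exact (Subgroup.commutator_mono inf_le_right le_rfl).trans (ser_step K p.2)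

/-- If `H` and `K` are normal subgroups of a finite group with `H` nilpotent of class at most `c` and `K` nilpotent of class at most `d` (the terms with index `c`, respectively `d`, of their lower central series are trivial, indices starting at `0`), then `HK` is nilpotent of class at most `c + d`. -/
theorem result {G : Type*} [Group G] [Finite G] (H K : Subgroup G) [H.Normal] [K.Normal] (c d : ℕ) (hH : H.lowerCentralSeries c = ⊥) (hK : K.lowerCentralSeries d = ⊥) : (H ⊔ K).lowerCentralSeries (c + d) = ⊥ := by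
  refine le_bot_iff.mp ((key H K (c + d)).trans ?_)
  refine iSup₂_le ?_
  intro p hp
  by_cases h : c + 1 ≤ p.1
  · rw [ser_eq_bot H c p.1 hH h]; exact inf_le_left
  · rw [ser_eq_bot K d p.2 hK (by omega)]; exact inf_le_right

end Cfsg.Agent.S4204
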