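import Cfsg.Statements.S4216
import Mathlib
import Cfsg.Agent.Lib.Helper72.AlperinChain

set_option autoImplicit false
open Cfsg

namespace Cfsg.Agent.S4216

open scoped Pointwise commutatorElement

/-- a conjugate of `P'` : every Sylow subgroup containing `w` and `x` puts `⁅w, x⁆` there. -/
theorem comm_mem_map {G : Type*} [Group G] [Finite G] {p : ℕ} [Fact p.Prime] (P S : Sylow p G)
    (w x : G) (hw : w ∈ (S : Subgroup G)) (hx : x ∈ (S : Subgroup G)) :
    ∃ z : G, ⁅w, x⁆ ∈ (⁅(P : Subgroup G), (P : Subgroup G)⁆).map (MulAut.conj z).toMonoidHom := by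
  obtain ⟨z, hz⟩ := MulAction.exists_smul_eq G P S
  refine ⟨z, ?_⟩
  have h1 : (S : Subgroup G) = (P : Subgroup G).map (MulAut.conj z).toMonoidHom := by
    rw [← hz, Sylow.smul_def, Sylow.pointwise_smul_def, Subgroup.pointwise_smul_def]
    rfl
  rw [Subgroup.map_commutator, ← h1]
  exact Subgroup.commutator_mem_commutator hw hx

/-- Grün's first Theorem: if `P` is a Sylow `p`-subgroup of the finite group `G`, then `P ∩ G'` is the subgroup generated by `P ∩ N_G(P)'` together with the subgroups `P ∩ z P' z⁻¹` for all `z ∈ G`, where `'` denotes the derived subgroup and `N_G(P)` the normalizer of `P`. -/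
theorem result {G : Type*} [Group G] [Finite G] {p : ℕ} [Fact p.Prime] (P : Sylow p G) : (P : Subgroup G) ⊓ commutator G = ((P : Subgroup G) ⊓ ⁅Subgroup.normalizer ((P : Subgroup G) : Set G), Subgroup.normalizer ((P : Subgroup G) : Set G)⁆) ⊔ ⨆ z : G, (P : Subgroup G) ⊓ (⁅(P : Subgroup G), (P : Subgroup G)⁆).map (MulAut.conj z).toMonoidHom := by
  set D : Subgroup G := ((P : Subgroup G) ⊓ ⁅Subgroup.normalizer ((P : Subgroup G) : Set G), Subgroup.normalizer ((P : Subgroup G) : Set G)⁆) ⊔ ⨆ z : G, (P : Subgroup G) ⊓ (⁅(P : Subgroup G), (P : Subgroup G)⁆).map (MulAut.conj z).toMonoidHom with hD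
  have hD1 : (P : Subgroup G) ⊓ ⁅Subgroup.normalizer ((P : Subgroup G) : Set G), Subgroup.normalizer ((P : Subgroup G) : Set G)⁆ ≤ D := le_sup_left
  have hD2 : ∀ z : G, (P : Subgroup G) ⊓ (⁅(P : Subgroup G), (P : Subgroup G)⁆).map (MulAut.conj z).toMonoidHom ≤ D :=
    fun z => (le_iSup (fun z : G => (P : Subgroup G) ⊓ (⁅(P : Subgroup G), (P : Subgroup G)⁆).map (MulAut.conj z).toMonoidHom) z).trans le_sup_right
  apply le_antisymm
  · -- `P ∩ G' ≤ D` by the focal subgroup theorem and Alperin's fusion theorem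
    rw [inf_comm, Subgroup.commutator_inf_eq_focalSubgroup, Subgroup.focalSubgroup_def,
      Subgroup.closure_le]
    rintro g ⟨hgP, x, hxP, u, rfl⟩
    have hconj : (u⁻¹)⁻¹ * x * u⁻¹ ∈ (P : Subgroup G) := by
      have h1 : (u⁻¹)⁻¹ * x * u⁻¹ = (⁅x, u⁆)⁻¹ * x := by
        rw [commutatorElement_def]; group
      rw [h1]
      exact (P : Subgroup G).mul_mem ((P : Subgroup G).inv_mem hgP) hxP
    have key := Cfsg.Agent.Lib.Helper72.AlperinChain.alperin_induction P
      (fun a b => a * b⁻¹ ∈ D)
      (fun a => by simp [D.one_mem])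
      (fun a b c hab hbc => by
        have h1 : a * c⁻¹ = (a * b⁻¹) * (b * c⁻¹) := by group
        rw [h1]; exact D.mul_mem hab hbc)
      (by
        intro Q w y _ hw hy hQ
        have hwP : w ∈ (P : Subgroup G) := hw.1
        have hyw : y⁻¹ * w⁻¹ * y ∈ (P : Subgroup G) ⊓ (Q : Subgroup G) := by
          have h1 := (Subgroup.mem_normalizer_iff''.1 hy w⁻¹).1
            (((P : Subgroup G) ⊓ (Q : Subgroup G)).inv_mem hw)
          exact h1
        have hel : w * (y⁻¹ * w * y)⁻¹ = ⁅w, y⁻¹⁆ := by
          rw [commutatorElement_def]; group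
        have hmemP : ⁅w, y⁻¹⁆ ∈ (P : Subgroup G) := by
          have h1 : ⁅w, y⁻¹⁆ = w * (y⁻¹ * w⁻¹ * y) := by
            rw [commutatorElement_def]; group
          rw [h1]
          exact (P : Subgroup G).mul_mem hwP hyw.1
        show w * (y⁻¹ * w * y)⁻¹ ∈ D
        rw [hel]
        rcases hQ with hQP | ⟨k, hk⟩
        · -- `y` normalizes `P`
          apply hD1
          have hyN : y ∈ Subgroup.normalizer ((P : Subgroup G) : Set G) := by
            have h2 : ((P : Subgroup G) ⊓ (Q : Subgroup G)) = (P : Subgroup G) := by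
              rw [hQP, inf_idem]
            rw [h2] at hy
            exact hy
          refine Subgroup.mem_inf.2 ⟨hmemP, ?_⟩
          exact Subgroup.commutator_mem_commutator (Subgroup.le_normalizer hwP)
            ((Subgroup.normalizer ((P : Subgroup G) : Set G)).inv_mem hyN)
        · -- `y` is a `p`-element normalizing `P ∩ Q`
          have hT : IsPGroup p ((P : Subgroup G) ⊓ (Q : Subgroup G) : Subgroup G) :=
            P.isPGroup'.to_le inf_le_left
          have hZ : IsPGroup p (Subgroup.zpowers y) := by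
            apply IsPGroup.of_card (n := k)
            rw [Nat.card_zpowers, hk]
          have hK := IsPGroup.to_sup_of_normal_right' hZ hT
            ((Subgroup.zpowers_le).2 hy)
          obtain ⟨S, hS⟩ := hK.exists_le_sylow
          have hwS : w ∈ (S : Subgroup G) := hS (Subgroup.mem_sup_right hw)
          have hyS : y⁻¹ ∈ (S : Subgroup G) :=
            (S : Subgroup G).inv_mem (hS (Subgroup.mem_sup_left (Subgroup.mem_zpowers y)))
          obtain ⟨z, hz⟩ := comm_mem_map P S w y⁻¹ hwS hyS
          exact hD2 z (Subgroup.mem_inf.2 ⟨hmemP, hz⟩))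
      x u⁻¹ hxP hconj
    have h2 : x * ((u⁻¹)⁻¹ * x * u⁻¹)⁻¹ = ⁅x, u⁆ := by
      rw [commutatorElement_def]; group
    have key' : x * ((u⁻¹)⁻¹ * x * u⁻¹)⁻¹ ∈ D := key
    rw [h2] at key'
    exact key'
  · -- `D ≤ P ∩ G'`
    apply sup_le
    · apply inf_le_inf_left
      rw [commutator_def]
      exact Subgroup.commutator_mono le_top le_top
    · apply iSup_le
      intro z
      apply inf_le_inf_left
      rw [Subgroup.map_commutator, commutator_def]
      exact Subgroup.commutator_mono le_top le_top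

end Cfsg.Agent.S4216
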