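import Cfsg.Statements.S4217

set_option autoImplicit false
open Cfsg

namespace Cfsg.Agent.S4217

variable {G : Type*} [Group G]

/-- `δ` is a crossed homomorphism on `H` with values in the normal subgroup `A`,
restricting to the `m`-th power map on `A`. -/
def IsDer (A : Subgroup G) [A.Normal] (H : Subgroup G) (δ : G → A) (m : ℤ) : Prop :=
  (∀ g ∈ H, ∀ h ∈ H, δ (g * h) = δ g * MulAut.conjNormal g (δ h)) ∧ ∀ a : A, δ a = a ^ m

theorem conj_of_mem (A : Subgroup G) [A.Normal] (hA : ∀ a b : A, a * b = b * a) (x a : A) :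
    MulAut.conjNormal (x : G) a = a := by
  apply Subtype.ext
  rw [MulAut.conjNormal_apply]
  have := congrArg Subtype.val (hA x a)
  simp only [Subgroup.coe_mul] at this
  rw [this, mul_assoc, mul_inv_cancel, mul_one]

theorem exists_complement_of_der (A : Subgroup G) [A.Normal] (hA : ∀ a b : A, a * b = b * a)
    (δ : G → A) (h : IsDer A ⊤ δ 1) : ∃ K : Subgroup G, K.IsComplement' A := by
  obtain ⟨hd, hA1⟩ := h
  have hd' : ∀ g h, δ (g * h) = δ g * MulAut.conjNormal g (δ h) :=
    fun g h => hd g trivial h trivial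
  have h1 : δ 1 = 1 := by
    have := hd' 1 1
    rw [map_one, MulAut.one_apply, mul_one] at this
    exact left_eq_mul.1 this
  let K : Subgroup G :=
    { carrier := {g | δ g = 1}
      one_mem' := h1
      mul_mem' := by
        intro a b ha hb
        simp only [Set.mem_ofPred_eq] at *
        rw [hd', ha, hb, map_one, mul_one]
      inv_mem' := by
        intro a ha
        simp only [Set.mem_ofPred_eq] at *
        have := hd' a a⁻¹
        rw [mul_inv_cancel, h1, ha, one_mul] at this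
        exact (map_eq_one_iff (MulAut.conjNormal a) (MulEquiv.injective _)).1 this.symm }
  refine ⟨K, Subgroup.isComplement'_of_disjoint_and_mul_eq_univ ?_ ?_⟩
  · rw [Subgroup.disjoint_def]
    intro x hxK hxA
    have hx1 : δ x = 1 := hxK
    have h2 := hA1 ⟨x, hxA⟩
    rw [zpow_one] at h2
    simp only at h2
    rw [hx1] at h2
    exact (congrArg Subtype.val h2).symm
  · rw [Set.eq_univ_iff_forall]
    intro g
    refine ⟨((δ g)⁻¹ : A) * g, ?_, g⁻¹ * (δ g : G) * g, ?_, ?_⟩
    · show δ (((δ g)⁻¹ : A) * g) = 1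
      rw [hd', hA1, zpow_one, conj_of_mem A hA, inv_mul_cancel]
    · have := Subgroup.Normal.conj_mem (inferInstance : A.Normal) (δ g) (δ g).2 g⁻¹
      simpa using this
    · simp only [Subgroup.coe_inv]
      group

theorem exists_der_of_complement (A : Subgroup G) [A.Normal] (hA : ∀ a b : A, a * b = b * a)
    (K H : Subgroup G) (hKA : K ⊓ A = ⊥) (hKH : K ⊔ A = H) : ∃ δ : G → A, IsDer A H δ 1 := by
  classical
  have hex : ∀ g ∈ H, ∃ a : A, (a : G)⁻¹ * g ∈ K := by
    intro g hg
    rw [← hKH, sup_comm, ← SetLike.mem_coe, Subgroup.normal_mul] at hg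
    obtain ⟨a, ha, k, hk, rfl⟩ := Set.mem_mul.1 hg
    exact ⟨⟨a, ha⟩, by simpa using hk⟩
  have huniq : ∀ g, ∀ a b : A, (a : G)⁻¹ * g ∈ K → (b : G)⁻¹ * g ∈ K → a = b := by
    intro g a b ha hb
    have h1 : (a : G)⁻¹ * b ∈ K := by
      have := K.mul_mem ha (K.inv_mem hb)
      simpa [mul_assoc] using this
    have h2 : (a : G)⁻¹ * b ∈ A := A.mul_mem (A.inv_mem a.2) b.2
    have h3 : (a : G)⁻¹ * b ∈ K ⊓ A := ⟨h1, h2⟩
    rw [hKA, Subgroup.mem_bot] at h3
    exact Subtype.ext (inv_mul_eq_one.1 h3)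
  let δ : G → A := fun g => if h : ∃ a : A, (a : G)⁻¹ * g ∈ K then h.choose else 1
  have hδ : ∀ g (a : A), (a : G)⁻¹ * g ∈ K → δ g = a := by
    intro g a ha
    have hex' : ∃ a : A, (a : G)⁻¹ * g ∈ K := ⟨a, ha⟩
    simp only [δ, dif_pos hex']
    exact huniq g _ _ hex'.choose_spec ha
  refine ⟨δ, ?_, ?_⟩
  · intro g hg h hh
    obtain ⟨a, ha⟩ := hex g hg
    obtain ⟨b, hb⟩ := hex h hh
    rw [hδ g a ha, hδ h b hb]
    apply hδ
    have hc : ((a * MulAut.conjNormal g b : A) : G)⁻¹ * (g * h)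
        = ((a : G)⁻¹ * g) * ((b : G)⁻¹ * h) := by
      rw [hA a, Subgroup.coe_mul, MulAut.conjNormal_apply]; group
    rw [hc]; exact K.mul_mem ha hb
  · intro a
    rw [zpow_one]
    apply hδ
    simp

theorem exists_der_top [Finite G] (A : Subgroup G) [A.Normal] (hA : ∀ a b : A, a * b = b * a)
    (H : Subgroup G) (hAH : A ≤ H) (δ : G → A) (h : IsDer A H δ 1) :
    ∃ Δ : G → A, IsDer A ⊤ Δ (H.index : ℤ) := by
  classical
  obtain ⟨hd, hδA⟩ := h
  let _ : CommGroup A := { (inferInstance : Group A) with mul_comm := hA }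
  have : Fintype (G ⧸ H) := Fintype.ofFinite _
  let r : G ⧸ H → G := Quotient.out
  have hr : ∀ q : G ⧸ H, (r q : G ⧸ H) = q := fun q => QuotientGroup.out_eq' q
  have hsm : ∀ (g : G) (q : G ⧸ H), ((g * r q : G) : G ⧸ H) = g • q := by
    intro g q
    conv_rhs => rw [← hr q]
    rfl
  have hmem : ∀ (g : G) (q : G ⧸ H), (r (g • q))⁻¹ * g * r q ∈ H := by
    intro g q
    have h1 : ((r (g • q) : G) : G ⧸ H) = ((g * r q : G) : G ⧸ H) := by rw [hr, hsm]
    have := QuotientGroup.eq.1 h1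
    simpa [mul_assoc] using this
  let F : G → G ⧸ H → A := fun g q =>
    MulAut.conjNormal (r (g • q)) (δ ((r (g • q))⁻¹ * g * r q))
  refine ⟨fun g => ∏ q : G ⧸ H, F g q, ?_, ?_⟩
  · intro g₁ _ g₂ _
    show ∏ q : G ⧸ H, F (g₁ * g₂) q = (∏ q : G ⧸ H, F g₁ q) * MulAut.conjNormal g₁ (∏ q : G ⧸ H, F g₂ q)
    have hterm : ∀ q : G ⧸ H, F (g₁ * g₂) q = F g₁ (g₂ • q) * MulAut.conjNormal g₁ (F g₂ q) := by
      intro q
      simp only [F]
      have hx := hmem g₁ (g₂ • q)
      have hy := hmem g₂ q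
      have hxy : (r ((g₁ * g₂) • q))⁻¹ * (g₁ * g₂) * r q
          = ((r (g₁ • g₂ • q))⁻¹ * g₁ * r (g₂ • q)) * ((r (g₂ • q))⁻¹ * g₂ * r q) := by
        rw [mul_smul]; group
      rw [hxy, hd _ hx _ hy, map_mul, mul_smul]
      congr 1
      rw [← MulAut.mul_apply, ← map_mul, ← MulAut.mul_apply, ← map_mul]
      congr 2
      group
    rw [Finset.prod_congr rfl (fun q _ => hterm q), Finset.prod_mul_distrib, map_prod]
    congr 1
    exact Equiv.prod_comp (MulAction.toPerm g₂) (F g₁)
  · intro a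
    show ∏ q : G ⧸ H, F (a : G) q = a ^ (H.index : ℤ)
    have hterm : ∀ q : G ⧸ H, F (a : G) q = a := by
      intro q
      have hq : (a : G) • q = q := by
        rw [← hsm, ← hr q]
        apply QuotientGroup.eq.2
        rw [hr q]
        have : ((a : G) * r q)⁻¹ * r q = (r q)⁻¹ * (a : G)⁻¹ * r q := by group
        rw [this]
        apply hAH
        have := Subgroup.Normal.conj_mem (inferInstance : A.Normal) _ (A.inv_mem a.2) (r q)⁻¹
        simpa using this
      simp only [F]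
      rw [hq]
      have hmemA : (r q)⁻¹ * (a : G) * r q ∈ A := by
        have := Subgroup.Normal.conj_mem (inferInstance : A.Normal) _ a.2 (r q)⁻¹
        simpa using this
      have h1 := hδA ⟨_, hmemA⟩
      rw [zpow_one] at h1
      simp only at h1
      rw [h1]
      apply Subtype.ext
      rw [MulAut.conjNormal_apply]
      simp only
      group
    rw [Finset.prod_congr rfl (fun q _ => hterm q), Finset.prod_const, Finset.card_univ,
      zpow_natCast, Subgroup.index_eq_card, Nat.card_eq_fintype_card]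

/-- The degrees of crossed homomorphisms `G → A` form a subgroup of `ℤ`. -/
def degs (A : Subgroup G) [A.Normal] (hA : ∀ a b : A, a * b = b * a) : AddSubgroup ℤ where
  carrier := {m | ∃ δ : G → A, IsDer A ⊤ δ m}
  zero_mem' := ⟨fun _ => 1, by simp [IsDer]⟩
  add_mem' := by
    rintro m n ⟨δ₁, h₁, h₁'⟩ ⟨δ₂, h₂, h₂'⟩
    let _ : CommGroup A := { (inferInstance : Group A) with mul_comm := hA }
    refine ⟨fun g => δ₁ g * δ₂ g, ?_, ?_⟩
    · intro g _ h _
      simp only
      rw [h₁ g trivial h trivial, h₂ g trivial h trivial, map_mul]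
      exact mul_mul_mul_comm _ _ _ _
    · intro a
      simp only
      rw [h₁', h₂', zpow_add]
  neg_mem' := by
    rintro m ⟨δ, h, h'⟩
    refine ⟨fun g => (δ g)⁻¹, ?_, ?_⟩
    · intro g _ k _
      simp only
      rw [h g trivial k trivial, mul_inv_rev, map_inv, hA]
    · intro a
      simp only
      rw [h', zpow_neg]

theorem one_mem_of_coprime (D : AddSubgroup ℤ) (n : ℕ) (hn : 1 < n)
    (h : ∀ p : ℕ, p.Prime → p ∣ n → ∃ m : ℕ, (m : ℤ) ∈ D ∧ m ∣ n ∧ ¬ p ∣ m) : (1 : ℤ) ∈ D := by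
  obtain ⟨d, hd⟩ := Int.subgroup_cyclic D
  have hmem : ∀ x : ℤ, x ∈ D ↔ d ∣ x := by
    intro x
    rw [hd, AddSubgroup.mem_closure_singleton]
    constructor
    · rintro ⟨k, rfl⟩; exact ⟨k, by simp [mul_comm]⟩
    · rintro ⟨k, rfl⟩; exact ⟨k, by simp [mul_comm]⟩
  have hnat : ∀ m : ℕ, (m : ℤ) ∈ D → d.natAbs ∣ m := by
    intro m hm
    have := (hmem _).1 hm
    exact Int.natAbs_dvd_natAbs.2 this
  rw [hmem]
  by_contra hnd
  have h1 : d.natAbs ≠ 1 := by
    intro h1
    apply hnd
    have : d.natAbs ∣ (1 : ℤ).natAbs := by simp [h1]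
    exact Int.natAbs_dvd_natAbs.1 this
  obtain ⟨p, hp, hpd⟩ := Nat.exists_prime_and_dvd h1
  obtain ⟨p₀, hp₀, hp₀n⟩ := Nat.exists_prime_and_dvd (by omega : n ≠ 1)
  obtain ⟨m₀, hm₀D, hm₀n, -⟩ := h p₀ hp₀ hp₀n
  have hpn : p ∣ n := hpd.trans ((hnat m₀ hm₀D).trans hm₀n)
  obtain ⟨m, hmD, -, hpm⟩ := h p hp hpn
  exact hpm (hpd.trans (hnat m hmD))

/-- Let `A` be an abelian normal subgroup of the finite group `G`. Then `A` has a complement in `G` if and only if, for every prime `p` dividing the index of `A`, there are a Sylow `p`-subgroup `S` of `G/A` and a subgroup `K` of `G` with `K ∩ A = 1` and `KA` equal to the preimage of `S` (that is, `A` has a complement in the preimage of a Sylow `p`-subgroup of `G/A`). -/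
theorem result {G : Type*} [Group G] [Finite G] (A : Subgroup G) [A.Normal] (hA : IsMulCommutative A) : (∃ K : Subgroup G, K.IsComplement' A) ↔ ∀ p : ℕ, p.Prime → p ∣ A.index → ∃ (S : Sylow p (G ⧸ A)) (K : Subgroup G), K ⊓ A = ⊥ ∧ K ⊔ A = (S : Subgroup (G ⧸ A)).comap (QuotientGroup.mk' A) := by
  constructor
  · rintro ⟨K, hK⟩ p hp hpd
    have : Fact p.Prime := ⟨hp⟩
    obtain S : Sylow p (G ⧸ A) := default
    refine ⟨S, K ⊓ (S : Subgroup (G ⧸ A)).comap (QuotientGroup.mk' A), ?_, ?_⟩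
    · have := hK.disjoint
      rw [disjoint_iff] at this
      rw [inf_right_comm, this, bot_inf_eq]
    · apply le_antisymm
      · apply sup_le inf_le_right
        intro a ha
        rw [Subgroup.mem_comap]
        have : (QuotientGroup.mk' A) a = 1 := (QuotientGroup.eq_one_iff a).2 ha
        rw [this]; exact one_mem _
      · intro x hx
        have htop := hK.sup_eq_top
        have hx' : x ∈ K ⊔ A := by rw [htop]; trivial
        rw [← SetLike.mem_coe, Subgroup.mul_normal] at hx'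
        obtain ⟨k, hk, a, ha, rfl⟩ := Set.mem_mul.1 hx'
        rw [Subgroup.mem_comap] at hx
        have : (QuotientGroup.mk' A) (k * a) = (QuotientGroup.mk' A) k := by
          have ha1 : (QuotientGroup.mk' A) a = 1 := (QuotientGroup.eq_one_iff a).2 ha
          rw [map_mul, ha1, mul_one]
        rw [this] at hx
        exact Subgroup.mul_mem_sup (Subgroup.mem_inf.2 ⟨hk, Subgroup.mem_comap.2 hx⟩) ha
  · intro h
    by_cases hidx : A.index = 1
    · have hA' : A = ⊤ := Subgroup.index_eq_one.1 hidx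
      exact ⟨⊥, by rw [hA']; exact Subgroup.isComplement'_bot_top⟩
    · have hA2 : ∀ a b : A, a * b = b * a := isMulCommutative_iff.1 hA
      have hone : (1 : ℤ) ∈ degs A hA2 := by
        apply one_mem_of_coprime (degs A hA2) A.index
          (by have := A.index_ne_zero_of_finite; omega)
        intro p hp hpd
        obtain ⟨S, K, hKA, hKS⟩ := h p hp hpd
        have : Fact p.Prime := ⟨hp⟩
        have hAH : A ≤ (S : Subgroup (G ⧸ A)).comap (QuotientGroup.mk' A) := by
          rw [← hKS]; exact le_sup_right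
        obtain ⟨δ, hδ⟩ := exists_der_of_complement A hA2 K _ hKA hKS
        obtain ⟨Δ, hΔ⟩ := exists_der_top A hA2 _ hAH δ hδ
        refine ⟨_, ⟨Δ, hΔ⟩, Subgroup.index_dvd_of_le hAH, ?_⟩
        rw [Subgroup.index_comap_of_surjective _ (QuotientGroup.mk'_surjective A)]
        exact S.not_dvd_index
      obtain ⟨δ, hδ⟩ := hone
      exact exists_complement_of_der A hA2 δ hδ

end Cfsg.Agent.S4217
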