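import Cfsg.Statements.S4219

set_option autoImplicit false
open Cfsg

namespace Cfsg.Agent.S4219

open Subgroup MulAction

theorem exists_sylow_eq_subgroupOf {G : Type*} [Group G] [Finite G] {p : ℕ} [Fact p.Prime]
    (K Q : Subgroup G) (hQK : Q ≤ K) (hQ : IsPGroup p Q)
    (hcard : Nat.card Q = p ^ (Nat.card K).factorization p) :
    ∃ R : Sylow p K, (R : Subgroup K) = Q.subgroupOf K := by
  have hQ' : IsPGroup p (Q.subgroupOf K) := hQ.of_equiv (Subgroup.subgroupOfEquivOfLe hQK).symm
  obtain ⟨R, hR⟩ := hQ'.exists_le_sylow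
  refine ⟨R, (Subgroup.eq_of_le_of_card_ge hR ?_).symm⟩
  rw [Sylow.card_eq_multiplicity, Nat.card_congr (Subgroup.subgroupOfEquivOfLe hQK).toEquiv, hcard]

theorem exists_conj_eq {G : Type*} [Group G] [Finite G] {p : ℕ} [Fact p.Prime]
    (K Q₁ Q₂ : Subgroup G) (h₁ : Q₁ ≤ K) (h₂ : Q₂ ≤ K)
    (hp₁ : IsPGroup p Q₁) (hp₂ : IsPGroup p Q₂)
    (hc₁ : Nat.card Q₁ = p ^ (Nat.card K).factorization p)
    (hc₂ : Nat.card Q₂ = p ^ (Nat.card K).factorization p) :
    ∃ c ∈ K, ∀ y, y ∈ Q₁ ↔ c⁻¹ * y * c ∈ Q₂ := by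
  obtain ⟨R₁, hR₁⟩ := exists_sylow_eq_subgroupOf K Q₁ h₁ hp₁ hc₁
  obtain ⟨R₂, hR₂⟩ := exists_sylow_eq_subgroupOf K Q₂ h₂ hp₂ hc₂
  obtain ⟨c, hc⟩ := MulAction.exists_smul_eq K R₂ R₁
  refine ⟨c, c.2, fun y => ?_⟩
  constructor
  · intro hy
    have hyK : y ∈ K := h₁ hy
    have h1 : (⟨y, hyK⟩ : K) ∈ (R₁ : Subgroup K) := by rw [hR₁]; exact hy
    rw [← hc, Sylow.coe_subgroup_smul, Subgroup.mem_smul_pointwise_iff_exists] at h1
    obtain ⟨s, hs, hsy⟩ := h1
    rw [hR₂, Subgroup.mem_subgroupOf] at hs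
    have e : y = (c : G) * (s : G) * (c : G)⁻¹ := by
      have := congrArg Subtype.val hsy
      simpa [MulAut.smul_def] using this.symm
    have e2 : (c : G)⁻¹ * y * (c : G) = (s : G) := by rw [e]; group
    rw [e2]; exact hs
  · intro hy
    have hyK : y ∈ K := by
      have := K.mul_mem (K.mul_mem c.2 (h₂ hy)) (K.inv_mem c.2)
      have e : (c : G) * ((c : G)⁻¹ * y * (c : G)) * (c : G)⁻¹ = y := by group
      rwa [e] at this
    have h1 : (⟨y, hyK⟩ : K) ∈ (R₁ : Subgroup K) := by
      rw [← hc, Sylow.coe_subgroup_smul, Subgroup.mem_smul_pointwise_iff_exists]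
      refine ⟨c⁻¹ * ⟨y, hyK⟩ * c, ?_, ?_⟩
      · rw [hR₂, Subgroup.mem_subgroupOf]; exact hy
      · apply Subtype.ext
        simp only [MulAut.smul_def, MulAut.conj_apply, Subgroup.coe_mul, Subgroup.coe_inv]
        group
    rw [hR₁, Subgroup.mem_subgroupOf] at h1
    exact h1

theorem exists_normalizer_smul {G : Type*} [Group G] [Finite G] {α : Type*} [MulAction G α]
    {t : ℕ} (hG : MulAction.IsMultiplyPretransitive G α t) (x : Fin t ↪ α) {p : ℕ}
    [Fact p.Prime] (P : Sylow p (MulAction.stabilizer G x)) (a : Fin t ↪ α)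
    (ha : ∀ i, a i ∈ MulAction.fixedPoints
      ((P : Subgroup (MulAction.stabilizer G x)).map (MulAction.stabilizer G x).subtype) α) :
    ∃ n ∈ Subgroup.normalizer ((((P : Subgroup (MulAction.stabilizer G x)).map
      (MulAction.stabilizer G x).subtype) : Subgroup G) : Set G), n • x = a := by
  obtain ⟨g, hg⟩ := MulAction.exists_smul_eq G x a
  have hQH : (P : Subgroup (stabilizer G x)).map (stabilizer G x).subtype ≤ stabilizer G x :=
    Subgroup.map_subtype_le _
  have hQp : IsPGroup p ((P : Subgroup (stabilizer G x)).map (stabilizer G x).subtype) :=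
    P.isPGroup'.map _
  have hQcard : Nat.card ((P : Subgroup (stabilizer G x)).map (stabilizer G x).subtype) =
      p ^ (Nat.card (stabilizer G x)).factorization p := by
    rw [← Sylow.card_eq_multiplicity P]
    exact Nat.card_congr ((P : Subgroup (stabilizer G x)).equivMapOfInjective _
      (Subgroup.subtype_injective _)).symm.toEquiv
  have hK : stabilizer G a = (stabilizer G x).map (MulAut.conj g).toMonoidHom := by
    rw [← hg]; exact stabilizer_smul_eq_stabilizer_map_conj g x
  have hKcard : Nat.card (stabilizer G a) = Nat.card (stabilizer G x) := by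
    rw [hK]
    exact Nat.card_congr ((stabilizer G x).equivMapOfInjective _
      (MulAut.conj g).injective).symm.toEquiv
  have hQK : (P : Subgroup (stabilizer G x)).map (stabilizer G x).subtype ≤ stabilizer G a := by
    intro q hq
    rw [mem_stabilizer_iff]
    ext i
    exact ha i ⟨q, hq⟩
  have hQ₂K : ((P : Subgroup (stabilizer G x)).map (stabilizer G x).subtype).map
      (MulAut.conj g).toMonoidHom ≤ stabilizer G a := by
    rw [hK]; exact Subgroup.map_mono hQH
  have hQ₂p : IsPGroup p (((P : Subgroup (stabilizer G x)).map (stabilizer G x).subtype).map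
      (MulAut.conj g).toMonoidHom) := hQp.map _
  have hQ₂card : Nat.card (((P : Subgroup (stabilizer G x)).map (stabilizer G x).subtype).map
      (MulAut.conj g).toMonoidHom) =
      Nat.card ((P : Subgroup (stabilizer G x)).map (stabilizer G x).subtype) :=
    Nat.card_congr (((P : Subgroup (stabilizer G x)).map (stabilizer G x).subtype).equivMapOfInjective
      _ (MulAut.conj g).injective).symm.toEquiv
  obtain ⟨c, hcK, hc⟩ := exists_conj_eq (stabilizer G a) _ _ hQK hQ₂K hQp hQ₂p
    (by rw [hKcard]; exact hQcard) (by rw [hKcard, hQ₂card]; exact hQcard)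
  refine ⟨c * g, ?_, ?_⟩
  · rw [mem_normalizer_iff]
    intro y
    rw [hc (c * g * y * (c * g)⁻¹)]
    have e : c⁻¹ * (c * g * y * (c * g)⁻¹) * c = g * y * g⁻¹ := by group
    rw [e, Subgroup.mem_map]
    constructor
    · intro hy; exact ⟨y, hy, by simp⟩
    · rintro ⟨q, hq, hqy⟩
      have : q = y := by simpa using hqy
      rwa [← this]
  · rw [mul_smul, hg]; exact mem_stabilizer_iff.mp hcK

/-- Let a finite group `G` act `t`-fold transitively on a finite set, let `H` be the stabilizer of `t` distinct points and `P` a Sylow `p`-subgroup of `H`. Then the normalizer of `P` in `G` is `t`-fold transitive on the fixed points of `P`: any `t` distinct fixed points of `P` can be carried to any other `t` distinct fixed points of `P` by an element normalizing `P`. -/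
theorem result {G : Type*} [Group G] [Finite G] {α : Type*} [Fintype α] [MulAction G α] {t : ℕ} (hG : MulAction.IsMultiplyPretransitive G α t) (x : Fin t ↪ α) {p : ℕ} [Fact p.Prime] (P : Sylow p (MulAction.stabilizer G x)) (a b : Fin t ↪ α) (ha : ∀ i, a i ∈ MulAction.fixedPoints ((P : Subgroup (MulAction.stabilizer G x)).map (MulAction.stabilizer G x).subtype) α) (hb : ∀ i, b i ∈ MulAction.fixedPoints ((P : Subgroup (MulAction.stabilizer G x)).map (MulAction.stabilizer G x).subtype) α) : ∃ g ∈ Subgroup.normalizer ((((P : Subgroup (MulAction.stabilizer G x)).map (MulAction.stabilizer G x).subtype) : Subgroup G) : Set G), g • a = b := by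
  obtain ⟨na, hna, hna'⟩ := exists_normalizer_smul hG x P a ha
  obtain ⟨nb, hnb, hnb'⟩ := exists_normalizer_smul hG x P b hb
  refine ⟨nb * na⁻¹, mul_mem hnb (inv_mem hna), ?_⟩
  rw [mul_smul, ← hna', inv_smul_smul, hnb']

end Cfsg.Agent.S4219
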