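import Cfsg.Statements.S4220
import Cfsg.Agent.Lib.Helper99.MillG

set_option autoImplicit false
open Cfsg

namespace Cfsg.Agent.S4220

/-- Let `n = kp + r` with `p` prime, `1 ≤ k < p` and `r > k`, excluding the case `k = 1, r = 2`. Then a permutation group of degree `n` that is `(r + 1)`-fold transitive contains the alternating group. -/
theorem result {α : Type*} [Fintype α] [DecidableEq α] (G : Subgroup (Equiv.Perm α)) {k p r : ℕ} (hp : p.Prime) (hn : Fintype.card α = k * p + r) (hk : 1 ≤ k) (hpk : k < p) (hrk : k < r) (hex : ¬ (k = 1 ∧ r = 2)) (hG : MulAction.IsMultiplyPretransitive G α (r + 1)) : alternatingGroup α ≤ G := by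
  have hkp0 : 0 < k * p := Nat.mul_pos (by omega) hp.pos
  have hcard : Nat.card α = Fintype.card α := Nat.card_eq_fintype_card
  have h3 := Cfsg.Agent.Lib.Helper99.Mill.miller (Fintype.card α) G α k p r hp hcard hn hk hpk hrk
    hex hG
  have hT2 : MulAction.IsMultiplyPretransitive G α 2 :=
    MulAction.isMultiplyPretransitive_of_le (n := r + 1) (by omega) (by omega)
  have hprim : MulAction.IsPreprimitive G α := MulAction.isPreprimitive_of_is_two_pretransitive hT2
  have hle := Cfsg.Agent.Lib.Helper99.Marg.alt_le_of_has3 hprim h3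
  intro σ hσ
  obtain ⟨x, hx⟩ := hle hσ
  have hx' : (x : Equiv.Perm α) = σ := by
    rw [← hx]
    ext a
    rfl
  rw [← hx']
  exact x.2

end Cfsg.Agent.S4220
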