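import Cfsg.Statements.S4223
import Mathlib

set_option autoImplicit false
open Cfsg

namespace Cfsg.Agent.S4223

universe u v w w'

/-! ### Part I: cancellation of a direct factor by counting homomorphisms -/

theorem finite_hom (W : Type w) (X : Type u) [Group W] [Group X] [Finite W] [Finite X] :
    Finite (W →* X) :=
  Finite.of_injective (fun f : W →* X => (f : W → X)) DFunLike.coe_injective

theorem card_hom_prod (W : Type w) (Z : Type w') (X : Type u) [Group W] [Group Z] [Group X] :
    Nat.card (W →* Z × X) = Nat.card (W →* Z) * Nat.card (W →* X) := by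
  rw [← Nat.card_prod]
  exact Nat.card_congr
    { toFun := fun f => ((MonoidHom.fst Z X).comp f, (MonoidHom.snd Z X).comp f)
      invFun := fun p => p.1.prod p.2
      left_inv := fun f => by ext x <;> rfl
      right_inv := fun p => by ext <;> rfl }

theorem card_hom_eq {X : Type u} {Y : Type v} {Z : Type w} [Group X] [Group Y] [Group Z]
    [Finite Z] (e : Z × X ≃* Z × Y) (W : Type w') [Group W] [Finite W] :
    Nat.card (W →* X) = Nat.card (W →* Y) := by
  have h1 : Nat.card (W →* Z × X) = Nat.card (W →* Z × Y) :=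
    Nat.card_congr
      { toFun := fun f => e.toMonoidHom.comp f
        invFun := fun f => e.symm.toMonoidHom.comp f
        left_inv := fun f => by ext x <;> simp
        right_inv := fun f => by ext x <;> simp }
  rw [card_hom_prod, card_hom_prod] at h1
  have := finite_hom W Z
  have hpos : 0 < Nat.card (W →* Z) := Nat.card_pos
  exact Nat.eq_of_mul_eq_mul_left hpos h1

theorem card_hom_eq_sum (W : Type w) (X : Type u) [Group W] [Group X] [Finite W] [Finite X]
    [Fintype (Subgroup W)] :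
    Nat.card (W →* X) = ∑ N : Subgroup W, Nat.card {f : W →* X // f.ker = N} := by
  have := finite_hom W X
  rw [← Nat.card_sigma]
  exact Nat.card_congr (Equiv.sigmaFiberEquiv (fun f : W →* X => f.ker)).symm

theorem card_ker_eq (W : Type w) (X : Type u) [Group W] [Group X] (N : Subgroup W) [N.Normal] :
    Nat.card {f : W →* X // f.ker = N} = Nat.card {g : W ⧸ N →* X // g.ker = ⊥} := by
  apply Nat.card_congr
  refine
    { toFun := fun f => ⟨QuotientGroup.lift N f.1 (by rw [f.2]), ?_⟩
      invFun := fun g => ⟨g.1.comp (QuotientGroup.mk' N), ?_⟩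
      left_inv := ?_
      right_inv := ?_ }
  · rw [eq_bot_iff]
    intro q hq
    induction q using QuotientGroup.induction_on with
    | H x =>
      have hx : f.1 x = 1 := hq
      have : x ∈ N := by rw [← f.2]; exact hx
      exact (QuotientGroup.eq_one_iff x).mpr this
  · ext x
    rw [MonoidHom.mem_ker, MonoidHom.comp_apply]
    have h1 : g.1 (QuotientGroup.mk' N x) = 1 ↔ QuotientGroup.mk' N x ∈ g.1.ker := Iff.rfl
    rw [h1, g.2, Subgroup.mem_bot]
    exact QuotientGroup.eq_one_iff x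
  · intro f
    apply Subtype.ext
    ext x
    rfl
  · intro g
    apply Subtype.ext
    ext x
    rfl

theorem inj_count {X : Type u} {Y : Type v} [Group X] [Group Y] [Finite X] [Finite Y]
    (hXY : ∀ (W : Type w) [Group W] [Finite W], Nat.card (W →* X) = Nat.card (W →* Y)) :
    ∀ (n : ℕ) (W : Type w) [Group W] [Finite W], Nat.card W = n →
      Nat.card {f : W →* X // f.ker = ⊥} = Nat.card {f : W →* Y // f.ker = ⊥} := by
  intro n
  induction n using Nat.strong_induction_on with
  | _ n ih =>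
    intro W _ _ hW
    classical
    let _ : Fintype (Subgroup W) := Fintype.ofFinite _
    have h1 := card_hom_eq_sum W X
    have h2 := card_hom_eq_sum W Y
    rw [hXY W, h2] at h1
    rw [← Finset.add_sum_erase _ _ (Finset.mem_univ (⊥ : Subgroup W)),
      ← Finset.add_sum_erase _ (fun N : Subgroup W => Nat.card {f : W →* X // f.ker = N})
        (Finset.mem_univ (⊥ : Subgroup W))] at h1
    have h3 : ∑ N ∈ Finset.univ.erase (⊥ : Subgroup W), Nat.card {f : W →* Y // f.ker = N} =
        ∑ N ∈ Finset.univ.erase (⊥ : Subgroup W), Nat.card {f : W →* X // f.ker = N} := by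
      apply Finset.sum_congr rfl
      intro N hN
      have hNbot : N ≠ ⊥ := (Finset.mem_erase.mp hN).1
      by_cases hNn : N.Normal
      · rw [card_ker_eq W Y N, card_ker_eq W X N]
        have hlt : Nat.card (W ⧸ N) < n := by
          rw [← hW, Subgroup.card_eq_card_quotient_mul_card_subgroup N]
          have h1 : 1 < Nat.card N := N.one_lt_card_iff_ne_bot.mpr hNbot
          have h0 : 0 < Nat.card (W ⧸ N) := Nat.card_pos
          nlinarith
        exact (ih _ hlt (W ⧸ N) rfl).symm
      · have e1 : IsEmpty {f : W →* Y // f.ker = N} :=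
          ⟨fun f => hNn (f.2 ▸ MonoidHom.normal_ker f.1)⟩
        have e2 : IsEmpty {f : W →* X // f.ker = N} :=
          ⟨fun f => hNn (f.2 ▸ MonoidHom.normal_ker f.1)⟩
        rw [Nat.card_of_isEmpty, Nat.card_of_isEmpty]
    rw [h3] at h1
    exact (Nat.add_right_cancel h1).symm

/-- Cancellation of a common direct factor for finite groups. -/
theorem cancel {X : Type u} {Y : Type v} {Z : Type w} [Group X] [Group Y] [Group Z]
    [Finite X] [Finite Y] [Finite Z] (e : Z × X ≃* Z × Y) : Nonempty (X ≃* Y) := by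
  have h1 := inj_count (X := X) (Y := Y) (fun W _ _ => card_hom_eq e W) (Nat.card X) X rfl
  have h2 := inj_count (X := Y) (Y := X) (fun W _ _ => card_hom_eq e.symm W) (Nat.card Y) Y rfl
  have := finite_hom X X
  have := finite_hom Y Y
  have hX : 0 < Nat.card {f : X →* X // f.ker = ⊥} := by
    have : Nonempty {f : X →* X // f.ker = ⊥} :=
      ⟨⟨MonoidHom.id X, (MonoidHom.ker_eq_bot_iff _).mpr Function.injective_id⟩⟩
    exact Nat.card_pos
  have hY : 0 < Nat.card {f : Y →* Y // f.ker = ⊥} := by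
    have : Nonempty {f : Y →* Y // f.ker = ⊥} :=
      ⟨⟨MonoidHom.id Y, (MonoidHom.ker_eq_bot_iff _).mpr Function.injective_id⟩⟩
    exact Nat.card_pos
  rw [h1] at hX
  rw [h2] at hY
  obtain ⟨⟨f, hf⟩⟩ := (Nat.card_pos_iff.mp hX).1
  obtain ⟨⟨g, hg⟩⟩ := (Nat.card_pos_iff.mp hY).1
  have hfi : Function.Injective f := (MonoidHom.ker_eq_bot_iff f).mp hf
  have hgi : Function.Injective g := (MonoidHom.ker_eq_bot_iff g).mp hg
  have hle : Nat.card Y ≤ Nat.card X := Nat.card_le_card_of_injective g hgi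
  exact ⟨MulEquiv.ofBijective f (hfi.bijective_of_nat_card_le hle)⟩

/-! ### Part II: Fitting's lemma for normal endomorphisms -/

section Fitting

variable {H : Type u} [Group H]

/-- A normal endomorphism: one commuting with all inner automorphisms. -/
def IsNormalEndo (φ : H →* H) : Prop := ∀ a x : H, φ (a * x * a⁻¹) = a * φ x * a⁻¹

theorem iterate_normal {φ : H →* H} (hφ : IsNormalEndo φ) (N : ℕ) (a x : H) :
    (⇑φ)^[N] (a * x * a⁻¹) = a * (⇑φ)^[N] x * a⁻¹ := by
  induction N with
  | zero => rfl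
  | succ N ih => rw [Function.iterate_succ_apply', Function.iterate_succ_apply', ih, hφ]

theorem exists_idem [Finite H] (φ : H → H) : ∃ N : ℕ, 0 < N ∧ ∀ x, φ^[N] (φ^[N] x) = φ^[N] x := by
  obtain ⟨i, j, hij, h⟩ := Finite.exists_ne_map_eq_of_infinite (fun k : ℕ => φ^[k])
  have key : ∀ i j : ℕ, i < j → φ^[i] = φ^[j] →
      ∃ N : ℕ, 0 < N ∧ ∀ x, φ^[N] (φ^[N] x) = φ^[N] x := by
    intro i j hlt h
    obtain ⟨d, rfl⟩ : ∃ d, j = i + d := ⟨j - i, by omega⟩
    have hd : 0 < d := by omega
    have hrep : ∀ t : ℕ, φ^[i + t * d] = φ^[i] := by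
      intro t
      induction t with
      | zero => simp
      | succ t ih =>
        have : i + (t + 1) * d = d + (i + t * d) := by ring
        rw [this, Function.iterate_add, ih, ← Function.iterate_add, add_comm, ← h]
    refine ⟨(i + 1) * d, Nat.mul_pos (by omega) hd, fun x => ?_⟩
    have hN : i ≤ (i + 1) * d := by nlinarith
    obtain ⟨r, hr⟩ : ∃ r, (i + 1) * d = r + i := ⟨(i + 1) * d - i, by omega⟩
    rw [← Function.iterate_add_apply]
    have e1 : (i + 1) * d + (i + 1) * d = r + (i + (i + 1) * d) := by omega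
    rw [e1, Function.iterate_add_apply, hrep (i + 1), ← Function.iterate_add_apply, ← hr]
  rcases lt_or_gt_of_ne hij with hlt | hlt
  · exact key i j hlt h
  · exact key j i hlt h.symm

theorem fitting [Finite H]
    (hind : ∀ K L : Subgroup H, K.Normal → L.Normal → K ⊓ L = ⊥ → K ⊔ L = ⊤ → K = ⊥ ∨ L = ⊥)
    (φ : H →* H) (hφ : IsNormalEndo φ) :
    Function.Injective φ ∨ ∃ N : ℕ, ∀ x, (⇑φ)^[N] x = 1 := by
  obtain ⟨N, hN, hidem⟩ := exists_idem (⇑φ)
  let ψ : H →* H :=
    { toFun := (⇑φ)^[N]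
      map_one' := iterate_map_one φ N
      map_mul' := fun x y => iterate_map_mul φ N x y }
  have hψ : ∀ x, ψ x = (⇑φ)^[N] x := fun x => rfl
  have hnorm : ∀ a x, ψ (a * x * a⁻¹) = a * ψ x * a⁻¹ := iterate_normal hφ N
  have hL : ψ.range.Normal := by
    constructor
    rintro y ⟨x, rfl⟩ a
    exact ⟨a * x * a⁻¹, hnorm a x⟩
  have hinf : ψ.ker ⊓ ψ.range = ⊥ := by
    rw [eq_bot_iff]
    rintro x ⟨hx1, ⟨y, rfl⟩⟩
    have h1 : ψ (ψ y) = 1 := hx1
    rw [Subgroup.mem_bot]
    rw [← h1]
    exact (hidem y).symm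
  have hsup : ψ.ker ⊔ ψ.range = ⊤ := by
    rw [eq_top_iff]
    intro x _
    have h1 : x * (ψ x)⁻¹ ∈ ψ.ker := by
      rw [MonoidHom.mem_ker, map_mul, map_inv]
      have : ψ (ψ x) = ψ x := hidem x
      rw [this, mul_inv_cancel]
    have h2 : x = (x * (ψ x)⁻¹) * ψ x := by group
    rw [h2]
    exact mul_mem (Subgroup.mem_sup_left h1) (Subgroup.mem_sup_right ⟨x, rfl⟩)
  rcases hind ψ.ker ψ.range (MonoidHom.normal_ker ψ) hL hinf hsup with h | h
  · left
    have hψi : Function.Injective ψ := (MonoidHom.ker_eq_bot_iff ψ).mp h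
    intro x y hxy
    apply hψi
    obtain ⟨M, rfl⟩ : ∃ M, N = M + 1 := ⟨N - 1, by omega⟩
    rw [hψ, hψ, Function.iterate_succ_apply, Function.iterate_succ_apply, hxy]
  · right
    refine ⟨N, fun x => ?_⟩
    have : ψ x ∈ ψ.range := ⟨x, rfl⟩
    rw [h, Subgroup.mem_bot] at this
    exact this

theorem inj_of_sum [Finite H]
    (hind : ∀ K L : Subgroup H, K.Normal → L.Normal → K ⊓ L = ⊥ → K ⊔ L = ⊤ → K = ⊥ ∨ L = ⊥)
    (φ ψ α : H →* H) (hφ : IsNormalEndo φ) (hα : IsNormalEndo α)
    (hsum : ∀ x, α x = φ x * ψ x) (hαinj : Function.Injective α) :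
    Function.Injective φ ∨ Function.Injective ψ := by
  by_cases hφi : Function.Injective φ
  · left; exact hφi
  right
  have hbij : Function.Bijective α := Finite.injective_iff_bijective.mp hαinj
  let β : H ≃* H := (MulEquiv.ofBijective α hbij).symm
  have hαβ : ∀ y, α (β y) = y := fun y => (MulEquiv.ofBijective α hbij).apply_symm_apply y
  have hβα : ∀ y, β (α y) = y := fun y => (MulEquiv.ofBijective α hbij).symm_apply_apply y
  have hβn : ∀ a y : H, β (a * y * a⁻¹) = a * β y * a⁻¹ := by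
    intro a y
    apply hαinj
    rw [hαβ, hα, hαβ]
  let φ' : H →* H := β.toMonoidHom.comp φ
  have hφ'n : IsNormalEndo φ' := by
    intro a x
    show β (φ (a * x * a⁻¹)) = a * β (φ x) * a⁻¹
    rw [hφ, hβn]
  have hφ'i : ¬ Function.Injective φ' := by
    intro h
    apply hφi
    intro x y hxy
    apply h
    show β (φ x) = β (φ y)
    rw [hxy]
  rcases fitting hind φ' hφ'n with h | ⟨N, hN⟩
  · exact absurd h hφ'i
  · rw [injective_iff_map_eq_one]
    intro x hx
    have h1 : α x = φ x := by rw [hsum, hx, mul_one]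
    have h2 : φ' x = x := by
      show β (φ x) = x
      rw [← h1, hβα]
    have h3 : (⇑φ')^[N] x = x := Function.iterate_fixed h2 N
    rw [← h3]
    exact hN x

end Fitting

/-! ### Part III: the exchange step -/

section Exchange

variable {n : ℕ} {B : Fin n → Type v} [∀ j, Group (B j)]

/-- Projection onto the coordinates in `J`. -/
def rho (J : Finset (Fin n)) : (∀ j, B j) →* (∀ j, B j) where
  toFun := fun x j => if j ∈ J then x j else 1
  map_one' := by funext j; simp
  map_mul' := fun x y => by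
    funext j
    simp only [Pi.mul_apply]
    split_ifs <;> simp

theorem rho_conj (J : Finset (Fin n)) (g w : ∀ j, B j) :
    rho J (g * w * g⁻¹) = g * rho J w * g⁻¹ := by
  funext j
  simp only [rho, MonoidHom.coe_mk, OneHom.coe_mk, Pi.mul_apply, Pi.inv_apply]
  split_ifs <;> simp

theorem rho_insert (J : Finset (Fin n)) (j : Fin n) (hj : j ∉ J) (g : ∀ j, B j) :
    rho (insert j J) g = rho J g * rho {j} g := by
  funext i
  simp only [rho, MonoidHom.coe_mk, OneHom.coe_mk, Pi.mul_apply, Finset.mem_insert,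
    Finset.mem_singleton]
  by_cases hij : i = j
  · subst hij
    simp [hj]
  · simp [hij]

theorem rho_univ (g : ∀ j, B j) : rho Finset.univ g = g := by
  funext i
  simp [rho]

theorem rho_empty (g : ∀ j, B j) : rho (∅ : Finset (Fin n)) g = 1 := by
  funext i
  simp [rho]

theorem rho_single (j : Fin n) (g : ∀ j, B j) : rho {j} g = Pi.mulSingle j (g j) := by
  funext i
  simp only [rho, MonoidHom.coe_mk, OneHom.coe_mk, Finset.mem_singleton]
  by_cases hij : i = j
  · subst hij
    simp
  · simp [hij]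

theorem exists_factor {A₀ : Type u} [Group A₀] [Finite A₀] [Nontrivial A₀]
    (hind : ∀ K L : Subgroup A₀, K.Normal → L.Normal → K ⊓ L = ⊥ → K ⊔ L = ⊤ → K = ⊥ ∨ L = ⊥)
    (hB : ∀ j, ∀ K L : Subgroup (B j), K.Normal → L.Normal → K ⊓ L = ⊥ → K ⊔ L = ⊤ →
      K = ⊥ ∨ L = ⊥)
    (ι : A₀ →* (∀ j, B j)) (π : (∀ j, B j) →* A₀) (hπι : ∀ a, π (ι a) = a)
    (hι : ∀ (g : ∀ j, B j) (a : A₀), ∃ a', g * ι a * g⁻¹ = ι a') :
    ∃ j, Nonempty (B j ≃* A₀) := by
  classical
  let θ : Finset (Fin n) → (A₀ →* A₀) := fun J => π.comp ((rho J).comp ι)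
  have hθ : ∀ J x, θ J x = π (rho J (ι x)) := fun J x => rfl
  have hθn : ∀ J, IsNormalEndo (θ J) := by
    intro J a x
    have e1 : ι (a * x * a⁻¹) = ι a * ι x * (ι a)⁻¹ := by rw [map_mul, map_mul, map_inv]
    rw [hθ, hθ, e1, rho_conj, map_mul, map_mul, map_inv, hπι]
  have hθins : ∀ (J : Finset (Fin n)) (j : Fin n), j ∉ J →
      ∀ x, θ (insert j J) x = θ J x * θ {j} x := by
    intro J j hj x
    rw [hθ, hθ, hθ, rho_insert J j hj, map_mul]
  have key : ∀ J : Finset (Fin n), Function.Injective (θ J) →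
      ∃ j, Function.Injective (θ {j}) := by
    intro J
    induction J using Finset.induction_on with
    | empty =>
      intro h
      exfalso
      obtain ⟨a, b, hab⟩ := exists_pair_ne A₀
      apply hab
      apply h
      rw [hθ, hθ, rho_empty, rho_empty]
    | insert j J hj ih =>
      intro h
      rcases inj_of_sum hind (θ J) (θ {j}) (θ (insert j J)) (hθn J) (hθn _)
        (hθins J j hj) h with h1 | h1
      · exact ih h1
      · exact ⟨j, h1⟩
  have huniv : Function.Injective (θ Finset.univ) := by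
    intro x y hxy
    rw [hθ, hθ, rho_univ, rho_univ, hπι, hπι] at hxy
    exact hxy
  obtain ⟨j, hj⟩ := key Finset.univ huniv
  refine ⟨j, ?_⟩
  let f : A₀ →* B j := (Pi.evalMonoidHom B j).comp ι
  let g : B j →* A₀ := π.comp (MonoidHom.mulSingle B j)
  have hgf : ∀ x, g (f x) = θ {j} x := by
    intro x
    show π (Pi.mulSingle j (ι x j)) = π (rho {j} (ι x))
    rw [rho_single]
  have hbij : Function.Bijective (θ {j}) := Finite.injective_iff_bijective.mp hj
  have hHn : f.range.Normal := by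
    constructor
    rintro _ ⟨a, rfl⟩ b
    obtain ⟨a', ha'⟩ := hι (Pi.mulSingle j b) a
    refine ⟨a', ?_⟩
    show ι a' j = b * ι a j * b⁻¹
    rw [← ha']
    simp
  have hinf : f.range ⊓ g.ker = ⊥ := by
    rw [eq_bot_iff]
    rintro _ ⟨⟨a, rfl⟩, hk⟩
    have h1 : g (f a) = 1 := hk
    rw [hgf] at h1
    have h2 : a = 1 := hj (by rw [h1, map_one])
    rw [Subgroup.mem_bot, h2, map_one]
  have hsup : f.range ⊔ g.ker = ⊤ := by
    rw [eq_top_iff]
    intro b _
    obtain ⟨a, ha⟩ := hbij.2 (g b)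
    have h1 : (f a)⁻¹ * b ∈ g.ker := by
      rw [MonoidHom.mem_ker, map_mul, map_inv, hgf, ha, inv_mul_cancel]
    have h2 : b = f a * ((f a)⁻¹ * b) := by group
    rw [h2]
    exact mul_mem (Subgroup.mem_sup_left ⟨a, rfl⟩) (Subgroup.mem_sup_right h1)
  rcases hB j f.range g.ker hHn (MonoidHom.normal_ker g) hinf hsup with h | h
  · exfalso
    obtain ⟨a, b, hab⟩ := exists_pair_ne A₀
    apply hab
    apply hj
    have h1 : ∀ x, f x = 1 := by
      intro x
      have : f x ∈ f.range := ⟨x, rfl⟩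
      rw [h, Subgroup.mem_bot] at this
      exact this
    rw [← hgf, ← hgf, h1, h1]
  · have hgi : Function.Injective g := (MonoidHom.ker_eq_bot_iff g).mp h
    have hgs : Function.Surjective g := by
      intro a
      obtain ⟨a', ha'⟩ := hbij.2 a
      exact ⟨f a', by rw [hgf, ha']⟩
    exact ⟨MulEquiv.ofBijective g ⟨hgi, hgs⟩⟩

end Exchange

/-! ### Part IV: assembly -/

/-- Splitting off the `p`-th coordinate of a product. -/
def splitAt {n : ℕ} (α : Fin (n + 1) → Type u) [∀ i, Group (α i)] (p : Fin (n + 1)) :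
    (∀ i, α i) ≃* α p × (∀ i, α (p.succAbove i)) :=
  { (Fin.insertNthEquiv α p).symm with map_mul' := fun _ _ => rfl }

theorem main : ∀ (m : ℕ) (n : ℕ) (A : Fin m → Type u) (B : Fin n → Type v)
    [∀ i, Group (A i)] [∀ j, Group (B j)] [∀ i, Finite (A i)] [∀ j, Finite (B j)]
    (_ : ∀ i, Nontrivial (A i) ∧ ∀ H K : Subgroup (A i), H.Normal → K.Normal → H ⊓ K = ⊥ →
      H ⊔ K = ⊤ → H = ⊥ ∨ K = ⊥)
    (_ : ∀ j, Nontrivial (B j) ∧ ∀ H K : Subgroup (B j), H.Normal → K.Normal → H ⊓ K = ⊥ →
      H ⊔ K = ⊤ → H = ⊥ ∨ K = ⊥)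
    (_ : ((i : Fin m) → A i) ≃* ((j : Fin n) → B j)),
    ∃ σ : Fin m ≃ Fin n, ∀ i, Nonempty (A i ≃* B (σ i)) := by
  intro m
  induction m with
  | zero =>
    intro n A B _ _ _ _ hA hB e
    rcases Nat.eq_zero_or_pos n with rfl | hn
    · exact ⟨Equiv.refl _, fun i => i.elim0⟩
    · exfalso
      have := (hB ⟨0, hn⟩).1
      obtain ⟨b, hb⟩ := exists_ne (1 : B ⟨0, hn⟩)
      have h1 : e.symm (Pi.mulSingle ⟨0, hn⟩ b) = e.symm 1 := Subsingleton.elim _ _
      have h2 := e.symm.injective h1
      have h3 := congrFun h2 ⟨0, hn⟩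
      simp at h3
      exact hb h3
  | succ m ih =>
    intro n A B _ _ _ _ hA hB e
    have := (hA 0).1
    let ι : A 0 →* (∀ j, B j) := e.toMonoidHom.comp (MonoidHom.mulSingle A 0)
    let π : (∀ j, B j) →* A 0 := (Pi.evalMonoidHom A 0).comp e.symm.toMonoidHom
    have hπι : ∀ a, π (ι a) = a := by intro a; simp [ι, π]
    have hι : ∀ (g : ∀ j, B j) (a : A 0), ∃ a', g * ι a * g⁻¹ = ι a' := by
      intro g a
      refine ⟨(e.symm g) 0 * a * ((e.symm g) 0)⁻¹, ?_⟩
      show g * e (Pi.mulSingle 0 a) * g⁻¹ =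
        e (Pi.mulSingle 0 ((e.symm g) 0 * a * ((e.symm g) 0)⁻¹))
      have h1 : Pi.mulSingle 0 ((e.symm g) 0 * a * ((e.symm g) 0)⁻¹) =
          e.symm g * Pi.mulSingle 0 a * (e.symm g)⁻¹ := by
        funext i
        by_cases hi : i = 0
        · subst hi; simp
        · simp [Pi.mulSingle_eq_of_ne hi]
      rw [h1, map_mul, map_mul, map_inv, e.apply_symm_apply]
    obtain ⟨j₀, ⟨iso⟩⟩ := exists_factor (hA 0).2 (fun j => (hB j).2) ι π hπι hι
    obtain ⟨n', rfl⟩ : ∃ n', n = n' + 1 := by
      cases n with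
      | zero => exact j₀.elim0
      | succ n' => exact ⟨n', rfl⟩
    let e1 : (A 0 × (∀ i : Fin m, A ((0 : Fin (m + 1)).succAbove i))) ≃*
        (A 0 × (∀ l : Fin n', B (j₀.succAbove l))) :=
      ((splitAt A 0).symm.trans e).trans
        ((splitAt B j₀).trans (MulEquiv.prodCongr iso (MulEquiv.refl _)))
    obtain ⟨e2⟩ := cancel e1
    obtain ⟨σ', hσ'⟩ := ih n' (fun i => A ((0 : Fin (m + 1)).succAbove i))
      (fun l => B (j₀.succAbove l)) (fun i => hA _) (fun l => hB _) e2
    refine ⟨(finSuccEquiv' (0 : Fin (m + 1))).trans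
      ((Equiv.optionCongr σ').trans (finSuccEquiv' j₀).symm), ?_⟩
    intro i
    rcases Fin.eq_self_or_eq_succAbove 0 i with rfl | ⟨i', rfl⟩
    · have h0 : ((finSuccEquiv' (0 : Fin (m + 1))).trans
          ((Equiv.optionCongr σ').trans (finSuccEquiv' j₀).symm)) 0 = j₀ := by
        rw [Equiv.trans_apply, Equiv.trans_apply, finSuccEquiv'_at,
          Equiv.optionCongr_apply, Option.map_none, finSuccEquiv'_symm_none]
      rw [h0]; exact ⟨iso.symm⟩
    · have h1 : ((finSuccEquiv' (0 : Fin (m + 1))).trans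
          ((Equiv.optionCongr σ').trans (finSuccEquiv' j₀).symm))
            ((0 : Fin (m + 1)).succAbove i') = j₀.succAbove (σ' i') := by
        rw [Equiv.trans_apply, Equiv.trans_apply, finSuccEquiv'_succAbove,
          Equiv.optionCongr_apply, Option.map_some, finSuccEquiv'_symm_some]
      rw [h1]; exact hσ' i'

/-- If a finite group is isomorphic both to a direct product of `m` directly indecomposable nontrivial groups and to a direct product of `n` such groups (a group is directly indecomposable when it is not the internal direct product of two nontrivial normal subgroups), then `m = n` and the factors are isomorphic in pairs after a suitable matching. -/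
theorem result {m n : ℕ} {A : Fin m → Type*} {B : Fin n → Type*} [∀ i, Group (A i)] [∀ j, Group (B j)] [∀ i, Finite (A i)] [∀ j, Finite (B j)] (hA : ∀ i, Nontrivial (A i) ∧ ∀ H K : Subgroup (A i), H.Normal → K.Normal → H ⊓ K = ⊥ → H ⊔ K = ⊤ → H = ⊥ ∨ K = ⊥) (hB : ∀ j, Nontrivial (B j) ∧ ∀ H K : Subgroup (B j), H.Normal → K.Normal → H ⊓ K = ⊥ → H ⊔ K = ⊤ → H = ⊥ ∨ K = ⊥) (e : ((i : Fin m) → A i) ≃* ((j : Fin n) → B j)) : ∃ σ : Fin m ≃ Fin n, ∀ i, Nonempty (A i ≃* B (σ i)) :=
  main m n A B hA hB e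

end Cfsg.Agent.S4223
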