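import Cfsg.Statements.S4275
-- import your own Cfsg.Agent.* helpers here

set_option autoImplicit false
open Cfsg

namespace Cfsg.Agent.S4275

theorem main {Ω : Type*} [Fintype Ω] (G : Subgroup (Equiv.Perm Ω))
    (htr : MulAction.IsPretransitive G Ω) (o : Ω) (α : G ≃* G) :
    (∃ σ : Equiv.Perm Ω, σ ∈ Subgroup.normalizer (G : Set (Equiv.Perm Ω)) ∧
      ∀ g : G, ((α g : G) : Equiv.Perm Ω) = σ * (g : Equiv.Perm Ω) * σ⁻¹) ↔
    ∃ ω : Ω, ∀ g ∈ (MulAction.stabilizer G o).map α.toMonoidHom, g • ω = ω := by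
  constructor
  · rintro ⟨σ, -, hσ⟩
    refine ⟨σ o, ?_⟩
    rintro g ⟨h, hh, rfl⟩
    have hh : h • o = o := MulAction.mem_stabilizer_iff.1 hh
    show ((α h : G) : Equiv.Perm Ω) (σ o) = σ o
    rw [hσ h]
    have : (h : Equiv.Perm Ω) o = o := hh
    simp [this]
  · rintro ⟨ω, hω⟩
    classical
    -- choice of transporters
    have hex : ∀ x : Ω, ∃ g : G, g • o = x := fun x => MulAction.exists_smul_eq G o x
    choose t ht using hex
    let σ : Ω → Ω := fun x => α (t x) • ω
    have key : ∀ g : G, σ (g • o) = α g • ω := by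
      intro g
      have h1 : g⁻¹ * t (g • o) ∈ MulAction.stabilizer G o := by
        rw [MulAction.mem_stabilizer_iff, mul_smul, ht, inv_smul_smul]
      have h2 := hω (α (g⁻¹ * t (g • o))) ⟨_, h1, rfl⟩
      rw [map_mul, map_inv, mul_smul, inv_smul_eq_iff] at h2
      exact h2
    have hequiv : ∀ (g : G) (x : Ω), σ (g • x) = α g • σ x := by
      intro g x
      have e : g • x = (g * t x) • o := by rw [mul_smul, ht]
      rw [e, key, map_mul, mul_smul]
    have hsurj : Function.Surjective σ := by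
      intro y
      obtain ⟨g', hg'⟩ := MulAction.exists_smul_eq G ω y
      obtain ⟨g, rfl⟩ := α.surjective g'
      exact ⟨g • o, by rw [key, hg']⟩
    have hinj : Function.Injective σ := Finite.injective_iff_surjective.2 hsurj
    let τ : Equiv.Perm Ω := Equiv.ofBijective σ ⟨hinj, hsurj⟩
    have hτ : ∀ g : G, ((α g : G) : Equiv.Perm Ω) = τ * (g : Equiv.Perm Ω) * τ⁻¹ := by
      intro g
      ext y
      have h1 := hequiv g (τ⁻¹ y)
      have h2 : σ (τ⁻¹ y) = y := by
        show τ (τ⁻¹ y) = y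
        simp
      rw [h2] at h1
      show ((α g : G) : Equiv.Perm Ω) y = τ ((g : Equiv.Perm Ω) (τ⁻¹ y))
      exact h1.symm
    refine ⟨τ, ?_, hτ⟩
    rw [Subgroup.mem_normalizer_iff]
    intro h
    constructor
    · intro hh
      have := hτ ⟨h, hh⟩
      rw [← this]
      exact (α ⟨h, hh⟩).2
    · intro hh
      obtain ⟨g, hg⟩ := α.surjective ⟨τ * h * τ⁻¹, hh⟩
      have h1 := hτ g
      rw [hg] at h1
      have h2 : h = (g : Equiv.Perm Ω) := by
        have h3 : τ * h * τ⁻¹ = τ * (g : Equiv.Perm Ω) * τ⁻¹ := h1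
        have h4 := mul_right_cancel h3
        exact mul_left_cancel h4
      rw [h2]
      exact g.2

/-- Let G be a transitive group of permutations of a finite set Ω, let o ∈ Ω, and let α be an automorphism of G. Then α is induced by conjugation by a permutation of Ω normalizing G if and only if the image under α of the stabilizer of o fixes some point of Ω. -/
theorem result {Ω : Type*} [Fintype Ω] (G : Subgroup (Equiv.Perm Ω)) (htr : MulAction.IsPretransitive G Ω) (o : Ω) (α : G ≃* G) : (∃ σ : Equiv.Perm Ω, σ ∈ Subgroup.normalizer (G : Set (Equiv.Perm Ω)) ∧ ∀ g : G, ((α g : G) : Equiv.Perm Ω) = σ * (g : Equiv.Perm Ω) * σ⁻¹) ↔ ∃ ω : Ω, ∀ g ∈ (MulAction.stabilizer G o).map α.toMonoidHom, g • ω = ω := by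
  exact main G htr o α

end Cfsg.Agent.S4275
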