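import Mathlib
import Cfsg.Statements.S4276
import Cfsg.Agent.Lib.Helper68.Linked

set_option autoImplicit false
open Cfsg

namespace Cfsg.Agent.S4276

open Cfsg.Agent.Lib.Helper68.Linked

section Aux

variable {Ω : Type*} [Fintype Ω]

/-- `φ` maps every point stabilizer into a point stabilizer. -/
def PS (G : Subgroup (Equiv.Perm Ω)) (φ : MulAut G) : Prop :=
  ∀ z : Ω, ∃ x : Ω, ∀ h : G, (h : Equiv.Perm Ω) z = z → ((φ h : G) : Equiv.Perm Ω) x = x

theorem PS_one (G : Subgroup (Equiv.Perm Ω)) : PS G 1 := fun z => ⟨z, fun _ hh => hh⟩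

theorem PS_mul {G : Subgroup (Equiv.Perm Ω)} {φ ψ : MulAut G} (hφ : PS G φ) (hψ : PS G ψ) :
    PS G (φ * ψ) := by
  intro z
  obtain ⟨y, hy⟩ := hψ z
  obtain ⟨x, hx⟩ := hφ y
  exact ⟨x, fun h hh => hx (ψ h) (hy h hh)⟩

theorem PS_pow {G : Subgroup (Equiv.Perm Ω)} {φ : MulAut G} (hφ : PS G φ) (j : ℕ) :
    PS G (φ ^ j) := by
  induction j with
  | zero => rw [pow_zero]; exact PS_one G
  | succ j ih => rw [pow_succ]; exact PS_mul ih hφ

theorem eq_of_stab_le (G : Subgroup (Equiv.Perm Ω))
    (h2 : ∀ a b c d : Ω, a ≠ b → c ≠ d →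
      ∃ g : G, (g : Equiv.Perm Ω) a = c ∧ (g : Equiv.Perm Ω) b = d)
    (h3 : 2 < Fintype.card Ω) (z w : Ω)
    (h : ∀ g : G, (g : Equiv.Perm Ω) z = z → (g : Equiv.Perm Ω) w = w) : z = w := by
  classical
  by_contra hne
  have hc : ({z, w} : Finset Ω).card < (Finset.univ : Finset Ω).card := by
    rw [Finset.card_univ]
    exact lt_of_le_of_lt Finset.card_le_two h3
  obtain ⟨u, -, hu⟩ := Finset.exists_mem_notMem_of_card_lt_card hc
  have huz : u ≠ z := fun h' => hu (by rw [h']; exact Finset.mem_insert_self _ _)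
  have huw : u ≠ w := fun h' => hu (by rw [h']; simp)
  obtain ⟨g, hg1, hg2⟩ := h2 z w z u hne (Ne.symm huz)
  exact huw (hg2.symm.trans (h g hg1))

theorem exists_sigma (G : Subgroup (Equiv.Perm Ω))
    (h2 : ∀ a b c d : Ω, a ≠ b → c ≠ d →
      ∃ g : G, (g : Equiv.Perm Ω) a = c ∧ (g : Equiv.Perm Ω) b = d)
    (h3 : 2 < Fintype.card Ω) (α : MulAut G) (hP : PS G α) (hP' : PS G α⁻¹) :
    ∃ σ : Equiv.Perm Ω,
      (∀ (g : G) (z : Ω), σ ((g : Equiv.Perm Ω) z) = ((α g : G) : Equiv.Perm Ω) (σ z)) ∧
      (∀ (z : Ω) (h : G), (h : Equiv.Perm Ω) z = z →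
        ((α h : G) : Equiv.Perm Ω) (σ z) = σ z) ∧
      (∀ (z : Ω) (h : G), (h : Equiv.Perm Ω) (σ z) = σ z →
        ((α⁻¹ h : G) : Equiv.Perm Ω) z = z) := by
  choose s hs using hP
  choose t ht using hP'
  have hts : ∀ z, t (s z) = z := by
    intro z
    refine (eq_of_stab_le G h2 h3 z (t (s z)) ?_).symm
    intro h hh
    have h1 := ht (s z) (α h) (hs z h hh)
    rwa [MulAut.inv_apply_self] at h1
  have hst : ∀ z, s (t z) = z := by
    intro z
    refine (eq_of_stab_le G h2 h3 z (s (t z)) ?_).symm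
    intro h hh
    have h1 := hs (t z) (α⁻¹ h) (ht z h hh)
    rwa [MulAut.apply_inv_self] at h1
  have hU : ∀ w a : Ω,
      (∀ h : G, (h : Equiv.Perm Ω) w = w → ((α h : G) : Equiv.Perm Ω) a = a) → s w = a := by
    intro w a hwa
    refine eq_of_stab_le G h2 h3 (s w) a ?_
    intro h' hh'
    have h1 := ht (s w) h' hh'
    rw [hts] at h1
    have h2' := hwa (α⁻¹ h') h1
    rwa [MulAut.apply_inv_self] at h2'
  have hequiv : ∀ (g : G) (z : Ω),
      s ((g : Equiv.Perm Ω) z) = ((α g : G) : Equiv.Perm Ω) (s z) := by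
    intro g z
    apply hU
    intro h hh
    have h1 : ((g⁻¹ * h * g : G) : Equiv.Perm Ω) z = z := by
      simp only [Subgroup.coe_mul, Subgroup.coe_inv, Equiv.Perm.mul_apply]
      rw [hh]
      simp
    have h3' := hs z _ h1
    simp only [map_mul, map_inv, Subgroup.coe_mul, Subgroup.coe_inv, Equiv.Perm.mul_apply] at h3'
    rw [Equiv.Perm.inv_eq_iff_eq] at h3'
    exact h3'
  refine ⟨⟨s, t, hts, hst⟩, hequiv, fun z h hh => hs z h hh, fun z h hh => ?_⟩
  have h1 := ht (s z) h hh
  rwa [hts] at h1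

end Aux

/-- Let G be a doubly transitive group of permutations of a finite set Ω of size n, let o ∈ Ω, and let α be an automorphism of G of odd order. Suppose that the image under α of the stabilizer of o has an orbit on Ω whose length k is coprime to n. Then α is induced by conjugation by a permutation of Ω normalizing G, and k = 1 or k = n − 1. -/
theorem result {Ω : Type*} [Fintype Ω] (G : Subgroup (Equiv.Perm Ω)) (h2 : MulAction.IsMultiplyPretransitive G Ω 2) (o : Ω) (α : MulAut G) (hα : Odd (orderOf α)) (ω : Ω) (hk : (Nat.card (MulAction.orbit ((MulAction.stabilizer G o).map α.toMonoidHom) ω)).Coprime (Fintype.card Ω)) : (∃ σ : Equiv.Perm Ω, σ ∈ Subgroup.normalizer (G : Set (Equiv.Perm Ω)) ∧ ∀ g : G, ((α g : G) : Equiv.Perm Ω) = σ * (g : Equiv.Perm Ω) * σ⁻¹) ∧ (Nat.card (MulAction.orbit ((MulAction.stabilizer G o).map α.toMonoidHom) ω) = 1 ∨ Nat.card (MulAction.orbit ((MulAction.stabilizer G o).map α.toMonoidHom) ω) = Fintype.card Ω - 1) := by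
  classical
  -- orbit membership
  have horb : ∀ x : Ω, x ∈ MulAction.orbit ((MulAction.stabilizer G o).map α.toMonoidHom) ω ↔
      ∃ h : G, (h : Equiv.Perm Ω) o = o ∧ ((α h : G) : Equiv.Perm Ω) ω = x := by
    intro x
    constructor
    · rintro ⟨⟨u, hu⟩, rfl⟩
      obtain ⟨h, hh, rfl⟩ := Subgroup.mem_map.1 hu
      exact ⟨h, MulAction.mem_stabilizer_iff.1 hh, rfl⟩
    · rintro ⟨h, hh, rfl⟩
      exact ⟨⟨α h, Subgroup.mem_map.2 ⟨h, MulAction.mem_stabilizer_iff.2 hh, rfl⟩⟩, rfl⟩
  obtain ⟨k, hkdef⟩ : ∃ k, k = Nat.card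
      (MulAction.orbit ((MulAction.stabilizer G o).map α.toMonoidHom) ω) := ⟨_, rfl⟩
  rw [← hkdef] at hk ⊢
  have hkpos : 0 < k := by
    rw [hkdef]
    have : Nonempty (MulAction.orbit ((MulAction.stabilizer G o).map α.toMonoidHom) ω) :=
      ⟨⟨ω, MulAction.mem_orbit_self ω⟩⟩
    exact Nat.card_pos
  have hkle : k ≤ Fintype.card Ω := by
    rw [hkdef, ← Nat.card_eq_fintype_card]
    exact Nat.card_le_card_of_injective _ Subtype.val_injective
  by_cases h3 : 2 < Fintype.card Ω
  swap
  · have hn2 : Fintype.card Ω ≤ 2 := by omega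
    have hk1 : k = 1 := by
      have hn : Fintype.card Ω = 1 ∨ Fintype.card Ω = 2 := by
        have : 0 < Fintype.card Ω := Fintype.card_pos_iff.2 ⟨o⟩
        omega
      rcases hn with h | h
      · omega
      · rw [h] at hk hkle
        interval_cases k
        · rfl
        · norm_num at hk
    have hperm : Fintype.card (Equiv.Perm Ω) ≤ 2 := by
      rw [Fintype.card_perm]
      have hn : Fintype.card Ω = 0 ∨ Fintype.card Ω = 1 ∨ Fintype.card Ω = 2 := by omega
      rcases hn with h | h | h <;> rw [h] <;> decide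
    have hαid : ∀ g : G, α g = g := by
      intro g
      by_contra hne
      by_cases hg1 : g = 1
      · rw [hg1, map_one] at hne; exact hne rfl
      · have hαg1 : α g ≠ 1 := fun h' => hg1 ((map_eq_one_iff α α.injective).1 h')
        have hlt : 2 < (Finset.univ : Finset (Equiv.Perm Ω)).card := by
          rw [Finset.two_lt_card]
          refine ⟨1, Finset.mem_univ _, (g : Equiv.Perm Ω), Finset.mem_univ _,
            ((α g : G) : Equiv.Perm Ω), Finset.mem_univ _, ?_, ?_, ?_⟩
          · intro h'; exact hg1 (Subtype.ext h'.symm)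
          · intro h'; exact hαg1 (Subtype.ext h'.symm)
          · intro h'; exact hne (Subtype.ext h'.symm)
        rw [Finset.card_univ] at hlt
        omega
    refine ⟨⟨1, Subgroup.one_mem _, fun g => by rw [hαid g]; simp⟩, Or.inl hk1⟩
  · -- two-transitivity in explicit form
    have h2' : ∀ a b c d : Ω, a ≠ b → c ≠ d →
        ∃ g : G, (g : Equiv.Perm Ω) a = c ∧ (g : Equiv.Perm Ω) b = d := by
      intro a b c d hab hcd
      exact (MulAction.is_two_pretransitive_iff).1 h2 hab hcd
    obtain ⟨β, hβ⟩ : ∃ β : G ≃* G, β = α⁻¹ := ⟨_, rfl⟩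
    have hβα : ∀ g : G, β (α g) = g := by intro g; rw [hβ]; exact MulAut.inv_apply_self _ α g
    have hαβ : ∀ g : G, α (β g) = g := by intro g; rw [hβ]; exact MulAut.apply_inv_self _ α g
    obtain ⟨N, hN⟩ : ∃ N : Ω → Ω → ℤ, N = fun x y =>
        if ∃ h : G, (h : Equiv.Perm Ω) ω = x ∧ ((β h : G) : Equiv.Perm Ω) o = y then 1 else 0 :=
      ⟨_, rfl⟩
    have hS : Sys G.subtype β N (k : ℤ) := by
      refine ⟨?_, ?_, ?_, ?_, ?_, ?_, ?_⟩
      · intro a b c d hab hcd
        exact h2' a b c d hab hcd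
      · intro g x y
        have hiff : (∃ h : G, (h : Equiv.Perm Ω) ω = (g : Equiv.Perm Ω) x ∧
            ((β h : G) : Equiv.Perm Ω) o = ((β g : G) : Equiv.Perm Ω) y) ↔
            (∃ h : G, (h : Equiv.Perm Ω) ω = x ∧ ((β h : G) : Equiv.Perm Ω) o = y) := by
          constructor
          · rintro ⟨h, hh1, hh2⟩
            refine ⟨g⁻¹ * h, ?_, ?_⟩
            · simp only [Subgroup.coe_mul, Subgroup.coe_inv, Equiv.Perm.mul_apply]
              rw [hh1]; simp
            · simp only [map_mul, map_inv, Subgroup.coe_mul, Subgroup.coe_inv,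
                Equiv.Perm.mul_apply]
              rw [hh2]; simp
          · rintro ⟨h, hh1, hh2⟩
            refine ⟨g * h, ?_, ?_⟩
            · simp only [Subgroup.coe_mul, Equiv.Perm.mul_apply]
              rw [hh1]
            · simp only [map_mul, Subgroup.coe_mul, Equiv.Perm.mul_apply]
              rw [hh2]
        rw [hN]
        exact if_congr hiff rfl rfl
      · intro x y
        rw [hN]
        dsimp only
        split_ifs
        · right; rfl
        · left; rfl
      · refine ⟨o, ?_⟩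
        rw [hN]
        dsimp only
        rw [Finset.sum_boole]
        have hcard : (Finset.univ.filter (fun x : Ω => ∃ h : G, (h : Equiv.Perm Ω) ω = x ∧
            ((β h : G) : Equiv.Perm Ω) o = o)).card = k := by
          rw [hkdef, ← Fintype.card_subtype, ← Nat.card_eq_fintype_card]
          apply Nat.card_congr
          apply Equiv.subtypeEquivRight
          intro x
          rw [horb]
          constructor
          · rintro ⟨h, hh1, hh2⟩
            exact ⟨β h, hh2, by rw [hαβ]; exact hh1⟩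
          · rintro ⟨h, hh1, hh2⟩
            exact ⟨α h, hh2, by rw [hβα]; exact hh1⟩
        rw [hcard]
      · exact_mod_cast hkpos
      · have hne : k ≠ Fintype.card Ω := by
          intro h
          rw [h, Nat.coprime_self] at hk
          omega
        exact_mod_cast lt_of_le_of_ne hkle hne
      · exact Nat.isCoprime_iff_coprime.2 hk.symm
    have hP2 : PS G (α * α) := by
      intro z
      obtain ⟨x, hx⟩ := hS.exists_fixed z
      refine ⟨x, fun h hh => ?_⟩
      have h1 := hx (α (α h))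
      rw [hβα, hβα] at h1
      exact h1 hh
    obtain ⟨j, hj⟩ := hα
    have hpow : α ^ (2 * j + 1) = 1 := by rw [← hj]; exact pow_orderOf_eq_one α
    have hα1 : (α * α) ^ (j + 1) = α := by
      rw [← pow_two, ← pow_mul]
      have : 2 * (j + 1) = (2 * j + 1) + 1 := by ring
      rw [this, pow_succ, hpow, one_mul]
    have hα2 : (α * α) ^ j = α⁻¹ := by
      rw [← pow_two, ← pow_mul]
      apply eq_inv_of_mul_eq_one_left
      rw [← pow_succ]; exact hpow
    have hPα : PS G α := by
      have := PS_pow hP2 (j + 1)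
      rwa [hα1] at this
    have hPα' : PS G α⁻¹ := by
      have := PS_pow hP2 j
      rwa [hα2] at this
    obtain ⟨σ, hσ1, hσ2, hσ3⟩ := exists_sigma G h2' h3 α hPα hPα'
    have hconj : ∀ g : G, ((α g : G) : Equiv.Perm Ω) = σ * (g : Equiv.Perm Ω) * σ⁻¹ := by
      intro g
      ext x
      simp only [Equiv.Perm.mul_apply]
      have h1 := hσ1 g (σ⁻¹ x)
      rw [show σ (σ⁻¹ x) = x from Equiv.apply_symm_apply σ x] at h1
      exact h1.symm
    refine ⟨⟨σ, ?_, hconj⟩, ?_⟩
    · rw [Subgroup.mem_normalizer_iff]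
      intro p
      constructor
      · intro hp
        have h1 := hconj ⟨p, hp⟩
        have h2'' : σ * p * σ⁻¹ = ((α ⟨p, hp⟩ : G) : Equiv.Perm Ω) := h1.symm
        rw [h2'']
        exact SetLike.coe_mem _
      · intro hp
        have h1 := hconj (α⁻¹ ⟨σ * p * σ⁻¹, hp⟩)
        rw [MulAut.apply_inv_self] at h1
        have h3' : σ * p * σ⁻¹
            = σ * ((α⁻¹ ⟨σ * p * σ⁻¹, hp⟩ : G) : Equiv.Perm Ω) * σ⁻¹ := h1
        have h2'' : p = ((α⁻¹ ⟨σ * p * σ⁻¹, hp⟩ : G) : Equiv.Perm Ω) :=
          mul_left_cancel (mul_right_cancel h3')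
        rw [h2'']
        exact SetLike.coe_mem _
    · by_cases hω : ω = σ o
      · left
        rw [hkdef]
        have hset : MulAction.orbit ((MulAction.stabilizer G o).map α.toMonoidHom) ω = {ω} := by
          ext x
          rw [horb, Set.mem_singleton_iff]
          constructor
          · rintro ⟨h, hh, rfl⟩
            have h1 := hσ2 o h hh
            rw [← hω] at h1
            exact h1
          · intro hx
            exact ⟨1, by simp, by simp [hx]⟩
        rw [hset]
        simp
      · right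
        rw [hkdef]
        have hset : MulAction.orbit ((MulAction.stabilizer G o).map α.toMonoidHom) ω
            = {σ o}ᶜ := by
          ext x
          rw [horb, Set.mem_compl_iff, Set.mem_singleton_iff]
          constructor
          · rintro ⟨h, hh, rfl⟩ hx
            apply hω
            have h1 := hσ2 o h hh
            exact ((α h : G) : Equiv.Perm Ω).injective (hx.trans h1.symm)
          · intro hx
            obtain ⟨g, hg1, hg2⟩ := h2' (σ o) ω (σ o) x (Ne.symm hω) (Ne.symm hx)
            refine ⟨α⁻¹ g, hσ3 o g hg1, ?_⟩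
            rw [MulAut.apply_inv_self]
            exact hg2
        rw [hset, Nat.card_coe_set_eq, Set.ncard_compl, Set.ncard_singleton,
          Nat.card_eq_fintype_card]

end Cfsg.Agent.S4276
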