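import Mathlib
import Cfsg.Statements.S4277
import Cfsg.Agent.S4290
import Cfsg.Agent.S0675

set_option autoImplicit false
open Cfsg

namespace Cfsg.Agent.S4277

open scoped Pointwise commutatorElement

section Aux

variable {G : Type*} [Group G] {Ω : Type*}

/-- `α` is induced by a permutation of `Ω` (through `ρ`). -/
def Ind (ρ : G →* Equiv.Perm Ω) (α : MulAut G) : Prop :=
  ∃ σ : Equiv.Perm Ω, ∀ g : G, ρ (α g) = σ * ρ g * σ⁻¹

/-- The subgroup of automorphisms induced by permutations. -/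
def indSub (ρ : G →* Equiv.Perm Ω) : Subgroup (MulAut G) where
  carrier := {α | Ind ρ α}
  one_mem' := ⟨1, fun g => by simp⟩
  mul_mem' := by
    rintro α β ⟨σ, hσ⟩ ⟨τ, hτ⟩
    refine ⟨σ * τ, fun g => ?_⟩
    rw [MulAut.mul_apply, hσ, hτ, mul_inv_rev]
    simp only [mul_assoc]
  inv_mem' := by
    rintro α ⟨σ, hσ⟩
    refine ⟨σ⁻¹, fun g => ?_⟩
    have h := hσ (α⁻¹ g)
    rw [MulAut.apply_inv_self] at h
    rw [h]
    simp [mul_assoc]

theorem conj_mem_indSub (ρ : G →* Equiv.Perm Ω) (x : G) : MulAut.conj x ∈ indSub ρ :=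
  ⟨ρ x, fun g => by simp [MulAut.conj_apply]⟩

/-- Induced automorphisms stabilizing the subgroup `P`. -/
def stabSub (ρ : G →* Equiv.Perm Ω) (P : Subgroup G) : Subgroup (MulAut G) where
  carrier := {α | Ind ρ α ∧ ∀ y, α y ∈ P ↔ y ∈ P}
  one_mem' := ⟨(indSub ρ).one_mem, fun _ => Iff.rfl⟩
  mul_mem' := by
    rintro α β ⟨hα1, hα2⟩ ⟨hβ1, hβ2⟩
    exact ⟨(indSub ρ).mul_mem hα1 hβ1, fun y => (hα2 (β y)).trans (hβ2 y)⟩
  inv_mem' := by
    rintro α ⟨hα1, hα2⟩
    refine ⟨(indSub ρ).inv_mem hα1, fun y => ?_⟩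
    have h := hα2 (α⁻¹ y)
    rw [MulAut.apply_inv_self] at h
    exact h.symm

theorem ind_of_odd [Fintype Ω] (ρ : G →* Equiv.Perm Ω) (hρ : Function.Injective ρ)
    (h2 : MulAction.IsMultiplyPretransitive ρ.range Ω 2) (o : Ω)
    (hHall : (Nat.card (MulAction.stabilizer ρ.range o)).Coprime
      (MulAction.stabilizer ρ.range o).index)
    (α : MulAut G) (hα : Odd (orderOf α)) : Ind ρ α := by
  obtain ⟨e, he⟩ : ∃ e : G ≃* ρ.range, ∀ g, ((e g : ρ.range) : Equiv.Perm Ω) = ρ g :=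
    ⟨MonoidHom.ofInjective hρ, fun g => rfl⟩
  have hord : orderOf (MulAut.congr e α) = orderOf α := MulEquiv.orderOf_eq (MulAut.congr e) α
  obtain ⟨σ, -, hσ⟩ := Cfsg.Agent.S4290.result ρ.range h2 o hHall (MulAut.congr e α)
    (by rw [hord]; exact hα)
  refine ⟨σ, fun g => ?_⟩
  have h := hσ (e g)
  rw [he] at h
  rw [← h, ← he]
  have h3 : (MulAut.congr e α) (e g) = e (α g) := by
    show e (α (e.symm (e g))) = e (α g)
    rw [MulEquiv.symm_apply_apply]
  rw [h3]

theorem stabSub_solvable (ρ : G →* Equiv.Perm Ω) (hρ : Function.Injective ρ) (P : Subgroup G)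
    (x₀ : G) (hgen : ∀ y ∈ P, ∃ n : ℤ, x₀ ^ n = y) (hx₀ : x₀ ∈ P)
    (htr : ∀ a b : Ω, ∃ y ∈ P, ρ y a = b) (o : Ω) :
    Group.IsSolvable (stabSub ρ P) := by
  have hPcomm : ∀ y ∈ P, ∀ y' ∈ P, y * y' = y' * y := by
    intro y hy y' hy'
    obtain ⟨n, rfl⟩ := hgen y hy
    obtain ⟨m, rfl⟩ := hgen y' hy'
    exact zpow_mul_comm x₀ n m
  have hcommP : ∀ α ∈ stabSub ρ P, ∀ β ∈ stabSub ρ P, ∀ y ∈ P, α (β y) = β (α y) := by
    intro α hα β hβ y hy
    obtain ⟨i, hi⟩ := hgen (α x₀) ((hα.2 x₀).2 hx₀)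
    obtain ⟨j, hj⟩ := hgen (β x₀) ((hβ.2 x₀).2 hx₀)
    obtain ⟨n, rfl⟩ := hgen y hy
    have h1 : α (β x₀) = β (α x₀) := by
      rw [← hj, ← hi, map_zpow, map_zpow, ← hi, ← hj, ← zpow_mul, ← zpow_mul, mul_comm]
    simp only [map_zpow]
    rw [h1]
  have hfix : ∀ γ ∈ stabSub ρ P, (∀ y ∈ P, γ y = y) → ∃ y ∈ P, γ = MulAut.conj y := by
    intro γ hγ hγP
    obtain ⟨σ, hσ⟩ := hγ.1
    obtain ⟨y, hy, hyo⟩ := htr o (σ o)
    refine ⟨y, hy, ?_⟩
    have hσy : σ = ρ y := by
      ext z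
      obtain ⟨y', hy', rfl⟩ := htr o z
      have h0 := hσ y'
      rw [hγP y' hy'] at h0
      have h1 : σ * ρ y' = ρ y' * σ := by
        conv_rhs => rw [h0]
        simp [mul_assoc]
      calc σ (ρ y' o) = (σ * ρ y') o := rfl
        _ = (ρ y' * σ) o := by rw [h1]
        _ = ρ y' (ρ y o) := by rw [Equiv.Perm.mul_apply, hyo]
        _ = ρ (y' * y) o := by rw [map_mul, Equiv.Perm.mul_apply]
        _ = ρ (y * y') o := by rw [hPcomm y' hy' y hy]
        _ = ρ y (ρ y' o) := by rw [map_mul, Equiv.Perm.mul_apply]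
    ext g
    apply hρ
    rw [hσ g, hσy, MulAut.conj_apply, map_mul, map_mul, map_inv]
  obtain ⟨C, hC⟩ : ∃ C : Subgroup (MulAut G), C = P.map (MulAut.conj : G →* MulAut G) :=
    ⟨_, rfl⟩
  have hCcomm : ∀ a ∈ C, ∀ b ∈ C, a * b = b * a := by
    intro a ha b hb
    rw [hC] at ha hb
    obtain ⟨y, hy, rfl⟩ := ha
    obtain ⟨y', hy', rfl⟩ := hb
    rw [← map_mul, ← map_mul, hPcomm y hy y' hy']
  have hcomm : ∀ a b : stabSub ρ P, ⁅(a : MulAut G), (b : MulAut G)⁆ ∈ C := by
    intro a b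
    have hab : ⁅(a : MulAut G), (b : MulAut G)⁆ ∈ stabSub ρ P := by
      rw [commutatorElement_def]
      exact (stabSub ρ P).mul_mem ((stabSub ρ P).mul_mem ((stabSub ρ P).mul_mem a.2 b.2)
        ((stabSub ρ P).inv_mem a.2)) ((stabSub ρ P).inv_mem b.2)
    obtain ⟨y, hy, hγ⟩ := hfix _ hab (by
      intro y hy
      rw [commutatorElement_def]
      simp only [MulAut.mul_apply]
      have hw1 : (b : MulAut G)⁻¹ y ∈ P := ((((stabSub ρ P).inv_mem b.2).2) y).2 hy
      have hw2 : (a : MulAut G)⁻¹ ((b : MulAut G)⁻¹ y) ∈ P :=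
        ((((stabSub ρ P).inv_mem a.2).2) _).2 hw1
      rw [hcommP a a.2 b b.2 _ hw2, MulAut.apply_inv_self, MulAut.apply_inv_self])
    rw [hγ, hC]
    exact Subgroup.mem_map_of_mem _ hy
  have hCsol : Group.IsSolvable (C.subgroupOf (stabSub ρ P)) := Group.isSolvable_of_comm (by
    intro a b
    apply Subtype.ext
    apply Subtype.ext
    exact hCcomm _ (Subgroup.mem_subgroupOf.1 a.2) _ (Subgroup.mem_subgroupOf.1 b.2))
  refine Group.isSolvable_of_ker_le_range (C.subgroupOf (stabSub ρ P)).subtype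
    (Abelianization.of (G := stabSub ρ P)) ?_
  rw [Abelianization.ker_of, Subgroup.range_subtype, commutator_def, Subgroup.commutator_le]
  intro a _ b _
  rw [Subgroup.mem_subgroupOf]
  exact hcomm a b

end Aux

theorem main_solvable {G : Type*} [Group G] [Finite G] [IsSimpleGroup G]
    (hs : Group.IsSolvable G) : Group.IsSolvable (MulAut G ⧸ Inn G) := by
  have hc : ∀ a b : G, a * b = b * a := IsSimpleGroup.comm_iff_isSolvable.2 hs
  have : IsCyclic G := by
    let _ : CommGroup G := { ‹Group G› with mul_comm := hc }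
    exact IsSimpleGroup.isCyclic
  have hA : ∀ a b : MulAut G, a * b = b * a := by
    intro a b
    have e := IsCyclic.mulAutMulEquiv G
    apply e.injective
    rw [map_mul, map_mul, mul_comm]
  apply Group.isSolvable_of_comm
  intro a b
  obtain ⟨a, rfl⟩ := QuotientGroup.mk_surjective a
  obtain ⟨b, rfl⟩ := QuotientGroup.mk_surjective b
  rw [← QuotientGroup.mk_mul, ← QuotientGroup.mk_mul, hA]

theorem main_nonsolvable {G : Type*} [Group G] [Finite G] [IsSimpleGroup G] (H : Subgroup G)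
    (hH : H.index.Prime) (hns : ¬ Group.IsSolvable G) :
    Group.IsSolvable (MulAut G ⧸ Inn G) := by
  classical
  obtain ⟨p, hp⟩ : ∃ p, p = H.index := ⟨_, rfl⟩
  rw [← hp] at hH
  have : Fact p.Prime := ⟨hH⟩
  have : Fintype (G ⧸ H) := Fintype.ofFinite _
  have hcard : Fintype.card (G ⧸ H) = p := by
    rw [hp, Subgroup.index, Nat.card_eq_fintype_card]
  obtain ⟨ρ, hρdef⟩ : ∃ ρ : G →* Equiv.Perm (G ⧸ H), ρ = MulAction.toPermHom G (G ⧸ H) :=
    ⟨_, rfl⟩
  have hρapp : ∀ (g : G) (x : G ⧸ H), ρ g x = g • x := by intro g x; rw [hρdef]; rfl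
  have hρinj : Function.Injective ρ := by
    rw [← MonoidHom.ker_eq_bot_iff]
    have hker : ρ.ker = H.normalCore := by rw [hρdef, Subgroup.normalCore_eq_ker]
    rcases (ρ.normal_ker).eq_bot_or_eq_top with h | h
    · exact h
    · exfalso
      have hle : (⊤ : Subgroup G) ≤ H := by rw [← h, hker]; exact Subgroup.normalCore_le H
      have hHtop : H = ⊤ := top_le_iff.1 hle
      rw [hHtop, Subgroup.index_top] at hp
      rw [hp] at hH
      exact Nat.not_prime_one hH
  have htrans : ∀ a b : G ⧸ H, ∃ g : G, ρ g a = b := by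
    intro a b
    obtain ⟨g, hg⟩ := MulAction.exists_smul_eq G a b
    exact ⟨g, by rw [hρapp]; exact hg⟩
  have hpre : MulAction.IsPretransitive ρ.range (G ⧸ H) := by
    refine ⟨fun a b => ?_⟩
    obtain ⟨g, hg⟩ := htrans a b
    exact ⟨⟨ρ g, g, rfl⟩, hg⟩
  have hns' : ¬ Group.IsSolvable ρ.range := by
    intro hsol
    have := hsol
    exact hns (Group.isSolvable_of_isSolvable_injective (f := ρ.rangeRestrict) (by
      intro a b hab
      apply hρinj
      exact congrArg Subtype.val hab))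
  have h2 : MulAction.IsMultiplyPretransitive ρ.range (G ⧸ H) 2 := by
    rcases Cfsg.Agent.S0675.result (by rw [hcard]; exact hH) ρ.range with h | h
    · exact absurd h hns'
    · exact h
  obtain ⟨o⟩ : Nonempty (G ⧸ H) := ⟨QuotientGroup.mk 1⟩
  have hidx : (MulAction.stabilizer ρ.range o).index = p := by
    rw [MulAction.index_stabilizer_of_transitive, Nat.card_eq_fintype_card, hcard]
  have hcardG : Nat.card ρ.range ∣ p.factorial := by
    have h1 : Nat.card ρ.range ∣ Nat.card (Equiv.Perm (G ⧸ H)) :=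
      Subgroup.card_subgroup_dvd_card _
    rwa [Nat.card_eq_fintype_card (α := Equiv.Perm (G ⧸ H)), Fintype.card_perm, hcard] at h1
  have hpp : ¬ p * p ∣ p.factorial := by
    intro h
    have hp1 : p.factorial = p * (p - 1).factorial := by
      have hpos := hH.pos
      obtain ⟨q, hq⟩ : ∃ q, p = q + 1 := ⟨p - 1, by omega⟩
      rw [hq, Nat.factorial_succ, Nat.add_sub_cancel]
    rw [hp1] at h
    have h3 : p ∣ (p - 1).factorial := (Nat.mul_dvd_mul_iff_left hH.pos).1 h
    have h4 := (hH.dvd_factorial).1 h3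
    have := hH.pos
    omega
  have hHall : (Nat.card (MulAction.stabilizer ρ.range o)).Coprime
      (MulAction.stabilizer ρ.range o).index := by
    rw [hidx]
    apply Nat.Coprime.symm
    rw [Nat.Prime.coprime_iff_not_dvd hH]
    intro hdvd
    apply hpp
    have h1 := Subgroup.card_mul_index (MulAction.stabilizer ρ.range o)
    rw [hidx] at h1
    have h5 : p * p ∣ Nat.card ρ.range := by
      rw [← h1]
      exact Nat.mul_dvd_mul hdvd (dvd_refl p)
    exact h5.trans hcardG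
  have hodd : ∀ α : MulAut G, Odd (orderOf α) → α ∈ indSub ρ :=
    fun α hα => ind_of_odd ρ hρinj h2 o hHall α hα
  have hInn : Inn G ≤ indSub ρ := by
    rintro _ ⟨x, rfl⟩
    exact conj_mem_indSub ρ x
  have : Finite (MulAut G) :=
    Finite.of_injective (fun f : MulAut G => (f : G → G)) DFunLike.coe_injective
  obtain ⟨O, hO⟩ : ∃ O : Subgroup (MulAut G),
      O = Subgroup.normalClosure {α : MulAut G | Odd (orderOf α)} := ⟨_, rfl⟩
  have hOn : O.Normal := by rw [hO]; exact Subgroup.normalClosure_normal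
  have hOle : O ≤ indSub ρ := by
    rw [hO, Subgroup.normalClosure, Subgroup.closure_le]
    intro a ha
    rw [Group.mem_conjugatesOfSet_iff] at ha
    obtain ⟨b, hb, hab⟩ := ha
    obtain ⟨c, hc⟩ := isConj_iff.1 hab
    apply hodd
    rw [← hc]
    have h1 := MulEquiv.orderOf_eq (MulAut.conj c) b
    rw [MulAut.conj_apply] at h1
    rw [h1]
    exact hb
  obtain ⟨M, hM⟩ : ∃ M : Subgroup (MulAut G), M = O ⊔ Inn G := ⟨_, rfl⟩
  have hMn : M.Normal := by rw [hM]; exact Subgroup.sup_normal O (Inn G)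
  have hMle : M ≤ indSub ρ := by rw [hM]; exact sup_le hOle hInn
  have hIM : Inn G ≤ M := by rw [hM]; exact le_sup_right
  have hOM : O ≤ M := by rw [hM]; exact le_sup_left
  have hQ2 : IsPGroup 2 (MulAut G ⧸ M) := by
    intro q
    obtain ⟨a, rfl⟩ := QuotientGroup.mk_surjective q
    obtain ⟨k, m, hm, hkm⟩ := Nat.exists_eq_two_pow_mul_odd (orderOf_pos a).ne'
    refine ⟨k, ?_⟩
    rw [← QuotientGroup.mk_pow, QuotientGroup.eq_one_iff]
    apply hOM
    rw [hO]
    apply Subgroup.subset_normalClosure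
    show Odd (orderOf (a ^ 2 ^ k))
    have h1 : orderOf (a ^ (orderOf a / m)) = m :=
      orderOf_pow_orderOf_div (orderOf_pos a).ne' (Dvd.intro_left _ hkm.symm)
    have h2' : orderOf a / m = 2 ^ k := by rw [hkm]; exact Nat.mul_div_cancel _ hm.pos
    rw [h2'] at h1
    rw [h1]; exact hm
  have : Fact (Nat.Prime 2) := ⟨Nat.prime_two⟩
  have hQsol : Group.IsSolvable (MulAut G ⧸ M) := by
    have := hQ2.isNilpotent
    infer_instance
  -- Sylow p-subgroup of order p
  have hpG : p ∣ Nat.card G := by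
    rw [← Subgroup.card_mul_index H, ← hp]; exact dvd_mul_left _ _
  have hcardGG : Nat.card G = Nat.card ρ.range :=
    Nat.card_congr (MonoidHom.ofInjective hρinj).toEquiv
  have hpp' : ¬ p * p ∣ Nat.card G := by
    intro h
    rw [hcardGG] at h
    exact hpp (h.trans hcardG)
  obtain ⟨P⟩ : Nonempty (Sylow p G) := inferInstance
  have hPcard : Nat.card P = p := by
    rw [Sylow.card_eq_multiplicity]
    have hf : (Nat.card G).factorization p = 1 := by
      have hn0 : Nat.card G ≠ 0 := Nat.card_pos.ne'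
      apply le_antisymm
      · by_contra hlt
        push Not at hlt
        apply hpp'
        have h3 : p ^ 2 ∣ Nat.card G := (hH.pow_dvd_iff_le_factorization hn0).2 hlt
        rwa [pow_two] at h3
      · exact (hH.dvd_iff_one_le_factorization hn0).1 hpG
    rw [hf, pow_one]
  have : IsCyclic P := isCyclic_of_prime_card hPcard
  obtain ⟨x₀, hx₀⟩ := IsCyclic.exists_generator (α := P)
  have hgen : ∀ y ∈ (P : Subgroup G), ∃ n : ℤ, (x₀ : G) ^ n = y := by
    intro y hy
    obtain ⟨n, hn⟩ := Subgroup.mem_zpowers_iff.1 (hx₀ ⟨y, hy⟩)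
    refine ⟨n, ?_⟩
    have h1 := congrArg Subtype.val hn
    simpa using h1
  have hPtrans : ∀ a b : G ⧸ H, ∃ y : G, y ∈ (P : Subgroup G) ∧ ρ y a = b := by
    have hord : orderOf (ρ (x₀ : G)) = p := by
      rw [orderOf_injective ρ hρinj, Subgroup.orderOf_coe,
        orderOf_eq_card_of_forall_mem_zpowers hx₀, hPcard]
    have hcyc : (ρ (x₀ : G)).IsCycle :=
      Equiv.Perm.isCycle_of_prime_order'' (by rw [hcard]; exact hH) (by rw [hord, hcard])
    have hsupp : (ρ (x₀ : G)).support = Finset.univ := by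
      apply Finset.eq_univ_of_card
      rw [← hcyc.orderOf, hord, hcard]
    intro a b
    have ha : ρ (x₀ : G) a ≠ a :=
      Equiv.Perm.mem_support.1 (by rw [hsupp]; exact Finset.mem_univ a)
    have hb : ρ (x₀ : G) b ≠ b :=
      Equiv.Perm.mem_support.1 (by rw [hsupp]; exact Finset.mem_univ b)
    obtain ⟨i, hi⟩ := hcyc.exists_pow_eq ha hb
    refine ⟨(x₀ : G) ^ i, Subgroup.pow_mem _ x₀.2 i, ?_⟩
    rw [map_pow]; exact hi
  have hfrat : ∀ α : MulAut G, ∃ x : G, ∀ y : G,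
      (x⁻¹ * α y * x ∈ (P : Subgroup G) ↔ y ∈ (P : Subgroup G)) := by
    intro α
    obtain ⟨x, hx⟩ := MulAction.exists_smul_eq G P (α • P)
    refine ⟨x, fun y => ?_⟩
    have h1 : ((x • P : Sylow p G) : Subgroup G) = ((α • P : Sylow p G) : Subgroup G) := by
      rw [hx]
    have h2' : α y ∈ ((α • P : Sylow p G) : Subgroup G) ↔ y ∈ (P : Subgroup G) := by
      rw [Sylow.pointwise_smul_def, Subgroup.mem_pointwise_smul_iff_inv_smul_mem,
        MulAut.smul_def, MulAut.inv_apply_self]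
    have h3 : α y ∈ ((x • P : Sylow p G) : Subgroup G) ↔ x⁻¹ * α y * x ∈ (P : Subgroup G) := by
      rw [Sylow.smul_def, Sylow.pointwise_smul_def, Subgroup.mem_pointwise_smul_iff_inv_smul_mem,
        MulAut.smul_def, ← map_inv, MulAut.conj_apply, inv_inv]
    rw [← h3, h1, h2']
  have hBsol : Group.IsSolvable (stabSub ρ (P : Subgroup G)) :=
    stabSub_solvable ρ hρinj (P : Subgroup G) (x₀ : G) hgen x₀.2 hPtrans o
  obtain ⟨f, hf⟩ : ∃ f : stabSub ρ (P : Subgroup G) →* MulAut G ⧸ Inn G,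
      f = (QuotientGroup.mk' (Inn G)).comp (stabSub ρ (P : Subgroup G)).subtype := ⟨_, rfl⟩
  obtain ⟨g, hg⟩ : ∃ g : MulAut G ⧸ Inn G →* MulAut G ⧸ M,
      ∀ a : MulAut G, g (QuotientGroup.mk a) = QuotientGroup.mk a :=
    ⟨QuotientGroup.map (Inn G) M (MonoidHom.id _) (fun a ha => hIM ha), fun a => rfl⟩
  refine Group.isSolvable_of_ker_le_range f g ?_
  intro q hq
  obtain ⟨a, rfl⟩ := QuotientGroup.mk_surjective q
  have ha : a ∈ M := by
    rw [MonoidHom.mem_ker, hg, QuotientGroup.eq_one_iff] at hq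
    exact hq
  obtain ⟨x, hx⟩ := hfrat a
  have hb : (MulAut.conj x)⁻¹ * a ∈ stabSub ρ (P : Subgroup G) := by
    refine ⟨(indSub ρ).mul_mem ((indSub ρ).inv_mem (conj_mem_indSub ρ x)) (hMle ha), fun y => ?_⟩
    have h1 : ((MulAut.conj x)⁻¹ * a) y = x⁻¹ * a y * x := by
      rw [MulAut.mul_apply, ← map_inv, MulAut.conj_apply, inv_inv]
    rw [h1]; exact hx y
  refine ⟨⟨_, hb⟩, ?_⟩
  rw [hf]
  show (QuotientGroup.mk ((MulAut.conj x)⁻¹ * a) : MulAut G ⧸ Inn G) = QuotientGroup.mk a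
  rw [QuotientGroup.eq]
  have h1 : ((MulAut.conj x)⁻¹ * a)⁻¹ * a = a⁻¹ * MulAut.conj x * a := by group
  rw [h1]
  have hn := (innNormal G).conj_mem (MulAut.conj x) ⟨x, rfl⟩ a⁻¹
  simpa using hn

/-- A case of the Schreier conjecture: if a finite simple group G has a subgroup of prime index, then the outer automorphism group of G is solvable. -/
theorem result {G : Type*} [Group G] [Finite G] [IsSimpleGroup G] (H : Subgroup G) (hH : H.index.Prime) : Group.IsSolvable (Cfsg.Out G) := by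
  by_cases hs : Group.IsSolvable G
  · exact main_solvable hs
  · exact main_nonsolvable H hH hs

end Cfsg.Agent.S4277
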