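import Cfsg.Statements.S4278
import Cfsg.Agent.Lib.Helper36.OddG2g

set_option autoImplicit false
open Cfsg

namespace Cfsg.Agent.S4278

/-- In the Chevalley group of type G₂ over a finite field of odd order, any two involutions are conjugate. -/
theorem result {F : Type*} [Field F] [Fintype F] (hF : Odd (Fintype.card F)) (s t : ↥(Cfsg.Lie.chevG2.group F)) (hs : orderOf s = 2) (ht : orderOf t = 2) : IsConj s t := by
  have key : ∀ u : ↥(Cfsg.Lie.chevG2.group F), orderOf u = 2 →
      (u : GL Cfsg.Lie.chevG2.Idx F) * (u : GL Cfsg.Lie.chevG2.Idx F) = 1 ∧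
      (u : GL Cfsg.Lie.chevG2.Idx F) ≠ 1 := by
    intro u hu
    have h2 : u * u = 1 := by
      have h := pow_orderOf_eq_one u
      rw [hu, pow_two] at h
      exact h
    have h1 : u ≠ 1 := by
      intro h
      rw [h, orderOf_one] at hu
      omega
    refine ⟨?_, ?_⟩
    · have h := congrArg Subtype.val h2
      simpa using h
    · intro h
      apply h1
      exact Subtype.ext h
  obtain ⟨hs2, hs1⟩ := key s hs
  obtain ⟨ht2, ht1⟩ := key t ht
  obtain ⟨g, hg, e⟩ := Cfsg.Agent.Lib.Helper36.OddG2g.invol_isConj hF s.2 t.2 hs2 hs1 ht2 ht1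
  rw [isConj_iff]
  refine ⟨⟨g, hg⟩, ?_⟩
  apply Subtype.ext
  simpa using e

end Cfsg.Agent.S4278
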