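import Cfsg.Statements.S4282
import Cfsg.Agent.Lib.Helper1.HHFinal
import Cfsg.Agent.Lib.Helper1.HHGrp
import Cfsg.Agent.Lib.Helper1.HHW

set_option autoImplicit false
open Cfsg

namespace Cfsg.Agent.S4282

open Cfsg.Agent.Lib.Helper1.HHW Cfsg.Agent.Lib.Helper1.HHGrp Cfsg.Agent.Lib.Helper1.HHFinal
  Cfsg.Agent.Lib.Helper1.HHJordan

/-- A representation as a homomorphism into the group of linear automorphisms. -/
noncomputable def toGL {K G V : Type*} [Field K] [Group G] [AddCommGroup V] [Module K V]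
    (ρ : Representation K G V) : G →* (V ≃ₗ[K] V) :=
  (LinearMap.GeneralLinearGroup.generalLinearEquiv K V).toMonoidHom.comp ρ.toHomUnits

theorem toE_toGL {K G V : Type*} [Field K] [Group G] [AddCommGroup V] [Module K V]
    (ρ : Representation K G V) (g : G) : toE (toGL ρ g) = ρ g := by
  ext v
  rfl

theorem pow_mem_aux {G : Type*} [Group G] (H : Subgroup G) (g : G) {a b : ℕ}
    (hab : Nat.Coprime a b) (ha : g ^ a ∈ H) (hb : g ^ b ∈ H) : g ∈ H := by
  have h1 : g ^ ((a : ℤ) * Nat.gcdA a b + (b : ℤ) * Nat.gcdB a b) ∈ H := by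
    rw [zpow_add, zpow_mul, zpow_mul, zpow_natCast, zpow_natCast]
    exact mul_mem (zpow_mem ha _) (zpow_mem hb _)
  have h2 : Nat.gcd a b = 1 := hab
  rw [← Nat.gcd_eq_gcd_ab, h2, Nat.cast_one, zpow_one] at h1
  exact h1

/-- Schur: an endomorphism commuting with an irreducible family is a scalar. -/
theorem scalar_of_commute {K G V : Type*} [Field K] [IsAlgClosed K] [Group G] [AddCommGroup V]
    [Module K V] [FiniteDimensional K V] [Nontrivial V]
    (ρ : Representation K G V) (Q : Subgroup G)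
    (hirr : ∀ W : Submodule K V, (∀ g ∈ Q, Submodule.map (ρ g) W ≤ W) → W = ⊥ ∨ W = ⊤)
    (f : Module.End K V) (hf : ∀ g ∈ Q, f * ρ g = ρ g * f) : ∃ c : K, ∀ w : V, f w = c • w := by
  obtain ⟨c, hc⟩ := Module.End.exists_eigenvalue f
  refine ⟨c, ?_⟩
  have hinv : ∀ g ∈ Q, Submodule.map (ρ g) (Module.End.eigenspace f c) ≤
      Module.End.eigenspace f c := by
    rintro g hg _ ⟨w, hw, rfl⟩
    rw [SetLike.mem_coe, Module.End.mem_eigenspace_iff] at hw
    rw [Module.End.mem_eigenspace_iff]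
    have h1 : f (ρ g w) = ρ g (f w) := congrArg (fun e : Module.End K V => e w) (hf g hg)
    rw [h1, hw, map_smul]
  rcases hirr _ hinv with h | h
  · exact absurd h hc
  · intro w
    have : w ∈ Module.End.eigenspace f c := by rw [h]; trivial
    exact Module.End.mem_eigenspace_iff.mp this

set_option maxHeartbeats 1600000 in
theorem key {G : Type*} [Group G] [Finite G] (p q : ℕ) [Fact p.Prime] [Fact q.Prime] (hpq : p ≠ q) (Q : Subgroup G) [Q.Normal] (hQ : IsPGroup q Q) (x : G) (n : ℕ) (hord : orderOf x = p ^ n) (hC : ∀ y ∈ Subgroup.zpowers x, y ≠ 1 → Subgroup.centralizer ({y} : Set G) = Subgroup.zpowers x ⊔ Subgroup.center G) {K : Type*} [Field K] [IsAlgClosed K] [CharP K p] {V : Type*} [AddCommGroup V] [Module K V] [FiniteDimensional K V] [Nontrivial V] (ρ : Representation K G V) (hfaith : Function.Injective ρ) (hirr : ∀ W : Submodule K V, (∀ g ∈ Q, Submodule.map (ρ g) W ≤ W) → W = ⊥ ∨ W = ⊤) (s : ℕ) (hs : (ρ x - 1) ^ s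 = 0) (hs1 : 1 ≤ s) :
    p ^ n ≤ s ∨ (p ^ n - 1 ≤ s ∧ (∃ b : ℕ, p ^ n - 1 = q ^ b) ∧ ¬ IsMulCommutative Q) := by
  classical
  have hp := (Fact.out : p.Prime)
  have hq := (Fact.out : q.Prime)
  have hxP : x ^ (p ^ n) = 1 := by rw [← hord]; exact pow_orderOf_eq_one x
  rcases Nat.eq_zero_or_pos n with hn0 | hn1
  · left
    rw [hn0, pow_zero]
    exact hs1
  have hP0 : 0 < p ^ n := Nat.pos_of_ne_zero (pow_ne_zero _ hp.ne_zero)
  have hinj : Function.Injective (toGL ρ) := by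
    intro g h hgh
    apply hfaith
    have h1 : toE (toGL ρ g) = toE (toGL ρ h) := by rw [hgh]
    rw [toE_toGL, toE_toGL] at h1
    exact h1
  have hfinQ : Finite (Q.map (toGL ρ)) := by
    apply Finite.of_surjective
      (fun s : Q => (⟨toGL ρ s, Subgroup.mem_map_of_mem (toGL ρ) s.2⟩ : Q.map (toGL ρ)))
    rintro ⟨g, hg⟩
    obtain ⟨s, hs, rfl⟩ := Subgroup.mem_map.mp hg
    exact ⟨⟨s, hs⟩, rfl⟩
  have hQp : IsPGroup q (Q.map (toGL ρ)) := hQ.map (toGL ρ)
  have hxQ : ∀ g ∈ Q.map (toGL ρ), toGL ρ x * g * (toGL ρ x)⁻¹ ∈ Q.map (toGL ρ) := by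
    rintro _ ⟨a, ha, rfl⟩
    rw [← map_inv, ← map_mul, ← map_mul]
    exact Subgroup.mem_map_of_mem _ (Subgroup.Normal.conj_mem inferInstance a ha x)
  have hxP' : (toGL ρ x) ^ (p ^ n) = 1 := by rw [← map_pow, hxP, map_one]
  have hr : (toE (toGL ρ x) - 1) ^ s = 0 := by rw [toE_toGL]; exact hs
  have hy1 : x ^ (p ^ (n - 1)) ≠ 1 := by
    intro h
    have h1 := orderOf_dvd_of_pow_eq_one h
    rw [hord] at h1
    have h2 := Nat.le_of_dvd (Nat.pos_of_ne_zero (pow_ne_zero _ hp.ne_zero)) h1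
    have h3 : p ^ (n - 1) < p ^ n := Nat.pow_lt_pow_right hp.one_lt (by omega)
    omega
  have hyp : (x ^ (p ^ (n - 1))) ^ p = 1 := by
    rw [← pow_mul, ← pow_succ, Nat.sub_add_cancel hn1, hxP]
  have hyp' : ((toGL ρ x) ^ (p ^ (n - 1))) ^ p = 1 := by
    rw [← map_pow, ← map_pow, hyp, map_one]
  have hxy : toGL ρ x * (toGL ρ x) ^ (p ^ (n - 1)) = (toGL ρ x) ^ (p ^ (n - 1)) * toGL ρ x :=
    (Commute.pow_right (Commute.refl _) _).eq
  have hyQ : ∃ g ∈ Q.map (toGL ρ),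
      (toGL ρ x) ^ (p ^ (n - 1)) * g * ((toGL ρ x) ^ (p ^ (n - 1)))⁻¹ ≠ g := by
    by_contra hall
    push Not at hall
    have hcomm : ∀ g ∈ Q, ρ (x ^ (p ^ (n - 1))) * ρ g = ρ g * ρ (x ^ (p ^ (n - 1))) := by
      intro g hg
      have h1 := hall (toGL ρ g) (Subgroup.mem_map_of_mem _ hg)
      rw [← map_pow] at h1
      have h2 : toGL ρ (x ^ (p ^ (n - 1))) * toGL ρ g = toGL ρ g * toGL ρ (x ^ (p ^ (n - 1))) := by
        calc toGL ρ (x ^ (p ^ (n - 1))) * toGL ρ g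
            = (toGL ρ (x ^ (p ^ (n - 1))) * toGL ρ g * (toGL ρ (x ^ (p ^ (n - 1))))⁻¹)
              * toGL ρ (x ^ (p ^ (n - 1))) := by group
          _ = toGL ρ g * toGL ρ (x ^ (p ^ (n - 1))) := by rw [h1]
      have h3 := congrArg toE h2
      rw [map_mul, map_mul, toE_toGL, toE_toGL] at h3
      exact h3
    obtain ⟨c, hc⟩ := scalar_of_commute ρ Q hirr (ρ (x ^ (p ^ (n - 1)))) hcomm
    obtain ⟨v, hv⟩ := exists_ne (0 : V)
    have hfy : ρ (x ^ (p ^ (n - 1))) = c • (1 : Module.End K V) := by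
      ext w
      rw [hc]
      rfl
    have hcp : c ^ p = 1 := by
      have h1 : (ρ (x ^ (p ^ (n - 1)))) ^ p = c ^ p • (1 : Module.End K V) := by
        rw [hfy, smul_pow, one_pow]
      rw [← map_pow, hyp, map_one] at h1
      have h2 := congrArg (fun e : Module.End K V => e v) h1
      have h3 : v = c ^ p • v := h2
      have h4 : (c ^ p - 1) • v = 0 := by rw [sub_smul, one_smul, ← h3, sub_self]
      rcases smul_eq_zero.mp h4 with h5 | h5
      · exact sub_eq_zero.mp h5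
      · exact absurd h5 hv
    have hc1 : c = 1 := by
      have h1 := frob_alg K p c 1
      rw [pow_one, hcp, sub_self] at h1
      exact sub_eq_zero.mp (pow_eq_zero_iff hp.ne_zero |>.mp h1)
    have h1 : ρ (x ^ (p ^ (n - 1))) = 1 := by rw [hfy, hc1, one_smul]
    exact hy1 (hfaith (h1.trans (map_one ρ).symm))
  obtain ⟨Q₁, hQ₁Q, hQ₁x, hQ₁y, hQ₁min⟩ :=
    exists_minimal (toGL ρ x) ((toGL ρ x) ^ (p ^ (n - 1))) (Q.map (toGL ρ)) hxQ hyQ
  have hfinQ₁ : Finite Q₁ :=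
    Finite.of_injective (Subgroup.inclusion hQ₁Q) (Subgroup.inclusion_injective _)
  have hQ₁p : IsPGroup q Q₁ := hQp.to_le hQ₁Q
  have hssQ₁ : ∀ a ∈ Q₁, ∃ m : ℕ, a ^ m = 1 ∧ (m : K) ≠ 0 := by
    intro a ha
    obtain ⟨j, hj⟩ := hQ₁p ⟨a, ha⟩
    refine ⟨q ^ j, by simpa using congrArg Subtype.val hj, ?_⟩
    rw [Nat.cast_pow]
    apply pow_ne_zero
    intro h0
    have := (CharP.cast_eq_zero_iff K p q).mp h0
    exact hpq ((Nat.prime_dvd_prime_iff_eq hp hq).mp this)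
  by_cases hab : ∀ g ∈ Q₁, ∀ h ∈ Q₁, g * h = h * g
  · left
    exact abelian_bound p Q₁ hab hssQ₁ (toGL ρ x) hQ₁x n hxP' hQ₁y s hr
  push Not at hab
  have hQ₁x' := conj_inv_mem Q₁ (toGL ρ x) hQ₁x hP0 hxP'
  have hQ₁yc : ∀ g ∈ Q₁, (toGL ρ x) ^ (p ^ (n - 1)) * g * ((toGL ρ x) ^ (p ^ (n - 1)))⁻¹ ∈ Q₁ :=
    conj_pow_mem Q₁ (toGL ρ x) hQ₁x _
  obtain ⟨hcl2, hfpf, hcenZ⟩ := minimal_struct p q hpq Q₁ hQ₁p (toGL ρ x)
    ((toGL ρ x) ^ (p ^ (n - 1))) hxy hyp' hQ₁x hQ₁x' hQ₁yc hab hQ₁min hQ₁y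
  have hZsc : ∀ z ∈ Q₁, (∀ k ∈ Q₁, z * k = k * z) → ∃ c : K, ∀ w : V, z w = c • w := by
    intro z hz hzc
    obtain ⟨g, hg, rfl⟩ := hQ₁Q hz
    have h1 := hcenZ _ hz hzc
    have h2 : x ^ (p ^ (n - 1)) * g * (x ^ (p ^ (n - 1)))⁻¹ = g := by
      apply hinj
      rw [map_mul, map_mul, map_inv, map_pow]
      exact h1
    have h3 : g ∈ Subgroup.centralizer ({x ^ (p ^ (n - 1))} : Set G) := by
      rw [Subgroup.mem_centralizer_iff]
      intro h hh
      rw [Set.mem_singleton_iff] at hh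
      subst hh
      calc x ^ (p ^ (n - 1)) * g = (x ^ (p ^ (n - 1)) * g * (x ^ (p ^ (n - 1)))⁻¹)
            * x ^ (p ^ (n - 1)) := by group
        _ = g * x ^ (p ^ (n - 1)) := by rw [h2]
    rw [hC _ (pow_mem (Subgroup.mem_zpowers x) _) hy1] at h3
    obtain ⟨a, ha, c, hc, hac⟩ := Subgroup.mem_sup_of_normal_right.mp h3
    have hgZ : g ∈ Subgroup.center G := by
      obtain ⟨j, hj⟩ := hQ ⟨g, hg⟩
      have hj' : g ^ (q ^ j) = 1 := by simpa using congrArg Subtype.val hj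
      have hcop : Nat.Coprime (p ^ n) (q ^ j) :=
        Nat.Coprime.pow _ _ ((Nat.coprime_primes hp hq).mpr hpq)
      apply pow_mem_aux (Subgroup.center G) g hcop
      · obtain ⟨i, rfl⟩ := Subgroup.mem_zpowers_iff.mp ha
        have hcomm : Commute (x ^ i) c := Subgroup.mem_center_iff.mp hc (x ^ i)
        rw [← hac, hcomm.mul_pow]
        have h4 : (x ^ i) ^ (p ^ n) = 1 := by
          rw [← zpow_natCast, ← zpow_mul, mul_comm, zpow_mul, zpow_natCast, hxP, one_zpow]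
        rw [h4, one_mul]
        exact pow_mem hc _
      · rw [hj']
        exact one_mem _
    have hcomm : ∀ k ∈ Q, ρ g * ρ k = ρ k * ρ g := by
      intro k _
      rw [← map_mul, ← map_mul, Subgroup.mem_center_iff.mp hgZ k]
    obtain ⟨c, hc⟩ := scalar_of_commute ρ Q hirr (ρ g) hcomm
    exact ⟨c, fun w => hc w⟩
  have hfin := final_config p Q₁ hab hcl2 hZsc (toGL ρ x) hQ₁x n hn1 hxP' hfpf s hr
  rcases hfin with h | ⟨h1, h2⟩
  · left
    exact h
  · right
    refine ⟨h1, ?_, ?_⟩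
    · obtain ⟨e, he⟩ := (IsPGroup.iff_card (p := q)).mp (hQ₁p.to_quotient (Subgroup.center Q₁))
      rw [h2] at he
      have hdvd : p ^ n - 1 ∣ q ^ e := by
        rw [← he, sq]
        exact dvd_mul_right _ _
      obtain ⟨m, _, hm⟩ := (Nat.dvd_prime_pow hq).mp hdvd
      exact ⟨m, hm⟩
    · intro hcomm
      obtain ⟨g, hg, h, hh, hne⟩ := hab
      obtain ⟨a, ha, rfl⟩ := hQ₁Q hg
      obtain ⟨b, hb, rfl⟩ := hQ₁Q hh
      apply hne
      have h3 : a * b = b * a := by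
        have := hcomm.is_comm.comm (⟨a, ha⟩ : Q) ⟨b, hb⟩
        exact congrArg Subtype.val this
      rw [← map_mul, ← map_mul, h3]

/-- A critical case behind the Hall–Higman theorem. Let p ≠ q be primes and G a finite group generated by a normal q-subgroup Q and a cyclic p-subgroup generated by x, such that the centralizer of every non-identity element of that cyclic subgroup is its product with the centre of G. Let K be an algebraically closed field of characteristic p and ρ a faithful representation of G on a nonzero finite-dimensional K-space whose restriction to Q is irreducible. If s is the least exponent with (ρ(x) − 1)^s = 0, then |⟨x⟩| − 1 ≤ s ≤ |⟨x⟩|; and if s = |⟨x⟩| − 1 then |⟨x⟩| − 1 is a power of q and Q is non-abelian. -/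
theorem result {G : Type*} [Group G] [Finite G] (p q : ℕ) [Fact p.Prime] [Fact q.Prime] (hpq : p ≠ q) (Q : Subgroup G) [Q.Normal] (hQ : IsPGroup q Q) (x : G) (hx : IsPGroup p (Subgroup.zpowers x)) (hgen : Q ⊔ Subgroup.zpowers x = ⊤) (hC : ∀ y ∈ Subgroup.zpowers x, y ≠ 1 → Subgroup.centralizer ({y} : Set G) = Subgroup.zpowers x ⊔ Subgroup.center G) {K : Type*} [Field K] [IsAlgClosed K] [CharP K p] {V : Type*} [AddCommGroup V] [Module K V] [FiniteDimensional K V] [Nontrivial V] (ρ : Representation K G V) (hfaith : Function.Injective ρ) (hirr : ∀ W : Submodule K V, (∀ g ∈ Q, Submodule.map (ρ g) W ≤ W) → W = ⊥ ∨ W = ⊤) (s : ℕ) (hs : (ρ x - 1) ^ s = 0) (hmin : ∀ k < s, (ρ x - 1) ^ k ≠ 0) : Nat.card (Subgroup.zpowers x) - 1 ≤ s ∧ s ≤ Nat.card (Subgroup.zpowers x) ∧ (s = Nat.card (Subgroup.zpowers x) - 1 → (∃ b : ℕ, Nat.card (Subgroup.zpowers x) - 1 = q ^ b) ∧ ¬ IsMulCommutative Q) := by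
  classical
  have hp := (Fact.out : p.Prime)
  obtain ⟨n, hn⟩ := (IsPGroup.iff_card (p := p)).mp hx
  have hord : orderOf x = p ^ n := by rw [← Nat.card_zpowers]; exact hn
  rw [hn]
  have hxP : x ^ (p ^ n) = 1 := by rw [← hord]; exact pow_orderOf_eq_one x
  have hP0 : 0 < p ^ n := Nat.pos_of_ne_zero (pow_ne_zero _ hp.ne_zero)
  have hs1 : 1 ≤ s := by
    by_contra h0
    have hs0 : s = 0 := by omega
    rw [hs0, pow_zero] at hs
    exact one_ne_zero hs
  have hsle : s ≤ p ^ n := by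
    by_contra hlt
    push Not at hlt
    apply hmin (p ^ n) hlt
    rw [frob_alg K p (ρ x) n, ← map_pow, hxP, map_one, sub_self]
  have hkey := key p q hpq Q hQ x n hord hC ρ hfaith hirr s hs hs1
  refine ⟨?_, hsle, ?_⟩
  · rcases hkey with h | ⟨h, _⟩
    · omega
    · exact h
  · intro hseq
    rcases hkey with h | ⟨_, h⟩
    · omega
    · exact h

end Cfsg.Agent.S4282
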