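import Cfsg.Statements.S4283
import Cfsg.Agent.Lib.Helper71.Frobenius

set_option autoImplicit false
open Cfsg

namespace Cfsg.Agent.S4283

open Cfsg.Agent.Lib.Helper71.Frobenius

theorem index_centralizer_conj {G : Type*} [Group G] (t y : G) :
    (Subgroup.centralizer ({t * y * t⁻¹} : Set G)).index =
      (Subgroup.centralizer ({y} : Set G)).index := by
  have : Subgroup.centralizer ({t * y * t⁻¹} : Set G) =
      (Subgroup.centralizer ({y} : Set G)).map ((MulAut.conj t : G ≃* G) : G →* G) := by
    ext g
    rw [Subgroup.mem_centralizer_singleton_iff, Subgroup.mem_map]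
    constructor
    · intro hg
      refine ⟨t⁻¹ * g * t, ?_, ?_⟩
      · rw [Subgroup.mem_centralizer_singleton_iff]
        have e1 : t⁻¹ * g * t * y = t⁻¹ * (g * (t * y * t⁻¹)) * t := by group
        have e2 : y * (t⁻¹ * g * t) = t⁻¹ * ((t * y * t⁻¹) * g) * t := by group
        rw [e1, e2, hg]
      · simp [MulAut.conj_apply, mul_assoc]
    · rintro ⟨c, hc, rfl⟩
      rw [Subgroup.mem_centralizer_singleton_iff] at hc
      have e1 : (MulAut.conj t : G ≃* G) c * (t * y * t⁻¹) = t * (c * y) * t⁻¹ := by
        simp [MulAut.conj_apply, mul_assoc]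
      have e2 : (t * y * t⁻¹) * (MulAut.conj t : G ≃* G) c = t * (y * c) * t⁻¹ := by
        simp [MulAut.conj_apply, mul_assoc]
      show (MulAut.conj t : G ≃* G) c * (t * y * t⁻¹) = (t * y * t⁻¹) * (MulAut.conj t : G ≃* G) c
      rw [e1, e2, hc]
  rw [this, Subgroup.index_map_equiv]

theorem main {G : Type*} [Group G] [Finite G] (K H : Subgroup G)
    (hZK : Subgroup.center G ≤ K) (hZH : Subgroup.center G ≤ H)
    (hK : IsMulCommutative K) (hH : IsMulCommutative H)
    (hFrob : Cfsg.IsFrobeniusComplement (H.map (QuotientGroup.mk' (Subgroup.center G))))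
    (hker : Cfsg.frobeniusKernel (H.map (QuotientGroup.mk' (Subgroup.center G))) =
      (K.map (QuotientGroup.mk' (Subgroup.center G)) : Set (G ⧸ Subgroup.center G))) :
    Set.range (fun x : G => (Subgroup.centralizer ({x} : Set G)).index) =
      ({1, K.index, H.index} : Set ℕ) ∧ K.index.Coprime H.index := by
  have hsurj : Function.Surjective (QuotientGroup.mk' (Subgroup.center G)) :=
    QuotientGroup.mk'_surjective _
  have hkerH : (QuotientGroup.mk' (Subgroup.center G)).ker ≤ H := by
    rw [QuotientGroup.ker_mk']; exact hZH
  have hkerK : (QuotientGroup.mk' (Subgroup.center G)).ker ≤ K := by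
    rw [QuotientGroup.ker_mk']; exact hZK
  have hmemH : ∀ x : G, QuotientGroup.mk' (Subgroup.center G) x ∈
      H.map (QuotientGroup.mk' (Subgroup.center G)) ↔ x ∈ H := by
    intro x
    rw [← Subgroup.mem_comap, Subgroup.comap_map_eq_self hkerH]
  have hmemK : ∀ x : G, QuotientGroup.mk' (Subgroup.center G) x ∈
      K.map (QuotientGroup.mk' (Subgroup.center G)) ↔ x ∈ K := by
    intro x
    rw [← Subgroup.mem_comap, Subgroup.comap_map_eq_self hkerK]
  have hmemK' : ∀ x : G, QuotientGroup.mk' (Subgroup.center G) x ∈
      Cfsg.frobeniusKernel (H.map (QuotientGroup.mk' (Subgroup.center G))) ↔ x ∈ K := by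
    intro x
    rw [hker]
    exact hmemK x
  have hne1 : ∀ x : G, x ∉ Subgroup.center G → QuotientGroup.mk' (Subgroup.center G) x ≠ 1 := by
    intro x hx h
    exact hx ((QuotientGroup.eq_one_iff x).1 h)
  have commH : ∀ a ∈ H, ∀ b ∈ H, a * b = b * a := fun a ha b hb =>
    congrArg Subtype.val (hH.is_comm.comm ⟨a, ha⟩ ⟨b, hb⟩)
  have commK : ∀ a ∈ K, ∀ b ∈ K, a * b = b * a := fun a ha b hb =>
    congrArg Subtype.val (hK.is_comm.comm ⟨a, ha⟩ ⟨b, hb⟩)
  -- centralizers
  have centH : ∀ x ∈ H, x ∉ Subgroup.center G → Subgroup.centralizer ({x} : Set G) = H := by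
    intro x hx hxZ
    ext g
    rw [Subgroup.mem_centralizer_singleton_iff]
    constructor
    · intro hg
      rw [← hmemH]
      refine mem_of_commute hFrob ((hmemH x).2 hx) (hne1 x hxZ) ?_
      rw [← map_mul, ← map_mul, hg]
    · intro hg
      exact commH g hg x hx
  have centK : ∀ x ∈ K, x ∉ Subgroup.center G → Subgroup.centralizer ({x} : Set G) = K := by
    intro x hx hxZ
    ext g
    rw [Subgroup.mem_centralizer_singleton_iff]
    constructor
    · intro hg
      rw [← hmemK']
      refine mem_kernel_of_commute hFrob ((hmemK' x).2 hx) (hne1 x hxZ) ?_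
      rw [← map_mul, ← map_mul, hg]
    · intro hg
      exact commK g hg x hx
  have hidxK : (K.map (QuotientGroup.mk' (Subgroup.center G))).index = K.index :=
    Subgroup.index_map_eq K hsurj hkerK
  have hidxH : (H.map (QuotientGroup.mk' (Subgroup.center G))).index = H.index :=
    Subgroup.index_map_eq H hsurj hkerH
  have hcardK : Nat.card (K.map (QuotientGroup.mk' (Subgroup.center G))) = H.index := by
    have := card_kernel _ hFrob
    rw [hker, hidxH] at this
    exact this
  refine ⟨?_, ?_⟩
  · apply Set.eq_of_subset_of_subset
    · rintro n ⟨x, rfl⟩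
      by_cases hxZ : x ∈ Subgroup.center G
      · left
        show (Subgroup.centralizer ({x} : Set G)).index = 1
        rw [Subgroup.index_eq_one, eq_top_iff]
        intro g _
        rw [Subgroup.mem_centralizer_singleton_iff]
        exact (Subgroup.mem_center_iff.1 hxZ g)
      · by_cases hxK : x ∈ K
        · right; left
          show (Subgroup.centralizer ({x} : Set G)).index = K.index
          rw [centK x hxK hxZ]
        · right; right
          show (Subgroup.centralizer ({x} : Set G)).index = H.index
          have h1 : QuotientGroup.mk' (Subgroup.center G) x ∉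
              Cfsg.frobeniusKernel (H.map (QuotientGroup.mk' (Subgroup.center G))) :=
            fun h => hxK ((hmemK' x).1 h)
          rw [mem_kernel_iff, not_or] at h1
          obtain ⟨gb, hgb⟩ := not_forall.1 h1.2
          obtain ⟨t, rfl⟩ := hsurj gb
          have hgb : (QuotientGroup.mk' (Subgroup.center G) t)⁻¹ *
              QuotientGroup.mk' (Subgroup.center G) x * QuotientGroup.mk' (Subgroup.center G) t ∈
              H.map (QuotientGroup.mk' (Subgroup.center G)) := not_not.1 hgb
          rw [← map_inv, ← map_mul, ← map_mul, hmemH] at hgb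
          have hnZ : t⁻¹ * x * t ∉ Subgroup.center G := by
            intro h
            apply hxZ
            have := Subgroup.Normal.conj_mem inferInstance _ h t
            have e : t * (t⁻¹ * x * t) * t⁻¹ = x := by group
            rwa [e] at this
          have e : x = t * (t⁻¹ * x * t) * t⁻¹ := by group
          rw [e, index_centralizer_conj, centH _ hgb hnZ]
    · intro n hn
      rcases hn with rfl | rfl | rfl
      · refine ⟨1, ?_⟩
        show (Subgroup.centralizer ({(1 : G)} : Set G)).index = 1
        rw [Subgroup.index_eq_one, eq_top_iff]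
        intro g _
        rw [Subgroup.mem_centralizer_singleton_iff]
        simp
      · -- some element of K outside the centre
        have hex : ∃ k ∈ K, k ∉ Subgroup.center G := by
          by_contra hno
          have hKZ : K.map (QuotientGroup.mk' (Subgroup.center G)) = ⊥ := by
            rw [eq_bot_iff]
            rintro y ⟨k, hk, rfl⟩
            rw [Subgroup.mem_bot]
            by_contra hy
            exact hno ⟨k, hk, fun hz => hy ((QuotientGroup.eq_one_iff k).2 hz)⟩
          rw [hKZ, Subgroup.card_bot] at hcardK
          have h1 : (H.map (QuotientGroup.mk' (Subgroup.center G))).index = 1 := by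
            rw [hidxH]; exact hcardK.symm
          rw [Subgroup.index_eq_one] at h1
          exact hFrob.2.1 h1
        obtain ⟨k, hk, hkZ⟩ := hex
        exact ⟨k, by show (Subgroup.centralizer ({k} : Set G)).index = K.index; rw [centK k hk hkZ]⟩
      · have hex : ∃ h ∈ H, h ∉ Subgroup.center G := by
          by_contra hno
          apply hFrob.1
          rw [eq_bot_iff]
          rintro y ⟨h, hh, rfl⟩
          rw [Subgroup.mem_bot]
          by_contra hy
          exact hno ⟨h, hh, fun hz => hy ((QuotientGroup.eq_one_iff h).2 hz)⟩
        obtain ⟨h, hh, hhZ⟩ := hex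
        exact ⟨h, by show (Subgroup.centralizer ({h} : Set G)).index = H.index; rw [centH h hh hhZ]⟩
  · have hcop := coprime_card_index _ hFrob
    rw [hidxH] at hcop
    have e1 := Subgroup.card_mul_index (K.map (QuotientGroup.mk' (Subgroup.center G)))
    have e2 := Subgroup.card_mul_index (H.map (QuotientGroup.mk' (Subgroup.center G)))
    rw [hcardK, hidxK] at e1
    rw [hidxH] at e2
    have hpos : 0 < H.index := Nat.pos_of_ne_zero Subgroup.index_ne_zero_of_finite
    have e3 : H.index * K.index = H.index *
        Nat.card (H.map (QuotientGroup.mk' (Subgroup.center G))) := by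
      rw [e1, ← e2, mul_comm]
    have e4 := Nat.eq_of_mul_eq_mul_left hpos e3
    rw [e4]
    exact hcop

/-- Let G be a finite group with centre Z and let K, H be abelian subgroups of G containing Z such that G/Z is a Frobenius group with complement H/Z and kernel K/Z. Then the conjugacy class sizes of G are exactly 1, [G : K] and [G : H], and these two indices are coprime. (This is the converse half of the characterization of finite groups whose conjugacy class sizes are exactly 1, m and n with m and n coprime.) -/
theorem result {G : Type*} [Group G] [Finite G] (K H : Subgroup G) (hZK : Subgroup.center G ≤ K) (hZH : Subgroup.center G ≤ H) (hK : IsMulCommutative K) (hH : IsMulCommutative H) (hFrob : Cfsg.IsFrobeniusComplement (H.map (QuotientGroup.mk' (Subgroup.center G)))) (hker : Cfsg.frobeniusKernel (H.map (QuotientGroup.mk' (Subgroup.center G))) = (K.map (QuotientGroup.mk' (Subgroup.center G)) : Set (G ⧸ Subgroup.center G))) : Set.range (fun x : G => (Subgroup.centralizer ({x} : Set G)).index) = ({1, K.index, H.index} : Set ℕ) ∧ K.index.Coprime H.index := by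
  exact main K H hZK hZH hK hH hFrob hker

end Cfsg.Agent.S4283
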