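import Cfsg.Statements.S4293
import Cfsg.Agent.Lib.Helper71.FrobConstr

set_option autoImplicit false
open Cfsg

namespace Cfsg.Agent.S4293

open Cfsg.Agent.Lib.Helper71

/-- `(∑_{i<n} i x^i)(x - 1) + ∑_{i<n} x^i + x^n = n x^n + 1` in any ring. -/
theorem geom_identity {A : Type*} [Ring A] (x : A) (n : ℕ) :
    (∑ i ∈ Finset.range n, (i : A) * x ^ i) * (x - 1) + ∑ i ∈ Finset.range n, x ^ i + x ^ n =
      (n : A) * x ^ n + 1 := by
  induction n with
  | zero => simp
  | succ n ih =>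
    rw [Finset.sum_range_succ, Finset.sum_range_succ, add_mul]
    have h1 : (n : A) * x ^ n * (x - 1) = (n : A) * x ^ (n + 1) - (n : A) * x ^ n := by
      rw [mul_sub, mul_one, mul_assoc, ← pow_succ]
    rw [h1]
    have h2 : (∑ i ∈ Finset.range n, (i : A) * x ^ i) * (x - 1) + ∑ i ∈ Finset.range n, x ^ i =
        (n : A) * x ^ n + 1 - x ^ n := by
      rw [← ih]; abel
    calc (∑ i ∈ Finset.range n, (i : A) * x ^ i) * (x - 1) +
          ((n : A) * x ^ (n + 1) - (n : A) * x ^ n) +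
          (∑ i ∈ Finset.range n, x ^ i + x ^ n) + x ^ (n + 1)
        = ((∑ i ∈ Finset.range n, (i : A) * x ^ i) * (x - 1) + ∑ i ∈ Finset.range n, x ^ i) +
          ((n : A) * x ^ (n + 1) - (n : A) * x ^ n) + x ^ n + x ^ (n + 1) := by abel
      _ = ((n : A) * x ^ n + 1 - x ^ n) +
          ((n : A) * x ^ (n + 1) - (n : A) * x ^ n) + x ^ n + x ^ (n + 1) := by rw [h2]
      _ = ((n + 1 : ℕ) : A) * x ^ (n + 1) + 1 := by
        push_cast
        rw [add_mul, one_mul]
        abel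

/-- The ring hom from the integral group ring to the division ring. -/
noncomputable def psi {D : Type*} [DivisionRing D] (H : Subgroup Dˣ) :
    MonoidAlgebra ℤ H →ₐ[ℤ] D :=
  MonoidAlgebra.lift ℤ D H ((Units.coeHom D).comp H.subtype)

theorem psi_of {D : Type*} [DivisionRing D] (H : Subgroup Dˣ) (h : H) :
    psi H (MonoidAlgebra.of ℤ H h) = ((h : Dˣ) : D) := by
  unfold psi
  rw [MonoidAlgebra.lift_of]
  rfl

/-- The left ideal `ker psi + (p)`. -/
noncomputable def J {D : Type*} [DivisionRing D] (H : Subgroup Dˣ) (p : ℕ) :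
    Ideal (MonoidAlgebra ℤ H) :=
  RingHom.ker (psi H : MonoidAlgebra ℤ H →+* D) ⊔ Ideal.span {(p : MonoidAlgebra ℤ H)}

theorem mk_eq_zero_of_ker {D : Type*} [DivisionRing D] (H : Subgroup Dˣ) (p : ℕ)
    {y : MonoidAlgebra ℤ H} (hy : psi H y = 0) :
    (Submodule.Quotient.mk y : MonoidAlgebra ℤ H ⧸ J H p) = 0 := by
  rw [Submodule.Quotient.mk_eq_zero]
  exact Submodule.mem_sup_left (by rw [RingHom.mem_ker]; exact hy)

theorem p_smul {D : Type*} [DivisionRing D] (H : Subgroup Dˣ) (p : ℕ)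
    (m : MonoidAlgebra ℤ H ⧸ J H p) : p • m = 0 := by
  induction m using Submodule.Quotient.induction_on with
  | H y =>
  rw [← Submodule.Quotient.mk_smul, Submodule.Quotient.mk_eq_zero]
  apply Submodule.mem_sup_right
  rw [Ideal.mem_span_singleton']
  exact ⟨y, by rw [nsmul_eq_mul, Nat.cast_comm]⟩

theorem finite_alg {D : Type*} [DivisionRing D] (H : Subgroup Dˣ) [Finite H] :
    Module.Finite ℤ (MonoidAlgebra ℤ H) :=
  Module.Finite.equiv (MonoidAlgebra.coeffLinearEquiv (S := ℤ) (M := H) ℤ).symm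

theorem finite_quot {D : Type*} [DivisionRing D] (H : Subgroup Dˣ) [Finite H] (p : ℕ)
    (hp : p ≠ 0) : Finite (MonoidAlgebra ℤ H ⧸ J H p) := by
  have : Module.Finite ℤ (MonoidAlgebra ℤ H) := finite_alg H
  apply Module.finite_of_fg_torsion
  intro m
  refine ⟨⟨(p : ℤ), mem_nonZeroDivisors_of_ne_zero (by exact_mod_cast hp)⟩, ?_⟩
  show (p : ℤ) • m = 0
  rw [natCast_zsmul]
  exact p_smul H p m

theorem nontrivial_quot {D : Type*} [DivisionRing D] (H : Subgroup Dˣ) [Finite H] (p : ℕ)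
    (hp : p.Prime) (hP1 : ∀ a : ℤ, (a : D) = 0 → (p : ℤ) ∣ a) :
    Nontrivial (MonoidAlgebra ℤ H ⧸ J H p) := by
  by_contra hnt
  rw [not_nontrivial_iff_subsingleton] at hnt
  have h1 : (Submodule.Quotient.mk (1 : MonoidAlgebra ℤ H) : MonoidAlgebra ℤ H ⧸ J H p) = 0 :=
    Subsingleton.elim _ _
  rw [Submodule.Quotient.mk_eq_zero] at h1
  obtain ⟨x, hx, z, hz, hxz⟩ := Submodule.mem_sup.1 h1
  rw [Ideal.mem_span_singleton'] at hz
  obtain ⟨c, rfl⟩ := hz
  have hx' : psi H x = 0 := hx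
  have hone : psi H c * (p : D) = 1 := by
    have := congrArg (psi H) hxz
    rw [map_add, hx', zero_add, map_mul, map_natCast, map_one] at this
    exact this
  have hfin : Module.Finite ℤ (MonoidAlgebra ℤ H) := finite_alg H
  have hfg : (LinearMap.range (psi H).toLinearMap).FG := by
    rw [LinearMap.range_eq_map]
    exact Submodule.FG.map _ Module.Finite.fg_top
  have hin : LinearMap.range (psi H).toLinearMap ≤
      Ideal.span {(p : ℤ)} • LinearMap.range (psi H).toLinearMap := by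
    rintro n ⟨y, rfl⟩
    have e : (psi H).toLinearMap y = (p : ℤ) • (psi H).toLinearMap (y * c) := by
      show psi H y = (p : ℤ) • psi H (y * c)
      rw [map_mul, zsmul_eq_mul, Int.cast_natCast, ← mul_assoc, (Nat.cast_commute p _).eq,
        mul_assoc, (Nat.cast_commute p _).eq, hone, mul_one]
    rw [e]
    exact Submodule.smul_mem_smul (Ideal.mem_span_singleton_self _) ⟨_, rfl⟩
  obtain ⟨r, hr1, hr2⟩ :=
    Submodule.exists_sub_one_mem_and_smul_eq_zero_of_fg_of_le_smul _ _ hfg hin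
  have hr3 := hr2 1 ⟨1, by show psi H 1 = 1; exact map_one _⟩
  rw [zsmul_eq_mul, mul_one] at hr3
  have hd1 := hP1 r hr3
  rw [Ideal.mem_span_singleton] at hr1
  have hd2 : (p : ℤ) ∣ 1 := by
    have := dvd_sub hd1 hr1
    rwa [sub_sub_cancel] at this
  have : p ∣ 1 := by exact_mod_cast hd2
  exact hp.one_lt.ne' (Nat.dvd_one.1 this)

theorem fpf {D : Type*} [DivisionRing D] (H : Subgroup Dˣ) [Finite H] (p : ℕ)
    (hp : p.Prime) (hP2 : ¬ p ∣ Nat.card H) (h : H) (hh : h ≠ 1)
    (m : MonoidAlgebra ℤ H ⧸ J H p) (hm : MonoidAlgebra.of ℤ H h • m = m) : m = 0 := by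
  have hn0 : orderOf h ≠ 0 := (orderOf_pos h).ne'
  have hcop : Nat.Coprime p (orderOf h) := by
    rw [Nat.Prime.coprime_iff_not_dvd hp]
    exact fun hd => hP2 (hd.trans (orderOf_dvd_natCard h))
  have hxn : (MonoidAlgebra.of ℤ H h) ^ orderOf h = 1 := by
    rw [← map_pow, pow_orderOf_eq_one, map_one]
  have hD : ((h : Dˣ) : D) ≠ 1 := by
    intro e
    apply hh
    exact Subtype.ext (Units.ext e)
  have hsum : psi H (∑ i ∈ Finset.range (orderOf h), (MonoidAlgebra.of ℤ H h) ^ i) = 0 := by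
    rw [map_sum]
    simp_rw [map_pow, psi_of]
    have h1 := mul_geom_sum ((h : Dˣ) : D) (orderOf h)
    have h2 : ((h : Dˣ) : D) ^ orderOf h = 1 := by
      rw [← Units.val_pow_eq_pow_val, ← Subgroup.coe_pow, pow_orderOf_eq_one]; rfl
    rw [h2, sub_self] at h1
    rcases mul_eq_zero.1 h1 with h3 | h3
    · exact absurd (sub_eq_zero.1 h3) hD
    · exact h3
  have hid := geom_identity (MonoidAlgebra.of ℤ H h) (orderOf h)
  rw [hxn, mul_one] at hid
  -- (n : A) • m = 0
  have hnm : (orderOf h : MonoidAlgebra ℤ H) • m = 0 := by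
    have e : (orderOf h : MonoidAlgebra ℤ H) =
        (∑ i ∈ Finset.range (orderOf h), (i : MonoidAlgebra ℤ H) * (MonoidAlgebra.of ℤ H h) ^ i) *
          (MonoidAlgebra.of ℤ H h - 1) +
        ∑ i ∈ Finset.range (orderOf h), (MonoidAlgebra.of ℤ H h) ^ i := by
      have := eq_sub_of_add_eq hid
      rw [this]; abel
    rw [e, add_smul, mul_smul, sub_smul, one_smul, hm, sub_self, smul_zero, zero_add]
    induction m using Submodule.Quotient.induction_on with
    | H y =>
    rw [← Submodule.Quotient.mk_smul]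
    apply mk_eq_zero_of_ker
    rw [smul_eq_mul, map_mul, hsum, zero_mul]
  have hnm' : orderOf h • m = 0 := by
    rw [← Nat.cast_smul_eq_nsmul (MonoidAlgebra ℤ H)]
    exact hnm
  have hb := Nat.gcd_eq_gcd_ab p (orderOf h)
  rw [hcop.gcd_eq_one] at hb
  have e1 : m = ((1 : ℕ) : ℤ) • m := by simp
  rw [e1, hb, add_smul, mul_smul, mul_smul, natCast_zsmul, natCast_zsmul, p_smul,
    smul_comm, hnm', smul_zero, add_zero]

theorem exists_prime {D : Type*} [DivisionRing D] (H : Subgroup Dˣ) [Finite H] :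
    ∃ p : ℕ, p.Prime ∧ (∀ a : ℤ, (a : D) = 0 → (p : ℤ) ∣ a) ∧ ¬ p ∣ Nat.card H := by
  obtain ⟨l, hl⟩ := CharP.exists D
  rcases CharP.char_is_prime_or_zero D l with hprime | hzero
  · refine ⟨l, hprime, fun a ha => (CharP.intCast_eq_zero_iff D l a).1 ha, ?_⟩
    intro hdvd
    have hf : Fact l.Prime := ⟨hprime⟩
    obtain ⟨h, hh⟩ := exists_prime_orderOf_dvd_card' (G := H) l hdvd
    have h1 : ((h : Dˣ) : D) ^ l = 1 := by
      rw [← Units.val_pow_eq_pow_val, ← Subgroup.coe_pow, ← hh, pow_orderOf_eq_one]; rfl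
    have h2 : (((h : Dˣ) : D) - 1) ^ l = 0 := by
      rw [sub_pow_char_of_commute l (Commute.one_right _), h1, one_pow, sub_self]
    have h3 : ((h : Dˣ) : D) = 1 := sub_eq_zero.1 (pow_eq_zero_iff hprime.ne_zero |>.1 h2)
    have h4 : h = 1 := Subtype.ext (Units.ext h3)
    rw [h4, orderOf_one] at hh
    exact hprime.one_lt.ne hh
  · subst hzero
    have hz : CharZero D := CharP.charP_to_charZero D
    obtain ⟨p, hp1, hp2⟩ := Nat.exists_infinite_primes (Nat.card H + 1)
    refine ⟨p, hp2, fun a ha => ?_, ?_⟩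
    · have : a = 0 := by exact_mod_cast ha
      rw [this]; exact dvd_zero _
    · exact Nat.not_dvd_of_pos_of_lt Nat.card_pos (by omega)

theorem main {D : Type*} [DivisionRing D] (H : Subgroup Dˣ) [Finite H] (hH : H ≠ ⊥) :
    ∃ (L : Type) (_ : Group L) (_ : Finite L) (C : Subgroup L),
      Cfsg.IsFrobeniusComplement C ∧ Nonempty (H ≃* C) := by
  obtain ⟨p, hp, hP1, hP2⟩ := exists_prime H
  have hnt : Nontrivial H := (Subgroup.nontrivial_iff_ne_bot H).2 hH
  have hfin := finite_quot H p hp.ne_zero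
  have hnt2 := nontrivial_quot H p hp hP1
  let inst : DistribMulAction H (MonoidAlgebra ℤ H ⧸ J H p) :=
    DistribMulAction.compHom _ (MonoidAlgebra.of ℤ H)
  exact FrobConstr.exists_of_fpf_add (H := H) (M := MonoidAlgebra ℤ H ⧸ J H p)
    (fun h hh m hm => fpf H p hp hP2 h hh m hm)

/-- A nontrivial finite subgroup of the multiplicative group of a division ring occurs as a Frobenius complement of some finite Frobenius group. -/
theorem result {D : Type*} [DivisionRing D] (H : Subgroup Dˣ) [Finite H] (hH : H ≠ ⊥) :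
    ∃ (L : Type) (_ : Group L) (_ : Finite L) (C : Subgroup L), Cfsg.IsFrobeniusComplement C ∧ Nonempty (H ≃* C) := by
  exact main H hH

end Cfsg.Agent.S4293
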