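import Cfsg.Statements.S4296
import Mathlib
import Cfsg.Agent.S0035
import Cfsg.Agent.Lib.Helper54.Quaternion
import Cfsg.Agent.Lib.Helper54.FpfCyclic
import Cfsg.Agent.Lib.Helper34.Crit19
import Cfsg.Agent.Lib.Helper71.Frobenius

set_option autoImplicit false
open Cfsg

namespace Cfsg.Agent.S4296

universe u

theorem quat_pair (n : ℕ) : ∃ u v : QuaternionGroup (2 ^ (n + 1)),
    u * u = v * v ∧ u * u ≠ 1 ∧ (u * u) * (u * u) = 1 ∧ v * u * v⁻¹ = u⁻¹ := by
  refine ⟨QuaternionGroup.a ((2 ^ n : ℕ) : ZMod (2 * 2 ^ (n + 1))), QuaternionGroup.xa 0, ?_, ?_, ?_, ?_⟩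
  · rw [QuaternionGroup.a_mul_a, QuaternionGroup.xa_mul_xa]
    congr 1
    push_cast
    ring
  · rw [QuaternionGroup.a_mul_a, QuaternionGroup.one_def]
    intro h
    have h2 : (((2 ^ n : ℕ) : ZMod (2 * 2 ^ (n + 1))) + ((2 ^ n : ℕ) : ZMod (2 * 2 ^ (n + 1)))) = 0 :=
      QuaternionGroup.a.inj h
    rw [← Nat.cast_add, ZMod.natCast_eq_zero_iff] at h2
    have h3 : 2 * 2 ^ (n + 1) ≤ 2 ^ n + 2 ^ n := Nat.le_of_dvd (by positivity) h2
    have h4 : 0 < 2 ^ n := by positivity
    rw [pow_succ] at h3
    omega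
  · rw [QuaternionGroup.a_mul_a, QuaternionGroup.a_mul_a, QuaternionGroup.one_def]
    congr 1
    have h2 : ((2 ^ n : ℕ) : ZMod (2 * 2 ^ (n + 1))) + ((2 ^ n : ℕ) : ZMod (2 * 2 ^ (n + 1)))
        + (((2 ^ n : ℕ) : ZMod (2 * 2 ^ (n + 1))) + ((2 ^ n : ℕ) : ZMod (2 * 2 ^ (n + 1))))
        = ((2 * 2 ^ (n + 1) : ℕ) : ZMod (2 * 2 ^ (n + 1))) := by
      push_cast
      ring
    rw [h2, ZMod.natCast_self]
  · have h : QuaternionGroup.xa 0 * QuaternionGroup.a ((2 ^ n : ℕ) : ZMod (2 * 2 ^ (n + 1)))
        = (QuaternionGroup.a ((2 ^ n : ℕ) : ZMod (2 * 2 ^ (n + 1))))⁻¹ * QuaternionGroup.xa 0 := by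
      rw [eq_inv_mul_iff_mul_eq, QuaternionGroup.xa_mul_a, QuaternionGroup.a_mul_xa]
      congr 1
      ring
    rw [h, mul_inv_cancel_right]


/-- restriction of an endomorphism to an invariant subgroup -/
def restr {M : Type u} [AddCommGroup M] (A : M →+ M) (S : AddSubgroup M)
    (hS : ∀ m ∈ S, A m ∈ S) : S →+ S :=
  (A.comp S.subtype).codRestrict S (fun s => hS s s.2)

theorem restr_apply {M : Type u} [AddCommGroup M] (A : M →+ M) (S : AddSubgroup M)
    (hS : ∀ m ∈ S, A m ∈ S) (s : S) : ((restr A S hS) s : M) = A (s : M) := rfl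

theorem quat_elem {M : Type u} [AddCommGroup M] (A B : M →+ M)
    (hA : ∀ m, A (A m) = -m) (hB : ∀ m, B (B m) = -m) (hAB : ∀ m, B (A m) = -A (B m))
    (x y : ℕ) (m : M) :
    (x • A (x • A m + y • B m + A (B m)) + y • B (x • A m + y • B m + A (B m))
      + A (B (x • A m + y • B m + A (B m)))) = -((x ^ 2 + y ^ 2 + 1) • m) := by
  simp only [map_add, map_nsmul, hA, hB, hAB, map_neg]
  module

theorem quat_elem2 {M : Type u} [AddCommGroup M] (A B : M →+ M)
    (hA : ∀ m, A (A m) = -m) (hB : ∀ m, B (B m) = -m) (hAB : ∀ m, B (A m) = -A (B m))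
    (x y : ℕ) (m : M) :
    (x • A (A (B m)) + y • B (A (B m)) + A (B (A (B m))))
      + A (B (x • A m + y • B m + A (B m))) = -((2 : ℕ) • m) := by
  simp only [map_add, map_nsmul, hA, hB, hAB, map_neg]
  module

/-- elementary abelian case -/
theorem quat_square_elem {M : Type u} [AddCommGroup M] [Finite M] (A B : M →+ M)
    (hA : ∀ m, A (A m) = -m) (hB : ∀ m, B (B m) = -m) (hAB : ∀ m, B (A m) = -A (B m))
    (q : ℕ) [Fact q.Prime] (hq2 : q ≠ 2) (hq : ∀ m : M, q • m = 0) : IsSquare (Nat.card M) := by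
  obtain ⟨a, b, hab⟩ := ZMod.sq_add_sq q (-1)
  set x := a.val with hx
  set y := b.val with hy
  have hdvd : q ∣ x ^ 2 + y ^ 2 + 1 := by
    rw [← ZMod.natCast_eq_zero_iff]
    push_cast
    rw [hx, hy, ZMod.natCast_zmod_val, ZMod.natCast_zmod_val, hab]
    ring
  let T : M →+ M := x • A + y • B + A.comp B
  have hT : ∀ m, T m = x • A m + y • B m + A (B m) := fun m => rfl
  have hTT : ∀ m, T (T m) = 0 := by
    intro m
    have h1 := quat_elem A B hA hB hAB x y m
    have h2 : T (T m) = -((x ^ 2 + y ^ 2 + 1) • m) := by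
      rw [hT (T m), hT m]; exact h1
    rw [h2]
    obtain ⟨c, hc⟩ := hdvd
    rw [hc, mul_comm, mul_smul, hq, smul_zero, neg_zero]
  have hodd : Odd q := (Fact.out : q.Prime).odd_of_ne_two hq2
  obtain ⟨k, hk⟩ := hodd
  have hker : T.ker = T.range := by
    ext m
    constructor
    · intro hm
      rw [AddMonoidHom.mem_ker] at hm
      have h1 := quat_elem2 A B hA hB hAB x y m
      have h2 : T (A (B m)) + A (B (T m)) = -((2 : ℕ) • m) := by
        rw [hT (A (B m)), hT m]; exact h1
      rw [hm, map_zero, map_zero, add_zero] at h2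
      refine ⟨k • (A (B m)), ?_⟩
      rw [map_nsmul, h2, smul_neg]
      have h3 := hq m
      rw [hk] at h3
      rw [add_smul, one_smul, mul_smul] at h3
      have h4 : k • (2 : ℕ) • m = 2 • k • m := by
        rw [← mul_smul, ← mul_smul, mul_comm]
      rw [h4]
      exact (eq_neg_of_add_eq_zero_right h3).symm
    · rintro ⟨m', rfl⟩
      rw [AddMonoidHom.mem_ker]
      exact hTT m'
  have hcard : Nat.card T.ker * Nat.card T.range = Nat.card M := by
    rw [← AddSubgroup.index_ker]
    exact T.ker.card_mul_index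
  rw [← hcard, hker]
  exact ⟨_, rfl⟩

theorem quat_square : ∀ (n : ℕ) (M : Type u) [AddCommGroup M] [Finite M] (A B : M →+ M),
    (∀ m, A (A m) = -m) → (∀ m, B (B m) = -m) → (∀ m, B (A m) = -A (B m)) →
    Odd (Nat.card M) → Nat.card M = n → IsSquare n := by
  intro n
  induction n using Nat.strong_induction_on with
  | _ n ih =>
    intro M _ _ A B hA hB hAB hodd hn
    by_cases h1 : n = 1
    · subst h1; exact ⟨1, rfl⟩
    · have hqp : n.minFac.Prime := Nat.minFac_prime h1
      have : Fact n.minFac.Prime := ⟨hqp⟩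
      have hqn : n.minFac ∣ n := Nat.minFac_dvd n
      have hoddn : Odd n := hn ▸ hodd
      have hq2 : n.minFac ≠ 2 := by
        intro h2
        rw [h2] at hqn
        exact (Nat.not_even_iff_odd.2 hoddn) (even_iff_two_dvd.2 hqn)
      let f : M →+ M := n.minFac • AddMonoidHom.id M
      have hf : ∀ m, f m = n.minFac • m := fun m => rfl
      have hcard : Nat.card f.ker * Nat.card f.range = n := by
        rw [← AddSubgroup.index_ker, ← hn]; exact f.ker.card_mul_index
      have hAK : ∀ m ∈ f.ker, A m ∈ f.ker := by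
        intro m hm
        rw [AddMonoidHom.mem_ker, hf] at hm ⊢
        rw [← map_nsmul, hm, map_zero]
      have hBK : ∀ m ∈ f.ker, B m ∈ f.ker := by
        intro m hm
        rw [AddMonoidHom.mem_ker, hf] at hm ⊢
        rw [← map_nsmul, hm, map_zero]
      have hAR : ∀ m ∈ f.range, A m ∈ f.range := by
        rintro _ ⟨m, rfl⟩
        exact ⟨A m, by rw [hf, hf, map_nsmul]⟩
      have hBR : ∀ m ∈ f.range, B m ∈ f.range := by
        rintro _ ⟨m, rfl⟩
        exact ⟨B m, by rw [hf, hf, map_nsmul]⟩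
      have hK1 : 1 < Nat.card f.ker := by
        obtain ⟨m, hm⟩ := exists_prime_addOrderOf_dvd_card' (G := M) n.minFac (hn ▸ hqn)
        have hmk : m ∈ f.ker := by
          rw [AddMonoidHom.mem_ker, hf, ← hm]
          exact addOrderOf_nsmul_eq_zero m
        have hm0 : m ≠ 0 := by
          intro h0
          rw [h0, addOrderOf_zero] at hm
          exact hqp.one_lt.ne hm
        rw [Finite.one_lt_card_iff_nontrivial]
        exact ⟨⟨⟨m, hmk⟩, 0, fun h => hm0 (congrArg Subtype.val h)⟩⟩
      have hRpos : 0 < Nat.card f.range := Nat.card_pos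
      by_cases hR : Nat.card f.range = 1
      · have hq : ∀ m : M, n.minFac • m = 0 := by
          intro m
          have h2 : Subsingleton f.range := (Nat.card_eq_one_iff_unique.1 hR).1
          have h3 : (⟨f m, ⟨m, rfl⟩⟩ : f.range) = 0 := Subsingleton.elim _ _
          exact congrArg Subtype.val h3
        rw [← hn]
        exact quat_square_elem A B hA hB hAB n.minFac hq2 hq
      · have hR1 : 1 < Nat.card f.range := by omega
        have hKlt : Nat.card f.ker < n := by
          rw [← hcard]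
          exact lt_mul_of_one_lt_right Nat.card_pos hR1
        have hRlt : Nat.card f.range < n := by
          rw [← hcard]
          exact lt_mul_of_one_lt_left Nat.card_pos hK1
        have sK : IsSquare (Nat.card f.ker) :=
          ih _ hKlt f.ker (restr A f.ker hAK) (restr B f.ker hBK)
            (fun s => Subtype.ext (by simp [restr_apply, hA]))
            (fun s => Subtype.ext (by simp [restr_apply, hB]))
            (fun s => Subtype.ext (by simp [restr_apply, hAB]))
            (Odd.of_dvd_nat hoddn (Dvd.intro _ hcard)) rfl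
        have sR : IsSquare (Nat.card f.range) :=
          ih _ hRlt f.range (restr A f.range hAR) (restr B f.range hBR)
            (fun s => Subtype.ext (by simp [restr_apply, hA]))
            (fun s => Subtype.ext (by simp [restr_apply, hB]))
            (fun s => Subtype.ext (by simp [restr_apply, hAB]))
            (Odd.of_dvd_nat hoddn (Dvd.intro_left _ hcard)) rfl
        rw [← hcard]
        exact sK.mul sR


theorem quat_square_mul {N : Type u} [Group N] [Finite N] (hcomm : ∀ a b : N, a * b = b * a)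
    (a b : N →* N)
    (ha : ∀ n, a (a n) = n⁻¹) (hb : ∀ n, b (b n) = n⁻¹) (hab : ∀ n, b (a n) = (a (b n))⁻¹)
    (hodd : Odd (Nat.card N)) : IsSquare (Nat.card N) := by
  let _ : CommGroup N := { (inferInstance : Group N) with mul_comm := hcomm }
  exact quat_square (Nat.card N) (Additive N) (MonoidHom.toAdditive a) (MonoidHom.toAdditive b)
    ha hb hab hodd rfl

theorem main {L : Type u} [Group L] [Finite L] (H : Subgroup L) (hF : Cfsg.IsFrobeniusComplement H)
    (hZ : ∃ (p : ℕ) (_ : Fact p.Prime) (P : Sylow p H), ¬ IsCyclic P) :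
    Odd (Nat.card (Cfsg.frobeniusKernel H)) ∧ IsSquare (Nat.card (Cfsg.frobeniusKernel H)) := by
  obtain ⟨N, hNset, hNn, hNc⟩ := Cfsg.Agent.S0035.result H hF
  have hcardN : Nat.card (Cfsg.frobeniusKernel H) = Nat.card N := by rw [← hNset]; rfl
  have hmemN : ∀ x, x ∈ N ↔ x ∈ Cfsg.frobeniusKernel H := fun x => by rw [← hNset]; rfl
  have hfpf : ∀ h ∈ H, h ≠ 1 → ∀ x ∈ N, h * x = x * h → x = 1 := by
    intro h hh hh1 x hx hc
    by_contra hx1
    have hk := Lib.Helper71.Frobenius.mem_kernel_of_commute hF ((hmemN x).1 hx) hx1 hc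
    exact Lib.Helper71.Frobenius.not_mem_of_mem_kernel H hk hh1 hh
  have hNne : N ≠ ⊥ := by
    intro h
    have h1 : Nat.card N = 1 := by rw [h]; exact Subgroup.card_bot
    rw [← hcardN, Lib.Helper71.Frobenius.card_kernel H hF, Subgroup.index_eq_one] at h1
    exact hF.2.1 h1
  obtain ⟨p, hp, P, hPc⟩ := hZ
  have hUI : Lib.Helper54.UniqueSubgroup.UI p P := by
    apply Lib.Helper54.FpfCyclic.ui_of_fpf' N hNne P.isPGroup'
      (H.subtype.comp (P : Subgroup H).subtype)
    · intro s
      rw [Subgroup.normalizer_eq_top]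
      exact Subgroup.mem_top _
    · intro s hs x hx hc
      refine hfpf _ (s : H).2 ?_ x hx hc
      intro h
      apply hs
      apply Subtype.ext
      apply Subtype.ext
      exact h
  rcases Lib.Helper54.Quaternion.isCyclic_or_quaternion_of_ui P.isPGroup' hUI with hc | ⟨hp2, n, ⟨e⟩⟩
  · exact absurd hc hPc
  obtain ⟨k, rfl⟩ : ∃ k, n = k + 1 := by
    rcases n with _ | k
    · exfalso
      apply hPc
      have h1 : IsCyclic (QuaternionGroup (2 ^ 0)) := QuaternionGroup.quaternionGroup_one_isCyclic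
      exact isCyclic_of_surjective e.symm.toMonoidHom e.symm.surjective
    · exact ⟨k, rfl⟩
  obtain ⟨u, v, huv, hu1, hu2, hvu⟩ := quat_pair k
  let g : QuaternionGroup (2 ^ (k + 1)) →* L :=
    (H.subtype.comp (P : Subgroup H).subtype).comp e.symm.toMonoidHom
  have hg : Function.Injective g := by
    intro x y hxy
    apply e.symm.injective
    apply Subtype.ext
    apply Subtype.ext
    exact hxy
  have hgH : ∀ x, g x ∈ H := fun x => ((e.symm x : P) : H).2
  have hUH : g u ∈ H := hgH u
  have hVH : g v ∈ H := hgH v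
  have hUV : g u * g u = g v * g v := by rw [← map_mul, ← map_mul, huv]
  have hz1 : g u * g u ≠ 1 := fun h => hu1 (hg (by rw [map_mul, h, map_one]))
  have hz2 : (g u * g u) * (g u * g u) = 1 := by rw [← map_mul, ← map_mul, hu2, map_one]
  have hVU : g v * g u * (g v)⁻¹ = (g u)⁻¹ := by
    rw [← map_inv, ← map_mul, ← map_mul, hvu, map_inv]
  have hzH : g u * g u ∈ H := H.mul_mem hUH hUH
  have hinv : ∀ x ∈ N, (g u * g u) * x * (g u * g u)⁻¹ = x⁻¹ := by
    apply Lib.Helper34.Crit19.inverts_of_fixedPointFree N (g u * g u) hz2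
    rw [eq_bot_iff]
    intro x hx
    rw [Subgroup.mem_inf, Subgroup.mem_centralizer_iff] at hx
    exact hfpf _ hzH hz1 x hx.1 (hx.2 _ rfl)
  have hcomm : ∀ x ∈ N, ∀ y ∈ N, x * y = y * x := by
    intro x hx y hy
    have h1 := hinv (x * y) (N.mul_mem hx hy)
    have h2 := hinv x hx
    have h3 := hinv y hy
    have h4 : (g u * g u) * (x * y) * (g u * g u)⁻¹
        = ((g u * g u) * x * (g u * g u)⁻¹) * ((g u * g u) * y * (g u * g u)⁻¹) := by group
    rw [h4, h2, h3, mul_inv_rev] at h1
    have h5 := congrArg (fun t => t⁻¹) h1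
    simp only [mul_inv_rev, inv_inv] at h5
    exact h5.symm
  have hodd : Odd (Nat.card N) := by
    rw [← hcardN, Lib.Helper71.Frobenius.card_kernel H hF]
    have hcop := Lib.Helper71.Frobenius.coprime_card_index H hF
    have h2 : 2 ∣ Nat.card H := by
      have h3 : orderOf (g u * g u) = 2 := orderOf_eq_prime (by rw [pow_two]; exact hz2) hz1
      rw [← h3]
      exact Subgroup.orderOf_dvd_natCard H hzH
    rw [← Nat.not_even_iff_odd, even_iff_two_dvd]
    intro h3
    have h4 := Nat.eq_one_of_dvd_coprimes hcop h2 h3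
    omega
  have hVU' : g v * g u = (g u * g u) * (g u * g v) := by
    have h1 : g v * g u = (g u)⁻¹ * g v := by
      rw [← hVU]; group
    have h2 : (g u)⁻¹ = g u * g u * g u := by
      rw [inv_eq_iff_mul_eq_one, ← hz2]; group
    rw [h1, h2]; group
  have hsq : IsSquare (Nat.card N) := by
    refine quat_square_mul (fun a b => Subtype.ext (hcomm a a.2 b b.2))
      ((MulAut.conjNormal (g u) : MulAut N).toMonoidHom)
      ((MulAut.conjNormal (g v) : MulAut N).toMonoidHom) ?_ ?_ ?_ hodd
    · intro x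
      apply Subtype.ext
      simp only [MulEquiv.coe_toMonoidHom, MulAut.conjNormal_apply, Subgroup.coe_inv]
      rw [← hinv x x.2]; group
    · intro x
      apply Subtype.ext
      simp only [MulEquiv.coe_toMonoidHom, MulAut.conjNormal_apply, Subgroup.coe_inv]
      rw [← hinv x x.2, hUV]; group
    · intro x
      apply Subtype.ext
      simp only [MulEquiv.coe_toMonoidHom, MulAut.conjNormal_apply, Subgroup.coe_inv]
      have hw : g u * (g v * (x : L) * (g v)⁻¹) * (g u)⁻¹ ∈ N :=
        hNn.conj_mem _ (hNn.conj_mem _ x.2 (g v)) (g u)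
      rw [← hinv _ hw]
      have h2 : g v * (g u * (x : L) * (g u)⁻¹) * (g v)⁻¹ = (g v * g u) * x * (g v * g u)⁻¹ := by
        group
      rw [h2, hVU']; group
  exact ⟨by rw [hcardN]; exact hodd, by rw [hcardN]; exact hsq⟩

/-- Let H be a Frobenius complement in a finite group, and suppose some Sylow subgroup of H is not cyclic. Then the number of elements of the Frobenius kernel (the identity together with the elements lying in no conjugate of H) is an odd perfect square. -/
theorem result {L : Type*} [Group L] [Finite L] (H : Subgroup L) (hF : Cfsg.IsFrobeniusComplement H)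
    (hZ : ∃ (p : ℕ) (_ : Fact p.Prime) (P : Sylow p H), ¬ IsCyclic P) :
    Odd (Nat.card (Cfsg.frobeniusKernel H)) ∧ IsSquare (Nat.card (Cfsg.frobeniusKernel H)) := by
  exact main H hF hZ

end Cfsg.Agent.S4296
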