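import Cfsg.Statements.S4295
import Mathlib
import Cfsg.Agent.Lib.Helper20.DihQuat
import Cfsg.Agent.Lib.Helper71.FrobConstr2
import Cfsg.Agent.S4296

set_option autoImplicit false
open Cfsg

namespace Cfsg.Agent.S4295

open Cfsg.Agent.Lib.Helper20.DihQuat Cfsg.Agent.Lib.Helper20.ZP

/-- a finite commutative ring of odd order `d` with `x^2 + y^2 = -1` -/
theorem exists_ring : ∀ d : ℕ, Odd d → ∃ (R : Type) (_ : CommRing R) (_ : Finite R) (x y : R),
    Nat.card R = d ∧ (∀ r : R, r + r = 0 → r = 0) ∧ x ^ 2 + y ^ 2 = -1 := by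
  intro d
  induction d using Nat.strong_induction_on with
  | _ d ih =>
    intro hd
    by_cases h1 : d = 1
    · subst h1
      refine ⟨ZMod 1, inferInstance, inferInstance, 0, 0, ?_, ?_, ?_⟩
      · rw [Nat.card_zmod]
      · intro r _; exact Subsingleton.elim _ _
      · exact Subsingleton.elim _ _
    · have hp : d.minFac.Prime := Nat.minFac_prime h1
      have : Fact d.minFac.Prime := ⟨hp⟩
      obtain ⟨k, hk⟩ := Nat.minFac_dvd d
      have hd0 : 0 < d := hd.pos
      have hk0 : 0 < k := by
        rcases Nat.eq_zero_or_pos k with h | h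
        · rw [h, mul_zero] at hk; omega
        · exact h
      have hklt : k < d := by
        rw [hk]
        exact lt_mul_of_one_lt_left hk0 hp.one_lt
      have hkodd : Odd k := Odd.of_dvd_nat hd (Dvd.intro_left _ hk.symm)
      have hp2 : d.minFac ≠ 2 := by
        intro h2
        have : 2 ∣ d := h2 ▸ Nat.minFac_dvd d
        exact (Nat.not_even_iff_odd.2 hd) (even_iff_two_dvd.2 this)
      obtain ⟨R, i1, i2, x, y, hcard, htf, hxy⟩ := ih k hklt hkodd
      obtain ⟨a, b, hab⟩ := ZMod.sq_add_sq d.minFac (-1)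
      refine ⟨ZMod d.minFac × R, inferInstance, inferInstance, (a, x), (b, y), ?_, ?_, ?_⟩
      · rw [Nat.card_prod, Nat.card_zmod, hcard, ← hk]
      · rintro ⟨r, s⟩ hrs
        have h1 : r + r = 0 := congrArg Prod.fst hrs
        have h2 : s + s = 0 := congrArg Prod.snd hrs
        have h3 : (2 : ZMod d.minFac) ≠ 0 := by
          intro h
          have h4 : ((2 : ℕ) : ZMod d.minFac) = 0 := by exact_mod_cast h
          rw [ZMod.natCast_eq_zero_iff] at h4
          exact hp2 ((Nat.prime_dvd_prime_iff_eq hp Nat.prime_two).1 h4)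
        have h5 : r = 0 := by
          have : (2 : ZMod d.minFac) * r = 0 := by rw [two_mul]; exact h1
          rcases mul_eq_zero.1 this with h | h
          · exact absurd h h3
          · exact h
        rw [h5, htf s h2]
        rfl
      · ext
        · simpa using hab
        · simpa using hxy

section

variable (R : Type) [CommRing R]

/-- multiplication by `i` -/
def Aeq : (R × R) ≃+ (R × R) where
  toFun v := (-v.2, v.1)
  invFun v := (v.2, -v.1)
  left_inv v := by simp
  right_inv v := by simp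
  map_add' v w := by ext <;> simp [add_comm]

/-- multiplication by `j` -/
def Beq (x y : R) (h : x ^ 2 + y ^ 2 = -1) : (R × R) ≃+ (R × R) where
  toFun v := (x * v.1 + y * v.2, y * v.1 - x * v.2)
  invFun v := (-(x * v.1 + y * v.2), -(y * v.1 - x * v.2))
  left_inv v := by
    ext
    · simp only; linear_combination (-v.1) * h
    · simp only; linear_combination (-v.2) * h
  right_inv v := by
    ext
    · simp only; linear_combination (-v.1) * h
    · simp only; linear_combination (-v.2) * h
  map_add' v w := by ext <;> simp <;> ring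

/-- an additive automorphism as an automorphism of the multiplicative copy -/
def tm (f : (R × R) ≃+ (R × R)) : MulAut (Multiplicative (R × R)) := AddEquiv.toMultiplicative f

theorem tm_mul (f g : (R × R) ≃+ (R × R)) : tm R f * tm R g = tm R (g.trans f) := rfl

theorem tm_one : tm R (AddEquiv.refl (R × R)) = 1 := rfl

theorem tm_inv (f : (R × R) ≃+ (R × R)) : (tm R f)⁻¹ = tm R f.symm := rfl

theorem tm_apply (f : (R × R) ≃+ (R × R)) (n : Multiplicative (R × R)) :
    tm R f n = Multiplicative.ofAdd (f (Multiplicative.toAdd n)) := rfl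

theorem A_sq : (Aeq R).trans (Aeq R) = AddEquiv.neg (R × R) := by
  ext v <;> simp [Aeq]

theorem B_sq (x y : R) (h : x ^ 2 + y ^ 2 = -1) :
    (Beq R x y h).trans (Beq R x y h) = AddEquiv.neg (R × R) := by
  ext v
  · simp only [Beq, AddEquiv.trans_apply, AddEquiv.coe_mk, Equiv.coe_fn_mk, AddEquiv.neg_apply,
      Prod.fst_neg]
    linear_combination (v.1) * h
  · simp only [Beq, AddEquiv.trans_apply, AddEquiv.coe_mk, Equiv.coe_fn_mk, AddEquiv.neg_apply,
      Prod.snd_neg]
    linear_combination (v.2) * h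

theorem neg_sq : (AddEquiv.neg (R × R)).trans (AddEquiv.neg (R × R)) = AddEquiv.refl (R × R) := by
  ext v <;> simp

theorem BA (x y : R) (h : x ^ 2 + y ^ 2 = -1) :
    (Aeq R).trans (Beq R x y h) = (Beq R x y h).trans (Aeq R).symm := by
  ext v
  · simp only [Aeq, Beq, AddEquiv.trans_apply, AddEquiv.coe_mk, Equiv.coe_fn_mk, AddEquiv.symm_mk,
      Equiv.coe_fn_symm_mk]
    ring
  · simp only [Aeq, Beq, AddEquiv.trans_apply, AddEquiv.coe_mk, Equiv.coe_fn_mk, AddEquiv.symm_mk,
      Equiv.coe_fn_symm_mk]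
    ring


theorem quat_cases : ∀ g : QuaternionGroup 2, g ≠ 1 →
    g = QuaternionGroup.a 2 ∨ g * g = QuaternionGroup.a 2 := by
  decide

theorem exists_frob [Finite R] [Nontrivial R] (x y : R) (h : x ^ 2 + y ^ 2 = -1)
    (htf : ∀ r : R, r + r = 0 → r = 0) :
    ∃ (L : Type) (_ : Group L) (_ : Finite L) (C : Subgroup L),
      Cfsg.IsFrobeniusComplement C ∧ Nonempty (QuaternionGroup 2 ≃* C) ∧
        Nat.card (Cfsg.frobeniusKernel C) = Nat.card R * Nat.card R := by
  have ha2 : tm R (Aeq R) ^ 2 = tm R (AddEquiv.neg _) := by rw [pow_two, tm_mul, A_sq]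
  have hneg : ∀ n : Multiplicative (R × R), tm R (AddEquiv.neg _) n = n → n = 1 := by
    intro n hn
    have h1 : -(Multiplicative.toAdd n) = Multiplicative.toAdd n :=
      congrArg Multiplicative.toAdd hn
    have h2 : Multiplicative.toAdd n + Multiplicative.toAdd n = 0 := by
      nth_rewrite 1 [← h1]
      exact neg_add_cancel _
    have h3 : Multiplicative.toAdd n = 0 := by
      ext
      · exact htf _ (congrArg Prod.fst h2)
      · exact htf _ (congrArg Prod.snd h2)
    exact Multiplicative.toAdd.injective h3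
  have ha : orderOf (tm R (Aeq R)) = 2 * 2 := by
    have h1 := orderOf_eq_prime_pow (p := 2) (n := 1) (x := tm R (Aeq R)) ?_ ?_
    · simpa using h1
    · rw [pow_one, ha2]
      intro h1
      have h2 := hneg (Multiplicative.ofAdd ((1 : R), (0 : R))) (by rw [h1]; rfl)
      have h3 : ((1 : R), (0 : R)) = 0 := congrArg Multiplicative.toAdd h2
      exact one_ne_zero (congrArg Prod.fst h3)
    · rw [show (2 : ℕ) ^ (1 + 1) = 2 * 2 from rfl, pow_mul, ha2, pow_two, tm_mul, neg_sq, tm_one]
  have hw : tm R (Beq R x y h) * tm R (Beq R x y h) = tm R (Aeq R) ^ 2 := by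
    rw [tm_mul, B_sq, ha2]
  have hwa : tm R (Beq R x y h) * tm R (Aeq R) * (tm R (Beq R x y h))⁻¹ = (tm R (Aeq R))⁻¹ := by
    rw [tm_mul, BA, ← tm_mul, ← tm_inv, mul_inv_cancel_right]
  have hz : quatHom ha hw hwa (QuaternionGroup.a 2) = tm R (AddEquiv.neg _) := by
    rw [quatHom_a, ← ha2]
    rfl
  have hfpf : ∀ g : QuaternionGroup 2, g ≠ 1 → ∀ n : Multiplicative (R × R),
      quatHom ha hw hwa g n = n → n = 1 := by
    intro g hg n hn
    apply hneg
    rw [← hz]
    rcases quat_cases g hg with h1 | h1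
    · rw [← h1]; exact hn
    · rw [← h1, map_mul, MulAut.mul_apply, hn, hn]
  obtain ⟨L, i1, i2, C, hC, hiso, hcard⟩ :=
    Cfsg.Agent.Lib.Helper71.FrobConstr2.exists_of_fpf_card (quatHom ha hw hwa) hfpf
  refine ⟨L, i1, i2, C, hC, hiso, ?_⟩
  rw [hcard, ← Nat.card_prod]
  rfl

end

theorem main (m : ℕ) :
    (∃ (L : Type) (_ : Group L) (_ : Finite L) (H : Subgroup L), Cfsg.IsFrobeniusComplement H ∧
        Nonempty (H ≃* QuaternionGroup 2) ∧ Nat.card (Cfsg.frobeniusKernel H) = m) ↔
    (Odd m ∧ IsSquare m ∧ 1 < m) := by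
  constructor
  · rintro ⟨L, _, _, H, hF, ⟨e⟩, hm⟩
    have hcardH : Nat.card H = 8 := by
      rw [Nat.card_congr e.toEquiv, Nat.card_eq_fintype_card, QuaternionGroup.card]
    have : Fact (Nat.Prime 2) := ⟨Nat.prime_two⟩
    have hZ : ∃ (p : ℕ) (_ : Fact p.Prime) (P : Sylow p H), ¬ IsCyclic P := by
      refine ⟨2, ⟨Nat.prime_two⟩, default, ?_⟩
      intro hcyc
      have h1 : Nat.card (default : Sylow 2 H) = 2 ^ 3 := by
        rw [Sylow.card_eq_multiplicity, hcardH]
        have : (8 : ℕ).factorization 2 = 3 := by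
          rw [show (8 : ℕ) = 2 ^ 3 from rfl, Nat.Prime.factorization_pow Nat.prime_two]
          simp
        rw [this]
      have h2 : ((default : Sylow 2 H) : Subgroup H) = ⊤ :=
        Subgroup.eq_top_of_card_eq _ (by rw [h1, hcardH]; rfl)
      have hcomm : ∀ a b : H, a * b = b * a := by
        intro a b
        have ha : a ∈ ((default : Sylow 2 H) : Subgroup H) := h2 ▸ Subgroup.mem_top a
        have hb : b ∈ ((default : Sylow 2 H) : Subgroup H) := h2 ▸ Subgroup.mem_top b
        have h3 := (IsCyclic.isMulCommutative (α := (default : Sylow 2 H))).is_comm.comm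
          ⟨a, ha⟩ ⟨b, hb⟩
        exact congrArg Subtype.val h3
      have h4 := hcomm (e.symm (QuaternionGroup.a 1)) (e.symm (QuaternionGroup.xa 0))
      rw [← map_mul, ← map_mul] at h4
      have h5 := e.symm.injective h4
      revert h5
      decide
    obtain ⟨hodd, hsq⟩ := Cfsg.Agent.S4296.result H hF hZ
    rw [hm] at hodd hsq
    refine ⟨hodd, hsq, ?_⟩
    rw [← hm, Cfsg.Agent.Lib.Helper71.Frobenius.card_kernel H hF]
    have h1 : H.index ≠ 1 := fun h => hF.2.1 (Subgroup.index_eq_one.1 h)
    have h0 : H.index ≠ 0 := Subgroup.index_ne_zero_of_finite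
    omega
  · rintro ⟨hodd, ⟨d, rfl⟩, h1⟩
    have hd : Odd d := (Nat.odd_mul.1 hodd).1
    have hd1 : 1 < d := by
      by_contra hlt
      have : d ≤ 1 := by omega
      have : d * d ≤ 1 := by nlinarith
      omega
    obtain ⟨R, i1, i2, x, y, hcard, htf, hxy⟩ := exists_ring d hd
    have hnt : Nontrivial R := by
      rw [← Finite.one_lt_card_iff_nontrivial, hcard]; exact hd1
    obtain ⟨L, j1, j2, C, hC, ⟨e⟩, hk⟩ := exists_frob R x y hxy htf
    exact ⟨L, j1, j2, C, hC, ⟨e.symm⟩, by rw [hk, hcard]⟩

/-- For a natural number m the following are equivalent: (a) some finite group has a Frobenius complement isomorphic to the quaternion group of order 8 whose Frobenius kernel (the identity together with the elements lying in no conjugate of the complement) has exactly m elements; (b) m is an odd perfect square greater than 1. -/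
theorem result (m : ℕ) :
    (∃ (L : Type) (_ : Group L) (_ : Finite L) (H : Subgroup L), Cfsg.IsFrobeniusComplement H ∧
        Nonempty (H ≃* QuaternionGroup 2) ∧ Nat.card (Cfsg.frobeniusKernel H) = m) ↔
    (Odd m ∧ IsSquare m ∧ 1 < m) := by
  exact main m

end Cfsg.Agent.S4295
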