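import Cfsg.Statements.S4297
import Cfsg.Agent.Lib.Helper71.FrobConstr
import Cfsg.Agent.Lib.Helper71.ZModUnits

set_option autoImplicit false
open Cfsg

namespace Cfsg.Agent.S4297

open Cfsg.Agent.Lib.Helper71

/-- The action of the dicyclic group on `F × F` attached to `e : ZMod (2n) → F`. -/
def qAct {n : ℕ} {F : Type*} [Field F] (e : ZMod (2 * n) → F) :
    QuaternionGroup n → F × F → F × F
  | QuaternionGroup.a i, v => (e i * v.1, e (-i) * v.2)
  | QuaternionGroup.xa i, v => (e (-i) * v.2, -(e i * v.1))

theorem exists_exp (n : ℕ) (hn : 2 ≤ n) (p : ℕ) [Fact p.Prime] (z : (ZMod p)ˣ)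
    (hz : orderOf z = 2 * n) :
    ∃ e : ZMod (2 * n) → ZMod p, e 0 = 1 ∧ (∀ i j, e (i + j) = e i * e j) ∧
      (∀ i, e i = 1 → i = 0) ∧ e (n : ZMod (2 * n)) = -1 := by
  have h2n : (2 * n : ℕ) ≠ 0 := by omega
  have hzpow : zmultiplesHom (Additive (ZMod p)ˣ) (Additive.ofMul z) ((2 * n : ℕ) : ℤ) = 0 := by
    rw [zmultiplesHom_apply, natCast_zsmul, ← ofMul_pow, ← hz, pow_orderOf_eq_one]
    rfl
  let E : ZMod (2 * n) →+ Additive (ZMod p)ˣ :=
    ZMod.lift (2 * n) ⟨zmultiplesHom (Additive (ZMod p)ˣ) (Additive.ofMul z), hzpow⟩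
  have hEinj : Function.Injective E := by
    rw [ZMod.lift_injective]
    intro m hm
    have h1 : z ^ m = 1 := by
      have : Additive.ofMul (z ^ m) = 0 := by
        rw [ofMul_zpow]; exact hm
      exact this
    have h2 : ((orderOf z : ℕ) : ℤ) ∣ m := orderOf_dvd_iff_zpow_eq_one.2 h1
    rw [hz] at h2
    exact (ZMod.intCast_zmod_eq_zero_iff_dvd m (2 * n)).2 h2
  have hE0 : E 0 = 0 := map_zero E
  let e : ZMod (2 * n) → ZMod p := fun i => ((Additive.toMul (E i) : (ZMod p)ˣ) : ZMod p)
  have he0 : e 0 = 1 := by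
    show ((Additive.toMul (E 0) : (ZMod p)ˣ) : ZMod p) = 1
    rw [hE0]; rfl
  have hadd : ∀ i j, e (i + j) = e i * e j := by
    intro i j
    show ((Additive.toMul (E (i + j)) : (ZMod p)ˣ) : ZMod p) = _
    rw [map_add, toMul_add, Units.val_mul]
  have hinj : ∀ i, e i = 1 → i = 0 := by
    intro i hi
    apply hEinj
    rw [hE0]
    have : (Additive.toMul (E i) : (ZMod p)ˣ) = 1 := Units.ext hi
    exact this
  refine ⟨e, he0, hadd, hinj, ?_⟩
  have hsq : e (n : ZMod (2 * n)) * e (n : ZMod (2 * n)) = 1 := by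
    rw [← hadd, ← he0]
    congr 1
    have : ((n : ZMod (2 * n)) + n) = ((2 * n : ℕ) : ZMod (2 * n)) := by push_cast; ring
    rw [this, ZMod.natCast_self]
  have hne : e (n : ZMod (2 * n)) ≠ 1 := by
    intro h
    have h0 := hinj _ h
    rw [ZMod.natCast_eq_zero_iff] at h0
    have := Nat.le_of_dvd (by omega) h0
    omega
  rcases mul_self_eq_one_iff.1 hsq with h | h
  · exact absurd h hne
  · exact h

theorem main (n : ℕ) (hn : 2 ≤ n) :
    ∃ (L : Type) (_ : Group L) (_ : Finite L) (H : Subgroup L),
      Cfsg.IsFrobeniusComplement H ∧ Nonempty (H ≃* QuaternionGroup n) := by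
  have h2n : 2 * n ≠ 0 := by omega
  obtain ⟨p, hp, hlt, z, hz⟩ := ZModUnits.exists_prime_unit_of_order (2 * n) h2n
  have hpf : Fact p.Prime := ⟨hp⟩
  have hn0 : NeZero n := ⟨by omega⟩
  obtain ⟨e, he0, hadd, hinj, hen⟩ := exists_exp n hn p z hz
  have hneg : ∀ i, e (-i) * e i = 1 := by
    intro i
    rw [← hadd, neg_add_cancel, he0]
  have hneg' : ∀ i, e i * e (-i) = 1 := by
    intro i
    rw [mul_comm, hneg]
  have hnegn : e (-(n : ZMod (2 * n))) = -1 := by
    have h := hneg (n : ZMod (2 * n))
    rw [hen] at h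
    have : e (-(n : ZMod (2 * n))) = -(e (-(n : ZMod (2 * n))) * -1) := by ring
    rw [this, h]
  have h2 : (2 : ZMod p) ≠ 0 := by
    intro h
    have h' : ((2 : ℕ) : ZMod p) = 0 := by exact_mod_cast h
    rw [ZMod.natCast_eq_zero_iff] at h'
    have := Nat.le_of_dvd (by norm_num) h'
    omega
  let inst : DistribMulAction (QuaternionGroup n) (ZMod p × ZMod p) :=
    { smul := qAct e
      one_smul := by
        rintro ⟨v1, v2⟩
        show qAct e (QuaternionGroup.a 0) (v1, v2) = (v1, v2)
        simp [qAct, he0]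
      mul_smul := by
        rintro (i | i) (j | j) ⟨v1, v2⟩
        · show qAct e (QuaternionGroup.a i * QuaternionGroup.a j) (v1, v2) =
            qAct e (QuaternionGroup.a i) (qAct e (QuaternionGroup.a j) (v1, v2))
          rw [QuaternionGroup.a_mul_a]
          simp only [qAct, neg_add, hadd]
          ext <;> simp <;> ring
        · show qAct e (QuaternionGroup.a i * QuaternionGroup.xa j) (v1, v2) =
            qAct e (QuaternionGroup.a i) (qAct e (QuaternionGroup.xa j) (v1, v2))
          rw [QuaternionGroup.a_mul_xa]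
          simp only [qAct, sub_eq_add_neg, neg_add, neg_neg, hadd]
          ext <;> simp <;> ring
        · show qAct e (QuaternionGroup.xa i * QuaternionGroup.a j) (v1, v2) =
            qAct e (QuaternionGroup.xa i) (qAct e (QuaternionGroup.a j) (v1, v2))
          rw [QuaternionGroup.xa_mul_a]
          simp only [qAct, neg_add, hadd]
          ext <;> simp <;> ring
        · show qAct e (QuaternionGroup.xa i * QuaternionGroup.xa j) (v1, v2) =
            qAct e (QuaternionGroup.xa i) (qAct e (QuaternionGroup.xa j) (v1, v2))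
          rw [QuaternionGroup.xa_mul_xa]
          simp only [qAct, sub_eq_add_neg, neg_add, neg_neg, hadd, hen, hnegn]
          ext <;> simp <;> ring
      smul_zero := by
        rintro (i | i)
        · show qAct e (QuaternionGroup.a i) (0, 0) = (0, 0)
          simp [qAct]
        · show qAct e (QuaternionGroup.xa i) (0, 0) = (0, 0)
          simp [qAct]
      smul_add := by
        rintro (i | i) ⟨v1, v2⟩ ⟨w1, w2⟩
        · show qAct e (QuaternionGroup.a i) (v1 + w1, v2 + w2) =
            qAct e (QuaternionGroup.a i) (v1, v2) + qAct e (QuaternionGroup.a i) (w1, w2)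
          simp only [qAct]
          ext <;> simp <;> ring
        · show qAct e (QuaternionGroup.xa i) (v1 + w1, v2 + w2) =
            qAct e (QuaternionGroup.xa i) (v1, v2) + qAct e (QuaternionGroup.xa i) (w1, w2)
          simp only [qAct]
          ext <;> simp <;> ring }
  have hsmul : ∀ (g : QuaternionGroup n) (v : ZMod p × ZMod p), g • v = qAct e g v :=
    fun g v => rfl
  have key := FrobConstr.exists_of_fpf_add (H := QuaternionGroup n) (M := ZMod p × ZMod p) (by
    rintro (i | i) hg ⟨v1, v2⟩ hv
    · rw [hsmul] at hv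
      simp only [qAct, Prod.mk.injEq] at hv
      have hi : i ≠ 0 := by
        intro h
        apply hg
        rw [h]; rfl
      have h1 : e i ≠ 1 := fun h => hi (hinj i h)
      have h1' : e (-i) ≠ 1 := fun h => hi (neg_eq_zero.1 (hinj (-i) h))
      have hv1 : v1 = 0 := by
        have : (e i - 1) * v1 = 0 := by rw [sub_mul, hv.1, one_mul, sub_self]
        rcases mul_eq_zero.1 this with h | h
        · exact absurd (sub_eq_zero.1 h) h1
        · exact h
      have hv2 : v2 = 0 := by
        have : (e (-i) - 1) * v2 = 0 := by rw [sub_mul, hv.2, one_mul, sub_self]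
        rcases mul_eq_zero.1 this with h | h
        · exact absurd (sub_eq_zero.1 h) h1'
        · exact h
      rw [hv1, hv2]; rfl
    · rw [hsmul] at hv
      simp only [qAct, Prod.mk.injEq] at hv
      obtain ⟨ha, hb⟩ := hv
      have hv2 : v2 = 0 := by
        have h3 : v2 = -v2 := by
          calc v2 = -(e i * v1) := hb.symm
            _ = -(e i * (e (-i) * v2)) := by rw [ha]
            _ = -((e i * e (-i)) * v2) := by ring
            _ = -v2 := by rw [hneg', one_mul]
        have h4 : (2 : ZMod p) * v2 = 0 := by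
          have : (2 : ZMod p) * v2 = v2 + v2 := by ring
          rw [this]
          nth_rewrite 1 [h3]
          ring
        rcases mul_eq_zero.1 h4 with h | h
        · exact absurd h h2
        · exact h
      have hv1 : v1 = 0 := by rw [← ha, hv2, mul_zero]
      rw [hv1, hv2]; rfl)
  obtain ⟨L, i1, i2, C, hC, ⟨f⟩⟩ := key
  exact ⟨L, i1, i2, C, hC, ⟨f.symm⟩⟩

/-- For every n ≥ 2 the dicyclic group of order 4n (generated by an element a of order 2n and an element x with x² = aⁿ and x a x⁻¹ = a⁻¹) occurs as a Frobenius complement of some finite Frobenius group. -/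
theorem result (n : ℕ) (hn : 2 ≤ n) :
    ∃ (L : Type) (_ : Group L) (_ : Finite L) (H : Subgroup L), Cfsg.IsFrobeniusComplement H ∧ Nonempty (H ≃* QuaternionGroup n) := by
  exact main n hn

end Cfsg.Agent.S4297
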