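import Cfsg.Statements.S4298
import Mathlib
import Cfsg.Agent.Lib.Helper71.FrobConstr

set_option autoImplicit false
open Cfsg

namespace Cfsg.Agent.S4298

open Matrix

/-- lift `ZMod 3` to `ZMod 5` through `{-1, 0, 1}` -/
def lft (a : ZMod 3) : ZMod 5 := if a = 0 then 0 else if a = 1 then 1 else -1

/-- the map `SL(2,3) → SL(2,5)` on matrices (Hurwitz unit congruent to `M` mod 3, read mod 5) -/
def f (M : Matrix (Fin 2) (Fin 2) (ZMod 3)) : Matrix (Fin 2) (Fin 2) (ZMod 5) :=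
  let al := lft (-(M 0 0 + M 1 1))
  let be := lft (M 0 1 - M 1 0)
  let ga := lft ((M 0 0 - M 1 1) + (M 0 1 + M 1 0))
  let de := lft ((M 0 1 + M 1 0) - (M 0 0 - M 1 1))
  let s : ZMod 5 := if (be = 0 ∧ ga = 0 ∧ de = 0) ∨ (al = 0 ∧ ga = 0 ∧ de = 0) ∨
    (al = 0 ∧ be = 0 ∧ de = 0) ∨ (al = 0 ∧ be = 0 ∧ ga = 0) then 1 else 2
  !![s * (al - 2 * de), s * (-be + 2 * ga); s * (be + 2 * ga), s * (al + 2 * de)]

set_option maxRecDepth 1000000 in
theorem f_det : ∀ M : Matrix (Fin 2) (Fin 2) (ZMod 3), M.det = 1 → (f M).det = 1 := by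
  decide +kernel

set_option maxRecDepth 1000000 in
theorem f_fpf : ∀ M : Matrix (Fin 2) (Fin 2) (ZMod 3), M.det = 1 → M ≠ 1 → (f M - 1).det ≠ 0 := by
  decide +kernel


set_option maxRecDepth 1000000 in
theorem f_mul : ∀ M N : Matrix (Fin 2) (Fin 2) (ZMod 3), M.det = 1 → N.det = 1 →
    f (M * N) = f M * f N := by
  decide +kernel

theorem f_one : f 1 = 1 := by decide +kernel

/-- the action on `(ZMod 5)^2` -/
def ψ : Matrix.SpecialLinearGroup (Fin 2) (ZMod 3) →* Module.End (ZMod 5) (Fin 2 → ZMod 5) where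
  toFun M := Matrix.toLin' (f M.1)
  map_one' := by
    rw [Matrix.SpecialLinearGroup.coe_one, f_one, Matrix.toLin'_one]
    rfl
  map_mul' M N := by
    rw [Matrix.SpecialLinearGroup.coe_mul, f_mul _ _ M.2 N.2, Matrix.toLin'_mul]
    rfl

theorem main :
    ∃ (L : Type) (_ : Group L) (_ : Finite L) (H : Subgroup L), Cfsg.IsFrobeniusComplement H ∧
      Nonempty (H ≃* Matrix.SpecialLinearGroup (Fin 2) (ZMod 3)) := by
  let _ : DistribMulAction (Matrix.SpecialLinearGroup (Fin 2) (ZMod 3)) (Fin 2 → ZMod 5) :=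
    DistribMulAction.compHom (Fin 2 → ZMod 5) ψ
  have hsmul : ∀ (M : Matrix.SpecialLinearGroup (Fin 2) (ZMod 3)) (v : Fin 2 → ZMod 5),
      M • v = (f M.1).mulVec v := fun M v => Matrix.toLin'_apply (f M.1) v
  have hnt : Nontrivial (Matrix.SpecialLinearGroup (Fin 2) (ZMod 3)) := by
    refine ⟨⟨⟨!![0, -1; 1, 0], by decide⟩, 1, ?_⟩⟩
    intro h
    have h2 := congrArg Subtype.val h
    revert h2
    decide
  have : Fact (Nat.Prime 5) := ⟨by norm_num⟩
  obtain ⟨L, i1, i2, C, hC, ⟨e⟩⟩ := Cfsg.Agent.Lib.Helper71.FrobConstr.exists_of_fpf_add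
    (H := Matrix.SpecialLinearGroup (Fin 2) (ZMod 3)) (M := Fin 2 → ZMod 5) (by
      intro M hM v hv
      rw [hsmul] at hv
      have hM1 : M.1 ≠ 1 := fun h => hM (Subtype.ext h)
      have hdet := f_fpf M.1 M.2 hM1
      have h0 : (f M.1 - 1).mulVec v = 0 := by
        rw [Matrix.sub_mulVec, hv, Matrix.one_mulVec, sub_self]
      exact Matrix.eq_zero_of_mulVec_eq_zero hdet h0)
  exact ⟨L, i1, i2, C, hC, ⟨e.symm⟩⟩

/-- The group SL(2,3) of order 24 (the binary tetrahedral group) occurs as a Frobenius complement of some finite Frobenius group. -/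
theorem result :
    ∃ (L : Type) (_ : Group L) (_ : Finite L) (H : Subgroup L), Cfsg.IsFrobeniusComplement H ∧ Nonempty (H ≃* Matrix.SpecialLinearGroup (Fin 2) (ZMod 3)) := by
  exact main

end Cfsg.Agent.S4298
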