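import Cfsg.Statements.S4299
import Cfsg.Agent.Lib.Helper71.FrobConstr
import Cfsg.Agent.Lib.Helper71.ZModUnits

set_option autoImplicit false
open Cfsg

namespace Cfsg.Agent.S4299

open Cfsg.Agent.Lib.Helper71

theorem main {C : Type*} [Group C] [Finite C] [IsCyclic C] [Nontrivial C] :
    ∃ (L : Type) (_ : Group L) (_ : Finite L) (H : Subgroup L),
      Cfsg.IsFrobeniusComplement H ∧ Nonempty (C ≃* H) := by
  have hn : Nat.card C ≠ 0 := Nat.card_pos.ne'
  obtain ⟨p, hp, -, z, hz⟩ := ZModUnits.exists_prime_unit_of_order (Nat.card C) hn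
  have hpf : Fact p.Prime := ⟨hp⟩
  have hcard : Nat.card C = Nat.card (Subgroup.zpowers z) := by
    rw [Nat.card_zpowers, hz]
  let e : C ≃* Subgroup.zpowers z := mulEquivOfCyclicCardEq hcard
  let f : C →* (ZMod p)ˣ := (Subgroup.zpowers z).subtype.comp e.toMonoidHom
  have hf : Function.Injective f := by
    intro a b hab
    have : (e a : (ZMod p)ˣ) = e b := hab
    exact e.injective (Subtype.ext this)
  let _ : DistribMulAction C (ZMod p) := DistribMulAction.compHom (ZMod p) f
  have hsmul : ∀ (c : C) (m : ZMod p), c • m = ((f c : (ZMod p)ˣ) : ZMod p) * m :=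
    fun c m => rfl
  apply FrobConstr.exists_of_fpf_add (H := C) (M := ZMod p)
  intro c hc m hm
  rw [hsmul] at hm
  have h1 : ((f c : (ZMod p)ˣ) : ZMod p) ≠ 1 := by
    intro h
    apply hc
    apply hf
    rw [map_one]
    exact Units.ext h
  have h2 : (((f c : (ZMod p)ˣ) : ZMod p) - 1) * m = 0 := by
    rw [sub_mul, hm, one_mul, sub_self]
  rcases mul_eq_zero.1 h2 with h | h
  · exact absurd (sub_eq_zero.1 h) h1
  · exact h

/-- Every nontrivial finite cyclic group occurs as a Frobenius complement of some finite Frobenius group. -/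
theorem result {C : Type*} [Group C] [Finite C] [IsCyclic C] [Nontrivial C] :
    ∃ (L : Type) (_ : Group L) (_ : Finite L) (H : Subgroup L), Cfsg.IsFrobeniusComplement H ∧ Nonempty (C ≃* H) := by
  exact main

end Cfsg.Agent.S4299
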