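import Cfsg.Statements.S4300
-- import your own Cfsg.Agent.* helpers here

set_option autoImplicit false
open Cfsg

namespace Cfsg.Agent.S4300

theorem main {G : Type*} [Group G] {X : Type*} [MulAction G X] [FaithfulSMul G X]
    (hprim : MulAction.IsPreprimitive G X) (x : X) (hsimple : IsSimpleGroup (MulAction.stabilizer G x)) :
    IsSimpleGroup G ∨ ∃ N : Subgroup G, N.Normal ∧ N ≠ ⊥ ∧ N ≠ ⊤ ∧
      MulAction.IsPretransitive N X ∧ ∀ y : X, MulAction.stabilizer N y = ⊥ := by
  by_cases hs : IsSimpleGroup G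
  · exact Or.inl hs
  right
  have hnt : Nontrivial G := by
    obtain ⟨a, b, hab⟩ := hsimple.exists_pair_ne
    exact ⟨⟨a, b, fun h => hab (Subtype.ext h)⟩⟩
  have hex : ∃ N : Subgroup G, N.Normal ∧ N ≠ ⊥ ∧ N ≠ ⊤ := by
    by_contra hcon
    apply hs
    refine ⟨fun H hH => ?_⟩
    by_contra h2
    rw [not_or] at h2
    exact hcon ⟨H, hH, h2.1, h2.2⟩
  obtain ⟨N, hN, hNb, hNt⟩ := hex
  have htr : MulAction.IsPretransitive N X := by
    apply MulAction.IsQuasiPreprimitive.isPretransitive_of_normal (G := G)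
    intro hfix
    apply hNb
    rw [eq_bot_iff]
    intro n hn
    rw [Subgroup.mem_bot]
    apply FaithfulSMul.eq_of_smul_eq_smul (α := X)
    intro y
    have : y ∈ MulAction.fixedPoints N X := by rw [hfix]; trivial
    rw [one_smul]
    exact this ⟨n, hn⟩
  refine ⟨N, hN, hNb, hNt, htr, ?_⟩
  -- N ⊓ stabilizer x, seen inside stabilizer x, is normal
  have hnorm : (N.subgroupOf (MulAction.stabilizer G x)).Normal := inferInstance
  have hcases := hsimple.eq_bot_or_eq_top_of_normal _ hnorm
  have hbot : N ⊓ MulAction.stabilizer G x = ⊥ := by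
    rcases hcases with h | h
    · rw [Subgroup.subgroupOf_eq_bot] at h
      exact disjoint_iff.1 h
    · exfalso
      rw [Subgroup.subgroupOf_eq_top] at h
      apply hNt
      rw [eq_top_iff]
      intro g _
      obtain ⟨n, hn⟩ := htr.exists_smul_eq x (g • x)
      have h1 : (n : G)⁻¹ * g ∈ MulAction.stabilizer G x := by
        rw [MulAction.mem_stabilizer_iff, mul_smul, ← hn]
        show (n : G)⁻¹ • ((n : G) • x) = x
        rw [inv_smul_smul]
      have h2 := N.mul_mem n.2 (h h1)
      rwa [mul_inv_cancel_left] at h2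
  intro y
  obtain ⟨n, hn⟩ := htr.exists_smul_eq x y
  rw [eq_bot_iff]
  intro m hm
  rw [Subgroup.mem_bot]
  rw [MulAction.mem_stabilizer_iff] at hm
  have h1 : (n : G)⁻¹ * (m : G) * (n : G) ∈ N ⊓ MulAction.stabilizer G x := by
    refine Subgroup.mem_inf.2 ⟨N.mul_mem (N.mul_mem (N.inv_mem n.2) m.2) n.2, ?_⟩
    rw [MulAction.mem_stabilizer_iff, mul_smul, mul_smul]
    have e1 : (n : G) • x = y := hn
    have e2 : (m : G) • y = y := hm
    rw [e1, e2, ← e1, inv_smul_smul]
  rw [hbot, Subgroup.mem_bot] at h1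
  have h3 : (m : G) = 1 := by
    have : (m : G) = (n : G) * ((n : G)⁻¹ * (m : G) * (n : G)) * (n : G)⁻¹ := by group
    rw [this, h1]; group
  exact Subtype.ext h3

/-- Let G act faithfully and primitively on a set X, and suppose the stabilizer of some point is a simple group. Then either G is simple, or G has a normal subgroup, neither trivial nor the whole group, that acts regularly on X (transitively with trivial point stabilizers). -/
theorem result {G : Type*} [Group G] {X : Type*} [MulAction G X] [FaithfulSMul G X]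
    (hprim : MulAction.IsPreprimitive G X) (x : X) (hsimple : IsSimpleGroup (MulAction.stabilizer G x)) :
    IsSimpleGroup G ∨ ∃ N : Subgroup G, N.Normal ∧ N ≠ ⊥ ∧ N ≠ ⊤ ∧
      MulAction.IsPretransitive N X ∧ ∀ y : X, MulAction.stabilizer N y = ⊥ := by
  exact main hprim x hsimple

end Cfsg.Agent.S4300
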