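import Cfsg.Statements.S4301
import Mathlib
import Cfsg.Agent.Lib.Helper12.MultTrans
import Cfsg.Agent.S0709

set_option autoImplicit false
open Cfsg

namespace Cfsg.Agent.S4301

open Cfsg.Agent.Lib.Helper12.MultTrans

/-- One-point extension of a multiply transitive group. Let X be a set and G a group of permutations of Option X (the set X with one extra point ∗ = none) all of whose elements fix ∗, such that G is k-transitive on the points of X for some k ≥ 2, X having at least k points. Suppose a permutation h of Option X and an element g of G satisfy: h interchanges ∗ with a point x of X and fixes a point y of X; g interchanges x and y; (g h)³ and h² lie in G; and for every f in G fixing x, the product h f h lies in G and fixes x. Then an element of the group generated by G and h fixes ∗ exactly when it lies in G, and that group acts (k+1)-transitively on Option X. -/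
theorem result {X : Type*} (G : Subgroup (Equiv.Perm (Option X))) (hfix : ∀ f ∈ G, f none = none)
    (k : ℕ) (hk : 2 ≤ k) (hkX : Nonempty (Fin k ↪ X))
    (htrans : ∀ a b : Fin k ↪ X, ∃ f ∈ G, ∀ i, f (some (a i)) = some (b i))
    (h g : Equiv.Perm (Option X)) (hg : g ∈ G) (x y : X)
    (h1 : h none = some x) (h2 : h (some x) = none) (h3 : h (some y) = some y)
    (h4 : g (some x) = some y) (h5 : g (some y) = some x)
    (h6 : (g * h) ^ 3 ∈ G) (h7 : h ^ 2 ∈ G)
    (h8 : ∀ f ∈ G, f (some x) = some x → h * f * h ∈ G ∧ (h * f * h) (some x) = some x) :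
    (∀ f ∈ Subgroup.closure ((G : Set (Equiv.Perm (Option X))) ∪ {h}), f none = none ↔ f ∈ G) ∧
      MulAction.IsMultiplyPretransitive (Subgroup.closure ((G : Set (Equiv.Perm (Option X))) ∪ {h})) (Option X) (k + 1) := by
  classical
  have hxy : x ≠ y := by
    rintro rfl
    rw [h2] at h3
    exact absurd h3 (by simp)
  have hnotnone : ∀ z : Option X, z ∉ ({none} : Finset (Option X)) → ∃ a, z = some a := by
    intro z hz
    rw [Finset.mem_singleton] at hz
    exact Option.ne_none_iff_exists'.mp hz
  have hMTk : MT G {none} k := by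
    intro u v hu hv huS hvS
    choose a ha using fun i => hnotnone (u i) (huS i)
    choose b hb using fun i => hnotnone (v i) (hvS i)
    have hainj : Function.Injective a := fun i j hij => hu (by rw [ha, ha, hij])
    have hbinj : Function.Injective b := fun i j hij => hv (by rw [hb, hb, hij])
    obtain ⟨f, hf, hmap⟩ := htrans ⟨a, hainj⟩ ⟨b, hbinj⟩
    exact ⟨f, hf, fun i => by rw [ha, hb]; exact hmap i⟩
  have hMT2 : MT G {none} 2 := by
    intro u v hu hv huS hvS
    obtain ⟨e⟩ := hkX
    have ext : ∀ (w : Fin 2 → Option X), Function.Injective w →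
        (∀ i, w i ∉ ({none} : Finset (Option X))) →
        ∃ w' : Fin k → Option X, Function.Injective w' ∧
          (∀ i, w' i ∉ ({none} : Finset (Option X))) ∧
          w' ⟨0, by omega⟩ = w 0 ∧ w' ⟨1, by omega⟩ = w 1 := by
      intro w hw hwS
      obtain ⟨c₀, hc₀⟩ := hnotnone (w 0) (hwS 0)
      obtain ⟨c₁, hc₁⟩ := hnotnone (w 1) (hwS 1)
      have hc : c₀ ≠ c₁ := by
        intro hcc
        have : w 0 = w 1 := by rw [hc₀, hc₁, hcc]
        have := hw this
        simp at this
      have he01 : e ⟨0, by omega⟩ ≠ e ⟨1, by omega⟩ := by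
        intro hee
        have := e.injective hee
        simp at this
      set s₀ := Equiv.swap (e ⟨0, by omega⟩) c₀ with hs₀
      set w₁ := s₀ (e ⟨1, by omega⟩) with hw₁
      set s₁ := Equiv.swap w₁ c₁ with hs₁
      have hw₁c₀ : w₁ ≠ c₀ := by
        rw [hw₁]
        intro hh
        have h0 : s₀ (e ⟨0, by omega⟩) = c₀ := by rw [hs₀, Equiv.swap_apply_left]
        rw [← h0] at hh
        exact he01 (s₀.injective hh).symm
      refine ⟨fun i => some (s₁ (s₀ (e i))), ?_, ?_, ?_, ?_⟩
      · intro i j hij
        have h1' := Option.some.inj hij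
        exact e.injective (s₀.injective (s₁.injective h1'))
      · intro i
        simp
      · show some (s₁ (s₀ (e ⟨0, by omega⟩))) = w 0
        rw [hc₀]
        congr 1
        have h0 : s₀ (e ⟨0, by omega⟩) = c₀ := by rw [hs₀, Equiv.swap_apply_left]
        rw [h0, hs₁, Equiv.swap_apply_of_ne_of_ne (Ne.symm hw₁c₀) hc]
      · show some (s₁ (s₀ (e ⟨1, by omega⟩))) = w 1
        rw [hc₁]
        congr 1
        rw [← hw₁, hs₁, Equiv.swap_apply_left]
    obtain ⟨u', hu', hu'S, hu0, hu1⟩ := ext u hu huS
    obtain ⟨v', hv', hv'S, hv0, hv1⟩ := ext v hv hvS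
    obtain ⟨f, hf, hmap⟩ := hMTk u' v' hu' hv' hu'S hv'S
    refine ⟨f, hf, fun i => ?_⟩
    fin_cases i
    · show f (u 0) = v 0
      rw [← hu0, ← hv0]; exact hmap _
    · show f (u 1) = v 1
      rw [← hu1, ← hv1]; exact hmap _
  have hAfix : ∀ f ∈ G, ∀ z ∈ ({none} : Finset (Option X)), f z = z := by
    intro f hf z hz
    rw [Finset.mem_singleton] at hz
    rw [hz]; exact hfix f hf
  have ha : some x ∉ ({none} : Finset (Option X)) := by simp
  have hya : some y ∉ ({none} : Finset (Option X)) := by simp
  have hh2x : (h ^ 2) (some x) = some x := by rw [pow_two, Equiv.Perm.mul_apply, h2, h1]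
  have hs2 : h ^ 2 ∈ stab G (some x) := mem_stab.mpr ⟨h7, hh2x⟩
  have hnorm : ∀ f ∈ stab G (some x), h * f * h⁻¹ ∈ stab G (some x) := by
    intro f hf
    obtain ⟨hfG, hfx⟩ := mem_stab.mp hf
    obtain ⟨h8a, h8b⟩ := h8 f hfG hfx
    have : h * f * h⁻¹ = (h * f * h) * (h ^ 2)⁻¹ := by group
    rw [this]
    exact (stab G (some x)).mul_mem (mem_stab.mpr ⟨h8a, h8b⟩) ((stab G (some x)).inv_mem hs2)
  have hgx : g (some x) ≠ some x := by
    rw [h4]
    intro hh
    exact hxy (Option.some.inj hh).symm
  have hstab := S0709.step_stab G {none} (some x) none h g hAfix ha hMT2 hnorm hs2 hg hgx h6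
    (Finset.mem_singleton_self _) h1
  have hGB : G ≤ Subgroup.closure ((G : Set (Equiv.Perm (Option X))) ∪ {h}) :=
    fun f hf => Subgroup.subset_closure (Or.inl hf)
  constructor
  · intro f hf
    exact ⟨fun hfn => hstab f hf hfn, fun hfG => hfix f hfG⟩
  · have hTr : Tr (Subgroup.closure ((G : Set (Equiv.Perm (Option X))) ∪ {h})) ∅ := by
      have h9 := S0709.step_Tr G {none} (some x) none h ha
        (S0709.Tr_of_MT2 hMT2 ha hya (by
          intro hh
          exact hxy (Option.some.inj hh))) h1
      have h10 : ({none} : Finset (Option X)).erase none = ∅ := by simp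
      rw [h10] at h9
      exact h9
    have hMT : MT (Subgroup.closure ((G : Set (Equiv.Perm (Option X))) ∪ {h})) ∅ (k + 1) := by
      apply MT_succ hTr (by simp) (a := none) (by simp)
      have h11 : insert none (∅ : Finset (Option X)) = {none} := by simp
      rw [h11]
      exact S0709.MT_le (fun f hf => mem_stab.mpr ⟨hGB hf, hfix f hf⟩) hMTk
    refine ⟨fun u v => ?_⟩
    obtain ⟨f, hf, hmap⟩ := hMT u v u.injective v.injective (by simp) (by simp)
    exact ⟨⟨f, hf⟩, Function.Embedding.ext (fun i => hmap i)⟩

end Cfsg.Agent.S4301
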