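import Cfsg.Statements.S4304
import Cfsg.Agent.Lib.Helper99.N7f

set_option autoImplicit false
open Cfsg

namespace Cfsg.Agent.S4304

/-- No finite group has exactly 15 Sylow 7-subgroups. -/
theorem result {G : Type*} [Group G] [Finite G] : Nat.card (Sylow 7 G) ≠ 15 :=
  Cfsg.Agent.Lib.Helper99.N7.card_sylow7_ne_15 (Nat.card G) G rfl

end Cfsg.Agent.S4304
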