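import Cfsg.Statements.S4314

set_option autoImplicit false
open Cfsg

namespace Cfsg.Agent.S4314

theorem mem_cen {G : Type*} [Group G] {x g : G} :
    g ∈ Subgroup.centralizer ({x} : Set G) ↔ x * g = g * x := by
  simp [Subgroup.mem_centralizer_iff]

theorem cen_eq_top_iff {G : Type*} [Group G] {x : G} :
    Subgroup.centralizer ({x} : Set G) = ⊤ ↔ x ∈ Subgroup.center G := by
  rw [Subgroup.eq_top_iff', Subgroup.mem_center_iff]
  constructor
  · intro h g; exact (mem_cen.mp (h g)).symm
  · intro h g; exact mem_cen.mpr (h g).symm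

theorem eq_top_or_eq_of_prime_index {G : Type*} [Group G] [Finite G] {M J : Subgroup G}
    (hp : (M.index).Prime) (hle : M ≤ J) : J = ⊤ ∨ J = M := by
  have hd : J.index ∣ M.index := Subgroup.index_dvd_of_le hle
  rcases (Nat.dvd_prime hp).mp hd with h1 | h1
  · left; exact Subgroup.index_eq_one.mp h1
  · right
    symm
    apply Subgroup.eq_of_le_of_card_ge hle
    have e1 := M.card_mul_index
    have e2 := J.card_mul_index
    rw [h1] at e2
    have e3 : Nat.card J * M.index = Nat.card M * M.index := by rw [e1, e2]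
    exact (Nat.eq_of_mul_eq_mul_right hp.pos e3).le

/-- If all centralizers are normal, the group has class at most two. -/
theorem class_two_of_normal {G : Type*} [Group G] [Finite G]
    (h : ∀ x : G, (Subgroup.centralizer ({x} : Set G)).index = 1 ∨
      ((Subgroup.centralizer ({x} : Set G)).index).Prime)
    (hn : ∀ x : G, (Subgroup.centralizer ({x} : Set G)).Normal) :
    Subgroup.upperCentralSeries G 2 = ⊤ := by
  rw [Subgroup.eq_top_iff']
  intro x
  show x ∈ Subgroup.upperCentralSeries G (1 + 1)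
  rw [Subgroup.mem_upperCentralSeries_succ_iff]
  intro y
  rw [Subgroup.upperCentralSeries_one, commutatorElement_def]
  set c := x * y * x⁻¹ * y⁻¹ with hc
  have hconj : ∀ (u g z : G), z ∈ Subgroup.centralizer ({u} : Set G) →
      z ∈ Subgroup.centralizer ({g * u * g⁻¹} : Set G) := by
    intro u g z hz
    have h1 : g⁻¹ * z * g⁻¹⁻¹ ∈ Subgroup.centralizer ({u} : Set G) := (hn u).conj_mem z hz g⁻¹
    rw [inv_inv, mem_cen] at h1
    rw [mem_cen]
    calc g * u * g⁻¹ * z = g * (u * (g⁻¹ * z * g)) * g⁻¹ := by group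
      _ = g * ((g⁻¹ * z * g) * u) * g⁻¹ := by rw [h1]
      _ = z * (g * u * g⁻¹) := by group
  have hcx : ∀ z ∈ Subgroup.centralizer ({x} : Set G), c * z = z * c := by
    intro z hz
    have h1 := mem_cen.mp hz
    have h2 := mem_cen.mp (hconj x y z hz)
    have h3 : (y * x * y⁻¹)⁻¹ * z = z * (y * x * y⁻¹)⁻¹ := by
      calc (y * x * y⁻¹)⁻¹ * z = (y * x * y⁻¹)⁻¹ * (z * (y * x * y⁻¹)) * (y * x * y⁻¹)⁻¹ := by
            group
        _ = (y * x * y⁻¹)⁻¹ * ((y * x * y⁻¹) * z) * (y * x * y⁻¹)⁻¹ := by rw [h2]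
        _ = z * (y * x * y⁻¹)⁻¹ := by group
    calc c * z = x * ((y * x * y⁻¹)⁻¹ * z) := by rw [hc]; group
      _ = x * (z * (y * x * y⁻¹)⁻¹) := by rw [h3]
      _ = (x * z) * (y * x * y⁻¹)⁻¹ := by group
      _ = (z * x) * (y * x * y⁻¹)⁻¹ := by rw [h1]
      _ = z * c := by rw [hc]; group
  have hcy : ∀ z ∈ Subgroup.centralizer ({y} : Set G), c * z = z * c := by
    intro z hz
    have h1 := mem_cen.mp hz
    have h2 := mem_cen.mp (hconj y x z hz)
    have h3 : y⁻¹ * z = z * y⁻¹ := by
      calc y⁻¹ * z = y⁻¹ * (z * y) * y⁻¹ := by group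
        _ = y⁻¹ * (y * z) * y⁻¹ := by rw [h1]
        _ = z * y⁻¹ := by group
    calc c * z = (x * y * x⁻¹) * (y⁻¹ * z) := by rw [hc]; group
      _ = (x * y * x⁻¹) * (z * y⁻¹) := by rw [h3]
      _ = ((x * y * x⁻¹) * z) * y⁻¹ := by group
      _ = (z * (x * y * x⁻¹)) * y⁻¹ := by rw [h2]
      _ = z * c := by rw [hc]; group
  by_cases hxZ : x ∈ Subgroup.center G
  · have h1 : c = 1 := by
      rw [hc, ← Subgroup.mem_center_iff.mp hxZ y]; group
    rw [h1]; exact Subgroup.one_mem _
  · have hxp : ((Subgroup.centralizer ({x} : Set G)).index).Prime := by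
      rcases h x with h1 | h1
      · exact absurd (cen_eq_top_iff.mp (Subgroup.index_eq_one.mp h1)) hxZ
      · exact h1
    rcases eq_top_or_eq_of_prime_index hxp
      (le_sup_left : _ ≤ Subgroup.centralizer ({x} : Set G) ⊔
        Subgroup.centralizer ({y} : Set G)) with hJ | hJ
    · rw [Subgroup.mem_center_iff]
      intro g
      have hg : g ∈ Subgroup.centralizer ({x} : Set G) ⊔ Subgroup.centralizer ({y} : Set G) :=
        hJ ▸ Subgroup.mem_top g
      have hle : Subgroup.centralizer ({x} : Set G) ⊔ Subgroup.centralizer ({y} : Set G) ≤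
          Subgroup.centralizer ({c} : Set G) :=
        sup_le (fun z hz => mem_cen.mpr (hcx z hz)) (fun z hz => mem_cen.mpr (hcy z hz))
      exact (mem_cen.mp (hle hg)).symm
    · have hy : y ∈ Subgroup.centralizer ({x} : Set G) := by
        rw [← hJ]
        exact (le_sup_right : Subgroup.centralizer ({y} : Set G) ≤ _) (mem_cen.mpr rfl)
      have hxy := mem_cen.mp hy
      have h1 : c = 1 := by rw [hc, hxy]; group
      rw [h1]; exact Subgroup.one_mem _

/-- Divisors of a product of two primes. -/
theorem dvd_prime_mul_prime {p q d : ℕ} (hp : p.Prime) (hq : q.Prime) (hd : d ∣ p * q) :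
    d = 1 ∨ d = p ∨ d = q ∨ d = p * q := by
  obtain ⟨a, b, ha, hb, rfl⟩ := (Nat.dvd_mul).mp hd
  rcases (Nat.dvd_prime hp).mp ha with rfl | rfl <;> rcases (Nat.dvd_prime hq).mp hb with rfl | rfl
  · left; rfl
  · right; right; left; simp
  · right; left; simp
  · right; right; right; rfl

/-- Let `G` be a finite group every conjugacy class of which has size 1 or a prime. Then either `G` is nilpotent of class at most 2, or `G/Z(G)` is a non-abelian group of order `pq` for distinct primes `p, q` (a Frobenius group of order `pq`). -/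
theorem result {G : Type*} [Group G] [Finite G]
    (h : ∀ x : G, (Subgroup.centralizer ({x} : Set G)).index = 1 ∨ ((Subgroup.centralizer ({x} : Set G)).index).Prime) :
    Subgroup.upperCentralSeries G 2 = ⊤ ∨
      ∃ p q : ℕ, p.Prime ∧ q.Prime ∧ p ≠ q ∧ Nat.card (G ⧸ Subgroup.center G) = p * q ∧ ¬ IsMulCommutative (G ⧸ Subgroup.center G) := by
  classical
  by_cases hn : ∀ x : G, (Subgroup.centralizer ({x} : Set G)).Normal
  · left; exact class_two_of_normal h hn
  right
  push Not at hn
  obtain ⟨x, hxn⟩ := hn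
  set M := Subgroup.centralizer ({x} : Set G) with hM
  have hMp : (M.index).Prime := by
    rcases h x with h1 | h1
    · exfalso
      apply hxn
      have h2 : M = ⊤ := Subgroup.index_eq_one.mp h1
      rw [h2]
      infer_instance
    · exact h1
  set p := M.index with hp
  have hpF : Fact p.Prime := ⟨hMp⟩
  set K := M.normalCore with hK
  have hKM : K ≤ M := Subgroup.normalCore_le M
  have hKn : K.Normal := Subgroup.normalCore_normal M
  have hZK : Subgroup.center G ≤ K := by
    apply Subgroup.normal_le_normalCore.mpr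
    intro z hz
    rw [hM, mem_cen]
    exact (Subgroup.mem_center_iff.mp hz x)
  have hMK : M ≠ K := by
    intro hh
    apply hxn
    rw [hh]
    exact hKn
  -- an element y of p-power order outside M
  obtain ⟨P⟩ : Nonempty (Sylow p G) := inferInstance
  have hPM : ¬ (P : Subgroup G) ≤ M := by
    intro hle
    have h1 : M.index ∣ (P : Subgroup G).index := Subgroup.index_dvd_of_le hle
    exact P.not_dvd_index h1
  obtain ⟨y, hyP, hyM⟩ := SetLike.not_le_iff_exists.mp hPM
  obtain ⟨k, hk⟩ := (IsPGroup.iff_orderOf.mp P.isPGroup') ⟨y, hyP⟩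
  have hyord : orderOf y = p ^ k := by
    rw [← hk]; exact (Subgroup.orderOf_mk y hyP).symm
  have hyK : y ∉ K := fun hh => hyM (hKM hh)
  -- the powers of y represent all cosets of M
  have hT : ∀ b : G, ∃ i : ℕ, (y ^ i)⁻¹ * b ∈ M := by
    let f : Fin p → G ⧸ M := fun i => QuotientGroup.mk (y ^ (i : ℕ))
    have key : ∀ i j : Fin p, (i : ℕ) < j → f i ≠ f j := by
      intro i j hij heq
      have h1 : (y ^ (i : ℕ))⁻¹ * y ^ (j : ℕ) ∈ M := QuotientGroup.eq.mp heq
      obtain ⟨d, hd⟩ : ∃ d : ℕ, (j : ℕ) = i + d := ⟨j - i, by omega⟩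
      rw [hd, pow_add, inv_mul_cancel_left] at h1
      have hd0 : 0 < d := by omega
      have hdp : d < p := by have := j.2; omega
      have hcop : Nat.Coprime d (orderOf y) := by
        rw [hyord]
        apply Nat.Coprime.pow_right
        exact Nat.coprime_comm.mp
          ((Nat.Prime.coprime_iff_not_dvd hMp).mpr (Nat.not_dvd_of_pos_of_lt hd0 hdp))
      obtain ⟨m, hm⟩ := exists_pow_eq_self_of_coprime hcop
      apply hyM
      rw [← hm]
      exact M.pow_mem h1 m
    have hfinj : Function.Injective f := by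
      intro i j hij
      by_contra hne
      rcases lt_or_gt_of_ne (fun hh => hne (Fin.ext hh)) with hlt | hlt
      · exact key i j hlt hij
      · exact key j i hlt hij.symm
    have hcard : Nat.card (G ⧸ M) ≤ Nat.card (Fin p) := by
      rw [← Subgroup.index_eq_card, Nat.card_eq_fintype_card, Fintype.card_fin]
    have hbij := hfinj.bijective_of_nat_card_le hcard
    intro b
    obtain ⟨i, hi⟩ := hbij.2 (QuotientGroup.mk b)
    exact ⟨i, QuotientGroup.eq.mp hi⟩
  -- the quotient by K
  set π := QuotientGroup.mk' K with hπ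
  have hπs : Function.Surjective π := QuotientGroup.mk'_surjective K
  have hπker : π.ker = K := QuotientGroup.ker_mk' K
  have hπeq : ∀ a b : G, π a = π b ↔ a⁻¹ * b ∈ K := fun a b => QuotientGroup.eq
  have hπ1 : ∀ a : G, π a = 1 ↔ a ∈ K := fun a => QuotientGroup.eq_one_iff a
  let C' : G → Subgroup G := fun g => (Subgroup.centralizer ({π g} : Set (G ⧸ K))).comap π
  have hC'mem : ∀ g c : G, c ∈ C' g ↔ π g * π c = π c * π g := by
    intro g c
    show π c ∈ Subgroup.centralizer ({π g} : Set (G ⧸ K)) ↔ _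
    rw [mem_cen]
  have hcenC' : ∀ g : G, Subgroup.centralizer ({g} : Set G) ≤ C' g := by
    intro g c hc
    rw [hC'mem, ← map_mul, ← map_mul, mem_cen.mp hc]
  have hKC' : ∀ g : G, K ≤ C' g := by
    intro g c hc
    rw [hC'mem, (hπ1 c).mpr hc, mul_one, one_mul]
  have hC'idx : ∀ g : G, (C' g).index ∣ (Subgroup.centralizer ({g} : Set G)).index :=
    fun g => Subgroup.index_dvd_of_le (hcenC' g)
  -- C' y ∩ M = K
  have hinf : C' y ⊓ M ≤ K := by
    rintro c ⟨hc1', hc2'⟩
    have hc1 : c ∈ C' y := hc1'
    have hc2 : c ∈ M := hc2'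
    rw [hC'mem] at hc1
    have hpow : ∀ i : ℕ, (y ^ i)⁻¹ * c * y ^ i ∈ M := by
      intro i
      have h1 : Commute (π y ^ i) (π c) := Commute.pow_left hc1 i
      have h2 : π ((y ^ i)⁻¹ * c * y ^ i) = π c := by
        rw [map_mul, map_mul, map_inv, map_pow]
        have h3 : (π y ^ i)⁻¹ * π c * π y ^ i = (π y ^ i)⁻¹ * (π c * π y ^ i) := by group
        rw [h3, ← h1.eq]; group
      have h4 : c⁻¹ * ((y ^ i)⁻¹ * c * y ^ i) ∈ K := (hπeq _ _).mp h2.symm
      have h5 := M.mul_mem hc2 (hKM h4)
      rw [mul_inv_cancel_left] at h5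
      exact h5
    intro b
    obtain ⟨i, hi⟩ := hT b⁻¹
    have h6 := M.mul_mem (M.mul_mem (M.inv_mem hi) (hpow i)) hi
    have h7 : ((y ^ i)⁻¹ * b⁻¹)⁻¹ * ((y ^ i)⁻¹ * c * y ^ i) * ((y ^ i)⁻¹ * b⁻¹) = b * c * b⁻¹ := by
      group
    rw [h7] at h6
    exact h6
  have hKeq : K = M ⊓ C' y := le_antisymm (le_inf hKM (hKC' y)) (by rw [inf_comm]; exact hinf)
  -- the index of K in C' y is p
  have hrel_le : K.relIndex (C' y) ≤ p := by
    have h1 : K.relIndex (C' y) = M.relIndex (C' y) := by
      rw [hKeq, Subgroup.inf_relIndex_right]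
    rw [h1]
    have h2 : M.relIndex (C' y) ≤ M.relIndex ⊤ :=
      Subgroup.relIndex_le_of_le_right le_top Subgroup.index_ne_zero_of_finite
    rw [Subgroup.relIndex_top_right] at h2
    exact h2
  have hrel_card : K.relIndex (C' y) = Nat.card (Subgroup.centralizer ({π y} : Set (G ⧸ K))) := by
    have h1 := Subgroup.relIndex_ker π (K := C' y)
    rw [hπker] at h1
    rw [h1]
    show Nat.card ((Subgroup.comap π (Subgroup.centralizer ({π y} : Set (G ⧸ K)))).map π) = _
    rw [Subgroup.map_comap_eq_self_of_surjective hπs]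
  have hp_dvd : p ∣ K.relIndex (C' y) := by
    rw [hrel_card]
    have h1 : orderOf (π y) ∣ Nat.card (Subgroup.centralizer ({π y} : Set (G ⧸ K))) :=
      Subgroup.orderOf_dvd_natCard _ (mem_cen.mpr rfl)
    have h2 : orderOf (π y) ∣ p ^ k := hyord ▸ orderOf_map_dvd π y
    obtain ⟨j, -, hj⟩ := (Nat.dvd_prime_pow hMp).mp h2
    have hj0 : j ≠ 0 := by
      rintro rfl
      rw [pow_zero, orderOf_eq_one_iff, hπ1] at hj
      exact hyK hj
    exact (dvd_pow_self p hj0).trans (hj ▸ h1)
  have hrel : K.relIndex (C' y) = p := by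
    have h0 : K.relIndex (C' y) ≠ 0 := Subgroup.index_ne_zero_of_finite
    exact le_antisymm hrel_le (Nat.le_of_dvd (Nat.pos_of_ne_zero h0) hp_dvd)
  -- the index of C' y is a prime q
  have hyZ : y ∉ Subgroup.center G := fun hh => hyK (hZK hh)
  have hqp : ((Subgroup.centralizer ({y} : Set G)).index).Prime := by
    rcases h y with h1 | h1
    · exact absurd (cen_eq_top_iff.mp (Subgroup.index_eq_one.mp h1)) hyZ
    · exact h1
  set q := (Subgroup.centralizer ({y} : Set G)).index with hq
  have hC'y : (C' y).index = q := by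
    rcases (Nat.dvd_prime hqp).mp (hC'idx y) with h1 | h1
    · exfalso
      apply hMK
      have h2 : C' y = ⊤ := Subgroup.index_eq_one.mp h1
      rw [hKeq, h2, inf_top_eq]
    · exact h1
  have hcardQ : Nat.card (G ⧸ K) = p * q := by
    rw [← Subgroup.index_eq_card, ← Subgroup.relIndex_mul_index (hKC' y), hrel, hC'y]
  have hncomm : ¬ IsMulCommutative (G ⧸ K) := by
    intro hcomm
    have h1 : (M.map π).Normal := inferInstance
    have h2 : (Subgroup.comap π (M.map π)).Normal := h1.comap π
    rw [Subgroup.comap_map_eq_self (by rw [hπker]; exact hKM)] at h2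
    exact hxn h2
  have hpq : p ≠ q := by
    intro hpq
    apply hncomm
    apply IsPGroup.isMulCommutative_of_card_eq_prime_sq (p := p)
    rw [hcardQ, ← hpq, sq]
  -- the centre of the quotient is trivial
  have hcenQ : ∀ g : G, π g ∈ Subgroup.center (G ⧸ K) → g ∈ K := by
    intro g hg
    by_contra hgK
    have hne : Subgroup.center (G ⧸ K) ≠ ⊥ := by
      intro hbot
      rw [hbot, Subgroup.mem_bot, hπ1] at hg
      exact hgK hg
    have h1 := (Subgroup.center (G ⧸ K)).card_mul_index
    rw [hcardQ] at h1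
    have h2 : (Subgroup.center (G ⧸ K)).index ∣ p * q := ⟨_, by rw [← h1, mul_comm]⟩
    have h3 : 1 < Nat.card (Subgroup.center (G ⧸ K)) := by
      rw [Finite.one_lt_card_iff_nontrivial, Subgroup.nontrivial_iff_ne_bot]
      exact hne
    have hcyc : IsCyclic ((G ⧸ K) ⧸ Subgroup.center (G ⧸ K)) := by
      rcases dvd_prime_mul_prime hMp hqp h2 with h4 | h4 | h4 | h4
      · have : Subsingleton ((G ⧸ K) ⧸ Subgroup.center (G ⧸ K)) := by
          rw [← Finite.card_le_one_iff_subsingleton, ← Subgroup.index_eq_card, h4]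
        exact isCyclic_of_subsingleton
      · exact isCyclic_of_prime_card (p := p) (by rw [← Subgroup.index_eq_card]; exact h4)
      · have hqF : Fact q.Prime := ⟨hqp⟩
        exact isCyclic_of_prime_card (p := q) (by rw [← Subgroup.index_eq_card]; exact h4)
      · exfalso
        rw [h4] at h1
        have hpos : 0 < p * q := Nat.mul_pos hMp.pos hqp.pos
        nlinarith
    exact hncomm (isMulCommutative_of_isCyclic_quotient_center_self (G ⧸ K))
  -- K is central
  have hKcen : ∀ g : G, g ∉ K → K ≤ Subgroup.centralizer ({g} : Set G) := by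
    intro g hg
    have h1 : (C' g).index ≠ 1 := by
      intro h1
      have h2 : C' g = ⊤ := Subgroup.index_eq_one.mp h1
      apply hg
      apply hcenQ
      rw [Subgroup.mem_center_iff]
      intro u
      obtain ⟨c, rfl⟩ := hπs u
      have h3 : c ∈ C' g := h2 ▸ Subgroup.mem_top c
      exact ((hC'mem g c).mp h3).symm
    have h2 : (C' g).index = (Subgroup.centralizer ({g} : Set G)).index := by
      rcases h g with h3 | h3
      · have h4 := hC'idx g
        rw [h3] at h4
        exact absurd (Nat.dvd_one.mp h4) h1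
      · rcases (Nat.dvd_prime h3).mp (hC'idx g) with h4 | h4
        · exact absurd h4 h1
        · exact h4
    have h3 : Subgroup.centralizer ({g} : Set G) = C' g := by
      apply Subgroup.eq_of_le_of_card_ge (hcenC' g)
      have e1 := (C' g).card_mul_index
      have e2 := (Subgroup.centralizer ({g} : Set G)).card_mul_index
      rw [h2] at e1
      have e3 : Nat.card (C' g) * (Subgroup.centralizer ({g} : Set G)).index =
          Nat.card (Subgroup.centralizer ({g} : Set G)) *
            (Subgroup.centralizer ({g} : Set G)).index := by rw [e1, e2]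
      have hpos : 0 < (Subgroup.centralizer ({g} : Set G)).index :=
        Nat.pos_of_ne_zero Subgroup.index_ne_zero_of_finite
      exact (Nat.eq_of_mul_eq_mul_right hpos e3).le
    rw [h3]
    exact hKC' g
  have hKZ : K ≤ Subgroup.center G := by
    intro c hc
    rw [Subgroup.mem_center_iff]
    intro g
    by_cases hg : g ∈ K
    · have hgy : g * y ∉ K := by
        intro hh
        apply hyK
        have := K.mul_mem (K.inv_mem hg) hh
        rwa [inv_mul_cancel_left] at this
      have h1 := mem_cen.mp (hKcen y hyK hc)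
      have h2 := mem_cen.mp (hKcen (g * y) hgy hc)
      calc g * c = g * (c * y) * y⁻¹ := by group
        _ = g * (y * c) * y⁻¹ := by rw [h1]
        _ = (g * y * c) * y⁻¹ := by group
        _ = (c * (g * y)) * y⁻¹ := by rw [h2]
        _ = c * g := by group
    · exact mem_cen.mp (hKcen g hg hc)
  have hfinal : ∀ (N : Subgroup G) (hN : N.Normal), N = K →
      Nat.card (G ⧸ N) = p * q ∧ ¬ IsMulCommutative (G ⧸ N) := by
    intro N hN hNK
    subst hNK
    exact ⟨hcardQ, hncomm⟩
  exact ⟨p, q, hMp, hqp, hpq, hfinal (Subgroup.center G) inferInstance (le_antisymm hZK hKZ)⟩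

end Cfsg.Agent.S4314
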