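import Cfsg.Statements.S4320
import Cfsg.Agent.Lib.Helper57.PITMod

set_option autoImplicit false
open Cfsg

namespace Cfsg.Agent.S4320

open Cfsg.Agent.Lib.Helper57.PITMod
open scoped commutatorElement

universe u

variable {G : Type u} [Group G]

/-- class of an element of the commutator subgroup in its abelianization, written additively -/
noncomputable def cls (x : G) : Additive (Abelianization ↥(commutator G)) := by
  classical
  exact if hx : x ∈ commutator G then Additive.ofMul (Abelianization.of ⟨x, hx⟩) else 0

theorem cls_eq (x : G) (hx : x ∈ commutator G) :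
    cls x = Additive.ofMul (Abelianization.of (⟨x, hx⟩ : ↥(commutator G))) := by
  unfold cls
  rw [dif_pos hx]

theorem cls_mul (x y : G) (hx : x ∈ commutator G) (hy : y ∈ commutator G) :
    cls (x * y) = cls x + cls y := by
  rw [cls_eq _ (mul_mem hx hy), cls_eq _ hx, cls_eq _ hy, ← ofMul_mul, ← map_mul]
  rfl

theorem mem_comm_iff (x : G) :
    x ∈ commutator G ↔ (Abelianization.of x : Abelianization G) = 1 := by
  rw [← MonoidHom.mem_ker, Abelianization.ker_of]

variable (t : Abelianization G → G)

/-- the part of `g` in the commutator subgroup at the coset `q` -/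
def hf (g : G) (q : Abelianization G) : G :=
  (t q)⁻¹ * g * t ((Abelianization.of g)⁻¹ * q)

theorem hf_mem (ht : ∀ q, Abelianization.of (t q) = q) (g : G) (q : Abelianization G) :
    hf t g q ∈ commutator G := by
  rw [mem_comm_iff, hf, map_mul, map_mul, map_inv, ht, ht, mul_assoc, mul_inv_cancel_left,
    inv_mul_cancel]

theorem hf_mul (g g' : G) (q : Abelianization G) :
    hf t (g * g') q = hf t g q * hf t g' ((Abelianization.of g)⁻¹ * q) := by
  unfold hf
  rw [map_mul, mul_inv_rev, mul_assoc (Abelianization.of g')⁻¹]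
  group

/-- the first component of the derivation -/
noncomputable def beta (g : G) :
    BMod (Abelianization G) (Additive (Abelianization ↥(commutator G))) :=
  fun q => cls (hf t g q)

/-- the derivation into the relation module -/
noncomputable def Dm (g : G) :
    BMod (Abelianization G) (Additive (Abelianization ↥(commutator G))) ×
      MonoidAlgebra ℤ (Abelianization G) :=
  (beta t g, MonoidAlgebra.of ℤ _ (Abelianization.of g) - 1)

theorem Dm_mul (ht : ∀ q, Abelianization.of (t q) = q) (g g' : G) :
    Dm t (g * g') = Dm t g + MonoidAlgebra.of ℤ _ (Abelianization.of g) • Dm t g' := by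
  apply Prod.ext
  · show beta t (g * g') = beta t g + MonoidAlgebra.of ℤ _ (Abelianization.of g) • beta t g'
    apply bext
    intro q
    rw [add_apply', of_smul]
    show cls (hf t (g * g') q) = cls (hf t g q) + cls (hf t g' ((Abelianization.of g)⁻¹ * q))
    rw [hf_mul, cls_mul _ _ (hf_mem t ht _ _) (hf_mem t ht _ _)]
  · show MonoidAlgebra.of ℤ _ (Abelianization.of (g * g')) - 1
      = (MonoidAlgebra.of ℤ _ (Abelianization.of g) - 1)
        + MonoidAlgebra.of ℤ _ (Abelianization.of g) * (MonoidAlgebra.of ℤ _ (Abelianization.of g') - 1)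
    rw [map_mul, map_mul]
    ring

theorem Dm_one (ht : ∀ q, Abelianization.of (t q) = q) : Dm t (1 : G) = 0 := by
  have h := Dm_mul t ht 1 1
  rw [mul_one, map_one, map_one, one_smul] at h
  exact left_eq_add.mp h

theorem Dm_inv (ht : ∀ q, Abelianization.of (t q) = q) (g : G) :
    Dm t g⁻¹ = -(MonoidAlgebra.of ℤ _ (Abelianization.of g⁻¹) • Dm t g) := by
  have h := Dm_mul t ht g⁻¹ g
  rw [inv_mul_cancel, Dm_one t ht] at h
  exact eq_neg_of_add_eq_zero_left h.symm

theorem Dm_comm (ht : ∀ q, Abelianization.of (t q) = q) (g₁ g₂ : G) :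
    Dm t ⁅g₁, g₂⁆ = (1 - MonoidAlgebra.of ℤ _ (Abelianization.of g₂)) • Dm t g₁
      + (MonoidAlgebra.of ℤ _ (Abelianization.of g₁) - 1) • Dm t g₂ := by
  have e1 : (Abelianization.of (g₁ * g₂ * g₁⁻¹) : Abelianization G) = Abelianization.of g₂ := by
    rw [map_mul, map_mul, map_inv, mul_comm (Abelianization.of g₁), mul_inv_cancel_right]
  have ha : MonoidAlgebra.of ℤ (Abelianization G) (Abelianization.of g₁)
      * MonoidAlgebra.of ℤ _ (Abelianization.of g₁⁻¹) = 1 := by
    rw [← map_mul, ← map_mul, mul_inv_cancel, map_one, map_one]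
  have hb : MonoidAlgebra.of ℤ (Abelianization G) (Abelianization.of g₂)
      * MonoidAlgebra.of ℤ _ (Abelianization.of g₂⁻¹) = 1 := by
    rw [← map_mul, ← map_mul, mul_inv_cancel, map_one, map_one]
  rw [commutatorElement_def, Dm_mul t ht, Dm_mul t ht, Dm_mul t ht, Dm_inv t ht, Dm_inv t ht,
    e1, map_mul Abelianization.of g₁ g₂, map_mul (MonoidAlgebra.of ℤ (Abelianization G))]
  simp only [smul_neg, smul_smul]
  have h3 : MonoidAlgebra.of ℤ (Abelianization G) (Abelianization.of g₁)
      * MonoidAlgebra.of ℤ _ (Abelianization.of g₂) * MonoidAlgebra.of ℤ _ (Abelianization.of g₁⁻¹)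
      = MonoidAlgebra.of ℤ _ (Abelianization.of g₂) := by
    rw [mul_comm (MonoidAlgebra.of ℤ (Abelianization G) (Abelianization.of g₁)), mul_assoc, ha,
      mul_one]
  rw [h3, hb, one_smul, sub_smul, sub_smul, one_smul, one_smul]
  abel

theorem Dm_pow (ht : ∀ q, Abelianization.of (t q) = q) (g : G) (n : ℕ) :
    Dm t (g ^ n) = (∑ k ∈ Finset.range n, MonoidAlgebra.of ℤ _ (Abelianization.of g) ^ k) • Dm t g := by
  induction n with
  | zero => simp [Dm_one t ht]
  | succ n ih =>
    rw [pow_succ, Dm_mul t ht, ih, Finset.sum_range_succ, add_smul, map_pow, map_pow]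

/-- the core computation: the sum of the classes of the `H`-parts of `g` vanishes -/
theorem core [Finite G] [Fintype (Abelianization G)] (ht : ∀ q, Abelianization.of (t q) = q)
    (g : G) : ∑ q, cls (hf t g q) = 0 := by
  classical
  obtain ⟨ι, hι, n, hn, ⟨e⟩⟩ :=
    CommGroup.equiv_prod_multiplicative_zmod_of_finite (Abelianization G)
  have hne : ∀ i, NeZero (n i) := fun i => ⟨by have := hn i; omega⟩
  let qi : ι → Abelianization G := fun i => e.symm (Pi.mulSingle i (Multiplicative.ofAdd 1))
  let gi : ι → G := fun i => t (qi i)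
  have hgi : ∀ i, Abelianization.of (gi i) = qi i := fun i => ht _
  have hsingle : ∀ (i : ι) (k : ℕ),
      e.symm (Pi.mulSingle i (Multiplicative.ofAdd ((k : ZMod (n i))))) = qi i ^ k := by
    intro i k
    show _ = (e.symm (Pi.mulSingle i (Multiplicative.ofAdd 1))) ^ k
    rw [← map_pow, ← MonoidHom.mulSingle_apply, ← MonoidHom.mulSingle_apply, ← map_pow,
      ← ofAdd_nsmul, nsmul_eq_mul, mul_one]
  have hqn : ∀ i, qi i ^ n i = 1 := by
    intro i
    rw [← hsingle, ZMod.natCast_self, ofAdd_zero, Pi.mulSingle_one, map_one]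
  have hcl : ∀ q : Abelianization G, q ∈ Subgroup.closure (Set.range qi) := by
    intro q
    have h1 : q = ∏ i, e.symm (Pi.mulSingle i (e q i)) := by
      rw [← map_prod, Finset.univ_prod_mulSingle, MulEquiv.symm_apply_apply]
    rw [h1]
    apply Subgroup.prod_mem
    intro i _
    have h2 : e q i = Multiplicative.ofAdd (((Multiplicative.toAdd (e q i)).val : ZMod (n i))) := by
      rw [ZMod.natCast_zmod_val]
      rfl
    rw [h2, hsingle]
    exact pow_mem (Subgroup.subset_closure (Set.mem_range_self i)) _
  have hcard : ∏ i, n i = Fintype.card (Abelianization G) := by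
    rw [← Nat.card_eq_fintype_card, Nat.card_congr e.toEquiv, Nat.card_pi]
    apply Finset.prod_congr rfl
    intro i _
    exact (Nat.card_zmod (n i)).symm
  -- generators, coefficients
  let m : ι ⊕ ↥(commutator G) →
      BMod (Abelianization G) (Additive (Abelianization ↥(commutator G))) ×
        MonoidAlgebra ℤ (Abelianization G) :=
    Sum.elim (fun i => Dm t (gi i)) (fun h => Dm t (h : G))
  let c : ι ⊕ ↥(commutator G) → MonoidAlgebra ℤ (Abelianization G) :=
    Sum.elim (fun i => (n i : MonoidAlgebra ℤ (Abelianization G))) (fun _ => 1)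
  let M := Submodule.span (MonoidAlgebra ℤ (Abelianization G)) (Set.range m)
  let I : Ideal (MonoidAlgebra ℤ (Abelianization G)) := RingHom.ker (aug (Abelianization G))
  have hK : ∀ x : G, x ∈ Subgroup.closure (Set.range gi ∪ (commutator G : Set G)) := by
    intro x
    have h1 : ∀ q ∈ Subgroup.closure (Set.range qi),
        ∃ k ∈ Subgroup.closure (Set.range gi ∪ (commutator G : Set G)),
          Abelianization.of k = q := by
      intro q hq
      induction hq using Subgroup.closure_induction with
      | mem q hq =>
        obtain ⟨i, rfl⟩ := hq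
        exact ⟨gi i, Subgroup.subset_closure (Or.inl ⟨i, rfl⟩), hgi i⟩
      | one => exact ⟨1, one_mem _, map_one _⟩
      | mul a b _ _ ha hb =>
        obtain ⟨k, hk, rfl⟩ := ha
        obtain ⟨k', hk', rfl⟩ := hb
        exact ⟨k * k', mul_mem hk hk', map_mul _ _ _⟩
      | inv a _ ha =>
        obtain ⟨k, hk, rfl⟩ := ha
        exact ⟨k⁻¹, inv_mem hk, map_inv _ _⟩
    obtain ⟨k, hk, hkx⟩ := h1 _ (hcl (Abelianization.of x))
    have h2 : k⁻¹ * x ∈ commutator G := by
      rw [mem_comm_iff, map_mul, map_inv, hkx, inv_mul_cancel]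
    have h3 : x = k * (k⁻¹ * x) := by group
    rw [h3]
    exact mul_mem hk (Subgroup.subset_closure (Or.inr h2))
  have hM : ∀ x : G, Dm t x ∈ M := by
    intro x
    have hx := hK x
    induction hx using Subgroup.closure_induction with
    | mem y hy =>
      rcases hy with ⟨i, rfl⟩ | hy
      · exact Submodule.subset_span ⟨Sum.inl i, rfl⟩
      · exact Submodule.subset_span ⟨Sum.inr ⟨y, hy⟩, rfl⟩
    | one => rw [Dm_one t ht]; exact zero_mem _
    | mul a b _ _ ha hb =>
      rw [Dm_mul t ht]
      exact add_mem ha (Submodule.smul_mem _ _ hb)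
    | inv a _ ha =>
      rw [Dm_inv t ht]
      exact neg_mem (Submodule.smul_mem _ _ ha)
  have hI : ∀ x ∈ commutator G, Dm t x ∈ I • M := by
    intro x hx
    rw [commutator_eq_closure] at hx
    induction hx using Subgroup.closure_induction with
    | mem y hy =>
      obtain ⟨g₁, g₂, rfl⟩ := hy
      rw [Dm_comm t ht]
      refine add_mem (Submodule.smul_mem_smul ?_ (hM g₁)) (Submodule.smul_mem_smul ?_ (hM g₂))
      · rw [RingHom.mem_ker, map_sub, map_one, aug_of, sub_self]
      · rw [RingHom.mem_ker, map_sub, map_one, aug_of, sub_self]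
    | one => rw [Dm_one t ht]; exact zero_mem _
    | mul a b ha hb iha ihb =>
      have ha' : a ∈ commutator G := by rw [commutator_eq_closure]; exact ha
      rw [Dm_mul t ht, (mem_comm_iff a).mp ha', map_one, one_smul]
      exact add_mem iha ihb
    | inv a ha iha =>
      have ha' : a ∈ commutator G := by rw [commutator_eq_closure]; exact ha
      rw [Dm_inv t ht, map_inv, (mem_comm_iff a).mp ha', inv_one, map_one, one_smul]
      exact neg_mem iha
  have hrel : ∀ j, c j • m j ∈ I • M := by
    rintro (i | h)
    · show (n i : MonoidAlgebra ℤ (Abelianization G)) • Dm t (gi i) ∈ I • M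
      have h1 : gi i ^ n i ∈ commutator G := by rw [mem_comm_iff, map_pow, hgi, hqn]
      have h2 := Dm_pow t ht (gi i) (n i)
      have h3 : (n i : MonoidAlgebra ℤ (Abelianization G))
          = ∑ k ∈ Finset.range (n i), (MonoidAlgebra.of ℤ _ (Abelianization.of (gi i))) ^ k
            - ∑ k ∈ Finset.range (n i),
                ((MonoidAlgebra.of ℤ _ (Abelianization.of (gi i))) ^ k - 1) := by
        rw [Finset.sum_sub_distrib]
        simp
      rw [h3, sub_smul, ← h2]
      refine sub_mem (hI _ h1) (Submodule.smul_mem_smul ?_ (hM _))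
      refine Ideal.sum_mem _ (fun k _ => ?_)
      rw [RingHom.mem_ker, map_sub, map_pow, aug_of, one_pow, map_one, sub_self]
    · show (1 : MonoidAlgebra ℤ (Abelianization G)) • Dm t (h : G) ∈ I • M
      rw [one_smul]
      exact hI _ h.2
  have hex : ∀ j, ∃ a : (ι ⊕ ↥(commutator G)) →₀ MonoidAlgebra ℤ (Abelianization G),
      (∀ k, a k ∈ I) ∧ (a.sum fun k r => r • m k) = c j • m j := by
    intro j
    obtain ⟨a, ha, hs⟩ :=
      (Submodule.mem_ideal_smul_span_iff_exists_sum I m (c j • m j)).mp (hrel j)
    exact ⟨a, ha, hs⟩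
  choose a haI has using hex
  let _ : Fintype ↥(commutator G) := Fintype.ofFinite _
  let X : Matrix (ι ⊕ ↥(commutator G)) (ι ⊕ ↥(commutator G)) (MonoidAlgebra ℤ (Abelianization G)) :=
    Matrix.diagonal c - Matrix.of (fun j k => a j k)
  have hXa : ∀ j k, X j k = Matrix.diagonal c j k - a j k := fun j k => rfl
  have hX : ∀ j, ∑ k, X j k • m k = 0 := by
    intro j
    have h1 : ∀ k, X j k • m k = (Matrix.diagonal c j k) • m k - a j k • m k := by
      intro k
      rw [hXa, sub_smul]
    simp_rw [h1]
    rw [Finset.sum_sub_distrib]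
    have h2 : ∑ k, Matrix.diagonal c j k • m k = c j • m j := by
      rw [Finset.sum_eq_single j]
      · rw [Matrix.diagonal_apply_eq]
      · intro k _ hk
        rw [Matrix.diagonal_apply_ne _ (Ne.symm hk), zero_smul]
      · intro h
        exact absurd (Finset.mem_univ j) h
    have h3 : ∑ k, a j k • m k = c j • m j := by
      rw [← has j, Finsupp.sum_fintype]
      intro k
      exact zero_smul _ _
    rw [h2, h3, sub_self]
  have hdet := det_smul_eq_zero X m hX
  have hdetM : ∀ x ∈ M, X.det • x = 0 := by
    intro x hx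
    induction hx using Submodule.span_induction with
    | mem x hx =>
      obtain ⟨k, rfl⟩ := hx
      exact hdet k
    | zero => exact smul_zero _
    | add x y _ _ hx hy => rw [smul_add, hx, hy, add_zero]
    | smul r x _ hx => rw [smul_comm, hx, smul_zero]
  have hfix : ∀ q, X.det * MonoidAlgebra.of ℤ _ q = X.det := by
    intro q
    have h1 := congrArg Prod.snd (hdetM _ (hM (t q)))
    have h2 : X.det * (MonoidAlgebra.of ℤ _ (Abelianization.of (t q)) - 1) = 0 := h1
    rw [ht, mul_sub, mul_one, sub_eq_zero] at h2
    exact h2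
  have haug : aug _ X.det = Fintype.card (Abelianization G) := by
    rw [RingHom.map_det]
    have h1 : (aug (Abelianization G)).mapMatrix X = Matrix.diagonal (fun j => aug _ (c j)) := by
      ext j k
      rw [RingHom.mapMatrix_apply, Matrix.map_apply, hXa, map_sub,
        (RingHom.mem_ker).mp (haI j k), sub_zero]
      by_cases hjk : j = k
      · subst hjk
        rw [Matrix.diagonal_apply_eq, Matrix.diagonal_apply_eq]
      · rw [Matrix.diagonal_apply_ne _ hjk, Matrix.diagonal_apply_ne _ hjk, map_zero]
    rw [h1, Matrix.det_diagonal, Fintype.prod_sum_type]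
    simp only [c, Sum.elim_inl, Sum.elim_inr, map_natCast, map_one, Finset.prod_const_one, mul_one]
    rw [← hcard]
    push_cast
    rfl
  have hnrm : X.det = nrm _ := eq_nrm_of_mul_of _ hfix haug
  have h1 := congrArg Prod.fst (hdetM _ (hM g))
  have h2 : X.det • beta t g = 0 := h1
  rw [hnrm] at h2
  have h3 := nrm_smul (beta t g) 1
  rw [h2] at h3
  exact h3.symm

theorem inv_smul_eq (g : G) (q : G ⧸ commutator G) :
    g⁻¹ • q = ((Abelianization.of g)⁻¹ * (show Abelianization G from q) : Abelianization G) := by
  induction q using Quotient.inductionOn' with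
  | _ x => rfl

/-- The Principal Ideal Theorem of class field theory in its group-theoretic form: for every finite group `G`, the transfer homomorphism from `G` into the abelianization `G'/G''` of its derived subgroup `G'` is the trivial homomorphism. -/
theorem result {G : Type*} [Group G] [Finite G] :
    MonoidHom.transfer (Abelianization.of : ↥(commutator G) →* Abelianization ↥(commutator G)) =
      (1 : G →* Abelianization ↥(commutator G)) := by
  classical
  ext g
  let T : (commutator G).LeftTransversal := default
  let _ : Fintype (Abelianization G) := (commutator G).fintypeQuotientOfFiniteIndex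
  let t : Abelianization G → G := fun q => (T.2.leftQuotientEquiv q : G)
  have ht : ∀ q, Abelianization.of (t q) = q := fun q =>
    Subgroup.IsComplement.quotientGroupMk_leftQuotientEquiv T.2 q
  rw [MonoidHom.transfer_def _ T, MonoidHom.one_apply]
  have key := core t ht g
  have hq : ∀ q : G ⧸ commutator G, ((g • T).2.leftQuotientEquiv q : G)
      = g * (T.2.leftQuotientEquiv (g⁻¹ • q) : G) := by
    intro q
    rw [Subgroup.smul_apply_eq_smul_apply_inv_smul, smul_eq_mul]
  have h2 : Subgroup.leftTransversals.diff
      (Abelianization.of : ↥(commutator G) →* Abelianization ↥(commutator G)) T (g • T)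
      = Additive.toMul (∑ q : Abelianization G, cls (hf t g q)) := by
    rw [toMul_sum]
    unfold Subgroup.leftTransversals.diff
    apply Finset.prod_congr rfl
    intro q _
    rw [cls_eq _ (hf_mem t ht g q)]
    show Abelianization.of _ = Abelianization.of _
    congr 1
    apply Subtype.ext
    have e : g⁻¹ • q
        = ((Abelianization.of g)⁻¹ * (show Abelianization G from q) : Abelianization G) :=
      inv_smul_eq g q
    show ((T.2.leftQuotientEquiv q : G))⁻¹ * ((g • T).2.leftQuotientEquiv q : G)
      = (t q)⁻¹ * g * t ((Abelianization.of g)⁻¹ * (show Abelianization G from q))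
    rw [hq q, ← mul_assoc]
    exact congrArg (fun z : Abelianization G => (t q)⁻¹ * g * t z) e
  rw [h2, key]
  rfl

end Cfsg.Agent.S4320
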