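import Cfsg.Statements.S4421

set_option autoImplicit false
open Cfsg

namespace Cfsg.Agent.S4421

theorem conjmap_mul {G : Type*} [Group G] (A : Subgroup G) (a b : G) :
    A.map (MulAut.conj (a * b)).toMonoidHom =
      (A.map (MulAut.conj b).toMonoidHom).map (MulAut.conj a).toMonoidHom := by
  rw [Subgroup.map_map]
  congr 1
  ext x
  simp [mul_assoc]

theorem conjmap_mem_normalizer {G : Type*} [Group G] (A : Subgroup G) (g : G) :
    g ∈ Subgroup.normalizer (A : Set G) ↔ A.map (MulAut.conj g).toMonoidHom = A :=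
  Subgroup.mem_normalizer_iff_map_conj_eq

theorem conjmap_inv_of_eq {G : Type*} [Group G] (A B : Subgroup G) (g : G)
    (h : A.map (MulAut.conj g).toMonoidHom = B) :
    B.map (MulAut.conj g⁻¹).toMonoidHom = A := by
  subst h
  rw [← conjmap_mul]
  simp
  ext x
  simp

/-- A factorization of a normalizer from two-step control of fusion. -/
theorem result {G : Type*} [Group G] [Finite G] (A S H : Subgroup G)
    (hAS : A ≤ S) (hSH : S ≤ H)
    (h1 : ∀ g : G, A.map (MulAut.conj g).toMonoidHom ≤ S → ∃ s ∈ S, A.map (MulAut.conj g).toMonoidHom = A.map (MulAut.conj s).toMonoidHom)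
    (h2 : ∀ g : G, S.map (MulAut.conj g).toMonoidHom ≤ H → ∃ y ∈ H, S.map (MulAut.conj g).toMonoidHom = S.map (MulAut.conj y).toMonoidHom)
    (h3 : ∀ x ∈ Subgroup.normalizer (A : Set G), S.map (MulAut.conj x).toMonoidHom ≤ H) :
    ∀ x ∈ Subgroup.normalizer (A : Set G), ∃ y ∈ H ⊓ Subgroup.normalizer (A : Set G),
      ∃ z ∈ Subgroup.normalizer (S : Set G) ⊓ Subgroup.normalizer (A : Set G), x = y * z := by
  intro x hx
  obtain ⟨y, hyH, hy⟩ := h2 x (h3 x hx)
  -- n = y⁻¹ x normalizes S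
  have hn : y⁻¹ * x ∈ Subgroup.normalizer (S : Set G) := by
    rw [conjmap_mem_normalizer, conjmap_mul, hy]
    exact conjmap_inv_of_eq _ _ _ rfl
  have hnA : A.map (MulAut.conj (y⁻¹ * x)).toMonoidHom ≤ S := by
    have : A.map (MulAut.conj (y⁻¹ * x)).toMonoidHom ≤ S.map (MulAut.conj (y⁻¹ * x)).toMonoidHom :=
      Subgroup.map_mono hAS
    rwa [(conjmap_mem_normalizer S _).1 hn] at this
  obtain ⟨s, hsS, hs⟩ := h1 _ hnA
  have hsN : s ∈ Subgroup.normalizer (S : Set G) := Subgroup.le_normalizer hsS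
  have hzA : s⁻¹ * (y⁻¹ * x) ∈ Subgroup.normalizer (A : Set G) := by
    rw [conjmap_mem_normalizer, conjmap_mul, hs]
    exact conjmap_inv_of_eq _ _ _ rfl
  have hzS : s⁻¹ * (y⁻¹ * x) ∈ Subgroup.normalizer (S : Set G) :=
    Subgroup.mul_mem _ (Subgroup.inv_mem _ hsN) hn
  refine ⟨y * s, ⟨mul_mem hyH (hSH hsS), ?_⟩, s⁻¹ * (y⁻¹ * x), ⟨hzS, hzA⟩, by group⟩
  have : y * s = x * (s⁻¹ * (y⁻¹ * x))⁻¹ := by group
  rw [this]
  exact Subgroup.mul_mem _ hx (Subgroup.inv_mem _ hzA)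

end Cfsg.Agent.S4421
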