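import Cfsg.Statements.S4422

set_option autoImplicit false
open Cfsg

namespace Cfsg.Agent.S4422

theorem modEq_one_of_primes (e : ℕ) : ∀ m : ℕ, 0 < m →
    (∀ p : ℕ, p.Prime → p ∣ m → p ≡ 1 [MOD e]) → m ≡ 1 [MOD e] := by
  intro m
  induction m using Nat.strong_induction_on with
  | _ m ih =>
    intro hm hp
    rcases Nat.lt_or_ge m 2 with h | h
    · have : m = 1 := by omega
      subst this
      exact Nat.ModEq.refl 1
    · have hne : m ≠ 1 := by omega
      have hpr := Nat.minFac_prime hne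
      have hdvd := Nat.minFac_dvd m
      obtain ⟨k, hk⟩ := hdvd
      have hkpos : 0 < k := by
        rcases Nat.eq_zero_or_pos k with h0 | h0
        · subst h0; simp at hk; omega
        · exact h0
      have hklt : k < m := by
        have := hpr.two_le
        nlinarith
      have h1 := hp _ hpr (Nat.minFac_dvd m)
      have h2 := ih k hklt hkpos (fun p hpp hpk => hp p hpp (hk ▸ Dvd.dvd.mul_left hpk _))
      have := Nat.ModEq.mul h1 h2
      rw [← hk] at this
      simpa using this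

theorem prime_modEq_one (q e p : ℕ) (he : 1 ≤ e) (hp : p.Prime)
    (hpd : p ∣ q ^ e - 1) (hcop : ∀ i : ℕ, 1 ≤ i → i < e → ¬ p ∣ q ^ i - 1) (hq : 1 ≤ q) :
    p ≡ 1 [MOD e] := by
  haveI : Fact p.Prime := ⟨hp⟩
  have hqe : 1 ≤ q ^ e := Nat.one_le_pow _ _ hq
  have h1 : ((q : ZMod p)) ^ e = 1 := by
    have : ((q ^ e - 1 : ℕ) : ZMod p) = 0 := (ZMod.natCast_eq_zero_iff _ _).2 hpd
    rw [Nat.cast_sub hqe] at this
    push_cast at this
    exact sub_eq_zero.1 this
  have hq0 : (q : ZMod p) ≠ 0 := by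
    intro h0
    rw [h0, zero_pow (by omega)] at h1
    exact zero_ne_one h1
  have hd : orderOf (q : ZMod p) ∣ e := orderOf_dvd_of_pow_eq_one h1
  have hdpos : 0 < orderOf (q : ZMod p) := Nat.pos_of_dvd_of_pos hd he
  have hde : orderOf (q : ZMod p) = e := by
    by_contra hne
    have hlt : orderOf (q : ZMod p) < e :=
      lt_of_le_of_ne (Nat.le_of_dvd he hd) hne
    apply hcop _ hdpos hlt
    have hqd : 1 ≤ q ^ orderOf (q : ZMod p) := Nat.one_le_pow _ _ hq
    rw [← ZMod.natCast_eq_zero_iff, Nat.cast_sub hqd]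
    push_cast
    rw [pow_orderOf_eq_one]
    simp
  have h2 : orderOf (q : ZMod p) ∣ p - 1 :=
    orderOf_dvd_of_pow_eq_one (ZMod.pow_card_sub_one_eq_one hq0)
  rw [hde] at h2
  have hp1 : 1 ≤ p := hp.one_lt.le
  exact ((Nat.modEq_iff_dvd' hp1).2 h2).symm

/-- Primitive divisors of `q^e - 1` are congruent to 1 modulo `e`. -/
theorem result (q e m : ℕ) (hq : 2 ≤ q) (he : 1 ≤ e)
    (hm : m ∣ q ^ e - 1) (hcop : ∀ i : ℕ, 1 ≤ i → i < e → Nat.Coprime m (q ^ i - 1)) :
    m % e = 1 % e := by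
  have hqe : 2 ≤ q ^ e := by
    calc 2 ≤ q := hq
      _ = q ^ 1 := (pow_one q).symm
      _ ≤ q ^ e := Nat.pow_le_pow_right (by omega) he
  have hmpos : 0 < m := Nat.pos_of_dvd_of_pos hm (by omega)
  apply modEq_one_of_primes e m hmpos
  intro p hp hpm
  apply prime_modEq_one q e p he hp (hpm.trans hm) _ (by omega)
  intro i hi hie hpi
  have := hcop i hi hie
  have h1 : p ∣ Nat.gcd m (q ^ i - 1) := Nat.dvd_gcd hpm hpi
  rw [this] at h1
  exact hp.one_lt.ne' (Nat.dvd_one.1 h1)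

end Cfsg.Agent.S4422
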