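import Cfsg.Statements.S4424
import Cfsg.Agent.Lib.Helper80.PReg
import Cfsg.Agent.Lib.Helper80.Restrict
import Cfsg.Agent.Lib.Helper75.BlockOrth2
import Cfsg.Agent.Lib.Helper16.ZR

set_option autoImplicit false
open Cfsg

namespace Cfsg.Agent.S4424

/-- Let χ be an irreducible character of the finite group G lying in the p-block B (relative to a maximal ideal M of the algebraic integers containing p), and let p^a be the p-part of the order of G. Then the class function that equals p^a · χ on the p-regular elements and vanishes on the p-singular elements is an integer combination of the irreducible characters in B: there are integers a_ψ, zero for ψ outside B, with that function equal to Σ a_ψ ψ. -/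
theorem result {G : Type*} [Group G] [Finite G] (p : ℕ) [Fact p.Prime] (M : Ideal Cfsg.AlgInt) (hM : Cfsg.IsPModular p M) (B : Set (Cfsg.IrrCharacter G)) (hB : Cfsg.IsPBlock M B) (χ : Cfsg.IrrCharacter G) (hχ : χ ∈ B) : ∃ a : Cfsg.IrrCharacter G → ℤ, (∀ ψ, ψ ∉ B → a ψ = 0) ∧ (fun x : G => if p ∣ orderOf x then (0 : ℂ) else ((p ^ (Nat.card G).factorization p : ℕ) : ℂ) * (χ : G → ℂ) x) = fun x => ∑ᶠ ψ : Cfsg.IrrCharacter G, (a ψ : ℂ) * (ψ : G → ℂ) x := by
  classical
  have := Fintype.ofFinite G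
  have := Cfsg.Agent.Lib.CT.Wedderburn.finite_irrCharacter G
  have := Fintype.ofFinite (IrrCharacter G)
  have hMp := Cfsg.Agent.Lib.Helper77.LocalRing.isPrime_of_isPModular hM
  obtain ⟨α, β, hα, hβ, hαβ⟩ :=
    Cfsg.Agent.Lib.Helper80.PReg.isGeneralizedCharacter_pRegular p (χ : G → ℂ)
      (Cfsg.Agent.Lib.CT.Wedderburn.isCharacter_of_irr χ.2)
  obtain ⟨m, hm1, hm2, -, -⟩ := Cfsg.Agent.Lib.Helper80.Restrict.exists_mult hα
  obtain ⟨n, hn1, hn2, -, -⟩ := Cfsg.Agent.Lib.Helper80.Restrict.exists_mult hβ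
  refine ⟨fun ψ => (m ψ : ℤ) - n ψ, ?_, ?_⟩
  · intro ψ hψ
    have h1 : classInner (α - β) (ψ : G → ℂ) = (m ψ : ℂ) - n ψ := by
      rw [← hm1, ← hn1]
      unfold classInner
      rw [← mul_sub, ← Finset.sum_sub_distrib]
      congr 1
      refine Finset.sum_congr rfl fun g _ => ?_
      rw [Pi.sub_apply]; ring
    have hns : ¬ SameBlock M (χ : G → ℂ) (ψ : G → ℂ) := by
      intro h
      apply hψ
      rw [Cfsg.Agent.Lib.Helper16.ZR.isPBlock_eq_blockOf hMp hB hχ]
      exact h
    have h3 := Cfsg.Agent.Lib.Helper75.BlockOrth2.sum_pRegular_eq_zero_of_not_sameBlock p M hM χ ψ hns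
    have h2 : classInner (α - β) (ψ : G → ℂ) = 0 := by
      rw [← hαβ]
      unfold classInner
      have h4 : ∑ g : G, (if p ∣ orderOf g then (0 : ℂ)
          else ((p ^ (Nat.card G).factorization p : ℕ) : ℂ) * (χ : G → ℂ) g) *
            (starRingEnd ℂ) ((ψ : G → ℂ) g) =
          ((p ^ (Nat.card G).factorization p : ℕ) : ℂ) *
            ∑ᶠ x ∈ {x : G | ¬ p ∣ orderOf x}, (χ : G → ℂ) x * (starRingEnd ℂ) ((ψ : G → ℂ) x) := by
        rw [finsum_mem_def, finsum_eq_sum_of_fintype, Finset.mul_sum]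
        refine Finset.sum_congr rfl fun g _ => ?_
        by_cases hg : p ∣ orderOf g
        · rw [if_pos hg, zero_mul, Set.indicator_of_notMem (by simpa using hg), mul_zero]
        · rw [if_neg hg, Set.indicator_of_mem (by simpa using hg), mul_assoc]
      rw [h4, h3, mul_zero, mul_zero]
    rw [h2] at h1
    have h5 : (((m ψ : ℤ) - (n ψ : ℤ) : ℤ) : ℂ) = 0 := by
      push_cast
      exact h1.symm
    exact_mod_cast h5
  · funext x
    rw [finsum_eq_sum_of_fintype]
    have h6 := congrFun hαβ x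
    rw [h6, Pi.sub_apply, hm2, hn2, ← Finset.sum_sub_distrib]
    refine Finset.sum_congr rfl fun ψ _ => ?_
    push_cast; ring

end Cfsg.Agent.S4424
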