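import Cfsg.Statements.S4427
import Cfsg.Agent.Lib.Helper76.ProjChar
import Cfsg.Agent.Lib.CT.Wedderburn
import Cfsg.Agent.Lib.CT.Ops
import Cfsg.Agent.Lib.CT.Kernel

set_option autoImplicit false
open Cfsg

namespace Cfsg.Agent.S4427

open scoped ComplexConjugate
open Cfsg.Agent.Lib.CT.Wedderburn Cfsg.Agent.Lib.CT.Ops Cfsg.Agent.Lib.CT.Kernel

/-- Let G be a finite group of order p^a · q^b · r^c with p, q, r distinct primes, and suppose that G has exactly q^b · r^c elements of order not divisible by p. Then G has a normal p-complement: a normal subgroup of order q^b · r^c. -/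
theorem result {G : Type*} [Group G] [Finite G] (p q r a b c : ℕ) (hp : p.Prime) (hq : q.Prime) (hr : r.Prime) (hpq : p ≠ q) (hpr : p ≠ r) (hqr : q ≠ r) (hG : Nat.card G = p ^ a * q ^ b * r ^ c) (hcount : Nat.card {g : G // ¬ p ∣ orderOf g} = q ^ b * r ^ c) : ∃ N : Subgroup G, N.Normal ∧ Nat.card N = q ^ b * r ^ c := by
  classical
  have := Fintype.ofFinite G
  have hfin := finite_irrCharacter G
  have := Fintype.ofFinite (IrrCharacter G)
  have hqf : Fact q.Prime := ⟨hq⟩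
  have hrf : Fact r.Prime := ⟨hr⟩
  obtain ⟨Q, hQ⟩ := Sylow.exists_subgroup_card_pow_prime (G := G) q (n := b)
    (by rw [hG]; exact (dvd_mul_left _ _).mul_right _)
  obtain ⟨R, hR⟩ := Sylow.exists_subgroup_card_pow_prime (G := G) r (n := c)
    (by rw [hG]; exact dvd_mul_left _ _)
  have hcop : (Nat.card Q).Coprime (Nat.card R) := by
    rw [hQ, hR]; exact Nat.Coprime.pow _ _ ((Nat.coprime_primes hq hr).mpr hqr)
  have hQRp : (Nat.card Q * Nat.card R).Coprime p := by
    rw [hQ, hR]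
    exact Nat.Coprime.mul_left
      (Nat.Coprime.pow_left _ ((Nat.coprime_primes hq hp).mpr (Ne.symm hpq)))
      (Nat.Coprime.pow_left _ ((Nat.coprime_primes hr hp).mpr (Ne.symm hpr)))
  obtain ⟨d, hd1, hd2, hd3⟩ := Cfsg.Agent.Lib.Helper76.ProjChar.exists_proj p hp Q R hcop hQRp
  rw [hQ, hR] at hd3
  have hnpos : 0 < q ^ b * r ^ c := Nat.mul_pos (pow_pos hq.pos _) (pow_pos hr.pos _)
  have hS : ∑ χ : IrrCharacter G, d χ ^ 2 ≤ p ^ a := by
    rw [hG, mul_assoc] at hd3
    exact Nat.le_of_mul_le_mul_right hd3 hnpos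
  set Φ : G → ℂ := fun g => ∑ χ : IrrCharacter G, (d χ : ℂ) * (χ : G → ℂ) g with hΦ
  have hvan : ∀ y, p ∣ orderOf y → Φ y = 0 := by
    intro y hy
    have h := congrArg conj (hd1 y hy)
    simpa [hΦ, map_sum, map_mul, Complex.conj_conj] using h
  let χ₁ : IrrCharacter G := ⟨fun _ => 1, isIrrCharacter_one⟩
  have hd₁ : 1 ≤ d χ₁ := hd2 χ₁ (fun g => rfl)
  have hcardG : (Nat.card G : ℂ) ≠ 0 := Nat.cast_ne_zero.mpr Nat.card_pos.ne'
  have horth : ∀ χ ψ : IrrCharacter G, ∑ g, (χ : G → ℂ) g * conj ((ψ : G → ℂ) g) =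
      if χ = ψ then (Nat.card G : ℂ) else 0 := by
    intro χ ψ
    have h := irr_orthonormal χ ψ
    rw [classInner] at h
    have h2 : ∑ g, (χ : G → ℂ) g * conj ((ψ : G → ℂ) g) =
        (Nat.card G : ℂ) * (if χ = ψ then 1 else 0) := by
      rw [← h, mul_inv_cancel_left₀ hcardG]
    rw [h2]; split_ifs <;> simp
  have hsumΦ : ∑ g, Φ g = (Nat.card G : ℂ) * (d χ₁ : ℂ) := by
    simp only [hΦ]
    rw [Finset.sum_comm]
    have h1 : ∀ χ : IrrCharacter G, ∑ g, (d χ : ℂ) * (χ : G → ℂ) g =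
        if χ = χ₁ then (d χ : ℂ) * (Nat.card G : ℂ) else 0 := by
      intro χ
      rw [← Finset.mul_sum]
      have h2 := horth χ χ₁
      have h3 : ∑ g, (χ : G → ℂ) g * conj ((χ₁ : G → ℂ) g) = ∑ g, (χ : G → ℂ) g := by
        refine Finset.sum_congr rfl fun g _ => ?_
        show (χ : G → ℂ) g * conj (1 : ℂ) = _
        rw [map_one, mul_one]
      rw [← h3, h2]; split_ifs <;> simp
    rw [Finset.sum_congr rfl fun χ _ => h1 χ, Finset.sum_ite_eq' Finset.univ χ₁, if_pos (Finset.mem_univ _)]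
    ring
  have hnormΦ : ∑ g, Φ g * conj (Φ g) =
      (Nat.card G : ℂ) * ((∑ χ : IrrCharacter G, d χ ^ 2 : ℕ) : ℂ) := by
    have h1 : ∀ g, Φ g * conj (Φ g) = ∑ χ : IrrCharacter G, ∑ ψ : IrrCharacter G,
        (d χ : ℂ) * (d ψ : ℂ) * ((χ : G → ℂ) g * conj ((ψ : G → ℂ) g)) := by
      intro g
      simp only [hΦ, map_sum, map_mul, Complex.conj_natCast]
      rw [Finset.sum_mul_sum]
      refine Finset.sum_congr rfl fun χ _ => Finset.sum_congr rfl fun ψ _ => by ring
    rw [Finset.sum_congr rfl fun g _ => h1 g, Finset.sum_comm]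
    have h2 : ∀ χ : IrrCharacter G, ∑ g, ∑ ψ : IrrCharacter G,
        (d χ : ℂ) * (d ψ : ℂ) * ((χ : G → ℂ) g * conj ((ψ : G → ℂ) g)) =
        (Nat.card G : ℂ) * ((d χ ^ 2 : ℕ) : ℂ) := by
      intro χ
      rw [Finset.sum_comm]
      have h3 : ∀ ψ : IrrCharacter G, ∑ g,
          (d χ : ℂ) * (d ψ : ℂ) * ((χ : G → ℂ) g * conj ((ψ : G → ℂ) g)) =
          if χ = ψ then (d χ : ℂ) * (d ψ : ℂ) * (Nat.card G : ℂ) else 0 := by
        intro ψ
        rw [← Finset.mul_sum, horth]; split_ifs <;> simp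
      rw [Finset.sum_congr rfl fun ψ _ => h3 ψ, Finset.sum_ite_eq Finset.univ χ,
        if_pos (Finset.mem_univ _)]
      push_cast; ring
    rw [Finset.sum_congr rfl fun χ _ => h2 χ, ← Finset.mul_sum]
    push_cast; rfl
  -- the indicator of the p-regular elements
  set ind : G → ℂ := fun g => if p ∣ orderOf g then 0 else 1 with hind
  have hindsum : ∑ g, ind g = ((q ^ b * r ^ c : ℕ) : ℂ) := by
    rw [← hcount, Nat.card_eq_fintype_card, Fintype.card_subtype]
    simp only [hind]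
    rw [Finset.sum_ite, Finset.sum_const_zero, zero_add, Finset.sum_const, nsmul_eq_mul, mul_one]
  have hindΦ : ∀ g, ind g * Φ g = Φ g := by
    intro g
    by_cases h : p ∣ orderOf g
    · rw [hvan g h, mul_zero]
    · simp only [hind, if_neg h, one_mul]
  have hindind : ∀ g, ind g * ind g = ind g := by
    intro g
    by_cases h : p ∣ orderOf g
    · simp only [hind, if_pos h, mul_zero]
    · simp only [hind, if_neg h, one_mul]
  have hindconj : ∀ g, conj (ind g) = ind g := by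
    intro g
    by_cases h : p ∣ orderOf g
    · simp only [hind, if_pos h, map_zero]
    · simp only [hind, if_neg h, map_one]
  set P : ℂ := ((p ^ a : ℕ) : ℂ) with hP
  have hPconj : conj P = P := by rw [hP]; exact Complex.conj_natCast _
  have hcardGP : (Nat.card G : ℂ) = P * ((q ^ b * r ^ c : ℕ) : ℂ) := by
    rw [hG, hP]; push_cast; ring
  have hD : ∑ g, (P * ind g - Φ g) * conj (P * ind g - Φ g) =
      P ^ 2 * ((q ^ b * r ^ c : ℕ) : ℂ) - 2 * P * ((Nat.card G : ℂ) * (d χ₁ : ℂ)) +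
        (Nat.card G : ℂ) * ((∑ χ : IrrCharacter G, d χ ^ 2 : ℕ) : ℂ) := by
    have h1 : ∀ g, (P * ind g - Φ g) * conj (P * ind g - Φ g) =
        P ^ 2 * ind g - P * conj (Φ g) - P * Φ g + Φ g * conj (Φ g) := by
      intro g
      rw [map_sub, map_mul, hPconj, hindconj]
      have e1 := hindΦ g
      have e2 := hindind g
      have e3 : ind g * conj (Φ g) = conj (Φ g) := by
        have := congrArg conj e1
        rwa [map_mul, hindconj] at this
      linear_combination P ^ 2 * e2 - P * e3 - P * e1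
    rw [Finset.sum_congr rfl fun g _ => h1 g]
    simp only [Finset.sum_add_distrib, Finset.sum_sub_distrib, ← Finset.mul_sum]
    rw [hindsum, hnormΦ, ← map_sum, hsumΦ, map_mul, Complex.conj_natCast, Complex.conj_natCast]
    ring
  have hDzero : ∀ g, P * ind g - Φ g = 0 := by
    have hre : ∑ g, Complex.normSq (P * ind g - Φ g) ≤ 0 := by
      have h1 : ((∑ g, Complex.normSq (P * ind g - Φ g) : ℝ) : ℂ) =
          (((p ^ a : ℕ) : ℝ) ^ 2 * ((q ^ b * r ^ c : ℕ) : ℝ) -
            2 * ((p ^ a : ℕ) : ℝ) * ((((p ^ a : ℕ) : ℝ) * ((q ^ b * r ^ c : ℕ) : ℝ)) * (d χ₁ : ℝ)) +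
            (((p ^ a : ℕ) : ℝ) * ((q ^ b * r ^ c : ℕ) : ℝ)) *
              ((∑ χ : IrrCharacter G, d χ ^ 2 : ℕ) : ℝ) : ℝ) := by
        rw [Complex.ofReal_sum]
        rw [Finset.sum_congr rfl fun g _ => (Complex.mul_conj (P * ind g - Φ g)).symm, hD, hcardGP,
          hP]
        push_cast; ring
      rw [Complex.ofReal_injective h1]
      have hPpos : (0 : ℝ) < ((p ^ a : ℕ) : ℝ) := by exact_mod_cast pow_pos hp.pos a
      have hnpos' : (0 : ℝ) < ((q ^ b * r ^ c : ℕ) : ℝ) := by exact_mod_cast hnpos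
      have hd₁' : (1 : ℝ) ≤ (d χ₁ : ℝ) := by exact_mod_cast hd₁
      have hS' : ((∑ χ : IrrCharacter G, d χ ^ 2 : ℕ) : ℝ) ≤ ((p ^ a : ℕ) : ℝ) := by
        exact_mod_cast hS
      have hPn : (0 : ℝ) < ((p ^ a : ℕ) : ℝ) * ((q ^ b * r ^ c : ℕ) : ℝ) := mul_pos hPpos hnpos'
      have e1 := mul_le_mul_of_nonneg_left hS' hPn.le
      have e2 := mul_le_mul_of_nonneg_left hd₁' (mul_pos hPpos hPn).le
      nlinarith [e1, e2]
    intro g
    have h2 := (Finset.sum_eq_zero_iff_of_nonneg (fun g _ => Complex.normSq_nonneg _)).mp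
      (le_antisymm hre (Finset.sum_nonneg fun g _ => Complex.normSq_nonneg _)) g (Finset.mem_univ g)
    exact Complex.normSq_eq_zero.mp h2
  have hPne : P ≠ 0 := by rw [hP]; exact Nat.cast_ne_zero.mpr (pow_pos hp.pos a).ne'
  have hΦval : ∀ g, ¬ p ∣ orderOf g → Φ g = P := by
    intro g hg
    have := hDzero g
    simp only [hind, if_neg hg, mul_one] at this
    exact (sub_eq_zero.mp this).symm
  have hΦchar : IsCharacter G Φ :=
    isCharacter_sum' Finset.univ (fun (χ : IrrCharacter G) g => (d χ : ℂ) * (χ : G → ℂ) g)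
      (fun χ _ => isCharacter_natCast_mul (isCharacter_of_irr χ.2) (d χ))
  obtain ⟨N, hNn, hN⟩ := exists_normal_ker hΦchar
  have hone : Φ 1 = P := hΦval 1 (by rw [orderOf_one]; exact hp.one_lt.ne' ∘ Nat.dvd_one.mp)
  refine ⟨N, hNn, ?_⟩
  rw [← hcount]
  refine Nat.card_congr (Equiv.subtypeEquivRight fun g => ?_)
  rw [hN g, hone]
  constructor
  · intro h hdiv
    rw [hvan g hdiv] at h
    exact hPne h.symm
  · exact hΦval g

end Cfsg.Agent.S4427
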