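import Cfsg.Statements.S4428
import Cfsg.Agent.Lib.Helper16.SectionNonvanish
import Cfsg.Agent.S4431
import Cfsg.Agent.Lib.Helper75.Section2
import Cfsg.Agent.Lib.Helper16.PSection
import Cfsg.Agent.Lib.Helper16.Defect

set_option autoImplicit false
open Cfsg
open scoped ComplexConjugate

namespace Cfsg.Agent.S4428

open Cfsg.Agent.Lib.Helper16.SectionNonvanish Cfsg.Agent.Lib.Helper77.LocalRing Cfsg.Agent.Lib.Helper77.CentralChar Cfsg.Agent.Lib.Helper77.ClassSum Cfsg.Agent.Lib.Helper77.BlockIdem Cfsg.Agent.Lib.Helper16.ZR Cfsg.Agent.Lib.CT.Orth Cfsg.Agent.Lib.CT.Wedderburn Cfsg.Agent.Lib.Helper16.PSection Cfsg.Agent.Lib.Helper16.Defect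

/-- Let χ be an irreducible character of height zero in the p-block B of the finite group G (relative to a maximal ideal M of the algebraic integers containing p). Let x be a p-element of G with centralizer C, and let b be a block of C that induces B. Form the class function ϑ(c) = χ(x c) on C and its b-part (the sum over ψ ∈ b of the inner product of ϑ with ψ, times ψ). Then the b-part of ϑ does not vanish identically on the p-regular elements of C. (Compare the second main Theorem, which gives vanishing when b does not induce B.) -/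
theorem result {G : Type*} [Group G] [Finite G] (p : ℕ) [Fact p.Prime] (M : Ideal Cfsg.AlgInt) (hM : Cfsg.IsPModular p M) (B : Set (Cfsg.IrrCharacter G)) (hB : Cfsg.IsPBlock M B) (χ : Cfsg.IrrCharacter G) (hχ : χ ∈ B) (h0 : Cfsg.blockHeight p B (χ : G → ℂ) = 0) (x : G) (hx : ∃ k : ℕ, orderOf x = p ^ k) (b : Set (Cfsg.IrrCharacter (Subgroup.centralizer ({x} : Set G)))) (hb : Cfsg.IsInducedBlock M (Subgroup.centralizer ({x} : Set G)) b B) : ∃ y : Subgroup.centralizer ({x} : Set G), ¬ p ∣ orderOf y ∧ Cfsg.blockPart b (fun c : Subgroup.centralizer ({x} : Set G) => (χ : G → ℂ) (x * (c : G))) y ≠ 0 := by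
  classical
  have hMp := isPrime_of_isPModular hM
  let _ : Fintype G := Fintype.ofFinite G
  let _ : Fintype (Subgroup.centralizer ({x} : Set G)) := Fintype.ofFinite _
  obtain ⟨k, hk⟩ := hx
  have hxk : x ^ p ^ k = 1 := by rw [← hk]; exact pow_orderOf_eq_one x
  by_contra hcon
  push Not at hcon
  obtain ⟨ψ', hψ'⟩ := isPBlock_nonempty hMp hb.1
  have h431 := (Cfsg.Agent.S4431.result p M hM (Subgroup.centralizer ({x} : Set G)) b B hb χ ψ'
    hψ').2 hχ h0
  apply h431
  have hχcl : IsClassFunction G (χ : G → ℂ) := irr_isClassFunction χ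
  have hϑcl : IsClassFunction (Subgroup.centralizer ({x} : Set G))
      (fun c : Subgroup.centralizer ({x} : Set G) => (χ : G → ℂ) (x * (c : G))) :=
    Cfsg.Agent.Lib.Helper75.Section2.isClassFunction_shift x hχcl
  have conv : ∀ g : Subgroup.centralizer ({x} : Set G) → ℂ,
      ∑ᶠ c ∈ {c : Subgroup.centralizer ({x} : Set G) | ¬ p ∣ orderOf c}, g c
        = ∑ c : Subgroup.centralizer ({x} : Set G), if p ∣ orderOf c then 0 else g c := by
    intro g
    rw [finsum_mem_def, finsum_eq_sum_of_fintype]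
    refine Finset.sum_congr rfl fun c _ => ?_
    by_cases h : p ∣ orderOf c
    · rw [if_pos h, Set.indicator_of_notMem]
      exact fun h' => h' h
    · rw [if_neg h, Set.indicator_of_mem]
      exact h
  have hA : ∑ c : Subgroup.centralizer ({x} : Set G), (if p ∣ orderOf c then 0
      else (χ : G → ℂ) (x * (c : G)) * conj ((ψ' : _ → ℂ) c)) = 0 := by
    rw [← conv, sum_pRegular_blockPart p M hM b hb.1 ψ' hψ' _ hϑcl]
    apply finsum_mem_eq_zero_of_forall_eq_zero
    intro c hc
    rw [hcon c hc, zero_mul]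
  have hcomm : ∀ c : Subgroup.centralizer ({x} : Set G), (c : G) * x = x * (c : G) :=
    fun c => (Subgroup.mem_centralizer_iff.mp c.2 x rfl).symm
  have hzc : ofFun (fun c : Subgroup.centralizer ({x} : Set G) => if p ∣ orderOf c then (0 : ℂ)
      else (χ : G → ℂ) (x * (c : G)⁻¹) - (χ : G → ℂ) ((c : G)⁻¹)) ∈ Zc _ := by
    apply ofFun_mem_center
    intro u c
    have h1 : orderOf (u * c * u⁻¹) = orderOf c := by
      have := (MulAut.conj u).orderOf_eq c
      rwa [MulAut.conj_apply] at this
    have h2 : x * ((u * c * u⁻¹ : Subgroup.centralizer ({x} : Set G)) : G)⁻¹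
        = (u : G) * (x * (c : G)⁻¹) * (u : G)⁻¹ := by
      have := hcomm u
      push_cast
      rw [mul_inv_rev, mul_inv_rev, inv_inv, ← mul_assoc, ← mul_assoc, ← this]
      group
    have h3 : ((u * c * u⁻¹ : Subgroup.centralizer ({x} : Set G)) : G)⁻¹
        = (u : G) * (c : G)⁻¹ * (u : G)⁻¹ := by
      push_cast
      group
    rw [h1, h2, h3, hχcl, hχcl]
  have hzJ : ∀ c : Subgroup.centralizer ({x} : Set G), MemLocalIdeal M
      ((ofFun (fun c : Subgroup.centralizer ({x} : Set G) => if p ∣ orderOf c then (0 : ℂ)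
      else (χ : G → ℂ) (x * (c : G)⁻¹) - (χ : G → ℂ) ((c : G)⁻¹))).coeff c) := by
    intro c
    rw [coeff_ofFun]
    split_ifs with h
    · exact memLocalIdeal_zero hMp
    · refine char_mul_sub_mem hM (isCharacter_of_irr χ.2) x ((c : G)⁻¹) ?_ k hxk
      exact Commute.inv_right (show Commute x (c : G) from (hcomm c).symm)
  have hω := omega_memLocalIdeal hMp ψ'.2 _ hzc hzJ
  unfold omega at hω
  rw [pair_ofFun] at hω
  have e1 : ∑ c : Subgroup.centralizer ({x} : Set G), (if p ∣ orderOf c then (0 : ℂ)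
      else (χ : G → ℂ) (x * (c : G)⁻¹) - (χ : G → ℂ) ((c : G)⁻¹)) * (ψ' : _ → ℂ) c
      = ∑ c : Subgroup.centralizer ({x} : Set G), (if p ∣ orderOf c then 0
          else (χ : G → ℂ) (x * (c : G)) * conj ((ψ' : _ → ℂ) c))
        - ∑ c : Subgroup.centralizer ({x} : Set G), (if p ∣ orderOf c then (0 : ℂ)
        else (χ : G → ℂ) (c : G) * conj ((ψ' : _ → ℂ) c)) := by
    rw [← Finset.sum_sub_distrib, ← Equiv.sum_comp (Equiv.inv _)]
    refine Finset.sum_congr rfl fun c _ => ?_
    simp only [Equiv.inv_apply, orderOf_inv, Subgroup.coe_inv, inv_inv]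
    rw [char_apply_inv (isCharacter_of_irr ψ'.2)]
    split_ifs with h
    · ring
    · ring
  rw [e1, hA, zero_sub] at hω
  have hu : MemLocalRing M (((p ^ (Nat.card (Subgroup.centralizer ({x} : Set G))).factorization p
      : ℕ) : ℂ) / (Nat.card (Subgroup.centralizer ({x} : Set G)) : ℂ)) :=
    natCast_div_memLocalRing hM _ _ Nat.card_pos.ne' dvd_rfl
  have key := memLocalIdeal_neg (memLocalIdeal_mul_left hMp hu hω)
  convert key using 1
  unfold classInner
  have e2 : ∑ h : Subgroup.centralizer ({x} : Set G), (if p ∣ orderOf h then (0 : ℂ)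
      else ((p ^ (Nat.card (Subgroup.centralizer ({x} : Set G))).factorization p : ℕ) : ℂ)
        * (χ : G → ℂ) h) * conj ((ψ' : _ → ℂ) h)
      = ((p ^ (Nat.card (Subgroup.centralizer ({x} : Set G))).factorization p : ℕ) : ℂ)
        * ∑ c : Subgroup.centralizer ({x} : Set G), (if p ∣ orderOf c then (0 : ℂ)
        else (χ : G → ℂ) (c : G) * conj ((ψ' : _ → ℂ) c)) := by
    rw [Finset.mul_sum]
    refine Finset.sum_congr rfl fun c _ => ?_
    split_ifs with h
    · ring
    · ring
  rw [e2]
  have hne : (Nat.card (Subgroup.centralizer ({x} : Set G)) : ℂ) ≠ 0 :=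
    Nat.cast_ne_zero.mpr Nat.card_pos.ne'
  field_simp

end Cfsg.Agent.S4428
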