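import Cfsg.Statements.S4429
import Cfsg.Agent.Lib.Helper68.M11Deg

set_option autoImplicit false
open Cfsg

namespace Cfsg.Agent.S4429

/-- Let G be a simple group of order 7920. Then G has exactly ten irreducible complex characters, and their degrees, listed with multiplicity, are 1, 10, 10, 10, 11, 16, 16, 44, 45, 55: for every natural number n, the number of irreducible characters of degree n is 1 if n ∈ {1, 11, 44, 45, 55}, 3 if n = 10, 2 if n = 16, and 0 otherwise. -/
theorem result {G : Type*} [Group G] [Finite G] [IsSimpleGroup G] (hG : Nat.card G = 7920) : Nat.card (Cfsg.IrrCharacter G) = 10 ∧ ∀ n : ℕ, Nat.card {χ : Cfsg.IrrCharacter G // Cfsg.charDegree (χ : G → ℂ) = n} = (if n = 1 ∨ n = 11 ∨ n = 44 ∨ n = 45 ∨ n = 55 then 1 else if n = 10 then 3 else if n = 16 then 2 else 0) := by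
  classical
  have : Fintype G := Fintype.ofFinite G
  have : Finite (IrrCharacter G) := Cfsg.Agent.Lib.CT.Wedderburn.finite_irrCharacter G
  have : Fintype (IrrCharacter G) := Fintype.ofFinite _
  obtain ⟨a₁, a₂, a₃, a₄, θ₀, θ₁, α, β, r, h1, h2, h3, h4, h5, h6, h7, h8, h9, hsum⟩ :=
    Cfsg.Agent.Lib.Helper68.M11Deg.degrees hG
  have hT : charDegree ((Cfsg.Agent.Lib.Helper17.ExcMain.trivIrr G : IrrCharacter G) : G → ℂ)
      = 1 := Cfsg.Agent.Lib.Helper68.M11Exc.charDegree_trivIrr
  constructor
  · rw [Nat.card_eq_fintype_card, ← Finset.card_univ, Finset.card_eq_sum_ones,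
      hsum (fun _ => 1)]
  · intro n
    rw [Nat.card_eq_fintype_card, Fintype.card_subtype, Finset.card_filter,
      hsum (fun ψ => if charDegree (ψ : G → ℂ) = n then 1 else 0)]
    simp only [hT, h1, h2, h3, h4, h5, h6, h7, h8, h9]
    by_cases c1 : n = 1
    · subst c1; decide
    by_cases c10 : n = 10
    · subst c10; decide
    by_cases c11 : n = 11
    · subst c11; decide
    by_cases c16 : n = 16
    · subst c16; decide
    by_cases c44 : n = 44
    · subst c44; decide
    by_cases c45 : n = 45
    · subst c45; decide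
    by_cases c55 : n = 55
    · subst c55; decide
    have e1 : ¬ (1 = n) := fun h => c1 h.symm
    have e10 : ¬ (10 = n) := fun h => c10 h.symm
    have e11 : ¬ (11 = n) := fun h => c11 h.symm
    have e16 : ¬ (16 = n) := fun h => c16 h.symm
    have e44 : ¬ (44 = n) := fun h => c44 h.symm
    have e45 : ¬ (45 = n) := fun h => c45 h.symm
    have e55 : ¬ (55 = n) := fun h => c55 h.symm
    have hor : ¬ (n = 1 ∨ n = 11 ∨ n = 44 ∨ n = 45 ∨ n = 55) := by
      rintro (h | h | h | h | h) <;> contradiction
    simp only [if_neg e1, if_neg e10, if_neg e11, if_neg e16, if_neg e44, if_neg e45, if_neg e55,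
      if_neg hor, if_neg c10, if_neg c16]

end Cfsg.Agent.S4429
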