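import Cfsg.Statements.S4430
import Cfsg.Agent.Lib.Helper16.IndBlock2
import Cfsg.Agent.Lib.Helper16.Defect
import Cfsg.Agent.Lib.CT.DefectZeroBlock
import Cfsg.Agent.Lib.CT.IndChar

set_option autoImplicit false
open Cfsg

namespace Cfsg.Agent.S4430

open Cfsg.Agent.Lib.Helper77.LocalRing Cfsg.Agent.Lib.Helper77.CentralChar
  Cfsg.Agent.Lib.Helper77.ClassSum Cfsg.Agent.Lib.Helper77.BlockIdem
  Cfsg.Agent.Lib.CT.Wedderburn Cfsg.Agent.Lib.Helper16.ZR
  Cfsg.Agent.Lib.Helper16.IndBlock Cfsg.Agent.Lib.Helper16.IndBlock2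
  Cfsg.Agent.Lib.Helper16.Defect Cfsg.Agent.Lib.CT.DefectZeroBlock

universe u
variable {G : Type u} [Group G] {M : Ideal AlgInt}

theorem blockPart_apply [Fintype G] (B : Set (IrrCharacter G)) (ϑ : G → ℂ) (y : G) :
    blockPart B ϑ y = ∑ᶠ χ ∈ B, classInner ϑ (χ : G → ℂ) * (χ : G → ℂ) y := by
  have h : (Fintype.ofFinite G) = (inferInstance : Fintype G) := Subsingleton.elim _ _
  unfold blockPart
  rw [h]

/-- The block part of an induced character at `1` is a natural number, and its quotient by the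
degree is the value of the induced central character on the block idempotent. -/
theorem part_eq [Fintype G] (H : Subgroup G) [Fintype H] (ξ : IrrCharacter H)
    (B : Set (IrrCharacter G)) (R : Finset G)
    (hR : ∀ (χ : G → ℂ) (z : MonoidAlgebra ℂ G), (∀ x g : G, χ (x * g * x⁻¹) = χ g) →
      z ∈ Zc G → omega χ z = ∑ r ∈ R, z.coeff r * centralChar χ r) :
    ∃ n : ℕ, blockPart B (indFun H (ξ : H → ℂ)) 1 = (n : ℂ) ∧
      charDegree (indFun H (ξ : H → ℂ)) ≠ 0 ∧
      (n : ℂ) / (charDegree (indFun H (ξ : H → ℂ)) : ℂ) =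
        ∑ r ∈ R, blockCoeff B r * inducedCentralChar H (ξ : H → ℂ) r := by
  classical
  have hfi := finite_irrCharacter G
  have hFi : Fintype (IrrCharacter G) := Fintype.ofFinite (IrrCharacter G)
  obtain ⟨θ, hθ⟩ : ∃ θ : G → ℂ, θ = indFun H (ξ : H → ℂ) := ⟨_, rfl⟩
  rw [← hθ]
  have hθchar : IsCharacter G θ := by
    rw [hθ]
    exact Cfsg.Agent.Lib.CT.IndChar.isCharacter_indFun H _ (isCharacter_of_irr ξ.2)
  have hθcl : IsClassFunction G θ := char_isClassFunction hθchar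
  have hθ1 : θ 1 ≠ 0 := by
    rw [hθ, Cfsg.Agent.Lib.CT.FrobRec.indFun_one]
    have h1 : (H.index : ℂ) ≠ 0 := Nat.cast_ne_zero.mpr (Subgroup.index_ne_zero_of_finite)
    exact mul_ne_zero h1 (irr_one_ne_zero ξ.2)
  have hdeg : (charDegree θ : ℂ) = θ 1 := char_natCast_charDegree hθchar
  have hdeg0 : charDegree θ ≠ 0 := by
    intro h0
    rw [h0, Nat.cast_zero] at hdeg
    exact hθ1 hdeg.symm
  -- multiplicities
  have hm : ∀ χ : IrrCharacter G, ∃ m : ℕ, classInner θ (χ : G → ℂ) = m := fun χ =>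
    Cfsg.Agent.Lib.CT.Clifford.classInner_char_nat hθchar (isCharacter_of_irr χ.2)
  choose m hmeq using hm
  have hpart : blockPart B θ 1 =
      ((∑ χ : IrrCharacter G, B.indicator (fun χ => m χ * charDegree (χ : G → ℂ)) χ : ℕ) : ℂ) := by
    rw [blockPart_apply, finsum_mem_def, finsum_eq_sum_of_fintype]
    push_cast
    apply Finset.sum_congr rfl
    intro χ _
    by_cases hχ : χ ∈ B
    · rw [Set.indicator_of_mem hχ, Set.indicator_of_mem hχ, hmeq, Nat.cast_mul,
        char_natCast_charDegree (isCharacter_of_irr χ.2)]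
    · rw [Set.indicator_of_notMem hχ, Set.indicator_of_notMem hχ]
      simp
  refine ⟨_, hpart, hdeg0, ?_⟩
  rw [← hpart, hdeg]
  have hind_eq : ∀ r : G, inducedCentralChar H (ξ : H → ℂ) r
      = ∑ χ : IrrCharacter G, (classInner θ (χ : G → ℂ) * (χ : G → ℂ) 1 / θ 1) *
          centralChar (χ : G → ℂ) r := by
    intro r
    rw [Cfsg.Agent.S0932.result H (ξ : H → ℂ) (isCharacter_of_irr ξ.2) r]
    unfold centralChar
    rw [← hθ, Cfsg.Agent.Lib.CT.Orth.classFunction_expand_sum θ hθcl r, Finset.mul_sum,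
      Finset.sum_div]
    apply Finset.sum_congr rfl
    intro χ _
    have hχ1 : (χ : G → ℂ) 1 ≠ 0 := irr_one_ne_zero χ.2
    field_simp
  simp only [hind_eq, Finset.mul_sum]
  rw [Finset.sum_comm, blockPart_apply, finsum_mem_def, finsum_eq_sum_of_fintype, Finset.sum_div]
  apply Finset.sum_congr rfl
  intro χ _
  have h1 : ∑ r ∈ R, blockCoeff B r *
      ((classInner θ (χ : G → ℂ) * (χ : G → ℂ) 1 / θ 1) * centralChar (χ : G → ℂ) r)
      = (classInner θ (χ : G → ℂ) * (χ : G → ℂ) 1 / θ 1) *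
        omega (χ : G → ℂ) (blockIdem B) := by
    rw [hR _ _ (fun x g => irr_conj_inv χ x g) (blockIdem_mem_center B), Finset.mul_sum]
    apply Finset.sum_congr rfl
    intro r _
    rw [coeff_blockIdem]
    ring
  rw [h1, omega_blockIdem]
  by_cases hχ : χ ∈ B
  · rw [Set.indicator_of_mem hχ, if_pos hχ, mul_one]
  · rw [Set.indicator_of_notMem hχ, if_neg hχ, mul_zero, zero_div]

/-- If b^G = B₀ and ξ ∈ b then the B₀-part of ξ^G has degree with the same p-adic valuation as ξ^G(1), while every other block part has degree 0 or of strictly larger valuation. -/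
theorem result {G : Type*} [Group G] [Fintype G] (p : ℕ) [Fact p.Prime] (M : Ideal Cfsg.AlgInt) (hM : Cfsg.IsPModular p M) (H : Subgroup G) [Fintype H] (b : Set (Cfsg.IrrCharacter H)) (B₀ : Set (Cfsg.IrrCharacter G)) (hind : Cfsg.IsInducedBlock M H b B₀) (ξ : Cfsg.IrrCharacter H) (hξ : ξ ∈ b) : (∃ n : ℕ, Cfsg.blockPart B₀ (Cfsg.indFun H (ξ : H → ℂ)) 1 = (n : ℂ) ∧ n ≠ 0 ∧ n.factorization p = (Cfsg.charDegree (Cfsg.indFun H (ξ : H → ℂ))).factorization p) ∧ ∀ B : Set (Cfsg.IrrCharacter G), Cfsg.IsPBlock M B → B ≠ B₀ → ∃ n : ℕ, Cfsg.blockPart B (Cfsg.indFun H (ξ : H → ℂ)) 1 = (n : ℂ) ∧ (n = 0 ∨ (Cfsg.charDegree (Cfsg.indFun H (ξ : H → ℂ))).factorization p < n.factorization p) := by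
  classical
  have hMp : M.IsPrime := isPrime_of_isPModular hM
  have hp : p.Prime := hM.1
  obtain ⟨R, hR⟩ := exists_reps_omega (G := G)
  constructor
  · obtain ⟨n, hn, hd0, hq⟩ := part_eq H ξ B₀ R hR
    have key := induced_sum_sub_one_mem hMp H b B₀ hind ξ hξ R hR
    rw [← hq] at key
    have hnot := not_memLocalIdeal_of_sub_one hMp key
    have hring := memLocalRing_of_sub_one hMp key
    have hn0 : n ≠ 0 := by
      rintro rfl
      apply hnot
      rw [Nat.cast_zero, zero_div]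
      exact memLocalIdeal_zero hMp
    refine ⟨n, hn, hn0, le_antisymm ?_ ?_⟩
    · have hinv := memLocalRing_inv hring hnot
      rw [inv_div] at hinv
      exact factorization_le_of_memLocalRing hM _ _ hd0 hn0 hinv
    · exact factorization_le_of_memLocalRing hM _ _ hn0 hd0 hring
  · intro B hB hne
    obtain ⟨n, hn, hd0, hq⟩ := part_eq H ξ B R hR
    refine ⟨n, hn, ?_⟩
    obtain ⟨hb, hB₀, hcong⟩ := hind
    obtain ⟨χ₀, hχ₀⟩ := Cfsg.Agent.Lib.Helper16.ZR.isPBlock_nonempty hMp hB₀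
    have hχ₀B : χ₀ ∉ B := by
      intro h
      apply hne
      rw [eq_blockOf_of_mem hMp hB h, eq_blockOf_of_mem hMp hB₀ hχ₀]
    have hcl := blockClosed_of_isPBlock hMp hB
    have h1 : omega (χ₀ : G → ℂ) (blockIdem B) = 0 := by
      rw [omega_blockIdem, if_neg hχ₀B]
    rw [hR _ _ (fun x g => irr_conj_inv χ₀ x g) (blockIdem_mem_center B)] at h1
    have h3 : MemLocalIdeal M (∑ r ∈ R, blockCoeff B r *
        (inducedCentralChar H (ξ : H → ℂ) r - centralChar (χ₀ : G → ℂ) r)) :=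
      memLocalIdeal_sum hMp _ _ fun r _ => memLocalIdeal_mul_left hMp
        (blockCoeff_memLocalRing_of_closed hMp B hcl r) (hcong ξ hξ χ₀ hχ₀ r)
    have h4 : ∑ r ∈ R, blockCoeff B r * inducedCentralChar H (ξ : H → ℂ) r =
        ∑ r ∈ R, blockCoeff B r *
          (inducedCentralChar H (ξ : H → ℂ) r - centralChar (χ₀ : G → ℂ) r) := by
      rw [← sub_zero (∑ r ∈ R, blockCoeff B r * inducedCentralChar H (ξ : H → ℂ) r), ← h1,
        ← Finset.sum_sub_distrib]
      apply Finset.sum_congr rfl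
      intro r _
      rw [coeff_blockIdem]
      ring
    rw [← h4, ← hq] at h3
    by_contra hcon
    push Not at hcon
    obtain ⟨hn0, hle⟩ := hcon
    have h5 : MemLocalRing M ((charDegree (indFun H (ξ : H → ℂ)) : ℂ) / (n : ℂ)) := by
      apply natCast_div_memLocalRing hM _ _ hn0
      exact (Nat.pow_dvd_pow p hle).trans (Nat.ordProj_dvd _ p)
    have h6 := memLocalIdeal_mul_left hMp h5 h3
    have hn0' : (n : ℂ) ≠ 0 := Nat.cast_ne_zero.mpr hn0
    have hd0' : (charDegree (indFun H (ξ : H → ℂ)) : ℂ) ≠ 0 := Nat.cast_ne_zero.mpr hd0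
    have h7 : (charDegree (indFun H (ξ : H → ℂ)) : ℂ) / (n : ℂ) *
        ((n : ℂ) / (charDegree (indFun H (ξ : H → ℂ)) : ℂ)) = 1 := by
      field_simp
    rw [h7] at h6
    exact not_memLocalIdeal_one hMp h6

end Cfsg.Agent.S4430
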