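import Cfsg.Statements.S4447
import Cfsg.Agent.Lib.Helper74.CoprimeRes
import Cfsg.Agent.Lib.Helper74.SubConj

set_option autoImplicit false
open Cfsg

namespace Cfsg.Agent.S4447

/-- Inside a finite group Γ let S normalise G and also normalise a normal subgroup N of G, with the order of S coprime to the index of N in G and S or G/N solvable. Then for every S-invariant irreducible character χ of G, the restriction of χ to N has an S-invariant irreducible constituent. -/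
theorem result {Γ : Type*} [Group Γ] [Fintype Γ] (G S N : Subgroup Γ) [Fintype G] [Fintype N] (hnorm : ∀ s ∈ S, ∀ g ∈ G, s * g * s⁻¹ ∈ G) (hNG : N ≤ G) [hNn : (N.subgroupOf G).Normal] (hNS : ∀ s ∈ S, ∀ n ∈ N, s * n * s⁻¹ ∈ N) (hcop : (N.relIndex G).Coprime (Nat.card S)) (hsolv : Group.IsSolvable S ∨ Group.IsSolvable (G ⧸ N.subgroupOf G)) (χ : Cfsg.IrrCharacter G) (hinv : (∀ s ∈ S, ∀ g g' : G, (g' : Γ) = s * g * s⁻¹ → (χ : G → ℂ) g' = (χ : G → ℂ) g)) : ∃ θ : Cfsg.IrrCharacter N, Cfsg.classInner (fun n : N => (χ : G → ℂ) ⟨n, hNG n.2⟩) (θ : N → ℂ) ≠ 0 ∧ (∀ s ∈ S, ∀ g g' : N, (g' : Γ) = s * g * s⁻¹ → (θ : N → ℂ) g' = (θ : N → ℂ) g) := by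
  classical
  obtain ⟨α, hα⟩ : ∃ α : S →* MulAut G, ∀ (s : S) (g : G), ((α s g : G) : Γ) = s * g * (s : Γ)⁻¹ :=
    ⟨Cfsg.Agent.Lib.Helper74.SubConj.conjHom G S hnorm, fun s g => rfl⟩
  have hαN : ∀ a : S, ∀ n ∈ N.subgroupOf G, α a n ∈ N.subgroupOf G := by
    intro a n hn
    rw [Subgroup.mem_subgroupOf] at hn ⊢
    rw [hα]
    exact hNS a a.2 n hn
  have hfinN : Fintype (N.subgroupOf G) := Fintype.ofFinite _
  obtain ⟨θ', hθ'irr, hθ'con, hθ'inv⟩ :=
    Cfsg.Agent.Lib.Helper74.CoprimeRes.exists_invariant_constituent (N.subgroupOf G) α hαN hcop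
      hsolv χ.1 χ.2 (fun a g => hinv a a.2 g (α a g) (hα a g))
  obtain ⟨e, he⟩ : ∃ e : (N.subgroupOf G) ≃* N, e = Subgroup.subgroupOfEquivOfLe hNG := ⟨_, rfl⟩
  have hesymm : ∀ n : N, (((e.symm n : N.subgroupOf G) : G) : Γ) = n := by
    intro n
    rw [he]
    simp
  refine ⟨⟨fun n => θ' (e.symm n),
    Cfsg.Agent.Lib.CT.Ops.isIrrCharacter_comp_mulEquiv e.symm hθ'irr⟩, ?_, ?_⟩
  · have h1 := Cfsg.Agent.Lib.Helper25.CliffordCorr.classInner_comp_equiv e.symm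
      (fun n' : N.subgroupOf G => (χ : G → ℂ) n') θ'
    have h2 : (fun n : N => (χ : G → ℂ) ⟨n, hNG n.2⟩) =
        fun x : N => (χ : G → ℂ) ((e.symm x : N.subgroupOf G) : G) := by
      funext n
      refine congrArg (χ : G → ℂ) ?_
      apply Subtype.ext
      exact (hesymm n).symm
    show classInner (fun n : N => (χ : G → ℂ) ⟨n, hNG n.2⟩) (fun n => θ' (e.symm n)) ≠ 0
    rw [h2, h1]
    exact hθ'con
  · intro s hs g g' hgg'
    show θ' (e.symm g') = θ' (e.symm g)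
    have h3 : e.symm g' = ⟨α ⟨s, hs⟩ (e.symm g), hαN _ _ (e.symm g).2⟩ := by
      apply Subtype.ext
      apply Subtype.ext
      rw [hesymm]
      show (g' : Γ) = ((α ⟨s, hs⟩ (e.symm g) : G) : Γ)
      rw [hα, hesymm, hgg']
    rw [h3]
    exact hθ'inv ⟨s, hs⟩ (e.symm g)

end Cfsg.Agent.S4447
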