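import Cfsg.Statements.S4448
import Cfsg.Agent.Lib.Helper74.CoprimeLift
import Cfsg.Agent.Lib.Helper74.SubConj

set_option autoImplicit false
open Cfsg

namespace Cfsg.Agent.S4448

/-- Inside a finite group Γ let S normalise G and also normalise a normal subgroup N of G, with the order of S coprime to the index of N in G and G/N solvable. Then for every S-invariant irreducible character ϑ of N, the induced character ϑ^G has an S-invariant irreducible constituent. -/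
theorem result {Γ : Type*} [Group Γ] [Fintype Γ] (G S N : Subgroup Γ) [Fintype G] [Fintype N] (hnorm : ∀ s ∈ S, ∀ g ∈ G, s * g * s⁻¹ ∈ G) (hNG : N ≤ G) [hNn : (N.subgroupOf G).Normal] (hNS : ∀ s ∈ S, ∀ n ∈ N, s * n * s⁻¹ ∈ N) (hcop : (N.relIndex G).Coprime (Nat.card S)) (hsolv : Group.IsSolvable (G ⧸ N.subgroupOf G)) (θ : Cfsg.IrrCharacter N) (hinv : (∀ s ∈ S, ∀ g g' : N, (g' : Γ) = s * g * s⁻¹ → (θ : N → ℂ) g' = (θ : N → ℂ) g)) : ∃ χ : Cfsg.IrrCharacter G, Cfsg.classInner (fun n : N => (χ : G → ℂ) ⟨n, hNG n.2⟩) (θ : N → ℂ) ≠ 0 ∧ (∀ s ∈ S, ∀ g g' : G, (g' : Γ) = s * g * s⁻¹ → (χ : G → ℂ) g' = (χ : G → ℂ) g) := by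
  classical
  obtain ⟨α, hα⟩ : ∃ α : S →* MulAut G, ∀ (s : S) (g : G), ((α s g : G) : Γ) = s * g * (s : Γ)⁻¹ :=
    ⟨Cfsg.Agent.Lib.Helper74.SubConj.conjHom G S hnorm, fun s g => rfl⟩
  have hαN : ∀ a : S, ∀ n ∈ N.subgroupOf G, α a n ∈ N.subgroupOf G := by
    intro a n hn
    rw [Subgroup.mem_subgroupOf] at hn ⊢
    rw [hα]
    exact hNS a a.2 n hn
  have hfinN : Fintype (N.subgroupOf G) := Fintype.ofFinite _
  obtain ⟨e, he⟩ : ∃ e : (N.subgroupOf G) ≃* N, e = Subgroup.subgroupOfEquivOfLe hNG := ⟨_, rfl⟩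
  have hecoe : ∀ x : N.subgroupOf G, ((e x : N) : Γ) = ((x : G) : Γ) := by
    intro x
    rw [he]
    simp
  have hθ'inv : ∀ (a : S) (x : N.subgroupOf G),
      (fun y : N.subgroupOf G => (θ : N → ℂ) (e y)) ⟨α a x, hαN a x x.2⟩ =
        (fun y : N.subgroupOf G => (θ : N → ℂ) (e y)) x := by
    intro a x
    show (θ : N → ℂ) (e ⟨α a x, hαN a x x.2⟩) = (θ : N → ℂ) (e x)
    apply hinv a a.2 (e x) (e ⟨α a x, hαN a x x.2⟩)
    rw [hecoe, hecoe]
    exact hα a x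
  obtain ⟨χ, hχ, hχθ, hχinv⟩ :=
    Cfsg.Agent.Lib.Helper74.CoprimeLift.exists_invariant_over (N.subgroupOf G) α hαN hcop hsolv
      (fun x => (θ : N → ℂ) (e x)) (Cfsg.Agent.Lib.CT.Ops.isIrrCharacter_comp_mulEquiv e θ.2)
      hθ'inv
  refine ⟨⟨χ, hχ⟩, ?_, ?_⟩
  · have h1 := Cfsg.Agent.Lib.Helper25.CliffordCorr.classInner_comp_equiv e
      (fun n : N => χ ⟨n, hNG n.2⟩) (θ : N → ℂ)
    show classInner (fun n : N => χ ⟨n, hNG n.2⟩) (θ : N → ℂ) ≠ 0
    rw [← h1]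
    have h2 : (fun x : N.subgroupOf G => (fun n : N => χ ⟨n, hNG n.2⟩) (e x)) =
        fun x : N.subgroupOf G => χ x := by
      funext x
      refine congrArg χ ?_
      apply Subtype.ext
      exact hecoe x
    rw [h2]
    exact hχθ
  · intro s hs g g' hgg'
    show χ g' = χ g
    rw [← hχinv ⟨s, hs⟩ g]
    refine congrArg χ ?_
    apply Subtype.ext
    rw [hα, hgg']

end Cfsg.Agent.S4448
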