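import Cfsg.Statements.S4454
-- import your own Cfsg.Agent.* helpers here
import Mathlib
import Cfsg.Agent.Lib.Helper78.FrobRam2
import Cfsg.Agent.Lib.Helper78.ProjLift
import Cfsg.Agent.Lib.Helper78.ProjExt
import Cfsg.Agent.Lib.Helper78.Gallagher
import Cfsg.Agent.Lib.Helper78.InvRed
import Cfsg.Agent.Lib.Helper15.CliffTools
import Cfsg.Agent.Lib.CT.FrobRec
import Cfsg.Agent.Lib.CT.NormOne
import Cfsg.Agent.Lib.CT.Orth
import Cfsg.Agent.Lib.CT.Clifford
import Cfsg.Agent.Lib.CT.Ops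
import Cfsg.Agent.Lib.CT.Wedderburn

set_option autoImplicit false
open Cfsg

namespace Cfsg.Agent.S4454

open Cfsg.Agent.Lib.CT Cfsg.Agent.Lib.CT.MatCoeff Cfsg.Agent.Lib.Helper78.ProjLift
  Cfsg.Agent.Lib.Helper78.ProjExt Cfsg.Agent.Lib.Helper78.InvRed

/-- Let N ≤ G be normal subgroups of the finite group Γ with Γ/G cyclic and Γ/N a Frobenius group with kernel G/N: G ≠ Γ, N ≠ G, and no element of Γ outside G fixes a non-identity coset of N in G under conjugation. Let ϑ be an irreducible character of N invariant under conjugation by Γ and suppose ϑ is fully ramified in G: the character of G induced from ϑ equals e·χ for an irreducible character χ of G and a natural number e. Then the index of G in Γ divides e − 1 or e + 1. -/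
theorem result {Γ : Type*} [Group Γ] [Fintype Γ] (G N : Subgroup Γ) [hG : G.Normal] [hN : N.Normal] [Fintype G] [Fintype N] (hNG : N ≤ G) (hGlt : G ≠ ⊤) (hNlt : N ≠ G) (hcyc : IsCyclic (Γ ⧸ G)) (hfrob : ∀ x : Γ, x ∉ G → ∀ g : Γ, g ∈ G → x * g * x⁻¹ * g⁻¹ ∈ N → g ∈ N) (θ : Cfsg.IrrCharacter N) (hinv : ∀ (x : Γ) (n : N), (θ : N → ℂ) ⟨x * n * x⁻¹, hN.conj_mem n n.2 x⟩ = (θ : N → ℂ) n) (χ : Cfsg.IrrCharacter G) (e : ℕ) (hram : Cfsg.indFun (N.subgroupOf G) (fun n : N.subgroupOf G => (θ : N → ℂ) ⟨(n : G), n.2⟩) = fun g => (e : ℂ) * (χ : G → ℂ) g) : (G.index : ℤ) ∣ (e : ℤ) - 1 ∨ (G.index : ℤ) ∣ (e : ℤ) + 1 := by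
  classical
  -- the restriction of `χ` to `N` and the index
  let N' : Subgroup G := N.subgroupOf G
  have hN' : N'.Normal := inferInstance
  let E₀ : N' ≃* N := Subgroup.subgroupOfEquivOfLe hNG
  let ϑ' : N' → ℂ := fun n => (θ : N → ℂ) ⟨(n : G), n.2⟩
  have hϑ' : IsIrrCharacter N' ϑ' := Ops.isIrrCharacter_comp_mulEquiv E₀ θ.2
  have hϑ'inv : ∀ (g : G) (n : N'), ϑ' ⟨g * n * g⁻¹, hN'.conj_mem (n : G) n.2 g⟩ = ϑ' n :=
    fun g n => hinv (g : Γ) ⟨((n : G) : Γ), n.2⟩
  have hstar : ∀ n : N', (e : ℂ) * (χ : G → ℂ) n = (N'.index : ℂ) * ϑ' n := by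
    intro n
    have h1 := Cfsg.Agent.Lib.Helper78.Gallagher.indFun_apply_of_invariant N' hN' ϑ' hϑ'inv n
    rw [← h1]
    exact (congrFun hram (n : G)).symm
  have hθ1 : (θ : N → ℂ) 1 ≠ 0 := Wedderburn.irr_apply_one_ne_zero θ.2
  have hϑ'1 : ϑ' 1 = (θ : N → ℂ) 1 := rfl
  have hidx0 : (N'.index : ℂ) ≠ 0 := Nat.cast_ne_zero.2 Subgroup.index_ne_zero_of_finite
  have he0 : e ≠ 0 := by
    intro h0
    have h1 := hstar 1
    rw [h0, hϑ'1] at h1
    simp only [Nat.cast_zero, zero_mul] at h1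
    exact (mul_ne_zero hidx0 hθ1) h1.symm
  have hχcf := Wedderburn.char_isClassFunction (Wedderburn.isCharacter_of_irr χ.2)
  have hcon : classInner (fun n : N' => (χ : G → ℂ) n) ϑ' = e := by
    rw [Clifford.classInner_conj_symm, ← FrobRec.frobenius_reciprocity N' ϑ' (χ : G → ℂ) hχcf]
    have h1 : indFun N' ϑ' = (e : ℂ) • (χ : G → ℂ) := hram
    rw [h1, Orth.classInner_smul_left, NormOne.inner_self_eq_one_of_irr χ.2, mul_one,
      Complex.conj_natCast]
  obtain ⟨e', he', hres', hcon'⟩ := Cfsg.Agent.Lib.Helper15.CliffTools.restrict_eq_smul_of_invariant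
    N' hN' χ.2 hϑ' hϑ'inv (by rw [hcon]; exact Nat.cast_ne_zero.2 he0)
  have hee' : e' = e := by
    rw [hcon] at hcon'
    exact_mod_cast hcon'.symm
  rw [hee'] at hres'
  have hχN : ∀ n : N, (χ : G → ℂ) ⟨n, hNG n.2⟩ = e * (θ : N → ℂ) n := by
    intro n
    exact congrFun hres' (⟨⟨n, hNG n.2⟩, n.2⟩ : N')
  have hidxN : N.relIndex G = e * e := by
    have h1 := hstar 1
    have h2 := congrFun hres' (1 : N')
    simp only [Pi.smul_apply, smul_eq_mul] at h2
    have h3 : (χ : G → ℂ) ((1 : N') : G) = e * ϑ' 1 := h2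
    rw [h3, hϑ'1] at h1
    have h4 : ((e * e : ℕ) : ℂ) = (N'.index : ℂ) := by
      push_cast
      apply mul_right_cancel₀ hθ1
      linear_combination h1
    exact (Nat.cast_injective h4).symm
  -- the lifting group
  obtain ⟨d, σ, hσirr, hσ⟩ := θ.2
  have hinvσ : ∀ (x : Γ) (n : N),
      σ.character ⟨x * n * x⁻¹, hN.conj_mem (n : Γ) n.2 x⟩ = σ.character n := by
    intro x n
    rw [hσ]
    exact hinv x n
  have hsurj : Function.Surjective (proj N σ) :=
    proj_surjective N σ (conjNormal_inv N σ hinvσ)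
  have hfin : Finite (liftGroup N σ) := finite_liftGroup N σ
  let π : liftGroup N σ →* Γ := proj N σ
  let Gh : Subgroup (liftGroup N σ) := G.comap π
  let Nh : Subgroup (liftGroup N σ) := N.comap π
  have hGh : Gh.Normal := hG.comap π
  have hNh : Nh.Normal := hN.comap π
  have hNGh : Nh ≤ Gh := Subgroup.comap_mono hNG
  have hidx : Gh.index = G.index := Subgroup.index_comap_of_surjective G hsurj
  have hrel : Nh.relIndex Gh = N.relIndex G := by
    show (N.comap π).relIndex (G.comap π) = N.relIndex G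
    rw [Subgroup.relIndex_comap, Subgroup.map_comap_eq_self_of_surjective hsurj]
  -- the quotient stays cyclic
  have hcych : IsCyclic (liftGroup N σ ⧸ Gh) := by
    let f' : liftGroup N σ →* Γ ⧸ G := (QuotientGroup.mk' G).comp π
    have hker : Gh ≤ f'.ker := fun x hx => by
      rw [MonoidHom.mem_ker]
      exact (QuotientGroup.eq_one_iff _).2 hx
    let F : liftGroup N σ ⧸ Gh →* Γ ⧸ G := QuotientGroup.lift Gh f' hker
    have hF : Function.Injective F := by
      rw [injective_iff_map_eq_one]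
      intro y hy
      induction y using QuotientGroup.induction_on with
      | H x =>
        have h1 : f' x = 1 := hy
        have h2 : π x ∈ G := (QuotientGroup.eq_one_iff _).1 h1
        exact (QuotientGroup.eq_one_iff _).2 h2
    exact isCyclic_of_injective F hF
  have hfrobh : ∀ x : liftGroup N σ, x ∉ Gh → ∀ g : liftGroup N σ, g ∈ Gh →
      x * g * x⁻¹ * g⁻¹ ∈ Nh → g ∈ Nh := by
    intro x hx g hg h
    have h1 : π (x * g * x⁻¹ * g⁻¹) ∈ N := h
    rw [map_mul, map_mul, map_mul, map_inv, map_inv] at h1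
    exact hfrob (π x) hx (π g) hg h1
  -- the linear character
  let φ : Nh →* ℂˣ := phiHom N σ
  have hφinv : ∀ (x : liftGroup N σ) (n : Nh),
      φ ⟨x * n * x⁻¹, hNh.conj_mem n n.2 x⟩ = φ n :=
    fun x n => phiHom_conj N σ x n _
  let τG : Representation ℂ Gh (Fin d → ℂ) := (tau N σ).comp Gh.subtype
  have hτirr : τG.IsIrreducible := tau_restrict_irreducible N σ hsurj Gh hNGh
  have hτG : IsIrrCharacter Gh (fun g : Gh => (tau N σ).character g) := ⟨d, τG, hτirr, rfl⟩
  let _ : Fintype (liftGroup N σ) := Fintype.ofFinite _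
  let _ : Fintype Gh := Fintype.ofFinite _
  let _ : Fintype (Nh.subgroupOf Gh) := Fintype.ofFinite _
  let E : Nh.subgroupOf Gh ≃* Nh := Subgroup.subgroupOfEquivOfLe hNGh
  let φ' : Nh.subgroupOf Gh → ℂ := fun k => ((φ (E k) : ℂˣ) : ℂ)
  have hφ' : IsIrrCharacter (Nh.subgroupOf Gh) φ' :=
    LinChar.isIrrCharacter_of_hom (φ.comp E.toMonoidHom)
  have hφ'inv : ∀ (g : Gh) (k : Nh.subgroupOf Gh),
      φ' ⟨g * k * g⁻¹, (inferInstance : (Nh.subgroupOf Gh).Normal).conj_mem (k : Gh) k.2 g⟩ =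
        φ' k := by
    intro g k
    have h1 := hφinv (g : liftGroup N σ) (E k)
    show ((φ (E ⟨g * k * g⁻¹, _⟩) : ℂˣ) : ℂ) = ((φ (E k) : ℂˣ) : ℂ)
    rw [← h1]
    rfl
  have hprodval : ∀ m : Nh,
      ((φ m : ℂˣ) : ℂ) * (tau N σ).character m.1 = (θ : N → ℂ) ⟨π m.1, m.2⟩ := by
    intro m
    rw [← hσ]
    exact phi_mul_eta N σ m
  let πN : Nh →* N := π.subgroupComap N
  have hπN : Function.Surjective πN :=
    MonoidHom.subgroupComap_surjective_of_surjective π N hsurj
  have hprod : IsIrrCharacter (Nh.subgroupOf Gh)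
      (fun k : Nh.subgroupOf Gh => φ' k * (tau N σ).character (k : Gh)) := by
    have h1 : IsIrrCharacter (Nh.subgroupOf Gh)
        (fun k => (θ : N → ℂ) ((πN.comp E.toMonoidHom) k)) :=
      Ops.isIrrCharacter_comp_surjective (πN.comp E.toMonoidHom)
        (hπN.comp E.surjective) ⟨d, σ, hσirr, hσ⟩
    have h2 : (fun k : Nh.subgroupOf Gh => φ' k * (tau N σ).character (k : Gh)) =
        fun k => (θ : N → ℂ) ((πN.comp E.toMonoidHom) k) := by
      funext k
      exact hprodval (E k)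
    rw [h2]
    exact h1
  obtain ⟨-, -, hG3⟩ := Cfsg.Agent.Lib.Helper78.Gallagher.gallagher_core (Nh.subgroupOf Gh)
    inferInstance φ' hφ' hφ'inv (fun g : Gh => (tau N σ).character g) hτG hprod
  -- the character of `Gh` lifted from `χ`
  let f : Gh →* G := π.subgroupComap G
  have hf : Function.Surjective f := MonoidHom.subgroupComap_surjective_of_surjective π G hsurj
  let ψ : IrrCharacter Gh :=
    ⟨fun g => (χ : G → ℂ) (f g), Ops.isIrrCharacter_comp_surjective f hf χ.2⟩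
  have hψres : (fun k : Nh.subgroupOf Gh => (ψ : Gh → ℂ) k) =
      (e : ℂ) • (fun k : Nh.subgroupOf Gh => φ' k * (tau N σ).character (k : Gh)) := by
    funext k
    show (χ : G → ℂ) (f k) = e * (φ' k * (tau N σ).character (k : Gh))
    have h1 : φ' k * (tau N σ).character (k : Gh) = (θ : N → ℂ) ⟨π (E k).1, (E k).2⟩ :=
      hprodval (E k)
    rw [h1]
    exact hχN ⟨π (E k).1, (E k).2⟩
  have hψover : classInner (indFun (Nh.subgroupOf Gh)
      (fun k : Nh.subgroupOf Gh => φ' k * (tau N σ).character (k : Gh))) (ψ : Gh → ℂ) ≠ 0 := by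
    rw [FrobRec.frobenius_reciprocity (Nh.subgroupOf Gh) _ (ψ : Gh → ℂ)
      (Wedderburn.char_isClassFunction (Wedderburn.isCharacter_of_irr ψ.2)), hψres,
      Clifford.classInner_conj_symm, Orth.classInner_smul_left,
      NormOne.inner_self_eq_one_of_irr hprod, mul_one]
    simpa using he0
  obtain ⟨β, hβover, hβmul⟩ := hG3 ψ hψover
  have hβcon : classInner (fun k : Nh.subgroupOf Gh => (β : Gh → ℂ) k) φ' ≠ 0 := by
    rw [FrobRec.frobenius_reciprocity (Nh.subgroupOf Gh) φ' (β : Gh → ℂ)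
      (Wedderburn.char_isClassFunction (Wedderburn.isCharacter_of_irr β.2))] at hβover
    rw [Clifford.classInner_conj_symm]
    simpa using hβover
  obtain ⟨e₂, he₂, hβres, -⟩ := Cfsg.Agent.Lib.Helper15.CliffTools.restrict_eq_smul_of_invariant
    (Nh.subgroupOf Gh) inferInstance β.2 hφ' hφ'inv hβcon
  have hτ1 : (tau N σ).character ((1 : Nh.subgroupOf Gh) : Gh) = (θ : N → ℂ) 1 := by
    have h1 := hprodval 1
    have h2 : ((φ 1 : ℂˣ) : ℂ) = 1 := by rw [map_one, Units.val_one]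
    rw [h2, one_mul] at h1
    rw [show (tau N σ).character ((1 : Nh.subgroupOf Gh) : Gh) =
      (tau N σ).character ((1 : Nh) : liftGroup N σ) from rfl, h1]
    congr 1
  have hφ'1 : φ' 1 = 1 := by
    show ((φ (E 1) : ℂˣ) : ℂ) = 1
    rw [map_one, map_one, Units.val_one]
  have hee₂ : e₂ = e := by
    have h1 := congrFun hβmul ((1 : Nh.subgroupOf Gh) : Gh)
    have h2 := congrFun hβres 1
    have h3 := congrFun hψres 1
    simp only [Pi.smul_apply, smul_eq_mul, Pi.mul_apply] at h1 h2 h3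
    rw [hφ'1] at h2 h3
    rw [hτ1] at h1 h3
    have h4 : (β : Gh → ℂ) ((1 : Nh.subgroupOf Gh) : Gh) = e₂ * 1 := h2
    have h5 : (ψ : Gh → ℂ) ((1 : Nh.subgroupOf Gh) : Gh) = e * (1 * (θ : N → ℂ) 1) := h3
    rw [h4, h5] at h1
    have h6 : (e₂ : ℂ) = e := by
      apply mul_right_cancel₀ hθ1
      linear_combination h1
    exact_mod_cast h6
  rw [hee₂] at hβres
  have hβN : ∀ m : Nh, (β : Gh → ℂ) ⟨m, hNGh m.2⟩ = e * ((φ m : ℂˣ) : ℂ) := by
    intro m
    exact congrFun hβres (⟨⟨m, hNGh m.2⟩, m.2⟩ : Nh.subgroupOf Gh)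
  have hfinal := Cfsg.Agent.Lib.Helper78.FrobRam2.linear_case Gh Nh hNGh hcych hfrobh φ hφinv
    (β : Gh → ℂ) β.2 e (by rw [hrel]; exact hidxN) hβN
  rw [hidx] at hfinal
  exact hfinal

end Cfsg.Agent.S4454
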