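import Cfsg.Statements.S4455
import Cfsg.Agent.Lib.Helper74.IndexPStep
import Cfsg.Agent.Lib.Helper34.PResidual
import Cfsg.Agent.Lib.Helper47.PRes
import Cfsg.Agent.Lib.CT.Orth

set_option autoImplicit false
open Cfsg

namespace Cfsg.Agent.S4455

open Cfsg.Agent.Lib.Helper74.DetTools Cfsg.Agent.Lib.Helper74.IndexP
open Cfsg.Agent.Lib.Helper74.IndexPStep

universe u

/-- If `O^p(G) = G`, every determinantal order is prime to `p`. -/
theorem not_dvd_detOrder_of_pResidual_top {G : Type u} [Group G] [Finite G] {p : ℕ}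
    (hp : p.Prime) (htop : pResidual p G = ⊤) {χ : G → ℂ} (hχ : IsIrrCharacter G χ) :
    ¬ p ∣ detOrder χ := by
  obtain ⟨δ, hδ⟩ := exists_detHom hχ
  have hpos : Nat.card G ≠ 0 := Nat.card_pos.ne'
  obtain ⟨a, m, hm, ham⟩ := Nat.exists_eq_pow_mul_and_not_dvd hpos p hp.ne_one
  have hK : pResidual p G ≤ ((powMonoidHom m : ℂˣ →* ℂˣ).comp δ).ker := by
    unfold pResidual
    rw [Subgroup.closure_le]
    intro g hg
    have hg' : Nat.Coprime (orderOf g) p := hg
    have h1 : orderOf g ∣ m := by
      have h2 : orderOf g ∣ p ^ a * m := by rw [← ham]; exact orderOf_dvd_natCard g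
      exact (Nat.Coprime.pow_right a hg').dvd_of_dvd_mul_left h2
    show ((powMonoidHom m : ℂˣ →* ℂˣ).comp δ) g = 1
    show (δ g) ^ m = 1
    rw [← map_pow, orderOf_dvd_iff_pow_eq_one.mp h1, map_one]
  rw [htop] at hK
  have h3 : ∀ g, (detChar χ g) ^ m = 1 := by
    intro g
    have h4 : (δ g) ^ m = 1 := hK (Subgroup.mem_top g)
    rw [hδ]
    show ((δ g : ℂˣ) : ℂ) ^ m = 1
    rw [← Units.val_pow_eq_pow_val, h4, Units.val_one]
  intro hd
  exact hm (hd.trans (detOrder_dvd_of_pow χ m h3))

/-- The case `O^p(G) = G`. -/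
theorem caseA {G : Type u} [Group G] [Finite G] {p : ℕ} (hp : p.Prime)
    (htop : pResidual p G = ⊤) :
    (Nat.card (pResidual p G) : ℤ) ≡
      (∑ᶠ χ ∈ Y p G, (charDegree (χ : G → ℂ) : ℤ) ^ 2) [ZMOD p] := by
  classical
  have hfi : Finite (IrrCharacter G) := Cfsg.Agent.Lib.CT.Wedderburn.finite_irrCharacter G
  have hFi : Fintype (IrrCharacter G) := Fintype.ofFinite _
  have hcard : Nat.card (pResidual p G) = Nat.card G := by
    rw [htop]
    exact Subgroup.card_top
  have hsum := Cfsg.Agent.Lib.CT.Orth.sum_charDegree_sq (G := G)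
  rw [finsum_eq_sum_of_fintype] at hsum
  rw [hcard, ← hsum, finsum_mem_def, finsum_eq_sum_of_fintype]
  push_cast
  rw [Int.modEq_iff_dvd, ← Finset.sum_sub_distrib]
  apply Finset.dvd_sum
  intro χ _
  by_cases h : χ ∈ Y p G
  · rw [Set.indicator_of_mem h, sub_self]
    exact dvd_zero _
  · rw [Set.indicator_of_notMem h, zero_sub]
    have h1 : p ∣ charDegree (χ : G → ℂ) := by
      by_contra hnd
      exact h ⟨hnd, not_dvd_detOrder_of_pResidual_top hp htop χ.2⟩
    rw [dvd_neg]
    exact dvd_pow (Int.natCast_dvd_natCast.mpr h1) (by norm_num)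

/-- A normal subgroup of index `p` containing `O^p(G)` when the latter is proper. -/
theorem exists_index_p {G : Type u} [Group G] [Finite G] {p : ℕ} (hp : p.Prime)
    (hne : pResidual p G ≠ ⊤) :
    ∃ M : Subgroup G, M.Normal ∧ M.index = p ∧ pResidual p G ≤ M := by
  have hF : Fact p.Prime := ⟨hp⟩
  have hN : (pResidual p G).Normal := Cfsg.Agent.Lib.Helper34.PResidual.pResidual_normal p G
  obtain ⟨n, hn⟩ := Cfsg.Agent.Lib.Helper34.PResidual.exists_index_pResidual_eq hp G
  have hn0 : n ≠ 0 := by
    rintro rfl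
    rw [pow_zero] at hn
    exact hne (Subgroup.index_eq_one.mp hn)
  have hcardQ : Nat.card (G ⧸ pResidual p G) = p ^ n := by
    rw [← Subgroup.index_eq_card]
    exact hn
  obtain ⟨m, rfl⟩ : ∃ m, n = m + 1 := Nat.exists_eq_succ_of_ne_zero hn0
  obtain ⟨K, hK⟩ := Sylow.exists_subgroup_card_pow_prime (G := G ⧸ pResidual p G) p
    (n := m) (by rw [hcardQ]; exact pow_dvd_pow p (Nat.le_succ m))
  have hKidx : K.index = p := by
    have h1 := K.card_mul_index
    rw [hK, hcardQ, pow_succ] at h1
    exact Nat.eq_of_mul_eq_mul_left (pow_pos hp.pos m) h1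
  have hKn : K.Normal := by
    apply Subgroup.normal_of_index_eq_minFac_card
    rw [hKidx, hcardQ, Nat.Prime.pow_minFac hp (Nat.succ_ne_zero m)]
  refine ⟨K.comap (QuotientGroup.mk' (pResidual p G)), inferInstance, ?_, ?_⟩
  · rw [Subgroup.index_comap_of_surjective _ (QuotientGroup.mk'_surjective _)]
    exact hKidx
  · intro x hx
    show (QuotientGroup.mk' (pResidual p G)) x ∈ K
    have : (QuotientGroup.mk' (pResidual p G)) x = 1 := by
      rw [QuotientGroup.mk'_apply, QuotientGroup.eq_one_iff]
      exact hx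
    rw [this]
    exact K.one_mem

/-- `O^p` of a subgroup containing `O^p(G)` has the same order. -/
theorem card_pResidual_subgroup {G : Type u} [Group G] [Finite G] {p : ℕ} (M : Subgroup G)
    (hle : pResidual p G ≤ M) : Nat.card (pResidual p M) = Nat.card (pResidual p G) := by
  have h1 : (pResidual p M).map M.subtype = pResidual p G := by
    apply le_antisymm
    · unfold pResidual
      rw [MonoidHom.map_closure, Subgroup.closure_le]
      rintro _ ⟨y, hy, rfl⟩
      apply Subgroup.subset_closure
      show Nat.Coprime (orderOf (y : G)) p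
      rw [Subgroup.orderOf_coe]
      exact hy
    · have h2 : Subgroup.closure {g : G | Nat.Coprime (orderOf g) p} ≤
          (pResidual p M).map M.subtype := by
        rw [Subgroup.closure_le]
        intro g hg
        have hgM : g ∈ M := hle (Subgroup.subset_closure hg)
        refine ⟨⟨g, hgM⟩, Subgroup.subset_closure ?_, rfl⟩
        show Nat.Coprime (orderOf (⟨g, hgM⟩ : M)) p
        rw [← Subgroup.orderOf_coe]
        exact hg
      exact h2
  rw [← h1]
  exact (Subgroup.card_map_of_injective M.subtype_injective).symm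

/-- The congruence, by induction on the group order. -/
theorem main (p : ℕ) (hp : p.Prime) : ∀ (n : ℕ) (G : Type u) [Group G] [Finite G],
    Nat.card G = n →
    (Nat.card (pResidual p G) : ℤ) ≡
      (∑ᶠ χ ∈ Y p G, (charDegree (χ : G → ℂ) : ℤ) ^ 2) [ZMOD p] := by
  intro n
  induction n using Nat.strong_induction_on with
  | _ n ih =>
    intro G _ _ hcard
    by_cases htop : pResidual p G = ⊤
    · exact caseA hp htop
    · obtain ⟨M, hMn, hidx, hle⟩ := exists_index_p hp htop
      have hlt : Nat.card M < n := by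
        have h1 := M.card_mul_index
        rw [hidx, hcard] at h1
        have hpos : 0 < Nat.card M := Nat.card_pos
        have h2 := hp.one_lt
        nlinarith
      have hIH := ih (Nat.card M) hlt M rfl
      have hFG : Fintype G := Fintype.ofFinite G
      have hFM : Fintype M := Fintype.ofFinite M
      have hstep := step M hp hidx
      rw [← card_pResidual_subgroup M hle]
      exact hIH.trans hstep.symm

/-- Fix a prime p and a finite group G. Let s be the sum of χ(1)² over the irreducible characters χ of G whose degree is not divisible by p and whose determinantal order o(χ) is not divisible by p. Then the order of O^p(G), the subgroup generated by the elements of order prime to p, is congruent to s modulo p. -/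
theorem result {G : Type*} [Group G] [Finite G] (p : ℕ) (hp : p.Prime) : (Nat.card (Cfsg.pResidual p G) : ℤ) ≡ (∑ᶠ χ ∈ {χ : Cfsg.IrrCharacter G | ¬ p ∣ Cfsg.charDegree (χ : G → ℂ) ∧ ¬ p ∣ Cfsg.detOrder (χ : G → ℂ)}, (Cfsg.charDegree (χ : G → ℂ) : ℤ) ^ 2) [ZMOD p] := by
  exact main p hp (Nat.card G) G rfl

end Cfsg.Agent.S4455
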