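import Cfsg.Statements.S4470
-- import your own Cfsg.Agent.* helpers here
import Mathlib
import Cfsg.Agent.Lib.Helper78.UnitaryRep
import Cfsg.Agent.Lib.Helper78.Blichfeldt

set_option autoImplicit false
open Cfsg

namespace Cfsg.Agent.S4470

/-- Let the finite group G have a faithful character of degree n. Then G has an abelian normal subgroup A such that every abelian subgroup H of G satisfies [H : H ⊓ A] ≤ 12^n. -/
theorem result {G : Type*} [Group G] [Finite G] (χ : G → ℂ) (hχ : Cfsg.IsCharacter G χ) (hfaith : ∀ g : G, χ g = χ 1 → g = 1) (n : ℕ) (hn : Cfsg.charDegree χ = n) : ∃ A : Subgroup G, A.Normal ∧ (∀ x ∈ A, ∀ y ∈ A, x * y = y * x) ∧ ∀ H : Subgroup G, (∀ x ∈ H, ∀ y ∈ H, x * y = y * x) → (A.subgroupOf H).index ≤ 12 ^ n := by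
  obtain ⟨m, ρ, rfl⟩ := hχ
  have hm : m = n := by
    rw [← hn]
    unfold Cfsg.charDegree
    rw [Representation.char_one]
    simp
  subst hm
  have hinj : Function.Injective ρ := by
    intro g h hgh
    have h1 : ρ (g * h⁻¹) = 1 := by rw [map_mul, hgh, ← map_mul, mul_inv_cancel, map_one]
    have h2 : g * h⁻¹ = 1 := hfaith _ (by
      show LinearMap.trace ℂ _ (ρ (g * h⁻¹)) = LinearMap.trace ℂ _ (ρ 1)
      rw [h1, map_one ρ])
    exact mul_inv_eq_one.1 h2
  obtain ⟨c, hc⟩ := Cfsg.Agent.Lib.Helper78.UnitaryRep.exists_invariant_core ρ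
  letI inst1 : NormedAddCommGroup (Fin m → ℂ) :=
    @InnerProductSpace.Core.toNormedAddCommGroup ℂ _ _ _ _ c
  letI inst2 : @InnerProductSpace ℂ (Fin m → ℂ) _ inst1.toSeminormedAddCommGroup :=
    InnerProductSpace.ofCore c.toCore
  have hfd : @FiniteDimensional ℂ (Fin m → ℂ) _ _ _ := inferInstance
  have key := @Cfsg.Agent.Lib.Helper78.Blichfeldt.main G _ (Fin m → ℂ) inst1 inst2 hfd ρ hc _ hinj
  have hfr : Module.finrank ℂ (Fin m → ℂ) = m := by simp
  rw [hfr] at key
  exact key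

end Cfsg.Agent.S4470
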