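import Cfsg.Statements.S4473
import Cfsg.Agent.Lib.Helper74.Deg2
import Cfsg.Agent.Lib.Helper74.Deg2Count
import Cfsg.Agent.Lib.Helper80.Core

set_option autoImplicit false
open Cfsg

namespace Cfsg.Agent.S4473

/-- Let the finite group G have a faithful irreducible character χ of degree 2 that is primitive: χ is not induced from a character of any proper subgroup. Then the centre of G has index 12, 24 or 60. -/
theorem result {G : Type*} [Group G] [Fintype G] (χ : Cfsg.IrrCharacter G) (hfaith : ∀ g : G, (χ : G → ℂ) g = (χ : G → ℂ) 1 → g = 1) (h2 : Cfsg.charDegree (χ : G → ℂ) = 2) (hprim : ∀ H : Subgroup G, H ≠ ⊤ → ∀ θ : H → ℂ, Cfsg.IsCharacter H θ → (χ : G → ℂ) ≠ Cfsg.indFun H θ) : (Subgroup.center G).index = 12 ∨ (Subgroup.center G).index = 24 ∨ (Subgroup.center G).index = 60 := by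
  have hyp : Cfsg.Agent.Lib.Helper74.Deg2Count.Hyp G := by
    refine ⟨?_, ?_, ?_⟩
    · intro x hx
      exact Cfsg.Agent.Lib.Helper74.Deg2.centralizer_comm χ hfaith h2 x hx
    · intro x hx n n' hn hn' hnC hnC'
      exact Cfsg.Agent.Lib.Helper74.Deg2.normalizer_coset χ hfaith h2 x hx n n' hn hn' hnC hnC'
    · intro x hx hidx
      obtain ⟨θ, hθ, heq⟩ :=
        Cfsg.Agent.Lib.Helper74.Deg2.induced_of_index_two χ hfaith h2 x hx hidx
      refine hprim _ ?_ θ hθ heq
      intro htop
      rw [htop, Subgroup.index_top] at hidx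
      omega
  apply Cfsg.Agent.Lib.Helper74.Deg2Count.index_center hyp
  by_contra hcon
  push Not at hcon
  have h1 := Cfsg.Agent.Lib.Helper80.Core.charDegree_sq_le_index_center χ
  have h3 : Subgroup.center G = ⊤ := by
    ext x
    simp [hcon x]
  rw [h3, Subgroup.index_top, h2] at h1
  omega

end Cfsg.Agent.S4473
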