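import Cfsg.Statements.S4474
import Mathlib
import Cfsg.Agent.Lib.CT.FSInd
import Cfsg.Agent.Lib.Helper74.RealRep

set_option autoImplicit false
open Cfsg

namespace Cfsg.Agent.S4474

open Cfsg.Agent.Lib.CT.FSInd Cfsg.Agent.Lib.Helper74.RealRep

/-- Let χ be an irreducible character of the finite group G. Then the Frobenius–Schur indicator of χ (the average over s ∈ G of χ(s²)) equals 1 if and only if χ is afforded by a real representation: there is a representation of G on a real coordinate space whose trace function, viewed in ℂ, is χ. -/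
theorem result {G : Type*} [Group G] [Fintype G] (χ : Cfsg.IrrCharacter G) : ((Nat.card G : ℂ)⁻¹ * ∑ s : G, (χ : G → ℂ) (s * s)) = 1 ↔ ∃ (n : ℕ) (ρ : Representation ℝ G (Fin n → ℝ)), ∀ g : G, ((LinearMap.trace ℝ (Fin n → ℝ) (ρ g) : ℝ) : ℂ) = (χ : G → ℂ) g := by
  obtain ⟨χf, n, ρ, hirr, rfl⟩ := χ
  have := hirr
  constructor
  · intro h
    exact ⟨n, exists_real_of_fsInd_eq_one ρ h⟩
  · rintro ⟨m, σ, hσ⟩
    exact fsInd_eq_one_of_real ρ σ hσ

end Cfsg.Agent.S4474
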