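import Cfsg.Statements.S4477
import Mathlib
import Cfsg.Agent.Lib.CT.Wedderburn
import Cfsg.Agent.Lib.CT.Orth
import Cfsg.Agent.Lib.CT.Ops
import Cfsg.Agent.Lib.CT.LinChar
import Cfsg.Agent.Lib.CT.FSInd
import Cfsg.Agent.Lib.Helper74.FSCount
import Cfsg.Agent.Lib.Helper3.Irr
import Cfsg.Agent.Lib.Helper80.Integrality
import Cfsg.Agent.S0154
import Cfsg.Agent.S4476

set_option autoImplicit false
open Cfsg

namespace Cfsg.Agent.S4477

open Cfsg.Agent.Lib.CT.Wedderburn Cfsg.Agent.Lib.CT.Orth Cfsg.Agent.Lib.CT.FSInd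
open Cfsg.Agent.Lib.Helper74.FSCount Cfsg.Agent.Lib.CT.LinChar
open scoped ComplexConjugate

universe u
variable {G : Type u} [Group G]

/-- parity of the number of fixed points of an involution -/
theorem card_filter_fixed_parity {α : Type*} [DecidableEq α] (T : Finset α) (f : α → α)
    (hf : ∀ x ∈ T, f x ∈ T) (hff : ∀ x ∈ T, f (f x) = x) :
    (T.filter fun x => f x = x).card % 2 = T.card % 2 := by
  have h1 := Finset.card_filter_add_card_filter_not (s := T) (fun x => f x = x)
  have h2 : (((T.filter fun x => ¬ f x = x).card : ℕ) : ZMod 2) = 0 := by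
    have h3 : ∑ x ∈ T.filter (fun x => ¬ f x = x), (1 : ZMod 2) = 0 := by
      refine Finset.sum_involution (fun x _ => f x) ?_ ?_ ?_ ?_
      · intro a ha; decide
      · intro a ha _; exact (Finset.mem_filter.1 ha).2
      · intro a ha
        rw [Finset.mem_filter] at ha ⊢
        refine ⟨hf a ha.1, ?_⟩
        rw [hff a ha.1]
        exact fun h => ha.2 h.symm
      · intro a ha; exact hff a (Finset.mem_filter.1 ha).1
    simpa using h3
  have h4 : (T.filter fun x => ¬ f x = x).card % 2 = 0 := by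
    have := (ZMod.natCast_eq_zero_iff _ 2).1 h2
    omega
  omega

/-- a real-valued linear character squares to one -/
theorem real_linear_sq [Finite G] {μ : G → ℂ} (hμ : IsCharacter G μ) (h1 : μ 1 = 1)
    (hr : ∀ g, (μ g).im = 0) (g : G) : μ g * μ g = 1 := by
  have h := linear_mul_conj hμ h1 g
  rwa [Complex.conj_eq_iff_im.2 (hr g)] at h

theorem real_linear_cases [Finite G] {μ : G → ℂ} (hμ : IsCharacter G μ) (h1 : μ 1 = 1)
    (hr : ∀ g, (μ g).im = 0) (g : G) : μ g = 1 ∨ μ g = -1 :=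
  mul_self_eq_one_iff.1 (real_linear_sq hμ h1 hr g)

/-- twisting an irreducible character by a linear character -/
noncomputable def tw (μ : G → ℂ) (hμ : IsCharacter G μ ∧ μ 1 = 1) (χ : IrrCharacter G) :
    IrrCharacter G :=
  ⟨μ * (χ : G → ℂ), isIrrCharacter_linear_mul hμ.1 hμ.2 χ.2⟩

theorem tw_apply (μ : G → ℂ) (hμ : IsCharacter G μ ∧ μ 1 = 1) (χ : IrrCharacter G) (g : G) :
    (tw μ hμ χ : G → ℂ) g = μ g * (χ : G → ℂ) g := rfl

theorem tw_eq_iff (μ : G → ℂ) (hμ : IsCharacter G μ ∧ μ 1 = 1) (χ : IrrCharacter G) :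
    tw μ hμ χ = χ ↔ ∀ g, μ g * (χ : G → ℂ) g = (χ : G → ℂ) g := by
  rw [Subtype.ext_iff, funext_iff]
  rfl

theorem charDegree_tw (μ : G → ℂ) (hμ : IsCharacter G μ ∧ μ 1 = 1) (χ : IrrCharacter G) :
    charDegree (tw μ hμ χ : G → ℂ) = charDegree (χ : G → ℂ) := by
  unfold charDegree
  rw [tw_apply, hμ.2, one_mul]

theorem orth_sum [Fintype G] (μ ν : IrrCharacter G) :
    ∑ g, (μ : G → ℂ) g * conj ((ν : G → ℂ) g) = if μ = ν then (Nat.card G : ℂ) else 0 := by
  have hcard : (Nat.card G : ℂ) ≠ 0 := Nat.cast_ne_zero.mpr Nat.card_pos.ne'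
  have h : ∑ g, (μ : G → ℂ) g * conj ((ν : G → ℂ) g)
      = (Nat.card G : ℂ) * classInner (μ : G → ℂ) (ν : G → ℂ) := by
    rw [classInner, ← mul_assoc, mul_inv_cancel₀ hcard, one_mul]
  rw [h, irr_orthonormal]
  split_ifs <;> simp

/-- at most four linear characters fix an irreducible character of degree two -/
theorem card_le_four [Fintype G] (χ₀ : IrrCharacter G) (h2 : (χ₀ : G → ℂ) 1 = 2)
    (B : Finset (IrrCharacter G))
    (hB : ∀ μ ∈ B, ∀ g, (μ : G → ℂ) g * (χ₀ : G → ℂ) g = (χ₀ : G → ℂ) g) :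
    B.card ≤ 4 := by
  classical
  set s : G → ℂ := fun g => ∑ μ ∈ B, (μ : G → ℂ) g with hs
  have h1 : ∑ g, s g * conj (s g) = (B.card : ℂ) * (Nat.card G : ℂ) := by
    calc ∑ g, s g * conj (s g)
        = ∑ ν ∈ B, ∑ μ ∈ B, ∑ g, (μ : G → ℂ) g * conj ((ν : G → ℂ) g) := by
          simp only [hs, map_sum, Finset.sum_mul, Finset.mul_sum]
          rw [Finset.sum_comm]
          refine Finset.sum_congr rfl fun μ _ => ?_
          rw [Finset.sum_comm]
      _ = ∑ ν ∈ B, ∑ μ ∈ B, (if μ = ν then (Nat.card G : ℂ) else 0) := by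
          simp only [orth_sum]
      _ = (B.card : ℂ) * (Nat.card G : ℂ) := by
          rw [Finset.sum_congr rfl fun μ hμ => by
            rw [Finset.sum_ite_eq', if_pos hμ]]
          simp
  have h3 : ∀ g, s g * (χ₀ : G → ℂ) g = (B.card : ℂ) * (χ₀ : G → ℂ) g := by
    intro g
    simp only [hs, Finset.sum_mul]
    rw [Finset.sum_congr rfl fun μ hμ => hB μ hμ g]
    simp
  have hn1 : ∑ g, Complex.normSq (s g) = (B.card : ℝ) * (Nat.card G : ℝ) := by
    have h1' : ((∑ g, Complex.normSq (s g) : ℝ) : ℂ)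
        = (((B.card : ℝ) * (Nat.card G : ℝ) : ℝ) : ℂ) := by
      push_cast
      rw [← h1]
      refine Finset.sum_congr rfl fun g _ => ?_
      rw [Complex.mul_conj]
    exact_mod_cast h1'
  have hn2 : ∑ g, Complex.normSq ((χ₀ : G → ℂ) g) = (Nat.card G : ℝ) := by
    have h1' : ((∑ g, Complex.normSq ((χ₀ : G → ℂ) g) : ℝ) : ℂ) = ((Nat.card G : ℝ) : ℂ) := by
      push_cast
      have := orth_sum χ₀ χ₀
      rw [if_pos rfl] at this
      rw [← this]
      refine Finset.sum_congr rfl fun g _ => ?_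
      rw [Complex.mul_conj]
    exact_mod_cast h1'
  have hn3 : ∀ g, Complex.normSq ((χ₀ : G → ℂ) g) ≤ 4 := by
    intro g
    have h := Cfsg.Agent.Lib.Helper3.Irr.IsCharacter.norm_le (isCharacter_of_irr χ₀.2) g
    rw [h2] at h
    have h' : ‖(χ₀ : G → ℂ) g‖ ≤ 2 := by simpa using h
    rw [Complex.normSq_eq_norm_sq]
    have h0 := norm_nonneg ((χ₀ : G → ℂ) g)
    nlinarith
  have hn4 : ∀ g, (B.card : ℝ) ^ 2 * Complex.normSq ((χ₀ : G → ℂ) g)
      ≤ 4 * Complex.normSq (s g) := by
    intro g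
    have h := congrArg Complex.normSq (h3 g)
    rw [map_mul, map_mul, Complex.normSq_natCast] at h
    have h0 := Complex.normSq_nonneg (s g)
    have h4 := hn3 g
    calc (B.card : ℝ) ^ 2 * Complex.normSq ((χ₀ : G → ℂ) g)
        = Complex.normSq (s g) * Complex.normSq ((χ₀ : G → ℂ) g) := by rw [h]; ring
      _ ≤ Complex.normSq (s g) * 4 := mul_le_mul_of_nonneg_left h4 h0
      _ = 4 * Complex.normSq (s g) := by ring
  have h5 : (B.card : ℝ) ^ 2 * (Nat.card G : ℝ) ≤ 4 * ((B.card : ℝ) * (Nat.card G : ℝ)) := by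
    rw [← hn1, ← hn2, Finset.mul_sum, Finset.mul_sum]
    exact Finset.sum_le_sum fun g _ => hn4 g
  have hG0 : (0 : ℝ) < (Nat.card G : ℝ) := by exact_mod_cast Nat.card_pos
  by_contra hcon
  push Not at hcon
  have h6 : (5 : ℝ) ≤ (B.card : ℝ) := by exact_mod_cast hcon
  have h7 : (0 : ℝ) < (B.card : ℝ) * (Nat.card G : ℝ) := by
    apply mul_pos _ hG0
    linarith
  have h8 : (B.card : ℝ) * ((B.card : ℝ) * (Nat.card G : ℝ))
      ≤ 4 * ((B.card : ℝ) * (Nat.card G : ℝ)) := by
    rw [← mul_assoc, ← sq]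
    exact h5
  have h9 := le_of_mul_le_mul_right h8 h7
  linarith

theorem fsInt_cases [Fintype G] (χ : G → ℂ) : fsInt χ = 1 ∨ fsInt χ = -1 ∨ fsInt χ = 0 := by
  classical
  unfold fsInt
  split_ifs <;> simp

theorem fsInt_real_linear [Fintype G] {μ : G → ℂ} (hμ : IsCharacter G μ) (h1 : μ 1 = 1)
    (hr : ∀ g, (μ g).im = 0) : fsInt μ = 1 := by
  classical
  have h : fsInd μ = 1 := by
    rw [fsInd_def]
    have hne : (Nat.card G : ℂ) ≠ 0 := Nat.cast_ne_zero.mpr Nat.card_pos.ne'
    have h2 : ∀ s : G, μ (s * s) = 1 := fun s => by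
      rw [linear_mul hμ h1, real_linear_sq hμ h1 hr]
    simp only [h2]
    simp [Nat.card_eq_fintype_card] at hne ⊢
  unfold fsInt
  simp [h]

/-- the Frobenius–Schur count modulo four in a 2-group -/
theorem fs_mod_four [Fintype G] [Fintype (IrrCharacter G)] [DecidableEq (IrrCharacter G)]
    (hG : IsPGroup 2 G) (A S : Finset (IrrCharacter G))
    (hA : ∀ χ, χ ∈ A ↔ ((χ : G → ℂ) 1 = 1 ∧ ∀ g, ((χ : G → ℂ) g).im = 0))
    (hS : ∀ χ, χ ∈ S ↔ (charDegree (χ : G → ℂ) = 2 ∧ ∀ g, ((χ : G → ℂ) g).im = 0)) :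
    (Nat.card {u : G // u * u = 1}) % 4 = (A.card + 2 * S.card) % 4 := by
  obtain ⟨n, hn⟩ := IsPGroup.iff_card.1 hG
  have hterm : ∀ χ : IrrCharacter G,
      (((fsInt (χ : G → ℂ) * (charDegree (χ : G → ℂ) : ℤ) : ℤ)) : ZMod 4)
        = (if χ ∈ A then 1 else 0) + 2 * (if χ ∈ S then 1 else 0) := by
    intro χ
    have hc := isCharacter_of_irr χ.2
    have hd := Cfsg.Agent.Lib.Helper80.Integrality.charDegree_dvd_card χ
    rw [hn] at hd
    obtain ⟨k, hk, hdk⟩ := (Nat.dvd_prime_pow Nat.prime_two).1 hd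
    have hdeg := char_natCast_charDegree hc
    have hreal := fsInd_ne_zero_iff_real χ.2
    have hz := fsInt_eq_zero_iff χ.2
    rcases k with _ | _ | k
    · -- degree one
      have h1 : (χ : G → ℂ) 1 = 1 := by rw [← hdeg, hdk]; simp
      have hnS : χ ∉ S := by
        rw [hS]; rintro ⟨h, _⟩; rw [hdk] at h; norm_num at h
      rw [if_neg hnS, hdk]
      by_cases hr : ∀ g, ((χ : G → ℂ) g).im = 0
      · rw [if_pos ((hA χ).2 ⟨h1, hr⟩), fsInt_real_linear hc h1 hr]
        simp
      · have hnA : χ ∉ A := by rw [hA]; exact fun h => hr h.2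
        have h0 : fsInt (χ : G → ℂ) = 0 := by
          rw [hz]; by_contra h; exact hr (hreal.1 h)
        rw [if_neg hnA, h0]
        simp
    · -- degree two
      have h2 : (χ : G → ℂ) 1 = 2 := by rw [← hdeg, hdk]; simp
      have hnA : χ ∉ A := by
        rw [hA]; rintro ⟨h, _⟩; rw [h2] at h; norm_num at h
      rw [if_neg hnA, hdk]
      by_cases hr : ∀ g, ((χ : G → ℂ) g).im = 0
      · rw [if_pos ((hS χ).2 ⟨hdk, hr⟩)]
        have hne : fsInt (χ : G → ℂ) ≠ 0 := by
          rw [Ne, hz]; exact hreal.2 hr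
        rcases fsInt_cases (χ : G → ℂ) with h | h | h
        · rw [h]; decide
        · rw [h]; decide
        · exact absurd h hne
      · have hnS : χ ∉ S := by rw [hS]; exact fun h => hr h.2
        have h0 : fsInt (χ : G → ℂ) = 0 := by
          rw [hz]; by_contra h; exact hr (hreal.1 h)
        rw [if_neg hnS, h0]
        simp
    · -- degree divisible by four
      have h4 : ((charDegree (χ : G → ℂ) : ℕ) : ZMod 4) = 0 := by
        rw [hdk]
        have : (2 : ℕ) ^ (k + 1 + 1) = 4 * 2 ^ k := by ring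
        rw [this]
        push_cast
        have : (4 : ZMod 4) = 0 := by decide
        rw [this, zero_mul]
      have hge : 4 ≤ charDegree (χ : G → ℂ) := by
        rw [hdk]
        have : (2 : ℕ) ^ (k + 1 + 1) = 4 * 2 ^ k := by ring
        have := Nat.one_le_two_pow (n := k)
        omega
      have hnA : χ ∉ A := by
        rw [hA]; rintro ⟨h, _⟩
        rw [← hdeg] at h
        have : charDegree (χ : G → ℂ) = 1 := by exact_mod_cast h
        omega
      have hnS : χ ∉ S := by
        rw [hS]; rintro ⟨h, _⟩; omega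
      rw [if_neg hnA, if_neg hnS]
      push_cast
      rw [h4]
      simp
  have h1 := congrArg (Int.cast : ℤ → ZMod 4) (card_sq_eq_one (G := G))
  rw [Int.cast_sum] at h1
  simp only [hterm] at h1
  rw [Finset.sum_add_distrib, ← Finset.mul_sum, Finset.sum_boole, Finset.sum_boole] at h1
  have hfA : (Finset.univ.filter fun χ : IrrCharacter G => χ ∈ A) = A := by
    ext χ; simp
  have hfS : (Finset.univ.filter fun χ : IrrCharacter G => χ ∈ S) = S := by
    ext χ; simp
  rw [hfA, hfS] at h1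
  have h2 : ((Nat.card {u : G // u * u = 1} : ℕ) : ZMod 4)
      = ((A.card + 2 * S.card : ℕ) : ZMod 4) := by
    push_cast
    rw [← h1]
    simp
  exact (ZMod.natCast_eq_natCast_iff' _ _ 4).1 h2

/-- a non-cyclic 2-group has two different subgroups of index two -/
theorem exists_two_index_two [Finite G] (hG : IsPGroup 2 G) (hc : ¬ IsCyclic G) :
    ∃ (M K : Subgroup G) (x : G), M.index = 2 ∧ K.index = 2 ∧ x ∉ M ∧ x ∈ K := by
  have : Fact (Nat.Prime 2) := ⟨Nat.prime_two⟩
  obtain ⟨n, hn⟩ := IsPGroup.iff_card.1 hG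
  rcases n with _ | m
  · exfalso
    have h1 : Nat.card G = 1 := by simpa using hn
    have := (Nat.card_eq_one_iff_unique.1 h1).1
    exact hc isCyclic_of_subsingleton
  have hidx : ∀ H : Subgroup G, Nat.card H = 2 ^ m → H.index = 2 := by
    intro H hH
    have h := Subgroup.index_mul_card H
    rw [hH, hn, pow_succ] at h
    have hpos : 0 < 2 ^ m := by positivity
    have : H.index * 2 ^ m = 2 * 2 ^ m := by rw [h]; ring
    exact Nat.eq_of_mul_eq_mul_right hpos this
  obtain ⟨M, hM⟩ := Sylow.exists_subgroup_card_pow_prime (G := G) 2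
    (n := m) (by rw [hn]; exact pow_dvd_pow 2 (Nat.le_succ m))
  have hMtop : M ≠ ⊤ := by
    intro h
    have := hidx M hM
    rw [h, Subgroup.index_top] at this
    omega
  obtain ⟨x, hx⟩ : ∃ x : G, x ∉ M := by
    by_contra h
    push Not at h
    exact hMtop (eq_top_iff.2 fun y _ => h y)
  have hox : orderOf x ∣ 2 ^ (m + 1) := by
    rw [← hn]; exact orderOf_dvd_natCard x
  obtain ⟨j, hj, hoj⟩ := (Nat.dvd_prime_pow Nat.prime_two).1 hox
  have hjm : j ≤ m := by
    by_contra h
    have : j = m + 1 := by omega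
    rw [this, ← hn] at hoj
    exact hc (isCyclic_of_orderOf_eq_card x hoj)
  obtain ⟨K, hK, hxK⟩ := Sylow.exists_subgroup_card_pow_prime_le (G := G) 2
    (m := m) (by rw [hn]; exact pow_dvd_pow 2 (Nat.le_succ m)) (Subgroup.zpowers x)
    (by rw [Nat.card_zpowers, hoj]) hjm
  exact ⟨M, K, x, hidx M hM, hidx K hK, hx, hxK (Subgroup.mem_zpowers x)⟩

/-- the sign homomorphism of a subgroup of index two -/
noncomputable def signHom (M : Subgroup G) (hM : M.index = 2) : G →* ℂˣ where
  toFun g := by classical exact if g ∈ M then 1 else -1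
  map_one' := by simp [M.one_mem]
  map_mul' a b := by
    classical
    have := Subgroup.mul_mem_iff_of_index_two hM (a := a) (b := b)
    by_cases ha : a ∈ M <;> by_cases hb : b ∈ M <;> simp [ha, hb, this]

theorem signHom_apply (M : Subgroup G) (hM : M.index = 2) (g : G) [Decidable (g ∈ M)] :
    ((signHom M hM g : ℂˣ) : ℂ) = if g ∈ M then 1 else -1 := by
  classical
  unfold signHom
  by_cases h : g ∈ M <;> simp [h]

/-- the sign character of a subgroup of index two -/
noncomputable def signChar (M : Subgroup G) (hM : M.index = 2) : G → ℂ :=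
  fun g => ((signHom M hM g : ℂˣ) : ℂ)

theorem signChar_lin (M : Subgroup G) (hM : M.index = 2) :
    IsCharacter G (signChar M hM) ∧ signChar M hM 1 = 1 :=
  (isCharacter_linear_iff _).2 ⟨signHom M hM, rfl⟩

theorem signChar_mem (M : Subgroup G) (hM : M.index = 2) {g : G} (hg : g ∈ M) :
    signChar M hM g = 1 := by
  classical
  unfold signChar
  rw [signHom_apply, if_pos hg]

theorem signChar_not_mem (M : Subgroup G) (hM : M.index = 2) {g : G} (hg : g ∉ M) :
    signChar M hM g = -1 := by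
  classical
  unfold signChar
  rw [signHom_apply, if_neg hg]

theorem signChar_real (M : Subgroup G) (hM : M.index = 2) (g : G) :
    (signChar M hM g).im = 0 := by
  by_cases hg : g ∈ M
  · rw [signChar_mem M hM hg]; simp
  · rw [signChar_not_mem M hM hg]; simp

theorem signChar_sq (M : Subgroup G) (hM : M.index = 2) (g : G) :
    signChar M hM g * signChar M hM g = 1 := by
  by_cases hg : g ∈ M
  · rw [signChar_mem M hM hg]; simp
  · rw [signChar_not_mem M hM hg]; simp

/-- in a non-cyclic 2-group the number of real linear characters is divisible by four -/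
theorem four_dvd_A [Finite G] [DecidableEq (IrrCharacter G)] (A : Finset (IrrCharacter G))
    (hA : ∀ χ, χ ∈ A ↔ ((χ : G → ℂ) 1 = 1 ∧ ∀ g, ((χ : G → ℂ) g).im = 0))
    (M K : Subgroup G) (x : G) (hM : M.index = 2) (hK : K.index = 2) (hxM : x ∉ M)
    (hxK : x ∈ K) : 4 ∣ A.card := by
  classical
  -- twisting by a sign character preserves A and is an involution
  have hmem : ∀ (H : Subgroup G) (hH : H.index = 2) (χ : IrrCharacter G), χ ∈ A →
      tw (signChar H hH) (signChar_lin H hH) χ ∈ A := by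
    intro H hH χ hχ
    rw [hA] at hχ ⊢
    refine ⟨by rw [tw_apply, (signChar_lin H hH).2, hχ.1, one_mul], fun g => ?_⟩
    rw [tw_apply, Complex.mul_im, hχ.2 g, signChar_real H hH g]
    simp
  have hinv : ∀ (H : Subgroup G) (hH : H.index = 2) (χ : IrrCharacter G),
      tw (signChar H hH) (signChar_lin H hH) (tw (signChar H hH) (signChar_lin H hH) χ) = χ := by
    intro H hH χ
    apply Subtype.ext
    funext g
    rw [tw_apply, tw_apply, ← mul_assoc, signChar_sq, one_mul]
  have hval : ∀ χ ∈ A, (χ : G → ℂ) x = 1 ∨ (χ : G → ℂ) x = -1 := by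
    intro χ hχ
    rw [hA] at hχ
    exact real_linear_cases (isCharacter_of_irr χ.2) hχ.1 hχ.2 x
  set P := A.filter (fun χ : IrrCharacter G => (χ : G → ℂ) x = 1) with hP
  set N := A.filter (fun χ : IrrCharacter G => ¬ (χ : G → ℂ) x = 1) with hN
  have hPN : P.card + N.card = A.card :=
    Finset.card_filter_add_card_filter_not (s := A) (fun χ : IrrCharacter G => (χ : G → ℂ) x = 1)
  have hcard : P.card = N.card := by
    refine Finset.card_nbij' (tw (signChar M hM) (signChar_lin M hM))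
      (tw (signChar M hM) (signChar_lin M hM)) ?_ ?_ ?_ ?_
    · intro χ hχ
      have hχ' := Finset.mem_filter.1 (Finset.mem_coe.1 hχ)
      refine Finset.mem_coe.2 (Finset.mem_filter.2 ⟨hmem M hM χ hχ'.1, ?_⟩)
      rw [tw_apply, signChar_not_mem M hM hxM, hχ'.2]
      norm_num
    · intro χ hχ
      have hχ' := Finset.mem_filter.1 (Finset.mem_coe.1 hχ)
      refine Finset.mem_coe.2 (Finset.mem_filter.2 ⟨hmem M hM χ hχ'.1, ?_⟩)
      rw [tw_apply, signChar_not_mem M hM hxM]
      rcases hval χ hχ'.1 with h | h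
      · exact absurd h hχ'.2
      · rw [h]; norm_num
    · intro χ _; exact hinv M hM χ
    · intro χ _; exact hinv M hM χ
  -- P has a fixed-point-free involution
  have hPeven : P.card % 2 = 0 := by
    have hpar := card_filter_fixed_parity P (tw (signChar K hK) (signChar_lin K hK))
      (fun χ hχ => by
        have hχ' := Finset.mem_filter.1 hχ
        refine Finset.mem_filter.2 ⟨hmem K hK χ hχ'.1, ?_⟩
        rw [tw_apply, signChar_mem K hK hxK, hχ'.2, one_mul])
      (fun χ _ => hinv K hK χ)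
    have hempty : (P.filter fun χ => tw (signChar K hK) (signChar_lin K hK) χ = χ) = ∅ := by
      rw [Finset.filter_eq_empty_iff]
      intro χ hχ hfix
      have hχ' := Finset.mem_filter.1 hχ
      have hχA := (hA χ).1 hχ'.1
      -- an element outside K
      obtain ⟨y, hy⟩ : ∃ y : G, y ∉ K := by
        by_contra h
        push Not at h
        have : K = ⊤ := eq_top_iff.2 fun y _ => h y
        rw [this, Subgroup.index_top] at hK
        omega
      have h1 := (tw_eq_iff _ _ χ).1 hfix y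
      rw [signChar_not_mem K hK hy] at h1
      have h2 : (χ : G → ℂ) y = 0 := by linear_combination (-1 / 2 : ℂ) * h1
      have h3 := real_linear_sq (isCharacter_of_irr χ.2) hχA.1 hχA.2 y
      rw [h2] at h3
      simp at h3
    rw [hempty, Finset.card_empty] at hpar
    omega
  omega

/-- the number of real characters of degree two fixed by a set of real linear characters
has the same parity as the number of all real characters of degree two -/
theorem fix_parity [Finite G] [DecidableEq (IrrCharacter G)] (A S : Finset (IrrCharacter G))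
    (hA : ∀ χ, χ ∈ A ↔ ((χ : G → ℂ) 1 = 1 ∧ ∀ g, ((χ : G → ℂ) g).im = 0))
    (hS : ∀ χ, χ ∈ S ↔ (charDegree (χ : G → ℂ) = 2 ∧ ∀ g, ((χ : G → ℂ) g).im = 0))
    (B : Finset (IrrCharacter G)) (hB : B ⊆ A) (F : Finset (IrrCharacter G))
    (hF : ∀ χ, χ ∈ F ↔ (χ ∈ S ∧
      ∀ μ ∈ B, ∀ g, (μ : G → ℂ) g * (χ : G → ℂ) g = (χ : G → ℂ) g)) :
    F.card % 2 = S.card % 2 := by
  classical
  have key : ∀ B : Finset (IrrCharacter G), B ⊆ A → (S.filter fun χ : IrrCharacter G =>
      ∀ μ ∈ B, ∀ g, (μ : G → ℂ) g * (χ : G → ℂ) g = (χ : G → ℂ) g).card % 2 = S.card % 2 := by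
    intro B hB
    induction B using Finset.induction_on with
    | empty => simp
    | insert μ B' hμB' ih =>
      have hμA : μ ∈ A := hB (Finset.mem_insert_self μ B')
      have hB' : B' ⊆ A := fun ν hν => hB (Finset.mem_insert_of_mem hν)
      have hμ := (hA μ).1 hμA
      have hμlin : IsCharacter G (μ : G → ℂ) ∧ (μ : G → ℂ) 1 = 1 :=
        ⟨isCharacter_of_irr μ.2, hμ.1⟩
      rw [← ih hB']
      set T := S.filter fun χ : IrrCharacter G =>
        ∀ ν ∈ B', ∀ g, (ν : G → ℂ) g * (χ : G → ℂ) g = (χ : G → ℂ) g with hT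
      have heq : (S.filter fun χ : IrrCharacter G =>
          ∀ ν ∈ insert μ B', ∀ g, (ν : G → ℂ) g * (χ : G → ℂ) g = (χ : G → ℂ) g)
          = T.filter fun χ => tw (μ : G → ℂ) hμlin χ = χ := by
        ext χ
        simp only [hT, Finset.mem_filter, Finset.forall_mem_insert, tw_eq_iff]
        tauto
      rw [heq]
      refine card_filter_fixed_parity T (tw (μ : G → ℂ) hμlin) ?_ ?_
      · intro χ hχ
        rw [hT, Finset.mem_filter] at hχ ⊢
        obtain ⟨hχS, hχfix⟩ := hχ
        rw [hS] at hχS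
        refine ⟨(hS _).2 ⟨by rw [charDegree_tw]; exact hχS.1, fun g => ?_⟩, fun ν hν g => ?_⟩
        · rw [tw_apply, Complex.mul_im, hχS.2 g, hμ.2 g]
          simp
        · rw [tw_apply, mul_left_comm, hχfix ν hν g]
      · intro χ _
        apply Subtype.ext
        funext g
        rw [tw_apply, tw_apply, ← mul_assoc, real_linear_sq hμlin.1 hμlin.2 hμ.2, one_mul]
  have hFeq : F = S.filter fun χ : IrrCharacter G =>
      ∀ μ ∈ B, ∀ g, (μ : G → ℂ) g * (χ : G → ℂ) g = (χ : G → ℂ) g := by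
    ext χ
    rw [hF, Finset.mem_filter]
  rw [hFeq]
  exact key B hB

/-- a non-real linear character of a 2-group has a power of order four -/
theorem exists_order_four [Finite G] (hG : IsPGroup 2 G) {μ : G → ℂ}
    (hμ : IsCharacter G μ ∧ μ 1 = 1) (hnr : ¬ ∀ g, (μ g).im = 0) :
    ∃ ν : G → ℂ, (IsCharacter G ν ∧ ν 1 = 1) ∧ (∀ g, ν g ^ 4 = 1) ∧ ∃ g, ν g ^ 2 ≠ 1 := by
  classical
  obtain ⟨n, hn⟩ := IsPGroup.iff_card.1 hG
  have hex : ∃ j : ℕ, μ ^ (2 ^ j) = 1 := ⟨n, by rw [← hn]; exact linear_pow_card_eq_one hμ⟩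
  have hj := Nat.find_spec hex
  have hmin : ∀ i, μ ^ (2 ^ i) = 1 → Nat.find hex ≤ i := fun i hi => Nat.find_min' hex hi
  set j := Nat.find hex with hjdef
  have hsq : (∀ g, μ g ^ 2 = 1) → False := by
    intro h
    apply hnr
    intro g
    have h1 : μ g * μ g = 1 := by rw [← sq]; exact h g
    rcases mul_self_eq_one_iff.1 h1 with h2 | h2 <;> rw [h2] <;> simp
  have hj2 : 2 ≤ j := by
    by_contra hlt
    push Not at hlt
    have hj1 : μ ^ 2 = 1 := by
      have : j = 0 ∨ j = 1 := by omega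
      rcases this with h | h
      · rw [h] at hj
        have : μ = 1 := by simpa using hj
        rw [this]; simp
      · rw [h] at hj
        simpa using hj
    exact hsq fun g => by
      have := congrFun hj1 g
      simpa using this
  obtain ⟨i, hi⟩ : ∃ i, j = i + 2 := ⟨j - 2, by omega⟩
  refine ⟨μ ^ (2 ^ i), isLinear_pow hμ (2 ^ i), fun g => ?_, ?_⟩
  · have := congrFun hj g
    rw [hi] at this
    simp only [Pi.pow_apply, Pi.one_apply] at this ⊢
    rw [← pow_mul]
    have h4 : 2 ^ i * 4 = 2 ^ (i + 2) := by ring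
    rw [h4]
    exact this
  · by_contra hall
    push Not at hall
    have h1 : μ ^ (2 ^ (i + 1)) = 1 := by
      funext g
      have := hall g
      simp only [Pi.pow_apply, Pi.one_apply] at this ⊢
      rw [← pow_mul] at this
      have h4 : 2 ^ i * 2 = 2 ^ (i + 1) := by ring
      rw [h4] at this
      exact this
    have := hmin (i + 1) h1
    omega

/-- Let G be a finite 2-group whose number of involutions is congruent to 1 modulo 4. Then G is cyclic or its commutator subgroup has index 4. -/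
theorem result {G : Type*} [Group G] [Finite G] (hG : IsPGroup 2 G) (ht : Nat.card {x : G // orderOf x = 2} % 4 = 1) : IsCyclic G ∨ (commutator G).index = 4 := by
  classical
  by_cases hc : IsCyclic G
  · exact Or.inl hc
  right
  let _ := Fintype.ofFinite G
  have := finite_irrCharacter G
  let _ := Fintype.ofFinite (IrrCharacter G)
  set A : Finset (IrrCharacter G) := Finset.univ.filter
    (fun χ : IrrCharacter G => (χ : G → ℂ) 1 = 1 ∧ ∀ g, ((χ : G → ℂ) g).im = 0) with hAdef
  set S : Finset (IrrCharacter G) := Finset.univ.filter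
    (fun χ : IrrCharacter G => charDegree (χ : G → ℂ) = 2 ∧ ∀ g, ((χ : G → ℂ) g).im = 0)
    with hSdef
  have hA : ∀ χ, χ ∈ A ↔ ((χ : G → ℂ) 1 = 1 ∧ ∀ g, ((χ : G → ℂ) g).im = 0) := by
    intro χ; simp [hAdef]
  have hS : ∀ χ, χ ∈ S ↔ (charDegree (χ : G → ℂ) = 2 ∧ ∀ g, ((χ : G → ℂ) g).im = 0) := by
    intro χ; simp [hSdef]
  have hfs := fs_mod_four hG A S hA hS
  rw [Cfsg.Agent.S4476.card_sq_one] at hfs
  obtain ⟨M, K, x, hM, hK, hxM, hxK⟩ := exists_two_index_two hG hc
  have hA4 := four_dvd_A A hA M K x hM hK hxM hxK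
  have hSodd : S.card % 2 = 1 := by omega
  -- the fixed set
  set F : Finset (IrrCharacter G) := S.filter (fun χ : IrrCharacter G =>
      ∀ μ ∈ A, ∀ g, (μ : G → ℂ) g * (χ : G → ℂ) g = (χ : G → ℂ) g) with hFdef
  have hF : ∀ χ, χ ∈ F ↔ (χ ∈ S ∧
      ∀ μ ∈ A, ∀ g, (μ : G → ℂ) g * (χ : G → ℂ) g = (χ : G → ℂ) g) := by
    intro χ; rw [hFdef, Finset.mem_filter]
  have hFodd : F.card % 2 = 1 := by
    rw [fix_parity A S hA hS A (Finset.Subset.refl A) F hF]; exact hSodd
  have hdeg2 : ∀ χ ∈ S, (χ : G → ℂ) 1 = 2 := by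
    intro χ hχ
    rw [hS] at hχ
    rw [← char_natCast_charDegree (isCharacter_of_irr χ.2), hχ.1]; simp
  -- |A| ≤ 4
  have hFne : F.Nonempty := by
    rw [← Finset.card_pos]; omega
  obtain ⟨χ₀, hχ₀⟩ := hFne
  have hA_le : A.card ≤ 4 :=
    card_le_four χ₀ (hdeg2 χ₀ ((hF χ₀).1 hχ₀).1) A ((hF χ₀).1 hχ₀).2
  have hApos : 0 < A.card := by
    have : Cfsg.Agent.S4476.triv G ∈ A := (hA _).2 ⟨rfl, fun g => by simp [Cfsg.Agent.S4476.triv]⟩
    exact Finset.card_pos.2 ⟨_, this⟩
  have hA_eq : A.card = 4 := by omega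
  -- all linear characters are real
  have hallreal : ∀ χ : IrrCharacter G, (χ : G → ℂ) 1 = 1 → ∀ g, ((χ : G → ℂ) g).im = 0 := by
    intro μ hμ1
    by_contra hnr
    obtain ⟨ν, hνlin, hν4, g₀, hg₀⟩ := exists_order_four hG ⟨isCharacter_of_irr μ.2, hμ1⟩ hnr
    have hν2lin := isLinear_pow hνlin 2
    have hν2A : (⟨ν ^ 2, isIrrCharacter_of_linear hν2lin.1 hν2lin.2⟩ : IrrCharacter G) ∈ A := by
      rw [hA]
      refine ⟨hν2lin.2, fun g => ?_⟩
      have h1 : ν g ^ 2 * ν g ^ 2 = 1 := by rw [← sq, ← pow_mul]; exact hν4 g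
      show ((ν ^ 2) g).im = 0
      rw [Pi.pow_apply]
      rcases mul_self_eq_one_iff.1 h1 with h | h <;> rw [h] <;> simp
    have hνfix : ∀ χ ∈ F, ∀ g, ν g ^ 2 * (χ : G → ℂ) g = (χ : G → ℂ) g := by
      intro χ hχ g
      exact ((hF χ).1 hχ).2 _ hν2A g
    set ν' : IrrCharacter G := ⟨ν, isIrrCharacter_of_linear hνlin.1 hνlin.2⟩ with hν'
    have hν'A : ν' ∉ A := by
      rw [hA]
      rintro ⟨_, hr⟩
      have h1 := real_linear_sq hνlin.1 hνlin.2 hr g₀
      exact hg₀ (by rw [sq]; exact h1)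
    have hpar := card_filter_fixed_parity F (tw ν hνlin) ?_ ?_
    · have hempty : (F.filter fun χ => tw ν hνlin χ = χ) = ∅ := by
        rw [Finset.filter_eq_empty_iff]
        intro χ hχ hfix
        have hχF := (hF χ).1 hχ
        have h5 := card_le_four χ (hdeg2 χ hχF.1) (insert ν' A) (by
          intro μ' hμ' g
          rcases Finset.mem_insert.1 hμ' with h | h
          · rw [h]; exact (tw_eq_iff ν hνlin χ).1 hfix g
          · exact hχF.2 μ' h g)
        rw [Finset.card_insert_of_notMem hν'A] at h5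
        omega
      rw [hempty, Finset.card_empty] at hpar
      omega
    · intro χ hχ
      have hχF := (hF χ).1 hχ
      have hχS := (hS χ).1 hχF.1
      rw [hF]
      refine ⟨(hS _).2 ⟨by rw [charDegree_tw]; exact hχS.1, fun g => ?_⟩, fun μ' hμ' g => ?_⟩
      · rw [tw_apply]
        by_cases h0 : (χ : G → ℂ) g = 0
        · rw [h0]; simp
        · have h1 : ν g ^ 2 = 1 := by
            have := hνfix χ hχ g
            exact mul_right_cancel₀ h0 (by rw [this, one_mul])
          have h2 : ν g * ν g = 1 := by rw [← sq]; exact h1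
          rw [Complex.mul_im, hχS.2 g]
          rcases mul_self_eq_one_iff.1 h2 with h | h <;> rw [h] <;> simp
      · rw [tw_apply, mul_left_comm, hχF.2 μ' hμ' g]
    · intro χ hχ
      apply Subtype.ext
      funext g
      rw [tw_apply, tw_apply, ← mul_assoc, ← sq]
      exact hνfix χ hχ g
  -- count the linear characters
  rw [← Cfsg.Agent.S0154.result]
  rw [Nat.card_eq_fintype_card, Fintype.card_subtype]
  have hfin : (Finset.univ.filter fun χ : IrrCharacter G => (χ : G → ℂ) 1 = 1) = A := by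
    ext χ
    simp only [Finset.mem_filter, Finset.mem_univ, true_and, hA]
    exact ⟨fun h => ⟨h, hallreal χ h⟩, fun h => h.1⟩
  rw [hfin, hA_eq]

end Cfsg.Agent.S4477
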