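import Cfsg.Statements.S4479
import Cfsg.Agent.Lib.Helper17.KleinOrder
import Cfsg.Agent.Lib.Helper17.KleinG0

set_option autoImplicit false
open Cfsg

namespace Cfsg.Agent.S4479

open Cfsg.Agent.Lib.CT.Wedderburn in
/-- An order formula from the principal 2-block. Let G be a finite group of order 4·g₀ with g₀ odd having no normal 2-complement (no normal subgroup of order g₀); let P be a Sylow 2-subgroup, J an involution of P, and fix a maximal ideal M of the algebraic integers containing 2. Suppose the principal 2-block consists of the principal character and three further distinct characters χ₁, χ₂, χ₃ of degrees x₁, x₂, x₃, with χ_i(J) = ε_i = ±1. Then, writing c(J) and c(P) for the orders of the centralizers of J and of P, the order of G equals 8·α·c(J)³/c(P)² with α = x₁x₂x₃ / ((x₁ + ε₁)(x₂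 + ε₂)(x₃ + ε₃)). -/
theorem result {G : Type*} [Group G] [Finite G] (M : Ideal Cfsg.AlgInt) (hM : Cfsg.IsPModular 2 M) (g₀ : ℕ) (hg₀ : Odd g₀) (hG : Nat.card G = 4 * g₀) (hnc : ¬ ∃ N : Subgroup G, N.Normal ∧ Nat.card N = g₀) (P : Sylow 2 G) (J : G) (hJ : J ∈ (P : Subgroup G)) (hJ2 : orderOf J = 2) (χ₁ χ₂ χ₃ : Cfsg.IrrCharacter G) (ε₁ ε₂ ε₃ : ℤ) (hB : Cfsg.principalBlock M G = {χ : Cfsg.IrrCharacter G | (χ : G → ℂ) = (fun _ => 1) ∨ χ = χ₁ ∨ χ = χ₂ ∨ χ = χ₃}) (hdist : (χ₁ : G → ℂ) ≠ (fun _ => 1) ∧ (χ₂ : G → ℂ) ≠ (fun _ => 1) ∧ (χ₃ : G → ℂ) ≠ (fun _ => 1) ∧ χ₁ ≠ χ₂ ∧ χ₁ ≠ χ₃ ∧ χ₂ ≠ χ₃) (hε : (ε₁ = 1 ∨ ε₁ = -1) ∧ (ε₂ = 1 ∨ ε₂ = -1) ∧ (ε₃ = 1 ∨ ε₃ = -1)) (hval : (χ₁ : G → ℂ) J = ε₁ ∧ (χ₂ : G → ℂ) J = ε₂ ∧ (χ₃ : G → ℂ) J = ε₃) : (Nat.card G : ℚ) = 8 * (((Cfsg.charDegree (χ₁ : G → ℂ) : ℚ) * Cfsg.charDegree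 (χ₂ : G → ℂ) * Cfsg.charDegree (χ₃ : G → ℂ)) / ((Cfsg.charDegree (χ₁ : G → ℂ) + ε₁) * (Cfsg.charDegree (χ₂ : G → ℂ) + ε₂) * (Cfsg.charDegree (χ₃ : G → ℂ) + ε₃))) * (Nat.card (Subgroup.centralizer ({J} : Set G)) : ℚ) ^ 3 / (Nat.card (Subgroup.centralizer ((P : Subgroup G) : Set G)) : ℚ) ^ 2 := by
  classical
  obtain ⟨hP, hexp, hone⟩ :=
    Cfsg.Agent.Lib.Helper17.KleinG0.klein_of_no_complement g₀ hg₀ hG hnc P J hJ hJ2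
  have hF := Cfsg.Agent.Lib.Helper17.KleinOrder.order_formula M hM P hP hexp hone J hJ hJ2
    χ₁ χ₂ χ₃ ε₁ ε₂ ε₃ hB hdist hε hval
  have hD := Cfsg.Agent.Lib.Helper17.KleinChar.degree_equation M hM J hJ2 χ₁ χ₂ χ₃ ε₁ ε₂ ε₃
    hB hdist hval
  have hx1 := char_natCast_charDegree (isCharacter_of_irr χ₁.2)
  have hx2 := char_natCast_charDegree (isCharacter_of_irr χ₂.2)
  have hx3 := char_natCast_charDegree (isCharacter_of_irr χ₃.2)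
  have hp1 := irr_charDegree_pos χ₁.2
  have hp2 := irr_charDegree_pos χ₂.2
  have hp3 := irr_charDegree_pos χ₃.2
  rw [← hx1, ← hx2, ← hx3] at hF hD
  set x₁ := Cfsg.charDegree (χ₁ : G → ℂ) with hx₁
  set x₂ := Cfsg.charDegree (χ₂ : G → ℂ) with hx₂
  set x₃ := Cfsg.charDegree (χ₃ : G → ℂ) with hx₃
  set cJ := Nat.card (Subgroup.centralizer ({J} : Set G)) with hcJ
  set cP := Nat.card (Subgroup.centralizer ((P : Subgroup G) : Set G)) with hcP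
  have hcJ0 : 0 < cJ := Nat.card_pos
  have hcP0 : 0 < cP := Nat.card_pos
  have hε2 : ∀ ε : ℤ, (ε = 1 ∨ ε = -1) → (ε : ℂ) * ε = 1 := by
    rintro ε (rfl | rfl) <;> norm_num
  have e1 := hε2 ε₁ hε.1
  have e2 := hε2 ε₂ hε.2.1
  have e3 := hε2 ε₃ hε.2.2
  have h1 : (x₁ : ℂ) ≠ 0 := by exact_mod_cast hp1.ne'
  have h2 : (x₂ : ℂ) ≠ 0 := by exact_mod_cast hp2.ne'
  have h3 : (x₃ : ℂ) ≠ 0 := by exact_mod_cast hp3.ne'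
  -- the multiplied-out formula over `ℂ`
  have key : (Nat.card G : ℂ) * (((x₁ : ℂ) + ε₁) * ((x₂ : ℂ) + ε₂) * ((x₃ : ℂ) + ε₃))
      * (cP : ℂ) ^ 2 = 8 * (cJ : ℂ) ^ 3 * ((x₁ : ℂ) * x₂ * x₃) := by
    have this : (ε₁ : ℂ) * ε₂ * x₃ + ε₁ * ε₃ * x₂ + ε₂ * ε₃ * x₁ + ε₁ * ε₂ * ε₃ = 0 := by
      linear_combination ((ε₁ : ℂ) * ε₂ * ε₃) * hD - (ε₁ : ℂ) * ε₂ * x₃ * e3
        - (ε₁ : ℂ) * ε₃ * x₂ * e2 - (ε₂ : ℂ) * ε₃ * x₁ * e1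
    have hX' : (x₁ : ℂ) * x₂ * x₃ * (1 + ε₁ / (x₁ : ℂ) + ε₂ / (x₂ : ℂ) + ε₃ / (x₃ : ℂ))
        = (x₁ : ℂ) * x₂ * x₃ + ε₁ * x₂ * x₃ + ε₂ * x₁ * x₃ + ε₃ * x₁ * x₂ := by
      field_simp
    have hX : ((x₁ : ℂ) + ε₁) * ((x₂ : ℂ) + ε₂) * ((x₃ : ℂ) + ε₃)
        = (x₁ : ℂ) * x₂ * x₃ * (1 + ε₁ / (x₁ : ℂ) + ε₂ / (x₂ : ℂ) + ε₃ / (x₃ : ℂ)) := by
      rw [hX']
      linear_combination this
    rw [hX]
    linear_combination ((x₁ : ℂ) * x₂ * x₃) * hF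
  have keyQ : (Nat.card G : ℚ) * (((x₁ : ℚ) + ε₁) * ((x₂ : ℚ) + ε₂) * ((x₃ : ℚ) + ε₃))
      * (cP : ℚ) ^ 2 = 8 * (cJ : ℚ) ^ 3 * ((x₁ : ℚ) * x₂ * x₃) := by
    exact_mod_cast key
  have hcP' : (cP : ℚ) ≠ 0 := by exact_mod_cast hcP0.ne'
  have hcJ' : (cJ : ℚ) ≠ 0 := by exact_mod_cast hcJ0.ne'
  have h1' : (x₁ : ℚ) ≠ 0 := by exact_mod_cast hp1.ne'
  have h2' : (x₂ : ℚ) ≠ 0 := by exact_mod_cast hp2.ne'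
  have h3' : (x₃ : ℚ) ≠ 0 := by exact_mod_cast hp3.ne'
  have hPi : ((x₁ : ℚ) + ε₁) * ((x₂ : ℚ) + ε₂) * ((x₃ : ℚ) + ε₃) ≠ 0 := by
    intro h0
    rw [h0] at keyQ
    have : (8 : ℚ) * (cJ : ℚ) ^ 3 * ((x₁ : ℚ) * x₂ * x₃) ≠ 0 := by positivity
    apply this
    rw [← keyQ]
    ring
  rw [eq_div_iff (pow_ne_zero 2 hcP')]
  have hr : 8 * ((x₁ : ℚ) * x₂ * x₃ / (((x₁ : ℚ) + ε₁) * ((x₂ : ℚ) + ε₂) * ((x₃ : ℚ) + ε₃)))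
      * (cJ : ℚ) ^ 3 = 8 * ((x₁ : ℚ) * x₂ * x₃) * (cJ : ℚ) ^ 3
        / (((x₁ : ℚ) + ε₁) * ((x₂ : ℚ) + ε₂) * ((x₃ : ℚ) + ε₃)) := by ring
  rw [hr, eq_div_iff hPi]
  linear_combination keyQ

end Cfsg.Agent.S4479
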