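import Cfsg.Statements.S4494
import Cfsg.Agent.Lib.Helper82.Contrib

set_option autoImplicit false
open Cfsg

namespace Cfsg.Agent.S4494

open Cfsg.Agent.Lib.Helper82.Contrib
open Cfsg.Agent.Lib.Helper77.LocalRing

/-- The Brauer–Feit bound. Let B be a p-block of the finite group G (relative to a maximal ideal M of the algebraic integers containing p) and let d be its defect. Then the number k(B) of irreducible characters in B satisfies k(B) ≤ p^(2d)/4 + 1, stated here as 4·k(B) ≤ p^(2d) + 4. -/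
theorem result {G : Type*} [Group G] [Finite G] (p : ℕ) [Fact p.Prime] (M : Ideal Cfsg.AlgInt) (hM : Cfsg.IsPModular p M) (B : Set (Cfsg.IrrCharacter G)) (hB : Cfsg.IsPBlock M B) : 4 * Nat.card B ≤ p ^ (2 * Cfsg.blockDefect p B) + 4 := by
  classical
  have hpp : p.Prime := Fact.out
  have hMp : M.IsPrime := isPrime_of_isPModular hM
  have : Fintype G := Fintype.ofFinite G
  have := Cfsg.Agent.Lib.CT.Wedderburn.finite_irrCharacter G
  have : Fintype (IrrCharacter G) := Fintype.ofFinite _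
  obtain ⟨χ₀, hχ₀⟩ := Cfsg.Agent.Lib.CT.DefectZeroBlock.isPBlock_nonempty hMp hB
  have hne : ((fun ψ : IrrCharacter G => (charDegree (ψ : G → ℂ)).factorization p) '' B).Nonempty :=
    ⟨_, χ₀, hχ₀, rfl⟩
  obtain ⟨χ₁, hχ₁, hχ₁e⟩ := Nat.sInf_mem hne
  have hχ₁e' : (charDegree (χ₁ : G → ℂ)).factorization p
      = sInf ((fun ψ : IrrCharacter G => (charDegree (ψ : G → ℂ)).factorization p) '' B) := hχ₁e
  have hmin : ∀ ξ ∈ B, (charDegree (χ₁ : G → ℂ)).factorization p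
      ≤ (charDegree (ξ : G → ℂ)).factorization p := by
    intro ξ hξ
    rw [hχ₁e']
    exact Nat.sInf_le ⟨ξ, hξ, rfl⟩
  have hdef : blockDefect p B = (Nat.card G).factorization p
      - (charDegree (χ₁ : G → ℂ)).factorization p := by
    rw [hχ₁e']
    rfl
  have hea : (charDegree (χ₁ : G → ℂ)).factorization p ≤ (Nat.card G).factorization p :=
    Cfsg.Agent.Lib.CT.DefectZeroBlock.factorization_charDegree_le p χ₁
  obtain ⟨e, he⟩ : ∃ e, e = (charDegree (χ₁ : G → ℂ)).factorization p := ⟨_, rfl⟩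
  obtain ⟨d, hd⟩ : ∃ d, d = blockDefect p B := ⟨_, rfl⟩
  have hadd : (Nat.card G).factorization p = e + d := by
    rw [he, hd, hdef]
    omega
  have hdiv : ∀ ξ : IrrCharacter G, ∃ q : ℤ, ctr p χ₁ ξ = (p : ℤ) ^ e * q := by
    intro ξ
    rw [he]
    exact pow_dvd_ctr p hM χ₁ ξ
  choose m hm using hdiv
  have hm0 : ∀ ξ ∈ B, m ξ ≠ 0 := by
    intro ξ hξ h0
    apply not_dvd_ctr_of_min p hM B hB χ₁ ξ hχ₁ hξ hmin
    rw [hm ξ, h0, mul_zero]
    exact dvd_zero _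
  have hp0 : (p : ℤ) ≠ 0 := Int.natCast_ne_zero.2 hpp.ne_zero
  have hsum : ∑ ξ : IrrCharacter G, m ξ ^ 2 = (p : ℤ) ^ d * m χ₁ := by
    have h1 := sum_ctr_sq p χ₁
    rw [hadd] at h1
    have hpe : (p : ℤ) ^ (2 * e) ≠ 0 := pow_ne_zero _ hp0
    apply mul_left_cancel₀ hpe
    rw [Finset.mul_sum]
    calc ∑ ξ : IrrCharacter G, (p : ℤ) ^ (2 * e) * m ξ ^ 2
        = ∑ ξ : IrrCharacter G, ctr p χ₁ ξ ^ 2 := by
          refine Finset.sum_congr rfl fun ξ _ => ?_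
          rw [hm ξ]
          ring
      _ = (p : ℤ) ^ (e + d) * ctr p χ₁ χ₁ := h1
      _ = (p : ℤ) ^ (2 * e) * ((p : ℤ) ^ d * m χ₁) := by
          rw [hm χ₁]
          ring
  -- count
  have hcard : Nat.card B = (Finset.univ.filter (fun ξ : IrrCharacter G => ξ ∈ B)).card := by
    rw [Nat.card_eq_fintype_card, Fintype.card_subtype]
  have hmem : χ₁ ∈ Finset.univ.filter (fun ξ : IrrCharacter G => ξ ∈ B) :=
    Finset.mem_filter.2 ⟨Finset.mem_univ _, hχ₁⟩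
  have h1 : ∑ ξ ∈ Finset.univ.filter (fun ξ : IrrCharacter G => ξ ∈ B), m ξ ^ 2
      ≤ ∑ ξ : IrrCharacter G, m ξ ^ 2 :=
    Finset.sum_le_sum_of_subset_of_nonneg (Finset.subset_univ _) (fun _ _ _ => sq_nonneg _)
  have h2 : m χ₁ ^ 2 + ∑ ξ ∈ (Finset.univ.filter (fun ξ : IrrCharacter G => ξ ∈ B)).erase χ₁,
      m ξ ^ 2 = ∑ ξ ∈ Finset.univ.filter (fun ξ : IrrCharacter G => ξ ∈ B), m ξ ^ 2 :=
    Finset.add_sum_erase _ (fun ξ : IrrCharacter G => m ξ ^ 2) hmem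
  have h3 : (((Finset.univ.filter (fun ξ : IrrCharacter G => ξ ∈ B)).erase χ₁).card : ℤ)
      ≤ ∑ ξ ∈ (Finset.univ.filter (fun ξ : IrrCharacter G => ξ ∈ B)).erase χ₁, m ξ ^ 2 := by
    have h4 : (((Finset.univ.filter (fun ξ : IrrCharacter G => ξ ∈ B)).erase χ₁).card : ℤ)
        = ∑ ξ ∈ (Finset.univ.filter (fun ξ : IrrCharacter G => ξ ∈ B)).erase χ₁, (1 : ℤ) := by
      rw [Finset.sum_const, nsmul_eq_mul, mul_one]
    rw [h4]
    apply Finset.sum_le_sum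
    intro ξ hξ
    have hξB : ξ ∈ B := (Finset.mem_filter.1 (Finset.mem_of_mem_erase hξ)).2
    have h5 : 0 < m ξ ^ 2 := by
      have := hm0 ξ hξB
      positivity
    omega
  have h6 : ((Finset.univ.filter (fun ξ : IrrCharacter G => ξ ∈ B)).erase χ₁).card
      = (Finset.univ.filter (fun ξ : IrrCharacter G => ξ ∈ B)).card - 1 :=
    Finset.card_erase_of_mem hmem
  have h7 : 0 < (Finset.univ.filter (fun ξ : IrrCharacter G => ξ ∈ B)).card :=
    Finset.card_pos.2 ⟨χ₁, hmem⟩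
  have h8 : ((Nat.card B : ℕ) : ℤ) - 1 + m χ₁ ^ 2 ≤ (p : ℤ) ^ d * m χ₁ := by
    rw [← hsum, hcard]
    have h9 : (((Finset.univ.filter (fun ξ : IrrCharacter G => ξ ∈ B)).card : ℕ) : ℤ) - 1
        = (((Finset.univ.filter (fun ξ : IrrCharacter G => ξ ∈ B)).erase χ₁).card : ℤ) := by
      rw [h6]
      omega
    rw [h9]
    linarith
  have h10 : (4 : ℤ) * ((Nat.card B : ℕ) : ℤ) ≤ (p : ℤ) ^ (2 * d) + 4 := by
    have h11 : (p : ℤ) ^ (2 * d) = ((p : ℤ) ^ d) ^ 2 := by rw [mul_comm, pow_mul]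
    rw [h11]
    nlinarith [sq_nonneg ((p : ℤ) ^ d - 2 * m χ₁)]
  rw [← hd]
  exact_mod_cast h10

end Cfsg.Agent.S4494
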