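import Cfsg.Statements.S4483
import Cfsg.Agent.S4494
import Cfsg.Agent.Lib.Helper75.BlockOrth2
import Cfsg.Agent.Lib.CT.Ops

set_option autoImplicit false
open Cfsg

namespace Cfsg.Agent.S4483

open Cfsg.Agent.Lib.Helper77.LocalRing
open scoped ComplexConjugate

/-- A real-valued irreducible character of odd degree lies in the principal `2`-block. -/
theorem mem_principal {G : Type*} [Group G] [Finite G] (M : Ideal AlgInt)
    (hM : IsPModular 2 M) (χ : IrrCharacter G) (hreal : ∀ g : G, ((χ : G → ℂ) g).im = 0)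
    (hodd : Odd (charDegree (χ : G → ℂ))) : χ ∈ principalBlock M G := by
  classical
  have hMp : M.IsPrime := isPrime_of_isPModular hM
  have : Fintype G := Fintype.ofFinite G
  have : Fact (Nat.Prime 2) := ⟨Nat.prime_two⟩
  by_contra hnot
  have hns : ¬ SameBlock M
      ((⟨fun _ => 1, Cfsg.Agent.Lib.CT.Ops.isIrrCharacter_one⟩ : IrrCharacter G) : G → ℂ)
      (χ : G → ℂ) := hnot
  have h0 := Cfsg.Agent.Lib.Helper75.BlockOrth2.sum_pRegular_eq_zero_of_not_sameBlock 2 M hM
    (⟨fun _ => 1, Cfsg.Agent.Lib.CT.Ops.isIrrCharacter_one⟩ : IrrCharacter G) χ hns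
  have hconj : ∀ g : G, conj ((χ : G → ℂ) g) = (χ : G → ℂ) g := fun g =>
    Complex.conj_eq_iff_im.2 (hreal g)
  have hinv : ∀ g : G, (χ : G → ℂ) g⁻¹ = (χ : G → ℂ) g := fun g => by
    rw [Cfsg.Agent.Lib.CT.Wedderburn.char_apply_inv
      (Cfsg.Agent.Lib.CT.Wedderburn.isCharacter_of_irr χ.2) g, hconj g]
  -- the sum over the elements of odd order
  have h1 : ∑ g ∈ Finset.univ.filter (fun g : G => ¬ 2 ∣ orderOf g), (χ : G → ℂ) g = 0 := by
    rw [finsum_mem_def, finsum_eq_sum_of_fintype] at h0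
    rw [Finset.sum_filter]
    refine Eq.trans (Finset.sum_congr rfl fun g _ => ?_) h0
    rw [Set.indicator_apply]
    by_cases hg : 2 ∣ orderOf g
    · rw [if_neg (not_not.2 hg), if_neg (fun h : g ∈ {x : G | ¬ 2 ∣ orderOf x} => h hg)]
    · rw [if_pos hg, if_pos (show g ∈ {x : G | ¬ 2 ∣ orderOf x} from hg), hconj g, one_mul]
  have h1reg : ¬ 2 ∣ orderOf (1 : G) := by
    rw [orderOf_one]
    norm_num
  have hsplit : Finset.univ.filter (fun g : G => ¬ 2 ∣ orderOf g)
      = insert 1 (Finset.univ.filter (fun g : G => ¬ 2 ∣ orderOf g ∧ g ≠ 1)) := by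
    ext g
    simp only [Finset.mem_filter, Finset.mem_univ, true_and, Finset.mem_insert]
    constructor
    · intro h
      by_cases hg : g = 1
      · exact Or.inl hg
      · exact Or.inr ⟨h, hg⟩
    · rintro (h | h)
      · rw [h]
        exact h1reg
      · exact h.1
  have hnotmem : (1 : G) ∉ Finset.univ.filter (fun g : G => ¬ 2 ∣ orderOf g ∧ g ≠ 1) := by
    simp
  rw [hsplit, Finset.sum_insert hnotmem] at h1
  -- the sum over the nontrivial elements of odd order lies in `M`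
  have hT : (∑ g ∈ Finset.univ.filter (fun g : G => ¬ 2 ∣ orderOf g ∧ g ≠ 1),
      (⟨(χ : G → ℂ) g, Cfsg.Agent.Lib.Helper80.Integrality.isIntegral_irrCharacter χ g⟩
        : AlgInt)) ∈ M := by
    rw [← Ideal.Quotient.eq_zero_iff_mem, map_sum]
    refine Finset.sum_involution (fun g _ => g⁻¹) ?_ ?_ ?_ ?_
    · intro g _
      have h2 : (⟨(χ : G → ℂ) g⁻¹,
          Cfsg.Agent.Lib.Helper80.Integrality.isIntegral_irrCharacter χ g⁻¹⟩ : AlgInt)
          = ⟨(χ : G → ℂ) g, Cfsg.Agent.Lib.Helper80.Integrality.isIntegral_irrCharacter χ g⟩ :=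
        Subtype.ext (hinv g)
      rw [h2, ← map_add, Ideal.Quotient.eq_zero_iff_mem, ← two_mul]
      have h3 : ((2 : ℕ) : AlgInt) ∈ M := hM.2.2
      exact M.mul_mem_right _ (by exact_mod_cast h3)
    · intro g hg _ hgg
      obtain ⟨hg2, hg1⟩ := (Finset.mem_filter.1 hg).2
      have h4 : g ^ 2 = 1 := by
        rw [sq]
        nth_rewrite 1 [← hgg]
        exact inv_mul_cancel g
      have h5 : orderOf g ∣ 2 := orderOf_dvd_of_pow_eq_one h4
      rcases (Nat.dvd_prime Nat.prime_two).1 h5 with h6 | h6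
      · exact hg1 (orderOf_eq_one_iff.1 h6)
      · exact hg2 (h6 ▸ dvd_refl _)
    · intro g hg
      obtain ⟨hg2, hg1⟩ := (Finset.mem_filter.1 hg).2
      refine Finset.mem_filter.2 ⟨Finset.mem_univ _, ?_, ?_⟩
      · rwa [orderOf_inv]
      · rwa [Ne, inv_eq_one]
    · intro g _
      exact inv_inv g
  -- conclusion
  have h7 : ((charDegree (χ : G → ℂ) : ℕ) : ℂ)
      = ((-(∑ g ∈ Finset.univ.filter (fun g : G => ¬ 2 ∣ orderOf g ∧ g ≠ 1),
        (⟨(χ : G → ℂ) g, Cfsg.Agent.Lib.Helper80.Integrality.isIntegral_irrCharacter χ g⟩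
          : AlgInt)) : AlgInt) : ℂ) := by
    rw [Cfsg.Agent.Lib.CT.Wedderburn.char_natCast_charDegree
      (Cfsg.Agent.Lib.CT.Wedderburn.isCharacter_of_irr χ.2)]
    push_cast
    linear_combination h1
  have h8 : MemLocalIdeal M ((charDegree (χ : G → ℂ) : ℕ) : ℂ) := by
    rw [h7]
    exact (memLocalIdeal_algInt_iff hMp _).2 (M.neg_mem hT)
  have h9 : 2 ∣ charDegree (χ : G → ℂ) := (memLocalIdeal_natCast_iff hM _).1 h8
  exact (Nat.not_even_iff_odd.2 hodd) (even_iff_two_dvd.2 h9)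

/-- Let G be a finite group of order 2^n·g₀ with g₀ odd, and M a maximal ideal of the algebraic integers containing 2. Every real-valued irreducible character of G of odd degree lies in the principal 2-block; consequently G has at most 2^(2n) real-valued irreducible characters of odd degree. -/
theorem result {G : Type*} [Group G] [Finite G] (M : Ideal Cfsg.AlgInt) (hM : Cfsg.IsPModular 2 M) : (∀ χ : Cfsg.IrrCharacter G, (∀ g : G, ((χ : G → ℂ) g).im = 0) → Odd (Cfsg.charDegree (χ : G → ℂ)) → χ ∈ Cfsg.principalBlock M G) ∧ Nat.card {χ : Cfsg.IrrCharacter G // (∀ g : G, ((χ : G → ℂ) g).im = 0) ∧ Odd (Cfsg.charDegree (χ : G → ℂ))} ≤ 2 ^ (2 * (Nat.card G).factorization 2) := by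
  classical
  have : Fact (Nat.Prime 2) := ⟨Nat.prime_two⟩
  have := Cfsg.Agent.Lib.CT.Wedderburn.finite_irrCharacter G
  refine ⟨fun χ h1 h2 => mem_principal M hM χ h1 h2, ?_⟩
  have hB : IsPBlock M (principalBlock M G) :=
    ⟨⟨fun _ => 1, Cfsg.Agent.Lib.CT.Ops.isIrrCharacter_one⟩, rfl⟩
  have h1 := Cfsg.Agent.S4494.result 2 M hM (principalBlock M G) hB
  have h2 : Nat.card {χ : IrrCharacter G // (∀ g : G, ((χ : G → ℂ) g).im = 0)
      ∧ Odd (charDegree (χ : G → ℂ))} ≤ Nat.card (principalBlock M G) := by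
    apply Nat.card_le_card_of_injective
      (fun χ : {χ : IrrCharacter G // (∀ g : G, ((χ : G → ℂ) g).im = 0)
        ∧ Odd (charDegree (χ : G → ℂ))} =>
        (⟨χ.1, mem_principal M hM χ.1 χ.2.1 χ.2.2⟩ : principalBlock M G))
    intro a b hab
    exact Subtype.ext (congrArg (fun x : principalBlock M G => (x : IrrCharacter G)) hab)
  have h3 : blockDefect 2 (principalBlock M G) ≤ (Nat.card G).factorization 2 := by
    unfold blockDefect
    exact Nat.sub_le _ _
  have h4 : 2 ^ (2 * blockDefect 2 (principalBlock M G))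
      ≤ 2 ^ (2 * (Nat.card G).factorization 2) :=
    Nat.pow_le_pow_right (by norm_num) (by omega)
  have h5 : 1 ≤ 2 ^ (2 * (Nat.card G).factorization 2) := Nat.one_le_two_pow
  omega

end Cfsg.Agent.S4483
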