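import Cfsg.Statements.S4484
-- import your own Cfsg.Agent.* helpers here
import Mathlib
import Cfsg.Agent.S4466
import Cfsg.Agent.Lib.Helper78.Blich60
import Cfsg.Agent.Lib.Helper78.UnitaryRep
import Cfsg.Agent.Lib.Helper78.GaloisPQ
import Cfsg.Agent.Lib.Helper78.HallBig
import Cfsg.Agent.Lib.CT.ColumnId
import Cfsg.Agent.Lib.CT.ThirdMain
import Cfsg.Agent.Lib.CT.Knorr
import Cfsg.Agent.Lib.CT.Wedderburn
import Cfsg.Agent.Lib.Helper77.LocalRing
import Cfsg.Agent.Lib.Helper77.IdemTrace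
import Cfsg.Agent.Lib.Helper80.Integrality

set_option autoImplicit false
open Cfsg

namespace Cfsg.Agent.S4484

open Cfsg.Agent.Lib.CT.Wedderburn Cfsg.Agent.Lib.Helper77.LocalRing
open Cfsg.Agent.Lib.Helper80.Integrality

universe u

/-- A simple group of order divisible by `p` and different from `p` is nonabelian. -/
theorem nonabelian {G : Type u} [Group G] [Finite G] [IsSimpleGroup G] (p : ℕ) (hp : p.Prime)
    (hdvd : p ∣ Nat.card G) (hne : Nat.card G ≠ p) : ¬ ∀ a b : G, a * b = b * a := by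
  intro hcomm
  have := Fact.mk hp
  obtain ⟨x, hx⟩ := exists_prime_orderOf_dvd_card' p hdvd
  have hN : (Subgroup.zpowers x).Normal := by
    constructor
    intro n hn g
    rw [hcomm g n, mul_inv_cancel_right]
    exact hn
  rcases hN.eq_bot_or_eq_top with h | h
  · rw [Subgroup.zpowers_eq_bot] at h
    rw [h, orderOf_one] at hx
    exact hp.one_lt.ne hx
  · apply hne
    rw [← Subgroup.card_top (G := G), ← h, Nat.card_zpowers, hx]

/-- An element of order `p` in the centre of a Sylow `p`-subgroup. -/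
theorem exists_central_p {G : Type u} [Group G] [Finite G] (p : ℕ) (hp : p.Prime)
    (hdvd : p ∣ Nat.card G) :
    ∃ x : G, orderOf x = p ∧ ¬ p ∣ (Subgroup.centralizer ({x} : Set G)).index := by
  have := Fact.mk hp
  obtain ⟨P⟩ : Nonempty (Sylow p G) := inferInstance
  have hPne : (P : Subgroup G) ≠ ⊥ := P.ne_bot_of_dvd_card hdvd
  have : Nontrivial (P : Subgroup G) := (Subgroup.nontrivial_iff_ne_bot _).2 hPne
  have hPp : IsPGroup p (P : Subgroup G) := P.isPGroup'
  have hZ : Nontrivial (Subgroup.center (P : Subgroup G)) := hPp.center_nontrivial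
  have hZp : IsPGroup p (Subgroup.center (P : Subgroup G)) := hPp.to_subgroup _
  have hZd : p ∣ Nat.card (Subgroup.center (P : Subgroup G)) := by
    rcases hZp.card_eq_or_dvd with h | h
    · exfalso
      have := Finite.one_lt_card (α := Subgroup.center (P : Subgroup G))
      omega
    · exact h
  obtain ⟨z, hz⟩ := exists_prime_orderOf_dvd_card' p hZd
  refine ⟨((z : (P : Subgroup G)) : G), ?_, ?_⟩
  · rw [Subgroup.orderOf_coe, Subgroup.orderOf_coe, hz]
  · intro hd
    have hle : (P : Subgroup G)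
        ≤ Subgroup.centralizer ({((z : (P : Subgroup G)) : G)} : Set G) := by
      intro y hy
      rw [Subgroup.mem_centralizer_singleton_iff]
      have h1 := Subgroup.mem_center_iff.1 z.2 ⟨y, hy⟩
      exact congrArg Subtype.val h1
    exact P.not_dvd_index (dvd_trans hd (Subgroup.index_dvd_of_le hle))

/-- Powers prime to the order have the same centralizer. -/
theorem centralizer_pow {G : Type u} [Group G] (x : G) (p : ℕ) (hp : p.Prime)
    (hx : orderOf x = p) (j : ℕ) (hj : ¬ p ∣ j) :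
    Subgroup.centralizer ({x ^ j} : Set G) = Subgroup.centralizer ({x} : Set G) := by
  have hcop : Nat.Coprime j p := (Nat.Coprime.symm ((Nat.Prime.coprime_iff_not_dvd hp).2 hj))
  obtain ⟨m, -, hm⟩ := Nat.exists_mul_mod_eq_one_of_coprime hcop hp.one_lt
  have hxm : (x ^ j) ^ m = x := by
    rw [← pow_mul, ← pow_mod_orderOf, hx, hm, pow_one]
  ext g
  rw [Subgroup.mem_centralizer_singleton_iff, Subgroup.mem_centralizer_singleton_iff]
  constructor
  · intro h
    have h1 : Commute g (x ^ j) := h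
    have h2 := h1.pow_right m
    rw [hxm] at h2
    exact h2
  · intro h
    have h1 : Commute g x := h
    exact h1.pow_right j

/-- Block orthogonality gives a nontrivial character in the principal `p`-block of degree
prime to `q` not vanishing at `x`. -/
theorem exists_block_char {G : Type u} [Group G] [Finite G] (p q : ℕ) (hp : p.Prime)
    (hq : q.Prime) (M : Ideal AlgInt) (hM : IsPModular p M) (x : G) (hx : orderOf x = p) :
    ∃ χ : IrrCharacter G, χ ∈ principalBlock M G ∧ (χ : G → ℂ) ≠ (fun _ => 1) ∧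
      ¬ q ∣ charDegree (χ : G → ℂ) ∧ (χ : G → ℂ) x ≠ 0 := by
  classical
  have := Fact.mk hp
  have : Finite (IrrCharacter G) := finite_irrCharacter G
  have := Fintype.ofFinite (IrrCharacter G)
  by_contra hcon
  push Not at hcon
  have hx1 : x ≠ 1 := by
    rintro rfl
    rw [orderOf_one] at hx
    exact hp.one_lt.ne hx
  have horth := Cfsg.Agent.Lib.CT.ColumnId.block_orth p M hM (principalBlock M G)
    (Cfsg.Agent.Lib.CT.ColumnId.isPBlock_principal M) x 1 ⟨1, by rw [hx, pow_one]⟩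
    ⟨0, by rw [orderOf_one, pow_zero]⟩ (by rw [isConj_one_left]; exact hx1)
  rw [Cfsg.Agent.Lib.CT.ColumnId.finsum_mem_eq_sum, inv_one] at horth
  obtain ⟨χ₁, hχ₁⟩ : ∃ χ₁ : IrrCharacter G, χ₁ = Cfsg.Agent.Lib.CT.ThirdMain.triv G := ⟨_, rfl⟩
  have hMp := isPrime_of_isPModular hM
  have hχ₁B : χ₁ ∈ principalBlock M G := by
    rw [hχ₁]
    exact Cfsg.Agent.Lib.CT.ThirdMain.triv_mem_principalBlock hMp
  rw [← Finset.add_sum_erase Finset.univ _ (Finset.mem_univ χ₁)] at horth
  rw [if_pos hχ₁B] at horth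
  have h3 : ((χ₁ : G → ℂ) x) * ((χ₁ : G → ℂ) 1) = 1 := by
    rw [hχ₁]
    show (1 : ℂ) * (1 : ℂ) = 1
    simp
  rw [h3] at horth
  obtain ⟨α, hα⟩ : ∃ α : ℂ, α = ∑ χ ∈ Finset.univ.erase χ₁,
      (if χ ∈ principalBlock M G ∧ q ∣ charDegree (χ : G → ℂ) then
        (χ : G → ℂ) x * ((charDegree (χ : G → ℂ) / q : ℕ) : ℂ) else 0) := ⟨_, rfl⟩
  have hαint : IsIntegral ℤ α := by
    rw [hα]
    apply IsIntegral.sum
    intro χ _
    split_ifs
    · exact (isIntegral_irrCharacter χ x).mul (isIntegral_natCast _)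
    · exact isIntegral_zero
  have h4 : ∑ χ ∈ Finset.univ.erase χ₁,
      (if χ ∈ principalBlock M G then (χ : G → ℂ) x * (χ : G → ℂ) 1 else 0) = (q : ℂ) * α := by
    rw [hα, Finset.mul_sum]
    apply Finset.sum_congr rfl
    intro χ hχ
    have hχ' : χ ≠ χ₁ := Finset.ne_of_mem_erase hχ
    have hne : (χ : G → ℂ) ≠ fun _ => 1 := by
      intro e
      apply hχ'
      rw [hχ₁]
      exact Subtype.ext e
    by_cases hB : χ ∈ principalBlock M G
    · by_cases hd : q ∣ charDegree (χ : G → ℂ)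
      · rw [if_pos hB, if_pos ⟨hB, hd⟩,
          Cfsg.Agent.Lib.Helper78.HallBig.apply_one_eq_charDegree (isCharacter_of_irr χ.2)]
        obtain ⟨k, hk⟩ := hd
        rw [hk, Nat.mul_div_cancel_left k hq.pos]
        push_cast
        ring
      · rw [if_pos hB, if_neg (fun h => hd h.2), hcon χ hB hne hd, zero_mul, mul_zero]
    · rw [if_neg hB, if_neg (fun h => hB h.1), mul_zero]
  rw [h4] at horth
  have hq0 : (q : ℂ) ≠ 0 := Nat.cast_ne_zero.mpr hq.pos.ne'
  have h5 : α = ((-(1 : ℚ) / (q : ℚ) : ℚ) : ℂ) := by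
    push_cast
    field_simp
    linear_combination horth
  rw [h5] at hαint
  obtain ⟨z, hz⟩ := Cfsg.Agent.Lib.Helper78.GaloisPQ.int_of_integral_rat _ hαint
  have hq0' : (q : ℚ) ≠ 0 := Nat.cast_ne_zero.mpr hq.pos.ne'
  have h6 : (z : ℚ) * (q : ℚ) = -1 := by
    rw [← hz]
    field_simp
  have h7 : z * (q : ℤ) = -1 := by exact_mod_cast h6
  have h8 : (q : ℤ) ∣ 1 := ⟨-z, by linarith⟩
  have h9 : q ∣ 1 := by exact_mod_cast h8
  have := Nat.le_of_dvd one_pos h9
  have := hq.two_le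
  omega

/-- The normalized character value is an algebraic integer. -/
theorem beta_integral {G : Type u} [Group G] [Finite G] (χ : IrrCharacter G) (g : G)
    (t s h' : ℕ) (hs : 0 < s) (ht : 0 < t) (hn : charDegree (χ : G → ℂ) = t * s)
    (hh : (Subgroup.centralizer ({g} : Set G)).index = t * h') (hcop : Nat.Coprime h' s) :
    IsIntegral ℤ ((χ : G → ℂ) g / (s : ℂ)) := by
  have h1 := isIntegral_centralChar χ g
  unfold centralChar at h1
  rw [Cfsg.Agent.Lib.Helper78.HallBig.apply_one_eq_charDegree (isCharacter_of_irr χ.2), hn, hh]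
    at h1
  have h2 : IsIntegral ℤ ((χ : G → ℂ) g) := isIntegral_irrCharacter χ g
  have hb : ((Nat.gcd h' s : ℕ) : ℤ) = (h' : ℤ) * Nat.gcdA h' s + (s : ℤ) * Nat.gcdB h' s :=
    Nat.gcd_eq_gcd_ab h' s
  rw [Nat.Coprime.gcd_eq_one hcop] at hb
  have hb' : (1 : ℂ) = (h' : ℂ) * ((Nat.gcdA h' s : ℤ) : ℂ)
      + (s : ℂ) * ((Nat.gcdB h' s : ℤ) : ℂ) := by
    have := congrArg (fun z : ℤ => (z : ℂ)) hb
    simpa using this
  have hs0 : (s : ℂ) ≠ 0 := Nat.cast_ne_zero.mpr hs.ne'
  have ht0 : (t : ℂ) ≠ 0 := Nat.cast_ne_zero.mpr ht.ne'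
  have e : (χ : G → ℂ) g / (s : ℂ)
      = ((Nat.gcdA h' s : ℤ) : ℂ) * (((t * h' : ℕ) : ℂ) * (χ : G → ℂ) g / ((t * s : ℕ) : ℂ))
        + ((Nat.gcdB h' s : ℤ) : ℂ) * (χ : G → ℂ) g := by
    push_cast
    field_simp
    linear_combination ((χ : G → ℂ) g) * hb'
  rw [e]
  exact ((isIntegral_intCast _).mul h1).add ((isIntegral_intCast _).mul h2)

/-- For a character of the principal block, the normalized value is congruent to `t`. -/
theorem beta_local {G : Type u} [Group G] [Finite G] {p : ℕ} (M : Ideal AlgInt)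
    (hM : IsPModular p M) (χ : IrrCharacter G) (hχB : χ ∈ principalBlock M G) (g : G)
    (t s h' : ℕ) (hs : 0 < s) (ht : 0 < t) (hn : charDegree (χ : G → ℂ) = t * s)
    (hh : (Subgroup.centralizer ({g} : Set G)).index = t * h') (hph : ¬ p ∣ h') :
    MemLocalIdeal M ((t : ℂ) - (χ : G → ℂ) g / (s : ℂ)) := by
  have hMp := isPrime_of_isPModular hM
  have h1 : MemLocalIdeal M (centralChar (fun _ : G => (1 : ℂ)) g - centralChar (χ : G → ℂ) g) :=
    hχB g
  have hs0 : (s : ℂ) ≠ 0 := Nat.cast_ne_zero.mpr hs.ne'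
  have ht0 : (t : ℂ) ≠ 0 := Nat.cast_ne_zero.mpr ht.ne'
  have e : centralChar (fun _ : G => (1 : ℂ)) g - centralChar (χ : G → ℂ) g
      = (h' : ℂ) * ((t : ℂ) - (χ : G → ℂ) g / (s : ℂ)) := by
    unfold centralChar
    rw [Cfsg.Agent.Lib.Helper78.HallBig.apply_one_eq_charDegree (isCharacter_of_irr χ.2), hn, hh]
    push_cast
    field_simp
  rw [e] at h1
  rcases memLocalIdeal_or_of_mul hMp (memLocalRing_natCast hMp h') h1 with h2 | h2
  · exact absurd ((memLocalIdeal_natCast_iff hM h').1 h2) hph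
  · exact h2

/-- The divisibility of eigenvalue multiplicities by `s`. -/
theorem hdiv_aux {p : ℕ} (hp : p.Prime) (M : Ideal AlgInt) (hM : IsPModular p M)
    (f : ℕ → ℂ) (s t : ℕ) (hs : 0 < s)
    (hint : ∀ j, j < p → IsIntegral ℤ (f j / (s : ℂ)))
    (hloc : ∀ j, j < p → MemLocalIdeal M ((t : ℂ) - f j / (s : ℂ)))
    (ζ : ℂ) (hζ : ζ ^ p = 1) (m : ℕ)
    (hm : ∑ j ∈ Finset.range p, f j * (ζ⁻¹) ^ j = (p : ℂ) * m) : s ∣ m := by
  have := Fact.mk hp
  have hMp := isPrime_of_isPModular hM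
  have hw : (ζ⁻¹) ^ p = 1 := by rw [inv_pow, hζ, inv_one]
  obtain ⟨w, hwdef⟩ : ∃ w : ℂ, w = ζ⁻¹ := ⟨_, rfl⟩
  rw [← hwdef] at hw hm
  have hwint : IsIntegral ℤ w := by
    refine ⟨Polynomial.X ^ p - Polynomial.C 1,
      Polynomial.monic_X_pow_sub_C (1 : ℤ) hp.ne_zero, ?_⟩
    simp [hw]
  have hs0 : (s : ℂ) ≠ 0 := Nat.cast_ne_zero.mpr hs.ne'
  have e1 : ((p * m : ℕ) : ℂ) / (s : ℂ) = ∑ j ∈ Finset.range p, f j / (s : ℂ) * w ^ j := by
    push_cast
    rw [← hm, Finset.sum_div]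
    apply Finset.sum_congr rfl
    intro j _
    ring
  have hint' : IsIntegral ℤ (((p * m : ℕ) : ℂ) / (s : ℂ)) := by
    rw [e1]
    apply IsIntegral.sum
    intro j hj
    exact (hint j (Finset.mem_range.1 hj)).mul (hwint.pow j)
  obtain ⟨k, hk⟩ := dvd_of_isIntegral_div hs.ne' hint'
  have e3 : (k : ℂ) = ((p * m : ℕ) : ℂ) / (s : ℂ) := by
    rw [hk]
    push_cast
    field_simp
  have e2 : (k : ℂ) - ((p * t : ℕ) : ℂ) = ∑ j ∈ Finset.range p,
      ((f j / (s : ℂ) - (t : ℂ)) * w ^ j + (t : ℂ) * (w ^ j - 1)) := by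
    have e4 : ∀ j ∈ Finset.range p, (f j / (s : ℂ) - (t : ℂ)) * w ^ j + (t : ℂ) * (w ^ j - 1)
        = f j / (s : ℂ) * w ^ j - (t : ℂ) := by
      intro j _
      ring
    rw [Finset.sum_congr rfl e4, Finset.sum_sub_distrib, Finset.sum_const, Finset.card_range,
      nsmul_eq_mul, ← e1, ← e3]
    push_cast
    ring
  have hloc' : MemLocalIdeal M ((k : ℂ) - ((p * t : ℕ) : ℂ)) := by
    rw [e2]
    apply memLocalIdeal_sum hMp
    intro j hj
    have hj' := Finset.mem_range.1 hj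
    apply memLocalIdeal_add hMp
    · apply memLocalIdeal_mul_right hMp
      · exact memLocalIdeal_sub_comm (hloc j hj')
      · exact memLocalRing_of_isIntegral hMp (hwint.pow j)
    · apply memLocalIdeal_mul_left hMp (memLocalRing_natCast hMp t)
      exact Cfsg.Agent.Lib.Helper77.IdemTrace.memLocalIdeal_sub_one_of_pow hM (w ^ j) 1
        (by rw [pow_one, ← pow_mul, mul_comm, pow_mul, hw, one_pow])
  have hk' : MemLocalIdeal M (k : ℂ) := by
    have h1 := memLocalIdeal_add hMp hloc'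
      (memLocalIdeal_natCast_of_dvd hM (Dvd.intro t rfl : p ∣ p * t))
    rwa [sub_add_cancel] at h1
  obtain ⟨k', rfl⟩ := (memLocalIdeal_natCast_iff hM k).1 hk'
  refine ⟨k', ?_⟩
  have h2 : p * m = p * (s * k') := by rw [hk]; ring
  exact Nat.eq_of_mul_eq_mul_left hp.pos h2

/-- A refinement of Burnside's result on simple groups of order divisible by only two primes. Let G be a finite simple group of order p^a · q^b · g₀ with p, q distinct primes, a > 0, g₀ coprime to p and q, and the order of G different from p. Then g₀ − 1 > log p / log 6, that is 6^(g₀ − 1) > p. -/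
theorem result {G : Type*} [Group G] [Finite G] [IsSimpleGroup G] (p q a b g₀ : ℕ) (hp : p.Prime) (hq : q.Prime) (hpq : p ≠ q) (ha : 0 < a) (hg : Nat.card G = p ^ a * q ^ b * g₀) (hcop : ¬ p ∣ g₀) (hcoq : ¬ q ∣ g₀) (hne : Nat.card G ≠ p) : p < 6 ^ (g₀ - 1) := by
  classical
  by_contra hcon
  push Not at hcon
  have hcard_pos : 0 < Nat.card G := Nat.card_pos
  have hg0 : g₀ ≠ 0 := by
    rintro rfl
    rw [mul_zero] at hg
    omega
  have hlt : 6 ^ (g₀ - 1) < p := by
    rcases Nat.eq_zero_or_pos (g₀ - 1) with h | h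
    · rw [h, pow_zero]
      exact hp.one_lt
    · apply lt_of_le_of_ne hcon
      intro e
      have h2 : 2 ∣ p := by
        rw [← e]
        exact dvd_pow (by norm_num) h.ne'
      have h3 : 3 ∣ p := by
        rw [← e]
        exact dvd_pow (by norm_num) h.ne'
      have e2 := (Nat.prime_dvd_prime_iff_eq Nat.prime_two hp).1 h2
      have e3 := (Nat.prime_dvd_prime_iff_eq Nat.prime_three hp).1 h3
      omega
  have hpd : p ∣ Nat.card G := by
    rw [hg]
    exact Dvd.dvd.mul_right (Dvd.dvd.mul_right (dvd_pow_self p ha.ne') _) _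
  have hnc := nonabelian p hp hpd hne
  obtain ⟨x, hxord, hxh⟩ := exists_central_p (G := G) p hp hpd
  obtain ⟨M, hM⟩ := Cfsg.Agent.Lib.CT.Knorr.exists_isPModular p hp
  have hMp := isPrime_of_isPModular hM
  obtain ⟨χ, hχB, hχne, hχq, hχx⟩ := exists_block_char p q hp hq M hM x hxord
  obtain ⟨hfaith, -⟩ := Cfsg.Agent.S4466.faithful_of_ne hnc χ hχne
  have hχc : IsCharacter G (χ : G → ℂ) := isCharacter_of_irr χ.2
  have hχ1 : (χ : G → ℂ) 1 = (charDegree (χ : G → ℂ) : ℂ) :=
    Cfsg.Agent.Lib.Helper78.HallBig.apply_one_eq_charDegree hχc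
  obtain ⟨n, hn⟩ : ∃ n : ℕ, n = charDegree (χ : G → ℂ) := ⟨_, rfl⟩
  obtain ⟨h, hh⟩ : ∃ h : ℕ, h = (Subgroup.centralizer ({x} : Set G)).index := ⟨_, rfl⟩
  have hnd : n ∣ Nat.card G := by
    rw [hn]
    exact charDegree_dvd_card χ
  have hnpos : 0 < n := by
    rw [hn]
    exact charDegree_pos χ
  obtain ⟨t, ht⟩ : ∃ t : ℕ, t = Nat.gcd n h := ⟨_, rfl⟩
  have htpos : 0 < t := by
    rw [ht]
    exact Nat.gcd_pos_of_pos_left h hnpos
  have htn : t ∣ n := by
    rw [ht]
    exact Nat.gcd_dvd_left n h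
  have hth : t ∣ h := by
    rw [ht]
    exact Nat.gcd_dvd_right n h
  obtain ⟨s, hs⟩ := htn
  obtain ⟨h', hh'⟩ := hth
  have hspos : 0 < s := by
    rcases Nat.eq_zero_or_pos s with e | e
    · rw [e, mul_zero] at hs
      omega
    · exact e
  have hcop : Nat.Coprime h' s := by
    have h1 : Nat.gcd (t * s) (t * h') = t * Nat.gcd s h' := Nat.gcd_mul_left t s h'
    rw [← hs, ← hh', ← ht] at h1
    have h2 : t * Nat.gcd s h' = t * 1 := by rw [← h1, mul_one]
    exact Nat.Coprime.symm (Nat.eq_of_mul_eq_mul_left htpos h2)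
  have hxh' : ¬ p ∣ h := by
    rw [hh]
    exact hxh
  have hph' : ¬ p ∣ h' := by
    intro hd
    apply hxh'
    rw [hh']
    exact Dvd.dvd.mul_left hd t
  have htg : t ∣ g₀ := by
    have htp : Nat.Coprime t p := by
      rw [Nat.coprime_comm, Nat.Prime.coprime_iff_not_dvd hp]
      intro hd
      apply hxh'
      rw [hh']
      exact Dvd.dvd.mul_right hd h'
    have htq : Nat.Coprime t q := by
      rw [Nat.coprime_comm, Nat.Prime.coprime_iff_not_dvd hq]
      intro hd
      apply hχq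
      rw [← hn, hs]
      exact Dvd.dvd.mul_right hd s
    have h1 : t ∣ g₀ * (p ^ a * q ^ b) := by
      rw [mul_comm, ← hg]
      exact dvd_trans (Dvd.intro s hs.symm) hnd
    exact (Nat.Coprime.mul_right (htp.pow_right a) (htq.pow_right b)).dvd_of_dvd_mul_right h1
  have htle : t ≤ g₀ := Nat.le_of_dvd (Nat.pos_of_ne_zero hg0) htg
  have hp6 : 6 ^ (t - 1) < p :=
    lt_of_le_of_lt (Nat.pow_le_pow_right (by norm_num) (by omega)) hlt
  have hx1 : x ≠ 1 := by
    rintro rfl
    rw [orderOf_one] at hxord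
    exact hp.one_lt.ne hxord
  have hxp : x ^ p = 1 := by
    rw [← hxord]
    exact pow_orderOf_eq_one x
  have hns : charDegree (χ : G → ℂ) = t * s := by rw [← hn, hs]
  have hidx : ∀ j, j < p → 0 < j →
      (Subgroup.centralizer ({x ^ j} : Set G)).index = t * h' := by
    intro j hj hj0
    rw [centralizer_pow x p hp hxord j (fun hd => by have := Nat.le_of_dvd hj0 hd; omega),
      ← hh, hh']
  have hs0 : (s : ℂ) ≠ 0 := Nat.cast_ne_zero.mpr hspos.ne'
  have hβ0 : (χ : G → ℂ) (x ^ 0) / (s : ℂ) = (t : ℂ) := by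
    rw [pow_zero, hχ1, hns]
    push_cast
    field_simp
  have hβint : ∀ j, j < p → IsIntegral ℤ ((χ : G → ℂ) (x ^ j) / (s : ℂ)) := by
    intro j hj
    rcases Nat.eq_zero_or_pos j with e | e
    · rw [e, hβ0]
      exact isIntegral_natCast _
    · exact beta_integral χ (x ^ j) t s h' hspos htpos hns (hidx j hj e) hcop
  have hβloc : ∀ j, j < p →
      MemLocalIdeal M ((t : ℂ) - (χ : G → ℂ) (x ^ j) / (s : ℂ)) := by
    intro j hj
    rcases Nat.eq_zero_or_pos j with e | e
    · rw [e, hβ0, sub_self]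
      exact memLocalIdeal_zero hMp
    · exact beta_local M hM χ hχB (x ^ j) t s h' hspos htpos hns (hidx j hj e) hph'
  obtain ⟨n', ρ, hρirr, hρ⟩ := χ.2
  have hn' : n' = t * s := by
    have h3 : (χ : G → ℂ) 1 = (n' : ℂ) := by
      rw [← hρ, Representation.char_one, Module.finrank_fin_fun]
    rw [hχ1, hns] at h3
    exact_mod_cast h3.symm
  have hinj : Function.Injective ρ := by
    intro g k hgk
    have h1 : ρ (g * k⁻¹) = 1 := by rw [map_mul, hgk, ← map_mul, mul_inv_cancel, map_one]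
    have h2 : g * k⁻¹ = 1 := hfaith _ (by
      rw [← hρ]
      show LinearMap.trace ℂ _ (ρ (g * k⁻¹)) = LinearMap.trace ℂ _ (ρ 1)
      rw [h1, map_one ρ])
    exact mul_inv_eq_one.1 h2
  have hirr : ∀ W : Submodule ℂ (Fin n' → ℂ), (∀ g : G, ∀ w ∈ W, ρ g w ∈ W) →
      W = ⊥ ∨ W = ⊤ := by
    intro W hW
    let W' : Subrepresentation ρ :=
      { toSubmodule := W
        apply_mem_toSubmodule := fun g v hv => hW g v hv }
    rcases eq_bot_or_eq_top W' with e | e
    · left
      exact congrArg Subrepresentation.toSubmodule e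
    · right
      exact congrArg Subrepresentation.toSubmodule e
  have hdiv : ∀ ζ : ℂ, ζ ^ p = 1 → ∀ m : ℕ,
      ∑ j ∈ Finset.range p, LinearMap.trace ℂ (Fin n' → ℂ) (ρ (x ^ j)) * (ζ⁻¹) ^ j
        = (p : ℂ) * m → s ∣ m := by
    intro ζ hζ m hm
    refine hdiv_aux hp M hM (fun j => (χ : G → ℂ) (x ^ j)) s t hspos hβint hβloc ζ hζ m ?_
    rw [← hm, ← hρ]
    rfl
  have hcent : ∀ z : G, (∀ g : G, z * g = g * z) → z = 1 := by
    intro z hz
    exact Cfsg.Agent.S4466.center_trivial hnc (Subgroup.mem_center_iff.2 (fun g => (hz g).symm))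
  have hfr : Module.finrank ℂ (Fin n' → ℂ) = t * s := by
    rw [Module.finrank_fin_fun]
    exact hn'
  obtain ⟨c, hc⟩ := Cfsg.Agent.Lib.Helper78.UnitaryRep.exists_invariant_core ρ
  letI inst1 : NormedAddCommGroup (Fin n' → ℂ) :=
    @InnerProductSpace.Core.toNormedAddCommGroup ℂ _ _ _ _ c
  letI inst2 : @InnerProductSpace ℂ (Fin n' → ℂ) _ inst1.toSeminormedAddCommGroup :=
    InnerProductSpace.ofCore c.toCore
  have hfd : @FiniteDimensional ℂ (Fin n' → ℂ) _ _ _ := inferInstance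
  exact @Cfsg.Agent.Lib.Helper78.Blich60.core G _ (Fin n' → ℂ) inst1 inst2 hfd ρ hc _ hinj hirr
    (fun H hH => hH.eq_bot_or_eq_top) hcent x hx1 p hp hxp s t hspos htpos hfr hp6 hdiv

end Cfsg.Agent.S4484
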