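-- Statement S4497 (row 4497).
import Cfsg.Statements.S4497
import Cfsg.Agent.Lib.Helper75.SelfCentCore

set_option autoImplicit false
open Cfsg

namespace Cfsg.Agent.S4497

open Cfsg.Agent.Lib.Helper75 in
/-- Let the finite group G contain an element x of prime order p with C_G(x) = ⟨x⟩, let t be the number of conjugacy classes of elements of order p, and let S* = O_{p′}(G) be the largest normal subgroup of order prime to p. Then S* ≤ G′; if t ≠ p − 1 the quotient G′/S* is simple (in particular non-trivial); if t = p − 1 then G′ = S*. -/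
theorem result {G : Type*} [Group G] [Finite G] (p : ℕ) (hp : p.Prime) (x : G) (hx : orderOf x = p) (hC : Subgroup.centralizer ({x} : Set G) = Subgroup.zpowers x) (t : ℕ) (ht : Nat.card {C : ConjClasses G // ∃ g ∈ C.carrier, orderOf g = p} = t) : Cfsg.pPrimeCore p G ≤ commutator G ∧ (t ≠ p - 1 → ∀ h : ((Cfsg.pPrimeCore p G).subgroupOf (commutator G)).Normal, IsSimpleGroup (↥(commutator G) ⧸ (Cfsg.pPrimeCore p G).subgroupOf (commutator G))) ∧ (t = p - 1 → commutator G = Cfsg.pPrimeCore p G) := by
  have hcount := SelfCentCount.card_classes_mul hp hx hC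
  rw [ht] at hcount
  have hp1 : 0 < p - 1 := Nat.sub_pos_of_lt hp.one_lt
  refine ⟨SelfCentCore.pPrimeCore_le_commutator hp hx hC, ?_, ?_⟩
  · intro hne h
    have hN : Nat.card (Subgroup.normalizer (Subgroup.zpowers x : Set G)) ≠ p := by
      intro h
      rw [h] at hcount
      exact hne (Nat.eq_of_mul_eq_mul_right hp.pos hcount)
    exact SelfCentCore.simple_quotient hp hx hC hN
  · intro heq
    have hN : Nat.card (Subgroup.normalizer (Subgroup.zpowers x : Set G)) = p := by
      rw [heq] at hcount
      exact Nat.eq_of_mul_eq_mul_left hp1 hcount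
    exact (SelfCentCore.commutator_eq_core hp hx hC hN).1

end Cfsg.Agent.S4497
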