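import Cfsg.Statements.S4498
import Cfsg.Agent.Lib.Helper75.BlockOrth
import Cfsg.Agent.Lib.CT.Ops

open Cfsg.Agent.Lib.Helper77.LocalRing Cfsg.Agent.Lib.CT.Wedderburn
open scoped ComplexConjugate

set_option autoImplicit false
open Cfsg

namespace Cfsg.Agent.S4498

/-- Let p and q be distinct primes dividing the order of the finite group G, and suppose G has no element of order p·q. Fix maximal ideals M_p over p and M_q over q of the algebraic integers. Then the principal p-block and the principal q-block of G have a non-principal irreducible character in common. -/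
theorem result {G : Type*} [Group G] [Finite G] (p q : ℕ) [Fact p.Prime] [Fact q.Prime] (hpq : p ≠ q) (hp : p ∣ Nat.card G) (hq : q ∣ Nat.card G) (hno : ∀ g : G, orderOf g ≠ p * q) (Mp Mq : Ideal Cfsg.AlgInt) (hMp : Cfsg.IsPModular p Mp) (hMq : Cfsg.IsPModular q Mq) : ∃ χ : Cfsg.IrrCharacter G, (χ : G → ℂ) ≠ (fun _ => 1) ∧ χ ∈ Cfsg.principalBlock Mp G ∧ χ ∈ Cfsg.principalBlock Mq G := by
  classical
  have := Fintype.ofFinite G
  have := finite_irrCharacter G
  have := Fintype.ofFinite (IrrCharacter G)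
  have hMpP := isPrime_of_isPModular hMp
  have hMqP := isPrime_of_isPModular hMq
  set t : IrrCharacter G := ⟨fun _ => 1, Cfsg.Agent.Lib.CT.Ops.isIrrCharacter_one⟩ with ht
  have hBp : IsPBlock Mp (principalBlock Mp G) := ⟨t, rfl⟩
  have hBq : IsPBlock Mq (principalBlock Mq G) := ⟨t, rfl⟩
  have htp : t ∈ principalBlock Mp G := by
    intro g
    show MemLocalIdeal Mp (centralChar (fun _ : G => (1 : ℂ)) g - centralChar (fun _ : G => (1 : ℂ)) g)
    rw [sub_self]
    exact memLocalIdeal_zero hMpP
  have htq : t ∈ principalBlock Mq G := by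
    intro g
    show MemLocalIdeal Mq (centralChar (fun _ : G => (1 : ℂ)) g - centralChar (fun _ : G => (1 : ℂ)) g)
    rw [sub_self]
    exact memLocalIdeal_zero hMqP
  obtain ⟨x, hx⟩ := exists_prime_orderOf_dvd_card' p hp
  obtain ⟨y, hy⟩ := exists_prime_orderOf_dvd_card' q hq
  by_contra hcon
  push Not at hcon
  -- every element is `p`-regular or `q`-regular
  have hreg : ∀ g : G, ¬ p ∣ orderOf g ∨ ¬ q ∣ orderOf g := by
    intro g
    by_contra h
    push Not at h
    have hcop : Nat.Coprime p q := (Nat.coprime_primes (Fact.out) (Fact.out)).mpr hpq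
    have hdvd : p * q ∣ orderOf g := hcop.mul_dvd_of_dvd_of_dvd h.1 h.2
    exact hno (g ^ (orderOf g / (p * q)))
      (orderOf_pow_orderOf_div (orderOf_pos g).ne' hdvd)
  set cp : IrrCharacter G → ℂ := fun χ =>
    if χ ∈ principalBlock Mp G then conj ((χ : G → ℂ) x) else 0 with hcp
  set cq : IrrCharacter G → ℂ := fun χ =>
    if χ ∈ principalBlock Mq G then conj ((χ : G → ℂ) y) else 0 with hcq
  have hfp : ∀ g : G, ¬ p ∣ orderOf g → ∑ χ : IrrCharacter G, cp χ * (χ : G → ℂ) g = 0 := by
    intro g hg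
    have h := Cfsg.Agent.Lib.Helper75.BlockOrth.weak_block_orthogonality p Mp hMp
      (principalBlock Mp G) hBp g x hg (by rw [hx])
    rw [finsum_mem_def, finsum_eq_sum_of_fintype] at h
    rw [← h]
    refine Finset.sum_congr rfl fun χ _ => ?_
    rw [hcp]
    simp only
    by_cases hmem : χ ∈ principalBlock Mp G
    · rw [Set.indicator_of_mem hmem, if_pos hmem]
      ring
    · rw [Set.indicator_of_notMem hmem, if_neg hmem, zero_mul]
  have hfq : ∀ g : G, ¬ q ∣ orderOf g → ∑ χ : IrrCharacter G, cq χ * (χ : G → ℂ) g = 0 := by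
    intro g hg
    have h := Cfsg.Agent.Lib.Helper75.BlockOrth.weak_block_orthogonality q Mq hMq
      (principalBlock Mq G) hBq g y hg (by rw [hy])
    rw [finsum_mem_def, finsum_eq_sum_of_fintype] at h
    rw [← h]
    refine Finset.sum_congr rfl fun χ _ => ?_
    rw [hcq]
    simp only
    by_cases hmem : χ ∈ principalBlock Mq G
    · rw [Set.indicator_of_mem hmem, if_pos hmem]
      ring
    · rw [Set.indicator_of_notMem hmem, if_neg hmem, zero_mul]
  have key : ∑ g : G, (∑ χ : IrrCharacter G, cp χ * (χ : G → ℂ) g) *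
      conj (∑ ψ : IrrCharacter G, cq ψ * (ψ : G → ℂ) g) = 0 := by
    refine Finset.sum_eq_zero fun g _ => ?_
    rcases hreg g with h | h
    · rw [hfp g h, zero_mul]
    · rw [hfq g h, map_zero, mul_zero]
  have horth : ∀ χ ψ : IrrCharacter G, ∑ g : G, (χ : G → ℂ) g * conj ((ψ : G → ℂ) g) =
      if χ = ψ then (Nat.card G : ℂ) else 0 := by
    intro χ ψ
    have h := irr_orthonormal χ ψ
    unfold classInner at h
    have hne : (Nat.card G : ℂ) ≠ 0 := Nat.cast_ne_zero.mpr Nat.card_pos.ne'
    by_cases hχψ : χ = ψ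
    · rw [if_pos hχψ] at h ⊢
      field_simp at h
      exact h
    · rw [if_neg hχψ] at h ⊢
      rcases mul_eq_zero.mp h with h | h
      · exact absurd (inv_eq_zero.mp h) hne
      · exact h
  have key2 : ∑ g : G, (∑ χ : IrrCharacter G, cp χ * (χ : G → ℂ) g) *
      conj (∑ ψ : IrrCharacter G, cq ψ * (ψ : G → ℂ) g) =
      (Nat.card G : ℂ) * ∑ χ : IrrCharacter G, cp χ * conj (cq χ) := by
    have e1 : ∀ g : G, (∑ χ : IrrCharacter G, cp χ * (χ : G → ℂ) g) *
        conj (∑ ψ : IrrCharacter G, cq ψ * (ψ : G → ℂ) g) =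
        ∑ χ : IrrCharacter G, ∑ ψ : IrrCharacter G,
          cp χ * conj (cq ψ) * ((χ : G → ℂ) g * conj ((ψ : G → ℂ) g)) := by
      intro g
      rw [map_sum, Finset.sum_mul_sum]
      refine Finset.sum_congr rfl fun χ _ => Finset.sum_congr rfl fun ψ _ => ?_
      rw [map_mul]
      ring
    rw [Finset.sum_congr rfl (fun g _ => e1 g), Finset.sum_comm, Finset.mul_sum]
    refine Finset.sum_congr rfl fun χ _ => ?_
    rw [Finset.sum_comm]
    have e2 : ∀ ψ : IrrCharacter G, ∑ g : G,
        cp χ * conj (cq ψ) * ((χ : G → ℂ) g * conj ((ψ : G → ℂ) g)) =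
        if χ = ψ then (Nat.card G : ℂ) * (cp χ * conj (cq χ)) else 0 := by
      intro ψ
      rw [← Finset.mul_sum, horth]
      by_cases hχψ : χ = ψ
      · subst hχψ
        rw [if_pos rfl, if_pos rfl]
        ring
      · rw [if_neg hχψ, if_neg hχψ, mul_zero]
    rw [Finset.sum_congr rfl (fun ψ _ => e2 ψ), Finset.sum_ite_eq Finset.univ χ]
    simp
  have hone : ∑ χ : IrrCharacter G, cp χ * conj (cq χ) = 1 := by
    rw [Finset.sum_eq_single t]
    · rw [hcp, hcq]
      simp only
      rw [if_pos htp, if_pos htq]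
      simp [ht]
    · intro χ _ hχ
      by_cases h1 : χ ∈ principalBlock Mp G
      · have h2 : χ ∉ principalBlock Mq G := by
          refine hcon χ ?_ h1
          intro h
          exact hχ (Subtype.ext h)
        rw [hcq]
        simp only
        rw [if_neg h2, map_zero, mul_zero]
      · rw [hcp]
        simp only
        rw [if_neg h1, zero_mul]
    · intro h
      exact absurd (Finset.mem_univ t) h
  rw [key2, hone, mul_one] at key
  exact (Nat.cast_ne_zero.mpr Nat.card_pos.ne') key

end Cfsg.Agent.S4498
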