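import Cfsg.Statements.S4710
import Cfsg.Agent.Lib.Helper82.Contrib
import Cfsg.Agent.S4499

set_option autoImplicit false
open Cfsg

namespace Cfsg.Agent.S4710

open Cfsg.Agent.Lib.Helper82.Contrib
open Cfsg.Agent.Lib.Helper77.LocalRing

/-- A lower bound for a sum of squares over a finite set. -/
theorem card_mul_le_sum {ι : Type*} (s : Finset ι) (f : ι → ℤ) (c : ℤ)
    (h : ∀ ξ ∈ s, c ≤ f ξ ^ 2) : (s.card : ℤ) * c ≤ ∑ ξ ∈ s, f ξ ^ 2 := by
  have h1 := Finset.card_nsmul_le_sum s (fun ξ => f ξ ^ 2) c h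
  rw [nsmul_eq_mul] at h1
  exact h1

/-- A character of positive height has `p`-part of the degree at most `p^(a-2)`. -/
theorem height_lt {G : Type*} [Group G] [Finite G] (p : ℕ) [Fact p.Prime]
    (M : Ideal AlgInt) (hM : IsPModular p M) (B : Set (IrrCharacter G)) (hB : IsPBlock M B)
    (χ χ₁ : IrrCharacter G) (hχ : χ ∈ B) (hχ₁ : χ₁ ∈ B)
    (hlt : (charDegree (χ₁ : G → ℂ)).factorization p < (charDegree (χ : G → ℂ)).factorization p) :
    (charDegree (χ : G → ℂ)).factorization p + 1 < (Nat.card G).factorization p := by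
  by_contra hcon
  rw [not_lt] at hcon
  exact Cfsg.Agent.S4499.no_positive_height p M hM B hB χ χ₁ hχ hχ₁ hlt hcon

/-- The number of height-zero characters in a block containing a character of positive height. -/
theorem count_zero {G : Type*} [Group G] [Fintype G] (p : ℕ) [Fact p.Prime]
    [Fintype (IrrCharacter G)]
    (M : Ideal AlgInt) (hM : IsPModular p M) (B : Set (IrrCharacter G)) (hB : IsPBlock M B)
    (χ₁ ψ : IrrCharacter G) (hχ₁ : χ₁ ∈ B) (hψ : ψ ∈ B)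
    (hmin : ∀ ξ ∈ B, (charDegree (χ₁ : G → ℂ)).factorization p
      ≤ (charDegree (ξ : G → ℂ)).factorization p)
    (hlt : (charDegree (χ₁ : G → ℂ)).factorization p < (charDegree (ψ : G → ℂ)).factorization p)
    (s : Finset (IrrCharacter G))
    (hs : ∀ ξ ∈ s, ξ ∈ B ∧ (charDegree (ξ : G → ℂ)).factorization p
      = (charDegree (χ₁ : G → ℂ)).factorization p) :
    4 * s.card ≤ p ^ (2 * ((Nat.card G).factorization p
      - (charDegree (χ₁ : G → ℂ)).factorization p) - 2) := by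
  classical
  have hpp : p.Prime := Fact.out
  have hp0 : (0 : ℤ) < (p : ℤ) := Int.natCast_pos.2 hpp.pos
  obtain ⟨a, ha⟩ : ∃ a, a = (Nat.card G).factorization p := ⟨_, rfl⟩
  obtain ⟨e, he⟩ : ∃ e, e = (charDegree (χ₁ : G → ℂ)).factorization p := ⟨_, rfl⟩
  obtain ⟨f, hf⟩ : ∃ f, f = (charDegree (ψ : G → ℂ)).factorization p := ⟨_, rfl⟩
  have hfa : f + 1 < a := by
    rw [hf, ha]
    exact height_lt p M hM B hB ψ χ₁ hψ hχ₁ hlt
  have hef : e < f := by rw [he, hf]; exact hlt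
  obtain ⟨r, hr⟩ : ∃ r, a = f + 1 + r := ⟨a - (f + 1), by omega⟩
  -- the diagonal contribution
  have ht0 : 0 < ctr p ψ ψ := ctr_self_pos p ψ
  obtain ⟨n, hn⟩ : (p : ℤ) ^ (f + 1) ∣ ctr p ψ ψ := by
    rw [hf]
    exact dvd_ctr_of_not_min p hM B hB ψ ψ χ₁ hψ hψ hχ₁ hlt
  -- the contributions with height zero characters
  have hbd : ∀ ξ ∈ s, ((p : ℤ) ^ f) ^ 2 ≤ ctr p ψ ξ ^ 2 := by
    intro ξ hξ
    obtain ⟨hξB, hξe⟩ := hs ξ hξ
    obtain ⟨q, hq⟩ : (p : ℤ) ^ f ∣ ctr p ψ ξ := by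
      rw [hf]
      exact pow_dvd_ctr p hM ψ ξ
    have hq0 : q ≠ 0 := by
      rintro rfl
      have h1 : ctr p ξ ψ = 0 := by rw [ctr_symm, hq, mul_zero]
      apply not_dvd_ctr_of_min p hM B hB ξ ψ hξB hψ
        (fun ξ' hξ' => by rw [hξe]; exact hmin ξ' hξ')
      rw [h1]
      exact dvd_zero _
    have hq1 : 1 ≤ q ^ 2 := by
      have : 0 < q ^ 2 := by positivity
      omega
    rw [hq, mul_pow]
    have hpf : (0 : ℤ) ≤ ((p : ℤ) ^ f) ^ 2 := by positivity
    nlinarith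
  have hψs : ψ ∉ s := by
    intro h
    have := (hs ψ h).2
    omega
  have h1 : ∑ ξ ∈ insert ψ s, ctr p ψ ξ ^ 2 ≤ ∑ ξ : IrrCharacter G, ctr p ψ ξ ^ 2 :=
    Finset.sum_le_sum_of_subset_of_nonneg (Finset.subset_univ _) (fun _ _ _ => sq_nonneg _)
  rw [Finset.sum_insert hψs, sum_ctr_sq p ψ, ← ha] at h1
  have h2 := card_mul_le_sum s (fun ξ => ctr p ψ ξ) (((p : ℤ) ^ f) ^ 2) hbd
  have h3 : (s.card : ℤ) * ((p : ℤ) ^ f) ^ 2 + ctr p ψ ψ ^ 2 ≤ (p : ℤ) ^ a * ctr p ψ ψ := by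
    linarith
  rw [hn, hr] at h3
  have hE : (0 : ℤ) < ((p : ℤ) ^ f) ^ 2 := by positivity
  have h4 : (s.card : ℤ) ≤ (p : ℤ) ^ 2 * (n * ((p : ℤ) ^ r - n)) := by
    have h5 : (s.card : ℤ) * ((p : ℤ) ^ f) ^ 2
        ≤ ((p : ℤ) ^ 2 * (n * ((p : ℤ) ^ r - n))) * ((p : ℤ) ^ f) ^ 2 := by
      have e1 : (p : ℤ) ^ (f + 1 + r) = (p : ℤ) ^ f * p * (p : ℤ) ^ r := by
        rw [pow_add, pow_succ]
      have e2 : (p : ℤ) ^ (f + 1) = (p : ℤ) ^ f * p := pow_succ _ _
      rw [e1, e2] at h3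
      nlinarith
    exact le_of_mul_le_mul_right h5 hE
  have h6 : 4 * (n * ((p : ℤ) ^ r - n)) ≤ ((p : ℤ) ^ r) ^ 2 := by
    nlinarith [sq_nonneg ((p : ℤ) ^ r - 2 * n)]
  have h7 : (4 : ℤ) * (s.card : ℤ) ≤ (p : ℤ) ^ (2 * r + 2) := by
    have e3 : (p : ℤ) ^ (2 * r + 2) = (p : ℤ) ^ 2 * ((p : ℤ) ^ r) ^ 2 := by
      rw [pow_add, ← pow_mul, mul_comm r 2, mul_comm]
    rw [e3]
    have hp2 : (0 : ℤ) ≤ (p : ℤ) ^ 2 := by positivity
    nlinarith
  have h8 : 4 * s.card ≤ p ^ (2 * r + 2) := by exact_mod_cast h7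
  refine le_trans h8 (Nat.pow_le_pow_right hpp.pos ?_)
  rw [← ha, ← he]
  omega

/-- The number of positive-height characters in a block. -/
theorem count_pos {G : Type*} [Group G] [Fintype G] (p : ℕ) [Fact p.Prime]
    [Fintype (IrrCharacter G)]
    (M : Ideal AlgInt) (hM : IsPModular p M) (B : Set (IrrCharacter G)) (hB : IsPBlock M B)
    (χ₁ : IrrCharacter G) (hχ₁ : χ₁ ∈ B)
    (hmin : ∀ ξ ∈ B, (charDegree (χ₁ : G → ℂ)).factorization p
      ≤ (charDegree (ξ : G → ℂ)).factorization p)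
    (s : Finset (IrrCharacter G))
    (hs : ∀ ξ ∈ s, ξ ∈ B ∧ (charDegree (χ₁ : G → ℂ)).factorization p
      < (charDegree (ξ : G → ℂ)).factorization p) :
    4 * s.card ≤ p ^ (2 * ((Nat.card G).factorization p
      - (charDegree (χ₁ : G → ℂ)).factorization p) - 2) := by
  classical
  have hpp : p.Prime := Fact.out
  have hp0 : (0 : ℤ) < (p : ℤ) := Int.natCast_pos.2 hpp.pos
  have hp0' : (p : ℤ) ≠ 0 := hp0.ne'
  have hea : (charDegree (χ₁ : G → ℂ)).factorization p ≤ (Nat.card G).factorization p :=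
    Cfsg.Agent.Lib.CT.DefectZeroBlock.factorization_charDegree_le p χ₁
  obtain ⟨e, he⟩ : ∃ e, e = (charDegree (χ₁ : G → ℂ)).factorization p := ⟨_, rfl⟩
  obtain ⟨d, hd⟩ : ∃ d, d = (Nat.card G).factorization p
      - (charDegree (χ₁ : G → ℂ)).factorization p := ⟨_, rfl⟩
  have hadd : (Nat.card G).factorization p = e + d := by
    rw [he, hd]
    omega
  have hdiv : ∀ ξ : IrrCharacter G, ∃ q : ℤ, ctr p χ₁ ξ = (p : ℤ) ^ e * q := by
    intro ξ
    rw [he]
    exact pow_dvd_ctr p hM χ₁ ξ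
  choose m hm using hdiv
  have hm0 : ∀ ξ ∈ B, m ξ ≠ 0 := by
    intro ξ hξ h0
    apply not_dvd_ctr_of_min p hM B hB χ₁ ξ hχ₁ hξ hmin
    rw [hm ξ, h0, mul_zero]
    exact dvd_zero _
  have hsum : ∑ ξ : IrrCharacter G, m ξ ^ 2 = (p : ℤ) ^ d * m χ₁ := by
    have h1 := sum_ctr_sq p χ₁
    rw [hadd] at h1
    have hpe : (p : ℤ) ^ (2 * e) ≠ 0 := pow_ne_zero _ hp0'
    apply mul_left_cancel₀ hpe
    rw [Finset.mul_sum]
    calc ∑ ξ : IrrCharacter G, (p : ℤ) ^ (2 * e) * m ξ ^ 2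
        = ∑ ξ : IrrCharacter G, ctr p χ₁ ξ ^ 2 := by
          refine Finset.sum_congr rfl fun ξ _ => ?_
          rw [hm ξ]
          ring
      _ = (p : ℤ) ^ (e + d) * ctr p χ₁ χ₁ := h1
      _ = (p : ℤ) ^ (2 * e) * ((p : ℤ) ^ d * m χ₁) := by
          rw [hm χ₁]
          ring
  have hbd : ∀ ξ ∈ s, (p : ℤ) ^ 2 ≤ m ξ ^ 2 := by
    intro ξ hξ
    obtain ⟨hξB, hξe⟩ := hs ξ hξ
    have h1 : (p : ℤ) ^ (e + 1) ∣ ctr p χ₁ ξ := by
      rw [ctr_symm]
      refine dvd_trans (pow_dvd_pow _ ?_) (pow_dvd_ctr p hM ξ χ₁)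
      omega
    rw [hm ξ, pow_succ] at h1
    have h2 : (p : ℤ) ∣ m ξ := (mul_dvd_mul_iff_left (pow_ne_zero e hp0')).1 h1
    obtain ⟨q, hq⟩ := h2
    have hq0 : q ≠ 0 := by
      rintro rfl
      exact hm0 ξ hξB (by rw [hq, mul_zero])
    have hq1 : 1 ≤ q ^ 2 := by
      have : 0 < q ^ 2 := by positivity
      omega
    rw [hq, mul_pow]
    have hpf : (0 : ℤ) ≤ (p : ℤ) ^ 2 := by positivity
    nlinarith
  have hχs : χ₁ ∉ s := by
    intro h
    have := (hs χ₁ h).2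
    omega
  have h1 : ∑ ξ ∈ insert χ₁ s, m ξ ^ 2 ≤ ∑ ξ : IrrCharacter G, m ξ ^ 2 :=
    Finset.sum_le_sum_of_subset_of_nonneg (Finset.subset_univ _) (fun _ _ _ => sq_nonneg _)
  rw [Finset.sum_insert hχs, hsum] at h1
  have h2 := card_mul_le_sum s m ((p : ℤ) ^ 2) hbd
  have h3 : (4 : ℤ) * (s.card : ℤ) * (p : ℤ) ^ 2 ≤ ((p : ℤ) ^ d) ^ 2 := by
    nlinarith [sq_nonneg ((p : ℤ) ^ d - 2 * m χ₁)]
  have hgoal : 4 * s.card ≤ p ^ (2 * d - 2) := by
    rcases Nat.eq_zero_or_pos d with hd0 | hd0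
    · rw [hd0] at h3
      have hp2 : (1 : ℤ) ≤ (p : ℤ) ^ 2 := by
        have : (1 : ℤ) ≤ (p : ℤ) := hp0
        nlinarith
      have h4 : (s.card : ℤ) ≤ 0 := by
        by_contra hcon
        rw [not_le] at hcon
        have : (1 : ℤ) ≤ (s.card : ℤ) := hcon
        simp only [pow_zero, one_pow] at h3
        nlinarith
      have h5 : s.card = 0 := by omega
      rw [h5]
      positivity
    · have e1 : ((p : ℤ) ^ d) ^ 2 = (p : ℤ) ^ (2 * d - 2) * (p : ℤ) ^ 2 := by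
        rw [← pow_mul, ← pow_add]
        congr 1
        omega
      rw [e1] at h3
      have hp2 : (0 : ℤ) < (p : ℤ) ^ 2 := by positivity
      have h4 : (4 : ℤ) * (s.card : ℤ) ≤ (p : ℤ) ^ (2 * d - 2) := le_of_mul_le_mul_right h3 hp2
      exact_mod_cast h4
  rw [hd] at hgoal
  exact hgoal

/-- Let p be a prime, M a maximal ideal of the algebraic integers containing p, and B a p-block of defect d of the finite group G containing k irreducible characters. If B contains a character of positive height then 2k ≤ p^(2d − 2); and every character in B has height 0 when d ≤ 1 and height at most d − 2 when d ≥ 2. -/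
theorem result {G : Type*} [Group G] [Finite G] (p : ℕ) [Fact p.Prime] (M : Ideal Cfsg.AlgInt) (hM : Cfsg.IsPModular p M) (B : Set (Cfsg.IrrCharacter G)) (hB : Cfsg.IsPBlock M B) (d : ℕ) (hd : Cfsg.blockDefect p B = d) : ((∃ χ ∈ B, 0 < Cfsg.blockHeight p B (χ : G → ℂ)) → 2 * Nat.card B ≤ p ^ (2 * d - 2)) ∧ ∀ χ ∈ B, (d ≤ 1 → Cfsg.blockHeight p B (χ : G → ℂ) = 0) ∧ (2 ≤ d → Cfsg.blockHeight p B (χ : G → ℂ) ≤ d - 2) := by
  classical
  have hpp : p.Prime := Fact.out
  have hMp : M.IsPrime := isPrime_of_isPModular hM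
  have : Fintype G := Fintype.ofFinite G
  have := Cfsg.Agent.Lib.CT.Wedderburn.finite_irrCharacter G
  have : Fintype (IrrCharacter G) := Fintype.ofFinite _
  obtain ⟨χ₀, hχ₀⟩ := Cfsg.Agent.Lib.CT.DefectZeroBlock.isPBlock_nonempty hMp hB
  have hne : ((fun ψ : IrrCharacter G => (charDegree (ψ : G → ℂ)).factorization p) '' B).Nonempty :=
    ⟨_, χ₀, hχ₀, rfl⟩
  obtain ⟨χ₁, hχ₁, hχ₁e⟩ := Nat.sInf_mem hne
  have hχ₁e' : (charDegree (χ₁ : G → ℂ)).factorization p
      = sInf ((fun ψ : IrrCharacter G => (charDegree (ψ : G → ℂ)).factorization p) '' B) := hχ₁e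
  have hmin : ∀ ξ ∈ B, (charDegree (χ₁ : G → ℂ)).factorization p
      ≤ (charDegree (ξ : G → ℂ)).factorization p := by
    intro ξ hξ
    rw [hχ₁e']
    exact Nat.sInf_le ⟨ξ, hξ, rfl⟩
  have hdef : d = (Nat.card G).factorization p
      - (charDegree (χ₁ : G → ℂ)).factorization p := by
    rw [← hd, hχ₁e']
    rfl
  have hht : ∀ ξ : IrrCharacter G, blockHeight p B (ξ : G → ℂ)
      = (charDegree (ξ : G → ℂ)).factorization p
        - (charDegree (χ₁ : G → ℂ)).factorization p := by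
    intro ξ
    rw [hχ₁e']
    rfl
  have hea : (charDegree (χ₁ : G → ℂ)).factorization p ≤ (Nat.card G).factorization p :=
    Cfsg.Agent.Lib.CT.DefectZeroBlock.factorization_charDegree_le p χ₁
  refine ⟨?_, ?_⟩
  · rintro ⟨ψ, hψ, hψh⟩
    rw [hht ψ] at hψh
    have hlt : (charDegree (χ₁ : G → ℂ)).factorization p
        < (charDegree (ψ : G → ℂ)).factorization p := by omega
    have hc0 := count_zero p M hM B hB χ₁ ψ hχ₁ hψ hmin hlt
      (Finset.univ.filter (fun ξ : IrrCharacter G => ξ ∈ B ∧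
        (charDegree (ξ : G → ℂ)).factorization p = (charDegree (χ₁ : G → ℂ)).factorization p))
      (fun ξ hξ => (Finset.mem_filter.1 hξ).2)
    have hc1 := count_pos p M hM B hB χ₁ hχ₁ hmin
      (Finset.univ.filter (fun ξ : IrrCharacter G => ξ ∈ B ∧
        (charDegree (χ₁ : G → ℂ)).factorization p < (charDegree (ξ : G → ℂ)).factorization p))
      (fun ξ hξ => (Finset.mem_filter.1 hξ).2)
    rw [← hdef] at hc0 hc1
    have hcard : Nat.card B = (Finset.univ.filter (fun ξ : IrrCharacter G => ξ ∈ B)).card := by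
      rw [Nat.card_eq_fintype_card, Fintype.card_subtype]
    have hsplit : (Finset.univ.filter (fun ξ : IrrCharacter G => ξ ∈ B)).card
        = (Finset.univ.filter (fun ξ : IrrCharacter G => ξ ∈ B ∧
            (charDegree (ξ : G → ℂ)).factorization p
              = (charDegree (χ₁ : G → ℂ)).factorization p)).card
          + (Finset.univ.filter (fun ξ : IrrCharacter G => ξ ∈ B ∧
            (charDegree (χ₁ : G → ℂ)).factorization p
              < (charDegree (ξ : G → ℂ)).factorization p)).card := by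
      rw [← Finset.card_union_of_disjoint]
      · congr 1
        ext ξ
        simp only [Finset.mem_filter, Finset.mem_univ, true_and, Finset.mem_union]
        constructor
        · intro h
          rcases (hmin ξ h).eq_or_lt with h1 | h1
          · exact Or.inl ⟨h, h1.symm⟩
          · exact Or.inr ⟨h, h1⟩
        · rintro (h | h)
          · exact h.1
          · exact h.1
      · rw [Finset.disjoint_left]
        intro ξ h1 h2
        have h3 := (Finset.mem_filter.1 h1).2.2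
        have h4 := (Finset.mem_filter.1 h2).2.2
        omega
    rw [hcard, hsplit]
    omega
  · intro χ hχ
    rw [hht χ]
    by_cases hlt : (charDegree (χ₁ : G → ℂ)).factorization p
        < (charDegree (χ : G → ℂ)).factorization p
    · have h1 := height_lt p M hM B hB χ χ₁ hχ hχ₁ hlt
      constructor
      · intro h
        omega
      · intro h
        omega
    · constructor
      · intro h
        omega
      · intro h
        omega

end Cfsg.Agent.S4710
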