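import Cfsg.Statements.S4500
-- import your own Cfsg.Agent.* helpers here
import Cfsg.Agent.S4710
import Cfsg.Agent.S0144
import Cfsg.Agent.Lib.CT.WBO
import Cfsg.Agent.Lib.CT.Knorr
import Cfsg.Agent.Lib.CT.Ops
import Cfsg.Agent.Lib.CT.LinChar
import Cfsg.Agent.Lib.Helper80.PrimeCod
import Cfsg.Agent.Lib.Helper80.Integrality
import Cfsg.Agent.Lib.Helper16.ZR
import Cfsg.Agent.Lib.Helper16.Grouping
import Cfsg.Agent.Lib.Helper77.LocalRing

set_option autoImplicit false
open Cfsg

namespace Cfsg.Agent.S4500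

open scoped ComplexConjugate

/-- The trivial character as an irreducible character. -/
noncomputable def triv (G : Type*) [Group G] : Cfsg.IrrCharacter G :=
  ⟨fun _ => (1 : ℂ), Cfsg.Agent.Lib.CT.Ops.isIrrCharacter_one⟩

/-- In a group whose Sylow `p`-subgroup has order `p` or `p²`, there is a nonprincipal irreducible
character (in the principal `p`-block) of degree prime to `p` and to `r`. -/
theorem core {G : Type*} [Group G] [Finite G] (p r : ℕ) (hp : p.Prime) (hr : r.Prime)
    (hpG : p ∣ Nat.card G) (ha : (Nat.card G).factorization p ≤ 2) :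
    ∃ χ : Cfsg.IrrCharacter G, (χ : G → ℂ) ≠ (fun _ => 1) ∧
      ¬ p ∣ Cfsg.charDegree (χ : G → ℂ) ∧ ¬ r ∣ Cfsg.charDegree (χ : G → ℂ) := by
  classical
  have : Fact p.Prime := ⟨hp⟩
  have := Fintype.ofFinite G
  have := Cfsg.Agent.Lib.CT.Wedderburn.finite_irrCharacter G
  have := Fintype.ofFinite (Cfsg.IrrCharacter G)
  obtain ⟨M, hM⟩ := Cfsg.Agent.Lib.CT.Knorr.exists_isPModular p hp
  have hMp : M.IsPrime := Cfsg.Agent.Lib.Helper77.LocalRing.isPrime_of_isPModular hM
  set B : Set (Cfsg.IrrCharacter G) := Cfsg.blockOf M ((triv G : Cfsg.IrrCharacter G) : G → ℂ) with hBdef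
  have hB : Cfsg.IsPBlock M B := ⟨triv G, rfl⟩
  have h1B : triv G ∈ B := Cfsg.Agent.Lib.Helper16.ZR.mem_blockOf_self hMp (triv G)
  have hdeg1 : Cfsg.charDegree ((triv G : Cfsg.IrrCharacter G) : G → ℂ) = 1 := by
    simp [triv, Cfsg.charDegree]
  have hInf : sInf ((fun χ : Cfsg.IrrCharacter G =>
      (Cfsg.charDegree (χ : G → ℂ)).factorization p) '' B) = 0 := by
    apply Nat.eq_zero_of_le_zero
    apply Nat.sInf_le
    exact ⟨triv G, h1B, by show (Cfsg.charDegree ((triv G : Cfsg.IrrCharacter G) : G → ℂ)).factorization p = 0; rw [hdeg1]; simp⟩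
  have hd : Cfsg.blockDefect p B = (Nat.card G).factorization p := by
    unfold Cfsg.blockDefect
    rw [hInf, Nat.sub_zero]
  have hS := (Cfsg.Agent.S4710.result p M hM B hB _ hd).2
  have hpdeg : ∀ χ ∈ B, ¬ p ∣ Cfsg.charDegree (χ : G → ℂ) := by
    intro χ hχ hdvd
    have hht : Cfsg.blockHeight p B (χ : G → ℂ) = 0 := by
      rcases Nat.lt_or_ge ((Nat.card G).factorization p) 2 with h | h
      · exact (hS χ hχ).1 (by omega)
      · have := (hS χ hχ).2 h
        omega
    unfold Cfsg.blockHeight at hht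
    rw [hInf, Nat.sub_zero] at hht
    have hpos := Cfsg.Agent.Lib.Helper80.Integrality.charDegree_pos χ
    rcases (Nat.factorization_eq_zero_iff _ _).1 hht with h | h | h
    · exact h hp
    · exact h hdvd
    · omega
  -- an element of order p
  obtain ⟨y, hy⟩ := exists_prime_orderOf_dvd_card' p hpG
  have hwbo := Cfsg.Agent.Lib.CT.WBO.weak_block_orthogonality p M hM B hB (1 : G) y
    (by rw [orderOf_one]; exact hp.not_dvd_one) (by rw [hy])
  rw [Cfsg.Agent.Lib.Helper16.Grouping.finsum_mem_eq_sum_filter_univ] at hwbo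
  by_contra hcon
  push Not at hcon
  -- every nonprincipal member of B has degree divisible by r
  have hrdvd : ∀ χ ∈ B, χ ≠ triv G → r ∣ Cfsg.charDegree (χ : G → ℂ) := by
    intro χ hχ hne
    apply hcon χ _ (hpdeg χ hχ)
    intro h
    apply hne
    exact Subtype.ext h
  have h1mem : triv G ∈ Finset.univ.filter (· ∈ B) := by simp [h1B]
  rw [← Finset.add_sum_erase _ _ h1mem] at hwbo
  have hterm1 : ((triv G : Cfsg.IrrCharacter G) : G → ℂ) 1 *
      conj (((triv G : Cfsg.IrrCharacter G) : G → ℂ) y) = 1 := by simp [triv]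
  rw [hterm1] at hwbo
  -- the remaining sum is r times an algebraic integer
  have hint : IsIntegral ℤ (∑ χ ∈ (Finset.univ.filter (· ∈ B)).erase (triv G),
      ((Cfsg.charDegree (χ : G → ℂ) / r : ℕ) : ℂ) * conj ((χ : G → ℂ) y)) := by
    apply IsIntegral.sum
    intro χ _
    apply IsIntegral.mul
    · generalize Cfsg.charDegree (χ : G → ℂ) / r = n
      have h := isIntegral_algebraMap (R := ℤ) (A := ℂ) (x := (n : ℤ))
      simpa using h
    · have h := Cfsg.Agent.Lib.Helper80.Integrality.isIntegral_irrCharacter χ y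
      exact h.map (starRingEnd ℂ).toIntAlgHom
  have hsum : ∑ χ ∈ (Finset.univ.filter (· ∈ B)).erase (triv G),
      (χ : G → ℂ) 1 * conj ((χ : G → ℂ) y) =
      (r : ℂ) * ∑ χ ∈ (Finset.univ.filter (· ∈ B)).erase (triv G),
      ((Cfsg.charDegree (χ : G → ℂ) / r : ℕ) : ℂ) * conj ((χ : G → ℂ) y) := by
    rw [Finset.mul_sum]
    apply Finset.sum_congr rfl
    intro χ hχ
    rw [Finset.mem_erase, Finset.mem_filter] at hχ
    have hr1 := hrdvd χ hχ.2.2 hχ.1
    have h1 : (χ : G → ℂ) 1 = (Cfsg.charDegree (χ : G → ℂ) : ℂ) :=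
      Cfsg.Agent.Lib.Helper80.Integrality.apply_one_eq_charDegree
        (Cfsg.Agent.Lib.Helper80.Integrality.isCharacter_of_isIrrCharacter χ.2)
    rw [h1]
    obtain ⟨k, hk⟩ := hr1
    rw [hk, Nat.mul_div_cancel_left _ hr.pos]
    push_cast
    ring
  rw [hsum] at hwbo
  -- so -1/r is an algebraic integer
  set S := ∑ χ ∈ (Finset.univ.filter (· ∈ B)).erase (triv G),
      ((Cfsg.charDegree (χ : G → ℂ) / r : ℕ) : ℂ) * conj ((χ : G → ℂ) y) with hSdef
  have hr0 : (r : ℂ) ≠ 0 := Nat.cast_ne_zero.mpr hr.ne_zero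
  have hSval : S = -(1 : ℂ) / (r : ℂ) := by
    field_simp
    linear_combination hwbo
  have hint2 : IsIntegral ℤ (((-1 : ℤ) : ℚ) / ((r : ℤ) : ℚ)) := by
    have h3 : IsIntegral ℤ ((algebraMap ℚ ℂ) (((-1 : ℤ) : ℚ) / ((r : ℤ) : ℚ))) := by
      have : (algebraMap ℚ ℂ) (((-1 : ℤ) : ℚ) / ((r : ℤ) : ℚ)) = S := by
        rw [hSval]; simp
      rw [this]; exact hint
    exact (isIntegral_algebraMap_iff (algebraMap ℚ ℂ).injective).1 h3
  obtain ⟨z, hz⟩ := IsIntegrallyClosed.isIntegral_iff.1 hint2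
  have hz' : (z : ℚ) * (r : ℚ) = -1 := by
    have hrq : ((r : ℤ) : ℚ) ≠ 0 := by exact_mod_cast hr.ne_zero
    have : (z : ℚ) = ((-1 : ℤ) : ℚ) / ((r : ℤ) : ℚ) := by simpa using hz
    rw [this]
    field_simp
    simp
  have hz'' : z * (r : ℤ) = -1 := by exact_mod_cast hz'
  have hunit : IsUnit (r : ℤ) := IsUnit.of_mul_eq_one (-z) (by linarith)
  have := Int.natAbs_of_isUnit hunit
  simp at this
  exact hr.one_lt.ne' this

/-- Let G be a non-trivial finite group of order p^a · q^b · r^c with p, q, r distinct primes and a ≤ 2. Then G has a non-principal irreducible character whose degree is a power of q, and a non-principal irreducible character whose degree is a power of r; the power may be the zeroth, so a non-principal linear character serves for both. -/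
theorem result {G : Type*} [Group G] [Finite G] [Nontrivial G] (p q r a b c : ℕ) (hp : p.Prime) (hq : q.Prime) (hr : r.Prime) (hpq : p ≠ q) (hpr : p ≠ r) (hqr : q ≠ r) (ha : a ≤ 2) (hG : Nat.card G = p ^ a * q ^ b * r ^ c) : (∃ χ : Cfsg.IrrCharacter G, (χ : G → ℂ) ≠ (fun _ => 1) ∧ ∃ k : ℕ, Cfsg.charDegree (χ : G → ℂ) = q ^ k) ∧ ∃ χ : Cfsg.IrrCharacter G, (χ : G → ℂ) ≠ (fun _ => 1) ∧ ∃ k : ℕ, Cfsg.charDegree (χ : G → ℂ) = r ^ k := by
  classical
  by_cases hperf : commutator G = ⊤
  · -- perfect case: p divides |G| (else solvable), use the principal p-block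
    have hpG : p ∣ Nat.card G := by
      by_contra hnp
      have ha0 : a = 0 := by
        by_contra h0
        apply hnp
        rw [hG]
        exact Dvd.dvd.mul_right (Dvd.dvd.mul_right (dvd_pow_self p h0) _) _
      subst ha0
      have hsolv : Group.IsSolvable G :=
        Cfsg.Agent.S0144.result q r b c hq hr (by rw [hG]; simp)
      have hne : commutator G ≠ ⊤ := by
        intro h
        have h2 : derivedSeries G 1 = ⊤ := by
          rw [derivedSeries_one]; exact h
        obtain ⟨n, hn⟩ := hsolv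
        have h3 : ∀ k, derivedSeries G k = ⊤ := by
          intro k
          induction k with
          | zero => rfl
          | succ k ih =>
            rw [derivedSeries_succ, ih]
            have := h
            rw [commutator_def] at this
            exact this
        rw [h3 n] at hn
        exact top_ne_bot hn
      exact hne hperf
    have hqp : q ≠ p := fun h => hpq h.symm
    have hrp : r ≠ p := fun h => hpr h.symm
    have hfac : (Nat.card G).factorization p ≤ 2 := by
      rw [hG]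
      rw [Nat.factorization_mul (mul_ne_zero (pow_ne_zero _ hp.ne_zero) (pow_ne_zero _ hq.ne_zero))
        (pow_ne_zero _ hr.ne_zero),
        Nat.factorization_mul (pow_ne_zero _ hp.ne_zero) (pow_ne_zero _ hq.ne_zero)]
      simp only [Finsupp.coe_add, Pi.add_apply, Nat.factorization_pow, Finsupp.coe_smul,
        Pi.smul_apply, smul_eq_mul]
      rw [hp.factorization_self, Nat.factorization_eq_zero_of_not_dvd
        (fun h => hpq ((Nat.prime_dvd_prime_iff_eq hp hq).1 h)),
        Nat.factorization_eq_zero_of_not_dvd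
        (fun h => hpr ((Nat.prime_dvd_prime_iff_eq hp hr).1 h))]
      omega
    have key : ∀ (s t : ℕ) (e f : ℕ), s.Prime → t.Prime → s ≠ t → s ≠ p → t ≠ p →
        Nat.card G = p ^ a * s ^ e * t ^ f →
        ∃ χ : Cfsg.IrrCharacter G, (χ : G → ℂ) ≠ (fun _ => 1) ∧
          ∃ k : ℕ, Cfsg.charDegree (χ : G → ℂ) = s ^ k := by
      intro s t e f hs ht hst hsp htp hcard
      obtain ⟨χ, hχ1, hχp, hχt⟩ := core p t hp ht hpG hfac
      refine ⟨χ, hχ1, ?_⟩
      have hdvd := Cfsg.Agent.Lib.Helper80.Integrality.charDegree_dvd_card χ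
      rw [hcard] at hdvd
      have hcp : Nat.Coprime (Cfsg.charDegree (χ : G → ℂ)) (p ^ a) :=
        Nat.Coprime.pow_right _ ((Nat.Prime.coprime_iff_not_dvd hp).2 hχp).symm
      have hct : Nat.Coprime (Cfsg.charDegree (χ : G → ℂ)) (t ^ f) :=
        Nat.Coprime.pow_right _ ((Nat.Prime.coprime_iff_not_dvd ht).2 hχt).symm
      have h1 : Cfsg.charDegree (χ : G → ℂ) ∣ p ^ a * s ^ e := hct.dvd_of_dvd_mul_right hdvd
      have h2 : Cfsg.charDegree (χ : G → ℂ) ∣ s ^ e := hcp.dvd_of_dvd_mul_left h1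
      obtain ⟨k, -, hk⟩ := (Nat.dvd_prime_pow hs).1 h2
      exact ⟨k, hk⟩
    refine ⟨key q r b c hq hr hqr hqp hrp hG, key r q c b hr hq hqr.symm hrp hqp ?_⟩
    rw [hG]; ring
  · -- a nonprincipal linear character
    obtain ⟨ℓ, ψ, hℓ, hidx⟩ := Cfsg.Agent.Lib.Helper80.PrimeCod.exists_hom_ker_index_prime hperf
    have hirr := Cfsg.Agent.Lib.CT.LinChar.isIrrCharacter_of_hom ψ
    have hne : (fun g => ((ψ g : ℂˣ) : ℂ)) ≠ (fun _ => (1 : ℂ)) := by
      intro h
      have hker : ψ.ker = ⊤ := by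
        rw [eq_top_iff]
        intro g _
        rw [MonoidHom.mem_ker]
        have := congrFun h g
        exact Units.ext this
      rw [hker, Subgroup.index_top] at hidx
      exact hℓ.one_lt.ne hidx
    have hdeg : Cfsg.charDegree (fun g => ((ψ g : ℂˣ) : ℂ)) = 1 := by
      simp [Cfsg.charDegree]
    exact ⟨⟨⟨_, hirr⟩, hne, 0, by rw [hdeg, pow_zero]⟩, ⟨⟨_, hirr⟩, hne, 0, by rw [hdeg, pow_zero]⟩⟩

end Cfsg.Agent.S4500
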