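import Cfsg.Statements.S4506
import Cfsg.Agent.Lib.Helper75.PConj

set_option autoImplicit false
open Cfsg

namespace Cfsg.Agent.S4506

/-- Let G be a finite group, p a prime, p^a the p-part of the order of G and g′ its p′-part. Call two irreducible characters p-conjugate when one is obtained from the other by applying a field automorphism of ℂ that fixes the g′-th roots of unity, and let r be the number of characters p-conjugate to the irreducible character χ (χ included). Then the exponent of p in r·χ(1) is at most a; and if p^a divides r·χ(1) then p^a already divides χ(1). -/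
theorem result {G : Type*} [Group G] [Finite G] (p : ℕ) (hp : p.Prime) (χ : Cfsg.IrrCharacter G) (r : ℕ) (hr : Nat.card {ψ : Cfsg.IrrCharacter G // ∃ σ : ℂ ≃+* ℂ, σ (Complex.exp (2 * Real.pi * Complex.I / ((Nat.card G / p ^ (Nat.card G).factorization p) : ℕ))) = Complex.exp (2 * Real.pi * Complex.I / ((Nat.card G / p ^ (Nat.card G).factorization p) : ℕ)) ∧ (ψ : G → ℂ) = fun g => σ ((χ : G → ℂ) g)} = r) : (r * Cfsg.charDegree (χ : G → ℂ)).factorization p ≤ (Nat.card G).factorization p ∧ (p ^ (Nat.card G).factorization p ∣ r * Cfsg.charDegree (χ : G → ℂ) → p ^ (Nat.card G).factorization p ∣ Cfsg.charDegree (χ : G → ℂ)) := by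
  classical
  haveI := Fintype.ofFinite G
  haveI := Cfsg.Agent.Lib.CT.Wedderburn.finite_irrCharacter G
  haveI := Fintype.ofFinite (Cfsg.IrrCharacter G)
  have key := Cfsg.Agent.Lib.Helper75.PConj.main p hp χ
    (Finset.univ.filter (fun ψ : Cfsg.IrrCharacter G => ∃ σ : ℂ ≃+* ℂ, σ (Complex.exp (2 * Real.pi * Complex.I / ((Nat.card G / p ^ (Nat.card G).factorization p) : ℕ))) = Complex.exp (2 * Real.pi * Complex.I / ((Nat.card G / p ^ (Nat.card G).factorization p) : ℕ)) ∧ (ψ : G → ℂ) = fun g => σ ((χ : G → ℂ) g)))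
    (Finset.mem_filter.2 ⟨Finset.mem_univ _, RingEquiv.refl ℂ, rfl, rfl⟩)
    (fun ψ hψ => (Finset.mem_filter.1 hψ).2)
  have hcard : (Finset.univ.filter (fun ψ : Cfsg.IrrCharacter G => ∃ σ : ℂ ≃+* ℂ, σ (Complex.exp (2 * Real.pi * Complex.I / ((Nat.card G / p ^ (Nat.card G).factorization p) : ℕ))) = Complex.exp (2 * Real.pi * Complex.I / ((Nat.card G / p ^ (Nat.card G).factorization p) : ℕ)) ∧ (ψ : G → ℂ) = fun g => σ ((χ : G → ℂ) g))).card = r := by
    rw [← hr]
    exact (Nat.card_eq_fintype_card.trans (Fintype.card_subtype _)).symm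
  rw [hcard] at key
  exact key

end Cfsg.Agent.S4506
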