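import Cfsg.Statements.S4509
import Cfsg.Agent.Lib.Helper75.SelfCentDerived

set_option autoImplicit false
open Cfsg

namespace Cfsg.Agent.S4509

open Cfsg.Agent.Lib.Helper75 in
/-- Let the finite group G contain an element x of prime order p with C_G(x) = ⟨x⟩; let t be the number of conjugacy classes of elements of order p and 1 + n·p the number of subgroups of order p. Then G has a normal subgroup of order 1 + n·p if and only if either t = p − 1, or t < p − 1 and G″ ≠ G′. Moreover, if t = p − 1 then G′ has order 1 + n·p and G/G′ is cyclic of order p; and if t < p − 1 and G″ ≠ G′ then G″ has order 1 + n·p and G′ has order p·(1 + n·p). -/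
theorem result {G : Type*} [Group G] [Finite G] (p : ℕ) (hp : p.Prime) (x : G) (hx : orderOf x = p) (hC : Subgroup.centralizer ({x} : Set G) = Subgroup.zpowers x) (t : ℕ) (ht : Nat.card {C : ConjClasses G // ∃ g ∈ C.carrier, orderOf g = p} = t) (n : ℕ) (hn : Nat.card {H : Subgroup G // Nat.card H = p} = 1 + n * p) : ((∃ S : Subgroup G, S.Normal ∧ Nat.card S = 1 + n * p) ↔ (t = p - 1 ∨ (t < p - 1 ∧ derivedSeries G 2 ≠ derivedSeries G 1))) ∧ (t = p - 1 → Nat.card (commutator G) = 1 + n * p ∧ IsCyclic (G ⧸ commutator G) ∧ (commutator G).index = p) ∧ (t < p - 1 → derivedSeries G 2 ≠ derivedSeries G 1 → Nat.card (derivedSeries G 2) = 1 + n * p ∧ Nat.card (commutator G) = p * (1 + n * p)) := by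
  have hcount := SelfCentCount.card_classes_mul hp hx hC
  rw [ht] at hcount
  have hp1 : 0 < p - 1 := Nat.sub_pos_of_lt hp.one_lt
  have hidx : (Subgroup.normalizer (Subgroup.zpowers x : Set G)).index = 1 + n * p := by
    rw [← SelfCent.card_subgroups_eq hp hx hC]; exact hn
  have hd1 : derivedSeries G 1 = commutator G := derivedSeries_one G
  have hd2 : derivedSeries G 2 = ⁅commutator G, commutator G⁆ := by
    rw [derivedSeries_succ, hd1]
  have hNle : p ≤ Nat.card (Subgroup.normalizer (Subgroup.zpowers x : Set G)) := by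
    have := Subgroup.card_dvd_of_le (SelfCent.zpowers_le_normalizer (x := x))
    rw [SelfCent.card_zpowers_eq hx] at this
    exact Nat.le_of_dvd Nat.card_pos this
  have htle : t ≤ p - 1 := by
    have : t * p ≤ (p - 1) * p := by
      rw [← hcount]; exact Nat.mul_le_mul_left t hNle
    exact Nat.le_of_mul_le_mul_right this hp.pos
  have hNeq : t = p - 1 → Nat.card (Subgroup.normalizer (Subgroup.zpowers x : Set G)) = p := by
    intro heq
    rw [heq] at hcount
    exact Nat.eq_of_mul_eq_mul_left hp1 hcount
  have hNne : t ≠ p - 1 → Nat.card (Subgroup.normalizer (Subgroup.zpowers x : Set G)) ≠ p := by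
    intro hne h
    rw [h] at hcount
    exact hne (Nat.eq_of_mul_eq_mul_right hp.pos hcount)
  have part2 : t = p - 1 → Nat.card (commutator G) = 1 + n * p ∧ IsCyclic (G ⧸ commutator G) ∧
      (commutator G).index = p := by
    intro heq
    have hN := hNeq heq
    have hi := SelfCentMain.index_commutator_eq hp hx hC hN
    refine ⟨by rw [SelfCentDerived.card_commutator_of_eq hp hx hC hN, hidx], ?_, hi⟩
    haveI : Fact p.Prime := ⟨hp⟩
    apply isCyclic_of_prime_card (p := p)
    rw [← Subgroup.index_eq_card, hi]
  have part3 : t < p - 1 → derivedSeries G 2 ≠ derivedSeries G 1 →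
      Nat.card (derivedSeries G 2) = 1 + n * p ∧ Nat.card (commutator G) = p * (1 + n * p) := by
    intro hlt hne
    rw [hd2, hd1] at hne
    have := SelfCentDerived.card_derived_of_ne hp hx hC (hNne hlt.ne) hne
    rw [hd2, this.1, this.2, hidx]
    exact ⟨rfl, rfl⟩
  refine ⟨⟨?_, ?_⟩, part2, part3⟩
  · rintro ⟨S, hSn, hScard⟩
    by_cases heq : t = p - 1
    · exact Or.inl heq
    · right
      have hlt : t < p - 1 := lt_of_le_of_ne htle heq
      refine ⟨hlt, ?_⟩
      have hS' : ¬ p ∣ Nat.card S := by
        rw [hScard]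
        intro h
        have h1 : p ∣ 1 := (Nat.dvd_add_iff_left (dvd_mul_left p n)).2 h
        exact hp.one_lt.ne' (Nat.dvd_one.1 h1)
      have h2 := SelfCentDerived.not_dvd_card_derived hp hx hC S hS' (by rw [hScard, hidx])
      have hxD := SelfCentMain.mem_commutator_of_ne hp hx hC (hNne heq)
      rw [hd2, hd1]
      intro h
      apply h2
      rw [h, ← hx]
      exact Subgroup.orderOf_dvd_natCard _ hxD
  · rintro (heq | ⟨hlt, hne⟩)
    · exact ⟨commutator G, inferInstance, (part2 heq).1⟩
    · exact ⟨derivedSeries G 2, inferInstance, (part3 hlt hne).1⟩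

end Cfsg.Agent.S4509
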