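import Cfsg.Statements.S4510
import Cfsg.Agent.Lib.Helper75.NumMinMax

open Cfsg.Agent.Lib.Helper77.LocalRing Cfsg.Agent.Lib.Helper77.BlockIdem
  Cfsg.Agent.Lib.CT.DefectZeroBlock Cfsg.Agent.Lib.Helper75.NumMinMax

set_option autoImplicit false
open Cfsg

namespace Cfsg.Agent.S4510

/-- Let G be a finite group, p a prime, M a maximal ideal of the algebraic integers containing p, and call the defect of a conjugacy class the exponent of p in the order of the centralizer of its elements. Two irreducible characters lying in p-blocks of defect exactly d lie in the same block if and only if their central characters (class size times χ(x)/χ(1)) agree modulo the local ideal at M at every p-regular element x whose class has defect exactly d. -/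
theorem result {G : Type*} [Group G] [Finite G] (p : ℕ) [Fact p.Prime] (M : Ideal Cfsg.AlgInt) (hM : Cfsg.IsPModular p M) (d : ℕ) (χ ψ : Cfsg.IrrCharacter G) (hχ : Cfsg.blockDefect p (Cfsg.blockOf M (χ : G → ℂ)) = d) (hψ : Cfsg.blockDefect p (Cfsg.blockOf M (ψ : G → ℂ)) = d) : Cfsg.SameBlock M (χ : G → ℂ) (ψ : G → ℂ) ↔ ∀ x : G, ¬ p ∣ orderOf x → (Nat.card (Subgroup.centralizer ({x} : Set G))).factorization p = d → Cfsg.MemLocalIdeal M (Cfsg.centralChar (χ : G → ℂ) x - Cfsg.centralChar (ψ : G → ℂ) x) := by
  classical
  have := Fintype.ofFinite G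
  have hMp := isPrime_of_isPModular hM
  constructor
  · intro h x _ _
    exact h x
  · intro h
    set B : Set (IrrCharacter G) := blockOf M (χ : G → ℂ) with hB
    have hBb : IsPBlock M B := isPBlock_blockOf χ
    have hχB : χ ∈ B := Cfsg.Agent.Lib.Helper77.DefectClass.self_mem_blockOf hMp χ
    have h1 := sum_defect_classes p M hM B hBb χ rfl
    have h2 := sum_defect_classes p M hM B hBb ψ (hψ.trans hχ.symm)
    rw [if_pos hχB] at h1
    by_contra hψB
    rw [if_neg (show ψ ∉ B from hψB)] at h2
    have h3 : MemLocalIdeal M ((∑ c : ConjClasses G,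
        if (¬ p ∣ orderOf c.out ∧
            (Nat.card (Subgroup.centralizer ({c.out} : Set G))).factorization p =
              blockDefect p B) then
          blockCoeff B c.out * centralChar (χ : G → ℂ) c.out else 0) - ∑ c : ConjClasses G,
        if (¬ p ∣ orderOf c.out ∧
            (Nat.card (Subgroup.centralizer ({c.out} : Set G))).factorization p =
              blockDefect p B) then
          blockCoeff B c.out * centralChar (ψ : G → ℂ) c.out else 0) := by
      rw [← Finset.sum_sub_distrib]
      refine memLocalIdeal_sum hMp _ _ fun c _ => ?_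
      split_ifs with hc
      · rw [← mul_sub]
        refine memLocalIdeal_mul_left hMp (blockCoeff_memLocalRing p M hM B hBb _) ?_
        exact h c.out hc.1 (hc.2.trans hχ)
      · rw [sub_self]
        exact memLocalIdeal_zero hMp
    have h4 := memLocalIdeal_sub hMp (memLocalIdeal_add hMp h1 h3) h2
    have h5 : MemLocalIdeal M (1 : ℂ) := by
      convert h4 using 1
      ring
    exact not_memLocalIdeal_one hMp h5

end Cfsg.Agent.S4510
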