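import Cfsg.Statements.S4633
import Cfsg.Agent.Lib.Helper77.BPInd
import Cfsg.Agent.Lib.Helper77.BPSat2

set_option autoImplicit false
open Cfsg

namespace Cfsg.Agent.S4633

open Cfsg.Agent.Lib.Helper77.LocalRing Cfsg.Agent.Lib.Helper77.BPNormal
  Cfsg.Agent.Lib.Helper77.BPEquiv Cfsg.Agent.Lib.Helper77.BPEquiv2
  Cfsg.Agent.Lib.Helper77.BPConjMax Cfsg.Agent.Lib.Helper77.BPFix
  Cfsg.Agent.Lib.Helper77.BPSub Cfsg.Agent.Lib.Helper77.BPSubpair
  Cfsg.Agent.Lib.Helper77.BPUp Cfsg.Agent.Lib.Helper77.BPInd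
  Cfsg.Agent.Lib.Helper77.BPSat2
  Cfsg.Agent.Lib.Helper33.Conj

/-- An element normalizing a cyclic subgroup acts on it as a power map. -/
theorem exists_pow_of_normalizer {G : Type*} [Group G] [Finite G] {P : Subgroup G} {y : G}
    (hy : y ∈ P) (hgen : ∀ x ∈ P, x ∈ Subgroup.zpowers y) {g : G}
    (hg : g ∈ Subgroup.normalizer (P : Set G)) :
    ∃ a : ℕ, ∀ x ∈ P, g * x * g⁻¹ = x ^ a := by
  have h1 : g * y * g⁻¹ ∈ P := (Subgroup.mem_normalizer_iff.mp hg y).mp hy
  have h2 := hgen _ h1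
  rw [← mem_powers_iff_mem_zpowers] at h2
  obtain ⟨a, ha⟩ := (Submonoid.mem_powers_iff _ _).mp h2
  refine ⟨a, fun x hx => ?_⟩
  obtain ⟨k, rfl⟩ := Subgroup.mem_zpowers_iff.mp (hgen x hx)
  rw [← conj_zpow, ← ha, ← zpow_natCast, ← zpow_natCast, ← zpow_mul, ← zpow_mul, mul_comm]

/-- A power map on a `p`-group of order `p ^ n` fixing a non-identity element has `p ^ n`-th
power trivial. -/
theorem pow_mem_centralizer {G : Type*} [Group G] [Finite G] {p : ℕ} (hp : p.Prime)
    {P : Subgroup G} {n : ℕ} (hcard : Nat.card P = p ^ n) {g : G} {a : ℕ}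
    (ha : ∀ u ∈ P, g * u * g⁻¹ = u ^ a) {x : G} (hx : x ∈ P) (hx1 : x ≠ 1)
    (hgx : g * x * g⁻¹ = x) : g ^ (p ^ n) ∈ Subgroup.centralizer (P : Set G) := by
  have hord : ∀ u ∈ P, orderOf u ∣ p ^ n := by
    intro u hu
    rw [← hcard, ← Subgroup.orderOf_mk u hu]
    exact orderOf_dvd_natCard _
  have hk : ∀ k : ℕ, ∀ u ∈ P, g ^ k * u * (g ^ k)⁻¹ = u ^ (a ^ k) := by
    intro k
    induction k with
    | zero =>
      intro u hu
      simp
    | succ k ih =>
      intro u hu
      have h1 : g ^ (k + 1) * u * (g ^ (k + 1))⁻¹ = g * (g ^ k * u * (g ^ k)⁻¹) * g⁻¹ := by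
        rw [pow_succ']
        group
      rw [h1, ih u hu, ha _ (pow_mem hu _), ← pow_mul, ← pow_succ]
  have hxa : x ^ a = x ^ 1 := by rw [pow_one, ← ha x hx, hgx]
  rw [pow_eq_pow_iff_modEq] at hxa
  obtain ⟨m, hm, hom⟩ := (Nat.dvd_prime_pow hp).mp (hord x hx)
  have hm0 : m ≠ 0 := by
    rintro rfl
    rw [pow_zero, orderOf_eq_one_iff] at hom
    exact hx1 hom
  have hpo : p ∣ orderOf x := by
    rw [hom]
    exact dvd_pow_self p hm0
  have hap : a ≡ 1 [MOD p] := hxa.of_dvd hpo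
  have hz : (p : ℤ) ∣ (a : ℤ) - 1 := by
    have h1 := (Int.natCast_modEq_iff.mpr hap).symm
    have h2 := Int.modEq_iff_dvd.mp h1
    simpa using h2
  have hz2 := dvd_sub_pow_of_dvd_sub hz n
  rw [one_pow] at hz2
  have hmod : a ^ (p ^ n) ≡ 1 [MOD p ^ n] := by
    apply Int.natCast_modEq_iff.mp
    apply Int.ModEq.symm
    rw [Int.modEq_iff_dvd]
    push_cast
    exact (pow_dvd_pow _ (Nat.le_succ n)).trans hz2
  rw [Subgroup.mem_centralizer_iff]
  intro u hu
  have h1 := hk (p ^ n) u hu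
  have h2 : u ^ (a ^ (p ^ n)) = u := by
    have h3 : u ^ (a ^ (p ^ n)) = u ^ 1 := pow_eq_pow_iff_modEq.mpr (hmod.of_dvd (hord u hu))
    rwa [pow_one] at h3
  rw [h2] at h1
  exact (mul_inv_eq_iff_eq_mul.mp h1).symm

/-- Let B be a block of the finite group G relative to a maximal ideal M of the algebraic integers containing the prime p, with a nontrivial cyclic defect group P. Let c be a block of C_G(P) inducing B and T the stabilizer of c in N_G(P) (the elements of N_G(P) conjugating c to itself); T contains C_G(P). Then T/C_G(P) is cyclic of order dividing p − 1, and it acts freely on the non-identity elements of P: an element of T fixing some non-identity element of P under conjugation lies in C_G(P). -/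
theorem result {G : Type*} [Group G] [Finite G] (p : ℕ) [Fact p.Prime] (M : Ideal Cfsg.AlgInt) (hM : Cfsg.IsPModular p M) (B : Set (Cfsg.IrrCharacter G)) (hB : Cfsg.IsPBlock M B) (P : Subgroup G) (hPD : Cfsg.IsDefectGroup p M B P) (hP1 : P ≠ ⊥) (hcyc : IsCyclic P) (c : Set (Cfsg.IrrCharacter (Subgroup.centralizer (P : Set G)))) (hc : Cfsg.IsInducedBlock M (Subgroup.centralizer (P : Set G)) c B) (T : Subgroup G) (hT : ∀ g : G, g ∈ T ↔ (g ∈ Subgroup.normalizer (P : Set G) ∧ Cfsg.StabilizesBlock (Subgroup.centralizer (P : Set G)) c g)) [hn : ((Subgroup.centralizer (P : Set G)).subgroupOf T).Normal] : IsCyclic (T ⧸ (Subgroup.centralizer (P : Set G)).subgroupOf T) ∧ (Subgroup.centralizer (P : Set G)).relIndex T ∣ p - 1 ∧ ∀ g ∈ T, ∀ x ∈ P, x ≠ 1 → g * x * g⁻¹ = x → g ∈ Subgroup.centralizer (P : Set G) := by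
  classical
  have hMp := isPrime_of_isPModular hM
  have hp : p.Prime := Fact.out
  have hPp : IsPGroup p P := isPGroup_of_isDefectGroup hPD
  obtain ⟨⟨y, hyP⟩, hy⟩ := hcyc.exists_generator
  have hgen : ∀ x ∈ P, x ∈ Subgroup.zpowers y := by
    intro x hx
    obtain ⟨k, hk⟩ := Subgroup.mem_zpowers_iff.mp (hy ⟨x, hx⟩)
    refine Subgroup.mem_zpowers_iff.mpr ⟨k, ?_⟩
    have h1 := congrArg Subtype.val hk
    simpa using h1
  have hPab : ∀ x ∈ P, ∀ x' ∈ P, x * x' = x' * x := by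
    intro x hx x' hx'
    obtain ⟨k, rfl⟩ := Subgroup.mem_zpowers_iff.mp (hgen x hx)
    obtain ⟨l, rfl⟩ := Subgroup.mem_zpowers_iff.mp (hgen x' hx')
    rw [← zpow_add, ← zpow_add, add_comm]
  have hPC : P ≤ Subgroup.centralizer (P : Set G) := by
    intro u hu
    rw [Subgroup.mem_centralizer_iff]
    intro q hq
    exact hPab q hq u hu
  have hpair : IsBrauerPairOf p M B P c :=
    (isBrauerPairOf_iff_isInducedBlock hM P hPp c B).mpr hc
  have hmax : IsMaximalBrauerPair p M B P c := isMaximal_of_isDefectGroup hM hpair hPD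
  obtain ⟨n, hn'⟩ := IsPGroup.iff_card.mp hPp
  -- the inertial quotient is a p'-group
  have hA : ∀ g ∈ T, ∀ k : ℕ, g ^ (p ^ k) ∈ Subgroup.centralizer (P : Set G) →
      g ∈ Subgroup.centralizer (P : Set G) := by
    intro g hgT k hk
    obtain ⟨s, t, ht, hst⟩ := Nat.exists_eq_pow_mul_and_not_dvd (orderOf_pos g).ne' p hp.ne_one
    have hx1T : g ^ t ∈ T := pow_mem hgT t
    have hx1 : (g ^ t) ^ (p ^ s) = 1 := by rw [← pow_mul, mul_comm, ← hst, pow_orderOf_eq_one]
    obtain ⟨hxN, hxs⟩ := (hT _).mp hx1T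
    obtain ⟨u, hu, hux⟩ := mem_mul_of_maximal hM hmax (g ^ t) hxN hxs s hx1
    have hx1C : g ^ t ∈ Subgroup.centralizer (P : Set G) := by
      have h1 : g ^ t = u * (u⁻¹ * g ^ t) := by group
      rw [h1]
      exact mul_mem (hPC hu) hux
    have hcop : Nat.gcd t (p ^ k) = 1 :=
      Nat.Coprime.pow_right k ((Nat.Prime.coprime_iff_not_dvd hp).mpr ht).symm
    have hb := Nat.gcd_eq_gcd_ab t (p ^ k)
    rw [hcop] at hb
    have hg : g = (g ^ t) ^ (Nat.gcdA t (p ^ k)) * (g ^ (p ^ k)) ^ (Nat.gcdB t (p ^ k)) := by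
      rw [← zpow_natCast g t, ← zpow_natCast g (p ^ k), ← zpow_mul, ← zpow_mul, ← zpow_add, ← hb]
      simp
    rw [hg]
    exact mul_mem (zpow_mem hx1C _) (zpow_mem hk _)
  have hL : ∀ g ∈ T, ∃ a : ℕ, ∀ x ∈ P, g * x * g⁻¹ = x ^ a :=
    fun g hgT => exists_pow_of_normalizer hyP hgen ((hT g).mp hgT).1
  have h3 : ∀ g ∈ T, ∀ x ∈ P, x ≠ 1 → g * x * g⁻¹ = x →
      g ∈ Subgroup.centralizer (P : Set G) := by
    intro g hgT x hxP hx1 hgx
    obtain ⟨a, ha⟩ := hL g hgT
    exact hA g hgT n (pow_mem_centralizer hp hn' ha hxP hx1 hgx)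
  -- an element of order p
  have hpc : p ∣ Nat.card P := by
    rw [hn']
    have hn0 : n ≠ 0 := by
      rintro rfl
      rw [pow_zero] at hn'
      exact hP1 (Subgroup.card_eq_one.mp hn')
    exact dvd_pow_self p hn0
  obtain ⟨⟨z, hzP⟩, hz⟩ := exists_prime_orderOf_dvd_card' p hpc
  have hzo : orderOf z = p := by
    rw [← Subgroup.orderOf_mk z hzP]
    exact hz
  have hz1 : z ≠ 1 := by
    rintro rfl
    rw [orderOf_one] at hzo
    exact hp.ne_one hzo.symm
  have hTZ : T ≤ Subgroup.normalizer ((Subgroup.zpowers z : Subgroup G) : Set G) := by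
    have key : ∀ g ∈ T, ∀ w ∈ Subgroup.zpowers z, g * w * g⁻¹ ∈ Subgroup.zpowers z := by
      intro g hgT w hw
      obtain ⟨a, ha⟩ := hL g hgT
      have hwP : w ∈ P := (Subgroup.zpowers_le.mpr hzP) hw
      rw [ha w hwP]
      exact pow_mem hw a
    intro g hgT
    rw [Subgroup.mem_normalizer_iff]
    intro w
    constructor
    · exact key g hgT w
    · intro h
      have h2 := key g⁻¹ (inv_mem hgT) _ h
      rw [inv_inv] at h2
      have h4 : g⁻¹ * (g * w * g⁻¹) * g = w := by group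
      rwa [h4] at h2
  have hker : ∀ t : T, kap T (Subgroup.zpowers z) hTZ t = 1 →
      (t : G) ∈ Subgroup.centralizer (P : Set G) := by
    intro t ht
    apply h3 (t : G) t.2 z hzP hz1
    have h4 : ((kap T (Subgroup.zpowers z) hTZ t ⟨z, Subgroup.mem_zpowers z⟩ :
        Subgroup.zpowers z) : G) = z := by
      rw [ht]
      rfl
    rw [coe_kap] at h4
    exact h4
  have hle : (Subgroup.centralizer (P : Set G)).subgroupOf T ≤
      (kap T (Subgroup.zpowers z) hTZ).ker := by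
    intro t ht
    rw [MonoidHom.mem_ker]
    apply kap_eq_one
    exact (Subgroup.centralizer_le (Subgroup.zpowers_le.mpr hzP)) (Subgroup.mem_subgroupOf.mp ht)
  have hφ : Function.Injective
      (QuotientGroup.lift ((Subgroup.centralizer (P : Set G)).subgroupOf T)
        (kap T (Subgroup.zpowers z) hTZ) hle) := by
    rw [injective_iff_map_eq_one]
    intro q
    induction q using QuotientGroup.induction_on with
    | H t =>
      intro h
      have h' : kap T (Subgroup.zpowers z) hTZ t = 1 := h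
      rw [QuotientGroup.eq_one_iff]
      exact Subgroup.mem_subgroupOf.mpr (hker t h')
  have hZcard : Nat.card (Subgroup.zpowers z) = p := by rw [Nat.card_zpowers, hzo]
  haveI : Fact (Nat.card (Subgroup.zpowers z)).Prime := ⟨by rw [hZcard]; exact hp⟩
  haveI : IsCyclic (MulAut (Subgroup.zpowers z)) :=
    isCyclic_of_injective (IsCyclic.mulAutMulEquiv (Subgroup.zpowers z)).toMonoidHom
      (IsCyclic.mulAutMulEquiv (Subgroup.zpowers z)).injective
  have hcardAut : Nat.card (MulAut (Subgroup.zpowers z)) = p - 1 := by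
    rw [IsCyclic.card_mulAut, hZcard, Nat.totient_prime hp]
  refine ⟨isCyclic_of_injective _ hφ, ?_, h3⟩
  have h5 := Subgroup.card_dvd_of_injective _ hφ
  rw [hcardAut] at h5
  exact h5

end Cfsg.Agent.S4633
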