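import Cfsg.Statements.S4636
import Mathlib

set_option autoImplicit false
open scoped Pointwise
open Cfsg

namespace Cfsg.Agent.S4636

/-- In a finite cyclic subgroup, two subgroups of the same prime order coincide. -/
theorem uniq_sub {G : Type*} [Group G] [Finite G] (p : ℕ) (hp : p.Prime) (C : Subgroup G)
    (hC : IsCyclic C) (Z₁ Z₂ : Subgroup G) (h₁ : Z₁ ≤ C) (h₂ : Z₂ ≤ C)
    (c₁ : Nat.card Z₁ = p) (c₂ : Nat.card Z₂ = p) : Z₁ = Z₂ := by
  classical
  have : Fintype C := Fintype.ofFinite C
  -- the set of solutions of x ^ p = 1 in C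
  have hle : (Finset.univ.filter fun x : C => x ^ p = 1).card ≤ p :=
    IsCyclic.card_pow_eq_one_le hp.pos
  have key : ∀ Z : Subgroup G, Z ≤ C → Nat.card Z = p →
      ((Z.subgroupOf C : Set C).toFinset) = (Finset.univ.filter fun x : C => x ^ p = 1) := by
    intro Z hZ cZ
    apply Finset.eq_of_subset_of_card_le
    · intro x hx
      simp only [Set.mem_toFinset, SetLike.mem_coe, Subgroup.mem_subgroupOf] at hx
      simp only [Finset.mem_filter, Finset.mem_univ, true_and]
      have : (⟨(x : G), hx⟩ : Z) ^ p = 1 := by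
        rw [← cZ]; exact pow_card_eq_one'
      have h2 : ((x : G)) ^ p = 1 := by
        have := congrArg (Subtype.val) this
        simpa using this
      exact Subtype.ext (by simpa using h2)
    · refine hle.trans ?_
      have : Nat.card (Z.subgroupOf C) = p := by
        rw [← cZ]
        exact Nat.card_congr (Subgroup.subgroupOfEquivOfLe hZ).toEquiv
      rw [← this, Nat.card_eq_fintype_card, Set.toFinset_card]
      exact le_of_eq (Fintype.card_congr (Equiv.refl _))
  have e := (key Z₁ h₁ c₁).trans (key Z₂ h₂ c₂).symm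
  have e' : (Z₁.subgroupOf C : Set C) = (Z₂.subgroupOf C : Set C) := by
    simpa using e
  have e'' : Z₁.subgroupOf C = Z₂.subgroupOf C := SetLike.coe_injective e'
  have := congrArg (Subgroup.map C.subtype) e''
  simpa [Subgroup.subgroupOf_map_subtype, inf_eq_left.mpr h₁, inf_eq_left.mpr h₂] using this

/-- Let P be a nontrivial cyclic p-subgroup of the finite group G and Z its subgroup of order p. For every x outside N_G(Z), P meets its conjugate xPx⁻¹ trivially; consequently N_G(Q) ≤ N_G(Z) for every nontrivial subgroup Q of P. -/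
theorem result {G : Type*} [Group G] [Finite G] (p : ℕ) [Fact p.Prime] (P : Subgroup G) (hP : IsPGroup p P) (hP1 : P ≠ ⊥) (hcyc : IsCyclic P) (Z : Subgroup G) (hZ : Z ≤ P) (hZcard : Nat.card Z = p) : (∀ x : G, x ∉ Subgroup.normalizer (Z : Set G) → P ⊓ MulAut.conj x • P = ⊥) ∧ ∀ Q : Subgroup G, Q ≤ P → Q ≠ ⊥ → Subgroup.normalizer (Q : Set G) ≤ Subgroup.normalizer (Z : Set G) := by
  have hp : p.Prime := Fact.out
  -- every nontrivial subgroup of P contains a subgroup of order p, which must be Z
  have hsub : ∀ Q : Subgroup G, Q ≤ P → Q ≠ ⊥ → ∃ Z' : Subgroup G, Z' ≤ Q ∧ Nat.card Z' = p := by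
    intro Q hQ hQ1
    have hQp : IsPGroup p Q := hP.to_le hQ
    have hnt : Nontrivial Q := (Subgroup.nontrivial_iff_ne_bot Q).mpr hQ1
    obtain ⟨n, hn⟩ := IsPGroup.iff_card.mp hQp
    have hn0 : n ≠ 0 := by
      rintro rfl
      rw [pow_zero] at hn
      have := (Nat.card_eq_one_iff_unique.mp hn).1
      exact not_subsingleton Q this
    have hdvd : p ∣ Nat.card Q := by
      rw [hn]; exact dvd_pow_self p hn0
    obtain ⟨x, hx⟩ := exists_prime_orderOf_dvd_card' p hdvd
    refine ⟨(Subgroup.zpowers x).map Q.subtype, ?_, ?_⟩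
    · rintro y ⟨z, _, rfl⟩
      exact z.2
    · rw [Subgroup.card_map_of_injective Q.subtype_injective, Nat.card_zpowers, hx]
  have hZQ : ∀ Q : Subgroup G, Q ≤ P → Q ≠ ⊥ → Z ≤ Q := by
    intro Q hQ hQ1
    obtain ⟨Z', hZ', cZ'⟩ := hsub Q hQ hQ1
    have : Z' = Z := uniq_sub p hp P hcyc Z' Z (hZ'.trans hQ) hZ cZ' hZcard
    rw [← this]; exact hZ'
  have hnorm : ∀ x : G, MulAut.conj x • Z = Z → x ∈ Subgroup.normalizer (Z : Set G) := by
    intro x hx
    rw [Subgroup.mem_normalizer_iff_map_conj_eq]
    exact hx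
  have hcardsmul : ∀ x : G, Nat.card (MulAut.conj x • Z : Subgroup G) = p := by
    intro x
    rw [← hZcard]
    exact Nat.card_congr (Subgroup.equivSMul (MulAut.conj x) Z).symm.toEquiv
  constructor
  · intro x hx
    by_contra hne
    apply hx
    apply hnorm
    -- I := P ⊓ x • P is nontrivial, so contains Z
    have hZI : Z ≤ P ⊓ MulAut.conj x • P := hZQ _ inf_le_left hne
    have hcyc' : IsCyclic (MulAut.conj x • P : Subgroup G) :=
      isCyclic_of_surjective (Subgroup.equivSMul (MulAut.conj x) P)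
        (Subgroup.equivSMul (MulAut.conj x) P).surjective
    exact uniq_sub p hp (MulAut.conj x • P) hcyc' _ _
      (Subgroup.pointwise_smul_le_pointwise_smul_iff.mpr hZ) (hZI.trans inf_le_right)
      (hcardsmul x) hZcard
  · intro Q hQ hQ1 g hg
    apply hnorm
    have hgQ : MulAut.conj g • Q = Q := by
      rw [Subgroup.mem_normalizer_iff_map_conj_eq] at hg
      exact hg
    have h1 : MulAut.conj g • Z ≤ P := by
      have : MulAut.conj g • Z ≤ MulAut.conj g • Q :=
        Subgroup.pointwise_smul_le_pointwise_smul_iff.mpr (hZQ Q hQ hQ1)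
      rw [hgQ] at this
      exact this.trans hQ
    exact uniq_sub p hp P hcyc _ _ h1 hZ (hcardsmul g) hZcard

end Cfsg.Agent.S4636
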