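import Cfsg.Statements.S4650
import Cfsg.Agent.Lib.Helper77.BPInd
import Cfsg.Agent.S4687

set_option autoImplicit false
open Cfsg

namespace Cfsg.Agent.S4650

open Cfsg.Agent.Lib.Helper77.LocalRing Cfsg.Agent.Lib.Helper77.BPNormal
  Cfsg.Agent.Lib.Helper77.BPEquiv Cfsg.Agent.Lib.Helper77.BPEquiv2
  Cfsg.Agent.Lib.Helper77.BPConjMax Cfsg.Agent.Lib.Helper77.BPFix
  Cfsg.Agent.Lib.Helper77.BPSub Cfsg.Agent.Lib.Helper77.BPSubpair
  Cfsg.Agent.Lib.Helper77.BPUp Cfsg.Agent.Lib.Helper77.BPInd
  Cfsg.Agent.Lib.Helper33.Conj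

theorem stab_congr {G : Type*} [Group G] {a b : BrauerPairIdx G} (h : a = b) (x : G) :
    (x ∈ Subgroup.normalizer (a.1 : Set G) ∧
        StabilizesBlock (Subgroup.centralizer (a.1 : Set G)) a.2 x) ↔
      (x ∈ Subgroup.normalizer (b.1 : Set G) ∧
        StabilizesBlock (Subgroup.centralizer (b.1 : Set G)) b.2 x) := by
  subst h
  rfl

/-- Let B be a block of the finite group G relative to a maximal ideal M of the algebraic integers containing the prime p, with a nontrivial commutative defect group P; let c be a block of C_G(P) inducing B and T the stabilizer of c in N_G(P). Then T/C_G(P) acts freely on the non-identity elements of P (an element of T fixing a non-identity element of P under conjugation lies in C_G(P)) if and only if, for every nontrivial subgroup Q of P, the block of C_G(Q) induced by c inside C_G(Q) is a nilpotent block of C_G(Q). -/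
theorem result {G : Type*} [Group G] [Finite G] (p : ℕ) [Fact p.Prime] (M : Ideal Cfsg.AlgInt) (hM : Cfsg.IsPModular p M) (B : Set (Cfsg.IrrCharacter G)) (hB : Cfsg.IsPBlock M B) (P : Subgroup G) (hPD : Cfsg.IsDefectGroup p M B P) (hPab : ∀ x ∈ P, ∀ y ∈ P, x * y = y * x) (hP1 : P ≠ ⊥) (c : Set (Cfsg.IrrCharacter (Subgroup.centralizer (P : Set G)))) (hc : Cfsg.IsInducedBlock M (Subgroup.centralizer (P : Set G)) c B) (T : Subgroup G) (hT : ∀ g : G, g ∈ T ↔ (g ∈ Subgroup.normalizer (P : Set G) ∧ Cfsg.StabilizesBlock (Subgroup.centralizer (P : Set G)) c g)) : (∀ g ∈ T, ∀ x ∈ P, x ≠ 1 → g * x * g⁻¹ = x → g ∈ Subgroup.centralizer (P : Set G)) ↔ ∀ Q : Subgroup G, Q ≤ P → Q ≠ ⊥ → ∀ f : Set (Cfsg.IrrCharacter (Subgroup.centralizer (Q : Set G))), Cfsg.IsInducedBlockIn M (Subgroup.centralizer (Q : Set G)) (Subgroup.centralizer (P : Set G)) c f → Cfsg.IsNilpotentBlock p M f := by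
  classical
  have hMp := isPrime_of_isPModular hM
  have hPp : IsPGroup p P := isPGroup_of_isDefectGroup hPD
  have hPC : P ≤ Subgroup.centralizer (P : Set G) := by
    intro u hu
    rw [Subgroup.mem_centralizer_iff]
    intro q hq
    exact hPab q hq u hu
  have hpair : IsBrauerPairOf p M B P c :=
    (isBrauerPairOf_iff_isInducedBlock hM P hPp c B).mpr hc
  have hmax : IsMaximalBrauerPair p M B P c := isMaximal_of_isDefectGroup hM hpair hPD
  have hPe : IsBrauerPair p M P c := hpair.1
  have key : ∀ Q : Subgroup G, Q ≤ P →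
      ∀ f : Set (IrrCharacter (Subgroup.centralizer (Q : Set G))),
      IsNormalSubpair p M Q f P c →
      (IsNilpotentBlock p M f ↔ ∀ g ∈ Subgroup.centralizer (Q : Set G), g ∈ T →
        g ∈ Subgroup.centralizer (P : Set G)) := by
    intro Q hQP f hns
    have hPCQ : P ≤ Subgroup.centralizer (Q : Set G) := hPC.trans (Subgroup.centralizer_le hQP)
    have hCPQ : Subgroup.centralizer (P : Set G) ≤ Subgroup.centralizer (Q : Set G) :=
      Subgroup.centralizer_le hQP
    have hf : IsPBlock M f := hns.1.2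
    obtain ⟨a, ha⟩ : ∃ a, a = down (Subgroup.centralizer (Q : Set G)) P hPCQ hCPQ c := ⟨_, rfl⟩
    have hup : up (Subgroup.centralizer (Q : Set G)) a = ⟨P, c⟩ := by
      rw [ha]
      exact up_down _ P hPCQ hCPQ c
    have hapair : IsBrauerPairOf p M f a.1 a.2 := by
      rw [ha]
      exact (isBrauerPairOf_down_iff hQP hPCQ f hf c hPe).mpr hns
    have ha1 : a.1 = P.subgroupOf (Subgroup.centralizer (Q : Set G)) := by
      rw [ha]
      rfl
    have hle : SubpairLE p M Q f P c := Relation.ReflTransGen.single hns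
    have hD : IsDefectGroup p M f a.1 := by
      rw [ha1]
      exact isDefectGroup_of_le_centralizer hM hmax hle hPCQ
    have hamax : IsMaximalBrauerPair p M f a.1 a.2 := isMaximal_of_isDefectGroup hM hapair hD
    have haab : ∀ x ∈ a.1, ∀ y ∈ a.1, x * y = y * x := by
      rw [ha1]
      intro x hx y hy
      apply Subtype.ext
      exact hPab _ (Subgroup.mem_subgroupOf.mp hx) _ (Subgroup.mem_subgroupOf.mp hy)
    have hC : Subgroup.centralizer
        ((a.1.map (Subgroup.centralizer (Q : Set G)).subtype : Subgroup G) : Set G) ≤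
        Subgroup.centralizer (Q : Set G) := by
      have h1 : a.1.map (Subgroup.centralizer (Q : Set G)).subtype = P := congrArg Sigma.fst hup
      rw [h1]
      exact hCPQ
    haveI : Fintype (Subgroup.centralizer (Q : Set G)) := Fintype.ofFinite _
    have h87 := Cfsg.Agent.S4687.result p M hM f a.1 a.2 hamax haab
    rw [h87]
    have hstab : ∀ t : Subgroup.centralizer (Q : Set G),
        (t ∈ Subgroup.normalizer (a.1 : Set (Subgroup.centralizer (Q : Set G))) ∧
          StabilizesBlock (Subgroup.centralizer (a.1 : Set (Subgroup.centralizer (Q : Set G))))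
            a.2 t) ↔ (t : G) ∈ T := by
      intro t
      exact (stab_up_iff _ a hC t).trans ((stab_congr hup (t : G)).trans (hT (t : G)).symm)
    constructor
    · intro h g hgQ hgT
      have h1 := (hstab ⟨g, hgQ⟩).mpr hgT
      have h2 := h ⟨g, hgQ⟩ h1.1 h1.2
      rw [Subgroup.mem_centralizer_iff]
      intro y hy
      have hyH : y ∈ Subgroup.centralizer (Q : Set G) := hPCQ hy
      have hy' : (⟨y, hyH⟩ : Subgroup.centralizer (Q : Set G)) ∈ a.1 := by
        rw [ha1]
        exact Subgroup.mem_subgroupOf.mpr hy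
      have h3 := Subgroup.mem_centralizer_iff.mp h2 _ hy'
      exact congrArg Subtype.val h3
    · intro h x hxN hxs
      have hxT : (x : G) ∈ T := (hstab x).mp ⟨hxN, hxs⟩
      have h2 := h x x.2 hxT
      rw [Subgroup.mem_centralizer_iff]
      intro y hy
      have hyP : (y : G) ∈ P := by
        rw [ha1] at hy
        exact Subgroup.mem_subgroupOf.mp hy
      apply Subtype.ext
      exact Subgroup.mem_centralizer_iff.mp h2 _ hyP
  constructor
  · intro hfree Q hQP hQ1 f hind
    have hPCQ : P ≤ Subgroup.centralizer (Q : Set G) := hPC.trans (Subgroup.centralizer_le hQP)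
    have hns := (isInducedBlockIn_iff_isNormalSubpair hM hQP hPCQ f hind.2.1 c hPe).mp hind
    rw [key Q hQP f hns]
    intro g hgQ hgT
    obtain ⟨⟨y, hyQ⟩, hy1⟩ := Subgroup.ne_bot_iff_exists_ne_one.mp hQ1
    refine hfree g hgT y (hQP hyQ) (fun h => hy1 (Subtype.ext h)) ?_
    rw [← Subgroup.mem_centralizer_iff.mp hgQ y hyQ, mul_inv_cancel_right]
  · intro hall g hgT x hxP hx1 hgx
    have hQP : Subgroup.zpowers x ≤ P := Subgroup.zpowers_le.mpr hxP
    have hQ1 : Subgroup.zpowers x ≠ ⊥ := by
      rw [Ne, Subgroup.zpowers_eq_bot]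
      exact hx1
    obtain ⟨f, hle⟩ := exists_subpair hM P c hPe (Subgroup.zpowers x) hQP
    have hPCQ : P ≤ Subgroup.centralizer ((Subgroup.zpowers x : Subgroup G) : Set G) :=
      hPC.trans (Subgroup.centralizer_le hQP)
    have hns := isNormalSubpair_of_le hM hPe hle
      (hPCQ.trans (Subgroup.centralizer_le_normalizer _))
    have hind := (isInducedBlockIn_iff_isNormalSubpair hM hQP hPCQ f hns.1.2 c hPe).mpr hns
    have hnil := hall _ hQP hQ1 f hind
    have hgQ : g ∈ Subgroup.centralizer ((Subgroup.zpowers x : Subgroup G) : Set G) := by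
      rw [Subgroup.mem_centralizer_iff]
      intro y hy
      obtain ⟨n, rfl⟩ := Subgroup.mem_zpowers_iff.mp hy
      have hc : Commute g x := mul_inv_eq_iff_eq_mul.mp hgx
      exact (hc.zpow_right n).eq.symm
    exact (key _ hQP f hns).mp hnil g hgQ hgT

end Cfsg.Agent.S4650
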