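import Cfsg.Statements.S4652
import Cfsg.Agent.Lib.Helper77.DefectClass
import Cfsg.Agent.Lib.CT.Ops

set_option autoImplicit false
open Cfsg

namespace Cfsg.Agent.S4652

open Cfsg.Agent.Lib.Helper77.LocalRing Cfsg.Agent.Lib.Helper77.DefectClass
open scoped Pointwise

theorem centralChar_one {G : Type*} [Group G] (g : G) :
    centralChar (fun _ : G => (1 : ℂ)) g = ((Subgroup.centralizer ({g} : Set G)).index : ℂ) := by
  simp [centralChar]

/-- The trivial character as an irreducible character. -/
noncomputable def triv (G : Type*) [Group G] : IrrCharacter G :=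
  ⟨fun _ => 1, Cfsg.Agent.Lib.CT.Ops.isIrrCharacter_one⟩

theorem triv_mem {G : Type*} [Group G] {M : Ideal AlgInt} (hMp : M.IsPrime) :
    triv G ∈ principalBlock M G := by
  intro g
  show MemLocalIdeal M (centralChar (fun _ : G => (1 : ℂ)) g - centralChar (fun _ : G => (1 : ℂ)) g)
  rw [sub_self]
  exact memLocalIdeal_zero hMp

/-- For a defect class of the principal block, the class size is prime to `p`. -/
theorem not_dvd_index {G : Type*} [Group G] [Finite G] (p : ℕ) [Fact p.Prime]
    (M : Ideal AlgInt) (hM : IsPModular p M) (g : G)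
    (hg : IsDefectClass M (principalBlock M G) g) :
    ¬ p ∣ (Subgroup.centralizer ({g} : Set G)).index := by
  have hMp := isPrime_of_isPModular hM
  have h := hg.2.2 (triv G) (triv_mem hMp)
  have h2 : centralChar ((triv G : IrrCharacter G) : G → ℂ) g
      = ((Subgroup.centralizer ({g} : Set G)).index : ℂ) := centralChar_one g
  rw [h2, memLocalIdeal_natCast_iff hM] at h
  exact h

/-- A Sylow subgroup of a subgroup of index prime to `p` has the order of a Sylow subgroup. -/
theorem card_map_sylow {G : Type*} [Group G] [Finite G] (p : ℕ) [Fact p.Prime]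
    (C : Subgroup G) (hC : ¬ p ∣ C.index) (P : Sylow p C) :
    Nat.card ((P : Subgroup C).map C.subtype) = p ^ (Nat.card G).factorization p := by
  rw [Subgroup.card_map_of_injective C.subtype_injective, Sylow.card_eq_multiplicity]
  congr 1
  have h1 : Nat.card G = Nat.card C * C.index := (Subgroup.card_mul_index C).symm
  have hp : p.Prime := Fact.out
  rw [h1, Nat.factorization_mul Nat.card_pos.ne' (Subgroup.index_ne_zero_of_finite)]
  simp [Nat.factorization_eq_zero_of_not_dvd hC]

/-- Fix a prime p and a maximal ideal M of the algebraic integers containing p. The defect groups of the principal p-block of a finite group G are exactly the Sylow p-subgroups of G: a subgroup D is a defect group of the principal block if and only if D is a Sylow p-subgroup. -/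
theorem result {G : Type*} [Group G] [Fintype G] (p : ℕ) [Fact p.Prime] (M : Ideal Cfsg.AlgInt) (hM : Cfsg.IsPModular p M) (D : Subgroup G) : Cfsg.IsDefectGroup p M (Cfsg.principalBlock M G) D ↔ ∃ S : Sylow p G, (S : Subgroup G) = D := by
  have hMp := isPrime_of_isPModular hM
  constructor
  · rintro ⟨g, hg, P, rfl⟩
    have hidx := not_dvd_index p M hM g hg
    exact ⟨Sylow.ofCard _ (card_map_sylow p _ hidx P), rfl⟩
  · rintro ⟨S, rfl⟩
    have hB : IsPBlock M (principalBlock M G) := ⟨triv G, rfl⟩
    obtain ⟨g, hg⟩ := exists_defectClass p M hM _ hB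
    have hidx := not_dvd_index p M hM g hg
    -- a Sylow subgroup of the centralizer of g
    obtain ⟨Q⟩ : Nonempty (Sylow p (Subgroup.centralizer ({g} : Set G))) := inferInstance
    let Q' : Sylow p G := Sylow.ofCard _ (card_map_sylow p _ hidx Q)
    obtain ⟨x, hx⟩ := MulAction.exists_smul_eq G Q' S
    have hg' : IsDefectClass M (principalBlock M G) (x * g * x⁻¹) := isDefectClass_conj hg x
    have hSle : (S : Subgroup G) ≤ Subgroup.centralizer ({x * g * x⁻¹} : Set G) := by
      intro s hs
      rw [← hx] at hs
      have hs' : s ∈ MulAut.conj x • (Q' : Subgroup G) := hs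
      rw [Subgroup.mem_pointwise_smul_iff_inv_smul_mem] at hs'
      have hs2 : x⁻¹ * s * x ∈ (Q' : Subgroup G) := by
        simpa [MulAut.smul_def] using hs'
      have hs3 : x⁻¹ * s * x ∈ Subgroup.centralizer ({g} : Set G) := by
        have : (Q' : Subgroup G) ≤ Subgroup.centralizer ({g} : Set G) := by
          rintro y ⟨z, _, rfl⟩
          exact z.2
        exact this hs2
      rw [Subgroup.mem_centralizer_iff] at hs3 ⊢
      intro h hh
      rw [Set.mem_singleton_iff] at hh
      have h4 := hs3 g rfl
      rw [hh]
      have : g * (x⁻¹ * s * x) = x⁻¹ * s * x * g := h4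
      calc x * g * x⁻¹ * s = x * (g * (x⁻¹ * s * x)) * x⁻¹ := by group
        _ = x * (x⁻¹ * s * x * g) * x⁻¹ := by rw [this]
        _ = s * (x * g * x⁻¹) := by group
    refine ⟨x * g * x⁻¹, hg', S.subtype hSle, ?_⟩
    rw [Sylow.coe_subtype, Subgroup.subgroupOf_map_subtype, inf_eq_left.mpr hSle]

end Cfsg.Agent.S4652
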