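import Cfsg.Statements.S4654
import Cfsg.Agent.Lib.Helper77.BPStab2

set_option autoImplicit false
open Cfsg

namespace Cfsg.Agent.S4654

/-- Fix a prime p and a maximal ideal M of the algebraic integers containing p. Let P be a normal p-subgroup of the finite group G, B a p-block of G and e a p-block of C_G(P) such that (P, e) is a Brauer pair of B (as P is normal, this says that e occurs in the idempotent of B, which is supported on C_G(P)). Let T be the stabilizer of e in G under conjugation. Then the idempotent of e is a block idempotent of T: some block E of T has, at every element of T, the same idempotent coefficient as e (zero off C_G(P)); and the idempotent of B is the sum of the distinct G-conjugates of the idempotent of e: its coefficient at g is the sum over all x in G of the coefficient of e at x⁻¹ g x, divided by the order of T. -/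
theorem result {G : Type*} [Group G] [Fintype G] (p : ℕ) [Fact p.Prime] (M : Ideal Cfsg.AlgInt) (hM : Cfsg.IsPModular p M) (P : Subgroup G) [P.Normal] (hP : IsPGroup p P) (B : Set (Cfsg.IrrCharacter G)) (e : Set (Cfsg.IrrCharacter (Subgroup.centralizer (P : Set G)))) (hBe : Cfsg.IsBrauerPairOf p M B P e) (T : Subgroup G) (hT : ∀ x : G, x ∈ T ↔ Cfsg.StabilizesBlock (Subgroup.centralizer (P : Set G)) e x) : (∃ E : Set (Cfsg.IrrCharacter T), Cfsg.IsPBlock M E ∧ ∀ t : T, Cfsg.blockCoeff E t = Cfsg.subgroupBlockCoeff (Subgroup.centralizer (P : Set G)) e (t : G)) ∧ ∀ g : G, Cfsg.blockCoeff B g = (Nat.card T : ℂ)⁻¹ * ∑ x : G, Cfsg.subgroupBlockCoeff (Subgroup.centralizer (P : Set G)) e (x⁻¹ * g * x) := by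
  classical
  have hNtop : Subgroup.normalizer (P : Set G) = ⊤ := Subgroup.normalizer_eq_top P
  refine ⟨Cfsg.Agent.Lib.Helper77.BPStab.exists_block_coeff hM hP hBe.1.2 T
    (fun x hx => (hT x).mpr (Cfsg.Agent.Lib.Helper77.BPStab.stabilizes_of_mem P e hx))
    (fun x hx => (hT x).mpr
      (Cfsg.Agent.Lib.Helper77.BPStab.stabilizes_of_mem_centralizer P e hx))
    (by rw [hNtop]; exact le_top) (fun t ht => (hT t).mp ht), fun g => ?_⟩
  have h1 := Cfsg.Agent.Lib.Helper77.BPStab2.blockIdem_eq_orbitSum hM P hP hBe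
  have h2 := Cfsg.Agent.Lib.Helper77.BPStab2.sum_conjA_eq P e T hT
  have h3 := congrArg (fun z : MonoidAlgebra ℂ G => z.coeff g) h2
  simp only [Cfsg.Agent.Lib.Helper77.BPIdem.coeff_sum,
    Cfsg.Agent.Lib.Helper77.BPConj.coeff_conjA, MonoidAlgebra.coeff_smul, smul_eq_mul] at h3
  have h4 : ∀ y : G, (Cfsg.Agent.Lib.Helper77.BPBasic.ext (Subgroup.centralizer (P : Set G))
      (Cfsg.Agent.Lib.Helper77.BlockIdem.blockIdem e)).coeff y =
      Cfsg.subgroupBlockCoeff (Subgroup.centralizer (P : Set G)) e y := by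
    intro y
    rw [← Cfsg.Agent.Lib.Helper77.BPConj.ofFun_subgroupBlockCoeff,
      Cfsg.Agent.Lib.Helper77.ClassSum.coeff_ofFun]
  simp only [h4] at h3
  rw [h3, ← h1]
  show Cfsg.blockCoeff B g = (Nat.card T : ℂ)⁻¹ * ((Nat.card T : ℂ) * Cfsg.blockCoeff B g)
  rw [← mul_assoc, inv_mul_cancel₀, one_mul]
  exact Nat.cast_ne_zero.mpr Nat.card_pos.ne'

end Cfsg.Agent.S4654
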