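import Cfsg.Statements.S4657
import Mathlib
import Cfsg.Agent.Lib.Helper77.BPPairs

set_option autoImplicit false
open Cfsg

namespace Cfsg.Agent.S4657

open Cfsg.Agent.Lib.Helper77.LocalRing Cfsg.Agent.Lib.Helper77.BPPairs Cfsg.Agent.Lib.Helper16.ZR

/-- Fix a prime p and a maximal ideal M of the algebraic integers containing p. Every Brauer pair (P, e) of the finite group G is a Brauer pair of exactly one p-block B of G. -/
theorem result {G : Type*} [Group G] [Fintype G] (p : ℕ) [Fact p.Prime] (M : Ideal Cfsg.AlgInt) (hM : Cfsg.IsPModular p M) (P : Subgroup G) (e : Set (Cfsg.IrrCharacter (Subgroup.centralizer (P : Set G)))) (hPe : Cfsg.IsBrauerPair p M P e) : ∃! B : Set (Cfsg.IrrCharacter G), Cfsg.IsBrauerPairOf p M B P e := by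
  have hMp := isPrime_of_isPModular hM
  obtain ⟨χ₀, hχ₀⟩ := isBrauerPairOf_iff hM P e hPe
  refine ⟨blockOf M (χ₀ : G → ℂ), (hχ₀ _ (isPBlock_blockOf χ₀)).mpr (mem_blockOf_self hMp χ₀), ?_⟩
  intro B hB
  exact isPBlock_eq_blockOf hMp hB.2.1 ((hχ₀ B hB.2.1).mp hB)

end Cfsg.Agent.S4657
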