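import Cfsg.Statements.S4662
import Cfsg.Agent.Lib.Helper77.BPNorm

set_option autoImplicit false
open Cfsg

namespace Cfsg.Agent.S4662

open Cfsg.Agent.Lib.Helper77.LocalRing Cfsg.Agent.Lib.Helper77.BPNormal
  Cfsg.Agent.Lib.Helper77.BPEquiv Cfsg.Agent.Lib.Helper77.BPEquiv2
  Cfsg.Agent.Lib.Helper77.BPStab Cfsg.Agent.Lib.Helper77.BPNorm Cfsg.Agent.Lib.Helper33.Conj

/-- Fix a prime p and a maximal ideal M of the algebraic integers containing p. Let (P, e) be a maximal Brauer pair of the p-block B of the finite group G, Q ≤ P, and f the p-block of C_G(Q) with (Q, f) ≤ (P, e). Let T be the stabilizer of f in N_G(Q). Then the idempotent of f is a block idempotent of T, and N_P(Q) is contained in a defect group of that block of T; moreover for some x in G the conjugate pair (x Q x⁻¹, conjugate of f) again lies below (P, e) and, with T' the stabilizer of the conjugate of f in N_G(x Q x⁻¹), N_P(x Q x⁻¹) is a defect group of the block of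 T' whose idempotent is that of the conjugate of f. -/
theorem result {G : Type*} [Group G] [Fintype G] (p : ℕ) [Fact p.Prime] (M : Ideal Cfsg.AlgInt) (hM : Cfsg.IsPModular p M) (B : Set (Cfsg.IrrCharacter G)) (P Q : Subgroup G) (e : Set (Cfsg.IrrCharacter (Subgroup.centralizer (P : Set G)))) (f : Set (Cfsg.IrrCharacter (Subgroup.centralizer (Q : Set G)))) (hmax : Cfsg.IsMaximalBrauerPair p M B P e) (hQP : Q ≤ P) (hf : Cfsg.IsPBlock M f) (hle : Cfsg.SubpairLE p M Q f P e) (T : Subgroup G) (hT : ∀ y : G, y ∈ T ↔ y ∈ Subgroup.normalizer (Q : Set G) ∧ Cfsg.StabilizesBlock (Subgroup.centralizer (Q : Set G)) f y) : (∃ F : Set (Cfsg.IrrCharacter T), Cfsg.IsPBlock M F ∧ (∀ t : T, Cfsg.blockCoeff F t = Cfsg.subgroupBlockCoeff (Subgroup.centralizer (Q : Set G)) f (t : G)) ∧ ∃ D : Subgroup T, Cfsg.IsDefectGroup p M F D ∧ (P ⊓ Subgroup.normalizer (Q : Set G)).subgroupOf T ≤ D) ∧ ∃ x : G, Cfsg.SubpairLE p M (Q.map (MulAut.conj x).toMonoidHom) (Cfsg.conjBlock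 Q x f) P e ∧ ∀ (T' : Subgroup G), (∀ y : G, y ∈ T' ↔ y ∈ Subgroup.normalizer ((Q.map (MulAut.conj x).toMonoidHom) : Set G) ∧ Cfsg.StabilizesBlock (Subgroup.centralizer ((Q.map (MulAut.conj x).toMonoidHom) : Set G)) (Cfsg.conjBlock Q x f) y) → ∃ F' : Set (Cfsg.IrrCharacter T'), Cfsg.IsPBlock M F' ∧ (∀ t : T', Cfsg.blockCoeff F' t = Cfsg.subgroupBlockCoeff (Subgroup.centralizer ((Q.map (MulAut.conj x).toMonoidHom) : Set G)) (Cfsg.conjBlock Q x f) (t : G)) ∧ Cfsg.IsDefectGroup p M F' ((P ⊓ Subgroup.normalizer ((Q.map (MulAut.conj x).toMonoidHom) : Set G)).subgroupOf T') := by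
  have hMp := isPrime_of_isPModular hM
  have hPe := hmax.1.1
  constructor
  · obtain ⟨hQT, hCT, hTN, hst, hRT⟩ := stab_data hM hPe hle T hT
    have hQf := isBrauerPair_of_le (p := p) (M := M) ⟨Q, f⟩ ⟨P, e⟩ hle hPe
    obtain ⟨F, hF, hFc⟩ := exists_block_coeff hM hQf.1 hf T hQT hCT hTN hst
    obtain ⟨D, hD, hDle⟩ := exists_defectGroup_ge_normalizer hM hPe hle T hCT F hF hFc
    exact ⟨F, hF, hFc, D, hD, hDle⟩
  · have h1 : (1 : G) ∈ {x : G | SubpairLE p M (Q.map (MulAut.conj x).toMonoidHom)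
        (conjBlock Q x f) P e} := by
      show Relation.ReflTransGen (NormalSubpairRel p M) (cjp 1 ⟨Q, f⟩) ⟨P, e⟩
      rw [cjp_one hMp ⟨Q, f⟩ hf]
      exact hle
    obtain ⟨x, hx, hxmax⟩ := Set.exists_max_image
      {x : G | SubpairLE p M (Q.map (MulAut.conj x).toMonoidHom) (conjBlock Q x f) P e}
      (fun x => Nat.card (P ⊓ Subgroup.normalizer
        ((Q.map (MulAut.conj x).toMonoidHom : Subgroup G) : Set G) : Subgroup G))
      (Set.toFinite _) ⟨1, h1⟩
    refine ⟨x, hx, fun T' hT' => ?_⟩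
    have hQf' := isBrauerPair_of_le (p := p) (M := M)
      ⟨Q.map (MulAut.conj x).toMonoidHom, conjBlock Q x f⟩ ⟨P, e⟩ hx hPe
    obtain ⟨hQT', hCT', hTN', hst', hRT'⟩ := stab_data hM hPe hx T' hT'
    obtain ⟨F', hF', hFc'⟩ := exists_block_coeff hM hQf'.1 hQf'.2 T' hQT' hCT' hTN' hst'
    refine ⟨F', hF', hFc', isDefectGroup_of_max_normalizer hM hmax hx T' hCT' hTN' hst' hRT'
      F' hF' hFc' (fun y hy => ?_)⟩
    have hyx : y * x ∈ {x : G | SubpairLE p M (Q.map (MulAut.conj x).toMonoidHom)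
        (conjBlock Q x f) P e} := by
      show Relation.ReflTransGen (NormalSubpairRel p M) (cjp (y * x) ⟨Q, f⟩) ⟨P, e⟩
      rw [← cjp_mul hMp x y ⟨Q, f⟩ hf]
      exact hy
    have h2 := hxmax (y * x) hyx
    rw [cj_cj]
    exact h2

end Cfsg.Agent.S4662
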