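import Cfsg.Statements.S4664
import Mathlib
import Cfsg.Agent.Lib.Helper77.OsimaVanish
import Cfsg.Agent.Lib.Helper3.Spectral

set_option autoImplicit false
open Cfsg

namespace Cfsg.Agent.S4664

open Cfsg.Agent.Lib.Helper77.OsimaVanish Cfsg.Agent.Lib.Helper3.Spectral
  Cfsg.Agent.Lib.CT.Wedderburn
open scoped ComplexConjugate

/-- Character values at elements of order dividing `m` lie in the `m`-th cyclotomic field. -/
theorem char_mem_adjoin {G : Type*} [Group G] [Finite G] (χ : G → ℂ) (hχ : IsCharacter G χ)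
    (m : ℕ) (hm : m ≠ 0) (g : G) (hg : orderOf g ∣ m) :
    χ g ∈ IntermediateField.adjoin ℚ
      ({Complex.exp (2 * Real.pi * Complex.I / (m : ℂ))} : Set ℂ) := by
  obtain ⟨n, ρ, rfl⟩ := hχ
  obtain ⟨b, μ, hb, hμ⟩ := exists_eigenbasis ρ g
  have h1 : ρ.character g = ∑ i, μ i := trace_eq_sum_of_eigenbasis b (ρ g) μ hb
  rw [h1]
  refine sum_mem fun i _ => ?_
  have h2 : μ i ^ m = 1 := by
    obtain ⟨k, rfl⟩ := hg
    rw [pow_mul, hμ i, one_pow]
  haveI : NeZero m := ⟨hm⟩
  obtain ⟨k, -, hk⟩ := (Complex.isPrimitiveRoot_exp m hm).eq_pow_of_pow_eq_one h2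
  rw [← hk]
  exact pow_mem (IntermediateField.subset_adjoin ℚ _ (Set.mem_singleton _)) k

/-- Fix a prime p and a maximal ideal M of the algebraic integers containing p, and let B be a p-block of the finite group G. Let m be the p'-part of the order of G and η = exp(2πi/m). Then every coefficient of the idempotent of B lies in the cyclotomic field ℚ(η). -/
theorem result {G : Type*} [Group G] [Fintype G] (p : ℕ) [Fact p.Prime] (M : Ideal Cfsg.AlgInt) (hM : Cfsg.IsPModular p M) (B : Set (Cfsg.IrrCharacter G)) (hB : Cfsg.IsPBlock M B) (g : G) : Cfsg.blockCoeff B g ∈ IntermediateField.adjoin ℚ ({Complex.exp (2 * Real.pi * Complex.I / ((Nat.card G / p ^ (Nat.card G).factorization p : ℕ) : ℂ))} : Set ℂ) := by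
  classical
  have hp : p.Prime := Fact.out
  by_cases hg : p ∣ orderOf g
  · rw [blockCoeff_eq_zero_of_singular p M hM B hB g hg]
    exact zero_mem _
  · have hcard : Nat.card G ≠ 0 := Nat.card_pos.ne'
    have hdecomp : p ^ (Nat.card G).factorization p *
        (Nat.card G / p ^ (Nat.card G).factorization p) = Nat.card G :=
      Nat.ordProj_mul_ordCompl_eq_self (Nat.card G) p
    have hm0 : Nat.card G / p ^ (Nat.card G).factorization p ≠ 0 := by
      intro h0
      rw [h0, mul_zero] at hdecomp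
      exact hcard hdecomp.symm
    have hcop : Nat.Coprime (orderOf g) (p ^ (Nat.card G).factorization p) :=
      Nat.Coprime.pow_right _ ((Nat.Prime.coprime_iff_not_dvd hp).mpr hg).symm
    have hdvd : orderOf g ∣ Nat.card G / p ^ (Nat.card G).factorization p := by
      apply hcop.dvd_of_dvd_mul_left
      rw [hdecomp]
      exact orderOf_dvd_natCard g
    unfold blockCoeff
    refine mul_mem (inv_mem (natCast_mem _ _)) ?_
    refine finsum_mem_induction _ (zero_mem _) (fun x y hx hy => add_mem hx hy) ?_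
    intro χ _
    refine mul_mem ?_ ?_
    · exact char_mem_adjoin _ (isCharacter_of_irr χ.2) _ hm0 1 (by rw [orderOf_one]; exact one_dvd _)
    · obtain ⟨n, ρ, hρ, hχ⟩ := χ.2
      rw [← hχ, ← char_inv ρ g]
      exact char_mem_adjoin _ ⟨n, ρ, rfl⟩ _ hm0 g⁻¹ (by rw [orderOf_inv]; exact hdvd)

end Cfsg.Agent.S4664
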