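import Cfsg.Statements.S4666
import Cfsg.Agent.Lib.Helper80.BlockSpan

set_option autoImplicit false
open Cfsg

namespace Cfsg.Agent.S4666

/-- Fix a prime p and a maximal ideal M of the algebraic integers containing p, and a p-block B of the finite group G of defect d. For every integer combination χ of the irreducible characters in B, p^d times the function that agrees with χ on p-regular elements and vanishes elsewhere is again an integer combination of the irreducible characters in B. -/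
theorem result {G : Type*} [Group G] [Fintype G] (p : ℕ) [Fact p.Prime] (M : Ideal Cfsg.AlgInt) (hM : Cfsg.IsPModular p M) (B : Set (Cfsg.IrrCharacter G)) (hB : Cfsg.IsPBlock M B) (χ : G → ℂ) (hχ : (∃ n : Cfsg.IrrCharacter G → ℤ, ∀ g : G, χ g = ∑ᶠ ψ ∈ B, (n ψ : ℂ) * (ψ : G → ℂ) g)) : (∃ n : Cfsg.IrrCharacter G → ℤ, ∀ g : G, (p ^ Cfsg.blockDefect p B : ℂ) * Cfsg.pRegularPart p χ g = ∑ᶠ ψ ∈ B, (n ψ : ℂ) * (ψ : G → ℂ) g) := by
  classical
  have := Cfsg.Agent.Lib.CT.Wedderburn.finite_irrCharacter G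
  have := Fintype.ofFinite (IrrCharacter G)
  have hp : p.Prime := Fact.out
  have hMp := Cfsg.Agent.Lib.Helper77.LocalRing.isPrime_of_isPModular hM
  obtain ⟨n₀, hn₀⟩ := hχ
  set d := blockDefect p B with hd
  have hdle : d ≤ (Nat.card G).factorization p := Nat.sub_le _ _
  have hdeg : ∀ ψ ∈ B, (Nat.card G).factorization p ≤
      d + (charDegree (ψ : G → ℂ)).factorization p := by
    intro ψ hψ
    have h1 : sInf ((fun χ : IrrCharacter G => (charDegree (χ : G → ℂ)).factorization p) '' B) ≤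
        (charDegree (ψ : G → ℂ)).factorization p := Nat.sInf_le ⟨ψ, hψ, rfl⟩
    rw [hd]; unfold blockDefect; omega
  have key : ∀ ψ φ : IrrCharacter G, ψ ∈ B → ∃ z : ℤ,
      ((p : ℂ) ^ d) * classInner (pRegularPart p (ψ : G → ℂ)) (φ : G → ℂ) = z ∧
        (φ ∉ B → z = 0) := by
    intro ψ φ hψ
    obtain ⟨z, hz⟩ := Cfsg.Agent.Lib.Helper80.BlockSpan.exists_int_classInner p M hM ψ φ d hdle
      (hdeg ψ hψ)
    refine ⟨z, hz, fun hφ => ?_⟩
    have hns : ¬ SameBlock M (ψ : G → ℂ) (φ : G → ℂ) := by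
      intro h
      apply hφ
      rw [Cfsg.Agent.Lib.Helper16.ZR.isPBlock_eq_blockOf hMp hB hψ]
      exact h
    have h3 := Cfsg.Agent.Lib.Helper75.BlockOrth2.sum_pRegular_eq_zero_of_not_sameBlock p M hM
      ψ φ hns
    have h4 : classInner (pRegularPart p (ψ : G → ℂ)) (φ : G → ℂ) = 0 := by
      unfold classInner
      have h5 : ∑ g : G, pRegularPart p (ψ : G → ℂ) g * (starRingEnd ℂ) ((φ : G → ℂ) g) =
          ∑ᶠ x ∈ {x : G | ¬ p ∣ orderOf x},
            (ψ : G → ℂ) x * (starRingEnd ℂ) ((φ : G → ℂ) x) := by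
        rw [finsum_mem_def, finsum_eq_sum_of_fintype]
        refine Finset.sum_congr rfl fun g _ => ?_
        by_cases hg : p ∣ orderOf g
        · rw [Cfsg.Agent.Lib.Helper80.BlockSpan.pRegularPart_of_dvd p _ hg, zero_mul,
            Set.indicator_of_notMem (by simpa using hg)]
        · rw [Cfsg.Agent.Lib.Helper80.BlockSpan.pRegularPart_of_not_dvd p _ hg,
            Set.indicator_of_mem (by simpa using hg)]
      rw [h5, h3, mul_zero]
    rw [h4, mul_zero] at hz
    exact_mod_cast hz.symm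
  choose! z hz hz0 using key
  refine ⟨fun φ => ∑ ψ : IrrCharacter G, if ψ ∈ B then n₀ ψ * z ψ φ else 0, ?_⟩
  intro g
  have hexp : ∀ ψ ∈ B, (p : ℂ) ^ d * pRegularPart p (ψ : G → ℂ) g =
      ∑ φ : IrrCharacter G, (z ψ φ : ℂ) * (φ : G → ℂ) g := by
    intro ψ hψ
    rw [Cfsg.Agent.Lib.CT.Orth.classFunction_expand_sum _
      (Cfsg.Agent.Lib.Helper80.BlockSpan.pRegularPart_isClassFunction p
        (Cfsg.Agent.Lib.CT.Wedderburn.char_isClassFunction
          (Cfsg.Agent.Lib.CT.Wedderburn.isCharacter_of_irr ψ.2))) g, Finset.mul_sum]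
    refine Finset.sum_congr rfl fun φ _ => ?_
    rw [← mul_assoc, hz ψ φ hψ]
  have hχg : pRegularPart p χ g = ∑ ψ : IrrCharacter G,
      if ψ ∈ B then (n₀ ψ : ℂ) * pRegularPart p (ψ : G → ℂ) g else 0 := by
    by_cases hg : p ∣ orderOf g
    · rw [Cfsg.Agent.Lib.Helper80.BlockSpan.pRegularPart_of_dvd p _ hg]
      symm
      apply Finset.sum_eq_zero
      intro ψ _
      rw [Cfsg.Agent.Lib.Helper80.BlockSpan.pRegularPart_of_dvd p _ hg, mul_zero, ite_self]
    · rw [Cfsg.Agent.Lib.Helper80.BlockSpan.pRegularPart_of_not_dvd p _ hg, hn₀ g,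
        finsum_mem_def, finsum_eq_sum_of_fintype]
      refine Finset.sum_congr rfl fun ψ _ => ?_
      by_cases hψ : ψ ∈ B
      · rw [Set.indicator_of_mem hψ, if_pos hψ,
          Cfsg.Agent.Lib.Helper80.BlockSpan.pRegularPart_of_not_dvd p _ hg]
      · rw [Set.indicator_of_notMem hψ, if_neg hψ]
  rw [finsum_mem_def, finsum_eq_sum_of_fintype, hχg, Finset.mul_sum]
  have hR : ∀ φ : IrrCharacter G, B.indicator (fun φ : IrrCharacter G =>
      (((∑ ψ : IrrCharacter G, if ψ ∈ B then n₀ ψ * z ψ φ else 0 : ℤ)) : ℂ) *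
        (φ : G → ℂ) g) φ =
      ∑ ψ : IrrCharacter G, if ψ ∈ B then (n₀ ψ : ℂ) * ((z ψ φ : ℂ) * (φ : G → ℂ) g) else 0 := by
    intro φ
    by_cases hφ : φ ∈ B
    · rw [Set.indicator_of_mem hφ]
      push_cast
      rw [Finset.sum_mul]
      refine Finset.sum_congr rfl fun ψ _ => ?_
      by_cases hψ : ψ ∈ B
      · rw [if_pos hψ, if_pos hψ]; ring
      · rw [if_neg hψ, if_neg hψ, zero_mul]
    · rw [Set.indicator_of_notMem hφ]
      symm
      apply Finset.sum_eq_zero
      intro ψ _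
      by_cases hψ : ψ ∈ B
      · rw [if_pos hψ, hz0 ψ φ hψ hφ]; simp
      · rw [if_neg hψ]
  rw [Finset.sum_congr rfl (fun φ _ => hR φ), Finset.sum_comm]
  refine Finset.sum_congr rfl fun ψ _ => ?_
  by_cases hψ : ψ ∈ B
  · simp only [if_pos hψ]
    rw [← Finset.mul_sum, ← hexp ψ hψ]; ring
  · simp only [if_neg hψ, mul_zero, Finset.sum_const_zero]

end Cfsg.Agent.S4666
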