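import Cfsg.Statements.S4668
import Mathlib
import Cfsg.Agent.Lib.Helper77.OsimaVanish
import Cfsg.Agent.Lib.Helper24.Coprime
import Cfsg.Agent.S4653

set_option autoImplicit false
open Cfsg

namespace Cfsg.Agent.S4668

open Cfsg.Agent.Lib.Helper77.OsimaVanish

/-- The elements of the last member of the chain normalizing the members from `j` on. -/
def chainSub {G : Type*} [Group G] {m : ℕ} (Q : Fin (m + 1) → Subgroup G) (j : ℕ) : Subgroup G :=
  Q (Fin.last m) ⊓ ⨅ (i : Fin (m + 1)) (_ : j ≤ i.val), Subgroup.normalizer (Q i : Set G)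

theorem mem_chainSub {G : Type*} [Group G] {m : ℕ} (Q : Fin (m + 1) → Subgroup G) (j : ℕ)
    (y : G) : y ∈ chainSub Q j ↔ y ∈ Q (Fin.last m) ∧
      ∀ i : Fin (m + 1), j ≤ i.val → y ∈ Subgroup.normalizer (Q i : Set G) := by
  unfold chainSub
  rw [Subgroup.mem_inf]
  simp only [Subgroup.mem_iInf]

/-- A `p'`-element normalizing a chain of `p`-subgroups and centralizing the part of the last
member that normalizes the whole chain centralizes the last member. -/
theorem chain_centralize {G : Type*} [Group G] [Finite G] (p : ℕ) [Fact p.Prime] (m : ℕ)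
    (Q : Fin (m + 1) → Subgroup G) (hQ : StrictMono Q) (hQp : ∀ i, IsPGroup p (Q i)) (a : G)
    (ho : (orderOf a).Coprime p) (ha : ∀ i, a ∈ Subgroup.normalizer (Q i : Set G))
    (hc : ∀ y ∈ Q (Fin.last m), (∀ i, y ∈ Subgroup.normalizer (Q i : Set G)) → y * a = a * y) :
    ∀ y ∈ Q (Fin.last m), y * a = a * y := by
  have hmono : Monotone Q := hQ.monotone
  have key : ∀ j : ℕ, j ≤ m + 1 → ∀ y ∈ chainSub Q j, y * a = a * y := by
    intro j
    induction j with
    | zero =>
      intro _ y hy
      rw [mem_chainSub] at hy
      exact hc y hy.1 fun i => hy.2 i (Nat.zero_le _)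
    | succ j ih =>
      intro hj y hy
      have hjm : j < m + 1 := hj
      have ih' := ih (Nat.le_of_lt hjm)
      have hQj_le : ∀ i : Fin (m + 1), j ≤ i.val → Q ⟨j, hjm⟩ ≤ Q i := fun i hi => hmono hi
      have hQj_sub : ∀ k : ℕ, j ≤ k → Q ⟨j, hjm⟩ ≤ chainSub Q k := by
        intro k hk b hb
        rw [mem_chainSub]
        refine ⟨hmono (Fin.le_last _) hb, fun i hi => ?_⟩
        exact Subgroup.le_normalizer (hQj_le i (le_trans hk hi) hb)
      refine Cfsg.Agent.Lib.Helper24.Coprime.thompson_AxB p (Q (Fin.last m)) (hQp _)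
        (Q ⟨j, hjm⟩) (hmono (Fin.le_last _)) a ho ?_ (chainSub Q (j + 1)) ?_ ?_ ?_ ?_ y hy
      · intro b hb
        exact ih' b (hQj_sub j le_rfl hb)
      · exact inf_le_left
      · rw [Subgroup.mem_normalizer_iff]
        intro h
        rw [mem_chainSub, mem_chainSub]
        constructor
        · rintro ⟨h1, h2⟩
          refine ⟨(Subgroup.mem_normalizer_iff.mp (ha _) h).mp h1, fun i hi => ?_⟩
          exact Subgroup.mul_mem _ (Subgroup.mul_mem _ (ha i)
            (h2 i hi)) (Subgroup.inv_mem _ (ha i))
        · rintro ⟨h1, h2⟩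
          refine ⟨(Subgroup.mem_normalizer_iff.mp (ha _) h).mpr h1, fun i hi => ?_⟩
          have h3 := Subgroup.mul_mem _ (Subgroup.mul_mem _
            (Subgroup.inv_mem _ (ha i)) (h2 i hi))
            (ha i)
          simpa [mul_assoc] using h3
      · exact fun b hb => Subgroup.le_normalizer (hQj_sub (j + 1) (Nat.le_succ j) hb)
      · intro x hx hxb
        apply ih'
        rw [mem_chainSub] at hx ⊢
        refine ⟨hx.1, fun i hi => ?_⟩
        rcases Nat.eq_or_lt_of_le hi with h | h
        · have hi' : i = ⟨j, hjm⟩ := Fin.ext h.symm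
          rw [hi', Subgroup.mem_normalizer_iff]
          intro b
          constructor
          · intro hb
            have := hxb b hb
            rw [show x * b * x⁻¹ = b by rw [← this]; group]
            exact hb
          · intro hb
            have h4 := hxb _ hb
            have h5 : b = x * b * x⁻¹ := by
              have : x * (x * b * x⁻¹) = (x * b * x⁻¹) * x := h4.symm
              have h6 : x * b = b * x := by
                have h7 : x * (x * b * x⁻¹) * x = (x * b * x⁻¹) * x * x := by rw [this]
                have h8 : x * (x * b) = x * (b * x) := by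
                  simpa [mul_assoc] using h7
                exact mul_left_cancel h8
              rw [h6]; group
            rw [h5]
            exact hb
        · exact hx.2 i h
  intro y hy
  apply key (m + 1) le_rfl
  rw [mem_chainSub]
  exact ⟨hy, fun i hi => absurd i.isLt (by omega)⟩

/-- Fix a prime p and a maximal ideal M of the algebraic integers containing p. Let Q₀ < Q₁ < ⋯ < Q_m be a strictly increasing chain of p-subgroups of the finite group G and N the intersection of their normalizers. Then every block idempotent of N is supported on C_G(Q_m): for every p-block E of N, the idempotent coefficient of E vanishes at every element of N outside C_G(Q_m). -/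
theorem result {G : Type*} [Group G] [Fintype G] (p : ℕ) [Fact p.Prime] (M : Ideal Cfsg.AlgInt) (hM : Cfsg.IsPModular p M) (m : ℕ) (Q : Fin (m + 1) → Subgroup G) (hQ : StrictMono Q) (hQp : ∀ i, IsPGroup p (Q i)) (N : Subgroup G) (hN : ∀ g : G, g ∈ N ↔ ∀ i, g ∈ Subgroup.normalizer (Q i : Set G)) (E : Set (Cfsg.IrrCharacter N)) (hE : Cfsg.IsPBlock M E) (n : N) (hn : (n : G) ∉ Subgroup.centralizer (Q (Fin.last m) : Set G)) : Cfsg.blockCoeff E n = 0 := by
  classical
  have hp : p.Prime := Fact.out
  letI : Fintype N := Fintype.ofFinite N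
  by_cases hsing : p ∣ orderOf n
  · exact blockCoeff_eq_zero_of_singular p M hM E hE n hsing
  set R : Subgroup N := (Q (Fin.last m)).subgroupOf N with hR
  haveI hRn : R.Normal := by
    constructor
    intro y hy x
    rw [hR, Subgroup.mem_subgroupOf] at hy ⊢
    have hx := (hN x).mp x.2 (Fin.last m)
    have := (Subgroup.mem_normalizer_iff.mp hx (y : G)).mp hy
    simpa using this
  have hRp : IsPGroup p R := (hQp (Fin.last m)).comap_subtype
  by_cases hcent : n ∈ Subgroup.centralizer (R : Set N)
  · exfalso
    apply hn
    rw [Subgroup.mem_centralizer_iff]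
    refine chain_centralize p m Q hQ hQp (n : G) ?_ (fun i => (hN n).mp n.2 i) ?_
    · rw [Subgroup.orderOf_coe]
      exact (Nat.Prime.coprime_iff_not_dvd hp).mpr hsing |>.symm
    · intro y hy hyN
      have hyN' : y ∈ N := (hN y).mpr hyN
      have h1 := Subgroup.mem_centralizer_iff.mp hcent ⟨y, hyN'⟩
        (by rw [SetLike.mem_coe, hR, Subgroup.mem_subgroupOf]; exact hy)
      have h2 := congrArg Subtype.val h1
      simpa using h2
  · exact Cfsg.Agent.S4653.result p M hM R hRp E hE n hcent

end Cfsg.Agent.S4668
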