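import Cfsg.Statements.S4676
import Cfsg.Agent.Lib.Helper80.Contrib
import Cfsg.Agent.S0908

set_option autoImplicit false
open Cfsg

namespace Cfsg.Agent.S4676

/-- Fix a prime p and a maximal ideal M of the algebraic integers containing p. Let B be a p-block of the finite group G with defect group P. For χ in B, let the height of χ be the exponent of p in the degree of χ minus the least such exponent over the members of B. Then the sum over χ in B of p raised to twice the height of χ is at most the integer part of (order of P)²/4, plus 1; in particular B has at most that many irreducible characters. -/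
theorem result {G : Type*} [Group G] [Fintype G] (p : ℕ) [Fact p.Prime] (M : Ideal Cfsg.AlgInt) (hM : Cfsg.IsPModular p M) (B : Set (Cfsg.IrrCharacter G)) (hB : Cfsg.IsPBlock M B) (P : Subgroup G) (hP : Cfsg.IsDefectGroup p M B P) : ∑ᶠ χ ∈ B, p ^ (2 * Cfsg.blockHeight p B (χ : G → ℂ)) ≤ Nat.card P ^ 2 / 4 + 1 := by
  classical
  have := Cfsg.Agent.Lib.CT.Wedderburn.finite_irrCharacter G
  have := Fintype.ofFinite (IrrCharacter G)
  have hp : p.Prime := Fact.out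
  have hMp := Cfsg.Agent.Lib.Helper77.LocalRing.isPrime_of_isPModular hM
  have hcard : Nat.card P = p ^ blockDefect p B := Cfsg.Agent.S0908.result p M hM B hB P hP
  obtain ⟨χ₁, hχ₁⟩ := Cfsg.Agent.Lib.Helper16.ZR.isPBlock_nonempty hMp hB
  obtain ⟨χ₀, hχ₀, h0⟩ := Cfsg.Agent.Lib.Helper16.PSection.exists_height_zero p B χ₁ hχ₁
  have hsum := Cfsg.Agent.Lib.Helper80.Contrib.sum_mz_sq p M hM B χ₀ hχ₀
  rw [finsum_mem_def, finsum_eq_sum_of_fintype, hcard]
  set d := blockDefect p B with hd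
  set x := Cfsg.Agent.Lib.Helper80.Contrib.mz p B χ₀ χ₀ with hx
  set f : IrrCharacter G → ℕ := B.indicator
    (fun χ : IrrCharacter G => p ^ (2 * blockHeight p B (χ : G → ℂ))) with hf
  have hterm : ∀ ψ : IrrCharacter G, ((f ψ : ℕ) : ℤ) ≤
      Cfsg.Agent.Lib.Helper80.Contrib.mz p B χ₀ ψ ^ 2 := by
    intro ψ
    by_cases hψ : ψ ∈ B
    · rw [hf, Set.indicator_of_mem hψ]
      obtain ⟨b, hb, hpb⟩ := Cfsg.Agent.Lib.Helper80.Contrib.brauer_contrib p M hM B hB χ₀ ψ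
        hχ₀ h0 hψ
      have hb0 : b ≠ 0 := fun h => hpb (h ▸ dvd_zero _)
      have hb1 : (1 : ℤ) ≤ b ^ 2 := by
        have h1 := Int.one_le_abs hb0
        have h2 : b ^ 2 = |b| ^ 2 := (sq_abs b).symm
        rw [h2]
        nlinarith
      rw [hb]
      push_cast
      calc ((p : ℤ)) ^ (2 * blockHeight p B (ψ : G → ℂ))
          = ((p : ℤ) ^ blockHeight p B (ψ : G → ℂ)) ^ 2 * 1 := by ring
        _ ≤ ((p : ℤ) ^ blockHeight p B (ψ : G → ℂ)) ^ 2 * b ^ 2 :=
          mul_le_mul_of_nonneg_left hb1 (sq_nonneg _)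
        _ = ((p : ℤ) ^ blockHeight p B (ψ : G → ℂ) * b) ^ 2 := by ring
    · rw [hf, Set.indicator_of_notMem hψ]
      push_cast
      exact sq_nonneg _
  have hT : ((∑ ψ : IrrCharacter G, f ψ : ℕ) : ℤ) ≤ 1 + ((p : ℤ) ^ d * x - x ^ 2) := by
    push_cast
    rw [← Finset.add_sum_erase _ _ (Finset.mem_univ χ₀)]
    have h1 : ((f χ₀ : ℕ) : ℤ) = 1 := by
      rw [hf, Set.indicator_of_mem hχ₀, h0]; simp
    have h2 : ∑ ψ ∈ (Finset.univ : Finset (IrrCharacter G)).erase χ₀, ((f ψ : ℕ) : ℤ) ≤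
        ∑ ψ ∈ (Finset.univ : Finset (IrrCharacter G)).erase χ₀,
          Cfsg.Agent.Lib.Helper80.Contrib.mz p B χ₀ ψ ^ 2 :=
      Finset.sum_le_sum fun ψ _ => hterm ψ
    have h3 : ∑ ψ ∈ (Finset.univ : Finset (IrrCharacter G)).erase χ₀,
        Cfsg.Agent.Lib.Helper80.Contrib.mz p B χ₀ ψ ^ 2 = (p : ℤ) ^ d * x - x ^ 2 := by
      rw [← hsum, ← Finset.add_sum_erase _ _ (Finset.mem_univ χ₀)]
      ring
    rw [h1]
    linarith
  have h4 : 4 * ((p : ℤ) ^ d * x - x ^ 2) ≤ ((p : ℤ) ^ d) ^ 2 := by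
    nlinarith [sq_nonneg ((p : ℤ) ^ d - 2 * x)]
  have key : ((∑ ψ : IrrCharacter G, f ψ : ℕ) : ℤ) ≤ (((p ^ d) ^ 2 / 4 + 1 : ℕ) : ℤ) := by
    have h6 : ((p : ℤ) ^ d * x - x ^ 2) ≤ ((p : ℤ) ^ d) ^ 2 / 4 := by
      rw [Int.le_ediv_iff_mul_le (by norm_num)]
      linarith
    have h7 : (((p ^ d) ^ 2 / 4 + 1 : ℕ) : ℤ) = ((p : ℤ) ^ d) ^ 2 / 4 + 1 := by
      push_cast
      rfl
    rw [h7]
    linarith
  exact_mod_cast key

end Cfsg.Agent.S4676
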