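import Cfsg.Statements.S4677
import Cfsg.Agent.Lib.Helper77.BPSat3

set_option autoImplicit false
open Cfsg

namespace Cfsg.Agent.S4677

open Cfsg.Agent.Lib.Helper77.LocalRing Cfsg.Agent.Lib.Helper77.BPNormal
  Cfsg.Agent.Lib.Helper77.BPEquiv Cfsg.Agent.Lib.Helper77.BPEquiv2
  Cfsg.Agent.Lib.Helper77.BPSubpair Cfsg.Agent.Lib.Helper77.BPFusion
  Cfsg.Agent.Lib.Helper77.BPSat1 Cfsg.Agent.Lib.Helper77.BPSat2 Cfsg.Agent.Lib.Helper77.BPSat3
  Cfsg.Agent.Lib.Helper33.Conj

/-- Fix a prime p and a maximal ideal M of the algebraic integers containing p, a p-block B of the finite group G and a maximal Brauer pair (P, e) of B. Then the fusion system of B on (P, e) exists and is saturated: there is a saturated fusion system over P, with ambient group G, whose maps with source a subgroup Q of P are exactly the conjugation maps by elements g of G that carry the Brauer pair (Q, e_Q) below (P, e) to a Brauer pair again below (P, e). -/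
theorem result {G : Type*} [Group G] [Fintype G] (p : ℕ) [Fact p.Prime] (M : Ideal Cfsg.AlgInt) (hM : Cfsg.IsPModular p M) (B : Set (Cfsg.IrrCharacter G)) (P : Subgroup G) (e : Set (Cfsg.IrrCharacter (Subgroup.centralizer (P : Set G)))) (hmax : Cfsg.IsMaximalBrauerPair p M B P e) : ∃ F : Cfsg.FusionSystem P, Cfsg.IsBlockFusionSystemOn p M B P e F ∧ F.IsSaturated p := by
  have hMp := isPrime_of_isPModular hM
  have hPe := hmax.1.1
  have hF := isBlockFusionSystemOn_blockFusion hM hmax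
  refine ⟨blockFusion hM P e hmax.1.1, hF, fun Q₀ hQ₀P => ?_⟩
  obtain ⟨f₀, hf₀⟩ := exists_subpair hM P e hPe Q₀ hQ₀P
  have hQ₀f := isBrauerPair_of_le (p := p) (M := M) ⟨Q₀, f₀⟩ ⟨P, e⟩ hf₀ hPe
  haveI : Nonempty {x : G // SubpairLE p M (Q₀.map (MulAut.conj x).toMonoidHom)
      (conjBlock Q₀ x f₀) P e} := by
    refine ⟨⟨1, ?_⟩⟩
    show Relation.ReflTransGen (NormalSubpairRel p M) (cjp 1 ⟨Q₀, f₀⟩) ⟨P, e⟩
    rw [cjp_one hMp _ hQ₀f.2]
    exact hf₀
  obtain ⟨x, hx⟩ := Finite.exists_max (fun x : {x : G // SubpairLE p M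
      (Q₀.map (MulAut.conj x).toMonoidHom) (conjBlock Q₀ x f₀) P e} =>
    Nat.card (P ⊓ Subgroup.normalizer
      ((Q₀.map (MulAut.conj x.1).toMonoidHom : Subgroup G) : Set G) : Subgroup G))
  have hle : SubpairLE p M (Q₀.map (MulAut.conj x.1).toMonoidHom) (conjBlock Q₀ x.1 f₀) P e :=
    x.2
  have hQP : Q₀.map (MulAut.conj x.1).toMonoidHom ≤ P :=
    le_of_subpairLE (p := p) (M := M) ⟨_, _⟩ ⟨P, e⟩ hle
  have hbig : ∀ y : G, SubpairLE p M
      ((Q₀.map (MulAut.conj x.1).toMonoidHom).map (MulAut.conj y).toMonoidHom)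
      (conjBlock (Q₀.map (MulAut.conj x.1).toMonoidHom) y (conjBlock Q₀ x.1 f₀)) P e →
      Nat.card (P ⊓ Subgroup.normalizer
        (((Q₀.map (MulAut.conj x.1).toMonoidHom).map (MulAut.conj y).toMonoidHom : Subgroup G) :
          Set G) : Subgroup G) ≤
        Nat.card (P ⊓ Subgroup.normalizer
          ((Q₀.map (MulAut.conj x.1).toMonoidHom : Subgroup G) : Set G) : Subgroup G) := by
    intro y hy
    have h1 : Relation.ReflTransGen (NormalSubpairRel p M) (cjp (y * x.1) ⟨Q₀, f₀⟩) ⟨P, e⟩ := by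
      rw [← cjp_mul hMp x.1 y ⟨Q₀, f₀⟩ hQ₀f.2]
      exact hy
    have h2 := hx ⟨y * x.1, h1⟩
    rw [cj_cj]
    exact h2
  exact ⟨Q₀.map (MulAut.conj x.1).toMonoidHom,
    (isConj_iff hM _ hF hQ₀P hf₀ _).mpr ⟨x.1, rfl, hle⟩,
    isFullyAutomized hM hmax _ hF hQP hle hbig,
    isReceptive hM hmax _ hF _ _ hQP hle hbig⟩

end Cfsg.Agent.S4677
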