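import Cfsg.Statements.S4679
import Cfsg.Agent.Lib.Helper77.BPNorm

set_option autoImplicit false
open Cfsg

namespace Cfsg.Agent.S4679

open Cfsg.Agent.Lib.Helper77.LocalRing Cfsg.Agent.Lib.Helper77.BPNormal
  Cfsg.Agent.Lib.Helper77.BPEquiv Cfsg.Agent.Lib.Helper77.BPEquiv2
  Cfsg.Agent.Lib.Helper77.BPFusion
  Cfsg.Agent.Lib.Helper77.BPStab Cfsg.Agent.Lib.Helper77.BPNorm Cfsg.Agent.Lib.Helper33.Conj

/-- Fix a prime p and a maximal ideal M of the algebraic integers containing p, a p-block B of the finite group G with maximal Brauer pair (P, e), its fusion system F on P, a Brauer pair (Q, f) ≤ (P, e), and let T be the stabilizer of f in N_G(Q). Then Q is fully normalized in F if and only if N_P(Q) is a defect group of the block of T whose idempotent is that of f. -/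
theorem result {G : Type*} [Group G] [Fintype G] (p : ℕ) [Fact p.Prime] (M : Ideal Cfsg.AlgInt) (hM : Cfsg.IsPModular p M) (B : Set (Cfsg.IrrCharacter G)) (P : Subgroup G) (e : Set (Cfsg.IrrCharacter (Subgroup.centralizer (P : Set G)))) (hmax : Cfsg.IsMaximalBrauerPair p M B P e) (F : Cfsg.FusionSystem P) (hF : Cfsg.IsBlockFusionSystemOn p M B P e F) (Q : Subgroup G) (f : Set (Cfsg.IrrCharacter (Subgroup.centralizer (Q : Set G)))) (hQP : Q ≤ P) (hf : Cfsg.IsPBlock M f) (hle : Cfsg.SubpairLE p M Q f P e) (T : Subgroup G) (hT : ∀ y : G, y ∈ T ↔ y ∈ Subgroup.normalizer (Q : Set G) ∧ Cfsg.StabilizesBlock (Subgroup.centralizer (Q : Set G)) f y) : F.IsFullyNormalized Q ↔ ∃ F' : Set (Cfsg.IrrCharacter T), Cfsg.IsPBlock M F' ∧ (∀ t : T, Cfsg.blockCoeff F' t = Cfsg.subgroupBlockCoeff (Subgroup.centralizer (Q : Set G)) f (t : G)) ∧ Cfsg.IsDefectGroup p M F' ((P ⊓ Subgroup.normalizer (Q : Set G)).subgroupOf T) := by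
  have hMp := isPrime_of_isPModular hM
  have hPe := hmax.1.1
  obtain ⟨hQT, hCT, hTN, hst, hRT⟩ := stab_data hM hPe hle T hT
  have hQf := isBrauerPair_of_le (p := p) (M := M) ⟨Q, f⟩ ⟨P, e⟩ hle hPe
  constructor
  · rintro ⟨-, hfn⟩
    obtain ⟨F', hF', hFc⟩ := exists_block_coeff hM hQf.1 hf T hQT hCT hTN hst
    exact ⟨F', hF', hFc, isDefectGroup_of_max_normalizer hM hmax hle T hCT hTN hst hRT F' hF'
      hFc (fun y hy => hfn _ ((isConj_iff hM F hF hQP hle _).mpr ⟨y, rfl, hy⟩))⟩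
  · rintro ⟨F', hF', hFc, hD⟩
    refine ⟨hQP, fun Q₂ hconj => ?_⟩
    obtain ⟨g, rfl, hg⟩ := (isConj_iff hM F hF hQP hle _).mp hconj
    obtain ⟨F'', hF'', hFc'', hcard⟩ := exists_block_conj hM Q f T F' hF' hFc g
    have hCT' : Subgroup.centralizer ((Q.map (MulAut.conj g).toMonoidHom : Subgroup G) : Set G)
        ≤ T.map (MulAut.conj g).toMonoidHom := by
      rw [centralizer_cj]
      exact cj_mono hCT
    have hRT' : P ⊓ Subgroup.normalizer
        ((Q.map (MulAut.conj g).toMonoidHom : Subgroup G) : Set G)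
        ≤ T.map (MulAut.conj g).toMonoidHom := by
      intro x hx
      rw [mem_cj, hT]
      exact stabilizes_conj Q f g x hx.2 (stabilizes_of_le hM hPe hg hx)
    obtain ⟨D₂, hD₂, hle₂⟩ := exists_defectGroup_ge_normalizer hM hPe hg _ hCT' F'' hF'' hFc''
    calc Nat.card (FusionSystem.normalizerIn P (Q.map (MulAut.conj g).toMonoidHom))
        = Nat.card ((P ⊓ Subgroup.normalizer
            ((Q.map (MulAut.conj g).toMonoidHom : Subgroup G) : Set G)).subgroupOf
            (T.map (MulAut.conj g).toMonoidHom)) :=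
          (Nat.card_congr (Subgroup.subgroupOfEquivOfLe hRT').toEquiv).symm
      _ ≤ Nat.card D₂ := Subgroup.card_le_of_le hle₂
      _ = Nat.card ((P ⊓ Subgroup.normalizer (Q : Set G)).subgroupOf T) := hcard _ _ hD hD₂
      _ = Nat.card (FusionSystem.normalizerIn P Q) :=
          Nat.card_congr (Subgroup.subgroupOfEquivOfLe hRT).toEquiv

end Cfsg.Agent.S4679
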