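import Cfsg.Statements.S4681
import Cfsg.Agent.Lib.Helper77.BPPrincipal2

set_option autoImplicit false
open Cfsg

namespace Cfsg.Agent.S4681

/-- Fix a prime p and a maximal ideal M of the algebraic integers containing p. Let B₀ be the principal p-block of the finite group G, P a Sylow p-subgroup and e₀ the principal p-block of C_G(P). Then (P, e₀) is a maximal Brauer pair of B₀, and the fusion system of B₀ on (P, e₀) is the fusion system of G on P: its maps from each subgroup of P are exactly the conjugation maps into P by elements of G. -/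
theorem result {G : Type*} [Group G] [Fintype G] (p : ℕ) [Fact p.Prime] (M : Ideal Cfsg.AlgInt) (hM : Cfsg.IsPModular p M) (S : Sylow p G) : Cfsg.IsMaximalBrauerPair p M (Cfsg.principalBlock M G) (S : Subgroup G) (Cfsg.principalBlock M (Subgroup.centralizer ((S : Subgroup G) : Set G))) ∧ ∀ F : Cfsg.FusionSystem (S : Subgroup G), Cfsg.IsBlockFusionSystemOn p M (Cfsg.principalBlock M G) (S : Subgroup G) (Cfsg.principalBlock M (Subgroup.centralizer ((S : Subgroup G) : Set G))) F → ∀ Q : Subgroup G, F.Hom Q = (Cfsg.groupFusionSystem (S : Subgroup G)).Hom Q := by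
  have hMp := Cfsg.Agent.Lib.Helper77.LocalRing.isPrime_of_isPModular hM
  refine ⟨Cfsg.Agent.Lib.Helper77.BPPrincipal2.isMaximalBrauerPair_principal_sylow hM S,
    fun F hF Q => ?_⟩
  ext φ
  rw [hF.2 Q φ]
  constructor
  · rintro ⟨hQS, g, hg, hQg, -⟩
    refine ⟨hQS, fun x => ?_, g, hg⟩
    rw [hg]
    exact hQg (Cfsg.Agent.Lib.Helper33.Conj.conj_mem_cj x.2)
  · rintro ⟨hQS, hφS, g, hg⟩
    have hQg : Q.map (MulAut.conj g).toMonoidHom ≤ (S : Subgroup G) := by
      intro y hy
      rw [Cfsg.Agent.Lib.Helper33.Conj.mem_cj] at hy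
      have h1 := hφS ⟨g⁻¹ * y * g, hy⟩
      rw [hg] at h1
      have h2 : g * (g⁻¹ * y * g) * g⁻¹ = y := by group
      rw [← h2]
      exact h1
    refine ⟨hQS, g, hg, hQg, Cfsg.principalBlock M (Subgroup.centralizer (Q : Set G)),
      Cfsg.Agent.Lib.Helper77.BPPrincipal2.subpairLE_principal hM _ S.2 Q hQS, ?_⟩
    rw [Cfsg.Agent.Lib.Helper77.BPPrincipal2.conjBlock_principal hMp]
    exact Cfsg.Agent.Lib.Helper77.BPPrincipal2.subpairLE_principal hM _ S.2 _ hQg

end Cfsg.Agent.S4681
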