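import Cfsg.Statements.S4682
import Cfsg.Agent.Lib.Helper77.BPSub

set_option autoImplicit false
open Cfsg

namespace Cfsg.Agent.S4682

open Cfsg.Agent.Lib.Helper77.LocalRing Cfsg.Agent.Lib.Helper77.BPNormal
  Cfsg.Agent.Lib.Helper77.BPConj Cfsg.Agent.Lib.Helper77.BPSubpair
  Cfsg.Agent.Lib.Helper77.BPEquiv Cfsg.Agent.Lib.Helper77.BPEquiv2
  Cfsg.Agent.Lib.Helper77.BPConjMax Cfsg.Agent.Lib.Helper77.BPFix
  Cfsg.Agent.Lib.Helper77.BPNorm
  Cfsg.Agent.Lib.Helper77.BPSub Cfsg.Agent.Lib.Helper33.Conj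

/-- Fix a prime p and a maximal ideal M of the algebraic integers containing p, a p-block B of the finite group G with maximal Brauer pair (P, e), P abelian, and a Brauer pair (Q, f) ≤ (P, e). Let T_Q be the stabilizer of f in N_G(Q) and T_P the stabilizer of e in N_G(P). Then every element of T_Q is a product of an element of T_P and an element of C_G(Q); and the index of C_G(Q) in T_Q equals the index of T_P ∩ C_G(Q) in T_P ∩ N_G(Q). -/
theorem result {G : Type*} [Group G] [Fintype G] (p : ℕ) [Fact p.Prime] (M : Ideal Cfsg.AlgInt) (hM : Cfsg.IsPModular p M) (B : Set (Cfsg.IrrCharacter G)) (P : Subgroup G) (e : Set (Cfsg.IrrCharacter (Subgroup.centralizer (P : Set G)))) (hmax : Cfsg.IsMaximalBrauerPair p M B P e) (hab : ∀ x ∈ P, ∀ y ∈ P, x * y = y * x) (Q : Subgroup G) (f : Set (Cfsg.IrrCharacter (Subgroup.centralizer (Q : Set G)))) (hQP : Q ≤ P) (hf : Cfsg.IsPBlock M f) (hle : Cfsg.SubpairLE p M Q f P e) (TQ : Subgroup G) (hTQ : ∀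 y : G, y ∈ TQ ↔ y ∈ Subgroup.normalizer (Q : Set G) ∧ Cfsg.StabilizesBlock (Subgroup.centralizer (Q : Set G)) f y) (TP : Subgroup G) (hTP : ∀ y : G, y ∈ TP ↔ y ∈ Subgroup.normalizer (P : Set G) ∧ Cfsg.StabilizesBlock (Subgroup.centralizer (P : Set G)) e y) : (∀ x ∈ TQ, ∃ y ∈ TP, ∃ c ∈ Subgroup.centralizer (Q : Set G), x = y * c) ∧ ((Subgroup.centralizer (Q : Set G)).subgroupOf TQ).index = ((TP ⊓ Subgroup.centralizer (Q : Set G)).subgroupOf (TP ⊓ Subgroup.normalizer (Q : Set G))).index := by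
  have hMp := isPrime_of_isPModular hM
  have hPe := hmax.1.1
  obtain ⟨hQTQ, hCTQ, hTQN, hTQst, hRTQ⟩ := stab_data hM hPe hle TQ hTQ
  have hNC : ∀ y ∈ Subgroup.normalizer (Q : Set G), y ∈ Subgroup.normalizer
      ((Subgroup.centralizer (Q : Set G) : Subgroup G) : Set G) :=
    fun y hy => normalizer_le_normalizer_centralizer Q hy
  have part1 : ∀ x ∈ TQ, ∃ y ∈ TP, ∃ c ∈ Subgroup.centralizer (Q : Set G), x = y * c := by
    intro x hx
    obtain ⟨hxN, hxs⟩ := (hTQ x).mp hx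
    obtain ⟨c, hc, y, hyN, hys, hxy⟩ := exists_mul_of_stab hM hmax hab hf hle x hxN hxs
    have hyQ : y ∈ Subgroup.normalizer (Q : Set G) := by
      have h1 : y = c⁻¹ * x := by rw [hxy]; group
      rw [h1]
      exact mul_mem (inv_mem (Subgroup.centralizer_le_normalizer _ hc)) hxN
    refine ⟨y, (hTP y).mpr ⟨hyN, hys⟩, y⁻¹ * c * y, (conj_mem_iff (hNC y hyQ) c).mpr hc, ?_⟩
    rw [hxy]
    group
  refine ⟨part1, ?_⟩
  -- the subgroup A = TP ⊓ N_G(Q) lies in TQ
  have hATQ : TP ⊓ Subgroup.normalizer (Q : Set G) ≤ TQ := by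
    intro y hy
    obtain ⟨hyN, hys⟩ := (hTP y).mp hy.1
    refine (hTQ y).mpr ⟨hy.2, ?_⟩
    have h1 := subpairLE_conj (M := M) y hle
    rw [cjp_eq_self hyN hys, cjp_eq_conjB hy.2] at h1
    have h2 := subpair_unique hM _ P rfl e Q _ f hPe h1 hle
    exact (stabilizesBlock_iff _ y (hNC y hy.2) f).mpr h2
  have hTQeq : TQ = (TP ⊓ Subgroup.normalizer (Q : Set G)) ⊔ Subgroup.centralizer (Q : Set G) := by
    apply le_antisymm
    · intro x hx
      obtain ⟨y, hy, c, hc, rfl⟩ := part1 x hx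
      have hyTQ : y ∈ TQ := by
        have h1 := mul_mem hx (inv_mem (hCTQ hc))
        rwa [mul_inv_cancel_right] at h1
      exact Subgroup.mul_mem_sup ⟨hy, hTQN hyTQ⟩ hc
    · exact sup_le hATQ hCTQ
  have hLE : TP ⊓ Subgroup.normalizer (Q : Set G) ≤ Subgroup.normalizer
      ((Subgroup.centralizer (Q : Set G) : Subgroup G) : Set G) :=
    fun y hy => hNC y hy.2
  haveI := Subgroup.normal_subgroupOf_of_le_normalizer hLE
  haveI := Subgroup.normal_subgroupOf_sup_of_le_normalizer hLE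
  have h3 : (Subgroup.centralizer (Q : Set G)).relIndex
      ((TP ⊓ Subgroup.normalizer (Q : Set G)) ⊔ Subgroup.centralizer (Q : Set G)) =
      (Subgroup.centralizer (Q : Set G)).relIndex (TP ⊓ Subgroup.normalizer (Q : Set G)) :=
    Nat.card_congr (QuotientGroup.quotientInfEquivProdNormalizerQuotient
      (TP ⊓ Subgroup.normalizer (Q : Set G)) (Subgroup.centralizer (Q : Set G)) hLE).toEquiv.symm
  have h4 : (TP ⊓ Subgroup.centralizer (Q : Set G)).subgroupOf
      (TP ⊓ Subgroup.normalizer (Q : Set G)) =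
      (Subgroup.centralizer (Q : Set G)).subgroupOf (TP ⊓ Subgroup.normalizer (Q : Set G)) := by
    ext y
    rw [Subgroup.mem_subgroupOf, Subgroup.mem_subgroupOf]
    exact ⟨fun h => h.2, fun h => ⟨y.2.1, h⟩⟩
  rw [h4]
  show (Subgroup.centralizer (Q : Set G)).relIndex TQ =
    (Subgroup.centralizer (Q : Set G)).relIndex (TP ⊓ Subgroup.normalizer (Q : Set G))
  rw [hTQeq]
  exact h3

end Cfsg.Agent.S4682
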