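import Cfsg.Statements.S4686
import Cfsg.Agent.Lib.Helper77.BPNil

set_option autoImplicit false
open Cfsg

namespace Cfsg.Agent.S4686

open Cfsg.Agent.Lib.Helper77.LocalRing Cfsg.Agent.Lib.Helper77.BPNormal
  Cfsg.Agent.Lib.Helper77.BPEquiv Cfsg.Agent.Lib.Helper77.BPEquiv2
  Cfsg.Agent.Lib.Helper77.BPConjMax Cfsg.Agent.Lib.Helper77.BPFix
  Cfsg.Agent.Lib.Helper77.BPSub Cfsg.Agent.Lib.Helper77.BPNil Cfsg.Agent.Lib.Helper33.Conj

/-- Fix a prime p and a maximal ideal M of the algebraic integers containing p, a p-block B of the finite group G with maximal Brauer pair (P, e) and fusion system F on P. Then B is nilpotent (for every Brauer pair (Q, f) of B the stabilizer of f in N_G(Q) is C_G(Q) extended by a p-group) if and only if F is the inner fusion system of P: its maps from each subgroup of P are exactly the conjugations by elements of P. -/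
theorem result {G : Type*} [Group G] [Fintype G] (p : ℕ) [Fact p.Prime] (M : Ideal Cfsg.AlgInt) (hM : Cfsg.IsPModular p M) (B : Set (Cfsg.IrrCharacter G)) (P : Subgroup G) (e : Set (Cfsg.IrrCharacter (Subgroup.centralizer (P : Set G)))) (hmax : Cfsg.IsMaximalBrauerPair p M B P e) (F : Cfsg.FusionSystem P) (hF : Cfsg.IsBlockFusionSystemOn p M B P e F) : Cfsg.IsNilpotentBlock p M B ↔ ∀ Q : Subgroup G, F.Hom Q = (Cfsg.innerFusionSystem P).Hom Q := by
  have hMp := isPrime_of_isPModular hM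
  have hp : p.Prime := Fact.out
  have hPe := hmax.1.1
  constructor
  · intro hnil Q
    ext φ
    constructor
    · intro hφ
      obtain ⟨hQP, g, hg, -, f, hle, hle'⟩ := (hF.2 Q φ).mp hφ
      obtain ⟨u, hu, huc⟩ := fusion_control hM hmax hnil _ Q f le_rfl hle g hle'
      refine ⟨hQP, u, hu, fun x => ?_⟩
      rw [hg x]
      have h1 := Subgroup.mem_centralizer_iff.mp huc (x : G) x.2
      have h2 : g * (x : G) * g⁻¹ = u * ((u⁻¹ * g) * (x : G)) * g⁻¹ := by group
      rw [h2, ← h1]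
      group
    · rintro ⟨hQP, g, hg, h⟩
      have h1 : φ = conjHom Q g := by
        ext x
        rw [h x]
        rfl
      rw [h1]
      exact F.conj_mem hQP hg
  · intro h
    refine ⟨hmax.1.2.1, fun Q₀ f₀ hQf x hxN hxs hreg => ?_⟩
    obtain ⟨g, hg⟩ := exists_conj_le_of_maximal hM hmax hQf
    have hfix := cjp_eq_self hxN hxs
    have hfix' : cjp (g * x * g⁻¹) ⟨Q₀.map (MulAut.conj g).toMonoidHom, conjBlock Q₀ g f₀⟩ =
        (⟨Q₀.map (MulAut.conj g).toMonoidHom, conjBlock Q₀ g f₀⟩ : BrauerPairIdx G) := by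
      have h1 := cjp_mul hMp g (g * x * g⁻¹) ⟨Q₀, f₀⟩ hQf.1.2
      have h2 : g * x * g⁻¹ * g = g * x := by group
      rw [h2, ← cjp_mul hMp x g ⟨Q₀, f₀⟩ hQf.1.2, hfix] at h1
      exact h1
    obtain ⟨hx'N, -⟩ := stabilizes_of_cjp_eq hfix'
    have hQP : Q₀.map (MulAut.conj g).toMonoidHom ≤ P :=
      le_of_subpairLE (p := p) (M := M) ⟨_, _⟩ ⟨P, e⟩ hg
    have hg' : Relation.ReflTransGen (NormalSubpairRel p M)
        (cjp (g * x * g⁻¹) ⟨Q₀.map (MulAut.conj g).toMonoidHom, conjBlock Q₀ g f₀⟩) ⟨P, e⟩ := by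
      rw [hfix']
      exact hg
    have hmem : conjHom (Q₀.map (MulAut.conj g).toMonoidHom) (g * x * g⁻¹) ∈
        F.Hom (Q₀.map (MulAut.conj g).toMonoidHom) := by
      refine (hF.2 _ _).mpr ⟨hQP, g * x * g⁻¹, fun u => rfl, ?_, conjBlock Q₀ g f₀, hg, hg'⟩
      rw [cj_eq_of_mem_normalizer hx'N]
      exact hQP
    rw [h] at hmem
    obtain ⟨-, u, hu, hconj⟩ := hmem
    obtain ⟨y, hy⟩ : ∃ y : G, y = g * x * g⁻¹ := ⟨_, rfl⟩
    rw [← hy] at hx'N hconj
    have hconj' : ∀ q ∈ Q₀.map (MulAut.conj g).toMonoidHom,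
        y * q * y⁻¹ = u * q * u⁻¹ := fun q hq => hconj ⟨q, hq⟩
    have hnorm : ∀ q ∈ Q₀.map (MulAut.conj g).toMonoidHom,
        y * q * y⁻¹ ∈ Q₀.map (MulAut.conj g).toMonoidHom :=
      fun q hq => (Subgroup.mem_normalizer_iff.mp hx'N q).mp hq
    have hpow : ∀ j : ℕ, ∀ q ∈ Q₀.map (MulAut.conj g).toMonoidHom,
        y ^ j * q * (y ^ j)⁻¹ = u ^ j * q * (u ^ j)⁻¹ ∧
          u ^ j * q * (u ^ j)⁻¹ ∈ Q₀.map (MulAut.conj g).toMonoidHom := by
      intro j
      induction j with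
      | zero =>
        intro q hq
        simp only [pow_zero, one_mul, inv_one, mul_one]
        exact ⟨trivial, hq⟩
      | succ j ih =>
        intro q hq
        obtain ⟨h1, h2⟩ := ih q hq
        have h3 : y ^ (j + 1) * q * (y ^ (j + 1))⁻¹ =
            y * (y ^ j * q * (y ^ j)⁻¹) * y⁻¹ := by
          rw [pow_succ', mul_inv_rev]
          simp only [mul_assoc]
        have h4 : u ^ (j + 1) * q * (u ^ (j + 1))⁻¹ = u * (u ^ j * q * (u ^ j)⁻¹) * u⁻¹ := by
          rw [pow_succ', mul_inv_rev]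
          simp only [mul_assoc]
        rw [h3, h4, h1, hconj' _ h2]
        refine ⟨rfl, ?_⟩
        rw [← hconj' _ h2]
        exact hnorm _ h2
    obtain ⟨k, hk⟩ := hPe.1 ⟨u, hu⟩
    have hk' : u ^ (p ^ k) = 1 := by
      have h1 := congrArg Subtype.val hk
      exact h1
    have h3 : y ^ (p ^ k) ∈ Subgroup.centralizer
        ((Q₀.map (MulAut.conj g).toMonoidHom : Subgroup G) : Set G) := by
      rw [Subgroup.mem_centralizer_iff]
      intro q hq
      have h1 := (hpow (p ^ k) q hq).1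
      rw [hk'] at h1
      simp only [one_mul, inv_one, mul_one] at h1
      calc q * y ^ (p ^ k) = (y ^ (p ^ k) * q * (y ^ (p ^ k))⁻¹) * y ^ (p ^ k) := by rw [h1]
        _ = y ^ (p ^ k) * q := by rw [inv_mul_cancel_right]
    rw [hy] at h3
    rw [centralizer_cj, mem_cj, conj_pow] at h3
    have h5 : g⁻¹ * (g * x ^ (p ^ k) * g⁻¹) * g = x ^ (p ^ k) := by group
    rw [h5] at h3
    have hcop : Nat.Coprime (p ^ k) (orderOf x) :=
      Nat.Coprime.pow_left _ ((Nat.Prime.coprime_iff_not_dvd hp).mpr hreg)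
    obtain ⟨m, hm⟩ := exists_pow_eq_self_of_coprime hcop
    rw [← hm]
    exact pow_mem h3 _

end Cfsg.Agent.S4686
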