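import Cfsg.Statements.S4688
import Cfsg.Agent.Lib.Helper77.BPCentPair

set_option autoImplicit false
open Cfsg

namespace Cfsg.Agent.S4688

open Cfsg.Agent.Lib.Helper77.LocalRing Cfsg.Agent.Lib.Helper77.BPNormal
  Cfsg.Agent.Lib.Helper77.BPEquiv Cfsg.Agent.Lib.Helper77.BPEquiv2
  Cfsg.Agent.Lib.Helper77.BPConjMax Cfsg.Agent.Lib.Helper77.BPFix Cfsg.Agent.Lib.Helper77.BPCent
  Cfsg.Agent.Lib.Helper77.BPSub Cfsg.Agent.Lib.Helper77.BPNil Cfsg.Agent.Lib.Helper33.Conj
  Cfsg.Agent.Lib.Helper77.BPCentPair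

/-- Fix a prime p and a maximal ideal M of the algebraic integers containing p, and a nilpotent p-block B of the finite group G with maximal Brauer pair (P, e). Then for every Brauer pair (Q, f) of B, f is a nilpotent block of C_G(Q); and if moreover (Q, f) ≤ (P, e), then C_P(Q) is a defect group of f as a block of C_G(Q). -/
theorem result {G : Type*} [Group G] [Fintype G] (p : ℕ) [Fact p.Prime] (M : Ideal Cfsg.AlgInt) (hM : Cfsg.IsPModular p M) (B : Set (Cfsg.IrrCharacter G)) (P : Subgroup G) (e : Set (Cfsg.IrrCharacter (Subgroup.centralizer (P : Set G)))) (hmax : Cfsg.IsMaximalBrauerPair p M B P e) (hnil : Cfsg.IsNilpotentBlock p M B) (Q : Subgroup G) (f : Set (Cfsg.IrrCharacter (Subgroup.centralizer (Q : Set G)))) (hQf : Cfsg.IsBrauerPairOf p M B Q f) : Cfsg.IsNilpotentBlock p M f ∧ (Cfsg.SubpairLE p M Q f P e → Cfsg.IsDefectGroup p M f ((P ⊓ Subgroup.centralizer (Q : Set G)).subgroupOf (Subgroup.centralizer (Q : Set G)))) := by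
  refine ⟨isNilpotentBlock_centralizer hM hnil hQf, fun hle => ?_⟩
  apply isDefectGroup_of_max hM hmax hle
  intro y hy
  obtain ⟨u, hu, huc⟩ := fusion_control hM hmax hnil _ Q f le_rfl hle y hy
  have h1 : Q.map (MulAut.conj y).toMonoidHom = Q.map (MulAut.conj u).toMonoidHom := by
    have h2 : y = u * (u⁻¹ * y) := by group
    conv_lhs => rw [h2]
    rw [← cj_cj, cj_eq_of_mem_normalizer (Subgroup.centralizer_le_normalizer _ huc)]
  have h3 : P ⊓ Subgroup.centralizer
      ((Q.map (MulAut.conj y).toMonoidHom : Subgroup G) : Set G) =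
      (P ⊓ Subgroup.centralizer (Q : Set G)).map (MulAut.conj u).toMonoidHom := by
    rw [h1, cj_inf, centralizer_cj, cj_eq_self_of_mem hu]
  rw [h3, card_cj]

end Cfsg.Agent.S4688
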