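import Cfsg.Statements.S4692
import Cfsg.Agent.Lib.Helper77.BPCov2

set_option autoImplicit false
open Cfsg

namespace Cfsg.Agent.S4692

open Cfsg.Agent.Lib.Helper77.LocalRing Cfsg.Agent.Lib.Helper77.CentralChar
  Cfsg.Agent.Lib.Helper77.ClassSum Cfsg.Agent.Lib.Helper77.BlockIdem
  Cfsg.Agent.Lib.Helper77.IdemIn
  Cfsg.Agent.Lib.Helper77.BPBasic Cfsg.Agent.Lib.Helper77.BPBrauer
  Cfsg.Agent.Lib.Helper77.BPPairs Cfsg.Agent.Lib.Helper77.BPConj
  Cfsg.Agent.Lib.Helper77.BPNormal Cfsg.Agent.Lib.Helper77.BPSubpair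
  Cfsg.Agent.Lib.Helper77.BPEquiv Cfsg.Agent.Lib.Helper77.BPEquiv2
  Cfsg.Agent.Lib.Helper77.BPTransport
  Cfsg.Agent.Lib.Helper77.BPStab Cfsg.Agent.Lib.Helper77.BPFix
  Cfsg.Agent.Lib.Helper77.BPSub Cfsg.Agent.Lib.Helper77.BPUp
  Cfsg.Agent.Lib.Helper77.BPCov Cfsg.Agent.Lib.Helper77.BPCov2
  Cfsg.Agent.Lib.Helper16.ZR Cfsg.Agent.Lib.Helper33.Conj

/-- Uniqueness of subpairs, for pairs given as dependent pairs. -/
theorem pair_unique {G : Type*} [Group G] [Finite G] {M : Ideal AlgInt} {p : ℕ} [Fact p.Prime]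
    (hM : IsPModular p M) {a b c : BrauerPairIdx G} (hc : IsBrauerPair p M c.1 c.2)
    (ha : Relation.ReflTransGen (NormalSubpairRel p M) a c)
    (hb : Relation.ReflTransGen (NormalSubpairRel p M) b c) (h : a.1 = b.1) : a = b := by
  obtain ⟨A, α⟩ := a
  obtain ⟨A', α'⟩ := b
  obtain ⟨P, e⟩ := c
  have h' : A = A' := h
  subst h'
  have h2 := subpair_unique hM _ P rfl e A α α' hc ha hb
  rw [h2]

/-- An element normalizing `H` normalizes `N ⊓ H` for `N` normal. -/
theorem normalizer_inf_normal {G : Type*} [Group G] (N : Subgroup G) [hN : N.Normal]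
    (H : Subgroup G) {x : G} (hx : x ∈ Subgroup.normalizer (H : Set G)) :
    x ∈ Subgroup.normalizer ((N ⊓ H : Subgroup G) : Set G) := by
  rw [Subgroup.mem_normalizer_iff] at hx ⊢
  intro k
  rw [Subgroup.mem_inf, Subgroup.mem_inf, ← hx k]
  constructor
  · rintro ⟨h1, h2⟩
    exact ⟨hN.conj_mem k h1 x, h2⟩
  · rintro ⟨h1, h2⟩
    refine ⟨?_, h2⟩
    have h3 := hN.conj_mem _ h1 x⁻¹
    have e : x⁻¹ * (x * k * x⁻¹) * x⁻¹⁻¹ = k := by group
    rwa [e] at h3

/-- The local situation at a `p`-subgroup `R'` of `N`. -/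
theorem local_data {G : Type*} [Group G] [Finite G] {p : ℕ} [Fact p.Prime] {M : Ideal AlgInt}
    (hM : IsPModular p M) (N : Subgroup G) [N.Normal]
    (hregN : ∀ y : G, ¬ p ∣ orderOf y → y ∈ N) (B : Set (IrrCharacter G)) (hB : IsPBlock M B)
    (hBsupp : ∀ y : G, y ∉ N → blockCoeff B y = 0) (R' : Subgroup N) :
    (N ⊓ Subgroup.centralizer ((R'.map N.subtype : Subgroup G) : Set G) ≤
        Subgroup.centralizer ((R'.map N.subtype : Subgroup G) : Set G)) ∧
      (∀ h ∈ Subgroup.centralizer ((R'.map N.subtype : Subgroup G) : Set G),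
        h ∈ Subgroup.normalizer
          ((N ⊓ Subgroup.centralizer ((R'.map N.subtype : Subgroup G) : Set G) : Subgroup G) :
            Set G)) ∧
      (∀ h ∈ Subgroup.centralizer ((R'.map N.subtype : Subgroup G) : Set G), ¬ p ∣ orderOf h →
        h ∈ N ⊓ Subgroup.centralizer ((R'.map N.subtype : Subgroup G) : Set G)) ∧
      ∀ (f : Set (IrrCharacter (Subgroup.centralizer ((R'.map N.subtype : Subgroup G) : Set G))))
        (g' : Set (IrrCharacter ↥(N ⊓ Subgroup.centralizer
          ((R'.map N.subtype : Subgroup G) : Set G)))),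
        IsPBlock M f → IsPBlock M g' →
        Covers M (N ⊓ Subgroup.centralizer ((R'.map N.subtype : Subgroup G) : Set G))
          (Subgroup.centralizer ((R'.map N.subtype : Subgroup G) : Set G)) f g' →
        ∀ ξ ∈ f, ∀ ζ ∈ g',
          MemLocalIdeal M
            (om (Subgroup.centralizer ((R'.map N.subtype : Subgroup G) : Set G))
                (ξ : _ → ℂ) (blockIdem B) -
              om (N ⊓ Subgroup.centralizer ((R'.map N.subtype : Subgroup G) : Set G))
                (ζ : _ → ℂ) (blockIdem B)) := by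
  classical
  have hMp := isPrime_of_isPModular hM
  have hKH : N ⊓ Subgroup.centralizer ((R'.map N.subtype : Subgroup G) : Set G) ≤
      Subgroup.centralizer ((R'.map N.subtype : Subgroup G) : Set G) := inf_le_right
  have hp' : ∀ h ∈ Subgroup.centralizer ((R'.map N.subtype : Subgroup G) : Set G),
      ¬ p ∣ orderOf h →
      h ∈ N ⊓ Subgroup.centralizer ((R'.map N.subtype : Subgroup G) : Set G) :=
    fun h hh hr => Subgroup.mem_inf.mpr ⟨hregN h hr, hh⟩
  refine ⟨hKH, fun h hh => normalizer_inf_normal N _ (Subgroup.le_normalizer hh), hp', ?_⟩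
  intro f g' hf hg' hcov ξ hξ ζ hζ
  have hz : trunc (Subgroup.centralizer ((R'.map N.subtype : Subgroup G) : Set G)) (blockIdem B) ∈
      covS hMp (N ⊓ Subgroup.centralizer ((R'.map N.subtype : Subgroup G) : Set G))
        (Subgroup.centralizer ((R'.map N.subtype : Subgroup G) : Set G)) := by
    refine mem_covS.mpr ⟨?_, ?_, ?_⟩
    · exact trunc_mem_fixedSubring Subgroup.le_normalizer
        (fixedSubring_mono le_top (mem_fixedSubring_top_iff.mpr (blockIdem_mem_center B)))
    · exact trunc_mem_intSubring hMp _ (blockIdem_mem_intSubring hMp B hB)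
    · intro y hy
      rw [coeff_trunc]
      split_ifs with hyH
      · rw [coeff_blockIdem]
        apply hBsupp
        intro hyN
        exact hy (Subgroup.mem_inf.mpr ⟨hyN, hyH⟩)
      · rfl
  have h1 := om_sub_om_of_covers hM hKH hp' hf hg' hcov hξ hζ hz
  rwa [om_trunc le_rfl, om_trunc hKH] at h1

/-- Fix a prime p and a maximal ideal M of the algebraic integers containing p. Let N be a normal subgroup of p-power index in the finite group G and c a p-block of N stable under conjugation by G, and let B be the p-block of G whose idempotent is that of c (it exists and is unique). Then c is nilpotent as a block of N if and only if B is nilpotent as a block of G. -/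
theorem result {G : Type*} [Group G] [Fintype G] (p : ℕ) [Fact p.Prime] (M : Ideal Cfsg.AlgInt) (hM : Cfsg.IsPModular p M) (N : Subgroup G) [N.Normal] (hN : ∃ k : ℕ, N.index = p ^ k) (c : Set (Cfsg.IrrCharacter N)) (hc : Cfsg.IsPBlock M c) (hst : ∀ x : G, Cfsg.StabilizesBlock N c x) (B : Set (Cfsg.IrrCharacter G)) (hB : Cfsg.IsPBlock M B) (hBc : ∀ g : G, Cfsg.blockCoeff B g = Cfsg.subgroupBlockCoeff N c g) : Cfsg.IsNilpotentBlock p M c ↔ Cfsg.IsNilpotentBlock p M B := by
  classical
  have hMp := isPrime_of_isPModular hM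
  have hp : p.Prime := Fact.out
  obtain ⟨kN, hkN⟩ := hN
  have hregN : ∀ y : G, ¬ p ∣ orderOf y → y ∈ N := by
    intro y hy
    have h1 : y ^ (p ^ kN) ∈ N := by
      rw [← hkN]
      exact Subgroup.pow_index_mem N y
    have hcop : Nat.Coprime (p ^ kN) (orderOf y) :=
      Nat.Coprime.pow_left kN ((Nat.Prime.coprime_iff_not_dvd hp).mpr hy)
    obtain ⟨m, hm⟩ := exists_pow_eq_self_of_coprime hcop
    rw [← hm]
    exact pow_mem h1 m
  have hβ : ∀ n : N, blockCoeff c n = blockCoeff B n := fun n => by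
    rw [hBc, subgroupBlockCoeff_coe]
  have hBsupp : ∀ y : G, y ∉ N → blockCoeff B y = 0 := by
    intro y hy
    rw [hBc]
    unfold subgroupBlockCoeff
    rw [dif_neg hy]
  constructor
  · -- `c` nilpotent implies `B` nilpotent
    intro hnilc
    refine ⟨hB, fun Q f hpair x hxN hxs hreg => ?_⟩
    have hxNn : x ∈ N := hregN x hreg
    have hQf : IsBrauerPair p M Q f := hpair.1
    obtain ⟨R', hR'⟩ : ∃ R' : Subgroup N, R'.map N.subtype = N ⊓ Q :=
      ⟨(N ⊓ Q).subgroupOf N, Subgroup.map_subgroupOf_eq_of_le inf_le_left⟩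
    obtain ⟨hKH, hn, hp', hKC⟩ := local_data hM N hregN B hB hBsupp R'
    have hRQ : R'.map N.subtype ≤ Q := by
      rw [hR']
      exact inf_le_right
    have hQR : ∀ q ∈ Q, q ∈ N → q ∈ R'.map N.subtype := by
      intro q hq hqN
      rw [hR']
      exact Subgroup.mem_inf.mpr ⟨hqN, hq⟩
    have hQN' : Q ≤ Subgroup.normalizer ((R'.map N.subtype : Subgroup G) : Set G) := by
      rw [hR']
      intro q hq
      exact normalizer_inf_normal N Q (Subgroup.le_normalizer hq)
    have hxR : x ∈ Subgroup.normalizer ((R'.map N.subtype : Subgroup G) : Set G) := by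
      rw [hR']
      exact normalizer_inf_normal N Q hxN
    obtain ⟨fR, hns⟩ := exists_normalSubpair hM Q (R'.map N.subtype) f hQf hRQ hQN'
    have hpairR : IsBrauerPairOf p M B (R'.map N.subtype) fR :=
      (isBrauerPairOf_iff_of_normal hM hns B hB).mp hpair
    have hfRblk : IsPBlock M fR := hpairR.1.2
    -- `x` stabilizes `fR`
    have hxsR : StabilizesBlock (Subgroup.centralizer ((R'.map N.subtype : Subgroup G) : Set G))
        fR x := by
      have h1 : cjp x ⟨Q, f⟩ = (⟨Q, f⟩ : BrauerPairIdx G) := cjp_eq_self hxN hxs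
      have h2 : NormalSubpairRel p M (cjp x ⟨R'.map N.subtype, fR⟩) (cjp x ⟨Q, f⟩) :=
        isNormalSubpair_conj x hns
      rw [h1] at h2
      have h3 : NormalSubpairRel p M (⟨R'.map N.subtype, fR⟩ : BrauerPairIdx G) ⟨Q, f⟩ := hns
      have h4 : cjp x ⟨R'.map N.subtype, fR⟩ = (⟨R'.map N.subtype, fR⟩ : BrauerPairIdx G) :=
        pair_unique hM (c := ⟨Q, f⟩) hQf (Relation.ReflTransGen.single h2)
          (Relation.ReflTransGen.single h3) (cj_eq_of_mem_normalizer hxR)
      exact (stabilizes_of_cjp_eq h4).2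
    obtain ⟨g', hg', hcov⟩ := exists_covered hM hKH hp' fR hfRblk
    have hxH := normalizer_le_normalizer_centralizer _ hxR
    have hxK := normalizer_inf_normal N _ hxH
    have hfx := (stabilizesBlock_iff _ x hxH fR).mp hxsR
    have hcomm : ∀ h ∈ Subgroup.centralizer ((R'.map N.subtype : Subgroup G) : Set G),
        x⁻¹ * h⁻¹ * x * h ∈
          N ⊓ Subgroup.centralizer ((R'.map N.subtype : Subgroup G) : Set G) := by
      intro h hh
      refine Subgroup.mem_inf.mpr ⟨?_, ?_⟩
      · have h1 : x⁻¹ * h⁻¹ * x * h = x⁻¹ * (h⁻¹ * x * h⁻¹⁻¹) := by group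
        rw [h1]
        exact mul_mem (inv_mem hxNn) (‹N.Normal›.conj_mem x hxNn h⁻¹)
      · exact mul_mem ((conj_mem_iff hxH _).mpr (inv_mem hh)) hh
    have hfix := fixed_of_commute hM hKH hn hp' hfRblk hg' hcov x hxH hxK hreg hcomm hfx
    -- the pair of `N`
    have hRp : IsPGroup p R' :=
      (hQf.1.to_le hRQ).of_equiv
        (Subgroup.equivMapOfInjective R' N.subtype N.subtype_injective).symm
    have hpairc : IsBrauerPairOf p M c R' (pull (nIso N R') '' g') := by
      refine (isBrauerPairOf_sub_iff N R' (blockCoeff B) c hβ _).mpr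
        ⟨⟨hRp, isPBlock_pull _ hg'⟩, hc, ?_⟩
      rw [pull_symm_image_pull_image]
      intro ζ hζ
      obtain ⟨ξ, hξ⟩ := isPBlock_nonempty hMp hfRblk
      have h1 := hpairR.2.2 ξ hξ
      rw [brauerOmega_eq] at h1
      change MemLocalIdeal M (om _ _ (blockIdem B) - 1) at h1
      have h2 := hKC fR g' hfRblk hg' hcov ξ hξ ζ hζ
      have h3 := memLocalIdeal_sub hMp h1 h2
      rw [sub_sub_sub_cancel_left] at h3
      exact h3
    have hx'N : (⟨x, hxNn⟩ : N) ∈ Subgroup.normalizer (R' : Set N) := by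
      rw [mem_normalizer_iff_cj_eq]
      apply Subgroup.map_injective N.subtype_injective
      rw [map_cj N R' ⟨x, hxNn⟩]
      exact cj_eq_of_mem_normalizer hxR
    have hx's : StabilizesBlock (Subgroup.centralizer (R' : Set N)) (pull (nIso N R') '' g')
        ⟨x, hxNn⟩ := by
      rw [stabilizes_sub_iff N R' _ ⟨x, hxNn⟩ hx'N, pull_symm_image_pull_image]
      exact hfix
    have hx'reg : IsPRegular p (⟨x, hxNn⟩ : N) := by
      unfold IsPRegular
      rw [Subgroup.orderOf_mk]
      exact hreg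
    have hx'C := hnilc.2 R' _ hpairc ⟨x, hxNn⟩ hx'N hx's hx'reg
    have hxCR : x ∈ Subgroup.centralizer ((R'.map N.subtype : Subgroup G) : Set G) := by
      rw [Subgroup.mem_centralizer_iff]
      rintro _ ⟨r, hr, rfl⟩
      exact congrArg Subtype.val (Subgroup.mem_centralizer_iff.mp hx'C r hr)
    -- coprime action
    rw [Subgroup.mem_centralizer_iff]
    intro q hq
    obtain ⟨r, hrdef⟩ : ∃ r : G, r = q⁻¹ * (x * q * x⁻¹) := ⟨_, rfl⟩
    have hr : r ∈ R'.map N.subtype := by
      rw [hrdef]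
      refine hQR _ (mul_mem (inv_mem hq) ((Subgroup.mem_normalizer_iff.mp hxN q).mp hq)) ?_
      have e : q⁻¹ * (x * q * x⁻¹) = (q⁻¹ * x * q⁻¹⁻¹) * x⁻¹ := by group
      rw [e]
      exact mul_mem (‹N.Normal›.conj_mem x hxNn q⁻¹) (inv_mem hxNn)
    have hxr : Commute x r := (Subgroup.mem_centralizer_iff.mp hxCR r hr).symm
    have e4 : x * q * x⁻¹ = q * r := by
      rw [hrdef]
      group
    have hj : ∀ j : ℕ, x ^ j * q * (x ^ j)⁻¹ = q * r ^ j := by
      intro j
      induction j with
      | zero => simp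
      | succ j ih =>
        have e1 : x ^ (j + 1) * q * (x ^ (j + 1))⁻¹ = x * (x ^ j * q * (x ^ j)⁻¹) * x⁻¹ := by
          rw [pow_succ']
          group
        have e2 : x * (q * r ^ j) * x⁻¹ = (x * q * x⁻¹) * (x * r ^ j * x⁻¹) := by group
        have e3 : x * r ^ j * x⁻¹ = r ^ j := by
          rw [(hxr.pow_right j).eq, mul_inv_cancel_right]
        rw [e1, ih, e2, e3, e4, mul_assoc, ← pow_succ']
    have h5 := hj (orderOf x)
    rw [pow_orderOf_eq_one, one_mul, inv_one, mul_one] at h5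
    have h6 : r ^ orderOf x = 1 := by
      have h7 : q * r ^ orderOf x = q * 1 := by rw [← h5, mul_one]
      exact mul_left_cancel h7
    obtain ⟨a, ha⟩ := hQf.1 ⟨r, hRQ hr⟩
    have ha' : r ^ (p ^ a) = 1 := congrArg Subtype.val ha
    have hcop : Nat.Coprime (orderOf x) (p ^ a) :=
      Nat.Coprime.pow_right a ((Nat.Prime.coprime_iff_not_dvd hp).mpr hreg).symm
    have hr1 : r = 1 :=
      orderOf_eq_one_iff.mp (Nat.eq_one_of_dvd_coprimes hcop (orderOf_dvd_of_pow_eq_one h6)
        (orderOf_dvd_of_pow_eq_one ha'))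
    rw [hr1, mul_one] at e4
    exact (mul_inv_eq_iff_eq_mul.mp e4).symm
  · -- `B` nilpotent implies `c` nilpotent
    intro hnilB
    refine ⟨hc, fun R' g hpair x' hx'N hx's hreg => ?_⟩
    obtain ⟨hKH, hn, hp', hKC⟩ := local_data hM N hregN B hB hBsupp R'
    obtain ⟨hRg, -, hom⟩ := (isBrauerPairOf_sub_iff N R' (blockCoeff B) c hβ g).mp hpair
    have hg'blk : IsPBlock M (pull (nIso N R').symm '' g) := isPBlock_pull _ hRg.2
    obtain ⟨f, hf, hcov⟩ := exists_cover hM hKH hp' _ hg'blk
    have hpairRf : IsBrauerPairOf p M B (R'.map N.subtype) f := by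
      refine ⟨⟨hRg.1.map N.subtype, hf⟩, hB, fun ξ hξ => ?_⟩
      obtain ⟨ζ, hζ⟩ := isPBlock_nonempty hMp hg'blk
      have h1 := hom ζ hζ
      change MemLocalIdeal M (om _ _ (blockIdem B) - 1) at h1
      have h2 := hKC f _ hf hg'blk hcov ξ hξ ζ hζ
      rw [brauerOmega_eq]
      have h3 := memLocalIdeal_add hMp h2 h1
      rw [sub_add_sub_cancel] at h3
      exact h3
    have hxR : (x' : G) ∈ Subgroup.normalizer ((R'.map N.subtype : Subgroup G) : Set G) := by
      rw [mem_normalizer_iff_cj_eq, ← map_cj N R' x', cj_eq_of_mem_normalizer hx'N]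
    have hxH := normalizer_le_normalizer_centralizer _ hxR
    have hxK := normalizer_inf_normal N _ hxH
    have hgx : conjB _ (x' : G) hxK (pull (nIso N R').symm '' g) = pull (nIso N R').symm '' g := by
      have h1 := (stabilizes_sub_iff N R' g x' hx'N).mp hx's
      rw [conjA_ext_blockIdem _ (x' : G) hxK] at h1
      have h2 := congrArg
        (res (N ⊓ Subgroup.centralizer ((R'.map N.subtype : Subgroup G) : Set G))) h1
      rw [res_ext, res_ext] at h2
      exact blockIdem_injective h2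
    have hcov' := covers_conj (x' : G) hxH hxK hcov
    rw [hgx] at hcov'
    have hfx : conjB _ (x' : G) hxH f = f :=
      cover_unique hM hKH hp' (isPBlock_conjB _ _ hxH hf) hf hg'blk hcov' hcov
    have hxs : StabilizesBlock _ f (x' : G) := (stabilizesBlock_iff _ (x' : G) hxH f).mpr hfx
    have hxreg : IsPRegular p (x' : G) := by
      unfold IsPRegular at hreg ⊢
      rwa [Subgroup.orderOf_coe]
    have hxC := hnilB.2 _ f hpairRf (x' : G) hxR hxs hxreg
    rw [Subgroup.mem_centralizer_iff]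
    intro r hr
    apply Subtype.ext
    exact Subgroup.mem_centralizer_iff.mp hxC (r : G) ⟨r, hr, rfl⟩

end Cfsg.Agent.S4692
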