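import Cfsg.Statements.S4693
import Cfsg.Agent.Lib.Helper77.BPCentric

set_option autoImplicit false
open Cfsg

namespace Cfsg.Agent.S4693

open Cfsg.Agent.Lib.Helper77.LocalRing Cfsg.Agent.Lib.Helper77.BPNormal
  Cfsg.Agent.Lib.Helper77.BPEquiv Cfsg.Agent.Lib.Helper77.BPEquiv2
  Cfsg.Agent.Lib.Helper77.BPConjMax Cfsg.Agent.Lib.Helper77.BPFix Cfsg.Agent.Lib.Helper77.BPCent
  Cfsg.Agent.Lib.Helper77.BPSub Cfsg.Agent.Lib.Helper77.BPNil Cfsg.Agent.Lib.Helper33.Conj
  Cfsg.Agent.Lib.Helper77.BPCentPair Cfsg.Agent.Lib.Helper77.BPCentric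
  Cfsg.Agent.Lib.Helper77.BPStab Cfsg.Agent.Lib.Helper77.BPConj Cfsg.Agent.Lib.Helper16.MinMax
open scoped Pointwise

/-- Fix a prime p and a maximal ideal M of the algebraic integers containing p, a p-block B of the finite group G with maximal Brauer pair (P, e) and fusion system F on P, and a Brauer pair (Q, f) ≤ (P, e) with Q centric in F. Suppose every element of G normalizes Q and stabilizes f. Then the idempotent of B agrees with that of f modulo M at every element of G, and f is the idempotent of a nilpotent block of Q·C_G(Q): some p-block of Q·C_G(Q) has the idempotent coefficients of f and is nilpotent. -/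
theorem result {G : Type*} [Group G] [Fintype G] (p : ℕ) [Fact p.Prime] (M : Ideal Cfsg.AlgInt) (hM : Cfsg.IsPModular p M) (B : Set (Cfsg.IrrCharacter G)) (P : Subgroup G) (e : Set (Cfsg.IrrCharacter (Subgroup.centralizer (P : Set G)))) (hmax : Cfsg.IsMaximalBrauerPair p M B P e) (F : Cfsg.FusionSystem P) (hF : Cfsg.IsBlockFusionSystemOn p M B P e F) (Q : Subgroup G) (f : Set (Cfsg.IrrCharacter (Subgroup.centralizer (Q : Set G)))) (hQP : Q ≤ P) (hf : Cfsg.IsPBlock M f) (hle : Cfsg.SubpairLE p M Q f P e) (hcen : F.IsCentric Q) (hG : ∀ x : G, x ∈ Subgroup.normalizer (Q : Set G) ∧ Cfsg.StabilizesBlock (Subgroup.centralizer (Q : Set G)) f x) : (∀ g : G, Cfsg.MemLocalIdeal M (Cfsg.blockCoeff B g - Cfsg.subgroupBlockCoeff (Subgroup.centralizer (Q : Set G)) f g)) ∧ ∃ F' : Set (Cfsg.IrrCharacter ↥(Q ⊔ Subgroup.centralizer (Q : Set G))), Cfsg.IsPBlock M F' ∧ (∀ t : ↥(Q ⊔ Subgroup.centralizer (Q : Set G)), Cfsg.blockCoeff F' t = Cfsg.subgroupBlockCoeff (Subgroup.centralizer (Q : Set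 G)) f (t : G)) ∧ Cfsg.IsNilpotentBlock p M F' := by
  have hMp := isPrime_of_isPModular hM
  have hPe := hmax.1.1
  have hB := hmax.1.2.1
  have hQf : IsBrauerPair p M Q f :=
    isBrauerPair_of_le (p := p) (M := M) ⟨Q, f⟩ ⟨P, e⟩ hle hPe
  have hBQ : IsBrauerPairOf p M B Q f :=
    (isBrauerPairOf_iff_of_le hM B hB ⟨Q, f⟩ ⟨P, e⟩ hle).mp hmax.1
  constructor
  · intro g
    rw [blockCoeff_eq_of_stab_top hM hBQ hG g, sub_self]
    exact memLocalIdeal_zero hMp
  · have hQL : Q ≤ Q ⊔ Subgroup.centralizer (Q : Set G) := le_sup_left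
    have hCL : Subgroup.centralizer (Q : Set G) ≤ Q ⊔ Subgroup.centralizer (Q : Set G) :=
      le_sup_right
    have hLN : Q ⊔ Subgroup.centralizer (Q : Set G) ≤ Subgroup.normalizer (Q : Set G) :=
      fun x _ => (hG x).1
    obtain ⟨F', hF', hFc⟩ := exists_block_coeff hM hQf.1 hQf.2
      (Q ⊔ Subgroup.centralizer (Q : Set G)) hQL hCL hLN (fun t _ => (hG t).2)
    refine ⟨F', hF', hFc, ?_⟩
    have hrange : ∀ y : G, (conjHom Q y).range = Q.map (MulAut.conj y).toMonoidHom := by
      intro y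
      ext z
      constructor
      · rintro ⟨q, rfl⟩
        exact ⟨q, q.2, rfl⟩
      · rintro ⟨q, hq, rfl⟩
        exact ⟨⟨q, hq⟩, rfl⟩
    have hcenQ : P ⊓ Subgroup.centralizer (Q : Set G) ≤ Q := by
      have h1 : F.IsConj Q Q := by
        refine ⟨conjHom Q 1, F.conj_mem hQP (one_mem P), ?_⟩
        rw [hrange, cj_one]
      exact hcen.2 Q h1
    have hZ : IsDefectGroup p M f ((P ⊓ Subgroup.centralizer (Q : Set G)).subgroupOf
        (Subgroup.centralizer (Q : Set G))) := by
      apply isDefectGroup_of_max hM hmax hle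
      intro y hy
      have hQyP : Q.map (MulAut.conj y).toMonoidHom ≤ P :=
        le_of_subpairLE (p := p) (M := M) ⟨_, _⟩ ⟨P, e⟩ hy
      have hconj : F.IsConj Q (Q.map (MulAut.conj y).toMonoidHom) :=
        ⟨conjHom Q y, (hF.2 Q _).mpr ⟨hQP, y, fun u => rfl, hQyP, f, hle, hy⟩, hrange y⟩
      have h3 : P ⊓ Subgroup.centralizer
          ((Q.map (MulAut.conj y).toMonoidHom : Subgroup G) : Set G) ≤
          Q.map (MulAut.conj y).toMonoidHom := hcen.2 _ hconj
      calc Nat.card (P ⊓ Subgroup.centralizer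
            ((Q.map (MulAut.conj y).toMonoidHom : Subgroup G) : Set G) : Subgroup G)
          ≤ Nat.card (Q.map (MulAut.conj y).toMonoidHom ⊓ Subgroup.centralizer
            ((Q.map (MulAut.conj y).toMonoidHom : Subgroup G) : Set G) : Subgroup G) :=
            Subgroup.card_le_of_le (le_inf h3 inf_le_right)
        _ = Nat.card ((Q ⊓ Subgroup.centralizer (Q : Set G)).map
            (MulAut.conj y).toMonoidHom) := by rw [cj_inf, centralizer_cj]
        _ = Nat.card (Q ⊓ Subgroup.centralizer (Q : Set G) : Subgroup G) := card_cj _ _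
        _ ≤ Nat.card (P ⊓ Subgroup.centralizer (Q : Set G) : Subgroup G) :=
            Subgroup.card_le_of_le (inf_le_inf_right _ hQP)
    apply isNilpotentBlock_of_le hM hQf (Q ⊔ Subgroup.centralizer (Q : Set G)) hQL hCL hLN F'
      hF' hFc
    · intro t ht
      haveI : (Subgroup.centralizer (Q : Set G)).Normal := by
        rw [← Subgroup.normalizer_eq_top_iff, eq_top_iff]
        intro x _
        exact normalizer_le_normalizer_centralizer Q (hG x).1
      have ht' : t ∈ (Q : Set G) * (Subgroup.centralizer (Q : Set G) : Set G) := by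
        rw [← Subgroup.mul_normal]
        exact ht
      obtain ⟨q, hq, c, hc, rfl⟩ := Set.mem_mul.mp ht'
      refine ⟨q, hq, ?_⟩
      rw [inv_mul_cancel_left]
      exact hc
    · intro Df hDf
      obtain ⟨x, hx⟩ := defectGroup_conj hM f hf hZ hDf
      rintro _ ⟨z, hz, rfl⟩
      have hz' : z ∈ Df := hz
      rw [hx, mem_cj] at hz'
      have hw : (x : G)⁻¹ * (z : G) * (x : G) ∈ Q := hcenQ (Subgroup.mem_subgroupOf.mp hz')
      have hcomm := Subgroup.mem_centralizer_iff.mp x.2 _ hw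
      have h5 : (x : G) * ((x : G)⁻¹ * (z : G) * (x : G)) = (z : G) * (x : G) := by group
      rw [h5] at hcomm
      have h6 : (x : G)⁻¹ * (z : G) * (x : G) = (z : G) := mul_right_cancel hcomm
      rw [h6] at hw
      exact hw

end Cfsg.Agent.S4693
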