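import Mathlib
import Cfsg.Statements.S4702
import Cfsg.Agent.Lib.Helper52.S3TPerm
import Cfsg.Agent.Lib.Helper52.PGLChar2

set_option autoImplicit false
open Cfsg

namespace Cfsg.Agent.S4702

open Cfsg.Agent.Lib.Helper52

/-- Let G be a triply transitive permutation group on a finite set of odd size m ≥ 3 in which only the identity fixes three or more points. Then m = 2^a + 1 for some a ≥ 1 and G is isomorphic to SL(2, 2^a). -/
theorem result {α : Type*} [Fintype α] [DecidableEq α] (hm : 3 ≤ Fintype.card α) (hodd : Odd (Fintype.card α)) (G : Subgroup (Equiv.Perm α)) (h3 : MulAction.IsMultiplyPretransitive G α 3) (hfix : ∀ g : G, 3 ≤ Nat.card (MulAction.fixedBy α g) → g = 1) : ∃ a : ℕ, 1 ≤ a ∧ Fintype.card α = 2 ^ a + 1 ∧ ∃ (F : Type) (_ : Field F) (_ : Fintype F), Fintype.card F = 2 ^ a ∧ Nonempty (G ≃* Matrix.SpecialLinearGroup (Fin 2) F) := by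
  have hfix' : ∀ (g : G) (x y z : α), x ≠ y → x ≠ z → y ≠ z → g • x = x → g • y = y →
      g • z = z → g = 1 := by
    intro g x y z hxy hxz hyz hx hy hz
    apply hfix
    have h2 : 2 < Nat.card (MulAction.fixedBy α g) := by
      rw [Nat.card_eq_fintype_card, Fintype.two_lt_card_iff]
      exact ⟨⟨x, hx⟩, ⟨y, hy⟩, ⟨z, hz⟩, fun h => hxy (congrArg Subtype.val h),
        fun h => hxz (congrArg Subtype.val h), fun h => hyz (congrArg Subtype.val h)⟩
    omega
  have hcardα : Nat.card α = Fintype.card α := Nat.card_eq_fintype_card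
  obtain ⟨C⟩ := S3TPerm.exists_config (G := G) (Ω := α)
    (S3TPerm.three_trans_of_pretransitive h3) hfix' (by rw [hcardα]; exact hodd)
    (by rw [hcardα]; exact hm)
  obtain ⟨F, hF1, hF2, hc1, hc2, hiso⟩ := S3TField.exists_field_type0 C
  obtain ⟨k, hk⟩ := S3TPerm.card_U C
  have hk' : Nat.card F = 2 ^ k := hc1.trans hk
  have h2 : (2 : F) = 0 := PGLChar2.two_eq_zero_of_card hk'
  have hk1 : 1 ≤ k := by
    rcases Nat.eq_zero_or_pos k with h0 | h0
    · exfalso
      rw [h0, pow_zero] at hk'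
      rw [hk', hcardα] at hc2
      omega
    · exact h0
  refine ⟨k, hk1, ?_, F, hF1, hF2, ?_, PGLChar2.nonempty_equiv_sl_of_pgl h2 hiso⟩
  · rw [← hcardα, ← hc2, hk']
  · rw [← Nat.card_eq_fintype_card]
    exact hk'

end Cfsg.Agent.S4702
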