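import Cfsg.Statements.S4706
import Cfsg.Agent.S4702
import Cfsg.Agent.Lib.Helper17.PrimeDegA
import Cfsg.Agent.Lib.Helper17.PrimeDegB
import Cfsg.Agent.Lib.Helper17.PrimeDegD

set_option autoImplicit false
set_option linter.style.haveILetI false
open Cfsg

namespace Cfsg.Agent.S4706

open Cfsg.Agent.Lib.Helper17

/-- Let p > 2 be a prime and G a permutation group on p letters whose Sylow p-subgroup P has normalizer of order 2p. Then either P is normal in G, or p − 1 = 2^a for some a and G is isomorphic to SL(2, 2^a). -/
theorem result {α : Type*} [Fintype α] [DecidableEq α] {p : ℕ} [Fact p.Prime] (hp : 2 < p) (hα : Fintype.card α = p) (G : Subgroup (Equiv.Perm α)) (P : Sylow p G) (hN : Nat.card (Subgroup.normalizer ((P : Subgroup G) : Set G)) = 2 * p) : (P : Subgroup G).Normal ∨ ∃ (a : ℕ) (F : Type) (_ : Field F) (_ : Fintype F), p = 2 ^ a + 1 ∧ Fintype.card F = 2 ^ a ∧ Nonempty (G ≃* Matrix.SpecialLinearGroup (Fin 2) F) := by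
  classical
  have hp' : p.Prime := Fact.out
  by_cases hnn : (P : Subgroup G).Normal
  · exact Or.inl hnn
  right
  have hPbot : (P : Subgroup G) ≠ ⊥ := by
    intro h
    apply hnn
    rw [h]
    infer_instance
  have hP := PrimeDegD.card_sylow_eq_prime hα G P hPbot
  have hperf := PrimeDegD.commutator_eq_top hα G P hP hN hnn
  have hC := PrimeDegD.centralizer_le hα G P hP
  obtain ⟨y, hyP, hy1⟩ := PrimeDegD.exists_ne_one (p := p) (P : Subgroup G) hP
  obtain ⟨hyo, hyz⟩ := FixedPoints.zpowers_eq_of_mem P hP y hyP hy1
  have htrans := PrimeDegD.isPretransitive hα G y hyo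
  have hnp := PrimeDegD.card_sylow_mul G P hN
  have hGdvd : Nat.card G ∣ p.factorial := by
    have h2 : Nat.card G ∣ Nat.card (Equiv.Perm α) := Subgroup.card_subgroup_dvd_card G
    rw [Nat.card_perm, Nat.card_eq_fintype_card (α := α), hα] at h2
    exact h2
  have hNtop : Nat.card G ≠ 2 * p := by
    intro h
    apply hnn
    rw [← Subgroup.normalizer_eq_top_iff]
    exact Subgroup.eq_top_of_card_eq _ (by rw [hN, h])
  have key : (∀ g : G, 3 ≤ Nat.card (MulAction.fixedBy α g) → g = 1) ∧
      Nat.card G = p * (p - 1) * (p - 2) := by
    by_cases hp7 : 7 ≤ p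
    · haveI : Fintype G := Fintype.ofFinite G
      obtain ⟨hS1, hS2, hS3⟩ := PrimeDegA.power_sums (G := G) (X := α) hperf (P : Subgroup G) hp'
        hP hC (by rw [hN, mul_comm]) hp7 (by rw [Nat.card_eq_fintype_card, hα]) htrans
        (fun y hy hy1 => PrimeDegD.card_fixedBy_eq_zero hα G y
          (FixedPoints.zpowers_eq_of_mem P hP y hy hy1).1)
      have hle : ∀ g : G, Nat.card (MulAction.fixedBy α g) ≤ p := fun g => by
        rw [← hα]; exact PrimeDegD.card_fixedBy_le G g
      have hzero : (p - 1) * Nat.card G ≤ 2 * p *
          (Finset.univ.filter (fun g : G => Nat.card (MulAction.fixedBy α g) = 0)).card :=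
        PrimeDegD.zero_count hα G P hP hN _
          (fun g hg => Finset.mem_filter.mpr ⟨Finset.mem_univ _, hg⟩)
      have h3p := PrimeDegB.fix_three (fun g : G => Nat.card (MulAction.fixedBy α g)) p
        (Nat.card G) hS1 hS2 hS3 Nat.card_eq_fintype_card.symm hle hzero hp'.pos
      have hfix : ∀ g : G, 3 ≤ Nat.card (MulAction.fixedBy α g) → g = 1 := fun g hg =>
        PrimeDegD.eq_one_of_card_fixedBy G g (by rw [h3p g hg, hα])
      refine ⟨hfix, ?_⟩
      exact PrimeDegB.card_eq (fun g : G => Nat.card (MulAction.fixedBy α g)) p (Nat.card G)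
        hS1 hS2 hS3 (by rw [← hα]; exact PrimeDegD.card_fixedBy_one G) hfix (by omega)
    · have hp35 : p = 3 ∨ p = 5 := by
        have h7 : p < 7 := by omega
        interval_cases p
        · left; rfl
        · exfalso; exact absurd hp' (by norm_num)
        · right; rfl
        · exfalso; exact absurd hp' (by norm_num)
      rcases hp35 with rfl | rfl
      · -- p = 3
        exfalso
        apply hNtop
        have h6 : Nat.card G ∣ 6 := by simpa [Nat.factorial] using hGdvd
        have hle := Nat.le_of_dvd (by norm_num) h6
        have hpos : 0 < Nat.card (Sylow 3 G) := Nat.card_pos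
        nlinarith
      · -- p = 5
        have h120 : Nat.card G ∣ 120 := by simpa [Nat.factorial] using hGdvd
        have hmod : Nat.card (Sylow 5 G) ≡ 1 [MOD 5] := card_sylow_modEq_one 5 G
        have hn12 : Nat.card (Sylow 5 G) ∣ 12 := by
          rw [← hnp] at h120
          have : Nat.card (Sylow 5 G) * 10 ∣ 12 * 10 := by simpa using h120
          exact Nat.dvd_of_mul_dvd_mul_right (by norm_num) this
        have hn6 : Nat.card (Sylow 5 G) = 6 := by
          have hle := Nat.le_of_dvd (by norm_num) hn12
          have hne1 : Nat.card (Sylow 5 G) ≠ 1 := by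
            intro h1
            apply hNtop
            rw [← hnp, h1]
          unfold Nat.ModEq at hmod
          interval_cases h : Nat.card (Sylow 5 G) <;> simp_all
        have hG60 : Nat.card G = 60 := by rw [← hnp, hn6]
        refine ⟨?_, by rw [hG60]⟩
        intro g hg
        -- all elements are even
        have hsign : Equiv.Perm.sign (g : Equiv.Perm α) = 1 := by
          have h1 : _root_.commutator G ≤ (Equiv.Perm.sign.comp G.subtype).ker :=
            Abelianization.commutator_subset_ker _
          have h2 : g ∈ (Equiv.Perm.sign.comp G.subtype).ker := h1 (by rw [hperf]; trivial)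
          exact h2
        have hfixcard : Nat.card (MulAction.fixedBy α g)
            = (Finset.univ.filter (fun x : α => (g : Equiv.Perm α) x = x)).card := by
          haveI : Fintype (MulAction.fixedBy α g) := Fintype.ofFinite _
          rw [Nat.card_eq_fintype_card]
          exact Fintype.card_of_subtype _ (fun x => by
            rw [Finset.mem_filter, MulAction.mem_fixedBy]
            exact ⟨fun h => h.2, fun h => ⟨Finset.mem_univ _, h⟩⟩)
        have hsupp : (g : Equiv.Perm α).support
            = Finset.univ.filter (fun x : α => ¬ (g : Equiv.Perm α) x = x) := by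
          ext x
          simp [Equiv.Perm.mem_support]
        have hsum := Finset.card_filter_add_card_filter_not (s := (Finset.univ : Finset α))
          (fun x : α => (g : Equiv.Perm α) x = x)
        rw [← hsupp, ← hfixcard, Finset.card_univ, hα] at hsum
        have hs2 : (g : Equiv.Perm α).support.card ≤ 2 := by omega
        have hs1 := Equiv.Perm.card_support_ne_one (g : Equiv.Perm α)
        have hs : (g : Equiv.Perm α).support.card = 0 := by
          by_contra h0
          have h2 : (g : Equiv.Perm α).support.card = 2 := by omega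
          have h3 := (Equiv.Perm.card_support_eq_two.mp h2).sign_eq
          rw [hsign] at h3
          exact absurd h3 (by decide)
        apply Subtype.ext
        exact Equiv.Perm.card_support_eq_zero.mp hs
  obtain ⟨hfix, hcard⟩ := key
  have h3 := PrimeDegB.three_transitive G hfix (by rw [hα]; exact hcard)
  obtain ⟨a, ha1, hca, F, hF1, hF2, hcF, hiso⟩ := Cfsg.Agent.S4702.result (by rw [hα]; omega)
    (by rw [hα]; exact hp'.odd_of_ne_two (by omega)) G h3 hfix
  exact ⟨a, F, hF1, hF2, by rw [← hα]; exact hca, hcF, hiso⟩

end Cfsg.Agent.S4706
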