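import Cfsg.Statements.S4719
import Cfsg.Agent.Lib.Helper75.DCFinal
import Cfsg.Agent.Lib.Helper75.DCDQ
import Cfsg.Agent.Lib.Helper75.DCCB
import Cfsg.Agent.Lib.Helper71.DCBF
import Cfsg.Agent.Lib.Helper51.DCCZ
import Cfsg.Agent.Lib.Helper18.DCFIX
import Cfsg.Agent.Lib.Helper22.DCODD
import Cfsg.Agent.Lib.Helper67.DCPGZ
import Cfsg.Agent.Lib.Helper98.DCPG
import Cfsg.Agent.Lib.Helper18.DCPICK
import Cfsg.Agent.Lib.Helper18.DCQC
import Cfsg.Agent.Lib.Helper67.DCRG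
import Cfsg.Agent.Lib.Helper85.DCRO
import Cfsg.Agent.Lib.Helper71.DCYN
import Cfsg.Agent.Lib.Helper18.DCPGQ
import Cfsg.Agent.Lib.Helper85.DCTWO
import Cfsg.Agent.Lib.Helper71.DCNC

set_option autoImplicit false
universe u
open Cfsg

namespace Cfsg.Agent.S4719

/-- For every natural number a there is a bound N with the following property. Let G be a finite group with Sylow 2-subgroups of order 2^a and r ≥ 0 such that G has no non-principal 2-block (relative to a maximal ideal of the algebraic integers containing 2) of defect ≥ r, and suppose a Sylow 2-subgroup of G contains an elementary abelian subgroup of order 2^(r+1). Then the order of G is at most N. -/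
theorem result (a : ℕ) : ∃ N : ℕ, ∀ (G : Type u) [Group G] [Finite G] (M : Ideal Cfsg.AlgInt) (r : ℕ) (P : Sylow 2 G), Cfsg.IsPModular 2 M → Nat.card P = 2 ^ a → (∀ B : Set (Cfsg.IrrCharacter G), Cfsg.IsPBlock M B → B ≠ Cfsg.principalBlock M G → Cfsg.blockDefect 2 B < r) → (∃ E : Subgroup G, E ≤ (P : Subgroup G) ∧ IsMulCommutative E ∧ (∀ x ∈ E, x * x = 1) ∧ Nat.card E = 2 ^ (r + 1)) → Nat.card G ≤ N := by
  have hQC := Cfsg.Agent.Lib.Helper18.DCQC.main.{u}
  have hPG := Cfsg.Agent.Lib.Helper98.DCPG.main.{u} Cfsg.Agent.Lib.Helper67.DCPGZ.main Cfsg.Agent.Lib.Helper18.DCPGQ.main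
  have hODD := Cfsg.Agent.Lib.Helper22.DCODD.main.{u} hPG
  have hA := Cfsg.Agent.Lib.Helper75.DCFinal.thmA.{u} hODD Cfsg.Agent.Lib.Helper67.DCRG.main
    (Cfsg.Agent.Lib.Helper85.DCRO.main hQC) (Cfsg.Agent.Lib.Helper85.DCTWO.main hQC) Cfsg.Agent.Lib.Helper18.DCFIX.main
    (Cfsg.Agent.Lib.Helper51.DCCZ.main hQC) Cfsg.Agent.Lib.Helper71.DCBF.main Cfsg.Agent.Lib.Helper71.DCNC.main
    Cfsg.Agent.Lib.Helper71.DCYN.main
  exact Cfsg.Agent.Lib.Helper75.DCFinal.final.{u} hA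
    (Cfsg.Agent.Lib.Helper75.DCCB.main Cfsg.Agent.Lib.Helper75.DCDQ.main)
    Cfsg.Agent.Lib.Helper18.DCPICK.main a

end Cfsg.Agent.S4719
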