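import Cfsg.Statements.S4723
import Cfsg.Agent.Lib.Helper75.StabHt

set_option autoImplicit false
open Cfsg

namespace Cfsg.Agent.S4723

/-- Let p be a prime, M a maximal ideal of the algebraic integers containing p, H a normal subgroup of the finite group G and b a p-block of H. Let T be the stabilizer of b in G. Then b contains a character θ of height zero whose own stabilizer in G (the elements g with θ(g h g⁻¹) = θ(h) for all h ∈ H) has index prime to p in T, i.e. contains a Sylow p-subgroup of T. -/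
theorem result {G : Type*} [Group G] [Finite G] (p : ℕ) [Fact p.Prime] (M : Ideal Cfsg.AlgInt) (hM : Cfsg.IsPModular p M) (H : Subgroup G) [H.Normal] (b : Set (Cfsg.IrrCharacter ↥H)) (hb : Cfsg.IsPBlock M b) (T : Subgroup G) (hT : (∀ g : G, g ∈ T ↔ ∀ θ ∈ b, ∀ θ' : Cfsg.IrrCharacter ↥H, (∀ h h' : ↥H, (h' : G) = g * h * g⁻¹ → (θ' : ↥H → ℂ) h' = (θ : ↥H → ℂ) h) → θ' ∈ b)) : ∃ θ ∈ b, Cfsg.blockHeight p b (θ : ↥H → ℂ) = 0 ∧ ∃ S : Subgroup G, S ≤ T ∧ (∀ g : G, g ∈ S ↔ (g ∈ T ∧ ∀ h h' : ↥H, (h' : G) = g * h * g⁻¹ → (θ : ↥H → ℂ) h' = (θ : ↥H → ℂ) h)) ∧ ¬ p ∣ S.relIndex T := by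
  classical
  have hTinv : ∀ g ∈ T, ∀ θ ∈ b,
      Cfsg.Agent.Lib.Helper74.IndexPStep.conjIrr H g θ ∈ b := by
    intro g hg θ hθ
    refine (hT g).1 hg θ hθ _ ?_
    intro h h' hh
    rw [Cfsg.Agent.Lib.Helper74.IndexPStep.conjIrr_apply]
    have h2 : (MulAut.conjNormal g⁻¹ : MulAut ↥H) h' = h := by
      apply Subtype.ext
      rw [MulAut.conjNormal_apply, hh]
      group
    rw [h2]
  obtain ⟨θ, hθb, hht, hidx⟩ := Cfsg.Agent.Lib.Helper75.StabHt.main p M hM H b hb T hTinv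
  refine ⟨θ, hθb, hht, _, inf_le_right, ?_, hidx⟩
  intro g
  rw [Subgroup.mem_inf, Subgroup.mem_comap, MulAction.mem_stabilizer_iff, and_comm]
  refine and_congr_right fun _ => ?_
  constructor
  · intro hfix h h' hh
    have h1 : ((Cfsg.Agent.Lib.Helper74.IndexPStep.conjIrr H g θ : Cfsg.IrrCharacter ↥H)
        : ↥H → ℂ) h' = (θ : ↥H → ℂ) h' := by
      rw [show Cfsg.Agent.Lib.Helper74.IndexPStep.conjIrr H g θ = θ from hfix]
    rw [← h1, Cfsg.Agent.Lib.Helper74.IndexPStep.conjIrr_apply]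
    have h2 : (MulAut.conjNormal g⁻¹ : MulAut ↥H) h' = h := by
      apply Subtype.ext
      rw [MulAut.conjNormal_apply, hh]
      group
    rw [h2]
  · intro hfix
    show Cfsg.Agent.Lib.Helper74.IndexPStep.conjIrr H g θ = θ
    apply Subtype.ext
    funext m
    rw [Cfsg.Agent.Lib.Helper74.IndexPStep.conjIrr_apply]
    refine (hfix _ m ?_).symm
    rw [MulAut.conjNormal_apply]
    group

end Cfsg.Agent.S4723
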