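import Cfsg.Statements.S4725
import Mathlib
import Cfsg.Agent.Lib.Helper77.BlockIdem
import Cfsg.Agent.Lib.CT.Clifford
import Cfsg.Agent.Lib.Helper80.Integrality

set_option autoImplicit false
open Cfsg

namespace Cfsg.Agent.S4725

open scoped ComplexConjugate
open Cfsg.Agent.Lib.Helper77.LocalRing Cfsg.Agent.Lib.CT.Wedderburn


lemma finsum_mem_eq_sum_filter {ι : Type*} [Fintype ι] (S : Set ι) [DecidablePred (· ∈ S)]
    (f : ι → ℂ) : ∑ᶠ i ∈ S, f i = ∑ i ∈ Finset.univ.filter (· ∈ S), f i := by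
  rw [finsum_mem_def, finsum_eq_sum_of_fintype, Finset.sum_filter]
  apply Finset.sum_congr rfl
  intro h _
  rw [Set.indicator_apply]

lemma key_identity {G : Type*} [Group G] [Fintype G] (H : Subgroup G) [Fintype H]
    [Fintype (IrrCharacter G)] (B : Set (IrrCharacter G)) [DecidablePred (· ∈ B)]
    (ζ : H → ℂ) :
    ∑ χ ∈ Finset.univ.filter (· ∈ B), classInner (indFun H ζ) (χ : G → ℂ) * (χ : G → ℂ) 1
      = (H.index : ℂ) * ∑ h : H, blockCoeff B (h : G) * ζ h := by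
  have hfr : ∀ χ : IrrCharacter G, classInner (indFun H ζ) (χ : G → ℂ) =
      (Nat.card H : ℂ)⁻¹ * ∑ h : H, ζ h * conj ((χ : G → ℂ) h) := fun χ => by
    rw [Cfsg.Agent.Lib.CT.FrobRec.frobenius_reciprocity H ζ _
      (Cfsg.Agent.Lib.CT.Orth.irr_isClassFunction χ)]
    rfl
  have hbc : ∀ g : G, blockCoeff B g = (Nat.card G : ℂ)⁻¹ *
      ∑ χ ∈ Finset.univ.filter (· ∈ B), (χ : G → ℂ) 1 * conj ((χ : G → ℂ) g) := by
    intro g
    unfold blockCoeff
    rw [finsum_mem_eq_sum_filter]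
  have hG0 : (Nat.card G : ℂ) ≠ 0 := Nat.cast_ne_zero.mpr Nat.card_pos.ne'
  have hH0 : (Nat.card H : ℂ) ≠ 0 := Nat.cast_ne_zero.mpr Nat.card_pos.ne'
  have hidx : (H.index : ℂ) = (Nat.card G : ℂ) * (Nat.card H : ℂ)⁻¹ := by
    rw [← H.card_mul_index]
    push_cast
    field_simp
  rw [hidx]
  calc ∑ χ ∈ Finset.univ.filter (· ∈ B), classInner (indFun H ζ) (χ : G → ℂ) * (χ : G → ℂ) 1
      = ∑ χ ∈ Finset.univ.filter (· ∈ B), ∑ h : H,
          (Nat.card H : ℂ)⁻¹ * (ζ h * ((χ : G → ℂ) 1 * conj ((χ : G → ℂ) h))) := by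
        apply Finset.sum_congr rfl
        intro χ _
        rw [hfr χ, Finset.mul_sum, Finset.sum_mul]
        apply Finset.sum_congr rfl
        intro h _
        ring
    _ = ∑ h : H, ∑ χ ∈ Finset.univ.filter (· ∈ B),
          (Nat.card H : ℂ)⁻¹ * (ζ h * ((χ : G → ℂ) 1 * conj ((χ : G → ℂ) h))) := Finset.sum_comm
    _ = (Nat.card G : ℂ) * (Nat.card H : ℂ)⁻¹ * ∑ h : H, blockCoeff B (h : G) * ζ h := by
        rw [Finset.mul_sum]
        apply Finset.sum_congr rfl
        intro h _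
        rw [hbc, ← Finset.mul_sum, ← Finset.mul_sum]
        field_simp


lemma block_orth {G : Type*} [Group G] [Fintype G] [Fintype (IrrCharacter G)]
    (B : Set (IrrCharacter G)) [DecidablePred (· ∈ B)] (χ₀ : IrrCharacter G) (h : χ₀ ∈ B) :
    ∑ g : G, blockCoeff B g * ((χ₀ : G → ℂ) g / (χ₀ : G → ℂ) 1) = 1 := by
  classical
  have hbc : ∀ g : G, blockCoeff B g = (Nat.card G : ℂ)⁻¹ *
      ∑ χ ∈ Finset.univ.filter (· ∈ B), (χ : G → ℂ) 1 * conj ((χ : G → ℂ) g) := by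
    intro g
    unfold blockCoeff
    rw [finsum_mem_eq_sum_filter]
  have h0 : (χ₀ : G → ℂ) 1 ≠ 0 := irr_apply_one_ne_zero χ₀.2
  calc ∑ g : G, blockCoeff B g * ((χ₀ : G → ℂ) g / (χ₀ : G → ℂ) 1)
      = ∑ g : G, ∑ χ ∈ Finset.univ.filter (· ∈ B), ((χ : G → ℂ) 1 / (χ₀ : G → ℂ) 1) *
          ((Nat.card G : ℂ)⁻¹ * ((χ₀ : G → ℂ) g * conj ((χ : G → ℂ) g))) := by
        apply Finset.sum_congr rfl
        intro g _
        rw [hbc, Finset.mul_sum, Finset.sum_mul]
        apply Finset.sum_congr rfl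
        intro χ _
        ring
    _ = ∑ χ ∈ Finset.univ.filter (· ∈ B), ∑ g : G, ((χ : G → ℂ) 1 / (χ₀ : G → ℂ) 1) *
          ((Nat.card G : ℂ)⁻¹ * ((χ₀ : G → ℂ) g * conj ((χ : G → ℂ) g))) := Finset.sum_comm
    _ = ∑ χ ∈ Finset.univ.filter (· ∈ B), ((χ : G → ℂ) 1 / (χ₀ : G → ℂ) 1) *
          classInner (χ₀ : G → ℂ) (χ : G → ℂ) := by
        apply Finset.sum_congr rfl
        intro χ _
        unfold classInner
        rw [← Finset.mul_sum, ← Finset.mul_sum]
    _ = ∑ χ ∈ Finset.univ.filter (· ∈ B), ((χ : G → ℂ) 1 / (χ₀ : G → ℂ) 1) *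
          (if χ₀ = χ then 1 else 0) := by
        apply Finset.sum_congr rfl
        intro χ _
        rw [irr_orthonormal]
    _ = 1 := by
        rw [Finset.sum_eq_single_of_mem χ₀ (by rw [Finset.mem_filter]; exact ⟨Finset.mem_univ _, h⟩)
          (fun b _ hb => by rw [if_neg (Ne.symm hb), mul_zero])]
        rw [if_pos rfl, mul_one, div_self h0]

open Classical in
lemma sum_by_class {G : Type*} [Group G] [Fintype G] {ι : Type*} [Fintype ι] (cl : ι → G)
    (c : G → ℂ) (hc : ∀ x g : G, c (x * g * x⁻¹) = c g) (f : ι → ℂ) (rep : ConjClasses G → G)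
    (hrep : ∀ C, ConjClasses.mk (rep C) = C) :
    ∑ i, c (cl i) * f i =
      ∑ C : ConjClasses G, c (rep C) *
        ∑ i ∈ Finset.univ.filter (fun i => IsConj (rep C) (cl i)), f i := by
  rw [← Finset.sum_fiberwise Finset.univ (fun i => ConjClasses.mk (cl i))]
  apply Finset.sum_congr rfl
  intro C _
  rw [Finset.mul_sum]
  have hfilter : Finset.univ.filter (fun i => ConjClasses.mk (cl i) = C) =
      Finset.univ.filter (fun i => IsConj (rep C) (cl i)) := by
    apply Finset.filter_congr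
    intro i _
    constructor
    · intro h
      exact ConjClasses.mk_eq_mk_iff_isConj.1 ((hrep C).trans h.symm)
    · intro h
      exact ((ConjClasses.mk_eq_mk_iff_isConj.2 h).symm).trans (hrep C)
  rw [hfilter]
  apply Finset.sum_congr rfl
  intro i hi
  rw [Finset.mem_filter] at hi
  obtain ⟨x, hx⟩ := isConj_iff.1 hi.2
  rw [← hx, hc]

/-- the p-adic valuation step -/
lemma not_pow_dvd {p : ℕ} (hp : p.Prime) (M : Ideal Cfsg.AlgInt) (hM : Cfsg.IsPModular p M)
    (T N : ℕ) (hN : N ≠ 0) (u : ℂ) (hTN : (T : ℂ) = (N : ℂ) * u)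
    (hu : Cfsg.MemLocalIdeal M (u - 1)) : ¬ p ^ (N.factorization p + 1) ∣ T := by
  have hMp : M.IsPrime := isPrime_of_isPModular hM
  intro hdvd
  obtain ⟨T', hT'⟩ := hdvd
  set k := N.factorization p with hk
  set N' := N / p ^ k with hN'
  have hNN : p ^ k * N' = N := Nat.ordProj_mul_ordCompl_eq_self N p
  have hpN' : ¬ p ∣ N' := Nat.not_dvd_ordCompl hp hN
  have hpk : ((p : ℂ) ^ k) ≠ 0 := pow_ne_zero _ (Nat.cast_ne_zero.mpr hp.ne_zero)
  have h1 : (N' : ℂ) * u = (p : ℂ) * (T' : ℂ) := by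
    have h2 : ((p : ℂ) ^ k) * ((N' : ℂ) * u) = ((p : ℂ) ^ k) * ((p : ℂ) * (T' : ℂ)) := by
      calc ((p : ℂ) ^ k) * ((N' : ℂ) * u) = ((p ^ k * N' : ℕ) : ℂ) * u := by push_cast; ring
        _ = (N : ℂ) * u := by rw [hNN]
        _ = (T : ℂ) := hTN.symm
        _ = ((p ^ (k + 1) * T' : ℕ) : ℂ) := by rw [hT']
        _ = ((p : ℂ) ^ k) * ((p : ℂ) * (T' : ℂ)) := by push_cast; ring
    exact mul_left_cancel₀ hpk h2
  have h3 : Cfsg.MemLocalIdeal M ((N' : ℂ) * u) := by
    rw [h1]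
    have := memLocalIdeal_natCast_of_dvd hM (n := p * T') (dvd_mul_right p T')
    simpa using this
  have h4 : Cfsg.MemLocalIdeal M ((N' : ℂ) * (u - 1)) :=
    memLocalIdeal_mul_left hMp (memLocalRing_natCast hMp N') hu
  have h5 : Cfsg.MemLocalIdeal M ((N' : ℕ) : ℂ) := by
    have := memLocalIdeal_sub hMp h3 h4
    have h6 : (N' : ℂ) * u - (N' : ℂ) * (u - 1) = (N' : ℂ) := by ring
    rwa [h6] at this
  exact hpN' ((memLocalIdeal_natCast_iff hM N').1 h5)

/-- Let p be a prime, M a maximal ideal of the algebraic integers containing p, H a subgroup of the finite group G, and b a p-block of H inducing the p-block B of G, with b and B of the same defect. Then for every height-zero ζ ∈ b there is a height-zero χ ∈ B whose multiplicity in the character induced from ζ is not divisible by p. -/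
theorem result {G : Type*} [Group G] [Fintype G] (p : ℕ) [Fact p.Prime] (M : Ideal Cfsg.AlgInt) (hM : Cfsg.IsPModular p M) (H : Subgroup G) (b : Set (Cfsg.IrrCharacter ↥H)) (B : Set (Cfsg.IrrCharacter G)) (hind : Cfsg.IsInducedBlock M H b B) (hdef : Cfsg.blockDefect p b = Cfsg.blockDefect p B) (ζ : Cfsg.IrrCharacter ↥H) (hζ : ζ ∈ b) (hζ0 : Cfsg.blockHeight p b (ζ : ↥H → ℂ) = 0) : ∃ χ ∈ B, Cfsg.blockHeight p B (χ : G → ℂ) = 0 ∧ ∃ a : ℕ, Cfsg.classInner (Cfsg.indFun H (ζ : ↥H → ℂ)) (χ : G → ℂ) = (a : ℂ) ∧ ¬ p ∣ a := by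
  classical
  have hp : p.Prime := Fact.out
  have hMp : M.IsPrime := isPrime_of_isPModular hM
  obtain ⟨hb, hB, hcong⟩ := hind
  have := finite_irrCharacter G
  have : Fintype (IrrCharacter G) := Fintype.ofFinite _
  have : Fintype ↥H := Fintype.ofFinite _
  have hζchar : IsCharacter ↥H (ζ : ↥H → ℂ) := isCharacter_of_irr ζ.2
  have hnat : ∀ χ : IrrCharacter G, ∃ a : ℕ,
      classInner (indFun H (ζ : ↥H → ℂ)) (χ : G → ℂ) = a := fun χ =>
    Cfsg.Agent.Lib.CT.Clifford.classInner_char_nat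
      (Cfsg.Agent.Lib.CT.IndChar.isCharacter_indFun H _ hζchar) (isCharacter_of_irr χ.2)
  choose a ha using hnat
  -- B is nonempty
  obtain ⟨χ₀, hχ₀⟩ : ∃ χ₀, χ₀ ∈ B := by
    obtain ⟨χ, rfl⟩ := hB
    refine ⟨χ, ?_⟩
    show SameBlock M (χ : G → ℂ) (χ : G → ℂ)
    intro g
    rw [sub_self]
    exact memLocalIdeal_zero hMp
  have hζ1 : ((charDegree (ζ : ↥H → ℂ) : ℕ) : ℂ) = (ζ : ↥H → ℂ) 1 :=
    char_natCast_charDegree hζchar
  have hζ1ne : (ζ : ↥H → ℂ) 1 ≠ 0 := irr_apply_one_ne_zero ζ.2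
  -- the key identity
  have hTN : ((∑ χ ∈ Finset.univ.filter (· ∈ B), a χ * charDegree (χ : G → ℂ) : ℕ) : ℂ) =
      ((H.index * charDegree (ζ : ↥H → ℂ) : ℕ) : ℂ) *
        ∑ h : ↥H, blockCoeff B (h : G) * ((ζ : ↥H → ℂ) h / (ζ : ↥H → ℂ) 1) := by
    push_cast
    have h1 := key_identity H B (ζ : ↥H → ℂ)
    have h2 : ∑ χ ∈ Finset.univ.filter (· ∈ B), (a χ : ℂ) * (charDegree (χ : G → ℂ) : ℂ) =
        ∑ χ ∈ Finset.univ.filter (· ∈ B),
          classInner (indFun H (ζ : ↥H → ℂ)) (χ : G → ℂ) * (χ : G → ℂ) 1 := by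
      apply Finset.sum_congr rfl
      intro χ _
      rw [ha χ, char_natCast_charDegree (isCharacter_of_irr χ.2)]
    rw [h2, h1, hζ1, mul_assoc]
    congr 1
    rw [Finset.mul_sum]
    apply Finset.sum_congr rfl
    intro h _
    field_simp
  -- u ≡ 1
  let rep : ConjClasses G → G := fun C => (ConjClasses.exists_rep C).choose
  have hrep : ∀ C, ConjClasses.mk (rep C) = C := fun C => (ConjClasses.exists_rep C).choose_spec
  have hu_cls : ∑ h : ↥H, blockCoeff B (h : G) * ((ζ : ↥H → ℂ) h / (ζ : ↥H → ℂ) 1) =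
      ∑ C : ConjClasses G, blockCoeff B (rep C) *
        inducedCentralChar H (ζ : ↥H → ℂ) (rep C) := by
    rw [sum_by_class (fun h : ↥H => (h : G)) (blockCoeff B)
      (Cfsg.Agent.Lib.Helper77.BlockIdem.blockCoeff_conj B) _ rep hrep]
    apply Finset.sum_congr rfl
    intro C _
    congr 1
    unfold inducedCentralChar
    rw [finsum_mem_eq_sum_filter]
    rfl
  have hone : ∑ C : ConjClasses G, blockCoeff B (rep C) * centralChar (χ₀ : G → ℂ) (rep C)
      = 1 := by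
    rw [← block_orth B χ₀ hχ₀, sum_by_class (fun g : G => g) (blockCoeff B)
      (Cfsg.Agent.Lib.Helper77.BlockIdem.blockCoeff_conj B) _ rep hrep]
    apply Finset.sum_congr rfl
    intro C _
    congr 1
    have h2 : ∀ g ∈ Finset.univ.filter (fun g : G => IsConj (rep C) g),
        (χ₀ : G → ℂ) g / (χ₀ : G → ℂ) 1 = (χ₀ : G → ℂ) (rep C) / (χ₀ : G → ℂ) 1 := by
      intro g hg
      rw [Finset.mem_filter] at hg
      obtain ⟨x, hx⟩ := isConj_iff.1 hg.2
      rw [← hx, Cfsg.Agent.Lib.CT.Orth.irr_isClassFunction χ₀]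
    rw [Finset.sum_congr rfl h2, Finset.sum_const,
      Cfsg.Agent.Lib.Helper77.ClassSum.card_conj_eq_index, nsmul_eq_mul]
    unfold centralChar
    ring
  have hu1 : MemLocalIdeal M
      (∑ h : ↥H, blockCoeff B (h : G) * ((ζ : ↥H → ℂ) h / (ζ : ↥H → ℂ) 1) - 1) := by
    rw [hu_cls, ← hone, ← Finset.sum_sub_distrib]
    apply memLocalIdeal_sum hMp
    intro C _
    rw [← mul_sub]
    exact memLocalIdeal_mul_left hMp
      (Cfsg.Agent.Lib.Helper77.BlockIdem.blockCoeff_memLocalRing p M hM B hB _)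
      (hcong ζ hζ χ₀ hχ₀ _)
  -- numerics
  have hζpos : 0 < charDegree (ζ : ↥H → ℂ) := irr_charDegree_pos ζ.2
  have hidx : H.index ≠ 0 := Subgroup.index_ne_zero_of_finite
  have hN0 : H.index * charDegree (ζ : ↥H → ℂ) ≠ 0 := Nat.mul_ne_zero hidx hζpos.ne'
  have hnot := not_pow_dvd hp M hM _ _ hN0 _ hTN hu1
  rw [Nat.factorization_mul hidx hζpos.ne', Finsupp.add_apply] at hnot
  -- the minimum over B
  set mB := sInf ((fun χ : IrrCharacter G => (charDegree (χ : G → ℂ)).factorization p) '' B)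
    with hmB
  set mb := sInf ((fun χ : IrrCharacter ↥H => (charDegree (χ : ↥H → ℂ)).factorization p) '' b)
    with hmb
  have hmB_le : ∀ χ ∈ B, mB ≤ (charDegree (χ : G → ℂ)).factorization p := fun χ hχ =>
    Nat.sInf_le ⟨χ, hχ, rfl⟩
  have hmb_le : mb ≤ (charDegree (ζ : ↥H → ℂ)).factorization p := Nat.sInf_le ⟨ζ, hζ, rfl⟩
  have hmB_le_G : mB ≤ (Nat.card G).factorization p := by
    refine (hmB_le χ₀ hχ₀).trans ?_
    exact (Nat.factorization_le_iff_dvd (irr_charDegree_pos χ₀.2).ne' Nat.card_pos.ne').2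
      (Cfsg.Agent.Lib.Helper80.Integrality.charDegree_dvd_card χ₀) p
  have hζ_le_H : (charDegree (ζ : ↥H → ℂ)).factorization p ≤ (Nat.card ↥H).factorization p :=
    (Nat.factorization_le_iff_dvd hζpos.ne' Nat.card_pos.ne').2
      (Cfsg.Agent.Lib.Helper80.Integrality.charDegree_dvd_card ζ) p
  have hGH : (Nat.card G).factorization p =
      (Nat.card ↥H).factorization p + H.index.factorization p := by
    rw [← H.card_mul_index, Nat.factorization_mul Nat.card_pos.ne' hidx, Finsupp.add_apply]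
  have hmBeq : mB = H.index.factorization p + (charDegree (ζ : ↥H → ℂ)).factorization p := by
    unfold blockDefect at hdef
    unfold blockHeight at hζ0
    rw [← hmb] at hdef hζ0
    rw [← hmB] at hdef
    omega
  -- conclude by contradiction
  by_contra hcon
  apply hnot
  apply Finset.dvd_sum
  intro χ hχ
  rw [Finset.mem_filter] at hχ
  have hχB := hχ.2
  have hχpos : 0 < charDegree (χ : G → ℂ) := irr_charDegree_pos χ.2
  have hpow : p ^ ((charDegree (χ : G → ℂ)).factorization p) ∣ charDegree (χ : G → ℂ) :=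
    Nat.ordProj_dvd _ _
  by_cases hlt : mB < (charDegree (χ : G → ℂ)).factorization p
  · apply Dvd.dvd.mul_left
    refine dvd_trans (pow_dvd_pow p ?_) hpow
    omega
  · have heq : (charDegree (χ : G → ℂ)).factorization p = mB := by
      have := hmB_le χ hχB
      omega
    have hpa : p ∣ a χ := by
      by_contra hpa
      apply hcon
      refine ⟨χ, hχB, ?_, a χ, ha χ, hpa⟩
      unfold blockHeight
      rw [← hmB]
      omega
    rw [pow_succ, mul_comm (p ^ _) p, ← hmBeq, ← heq]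
    exact mul_dvd_mul hpa hpow

end Cfsg.Agent.S4725
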