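import Cfsg.Statements.S4726
import Cfsg.Agent.Lib.Helper16.BPLocal2

set_option autoImplicit false
open Cfsg

namespace Cfsg.Agent.S4726

/-- Let p be a prime, M a maximal ideal of the algebraic integers containing p, H a subgroup of the finite group G and b a p-block of H with defect group D₀ such that C_G(D₀) ≤ H. Then b induces a block of G, and for every block B of G induced by b there is a defect group D of B with Z(D) ≤ Z(D₀) ≤ D₀ ≤ D (as subgroups of G). In particular, if the defect groups of B are abelian then D₀ is a defect group of B. -/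
theorem result {G : Type*} [Group G] [Finite G] (p : ℕ) [Fact p.Prime] (M : Ideal Cfsg.AlgInt) (hM : Cfsg.IsPModular p M) (H : Subgroup G) (b : Set (Cfsg.IrrCharacter ↥H)) (hb : Cfsg.IsPBlock M b) (D₀ : Subgroup ↥H) (hD₀ : Cfsg.IsDefectGroup p M b D₀) (hC : Subgroup.centralizer ((D₀.map H.subtype : Subgroup G) : Set G) ≤ H) : Cfsg.InducedBlockDefined M H b ∧ ∀ B : Set (Cfsg.IrrCharacter G), Cfsg.IsInducedBlock M H b B → (∃ D : Subgroup G, Cfsg.IsDefectGroup p M B D ∧ (Subgroup.center ↥D).map D.subtype ≤ ((Subgroup.center ↥D₀).map D₀.subtype).map H.subtype ∧ ((Subgroup.center ↥D₀).map D₀.subtype).map H.subtype ≤ D₀.map H.subtype ∧ D₀.map H.subtype ≤ D) ∧ (∀ D : Subgroup G, Cfsg.IsDefectGroup p M B D → IsMulCommutative ↥D → Cfsg.IsDefectGroup p M B (D₀.map H.subtype)) := by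
  classical
  have hMp := Cfsg.Agent.Lib.Helper77.LocalRing.isPrime_of_isPModular hM
  obtain ⟨f, χ₀, hQf, hind₀, hpair, hdef⟩ :=
    Cfsg.Agent.Lib.Helper16.BPLocal2.exists_pair_of_local hM H b hb D₀ hD₀ hC
  refine ⟨⟨_, hind₀⟩, fun B hind => ?_⟩
  have hB := hind.2.1
  have hBQf := hpair B hind
  obtain ⟨c, hmax, hle⟩ := Cfsg.Agent.Lib.Helper77.BPConjMax.exists_maximal_above (p := p)
    (M := M) B _ ⟨D₀.map H.subtype, f⟩ ⟨D₀.map H.subtype, f⟩ hBQf Relation.ReflTransGen.refl rfl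
  have hD := Cfsg.Agent.Lib.Helper77.BPMax2.isDefectGroup_of_maximal hM hmax
  have hQD : D₀.map H.subtype ≤ c.1 := Cfsg.Agent.Lib.Helper77.BPNormal.le_of_subpairLE _ _ hle
  obtain ⟨Df, hDf, hDfle⟩ :=
    Cfsg.Agent.Lib.Helper77.BPCent.exists_defectGroup_ge_centralizer hM hmax.1.1 hle
  have hZ : (Subgroup.center ↥c.1).map c.1.subtype ≤
      ((Subgroup.center ↥D₀).map D₀.subtype).map H.subtype := by
    rintro _ ⟨x, hx, rfl⟩
    have hxC : (x : G) ∈ Subgroup.centralizer ((D₀.map H.subtype : Subgroup G) : Set G) := by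
      rw [Subgroup.mem_centralizer_iff]
      intro q hq
      have h1 := Subgroup.mem_center_iff.mp hx ⟨q, hQD hq⟩
      exact congrArg Subtype.val h1
    have h2 : (⟨(x : G), hxC⟩ : Subgroup.centralizer ((D₀.map H.subtype : Subgroup G) : Set G))
        ∈ Df := by
      apply hDfle
      rw [Subgroup.mem_subgroupOf]
      exact ⟨x.2, hxC⟩
    exact hdef Df hDf _ h2
  have hZ2 : ((Subgroup.center ↥D₀).map D₀.subtype).map H.subtype ≤ D₀.map H.subtype :=
    Subgroup.map_mono (Subgroup.map_subtype_le _)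
  refine ⟨⟨c.1, hD, hZ, hZ2, hQD⟩, ?_⟩
  intro D hDB hcomm
  obtain ⟨x, hx⟩ := Cfsg.Agent.Lib.Helper16.MinMax.defectGroup_conj hM B hB hDB hD
  have hcc : ∀ a ∈ c.1, ∀ a' ∈ c.1, a * a' = a' * a := by
    rw [hx]
    rintro _ ⟨a, ha, rfl⟩ _ ⟨a', ha', rfl⟩
    have h1 : (⟨a, ha⟩ : D) * ⟨a', ha'⟩ = ⟨a', ha'⟩ * ⟨a, ha⟩ := hcomm.is_comm.comm _ _
    have h2 : a * a' = a' * a := congrArg Subtype.val h1
    rw [← map_mul, ← map_mul, h2]
  have hle' : c.1 ≤ D₀.map H.subtype := by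
    intro a ha
    have h0 : (⟨a, ha⟩ : c.1) ∈ Subgroup.center ↥c.1 := by
      rw [Subgroup.mem_center_iff]
      intro g
      apply Subtype.ext
      exact hcc _ g.2 _ ha
    have h1 : a ∈ (Subgroup.center ↥c.1).map c.1.subtype := ⟨⟨a, ha⟩, h0, rfl⟩
    exact hZ2 (hZ h1)
  have heq : D₀.map H.subtype = c.1 := le_antisymm hQD hle'
  rw [heq]
  exact hD

end Cfsg.Agent.S4726
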