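import Cfsg.Statements.S4730
import Cfsg.Agent.Lib.CT.PairCount
import Cfsg.Agent.Lib.CT.Kernel
import Cfsg.Agent.Lib.Helper80.Burnside
import Cfsg.Agent.Lib.Helper16.LocalIdeal

set_option autoImplicit false
open Cfsg

namespace Cfsg.Agent.S4730

open Cfsg.Agent.Lib.CT.Wedderburn Cfsg.Agent.Lib.CT.PairCount Cfsg.Agent.Lib.Helper16.LocalIdeal

/-- Every member of the block of `χ` has degree divisible by the order of `Z(P)`. -/
theorem main_claim {G : Type*} [Group G] [Finite G] (p : ℕ) [Fact p.Prime] (M : Ideal Cfsg.AlgInt)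
    (hM : Cfsg.IsPModular p M) (hZ : Subgroup.center G = ⊥) (P : Sylow p G) (b : ℕ)
    (hb : Nat.card (Subgroup.center ↥(P : Subgroup G)) = p ^ b) (χ : Cfsg.IrrCharacter G)
    (hfaith : ∀ g : G, (χ : G → ℂ) g = (χ : G → ℂ) 1 → g = 1) (n : ℕ)
    (hdeg : Cfsg.charDegree (χ : G → ℂ) = p ^ n) (ψ : Cfsg.IrrCharacter G)
    (hψ : Cfsg.SameBlock M (χ : G → ℂ) (ψ : G → ℂ)) :
    p ^ b ∣ Cfsg.charDegree (ψ : G → ℂ) := by
  classical
  have hp : p.Prime := Fact.out
  have hMmax : M.IsMaximal := hM.2.1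
  let Zs : Subgroup G := (Subgroup.center ↥(P : Subgroup G)).map (P : Subgroup G).subtype
  have hZs : Nat.card Zs = p ^ b := by
    rw [← hb]
    exact Subgroup.card_map_of_injective (Subgroup.subtype_injective _)
  have := Fintype.ofFinite Zs
  -- each nontrivial element of Zs gives a term in the local ideal
  have hterm : ∀ z : G, z ∈ Zs → z ≠ 1 →
      MemLocalIdeal M ((ψ : G → ℂ) z / (ψ : G → ℂ) 1) := by
    intro z hz hz1
    obtain ⟨z', hz', rfl⟩ := hz
    have hle : (P : Subgroup G) ≤ Subgroup.centralizer ({(z' : G)} : Set G) := by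
      intro y hy
      rw [Subgroup.mem_centralizer_iff]
      intro w hw
      rw [Set.mem_singleton_iff] at hw
      subst hw
      have := Subgroup.mem_center_iff.mp hz' ⟨y, hy⟩
      have h2 := congrArg Subtype.val this
      simpa using h2.symm
    have hidx : ¬ p ∣ (Subgroup.centralizer ({(z' : G)} : Set G)).index := by
      intro h
      exact P.not_dvd_index (h.trans (Subgroup.index_dvd_of_le hle))
    have hcop : Nat.Coprime (Cfsg.charDegree (χ : G → ℂ))
        (Subgroup.centralizer ({(z' : G)} : Set G)).index := by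
      rw [hdeg]
      exact Nat.Coprime.pow_left n ((Nat.Prime.coprime_iff_not_dvd hp).mpr hidx)
    have hχz : (χ : G → ℂ) (z' : G) = 0 := by
      rcases Cfsg.Agent.Lib.Helper80.Burnside.irr_eq_zero_or_norm_eq_of_coprime χ (z' : G) hcop
        with h | h
      · exact h
      · exfalso
        have hc := Cfsg.Agent.Lib.CT.Kernel.mem_center_of_norm_eq (isCharacter_of_irr χ.2)
          hfaith h
        rw [hZ, Subgroup.mem_bot] at hc
        exact hz1 hc
    have h1 := hψ (z' : G)
    rw [centralChar, centralChar, hχz, mul_zero, zero_div, zero_sub] at h1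
    have h2 := mli_neg h1
    rw [neg_neg] at h2
    set idx := (Subgroup.centralizer ({(z' : G)} : Set G)).index with hidx_def
    have hidx0 : (idx : ℂ) ≠ 0 := by
      intro h0
      have : idx = 0 := by exact_mod_cast h0
      exact hidx (this ▸ dvd_zero p)
    have hidxring : MemLocalRing M (idx : ℂ) := memLocalRing_natCast hMmax idx
    have hidxnot : ¬ MemLocalIdeal M (idx : ℂ) := fun h =>
      hidx ((memLocalIdeal_natCast_iff hM idx).mp h)
    have h3 := mli_mul_right hMmax h2 (mlr_inv hidxring hidxnot)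
    have h4 : (idx : ℂ) * (ψ : G → ℂ) (z' : G) / (ψ : G → ℂ) 1 * (idx : ℂ)⁻¹ =
        (ψ : G → ℂ) (z' : G) / (ψ : G → ℂ) 1 := by
      field_simp
    rw [h4] at h3
    exact h3
  -- the sum over Zs
  obtain ⟨m, hm⟩ := char_sum_subgroup (isCharacter_of_irr ψ.2) Zs
  rw [hZs] at hm
  have hψ1 : (ψ : G → ℂ) 1 ≠ 0 := irr_apply_one_ne_zero ψ.2
  set u : ℂ := 1 + ∑ w ∈ (Finset.univ : Finset Zs).erase 1, (ψ : G → ℂ) (w : G) / (ψ : G → ℂ) 1
    with hu
  have hsumI : MemLocalIdeal M (∑ w ∈ (Finset.univ : Finset Zs).erase 1,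
      (ψ : G → ℂ) (w : G) / (ψ : G → ℂ) 1) := by
    apply mli_sum hMmax
    intro w hw
    apply hterm (w : G) w.2
    intro h1
    exact (Finset.mem_erase.mp hw).1 (Subtype.ext h1)
  have huring : MemLocalRing M u :=
    mlr_add hMmax (memLocalRing_one hMmax) (memLocalRing_of_memLocalIdeal hsumI)
  have hunot : ¬ MemLocalIdeal M u := by
    intro h
    have := mli_sub hMmax h hsumI
    rw [hu, add_sub_cancel_right] at this
    exact not_memLocalIdeal_one hMmax this
  have hdu : (Cfsg.charDegree (ψ : G → ℂ) : ℂ) * u = ((p ^ b : ℕ) : ℂ) * m := by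
    rw [← hm, ← Finset.add_sum_erase _ _ (Finset.mem_univ (1 : Zs)), hu,
      char_natCast_charDegree (isCharacter_of_irr ψ.2), mul_add, mul_one, Finset.mul_sum]
    congr 1
    refine Finset.sum_congr rfl fun w _ => ?_
    field_simp
  -- arithmetic
  obtain ⟨k, d', hd', hd⟩ := Nat.exists_eq_pow_mul_and_not_dvd (irr_charDegree_pos ψ.2).ne' p
    hp.ne_one
  rw [hd]
  by_cases hkb : b ≤ k
  · exact Dvd.dvd.mul_right (pow_dvd_pow p hkb) d'
  · exfalso
    push Not at hkb
    have hp0 : (p : ℂ) ≠ 0 := Nat.cast_ne_zero.mpr hp.ne_zero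
    have h5 : (d' : ℂ) * u = (p : ℂ) * ((p : ℂ) ^ (b - k - 1) * m) := by
      rw [hd] at hdu
      have hb' : b = k + (b - k - 1 + 1) := by omega
      have h6 : ((p ^ k * d' : ℕ) : ℂ) * u = ((p ^ b : ℕ) : ℂ) * m := hdu
      rw [hb'] at h6
      push_cast at h6
      have hpk : (p : ℂ) ^ k ≠ 0 := pow_ne_zero _ hp0
      apply mul_left_cancel₀ hpk
      rw [pow_add, pow_succ] at h6
      linear_combination h6
    have h7 : MemLocalIdeal M ((d' : ℂ) * u) := by
      rw [h5]
      exact mli_mul_right hMmax (memLocalIdeal_prime hM)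
        (mlr_mul hMmax (mlr_pow hMmax (memLocalRing_natCast hMmax p) _)
          (memLocalRing_natCast hMmax m))
    rcases mli_of_mul hMmax (memLocalRing_natCast hMmax d') huring h7 with h | h
    · exact hd' ((memLocalIdeal_natCast_iff hM d').mp h)
    · exact hunot h

/-- Let p be a prime, M a maximal ideal of the algebraic integers containing p, and G a finite group with trivial centre, Sylow p-subgroup P of order p^a and centre Z(P) of order p^b. If χ is a faithful irreducible character of G whose degree is a power of p, then the p-block of χ has defect at most a − b; in particular, if P is abelian then χ lies in a block of defect zero. -/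
theorem result {G : Type*} [Group G] [Finite G] (p : ℕ) [Fact p.Prime] (M : Ideal Cfsg.AlgInt) (hM : Cfsg.IsPModular p M) (hZ : Subgroup.center G = ⊥) (P : Sylow p G) (a b : ℕ) (ha : Nat.card P = p ^ a) (hb : Nat.card (Subgroup.center ↥(P : Subgroup G)) = p ^ b) (χ : Cfsg.IrrCharacter G) (hfaith : ∀ g : G, (χ : G → ℂ) g = (χ : G → ℂ) 1 → g = 1) (n : ℕ) (hdeg : Cfsg.charDegree (χ : G → ℂ) = p ^ n) : Cfsg.blockDefect p (Cfsg.blockOf M (χ : G → ℂ)) ≤ a - b ∧ (IsMulCommutative ↥(P : Subgroup G) → Cfsg.blockDefect p (Cfsg.blockOf M (χ : G → ℂ)) = 0) := by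
  have hp : p.Prime := Fact.out
  have hMmax : M.IsMaximal := hM.2.1
  have hGa : (Nat.card G).factorization p = a := by
    have h1 := P.card_eq_multiplicity
    have h2 : Nat.card (P : Subgroup G) = p ^ a := ha
    rw [h1] at h2
    exact Nat.pow_right_injective hp.two_le h2
  have hχB : χ ∈ Cfsg.blockOf M (χ : G → ℂ) := by
    show Cfsg.SameBlock M (χ : G → ℂ) (χ : G → ℂ)
    intro g
    rw [sub_self]
    exact memLocalIdeal_zero hMmax
  have hmain : ∀ ψ ∈ Cfsg.blockOf M (χ : G → ℂ),
      b ≤ (Cfsg.charDegree (ψ : G → ℂ)).factorization p := by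
    intro ψ hψ
    have := main_claim p M hM hZ P b hb χ hfaith n hdeg ψ hψ
    exact (hp.pow_dvd_iff_le_factorization (irr_charDegree_pos ψ.2).ne').mp this
  have hinf : b ≤ sInf ((fun ψ : Cfsg.IrrCharacter G =>
      (Cfsg.charDegree (ψ : G → ℂ)).factorization p) '' Cfsg.blockOf M (χ : G → ℂ)) := by
    have hne : ((fun ψ : Cfsg.IrrCharacter G =>
        (Cfsg.charDegree (ψ : G → ℂ)).factorization p) '' Cfsg.blockOf M (χ : G → ℂ)).Nonempty :=
      ⟨_, χ, hχB, rfl⟩
    obtain ⟨ψ, hψ, hψe⟩ := Nat.sInf_mem hne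
    rw [← hψe]
    exact hmain ψ hψ
  have hdef : Cfsg.blockDefect p (Cfsg.blockOf M (χ : G → ℂ)) ≤ a - b := by
    rw [Cfsg.blockDefect, hGa]
    exact Nat.sub_le_sub_left hinf a
  refine ⟨hdef, fun hcomm => ?_⟩
  have hcen : Subgroup.center ↥(P : Subgroup G) = ⊤ := by
    rw [eq_top_iff]
    intro z _
    rw [Subgroup.mem_center_iff]
    intro g
    exact hcomm.is_comm.comm g z
  have hba : b = a := by
    have h2 : Nat.card (P : Subgroup G) = p ^ a := ha
    rw [hcen, Subgroup.card_top, h2] at hb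
    exact (Nat.pow_right_injective hp.two_le hb).symm
  rw [hba] at hdef
  omega

end Cfsg.Agent.S4730
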