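import Cfsg.Statements.S4731
import Cfsg.Agent.Lib.Helper82.BlockProj

set_option autoImplicit false
open Cfsg

namespace Cfsg.Agent.S4731

open Cfsg.Agent.Lib.Helper82.Contrib
open Cfsg.Agent.Lib.Helper82.BlockDim
open Cfsg.Agent.Lib.Helper82.BlockProj
open Cfsg.Agent.Lib.Helper77.LocalRing

/-- A `finsum` over a set of a fintype as a filtered finite sum. -/
theorem finsum_mem_eq_sum_filter' {ι : Type*} [Fintype ι] {α : Type*} [AddCommMonoid α]
    (B : Set ι) [DecidablePred (· ∈ B)] (f : ι → α) :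
    ∑ᶠ χ ∈ B, f χ = ∑ χ ∈ Finset.univ.filter (· ∈ B), f χ := by
  rw [finsum_mem_def, finsum_eq_sum_of_fintype, Finset.sum_filter]
  refine Finset.sum_congr rfl fun χ _ => ?_
  by_cases h : χ ∈ B <;> simp [h]

/-- In a group without elements of order `pq`, a `p`-singular element is `q`-regular. -/
theorem not_dvd_of_dvd {G : Type*} [Group G] [Finite G] (p q : ℕ) [Fact p.Prime] [Fact q.Prime]
    (hpq : p ≠ q) (hno : ∀ g : G, orderOf g ≠ p * q) (x : G) (hx : p ∣ orderOf x) :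
    ¬ q ∣ orderOf x := by
  have hpp : p.Prime := Fact.out
  have hqq : q.Prime := Fact.out
  intro hq
  have hcop : Nat.Coprime p q := (Nat.coprime_primes hpp hqq).2 hpq
  obtain ⟨m, hm⟩ := hcop.mul_dvd_of_dvd_of_dvd hx hq
  have hx0 : orderOf x ≠ 0 := (orderOf_pos x).ne'
  have hm0 : m ≠ 0 := by
    rintro rfl
    rw [mul_zero] at hm
    exact hx0 hm
  have h1 : orderOf (x ^ m) = orderOf x / m :=
    orderOf_pow_of_dvd hm0 ⟨p * q, by rw [hm]; ring⟩
  apply hno (x ^ m)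
  rw [h1, hm, Nat.mul_div_cancel _ (Nat.pos_of_ne_zero hm0)]

/-- Let p ≠ q be primes, M_p and M_q maximal ideals of the algebraic integers containing p and q respectively, and G a finite group with no element of order pq; let q^b be the q-part of the order of G. For a p-block B_p (relative to M_p), a q-block B_q (relative to M_q) and a p-singular element y, the sum of χ(1)χ(y) over the irreducible characters χ lying in both B_p and B_q is q^b times an algebraic integer. -/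
theorem result {G : Type*} [Group G] [Finite G] (p q : ℕ) [Fact p.Prime] [Fact q.Prime] (hpq : p ≠ q) (Mp Mq : Ideal Cfsg.AlgInt) (hMp : Cfsg.IsPModular p Mp) (hMq : Cfsg.IsPModular q Mq) (hno : ∀ g : G, orderOf g ≠ p * q) (b : ℕ) (hb : (Nat.card G).factorization q = b) (Bp : Set (Cfsg.IrrCharacter G)) (hBp : Cfsg.IsPBlock Mp Bp) (Bq : Set (Cfsg.IrrCharacter G)) (hBq : Cfsg.IsPBlock Mq Bq) (y : G) (hy : p ∣ orderOf y) : ∃ ω : Cfsg.AlgInt, ∑ᶠ χ ∈ Bp ∩ Bq, (Cfsg.charDegree (χ : G → ℂ) : ℂ) * (χ : G → ℂ) y = (q : ℂ) ^ b * (ω : ℂ) := by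
  classical
  have hpp : p.Prime := Fact.out
  have hqq : q.Prime := Fact.out
  have : Fintype G := Fintype.ofFinite G
  have := Cfsg.Agent.Lib.CT.Wedderburn.finite_irrCharacter G
  have : Fintype (IrrCharacter G) := Fintype.ofFinite _
  obtain ⟨Q⟩ : Nonempty (Sylow q G) := inferInstance
  have : Fintype (Q : Subgroup G) := Fintype.ofFinite _
  have hqb : ((q : ℂ) ^ b) ≠ 0 := pow_ne_zero _ (Nat.cast_ne_zero.2 hqq.ne_zero)
  have hqb' : ((q ^ (Nat.card G).factorization q : ℕ) : ℂ) = (q : ℂ) ^ b := by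
    rw [hb]
    push_cast
    rfl
  -- the coefficients
  obtain ⟨c, hc⟩ : ∃ c : IrrCharacter G → ℂ, c = fun ψ => if ψ ∈ Bq then
      (zz q Q ψ : ℂ) - (charDegree (ψ : G → ℂ) : ℂ) / (q : ℂ) ^ b else 0 := ⟨_, rfl⟩
  have hF : ∀ x : G, p ∣ orderOf x → ∑ ψ : IrrCharacter G, c ψ * (ψ : G → ℂ) x = 0 := by
    intro x hx
    have hxq : ¬ q ∣ orderOf x := not_dvd_of_dvd p q hpq hno x hx
    have h1 := block_sum_eq_tw q Q hMq Bq hBq x
    rw [hqb'] at h1
    have h2 : ∑ ψ : IrrCharacter G, c ψ * (ψ : G → ℂ) x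
        = ∑ ψ ∈ Finset.univ.filter (· ∈ Bq), ((zz q Q ψ : ℂ)
          - (charDegree (ψ : G → ℂ) : ℂ) / (q : ℂ) ^ b) * (ψ : G → ℂ) x := by
      rw [Finset.sum_filter]
      refine Finset.sum_congr rfl fun ψ _ => ?_
      rw [hc]
      by_cases hψ : ψ ∈ Bq
      · simp only [if_pos hψ]
      · simp only [if_neg hψ, zero_mul]
    rw [h2]
    apply mul_left_cancel₀ hqb
    rw [mul_zero, Finset.mul_sum]
    have h3 : ∑ ψ ∈ Finset.univ.filter (· ∈ Bq), (q : ℂ) ^ b * (((zz q Q ψ : ℂ)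
        - (charDegree (ψ : G → ℂ) : ℂ) / (q : ℂ) ^ b) * (ψ : G → ℂ) x)
        = ∑ ψ ∈ Finset.univ.filter (· ∈ Bq), (zz q Q ψ : ℂ)
            * tw q ((q : ℂ) ^ b) (ψ : G → ℂ) x
          - ∑ ψ ∈ Finset.univ.filter (· ∈ Bq), (charDegree (ψ : G → ℂ) : ℂ)
            * (ψ : G → ℂ) x := by
      rw [← Finset.sum_sub_distrib]
      refine Finset.sum_congr rfl fun ψ _ => ?_
      rw [tw_apply, if_neg hxq]
      field_simp
    rw [h3, h1, sub_self]
  have h4 := block_part_vanish p hMp c hF Bp hBp y hy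
  -- restrict to the intersection
  have h5 : ∑ ψ ∈ Finset.univ.filter (· ∈ Bp), c ψ * (ψ : G → ℂ) y
      = ∑ ψ ∈ Finset.univ.filter (· ∈ Bp ∩ Bq), ((zz q Q ψ : ℂ)
          - (charDegree (ψ : G → ℂ) : ℂ) / (q : ℂ) ^ b) * (ψ : G → ℂ) y := by
    have h6 : Finset.univ.filter (· ∈ Bp ∩ Bq)
        = (Finset.univ.filter (· ∈ Bp)).filter (· ∈ Bq) := by
      ext ψ
      simp only [Finset.mem_filter, Finset.mem_univ, true_and, Set.mem_inter_iff]
    rw [h6]
    conv_rhs => rw [Finset.sum_filter]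
    refine Finset.sum_congr rfl fun ψ _ => ?_
    rw [hc]
    by_cases hψ : ψ ∈ Bq
    · simp only [if_pos hψ]
    · simp only [if_neg hψ, zero_mul]
  rw [h5] at h4
  have hint : IsIntegral ℤ (∑ ψ ∈ Finset.univ.filter (· ∈ Bp ∩ Bq),
      (zz q Q ψ : ℂ) * (ψ : G → ℂ) y) := by
    apply IsIntegral.sum
    intro ψ _
    exact IsIntegral.mul (isIntegral_natCast _)
      (Cfsg.Agent.Lib.Helper80.Integrality.isIntegral_irrCharacter ψ y)
  refine ⟨⟨_, hint⟩, ?_⟩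
  rw [finsum_mem_eq_sum_filter']
  show _ = (q : ℂ) ^ b * ∑ ψ ∈ Finset.univ.filter (· ∈ Bp ∩ Bq),
      (zz q Q ψ : ℂ) * (ψ : G → ℂ) y
  have h7 : ∑ ψ ∈ Finset.univ.filter (· ∈ Bp ∩ Bq), ((zz q Q ψ : ℂ)
      - (charDegree (ψ : G → ℂ) : ℂ) / (q : ℂ) ^ b) * (ψ : G → ℂ) y
      = ∑ ψ ∈ Finset.univ.filter (· ∈ Bp ∩ Bq), (zz q Q ψ : ℂ) * (ψ : G → ℂ) y
        - (∑ ψ ∈ Finset.univ.filter (· ∈ Bp ∩ Bq), (charDegree (ψ : G → ℂ) : ℂ)
          * (ψ : G → ℂ) y) / (q : ℂ) ^ b := by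
    rw [Finset.sum_div, ← Finset.sum_sub_distrib]
    refine Finset.sum_congr rfl fun ψ _ => ?_
    ring
  rw [h7] at h4
  have h8 := sub_eq_zero.1 h4
  rw [h8]
  field_simp

end Cfsg.Agent.S4731
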