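import Cfsg.Statements.S4733
import Cfsg.Agent.Lib.CT.DefectZeroBlock
import Cfsg.Agent.Lib.CT.WBO
import Cfsg.Agent.Lib.Helper75.BlockRank

set_option autoImplicit false
open Cfsg

namespace Cfsg.Agent.S4733

open Cfsg.Agent.Lib.Helper77.LocalRing Cfsg.Agent.Lib.CT.Wedderburn
open Cfsg.Agent.Lib.CT.DefectZeroBlock
open scoped ComplexConjugate

universe u

/-- The rank is at most the number of characters. -/
theorem rank_le {G : Type u} [Group G] [Finite G] (p : ℕ) (B : Set (IrrCharacter G)) :
    blockRank p B ≤ Nat.card B := by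
  classical
  have hfi : Finite (IrrCharacter G) := finite_irrCharacter G
  have hFB : Fintype ↥B := Fintype.ofFinite _
  unfold blockRank
  rw [Set.image_eq_range, Nat.card_eq_fintype_card]
  exact finrank_range_le_card (fun i : ↥B => pRegularPart p ((i : IrrCharacter G) : G → ℂ))

theorem pRegularPart_one {G : Type u} [Group G] (p : ℕ) [hp : Fact p.Prime] (f : G → ℂ) :
    pRegularPart p f 1 = f 1 := by
  unfold pRegularPart IsPRegular
  rw [orderOf_one, if_pos]
  exact hp.out.one_lt.ne' ∘ Nat.dvd_one.mp

/-- Defect zero gives a single character and rank one. -/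
theorem of_defect_zero {G : Type u} [Group G] [Finite G] (p : ℕ) [Fact p.Prime]
    (M : Ideal AlgInt) (hM : IsPModular p M) (B : Set (IrrCharacter G)) (hB : IsPBlock M B)
    (h0 : blockDefect p B = 0) : Nat.card B = 1 ∧ blockRank p B = 1 := by
  classical
  have hMp : M.IsPrime := isPrime_of_isPModular hM
  obtain ⟨χ, hχ⟩ := isPBlock_nonempty hMp hB
  have h1 := (blockDefect_eq_zero_iff p B ⟨χ, hχ⟩).1 h0 χ hχ
  have hBeq : B = {χ} := by
    rw [eq_blockOf_of_mem hMp hB hχ]
    exact blockOf_eq_singleton_of_defect_zero hM χ h1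
  subst hBeq
  refine ⟨by simp, ?_⟩
  unfold blockRank
  rw [Set.image_singleton]
  apply finrank_span_singleton
  intro hz
  have h2 := congrFun hz 1
  rw [pRegularPart_one] at h2
  have h3 := irr_charDegree_pos χ.2
  unfold charDegree at h3
  rw [show ((χ : G → ℂ) 1) = 0 from h2] at h3
  simp at h3

/-- Equality of the two numbers forces defect zero. -/
theorem defect_zero_of_eq {G : Type u} [Group G] [Finite G] (p : ℕ) [Fact p.Prime]
    (M : Ideal AlgInt) (hM : IsPModular p M) (B : Set (IrrCharacter G)) (hB : IsPBlock M B)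
    (heq : Nat.card B = blockRank p B) : blockDefect p B = 0 := by
  classical
  have hMp : M.IsPrime := isPrime_of_isPModular hM
  have hfi : Finite (IrrCharacter G) := finite_irrCharacter G
  have hFB : Fintype ↥B := Fintype.ofFinite _
  obtain ⟨χ₁, hχ₁⟩ := isPBlock_nonempty hMp hB
  rw [blockDefect_eq_zero_iff p B ⟨χ₁, hχ₁⟩]
  intro χ₀ hχ₀
  by_contra hne
  -- a `p`-singular element where `χ₀` does not vanish
  have hex : ∃ y : G, p ∣ orderOf y ∧ (χ₀ : G → ℂ) y ≠ 0 := by
    by_contra hcon
    push Not at hcon
    exact hne (factorization_eq_of_vanish_singular χ₀ hcon)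
  obtain ⟨y, hy, hχy⟩ := hex
  -- linear independence from the equality of the numbers
  have hli : LinearIndependent ℂ
      (fun i : ↥B => pRegularPart p ((i : IrrCharacter G) : G → ℂ)) := by
    rw [linearIndependent_iff_card_eq_finrank_span]
    unfold blockRank at heq
    rw [Set.image_eq_range, Nat.card_eq_fintype_card] at heq
    exact heq
  rw [Fintype.linearIndependent_iff] at hli
  have hrel : ∑ i : ↥B, conj (((i : IrrCharacter G) : G → ℂ) y) •
      pRegularPart p ((i : IrrCharacter G) : G → ℂ) = 0 := by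
    funext x
    rw [Finset.sum_apply]
    simp only [Pi.smul_apply, smul_eq_mul, Pi.zero_apply]
    by_cases hx : IsPRegular p x
    · have hw := Cfsg.Agent.Lib.CT.WBO.weak_block_orthogonality p M hM B hB x y hx hy
      rw [finsum_mem_eq_finite_toFinset_sum _ (Set.toFinite B)] at hw
      rw [← hw, ← Finset.sum_subtype (s := (Set.toFinite B).toFinset) (p := fun χ => χ ∈ B)
        (fun χ => by simp)
        (fun χ : IrrCharacter G => conj ((χ : G → ℂ) y) * pRegularPart p (χ : G → ℂ) x)]
      apply Finset.sum_congr rfl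
      intro χ _
      unfold pRegularPart
      rw [if_pos hx, mul_comm]
    · apply Finset.sum_eq_zero
      intro i _
      unfold pRegularPart
      rw [if_neg hx, mul_zero]
  have h4 := hli _ hrel ⟨χ₀, hχ₀⟩
  simp only [map_eq_zero] at h4
  exact hχy h4

/-- Let p be a prime, M a maximal ideal of the algebraic integers containing p, and B a p-block of the finite group G with k irreducible characters and p-regular rank l (the number of irreducible Brauer characters). Then l ≤ k, and the following are equivalent: B has defect 0; k = l = 1; k = l. -/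
theorem result {G : Type*} [Group G] [Finite G] (p : ℕ) [Fact p.Prime] (M : Ideal Cfsg.AlgInt) (hM : Cfsg.IsPModular p M) (B : Set (Cfsg.IrrCharacter G)) (hB : Cfsg.IsPBlock M B) : Cfsg.blockRank p B ≤ Nat.card B ∧ (Cfsg.blockDefect p B = 0 ↔ (Nat.card B = 1 ∧ Cfsg.blockRank p B = 1)) ∧ (Cfsg.blockDefect p B = 0 ↔ Nat.card B = Cfsg.blockRank p B) := by
  refine ⟨rank_le p B, ⟨fun h => of_defect_zero p M hM B hB h, fun h => ?_⟩,
    ⟨fun h => ?_, fun h => defect_zero_of_eq p M hM B hB h⟩⟩
  · exact defect_zero_of_eq p M hM B hB (by rw [h.1, h.2])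
  · obtain ⟨h1, h2⟩ := of_defect_zero p M hM B hB h
    rw [h1, h2]

end Cfsg.Agent.S4733
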