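-- Statement S4955.
import Cfsg.Statements.S4955
import Cfsg.Agent.Lib.Helper82.CommPairs
import Cfsg.Agent.Lib.Helper82.FourierCount

set_option autoImplicit false
open Cfsg

namespace Cfsg.Agent.S4955

open Cfsg.Agent.Lib.Helper82.CommPairs
open Cfsg.Agent.Lib.Helper82

theorem mem_inf_centralizer {X : Type*} [Group X] (G : Subgroup X) (x g : X) :
    g ∈ G ⊓ Subgroup.centralizer ({x} : Set X) ↔ g ∈ G ∧ g * x * g⁻¹ = x := by
  rw [Subgroup.mem_inf, Subgroup.mem_centralizer_iff]
  constructor
  · rintro ⟨h1, h2⟩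
    refine ⟨h1, ?_⟩
    rw [← h2 x rfl, mul_inv_cancel_right]
  · rintro ⟨h1, h2⟩
    refine ⟨h1, ?_⟩
    intro y hy
    rw [Set.mem_singleton_iff] at hy
    subst hy
    conv_lhs => rw [← h2]
    group

/-- Let X be a finite group with an abelian normal Sylow p-subgroup V (a normal p-subgroup of index prime to p in which any two elements commute), and let G be a complement to V in X. Then for every v in V, writing C for the centralizer of v in G, the number k(X) of conjugacy classes of X satisfies k(X) ≤ (order of C)·(order of V) − ((order of G) − k(G)); the statement is written with the subtracted term moved to the left. In particular, if some v in V is centralized by no nonidentity element of G, then k(X) is at most the order of V. -/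
theorem result {X : Type*} [Group X] [Finite X] (p : ℕ) [Fact p.Prime] (V : Subgroup X) [V.Normal] (hVp : IsPGroup p V) (hidx : ¬ p ∣ V.index) (hab : ∀ a ∈ V, ∀ b ∈ V, a * b = b * a) (G : Subgroup X) (hGV : Subgroup.IsComplement' V G) (v : X) (hv : v ∈ V) : Nat.card (ConjClasses X) + Nat.card G ≤ Nat.card ↥(G ⊓ Subgroup.centralizer ({v} : Set X)) * Nat.card V + Nat.card (ConjClasses G) := by
  classical
  have : Fintype X := Fintype.ofFinite X
  letI := commGroupOfAb V hab
  have : Fintype G := Fintype.ofFinite G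
  have hp : p.Prime := Fact.out
  let ρ := conjEnd V G hab
  have happ : ∀ (k : G) (u : V), ρ k (Additive.ofMul u) =
      Additive.ofMul (⟨(k : X) * u * (k : X)⁻¹, Subgroup.Normal.conj_mem inferInstance _ u.2 _⟩ : V) := by
    intro k u
    rfl
  let F : G × G → ℕ := fun q => Nat.card {ψ : AddChar (Additive V) ℂ //
    (∀ a, ψ (ρ q.1 a) = ψ a) ∧ (∀ a, ψ (ρ q.2 a) = ψ a)}
  have hFpos : ∀ q, 1 ≤ F q := by
    intro q
    have : Nonempty {ψ : AddChar (Additive V) ℂ //
        (∀ a, ψ (ρ q.1 a) = ψ a) ∧ (∀ a, ψ (ρ q.2 a) = ψ a)} :=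
      ⟨⟨0, by simp, by simp⟩⟩
    exact Nat.card_pos
  -- Step 1: commuting pairs of X
  have h1 := card_comm_of_complement V G hGV
  rw [card_comm_eq_card_conjClasses_mul_card] at h1
  have h2 : ∀ q : G × G, Nat.card {w : V × V // Commute q.1 q.2 ∧
      (w.1 : X) * ((q.1 : X) * w.2 * (q.1 : X)⁻¹) = w.2 * ((q.2 : X) * w.1 * (q.2 : X)⁻¹)} =
      Nat.card V * (if Commute q.1 q.2 then F q else 0) := by
    intro q
    by_cases hq : Commute q.1 q.2
    · simp only [hq, true_and, if_true]
      have e1 : Nat.card {w : V × V // (w.1 : X) * ((q.1 : X) * w.2 * (q.1 : X)⁻¹) =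
          w.2 * ((q.2 : X) * w.1 * (q.2 : X)⁻¹)} =
          Nat.card {x : Additive V × Additive V // x.1 + ρ q.1 x.2 = x.2 + ρ q.2 x.1} := by
        apply Nat.card_congr
        refine Equiv.subtypeEquiv (Equiv.prodCongr Additive.ofMul Additive.ofMul) ?_
        rintro ⟨a, b⟩
        simp only [Equiv.prodCongr_apply, Prod.map_apply, happ]
        rw [← ofMul_mul, ← ofMul_mul, Additive.ofMul.apply_eq_iff_eq, Subtype.ext_iff]
        simp
      rw [e1, FourierCount.card_pairs_eq (ρ q.1) (ρ q.2), Nat.card_congr (Additive.toMul (α := V))]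
    · simp [hq]
  rw [finsum_congr h2, finsum_eq_sum_of_fintype, ← Finset.mul_sum, ← hGV.card_mul_card,
    mul_comm (Nat.card (ConjClasses X)), mul_assoc] at h1
  have hVpos : 0 < Nat.card V := Nat.card_pos
  have hA : Nat.card G * Nat.card (ConjClasses X) = ∑ q : G × G, if Commute q.1 q.2 then F q else 0 :=
    Nat.eq_of_mul_eq_mul_left hVpos h1
  -- commuting pairs of G
  have hB : Nat.card (ConjClasses G) * Nat.card G = ∑ q : G × G, if Commute q.1 q.2 then 1 else 0 := by
    rw [← card_comm_eq_card_conjClasses_mul_card, Nat.card_eq_fintype_card, Fintype.card_subtype,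
      Finset.card_filter]
  have hG2 : Nat.card G * Nat.card G = ∑ _q : G × G, 1 := by
    simp [Nat.card_eq_fintype_card]
  -- double counting
  have hD : ∑ q : G × G, F q = ∑ ψ : AddChar (Additive V) ℂ, Nat.card (FourierCount.stab ρ ψ) ^ 2 := by
    let Q : G × G → AddChar (Additive V) ℂ → Prop := fun q ψ =>
      (∀ a, ψ (ρ q.1 a) = ψ a) ∧ (∀ a, ψ (ρ q.2 a) = ψ a)
    have e1 : ∑ q : G × G, F q = ∑ ψ : AddChar (Additive V) ℂ, Nat.card {q : G × G // Q q ψ} := by
      show ∑ q : G × G, Nat.card {ψ : AddChar (Additive V) ℂ // Q q ψ} = _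
      rw [← Nat.card_sigma, ← Nat.card_sigma,
        ← Nat.card_congr (Equiv.subtypeProdEquivSigmaSubtype Q),
        ← Nat.card_congr (Equiv.subtypeProdEquivSigmaSubtype (fun ψ q => Q q ψ))]
      exact Nat.card_congr (Equiv.subtypeEquiv (Equiv.prodComm _ _) (fun _ => Iff.rfl))
    rw [e1]
    apply Finset.sum_congr rfl
    intro ψ _
    have e2 : Nat.card {q : G × G // Q q ψ} =
        Nat.card ({g : G // g ∈ FourierCount.stab ρ ψ} × {g : G // g ∈ FourierCount.stab ρ ψ}) :=
      Nat.card_congr (Equiv.subtypeProdEquivProd (p := fun g : G => g ∈ FourierCount.stab ρ ψ)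
        (q := fun g : G => g ∈ FourierCount.stab ρ ψ))
    rw [e2, Nat.card_prod, sq]
  -- the main inequality
  obtain ⟨k, hk⟩ := hVp.exists_card_eq
  have hpG : ¬ p ∣ Fintype.card G := by
    have h3 : Nat.card G = V.index := by
      have h4 := hGV.card_mul_card
      have h5 := V.card_mul_index
      rw [← h5] at h4
      exact Nat.eq_of_mul_eq_mul_left hVpos h4
    rw [← Nat.card_eq_fintype_card, h3]
    exact hidx
  have hv0 : p ^ k • (Additive.ofMul (⟨v, hv⟩ : V)) = 0 := by
    rw [← hk]
    have : Nat.card V = Nat.card (Additive V) := Nat.card_congr Additive.ofMul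
    rw [this]
    exact card_nsmul_eq_zero'
  have hM := FourierCount.main_ineq ρ p k hp hpG (Additive.ofMul (⟨v, hv⟩ : V)) hv0
  have hC : (Finset.univ.filter (fun g : G => ρ g (Additive.ofMul (⟨v, hv⟩ : V)) =
      Additive.ofMul (⟨v, hv⟩ : V))).card = Nat.card ↥(G ⊓ Subgroup.centralizer ({v} : Set X)) := by
    rw [← Fintype.card_subtype, ← Nat.card_eq_fintype_card]
    apply Nat.card_congr
    refine
      { toFun := fun g => ⟨g.1.1, (mem_inf_centralizer G v _).2 ⟨g.1.2, ?_⟩⟩
        invFun := fun x => ⟨⟨x.1, ((mem_inf_centralizer G v _).1 x.2).1⟩, ?_⟩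
        left_inv := fun g => rfl
        right_inv := fun x => rfl }
    · have := g.2
      rw [happ, Additive.ofMul.apply_eq_iff_eq, Subtype.ext_iff] at this
      exact this
    · rw [happ, Additive.ofMul.apply_eq_iff_eq, Subtype.ext_iff]
      exact ((mem_inf_centralizer G v _).1 x.2).2
  rw [hC, Nat.card_congr (Additive.toMul (α := V)), ← Nat.card_eq_fintype_card] at hM
  -- assemble
  have hterm : ∑ q : G × G, ((if Commute q.1 q.2 then F q else 0) + 1) ≤
      ∑ q : G × G, (F q + (if Commute q.1 q.2 then 1 else 0)) := by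
    apply Finset.sum_le_sum
    intro q _
    have := hFpos q
    split_ifs <;> omega
  rw [Finset.sum_add_distrib, Finset.sum_add_distrib, ← hA, ← hG2, hD, ← hB] at hterm
  have hfin : Nat.card G * (Nat.card (ConjClasses X) + Nat.card G) ≤
      Nat.card G * (Nat.card ↥(G ⊓ Subgroup.centralizer ({v} : Set X)) * Nat.card V +
        Nat.card (ConjClasses G)) := by
    calc Nat.card G * (Nat.card (ConjClasses X) + Nat.card G)
        = Nat.card G * Nat.card (ConjClasses X) + Nat.card G * Nat.card G := by ring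
      _ ≤ ∑ ψ : AddChar (Additive V) ℂ, Nat.card (FourierCount.stab ρ ψ) ^ 2 +
            Nat.card (ConjClasses G) * Nat.card G := hterm
      _ ≤ Nat.card V * Nat.card G * Nat.card ↥(G ⊓ Subgroup.centralizer ({v} : Set X)) +
            Nat.card (ConjClasses G) * Nat.card G := Nat.add_le_add_right hM _
      _ = _ := by ring
  exact Nat.le_of_mul_le_mul_left hfin Nat.card_pos

end Cfsg.Agent.S4955
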