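-- Statement S4956.
import Cfsg.Statements.S4956
import Cfsg.Agent.Lib.Helper82.CommPairs

set_option autoImplicit false
open Cfsg

namespace Cfsg.Agent.S4956

open Cfsg.Agent.Lib.Helper82.CommPairs

theorem card_conjClasses_congr {H₁ H₂ : Type*} [Group H₁] [Group H₂] [Finite H₁] [Finite H₂]
    (e : H₁ ≃* H₂) : Nat.card (ConjClasses H₁) = Nat.card (ConjClasses H₂) := by
  apply le_antisymm
  · exact Nat.card_le_card_of_surjective (ConjClasses.map e.symm.toMonoidHom)
      (ConjClasses.map_surjective e.symm.surjective)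
  · exact Nat.card_le_card_of_surjective (ConjClasses.map e.toMonoidHom)
      (ConjClasses.map_surjective e.surjective)

/-- the point stabilizer in `G` -/
abbrev stab {X : Type*} [Group X] (G : Subgroup X) (x : X) : Subgroup X :=
  G ⊓ Subgroup.centralizer ({x} : Set X)

theorem mem_stab {X : Type*} [Group X] (G : Subgroup X) (x g : X) :
    g ∈ stab G x ↔ g ∈ G ∧ g * x * g⁻¹ = x := by
  rw [stab, Subgroup.mem_inf, Subgroup.mem_centralizer_iff]
  constructor
  · rintro ⟨h1, h2⟩
    refine ⟨h1, ?_⟩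
    rw [← h2 x rfl, mul_inv_cancel_right]
  · rintro ⟨h1, h2⟩
    refine ⟨h1, ?_⟩
    intro y hy
    rw [Set.mem_singleton_iff] at hy
    subst hy
    conv_lhs => rw [← h2]
    group

/-- conjugate points have conjugate stabilizers -/
noncomputable def stabConj {X : Type*} [Group X] (G : Subgroup X) (x a : X) (ha : a ∈ G) :
    ↥(stab G x) ≃* ↥(stab G (a * x * a⁻¹)) where
  toFun g := ⟨a * g * a⁻¹, by
    have hg := (mem_stab G x g).1 g.2
    rw [mem_stab]
    refine ⟨G.mul_mem (G.mul_mem ha hg.1) (G.inv_mem ha), ?_⟩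
    calc a * ↑g * a⁻¹ * (a * x * a⁻¹) * (a * ↑g * a⁻¹)⁻¹ = a * ((g : X) * x * (g : X)⁻¹) * a⁻¹ := by group
      _ = a * x * a⁻¹ := by rw [hg.2]⟩
  invFun g := ⟨a⁻¹ * g * a, by
    have hg := (mem_stab G _ g).1 g.2
    rw [mem_stab]
    refine ⟨G.mul_mem (G.mul_mem (G.inv_mem ha) hg.1) ha, ?_⟩
    calc a⁻¹ * ↑g * a * x * (a⁻¹ * ↑g * a)⁻¹ = a⁻¹ * ((g : X) * (a * x * a⁻¹) * (g : X)⁻¹) * a := by group
      _ = a⁻¹ * (a * x * a⁻¹) * a := by rw [hg.2]
      _ = x := by group⟩
  left_inv g := by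
    apply Subtype.ext
    simp only
    group
  right_inv g := by
    apply Subtype.ext
    simp only
    group
  map_mul' g h := by
    apply Subtype.ext
    simp only [Subgroup.coe_mul]
    group

theorem card_conjClasses_stab_conj {X : Type*} [Group X] [Finite X] (G : Subgroup X) (x a : X)
    (ha : a ∈ G) :
    Nat.card (ConjClasses ↥(stab G (a * x * a⁻¹))) = Nat.card (ConjClasses ↥(stab G x)) :=
  (card_conjClasses_congr (stabConj G x a ha)).symm

/-- commuting pairs of `G` fixing `x`, as commuting pairs of the stabilizer -/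
theorem card_comm_fix {X : Type*} [Group X] [Finite X] (G : Subgroup X) (x : X) :
    Nat.card {q : G × G // Commute q.1 q.2 ∧ (q.1 : X) * x * (q.1 : X)⁻¹ = x ∧
        (q.2 : X) * x * (q.2 : X)⁻¹ = x} =
      Nat.card ↥(stab G x) * Nat.card (ConjClasses ↥(stab G x)) := by
  rw [mul_comm, ← card_comm_eq_card_conjClasses_mul_card]
  apply Nat.card_congr
  refine
    { toFun := fun q => ⟨(⟨q.1.1, (mem_stab G x _).2 ⟨q.1.1.2, q.2.2.1⟩⟩,
          ⟨q.1.2, (mem_stab G x _).2 ⟨q.1.2.2, q.2.2.2⟩⟩), ?_⟩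
      invFun := fun p => ⟨(⟨p.1.1, ((mem_stab G x _).1 p.1.1.2).1⟩,
          ⟨p.1.2, ((mem_stab G x _).1 p.1.2.2).1⟩), ?_, ((mem_stab G x _).1 p.1.1.2).2,
          ((mem_stab G x _).1 p.1.2.2).2⟩
      left_inv := fun q => rfl
      right_inv := fun p => rfl }
  · have := q.2.1
    apply Subtype.ext
    have h := congrArg (fun z : G => (z : X)) this.eq
    simpa using h
  · have := p.2
    apply Subtype.ext
    have h := congrArg (fun z : ↥(stab G x) => (z : X)) this.eq
    simpa using h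

/-- fibre count for the conjugation map `G × S → V` -/
theorem card_fiber {X : Type*} [Group X] [Fintype X] [DecidableEq X] (V G : Subgroup X)
    [DecidablePred (· ∈ G)]
    (S : Finset X)
    (hrep : ∀ v ∈ V, ∃! s, s ∈ S ∧ ∃ g ∈ G, g * v * g⁻¹ = s) (x : X) (hx : x ∈ V) :
    (((Finset.univ.filter (· ∈ G)) ×ˢ S).filter (fun z => z.1 * z.2 * z.1⁻¹ = x)).card =
      Nat.card ↥(stab G x) := by
  classical
  obtain ⟨s₀, ⟨hs₀S, g₀, hg₀G, hg₀⟩, huniq⟩ := hrep x hx
  have hx' : g₀⁻¹ * s₀ * g₀ = x := by rw [← hg₀]; group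
  rw [Nat.card_eq_fintype_card,
    Fintype.card_of_subtype (Finset.univ.filter (· ∈ stab G x)) (by simp)]
  refine Finset.card_nbij' (fun z => z.1 * g₀) (fun c => (c * g₀⁻¹, s₀)) ?_ ?_ ?_ ?_
  · intro z hz
    simp only [Finset.coe_filter, Finset.mem_product, Finset.mem_filter, Finset.mem_univ,
      true_and, Set.mem_ofPred_eq] at hz ⊢
    obtain ⟨⟨hz1, hz2⟩, hz3⟩ := hz
    have hz2' : z.2 = s₀ := huniq z.2 ⟨hz2, z.1⁻¹, G.inv_mem hz1, by rw [← hz3]; group⟩
    rw [mem_stab]
    refine ⟨G.mul_mem hz1 hg₀G, ?_⟩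
    calc z.1 * g₀ * x * (z.1 * g₀)⁻¹ = z.1 * (g₀ * x * g₀⁻¹) * z.1⁻¹ := by group
      _ = x := by rw [hg₀, ← hz2', hz3]
  · intro c hc
    simp only [Finset.coe_filter, Finset.mem_product, Finset.mem_filter, Finset.mem_univ,
      true_and, Set.mem_ofPred_eq] at hc ⊢
    rw [mem_stab] at hc
    refine ⟨⟨G.mul_mem hc.1 (G.inv_mem hg₀G), hs₀S⟩, ?_⟩
    calc c * g₀⁻¹ * s₀ * (c * g₀⁻¹)⁻¹ = c * (g₀⁻¹ * s₀ * g₀) * c⁻¹ := by group
      _ = x := by rw [hx', hc.2]
  · intro z hz
    simp only [Finset.coe_filter, Finset.mem_product, Finset.mem_filter, Finset.mem_univ,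
      true_and, Set.mem_ofPred_eq] at hz
    obtain ⟨⟨hz1, hz2⟩, hz3⟩ := hz
    have hz2' : z.2 = s₀ := huniq z.2 ⟨hz2, z.1⁻¹, G.inv_mem hz1, by rw [← hz3]; group⟩
    apply Prod.ext
    · simp
    · exact hz2'.symm
  · intro c _
    simp

/-- Let X be a finite group, V an abelian normal subgroup of X (any two elements of V commute) and G a complement to V in X whose order is coprime to that of V. Let S be a set of representatives of the orbits of G on V under conjugation: S lies in V and every element of V is conjugate under G to exactly one member of S. Then the number of conjugacy classes of X equals the sum, over s in S, of the number of conjugacy classes of the centralizer of s in G. -/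
theorem result {X : Type*} [Group X] [Finite X] (V : Subgroup X) [V.Normal] (hab : ∀ a ∈ V, ∀ b ∈ V, a * b = b * a) (G : Subgroup X) (hGV : Subgroup.IsComplement' V G) (hcop : (Nat.card V).Coprime (Nat.card G)) (S : Finset X) (hSV : ∀ s ∈ S, s ∈ V) (hrep : ∀ v ∈ V, ∃! s, s ∈ S ∧ ∃ g ∈ G, g * v * g⁻¹ = s) : Nat.card (ConjClasses X) = ∑ s ∈ S, Nat.card (ConjClasses ↥(G ⊓ Subgroup.centralizer ({s} : Set X))) := by
  classical
  have := Fintype.ofFinite X
  have h1 := card_comm_of_complement V G hGV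
  rw [card_comm_eq_card_conjClasses_mul_card] at h1
  let P : G × G → V → Prop := fun q u => Commute q.1 q.2 ∧ (q.1 : X) * u * (q.1 : X)⁻¹ = u ∧
    (q.2 : X) * u * (q.2 : X)⁻¹ = u
  have h2 : ∀ q : G × G, Nat.card {w : V × V // Commute q.1 q.2 ∧
      (w.1 : X) * ((q.1 : X) * w.2 * (q.1 : X)⁻¹) = w.2 * ((q.2 : X) * w.1 * (q.2 : X)⁻¹)} =
      Nat.card V * Nat.card {u : V // P q u} := by
    intro q
    by_cases hq : Commute q.1 q.2
    · simp only [P, hq, true_and]
      exact count_pairs_mul V G hab hcop q.1 q.2 hq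
    · simp [P, hq]
  rw [finsum_congr h2, finsum_eq_sum_of_fintype, ← Finset.mul_sum] at h1
  have h3 : ∑ q : G × G, Nat.card {u : V // P q u} = ∑ u : V, Nat.card {q : G × G // P q u} := by
    rw [← Nat.card_sigma, ← Nat.card_sigma,
      ← Nat.card_congr (Equiv.subtypeProdEquivSigmaSubtype P),
      ← Nat.card_congr (Equiv.subtypeProdEquivSigmaSubtype (fun u q => P q u))]
    exact Nat.card_congr (Equiv.subtypeEquiv (Equiv.prodComm _ _) (fun _ => Iff.rfl))
  have h4 : ∀ u : V, Nat.card {q : G × G // P q u} =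
      Nat.card ↥(stab G (u : X)) * Nat.card (ConjClasses ↥(stab G (u : X))) :=
    fun u => card_comm_fix G u
  rw [h3, Fintype.sum_congr _ _ h4] at h1
  -- regroup along the conjugation map
  let Vf : Finset X := Finset.univ.filter (· ∈ V)
  let Gf : Finset X := Finset.univ.filter (· ∈ G)
  let K : X → ℕ := fun x => Nat.card (ConjClasses ↥(stab G x))
  have h5 : ∑ u : V, Nat.card ↥(stab G (u : X)) * Nat.card (ConjClasses ↥(stab G (u : X))) =
      ∑ x ∈ Vf, Nat.card ↥(stab G x) * K x :=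
    (Finset.sum_subtype Vf (by simp [Vf]) (fun x => Nat.card ↥(stab G x) * K x)).symm
  have h6 : ∑ x ∈ Vf, Nat.card ↥(stab G x) * K x =
      ∑ x ∈ Vf, ∑ z ∈ (Gf ×ˢ S).filter (fun z => z.1 * z.2 * z.1⁻¹ = x), K z.2 := by
    apply Finset.sum_congr rfl
    intro x hx
    have hxV : x ∈ V := by simpa [Vf] using hx
    rw [← card_fiber V G S hrep x hxV, ← smul_eq_mul, ← Finset.sum_const]
    apply Finset.sum_congr rfl
    intro z hz
    simp only [Gf, Finset.mem_filter, Finset.mem_product, Finset.mem_univ, true_and] at hz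
    obtain ⟨⟨hz1, hz2⟩, hz3⟩ := hz
    rw [← hz3]
    exact card_conjClasses_stab_conj G z.2 z.1 hz1
  have h7 : ∑ x ∈ Vf, ∑ z ∈ (Gf ×ˢ S).filter (fun z => z.1 * z.2 * z.1⁻¹ = x), K z.2 =
      ∑ z ∈ Gf ×ˢ S, K z.2 := by
    apply Finset.sum_fiberwise_of_maps_to
    intro z hz
    simp only [Finset.mem_filter, Finset.mem_product, Finset.mem_univ, true_and] at hz
    simp only [Vf, Finset.mem_filter, Finset.mem_univ, true_and]
    exact Subgroup.Normal.conj_mem inferInstance _ (hSV _ hz.2) _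
  have h8 : ∑ z ∈ Gf ×ˢ S, K z.2 = Nat.card G * ∑ s ∈ S, K s := by
    rw [Finset.sum_product]
    simp only [Finset.sum_const, smul_eq_mul]
    congr 1
    rw [Nat.card_eq_fintype_card, Fintype.card_of_subtype Gf (by simp [Gf])]
  rw [h5, h6, h7, h8, ← mul_assoc, ← hGV.card_mul_card, mul_comm] at h1
  have hpos : 0 < Nat.card V * Nat.card G := Nat.mul_pos Nat.card_pos Nat.card_pos
  exact Nat.eq_of_mul_eq_mul_left hpos h1

end Cfsg.Agent.S4956

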