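import Cfsg.Statements.S4958
-- import your own Cfsg.Agent.* helpers here
import Mathlib
import Cfsg.Agent.S0169
import Cfsg.Agent.S0660
import Cfsg.Agent.S4484
import Cfsg.Agent.Lib.Helper78.KnorrLattice
import Cfsg.Agent.Lib.Helper78.UnitaryRep
import Cfsg.Agent.Lib.Helper73.CoprimeAct
import Cfsg.Agent.Lib.Helper3.Orth
import Cfsg.Agent.Lib.Helper3.Card
import Cfsg.Agent.Lib.CT.Knorr
import Cfsg.Agent.Lib.CT.Wedderburn
import Cfsg.Agent.Lib.Helper77.LocalRing
import Cfsg.Agent.Lib.Helper77.IdemTrace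

set_option autoImplicit false
open Cfsg

namespace Cfsg.Agent.S4958

open Cfsg.Agent.Lib.Helper77.LocalRing
open Cfsg.Agent.Lib.Helper78
open Cfsg.Agent.Lib.Helper78.KnorrLattice
open scoped InnerProductSpace ComplexConjugate
open Module

universe u v

/-- Orthogonality of the powers of `p`-th roots of unity. -/
theorem root_orth (p : ℕ) (hp : 0 < p) (R : Finset ℂ) (hR : ∀ ζ ∈ R, ζ ^ p = 1) (a : ℂ → ℂ) :
    ∑ j ∈ Finset.range p, ‖∑ ζ ∈ R, ζ ^ j * a ζ‖ ^ 2 = (p : ℝ) * ∑ ζ ∈ R, ‖a ζ‖ ^ 2 := by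
  classical
  apply Complex.ofReal_injective
  push_cast
  have key : ∀ w : ℂ, ((‖w‖ : ℝ) : ℂ) ^ 2 = w * conj w := fun w => (Complex.mul_conj' _).symm
  simp_rw [key]
  have hconj : ∀ ζ ∈ R, conj ζ = ζ⁻¹ := fun ζ hζ =>
    (Complex.inv_eq_conj (Complex.norm_eq_one_of_pow_eq_one (hR ζ hζ) hp.ne')).symm
  have hne : ∀ ζ ∈ R, ζ ≠ 0 := by
    intro ζ hζ h0
    have := hR ζ hζ
    rw [h0, zero_pow hp.ne'] at this
    exact zero_ne_one this
  have h1 : ∀ j : ℕ, (∑ ζ ∈ R, ζ ^ j * a ζ) * conj (∑ ζ ∈ R, ζ ^ j * a ζ)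
      = ∑ ζ ∈ R, ∑ ζ' ∈ R, a ζ * conj (a ζ') * (ζ * ζ'⁻¹) ^ j := by
    intro j
    rw [map_sum, Finset.sum_mul_sum]
    refine Finset.sum_congr rfl (fun ζ _ => Finset.sum_congr rfl (fun ζ' hζ' => ?_))
    rw [map_mul, map_pow, hconj ζ' hζ', mul_pow]
    ring
  simp_rw [h1]
  rw [Finset.sum_comm, Finset.mul_sum]
  refine Finset.sum_congr rfl (fun ζ hζ => ?_)
  rw [Finset.sum_comm]
  have h2 : ∀ ζ' ∈ R, ∑ j ∈ Finset.range p, a ζ * conj (a ζ') * (ζ * ζ'⁻¹) ^ j
      = if ζ' = ζ then (p : ℂ) * (a ζ * conj (a ζ)) else 0 := by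
    intro ζ' hζ'
    rw [← Finset.mul_sum]
    by_cases h : ζ' = ζ
    · subst h
      rw [if_pos rfl, mul_inv_cancel₀ (hne ζ' hζ')]
      simp
      ring
    · rw [if_neg h]
      have hw : ζ * ζ'⁻¹ ≠ 1 := by
        intro e
        apply h
        have := congrArg (fun z => z * ζ') e
        simp only [one_mul, mul_assoc, inv_mul_cancel₀ (hne ζ' hζ'), mul_one] at this
        exact this.symm
      have hwp : (ζ * ζ'⁻¹) ^ p = 1 := by
        rw [mul_pow, inv_pow, hR ζ hζ, hR ζ' hζ', inv_one, mul_one]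
      rw [geom_sum_eq hw p, hwp, sub_self, zero_div, mul_zero]
  rw [Finset.sum_congr rfl h2, Finset.sum_ite_eq' R ζ, if_pos hζ]

/-- The sum of squared differences. -/
theorem pairs_identity {ι : Type*} (R : Finset ι) (a : ι → ℂ) :
    ∑ ζ ∈ R, ∑ ζ' ∈ R, ‖a ζ - a ζ'‖ ^ 2
      = 2 * (R.card : ℝ) * ∑ ζ ∈ R, ‖a ζ‖ ^ 2 - 2 * ‖∑ ζ ∈ R, a ζ‖ ^ 2 := by
  apply Complex.ofReal_injective
  push_cast
  have key : ∀ w : ℂ, ((‖w‖ : ℝ) : ℂ) ^ 2 = w * conj w := fun w => (Complex.mul_conj' _).symm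
  simp_rw [key]
  have h1 : ∀ ζ ζ' : ι, (a ζ - a ζ') * conj (a ζ - a ζ')
      = a ζ * conj (a ζ) + a ζ' * conj (a ζ') - a ζ * conj (a ζ') - a ζ' * conj (a ζ) := by
    intro ζ ζ'
    rw [map_sub]
    ring
  simp_rw [h1]
  simp only [Finset.sum_sub_distrib, Finset.sum_add_distrib, Finset.sum_const, nsmul_eq_mul,
    ← Finset.mul_sum, ← Finset.sum_mul, map_sum]
  ring

section PerChi

variable {G : Type u} [Group G] {E : Type v} [NormedAddCommGroup E] [InnerProductSpace ℂ E]
  [FiniteDimensional ℂ E]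

/-- The lower bound for a single irreducible representation of degree prime to `p`. -/
theorem per_chi (ρ : G →* (E →ₗ[ℂ] E)) (hiso : ∀ g v w, ⟪ρ g v, ρ g w⟫_ℂ = ⟪v, w⟫_ℂ)
    (p : ℕ) (hp : p.Prime) (M : Ideal AlgInt) (hM : IsPModular p M)
    (hdim : ¬ p ∣ finrank ℂ E) (v : G) (hvp : v ^ p = 1) (C : Subgroup G) [Fintype C]
    (hC : ∀ a ∈ C, ∀ b ∈ C, a * b = b * a) (hCv : ∀ c ∈ C, c * v = v * c)
    (l : List (Subgroup C)) (hl : ∀ y : C, (∀ K ∈ l, y ∈ K) → y = 1) :
    ((p : ℝ) - 1) * (Fintype.card C : ℝ) ^ 2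
      ≤ ∑ j ∈ Finset.Ico 1 p, ∑ y : C,
          wt l y * ‖LinearMap.trace ℂ E (ρ (v ^ j * (y : G)))‖ ^ 2 := by
  classical
  have := Fact.mk hp
  have hMp := isPrime_of_isPModular hM
  obtain ⟨b, lam, hb⟩ := UnitaryRep.exists_orthonormal_eigenbasis ρ hiso
    (insert v (C : Set G)) (by
      intro a ha c hc
      rcases ha with rfl | ha <;> rcases hc with rfl | hc
      · rfl
      · exact (hCv c hc).symm
      · exact hCv a ha
      · exact hC a ha c hc)
  have hbn : ∀ i, ‖b i‖ = 1 := b.orthonormal.1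
  have hbne : ∀ i, b i ≠ 0 := by
    intro i h0
    have := hbn i
    rw [h0, norm_zero] at this
    exact zero_ne_one this
  obtain ⟨z, hz⟩ : ∃ z : Fin (finrank ℂ E) → ℂ, ∀ i, z i = lam i v :=
    ⟨fun i => lam i v, fun i => rfl⟩
  have hbv : ∀ i, ρ v (b i) = z i • b i := by
    intro i
    rw [hz]
    exact hb i v (Set.mem_insert _ _)
  have hbC : ∀ i, ∀ y ∈ C, ρ y (b i) = lam i y • b i := fun i y hy =>
    hb i y (Set.mem_insert_of_mem _ hy)
  have hbpow : ∀ (d : ℕ) i, ρ (v ^ d) (b i) = z i ^ d • b i := by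
    intro d
    induction d with
    | zero =>
      intro i
      rw [pow_zero, map_one, Module.End.one_apply, pow_zero, one_smul]
    | succ d ih =>
      intro i
      rw [pow_succ, map_mul, Module.End.mul_apply, hbv i, map_smul, ih i, smul_smul, pow_succ,
        mul_comm]
  have hcancel : ∀ (i : Fin (finrank ℂ E)) (s t : ℂ), s • b i = t • b i → s = t := by
    intro i s t h
    have h2 : (s - t) • b i = 0 := by rw [sub_smul, h, sub_self]
    rcases smul_eq_zero.1 h2 with h3 | h3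
    · exact sub_eq_zero.1 h3
    · exact absurd h3 (hbne i)
  have hzp : ∀ i, z i ^ p = 1 := by
    intro i
    apply hcancel i
    rw [← hbpow p i, hvp, map_one, Module.End.one_apply, one_smul]
  have hone : ∀ i, lam i 1 = 1 := by
    intro i
    apply hcancel i
    rw [← hbC i 1 C.one_mem, map_one, Module.End.one_apply, one_smul]
  have hmul : ∀ i, ∀ y ∈ C, ∀ y' ∈ C, lam i (y * y') = lam i y * lam i y' := by
    intro i y hy y' hy'
    apply hcancel i
    rw [← hbC i _ (C.mul_mem hy hy'), map_mul, Module.End.mul_apply, hbC i y' hy', map_smul,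
      hbC i y hy, smul_smul, mul_comm]
  let μ₀ : Fin (finrank ℂ E) → (C →* ℂ) := fun i =>
    { toFun := fun y => lam i (y : G)
      map_one' := hone i
      map_mul' := fun y y' => hmul i y y.2 y' y'.2 }
  let μ : Fin (finrank ℂ E) → (C →* ℂˣ) := fun i => (μ₀ i).toHomUnits
  have hμ : ∀ i (y : C), ((μ i y : ℂˣ) : ℂ) = lam i (y : G) := fun i y => rfl
  have htr : ∀ (j : ℕ) (y : C),
      LinearMap.trace ℂ E (ρ (v ^ j * (y : G))) = ∑ i, z i ^ j * lam i (y : G) := by
    intro j y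
    rw [LinearMap.trace_eq_sum_inner (ρ (v ^ j * (y : G))) b]
    apply Finset.sum_congr rfl
    intro i _
    rw [map_mul, Module.End.mul_apply, hbC i y y.2, map_smul, hbpow j i, smul_smul,
      inner_smul_right, inner_self_eq_norm_sq_to_K, hbn i]
    simp [mul_comm]
  obtain ⟨R, hRdef⟩ : ∃ R : Finset ℂ, R = Polynomial.nthRootsFinset p (1 : ℂ) := ⟨_, rfl⟩
  have hRcard : R.card = p := by
    rw [hRdef]
    exact (Complex.isPrimitiveRoot_exp p hp.ne_zero).card_nthRootsFinset
  have hRmem : ∀ ζ, ζ ∈ R ↔ ζ ^ p = 1 := by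
    intro ζ
    rw [hRdef]
    exact Polynomial.mem_nthRootsFinset hp.pos 1
  have hzR : ∀ i, z i ∈ R := fun i => (hRmem _).2 (hzp i)
  obtain ⟨θ, hθ⟩ : ∃ θ : ℂ → C → ℂ, ∀ ζ y,
      θ ζ y = ∑ i ∈ Finset.univ.filter (fun i => z i = ζ), lam i (y : G) :=
    ⟨fun ζ y => _, fun ζ y => rfl⟩
  have htr' : ∀ (j : ℕ) (y : C),
      LinearMap.trace ℂ E (ρ (v ^ j * (y : G))) = ∑ ζ ∈ R, ζ ^ j * θ ζ y := by
    intro j y
    rw [htr, ← Finset.sum_fiberwise_of_maps_to (s := Finset.univ) (t := R) (g := z)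
      (fun i _ => hzR i)]
    refine Finset.sum_congr rfl (fun ζ _ => ?_)
    rw [hθ, Finset.mul_sum]
    refine Finset.sum_congr rfl (fun i hi => ?_)
    rw [(Finset.mem_filter.1 hi).2]
  have hjsum : ∀ y : C,
      ∑ j ∈ Finset.Ico 1 p, ‖LinearMap.trace ℂ E (ρ (v ^ j * (y : G)))‖ ^ 2
        = (1 / 2) * ∑ ζ ∈ R, ∑ ζ' ∈ R, ‖θ ζ y - θ ζ' y‖ ^ 2 := by
    intro y
    have h1 := root_orth p hp.pos R (fun ζ hζ => (hRmem ζ).1 hζ) (fun ζ => θ ζ y)
    rw [Finset.range_eq_Ico, Finset.sum_eq_sum_Ico_succ_bot hp.pos] at h1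
    simp only [pow_zero, one_mul, zero_add] at h1
    have h2 := pairs_identity R (fun ζ => θ ζ y)
    rw [hRcard] at h2
    simp_rw [htr']
    linarith
  obtain ⟨Tm, hTm⟩ : ∃ Tm : ℂ → ℂ → ℝ, ∀ ζ ζ',
      Tm ζ ζ' = ∑ y : C, wt l y * ‖θ ζ y - θ ζ' y‖ ^ 2 := ⟨fun ζ ζ' => _, fun _ _ => rfl⟩
  have hTm0 : ∀ ζ ζ', 0 ≤ Tm ζ ζ' := by
    intro ζ ζ'
    rw [hTm]
    exact Finset.sum_nonneg (fun y _ => mul_nonneg (wt_pos l y).le (sq_nonneg _))
  have htotal : ∑ j ∈ Finset.Ico 1 p, ∑ y : C,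
      wt l y * ‖LinearMap.trace ℂ E (ρ (v ^ j * (y : G)))‖ ^ 2
        = (1 / 2) * ∑ ζ ∈ R, ∑ ζ' ∈ R, Tm ζ ζ' := by
    rw [Finset.sum_comm]
    simp_rw [← Finset.mul_sum, hjsum, hTm]
    have e1 : ∀ y : C, wt l y * (1 / 2 * ∑ ζ ∈ R, ∑ ζ' ∈ R, ‖θ ζ y - θ ζ' y‖ ^ 2)
        = 1 / 2 * ∑ ζ ∈ R, ∑ ζ' ∈ R, wt l y * ‖θ ζ y - θ ζ' y‖ ^ 2 := by
      intro y
      simp only [Finset.mul_sum]
      refine Finset.sum_congr rfl (fun ζ _ => Finset.sum_congr rfl (fun ζ' _ => ?_))
      ring
    simp_rw [e1]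
    rw [← Finset.mul_sum]
    congr 1
    rw [Finset.sum_comm]
    refine Finset.sum_congr rfl (fun ζ _ => ?_)
    rw [Finset.sum_comm]
  have hlat : ∀ ζ ζ' : ℂ, (∀ y : C, θ ζ y = θ ζ' y) ∨ (Fintype.card C : ℝ) ^ 2 ≤ Tm ζ ζ' := by
    intro ζ ζ'
    have h1 := KnorrLattice.main' (A := C) (fun a b => Subtype.ext (hC a a.2 b b.2)) l hl μ
      (fun i => (if z i = ζ then (1 : ℤ) else 0) - (if z i = ζ' then (1 : ℤ) else 0))
    have hsum : ∀ y : C, ∑ i, (((if z i = ζ then (1 : ℤ) else 0)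
        - (if z i = ζ' then (1 : ℤ) else 0) : ℤ) : ℂ) * ((μ i y : ℂˣ) : ℂ)
        = θ ζ y - θ ζ' y := by
      intro y
      rw [hθ, hθ, Finset.sum_filter, Finset.sum_filter, ← Finset.sum_sub_distrib]
      refine Finset.sum_congr rfl (fun i _ => ?_)
      rw [hμ]
      push_cast
      split_ifs <;> ring
    simp_rw [hsum] at h1
    rcases h1 with h | h
    · left
      intro y
      exact sub_eq_zero.1 (h y)
    · right
      rw [hTm]
      exact h
  have hne : ∃ ζ₀ ∈ R, ∃ ζ₁ ∈ R, ¬ ∀ y : C, θ ζ₀ y = θ ζ₁ y := by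
    by_contra hcon
    push Not at hcon
    have h1 := hjsum 1
    have h2 : ∑ ζ ∈ R, ∑ ζ' ∈ R, ‖θ ζ (1 : C) - θ ζ' 1‖ ^ 2 = 0 := by
      apply Finset.sum_eq_zero
      intro ζ hζ
      apply Finset.sum_eq_zero
      intro ζ' hζ'
      rw [hcon ζ hζ ζ' hζ' 1, sub_self, norm_zero]
      norm_num
    rw [h2, mul_zero] at h1
    have h3 := (Finset.sum_eq_zero_iff_of_nonneg (fun j _ => sq_nonneg _)).1 h1 1
      (Finset.mem_Ico.2 ⟨le_refl 1, hp.one_lt⟩)
    have h4 : LinearMap.trace ℂ E (ρ (v ^ 1 * ((1 : C) : G))) = 0 := by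
      simpa using h3
    rw [htr 1 1] at h4
    have h5 : ∑ i, z i = 0 := by
      rw [← h4]
      refine Finset.sum_congr rfl (fun i _ => ?_)
      rw [pow_one, Subgroup.coe_one, hone i, mul_one]
    have h6 : MemLocalIdeal M (∑ i, (z i - 1)) := by
      apply memLocalIdeal_sum hMp
      intro i _
      exact Cfsg.Agent.Lib.Helper77.IdemTrace.memLocalIdeal_sub_one_of_pow hM (z i) 1
        (by rw [pow_one]; exact hzp i)
    rw [Finset.sum_sub_distrib, h5, Finset.sum_const, Finset.card_univ, Fintype.card_fin,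
      zero_sub, nsmul_eq_mul, mul_one] at h6
    exact hdim ((memLocalIdeal_natCast_iff hM _).1 (memLocalIdeal_neg_iff.1 h6))
  obtain ⟨ζ₀, hζ₀, ζ₁, hζ₁, hne01⟩ := hne
  obtain ⟨P, hP⟩ : ∃ P : ℂ → Prop, ∀ ζ, P ζ ↔ ∀ y : C, θ ζ y = θ ζ₀ y :=
    ⟨fun ζ => _, fun _ => Iff.rfl⟩
  obtain ⟨s, hs⟩ : ∃ s : ℕ, s = (R.filter P).card := ⟨_, rfl⟩
  obtain ⟨s', hs'⟩ : ∃ s' : ℕ, s' = (R.filter (fun ζ => ¬ P ζ)).card := ⟨_, rfl⟩
  have hss : s + s' = p := by
    rw [← hRcard, hs, hs']
    exact Finset.card_filter_add_card_filter_not P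
  have hs1 : 1 ≤ s := by
    rw [hs]
    exact Finset.card_pos.2 ⟨ζ₀, Finset.mem_filter.2 ⟨hζ₀, (hP ζ₀).2 (fun y => rfl)⟩⟩
  have hs'1 : 1 ≤ s' := by
    rw [hs']
    exact Finset.card_pos.2 ⟨ζ₁, Finset.mem_filter.2
      ⟨hζ₁, fun h => hne01 (fun y => ((hP ζ₁).1 h y).symm)⟩⟩
  have hdiff : ∀ ζ ζ', P ζ → ¬ P ζ' →
      (Fintype.card C : ℝ) ^ 2 ≤ Tm ζ ζ' ∧ (Fintype.card C : ℝ) ^ 2 ≤ Tm ζ' ζ := by
    intro ζ ζ' h h'
    constructor
    · rcases hlat ζ ζ' with e | e
      · exact absurd ((hP ζ').2 (fun y => by rw [← e y]; exact (hP ζ).1 h y)) h'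
      · exact e
    · rcases hlat ζ' ζ with e | e
      · exact absurd ((hP ζ').2 (fun y => by rw [e y]; exact (hP ζ).1 h y)) h'
      · exact e
  have hrow : ∀ ζ ∈ R, (if P ζ then (s' : ℝ) else (s : ℝ)) * (Fintype.card C : ℝ) ^ 2
      ≤ ∑ ζ' ∈ R, Tm ζ ζ' := by
    intro ζ hζ
    by_cases h : P ζ
    · rw [if_pos h]
      calc (s' : ℝ) * (Fintype.card C : ℝ) ^ 2
          = ∑ ζ' ∈ R.filter (fun ζ => ¬ P ζ), (Fintype.card C : ℝ) ^ 2 := by
            rw [Finset.sum_const, nsmul_eq_mul, hs']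
        _ ≤ ∑ ζ' ∈ R.filter (fun ζ => ¬ P ζ), Tm ζ ζ' :=
            Finset.sum_le_sum (fun ζ' hζ' => (hdiff ζ ζ' h (Finset.mem_filter.1 hζ').2).1)
        _ ≤ ∑ ζ' ∈ R, Tm ζ ζ' :=
            Finset.sum_le_sum_of_subset_of_nonneg (Finset.filter_subset _ _)
              (fun ζ' _ _ => hTm0 ζ ζ')
    · rw [if_neg h]
      calc (s : ℝ) * (Fintype.card C : ℝ) ^ 2
          = ∑ ζ' ∈ R.filter P, (Fintype.card C : ℝ) ^ 2 := by
            rw [Finset.sum_const, nsmul_eq_mul, hs]
        _ ≤ ∑ ζ' ∈ R.filter P, Tm ζ ζ' :=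
            Finset.sum_le_sum (fun ζ' hζ' => (hdiff ζ' ζ (Finset.mem_filter.1 hζ').2 h).2)
        _ ≤ ∑ ζ' ∈ R, Tm ζ ζ' :=
            Finset.sum_le_sum_of_subset_of_nonneg (Finset.filter_subset _ _)
              (fun ζ' _ _ => hTm0 ζ ζ')
  have hsumrow : ∑ ζ ∈ R, (if P ζ then (s' : ℝ) else (s : ℝ)) * (Fintype.card C : ℝ) ^ 2
      = 2 * (s : ℝ) * (s' : ℝ) * (Fintype.card C : ℝ) ^ 2 := by
    rw [← Finset.sum_mul, Finset.sum_ite, Finset.sum_const, Finset.sum_const, nsmul_eq_mul,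
      nsmul_eq_mul, ← hs, ← hs']
    ring
  have hfinal := Finset.sum_le_sum hrow
  rw [hsumrow] at hfinal
  rw [htotal]
  have hsp : (s : ℝ) + (s' : ℝ) = (p : ℝ) := by exact_mod_cast hss
  have h1s : (1 : ℝ) ≤ s := by exact_mod_cast hs1
  have h1s' : (1 : ℝ) ≤ s' := by exact_mod_cast hs'1
  have hcc : (0 : ℝ) ≤ (Fintype.card C : ℝ) ^ 2 := sq_nonneg _
  rw [← hsp]
  nlinarith [mul_nonneg (mul_nonneg (sub_nonneg.2 h1s) (sub_nonneg.2 h1s')) hcc]

end PerChi

section Chain

variable {X : Type u} [Group X]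

/-- Elements of the join of two elementwise commuting subgroups are products. -/
theorem exists_mul_of_mem_sup (U W : Subgroup X) (hcomm : ∀ a ∈ U, ∀ b ∈ W, a * b = b * a)
    (x : X) (hx : x ∈ U ⊔ W) : ∃ u ∈ U, ∃ w ∈ W, u * w = x := by
  let P : Subgroup X :=
    { carrier := {x | ∃ u ∈ U, ∃ w ∈ W, u * w = x}
      mul_mem' := by
        rintro _ _ ⟨u, hu, w, hw, rfl⟩ ⟨u', hu', w', hw', rfl⟩
        refine ⟨u * u', U.mul_mem hu hu', w * w', W.mul_mem hw hw', ?_⟩
        simp only [mul_assoc]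
        rw [← mul_assoc u' w w', hcomm u' hu' w hw, mul_assoc]
      one_mem' := ⟨1, U.one_mem, 1, W.one_mem, mul_one 1⟩
      inv_mem' := by
        rintro _ ⟨u, hu, w, hw, rfl⟩
        refine ⟨u⁻¹, U.inv_mem hu, w⁻¹, W.inv_mem hw, ?_⟩
        rw [mul_inv_rev]
        exact hcomm u⁻¹ (U.inv_mem hu) w⁻¹ (W.inv_mem hw) }
  have h1 : U ⊔ W ≤ P :=
    sup_le (fun u hu => ⟨u, hu, 1, W.one_mem, mul_one u⟩)
      (fun w hw => ⟨1, U.one_mem, w, hw, one_mul w⟩)
  exact h1 hx

theorem le_normalizer_of_conj (C W : Subgroup X) (h : ∀ c ∈ C, ∀ w ∈ W, c * w * c⁻¹ ∈ W) :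
    C ≤ Subgroup.normalizer (W : Set X) := by
  intro c hc
  rw [Subgroup.mem_normalizer_iff]
  intro w
  constructor
  · exact h c hc w
  · intro hw
    have h1 := h c⁻¹ (C.inv_mem hc) _ hw
    have e : c⁻¹ * (c * w * c⁻¹) * c⁻¹⁻¹ = w := by group
    rw [e] at h1
    exact h1

variable [Finite X]

/-- The chain of centralizers: for an abelian `p'`-group `C` acting on an elementary abelian
`p`-group, there is a list of subgroups of `C` whose weight compensates the fixed points. -/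
theorem chain (p : ℕ) [Fact p.Prime] (V : Subgroup X)
    (hVcomm : ∀ a ∈ V, ∀ b ∈ V, a * b = b * a) (hVexp : ∀ v ∈ V, v ^ p = 1) (C : Subgroup X)
    (hCcomm : ∀ a ∈ C, ∀ b ∈ C, a * b = b * a) (hcop : (Nat.card C).Coprime p) :
    ∀ n : ℕ, ∀ W : Subgroup X, W ≤ V → (∀ c ∈ C, ∀ w ∈ W, c * w * c⁻¹ ∈ W) → Nat.card W ≤ n →
      ∃ l : List (Subgroup C), (∀ y : C, (∀ K ∈ l, y ∈ K) → ∀ w ∈ W, (y : X) * w = w * y) ∧
        ∀ y : C, wt l y * (Nat.card ↥(W ⊓ Subgroup.centralizer ({(y : X)} : Set X)) : ℝ)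
          ≤ (Nat.card W : ℝ) := by
  classical
  intro n
  induction n with
  | zero =>
    intro W _ _ hcard
    have := Nat.card_pos (α := W)
    omega
  | succ n ih =>
    intro W hWV hWinv hcard
    by_cases hred : ∃ U : Subgroup X, U ≤ W ∧ U ≠ ⊥ ∧ U ≠ W ∧ ∀ c ∈ C, ∀ u ∈ U, c * u * c⁻¹ ∈ U
    · obtain ⟨U, hUW, hUbot, hUne, hUinv⟩ := hred
      obtain ⟨W', hW'W, hW'inv, hdisj, hsup⟩ : ∃ W' : Subgroup X, W' ≤ W ∧
          (∀ c ∈ C, ∀ w ∈ W', c * w * c⁻¹ ∈ W') ∧ U ⊓ W' = ⊥ ∧ U ⊔ W' = W := by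
        obtain ⟨W₀, hW₀1, hW₀2⟩ := Cfsg.Agent.Lib.Helper73.CoprimeAct.exists_compl_of_exponent
          (V := W) p (fun a b => Subtype.ext (hVcomm a (hWV a.2) b (hWV b.2)))
          (fun v => Subtype.ext (hVexp v (hWV v.2))) (U.subgroupOf W)
        have hU : (U.subgroupOf W).map W.subtype = U := Subgroup.map_subgroupOf_eq_of_le hUW
        have h1 : U ⊓ W₀.map W.subtype = ⊥ := by
          rw [← hU, ← Subgroup.map_inf _ _ _ (Subgroup.subtype_injective W), hW₀1,
            Subgroup.map_bot]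
        have h2 : U ⊔ W₀.map W.subtype = W := by
          rw [← hU, ← Subgroup.map_sup, hW₀2, ← MonoidHom.range_eq_map, Subgroup.range_subtype]
        have h3 : W₀.map W.subtype ≤ W := Subgroup.map_subtype_le W₀
        have hWp : IsPGroup p W := fun g =>
          ⟨1, by rw [pow_one]; exact Subtype.ext (hVexp g (hWV g.2))⟩
        obtain ⟨k, hk⟩ := IsPGroup.iff_card.1 hWp
        obtain ⟨W', hW'1, hW'2, hW'3, hW'4⟩ := Cfsg.Agent.S0660.result W C U
          ⟨⟨fun a b => Subtype.ext (hVcomm a (hWV a.2) b (hWV b.2))⟩⟩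
          (le_normalizer_of_conj C W hWinv)
          (by rw [hk]; exact Nat.Coprime.pow_right k hcop) hUW
          (le_normalizer_of_conj C U hUinv) (W₀.map W.subtype) h3 h1 h2
        exact ⟨W', hW'1, fun c hc w hw => ((Subgroup.mem_normalizer_iff.1 (hW'2 hc)) w).1 hw,
          hW'3, hW'4⟩
      have hUWcomm : ∀ a ∈ U, ∀ b ∈ W', a * b = b * a := fun a ha b hb =>
        hVcomm a (hWV (hUW ha)) b (hWV (hW'W hb))
      have hprod : Nat.card U * Nat.card W' ≤ Nat.card W := by
        rw [← Nat.card_prod]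
        refine Nat.card_le_card_of_injective
          (fun g : U × W' => (⟨(g.1 : X) * g.2, W.mul_mem (hUW g.1.2) (hW'W g.2.2)⟩ : W)) ?_
        intro g g' h
        exact Subgroup.mul_injective_of_disjoint (disjoint_iff.2 hdisj) (congrArg Subtype.val h)
      have hU2 : 2 ≤ Nat.card U := (Subgroup.one_lt_card_iff_ne_bot U).2 hUbot
      have hW'2 : 2 ≤ Nat.card W' := by
        apply (Subgroup.one_lt_card_iff_ne_bot W').2
        intro e
        apply hUne
        rw [← hsup, e, sup_bot_eq]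
      have hUn : Nat.card U ≤ n := by
        have h1 : Nat.card U * 2 ≤ Nat.card U * Nat.card W' := Nat.mul_le_mul_left _ hW'2
        omega
      have hW'n : Nat.card W' ≤ n := by
        have h1 : 2 * Nat.card W' ≤ Nat.card U * Nat.card W' := Nat.mul_le_mul_right _ hU2
        omega
      obtain ⟨l₁, ha₁, hb₁⟩ := ih U (hUW.trans hWV) hUinv hUn
      obtain ⟨l₂, ha₂, hb₂⟩ := ih W' (hW'W.trans hWV) hW'inv hW'n
      refine ⟨l₁ ++ l₂, ?_, ?_⟩
      · intro y hy w hw
        rw [← hsup] at hw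
        obtain ⟨u, hu, w', hw', rfl⟩ := exists_mul_of_mem_sup U W' hUWcomm w hw
        have h1 := ha₁ y (fun K hK => hy K (List.mem_append_left _ hK)) u hu
        have h2 := ha₂ y (fun K hK => hy K (List.mem_append_right _ hK)) w' hw'
        rw [← mul_assoc, h1, mul_assoc, h2, mul_assoc]
      · intro y
        have hcent : Nat.card ↥(W ⊓ Subgroup.centralizer ({(y : X)} : Set X))
            ≤ Nat.card ↥(U ⊓ Subgroup.centralizer ({(y : X)} : Set X))
              * Nat.card ↥(W' ⊓ Subgroup.centralizer ({(y : X)} : Set X)) := by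
          have hex : ∀ w : ↥(W ⊓ Subgroup.centralizer ({(y : X)} : Set X)),
              ∃ q : ↥(U ⊓ Subgroup.centralizer ({(y : X)} : Set X))
                × ↥(W' ⊓ Subgroup.centralizer ({(y : X)} : Set X)), (q.1 : X) * q.2 = w := by
            rintro ⟨w, hwW, hwc⟩
            rw [← hsup] at hwW
            obtain ⟨u, hu, w', hw', rfl⟩ := exists_mul_of_mem_sup U W' hUWcomm w hwW
            have hc1 : u * w' * (y : X) = (y : X) * (u * w') :=
              Subgroup.mem_centralizer_singleton_iff.1 hwc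
            have hab' : ((y : X) * u * (y : X)⁻¹) * ((y : X) * w' * (y : X)⁻¹) = u * w' := by
              have h1 : (y : X) * (u * w') * (y : X)⁻¹ = u * w' := by
                rw [← hc1]
                group
              rw [← h1]
              group
            have e : u⁻¹ * ((y : X) * u * (y : X)⁻¹) = w' * ((y : X) * w' * (y : X)⁻¹)⁻¹ := by
              rw [eq_mul_inv_iff_mul_eq, mul_assoc, hab', inv_mul_cancel_left]
            have hmem : u⁻¹ * ((y : X) * u * (y : X)⁻¹) ∈ U ⊓ W' := by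
              refine Subgroup.mem_inf.2 ⟨U.mul_mem (U.inv_mem hu) (hUinv y y.2 u hu), ?_⟩
              rw [e]
              exact W'.mul_mem hw' (W'.inv_mem (hW'inv y y.2 w' hw'))
            rw [hdisj, Subgroup.mem_bot, inv_mul_eq_one] at hmem
            have hu' : u * (y : X) = (y : X) * u := by
              have h2 := hmem
              rw [eq_mul_inv_iff_mul_eq] at h2
              exact h2
            have hw'' : w' * (y : X) = (y : X) * w' := by
              rw [← hmem] at hab'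
              have h2 := mul_left_cancel hab'
              rw [mul_inv_eq_iff_eq_mul] at h2
              exact h2.symm
            exact ⟨(⟨u, Subgroup.mem_inf.2 ⟨hu, Subgroup.mem_centralizer_singleton_iff.2 hu'⟩⟩,
              ⟨w', Subgroup.mem_inf.2 ⟨hw', Subgroup.mem_centralizer_singleton_iff.2 hw''⟩⟩),
              rfl⟩
          choose g hg using hex
          have ginj : Function.Injective g := fun a b hab =>
            Subtype.ext (by rw [← hg a, ← hg b, hab])
          rw [← Nat.card_prod]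
          exact Nat.card_le_card_of_injective g ginj
        rw [wt_append]
        have hprodR : (Nat.card U : ℝ) * (Nat.card W' : ℝ) ≤ (Nat.card W : ℝ) := by
          exact_mod_cast hprod
        have hcentR : (Nat.card ↥(W ⊓ Subgroup.centralizer ({(y : X)} : Set X)) : ℝ)
            ≤ (Nat.card ↥(U ⊓ Subgroup.centralizer ({(y : X)} : Set X)) : ℝ)
              * (Nat.card ↥(W' ⊓ Subgroup.centralizer ({(y : X)} : Set X)) : ℝ) := by
          exact_mod_cast hcent
        calc wt l₁ y * wt l₂ y * (Nat.card ↥(W ⊓ Subgroup.centralizer ({(y : X)} : Set X)) : ℝ)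
            ≤ wt l₁ y * wt l₂ y
                * ((Nat.card ↥(U ⊓ Subgroup.centralizer ({(y : X)} : Set X)) : ℝ)
                  * (Nat.card ↥(W' ⊓ Subgroup.centralizer ({(y : X)} : Set X)) : ℝ)) :=
              mul_le_mul_of_nonneg_left hcentR (mul_pos (wt_pos _ _) (wt_pos _ _)).le
          _ = (wt l₁ y * (Nat.card ↥(U ⊓ Subgroup.centralizer ({(y : X)} : Set X)) : ℝ))
                * (wt l₂ y * (Nat.card ↥(W' ⊓ Subgroup.centralizer ({(y : X)} : Set X)) : ℝ)) := by
              ring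
          _ ≤ (Nat.card U : ℝ) * (Nat.card W' : ℝ) :=
              mul_le_mul (hb₁ y) (hb₂ y)
                (mul_nonneg (wt_pos _ _).le (Nat.cast_nonneg _)) (Nat.cast_nonneg _)
          _ ≤ (Nat.card W : ℝ) := hprodR
    · obtain ⟨K, hK⟩ : ∃ K : Subgroup C,
          K = (Subgroup.centralizer (W : Set X)).subgroupOf C := ⟨_, rfl⟩
      have hKmem : ∀ y : C, y ∈ K ↔ ∀ w ∈ W, w * (y : X) = (y : X) * w := by
        intro y
        rw [hK, Subgroup.mem_subgroupOf, Subgroup.mem_centralizer_iff]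
        rfl
      have hfix : ∀ y : C, y ∉ K → W ⊓ Subgroup.centralizer ({(y : X)} : Set X) = ⊥ := by
        intro y hyK
        by_contra hne
        apply hred
        refine ⟨_, inf_le_left, hne, ?_, ?_⟩
        · intro e
          apply hyK
          rw [hKmem]
          intro w hw
          rw [← e] at hw
          exact Subgroup.mem_centralizer_singleton_iff.1 (Subgroup.mem_inf.1 hw).2
        · intro c hc w hw
          refine Subgroup.mem_inf.2 ⟨hWinv c hc w (Subgroup.mem_inf.1 hw).1, ?_⟩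
          rw [Subgroup.mem_centralizer_singleton_iff]
          have h1 : Commute w (y : X) :=
            Subgroup.mem_centralizer_singleton_iff.1 (Subgroup.mem_inf.1 hw).2
          have h2 : Commute c (y : X) := hCcomm c hc y y.2
          exact ((h2.mul_left h1).mul_left h2.inv_left)
      refine ⟨[K], ?_, ?_⟩
      · intro y hy w hw
        exact ((hKmem y).1 (hy K (List.mem_singleton_self K)) w hw).symm
      · intro y
        rw [wt_cons, wt_nil, mul_one]
        by_cases hyK : y ∈ K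
        · rw [if_pos hyK, one_mul]
          exact_mod_cast Subgroup.card_le_of_le (inf_le_left : W ⊓ _ ≤ W)
        · rw [if_neg hyK, hfix y hyK, Subgroup.card_bot, Nat.cast_one, mul_one]
          obtain ⟨w₀, hw₀W, hw₀1⟩ : ∃ w₀ ∈ W, w₀ ≠ 1 := by
            by_contra hcon
            push Not at hcon
            apply hyK
            rw [hKmem]
            intro w hw
            rw [hcon w hw, one_mul, mul_one]
          have hsemi : ∀ c : C, (c : X) * w₀ * (c : X)⁻¹ = w₀ → c ∈ K := by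
            intro c hc
            by_contra hcK
            have h1 : w₀ ∈ W ⊓ Subgroup.centralizer ({(c : X)} : Set X) := by
              refine Subgroup.mem_inf.2 ⟨hw₀W, ?_⟩
              rw [Subgroup.mem_centralizer_singleton_iff]
              rw [mul_inv_eq_iff_eq_mul] at hc
              exact hc.symm
            rw [hfix c hcK, Subgroup.mem_bot] at h1
            exact hw₀1 h1
          let f : Option (C ⧸ K) → W := fun o =>
            match o with
            | none => 1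
            | some q => ⟨((q.out : C) : X) * w₀ * ((q.out : C) : X)⁻¹,
                hWinv _ (q.out : C).2 w₀ hw₀W⟩
          have hf : Function.Injective f := by
            rintro (_ | q1) (_ | q2) h
            · rfl
            · exfalso
              have h1 : (1 : X) = ((q2.out : C) : X) * w₀ * ((q2.out : C) : X)⁻¹ :=
                congrArg Subtype.val h
              apply hw₀1
              rw [eq_mul_inv_iff_mul_eq, one_mul] at h1
              exact (mul_left_cancel (a := ((q2.out : C) : X)) (by rw [mul_one]; exact h1.symm))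
            · exfalso
              have h1 : ((q1.out : C) : X) * w₀ * ((q1.out : C) : X)⁻¹ = (1 : X) :=
                congrArg Subtype.val h
              apply hw₀1
              rw [mul_inv_eq_iff_eq_mul, one_mul] at h1
              exact (mul_left_cancel (a := ((q1.out : C) : X)) (by rw [mul_one]; exact h1))
            · have h1 : ((q1.out : C) : X) * w₀ * ((q1.out : C) : X)⁻¹
                  = ((q2.out : C) : X) * w₀ * ((q2.out : C) : X)⁻¹ := congrArg Subtype.val h
              have h2 : (q1.out)⁻¹ * q2.out ∈ K := by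
                apply hsemi
                push_cast
                have e : ((q1.out : C) : X)⁻¹ * ((q2.out : C) : X) * w₀
                    * (((q1.out : C) : X)⁻¹ * ((q2.out : C) : X))⁻¹
                    = ((q1.out : C) : X)⁻¹ * (((q2.out : C) : X) * w₀ * ((q2.out : C) : X)⁻¹)
                      * ((q1.out : C) : X) := by group
                rw [e, ← h1]
                group
              have h3 : ((q1.out : C) : C ⧸ K) = q2.out := QuotientGroup.eq.2 h2
              rw [QuotientGroup.out_eq', QuotientGroup.out_eq'] at h3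
              rw [h3]
          have h4 := Nat.card_le_card_of_injective f hf
          rw [Finite.card_option] at h4
          have h5 : K.index + 1 ≤ Nat.card W := h4
          have h6 : 1 + K.index ≤ Nat.card W := by omega
          exact_mod_cast h6

end Chain

section Final

variable {X : Type u} [Group X] [Finite X]

/-- The centralizer of `v ^ j * y` is contained in `C_V(y) * C_G(v)`. -/
theorem card_centralizer_le (p : ℕ) (hp : p.Prime) (V : Subgroup X)
    (hVcomm : ∀ a ∈ V, ∀ b ∈ V, a * b = b * a) (hidx : ¬ p ∣ V.index) (G : Subgroup X)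
    (hGV : Subgroup.IsComplement' V G) (v : X) (hv : v ∈ V) (hv1 : orderOf v = p)
    (hab : ∀ a ∈ G ⊓ Subgroup.centralizer ({v} : Set X),
      ∀ b ∈ G ⊓ Subgroup.centralizer ({v} : Set X), a * b = b * a)
    (y : X) (hy : y ∈ G ⊓ Subgroup.centralizer ({v} : Set X)) (j : ℕ) (hj : ¬ p ∣ j) :
    Nat.card (Subgroup.centralizer ({v ^ j * y} : Set X))
      ≤ Nat.card ↥(V ⊓ Subgroup.centralizer ({y} : Set X))
        * Nat.card ↥(G ⊓ Subgroup.centralizer ({v} : Set X)) := by
  have hyG : y ∈ G := (Subgroup.mem_inf.1 hy).1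
  have hyv : Commute y v := Subgroup.mem_centralizer_singleton_iff.1 (Subgroup.mem_inf.1 hy).2
  have hm : y ^ Nat.card G = 1 := by
    have h1 : (⟨y, hyG⟩ : G) ^ Nat.card G = 1 := pow_card_eq_one'
    have h2 : ((⟨y, hyG⟩ : G) : X) ^ Nat.card G = 1 := by
      rw [← Subgroup.coe_pow, h1, Subgroup.coe_one]
    exact h2
  have hpm : ¬ p ∣ j * Nat.card G := by
    rw [← hGV.symm.index_eq_card]
    intro h
    rcases (Nat.Prime.dvd_mul hp).1 h with h | h
    · exact hj h
    · exact hidx h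
  have hex : ∀ x : ↥(Subgroup.centralizer ({v ^ j * y} : Set X)),
      ∃ q : ↥(V ⊓ Subgroup.centralizer ({y} : Set X))
        × ↥(G ⊓ Subgroup.centralizer ({v} : Set X)), (q.1 : X) * q.2 = x := by
    rintro ⟨x, hx⟩
    have hx1 : Commute x (v ^ j * y) := Subgroup.mem_centralizer_singleton_iff.1 hx
    have hx2 : Commute x ((v ^ j * y) ^ Nat.card G) := hx1.pow_right _
    have e1 : (v ^ j * y) ^ Nat.card G = v ^ (j * Nat.card G) := by
      rw [(hyv.symm.pow_left j).mul_pow, hm, mul_one, ← pow_mul]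
    rw [e1] at hx2
    have hxv : Commute x v := by
      have h1 : x ∈ Subgroup.centralizer ({v ^ (j * Nat.card G)} : Set X) :=
        Subgroup.mem_centralizer_singleton_iff.2 hx2
      rw [Cfsg.Agent.S4484.centralizer_pow v p hp hv1 _ hpm] at h1
      exact Subgroup.mem_centralizer_singleton_iff.1 h1
    have hxy : Commute x y := by
      have h1 : Commute x ((v ^ j)⁻¹ * (v ^ j * y)) :=
        (hxv.pow_right j).inv_right.mul_right hx1
      rwa [inv_mul_cancel_left] at h1
    obtain ⟨⟨u, c⟩, huc⟩ := hGV.2 x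
    have huc' : (u : X) * (c : X) = x := huc
    have huv : Commute (u : X) v := hVcomm u u.2 v hv
    have hcv : Commute (c : X) v := by
      have e : (c : X) = (u : X)⁻¹ * x := by rw [← huc']; group
      rw [e]
      exact huv.inv_left.mul_left hxv
    have hcC : (c : X) ∈ G ⊓ Subgroup.centralizer ({v} : Set X) :=
      Subgroup.mem_inf.2 ⟨c.2, Subgroup.mem_centralizer_singleton_iff.2 hcv⟩
    have hcy : Commute (c : X) y := hab c hcC y hy
    have huy : Commute (u : X) y := by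
      have e : (u : X) = x * (c : X)⁻¹ := by rw [← huc']; group
      rw [e]
      exact hxy.mul_left hcy.inv_left
    exact ⟨(⟨u, Subgroup.mem_inf.2 ⟨u.2, Subgroup.mem_centralizer_singleton_iff.2 huy⟩⟩,
      ⟨c, hcC⟩), huc'⟩
  choose g hg using hex
  have ginj : Function.Injective g := fun a b hab' =>
    Subtype.ext (by rw [← hg a, ← hg b, hab'])
  rw [← Nat.card_prod]
  exact Nat.card_le_card_of_injective g ginj

/-- The main estimate, for `v` of order `p`. -/
theorem main_of_order (p : ℕ) (hp : p.Prime) (V : Subgroup X) [V.Normal]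
    (hVexp : ∀ v ∈ V, v ^ p = 1) (hidx : ¬ p ∣ V.index)
    (hself : Subgroup.centralizer (V : Set X) = V) (G : Subgroup X)
    (hGV : Subgroup.IsComplement' V G) (v : X) (hv : v ∈ V) (hvord : orderOf v = p)
    (hab : ∀ a ∈ G ⊓ Subgroup.centralizer ({v} : Set X),
      ∀ b ∈ G ⊓ Subgroup.centralizer ({v} : Set X), a * b = b * a) :
    Nat.card (ConjClasses X) ≤ Nat.card V := by
  classical
  have := Fact.mk hp
  have hVcomm : ∀ a ∈ V, ∀ b ∈ V, a * b = b * a := by
    intro a ha b hb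
    have h1 : b ∈ Subgroup.centralizer (V : Set X) := by rw [hself]; exact hb
    exact Subgroup.mem_centralizer_iff.1 h1 a ha
  have hvp : v ^ p = 1 := hVexp v hv
  obtain ⟨C, hCdef⟩ : ∃ C : Subgroup X, C = G ⊓ Subgroup.centralizer ({v} : Set X) := ⟨_, rfl⟩
  rw [← hCdef] at hab
  have hCv : ∀ c ∈ C, c * v = v * c := by
    intro c hc
    rw [hCdef] at hc
    exact Subgroup.mem_centralizer_singleton_iff.1 (Subgroup.mem_inf.1 hc).2
  have hCG : C ≤ G := by
    rw [hCdef]
    exact inf_le_left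
  have hCcop : (Nat.card C).Coprime p := by
    rw [Nat.coprime_comm, Nat.Prime.coprime_iff_not_dvd hp]
    intro hd
    apply hidx
    rw [hGV.symm.index_eq_card]
    exact dvd_trans hd (Subgroup.card_dvd_of_le hCG)
  have hVinv : ∀ c ∈ C, ∀ w ∈ V, c * w * c⁻¹ ∈ V := fun c _ w hw =>
    (inferInstance : V.Normal).conj_mem w hw c
  obtain ⟨l, hla, hlb⟩ := chain p V hVcomm hVexp C hab hCcop (Nat.card V) V le_rfl hVinv le_rfl
  have hl : ∀ y : C, (∀ K ∈ l, y ∈ K) → y = 1 := by
    intro y hy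
    have h1 : (y : X) ∈ Subgroup.centralizer (V : Set X) := by
      rw [Subgroup.mem_centralizer_iff]
      intro w hw
      exact (hla y hy w hw).symm
    rw [hself] at h1
    have h2 : (y : X) ∈ V ⊓ G := Subgroup.mem_inf.2 ⟨h1, hCG y.2⟩
    rw [disjoint_iff.1 hGV.disjoint, Subgroup.mem_bot] at h2
    exact Subtype.ext h2
  haveI : Fintype C := Fintype.ofFinite _
  haveI : Finite (IrrCharacter X) := Cfsg.Agent.Lib.CT.Wedderburn.finite_irrCharacter X
  haveI : Fintype (IrrCharacter X) := Fintype.ofFinite _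
  obtain ⟨M, hM⟩ := Cfsg.Agent.Lib.CT.Knorr.exists_isPModular p hp
  have hlow : ∀ χ : IrrCharacter X, ((p : ℝ) - 1) * (Fintype.card C : ℝ) ^ 2
      ≤ ∑ j ∈ Finset.Ico 1 p, ∑ y : C, wt l y * ‖(χ : X → ℂ) (v ^ j * (y : X))‖ ^ 2 := by
    intro χ
    obtain ⟨n', ρ, hρirr, hρ⟩ := χ.2
    have hdim : ¬ p ∣ finrank ℂ (Fin n' → ℂ) := by
      intro hd
      haveI := hρirr
      exact hidx (dvd_trans hd (Cfsg.Agent.S0169.result ρ V hVcomm))
    obtain ⟨c, hc⟩ := UnitaryRep.exists_invariant_core ρ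
    letI inst1 : NormedAddCommGroup (Fin n' → ℂ) :=
      @InnerProductSpace.Core.toNormedAddCommGroup ℂ _ _ _ _ c
    letI inst2 : @InnerProductSpace ℂ (Fin n' → ℂ) _ inst1.toSeminormedAddCommGroup :=
      InnerProductSpace.ofCore c.toCore
    have hfd : @FiniteDimensional ℂ (Fin n' → ℂ) _ _ _ := inferInstance
    have h1 := @per_chi X _ (Fin n' → ℂ) inst1 inst2 hfd ρ hc p hp M hM hdim v hvp C _ hab hCv
      l hl
    rw [← hρ]
    exact h1
  have hup : ∀ j ∈ Finset.Ico 1 p, ∀ y : C,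
      wt l y * (Nat.card (Subgroup.centralizer ({v ^ j * (y : X)} : Set X)) : ℝ)
        ≤ (Nat.card V : ℝ) * (Fintype.card C : ℝ) := by
    intro j hj y
    have hj' := Finset.mem_Ico.1 hj
    have hpj : ¬ p ∣ j := fun hd => by
      have := Nat.le_of_dvd (by omega) hd
      omega
    have hyC : (y : X) ∈ G ⊓ Subgroup.centralizer ({v} : Set X) := by
      rw [← hCdef]
      exact y.2
    have h1 := card_centralizer_le p hp V hVcomm hidx G hGV v hv hvord (by rw [← hCdef]; exact hab)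
      (y : X) hyC j hpj
    rw [← hCdef] at h1
    have h2 := hlb y
    have h1R : (Nat.card (Subgroup.centralizer ({v ^ j * (y : X)} : Set X)) : ℝ)
        ≤ (Nat.card ↥(V ⊓ Subgroup.centralizer ({(y : X)} : Set X)) : ℝ) * (Nat.card C : ℝ) := by
      exact_mod_cast h1
    rw [← Nat.card_eq_fintype_card]
    calc wt l y * (Nat.card (Subgroup.centralizer ({v ^ j * (y : X)} : Set X)) : ℝ)
        ≤ wt l y * ((Nat.card ↥(V ⊓ Subgroup.centralizer ({(y : X)} : Set X)) : ℝ)
            * (Nat.card C : ℝ)) := mul_le_mul_of_nonneg_left h1R (wt_pos l y).le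
      _ = (wt l y * (Nat.card ↥(V ⊓ Subgroup.centralizer ({(y : X)} : Set X)) : ℝ))
            * (Nat.card C : ℝ) := by ring
      _ ≤ (Nat.card V : ℝ) * (Nat.card C : ℝ) :=
          mul_le_mul_of_nonneg_right h2 (Nat.cast_nonneg _)
  have horth : ∀ g : X, ∑ χ : IrrCharacter X, ‖(χ : X → ℂ) g‖ ^ 2
      = (Nat.card (Subgroup.centralizer ({g} : Set X)) : ℝ) := by
    intro g
    have h1 := Cfsg.Agent.Lib.Helper3.Orth.second_orthogonality_sum g g
    rw [if_pos (IsConj.refl g)] at h1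
    apply Complex.ofReal_injective
    push_cast
    rw [← h1]
    refine Finset.sum_congr rfl (fun χ _ => ?_)
    exact (Complex.mul_conj' _).symm
  have htot : ∑ χ : IrrCharacter X, ∑ j ∈ Finset.Ico 1 p, ∑ y : C,
      wt l y * ‖(χ : X → ℂ) (v ^ j * (y : X))‖ ^ 2
      = ∑ j ∈ Finset.Ico 1 p, ∑ y : C,
          wt l y * (Nat.card (Subgroup.centralizer ({v ^ j * (y : X)} : Set X)) : ℝ) := by
    rw [Finset.sum_comm]
    refine Finset.sum_congr rfl (fun j _ => ?_)
    rw [Finset.sum_comm]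
    refine Finset.sum_congr rfl (fun y _ => ?_)
    rw [← Finset.mul_sum, horth]
  have h1 : (Fintype.card (IrrCharacter X) : ℝ) * (((p : ℝ) - 1) * (Fintype.card C : ℝ) ^ 2)
      ≤ ∑ χ : IrrCharacter X, ∑ j ∈ Finset.Ico 1 p, ∑ y : C,
          wt l y * ‖(χ : X → ℂ) (v ^ j * (y : X))‖ ^ 2 := by
    have h := Finset.sum_le_sum (fun χ (_ : χ ∈ Finset.univ) => hlow χ)
    rwa [Finset.sum_const, Finset.card_univ, nsmul_eq_mul] at h
  have h2 : ∑ j ∈ Finset.Ico 1 p, ∑ y : C,
      wt l y * (Nat.card (Subgroup.centralizer ({v ^ j * (y : X)} : Set X)) : ℝ)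
      ≤ ((p : ℝ) - 1) * ((Fintype.card C : ℝ) * ((Nat.card V : ℝ) * (Fintype.card C : ℝ))) := by
    have h := Finset.sum_le_sum (fun j hj =>
      Finset.sum_le_sum (fun y (_ : y ∈ Finset.univ) => hup j hj y))
    simp only [Finset.sum_const, Finset.card_univ, nsmul_eq_mul, Nat.card_Ico] at h
    rw [Nat.cast_sub hp.one_lt.le, Nat.cast_one] at h
    exact h
  rw [htot] at h1
  have hpos : 0 < ((p : ℝ) - 1) * (Fintype.card C : ℝ) ^ 2 := by
    have hp1 : (1 : ℝ) < (p : ℝ) := by exact_mod_cast hp.one_lt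
    have hc : (0 : ℝ) < (Fintype.card C : ℝ) := by exact_mod_cast Fintype.card_pos
    positivity
  have h3 : (Fintype.card (IrrCharacter X) : ℝ) * (((p : ℝ) - 1) * (Fintype.card C : ℝ) ^ 2)
      ≤ (Nat.card V : ℝ) * (((p : ℝ) - 1) * (Fintype.card C : ℝ) ^ 2) := by
    calc (Fintype.card (IrrCharacter X) : ℝ) * (((p : ℝ) - 1) * (Fintype.card C : ℝ) ^ 2)
        ≤ ((p : ℝ) - 1) * ((Fintype.card C : ℝ) * ((Nat.card V : ℝ) * (Fintype.card C : ℝ))) :=
          le_trans h1 h2
      _ = (Nat.card V : ℝ) * (((p : ℝ) - 1) * (Fintype.card C : ℝ) ^ 2) := by ring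
  have h4 : (Fintype.card (IrrCharacter X) : ℝ) ≤ (Nat.card V : ℝ) :=
    le_of_mul_le_mul_right h3 hpos
  rw [← Cfsg.Agent.Lib.Helper3.Card.card_irrCharacter, Nat.card_eq_fintype_card]
  exact_mod_cast h4

end Final

/-- Let X be a finite group and V a normal subgroup of X in which every element has order dividing the prime p, whose index in X is prime to p and which is its own centralizer in X; so V is an elementary abelian normal Sylow p-subgroup, and any complement G to V in X is a group of order prime to p acting faithfully on the vector space V by conjugation (the coprime linear setting of the k(GV) problem). Let G be a complement to V in X and suppose that for some v in V the centralizer of v in G is abelian. Then the number of conjugacy classes of X is at most the order of V (the abelian-stabilizer criterion for the k(GV) problem). -/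
theorem result {X : Type*} [Group X] [Finite X] (p : ℕ) [Fact p.Prime] (V : Subgroup X) [V.Normal] (hVexp : ∀ v ∈ V, v ^ p = 1) (hidx : ¬ p ∣ V.index) (hself : Subgroup.centralizer (V : Set X) = V) (G : Subgroup X) (hGV : Subgroup.IsComplement' V G) (v : X) (hv : v ∈ V) (hab : ∀ a ∈ G ⊓ Subgroup.centralizer ({v} : Set X), ∀ b ∈ G ⊓ Subgroup.centralizer ({v} : Set X), a * b = b * a) : Nat.card (ConjClasses X) ≤ Nat.card V := by
  classical
  have hp : p.Prime := Fact.out
  by_cases hVbot : V = ⊥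
  · have hVtop : V = ⊤ := by
      rw [← hself, Subgroup.centralizer_eq_top_iff_subset, hVbot]
      intro x hx
      have hx1 : x = 1 := by simpa using hx
      rw [hx1]
      exact Subgroup.one_mem _
    have h1 : Nat.card (ConjClasses X) ≤ Nat.card X :=
      Nat.card_le_card_of_surjective ConjClasses.mk ConjClasses.mk_surjective
    rw [hVtop, Subgroup.card_top]
    exact h1
  · obtain ⟨v', hv'V, hv'ord, hab'⟩ : ∃ v' ∈ V, orderOf v' = p ∧
        ∀ a ∈ G ⊓ Subgroup.centralizer ({v'} : Set X),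
          ∀ b ∈ G ⊓ Subgroup.centralizer ({v'} : Set X), a * b = b * a := by
      by_cases hv1 : v = 1
      · obtain ⟨⟨v', hv'V⟩, hv'1⟩ := (Subgroup.ne_bot_iff_exists_ne_one).1 hVbot
        have hv'1' : v' ≠ 1 := fun e => hv'1 (Subtype.ext e)
        refine ⟨v', hv'V, orderOf_eq_prime (hVexp v' hv'V) hv'1', ?_⟩
        intro a ha b hb
        have hmem : ∀ c ∈ G ⊓ Subgroup.centralizer ({v'} : Set X),
            c ∈ G ⊓ Subgroup.centralizer ({v} : Set X) := by
          intro c hc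
          refine Subgroup.mem_inf.2 ⟨(Subgroup.mem_inf.1 hc).1, ?_⟩
          rw [Subgroup.mem_centralizer_singleton_iff, hv1, mul_one, one_mul]
        exact hab a (hmem a ha) b (hmem b hb)
      · exact ⟨v, hv, orderOf_eq_prime (hVexp v hv) hv1, hab⟩
    exact main_of_order p hp V hVexp hidx hself G hGV v' hv'V hv'ord hab'

end Cfsg.Agent.S4958
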