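import Cfsg.Statements.S4965
import Mathlib

set_option autoImplicit false
open Cfsg

namespace Cfsg.Agent.S4965

/-- Existence data: a commuting pair of `X` above a pair of cosets. -/
def HasLift {X : Type*} [Group X] (V : Subgroup X) [V.Normal] (q r : X ⧸ V) (z : X × X) : Prop :=
  Commute z.1 z.2 ∧ (QuotientGroup.mk z.1 : X ⧸ V) = q ∧ (QuotientGroup.mk z.2 : X ⧸ V) = r

theorem comm_card_le {X : Type*} [Group X] [Finite X] (V : Subgroup X) [V.Normal]
    (φ : X ⧸ V →* MulAut ↥V)
    (hφ : ∀ (x : X) (v : ↥V), ((φ (QuotientGroup.mk x) v : ↥V) : X) = x * v * x⁻¹) :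
    Nat.card { p : X × X // Commute p.1 p.2 } ≤
      Nat.card { p : SemidirectProduct ↥V (X ⧸ V) φ × SemidirectProduct ↥V (X ⧸ V) φ //
        Commute p.1 p.2 } := by
  classical
  -- chosen base point above each pair of cosets
  let base : (X ⧸ V) → (X ⧸ V) → X × X := fun q r =>
    if h : ∃ z : X × X, HasLift V q r z then Classical.choose h else (1, 1)
  have hbase : ∀ (x y : X), Commute x y →
      HasLift V (QuotientGroup.mk x) (QuotientGroup.mk y)
        (base (QuotientGroup.mk x) (QuotientGroup.mk y)) := by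
    intro x y hxy
    have h : ∃ z : X × X, HasLift V (QuotientGroup.mk x : X ⧸ V) (QuotientGroup.mk y) z :=
      ⟨(x, y), hxy, rfl, rfl⟩
    simp only [base, dif_pos h]
    exact Classical.choose_spec h
  -- membership facts
  have hmem : ∀ (x x₀ : X), (QuotientGroup.mk x₀ : X ⧸ V) = QuotientGroup.mk x → x * x₀⁻¹ ∈ V := by
    intro x x₀ h
    have h1 : (QuotientGroup.mk (x * x₀⁻¹) : X ⧸ V) = 1 := by
      rw [QuotientGroup.mk_mul, QuotientGroup.mk_inv, h, mul_inv_cancel]
    exact (QuotientGroup.eq_one_iff _).1 h1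
  have hφ' : ∀ (q : X ⧸ V) (x₀ : X), (QuotientGroup.mk x₀ : X ⧸ V) = q → ∀ v : ↥V,
      ((φ q v : ↥V) : X) = x₀ * v * x₀⁻¹ := by
    rintro _ x₀ rfl v
    exact hφ x₀ v
  let F : { p : X × X // Commute p.1 p.2 } →
      SemidirectProduct ↥V (X ⧸ V) φ × SemidirectProduct ↥V (X ⧸ V) φ := fun p =>
    let z := base (QuotientGroup.mk p.1.1) (QuotientGroup.mk p.1.2)
    (⟨⟨p.1.1 * z.1⁻¹, hmem _ _ (hbase _ _ p.2).2.1⟩, QuotientGroup.mk p.1.1⟩,
     ⟨⟨p.1.2 * z.2⁻¹, hmem _ _ (hbase _ _ p.2).2.2⟩, QuotientGroup.mk p.1.2⟩)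
  have hF : ∀ p, Commute (F p).1 (F p).2 := by
    rintro ⟨⟨x, y⟩, hxy⟩
    have hb := hbase x y hxy
    set z := base (QuotientGroup.mk x : X ⧸ V) (QuotientGroup.mk y) with hz
    obtain ⟨hc, h1, h2⟩ := hb
    have hxy' : x * y = y * x := hxy
    have hc' : z.1 * z.2 = z.2 * z.1 := hc
    have hinv : z.2⁻¹ * z.1⁻¹ = z.1⁻¹ * z.2⁻¹ := by
      rw [← mul_inv_rev, ← mul_inv_rev, hc']
    show (F ⟨(x, y), hxy⟩).1 * (F ⟨(x, y), hxy⟩).2 = (F ⟨(x, y), hxy⟩).2 * (F ⟨(x, y), hxy⟩).1
    apply SemidirectProduct.ext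
    · apply Subtype.ext
      simp only [F, SemidirectProduct.mul_left, Subgroup.coe_mul]
      rw [hφ' _ z.1 h1, hφ' _ z.2 h2]
      simp only [← hz]
      calc x * z.1⁻¹ * (z.1 * (y * z.2⁻¹) * z.1⁻¹) = x * y * (z.2⁻¹ * z.1⁻¹) := by group
        _ = y * x * (z.1⁻¹ * z.2⁻¹) := by rw [hxy', hinv]
        _ = y * z.2⁻¹ * (z.2 * (x * z.1⁻¹) * z.2⁻¹) := by group
    · simp only [F, SemidirectProduct.mul_right]
      rw [← QuotientGroup.mk_mul, ← QuotientGroup.mk_mul, hxy']
  have hinj : Function.Injective (fun p => (⟨F p, hF p⟩ :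
      { p : SemidirectProduct ↥V (X ⧸ V) φ × SemidirectProduct ↥V (X ⧸ V) φ //
        Commute p.1 p.2 })) := by
    rintro ⟨⟨x, y⟩, hxy⟩ ⟨⟨x', y'⟩, hxy'⟩ h
    have h' := congrArg Subtype.val h
    simp only [F, Prod.mk.injEq] at h'
    obtain ⟨h1, h2⟩ := h'
    have hq : (QuotientGroup.mk x : X ⧸ V) = QuotientGroup.mk x' := congrArg (fun s => s.right) h1
    have hr : (QuotientGroup.mk y : X ⧸ V) = QuotientGroup.mk y' := congrArg (fun s => s.right) h2
    have ha := congrArg (fun s => ((s.left : ↥V) : X)) h1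
    have hb := congrArg (fun s => ((s.left : ↥V) : X)) h2
    simp only at ha hb
    rw [← hq, ← hr] at ha
    rw [← hq, ← hr] at hb
    have hx : x = x' := mul_right_cancel ha
    have hy : y = y' := mul_right_cancel hb
    subst hx; subst hy; rfl
  have : Finite (SemidirectProduct ↥V (X ⧸ V) φ) :=
    Finite.of_equiv _ SemidirectProduct.equivProd.symm
  exact Nat.card_le_card_of_injective _ hinj

/-- Let X be a finite group with an abelian normal subgroup V (any two elements of V commute), and let φ be the action of X ⧸ V on V induced by conjugation (well defined because V is abelian; the hypothesis hφ says that the class of x acts as conjugation by x). Then X has at most as many conjugacy classes as the semidirect product of V by X ⧸ V formed with this action: the split extension has the largest class number among extensions with the given action. -/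
theorem result {X : Type*} [Group X] [Finite X] (V : Subgroup X) [V.Normal] (hab : ∀ a ∈ V, ∀ b ∈ V, a * b = b * a) (φ : X ⧸ V →* MulAut ↥V) (hφ : ∀ (x : X) (v : ↥V), ((φ (QuotientGroup.mk x) v : ↥V) : X) = x * v * x⁻¹) : Nat.card (ConjClasses X) ≤ Nat.card (ConjClasses (SemidirectProduct ↥V (X ⧸ V) φ)) := by
  have h1 := comm_card_le V φ hφ
  rw [card_comm_eq_card_conjClasses_mul_card, card_comm_eq_card_conjClasses_mul_card] at h1
  have h2 : Nat.card (SemidirectProduct ↥V (X ⧸ V) φ) = Nat.card X := by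
    rw [SemidirectProduct.card, mul_comm]
    exact (Subgroup.card_eq_card_quotient_mul_card_subgroup V).symm
  rw [h2] at h1
  exact Nat.le_of_mul_le_mul_right h1 Nat.card_pos

end Cfsg.Agent.S4965
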