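import Cfsg.Statements.S4966
import Mathlib

set_option autoImplicit false
open Cfsg

namespace Cfsg.Agent.S4966

section
variable {F : Type*} [Field F] {G : Type*} [Group G] {V : Type*} [AddCommGroup V] [Module F V]

/-- invariant subspace -/
def Inv (ρ : Representation F G V) (Y : Submodule F V) : Prop := ∀ g : G, ∀ y ∈ Y, ρ g y ∈ Y

/-- invariance of a form on a subspace -/
def InvOn (ρ : Representation F G V) (B : LinearMap.BilinForm F V) (Y : Submodule F V) : Prop :=
  ∀ g : G, ∀ x ∈ Y, ∀ y ∈ Y, B (ρ g x) (ρ g y) = B x y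

/-- right nondegeneracy on a subspace -/
def NdR (B : LinearMap.BilinForm F V) (Y : Submodule F V) : Prop :=
  ∀ y ∈ Y, (∀ x ∈ Y, B x y = 0) → y = 0

/-- irreducible invariant subspace -/
def Irr (ρ : Representation F G V) (X : Submodule F V) : Prop :=
  Inv ρ X ∧ X ≠ ⊥ ∧ ∀ X' : Submodule F V, X' ≤ X → Inv ρ X' → X' = ⊥ ∨ X' = X

theorem rho_cancel (ρ : Representation F G V) (g : G) (v : V) : ρ g (ρ g⁻¹ v) = v := by
  rw [← Module.End.mul_apply, ← map_mul, mul_inv_cancel, map_one, Module.End.one_apply]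

theorem rho_cancel' (ρ : Representation F G V) (g : G) (v : V) : ρ g⁻¹ (ρ g v) = v := by
  rw [← Module.End.mul_apply, ← map_mul, inv_mul_cancel, map_one, Module.End.one_apply]

theorem inv_bot (ρ : Representation F G V) : Inv ρ (⊥ : Submodule F V) := by
  intro g y hy
  rw [Submodule.mem_bot] at hy ⊢
  rw [hy, map_zero]

theorem inv_sup (ρ : Representation F G V) {P Q : Submodule F V} (hP : Inv ρ P) (hQ : Inv ρ Q) :
    Inv ρ (P ⊔ Q) := by
  intro g y hy
  obtain ⟨a, ha, b, hb, rfl⟩ := Submodule.mem_sup.mp hy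
  rw [map_add]
  exact Submodule.add_mem _ (Submodule.mem_sup_left (hP g a ha)) (Submodule.mem_sup_right (hQ g b hb))

theorem exists_irr [FiniteDimensional F V] (ρ : Representation F G V) :
    ∀ n : ℕ, ∀ Y : Submodule F V, Module.finrank F Y = n → Inv ρ Y → Y ≠ ⊥ →
      ∃ X ≤ Y, Irr ρ X := by
  intro n
  induction n using Nat.strong_induction_on with
  | _ n ih =>
    intro Y hn hY hne
    by_cases h : ∀ X' : Submodule F V, X' ≤ Y → Inv ρ X' → X' = ⊥ ∨ X' = Y
    · exact ⟨Y, le_rfl, hY, hne, h⟩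
    · push Not at h
      obtain ⟨X', hle, hinv, hne1, hne2⟩ := h
      have hlt : X' < Y := lt_of_le_of_ne hle hne2
      have hfl := Submodule.finrank_lt_finrank_of_lt hlt
      obtain ⟨X, hX, hirr⟩ := ih _ (hn ▸ hfl) X' rfl hinv hne1
      exact ⟨X, hX.trans hle, hirr⟩

theorem exists_proj_pair (P Q : Submodule F V) (h : P ⊓ Q = ⊥) :
    ∃ π₁ π₂ : V →ₗ[F] V, (∀ x ∈ P, π₁ x = x) ∧ (∀ x ∈ Q, π₁ x = 0) ∧ (∀ v, π₁ v ∈ P) ∧
      (∀ x ∈ P, π₂ x = 0) ∧ (∀ x ∈ Q, π₂ x = x) ∧ (∀ v, π₂ v ∈ Q) := by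
  obtain ⟨C, hC⟩ := Submodule.exists_isCompl (P ⊔ Q)
  have hd : Disjoint P Q := disjoint_iff.mpr h
  have h1 : IsCompl P (Q ⊔ C) :=
    ⟨hd.disjoint_sup_right_of_disjoint_sup_left hC.disjoint, by
      rw [codisjoint_iff, ← sup_assoc]; exact hC.sup_eq_top⟩
  have h2 : IsCompl Q (P ⊔ C) :=
    ⟨hd.symm.disjoint_sup_right_of_disjoint_sup_left (by rw [sup_comm]; exact hC.disjoint), by
      rw [codisjoint_iff, ← sup_assoc, sup_comm Q P]; exact hC.sup_eq_top⟩
  refine ⟨P.subtype ∘ₗ Submodule.projectionOnto P (Q ⊔ C) h1,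
    Q.subtype ∘ₗ Submodule.projectionOnto Q (P ⊔ C) h2, ?_, ?_, ?_, ?_, ?_, ?_⟩
  · intro x hx
    have := Submodule.projectionOnto_apply_left h1 ⟨x, hx⟩
    simp only [LinearMap.comp_apply, Submodule.subtype_apply]
    exact congrArg Subtype.val this
  · intro x hx
    have hx' : x ∈ Q ⊔ C := Submodule.mem_sup_left hx
    have := (Submodule.projectionOnto_apply_eq_zero_iff h1).mpr hx'
    simp only [LinearMap.comp_apply, Submodule.subtype_apply, this, ZeroMemClass.coe_zero]
  · intro v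
    simp only [LinearMap.comp_apply, Submodule.subtype_apply]
    exact Subtype.mem _
  · intro x hx
    have hx' : x ∈ P ⊔ C := Submodule.mem_sup_left hx
    have := (Submodule.projectionOnto_apply_eq_zero_iff h2).mpr hx'
    simp only [LinearMap.comp_apply, Submodule.subtype_apply, this, ZeroMemClass.coe_zero]
  · intro x hx
    have := Submodule.projectionOnto_apply_left h2 ⟨x, hx⟩
    simp only [LinearMap.comp_apply, Submodule.subtype_apply]
    exact congrArg Subtype.val this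
  · intro v
    simp only [LinearMap.comp_apply, Submodule.subtype_apply]
    exact Subtype.mem _

theorem exists_equivariant_proj [Finite G] (ρ : Representation F G V)
    (hcard : (Nat.card G : F) ≠ 0) (T : Submodule F V) (hT : Inv ρ T) :
    ∃ π : V →ₗ[F] V, (∀ t ∈ T, π t = t) ∧ (∀ v, π v ∈ T) ∧
      (∀ g v, π (ρ g v) = ρ g (π v)) := by
  classical
  have := Fintype.ofFinite G
  obtain ⟨-, π₀, -, -, -, -, h2, h3⟩ := exists_proj_pair (⊥ : Submodule F V) T (by simp)
  refine ⟨(Nat.card G : F)⁻¹ • ∑ g : G, ρ g ∘ₗ π₀ ∘ₗ ρ g⁻¹, ?_, ?_, ?_⟩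
  · intro t ht
    simp only [LinearMap.smul_apply, LinearMap.sum_apply, LinearMap.comp_apply]
    have hg : ∀ g : G, ρ g (π₀ (ρ g⁻¹ t)) = t := by
      intro g
      rw [h2 _ (hT g⁻¹ t ht)]
      exact rho_cancel ρ g t
    rw [Finset.sum_congr rfl (fun g _ => hg g), Finset.sum_const, Finset.card_univ,
      ← Nat.card_eq_fintype_card, ← Nat.cast_smul_eq_nsmul F, smul_smul, inv_mul_cancel₀ hcard,
      one_smul]
  · intro v
    simp only [LinearMap.smul_apply, LinearMap.sum_apply, LinearMap.comp_apply]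
    apply T.smul_mem
    apply T.sum_mem
    intro g _
    exact hT g _ (h3 _)
  · intro h v
    simp only [LinearMap.smul_apply, LinearMap.sum_apply, LinearMap.comp_apply, map_smul,
      map_sum]
    congr 1
    symm
    apply Fintype.sum_equiv (Equiv.mulLeft h)
    intro g
    simp only [Equiv.coe_mulLeft, mul_inv_rev, map_mul, Module.End.mul_apply]
    rw [rho_cancel']

theorem exists_compl_in [Finite G] (ρ : Representation F G V)
    (hcard : (Nat.card G : F) ≠ 0) (T Y : Submodule F V) (hT : Inv ρ T) (hY : Inv ρ Y)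
    (hTY : T ≤ Y) :
    ∃ Z : Submodule F V, Inv ρ Z ∧ Z ≤ Y ∧ T ⊓ Z = ⊥ ∧ T ⊔ Z = Y := by
  obtain ⟨π, h1, h2, h3⟩ := exists_equivariant_proj ρ hcard T hT
  refine ⟨Y ⊓ LinearMap.ker π, ?_, inf_le_left, ?_, ?_⟩
  · intro g y hy
    refine ⟨hY g y hy.1, ?_⟩
    have hk : π y = 0 := hy.2
    show π (ρ g y) = 0
    rw [h3, hk, map_zero]
  · rw [eq_bot_iff]
    intro t ht
    have hk : π t = 0 := ht.2.2
    rw [h1 t ht.1] at hk
    exact (Submodule.mem_bot F).mpr hk
  · apply le_antisymm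
    · exact sup_le hTY inf_le_left
    · intro y hy
      rw [Submodule.mem_sup]
      refine ⟨π y, h2 y, y - π y, ⟨Submodule.sub_mem _ hy (hTY (h2 y)), ?_⟩, by abel⟩
      show π (y - π y) = 0
      rw [map_sub, h1 _ (h2 y), sub_self]

/-- right orthogonal of `P` inside `Y` -/
def orth (B : LinearMap.BilinForm F V) (P Y : Submodule F V) : Submodule F V where
  carrier := {y | y ∈ Y ∧ ∀ x ∈ P, B x y = 0}
  add_mem' := by
    intro a b ha hb
    refine ⟨Y.add_mem ha.1 hb.1, fun x hx => ?_⟩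
    rw [map_add, ha.2 x hx, hb.2 x hx, add_zero]
  zero_mem' := ⟨Y.zero_mem, fun x _ => by simp⟩
  smul_mem' := by
    intro c a ha
    refine ⟨Y.smul_mem c ha.1, fun x hx => ?_⟩
    rw [map_smul, ha.2 x hx, smul_zero]

theorem mem_orth {B : LinearMap.BilinForm F V} {P Y : Submodule F V} {y : V} :
    y ∈ orth B P Y ↔ y ∈ Y ∧ ∀ x ∈ P, B x y = 0 := Iff.rfl

theorem orth_le (B : LinearMap.BilinForm F V) (P Y : Submodule F V) : orth B P Y ≤ Y :=
  fun _ hy => hy.1

theorem orth_inv (ρ : Representation F G V) {B : LinearMap.BilinForm F V}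
    {P Y₀ Y₁ : Submodule F V} (hP : Inv ρ P) (hY0 : Inv ρ Y₀) (hB : InvOn ρ B Y₁)
    (hP1 : P ≤ Y₁) (h01 : Y₀ ≤ Y₁) : Inv ρ (orth B P Y₀) := by
  intro g y hy
  refine ⟨hY0 g y hy.1, fun x hx => ?_⟩
  have h1 := hB g (ρ g⁻¹ x) (hP1 (hP g⁻¹ x hx)) y (h01 hy.1)
  rw [rho_cancel] at h1
  rw [h1]
  exact hy.2 _ (hP g⁻¹ x hx)

theorem invOn_flip (ρ : Representation F G V) {B : LinearMap.BilinForm F V}
    {Y : Submodule F V} (hB : InvOn ρ B Y) : InvOn ρ B.flip Y := by
  intro g x hx y hy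
  show B (ρ g y) (ρ g x) = B y x
  exact hB g y hy x hx

theorem invOn_mono (ρ : Representation F G V) {B : LinearMap.BilinForm F V}
    {Y Y' : Submodule F V} (hB : InvOn ρ B Y) (h : Y' ≤ Y) : InvOn ρ B Y' :=
  fun g x hx y hy => hB g x (h hx) y (h hy)

theorem orth_split [FiniteDimensional F V] (ρ : Representation F G V)
    (B : LinearMap.BilinForm F V) (P Y : Submodule F V) (hPY : P ≤ Y) (hP : Inv ρ P)
    (hY : Inv ρ Y) (hB : InvOn ρ B Y) (hndP : NdR B P) (hndY : NdR B Y) :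
    Inv ρ (orth B P Y) ∧ P ⊓ orth B P Y = ⊥ ∧ P ⊔ orth B P Y = Y ∧ NdR B (orth B P Y) := by
  have hinv : Inv ρ (orth B P Y) := orth_inv ρ hP hY hB hPY le_rfl
  have hinf : P ⊓ orth B P Y = ⊥ := by
    rw [eq_bot_iff]
    intro y hy
    exact (Submodule.mem_bot F).mpr (hndP y hy.1 hy.2.2)
  have hsup : P ⊔ orth B P Y = Y := by
    apply le_antisymm (sup_le hPY (orth_le B P Y))
    intro y hy
    -- the map P → Dual P
    let Φ : ↥P →ₗ[F] Module.Dual F ↥P := B.flip.compl₁₂ P.subtype P.subtype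
    have hΦ : ∀ a x : ↥P, Φ a x = B (x : V) (a : V) := fun a x => rfl
    have hinj : Function.Injective Φ := by
      rw [← LinearMap.ker_eq_bot, LinearMap.ker_eq_bot']
      intro a ha
      apply Subtype.ext
      apply hndP a a.2
      intro x hx
      have h0 : Φ a ⟨x, hx⟩ = 0 := by rw [ha]; rfl
      rw [hΦ] at h0
      exact h0
    have hsurj : Function.Surjective Φ :=
      (LinearMap.injective_iff_surjective_of_finrank_eq_finrank
        (Subspace.dual_finrank_eq).symm).mp hinj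
    let φ : Module.Dual F ↥P := (B.flip y).comp P.subtype
    obtain ⟨a, ha⟩ := hsurj φ
    rw [Submodule.mem_sup]
    refine ⟨a, a.2, y - a, ⟨Y.sub_mem hy (hPY a.2), fun x hx => ?_⟩, by abel⟩
    have h1 : Φ a ⟨x, hx⟩ = φ ⟨x, hx⟩ := by rw [ha]
    rw [hΦ] at h1
    rw [map_sub, h1]
    simp [φ]
  refine ⟨hinv, hinf, hsup, ?_⟩
  intro y hy h
  apply hndY y hy.1
  intro v hv
  rw [← hsup] at hv
  obtain ⟨a, ha, b, hb, rfl⟩ := Submodule.mem_sup.mp hv
  rw [map_add, LinearMap.add_apply, hy.2 a ha, h b hb, add_zero]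

theorem glue_form (ρ : Representation F G V) (P Q : Submodule F V) (hPQ : P ⊓ Q = ⊥)
    (hP : Inv ρ P) (hQ : Inv ρ Q) (A₁ A₂ : LinearMap.BilinForm F V) (h1 : InvOn ρ A₁ P)
    (h2 : InvOn ρ A₂ Q) (n1 : NdR A₁ P) (n2 : NdR A₂ Q) :
    ∃ A : LinearMap.BilinForm F V, InvOn ρ A (P ⊔ Q) ∧ NdR A (P ⊔ Q) ∧
      ((∀ x, A₁ x x = 0) → (∀ x, A₂ x x = 0) → ∀ x, A x x = 0) ∧
      ((∀ x y, A₁ x y = A₁ y x) → (∀ x y, A₂ x y = A₂ y x) → ∀ x y, A x y = A y x) := by
  obtain ⟨π₁, π₂, p1, p2, p3, q1, q2, q3⟩ := exists_proj_pair P Q hPQ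
  have hπ1 : ∀ a ∈ P, ∀ b ∈ Q, π₁ (a + b) = a := by
    intro a ha b hb
    rw [map_add, p1 a ha, p2 b hb, add_zero]
  have hπ2 : ∀ a ∈ P, ∀ b ∈ Q, π₂ (a + b) = b := by
    intro a ha b hb
    rw [map_add, q1 a ha, q2 b hb, zero_add]
  refine ⟨A₁.compl₁₂ π₁ π₁ + A₂.compl₁₂ π₂ π₂, ?_, ?_, ?_, ?_⟩
  · intro g x hx y hy
    obtain ⟨a, ha, b, hb, rfl⟩ := Submodule.mem_sup.mp hx
    obtain ⟨a', ha', b', hb', rfl⟩ := Submodule.mem_sup.mp hy
    simp only [LinearMap.add_apply, LinearMap.compl₁₂_apply]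
    rw [map_add (ρ g) a b, map_add (ρ g) a' b', hπ1 _ (hP g a ha) _ (hQ g b hb),
      hπ1 _ (hP g a' ha') _ (hQ g b' hb'), hπ2 _ (hP g a ha) _ (hQ g b hb),
      hπ2 _ (hP g a' ha') _ (hQ g b' hb'), hπ1 a ha b hb, hπ1 a' ha' b' hb', hπ2 a ha b hb,
      hπ2 a' ha' b' hb', h1 g a ha a' ha', h2 g b hb b' hb']
  · intro y hy h
    obtain ⟨a', ha', b', hb', rfl⟩ := Submodule.mem_sup.mp hy
    have ha0 : a' = 0 := by
      apply n1 a' ha'
      intro a ha
      have := h a (Submodule.mem_sup_left ha)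
      simp only [LinearMap.add_apply, LinearMap.compl₁₂_apply] at this
      rw [hπ1 a' ha' b' hb', hπ2 a' ha' b' hb', p1 a ha, q1 a ha] at this
      simpa using this
    have hb0 : b' = 0 := by
      apply n2 b' hb'
      intro b hb
      have := h b (Submodule.mem_sup_right hb)
      simp only [LinearMap.add_apply, LinearMap.compl₁₂_apply] at this
      rw [hπ1 a' ha' b' hb', hπ2 a' ha' b' hb', p2 b hb, q2 b hb] at this
      simpa using this
    rw [ha0, hb0, add_zero]
  · intro k1 k2 x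
    simp only [LinearMap.add_apply, LinearMap.compl₁₂_apply]
    rw [k1, k2, add_zero]
  · intro k1 k2 x y
    simp only [LinearMap.add_apply, LinearMap.compl₁₂_apply]
    rw [k1 (π₁ x), k2 (π₂ x)]

/-- the conclusion, relative to an invariant subspace `Y` -/
def Good (ρ : Representation F G V) (p : ℕ) (Y : Submodule F V) : Prop :=
  ∃ U W : Submodule F V, U ⊓ W = ⊥ ∧ U ⊔ W = Y ∧ Inv ρ U ∧ Inv ρ W ∧
    (∃ A : LinearMap.BilinForm F V, (∀ x, A x x = 0) ∧ InvOn ρ A U ∧ NdR A U) ∧
    (∃ S : LinearMap.BilinForm F V, (∀ x y, S x y = S y x) ∧ InvOn ρ S W ∧ NdR S W) ∧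
    (p = 2 → ∀ g : G, ∀ w ∈ W, ρ g w = w)

theorem good_glue_alt (ρ : Representation F G V) (p : ℕ) (P Y' Y : Submodule F V)
    (hPY' : P ⊓ Y' = ⊥) (hsum : P ⊔ Y' = Y) (hP : Inv ρ P) (hgood : Good ρ p Y')
    (A_P : LinearMap.BilinForm F V) (halt : ∀ x, A_P x x = 0) (hinv : InvOn ρ A_P P)
    (hnd : NdR A_P P) : Good ρ p Y := by
  obtain ⟨U, W, hUW, hsup, hU, hW, ⟨A, hAalt, hAinv, hAnd⟩, hS, htriv⟩ := hgood
  have hUY' : U ≤ Y' := hsup ▸ le_sup_left
  have hWY' : W ≤ Y' := hsup ▸ le_sup_right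
  have hPU : P ⊓ U = ⊥ := by
    rw [eq_bot_iff, ← hPY']
    exact inf_le_inf_left P hUY'
  obtain ⟨A', hA'inv, hA'nd, hA'alt, -⟩ := glue_form ρ P U hPU hP hU A_P A hinv hAinv hnd hAnd
  refine ⟨P ⊔ U, W, ?_, ?_, inv_sup ρ hP hU, hW, ⟨A', hA'alt halt hAalt, hA'inv, hA'nd⟩, hS,
    htriv⟩
  · rw [eq_bot_iff]
    intro x hx
    obtain ⟨a, ha, b, hb, hab⟩ := Submodule.mem_sup.mp hx.1
    have hxW : x ∈ W := hx.2
    have ha0 : a ∈ P ⊓ Y' := by
      refine ⟨ha, ?_⟩
      have : a = x - b := by rw [← hab]; abel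
      rw [this]
      exact Y'.sub_mem (hWY' hxW) (hUY' hb)
    rw [hPY'] at ha0
    have ha0' : a = 0 := (Submodule.mem_bot F).mp ha0
    have hbx : b = x := by rw [← hab, ha0', zero_add]
    have : x ∈ U ⊓ W := ⟨hbx ▸ hb, hxW⟩
    rw [hUW] at this
    exact this
  · rw [sup_assoc, hsup, hsum]

theorem good_glue_sym (ρ : Representation F G V) (p : ℕ) (P Y' Y : Submodule F V)
    (hPY' : P ⊓ Y' = ⊥) (hsum : P ⊔ Y' = Y) (hP : Inv ρ P) (hgood : Good ρ p Y')
    (S_P : LinearMap.BilinForm F V) (hsym : ∀ x y, S_P x y = S_P y x) (hinv : InvOn ρ S_P P)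
    (hnd : NdR S_P P) (htrivP : p = 2 → ∀ g : G, ∀ x ∈ P, ρ g x = x) : Good ρ p Y := by
  obtain ⟨U, W, hUW, hsup, hU, hW, hA, ⟨S, hSsym, hSinv, hSnd⟩, htriv⟩ := hgood
  have hUY' : U ≤ Y' := hsup ▸ le_sup_left
  have hWY' : W ≤ Y' := hsup ▸ le_sup_right
  have hPW : P ⊓ W = ⊥ := by
    rw [eq_bot_iff, ← hPY']
    exact inf_le_inf_left P hWY'
  obtain ⟨S', hS'inv, hS'nd, -, hS'sym⟩ := glue_form ρ P W hPW hP hW S_P S hinv hSinv hnd hSnd
  refine ⟨U, P ⊔ W, ?_, ?_, hU, inv_sup ρ hP hW, hA, ⟨S', hS'sym hsym hSsym, hS'inv, hS'nd⟩,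
    ?_⟩
  · rw [eq_bot_iff]
    intro x hx
    obtain ⟨a, ha, b, hb, hab⟩ := Submodule.mem_sup.mp hx.2
    have hxU : x ∈ U := hx.1
    have ha0 : a ∈ P ⊓ Y' := by
      refine ⟨ha, ?_⟩
      have : a = x - b := by rw [← hab]; abel
      rw [this]
      exact Y'.sub_mem (hUY' hxU) (hWY' hb)
    rw [hPY'] at ha0
    have ha0' : a = 0 := (Submodule.mem_bot F).mp ha0
    have hbx : b = x := by rw [← hab, ha0', zero_add]
    have : x ∈ U ⊓ W := ⟨hxU, hbx ▸ hb⟩
    rw [hUW] at this
    exact this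
  · rw [sup_left_comm, hsup, hsum]
  · intro hp g w hw
    obtain ⟨a, ha, b, hb, rfl⟩ := Submodule.mem_sup.mp hw
    rw [map_add, htrivP hp g a ha, htriv hp g b hb]

theorem finrank_lt_of_split [FiniteDimensional F V] {P Y' Y : Submodule F V} (hinf : P ⊓ Y' = ⊥)
    (hsup : P ⊔ Y' = Y) (hP : P ≠ ⊥) : Module.finrank F Y' < Module.finrank F Y := by
  have h1 := Submodule.finrank_sup_add_finrank_inf_eq P Y'
  rw [hinf, hsup, finrank_bot, add_zero] at h1
  have h2 : 0 < Module.finrank F P := Nat.pos_of_ne_zero (mt Submodule.finrank_eq_zero.mp hP)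
  omega

theorem good_of [FiniteDimensional F V] [Finite G] (ρ : Representation F G V) (p : ℕ)
    (hcard : (Nat.card G : F) ≠ 0) (h2 : p = 2 → (2 : F) = 0) (h2' : p ≠ 2 → (2 : F) ≠ 0) :
    ∀ n : ℕ, ∀ (Y : Submodule F V) (B : LinearMap.BilinForm F V), Module.finrank F Y = n →
      Inv ρ Y → InvOn ρ B Y → NdR B Y → Good ρ p Y := by
  intro n
  induction n using Nat.strong_induction_on with
  | _ n ih =>
  intro Y B hn hY hB hnd
  let R : Submodule F V :=
    { carrier := {x | x ∈ Y ∧ ∀ w ∈ Y, B w x = - B x w}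
      add_mem' := by
        intro a b ha hb
        refine ⟨Y.add_mem ha.1 hb.1, fun w hw => ?_⟩
        rw [map_add, map_add, LinearMap.add_apply, ha.2 w hw, hb.2 w hw, neg_add]
      zero_mem' := ⟨Y.zero_mem, fun w _ => by simp⟩
      smul_mem' := by
        intro c a ha
        refine ⟨Y.smul_mem c ha.1, fun w hw => ?_⟩
        rw [map_smul, map_smul, LinearMap.smul_apply, ha.2 w hw, smul_neg] }
  by_cases hR : R = ⊥
  · have hndC : NdR (B + B.flip) Y := by
      intro y hy h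
      have hyR : y ∈ R := by
        refine ⟨hy, fun w hw => ?_⟩
        have h1 : B w y + B y w = 0 := h w hw
        exact eq_neg_of_add_eq_zero_left h1
      rw [hR] at hyR
      exact (Submodule.mem_bot F).mp hyR
    have hinvC : InvOn ρ (B + B.flip) Y := by
      intro g x hx y hy
      rw [LinearMap.add_apply, LinearMap.add_apply]
      show B (ρ g x) (ρ g y) + B (ρ g y) (ρ g x) = B x y + B y x
      rw [hB g x hx y hy, hB g y hy x hx]
    have hsym : ∀ x y, (B + B.flip) x y = (B + B.flip) y x := by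
      intro x y
      rw [LinearMap.add_apply, LinearMap.add_apply]
      show B x y + B y x = B y x + B x y
      exact add_comm _ _
    have hzero_nd : NdR (0 : LinearMap.BilinForm F V) ⊥ := by
      intro y hy _
      exact (Submodule.mem_bot F).mp hy
    have hzero_inv : InvOn ρ (0 : LinearMap.BilinForm F V) ⊥ := by
      intro g x _ y _
      simp
    by_cases hp : p = 2
    · refine ⟨Y, ⊥, inf_bot_eq _, sup_bot_eq _, hY, inv_bot ρ, ⟨B + B.flip, ?_, hinvC, hndC⟩,
        ⟨0, fun x y => by simp, hzero_inv, hzero_nd⟩, fun _ g w hw => ?_⟩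
      · intro x
        rw [LinearMap.add_apply]
        show B x x + B x x = 0
        rw [← two_mul, h2 hp, zero_mul]
      · rw [Submodule.mem_bot] at hw
        rw [hw, map_zero]
    · exact ⟨⊥, Y, bot_inf_eq _, bot_sup_eq _, inv_bot ρ, hY,
        ⟨0, fun x => by simp, hzero_inv, hzero_nd⟩, ⟨B + B.flip, hsym, hinvC, hndC⟩,
        fun h => absurd h hp⟩
  · have hRY : R ≤ Y := fun x hx => hx.1
    have hRinv : Inv ρ R := by
      intro g x hx
      refine ⟨hY g x hx.1, fun w hw => ?_⟩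
      have h1 := hB g (ρ g⁻¹ w) (hY g⁻¹ w hw) x hx.1
      have h3 := hB g x hx.1 (ρ g⁻¹ w) (hY g⁻¹ w hw)
      rw [rho_cancel] at h1 h3
      rw [h1, h3]
      exact hx.2 _ (hY g⁻¹ w hw)
    obtain ⟨X, hXR, hXirr⟩ := exists_irr ρ _ R rfl hRinv hR
    obtain ⟨hXinv, hXne, hXmin⟩ := hXirr
    have hXY : X ≤ Y := hXR.trans hRY
    have hXs : ∀ x ∈ X, ∀ w ∈ Y, B w x = - B x w := fun x hx => (hXR hx).2
    have hBX : InvOn ρ B X := invOn_mono ρ hB hXY
    by_cases hXX : ∀ x ∈ X, ∀ x' ∈ X, B x x' = 0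
    · -- hyperbolic case
      obtain ⟨x₀, hx₀, hx₀ne⟩ := Submodule.exists_mem_ne_zero_of_ne_bot hXne
      have hTinv : Inv ρ (orth B X Y) := orth_inv ρ hXinv hY hB hXY le_rfl
      have hTne : orth B X Y ≠ Y := by
        intro hT
        apply hx₀ne
        apply hnd x₀ (hXY hx₀)
        intro w hw
        have hwT : w ∈ orth B X Y := by rw [hT]; exact hw
        rw [hXs x₀ hx₀ w hw, hwT.2 x₀ hx₀, neg_zero]
      obtain ⟨Z₀, hZ₀inv, hZ₀Y, hTZ, hTZsup⟩ :=
        exists_compl_in ρ hcard (orth B X Y) Y hTinv hY (orth_le B X Y)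
      have hZ₀ne : Z₀ ≠ ⊥ := by
        intro h0
        rw [h0, sup_bot_eq] at hTZsup
        exact hTne hTZsup
      obtain ⟨Z, hZZ₀, hZinv, hZne, hZmin⟩ := exists_irr ρ _ Z₀ rfl hZ₀inv hZ₀ne
      have hZY : Z ≤ Y := hZZ₀.trans hZ₀Y
      obtain ⟨z₀, hz₀, hz₀ne⟩ := Submodule.exists_mem_ne_zero_of_ne_bot hZne
      have hz₀T : z₀ ∉ orth B X Y := by
        intro h
        have hz : z₀ ∈ orth B X Y ⊓ Z₀ := ⟨h, hZZ₀ hz₀⟩
        rw [hTZ] at hz
        exact hz₀ne ((Submodule.mem_bot F).mp hz)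
      have hex : ∃ x ∈ X, B x z₀ ≠ 0 := by
        by_contra hcon
        push Not at hcon
        exact hz₀T ⟨hZY hz₀, hcon⟩
      obtain ⟨x₁, hx₁, hx₁z⟩ := hex
      have hRZ : orth B X Z = ⊥ := by
        have hinvO : Inv ρ (orth B X Z) := orth_inv ρ hXinv hZinv hB hXY hZY
        rcases hZmin _ (orth_le B X Z) hinvO with h0 | h0
        · exact h0
        · exfalso
          have hz : z₀ ∈ orth B X Z := by rw [h0]; exact hz₀
          exact hx₁z (hz.2 x₁ hx₁)
      have hLX : orth B.flip Z X = ⊥ := by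
        have hinvO : Inv ρ (orth B.flip Z X) :=
          orth_inv ρ hZinv hXinv (invOn_flip ρ hB) hZY hXY
        rcases hXmin _ (orth_le B.flip Z X) hinvO with h0 | h0
        · exact h0
        · exfalso
          have hx : x₁ ∈ orth B.flip Z X := by rw [h0]; exact hx₁
          exact hx₁z (hx.2 z₀ hz₀)
      have hLX' : ∀ x ∈ X, (∀ z ∈ Z, B x z = 0) → x = 0 := by
        intro x hx h
        have hx' : x ∈ orth B.flip Z X := ⟨hx, fun z hz => h z hz⟩
        rw [hLX] at hx'
        exact (Submodule.mem_bot F).mp hx'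
      have hRZ' : ∀ z ∈ Z, (∀ x ∈ X, B x z = 0) → z = 0 := by
        intro z hz h
        have hz' : z ∈ orth B X Z := ⟨hz, h⟩
        rw [hRZ] at hz'
        exact (Submodule.mem_bot F).mp hz'
      have hXZ : X ⊓ Z = ⊥ := by
        rw [eq_bot_iff]
        intro v hv
        exact (Submodule.mem_bot F).mpr (hRZ' v hv.2 (fun x hx => hXX x hx v hv.1))
      have hPinv : Inv ρ (X ⊔ Z) := inv_sup ρ hXinv hZinv
      have hPY : X ⊔ Z ≤ Y := sup_le hXY hZY
      have hPne : X ⊔ Z ≠ ⊥ := fun h => hXne (eq_bot_iff.mpr (h ▸ le_sup_left))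
      have hndP : NdR B (X ⊔ Z) := by
        intro v hv h
        obtain ⟨x, hx, z, hz, rfl⟩ := Submodule.mem_sup.mp hv
        have hz0 : z = 0 := by
          apply hRZ' z hz
          intro x' hx'
          have h1 := h x' (Submodule.mem_sup_left hx')
          rw [map_add, hXX x' hx' x hx, zero_add] at h1
          exact h1
        subst hz0
        have hx0 : x = 0 := by
          apply hLX' x hx
          intro z' hz'
          have h1 := h z' (Submodule.mem_sup_right hz')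
          rw [add_zero] at h1
          have h3 := hXs x hx z' (hZY hz')
          rw [h1] at h3
          exact neg_eq_zero.mp h3.symm
        rw [hx0, add_zero]
      obtain ⟨hY'inv, hinf, hsup, hndY'⟩ :=
        orth_split ρ B (X ⊔ Z) Y hPY hPinv hY hB hndP hnd
      have hY'Y : orth B (X ⊔ Z) Y ≤ Y := orth_le B _ Y
      have hlt : Module.finrank F (orth B (X ⊔ Z) Y) < n :=
        hn ▸ finrank_lt_of_split hinf hsup hPne
      have hgood := ih _ hlt (orth B (X ⊔ Z) Y) B rfl hY'inv (invOn_mono ρ hB hY'Y) hndY'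
      obtain ⟨πX, πZ, p1, p2, p3, q1, q2, q3⟩ := exists_proj_pair X Z hXZ
      have hπX : ∀ a ∈ X, ∀ b ∈ Z, πX (a + b) = a := by
        intro a ha b hb
        rw [map_add, p1 a ha, p2 b hb, add_zero]
      have hπZ : ∀ a ∈ X, ∀ b ∈ Z, πZ (a + b) = b := by
        intro a ha b hb
        rw [map_add, q1 a ha, q2 b hb, zero_add]
      let C : LinearMap.BilinForm F V := B.compl₁₂ πX πZ
      have hAP : ∀ v w, (C - C.flip) v w = B (πX v) (πZ w) - B (πX w) (πZ v) := fun v w => rfl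
      apply good_glue_alt ρ p (X ⊔ Z) (orth B (X ⊔ Z) Y) Y hinf hsup hPinv hgood (C - C.flip)
      · intro v
        rw [hAP, sub_self]
      · intro g v hv w hw
        obtain ⟨a, ha, b, hb, rfl⟩ := Submodule.mem_sup.mp hv
        obtain ⟨a', ha', b', hb', rfl⟩ := Submodule.mem_sup.mp hw
        rw [hAP, hAP, map_add (ρ g) a b, map_add (ρ g) a' b',
          hπX _ (hXinv g a ha) _ (hZinv g b hb), hπZ _ (hXinv g a' ha') _ (hZinv g b' hb'),
          hπX _ (hXinv g a' ha') _ (hZinv g b' hb'), hπZ _ (hXinv g a ha) _ (hZinv g b hb),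
          hπX a ha b hb, hπZ a' ha' b' hb', hπX a' ha' b' hb', hπZ a ha b hb,
          hB g a (hXY ha) b' (hZY hb'), hB g a' (hXY ha') b (hZY hb)]
      · intro w hw h
        obtain ⟨a', ha', b', hb', rfl⟩ := Submodule.mem_sup.mp hw
        have hb0 : b' = 0 := by
          apply hRZ' b' hb'
          intro x hx
          have h1 := h x (Submodule.mem_sup_left hx)
          rw [hAP, hπX a' ha' b' hb', hπZ a' ha' b' hb', p1 x hx, q1 x hx, map_zero,
            sub_zero] at h1
          exact h1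
        have ha0 : a' = 0 := by
          apply hLX' a' ha'
          intro z hz
          have h1 := h z (Submodule.mem_sup_right hz)
          rw [hAP, hπX a' ha' b' hb', hπZ a' ha' b' hb', p2 z hz, q2 z hz, map_zero,
            LinearMap.zero_apply, zero_sub] at h1
          exact neg_eq_zero.mp h1
        rw [ha0, hb0, add_zero]
    · -- a nondegenerate irreducible piece
      push Not at hXX
      obtain ⟨x₁, hx₁, x₂, hx₂, hne⟩ := hXX
      have hndX : NdR B X := by
        intro y hy h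
        have hinvO : Inv ρ (orth B X X) := orth_inv ρ hXinv hXinv hBX le_rfl le_rfl
        rcases hXmin _ (orth_le B X X) hinvO with h0 | h0
        · have hy' : y ∈ orth B X X := ⟨hy, h⟩
          rw [h0] at hy'
          exact (Submodule.mem_bot F).mp hy'
        · exfalso
          have hx : x₂ ∈ orth B X X := by rw [h0]; exact hx₂
          exact hne (hx.2 x₁ hx₁)
      obtain ⟨hY'inv, hinf, hsup, hndY'⟩ := orth_split ρ B X Y hXY hXinv hY hB hndX hnd
      have hY'Y : orth B X Y ≤ Y := orth_le B X Y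
      have hlt : Module.finrank F (orth B X Y) < n := hn ▸ finrank_lt_of_split hinf hsup hXne
      have hgood := ih _ hlt (orth B X Y) B rfl hY'inv (invOn_mono ρ hB hY'Y) hndY'
      obtain ⟨π, -, pid, -, pmem, -, -, -⟩ :=
        exists_proj_pair X (⊥ : Submodule F V) (inf_bot_eq _)
      have hCapp : ∀ v w, (B.compl₁₂ π π) v w = B (π v) (π w) := fun v w => rfl
      have hCinv : InvOn ρ (B.compl₁₂ π π) X := by
        intro g x hx y hy
        rw [hCapp, hCapp, pid _ (hXinv g x hx), pid _ (hXinv g y hy), pid x hx, pid y hy,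
          hBX g x hx y hy]
      have hCnd : NdR (B.compl₁₂ π π) X := by
        intro y hy h
        apply hndX y hy
        intro x hx
        have h1 := h x hx
        rw [hCapp, pid x hx, pid y hy] at h1
        exact h1
      have htype : (∀ x ∈ X, B x x = 0) ∨ (p = 2 ∧ (∀ g : G, ∀ x ∈ X, ρ g x = x)) := by
        by_cases hp : p = 2
        · have h2z : (2 : F) = 0 := h2 hp
          let K : Submodule F V :=
            { carrier := {x | x ∈ X ∧ B x x = 0}
              add_mem' := by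
                intro a b ha hb
                refine ⟨X.add_mem ha.1 hb.1, ?_⟩
                have e1 := hXs a ha.1 b (hXY hb.1)
                have e2 : B a a = 0 := ha.2
                have e3 : B b b = 0 := hb.2
                simp only [map_add, LinearMap.add_apply]
                linear_combination e2 + e3 + e1
              zero_mem' := ⟨X.zero_mem, by simp⟩
              smul_mem' := by
                intro c a ha
                refine ⟨X.smul_mem c ha.1, ?_⟩
                have e2 : B a a = 0 := ha.2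
                simp only [map_smul, LinearMap.smul_apply, smul_eq_mul, e2, mul_zero] }
          have hKinv : Inv ρ K := by
            intro g x hx
            refine ⟨hXinv g x hx.1, ?_⟩
            have e2 : B x x = 0 := hx.2
            show B (ρ g x) (ρ g x) = 0
            rw [hBX g x hx.1 x hx.1, e2]
          have hKX : K ≤ X := fun x hx => hx.1
          rcases hXmin K hKX hKinv with h0 | h0
          · right
            refine ⟨hp, fun g x hx => ?_⟩
            have hd : ρ g x - x ∈ K := by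
              refine ⟨X.sub_mem (hXinv g x hx) hx, ?_⟩
              have e1 : B (ρ g x) (ρ g x) = B x x := hBX g x hx x hx
              have e3 : B (ρ g x) x = - B x (ρ g x) := hXs x hx (ρ g x) (hXY (hXinv g x hx))
              show B (ρ g x - x) (ρ g x - x) = 0
              simp only [map_sub, LinearMap.sub_apply]
              linear_combination e1 - e3 + (B x x) * h2z
            rw [h0] at hd
            exact sub_eq_zero.mp ((Submodule.mem_bot F).mp hd)
          · left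
            intro x hx
            have hxK : x ∈ K := by rw [h0]; exact hx
            exact hxK.2
        · left
          intro x hx
          have h1 := hXs x hx x (hXY hx)
          have h3 : (2 : F) * B x x = 0 := by linear_combination h1
          rcases mul_eq_zero.mp h3 with h4 | h4
          · exact absurd h4 (h2' hp)
          · exact h4
      rcases htype with halt | ⟨hp, htriv⟩
      · exact good_glue_alt ρ p X (orth B X Y) Y hinf hsup hXinv hgood (B.compl₁₂ π π)
          (fun x => by rw [hCapp]; exact halt _ (pmem x)) hCinv hCnd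
      · refine good_glue_sym ρ p X (orth B X Y) Y hinf hsup hXinv hgood (B.compl₁₂ π π) ?_
          hCinv hCnd (fun _ => htriv)
        intro x y
        rw [hCapp, hCapp]
        have h1 := hXs (π y) (pmem y) (π x) (hXY (pmem x))
        have h3 : (2 : F) = 0 := h2 hp
        linear_combination h1 - (B (π y) (π x)) * h3

end

theorem main {F : Type*} [Field F] [Fintype F] (p : ℕ) [Fact p.Prime] [CharP F p] {G : Type*} [Group G] [Finite G] (hcop : ¬ p ∣ Nat.card G) {V : Type*} [AddCommGroup V] [Module F V] [FiniteDimensional F V] (ρ : Representation F G V) (B : LinearMap.BilinForm F V) (hB : B.Nondegenerate) (hBinv : ∀ g : G, ∀ x y : V, B (ρ g x) (ρ g y) = B x y) : ∃ U W : Submodule F V, IsCompl U W ∧ (∀ g : G, ∀ u ∈ U, ρ g u ∈ U) ∧ (∀ g : G, ∀ w ∈ W, ρ g w ∈ W) ∧ (∃ A : LinearMap.BilinForm F V, (∀ x : V, A x x = 0) ∧ (∀ g : G, ∀ x ∈ U, ∀ y ∈ U, A (ρ g x) (ρ g y) = A x y) ∧ (∀ x ∈ U, (∀ y ∈ U, A x y = 0) → x = 0)) ∧ (∃ S : LinearMap.BilinForm F V, (∀ x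 y : V, S x y = S y x) ∧ (∀ g : G, ∀ x ∈ W, ∀ y ∈ W, S (ρ g x) (ρ g y) = S x y) ∧ (∀ x ∈ W, (∀ y ∈ W, S x y = 0) → x = 0)) ∧ (p = 2 → ∀ g : G, ∀ w ∈ W, ρ g w = w) := by
  have hcard : (Nat.card G : F) ≠ 0 := by
    intro h
    exact hcop ((CharP.cast_eq_zero_iff F p _).mp h)
  have h2 : p = 2 → (2 : F) = 0 := by
    intro hp
    subst hp
    exact_mod_cast CharP.cast_eq_zero F 2
  have h2' : p ≠ 2 → (2 : F) ≠ 0 := by
    intro hp h
    have h3 : ((2 : ℕ) : F) = 0 := by exact_mod_cast h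
    have hd := (CharP.cast_eq_zero_iff F p 2).mp h3
    exact hp ((Nat.prime_dvd_prime_iff_eq (Fact.out) Nat.prime_two).mp hd)
  obtain ⟨U, W, hUW, hsup, hU, hW, ⟨A, hAalt, hAinv, hAnd⟩, ⟨S, hSsym, hSinv, hSnd⟩, htriv⟩ :=
    good_of ρ p hcard h2 h2' _ ⊤ B rfl (fun _ _ _ => Submodule.mem_top)
      (fun g x _ y _ => hBinv g x y) (fun y _ h => hB.2 y (fun x => h x Submodule.mem_top))
  refine ⟨U, W, ⟨disjoint_iff.mpr hUW, codisjoint_iff.mpr hsup⟩, hU, hW,
    ⟨A, hAalt, hAinv, ?_⟩, ⟨S, hSsym, hSinv, ?_⟩, htriv⟩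
  · intro x hx h
    apply hAnd x hx
    intro y hy
    have h1 := hAalt (x + y)
    simp only [map_add, LinearMap.add_apply, hAalt x, hAalt y, h y hy] at h1
    simpa using h1
  · intro x hx h
    apply hSnd x hx
    intro y hy
    rw [hSsym]
    exact h y hy

/-- Let F be a finite field of characteristic p, G a finite group of order prime to p, and V a finite-dimensional representation of G over F carrying a nondegenerate G-invariant bilinear form (equivalently, V is self-dual). Then V is the direct sum of two G-invariant subspaces U and W such that U carries a G-invariant alternating bilinear form that is nondegenerate on U and W carries a G-invariant symmetric bilinear form that is nondegenerate on W; moreover when p = 2 the decomposition can be chosen with G acting trivially on W. -/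
theorem result {F : Type*} [Field F] [Fintype F] (p : ℕ) [Fact p.Prime] [CharP F p] {G : Type*} [Group G] [Finite G] (hcop : ¬ p ∣ Nat.card G) {V : Type*} [AddCommGroup V] [Module F V] [FiniteDimensional F V] (ρ : Representation F G V) (B : LinearMap.BilinForm F V) (hB : B.Nondegenerate) (hBinv : ∀ g : G, ∀ x y : V, B (ρ g x) (ρ g y) = B x y) : ∃ U W : Submodule F V, IsCompl U W ∧ (∀ g : G, ∀ u ∈ U, ρ g u ∈ U) ∧ (∀ g : G, ∀ w ∈ W, ρ g w ∈ W) ∧ (∃ A : LinearMap.BilinForm F V, (∀ x : V, A x x = 0) ∧ (∀ g : G, ∀ x ∈ U, ∀ y ∈ U, A (ρ g x) (ρ g y) = A x y) ∧ (∀ x ∈ U, (∀ y ∈ U, A x y = 0) → x = 0)) ∧ (∃ S : LinearMap.BilinForm F V, (∀ x y : V, S x y = S y x) ∧ (∀ g : G, ∀ x ∈ W, ∀ y ∈ W, S (ρ g x) (ρ g y) = S x y) ∧ (∀ x ∈ W, (∀ y ∈ W, S x y = 0) → x = 0)) ∧ (p = 2 → ∀ g : G, ∀ w ∈ W, ρ g w = w) := by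
  exact main p hcop ρ B hB hBinv

end Cfsg.Agent.S4966
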