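import Cfsg.Statements.S4967
import Mathlib

set_option autoImplicit false
open Cfsg

namespace Cfsg.Agent.S4967

open Polynomial

section fieldlevel

set_option linter.unusedSectionVars false

variable {F : Type*} [Field F] [Fintype F] {L : Type*} [Field L] [Finite L] [Algebra F L]
  {H : Type*} [CommGroup H] [Finite H]

theorem exists_gen (ι : H →* L) (hι : Function.Injective ι)
    (hgen : Algebra.adjoin F (Set.range ι) = ⊤) :
    ∃ h₀ : H, orderOf h₀ = Nat.card H ∧ Algebra.adjoin F {ι h₀} = ⊤ := by
  have hc : IsCyclic H := isCyclic_of_injective_ringHom ι hι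
  obtain ⟨h₀, hh₀⟩ := hc.exists_generator
  refine ⟨h₀, orderOf_eq_card_of_forall_mem_zpowers hh₀, ?_⟩
  have hle : Set.range ι ⊆ (Algebra.adjoin F {ι h₀} : Set L) := by
    intro x hx
    obtain ⟨h, rfl⟩ := hx
    have h1 : h ∈ Submonoid.powers h₀ := by
      rw [mem_powers_iff_mem_zpowers]
      exact hh₀ h
    obtain ⟨k, rfl⟩ := h1
    rw [map_pow]
    exact pow_mem (Algebra.subset_adjoin (Set.mem_singleton (ι h₀))) k
  have := Algebra.adjoin_le hle
  rw [hgen] at this
  exact eq_top_iff.mpr this

theorem adj_pow (B : LinearMap.BilinForm F L) (g : L) (hg : g ≠ 0)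
    (hB : ∀ a b : L, B (g * a) (g * b) = B a b) (n : ℕ) (a b : L) :
    B (g ^ n * a) b = B a (g⁻¹ ^ n * b) := by
  induction n generalizing a b with
  | zero => simp
  | succ n ih =>
    have h1 : B (g ^ (n+1) * a) b = B (g * (g ^ n * a)) (g * (g⁻¹ * b)) := by
      rw [pow_succ', mul_assoc, mul_inv_cancel_left₀ hg]
    rw [h1, hB, ih, pow_succ, mul_assoc]

theorem adj_aeval (B : LinearMap.BilinForm F L) (g : L) (hg : g ≠ 0)
    (hB : ∀ a b : L, B (g * a) (g * b) = B a b) (f : F[X]) (a b : L) :
    B (aeval g f * a) b = B a (aeval g⁻¹ f * b) := by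
  induction f using Polynomial.induction_on' with
  | add p q hp hq => simp [add_mul, hp, hq]
  | monomial n c =>
    simp only [aeval_monomial]
    rw [mul_assoc, ← Algebra.smul_def, map_smul, LinearMap.smul_apply, adj_pow B g hg hB,
      mul_assoc, ← Algebra.smul_def, map_smul]

theorem field_forward (ι : H →* L) (hι : Function.Injective ι)
    (hgen : Algebra.adjoin F (Set.range ι) = ⊤) (hn : 2 ≤ Module.finrank F L)
    (B : LinearMap.BilinForm F L) (hBn : B.Nondegenerate)
    (hB : ∀ (h : H) (a b : L), B (ι h * a) (ι h * b) = B a b) :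
    Even (Module.finrank F L) ∧ Nat.card H ∣ Fintype.card F ^ (Module.finrank F L / 2) + 1 := by
  obtain ⟨h₀, hord, hg⟩ := exists_gen ι hι hgen
  have hg0 : ι h₀ ≠ 0 := by
    intro h0
    have : ι h₀ * ι h₀⁻¹ = 1 := by rw [← map_mul, mul_inv_cancel, map_one]
    rw [h0, zero_mul] at this
    exact zero_ne_one this
  have hroot : aeval (ι h₀)⁻¹ (minpoly F (ι h₀)) = 0 := by
    apply hBn.2
    intro a
    have := adj_aeval B (ι h₀) hg0 (hB h₀) (minpoly F (ι h₀)) a 1
    rw [minpoly.aeval, zero_mul, map_zero, LinearMap.zero_apply, mul_one] at this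
    exact this.symm
  have halg : Algebra.IsAlgebraic F L := inferInstance
  obtain ⟨σ, hσ⟩ := minpoly.exists_algEquiv_of_root' (Algebra.IsAlgebraic.isAlgebraic (ι h₀)) hroot
  obtain ⟨⟨j, hj⟩, hjσ⟩ := (FiniteField.bijective_frobeniusAlgEquivOfAlgebraic_pow F L).2 σ
  simp only at hjσ
  have hσ2 : σ * σ = 1 := by
    apply AlgEquiv.coe_toAlgHom_injective
    apply AlgHom.ext_of_adjoin_eq_top hg
    intro x hx
    rw [Set.mem_singleton_iff] at hx
    subst hx
    simp [hσ]
  have hpow : FiniteField.frobeniusAlgEquivOfAlgebraic F L ^ (2 * j) = 1 := by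
    rw [two_mul, pow_add, hjσ, hσ2]
  have hdvd : Module.finrank F L ∣ 2 * j := by
    rw [← FiniteField.orderOf_frobeniusAlgEquivOfAlgebraic F L]
    exact orderOf_dvd_of_pow_eq_one hpow
  have hσg : σ (ι h₀) = (ι h₀) ^ (Fintype.card F ^ j) := by
    rw [← hjσ, AlgEquiv.coe_pow, FiniteField.coe_frobeniusAlgEquivOfAlgebraic_iterate]
  obtain ⟨c, hc⟩ := hdvd
  have hc1 : c = 0 ∨ c = 1 := by
    rcases c with _ | _ | c
    · left; rfl
    · right; rfl
    · exfalso
      have : Module.finrank F L * (c + 1 + 1) ≥ 2 * Module.finrank F L := by nlinarith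
      omega
  rcases hc1 with rfl | rfl
  · exfalso
    have hj0 : j = 0 := by omega
    subst hj0
    rw [pow_zero, pow_one, hσ] at hσg
    have h2 : ι h₀ * ι h₀ = 1 := by
      nth_rewrite 1 [← hσg]
      exact inv_mul_cancel₀ hg0
    have h3 : ι h₀ = 1 ∨ ι h₀ = -1 := mul_self_eq_one_iff.mp h2
    have h4 : ι h₀ ∈ (⊥ : Subalgebra F L) := by
      rcases h3 with h3 | h3
      · rw [h3]; exact one_mem _
      · rw [h3]; exact neg_mem (one_mem _)
    have h5 : (⊥ : Subalgebra F L) = ⊤ := by
      rw [eq_top_iff, ← hg]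
      apply Algebra.adjoin_le
      intro x hx
      rw [Set.mem_singleton_iff] at hx
      rw [hx]; exact h4
    have h6 := Subalgebra.bot_eq_top_iff_finrank_eq_one.mp h5
    omega
  · have hnj : Module.finrank F L = 2 * j := by omega
    refine ⟨⟨j, by omega⟩, ?_⟩
    have hj2 : Module.finrank F L / 2 = j := by omega
    rw [hj2, ← hord]
    apply orderOf_dvd_of_pow_eq_one
    apply hι
    rw [map_pow, map_one, pow_succ, ← hσg, hσ]
    exact inv_mul_cancel₀ hg0

theorem field_backward (ι : H →* L) (m : ℕ)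
    (hdvd : Nat.card H ∣ Fintype.card F ^ m + 1) :
    ∃ B : LinearMap.BilinForm F L, B.Nondegenerate ∧
      ∀ (h : H) (a b : L), B (ι h * a) (ι h * b) = B a b := by
  have halg : Algebra.IsAlgebraic F L := inferInstance
  obtain ⟨σ, hσ⟩ : ∃ σ : L ≃ₐ[F] L, ∀ x, σ x = x ^ (Fintype.card F ^ m) := by
    refine ⟨FiniteField.frobeniusAlgEquivOfAlgebraic F L ^ m, fun x => ?_⟩
    rw [AlgEquiv.coe_pow, FiniteField.coe_frobeniusAlgEquivOfAlgebraic_iterate]
  obtain ⟨lam, hlam⟩ : ∃ lam : L →ₗ[F] F, lam 1 ≠ 0 := by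
    by_contra hcon
    push Not at hcon
    exact one_ne_zero ((Module.forall_dual_apply_eq_zero_iff F (1 : L)).mp hcon)
  let B : LinearMap.BilinForm F L := LinearMap.mk₂ F (fun a b => lam (a * σ b))
    (fun a a' b => by simp [add_mul]) (fun c a b => by simp)
    (fun a b b' => by simp [mul_add]) (fun c a b => by simp)
  have hBdef : ∀ a b, B a b = lam (a * σ b) := fun a b => rfl
  refine ⟨B, ⟨?_, ?_⟩, ?_⟩
  · intro x hx
    by_contra hx0
    apply hlam
    have := hx (σ.symm x⁻¹)
    rw [hBdef, AlgEquiv.apply_symm_apply, mul_inv_cancel₀ hx0] at this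
    exact this
  · intro y hy
    by_contra hy0
    apply hlam
    have hy1 : σ y ≠ 0 := by
      intro h0
      apply hy0
      have := σ.injective (h0.trans (map_zero σ).symm)
      exact this
    have := hy (σ y)⁻¹
    rw [hBdef, inv_mul_cancel₀ hy1] at this
    exact this
  · intro h a b
    rw [hBdef, hBdef, map_mul σ, hσ (ι h)]
    have h1 : ι h * ι h ^ (Fintype.card F ^ m) = 1 := by
      rw [← pow_succ', ← map_pow]
      obtain ⟨c, hc⟩ := hdvd
      rw [hc, pow_mul, pow_card_eq_one', one_pow, map_one]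
    have h2 : ι h * a * (ι h ^ Fintype.card F ^ m * σ b) = (ι h * ι h ^ (Fintype.card F ^ m)) * (a * σ b) := by
      ring
    rw [h2, h1, one_mul]

end fieldlevel

section modulelevel

universe u v w
variable {F : Type u} [Field F] [Fintype F] {H : Type w} [CommGroup H] [Finite H]
  {V : Type v} [AddCommGroup V] [Module F V] [FiniteDimensional F V]

theorem core (ρ : Representation F H V)
    {L : Type*} [Field L] [Finite L] [Algebra F L] (ι : H →* L) (hι : Function.Injective ι)
    (hgen : Algebra.adjoin F (Set.range ι) = ⊤) (ψ : L ≃ₗ[F] V)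
    (hψ : ∀ h a, ψ (ι h * a) = ρ h (ψ a)) (hn : 2 ≤ Module.finrank F V) :
    (∃ B : LinearMap.BilinForm F V, B.Nondegenerate ∧
        ∀ h : H, ∀ x y : V, B (ρ h x) (ρ h y) = B x y) ↔
      (Even (Module.finrank F V) ∧
        Nat.card H ∣ Fintype.card F ^ (Module.finrank F V / 2) + 1) := by
  have hfr : Module.finrank F L = Module.finrank F V := ψ.finrank_eq
  constructor
  · rintro ⟨B, hBn, hB⟩
    rw [← hfr]
    refine field_forward ι hι hgen (hfr ▸ hn) (LinearMap.BilinForm.congr ψ.symm B)
      (hBn.congr ψ.symm) ?_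
    intro h a b
    simp only [LinearMap.BilinForm.congr_apply, LinearEquiv.symm_symm]
    rw [hψ, hψ, hB]
  · rintro ⟨_, hdvd⟩
    obtain ⟨B', hB'n, hB'⟩ := field_backward (F := F) ι (Module.finrank F V / 2) hdvd
    refine ⟨LinearMap.BilinForm.congr ψ B', hB'n.congr ψ, ?_⟩
    intro h x y
    simp only [LinearMap.BilinForm.congr_apply]
    have : ∀ z, ψ.symm (ρ h z) = ι h * ψ.symm z := by
      intro z
      apply ψ.injective
      rw [hψ]
      simp
    rw [this, this, hB']

theorem exists_field (ρ : Representation F H V) (hfaith : Function.Injective ρ)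
    (hirr : ∀ U : Submodule F V, (∀ h : H, ∀ u ∈ U, ρ h u ∈ U) → U = ⊥ ∨ U = ⊤)
    (v₀ : V) (hv₀ : v₀ ≠ 0) :
    ∃ (L : Type v) (_ : Field L) (_ : Finite L) (_ : Algebra F L) (ι : H →* L)
      (ψ : L ≃ₗ[F] V),
      Function.Injective ι ∧ Algebra.adjoin F (Set.range ι) = ⊤ ∧
        ∀ h a, ψ (ι h * a) = ρ h (ψ a) := by
  classical
  have hcomm : ∀ a ∈ Set.range ρ, ∀ b ∈ Set.range ρ, a * b = b * a := by
    rintro _ ⟨h, rfl⟩ _ ⟨k, rfl⟩
    rw [← map_mul, ← map_mul, mul_comm]
  set E : Subalgebra F (Module.End F V) := Algebra.adjoin F (Set.range ρ) with hE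
  have hmc : ∀ a b : E, a * b = b * a :=
    fun a b => (Algebra.isMulCommutative_adjoin F hcomm).is_comm.comm a b
  have hVfin : Finite V := Module.finite_of_finite F
  have hEndfin : Finite (Module.End F V) :=
    Finite.of_injective (fun f : Module.End F V => (f : V → V)) DFunLike.coe_injective
  have hEfin : Finite E := inferInstance
  let ι0 : H →* E :=
    { toFun := fun h => ⟨ρ h, Algebra.subset_adjoin ⟨h, rfl⟩⟩
      map_one' := Subtype.ext (map_one ρ)
      map_mul' := fun a b => Subtype.ext (map_mul ρ a b) }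
  have hker : ∀ e : E, e ≠ 0 → ∀ x : V, (e : Module.End F V) x = 0 → x = 0 := by
    intro e he
    have hinv : ∀ h : H, ∀ u ∈ LinearMap.ker (e : Module.End F V),
        ρ h u ∈ LinearMap.ker (e : Module.End F V) := by
      intro h u hu
      have hc := congrArg (fun f : E => (f : Module.End F V) u) (hmc e (ι0 h))
      simp only [Subalgebra.coe_mul, Module.End.mul_apply] at hc
      rw [LinearMap.mem_ker] at hu ⊢
      rw [show ((ι0 h : E) : Module.End F V) = ρ h from rfl] at hc
      rw [hc, hu, map_zero]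
    rcases hirr _ hinv with h | h
    · intro x hx
      have : x ∈ LinearMap.ker (e : Module.End F V) := hx
      rw [h] at this
      exact (Submodule.mem_bot F).mp this
    · exfalso
      apply he
      apply Subtype.ext
      apply LinearMap.ext
      intro x
      have : x ∈ LinearMap.ker (e : Module.End F V) := by rw [h]; exact Submodule.mem_top
      simpa using this
  have hfield : IsField E := by
    refine ⟨⟨0, 1, ?_⟩, hmc, ?_⟩
    · intro h01
      have := congrArg (fun f : E => (f : Module.End F V) v₀) h01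
      simp at this
      exact hv₀ this.symm
    · intro a ha
      have hinj : Function.Injective (fun b : E => a * b) := by
        intro b c hbc
        have h1 : a * (b - c) = 0 := by rw [mul_sub]; exact sub_eq_zero.mpr hbc
        by_contra hne
        have hbc' : b - c ≠ 0 := sub_ne_zero.mpr hne
        apply hbc'
        apply Subtype.ext
        apply LinearMap.ext
        intro x
        have h2 := congrArg (fun f : E => (f : Module.End F V) x) h1
        simp only [Subalgebra.coe_mul, Module.End.mul_apply, ZeroMemClass.coe_zero,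
          LinearMap.zero_apply] at h2
        simpa using hker a ha _ h2
      obtain ⟨b, hb⟩ := (Finite.injective_iff_surjective.mp hinj) 1
      exact ⟨b, hb⟩
  let instField : Field E := hfield.toField
  let ψ0 : E →ₗ[F] V :=
    { toFun := fun e => (e : Module.End F V) v₀
      map_add' := fun a b => by simp
      map_smul' := fun c a => by simp }
  have hψinj : Function.Injective ψ0 := by
    intro a b hab
    by_contra hne
    have h1 : ((a - b : E) : Module.End F V) v₀ = 0 := by
      simp only [AddSubgroupClass.coe_sub, LinearMap.sub_apply]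
      exact sub_eq_zero.mpr hab
    exact hv₀ (hker (a - b) (sub_ne_zero.mpr hne) v₀ h1)
  have hψsurj : Function.Surjective ψ0 := by
    rw [← LinearMap.range_eq_top]
    have hinv : ∀ h : H, ∀ u ∈ LinearMap.range ψ0, ρ h u ∈ LinearMap.range ψ0 := by
      rintro h _ ⟨e, rfl⟩
      exact ⟨ι0 h * e, rfl⟩
    rcases hirr (LinearMap.range ψ0) hinv with h | h
    · exfalso
      have : v₀ ∈ LinearMap.range ψ0 := ⟨1, by simp [ψ0]⟩
      rw [h] at this
      exact hv₀ ((Submodule.mem_bot F).mp this)
    · exact h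
  refine ⟨E, instField, hEfin, inferInstance, ι0,
    LinearEquiv.ofBijective ψ0 ⟨hψinj, hψsurj⟩, ?_, ?_, ?_⟩
  · intro a b hab
    apply hfaith
    exact congrArg Subtype.val hab
  · apply Subalgebra.map_injective (f := E.val) Subtype.val_injective
    rw [Algebra.map_top, AlgHom.map_adjoin, Subalgebra.range_val]
    congr 1
    ext x
    constructor
    · rintro ⟨_, ⟨h, rfl⟩, rfl⟩
      exact ⟨h, rfl⟩
    · rintro ⟨h, rfl⟩
      exact ⟨ι0 h, ⟨h, rfl⟩, rfl⟩
  · intro h a
    rfl

theorem part_one (ρ : Representation F H V) (hfaith : Function.Injective ρ)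
    (h1 : Module.finrank F V = 1) (B : LinearMap.BilinForm F V) (hBn : B.Nondegenerate)
    (hB : ∀ h : H, ∀ x y : V, B (ρ h x) (ρ h y) = B x y) : Nat.card H ≤ 2 := by
  obtain ⟨v₀, hv₀, hspan⟩ := finrank_eq_one_iff'.mp h1
  have hB0 : B v₀ v₀ ≠ 0 := by
    intro h0
    apply hv₀
    apply hBn.1
    intro y
    obtain ⟨c, rfl⟩ := hspan y
    simp [h0]
  choose c hc using fun h : H => hspan (ρ h v₀)
  have hc2 : ∀ h, c h * c h = 1 := by
    intro h
    have := hB h v₀ v₀
    rw [← hc h] at this
    simp only [map_smul, LinearMap.smul_apply, smul_eq_mul] at this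
    have h3 : (c h * c h - 1) * B v₀ v₀ = 0 := by linear_combination this
    rcases mul_eq_zero.mp h3 with h4 | h4
    · linear_combination h4
    · exact absurd h4 hB0
  have hcinj : Function.Injective c := by
    intro a b hab
    apply hfaith
    apply LinearMap.ext
    intro x
    obtain ⟨d, rfl⟩ := hspan x
    rw [map_smul, map_smul, ← hc a, ← hc b, hab]
  classical
  have hle : Nat.card H ≤ Nat.card ({1, -1} : Finset F) := by
    apply Nat.card_le_card_of_injective (fun h => (⟨c h, by
      rcases mul_self_eq_one_iff.mp (hc2 h) with h5 | h5 <;> simp [h5]⟩ : ({1, -1} : Finset F)))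
    intro a b hab
    exact hcinj (congrArg Subtype.val hab)
  refine hle.trans ?_
  rw [Nat.card_eq_fintype_card, Fintype.card_coe]
  exact Finset.card_le_two

end modulelevel

theorem main {F : Type*} [Field F] [Fintype F] (p : ℕ) [Fact p.Prime] [CharP F p] {H : Type*} [CommGroup H] [Finite H] (hcop : ¬ p ∣ Nat.card H) {V : Type*} [AddCommGroup V] [Module F V] [FiniteDimensional F V] (ρ : Representation F H V) (hfaith : Function.Injective ρ) (hirr : ∀ U : Submodule F V, (∀ h : H, ∀ u ∈ U, ρ h u ∈ U) → U = ⊥ ∨ U = ⊤) : (Module.finrank F V = 1 → (∃ B : LinearMap.BilinForm F V, B.Nondegenerate ∧ ∀ h : H, ∀ x y : V, B (ρ h x) (ρ h y) = B x y) → Nat.card H ≤ 2) ∧ (2 ≤ Module.finrank F V → ((∃ B : LinearMap.BilinForm F V, B.Nondegenerate ∧ ∀ h : H, ∀ x y : V, B (ρ h x) (ρ h y) = B x y) ↔ (Even (Module.finrank F V) ∧ Nat.card H ∣ Fintype.card F ^ (Module.finrank F V / 2) + 1))) := by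
  refine ⟨fun h1 ⟨B, hBn, hB⟩ => part_one ρ hfaith h1 B hBn hB, fun h2 => ?_⟩
  have hV : ∃ v₀ : V, v₀ ≠ 0 := by
    have hpos : 0 < Module.finrank F V := by omega
    exact Module.finrank_pos_iff_exists_ne_zero.mp hpos
  obtain ⟨v₀, hv₀⟩ := hV
  obtain ⟨L, iF, iFin, iAlg, ι, ψ, hι, hgen, hψ⟩ := exists_field ρ hfaith hirr v₀ hv₀
  exact core ρ ι hι hgen ψ hψ h2

/-- Let F be a finite field with r elements and of characteristic p, H a finite abelian group of order prime to p, and V a faithful irreducible representation of H over F of dimension n (faithful: distinct elements act differently; irreducible: the only H-invariant subspaces are 0 and V). Call V self-dual when it carries a nondegenerate H-invariant bilinear form. If n = 1 and V is self-dual then H has order at most 2. If n ≥ 2 then V is self-dual if and only if n is even and the order of H divides r^(n/2) + 1. -/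
theorem result {F : Type*} [Field F] [Fintype F] (p : ℕ) [Fact p.Prime] [CharP F p] {H : Type*} [CommGroup H] [Finite H] (hcop : ¬ p ∣ Nat.card H) {V : Type*} [AddCommGroup V] [Module F V] [FiniteDimensional F V] (ρ : Representation F H V) (hfaith : Function.Injective ρ) (hirr : ∀ U : Submodule F V, (∀ h : H, ∀ u ∈ U, ρ h u ∈ U) → U = ⊥ ∨ U = ⊤) : (Module.finrank F V = 1 → (∃ B : LinearMap.BilinForm F V, B.Nondegenerate ∧ ∀ h : H, ∀ x y : V, B (ρ h x) (ρ h y) = B x y) → Nat.card H ≤ 2) ∧ (2 ≤ Module.finrank F V → ((∃ B : LinearMap.BilinForm F V, B.Nondegenerate ∧ ∀ h : H, ∀ x y : V, B (ρ h x) (ρ h y) = B x y) ↔ (Even (Module.finrank F V) ∧ Nat.card H ∣ Fintype.card F ^ (Module.finrank F V / 2) + 1))) := by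
  exact main p hcop ρ hfaith hirr

end Cfsg.Agent.S4967
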