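import Cfsg.Statements.S5005
import Cfsg.Agent.Lib.Helper7.M22Local
import Cfsg.Agent.Lib.Helper91.OneBlockLocal

set_option autoImplicit false
open Cfsg

namespace Cfsg.Agent.S5005

open Cfsg.Agent.Lib.Helper7.GolayBase Cfsg.Agent.Lib.Helper7.ChainGen
  Cfsg.Agent.Lib.Helper7.L23Base Cfsg.Agent.Lib.Helper7.M22Enum

theorem stab_zero :
    MulAction.stabilizer (Equiv.Perm GolayPt) (some 0 : GolayPt) = FixL [0] := by
  ext g
  rw [MulAction.mem_stabilizer_iff, mem_FixL]
  constructor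
  · intro h f hf
    rw [List.mem_singleton] at hf
    subst hf
    exact h
  · intro h
    exact h 0 (List.mem_singleton.mpr rfl)

theorem M22_eq : Cfsg.Spor.M22 = K22 := by
  ext g
  rw [Cfsg.Spor.M22, Cfsg.Spor.M23, stab_none, stab_zero, K22]
  simp only [Subgroup.mem_inf, mem_FixL]
  constructor
  · rintro ⟨⟨h1, h2⟩, h3⟩
    refine ⟨h1, ?_⟩
    intro f hf
    simp only [List.mem_cons, List.not_mem_nil, or_false] at hf
    rcases hf with rfl | rfl
    · exact h3 0 (List.mem_singleton.mpr rfl)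
    · exact h2 23 (List.mem_singleton.mpr rfl)
  · rintro ⟨h1, h2⟩
    refine ⟨⟨h1, ?_⟩, ?_⟩
    · intro f hf
      rw [List.mem_singleton] at hf
      subst hf
      exact h2 23 (by simp)
    · intro f hf
      rw [List.mem_singleton] at hf
      subst hf
      exact h2 0 (by simp)

theorem aux (K : Subgroup (Equiv.Perm GolayPt)) (hK : K = K22) (M : Ideal Cfsg.AlgInt)
    (hM : Cfsg.IsPModular 2 M) (χ ψ : Cfsg.IrrCharacter ↥K) :
    Cfsg.SameBlock M (χ : ↥K → ℂ) (ψ : ↥K → ℂ) := by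
  subst hK
  exact Cfsg.Agent.Lib.Helper91.OneBlockLocal.one_block_of_local 2 M hM
    (Cfsg.Agent.Lib.Helper7.M22Rob3.no_defect_zero M hM) Cfsg.Agent.Lib.Helper7.M22Local.hloc χ ψ

/-- All irreducible complex characters of the Mathieu group `M₂₂` lie in a single 2-block: any two of them lie in the same block relative to every maximal ideal of the algebraic integers containing 2. -/
theorem result (M : Ideal Cfsg.AlgInt) (hM : Cfsg.IsPModular 2 M)
    (χ ψ : Cfsg.IrrCharacter ↥Cfsg.Spor.M22) : Cfsg.SameBlock M (χ : ↥Cfsg.Spor.M22 → ℂ) (ψ : ↥Cfsg.Spor.M22 → ℂ) := by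
  exact aux Cfsg.Spor.M22 M22_eq M hM χ ψ

end Cfsg.Agent.S5005
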