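import Cfsg.Statements.S5014
-- import your own Cfsg.Agent.* helpers here
import Cfsg.Agent.Lib.Helper83.RankOne

set_option autoImplicit false
open Cfsg

namespace Cfsg.Agent.S5014

/-- Let X = ⟨A, B⟩ be a rank one group with unipotent subgroups A and B and let Ω be the set of conjugates of A under X. Then Ω has at least three members, X acts doubly transitively on Ω by conjugation (any two ordered pairs of distinct members are carried to one another by a single element of X), and A acts regularly on Ω with A removed: for C, D in Ω different from A there is exactly one element of A conjugating C to D. -/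
theorem result {G : Type*} [Group G] {A B : Subgroup G} (h : Cfsg.IsRankOnePair A B) :
    (∃ C₁ ∈ Cfsg.unipotentSubgroups A B, ∃ C₂ ∈ Cfsg.unipotentSubgroups A B, ∃ C₃ ∈ Cfsg.unipotentSubgroups A B,
      C₁ ≠ C₂ ∧ C₁ ≠ C₃ ∧ C₂ ≠ C₃) ∧
    (∀ C₁ ∈ Cfsg.unipotentSubgroups A B, ∀ C₂ ∈ Cfsg.unipotentSubgroups A B, ∀ D₁ ∈ Cfsg.unipotentSubgroups A B,
      ∀ D₂ ∈ Cfsg.unipotentSubgroups A B, C₁ ≠ C₂ → D₁ ≠ D₂ →
        ∃ x ∈ A ⊔ B, Cfsg.conjBy C₁ x = D₁ ∧ Cfsg.conjBy C₂ x = D₂) ∧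
    (∀ C ∈ Cfsg.unipotentSubgroups A B, ∀ D ∈ Cfsg.unipotentSubgroups A B, C ≠ A → D ≠ A →
      ∃! a : G, a ∈ A ∧ Cfsg.conjBy C a = D) := by
  have key := h
  refine ⟨?_, ?_, ?_⟩
  · obtain ⟨a, ha, ha1⟩ := Cfsg.Agent.Lib.Helper83.RankOne.exists_mem_ne_one
      (Cfsg.Agent.Lib.Helper83.RankOne.left_ne_bot h)
    refine ⟨A, Cfsg.Agent.Lib.Helper83.RankOne.left_mem_unipotent A B, B,
      Cfsg.Agent.Lib.Helper83.RankOne.right_mem_unipotent h, conjBy B a,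
      Cfsg.Agent.Lib.Helper83.RankOne.conjBy_right_mem_unipotent h ha, h.ne, ?_, ?_⟩
    · intro hcon
      have h3 : conjBy A a⁻¹ = B := by
        rw [hcon]; exact Cfsg.Agent.Lib.Helper83.RankOne.conjBy_inv_cancel B a
      rw [Cfsg.Agent.Lib.Helper83.RankOne.conjBy_of_mem (A.inv_mem ha)] at h3
      exact h.ne h3
    · intro hcon
      exact ha1 (Cfsg.Agent.Lib.Helper83.RankOne.eq_one_of_conjBy_eq h ha hcon.symm)
  · intro C₁ hC₁ C₂ hC₂ D₁ hD₁ D₂ hD₂ hC hD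
    obtain ⟨x, hx, hx1, hx2⟩ := Cfsg.Agent.Lib.Helper83.RankOne.exists_conj_pair h hC₁ hC₂ hC
    obtain ⟨y, hy, hy1, hy2⟩ := Cfsg.Agent.Lib.Helper83.RankOne.exists_conj_pair h hD₁ hD₂ hD
    refine ⟨y⁻¹ * x, Subgroup.mul_mem _ (Subgroup.inv_mem _ hy) hx, ?_, ?_⟩
    · rw [← Cfsg.Agent.Lib.Helper83.RankOne.conjBy_conjBy, hx1, ← hy1]
      exact Cfsg.Agent.Lib.Helper83.RankOne.conjBy_inv_cancel D₁ y
    · rw [← Cfsg.Agent.Lib.Helper83.RankOne.conjBy_conjBy, hx2, ← hy2]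
      exact Cfsg.Agent.Lib.Helper83.RankOne.conjBy_inv_cancel D₂ y
  · intro C hC D hD hCA hDA
    obtain ⟨a₁, ha₁, h1⟩ := Cfsg.Agent.Lib.Helper83.RankOne.exists_conj_to_right h hC hCA
    obtain ⟨a₂, ha₂, h2⟩ := Cfsg.Agent.Lib.Helper83.RankOne.exists_conj_to_right h hD hDA
    refine ⟨a₂⁻¹ * a₁, ⟨A.mul_mem (A.inv_mem ha₂) ha₁, ?_⟩, ?_⟩
    · rw [← Cfsg.Agent.Lib.Helper83.RankOne.conjBy_conjBy, h1, ← h2]
      exact Cfsg.Agent.Lib.Helper83.RankOne.conjBy_inv_cancel D a₂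
    · rintro a ⟨ha, haD⟩
      have h3 : conjBy B (a₂ * a * a₁⁻¹) = B := by
        have e : conjBy B (a₂ * a * a₁⁻¹) = conjBy (conjBy (conjBy B a₁⁻¹) a) a₂ := by
          rw [Cfsg.Agent.Lib.Helper83.RankOne.conjBy_conjBy,
            Cfsg.Agent.Lib.Helper83.RankOne.conjBy_conjBy, mul_assoc]
        rw [e]
        have hC' : conjBy B a₁⁻¹ = C := by
          rw [← h1]; exact Cfsg.Agent.Lib.Helper83.RankOne.conjBy_inv_cancel C a₁
        rw [hC', haD, h2]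
      have h4 := Cfsg.Agent.Lib.Helper83.RankOne.eq_one_of_conjBy_eq h
        (A.mul_mem (A.mul_mem ha₂ ha) (A.inv_mem ha₁)) h3
      have e2 : a = a₂⁻¹ * (a₂ * a * a₁⁻¹) * a₁ := by group
      rw [e2, h4]; group

end Cfsg.Agent.S5014
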