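import Cfsg.Statements.S5015
-- import your own Cfsg.Agent.* helpers here
import Cfsg.Agent.Lib.Helper83.RankOne

set_option autoImplicit false
open Cfsg

namespace Cfsg.Agent.S5015

/-- Let a group Y act doubly transitively on a set Ω with at least three points, and suppose that the stabilizer of a point α contains a nilpotent subgroup A, normalized by that stabilizer, which acts regularly on the points other than α. Then for any y in Y moving α, the subgroups A and y A y⁻¹ are the unipotent subgroups of a rank one group, and the normal closure of A in Y (the subgroup generated by all conjugates of A) is generated by A and y A y⁻¹ alone. -/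
theorem result {Y Ω : Type*} [Group Y] [MulAction Y Ω]
    (h2 : MulAction.IsMultiplyPretransitive Y Ω 2) (hΩ : 3 ≤ ENat.card Ω) (α : Ω) (A : Subgroup Y)
    (hA : A ≤ MulAction.stabilizer Y α) (hAn : ∀ y ∈ MulAction.stabilizer Y α, Cfsg.conjBy A y = A)
    (hnil : Group.IsNilpotent A) (hreg : ∀ β γ : Ω, β ≠ α → γ ≠ α → ∃! a : Y, a ∈ A ∧ a • β = γ)
    (y : Y) (hy : y ∉ MulAction.stabilizer Y α) :
    Cfsg.IsRankOnePair A (Cfsg.conjBy A y) ∧ Subgroup.normalClosure (A : Set Y) = A ⊔ Cfsg.conjBy A y := by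
  have hβα : y • α ≠ α := fun hcon => hy (MulAction.mem_stabilizer_iff.mpr hcon)
  -- the root group at a point is well defined
  have hwd : ∀ g g' : Y, g • α = g' • α → conjBy A g = conjBy A g' := by
    intro g g' hgg
    have hst : g⁻¹ * g' ∈ MulAction.stabilizer Y α := by
      rw [MulAction.mem_stabilizer_iff, mul_smul, ← hgg, inv_smul_smul]
    have h1 := hAn _ hst
    have e : g' = g * (g⁻¹ * g') := by group
    rw [e, ← Cfsg.Agent.Lib.Helper83.RankOne.conjBy_conjBy, h1]
  -- elements of A fix α, elements of B fix y • α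
  have hAfix : ∀ a ∈ A, a • α = α := fun a ha => MulAction.mem_stabilizer_iff.mp (hA ha)
  have hBfix : ∀ b ∈ conjBy A y, b • (y • α) = y • α := by
    intro b hb
    rw [Cfsg.Agent.Lib.Helper83.RankOne.mem_conjBy] at hb
    have h1 := hAfix _ hb
    rw [mul_smul, mul_smul] at h1
    have h2 : y • (y⁻¹ • (b • (y • α))) = y • α := by rw [h1]
    rwa [smul_inv_smul] at h2
  -- A is transitive off α, with trivial point stabilizers
  have hAtrans : ∀ β γ : Ω, β ≠ α → γ ≠ α → ∃ a ∈ A, a • β = γ := by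
    intro β γ hβ hγ
    obtain ⟨a, ⟨ha, haβ⟩, -⟩ := hreg β γ hβ hγ
    exact ⟨a, ha, haβ⟩
  have hAfree : ∀ a ∈ A, ∀ β : Ω, β ≠ α → a • β = β → a = 1 := by
    intro a ha β hβ haβ
    obtain ⟨a', -, huniq⟩ := hreg β β hβ hβ
    rw [huniq a ⟨ha, haβ⟩, huniq 1 ⟨A.one_mem, one_smul _ _⟩]
  have hBtrans : ∀ γ δ : Ω, γ ≠ y • α → δ ≠ y • α → ∃ b ∈ conjBy A y, b • γ = δ := by
    intro γ δ hγ hδ
    have hγ' : y⁻¹ • γ ≠ α := by
      intro hcon
      apply hγ
      rw [← hcon, smul_inv_smul]
    have hδ' : y⁻¹ • δ ≠ α := by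
      intro hcon
      apply hδ
      rw [← hcon, smul_inv_smul]
    obtain ⟨a, ha, haγ⟩ := hAtrans _ _ hγ' hδ'
    refine ⟨y * a * y⁻¹, Cfsg.Agent.Lib.Helper83.RankOne.conj_mem_conjBy ha y, ?_⟩
    rw [mul_smul, mul_smul, haγ, smul_inv_smul]
  have hBfree : ∀ b ∈ conjBy A y, ∀ γ : Ω, γ ≠ y • α → b • γ = γ → b = 1 := by
    intro b hb γ hγ hbγ
    have hb' := hb
    rw [Cfsg.Agent.Lib.Helper83.RankOne.mem_conjBy] at hb'
    have hγ' : y⁻¹ • γ ≠ α := by
      intro hcon
      apply hγ
      rw [← hcon, smul_inv_smul]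
    have h1 : (y⁻¹ * b * y) • (y⁻¹ • γ) = y⁻¹ • γ := by
      rw [mul_smul, mul_smul, smul_inv_smul, hbγ]
    have h2 := hAfree _ hb' _ hγ' h1
    have e : b = y * (y⁻¹ * b * y) * y⁻¹ := by group
    rw [e, h2]; group
  -- a third point
  have hthird : ∃ δ : Ω, δ ≠ α ∧ δ ≠ y • α := by
    by_contra hcon
    push Not at hcon
    have hsub : (Set.univ : Set Ω) ⊆ {α, y • α} := by
      intro δ _
      by_cases h : δ = α
      · left; exact h
      · right; exact hcon δ h
    have h1 : ENat.card Ω ≤ 2 := by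
      rw [← Set.encard_univ]
      calc (Set.univ : Set Ω).encard ≤ ({α, y • α} : Set Ω).encard := Set.encard_le_encard hsub
        _ = 2 := Set.encard_pair (Ne.symm hβα)
    have h2 : (3 : ℕ∞) ≤ 2 := le_trans hΩ h1
    exact absurd h2 (by decide)
  obtain ⟨δ, hδα, hδβ⟩ := hthird
  have hpair : IsRankOnePair A (conjBy A y) := by
    refine ⟨?_, hnil, ?_, ?_, ?_⟩
    · intro hAB
      obtain ⟨a, ha, haδ⟩ := hAtrans (y • α) δ hβα hδα
      have h1 : a ∈ conjBy A y := hAB ▸ ha
      have h2 := hBfix a h1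
      rw [haδ] at h2
      exact hδβ h2
    · exact (Group.isNilpotent_congr (A.equivMapOfInjective _ (MulEquiv.injective _))).mp hnil
    · intro a ha ha1
      have hγα : a⁻¹ • (y • α) ≠ α := by
        intro hcon
        apply hβα
        have h1 : a • (a⁻¹ • (y • α)) = a • α := by rw [hcon]
        rw [smul_inv_smul] at h1
        rw [h1, hAfix a ha]
      have hγβ : a⁻¹ • (y • α) ≠ y • α := by
        intro hcon
        apply ha1
        have h1 := hAfree a⁻¹ (A.inv_mem ha) _ hβα hcon
        simpa using h1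
      obtain ⟨b', hb', hb'α⟩ := hBtrans α (a⁻¹ • (y • α)) (Ne.symm hβα) hγβ
      refine ⟨b'⁻¹, Subgroup.inv_mem _ hb', ?_, ?_⟩
      · intro hcon
        have h1 : b' = 1 := by simpa using hcon
        rw [h1, one_smul] at hb'α
        exact hγα hb'α.symm
      · rw [inv_inv, Cfsg.Agent.Lib.Helper83.RankOne.conjBy_conjBy]
        apply hwd
        rw [hb'α, mul_smul]
    · intro b hb hb1
      have hγα : b⁻¹ • α ≠ α := by
        intro hcon
        apply hb1
        have h1 := hBfree b⁻¹ (Subgroup.inv_mem _ hb) α (Ne.symm hβα) hcon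
        simpa using h1
      have hγβ : b⁻¹ • α ≠ y • α := by
        intro hcon
        apply hβα
        have h1 : α = b • (y • α) := by rw [← hcon, smul_inv_smul]
        rw [hBfix b hb] at h1
        exact h1.symm
      obtain ⟨a', ha', ha'β⟩ := hAtrans (y • α) (b⁻¹ • α) hβα hγα
      refine ⟨a'⁻¹, A.inv_mem ha', ?_, ?_⟩
      · intro hcon
        have h1 : a' = 1 := by simpa using hcon
        rw [h1, one_smul] at ha'β
        exact hγβ ha'β.symm
      · rw [inv_inv, Cfsg.Agent.Lib.Helper83.RankOne.conjBy_conjBy]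
        apply hwd
        rw [mul_smul, ha'β]
  refine ⟨hpair, ?_⟩
  apply le_antisymm
  · -- every conjugate of A is the root group at a point, reached from A ⊔ B
    have htrans : ∀ γ : Ω, ∃ x ∈ A ⊔ conjBy A y, x • α = γ := by
      intro γ
      by_cases hγ : γ = α
      · exact ⟨1, Subgroup.one_mem _, by rw [one_smul, hγ]⟩
      · obtain ⟨b, hb, hbα⟩ := hBtrans α δ (Ne.symm hβα) hδβ
        obtain ⟨a, ha, haδ⟩ := hAtrans δ γ hδα hγ
        refine ⟨a * b, Subgroup.mul_mem _ (Subgroup.mem_sup_left ha) (Subgroup.mem_sup_right hb), ?_⟩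
        rw [mul_smul, hbα, haδ]
    unfold Subgroup.normalClosure
    rw [Subgroup.closure_le]
    intro z hz
    rw [Group.mem_conjugatesOfSet_iff] at hz
    obtain ⟨a, ha, haz⟩ := hz
    obtain ⟨g, rfl⟩ := isConj_iff.mp haz
    obtain ⟨x, hx, hxα⟩ := htrans (g • α)
    have h1 : g * a * g⁻¹ ∈ conjBy A g := Cfsg.Agent.Lib.Helper83.RankOne.conj_mem_conjBy ha g
    rw [hwd g x hxα.symm] at h1
    exact Cfsg.Agent.Lib.Helper83.RankOne.conjBy_le_of_mem le_sup_left hx h1
  · apply sup_le Subgroup.le_normalClosure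
    intro x hx
    rw [Cfsg.Agent.Lib.Helper83.RankOne.mem_conjBy] at hx
    have h1 : y⁻¹ * x * y ∈ Subgroup.normalClosure (A : Set Y) := Subgroup.le_normalClosure hx
    have h2 := (Subgroup.normalClosure_normal (s := (A : Set Y))).conj_mem _ h1 y
    have e : y * (y⁻¹ * x * y) * y⁻¹ = x := by group
    rwa [e] at h2

end Cfsg.Agent.S5015
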