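import Cfsg.Statements.S5019
-- import your own Cfsg.Agent.* helpers here
import Cfsg.Agent.Lib.Helper83.QuadAct

set_option autoImplicit false
open Cfsg

namespace Cfsg.Agent.S5019

/-- Let X be a rank one group with abelian unipotent subgroups A and B, and suppose X acts on an abelian group N (written additively) in such a way that A acts quadratically, meaning a' • (a • n − n) = a • n − n for all a, a' in A and n in N, while X as a whole does not: y • (x • n − n) ≠ x • n − n for some x, y in X and n in N. Then X is a special rank one group. -/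
theorem result {X : Type*} [Group X] {A B : Subgroup X} (h : Cfsg.IsRankOneGroup X A B)
    (hab : Cfsg.HasAbelianUnipotents A B) {N : Type*} [AddCommGroup N] [DistribMulAction X N]
    (hq : ∀ a ∈ A, ∀ a' ∈ A, ∀ n : N, a' • (a • n - n) = a • n - n)
    (hX : ∃ x y : X, ∃ n : N, y • (x • n - n) ≠ x • n - n) : Cfsg.IsSpecialRankOnePair A B := by
  classical
  let ρ : X →* AddMonoid.End N := DistribMulAction.toAddMonoidEnd X N
  have happ : ∀ (x : X) (n : N), (Cfsg.Agent.Lib.Helper83.QuadAct.dd ρ x) n = x • n - n := by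
    intro x n
    rfl
  have hA : Cfsg.Agent.Lib.Helper83.QuadAct.Quad ρ A := by
    intro a ha a' ha'
    ext n
    have h1 := hq a ha a' ha' n
    show (Cfsg.Agent.Lib.Helper83.QuadAct.dd ρ a') ((Cfsg.Agent.Lib.Helper83.QuadAct.dd ρ a) n) = 0
    rw [happ a n, happ a' _, h1, sub_self]
  have hX' : ∃ x y : X, Cfsg.Agent.Lib.Helper83.QuadAct.dd ρ y *
      Cfsg.Agent.Lib.Helper83.QuadAct.dd ρ x ≠ 0 := by
    obtain ⟨x, y, n, hn⟩ := hX
    refine ⟨x, y, ?_⟩
    intro h0
    apply hn
    have h1 : (Cfsg.Agent.Lib.Helper83.QuadAct.dd ρ y)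
        ((Cfsg.Agent.Lib.Helper83.QuadAct.dd ρ x) n) = 0 := by
      have := congrArg (fun f : AddMonoid.End N => f n) h0
      exact this
    rw [happ x n, happ y _] at h1
    exact sub_eq_zero.mp h1
  refine ⟨h.2, ?_⟩
  intro a ha _ b hb _ hab
  exact (Cfsg.Agent.Lib.Helper83.QuadAct.special_core h hA hX' ha hb hab).1

end Cfsg.Agent.S5019
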