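import Cfsg.Statements.S5022
-- import your own Cfsg.Agent.* helpers here
import Cfsg.Agent.Lib.Helper98.RankOneSp
import Cfsg.Agent.Lib.Helper98.SteinbergHom
import Cfsg.Agent.Lib.Helper98.SL2Core

set_option autoImplicit false
open Cfsg

namespace Cfsg.Agent.S5022

section Helpers

open Matrix MatrixGroups
open Cfsg.Agent.Lib.Helper98.SL2Sub Cfsg.Agent.Lib.Helper98.Steinberg
open Cfsg.Agent.Lib.Helper98.RankOneSp Cfsg.Agent.Lib.Helper98.SteinbergHom
open Cfsg.Agent.Lib.Helper98.SL2Core

variable {X : Type*} [Group X]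

/-- upper triangular matrices are `d t * u y` -/
lemma upper_decomp {F : Type*} [Field F] (g : SL(2, F)) (h10 : g.1 1 0 = 0) (ht : g.1 0 0 ≠ 0) :
    d (g.1 0 0) ht = g * u (-(g.1 0 1 / g.1 0 0)) := by
  have hd := det_eq g
  rw [h10, mul_zero, sub_zero] at hd
  have h11 : g.1 1 1 = (g.1 0 0)⁻¹ := by
    field_simp
    linear_combination hd
  apply sl2_ext <;>
    simp only [mul00, mul01, mul10, mul11, u00, u01, u10, u11, d00, d01, d10, d11, h10, h11]
  · ring
  · field_simp
    ring
  · ring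
  · ring

theorem main {A B : Subgroup X} (S : SP A B) {p : ℕ} [Fact p.Prime] (hA : ∀ x ∈ A, x ^ p = 1)
    {a b : X} (h : PRel A B a b) :
    Nonempty (↥(Subgroup.closure ({a, b} : Set X)) ≃* SL(2, ZMod p)) ∨
    Nonempty (↥(Subgroup.closure ({a, b} : Set X)) ≃*
      Matrix.ProjectiveSpecialLinearGroup (Fin 2) (ZMod p)) := by
  have ha := hA a h.1
  have hb := exp_symm S hA b h.2.2.1
  have ha1 : a ≠ 1 := h.2.1
  have hb1 : b ≠ 1 := h.2.2.2.1
  have hSt : StData (epow (p := p) a) (epow b) := stData_epow S hA h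
  obtain ⟨φ, hφu, hφl⟩ := exists_hom hSt
  -- the range
  have hrange : φ.range = Subgroup.closure ({a, b} : Set X) := by
    apply le_antisymm
    · have hc : (Subgroup.closure ({a, b} : Set X)).comap φ = ⊤ := by
        apply eq_top_of_u_l
        · intro z
          show φ (u z) ∈ Subgroup.closure ({a, b} : Set X)
          rw [hφu]
          show a ^ z.val ∈ Subgroup.closure ({a, b} : Set X)
          exact Subgroup.pow_mem _ (Subgroup.subset_closure (by simp)) _
        · intro z
          show φ (l z) ∈ Subgroup.closure ({a, b} : Set X)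
          rw [hφl]
          show b ^ z.val ∈ Subgroup.closure ({a, b} : Set X)
          exact Subgroup.pow_mem _ (Subgroup.subset_closure (by simp)) _
      rintro x ⟨g, rfl⟩
      have hg : g ∈ (Subgroup.closure ({a, b} : Set X)).comap φ := by rw [hc]; trivial
      exact hg
    · rw [Subgroup.closure_le]
      rintro x (rfl | rfl)
      · exact ⟨u 1, by rw [hφu, epow_one]⟩
      · exact ⟨l 1, by rw [hφl, epow_one]⟩
  -- the kernel is central
  have hker : φ.ker ≤ Subgroup.center SL(2, ZMod p) := by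
    intro g hg
    rw [MonoidHom.mem_ker] at hg
    have h10 : g.1 1 0 = 0 := by
      by_contra hc
      have hdec := decomp_c g hc
      have h1 : φ g = epow a ((g.1 0 0 - 1) / g.1 1 0) * epow b (g.1 1 0) *
          epow a ((g.1 1 1 - 1) / g.1 1 0) := by
        conv_lhs => rw [hdec]
        rw [map_mul, map_mul, hφu, hφl, hφu]
      rw [hg] at h1
      have hxA : epow a ((g.1 0 0 - 1) / g.1 1 0) ∈ A := epow_mem h.1 _
      have hzA : epow a ((g.1 1 1 - 1) / g.1 1 0) ∈ A := epow_mem h.1 _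
      have hyB : epow b (g.1 1 0) ∈ B := epow_mem h.2.2.1 _
      generalize epow a ((g.1 0 0 - 1) / g.1 1 0) = x at h1 hxA
      generalize epow a ((g.1 1 1 - 1) / g.1 1 0) = z at h1 hzA
      have h2 : epow b (g.1 1 0) = x⁻¹ * z⁻¹ := by
        have h3 : epow b (g.1 1 0) = x⁻¹ * (x * epow b (g.1 1 0) * z) * z⁻¹ := by group
        rw [h3, ← h1]; group
      have h4 : epow b (g.1 1 0) ∈ A := by
        rw [h2]; exact A.mul_mem (A.inv_mem hxA) (A.inv_mem hzA)
      have h5 : epow b (g.1 1 0) = 1 := inter_eq_one S h4 hyB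
      exact hc (epow_injective hb hb1 (h5.trans (epow_zero b).symm))
    have hd := det_eq g
    have ht : g.1 0 0 ≠ 0 := by
      intro h0
      rw [h0, h10] at hd
      simp at hd
    have hD := upper_decomp g h10 ht
    have hφD : φ (d (g.1 0 0) ht) = epow a (-(g.1 0 1 / g.1 0 0)) := by
      rw [hD, map_mul, hg, one_mul, hφu]
    have hconj := d_l_d' (g.1 0 0) ht (1 : ZMod p)
    have hconj' : φ (d (g.1 0 0) ht) * φ (l 1) * (φ (d (g.1 0 0) ht))⁻¹ =
        φ (l (((g.1 0 0)⁻¹) ^ 2 * 1)) := by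
      rw [← hconj, map_mul, map_mul, map_inv]
    rw [hφD, hφl, hφl, epow_one] at hconj'
    have ha₀ : epow a (-(g.1 0 1 / g.1 0 0)) ∈ A := epow_mem h.1 _
    have hmem : epow a (-(g.1 0 1 / g.1 0 0)) * b * (epow a (-(g.1 0 1 / g.1 0 0)))⁻¹ ∈ B := by
      rw [hconj']; exact epow_mem h.2.2.1 _
    have h6 : epow a (-(g.1 0 1 / g.1 0 0)) = 1 :=
      eq_one_of_conj_mem S ha₀ h.2.2.1 hb1 hmem
    have h7 : -(g.1 0 1 / g.1 0 0) = 0 := epow_injective ha ha1 (h6.trans (epow_zero a).symm)
    have h01 : g.1 0 1 = 0 := by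
      have h8 : g.1 0 1 / g.1 0 0 = 0 := neg_eq_zero.mp h7
      rcases div_eq_zero_iff.mp h8 with h9 | h9
      · exact h9
      · exact absurd h9 ht
    rw [h6, one_mul, inv_one, mul_one] at hconj'
    have h10' : ((g.1 0 0)⁻¹) ^ 2 * 1 = (1 : ZMod p) :=
      (epow_injective hb hb1 ((epow_one b).trans hconj')).symm
    rw [h10, mul_zero, sub_zero] at hd
    have hsq : (g.1 0 0) ^ 2 = 1 := by
      have h11 : ((g.1 0 0)⁻¹) ^ 2 = 1 := by rwa [mul_one] at h10'
      have h12 : (g.1 0 0) ^ 2 * ((g.1 0 0)⁻¹) ^ 2 = 1 := by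
        rw [← mul_pow, mul_inv_cancel₀ ht, one_pow]
      rw [h11, mul_one] at h12
      exact h12
    have h11t : g.1 1 1 = g.1 0 0 := by
      linear_combination (g.1 0 0) * hd - (g.1 1 1) * hsq
    rw [Subgroup.mem_center_iff]
    intro k
    apply sl2_ext <;> simp only [mul00, mul01, mul10, mul11, h01, h10, h11t] <;> ring
  have e1 : SL(2, ZMod p) ⧸ φ.ker ≃* φ.range := QuotientGroup.quotientKerEquivRange φ
  have e2 : φ.range ≃* ↥(Subgroup.closure ({a, b} : Set X)) := MulEquiv.subgroupCongr hrange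
  by_cases hk : φ.ker = ⊥
  · left
    have hinj : Function.Injective φ := (MonoidHom.ker_eq_bot_iff φ).mp hk
    exact ⟨(e2.symm).trans (MonoidHom.ofInjective hinj).symm⟩
  · right
    have hkc : φ.ker = Subgroup.center SL(2, ZMod p) := by
      apply le_antisymm hker
      intro z hz
      rw [center_eq, mem_Zc] at hz
      obtain ⟨g, hg, hg1⟩ : ∃ g ∈ φ.ker, g ≠ 1 := by
        by_contra hcon
        push Not at hcon
        exact hk ((Subgroup.eq_bot_iff_forall _).mpr hcon)
      have hgc := hker hg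
      rw [center_eq, mem_Zc] at hgc
      rcases hgc with hgc | hgc
      · exact absurd hgc hg1
      · rcases hz with rfl | rfl
        · exact one_mem _
        · rw [← hgc]; exact hg
    exact ⟨(e2.symm).trans (e1.symm.trans (QuotientGroup.quotientMulEquivOfEq hkc))⟩

end Helpers


/-- Let X be a special rank one group with abelian unipotent subgroups A and B, where A is an elementary abelian p-group for the prime p. Then for every non-identity a in A and the non-identity b in B with b⁻¹ A b = a⁻¹ B a, the subgroup generated by a and b is isomorphic to SL₂(p) or to PSL₂(p). -/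
theorem result {X : Type*} [Group X] {A B : Subgroup X} (h : Cfsg.IsRankOneGroup X A B)
    (hs : Cfsg.IsSpecialRankOnePair A B) (hab : Cfsg.HasAbelianUnipotents A B)
    {p : ℕ} [Fact p.Prime] (hA : Cfsg.IsElementaryAbelian p A)
    {a b : X} (ha : a ∈ A) (ha1 : a ≠ 1) (hb : b ∈ B) (hb1 : b ≠ 1) (hab' : Cfsg.conjBy A b⁻¹ = Cfsg.conjBy B a⁻¹) :
    Nonempty (↥(Subgroup.closure ({a, b} : Set X)) ≃* Matrix.SpecialLinearGroup (Fin 2) (ZMod p)) ∨
    Nonempty (↥(Subgroup.closure ({a, b} : Set X)) ≃* Matrix.ProjectiveSpecialLinearGroup (Fin 2) (ZMod p)) := by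
  exact main (Cfsg.Agent.Lib.Helper98.RankOneSp.SP.of_special h.2 hab hs) hA.2
    ⟨ha, ha1, hb, hb1, hab'⟩

end Cfsg.Agent.S5022
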