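import Cfsg.Statements.S5020
-- import your own Cfsg.Agent.* helpers here
import Cfsg.Agent.Lib.Helper98.RankOneSp2
import Cfsg.Agent.S5022
import Cfsg.Agent.S5017
import Cfsg.Agent.Lib.Helper21.Quasi
import Cfsg.Agent.Lib.Helper98.SL2Core

set_option autoImplicit false
open Cfsg

namespace Cfsg.Agent.S5020

section Helpers

open Matrix MatrixGroups
open Cfsg.Agent.Lib.Helper83.RankOne
open Cfsg.Agent.Lib.Helper98.RankOneSp

variable {X : Type*} [Group X] {A B : Subgroup X}

lemma small_case (S : SP A B) (hAB : A ⊔ B = ⊤) (p : ℕ) [Fact p.Prime] (hp : Nat.card A = p) :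
    Nonempty (X ≃* SL(2, ZMod p)) ∨
      Nonempty (X ≃* Matrix.ProjectiveSpecialLinearGroup (Fin 2) (ZMod p)) := by
  obtain ⟨a, ha, ha1⟩ := exists_mem_ne_one (left_ne_bot S.pair)
  obtain ⟨b, hb⟩ := exB S ha ha1
  have hexp : ∀ x ∈ A, x ^ p = 1 := by
    intro x hx
    have h1 : (⟨x, hx⟩ : A) ^ Nat.card A = 1 := pow_card_eq_one'
    rw [hp] at h1
    have h2 := congrArg Subtype.val h1
    simpa using h2
  have hBn := (conjBy_n S hb).1
  have hA_le : A ≤ Subgroup.zpowers a := by
    intro x hx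
    have hne : (⟨a, ha⟩ : A) ≠ 1 := fun h => ha1 (congrArg Subtype.val h)
    have h1 : Subgroup.zpowers (⟨a, ha⟩ : A) = ⊤ := zpowers_eq_top_of_prime_card hp hne
    have h2 : (⟨x, hx⟩ : A) ∈ Subgroup.zpowers (⟨a, ha⟩ : A) := by rw [h1]; trivial
    obtain ⟨k, hk⟩ := Subgroup.mem_zpowers_iff.mp h2
    refine Subgroup.mem_zpowers_iff.mpr ⟨k, ?_⟩
    have h3 := congrArg Subtype.val hk
    simpa using h3
  have hB_le : B ≤ Subgroup.zpowers b := by
    intro y hy
    rw [← hBn, mem_conjBy] at hy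
    obtain ⟨k, hk⟩ := Subgroup.mem_zpowers_iff.mp (hA_le hy)
    have h1 : y = (nE a b * a * (nE a b)⁻¹) ^ k := by
      rw [conj_zpow, hk]; group
    rw [h1, n_conj_a' S hb]
    exact Subgroup.zpow_mem _ (Subgroup.inv_mem _ (Subgroup.mem_zpowers b)) k
  have hcl : Subgroup.closure ({a, b} : Set X) = ⊤ := by
    rw [eq_top_iff, ← hAB]
    refine sup_le ?_ ?_
    · refine le_trans hA_le ?_
      rw [Subgroup.zpowers_le]
      exact Subgroup.subset_closure (by simp)
    · refine le_trans hB_le ?_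
      rw [Subgroup.zpowers_le]
      exact Subgroup.subset_closure (by simp)
  have e : X ≃* ↥(Subgroup.closure ({a, b} : Set X)) :=
    Subgroup.topEquiv.symm.trans (MulEquiv.subgroupCongr hcl.symm)
  rcases Cfsg.Agent.S5022.main S hexp hb with hf | hf
  · obtain ⟨f⟩ := hf
    exact Or.inl ⟨e.trans f⟩
  · obtain ⟨f⟩ := hf
    exact Or.inr ⟨e.trans f⟩

lemma negOne_eq_one_two :
    (Cfsg.Agent.Lib.Helper53.SL2Inv.negOne : SL(2, ZMod 2)) = 1 := by
  obtain ⟨n00, n01, n10, n11⟩ := Cfsg.Agent.Lib.Helper53.SL2Inv.negOne_entries (F := ZMod 2)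
  obtain ⟨o00, o01, o10, o11⟩ := Cfsg.Agent.Lib.Helper53.SL2Inv.one_entries (F := ZMod 2)
  apply Cfsg.Agent.Lib.Helper53.SL2Inv.ext2
  · rw [n00, o00]; decide
  · rw [n01, o01]
  · rw [n10, o10]
  · rw [n11, o11]; decide

lemma center_sl2_two : Subgroup.center SL(2, ZMod 2) = ⊥ := by
  rw [Cfsg.Agent.Lib.Helper98.SL2Core.center_eq, eq_bot_iff]
  intro x hx
  rw [Cfsg.Agent.Lib.Helper98.SL2Core.mem_Zc] at hx
  rw [Subgroup.mem_bot]
  rcases hx with rfl | rfl
  · rfl
  · exact negOne_eq_one_two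

/-- `PSL(2, 2) ≃* SL(2, 2)` -/
noncomputable def pslTwoEquiv :
    Matrix.ProjectiveSpecialLinearGroup (Fin 2) (ZMod 2) ≃* SL(2, ZMod 2) :=
  (QuotientGroup.quotientMulEquivOfEq center_sl2_two).trans QuotientGroup.quotientBot

end Helpers

/-- Let X be a special rank one group with abelian unipotent subgroups A and B, and H = N(A) ∩ N(B) its diagonal subgroup. Then either A has at most three elements and X is isomorphic to SL₂(2), SL₂(3) or PSL₂(3); or X = X' A with the commutator subgroup X' quasisimple and the commutator subgroup ⁅A, H⁆ having more than three elements. -/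
theorem result {X : Type*} [Group X] {A B : Subgroup X} (h : Cfsg.IsRankOneGroup X A B)
    (hs : Cfsg.IsSpecialRankOnePair A B) (hab : Cfsg.HasAbelianUnipotents A B) :
    (ENat.card A ≤ 3 ∧ (Nonempty (X ≃* Matrix.SpecialLinearGroup (Fin 2) (ZMod 2)) ∨
        Nonempty (X ≃* Matrix.SpecialLinearGroup (Fin 2) (ZMod 3)) ∨
        Nonempty (X ≃* Matrix.ProjectiveSpecialLinearGroup (Fin 2) (ZMod 3)))) ∨
    (commutator X ⊔ A = ⊤ ∧ Cfsg.IsQuasisimple (commutator X) ∧
      3 < ENat.card ↥(⁅A, Cfsg.rankOneDiagonal A B⁆ : Subgroup X)) := by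
  have S : Cfsg.Agent.Lib.Helper98.RankOneSp.SP A B :=
    Cfsg.Agent.Lib.Helper98.RankOneSp.SP.of_special h.2 hab hs
  by_cases hcard : ENat.card A ≤ 3
  · left
    refine ⟨hcard, ?_⟩
    haveI : Finite A :=
      ENat.card_lt_top.mp (lt_of_le_of_lt hcard (by exact_mod_cast ENat.natCast_lt_top 3))
    have h3 : Nat.card A ≤ 3 := by
      letI := Fintype.ofFinite A
      have e1 : ENat.card A = (Fintype.card A : ℕ∞) := ENat.card_eq_coe_fintype_card
      rw [e1] at hcard
      rw [Nat.card_eq_fintype_card]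
      exact_mod_cast hcard
    have h1 : 1 < Nat.card A :=
      (A.one_lt_card_iff_ne_bot).mpr (Cfsg.Agent.Lib.Helper83.RankOne.left_ne_bot S.pair)
    have h23 : Nat.card A = 2 ∨ Nat.card A = 3 := by omega
    rcases h23 with h2 | h3'
    · haveI := Nat.fact_prime_two
      rcases small_case S h.1 2 h2 with hh | hf
      · exact Or.inl hh
      · obtain ⟨f⟩ := hf
        exact Or.inl ⟨f.trans pslTwoEquiv⟩
    · haveI := Nat.fact_prime_three
      rcases small_case S h.1 3 h3' with hh | hh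
      · exact Or.inr (Or.inl hh)
      · exact Or.inr (Or.inr hh)
  · right
    have hct := Cfsg.Agent.Lib.Helper98.RankOneSp.commutator_eq_top S h.1 hcard
    refine ⟨?_, ?_, ?_⟩
    · rw [hct, top_sup_eq]
    · have hperf : Group.IsPerfect X := Group.isPerfect_def.mpr hct
      have hq := (Cfsg.Agent.S5017.result h).2 hperf
      have e : X ≃* ↥(commutator X) :=
        Subgroup.topEquiv.symm.trans (MulEquiv.subgroupCongr hct.symm)
      exact Cfsg.Agent.Lib.Helper21.Quasi.of_mulEquiv e hq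
    · have hle := Cfsg.Agent.Lib.Helper98.RankOneSp.le_comm_diag S hcard
      have h4 : ENat.card A ≤ ENat.card ↥(⁅A, Cfsg.rankOneDiagonal A B⁆ : Subgroup X) :=
        ENat.card_le_card_of_injective (Subgroup.inclusion_injective hle)
      exact lt_of_lt_of_le (not_le.mp hcard) h4

end Cfsg.Agent.S5020
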