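import Cfsg.Statements.S5024
-- import your own Cfsg.Agent.* helpers here
import Cfsg.Agent.Lib.Helper83.RootSub

set_option autoImplicit false
open Cfsg

namespace Cfsg.Agent.S5024

/-- Let S be a set of abstract root subgroups of G, A and C members of S, B a rank one partner of A in S and D a rank one partner of C in S. If the rank one group ⟨A, B⟩ is contained in ⟨C, D⟩ then the two coincide, and C and D are conjugates of A inside ⟨A, B⟩. -/
theorem result {G : Type*} [Group G] {S : Set (Subgroup G)} (hS : Cfsg.IsRootSubgroupSet S)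
    {A B C D : Subgroup G} (hA : A ∈ S) (hC : C ∈ S) (hB : B ∈ Cfsg.rankOnePartners S A) (hD : D ∈ Cfsg.rankOnePartners S C)
    (hle : A ⊔ B ≤ C ⊔ D) : A ⊔ B = C ⊔ D ∧ C ∈ Cfsg.unipotentSubgroups A B ∧ D ∈ Cfsg.unipotentSubgroups A B := by
  obtain ⟨hBS, hpAB⟩ := hB
  obtain ⟨hDS, hpCD⟩ := hD
  have hAu : A ∈ unipotentSubgroups C D := by
    rcases Cfsg.Agent.Lib.Helper83.RootSub.unipotent_or_central hS hC hDS hpCD hA
      (le_trans le_sup_left hle) with h1 | h1
    · exact h1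
    · exfalso
      obtain ⟨a, ha, ha1⟩ := Cfsg.Agent.Lib.Helper83.RankOne.exists_mem_ne_one
        (Cfsg.Agent.Lib.Helper83.RankOne.left_ne_bot hpAB)
      apply ha1
      apply Cfsg.Agent.Lib.Helper83.RankOne.eq_one_of_conjBy_eq hpAB ha
      exact Cfsg.Agent.Lib.Helper83.RootSub.conjBy_eq_of_commute
        (fun b hb => h1 a ha b (hle (Subgroup.mem_sup_right hb)))
  have hBu : B ∈ unipotentSubgroups C D := by
    rcases Cfsg.Agent.Lib.Helper83.RootSub.unipotent_or_central hS hC hDS hpCD hBS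
      (le_trans le_sup_right hle) with h1 | h1
    · exact h1
    · exfalso
      obtain ⟨b, hb, hb1⟩ := Cfsg.Agent.Lib.Helper83.RankOne.exists_mem_ne_one
        (Cfsg.Agent.Lib.Helper83.RankOne.right_ne_bot hpAB)
      apply hb1
      apply Cfsg.Agent.Lib.Helper83.RankOne.eq_one_of_conjBy_eq (RankOnePair_symm hpAB) hb
      exact Cfsg.Agent.Lib.Helper83.RootSub.conjBy_eq_of_commute
        (fun a ha => h1 b hb a (hle (Subgroup.mem_sup_left ha)))
  obtain ⟨-, hsup⟩ := Cfsg.Agent.Lib.Helper83.RankOne.isRankOnePair_of_mem_unipotent hpCD hAu hBu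
    hpAB.ne
  obtain ⟨x, hx, hxA, hxB⟩ := Cfsg.Agent.Lib.Helper83.RankOne.exists_conj_pair hpCD hAu hBu hpAB.ne
  have hx' : x ∈ A ⊔ B := hsup ▸ hx
  refine ⟨hsup, ⟨x, hx', hxA.symm⟩, ?_⟩
  rw [← hxB]
  exact Cfsg.Agent.Lib.Helper83.RankOne.conjBy_mem_unipotent
    (Cfsg.Agent.Lib.Helper83.RankOne.right_mem_unipotent hpAB) hx'

end Cfsg.Agent.S5024
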