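import Cfsg.Statements.S5026
-- import your own Cfsg.Agent.* helpers here
import Cfsg.Agent.Lib.Helper83.RootSub

set_option autoImplicit false
open Cfsg

namespace Cfsg.Agent.S5026

/-- Let S be a degenerate set of abstract root subgroups of G (a set of abstract transvection groups) and let a, b be commuting non-identity elements of members of S with a b ≠ 1. Then the members of S centralizing a b are exactly those centralizing both a and b. -/
theorem result {G : Type*} [Group G] {S : Set (Subgroup G)} (hS : Cfsg.IsRootSubgroupSet S) (hdeg : Cfsg.IsDegenerateRootSet S)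
    {a b : G} (ha : a ∈ Cfsg.rootElements S) (hb : b ∈ Cfsg.rootElements S) (hab : a * b = b * a) (hab1 : a * b ≠ 1) :
    Cfsg.centralizingMembers S (Subgroup.zpowers (a * b)) =
      Cfsg.centralizingMembers S (Subgroup.zpowers a) ∩ Cfsg.centralizingMembers S (Subgroup.zpowers b) := by
  have hz : ∀ (E : Subgroup G) (x : G),
      E ≤ Subgroup.centralizer ((Subgroup.zpowers x : Subgroup G) : Set G) ↔
        ∀ e ∈ E, x * e = e * x := by
    intro E x
    constructor
    · intro h e he
      have h1 := h he
      rw [Subgroup.mem_centralizer_iff] at h1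
      exact h1 x (Subgroup.mem_zpowers x)
    · intro h e he
      rw [Subgroup.mem_centralizer_iff]
      intro y hy
      obtain ⟨k, rfl⟩ := Subgroup.mem_zpowers_iff.mp hy
      have hc : Commute x e := h e he
      exact (hc.zpow_left k).eq
  ext E
  simp only [centralizingMembers, Set.mem_ofPred_eq, Set.mem_inter_iff, hz]
  constructor
  · rintro ⟨hE, hc⟩
    have key : ∀ e ∈ E, a * e = e * a := by
      by_contra hcon
      push Not at hcon
      obtain ⟨e₀, he₀, hne₀⟩ := hcon
      obtain ⟨ha1, A, hA, haA⟩ := ha
      obtain ⟨hb1, B, hB, hbB⟩ := hb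
      have hEA : IsRankOnePair E A := by
        rcases hS.pair E hE A hA with h1 | h1 | h1
        · exact absurd (Cfsg.Agent.Lib.Helper83.RootSub.comm_of_commutator_eq_bot h1 he₀ haA).symm hne₀
        · exact h1
        · exact absurd h1 (hdeg E hE A hA)
      have hEB : IsRankOnePair E B := by
        rcases hS.pair E hE B hB with h1 | h1 | h1
        · exfalso
          apply hne₀
          have h2 : e₀ * b = b * e₀ := Cfsg.Agent.Lib.Helper83.RootSub.comm_of_commutator_eq_bot h1 he₀ hbB
          have h3 := hc e₀ he₀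
          calc a * e₀ = a * (e₀ * b) * b⁻¹ := by group
            _ = a * (b * e₀) * b⁻¹ := by rw [h2]
            _ = (a * b * e₀) * b⁻¹ := by group
            _ = (e₀ * (a * b)) * b⁻¹ := by rw [h3]
            _ = e₀ * a := by group
        · exact h1
        · exact absurd h1 (hdeg E hE B hB)
      rcases hS.pair A hA B hB with h1 | h1 | h1
      · by_cases hAB : A = B
        · apply hab1
          have habA : a * b ∈ A := A.mul_mem haA (hAB ▸ hbB)
          exact Cfsg.Agent.Lib.Helper83.RankOne.eq_one_of_conjBy_eq (RankOnePair_symm hEA) habA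
            (Cfsg.Agent.Lib.Helper83.RootSub.conjBy_eq_of_commute hc)
        · have h2 : conjBy E (a * b) = E := Cfsg.Agent.Lib.Helper83.RootSub.conjBy_eq_of_commute hc
          rw [← Cfsg.Agent.Lib.Helper83.RankOne.conjBy_conjBy] at h2
          have h3 : conjBy E b = conjBy E a⁻¹ := Cfsg.Agent.Lib.Helper83.RankOne.conjBy_eq_iff.mp h2
          have hu1 : conjBy E a⁻¹ ∈ unipotentSubgroups E A :=
            ⟨a⁻¹, Subgroup.mem_sup_right (A.inv_mem haA), rfl⟩
          have hu2 : conjBy E a⁻¹ ∈ unipotentSubgroups E B :=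
            ⟨b, Subgroup.mem_sup_right hbB, h3.symm⟩
          have hne : conjBy E a⁻¹ ≠ E := by
            intro hcon
            apply ha1
            have := Cfsg.Agent.Lib.Helper83.RankOne.eq_one_of_conjBy_eq (RankOnePair_symm hEA)
              (A.inv_mem haA) hcon
            simpa using this
          have hs1 := (Cfsg.Agent.Lib.Helper83.RankOne.isRankOnePair_of_mem_unipotent hEA hu1
            (Cfsg.Agent.Lib.Helper83.RankOne.left_mem_unipotent E A) hne).2
          have hs2 := (Cfsg.Agent.Lib.Helper83.RankOne.isRankOnePair_of_mem_unipotent hEB hu2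
            (Cfsg.Agent.Lib.Helper83.RankOne.left_mem_unipotent E B) hne).2
          have hsup : E ⊔ B = E ⊔ A := hs2.symm.trans hs1
          obtain ⟨y, hy, hBy⟩ := Cfsg.Agent.Lib.Helper83.RankOne.right_mem_unipotent hEB
          have hBu : B ∈ unipotentSubgroups E A := ⟨y, hsup ▸ hy, hBy⟩
          have hAu : A ∈ unipotentSubgroups E A :=
            Cfsg.Agent.Lib.Helper83.RankOne.right_mem_unipotent hEA
          obtain ⟨hpAB, -⟩ := Cfsg.Agent.Lib.Helper83.RankOne.isRankOnePair_of_mem_unipotent hEA
            hAu hBu hAB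
          apply ha1
          exact Cfsg.Agent.Lib.Helper83.RankOne.eq_one_of_conjBy_eq hpAB haA
            (Cfsg.Agent.Lib.Helper83.RootSub.conjBy_eq_of_commute
              (fun c hc' => Cfsg.Agent.Lib.Helper83.RootSub.comm_of_commutator_eq_bot h1 haA hc'))
      · have hu : conjBy A b ∈ unipotentSubgroups A B :=
          ⟨b, Subgroup.mem_sup_right hbB, rfl⟩
        have hne : conjBy A b ≠ A := fun hcon =>
          hb1 (Cfsg.Agent.Lib.Helper83.RankOne.eq_one_of_conjBy_eq (RankOnePair_symm h1) hbB hcon)
        obtain ⟨hp2, -⟩ := Cfsg.Agent.Lib.Helper83.RankOne.isRankOnePair_of_mem_unipotent h1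
          (Cfsg.Agent.Lib.Helper83.RankOne.left_mem_unipotent A B) hu (Ne.symm hne)
        have hamem : a ∈ conjBy A b := by
          rw [Cfsg.Agent.Lib.Helper83.RankOne.mem_conjBy]
          have e : b⁻¹ * a * b = a := by
            rw [mul_assoc, hab, ← mul_assoc, inv_mul_cancel, one_mul]
          rw [e]; exact haA
        exact ha1 (Cfsg.Agent.Lib.Helper83.RankOne.eq_one_of_conjBy_eq hp2 haA
          (Cfsg.Agent.Lib.Helper83.RankOne.conjBy_of_mem hamem))
      · exact hdeg A hA B hB h1
    refine ⟨⟨hE, key⟩, hE, fun e he => ?_⟩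
    have h1 := hc e he
    have h2 := key e he
    calc b * e = a⁻¹ * (a * b * e) := by group
      _ = a⁻¹ * (e * (a * b)) := by rw [h1]
      _ = a⁻¹ * (e * a) * b := by group
      _ = a⁻¹ * (a * e) * b := by rw [h2]
      _ = e * b := by group
  · rintro ⟨⟨hE, hca⟩, -, hcb⟩
    exact ⟨hE, fun e he => by rw [mul_assoc, hcb e he, ← mul_assoc, hca e he, mul_assoc]⟩

end Cfsg.Agent.S5026
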