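import Cfsg.Statements.S5027
-- import your own Cfsg.Agent.* helpers here
import Cfsg.Agent.Lib.Helper83.RootSub
import Cfsg.Agent.S5025

set_option autoImplicit false
open Cfsg

namespace Cfsg.Agent.S5027

/-- Let S be a set of abstract root subgroups of G such that every member of S has a rank one partner in S (the graph of rank one pairs on S has no isolated vertex). Then the second centre of G equals its centre. -/
theorem result {G : Type*} [Group G] {S : Set (Subgroup G)} (hS : Cfsg.IsRootSubgroupSet S)
    (hF : ∀ A ∈ S, ¬ Cfsg.IsIsolatedIn (Cfsg.FAdj S) S A) : Subgroup.upperCentralSeries G 2 = Subgroup.center G := by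
  apply le_antisymm
  · intro z hz
    have hz' : z ∈ Subgroup.upperCentralSeries G (1 + 1) := hz
    rw [Subgroup.mem_upperCentralSeries_succ_iff] at hz'
    have hcomm : ∀ A ∈ S, ∀ a ∈ A, a * z = z * a := by
      intro A hA a ha
      by_contra hne
      obtain ⟨B, hB, hp⟩ := Cfsg.Agent.Lib.Helper83.RootSub.exists_partner hA (hF A hA)
      have hζ := hz' a
      rw [Subgroup.upperCentralSeries_one, commutatorElement_def] at hζ
      have ha1 : a ≠ 1 := by rintro rfl; exact hne (by simp)
      have hζ1 : z * a * z⁻¹ * a⁻¹ ≠ 1 := by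
        intro hcon
        apply hne
        have e : z * a = (z * a * z⁻¹ * a⁻¹) * (a * z) := by group
        rw [e, hcon, one_mul]
      have hζc : z * a * z⁻¹ * a⁻¹ ∈ Subgroup.centralizer ((A ⊔ B : Subgroup G) : Set G) := by
        rw [Subgroup.mem_centralizer_iff]
        intro h _
        exact Subgroup.mem_center_iff.mp hζ h
      have h5 := Cfsg.Agent.S5025.result hS hA ⟨hB, hp⟩ hζc hζ1 a ha ha1
      apply h5
      refine ⟨?_, conjBy A z, hS.conj_mem A hA z, ?_⟩
      · intro hcon
        apply ha1
        have e : a = z⁻¹ * ((z * a * z⁻¹ * a⁻¹) * a) * z := by group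
        rw [e, hcon]; group
      · have e : z * a * z⁻¹ * a⁻¹ * a = z * a * z⁻¹ := by group
        rw [e]
        exact Cfsg.Agent.Lib.Helper83.RankOne.conj_mem_conjBy ha z
    rw [Subgroup.mem_center_iff]
    intro g
    have hg : g ∈ (⨆ A ∈ S, A) := hS.generates ▸ Subgroup.mem_top g
    have hle : (⨆ A ∈ S, A) ≤ Subgroup.centralizer ({z} : Set G) := by
      apply iSup₂_le
      intro A hA a ha
      rw [Subgroup.mem_centralizer_iff]
      intro h hh
      rw [Set.mem_singleton_iff] at hh
      subst hh
      exact (hcomm A hA a ha).symm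
    have h6 := hle hg
    rw [Subgroup.mem_centralizer_iff] at h6
    exact (h6 z rfl).symm
  · rw [← Subgroup.upperCentralSeries_one]
    exact Subgroup.upperCentralSeries_mono G (by norm_num)

end Cfsg.Agent.S5027
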