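import Cfsg.Statements.S5035
import Cfsg.Agent.H84.RootBasic

set_option autoImplicit false
open Cfsg

namespace Cfsg.Agent.S5035

open Cfsg.Agent.H84

/-- Let S be a set of abstract root subgroups of G whose graph of rank one pairs is connected, and f a homomorphism from G onto a group H. Then either the images of the members of S form a set of abstract root subgroups of H whose graph of rank one pairs is again connected, or H equals the image of a member of S. -/
theorem result {G H : Type*} [Group G] [Group H] {S : Set (Subgroup G)} (hS : Cfsg.IsRootSubgroupSet S)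
    (hc : Cfsg.IsConnectedFamily (Cfsg.FAdj S) S) (f : G →* H) (hf : Function.Surjective f) :
    (Cfsg.IsRootSubgroupSet ((fun A : Subgroup G => A.map f) '' S) ∧
      Cfsg.IsConnectedFamily (Cfsg.FAdj ((fun A : Subgroup G => A.map f) '' S)) ((fun A : Subgroup G => A.map f) '' S)) ∨
    ∃ A ∈ S, A.map f = ⊤ := by
  have hgen : (⨆ B ∈ (fun A : Subgroup G => A.map f) '' S, B) = (⊤ : Subgroup H) := by
    rw [iSup_image]
    have h1 : (⨆ A ∈ S, A.map f) = (⨆ A ∈ S, A).map f := by
      rw [Subgroup.map_iSup]
      congr 1
      funext A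
      rw [Subgroup.map_iSup]
    rw [h1, hS.generates]
    exact Subgroup.map_top_of_surjective f hf
  by_cases hbot : ∃ A ∈ S, A.map f = ⊥
  · right
    obtain ⟨A0, hA0, hA0bot⟩ := hbot
    -- all images are trivial
    have hall' : ∀ B, Relation.ReflTransGen (FAdj S) A0 B → B.map f = ⊥ := by
      intro B hpath
      induction hpath with
      | refl => exact hA0bot
      | @tail X Y _ hstep ih =>
        obtain ⟨hX, hY, hXY⟩ := hstep
        have hXbot := ih
        obtain ⟨a, ha, ha1⟩ : ∃ a ∈ X, a ≠ 1 := by
          by_contra hcon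
          apply hS.ne_bot X hX
          rw [Subgroup.eq_bot_iff_forall]
          intro x hx
          by_contra hx1
          exact hcon ⟨x, hx, hx1⟩
        obtain ⟨b, hb, hb1, hab⟩ := hXY.cond_left a ha ha1
        have e : conjBy (X.map f) (f b⁻¹) = conjBy (Y.map f) (f a⁻¹) := by
          rw [← map_conjBy, ← map_conjBy, hab]
        rw [hXbot] at e
        have e2 : conjBy (Y.map f) (f a⁻¹) = ⊥ := by
          rw [← e]
          exact Subgroup.map_bot _
        exact (conjBy_eq_bot_iff _ _).mp e2
    have hall : ∀ B ∈ S, B.map f = ⊥ := fun B hB => hall' B (hc A0 hA0 B hB)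
    refine ⟨A0, hA0, ?_⟩
    rw [hA0bot, ← hgen, iSup_image]
    symm
    rw [eq_bot_iff]
    refine iSup₂_le ?_
    intro B hB
    rw [hall B hB]
  · left
    have hne : ∀ A ∈ S, A.map f ≠ ⊥ := fun A hA h => hbot ⟨A, hA, h⟩
    have hcomm : ∀ A ∈ S, IsMulCommutative (A.map f) := by
      intro A hA
      have := hS.commutative A hA
      infer_instance
    constructor
    · refine ⟨?_, ?_, hgen, ?_, ?_⟩
      · rintro _ ⟨A, hA, rfl⟩
        exact hcomm A hA
      · rintro _ ⟨A, hA, rfl⟩
        exact hne A hA
      · rintro _ ⟨A, hA, rfl⟩ h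
        obtain ⟨g, rfl⟩ := hf h
        exact ⟨conjBy A g, hS.conj_mem A hA g, map_conjBy f A g⟩
      · rintro _ ⟨A, hA, rfl⟩ _ ⟨B, hB, rfl⟩
        show ⁅A.map f, B.map f⁆ = ⊥ ∨ IsRankOnePair (A.map f) (B.map f) ∨ _
        rcases hS.pair A hA B hB with h | h | h
        · left
          rw [← Subgroup.map_commutator, h, Subgroup.map_bot]
        · rcases rankOnePair_map f h with h' | h'
          · left
            rw [← h']
            have := hcomm A hA
            rw [Subgroup.commutator_eq_bot_iff_le_centralizer]
            intro x hx y hy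
            exact setLike_mul_comm hy hx
          · exact Or.inr (Or.inl h')
        · right; right
          obtain ⟨h1, h2, h3, h4⟩ := h
          refine ⟨?_, ?_, ?_, ?_⟩
          · exact ⟨⁅A, B⁆, h1, Subgroup.map_commutator A B f⟩
          · intro c hc x hx
            rw [← Subgroup.map_commutator] at hc
            rw [← Subgroup.map_sup] at hx
            obtain ⟨c0, hc0, rfl⟩ := hc
            obtain ⟨x0, hx0, rfl⟩ := hx
            rw [← map_mul, ← map_mul, h2 c0 hc0 x0 hx0]
          · intro a' ha' ha'1
            obtain ⟨a, ha, rfl⟩ := ha'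
            have ha1 : a ≠ 1 := by
              rintro rfl
              exact ha'1 (map_one f)
            rw [← Subgroup.map_commutator, ← h3 a ha ha1, MonoidHom.map_closure]
            congr 1
            ext y
            constructor
            · rintro ⟨_, ⟨b, hb, rfl⟩, rfl⟩
              exact ⟨_, ⟨b, hb, rfl⟩, by simp⟩
            · rintro ⟨_, ⟨b, hb, rfl⟩, rfl⟩
              exact ⟨_, ⟨b, hb, rfl⟩, by simp⟩
          · intro b' hb' hb'1
            obtain ⟨b, hb, rfl⟩ := hb'
            have hb1 : b ≠ 1 := by
              rintro rfl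
              exact hb'1 (map_one f)
            rw [← Subgroup.map_commutator, ← h4 b hb hb1, MonoidHom.map_closure]
            congr 1
            ext y
            constructor
            · rintro ⟨_, ⟨a, ha, rfl⟩, rfl⟩
              exact ⟨_, ⟨a, ha, rfl⟩, by simp⟩
            · rintro ⟨_, ⟨a, ha, rfl⟩, rfl⟩
              exact ⟨_, ⟨a, ha, rfl⟩, by simp⟩
    · rintro _ ⟨A, hA, rfl⟩ _ ⟨B, hB, rfl⟩
      have hpath := hc A hA B hB
      refine Relation.ReflTransGen.lift' (fun A : Subgroup G => A.map f) ?_ A B hpath
      rintro X Y ⟨hX, hY, hXY⟩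
      rcases rankOnePair_map f hXY with h' | h'
      · show Relation.ReflTransGen _ (X.map f) (Y.map f)
        rw [h']
      · exact Relation.ReflTransGen.single ⟨⟨X, hX, rfl⟩, ⟨Y, hY, rfl⟩, h'⟩

end Cfsg.Agent.S5035
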