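import Cfsg.Statements.S5041
-- import your own Cfsg.Agent.* helpers here
import Cfsg.Agent.Lib.Helper83.Conn
import Cfsg.Agent.S5034

set_option autoImplicit false
open Cfsg

namespace Cfsg.Agent.S5041

/-- Let S be a non-degenerate class of abstract root subgroups of G. Then the graph on S joining A to its line partners, and the commuting graph on S, are both connected. -/
theorem result {G : Type*} [Group G] {S : Set (Subgroup G)} (hS : Cfsg.IsRootSubgroupClass S) (hnd : Cfsg.IsNondegenerateRootSet S) :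
    Cfsg.IsConnectedFamily (Cfsg.EAdj S S) S ∧ Cfsg.IsConnectedFamily (Cfsg.DAdj S) S := by
  have hS' := hS.1
  have hcl := hS.2
  have hni : ∀ X ∈ S, ∃ D ∈ S, Cfsg.IsRankOnePair X D := by
    obtain ⟨A₀, hA₀, D₀, hD₀, hp₀⟩ := hnd.2.1
    intro X hX
    obtain ⟨g, rfl⟩ := hcl.2 A₀ hA₀ X hX
    exact ⟨Cfsg.conjBy D₀ g, hS'.conj_mem D₀ hD₀ g,
      Cfsg.Agent.Lib.Helper83.RankOne.isRankOnePair_conjBy hp₀ g⟩
  have hline : ∀ A ∈ S, ∀ B ∈ S, Cfsg.IsRankOnePair A B →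
      ∃ C ∈ Cfsg.linePartners S A, ⁅B, C⁆ ∈ S := by
    intro A hA B hB hp
    obtain ⟨⟨C, hC, -, hBC⟩, -⟩ := Cfsg.Agent.S5034.result hS hnd hA ⟨hB, hp⟩
    exact ⟨C, hC, hBC⟩
  have h1 := Cfsg.Agent.Lib.Helper83.Conn.e_connected hS' hcl hni hline
  exact ⟨h1, Cfsg.Agent.Lib.Helper83.Conn.d_connected_of_e h1⟩

end Cfsg.Agent.S5041
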