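import Cfsg.Statements.S5042
-- import your own Cfsg.Agent.* helpers here
import Cfsg.Agent.Lib.Helper83.Conn
import Cfsg.Agent.S5034
import Cfsg.Agent.S5041

set_option autoImplicit false
open Cfsg

namespace Cfsg.Agent.S5042

/-- Let S be a non-degenerate class of abstract root subgroups of G, A ∈ S and B a rank one partner of A. Then G is generated by the line partners of A together with B. -/
theorem result {G : Type*} [Group G] {S : Set (Subgroup G)} (hS : Cfsg.IsRootSubgroupClass S) (hnd : Cfsg.IsNondegenerateRootSet S)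
    {A B : Subgroup G} (hA : A ∈ S) (hB : B ∈ Cfsg.rankOnePartners S A) :
    (⨆ C ∈ Cfsg.linePartners S A, C) ⊔ B = ⊤ := by
  have hS' := hS.1
  have hcl := hS.2
  have hni : ∀ X ∈ S, ∃ D ∈ S, Cfsg.IsRankOnePair X D := by
    obtain ⟨A₀, hA₀, D₀, hD₀, hp₀⟩ := hnd.2.1
    intro X hX
    obtain ⟨g, rfl⟩ := hcl.2 A₀ hA₀ X hX
    exact ⟨Cfsg.conjBy D₀ g, hS'.conj_mem D₀ hD₀ g,
      Cfsg.Agent.Lib.Helper83.RankOne.isRankOnePair_conjBy hp₀ g⟩
  have hconn := (Cfsg.Agent.S5041.result hS hnd).1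
  obtain ⟨hBS, hp⟩ := hB
  obtain ⟨⟨C, hC, -⟩, -⟩ := Cfsg.Agent.S5034.result hS hnd hA ⟨hBS, hp⟩
  exact Cfsg.Agent.Lib.Helper83.Conn.generated_by_lines hS' hni hconn hA hBS hp ⟨C, hC⟩

end Cfsg.Agent.S5042
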