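import Cfsg.Statements.S5040
-- import your own Cfsg.Agent.* helpers here
import Cfsg.Agent.Lib.Helper83.Conn
import Cfsg.Agent.S5036
import Cfsg.Agent.S5042

set_option autoImplicit false
open Cfsg

namespace Cfsg.Agent.S5040

open Cfsg.Agent.Lib.Helper83.RankOne Cfsg.Agent.Lib.Helper83.RootSub Cfsg.Agent.Lib.Helper83.RootSub2
open Cfsg.Agent.Lib.Helper83.Triple Cfsg.Agent.Lib.Helper83.Comp Cfsg.Agent.Lib.Helper83.Line
open Cfsg.Agent.Lib.Helper83.Conn
open scoped commutatorElement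

/-- Let S be a non-degenerate class of abstract root subgroups of G and Δ a weak TI-subset of S. Then the members of Δ commute with one another elementwise. -/
theorem result {G : Type*} [Group G] {S : Set (Subgroup G)} (hS : Cfsg.IsRootSubgroupClass S) (hnd : Cfsg.IsNondegenerateRootSet S)
    {Δ : Set (Subgroup G)} (hΔ : Cfsg.IsWeakTISubset S Δ) : Cfsg.IsAbelianFamily Δ := by
  have hS' := hS.1
  have hcl := hS.2
  have hni : ∀ X ∈ S, ∃ D ∈ S, Cfsg.IsRankOnePair X D := by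
    obtain ⟨A₀, hA₀, D₀, hD₀, hp₀⟩ := hnd.2.1
    intro X hX
    obtain ⟨g, rfl⟩ := hcl.2 A₀ hA₀ X hX
    exact ⟨Cfsg.conjBy D₀ g, hS'.conj_mem D₀ hD₀ g, isRankOnePair_conjBy hp₀ g⟩
  have hiso : ∀ X ∈ S, ¬ Cfsg.IsIsolatedIn (Cfsg.FAdj S) S X := by
    intro X hX
    obtain ⟨D', hD', hp'⟩ := hni X hX
    exact not_isolated_of_partner hX hD' hp'
  obtain ⟨hΔS, ⟨A₁, hA₁, -⟩, hΔne, hTI⟩ := hΔ
  -- the normalizer of `Δ`
  let N : Subgroup G :=
    { carrier := {g | ∀ X, X ∈ Δ ↔ Cfsg.conjBy X g ∈ Δ}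
      one_mem' := by
        intro X
        rw [conjBy_one]
      mul_mem' := by
        intro x y hx hy X
        rw [← conjBy_conjBy]
        exact (hy X).trans (hx _)
      inv_mem' := by
        intro x hx X
        have := hx (Cfsg.conjBy X x⁻¹)
        rw [conjBy_inv_cancel'] at this
        exact this.symm }
  have K1 : ∀ P ∈ Δ, ∀ D ∈ S, ∀ d ∈ D, Cfsg.conjBy P d ∈ Δ → d ∈ N := by
    intro P hP D hD d hd hPd
    by_cases hd1 : d = 1
    · rw [hd1]; exact N.one_mem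
    have hroot : d ∈ Cfsg.rootElements S := ⟨hd1, D, hD, hd⟩
    rcases hTI d hroot with h | h
    · intro X
      constructor
      · intro hX
        rw [← h]
        exact ⟨X, hX, rfl⟩
      · intro hX
        rw [← h] at hX
        obtain ⟨Y, hY, hYX⟩ := hX
        have : Y = X := conjBy_injective d hYX
        rw [← this]; exact hY
    · exfalso
      exact Set.disjoint_left.mp h ⟨P, hP, rfl⟩ hPd
  have K2 : ∀ P ∈ Δ, ∀ D ∈ S, Cm D P → D ≤ N := by
    intro P hP D hD hc d hd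
    apply K1 P hP D hD d hd
    rw [hc.conjBy_eq hd]; exact hP
  have K2' : ∀ P ∈ Δ, P ≤ N := fun P hP =>
    K2 P hP P (hΔS hP) (cm_self_of_comm (hS'.commutative P (hΔS hP)))
  have K3 : N = ⊤ → False := by
    intro hN
    apply hΔne
    apply Set.Subset.antisymm hΔS
    intro X hX
    obtain ⟨g, rfl⟩ := hcl.2 A₁ (hΔS hA₁) X hX
    have hg : g ∈ N := by rw [hN]; trivial
    exact (hg A₁).mp hA₁
  have K4 : ∀ A ∈ Δ, ∀ B ∈ Δ, Cfsg.IsRankOnePair A B → False := by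
    intro A hA B hB hp
    apply K3
    rw [eq_top_iff, ← Cfsg.Agent.S5042.result hS hnd (hΔS hA) ⟨hΔS hB, hp⟩]
    apply sup_le
    · apply iSup₂_le
      intro C hC
      exact K2 A hA C hC.1.1 (cm_iff_bot.mpr hC.1.2.2).symm
    · exact K2' B hB
  have K5 : ∀ P ∈ Δ, ∀ D ∈ S, D ≤ N → Cfsg.IsRankOnePair P D → D ∈ Δ := by
    intro P hP D hD hDN hp
    obtain ⟨x, hx, hDx⟩ := right_mem_unipotent hp
    have hxN : x ∈ N := sup_le (K2' P hP) hDN hx
    rw [hDx]
    exact (hxN P).mp hP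
  intro A hA B hB
  by_contra hcon
  have hncm : ¬ Cm A B := fun h => hcon h
  have hAS := hΔS hA
  have hBS := hΔS hB
  rcases hS'.pair A hAS B hBS with h | h | h
  · exact hncm (cm_iff_bot.mpr h)
  · exact K4 A hA B hB h
  · -- commutator case
    have hCS : ⁅A, B⁆ ∈ S := h.1
    have hCS' : ⁅B, A⁆ ∈ S := by rw [Subgroup.commutator_comm]; exact hCS
    have h29 := Cfsg.Agent.S5029.result hS' (hiso B hBS) hBS hAS hCS'
    rw [Subgroup.commutator_comm B A] at h29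
    obtain ⟨D₀, hD₀, hp₀⟩ := hni _ hCS
    obtain ⟨E₀, hE₀, hE₀C, hc₀, hcCL, hEq₀, -, -⟩ :=
      line_structure hS' hni hCS h29.2.2.1 hD₀ hp₀
    have hE₀' : E₀ ∈ Cfsg.membersIn S (B ⊔ ⁅A, B⁆) := by rw [sup_comm]; exact hE₀
    rw [h29.1] at hE₀'
    rcases hE₀' with ⟨a, ha, hE₀eq⟩ | hE₀'
    · have hE₀eq' : Cfsg.conjBy B a = E₀ := hE₀eq
      have hE₀Δ : E₀ ∈ Δ := by
        rw [← hE₀eq']
        exact (K2' A hA ha B).mp hB
      have hL₀N : ⁅D₀, E₀⁆ ≤ N :=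
        K2 E₀ hE₀Δ _ hc₀.1 ((commCase_cm hc₀).mono le_rfl le_sup_right)
      have hcomm : ⁅E₀, A⁆ = ⁅A, B⁆ := by
        rw [← hE₀eq', Subgroup.commutator_comm]
        have e1 : Cfsg.conjBy A a = A := conjBy_of_mem ha
        have e2 : ⁅Cfsg.conjBy A a, Cfsg.conjBy B a⁆ = Cfsg.conjBy ⁅A, B⁆ a :=
          (Subgroup.map_commutator A B _).symm
        rw [e1] at e2
        rw [e2]
        exact conjBy_commutator_eq A B (Subgroup.mem_sup_left ha)
      have h36 := Cfsg.Agent.S5036.result hS' hE₀.1 hAS (by rw [hcomm]; exact hCS) hc₀.1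
        (by rw [hcomm, Subgroup.commutator_comm ⁅D₀, E₀⁆ ⁅A, B⁆]; exact hEq₀)
      exact K4 A hA _ (K5 A hA _ hc₀.1 hL₀N h36.1) h36.1
    · exact hE₀C (Set.mem_singleton_iff.mp hE₀')

end Cfsg.Agent.S5040
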