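import Cfsg.Statements.S5049
import Cfsg.Agent.H84.PCore

set_option autoImplicit false
open Cfsg

namespace Cfsg.Agent.S5049

open Cfsg.Agent.H84

variable {G : Type*} [Group G]

theorem sq_eq_one_of_mem {D : Set G} (hD : IsRootInvolutionSet D) {x : G} (hx : x ∈ D) : x ^ 2 = 1 := by
  have := pow_orderOf_eq_one x
  rwa [hD.orderOf_eq x hx] at this

theorem inv_eq_self_of_mem {D : Set G} (hD : IsRootInvolutionSet D) {x : G} (hx : x ∈ D) : x⁻¹ = x := by
  have h := sq_eq_one_of_mem hD hx
  rw [pow_two] at h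
  exact inv_eq_of_mul_eq_one_left h

/-- Two odd transpositions whose product is a 2-element commute. -/
theorem L1 {D : Set G} (hD : IsOddTranspositionSet D) {x y : G} (hx : x ∈ D) (hy : y ∈ D) (k : ℕ)
    (hk : (x * y) ^ (2 ^ k) = 1) : x * y = y * x := by
  rcases hD.1.pair x hx y hy with h | h | h
  · exact h
  · have h1 : orderOf (x * y) ∣ 2 ^ k := orderOf_dvd_of_pow_eq_one hk
    have h2 : orderOf (x * y) = 1 :=
      Nat.Coprime.eq_one_of_dvd (Nat.Coprime.pow_right k h.coprime_two_right) h1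
    have h3 : x * y = 1 := orderOf_eq_one_iff.mp h2
    rw [h3]
    exact (mul_eq_one_comm.mp h3).symm
  · exact absurd h.1 (hD.2 x hx y hy)

/-- If `x, y ∈ D` commute and `q ∈ O₂(G)`, then `x` commutes with `q y q⁻¹`. -/
theorem L2 {D : Set G} (hD : IsOddTranspositionSet D) {x y q : G} (hx : x ∈ D) (hy : y ∈ D)
    (hxy : x * y = y * x) (hq : q ∈ pCore 2 G) : x * (q * y * q⁻¹) = (q * y * q⁻¹) * x := by
  have hQn : (pCore 2 G).Normal := Cfsg.Agent.H84.pCore_normal 2
  have hQp : IsPGroup 2 (pCore 2 G) := pCore_isPGroup 2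
  have hz : (x * (q * y * q⁻¹)) ^ 2 ∈ pCore 2 G := by
    rw [← QuotientGroup.eq_one_iff]
    have hπq : ((q : G) : G ⧸ pCore 2 G) = 1 := (QuotientGroup.eq_one_iff q).mpr hq
    have h1 : (((x * (q * y * q⁻¹)) ^ 2 : G) : G ⧸ pCore 2 G) = (((x * y) ^ 2 : G) : G ⧸ pCore 2 G) := by
      simp only [QuotientGroup.mk_pow, QuotientGroup.mk_mul, QuotientGroup.mk_inv, hπq, one_mul,
        mul_one, inv_one]
    rw [h1]
    have h2 : (x * y) ^ 2 = 1 := by
      rw [pow_two]
      calc x * y * (x * y) = x * (y * x) * y := by group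
        _ = x * (x * y) * y := by rw [hxy]
        _ = x ^ 2 * y ^ 2 := by simp only [pow_two, mul_assoc]
        _ = 1 := by rw [sq_eq_one_of_mem hD.1 hx, sq_eq_one_of_mem hD.1 hy, one_mul]
    rw [h2]
    rfl
  obtain ⟨k, hk⟩ := hQp ⟨_, hz⟩
  have hk' : ((x * (q * y * q⁻¹)) ^ 2) ^ (2 ^ k) = 1 := congrArg Subtype.val hk
  refine L1 hD hx (hD.1.conj_mem y hy q) (k + 1) ?_
  rw [pow_succ, mul_comm, pow_mul]
  exact hk'

/-- Let G be a finite group generated by a set D of odd transpositions (root involutions with no product of order 4), Q = O₂(G), and for a ∈ D let Q_a be the commutator subgroup of Q with a. Then every member of D commuting with a centralizes Q_a; and for b ∈ D with ab of odd order greater than 1, the centralizer of ab in Q is the intersection of the centralizers of a and b in Q. -/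
theorem result {G : Type*} [Group G] [Finite G] {D : Set G} (hD : Cfsg.IsOddTranspositionSet D) {a : G} (ha : a ∈ D) :
    (∀ e ∈ Cfsg.commutingMembers D a, ∀ q ∈ ⁅Cfsg.pCore 2 G, Subgroup.zpowers a⁆, e * q = q * e) ∧
    (∀ b ∈ Cfsg.oddPartners D a,
      Cfsg.pCore 2 G ⊓ Subgroup.centralizer {a * b} = Cfsg.pCore 2 G ⊓ Subgroup.centralizer {a} ⊓ Subgroup.centralizer {b}) := by
  have hQn : (pCore 2 G).Normal := Cfsg.Agent.H84.pCore_normal 2
  have hQp : IsPGroup 2 (pCore 2 G) := pCore_isPGroup 2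
  constructor
  · rintro e ⟨heD, hea⟩ q' hq'
    -- e centralizes the generators
    have hle : ⁅pCore 2 G, Subgroup.zpowers a⁆ ≤ Subgroup.centralizer {e} := by
      rw [Subgroup.commutator_le]
      intro q hq z hz
      rw [Subgroup.mem_centralizer_iff]
      intro e' he'
      rw [Set.mem_singleton_iff] at he'
      subst he'
      obtain ⟨n, rfl⟩ := Subgroup.mem_zpowers_iff.mp hz
      have h1 : Commute e' (q * a * q⁻¹) := L2 hD heD ha hea hq
      have h2 : Commute e' a := hea
      have h3 : Commute e' (q * a ^ n * q⁻¹) := by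
        have : q * a ^ n * q⁻¹ = (q * a * q⁻¹) ^ n := by
          rw [conj_zpow]
        rw [this]
        exact h1.zpow_right n
      have h4 : Commute e' (a ^ n)⁻¹ := (h2.zpow_right n).inv_right
      rw [commutatorElement_def]
      exact h3.mul_right h4
    have := hle hq'
    rw [Subgroup.mem_centralizer_iff] at this
    exact this e rfl
  · rintro b ⟨hbD, hba, hodd⟩
    have ha2 := sq_eq_one_of_mem hD.1 ha
    have hb2 := sq_eq_one_of_mem hD.1 hbD
    have hainv := inv_eq_self_of_mem hD.1 ha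
    have hbinv := inv_eq_self_of_mem hD.1 hbD
    have hc1 : a * b ≠ 1 := by
      intro h
      apply hba
      have : b = a⁻¹ := (eq_inv_of_mul_eq_one_right h)
      rw [this, hainv]
    apply le_antisymm
    · rintro q ⟨hqQ, hqc⟩
      have hqc' : Commute (a * b) q := by
        have hqc2 : q ∈ Subgroup.centralizer ({a * b} : Set G) := hqc
        rw [Subgroup.mem_centralizer_iff] at hqc2
        exact hqc2 _ rfl
      -- t = [q, a]
      have htQ : q * a * q⁻¹ * a⁻¹ ∈ pCore 2 G := by
        have : q * a * q⁻¹ * a⁻¹ = q * (a * q⁻¹ * a⁻¹) := by group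
        rw [this]
        exact (pCore 2 G).mul_mem hqQ (hQn.conj_mem _ ((pCore 2 G).inv_mem hqQ) a)
      -- a inverts c = a b
      have hinv : a * (a * b) * a⁻¹ = (a * b)⁻¹ := by
        rw [mul_inv_rev, hainv, hbinv]
        calc a * (a * b) * a = a ^ 2 * b * a := by simp only [pow_two, mul_assoc]
          _ = b * a := by rw [ha2, one_mul]
      have hinv' : a⁻¹ * (a * b) * a = (a * b)⁻¹ := by
        rw [hainv]
        have := hinv
        rw [hainv] at this
        exact this
      have htc : Commute (q * a * q⁻¹ * a⁻¹) (a * b) := by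
        show q * a * q⁻¹ * a⁻¹ * (a * b) = a * b * (q * a * q⁻¹ * a⁻¹)
        have e1 : q⁻¹ * (a * b) = (a * b) * q⁻¹ := (hqc'.inv_right).eq.symm
        have e2 : q * (a * b)⁻¹ = (a * b)⁻¹ * q := (hqc'.symm.inv_right).eq
        have e3 : a⁻¹ * (a * b) = (a * b)⁻¹ * a⁻¹ := by
          rw [← hinv']
          group
        have e4 : a * (a * b)⁻¹ = (a * b) * a := by
          have : (a * b)⁻¹ = a⁻¹ * (a * b) * a := hinv'.symm
          rw [this]
          group
        calc q * a * q⁻¹ * a⁻¹ * (a * b) = q * a * q⁻¹ * (a⁻¹ * (a * b)) := by group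
          _ = q * a * q⁻¹ * ((a * b)⁻¹ * a⁻¹) := by rw [e3]
          _ = q * a * (q⁻¹ * (a * b)⁻¹) * a⁻¹ := by group
          _ = q * a * ((a * b)⁻¹ * q⁻¹) * a⁻¹ := by
            have : q⁻¹ * (a * b)⁻¹ = (a * b)⁻¹ * q⁻¹ := ((hqc'.inv_right).inv_left).eq.symm
            rw [this]
          _ = q * (a * (a * b)⁻¹) * q⁻¹ * a⁻¹ := by group
          _ = q * ((a * b) * a) * q⁻¹ * a⁻¹ := by rw [e4]
          _ = (q * (a * b)) * a * q⁻¹ * a⁻¹ := by group
          _ = ((a * b) * q) * a * q⁻¹ * a⁻¹ := by rw [hqc'.eq]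
          _ = a * b * (q * a * q⁻¹ * a⁻¹) := by group
      obtain ⟨k, hk⟩ := hQp ⟨_, htQ⟩
      have hk' : (q * a * q⁻¹ * a⁻¹) ^ (2 ^ k) = 1 := congrArg Subtype.val hk
      have ha'D : q * a * q⁻¹ ∈ D := hD.1.conj_mem a ha q
      have hprod : (q * a * q⁻¹) * b = (q * a * q⁻¹ * a⁻¹) * (a * b) := by group
      have hnpos : 0 < orderOf (a * b) := Nat.pos_of_ne_zero (fun h => by rw [h] at hodd; exact absurd hodd (by decide))
      have ht1 : q * a * q⁻¹ * a⁻¹ = 1 := by
        rcases hD.1.pair _ ha'D b hbD with h | h | h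
        · -- commuting case: impossible
          exfalso
          have h2 : ((q * a * q⁻¹) * b) ^ 2 = 1 := by
            rw [pow_two]
            calc q * a * q⁻¹ * b * (q * a * q⁻¹ * b) = q * a * q⁻¹ * (b * (q * a * q⁻¹)) * b := by group
              _ = q * a * q⁻¹ * ((q * a * q⁻¹) * b) * b := by rw [h]
              _ = q * a ^ 2 * q⁻¹ * b ^ 2 := by simp only [pow_two, mul_assoc, inv_mul_cancel_left]
              _ = 1 := by rw [ha2, hb2]; group
          rw [hprod, htc.mul_pow] at h2
          -- c^2 = (t^2)⁻¹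
          have h3 : (a * b) ^ 2 = ((q * a * q⁻¹ * a⁻¹) ^ 2)⁻¹ := eq_inv_of_mul_eq_one_right h2
          have h4 : (a * b) ^ (2 * 2 ^ k) = 1 := by
            rw [pow_mul, h3, inv_pow, ← pow_mul, mul_comm, pow_mul, hk', one_pow, inv_one]
          have h5 : orderOf (a * b) ∣ 2 * 2 ^ k := orderOf_dvd_of_pow_eq_one h4
          have h6 : orderOf (a * b) = 1 := by
            refine Nat.Coprime.eq_one_of_dvd ?_ h5
            rw [← pow_succ']
            exact Nat.Coprime.pow_right _ hodd.coprime_two_right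
          exact hc1 (orderOf_eq_one_iff.mp h6)
        · -- odd case
          rw [hprod] at h
          have h2 : ((q * a * q⁻¹ * a⁻¹) * (a * b)) ^ orderOf ((q * a * q⁻¹ * a⁻¹) * (a * b)) = 1 :=
            pow_orderOf_eq_one _
          rw [htc.mul_pow] at h2
          set m := orderOf ((q * a * q⁻¹ * a⁻¹) * (a * b)) with hm
          have h3 : (q * a * q⁻¹ * a⁻¹) ^ m = ((a * b) ^ m)⁻¹ := eq_inv_of_mul_eq_one_left h2
          have h4 : (q * a * q⁻¹ * a⁻¹) ^ (m * orderOf (a * b)) = 1 := by
            rw [pow_mul, h3, inv_pow, ← pow_mul, mul_comm, pow_mul, pow_orderOf_eq_one, one_pow, inv_one]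
          have h5 : orderOf (q * a * q⁻¹ * a⁻¹) ∣ m * orderOf (a * b) := orderOf_dvd_of_pow_eq_one h4
          have h6 : orderOf (q * a * q⁻¹ * a⁻¹) ∣ 2 ^ k := orderOf_dvd_of_pow_eq_one hk'
          have h7 : Nat.Coprime (m * orderOf (a * b)) (2 ^ k) :=
            Nat.Coprime.pow_right _ (h.mul hodd).coprime_two_right
          have h8 : orderOf (q * a * q⁻¹ * a⁻¹) = 1 :=
            Nat.eq_one_of_dvd_coprimes h7 h5 h6
          exact orderOf_eq_one_iff.mp h8
        · exact absurd h.1 (hD.2 _ ha'D b hbD)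
      have hqa : q * a = a * q := by
        have : q * a = (q * a * q⁻¹ * a⁻¹) * (a * q) := by group
        rw [this, ht1, one_mul]
      refine ⟨⟨hqQ, ?_⟩, ?_⟩
      · show q ∈ Subgroup.centralizer ({a} : Set G)
        rw [Subgroup.mem_centralizer_iff]
        intro x hx
        rw [Set.mem_singleton_iff] at hx
        subst hx
        exact hqa.symm
      · show q ∈ Subgroup.centralizer ({b} : Set G)
        rw [Subgroup.mem_centralizer_iff]
        intro x hx
        rw [Set.mem_singleton_iff] at hx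
        subst hx
        have hb : x = a⁻¹ * (a * x) := by group
        have hqa' : Commute a q := hqa.symm
        have : Commute (a⁻¹ * (a * x)) q := (hqa'.inv_left).mul_left hqc'
        rw [← hb] at this
        exact this
    · rintro q ⟨⟨hqQ, hqa⟩, hqb⟩
      refine ⟨hqQ, ?_⟩
      have hqa : q ∈ Subgroup.centralizer ({a} : Set G) := hqa
      have hqb : q ∈ Subgroup.centralizer ({b} : Set G) := hqb
      show q ∈ Subgroup.centralizer ({a * b} : Set G)
      rw [Subgroup.mem_centralizer_iff] at hqa hqb ⊢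
      intro x hx
      rw [Set.mem_singleton_iff] at hx
      subst hx
      have h1 : Commute a q := hqa a rfl
      have h2 : Commute b q := hqb b rfl
      exact h1.mul_left h2

end Cfsg.Agent.S5049
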