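import Cfsg.Statements.S5057

set_option autoImplicit false
open Cfsg

namespace Cfsg.Agent.S5057

open Equiv Equiv.Perm

set_option maxRecDepth 100000 in
/-- Element orders in `A₆` (brute force over the 720 permutations). -/
theorem orders : ∀ g : Perm (Fin 6), Equiv.Perm.sign g = 1 → g ^ 4 = 1 ∨ g ^ 3 = 1 ∨ g ^ 5 = 1 := by
  decide +kernel

theorem cycleType_of_invol {σ : Perm (Fin 6)} (h2 : orderOf σ = 2) (hs : Equiv.Perm.sign σ = 1) :
    σ.cycleType = Multiset.replicate 2 2 := by
  have hp : (orderOf σ).Prime := by rw [h2]; exact Nat.prime_two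
  obtain ⟨n, hn⟩ := Equiv.Perm.cycleType_prime_order hp
  rw [h2] at hn
  have hsum := Equiv.Perm.sum_cycleType_le σ
  rw [hn, Multiset.sum_replicate, Fintype.card_fin] at hsum
  have hsign := Equiv.Perm.sign_of_cycleType σ
  rw [hs, hn, Multiset.sum_replicate, Multiset.card_replicate] at hsign
  have hn2 : n ≤ 2 := by
    simp only [smul_eq_mul] at hsum
    omega
  interval_cases n
  · exfalso; revert hsign; decide
  · exact hn
  · exfalso; revert hsign; decide

theorem a0_sq : (swap (0 : Fin 6) 1 * swap 2 3) ^ 2 = 1 := by decide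
theorem a0_ne : (swap (0 : Fin 6) 1 * swap 2 3) ≠ 1 := by decide
theorem a0_sign : Equiv.Perm.sign (swap (0 : Fin 6) 1 * swap 2 3) = 1 := by
  rw [Equiv.Perm.sign_mul, Equiv.Perm.sign_swap (by decide), Equiv.Perm.sign_swap (by decide)]
  rfl
theorem a0_comm : swap (0 : Fin 6) 1 * (swap 0 1 * swap 2 3) * (swap 0 1)⁻¹ = swap 0 1 * swap 2 3 := by
  decide

theorem exists_even_conj {a : Perm (Fin 6)} (h2 : orderOf a = 2) (hs : Equiv.Perm.sign a = 1) :
    ∃ g : Perm (Fin 6), Equiv.Perm.sign g = 1 ∧ g * (swap 0 1 * swap 2 3) * g⁻¹ = a := by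
  have h0 : orderOf (swap (0 : Fin 6) 1 * swap 2 3) = 2 := orderOf_eq_prime a0_sq a0_ne
  have hc : IsConj (swap (0 : Fin 6) 1 * swap 2 3) a :=
    Equiv.Perm.isConj_iff_cycleType_eq.mpr
      (by rw [cycleType_of_invol h0 a0_sign, cycleType_of_invol h2 hs])
  obtain ⟨c, hc⟩ := isConj_iff.mp hc
  rcases Int.units_eq_one_or (Equiv.Perm.sign c) with h | h
  · exact ⟨c, h, hc⟩
  · refine ⟨c * swap 0 1, ?_, ?_⟩
    · rw [Equiv.Perm.sign_mul, h, Equiv.Perm.sign_swap (by decide)]
      rfl
    · calc c * swap 0 1 * (swap 0 1 * swap 2 3) * (c * swap 0 1)⁻¹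
          = c * (swap 0 1 * (swap 0 1 * swap 2 3) * (swap 0 1)⁻¹) * c⁻¹ := by group
        _ = a := by rw [a0_comm, hc]

/-- The involutions of the alternating group of degree 6 form a class of root involutions (a single conjugacy class of involutions generating the group, any two of which commute, have product of odd order, or have product of order 4 whose square is again an involution of the class), and the product of any two of them has order at most 5. -/
theorem result :
    Cfsg.IsRootInvolutionClass {g : ↥(alternatingGroup (Fin 6)) | orderOf g = 2} ∧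
    ∀ d ∈ {g : ↥(alternatingGroup (Fin 6)) | orderOf g = 2}, ∀ e ∈ {g : ↥(alternatingGroup (Fin 6)) | orderOf g = 2},
      orderOf (d * e) ≤ 5 := by
  -- orders in the subtype
  have hord : ∀ c : ↥(alternatingGroup (Fin 6)), c ^ 4 = 1 ∨ c ^ 3 = 1 ∨ c ^ 5 = 1 := by
    intro c
    rcases orders c (Equiv.Perm.mem_alternatingGroup.mp c.2) with h | h | h
    · exact Or.inl (Subtype.ext h)
    · exact Or.inr (Or.inl (Subtype.ext h))
    · exact Or.inr (Or.inr (Subtype.ext h))
  -- the base involution
  let a0 : ↥(alternatingGroup (Fin 6)) := ⟨swap 0 1 * swap 2 3, Equiv.Perm.mem_alternatingGroup.mpr a0_sign⟩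
  have ha0 : orderOf a0 = 2 :=
    orderOf_eq_prime (Subtype.ext a0_sq) (fun h => a0_ne (congrArg Subtype.val h))
  -- every involution is an even conjugate of a0
  have hconj0 : ∀ a : ↥(alternatingGroup (Fin 6)), orderOf a = 2 → ∃ g : ↥(alternatingGroup (Fin 6)), a = g * a0 * g⁻¹ := by
    intro a ha
    have h2 : orderOf (a : Perm (Fin 6)) = 2 := by rw [Subgroup.orderOf_coe]; exact ha
    obtain ⟨g, hg, hga⟩ := exists_even_conj h2 (Equiv.Perm.mem_alternatingGroup.mp a.2)
    exact ⟨⟨g, Equiv.Perm.mem_alternatingGroup.mpr hg⟩, Subtype.ext hga.symm⟩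
  have hconj_mem : ∀ d : ↥(alternatingGroup (Fin 6)), orderOf d = 2 → ∀ g : ↥(alternatingGroup (Fin 6)),
      orderOf (g * d * g⁻¹) = 2 := by
    intro d hd g
    have h1 : (g * d * g⁻¹) ^ 2 = 1 := by
      rw [conj_pow, ← hd, pow_orderOf_eq_one]
      group
    have h2 : g * d * g⁻¹ ≠ 1 := by
      intro h
      have : d = 1 := by
        have : d = g⁻¹ * (g * d * g⁻¹) * g := by group
        rw [this, h]
        group
      rw [this, orderOf_one] at hd
      exact absurd hd (by decide)
    exact orderOf_eq_prime h1 h2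
  have hsimple : IsSimpleGroup ↥(alternatingGroup (Fin 6)) :=
    alternatingGroup.isSimpleGroup (by simp)
  have hinv : ∀ a : ↥(alternatingGroup (Fin 6)), orderOf a = 2 → a⁻¹ = a := by
    intro a ha
    have h := pow_orderOf_eq_one a
    rw [ha, pow_two] at h
    exact inv_eq_of_mul_eq_one_left h
  refine ⟨⟨⟨fun d hd => hd, ?_, fun d hd g => hconj_mem d hd g, ?_⟩, ⟨a0, ha0⟩, ?_⟩, ?_⟩
  · -- generation
    have hN : (Subgroup.closure {g : ↥(alternatingGroup (Fin 6)) | orderOf g = 2}).Normal := by
      constructor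
      intro n hn g
      induction hn using Subgroup.closure_induction with
      | mem x hx => exact Subgroup.subset_closure (hconj_mem x hx g)
      | one => simp
      | mul x y _ _ hx hy =>
        have : g * (x * y) * g⁻¹ = (g * x * g⁻¹) * (g * y * g⁻¹) := by group
        rw [this]
        exact Subgroup.mul_mem _ hx hy
      | inv x _ hx =>
        have : g * x⁻¹ * g⁻¹ = (g * x * g⁻¹)⁻¹ := by group
        rw [this]
        exact Subgroup.inv_mem _ hx
    rcases hN.eq_bot_or_eq_top with h | h
    · exfalso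
      have h1 : a0 ∈ Subgroup.closure {g : ↥(alternatingGroup (Fin 6)) | orderOf g = 2} :=
        Subgroup.subset_closure ha0
      rw [h, Subgroup.mem_bot] at h1
      rw [h1, orderOf_one] at ha0
      exact absurd ha0 (by decide)
    · exact h
  · -- pairs
    intro a ha b hb
    have ha' : orderOf a = 2 := ha
    have hb' : orderOf b = 2 := hb
    rcases hord (a * b) with h | h | h
    · by_cases h2 : (a * b) ^ 2 = 1
      · left
        rw [pow_two] at h2
        have : a * b = (a * b)⁻¹ := (inv_eq_of_mul_eq_one_left h2).symm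
        rw [mul_inv_rev, hinv a ha', hinv b hb'] at this
        exact this
      · right; right
        have h4 : orderOf (a * b) = 2 ^ (1 + 1) :=
          orderOf_eq_prime_pow (by simpa using h2) (by simpa using h)
        refine ⟨h4, ?_⟩
        show orderOf ((a * b) ^ 2) = 2
        refine orderOf_eq_prime ?_ h2
        rw [← pow_mul]
        exact h
    · right; left
      have hdvd : orderOf (a * b) ∣ 3 := orderOf_dvd_of_pow_eq_one h
      rcases (Nat.prime_three.eq_one_or_self_of_dvd _ hdvd) with h1 | h1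
      · rw [h1]; decide
      · rw [h1]; decide
    · right; left
      have hdvd : orderOf (a * b) ∣ 5 := orderOf_dvd_of_pow_eq_one h
      rcases (Nat.prime_five.eq_one_or_self_of_dvd _ hdvd) with h1 | h1
      · rw [h1]; decide
      · rw [h1]; decide
  · -- conjugacy
    intro a ha b hb
    obtain ⟨ga, hga⟩ := hconj0 a ha
    obtain ⟨gb, hgb⟩ := hconj0 b hb
    refine ⟨gb * ga⁻¹, ?_⟩
    rw [hgb, hga]
    group
  · intro d _ e _
    rcases hord (d * e) with h | h | h
    · exact le_trans (Nat.le_of_dvd (by norm_num) (orderOf_dvd_of_pow_eq_one h)) (by norm_num)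
    · exact le_trans (Nat.le_of_dvd (by norm_num) (orderOf_dvd_of_pow_eq_one h)) (by norm_num)
    · exact Nat.le_of_dvd (by norm_num) (orderOf_dvd_of_pow_eq_one h)

end Cfsg.Agent.S5057
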