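import Cfsg.Statements.S5059

set_option autoImplicit false
open Cfsg

namespace Cfsg.Agent.S5059

universe u

section
variable {k : Type*} [Field k] {M : Type*} [AddCommGroup M] [Module k M]

/-- The unit `1 + N` for a square-zero endomorphism `N`. -/
def unitOfSqZero (N : M →ₗ[k] M) (h : N * N = 0) : LinearMap.GeneralLinearGroup k M :=
  ⟨1 + N, 1 - N, by simp [mul_sub, add_mul, h], by simp [sub_mul, mul_add, h]⟩

theorem unitOfSqZero_val (N : M →ₗ[k] M) (h : N * N = 0) :
    ((unitOfSqZero N h : LinearMap.GeneralLinearGroup k M) : M →ₗ[k] M) = 1 + N := rfl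

theorem mul_eq_zero_of_range_le_ker {f g : M →ₗ[k] M} (h : LinearMap.range g ≤ LinearMap.ker f) :
    f * g = 0 := LinearMap.range_le_ker_iff.mp h

theorem range_le_ker_of_mul_eq_zero {f g : M →ₗ[k] M} (h : f * g = 0) :
    LinearMap.range g ≤ LinearMap.ker f := LinearMap.range_le_ker_iff.mpr h

theorem mem_sameActionClass_of [FiniteDimensional k M]
    {G : Subgroup (LinearMap.GeneralLinearGroup k M)} {σ ρ : LinearMap.GeneralLinearGroup k M}
    (hσ : σ ∈ minimalQuadraticElements G) (hρG : ρ ∈ G)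
    (hne : (ρ : M →ₗ[k] M) - 1 ≠ 0)
    (hr : LinearMap.range ((ρ : M →ₗ[k] M) - 1) ≤ LinearMap.range ((σ : M →ₗ[k] M) - 1))
    (hk : LinearMap.ker ((σ : M →ₗ[k] M) - 1) ≤ LinearMap.ker ((ρ : M →ₗ[k] M) - 1))
    (hsc : scalarFamily ρ ⊆ (G : Set (LinearMap.GeneralLinearGroup k M))) :
    ρ ∈ sameActionClass G σ := by
  have hIK : LinearMap.range ((σ : M →ₗ[k] M) - 1) ≤ LinearMap.ker ((σ : M →ₗ[k] M) - 1) :=
    range_le_ker_of_mul_eq_zero hσ.1.2.1.1
  have hsq : ((ρ : M →ₗ[k] M) - 1) * ((ρ : M →ₗ[k] M) - 1) = 0 :=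
    mul_eq_zero_of_range_le_ker (hr.trans (hIK.trans hk))
  have hq : ρ ∈ quadraticElements G := ⟨hρG, ⟨hsq, hne⟩, hsc⟩
  have h1 : commutatorRank σ ≤ commutatorRank ρ := hσ.2 ρ hq
  have hrange : LinearMap.range ((ρ : M →ₗ[k] M) - 1) = LinearMap.range ((σ : M →ₗ[k] M) - 1) :=
    Submodule.eq_of_le_of_finrank_le hr h1
  have e1 := LinearMap.finrank_range_add_finrank_ker ((ρ : M →ₗ[k] M) - 1)
  have e2 := LinearMap.finrank_range_add_finrank_ker ((σ : M →ₗ[k] M) - 1)
  rw [hrange] at e1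
  have hker : LinearMap.ker ((ρ : M →ₗ[k] M) - 1) = LinearMap.ker ((σ : M →ₗ[k] M) - 1) :=
    (Submodule.eq_of_le_of_finrank_le hk (by omega)).symm
  refine ⟨⟨hq, fun υ hυ => ?_⟩, hker, hrange⟩
  have h3 : commutatorRank ρ = commutatorRank σ := by
    unfold commutatorRank
    rw [hrange]
  rw [h3]
  exact hσ.2 υ hυ

theorem mul_mem_aux [FiniteDimensional k M]
    {G : Subgroup (LinearMap.GeneralLinearGroup k M)} {σ τ τ' : LinearMap.GeneralLinearGroup k M}
    (hσ : σ ∈ minimalQuadraticElements G) (hτ : τ ∈ sameActionClass G σ)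
    (hτ' : τ' ∈ sameActionClass G σ) :
    (((τ * τ' : LinearMap.GeneralLinearGroup k M) : M →ₗ[k] M) - 1 =
      ((τ : M →ₗ[k] M) - 1) + ((τ' : M →ₗ[k] M) - 1)) ∧
    (τ * τ' ∈ sameActionClass G σ ∨ τ * τ' = 1) := by
  have hIK : LinearMap.range ((σ : M →ₗ[k] M) - 1) ≤ LinearMap.ker ((σ : M →ₗ[k] M) - 1) :=
    range_le_ker_of_mul_eq_zero hσ.1.2.1.1
  obtain ⟨⟨⟨hτG, ⟨hτsq, hτne⟩, hτsc⟩, hτmin⟩, hτk, hτr⟩ := hτ
  obtain ⟨⟨⟨hτ'G, ⟨hτ'sq, hτ'ne⟩, hτ'sc⟩, hτ'min⟩, hτ'k, hτ'r⟩ := hτ'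
  have hNN' : ((τ : M →ₗ[k] M) - 1) * ((τ' : M →ₗ[k] M) - 1) = 0 := by
    apply mul_eq_zero_of_range_le_ker
    rw [hτ'r, hτk]
    exact hIK
  have hval : ((τ * τ' : LinearMap.GeneralLinearGroup k M) : M →ₗ[k] M) - 1 =
      ((τ : M →ₗ[k] M) - 1) + ((τ' : M →ₗ[k] M) - 1) := by
    have : ((τ : M →ₗ[k] M) * (τ' : M →ₗ[k] M)) - 1 =
        ((τ : M →ₗ[k] M) - 1) * ((τ' : M →ₗ[k] M) - 1) + ((τ : M →ₗ[k] M) - 1) +
          ((τ' : M →ₗ[k] M) - 1) := by noncomm_ring
    rw [Units.val_mul, this, hNN', zero_add]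
  refine ⟨hval, ?_⟩
  by_cases h0 : ((τ : M →ₗ[k] M) - 1) + ((τ' : M →ₗ[k] M) - 1) = 0
  · right
    apply Units.ext
    rw [h0] at hval
    exact sub_eq_zero.mp hval
  · left
    apply mem_sameActionClass_of hσ (G.mul_mem hτG hτ'G)
    · rw [hval]; exact h0
    · rw [hval]
      refine le_trans (LinearMap.range_add_le _ _) ?_
      rw [hτr, hτ'r, sup_idem]
    · rw [hval]
      intro m hm
      have h1 : m ∈ LinearMap.ker ((τ : M →ₗ[k] M) - 1) := by rw [hτk]; exact hm
      have h2 : m ∈ LinearMap.ker ((τ' : M →ₗ[k] M) - 1) := by rw [hτ'k]; exact hm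
      rw [LinearMap.mem_ker] at h1 h2 ⊢
      rw [LinearMap.add_apply, h1, h2, add_zero]
    · rintro ρ ⟨c, hc⟩
      rw [hval] at hc
      have hs1 : (c • ((τ : M →ₗ[k] M) - 1)) * (c • ((τ : M →ₗ[k] M) - 1)) = 0 := by
        rw [smul_mul_smul_comm, hτsq, smul_zero]
      have hs2 : (c • ((τ' : M →ₗ[k] M) - 1)) * (c • ((τ' : M →ₗ[k] M) - 1)) = 0 := by
        rw [smul_mul_smul_comm, hτ'sq, smul_zero]
      have hs12 : (c • ((τ : M →ₗ[k] M) - 1)) * (c • ((τ' : M →ₗ[k] M) - 1)) = 0 := by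
        rw [smul_mul_smul_comm, hNN', smul_zero]
      have m1 : unitOfSqZero _ hs1 ∈ G := hτsc ⟨c, rfl⟩
      have m2 : unitOfSqZero _ hs2 ∈ G := hτ'sc ⟨c, rfl⟩
      have : ρ = unitOfSqZero _ hs1 * unitOfSqZero _ hs2 := by
        apply Units.ext
        rw [hc, Units.val_mul, unitOfSqZero_val, unitOfSqZero_val]
        rw [add_mul, one_mul, mul_add, mul_one, hs12, add_zero, smul_add, add_assoc, add_comm (c • _) (c • _)]
      rw [this]
      exact G.mul_mem m1 m2

theorem inv_mem_aux [FiniteDimensional k M]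
    {G : Subgroup (LinearMap.GeneralLinearGroup k M)} {σ τ : LinearMap.GeneralLinearGroup k M}
    (hσ : σ ∈ minimalQuadraticElements G) (hτ : τ ∈ sameActionClass G σ) :
    τ⁻¹ ∈ sameActionClass G σ := by
  obtain ⟨⟨⟨hτG, ⟨hτsq, hτne⟩, hτsc⟩, hτmin⟩, hτk, hτr⟩ := hτ
  have hsq' : (-((τ : M →ₗ[k] M) - 1)) * (-((τ : M →ₗ[k] M) - 1)) = 0 := by
    rw [neg_mul_neg, hτsq]
  have hinv : τ⁻¹ = unitOfSqZero _ hsq' := by
    apply inv_eq_of_mul_eq_one_right
    apply Units.ext
    rw [Units.val_mul, unitOfSqZero_val]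
    have : (τ : M →ₗ[k] M) * (1 + -((τ : M →ₗ[k] M) - 1)) =
        1 - ((τ : M →ₗ[k] M) - 1) * ((τ : M →ₗ[k] M) - 1) := by noncomm_ring
    rw [this, hτsq, sub_zero]
    rfl
  have hval : ((τ⁻¹ : LinearMap.GeneralLinearGroup k M) : M →ₗ[k] M) - 1 = -((τ : M →ₗ[k] M) - 1) := by
    rw [hinv, unitOfSqZero_val, add_sub_cancel_left]
  apply mem_sameActionClass_of hσ (G.inv_mem hτG)
  · rw [hval]; exact neg_ne_zero.mpr hτne
  · rw [hval, LinearMap.range_neg, hτr]
  · rw [hval, LinearMap.ker_neg, hτk]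
  · rintro ρ ⟨c, hc⟩
    rw [hval] at hc
    apply hτsc
    refine ⟨-c, ?_⟩
    rw [hc, smul_neg, neg_smul]

end

/-- Let k be a field of characteristic not 2 with k not of order 3, M a finite-dimensional k-vector space and G ≤ GL(M) such that (G, M) is a quadratic pair (M irreducible for G, and G generated by its quadratically acting elements σ whose scalar family 1 + c(σ − 1), c ∈ k, lies in G). Write 𝒬_d for the quadratic elements of G of minimal commutator rank, E(σ) for the subgroup generated by the members of 𝒬_d with the same fixed space and commutator space as σ, and Σ for the set of these subgroups. Then for σ ∈ 𝒬_d the subgroup E(σ) consists exactly of those members together with the identity, it is abelian, and if k has prime characteristic p every element of E(σ) has order dividing p. -/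
theorem result {k : Type u} [Field k] (hk2 : ringChar k ≠ 2) (hk3 : Nat.card k ≠ 3)
    {M : Type u} [AddCommGroup M] [Module k M] [FiniteDimensional k M]
    {G : Subgroup (LinearMap.GeneralLinearGroup k M)} (hG : Cfsg.IsQuadraticPair G)
    {σ : LinearMap.GeneralLinearGroup k M} (hσ : σ ∈ Cfsg.minimalQuadraticElements G) :
    (Cfsg.sameActionSubgroup G σ : Set (LinearMap.GeneralLinearGroup k M)) = Cfsg.sameActionClass G σ ∪ {1} ∧
    IsMulCommutative ↥(Cfsg.sameActionSubgroup G σ) ∧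
    (∀ p : ℕ, p.Prime → ringChar k = p → ∀ x ∈ Cfsg.sameActionSubgroup G σ, x ^ p = 1) := by
  have hsub : ∀ x ∈ Cfsg.sameActionSubgroup G σ, x ∈ Cfsg.sameActionClass G σ ∨ x = 1 := by
    intro x hx
    induction hx using Subgroup.closure_induction with
    | mem y hy => exact Or.inl hy
    | one => exact Or.inr rfl
    | mul a b _ _ ha hb =>
      rcases ha with ha | rfl
      · rcases hb with hb | rfl
        · exact (mul_mem_aux hσ ha hb).2
        · rw [mul_one]; exact Or.inl ha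
      · rw [one_mul]; exact hb
    | inv a _ ha =>
      rcases ha with ha | rfl
      · exact Or.inl (inv_mem_aux hσ ha)
      · rw [inv_one]; exact Or.inr rfl
  refine ⟨?_, ?_, ?_⟩
  · ext x
    constructor
    · intro hx
      exact hsub x hx
    · rintro (hx | hx)
      · exact Subgroup.subset_closure hx
      · rw [Set.mem_singleton_iff] at hx
        rw [hx]
        exact (Cfsg.sameActionSubgroup G σ).one_mem
  · refine ⟨⟨?_⟩⟩
    rintro ⟨a, ha⟩ ⟨b, hb⟩
    apply Subtype.ext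
    show a * b = b * a
    rcases hsub a ha with ha' | rfl
    · rcases hsub b hb with hb' | rfl
      · apply Units.ext
        have h1 := (mul_mem_aux hσ ha' hb').1
        have h2 := (mul_mem_aux hσ hb' ha').1
        rw [add_comm] at h2
        have := h1.trans h2.symm
        exact sub_left_injective this
      · rw [mul_one, one_mul]
    · rw [mul_one, one_mul]
  · intro p hp hchar x hx
    rcases hsub x hx with hx' | rfl
    · obtain ⟨⟨⟨hxG, ⟨hxsq, hxne⟩, hxsc⟩, hxmin⟩, hxk, hxr⟩ := hx'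
      apply Units.ext
      rw [Units.val_pow_eq_pow_val, Units.val_one]
      have key : ∀ n : ℕ, (x : M →ₗ[k] M) ^ n = 1 + (n : k) • ((x : M →ₗ[k] M) - 1) := by
        intro n
        induction n with
        | zero => simp
        | succ n ih =>
          rw [pow_succ, ih]
          have : (1 + (n : k) • ((x : M →ₗ[k] M) - 1)) * (x : M →ₗ[k] M) =
              1 + ((n : k) • ((x : M →ₗ[k] M) - 1) + ((x : M →ₗ[k] M) - 1)) +
                (n : k) • (((x : M →ₗ[k] M) - 1) * ((x : M →ₗ[k] M) - 1)) := by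
            have hx1 : (x : M →ₗ[k] M) = 1 + ((x : M →ₗ[k] M) - 1) := by abel
            conv_lhs => rw [hx1]
            rw [mul_add, mul_one, add_mul, one_mul, smul_mul_assoc]
            abel
          rw [this, hxsq, smul_zero, add_zero, Nat.cast_succ, add_smul, one_smul]
      rw [key p]
      have : CharP k p := by
        rw [← hchar]
        exact ringChar.charP k
      rw [CharP.cast_eq_zero k p, zero_smul, add_zero]
    · exact one_pow p

end Cfsg.Agent.S5059
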