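import Cfsg.Statements.S5060
-- import your own Cfsg.Agent.* helpers here
import Cfsg.Agent.Lib.Helper98.SL2Sub
import Cfsg.Agent.Lib.Helper83.SL2Ext

set_option autoImplicit false
open Cfsg

namespace Cfsg.Agent.S5060

open Matrix MatrixGroups
open Cfsg.Agent.Lib.Helper98.SL2Sub Cfsg.Agent.Lib.Helper83.SL2Ext

/-- the image of `u x` under the inclusion `SL(2, E) → SL(2, K)` -/
lemma map_u_coe {K : Type*} [Field K] (E : Subfield K) (x : E) :
    ((Matrix.SpecialLinearGroup.map (E.subtype) (u x) : SL(2, K)) :
      Matrix (Fin 2) (Fin 2) K) = !![1, (x : K); 0, 1] := by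
  rw [Matrix.SpecialLinearGroup.map_apply_coe]
  ext i j
  fin_cases i <;> fin_cases j <;> simp [u]

lemma map_l_coe {K : Type*} [Field K] (E : Subfield K) (x : E) :
    ((Matrix.SpecialLinearGroup.map (E.subtype) (l x) : SL(2, K)) :
      Matrix (Fin 2) (Fin 2) K) = !![1, 0; (x : K), 1] := by
  rw [Matrix.SpecialLinearGroup.map_apply_coe]
  ext i j
  fin_cases i <;> fin_cases j <;> simp [l]

/-- Let k ⊆ K be fields with the characteristic of k not 2 and k not of order 3, and let α ∈ K be a non-zero element algebraic over k. Then the subgroup of SL₂(K) generated by the upper unitriangular matrices with entry c and the lower unitriangular matrices with entry cα, c ranging over k, is exactly the group of matrices of SL₂(K) with all entries in k(α). -/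
theorem result {k K : Type*} [Field k] [Field K] [Algebra k K] (hk2 : ringChar k ≠ 2) (hk3 : Nat.card k ≠ 3)
    (α : K) (hα : IsAlgebraic k α) (hα0 : α ≠ 0) :
    (Subgroup.closure ({g : Matrix.SpecialLinearGroup (Fin 2) K | ∃ c : k, (g : Matrix (Fin 2) (Fin 2) K) = !![1, algebraMap k K c; 0, 1]} ∪
        {g : Matrix.SpecialLinearGroup (Fin 2) K | ∃ c : k, (g : Matrix (Fin 2) (Fin 2) K) = !![1, 0; algebraMap k K c * α, 1]}) :
      Set (Matrix.SpecialLinearGroup (Fin 2) K)) =
    {g : Matrix.SpecialLinearGroup (Fin 2) K | ∀ i j : Fin 2, (g : Matrix (Fin 2) (Fin 2) K) i j ∈ IntermediateField.adjoin k ({α} : Set K)} := by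
  classical
  have hint : IsIntegral k α := hα.isIntegral
  let pb := IntermediateField.adjoin.powerBasis hint
  have hgen : pb.gen = IntermediateField.AdjoinSimple.gen k α :=
    IntermediateField.adjoin.powerBasis_gen hint
  have hgenc : ((pb.gen : IntermediateField.adjoin k ({α} : Set K)) : K) = α := by
    rw [hgen]; exact IntermediateField.AdjoinSimple.coe_gen k α
  have hgen0 : pb.gen ≠ 0 := by
    intro h
    apply hα0
    rw [← hgenc, h]; rfl
  have h2k : (2 : k) ≠ 0 := Ring.two_ne_zero hk2
  have h2 : (2 : IntermediateField.adjoin k ({α} : Set K)) ≠ 0 := by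
    intro h
    apply h2k
    apply (algebraMap k (IntermediateField.adjoin k ({α} : Set K))).injective
    rw [map_ofNat, h, map_zero]
  have htop := N_eq_top pb h2 hk3 hgen0
  -- the inclusion of SL(2, k(α)) into SL(2, K)
  let φ : SL(2, IntermediateField.adjoin k ({α} : Set K)) →* SL(2, K) :=
    Matrix.SpecialLinearGroup.map
      (IntermediateField.adjoin k ({α} : Set K)).toSubfield.subtype
  ext g
  constructor
  · intro hg
    have hle : Subgroup.closure ({g : Matrix.SpecialLinearGroup (Fin 2) K | ∃ c : k,
        (g : Matrix (Fin 2) (Fin 2) K) = !![1, algebraMap k K c; 0, 1]} ∪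
        {g : Matrix.SpecialLinearGroup (Fin 2) K | ∃ c : k,
        (g : Matrix (Fin 2) (Fin 2) K) = !![1, 0; algebraMap k K c * α, 1]}) ≤ φ.range := by
      rw [Subgroup.closure_le]
      rintro g (⟨c, hc⟩ | ⟨c, hc⟩)
      · refine ⟨u (algebraMap k (IntermediateField.adjoin k ({α} : Set K)) c), ?_⟩
        apply Subtype.ext
        rw [hc]
        exact map_u_coe _ _
      · refine ⟨l (algebraMap k (IntermediateField.adjoin k ({α} : Set K)) c * pb.gen), ?_⟩
        apply Subtype.ext
        rw [hc]
        have h := map_l_coe (IntermediateField.adjoin k ({α} : Set K)).toSubfield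
          (algebraMap k (IntermediateField.adjoin k ({α} : Set K)) c * pb.gen)
        rw [h]
        have hc' : ((algebraMap k (IntermediateField.adjoin k ({α} : Set K)) c * pb.gen :
            IntermediateField.adjoin k ({α} : Set K)) : K) = algebraMap k K c * α := by
          show algebraMap k K c * ((pb.gen : IntermediateField.adjoin k ({α} : Set K)) : K) =
            algebraMap k K c * α
          rw [hgenc]
        rw [← hc']
    obtain ⟨g', rfl⟩ := hle hg
    intro i j
    show ((Matrix.SpecialLinearGroup.map
      (IntermediateField.adjoin k ({α} : Set K)).toSubfield.subtype g' : SL(2, K)) :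
      Matrix (Fin 2) (Fin 2) K) i j ∈ IntermediateField.adjoin k ({α} : Set K)
    simp only [Matrix.SpecialLinearGroup.map_apply_coe, RingHom.mapMatrix_apply, Matrix.map_apply]
    exact (g'.1 i j).2
  · intro hg
    have hg' : ∀ i j : Fin 2, (g : Matrix (Fin 2) (Fin 2) K) i j ∈
        IntermediateField.adjoin k ({α} : Set K) := hg
    -- lift `g`
    let M : Matrix (Fin 2) (Fin 2) (IntermediateField.adjoin k ({α} : Set K)) :=
      Matrix.of fun i j => ⟨(g : Matrix (Fin 2) (Fin 2) K) i j, hg' i j⟩
    have hMmap : M.map (IntermediateField.adjoin k ({α} : Set K)).toSubfield.subtype =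
        (g : Matrix (Fin 2) (Fin 2) K) := by
      ext i j; rfl
    have hMdet : M.det = 1 := by
      apply (IntermediateField.adjoin k ({α} : Set K)).toSubfield.subtype.injective
      rw [RingHom.map_det, map_one]
      have : (IntermediateField.adjoin k ({α} : Set K)).toSubfield.subtype.mapMatrix M =
          (g : Matrix (Fin 2) (Fin 2) K) := hMmap
      rw [this]
      exact g.2
    have hφ : φ ⟨M, hMdet⟩ = g := by
      apply Subtype.ext
      exact hMmap
    have hmem : (⟨M, hMdet⟩ : SL(2, IntermediateField.adjoin k ({α} : Set K))) ∈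
        Cfsg.Agent.Lib.Helper98.SL2Sub.N (algebraMap k
          (IntermediateField.adjoin k ({α} : Set K))).fieldRange pb.gen := by
      rw [htop]; trivial
    have hle : Cfsg.Agent.Lib.Helper98.SL2Sub.N (algebraMap k
          (IntermediateField.adjoin k ({α} : Set K))).fieldRange pb.gen ≤
        (Subgroup.closure ({g : Matrix.SpecialLinearGroup (Fin 2) K | ∃ c : k,
        (g : Matrix (Fin 2) (Fin 2) K) = !![1, algebraMap k K c; 0, 1]} ∪
        {g : Matrix.SpecialLinearGroup (Fin 2) K | ∃ c : k,
        (g : Matrix (Fin 2) (Fin 2) K) = !![1, 0; algebraMap k K c * α, 1]})).comap φ := by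
      unfold Cfsg.Agent.Lib.Helper98.SL2Sub.N
      rw [Subgroup.closure_le]
      rintro x (⟨a, ⟨c, rfl⟩, rfl⟩ | ⟨a, ⟨c, rfl⟩, rfl⟩)
      · apply Subgroup.subset_closure
        left
        exact ⟨c, map_u_coe _ _⟩
      · apply Subgroup.subset_closure
        right
        refine ⟨c, ?_⟩
        have h := map_l_coe (IntermediateField.adjoin k ({α} : Set K)).toSubfield
          (pb.gen * algebraMap k (IntermediateField.adjoin k ({α} : Set K)) c)
        show ((Matrix.SpecialLinearGroup.map
          (IntermediateField.adjoin k ({α} : Set K)).toSubfield.subtype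
          (l (pb.gen * algebraMap k (IntermediateField.adjoin k ({α} : Set K)) c)) : SL(2, K)) :
          Matrix (Fin 2) (Fin 2) K) = _
        rw [h]
        have hc' : ((pb.gen * algebraMap k (IntermediateField.adjoin k ({α} : Set K)) c :
            IntermediateField.adjoin k ({α} : Set K)) : K) = algebraMap k K c * α := by
          show ((pb.gen : IntermediateField.adjoin k ({α} : Set K)) : K) * algebraMap k K c =
            algebraMap k K c * α
          rw [hgenc, mul_comm]
        rw [← hc']
    have h3 : φ ⟨M, hMdet⟩ ∈ Subgroup.closure ({g : Matrix.SpecialLinearGroup (Fin 2) K | ∃ c : k,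
        (g : Matrix (Fin 2) (Fin 2) K) = !![1, algebraMap k K c; 0, 1]} ∪
        {g : Matrix.SpecialLinearGroup (Fin 2) K | ∃ c : k,
        (g : Matrix (Fin 2) (Fin 2) K) = !![1, 0; algebraMap k K c * α, 1]}) := hle hmem
    rw [hφ] at h3
    exact h3

end Cfsg.Agent.S5060
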