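import Cfsg.Statements.S5062
-- import your own Cfsg.Agent.* helpers here
import Cfsg.Agent.Lib.Helper83.QPSet

set_option autoImplicit false
universe u
open Cfsg

namespace Cfsg.Agent.S5062

/-- Let k be a field of characteristic not 2 with k not of order 3, M a finite-dimensional k-vector space and G ≤ GL(M) such that (G, M) is a quadratic pair (M irreducible for G, and G generated by its quadratically acting elements σ whose scalar family 1 + c(σ − 1), c ∈ k, lies in G). Write 𝒬_d for the quadratic elements of G of minimal commutator rank, E(σ) for the subgroup generated by the members of 𝒬_d with the same fixed space and commutator space as σ, and Σ for the set of these subgroups. Then, inside the subgroup G₀ generated by Σ, the members of Σ form a set of abstract root subgroups of G₀ in which every member has a rank one partner; and whenever a member A and a rank one partner B of A lie in a connected component of the rank-one-pair graph that is degenerate (no commutator case among its members), there are subgroups A₀ ≤ A, B₀ ≤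 B generating an image of SL₂(k₁) with central kernel on unitriangular subgroups, for some field k₁ with at least four elements. -/
theorem result {k : Type u} [Field k] (hk2 : ringChar k ≠ 2) (hk3 : Nat.card k ≠ 3)
    {M : Type u} [AddCommGroup M] [Module k M] [FiniteDimensional k M]
    {G : Subgroup (LinearMap.GeneralLinearGroup k M)} (hG : Cfsg.IsQuadraticPair G) :
    Cfsg.IsRootSubgroupSet ((fun A : Subgroup (LinearMap.GeneralLinearGroup k M) => A.subgroupOf (⨆ B ∈ Cfsg.quadraticRootSubgroups G, B)) ''
      Cfsg.quadraticRootSubgroups G) ∧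
    (∀ A ∈ Cfsg.quadraticRootSubgroups G, ¬ Cfsg.IsIsolatedIn (Cfsg.FAdj (Cfsg.quadraticRootSubgroups G)) (Cfsg.quadraticRootSubgroups G) A) ∧
    (∀ A ∈ Cfsg.quadraticRootSubgroups G, ∀ B ∈ Cfsg.rankOnePartners (Cfsg.quadraticRootSubgroups G) A,
      (∀ C ∈ Cfsg.componentOf (Cfsg.FAdj (Cfsg.quadraticRootSubgroups G)) (Cfsg.quadraticRootSubgroups G) A,
        ∀ D ∈ Cfsg.componentOf (Cfsg.FAdj (Cfsg.quadraticRootSubgroups G)) (Cfsg.quadraticRootSubgroups G) A,
          ¬ Cfsg.RootCommutatorCase (Cfsg.quadraticRootSubgroups G) C D) →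
      ∃ A₀ B₀ : Subgroup (LinearMap.GeneralLinearGroup k M), A₀ ≤ A ∧ B₀ ≤ B ∧
        ∃ (k₁ : Type u) (_ : Field k₁), 3 < ENat.card k₁ ∧ Cfsg.IsPSL2PairOver k₁ A₀ B₀) := by
  have h2k : (2 : k) ≠ 0 := Ring.two_ne_zero hk2
  refine ⟨Cfsg.Agent.Lib.Helper83.QPSet.rootSet h2k hk3 hG,
    Cfsg.Agent.Lib.Helper83.QPSet.not_isolated h2k hk3 hG, ?_⟩
  intro A hA B hB _
  obtain ⟨A₀, B₀, hA₀, hB₀, hp⟩ := Cfsg.Agent.Lib.Helper83.QPSet.psl2_partners h2k hk3 hG A hA B hB
  exact ⟨A₀, B₀, hA₀, hB₀, k, inferInstance, Cfsg.Agent.Lib.Helper83.QPSet.card_gt h2k hk3, hp⟩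

end Cfsg.Agent.S5062
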