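import Cfsg.Statements.S5064
-- import your own Cfsg.Agent.* helpers here
import Cfsg.Agent.Lib.Helper83.QPMain
import Cfsg.Agent.Lib.Helper83.Unip

set_option autoImplicit false
universe u
open Cfsg

namespace Cfsg.Agent.S5064


open Cfsg.Agent.Lib.Helper83.SL2Ring Cfsg.Agent.Lib.Helper83.SL2RingGen
open Cfsg.Agent.Lib.Helper83.QPRep Cfsg.Agent.Lib.Helper83.QPDepth Cfsg.Agent.Lib.Helper83.QPMain

/-- Let k be a field of characteristic not 2 with k not of order 3, M a finite-dimensional k-vector space and G ≤ GL(M) such that (G, M) is a quadratic pair (M irreducible for G, and G generated by its quadratically acting elements σ whose scalar family 1 + c(σ − 1), c ∈ k, lies in G). Write 𝒬_d for the quadratic elements of G of minimal commutator rank, E(σ) for the subgroup generated by the members of 𝒬_d with the same fixed space and commutator space as σ, and Σ for the set of these subgroups. If σ, τ ∈ 𝒬_d and the subgroup H generated by their two scalar families does not act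 unipotently on M, then H is isomorphic to SL₂ over a simple algebraic extension k(λ) of k. -/
theorem result {k : Type u} [Field k] (hk2 : ringChar k ≠ 2) (hk3 : Nat.card k ≠ 3)
    {M : Type u} [AddCommGroup M] [Module k M] [FiniteDimensional k M]
    {G : Subgroup (LinearMap.GeneralLinearGroup k M)} (hG : Cfsg.IsQuadraticPair G)
    {σ τ : LinearMap.GeneralLinearGroup k M} (hσ : σ ∈ Cfsg.minimalQuadraticElements G) (hτ : τ ∈ Cfsg.minimalQuadraticElements G)
    (hH : ¬ Cfsg.IsUnipotentOn (Subgroup.closure (Cfsg.scalarFamily σ ∪ Cfsg.scalarFamily τ))) :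
    ∃ (K : Type u) (_ : Field K) (_ : Algebra k K) (lam : K), IsAlgebraic k lam ∧
      IntermediateField.adjoin k ({lam} : Set K) = ⊤ ∧
      Nonempty (↥(Subgroup.closure (Cfsg.scalarFamily σ ∪ Cfsg.scalarFamily τ)) ≃* Matrix.SpecialLinearGroup (Fin 2) K) := by
  have h2 : (2 : k) ≠ 0 := Ring.two_ne_zero hk2
  have hAA : ((σ : M →ₗ[k] M) - 1) * ((σ : M →ₗ[k] M) - 1) = 0 := hσ.1.2.1.1
  have hBB : ((τ : M →ₗ[k] M) - 1) * ((τ : M →ₗ[k] M) - 1) = 0 := hτ.1.2.1.1
  generalize hA : ((σ : M →ₗ[k] M) - 1 : Module.End k M) = A at hAA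
  generalize hB : ((τ : M →ₗ[k] M) - 1 : Module.End k M) = B at hBB
  obtain ⟨n, hn1, hc⟩ := exists_fitting (Zc A B)
  have hAZn : A * Zc A B ^ n = Zc A B ^ n * A :=
    (Commute.pow_right (show Commute A (Zc A B) from A_Zc A B hAA) n)
  have hBZn : B * Zc A B ^ n = Zc A B ^ n * B :=
    (Commute.pow_right (show Commute B (Zc A B) from B_Zc A B hBB) n)
  have hA0 : ∀ m ∈ LinearMap.ker (Zc A B ^ n), A m ∈ LinearMap.ker (Zc A B ^ n) := by
    intro m hm
    rw [LinearMap.mem_ker] at hm ⊢
    rw [← Module.End.mul_apply, ← hAZn, Module.End.mul_apply, hm, map_zero]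
  have hB0 : ∀ m ∈ LinearMap.ker (Zc A B ^ n), B m ∈ LinearMap.ker (Zc A B ^ n) := by
    intro m hm
    rw [LinearMap.mem_ker] at hm ⊢
    rw [← Module.End.mul_apply, ← hBZn, Module.End.mul_apply, hm, map_zero]
  have hA1 : ∀ m ∈ LinearMap.range (Zc A B ^ n), A m ∈ LinearMap.range (Zc A B ^ n) := by
    rintro _ ⟨w, rfl⟩
    exact ⟨A w, by rw [← Module.End.mul_apply, ← hAZn]; rfl⟩
  have hB1 : ∀ m ∈ LinearMap.range (Zc A B ^ n), B m ∈ LinearMap.range (Zc A B ^ n) := by
    rintro _ ⟨w, rfl⟩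
    exact ⟨B w, by rw [← Module.End.mul_apply, ← hBZn]; rfl⟩
  have hZinj : ∀ m ∈ LinearMap.range (Zc A B ^ n), Zc A B m = 0 → m = 0 := by
    intro m hm hz
    have hk : m ∈ LinearMap.ker (Zc A B ^ n) := by
      rw [LinearMap.mem_ker]
      obtain ⟨j, rfl⟩ : ∃ j, n = j + 1 := ⟨n - 1, by omega⟩
      rw [pow_succ, Module.End.mul_apply, hz, map_zero]
    exact (Submodule.disjoint_def.1 hc.disjoint) m hk hm
  have hKn : LinearMap.ker (Zc A B ^ n) ≤ K A B (2 * n + 1) := ker_pow_le_K A B hAA hBB n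
  have hne : LinearMap.range (Zc A B ^ n) ≠ ⊥ := by
    intro hbot
    apply hH
    have htop : LinearMap.ker (Zc A B ^ n) = ⊤ := by
      have h := hc.sup_eq_top
      rw [hbot, sup_bot_eq] at h
      exact h
    rw [Cfsg.Agent.Lib.Helper83.Unip.unip_iff]
    refine ⟨2 * n + 1, fun l hl hlen => ?_⟩
    apply LinearMap.ext
    intro m
    have hm : m ∈ K A B (0 + l.length) := by
      rw [zero_add, hlen]
      apply hKn
      rw [htop]; trivial
    have hT : ∀ g ∈ l, g ∈ T A B := by
      intro g hg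
      apply Hgrp_le_T A B hAA hBB
      have := hl g hg
      rw [← hA, ← hB]
      exact this
    have := prod_mem_K A B l hT 0 m hm
    exact (Submodule.mem_bot k).1 this
  obtain ⟨R, _, _, _, _, D, lam, mu, hlm, hgen, hι, ha, hb⟩ :=
    exists_data A B hAA hBB _ hA1 hB1 hZinj hne
  subst hA hB
  obtain ⟨hF, ⟨e⟩⟩ := main_iso _ _ hc D lam h2 hk3 G σ τ hσ hτ hA0 hB0 (2 * n + 1) hKn mu hlm hgen
    hι ha hb
  exact final_pack hF lam hgen e

end Cfsg.Agent.S5064
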