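import Cfsg.Statements.S5067

set_option autoImplicit false
open Cfsg

namespace Cfsg.Agent.S5067

open scoped commutatorElement

theorem normal_of_commutator_le {G : Type*} [Group G] {H : Subgroup G} (h : commutator G ≤ H) :
    H.Normal := by
  constructor
  intro n hn g
  have : g * n * g⁻¹ = ⁅g, n⁆ * n := by
    rw [commutatorElement_def]
    group
  rw [this]
  exact H.mul_mem (h (Subgroup.commutator_mem_commutator (Subgroup.mem_top g) (Subgroup.mem_top n))) hn

theorem nilpotencyClass_normalClosure_lt {P : Type*} [Group P] [Group.IsNilpotent P]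
    (hna : ¬ IsMulCommutative P) {E : Subgroup P} (hE : IsMulCommutative ↥E) :
    Group.nilpotencyClass ↥(Subgroup.normalClosure (E : Set P)) < Group.nilpotencyClass P := by
  have hc2 : 2 ≤ Group.nilpotencyClass P := by
    by_contra h
    exact hna (Group.IsNilpotent.nilpotencyClass_le_one_iff.mp (by omega))
  obtain ⟨d, hd⟩ : ∃ d, Group.nilpotencyClass P = d + 2 := ⟨Group.nilpotencyClass P - 2, by omega⟩
  have hTn : ((⊤ : Subgroup P).lowerCentralSeries 2).Normal := inferInstance
  -- the quotient map modulo γ₃
  have hcen : ∀ u ∈ commutator P, ∀ x : P,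
      Commute (QuotientGroup.mk' ((⊤ : Subgroup P).lowerCentralSeries 2) u)
        (QuotientGroup.mk' ((⊤ : Subgroup P).lowerCentralSeries 2) x) := by
    intro u hu x
    have h1 : ⁅u, x⁆ ∈ (⊤ : Subgroup P).lowerCentralSeries 2 :=
      Subgroup.commutator_mem_commutator hu (Subgroup.mem_top x)
    have h2 : QuotientGroup.mk' ((⊤ : Subgroup P).lowerCentralSeries 2) ⁅u, x⁆ = 1 :=
      (QuotientGroup.eq_one_iff _).mpr h1
    rw [map_commutatorElement] at h2
    exact commutatorElement_eq_one_iff_commute.mp h2
  have hMn : (E ⊔ commutator P).Normal := normal_of_commutator_le le_sup_right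
  have hNM : Subgroup.normalClosure (E : Set P) ≤ E ⊔ commutator P :=
    Subgroup.normalClosure_le_normal (fun x hx => (le_sup_left : E ≤ E ⊔ commutator P) hx)
  have hMM : ⁅E ⊔ commutator P, E ⊔ commutator P⁆ ≤ (⊤ : Subgroup P).lowerCentralSeries 2 := by
    rw [Subgroup.commutator_le]
    intro g1 hg1 g2 hg2
    have hcn : (commutator P).Normal := inferInstance
    obtain ⟨e1, he1, u1, hu1, rfl⟩ := Subgroup.mem_sup_of_normal_right.mp hg1
    obtain ⟨e2, he2, u2, hu2, rfl⟩ := Subgroup.mem_sup_of_normal_right.mp hg2
    have hee : Commute (QuotientGroup.mk' ((⊤ : Subgroup P).lowerCentralSeries 2) e1)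
        (QuotientGroup.mk' ((⊤ : Subgroup P).lowerCentralSeries 2) e2) := by
      show _ * _ = _ * _
      rw [← map_mul, ← map_mul, setLike_mul_comm he1 he2]
    have h3 : QuotientGroup.mk' ((⊤ : Subgroup P).lowerCentralSeries 2) ⁅e1 * u1, e2 * u2⁆ = 1 := by
      rw [map_commutatorElement, commutatorElement_eq_one_iff_commute, map_mul, map_mul]
      exact Commute.mul_left (Commute.mul_right hee (hcen u2 hu2 e1).symm)
        (Commute.mul_right (hcen u1 hu1 e2) (hcen u1 hu1 u2))
    exact (QuotientGroup.eq_one_iff _).mp h3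
  have key : ⁅Subgroup.normalClosure (E : Set P), Subgroup.normalClosure (E : Set P)⁆ ≤
      (⊤ : Subgroup P).lowerCentralSeries 2 :=
    le_trans (Subgroup.commutator_mono hNM hNM) hMM
  have ind : ∀ i, (Subgroup.normalClosure (E : Set P)).lowerCentralSeries (i + 1) ≤
      (⊤ : Subgroup P).lowerCentralSeries (i + 2) := by
    intro i
    induction i with
    | zero => exact key
    | succ i ih =>
      show ⁅(Subgroup.normalClosure (E : Set P)).lowerCentralSeries (i + 1),
        Subgroup.normalClosure (E : Set P)⁆ ≤ ⁅(⊤ : Subgroup P).lowerCentralSeries (i + 2), ⊤⁆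
      exact Subgroup.commutator_mono ih le_top
  have h1 : (Subgroup.normalClosure (E : Set P)).lowerCentralSeries (d + 1) = ⊥ := by
    rw [eq_bot_iff]
    refine le_trans (ind d) ?_
    rw [← hd, Subgroup.lowerCentralSeries_nilpotencyClass]
  have h2 : Group.nilpotencyClass ↥(Subgroup.normalClosure (E : Set P)) ≤ d + 1 := by
    rw [← Subgroup.lowerCentralSeries_eq_bot_iff_nilpotencyClass_le]
    rw [← (Subgroup.map_eq_bot_iff_of_injective _ (Subgroup.subtype_injective _)),
      Subgroup.top_subtype_lowerCentralSeries]
    exact h1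
  omega

/-- Let P be a non-abelian nilpotent p-group (every element of p-power order; P possibly infinite) generated by two abelian subgroups E and F. Then the normal closure of E in P, and likewise that of F, has nilpotency class strictly smaller than that of P. -/
theorem result {P : Type*} [Group P] {p : ℕ} [Fact p.Prime] (hP : IsPGroup p P) [Group.IsNilpotent P]
    (hna : ¬ IsMulCommutative P) {E F : Subgroup P} (hE : IsMulCommutative ↥E) (hF : IsMulCommutative ↥F) (hgen : E ⊔ F = ⊤) :
    Group.nilpotencyClass ↥(Subgroup.normalClosure (E : Set P)) < Group.nilpotencyClass P ∧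
    Group.nilpotencyClass ↥(Subgroup.normalClosure (F : Set P)) < Group.nilpotencyClass P :=
  ⟨nilpotencyClass_normalClosure_lt hna hE, nilpotencyClass_normalClosure_lt hna hF⟩

end Cfsg.Agent.S5067
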