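import Cfsg.Statements.S5072
import Mathlib
import Cfsg.Agent.S5016
import Cfsg.Agent.S5070
import Cfsg.Agent.Lib.Helper83.RankOne
import Cfsg.Agent.Lib.Helper83.RootSub

set_option autoImplicit false
open Cfsg

namespace Cfsg.Agent.S5072

open Matrix

section form

variable {F : Type*} [Field F] {n : ℕ}

/-- the polar form of `quadFormPlus` -/
def Bf (n : ℕ) (F : Type*) [Field F] : LinearMap.BilinForm F (Fin n ⊕ Fin n → F) :=
  LinearMap.mk₂ F (fun u v => ∑ i : Fin n, (u (.inl i) * v (.inr i) + u (.inr i) * v (.inl i)))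
    (fun u u' v => by
      simp only [Pi.add_apply, ← Finset.sum_add_distrib]
      exact Finset.sum_congr rfl (fun i _ => by ring))
    (fun a u v => by
      simp only [Pi.smul_apply, smul_eq_mul, Finset.mul_sum]
      exact Finset.sum_congr rfl (fun i _ => by ring))
    (fun u v v' => by
      simp only [Pi.add_apply, ← Finset.sum_add_distrib]
      exact Finset.sum_congr rfl (fun i _ => by ring))
    (fun a u v => by
      simp only [Pi.smul_apply, smul_eq_mul, Finset.mul_sum]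
      exact Finset.sum_congr rfl (fun i _ => by ring))

theorem Bf_apply (u v : Fin n ⊕ Fin n → F) :
    Bf n F u v = ∑ i : Fin n, (u (.inl i) * v (.inr i) + u (.inr i) * v (.inl i)) := rfl

theorem Q_add (u v : Fin n ⊕ Fin n → F) :
    quadFormPlus n F (u + v) = quadFormPlus n F u + quadFormPlus n F v + Bf n F u v := by
  unfold quadFormPlus
  rw [Bf_apply, ← Finset.sum_add_distrib, ← Finset.sum_add_distrib]
  exact Finset.sum_congr rfl (fun i _ => by simp only [Pi.add_apply]; ring)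

theorem Q_smul (a : F) (v : Fin n ⊕ Fin n → F) :
    quadFormPlus n F (a • v) = a * a * quadFormPlus n F v := by
  unfold quadFormPlus
  rw [Finset.mul_sum]
  exact Finset.sum_congr rfl (fun i _ => by simp only [Pi.smul_apply, smul_eq_mul]; ring)

theorem Bf_comm (u v : Fin n ⊕ Fin n → F) : Bf n F u v = Bf n F v u := by
  rw [Bf_apply, Bf_apply]
  exact Finset.sum_congr rfl (fun i _ => by ring)

theorem Bf_self (v : Fin n ⊕ Fin n → F) : Bf n F v v = 2 * quadFormPlus n F v := by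
  rw [Bf_apply]
  unfold quadFormPlus
  rw [Finset.mul_sum]
  exact Finset.sum_congr rfl (fun i _ => by ring)

theorem polar_eq (u v : Fin n ⊕ Fin n → F) :
    quadFormPlus n F (u + v) - quadFormPlus n F u - quadFormPlus n F v = Bf n F u v := by
  rw [Q_add]
  ring

/-- coordinate vectors -/
def ev (n : ℕ) (F : Type*) [Field F] (s : Fin n ⊕ Fin n) : Fin n ⊕ Fin n → F := Pi.single s 1

theorem ev_apply (s t : Fin n ⊕ Fin n) : ev n F s t = if t = s then 1 else 0 := by
  unfold ev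
  rw [Pi.single_apply]

theorem Bf_ev (v : Fin n ⊕ Fin n → F) (s : Fin n ⊕ Fin n) :
    Bf n F v (ev n F s) = v (Sum.swap s) := by
  rw [Bf_apply]
  rcases s with i | i
  · simp [ev_apply]
  · simp [ev_apply]

theorem Q_ev (s : Fin n ⊕ Fin n) : quadFormPlus n F (ev n F s) = 0 := by
  unfold quadFormPlus
  rcases s with i | i
  · simp [ev_apply]
  · simp [ev_apply]

theorem Bf_ev_ev (s t : Fin n ⊕ Fin n) :
    Bf n F (ev n F s) (ev n F t) = if Sum.swap t = s then 1 else 0 := by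
  rw [Bf_ev, ev_apply]

theorem Bf_nondeg (z : Fin n ⊕ Fin n → F) (h : ∀ x, Bf n F z x = 0) : z = 0 := by
  funext s
  have h1 := h (ev n F (Sum.swap s))
  rw [Bf_ev, Sum.swap_swap] at h1
  exact h1

/-- `p, r` span a totally singular line -/
structure TS (p r : Fin n ⊕ Fin n → F) : Prop where
  li : LinearIndependent F ![p, r]
  hp : quadFormPlus n F p = 0
  hr : quadFormPlus n F r = 0
  hpr : Bf n F p r = 0

theorem TS.indep {p r : Fin n ⊕ Fin n → F} (h : TS p r) (a b : F) (hab : a • p + b • r = 0) :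
    a = 0 ∧ b = 0 :=
  LinearIndependent.pair_iff.1 h.li a b hab

theorem TS.hpp {p r : Fin n ⊕ Fin n → F} (h : TS p r) : Bf n F p p = 0 := by
  rw [Bf_self, h.hp, mul_zero]

theorem TS.hrr {p r : Fin n ⊕ Fin n → F} (h : TS p r) : Bf n F r r = 0 := by
  rw [Bf_self, h.hr, mul_zero]

theorem TS.hrp {p r : Fin n ⊕ Fin n → F} (h : TS p r) : Bf n F r p = 0 := by
  rw [Bf_comm, h.hpr]

theorem TS.p_ne {p r : Fin n ⊕ Fin n → F} (h : TS p r) : p ≠ 0 := by
  rintro rfl
  have h1 := h.indep 1 0 (by simp)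
  exact one_ne_zero h1.1

theorem TS.r_ne {p r : Fin n ⊕ Fin n → F} (h : TS p r) : r ≠ 0 := by
  rintro rfl
  have h1 := h.indep 0 1 (by simp)
  exact one_ne_zero h1.2

theorem TS.of_basis {p r : Fin n ⊕ Fin n → F} (h : TS p r) (a b c d : F)
    (hdet : a * d - b * c ≠ 0) : TS (a • p + b • r) (c • p + d • r) := by
  refine ⟨?_, ?_, ?_, ?_⟩
  · rw [LinearIndependent.pair_iff]
    intro x y hxy
    have h1 : (x * a + y * c) • p + (x * b + y * d) • r = 0 := by
      rw [← hxy]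
      module
    obtain ⟨h2, h3⟩ := h.indep _ _ h1
    constructor
    · have h4 : x * (a * d - b * c) = 0 := by linear_combination d * h2 - c * h3
      rcases mul_eq_zero.1 h4 with h5 | h5
      · exact h5
      · exact absurd h5 hdet
    · have h4 : y * (a * d - b * c) = 0 := by linear_combination a * h3 - b * h2
      rcases mul_eq_zero.1 h4 with h5 | h5
      · exact h5
      · exact absurd h5 hdet
  · rw [Q_add, Q_smul, Q_smul, h.hp, h.hr]
    simp only [map_smul, LinearMap.smul_apply, smul_eq_mul, h.hpr]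
    ring
  · rw [Q_add, Q_smul, Q_smul, h.hp, h.hr]
    simp only [map_smul, LinearMap.smul_apply, smul_eq_mul, h.hpr]
    ring
  · simp only [map_add, map_smul, LinearMap.add_apply, LinearMap.smul_apply, smul_eq_mul, h.hpr,
      h.hpp, h.hrr, h.hrp]
    ring

theorem TS_ev (s t : Fin n ⊕ Fin n) (hst : s ≠ t) (hst' : t ≠ Sum.swap s) :
    TS (ev n F s) (ev n F t) := by
  refine ⟨?_, Q_ev s, Q_ev t, ?_⟩
  · rw [LinearIndependent.pair_iff]
    intro a b hab
    have h1 := congrFun hab s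
    have h2 := congrFun hab t
    simp only [Pi.add_apply, Pi.smul_apply, ev_apply, smul_eq_mul, Pi.zero_apply, if_true,
      if_neg hst, if_neg (Ne.symm hst), mul_one, mul_zero, add_zero, zero_add] at h1 h2
    exact ⟨h1, h2⟩
  · rw [Bf_ev_ev, if_neg]
    intro h
    apply hst'
    rw [← h, Sum.swap_swap]

/-- a totally singular line has a non-zero minor at two non-opposite coordinates -/
theorem exists_minor {p r : Fin n ⊕ Fin n → F} (h : TS p r) :
    ∃ s t, t ≠ Sum.swap s ∧ p s * r t - p t * r s ≠ 0 := by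
  by_contra hno
  push Not at hno
  obtain ⟨s₀, hs₀⟩ : ∃ s₀, p s₀ ≠ 0 := by
    by_contra h0
    push Not at h0
    exact h.p_ne (funext h0)
  obtain ⟨l, hl⟩ : ∃ l : F, l = r s₀ / p s₀ := ⟨_, rfl⟩
  obtain ⟨c, hc⟩ : ∃ c : F, c = r (Sum.swap s₀) - l * p (Sum.swap s₀) := ⟨_, rfl⟩
  have h1 : r - l • p = c • ev n F (Sum.swap s₀) := by
    funext t
    simp only [Pi.sub_apply, Pi.smul_apply, smul_eq_mul, ev_apply]
    by_cases ht : t = Sum.swap s₀
    · rw [if_pos ht, mul_one, hc, ht]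
    · rw [if_neg ht, mul_zero, hl]
      have h2 := hno s₀ t ht
      field_simp
      linear_combination h2
  have h3 : Bf n F p (r - l • p) = 0 := by
    rw [map_sub, map_smul, h.hpr, h.hpp, smul_zero, sub_zero]
  rw [h1, map_smul, Bf_ev, Sum.swap_swap, smul_eq_mul] at h3
  have hc0 : c = 0 := by
    rcases mul_eq_zero.1 h3 with h4 | h4
    · exact h4
    · exact absurd h4 hs₀
  rw [hc0, zero_smul] at h1
  have h5 := h.indep (-l) 1 (by rw [← h1]; module)
  exact one_ne_zero h5.2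

/-- a dual pair spanning an opposite totally singular line -/
theorem exists_dual {p r : Fin n ⊕ Fin n → F} (h : TS p r) :
    ∃ u w : Fin n ⊕ Fin n → F, TS u w ∧ Bf n F u p = 1 ∧ Bf n F u r = 0 ∧ Bf n F w p = 0 ∧
      Bf n F w r = 1 := by
  obtain ⟨s, t, hst, hm⟩ := exists_minor h
  obtain ⟨d, hd⟩ : ∃ d : F, d = p s * r t - p t * r s := ⟨_, rfl⟩
  rw [← hd] at hm
  have hne : s ≠ t := by
    rintro rfl
    apply hm
    rw [hd]
    ring
  have hT : TS (ev n F (Sum.swap s)) (ev n F (Sum.swap t)) := by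
    apply TS_ev
    · intro h1
      apply hne
      have h2 := congrArg Sum.swap h1
      rw [Sum.swap_swap, Sum.swap_swap] at h2
      exact h2
    · rw [Sum.swap_swap]
      intro h1
      apply hst
      rw [← h1, Sum.swap_swap]
  have hT' := hT.of_basis (r t / d) (-(r s / d)) (-(p t / d)) (p s / d) (by
    have h1 : r t / d * (p s / d) - -(r s / d) * -(p t / d) = d⁻¹ := by
      rw [hd] at hm ⊢
      field_simp
    rw [h1]
    exact inv_ne_zero hm)
  have e1 : ∀ v : Fin n ⊕ Fin n → F, Bf n F (ev n F (Sum.swap s)) v = v s := by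
    intro v
    rw [Bf_comm, Bf_ev, Sum.swap_swap]
  have e2 : ∀ v : Fin n ⊕ Fin n → F, Bf n F (ev n F (Sum.swap t)) v = v t := by
    intro v
    rw [Bf_comm, Bf_ev, Sum.swap_swap]
  refine ⟨_, _, hT', ?_, ?_, ?_, ?_⟩
  · simp only [map_add, map_smul, LinearMap.add_apply, LinearMap.smul_apply, smul_eq_mul, e1, e2]
    field_simp
    first
      | ring1
      | linear_combination -hd
  · simp only [map_add, map_smul, LinearMap.add_apply, LinearMap.smul_apply, smul_eq_mul, e1, e2]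
    field_simp
    first
      | ring1
      | linear_combination -hd
  · simp only [map_add, map_smul, LinearMap.add_apply, LinearMap.smul_apply, smul_eq_mul, e1, e2]
    field_simp
    first
      | ring1
      | linear_combination -hd
  · simp only [map_add, map_smul, LinearMap.add_apply, LinearMap.smul_apply, smul_eq_mul, e1, e2]
    field_simp
    first
      | ring1
      | linear_combination -hd

end form

section action

variable {F : Type*} [Field F] {n : ℕ}

/-- the action of the isometry group on column vectors -/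
def act (g : ↥(isometryGroup F (quadFormPlus n F))) (v : Fin n ⊕ Fin n → F) :
    Fin n ⊕ Fin n → F :=
  ((g : Matrix.GeneralLinearGroup (Fin n ⊕ Fin n) F) :
    Matrix (Fin n ⊕ Fin n) (Fin n ⊕ Fin n) F) *ᵥ v

theorem act_mul (g h : ↥(isometryGroup F (quadFormPlus n F))) (v : Fin n ⊕ Fin n → F) :
    act (g * h) v = act g (act h v) := by
  unfold act
  rw [Subgroup.coe_mul, Units.val_mul, Matrix.mulVec_mulVec]

theorem act_one (v : Fin n ⊕ Fin n → F) :
    act (1 : ↥(isometryGroup F (quadFormPlus n F))) v = v := by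
  unfold act
  rw [Subgroup.coe_one, Units.val_one, Matrix.one_mulVec]

theorem act_inv_act (g : ↥(isometryGroup F (quadFormPlus n F))) (v : Fin n ⊕ Fin n → F) :
    act g⁻¹ (act g v) = v := by
  rw [← act_mul, inv_mul_cancel, act_one]

theorem act_act_inv (g : ↥(isometryGroup F (quadFormPlus n F))) (v : Fin n ⊕ Fin n → F) :
    act g (act g⁻¹ v) = v := by
  rw [← act_mul, mul_inv_cancel, act_one]

theorem act_add (g : ↥(isometryGroup F (quadFormPlus n F))) (u v : Fin n ⊕ Fin n → F) :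
    act g (u + v) = act g u + act g v := Matrix.mulVec_add _ _ _

theorem act_sub (g : ↥(isometryGroup F (quadFormPlus n F))) (u v : Fin n ⊕ Fin n → F) :
    act g (u - v) = act g u - act g v := Matrix.mulVec_sub _ _ _

theorem act_smul (g : ↥(isometryGroup F (quadFormPlus n F))) (a : F) (v : Fin n ⊕ Fin n → F) :
    act g (a • v) = a • act g v := Matrix.mulVec_smul _ _ _

theorem act_zero (g : ↥(isometryGroup F (quadFormPlus n F))) : act g 0 = 0 :=
  Matrix.mulVec_zero _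

theorem act_Q (g : ↥(isometryGroup F (quadFormPlus n F))) (v : Fin n ⊕ Fin n → F) :
    quadFormPlus n F (act g v) = quadFormPlus n F v := g.2 v v

theorem act_Bf (g : ↥(isometryGroup F (quadFormPlus n F))) (u v : Fin n ⊕ Fin n → F) :
    Bf n F (act g u) (act g v) = Bf n F u v := by
  rw [← polar_eq, ← polar_eq, ← act_add, act_Q, act_Q, act_Q]

theorem ext_act {g h : ↥(isometryGroup F (quadFormPlus n F))}
    (hgh : ∀ v, act g v = act h v) : g = h := by
  apply Subtype.ext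
  apply Units.ext
  rw [Matrix.ext_iff_mulVec]
  exact hgh

/-- an isometry from a linear map -/
noncomputable def mkO (f f' : (Fin n ⊕ Fin n → F) →ₗ[F] (Fin n ⊕ Fin n → F))
    (h1 : f.comp f' = LinearMap.id) (h2 : f'.comp f = LinearMap.id)
    (hQ : ∀ v, quadFormPlus n F (f v) = quadFormPlus n F v) :
    ↥(isometryGroup F (quadFormPlus n F)) :=
  ⟨⟨LinearMap.toMatrix' f, LinearMap.toMatrix' f',
    by rw [← LinearMap.toMatrix'_comp, h1, LinearMap.toMatrix'_id],
    by rw [← LinearMap.toMatrix'_comp, h2, LinearMap.toMatrix'_id]⟩, by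
    intro u v
    show quadFormPlus n F (LinearMap.toMatrix' f *ᵥ u) = quadFormPlus n F u
    rw [← Matrix.toLin'_apply, Matrix.toLin'_toMatrix']
    exact hQ u⟩

theorem act_mkO (f f' : (Fin n ⊕ Fin n → F) →ₗ[F] (Fin n ⊕ Fin n → F))
    (h1 : f.comp f' = LinearMap.id) (h2 : f'.comp f = LinearMap.id)
    (hQ : ∀ v, quadFormPlus n F (f v) = quadFormPlus n F v) (v : Fin n ⊕ Fin n → F) :
    act (mkO f f' h1 h2 hQ) v = f v := by
  show LinearMap.toMatrix' f *ᵥ v = f v
  rw [← Matrix.toLin'_apply, Matrix.toLin'_toMatrix']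

/-- the Siegel map -/
def sgm (p r : Fin n ⊕ Fin n → F) (c : F) : (Fin n ⊕ Fin n → F) →ₗ[F] (Fin n ⊕ Fin n → F) :=
  LinearMap.id + c • (((Bf n F).flip p).smulRight r - ((Bf n F).flip r).smulRight p)

theorem sgm_apply (p r : Fin n ⊕ Fin n → F) (c : F) (v : Fin n ⊕ Fin n → F) :
    sgm p r c v = v + c • (Bf n F v p • r - Bf n F v r • p) := by
  simp [sgm]

theorem sgm_zero (p r : Fin n ⊕ Fin n → F) : sgm p r (0 : F) = LinearMap.id := by
  apply LinearMap.ext
  intro v
  rw [sgm_apply, zero_smul, add_zero]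
  rfl

theorem sgm_comp (p r : Fin n ⊕ Fin n → F) (hpp : Bf n F p p = 0) (hrr : Bf n F r r = 0)
    (hpr : Bf n F p r = 0) (hrp : Bf n F r p = 0) (c d : F) :
    (sgm p r c).comp (sgm p r d) = sgm p r (c + d) := by
  apply LinearMap.ext
  intro v
  simp only [LinearMap.comp_apply, sgm_apply, map_add, map_sub, map_smul, LinearMap.add_apply,
    LinearMap.sub_apply, LinearMap.smul_apply, smul_eq_mul, hpp, hrr, hpr, hrp]
  module

theorem sgm_Q (p r : Fin n ⊕ Fin n → F) (hp : quadFormPlus n F p = 0)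
    (hr : quadFormPlus n F r = 0) (hpr : Bf n F p r = 0) (c : F) (v : Fin n ⊕ Fin n → F) :
    quadFormPlus n F (sgm p r c v) = quadFormPlus n F v := by
  have hrp : Bf n F r p = 0 := by rw [Bf_comm, hpr]
  have h1 : sgm p r c v = v + ((c * Bf n F v p) • r + (-(c * Bf n F v r)) • p) := by
    rw [sgm_apply]
    module
  rw [h1, Q_add, Q_add, Q_smul, Q_smul, hp, hr]
  simp only [map_add, map_smul, LinearMap.add_apply, LinearMap.smul_apply, smul_eq_mul, hrp]
  ring

/-- `g` is the Siegel transvection with parameter `c` -/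
def IsSg (p r : Fin n ⊕ Fin n → F) (c : F) (g : ↥(isometryGroup F (quadFormPlus n F))) : Prop :=
  ∀ v, act g v = sgm p r c v

theorem exists_sg {p r : Fin n ⊕ Fin n → F} (h : TS p r) (c : F) :
    ∃ g : ↥(isometryGroup F (quadFormPlus n F)), IsSg p r c g :=
  ⟨mkO (sgm p r c) (sgm p r (-c))
    (by rw [sgm_comp _ _ h.hpp h.hrr h.hpr h.hrp, add_neg_cancel, sgm_zero])
    (by rw [sgm_comp _ _ h.hpp h.hrr h.hpr h.hrp, neg_add_cancel, sgm_zero])
    (sgm_Q p r h.hp h.hr h.hpr c), fun v => act_mkO _ _ _ _ _ v⟩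

theorem IsSg_one (p r : Fin n ⊕ Fin n → F) :
    IsSg p r 0 (1 : ↥(isometryGroup F (quadFormPlus n F))) := by
  intro v
  rw [act_one, sgm_zero]
  rfl

theorem IsSg_mul {p r : Fin n ⊕ Fin n → F} (h : TS p r) {c d : F}
    {g k : ↥(isometryGroup F (quadFormPlus n F))} (hg : IsSg p r c g) (hk : IsSg p r d k) :
    IsSg p r (c + d) (g * k) := by
  intro v
  rw [act_mul, hk v, hg, ← LinearMap.comp_apply, sgm_comp _ _ h.hpp h.hrr h.hpr h.hrp]

theorem IsSg_inv {p r : Fin n ⊕ Fin n → F} (h : TS p r) {c : F}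
    {g : ↥(isometryGroup F (quadFormPlus n F))} (hg : IsSg p r c g) : IsSg p r (-c) g⁻¹ := by
  intro v
  have h1 : act g (sgm p r (-c) v) = v := by
    rw [hg, ← LinearMap.comp_apply, sgm_comp _ _ h.hpp h.hrr h.hpr h.hrp, add_neg_cancel,
      sgm_zero]
    rfl
  have h2 := act_inv_act g (sgm p r (-c) v)
  rw [h1] at h2
  exact h2

theorem IsSg_unique {p r : Fin n ⊕ Fin n → F} {c : F}
    {g g' : ↥(isometryGroup F (quadFormPlus n F))} (hg : IsSg p r c g) (hg' : IsSg p r c g') :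
    g = g' :=
  ext_act (fun v => by rw [hg v, hg' v])

theorem IsSg_conj {p r : Fin n ⊕ Fin n → F} {c : F}
    {g : ↥(isometryGroup F (quadFormPlus n F))} (hg : IsSg p r c g)
    (k : ↥(isometryGroup F (quadFormPlus n F))) :
    IsSg (act k p) (act k r) c (k * g * k⁻¹) := by
  intro v
  have h1 : Bf n F (act k⁻¹ v) p = Bf n F v (act k p) := by
    rw [← act_Bf k, act_act_inv]
  have h2 : Bf n F (act k⁻¹ v) r = Bf n F v (act k r) := by
    rw [← act_Bf k, act_act_inv]
  rw [act_mul, act_mul, hg, sgm_apply, sgm_apply, act_add, act_act_inv, act_smul, act_sub,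
    act_smul, act_smul, h1, h2]

theorem IsSg_basis (p r : Fin n ⊕ Fin n → F) (a b c d e : F)
    (g : ↥(isometryGroup F (quadFormPlus n F))) :
    IsSg (a • p + b • r) (c • p + d • r) e g ↔ IsSg p r (e * (a * d - b * c)) g := by
  have key : ∀ v, sgm (a • p + b • r) (c • p + d • r) e v = sgm p r (e * (a * d - b * c)) v := by
    intro v
    rw [sgm_apply, sgm_apply]
    simp only [map_add, map_smul, smul_eq_mul]
    module
  constructor
  · intro h v
    rw [h v, key]
  · intro h v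
    rw [h v, key]

theorem IsSg_param {p r : Fin n ⊕ Fin n → F} (h : TS p r) {c c' : F}
    {g : ↥(isometryGroup F (quadFormPlus n F))} (hg : IsSg p r c g) (hg' : IsSg p r c' g) :
    c = c' := by
  obtain ⟨u, w, -, hu1, hu2, -, -⟩ := exists_dual h
  have h1 := hg u
  rw [hg' u, sgm_apply, sgm_apply, hu1, hu2] at h1
  have h3 : (c - c') • r = 0 := by
    linear_combination (norm := module) -h1
  rcases smul_eq_zero.1 h3 with h4 | h4
  · exact sub_eq_zero.1 h4
  · exact absurd h4 h.r_ne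

theorem IsSg_ne_one {p r : Fin n ⊕ Fin n → F} (h : TS p r) {c : F} (hc : c ≠ 0)
    {g : ↥(isometryGroup F (quadFormPlus n F))} (hg : IsSg p r c g) : g ≠ 1 := by
  rintro rfl
  exact hc (IsSg_param h hg (IsSg_one p r))

/-- the Siegel transvection group of the line spanned by `p, r` -/
def Tg (p r : Fin n ⊕ Fin n → F) : Subgroup ↥(isometryGroup F (quadFormPlus n F)) :=
  Subgroup.closure {g | ∃ c, IsSg p r c g}

theorem mem_Tg {p r : Fin n ⊕ Fin n → F} (h : TS p r)
    (g : ↥(isometryGroup F (quadFormPlus n F))) : g ∈ Tg p r ↔ ∃ c, IsSg p r c g := by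
  constructor
  · intro hg
    unfold Tg at hg
    induction hg using Subgroup.closure_induction with
    | mem x hx => exact hx
    | one => exact ⟨0, IsSg_one p r⟩
    | mul x y _ _ hx hy =>
      obtain ⟨c, hx⟩ := hx
      obtain ⟨d, hy⟩ := hy
      exact ⟨c + d, IsSg_mul h hx hy⟩
    | inv x _ hx =>
      obtain ⟨c, hx⟩ := hx
      exact ⟨-c, IsSg_inv h hx⟩
  · intro hg
    exact Subgroup.subset_closure hg

theorem Tg_basis {p r : Fin n ⊕ Fin n → F} (h : TS p r) (a b c d : F)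
    (hdet : a * d - b * c ≠ 0) : Tg (a • p + b • r) (c • p + d • r) = Tg p r := by
  have h' := h.of_basis a b c d hdet
  ext g
  rw [mem_Tg h', mem_Tg h]
  constructor
  · rintro ⟨e, he⟩
    exact ⟨_, (IsSg_basis p r a b c d e g).1 he⟩
  · rintro ⟨e, he⟩
    refine ⟨e / (a * d - b * c), (IsSg_basis p r a b c d _ g).2 ?_⟩
    rw [div_mul_cancel₀ _ hdet]
    exact he

theorem TS.swap {p r : Fin n ⊕ Fin n → F} (h : TS p r) : TS r p := by
  have h1 := h.of_basis 0 1 1 0 (by norm_num)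
  simpa using h1

theorem Tg_swap {p r : Fin n ⊕ Fin n → F} (h : TS p r) : Tg r p = Tg p r := by
  have h1 := Tg_basis h 0 1 1 0 (by norm_num)
  simpa using h1

theorem TS.mapAct {p r : Fin n ⊕ Fin n → F} (h : TS p r)
    (g : ↥(isometryGroup F (quadFormPlus n F))) : TS (act g p) (act g r) := by
  refine ⟨?_, ?_, ?_, ?_⟩
  · rw [LinearIndependent.pair_iff]
    intro a b hab
    apply h.indep
    have h1 : act g (a • p + b • r) = 0 := by
      rw [act_add, act_smul, act_smul, hab]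
    have h2 := act_inv_act g (a • p + b • r)
    rw [h1, act_zero] at h2
    exact h2.symm
  · rw [act_Q, h.hp]
  · rw [act_Q, h.hr]
  · rw [act_Bf, h.hpr]

theorem conjBy_Tg {p r : Fin n ⊕ Fin n → F} (h : TS p r)
    (g : ↥(isometryGroup F (quadFormPlus n F))) :
    conjBy (Tg p r) g = Tg (act g p) (act g r) := by
  ext x
  rw [Cfsg.Agent.Lib.Helper83.RankOne.mem_conjBy, mem_Tg h, mem_Tg (h.mapAct g)]
  constructor
  · rintro ⟨c, hc⟩
    refine ⟨c, ?_⟩
    have h1 := IsSg_conj hc g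
    have h2 : g * (g⁻¹ * x * g) * g⁻¹ = x := by group
    rw [h2] at h1
    exact h1
  · rintro ⟨c, hc⟩
    refine ⟨c, ?_⟩
    have h1 := IsSg_conj hc g⁻¹
    rw [act_inv_act, act_inv_act, inv_inv] at h1
    exact h1

theorem set_eq {p r : Fin n ⊕ Fin n → F} (h : TS p r) :
    {σ : ↥(isometryGroup F (quadFormPlus n F)) | ∀ v : Fin n ⊕ Fin n → F,
      quadFormPlus n F (v + p) - quadFormPlus n F v - quadFormPlus n F p = 0 →
      quadFormPlus n F (v + r) - quadFormPlus n F v - quadFormPlus n F r = 0 →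
        ((σ : Matrix.GeneralLinearGroup (Fin n ⊕ Fin n) F) :
          Matrix (Fin n ⊕ Fin n) (Fin n ⊕ Fin n) F) *ᵥ v = v} =
    {g | ∃ c, IsSg p r c g} := by
  ext σ
  simp only [Set.mem_setOf_eq, polar_eq]
  constructor
  · intro hfix
    have hfix' : ∀ v, Bf n F v p = 0 → Bf n F v r = 0 → act σ v = v := hfix
    obtain ⟨u, w, -, hup, hur, hwp, hwr⟩ := exists_dual h
    have hdec : ∀ v, act σ v = v + Bf n F v p • (act σ u - u) + Bf n F v r • (act σ w - w) := by
      intro v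
      have h1 : act σ (v - Bf n F v p • u - Bf n F v r • w) =
          v - Bf n F v p • u - Bf n F v r • w := by
        apply hfix'
        · simp only [map_sub, map_smul, LinearMap.sub_apply, LinearMap.smul_apply, smul_eq_mul,
            hup, hwp]
          ring
        · simp only [map_sub, map_smul, LinearMap.sub_apply, LinearMap.smul_apply, smul_eq_mul,
            hur, hwr]
          ring
      have h2 : act σ v = act σ (v - Bf n F v p • u - Bf n F v r • w) + Bf n F v p • act σ u +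
          Bf n F v r • act σ w := by
        rw [← act_smul, ← act_smul, ← act_add, ← act_add]
        congr 1
        module
      rw [h2, h1]
      module
    have hperp : ∀ z v', Bf n F v' p = 0 → Bf n F v' r = 0 → Bf n F (act σ z - z) v' = 0 := by
      intro z v' h1 h2
      have h3 := act_Bf σ z v'
      rw [hfix' v' h1 h2] at h3
      rw [map_sub, LinearMap.sub_apply, h3, sub_self]
    have hspan : ∀ z, act σ z - z =
        Bf n F (act σ z - z) u • p + Bf n F (act σ z - z) w • r := by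
      intro z
      obtain ⟨a, ha⟩ : ∃ a, a = act σ z - z := ⟨_, rfl⟩
      rw [← ha]
      have h1 : a - (Bf n F a u • p + Bf n F a w • r) = 0 := by
        apply Bf_nondeg
        intro x
        have h2 := hperp z (x - Bf n F x p • u - Bf n F x r • w)
          (by
            simp only [map_sub, map_smul, LinearMap.sub_apply, LinearMap.smul_apply, smul_eq_mul,
              hup, hwp]
            ring)
          (by
            simp only [map_sub, map_smul, LinearMap.sub_apply, LinearMap.smul_apply, smul_eq_mul,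
              hur, hwr]
            ring)
        rw [← ha] at h2
        simp only [map_sub, map_smul, LinearMap.sub_apply, LinearMap.smul_apply, smul_eq_mul,
          map_add, LinearMap.add_apply] at h2 ⊢
        rw [Bf_comm p x, Bf_comm r x]
        linear_combination h2
      exact sub_eq_zero.1 h1
    obtain ⟨a₁, ha₁⟩ : ∃ a₁, a₁ = Bf n F (act σ u - u) u := ⟨_, rfl⟩
    obtain ⟨a₂, ha₂⟩ : ∃ a₂, a₂ = Bf n F (act σ u - u) w := ⟨_, rfl⟩
    obtain ⟨b₁, hb₁⟩ : ∃ b₁, b₁ = Bf n F (act σ w - w) u := ⟨_, rfl⟩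
    obtain ⟨b₂, hb₂⟩ : ∃ b₂, b₂ = Bf n F (act σ w - w) w := ⟨_, rfl⟩
    have hu := hspan u
    have hw := hspan w
    rw [← ha₁, ← ha₂] at hu
    rw [← hb₁, ← hb₂] at hw
    have hdec' : ∀ v, act σ v = v + ((Bf n F v p * a₁ + Bf n F v r * b₁) • p +
        (Bf n F v p * a₂ + Bf n F v r * b₂) • r) := by
      intro v
      rw [hdec v, hu, hw]
      module
    have hq : ∀ v, (Bf n F v p * a₁ + Bf n F v r * b₁) * Bf n F v p +
        (Bf n F v p * a₂ + Bf n F v r * b₂) * Bf n F v r = 0 := by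
      intro v
      have h1 := act_Q σ v
      rw [hdec' v, Q_add, Q_add, Q_smul, Q_smul, h.hp, h.hr] at h1
      simp only [map_add, map_smul, LinearMap.add_apply, LinearMap.smul_apply, smul_eq_mul,
        h.hpr] at h1
      linear_combination h1
    have e1 := hq u
    have e2 := hq w
    have e3 := hq (u + w)
    simp only [map_add, LinearMap.add_apply, hup, hur, hwp, hwr] at e1 e2 e3
    have ea : a₁ = 0 := by linear_combination e1
    have eb : b₂ = 0 := by linear_combination e2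
    have ec : b₁ = -a₂ := by linear_combination e3 - e1 - e2
    refine ⟨a₂, fun v => ?_⟩
    rw [hdec' v, sgm_apply, ea, eb, ec]
    module
  · rintro ⟨c, hc⟩ v hvp hvr
    show act σ v = v
    rw [hc v, sgm_apply, hvp, hvr]
    simp

end action

section pairs

variable {F : Type*} [Field F] {n : ℕ}

theorem sg_comm_perp {p r p' r' : Fin n ⊕ Fin n → F} (h1 : Bf n F p p' = 0)
    (h2 : Bf n F p r' = 0) (h3 : Bf n F r p' = 0) (h4 : Bf n F r r' = 0) {c d : F}
    {a b : ↥(isometryGroup F (quadFormPlus n F))} (ha : IsSg p r c a) (hb : IsSg p' r' d b) :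
    a * b = b * a := by
  have h1' : Bf n F p' p = 0 := by rw [Bf_comm, h1]
  have h2' : Bf n F r' p = 0 := by rw [Bf_comm, h2]
  have h3' : Bf n F p' r = 0 := by rw [Bf_comm, h3]
  have h4' : Bf n F r' r = 0 := by rw [Bf_comm, h4]
  have ha' : ∀ v, act a v = sgm p r c v := ha
  have hb' : ∀ v, act b v = sgm p' r' d v := hb
  apply ext_act
  intro v
  simp only [act_mul, ha', hb', sgm_apply, map_add, map_sub, map_smul, LinearMap.add_apply,
    LinearMap.sub_apply, LinearMap.smul_apply, smul_eq_mul, h1, h2, h3, h4, h1', h2', h3', h4']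
  module

theorem sg_comm_point {z y y' : Fin n ⊕ Fin n → F} (hzz : Bf n F z z = 0)
    (hzy : Bf n F z y = 0) (hzy' : Bf n F z y' = 0) {c d : F}
    {a b : ↥(isometryGroup F (quadFormPlus n F))} (ha : IsSg z y c a) (hb : IsSg z y' d b) :
    a * b = b * a := by
  have hyz : Bf n F y z = 0 := by rw [Bf_comm, hzy]
  have hy'z : Bf n F y' z = 0 := by rw [Bf_comm, hzy']
  have hyy' : Bf n F y' y = Bf n F y y' := Bf_comm y' y
  have ha' : ∀ v, act a v = sgm z y c v := ha
  have hb' : ∀ v, act b v = sgm z y' d v := hb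
  apply ext_act
  intro v
  simp only [act_mul, ha', hb', sgm_apply, map_add, map_sub, map_smul, LinearMap.add_apply,
    LinearMap.sub_apply, LinearMap.smul_apply, smul_eq_mul, hzz, hzy, hzy', hyz, hy'z, hyy']
  module

theorem sg_commutator {x y x' y' : Fin n ⊕ Fin n → F} (hxy : TS x y) (hx'y' : TS x' y')
    (b1 : Bf n F x x' = 0) (b2 : Bf n F x y' = 0) (b3 : Bf n F y x' = 0) {c d : F}
    {a b : ↥(isometryGroup F (quadFormPlus n F))} (ha : IsSg x y c a) (hb : IsSg x' y' d b) :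
    IsSg x x' (c * d * Bf n F y y') (a * b * a⁻¹ * b⁻¹) := by
  have ha' : ∀ v, act a v = sgm x y c v := ha
  have hb' : ∀ v, act b v = sgm x' y' d v := hb
  have hai : ∀ v, act a⁻¹ v = sgm x y (-c) v := IsSg_inv hxy ha
  have hbi : ∀ v, act b⁻¹ v = sgm x' y' (-d) v := IsSg_inv hx'y' hb
  have b1' : Bf n F x' x = 0 := by rw [Bf_comm, b1]
  have b2' : Bf n F y' x = 0 := by rw [Bf_comm, b2]
  have b3' : Bf n F x' y = 0 := by rw [Bf_comm, b3]
  have hyy' : Bf n F y' y = Bf n F y y' := Bf_comm y' y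
  intro v
  simp only [act_mul, ha', hb', hai, hbi, sgm_apply, map_add, map_sub, map_smul,
    LinearMap.add_apply, LinearMap.sub_apply, LinearMap.smul_apply, smul_eq_mul, b1, b2, b3, b1',
    b2', b3', hyy', hxy.hpp, hxy.hrr, hxy.hpr, hxy.hrp, hx'y'.hpp, hx'y'.hrr, hx'y'.hpr,
    hx'y'.hrp]
  module

/-- a hyperbolic frame for two opposite totally singular lines -/
structure Frame (p r p' r' : Fin n ⊕ Fin n → F) : Prop where
  h : TS p r
  h' : TS p' r'
  pp' : Bf n F p p' = 0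
  rr' : Bf n F r r' = 0
  pr' : Bf n F p r' = 1
  rp' : Bf n F r p' = -1

/-- the endomorphism attached to a `2 × 2` matrix and a frame -/
def Lmap4 (p r p' r' : Fin n ⊕ Fin n → F) (g : Matrix (Fin 2) (Fin 2) F) :
    (Fin n ⊕ Fin n → F) →ₗ[F] (Fin n ⊕ Fin n → F) :=
  LinearMap.id + ((Bf n F).flip r').smulRight ((g 0 0 - 1) • p + g 1 0 • p')
    - ((Bf n F).flip p').smulRight ((g 0 0 - 1) • r + g 1 0 • r')
    - ((Bf n F).flip r).smulRight (g 0 1 • p + (g 1 1 - 1) • p')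
    + ((Bf n F).flip p).smulRight (g 0 1 • r + (g 1 1 - 1) • r')

theorem Lmap4_apply (p r p' r' : Fin n ⊕ Fin n → F) (g : Matrix (Fin 2) (Fin 2) F)
    (v : Fin n ⊕ Fin n → F) :
    Lmap4 p r p' r' g v = v + Bf n F v r' • ((g 0 0 - 1) • p + g 1 0 • p')
      - Bf n F v p' • ((g 0 0 - 1) • r + g 1 0 • r')
      - Bf n F v r • (g 0 1 • p + (g 1 1 - 1) • p')
      + Bf n F v p • (g 0 1 • r + (g 1 1 - 1) • r') := by
  simp [Lmap4]

theorem Lmap4_one (p r p' r' : Fin n ⊕ Fin n → F) :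
    Lmap4 p r p' r' (1 : Matrix (Fin 2) (Fin 2) F) = LinearMap.id := by
  apply LinearMap.ext
  intro v
  simp [Lmap4_apply]

theorem Lmap4_mul {p r p' r' : Fin n ⊕ Fin n → F} (fr : Frame p r p' r')
    (g k : Matrix (Fin 2) (Fin 2) F) :
    Lmap4 p r p' r' (g * k) = (Lmap4 p r p' r' g).comp (Lmap4 p r p' r' k) := by
  have e1 : Bf n F p' p = 0 := by rw [Bf_comm, fr.pp']
  have e2 : Bf n F r' r = 0 := by rw [Bf_comm, fr.rr']
  have e3 : Bf n F r' p = 1 := by rw [Bf_comm, fr.pr']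
  have e4 : Bf n F p' r = -1 := by rw [Bf_comm, fr.rp']
  apply LinearMap.ext
  intro v
  simp only [LinearMap.comp_apply, Lmap4_apply, Matrix.mul_apply, Fin.sum_univ_two, map_add,
    map_sub, map_smul, LinearMap.add_apply, LinearMap.sub_apply, LinearMap.smul_apply,
    smul_eq_mul, fr.pp', fr.rr', fr.pr', fr.rp', e1, e2, e3, e4, fr.h.hpp, fr.h.hrr, fr.h.hpr,
    fr.h.hrp, fr.h'.hpp, fr.h'.hrr, fr.h'.hpr, fr.h'.hrp]
  module

theorem Lmap4_Q {p r p' r' : Fin n ⊕ Fin n → F} (fr : Frame p r p' r')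
    (g : Matrix (Fin 2) (Fin 2) F) (hdet : g 0 0 * g 1 1 - g 0 1 * g 1 0 = 1)
    (v : Fin n ⊕ Fin n → F) :
    quadFormPlus n F (Lmap4 p r p' r' g v) = quadFormPlus n F v := by
  have h1 : Lmap4 p r p' r' g v = v +
      (((Bf n F v r' * (g 0 0 - 1) - Bf n F v r * g 0 1) • p +
        (-(Bf n F v p' * (g 0 0 - 1)) + Bf n F v p * g 0 1) • r) +
      ((Bf n F v r' * g 1 0 - Bf n F v r * (g 1 1 - 1)) • p' +
        (-(Bf n F v p' * g 1 0) + Bf n F v p * (g 1 1 - 1)) • r')) := by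
    rw [Lmap4_apply]
    module
  rw [h1, Q_add, Q_add, Q_add, Q_add, Q_smul, Q_smul, Q_smul, Q_smul, fr.h.hp, fr.h.hr, fr.h'.hp,
    fr.h'.hr]
  simp only [map_add, map_smul, LinearMap.add_apply, LinearMap.smul_apply, smul_eq_mul, fr.pp',
    fr.rr', fr.pr', fr.rp', fr.h.hpr, fr.h'.hpr]
  linear_combination (Bf n F v r' * Bf n F v p - Bf n F v p' * Bf n F v r) * hdet

/-- the homomorphism from `SL₂` attached to a frame -/
noncomputable def Phi0 {p r p' r' : Fin n ⊕ Fin n → F} (fr : Frame p r p' r') :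
    Matrix.SpecialLinearGroup (Fin 2) F →* ↥(isometryGroup F (quadFormPlus n F)) where
  toFun g := mkO (Lmap4 p r p' r' g.1) (Lmap4 p r p' r' g⁻¹.1)
    (by rw [← Lmap4_mul fr, ← Matrix.SpecialLinearGroup.coe_mul, mul_inv_cancel,
      Matrix.SpecialLinearGroup.coe_one, Lmap4_one])
    (by rw [← Lmap4_mul fr, ← Matrix.SpecialLinearGroup.coe_mul, inv_mul_cancel,
      Matrix.SpecialLinearGroup.coe_one, Lmap4_one])
    (Lmap4_Q fr g.1 (Cfsg.Agent.S5016.det_eq g))
  map_one' := by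
    apply ext_act
    intro v
    rw [act_mkO, act_one]
    show Lmap4 p r p' r' (1 : Matrix (Fin 2) (Fin 2) F) v = v
    rw [Lmap4_one]
    rfl
  map_mul' g k := by
    apply ext_act
    intro v
    rw [act_mul, act_mkO, act_mkO, act_mkO]
    show Lmap4 p r p' r' (g.1 * k.1) v = _
    rw [Lmap4_mul fr]
    rfl

theorem act_Phi0 {p r p' r' : Fin n ⊕ Fin n → F} (fr : Frame p r p' r')
    (g : Matrix.SpecialLinearGroup (Fin 2) F) (v : Fin n ⊕ Fin n → F) :
    act (Phi0 fr g) v = Lmap4 p r p' r' g.1 v := by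
  show LinearMap.toMatrix' (Lmap4 p r p' r' g.1) *ᵥ v = _
  rw [← Matrix.toLin'_apply, Matrix.toLin'_toMatrix']

theorem Phi0_U {p r p' r' : Fin n ⊕ Fin n → F} (fr : Frame p r p' r') (s : F) :
    IsSg p r s (Phi0 fr (Cfsg.Agent.S5016.U s)) := by
  intro v
  rw [act_Phi0, Lmap4_apply, sgm_apply]
  have h00 := Cfsg.Agent.S5016.U00 s
  have h01 := Cfsg.Agent.S5016.U01 s
  have h10 := Cfsg.Agent.S5016.U10 s
  have h11 := Cfsg.Agent.S5016.U11 s
  rw [h00, h01, h10, h11]
  module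

theorem Phi0_L {p r p' r' : Fin n ⊕ Fin n → F} (fr : Frame p r p' r') (t : F) :
    IsSg p' r' (-t) (Phi0 fr (Cfsg.Agent.S5016.L t)) := by
  intro v
  rw [act_Phi0, Lmap4_apply, sgm_apply]
  have h00 := Cfsg.Agent.S5016.L00 t
  have h01 := Cfsg.Agent.S5016.L01 t
  have h10 := Cfsg.Agent.S5016.L10 t
  have h11 := Cfsg.Agent.S5016.L11 t
  rw [h00, h01, h10, h11]
  module

theorem Phi0_inj {p r p' r' : Fin n ⊕ Fin n → F} (fr : Frame p r p' r')
    (g : Matrix.SpecialLinearGroup (Fin 2) F) (hg : Phi0 fr g = 1) : g = 1 := by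
  have e1 : Bf n F p' p = 0 := by rw [Bf_comm, fr.pp']
  have e4 : Bf n F p' r = -1 := by rw [Bf_comm, fr.rp']
  have he := congrArg (fun x => act x p) hg
  have he' := congrArg (fun x => act x p') hg
  simp only [act_Phi0, act_one, Lmap4_apply, fr.pp', fr.pr', e1, e4, fr.h.hpp, fr.h.hpr,
    fr.h'.hpp, fr.h'.hpr] at he he'
  have he2 : (g.1 0 0 - 1) • p + g.1 1 0 • p' = 0 := by
    linear_combination (norm := module) he
  have he2' : g.1 0 1 • p + (g.1 1 1 - 1) • p' = 0 := by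
    linear_combination (norm := module) he'
  have ha : g.1 0 0 - 1 = 0 := by
    have h3 := congrArg (fun x => Bf n F x r') he2
    simpa [fr.pr', fr.h'.hpr] using h3
  have hc : g.1 1 0 = 0 := by
    have h3 := congrArg (fun x => Bf n F x r) he2
    simpa [fr.h.hpr, e4] using h3
  have hb : g.1 0 1 = 0 := by
    have h3 := congrArg (fun x => Bf n F x r') he2'
    simpa [fr.pr', fr.h'.hpr] using h3
  have hd : g.1 1 1 - 1 = 0 := by
    have h3 := congrArg (fun x => Bf n F x r) he2'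
    have h4 : 1 - g.1 1 1 = 0 := by simpa [fr.h.hpr, e4] using h3
    linear_combination -h4
  apply Cfsg.Agent.S5016.ext2
  · rw [Cfsg.Agent.S5016.one00]
    exact sub_eq_zero.1 ha
  · rw [Cfsg.Agent.S5016.one01]
    exact hb
  · rw [Cfsg.Agent.S5016.one10]
    exact hc
  · rw [Cfsg.Agent.S5016.one11]
    exact sub_eq_zero.1 hd

theorem exists_frame {p r p' r' : Fin n ⊕ Fin n → F} (h : TS p r) (h' : TS p' r')
    (hD : Bf n F p p' * Bf n F r r' - Bf n F p r' * Bf n F r p' ≠ 0) :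
    ∃ p'' r'' : Fin n ⊕ Fin n → F, Frame p r p'' r'' ∧ Tg p'' r'' = Tg p' r' := by
  obtain ⟨D, hDdef⟩ : ∃ D : F, D = Bf n F p p' * Bf n F r r' - Bf n F p r' * Bf n F r p' :=
    ⟨_, rfl⟩
  rw [← hDdef] at hD
  have hdet : Bf n F p r' / D * (-(Bf n F r p' / D)) - -(Bf n F p p' / D) * (Bf n F r r' / D) ≠
      0 := by
    have h1 : Bf n F p r' / D * (-(Bf n F r p' / D)) - -(Bf n F p p' / D) * (Bf n F r r' / D) =
        D⁻¹ := by
      field_simp
      linear_combination -hDdef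
    rw [h1]
    exact inv_ne_zero hD
  refine ⟨(Bf n F p r' / D) • p' + (-(Bf n F p p' / D)) • r',
    (Bf n F r r' / D) • p' + (-(Bf n F r p' / D)) • r',
    ⟨h, h'.of_basis _ _ _ _ hdet, ?_, ?_, ?_, ?_⟩, Tg_basis h' _ _ _ _ hdet⟩
  · simp only [map_add, map_smul, smul_eq_mul]
    field_simp
    ring
  · simp only [map_add, map_smul, smul_eq_mul]
    field_simp
    ring
  · simp only [map_add, map_smul, smul_eq_mul]
    field_simp
    linear_combination -hDdef
  · simp only [map_add, map_smul, smul_eq_mul]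
    field_simp
    linear_combination hDdef

theorem opp_hom {p r p' r' : Fin n ⊕ Fin n → F} (h : TS p r) (h' : TS p' r')
    (hD : Bf n F p p' * Bf n F r r' - Bf n F p r' * Bf n F r p' ≠ 0) :
    ∃ Φ0 : Matrix.SpecialLinearGroup (Fin 2) F →* ↥(isometryGroup F (quadFormPlus n F)),
      (∀ g, Φ0 g = 1 → g = 1) ∧ (upperUnipotentSL2 F).map Φ0 = Tg p r ∧
      (lowerUnipotentSL2 F).map Φ0 = Tg p' r' := by
  obtain ⟨p'', r'', fr, hT⟩ := exists_frame h h' hD
  refine ⟨Phi0 fr, Phi0_inj fr, ?_, ?_⟩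
  · ext x
    rw [Subgroup.mem_map, mem_Tg h]
    constructor
    · rintro ⟨g, hg, rfl⟩
      obtain ⟨s, rfl⟩ := (Cfsg.Agent.S5016.mem_upper_iff' g).mp hg
      exact ⟨s, Phi0_U fr s⟩
    · rintro ⟨c, hc⟩
      exact ⟨Cfsg.Agent.S5016.U c, (Cfsg.Agent.S5016.mem_upper_iff' _).mpr ⟨_, rfl⟩,
        IsSg_unique (Phi0_U fr c) hc⟩
  · rw [← hT]
    ext x
    rw [Subgroup.mem_map, mem_Tg fr.h']
    constructor
    · rintro ⟨g, hg, rfl⟩
      obtain ⟨t, rfl⟩ := (Cfsg.Agent.S5016.mem_lower_iff' g).mp hg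
      exact ⟨-t, Phi0_L fr t⟩
    · rintro ⟨c, hc⟩
      refine ⟨Cfsg.Agent.S5016.L (-c), (Cfsg.Agent.S5016.mem_lower_iff' _).mpr ⟨_, rfl⟩, ?_⟩
      have h1 := Phi0_L fr (-c)
      rw [neg_neg] at h1
      exact IsSg_unique h1 hc

theorem opp_pair {p r p' r' : Fin n ⊕ Fin n → F} (h : TS p r) (h' : TS p' r')
    (hD : Bf n F p p' * Bf n F r r' - Bf n F p r' * Bf n F r p' ≠ 0) :
    IsRankOnePair (Tg p r) (Tg p' r') := by
  obtain ⟨Φ0, hinj, hU, hL⟩ := opp_hom h h' hD
  have hker : Φ0.ker ≤ Subgroup.center (Matrix.SpecialLinearGroup (Fin 2) F) := by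
    intro g hg
    rw [hinj g (MonoidHom.mem_ker.1 hg)]
    exact Subgroup.one_mem _
  have h2 := (Cfsg.Agent.S5070.pair_map Φ0 hker).1
  rw [hU, hL] at h2
  exact h2

theorem pair_restrict {G : Type*} [Group G] {k : Type*} [Field k]
    (Φ0 : Matrix.SpecialLinearGroup (Fin 2) k →* G) (hinj : ∀ g, Φ0 g = 1 → g = 1)
    (H : Subgroup G) (hU : (upperUnipotentSL2 k).map Φ0 ≤ H)
    (hL : (lowerUnipotentSL2 k).map Φ0 ≤ H) :
    IsRankOnePair (((upperUnipotentSL2 k).map Φ0).subgroupOf H)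
        (((lowerUnipotentSL2 k).map Φ0).subgroupOf H) ∧
      IsPSL2PairOver k (((upperUnipotentSL2 k).map Φ0).subgroupOf H)
        (((lowerUnipotentSL2 k).map Φ0).subgroupOf H) := by
  have hrange : ∀ g, Φ0 g ∈ H := by
    intro g
    have h1 : (⊤ : Subgroup (Matrix.SpecialLinearGroup (Fin 2) k)) ≤ H.comap Φ0 := by
      rw [← Cfsg.Agent.S5016.sup_eq_top, sup_le_iff]
      constructor
      · intro x hx
        exact hL (Subgroup.mem_map_of_mem Φ0 hx)
      · intro x hx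
        exact hU (Subgroup.mem_map_of_mem Φ0 hx)
    exact h1 (Subgroup.mem_top g)
  obtain ⟨Φ, hΦ⟩ : ∃ Φ : Matrix.SpecialLinearGroup (Fin 2) k →* ↥H,
    ∀ g, (Φ g).1 = Φ0 g := ⟨Φ0.codRestrict H hrange, fun g => rfl⟩
  have hker : Φ.ker ≤ Subgroup.center (Matrix.SpecialLinearGroup (Fin 2) k) := by
    intro g hg
    rw [MonoidHom.mem_ker] at hg
    have h1 : Φ0 g = 1 := by
      rw [← hΦ, hg]
      rfl
    rw [hinj g h1]
    exact Subgroup.one_mem _
  have hmap : ∀ K : Subgroup (Matrix.SpecialLinearGroup (Fin 2) k),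
      K.map Φ = (K.map Φ0).subgroupOf H := by
    intro K
    ext x
    rw [Subgroup.mem_map, Subgroup.mem_subgroupOf, Subgroup.mem_map]
    constructor
    · rintro ⟨g, hg, rfl⟩
      exact ⟨g, hg, (hΦ g).symm⟩
    · rintro ⟨g, hg, hgx⟩
      exact ⟨g, hg, Subtype.ext ((hΦ g).trans hgx)⟩
  have h2 := Cfsg.Agent.S5070.pair_map Φ hker
  rw [hmap, hmap] at h2
  exact h2

end pairs

section family

variable {F : Type*} [Field F] {n : ℕ}

/-- the family of Siegel transvection groups -/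
def Sig (n : ℕ) (F : Type*) [Field F] : Set (Subgroup ↥(isometryGroup F (quadFormPlus n F))) :=
  {A | ∃ p r : Fin n ⊕ Fin n → F, TS p r ∧ A = Tg p r}

/-- the group generated by the Siegel transvection groups -/
def G0 (n : ℕ) (F : Type*) [Field F] : Subgroup ↥(isometryGroup F (quadFormPlus n F)) :=
  ⨆ B ∈ Sig n F, B

theorem Sig_eq :
    {A : Subgroup ↥(isometryGroup F (quadFormPlus n F)) | ∃ p r : Fin n ⊕ Fin n → F,
      LinearIndependent F ![p, r] ∧ quadFormPlus n F p = 0 ∧ quadFormPlus n F r = 0 ∧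
      quadFormPlus n F (p + r) = 0 ∧
      A = Subgroup.closure {σ : ↥(isometryGroup F (quadFormPlus n F)) |
        ∀ v : Fin n ⊕ Fin n → F,
          quadFormPlus n F (v + p) - quadFormPlus n F v - quadFormPlus n F p = 0 →
          quadFormPlus n F (v + r) - quadFormPlus n F v - quadFormPlus n F r = 0 →
            ((σ : Matrix.GeneralLinearGroup (Fin n ⊕ Fin n) F) :
              Matrix (Fin n ⊕ Fin n) (Fin n ⊕ Fin n) F) *ᵥ v = v}} = Sig n F := by
  ext A
  constructor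
  · rintro ⟨p, r, hli, hp, hr, hpr, rfl⟩
    have h : TS p r := ⟨hli, hp, hr, by rw [← polar_eq, hpr, hp, hr]; ring⟩
    refine ⟨p, r, h, ?_⟩
    rw [set_eq h]
    rfl
  · rintro ⟨p, r, h, rfl⟩
    refine ⟨p, r, h.li, h.hp, h.hr, by rw [Q_add, h.hp, h.hr, h.hpr]; ring, ?_⟩
    rw [set_eq h]
    rfl

theorem Tg_le_G0 {p r : Fin n ⊕ Fin n → F} (h : TS p r) : Tg p r ≤ G0 n F := by
  intro g hg
  unfold G0
  apply Subgroup.mem_iSup_of_mem (Tg p r)
  apply Subgroup.mem_iSup_of_mem ⟨p, r, h, rfl⟩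
  exact hg

/-- the Siegel transvection groups inside `G0` -/
def Tv (p r : Fin n ⊕ Fin n → F) : Subgroup ↥(G0 n F) := (Tg p r).subgroupOf (G0 n F)

theorem mem_Tv {p r : Fin n ⊕ Fin n → F} (h : TS p r) (g : ↥(G0 n F)) :
    g ∈ Tv p r ↔ ∃ c, IsSg p r c g.1 := by
  unfold Tv
  rw [Subgroup.mem_subgroupOf, mem_Tg h]

/-- the family inside `G0` -/
def Sfam (n : ℕ) (F : Type*) [Field F] : Set (Subgroup ↥(G0 n F)) :=
  {A | ∃ p r : Fin n ⊕ Fin n → F, TS p r ∧ A = Tv p r}

theorem fam_eq :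
    (fun A : Subgroup ↥(isometryGroup F (quadFormPlus n F)) => A.subgroupOf (G0 n F)) ''
      Sig n F = Sfam n F := by
  ext A
  constructor
  · rintro ⟨B, ⟨p, r, h, rfl⟩, rfl⟩
    exact ⟨p, r, h, rfl⟩
  · rintro ⟨p, r, h, rfl⟩
    exact ⟨Tg p r, ⟨p, r, h, rfl⟩, rfl⟩

theorem exists_mem_Tv {p r : Fin n ⊕ Fin n → F} (h : TS p r) (c : F) :
    ∃ a : ↥(G0 n F), a ∈ Tv p r ∧ IsSg p r c a.1 := by
  obtain ⟨g, hg⟩ := exists_sg h c
  have hgT : g ∈ Tg p r := (mem_Tg h g).2 ⟨c, hg⟩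
  exact ⟨⟨g, Tg_le_G0 h hgT⟩, Subgroup.mem_subgroupOf.2 hgT, hg⟩

theorem Tv_ne_bot {p r : Fin n ⊕ Fin n → F} (h : TS p r) :
    (Tv p r : Subgroup ↥(G0 n F)) ≠ ⊥ := by
  obtain ⟨a, ha, hτ⟩ := exists_mem_Tv h 1
  intro hbot
  rw [hbot, Subgroup.mem_bot] at ha
  apply IsSg_ne_one h one_ne_zero hτ
  rw [ha]
  rfl

theorem Tv_isComm {p r : Fin n ⊕ Fin n → F} (h : TS p r) :
    IsMulCommutative ↥(Tv p r : Subgroup ↥(G0 n F)) := by
  rw [isMulCommutative_iff]
  rintro ⟨x, hx⟩ ⟨y, hy⟩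
  obtain ⟨c, hc⟩ := (mem_Tv h x).1 hx
  obtain ⟨d, hd⟩ := (mem_Tv h y).1 hy
  apply Subtype.ext
  apply Subtype.ext
  show x.1 * y.1 = y.1 * x.1
  have h1 := IsSg_mul h hc hd
  have h2 := IsSg_mul h hd hc
  rw [add_comm] at h2
  exact IsSg_unique h1 h2

theorem generates : (⨆ A ∈ Sfam n F, A) = ⊤ := by
  obtain ⟨K, hK⟩ : ∃ K : Subgroup ↥(G0 n F), K = ⨆ A ∈ Sfam n F, A := ⟨_, rfl⟩
  rw [← hK]
  have h1 : G0 n F ≤ K.map (G0 n F).subtype := by
    unfold G0
    apply iSup_le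
    intro B
    apply iSup_le
    rintro ⟨p, r, h, rfl⟩
    intro g hg
    have hg0 : g ∈ G0 n F := Tg_le_G0 h hg
    refine Subgroup.mem_map.2 ⟨⟨g, hg0⟩, ?_, rfl⟩
    rw [hK]
    apply Subgroup.mem_iSup_of_mem (Tv p r)
    apply Subgroup.mem_iSup_of_mem ⟨p, r, h, rfl⟩
    exact Subgroup.mem_subgroupOf.2 hg
  rw [eq_top_iff]
  rintro x -
  obtain ⟨y, hy, hyx⟩ := Subgroup.mem_map.1 (h1 x.2)
  have hyx' : y = x := Subtype.ext hyx
  rw [← hyx']
  exact hy

theorem conjBy_Tv {p r : Fin n ⊕ Fin n → F} (h : TS p r) (g : ↥(G0 n F)) :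
    conjBy (Tv p r) g = Tv (act g.1 p) (act g.1 r) := by
  ext x
  rw [Cfsg.Agent.Lib.Helper83.RankOne.mem_conjBy]
  unfold Tv
  rw [Subgroup.mem_subgroupOf, Subgroup.mem_subgroupOf, ← conjBy_Tg h g.1,
    Cfsg.Agent.Lib.Helper83.RankOne.mem_conjBy]
  rfl

theorem exists_perp {p r : Fin n ⊕ Fin n → F} (p' r' : Fin n ⊕ Fin n → F)
    (hD : Bf n F p p' * Bf n F r r' - Bf n F p r' * Bf n F r p' = 0) :
    ∃ a b c d : F, a * d - b * c ≠ 0 ∧ Bf n F (a • p + b • r) p' = 0 ∧
      Bf n F (a • p + b • r) r' = 0 := by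
  have key : ∀ a b : F, (a ≠ 0 ∨ b ≠ 0) → a * Bf n F p p' + b * Bf n F r p' = 0 →
      a * Bf n F p r' + b * Bf n F r r' = 0 →
      ∃ a b c d : F, a * d - b * c ≠ 0 ∧ Bf n F (a • p + b • r) p' = 0 ∧
        Bf n F (a • p + b • r) r' = 0 := by
    intro a b hab e1 e2
    have f1 : Bf n F (a • p + b • r) p' = 0 := by
      simp only [map_add, map_smul, LinearMap.add_apply, LinearMap.smul_apply, smul_eq_mul]
      exact e1
    have f2 : Bf n F (a • p + b • r) r' = 0 := by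
      simp only [map_add, map_smul, LinearMap.add_apply, LinearMap.smul_apply, smul_eq_mul]
      exact e2
    rcases hab with ha | hb
    · exact ⟨a, b, 0, 1, by rw [mul_one, mul_zero, sub_zero]; exact ha, f1, f2⟩
    · exact ⟨a, b, 1, 0, by rw [mul_zero, mul_one, zero_sub]; exact neg_ne_zero.2 hb, f1, f2⟩
  by_cases h1 : Bf n F r p' = 0 ∧ Bf n F p p' = 0
  · by_cases h2 : Bf n F r r' = 0 ∧ Bf n F p r' = 0
    · exact key 1 0 (Or.inl one_ne_zero) (by rw [h1.2]; ring) (by rw [h2.2]; ring)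
    · apply key (Bf n F r r') (-Bf n F p r')
      · by_contra hh
        push Not at hh
        exact h2 ⟨hh.1, neg_eq_zero.1 hh.2⟩
      · rw [h1.1, h1.2]
        ring
      · ring
  · apply key (Bf n F r p') (-Bf n F p p')
    · by_contra hh
      push Not at hh
      exact h1 ⟨hh.1, neg_eq_zero.1 hh.2⟩
    · ring
    · linear_combination -hD

theorem trichotomy {p r p' r' : Fin n ⊕ Fin n → F} (h : TS p r) (h' : TS p' r') :
    (∀ a b : ↥(isometryGroup F (quadFormPlus n F)), a ∈ Tg p r → b ∈ Tg p' r' → a * b = b * a) ∨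
    (Bf n F p p' * Bf n F r r' - Bf n F p r' * Bf n F r p' ≠ 0) ∨
    (∃ x y x' y' : Fin n ⊕ Fin n → F, TS x y ∧ TS x' y' ∧ Tg x y = Tg p r ∧
      Tg x' y' = Tg p' r' ∧ Bf n F x x' = 0 ∧ Bf n F x y' = 0 ∧ Bf n F y x' = 0 ∧
      Bf n F y y' ≠ 0 ∧ TS x x') := by
  by_cases hD : Bf n F p p' * Bf n F r r' - Bf n F p r' * Bf n F r p' = 0
  swap
  · exact Or.inr (Or.inl hD)
  obtain ⟨a, b, c, d, hdet, e1, e2⟩ := exists_perp (p := p) (r := r) p' r' hD
  have hD' : Bf n F p' p * Bf n F r' r - Bf n F p' r * Bf n F r' p = 0 := by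
    rw [Bf_comm p' p, Bf_comm r' r, Bf_comm p' r, Bf_comm r' p]
    linear_combination hD
  obtain ⟨a', b', c', d', hdet', e1', e2'⟩ := exists_perp (p := p') (r := r') p r hD'
  obtain ⟨x, hx⟩ : ∃ x, x = a • p + b • r := ⟨_, rfl⟩
  obtain ⟨y, hy⟩ : ∃ y, y = c • p + d • r := ⟨_, rfl⟩
  obtain ⟨x', hx'⟩ : ∃ x', x' = a' • p' + b' • r' := ⟨_, rfl⟩
  obtain ⟨y', hy'⟩ : ∃ y', y' = c' • p' + d' • r' := ⟨_, rfl⟩
  have hxy : TS x y := by
    rw [hx, hy]
    exact h.of_basis a b c d hdet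
  have hx'y' : TS x' y' := by
    rw [hx', hy']
    exact h'.of_basis a' b' c' d' hdet'
  have hT : Tg x y = Tg p r := by
    rw [hx, hy]
    exact Tg_basis h a b c d hdet
  have hT' : Tg x' y' = Tg p' r' := by
    rw [hx', hy']
    exact Tg_basis h' a' b' c' d' hdet'
  rw [← hx] at e1 e2
  rw [← hx'] at e1' e2'
  have b1 : Bf n F x x' = 0 := by
    rw [hx']
    simp only [map_add, map_smul, smul_eq_mul, e1, e2]
    ring
  have b2 : Bf n F x y' = 0 := by
    rw [hy']
    simp only [map_add, map_smul, smul_eq_mul, e1, e2]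
    ring
  have b3 : Bf n F y x' = 0 := by
    rw [Bf_comm, hy]
    simp only [map_add, map_smul, smul_eq_mul, e1', e2']
    ring
  by_cases hμ : Bf n F y y' = 0
  · left
    intro g k hg hk
    rw [← hT] at hg
    rw [← hT'] at hk
    obtain ⟨c₁, hc₁⟩ := (mem_Tg hxy g).1 hg
    obtain ⟨c₂, hc₂⟩ := (mem_Tg hx'y' k).1 hk
    exact sg_comm_perp b1 b2 b3 hμ hc₁ hc₂
  by_cases hdep : ∃ l : F, x' = l • x
  · left
    obtain ⟨l, hl⟩ := hdep
    have hl0 : l ≠ 0 := by
      rintro rfl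
      rw [zero_smul] at hl
      exact hx'y'.p_ne hl
    have hdetl : l⁻¹ * 1 - 0 * 0 ≠ 0 := by
      rw [mul_one, mul_zero, sub_zero]
      exact inv_ne_zero hl0
    have h2 : l⁻¹ • x' + (0 : F) • y' = x := by
      rw [hl, smul_smul, inv_mul_cancel₀ hl0, one_smul, zero_smul, add_zero]
    have h3 : (0 : F) • x' + (1 : F) • y' = y' := by
      rw [zero_smul, one_smul, zero_add]
    have hxy' : TS x y' := by
      have h1 := hx'y'.of_basis l⁻¹ 0 0 1 hdetl
      rw [h2, h3] at h1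
      exact h1
    have hT'' : Tg x y' = Tg x' y' := by
      have h1 := Tg_basis hx'y' l⁻¹ 0 0 1 hdetl
      rw [h2, h3] at h1
      exact h1
    intro g k hg hk
    rw [← hT] at hg
    rw [← hT', ← hT''] at hk
    obtain ⟨c₁, hc₁⟩ := (mem_Tg hxy g).1 hg
    obtain ⟨c₂, hc₂⟩ := (mem_Tg hxy' k).1 hk
    exact sg_comm_point hxy.hpp hxy.hpr hxy'.hpr hc₁ hc₂
  · right
    right
    refine ⟨x, y, x', y', hxy, hx'y', hT, hT', b1, b2, b3, hμ, ?_⟩
    refine ⟨?_, hxy.hp, hx'y'.hp, b1⟩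
    rw [LinearIndependent.pair_iff]
    intro s t hst
    have ht : t = 0 := by
      by_contra ht
      apply hdep
      refine ⟨-(s / t), ?_⟩
      have h4 : t • x' = -(s • x) := by
        linear_combination (norm := module) hst
      have h5 : x' = t⁻¹ • (t • x') := by
        rw [smul_smul, inv_mul_cancel₀ ht, one_smul]
      rw [h5, h4]
      module
    rw [ht, zero_smul, add_zero] at hst
    rcases smul_eq_zero.1 hst with h1 | h1
    · exact ⟨h1, ht⟩
    · exact absurd h1 hxy.p_ne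

theorem comm_case {x y x' y' : Fin n ⊕ Fin n → F} (hxy : TS x y) (hx'y' : TS x' y')
    (b1 : Bf n F x x' = 0) (b2 : Bf n F x y' = 0) (b3 : Bf n F y x' = 0)
    (hμ : Bf n F y y' ≠ 0) (hxx' : TS x x') :
    RootCommutatorCase (Sfam n F) (Tv x y) (Tv x' y') := by
  have hcomm : ∀ (a b : ↥(G0 n F)) (c d : F), IsSg x y c a.1 → IsSg x' y' d b.1 →
      IsSg x x' (c * d * Bf n F y y') (a * b * a⁻¹ * b⁻¹).1 := by
    intro a b c d ha hb
    exact sg_commutator hxy hx'y' b1 b2 b3 ha hb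
  have hC : ⁅Tv x y, Tv x' y'⁆ = Tv x x' := by
    apply le_antisymm
    · rw [Subgroup.commutator_le]
      intro a ha b hb
      obtain ⟨c, hc⟩ := (mem_Tv hxy a).1 ha
      obtain ⟨d, hd⟩ := (mem_Tv hx'y' b).1 hb
      rw [commutatorElement_def]
      exact (mem_Tv hxx' _).2 ⟨_, hcomm a b c d hc hd⟩
    · intro g hg
      obtain ⟨e, he⟩ := (mem_Tv hxx' g).1 hg
      obtain ⟨a, ha, hsa⟩ := exists_mem_Tv hxy 1
      obtain ⟨b, hb, hsb⟩ := exists_mem_Tv hx'y' (e / Bf n F y y')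
      have h1 := hcomm a b _ _ hsa hsb
      have h2 : 1 * (e / Bf n F y y') * Bf n F y y' = e := by field_simp
      rw [h2] at h1
      have h3 : g = a * b * a⁻¹ * b⁻¹ := by
        apply Subtype.ext
        exact IsSg_unique he h1
      rw [h3]
      exact Subgroup.commutator_mem_commutator ha hb
  refine ⟨?_, ?_, ?_, ?_⟩
  · rw [hC]
    exact ⟨x, x', hxx', rfl⟩
  · rw [hC]
    intro c hc g hg
    obtain ⟨e, he⟩ := (mem_Tv hxx' c).1 hc
    have hA : Tv x y ≤ Subgroup.centralizer {c} := by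
      intro a ha
      obtain ⟨c₁, hc₁⟩ := (mem_Tv hxy a).1 ha
      rw [Subgroup.mem_centralizer_iff]
      intro k hk
      rw [Set.mem_singleton_iff] at hk
      rw [hk]
      apply Subtype.ext
      exact sg_comm_point hxx'.hpp hxx'.hpr hxy.hpr he hc₁
    have hB : Tv x' y' ≤ Subgroup.centralizer {c} := by
      intro b hb
      obtain ⟨d₁, hd₁⟩ := (mem_Tv hx'y' b).1 hb
      rw [Subgroup.mem_centralizer_iff]
      intro k hk
      rw [Set.mem_singleton_iff] at hk
      rw [hk]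
      apply Subtype.ext
      have he' : IsSg x' x (-e) c.1 := by
        have h1 := (IsSg_basis x x' 0 1 1 0 (-e) c.1).2 (by
          have h2 : -e * (0 * 0 - 1 * 1) = e := by ring
          rw [h2]
          exact he)
        rw [zero_smul, one_smul, zero_add, one_smul, zero_smul, add_zero] at h1
        exact h1
      exact sg_comm_point hx'y'.hpp hxx'.hrp hx'y'.hpr he' hd₁
    have h1 := (sup_le hA hB) hg
    rw [Subgroup.mem_centralizer_iff] at h1
    exact h1 c (Set.mem_singleton c)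
  · intro a ha ha1
    rw [hC]
    obtain ⟨c, hc⟩ := (mem_Tv hxy a).1 ha
    have hc0 : c ≠ 0 := by
      rintro rfl
      apply ha1
      apply Subtype.ext
      exact IsSg_unique hc (IsSg_one x y)
    apply le_antisymm
    · rw [Subgroup.closure_le]
      rintro _ ⟨b, hb, rfl⟩
      obtain ⟨d, hd⟩ := (mem_Tv hx'y' b).1 hb
      exact (mem_Tv hxx' _).2 ⟨_, hcomm a b c d hc hd⟩
    · intro g hg
      obtain ⟨e, he⟩ := (mem_Tv hxx' g).1 hg
      obtain ⟨b, hb, hsb⟩ := exists_mem_Tv hx'y' (e / (c * Bf n F y y'))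
      have h1 := hcomm a b _ _ hc hsb
      have h2 : c * (e / (c * Bf n F y y')) * Bf n F y y' = e := by field_simp
      rw [h2] at h1
      apply Subgroup.subset_closure
      refine ⟨b, hb, ?_⟩
      apply Subtype.ext
      exact IsSg_unique h1 he
  · intro b hb hb1
    rw [hC]
    obtain ⟨d, hd⟩ := (mem_Tv hx'y' b).1 hb
    have hd0 : d ≠ 0 := by
      rintro rfl
      apply hb1
      apply Subtype.ext
      exact IsSg_unique hd (IsSg_one x' y')
    apply le_antisymm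
    · rw [Subgroup.closure_le]
      rintro _ ⟨a, ha, rfl⟩
      obtain ⟨c, hc⟩ := (mem_Tv hxy a).1 ha
      exact (mem_Tv hxx' _).2 ⟨_, hcomm a b c d hc hd⟩
    · intro g hg
      obtain ⟨e, he⟩ := (mem_Tv hxx' g).1 hg
      obtain ⟨a, ha, hsa⟩ := exists_mem_Tv hxy (e / (d * Bf n F y y'))
      have h1 := hcomm a b _ _ hsa hd
      have h2 : e / (d * Bf n F y y') * d * Bf n F y y' = e := by field_simp
      rw [h2] at h1
      apply Subgroup.subset_closure
      refine ⟨a, ha, ?_⟩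
      apply Subtype.ext
      exact IsSg_unique h1 he

theorem not_rank_one {x y x' y' : Fin n ⊕ Fin n → F} (hxy : TS x y) (hx'y' : TS x' y')
    (b1 : Bf n F x x' = 0) (b2 : Bf n F x y' = 0)
    (hμ : Bf n F y y' ≠ 0) : ¬ IsRankOnePair (Tv x y) (Tv x' y') := by
  intro hpair
  obtain ⟨a, ha, hsa⟩ := exists_mem_Tv hxy 1
  have ha1 : a ≠ 1 := by
    intro h1
    apply IsSg_ne_one hxy one_ne_zero hsa
    rw [h1]
    rfl
  obtain ⟨b, hb, hb1, hab⟩ := hpair.cond_left a ha ha1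
  have h1 : b⁻¹ * a * b⁻¹⁻¹ ∈ conjBy (Tv x y) b⁻¹ :=
    Cfsg.Agent.Lib.Helper83.RankOne.conj_mem_conjBy ha b⁻¹
  rw [hab, Cfsg.Agent.Lib.Helper83.RankOne.mem_conjBy] at h1
  obtain ⟨k, hkdef⟩ : ∃ k : ↥(G0 n F), k = a⁻¹⁻¹ * (b⁻¹ * a * b⁻¹⁻¹) * a⁻¹ := ⟨_, rfl⟩
  rw [← hkdef] at h1
  obtain ⟨d', hd'⟩ := (mem_Tv hx'y' k).1 h1
  obtain ⟨d, hd⟩ := (mem_Tv hx'y' b).1 hb
  have hbi := IsSg_inv hx'y' hd
  have hk : k.1 * a.1 = a.1 * b.1⁻¹ * a.1 * b.1 := by
    rw [hkdef]
    simp only [inv_inv, Subgroup.coe_mul, Subgroup.coe_inv]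
    group
  have c1 : Bf n F y' x = 0 := by rw [Bf_comm, b2]
  have c2 : Bf n F y' y = Bf n F y y' := Bf_comm y' y
  have c3 : Bf n F x' x = 0 := by rw [Bf_comm, b1]
  have e1 : act b.1 y' = y' := by
    rw [hd y', sgm_apply, hx'y'.hrp, hx'y'.hrr]
    simp
  have e2 : act a.1 y' = y' - Bf n F y y' • x := by
    rw [hsa y', sgm_apply, c1, c2]
    module
  have e3 : act b.1⁻¹ (y' - Bf n F y y' • x) = y' - Bf n F y y' • x := by
    rw [hbi _, sgm_apply]
    simp only [map_sub, map_smul, LinearMap.sub_apply, LinearMap.smul_apply, smul_eq_mul,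
      hx'y'.hrp, hx'y'.hrr, b1, b2]
    module
  have e4 : act a.1 (y' - Bf n F y y' • x) = y' - (2 * Bf n F y y') • x := by
    rw [hsa _, sgm_apply]
    simp only [map_sub, map_smul, LinearMap.sub_apply, LinearMap.smul_apply, smul_eq_mul,
      hxy.hpp, hxy.hpr, c1, c2]
    module
  have e5 : act k.1 (y' - Bf n F y y' • x) = y' - Bf n F y y' • x := by
    rw [hd' _, sgm_apply]
    simp only [map_sub, map_smul, LinearMap.sub_apply, LinearMap.smul_apply, smul_eq_mul,
      hx'y'.hrp, hx'y'.hrr, b1, b2]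
    module
  have h5 := congrArg (fun g => act g y') hk
  simp only [act_mul] at h5
  rw [e1, e2, e3, e4, e5] at h5
  have h6 : Bf n F y y' • x = 0 := by
    linear_combination (norm := module) h5
  rcases smul_eq_zero.1 h6 with h7 | h7
  · exact hμ h7
  · exact hxy.p_ne h7

theorem Tv_pair {p r p' r' : Fin n ⊕ Fin n → F} (h : TS p r) (h' : TS p' r')
    (hD : Bf n F p p' * Bf n F r r' - Bf n F p r' * Bf n F r p' ≠ 0) :
    IsRankOnePair (Tv p r) (Tv p' r') ∧ IsPSL2PairOver F (Tv p r) (Tv p' r') := by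
  obtain ⟨Φ0, hinj, hU, hL⟩ := opp_hom h h' hD
  have h2 := pair_restrict Φ0 hinj (G0 n F) (by rw [hU]; exact Tg_le_G0 h)
    (by rw [hL]; exact Tg_le_G0 h')
  rw [hU, hL] at h2
  exact h2

theorem isRootSet : IsRootSubgroupSet (Sfam n F) where
  commutative := by
    rintro A ⟨p, r, h, rfl⟩
    exact Tv_isComm h
  ne_bot := by
    rintro A ⟨p, r, h, rfl⟩
    exact Tv_ne_bot h
  generates := generates
  conj_mem := by
    rintro A ⟨p, r, h, rfl⟩ g
    exact ⟨_, _, h.mapAct g.1, conjBy_Tv h g⟩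
  pair := by
    rintro A ⟨p, r, h, rfl⟩ B ⟨p', r', h', rfl⟩
    rcases trichotomy h h' with hc | hD | ⟨x, y, x', y', hxy, hx'y', e1, e2, b1, b2, b3, hμ, hxx'⟩
    · left
      apply Cfsg.Agent.Lib.Helper83.RootSub.commutator_eq_bot_of_comm
      intro a ha b hb
      apply Subtype.ext
      exact hc a.1 b.1 (Subgroup.mem_subgroupOf.1 ha) (Subgroup.mem_subgroupOf.1 hb)
    · exact Or.inr (Or.inl (Tv_pair h h' hD).1)
    · right
      right
      have t1 : (Tv p r : Subgroup ↥(G0 n F)) = Tv x y := by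
        unfold Tv
        rw [e1]
      have t2 : (Tv p' r' : Subgroup ↥(G0 n F)) = Tv x' y' := by
        unfold Tv
        rw [e2]
      rw [t1, t2]
      exact comm_case hxy hx'y' b1 b2 b3 hμ hxx'

theorem kroot : ∀ A ∈ Sfam n F, ∀ B ∈ Sfam n F, IsRankOnePair A B → IsPSL2PairOver F A B := by
  rintro A ⟨p, r, h, rfl⟩ B ⟨p', r', h', rfl⟩ hpair
  rcases trichotomy h h' with hc | hD | ⟨x, y, x', y', hxy, hx'y', e1, e2, b1, b2, b3, hμ, hxx'⟩
  · exfalso
    obtain ⟨a, ha, ha1⟩ := Cfsg.Agent.Lib.Helper83.RankOne.exists_mem_ne_one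
      (Cfsg.Agent.Lib.Helper83.RankOne.left_ne_bot hpair)
    apply ha1
    apply Cfsg.Agent.Lib.Helper83.RankOne.eq_one_of_conjBy_eq hpair ha
    apply Cfsg.Agent.Lib.Helper83.RootSub.conjBy_eq_of_commute
    intro c hc'
    apply Subtype.ext
    exact hc a.1 c.1 (Subgroup.mem_subgroupOf.1 ha) (Subgroup.mem_subgroupOf.1 hc')
  · exact (Tv_pair h h' hD).2
  · exfalso
    have t1 : (Tv p r : Subgroup ↥(G0 n F)) = Tv x y := by
      unfold Tv
      rw [e1]
    have t2 : (Tv p' r' : Subgroup ↥(G0 n F)) = Tv x' y' := by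
      unfold Tv
      rw [e2]
    rw [t1, t2] at hpair
    exact not_rank_one hxy hx'y' b1 b2 hμ hpair

end family

section connect

variable {F : Type*} [Field F] {n : ℕ}

theorem opp_adj {p r p' r' : Fin n ⊕ Fin n → F} (h : TS p r) (h' : TS p' r')
    (hD : Bf n F p p' * Bf n F r r' - Bf n F p r' * Bf n F r p' ≠ 0) :
    FAdj (Sig n F) (Tg p r) (Tg p' r') :=
  ⟨⟨p, r, h, rfl⟩, ⟨p', r', h', rfl⟩, opp_pair h h' hD⟩

theorem conn_via {p₁ r₁ p₂ r₂ p₃ r₃ : Fin n ⊕ Fin n → F} (h₁ : TS p₁ r₁) (h₂ : TS p₂ r₂)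
    (h₃ : TS p₃ r₃)
    (hD₁ : Bf n F p₁ p₃ * Bf n F r₁ r₃ - Bf n F p₁ r₃ * Bf n F r₁ p₃ ≠ 0)
    (hD₂ : Bf n F p₂ p₃ * Bf n F r₂ r₃ - Bf n F p₂ r₃ * Bf n F r₂ p₃ ≠ 0) :
    Relation.ReflTransGen (FAdj (Sig n F)) (Tg p₁ r₁) (Tg p₂ r₂) := by
  have hD₂' : Bf n F p₃ p₂ * Bf n F r₃ r₂ - Bf n F p₃ r₂ * Bf n F r₃ p₂ ≠ 0 := by
    rw [Bf_comm p₃ p₂, Bf_comm r₃ r₂, Bf_comm p₃ r₂, Bf_comm r₃ p₂]
    intro h0
    apply hD₂
    linear_combination h0
  exact Relation.ReflTransGen.tail (Relation.ReflTransGen.single (opp_adj h₁ h₃ hD₁))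
    (opp_adj h₃ h₂ hD₂')

theorem Bf_ev_sw (s t : Fin n ⊕ Fin n) :
    Bf n F (ev n F s) (ev n F (Sum.swap t)) = if t = s then 1 else 0 := by
  rw [Bf_ev_ev, Sum.swap_swap]

theorem swap_ne {s t : Fin n ⊕ Fin n} (h : s ≠ t) : Sum.swap s ≠ Sum.swap t := by
  intro h1
  apply h
  have h2 := congrArg Sum.swap h1
  rw [Sum.swap_swap, Sum.swap_swap] at h2
  exact h2

theorem swap_ne' {s t : Fin n ⊕ Fin n} (h : t ≠ Sum.swap s) : s ≠ Sum.swap t := by
  intro h1
  apply h
  rw [h1, Sum.swap_swap]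

theorem coord_step (s t t' : Fin n ⊕ Fin n) (hst : s ≠ t) (hst' : t ≠ Sum.swap s)
    (hs1 : s ≠ t') (hs2 : t' ≠ Sum.swap s) (htt : t ≠ t') (htt' : t' ≠ Sum.swap t) :
    Relation.ReflTransGen (FAdj (Sig n F)) (Tg (ev n F s) (ev n F t))
      (Tg (ev n F s) (ev n F t')) := by
  have h3 : TS (ev n F (Sum.swap s)) (ev n F (Sum.swap t) + ev n F (Sum.swap t')) := by
    refine ⟨?_, Q_ev _, ?_, ?_⟩
    · rw [LinearIndependent.pair_iff]
      intro a b hab
      have e1 := congrFun hab (Sum.swap s)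
      have e2 := congrFun hab (Sum.swap t)
      simp only [Pi.add_apply, Pi.smul_apply, ev_apply, smul_eq_mul, Pi.zero_apply, if_true,
        if_neg (swap_ne hst), if_neg (swap_ne hs1), if_neg (swap_ne (Ne.symm hst)),
        if_neg (swap_ne htt), mul_one, mul_zero, add_zero, zero_add] at e1 e2
      exact ⟨e1, e2⟩
    · rw [Q_add, Q_ev, Q_ev, Bf_ev_ev, Sum.swap_swap, if_neg htt']
      ring
    · rw [map_add, Bf_ev_ev, Bf_ev_ev, Sum.swap_swap, Sum.swap_swap, if_neg hst', if_neg hs2]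
      ring
  apply conn_via (TS_ev s t hst hst') (TS_ev s t' hs1 hs2) h3
  · simp only [map_add, Bf_ev_sw, if_true, if_neg (Ne.symm hst), if_neg (Ne.symm hs1),
      if_neg (Ne.symm htt), if_neg hst]
    norm_num
  · simp only [map_add, Bf_ev_sw, if_true, if_neg (Ne.symm hst), if_neg (Ne.symm hs1),
      if_neg htt, if_neg hs1]
    norm_num

theorem exists_out (hn : 3 ≤ n) (a b c d : Fin n ⊕ Fin n) :
    ∃ e : Fin n ⊕ Fin n, e ≠ a ∧ e ≠ b ∧ e ≠ c ∧ e ≠ d := by
  by_contra hno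
  push Not at hno
  have h1 : (Finset.univ : Finset (Fin n ⊕ Fin n)) ⊆ {a, b, c, d} := by
    intro e _
    simp only [Finset.mem_insert, Finset.mem_singleton]
    by_cases h1 : e = a
    · exact Or.inl h1
    by_cases h2 : e = b
    · exact Or.inr (Or.inl h2)
    by_cases h3 : e = c
    · exact Or.inr (Or.inr (Or.inl h3))
    exact Or.inr (Or.inr (Or.inr (hno e h1 h2 h3)))
  have h2 := Finset.card_le_card h1
  have h3 : (Finset.univ : Finset (Fin n ⊕ Fin n)).card = n + n := by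
    rw [Finset.card_univ, Fintype.card_sum, Fintype.card_fin]
  have h4 := Finset.card_le_four (a := a) (b := b) (c := c) (d := d)
  omega

theorem coord_same (hn : 3 ≤ n) (s t t' : Fin n ⊕ Fin n) (hst : s ≠ t)
    (hst' : t ≠ Sum.swap s) (hs1 : s ≠ t') (hs2 : t' ≠ Sum.swap s) :
    Relation.ReflTransGen (FAdj (Sig n F)) (Tg (ev n F s) (ev n F t))
      (Tg (ev n F s) (ev n F t')) := by
  by_cases htt : t = t'
  · rw [htt]
  by_cases htt' : t' = Sum.swap t
  · obtain ⟨e, he1, he2, he3, he4⟩ := exists_out hn s (Sum.swap s) t (Sum.swap t)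
    have hte : e ≠ Sum.swap t' := by
      rw [htt', Sum.swap_swap]
      exact he3
    exact (coord_step s t e hst hst' (Ne.symm he1) he2 (Ne.symm he3) he4).trans
      (coord_step s e t' (Ne.symm he1) he2 hs1 hs2 (by rw [htt']; exact he4)
        (swap_ne' hte))
  · exact coord_step s t t' hst hst' hs1 hs2 htt htt'

theorem coord_conn (hn : 3 ≤ n) (s t s' t' : Fin n ⊕ Fin n) (hst : s ≠ t)
    (hst' : t ≠ Sum.swap s) (hs1 : s' ≠ t') (hs2 : t' ≠ Sum.swap s') :
    Relation.ReflTransGen (FAdj (Sig n F)) (Tg (ev n F s) (ev n F t))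
      (Tg (ev n F s') (ev n F t')) := by
  obtain ⟨e, he1, he2, he3, he4⟩ := exists_out hn s (Sum.swap s) s' (Sum.swap s')
  have k1 := coord_same (F := F) hn s t e hst hst' (Ne.symm he1) he2
  have k2 := coord_same (F := F) hn e s s' he1 (swap_ne' he2) he3 (swap_ne' he4)
  have k3 := coord_same (F := F) hn s' e t' (Ne.symm he3) he4 hs1 hs2
  rw [← Tg_swap (TS_ev (F := F) s e (Ne.symm he1) he2)] at k1
  rw [Tg_swap (TS_ev (F := F) s' e (Ne.symm he3) he4)] at k2
  exact k1.trans (k2.trans k3)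

theorem line_to_coord {p r : Fin n ⊕ Fin n → F} (h : TS p r) :
    ∃ s t : Fin n ⊕ Fin n, s ≠ t ∧ t ≠ Sum.swap s ∧
      Bf n F p (ev n F s) * Bf n F r (ev n F t) - Bf n F p (ev n F t) * Bf n F r (ev n F s) ≠
        0 := by
  obtain ⟨s₀, t₀, hst, hm⟩ := exists_minor h
  have hne : s₀ ≠ t₀ := by
    rintro rfl
    apply hm
    ring
  refine ⟨Sum.swap s₀, Sum.swap t₀, swap_ne hne, ?_, ?_⟩
  · rw [Sum.swap_swap]
    intro h1
    apply hst
    rw [← h1, Sum.swap_swap]
  · rw [Bf_ev, Bf_ev, Bf_ev, Bf_ev, Sum.swap_swap, Sum.swap_swap]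
    exact hm

theorem connected (hn : 3 ≤ n) : IsConnectedFamily (FAdj (Sig n F)) (Sig n F) := by
  rintro A ⟨p, r, h, rfl⟩ B ⟨p', r', h', rfl⟩
  obtain ⟨s, t, hst, hst', hD⟩ := line_to_coord h
  obtain ⟨s', t', hs1, hs2, hD'⟩ := line_to_coord h'
  have e1 : Relation.ReflTransGen (FAdj (Sig n F)) (Tg p r) (Tg (ev n F s) (ev n F t)) :=
    Relation.ReflTransGen.single (opp_adj h (TS_ev s t hst hst') hD)
  have e2 := coord_conn (F := F) hn s t s' t' hst hst' hs1 hs2
  have hD'' : Bf n F (ev n F s') p' * Bf n F (ev n F t') r' -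
      Bf n F (ev n F s') r' * Bf n F (ev n F t') p' ≠ 0 := by
    rw [Bf_comm (ev n F s') p', Bf_comm (ev n F t') r', Bf_comm (ev n F s') r',
      Bf_comm (ev n F t') p']
    intro h0
    apply hD'
    linear_combination h0
  have e3 : Relation.ReflTransGen (FAdj (Sig n F)) (Tg (ev n F s') (ev n F t')) (Tg p' r') :=
    Relation.ReflTransGen.single (opp_adj (TS_ev s' t' hs1 hs2) h' hD'')
  exact e1.trans (e2.trans e3)

end connect

/-- Let F be a field, m a natural number and V = F^{2(m+3)} with the hyperbolic quadratic form q(x, y) = Σ xᵢ yᵢ (non-degenerate, Witt index m + 3 ≥ 3). For a singular line ℓ (a 2-dimensional subspace on which q vanishes) let T(ℓ) be the group of isometries of q fixing every vector of ℓ^⊥ (the Siegel transvection group of ℓ), let Σ be the set of these groups and G₀ the subgroup they generate. Then, viewed inside G₀, the members of Σ form a set of abstract F-root subgroups of G₀ (any two commute, or are the unipotent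 subgroups of a rank one group that is an image of SL₂(F) with central kernel, or satisfy the commutator case), and their graph of rank one pairs is connected. -/
theorem result (F : Type*) [Field F] (m : ℕ) :
    Cfsg.IsKRootSubgroupSet F ((fun A : Subgroup ↥(Cfsg.isometryGroup F (Cfsg.quadFormPlus (m + 3) F)) => A.subgroupOf (⨆ B ∈ {A : Subgroup ↥(Cfsg.isometryGroup F (Cfsg.quadFormPlus (m + 3) F)) | ∃ p r : Fin (m + 3) ⊕ Fin (m + 3) → F, LinearIndependent F ![p, r] ∧
          Cfsg.quadFormPlus (m + 3) F p = 0 ∧ Cfsg.quadFormPlus (m + 3) F r = 0 ∧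
          Cfsg.quadFormPlus (m + 3) F (p + r) = 0 ∧
          A = Subgroup.closure {σ : ↥(Cfsg.isometryGroup F (Cfsg.quadFormPlus (m + 3) F)) | ∀ v : Fin (m + 3) ⊕ Fin (m + 3) → F,
            Cfsg.quadFormPlus (m + 3) F (v + p) - Cfsg.quadFormPlus (m + 3) F v - Cfsg.quadFormPlus (m + 3) F p = 0 →
            Cfsg.quadFormPlus (m + 3) F (v + r) - Cfsg.quadFormPlus (m + 3) F v - Cfsg.quadFormPlus (m + 3) F r = 0 →
              ((σ : Matrix.GeneralLinearGroup (Fin (m + 3) ⊕ Fin (m + 3)) F) : Matrix (Fin (m + 3) ⊕ Fin (m + 3)) (Fin (m + 3) ⊕ Fin (m + 3)) F) *ᵥ v = v}}, B)) ''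
      {A : Subgroup ↥(Cfsg.isometryGroup F (Cfsg.quadFormPlus (m + 3) F)) | ∃ p r : Fin (m + 3) ⊕ Fin (m + 3) → F, LinearIndependent F ![p, r] ∧
          Cfsg.quadFormPlus (m + 3) F p = 0 ∧ Cfsg.quadFormPlus (m + 3) F r = 0 ∧
          Cfsg.quadFormPlus (m + 3) F (p + r) = 0 ∧
          A = Subgroup.closure {σ : ↥(Cfsg.isometryGroup F (Cfsg.quadFormPlus (m + 3) F)) | ∀ v : Fin (m + 3) ⊕ Fin (m + 3) → F,
            Cfsg.quadFormPlus (m + 3) F (v + p) - Cfsg.quadFormPlus (m + 3) F v - Cfsg.quadFormPlus (m + 3) F p = 0 →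
            Cfsg.quadFormPlus (m + 3) F (v + r) - Cfsg.quadFormPlus (m + 3) F v - Cfsg.quadFormPlus (m + 3) F r = 0 →
              ((σ : Matrix.GeneralLinearGroup (Fin (m + 3) ⊕ Fin (m + 3)) F) : Matrix (Fin (m + 3) ⊕ Fin (m + 3)) (Fin (m + 3) ⊕ Fin (m + 3)) F) *ᵥ v = v}}) ∧
    Cfsg.IsConnectedFamily (Cfsg.FAdj {A : Subgroup ↥(Cfsg.isometryGroup F (Cfsg.quadFormPlus (m + 3) F)) | ∃ p r : Fin (m + 3) ⊕ Fin (m + 3) → F, LinearIndependent F ![p, r] ∧
          Cfsg.quadFormPlus (m + 3) F p = 0 ∧ Cfsg.quadFormPlus (m + 3) F r = 0 ∧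
          Cfsg.quadFormPlus (m + 3) F (p + r) = 0 ∧
          A = Subgroup.closure {σ : ↥(Cfsg.isometryGroup F (Cfsg.quadFormPlus (m + 3) F)) | ∀ v : Fin (m + 3) ⊕ Fin (m + 3) → F,
            Cfsg.quadFormPlus (m + 3) F (v + p) - Cfsg.quadFormPlus (m + 3) F v - Cfsg.quadFormPlus (m + 3) F p = 0 →
            Cfsg.quadFormPlus (m + 3) F (v + r) - Cfsg.quadFormPlus (m + 3) F v - Cfsg.quadFormPlus (m + 3) F r = 0 →
              ((σ : Matrix.GeneralLinearGroup (Fin (m + 3) ⊕ Fin (m + 3)) F) : Matrix (Fin (m + 3) ⊕ Fin (m + 3)) (Fin (m + 3) ⊕ Fin (m + 3)) F) *ᵥ v = v}})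
      {A : Subgroup ↥(Cfsg.isometryGroup F (Cfsg.quadFormPlus (m + 3) F)) | ∃ p r : Fin (m + 3) ⊕ Fin (m + 3) → F, LinearIndependent F ![p, r] ∧
          Cfsg.quadFormPlus (m + 3) F p = 0 ∧ Cfsg.quadFormPlus (m + 3) F r = 0 ∧
          Cfsg.quadFormPlus (m + 3) F (p + r) = 0 ∧
          A = Subgroup.closure {σ : ↥(Cfsg.isometryGroup F (Cfsg.quadFormPlus (m + 3) F)) | ∀ v : Fin (m + 3) ⊕ Fin (m + 3) → F,
            Cfsg.quadFormPlus (m + 3) F (v + p) - Cfsg.quadFormPlus (m + 3) F v - Cfsg.quadFormPlus (m + 3) F p = 0 →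
            Cfsg.quadFormPlus (m + 3) F (v + r) - Cfsg.quadFormPlus (m + 3) F v - Cfsg.quadFormPlus (m + 3) F r = 0 →
              ((σ : Matrix.GeneralLinearGroup (Fin (m + 3) ⊕ Fin (m + 3)) F) : Matrix (Fin (m + 3) ⊕ Fin (m + 3)) (Fin (m + 3) ⊕ Fin (m + 3)) F) *ᵥ v = v}} := by
  rw [Sig_eq]
  show Cfsg.IsKRootSubgroupSet F ((fun A : Subgroup ↥(Cfsg.isometryGroup F
      (Cfsg.quadFormPlus (m + 3) F)) => A.subgroupOf (G0 (m + 3) F)) '' Sig (m + 3) F) ∧
    Cfsg.IsConnectedFamily (Cfsg.FAdj (Sig (m + 3) F)) (Sig (m + 3) F)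
  rw [fam_eq]
  exact ⟨⟨isRootSet, kroot⟩, connected (by omega)⟩

end Cfsg.Agent.S5072
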