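import Cfsg.Statements.S5074
-- import your own Cfsg.Agent.* helpers here
import Cfsg.Agent.Lib.Helper83.QPDich

set_option autoImplicit false
universe u
open Cfsg

namespace Cfsg.Agent.S5074

/-- Let k be a field of characteristic not 2 with k not of order 3, M a finite-dimensional k-vector space and G ≤ GL(M) such that (G, M) is a quadratic pair (M irreducible for G, and G generated by its quadratically acting elements σ whose scalar family 1 + c(σ − 1), c ∈ k, lies in G). Write 𝒬_d for the quadratic elements of G of minimal commutator rank, E(σ) for the subgroup generated by the members of 𝒬_d with the same fixed space and commutator space as σ, and Σ for the set of these subgroups. Then G is the product of the subgroup G₀ generated by Σ with the centralizer of G₀ in G. -/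
theorem result {k : Type u} [Field k] (hk2 : ringChar k ≠ 2) (hk3 : Nat.card k ≠ 3)
    {M : Type u} [AddCommGroup M] [Module k M] [FiniteDimensional k M]
    {G : Subgroup (LinearMap.GeneralLinearGroup k M)} (hG : Cfsg.IsQuadraticPair G) :
    (⨆ A ∈ Cfsg.quadraticRootSubgroups G, A) ⊔
      (G ⊓ Subgroup.centralizer ((⨆ A ∈ Cfsg.quadraticRootSubgroups G, A : Subgroup (LinearMap.GeneralLinearGroup k M)) : Set (LinearMap.GeneralLinearGroup k M))) = G := by
  have h2k : (2 : k) ≠ 0 := Ring.two_ne_zero hk2
  exact Cfsg.Agent.Lib.Helper83.QPDich.cocentral h2k hk3 hG

end Cfsg.Agent.S5074
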