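import Cfsg.Statements.S5080
import Cfsg.Agent.H84.FusAut

set_option autoImplicit false
open Cfsg

namespace Cfsg.Agent.S5080

open Cfsg.FusionSystem Cfsg.Agent.H84

/-- In a saturated fusion system over a finite p-group, every essential subgroup is radical (it is centric and fully normalized by definition, so it is centric-radical and fully normalized). -/
theorem result {Ω : Type*} [Group Ω] {S : Subgroup Ω} [Finite S] (p : ℕ) [Fact p.Prime] (hS : IsPGroup p S) (F : Cfsg.FusionSystem S) (hF : F.IsSaturated p) (P : Subgroup Ω) (hP : F.IsEssential p P) : F.IsRadical p P := by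
  obtain ⟨hcen, hfn, hnorm, E, hE⟩ := hP
  have hPS : P ≤ S := hcen.1
  refine ⟨hPS, ?_⟩
  have hInnA : Inn P ≤ F.autGroup P := inn_le_autGroup F hPS
  have hPp : IsPGroup p P := hS.to_le hPS
  have hInnp : IsPGroup p (Inn P) :=
    hPp.of_surjective (MulAut.conj : P →* MulAut P).rangeRestrict
      (MulAut.conj : P →* MulAut P).rangeRestrict_surjective
  have hIp : IsPGroup p ((Inn P).subgroupOf (F.autGroup P)) := hInnp.comap_subtype
  have hcore : pCore p (F.autGroup P ⧸ (Inn P).subgroupOf (F.autGroup P)) = ⊥ :=
    pCore_eq_bot_of_stronglyPEmbedded hE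
  apply le_antisymm
  · have hle : pCore p (F.autGroup P) ≤ (Inn P).subgroupOf (F.autGroup P) := by
      have hn := pCore_normal (G := F.autGroup P) p
      have h1 : ((pCore p (F.autGroup P)).map
          (QuotientGroup.mk' ((Inn P).subgroupOf (F.autGroup P)))).Normal :=
        Subgroup.Normal.map hn _ (QuotientGroup.mk'_surjective _)
      have h2 : IsPGroup p ((pCore p (F.autGroup P)).map
          (QuotientGroup.mk' ((Inn P).subgroupOf (F.autGroup P)))) :=
        (pCore_isPGroup p).map _
      have h3 := le_pCore p h1 h2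
      rw [hcore] at h3
      intro x hx
      have h4 : QuotientGroup.mk' ((Inn P).subgroupOf (F.autGroup P)) x ∈
          (⊥ : Subgroup (F.autGroup P ⧸ (Inn P).subgroupOf (F.autGroup P))) := h3 ⟨x, hx, rfl⟩
      rw [Subgroup.mem_bot] at h4
      exact (QuotientGroup.eq_one_iff x).mp h4
    rintro _ ⟨x, hx, rfl⟩
    exact hle hx
  · intro a ha
    have haA := hInnA ha
    refine ⟨⟨a, haA⟩, ?_, rfl⟩
    exact le_pCore p hnorm hIp (show (⟨a, haA⟩ : F.autGroup P) ∈ (Inn P).subgroupOf (F.autGroup P) from ha)

end Cfsg.Agent.S5080
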