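import Mathlib
import Cfsg.Statements.S5081
import Cfsg.Agent.H84.FusEss2

set_option autoImplicit false

namespace Cfsg.Agent.S5081

open Cfsg Cfsg.FusionSystem Cfsg.Agent.H84

/-- Let F be a saturated fusion system over a finite p-group S, P a proper subgroup of S that is fully normalized, and H the subgroup of Aut_F(P) generated by the automorphisms that extend to maps of the system defined on strictly larger subgroups of S. Then either P is not essential and H is all of Aut_F(P), or P is essential and the image of H in Out_F(P) = Aut_F(P)/Inn(P) is strongly p-embedded there. -/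
theorem result {Ω : Type*} [Group Ω] {S : Subgroup Ω} [Finite S] (p : ℕ) [Fact p.Prime] (hS : IsPGroup p S) (F : Cfsg.FusionSystem S) (hF : F.IsSaturated p) (P : Subgroup Ω) (hPS : P < S) (hPn : F.IsFullyNormalized P) (H : Subgroup (MulAut P)) (hH : H = Subgroup.closure {α : MulAut P | ∃ (Q : Subgroup Ω) (hPQ : P < Q) (φ : Q →* Ω), φ ∈ F.Hom Q ∧ ∀ x : P, φ (Subgroup.inclusion hPQ.le x) = α x}) : (¬ F.IsEssential p P ∧ H = F.autGroup P) ∨ (F.IsEssential p P ∧ ∃ _ : ((Cfsg.Inn P).subgroupOf (F.autGroup P)).Normal, Cfsg.IsStronglyPEmbedded p ((H.subgroupOf (F.autGroup P)).map (QuotientGroup.mk' ((Cfsg.Inn P).subgroupOf (F.autGroup P))))) := by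
  have hH' : H = Subgroup.closure (extSet F P) := hH
  have hfa : F.IsFullyAutomized p P := fullyAutomized_of_fn hS F hF hPn
  have hrec : F.IsReceptive P := receptive_of_fc hS F hF (fullyCentralized_of_fn hS F hF hPn)
  have hP : P ≤ S := hPS.le
  have hne : P ≠ S := hPS.ne
  have hfinP : Finite P := finite_of_le hP
  by_cases hess : F.IsEssential p P
  · right
    have hC : centralizerIn S P ≤ P := hess.1.2 P (isConj_refl F hP)
    have hess' := hess
    obtain ⟨-, -, hn, E, hE⟩ := hess'
    refine ⟨hess, hn, ?_⟩
    obtain ⟨-, R, hR⟩ := hfa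
    rw [hH']
    exact ⟨hE.1, map_closure_extSet_ne_top hS F hP hne hC R hR E hE, _,
      kGeneratedCore_le_of_receptive F hrec R hR⟩
  · left
    exact ⟨hess, hH'.trans (closure_extSet_eq hS F hfa hrec hne hess)⟩

end Cfsg.Agent.S5081
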