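import Cfsg.Statements.S5083
import Cfsg.Agent.H84.FusInd

set_option autoImplicit false
open Cfsg

namespace Cfsg.Agent.S5083

open Cfsg.FusionSystem Cfsg.Agent.H84

theorem fusionSystem_ext {Ω : Type*} [Group Ω] {S : Subgroup Ω} (F E : FusionSystem S)
    (h : ∀ P : Subgroup Ω, F.Hom P = E.Hom P) : F = E := by
  cases F
  cases E
  congr
  funext P
  exact h P

/-- If F is a saturated fusion system over a finite p-group S in which Aut_F(P) is a p-group for every P ≤ S, then F is the inner fusion system of S (all its maps are conjugations by elements of S). -/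
theorem result {Ω : Type*} [Group Ω] {S : Subgroup Ω} [Finite S] (p : ℕ) [Fact p.Prime] (hS : IsPGroup p S) (F : Cfsg.FusionSystem S) (hF : F.IsSaturated p) (h : ∀ P : Subgroup Ω, P ≤ S → IsPGroup p (F.autGroup P)) : F = Cfsg.innerFusionSystem S := by
  have key : ∀ (P Q : Subgroup Ω) (e : P ≃* Q), IsIso F e →
      ∃ g ∈ S, ∀ x : P, ((e x : Q) : Ω) = g * (x : Ω) * g⁻¹ := by
    refine iso_induction hS F hF (fun P Q e => ∃ g ∈ S, ∀ x : P, ((e x : Q) : Ω) = g * (x : Ω) * g⁻¹)
      ?_ ?_ ?_ ?_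
    · rintro P Q e - ⟨g, hg, hge⟩
      refine ⟨g⁻¹, S.inv_mem hg, fun y => ?_⟩
      have h1 := hge (e.symm y)
      rw [e.apply_symm_apply] at h1
      rw [h1]
      group
    · rintro P Q R e₁ e₂ - - ⟨g₁, hg₁, h₁⟩ ⟨g₂, hg₂, h₂⟩
      refine ⟨g₂ * g₁, S.mul_mem hg₂ hg₁, fun x => ?_⟩
      show ((e₂ (e₁ x) : R) : Ω) = _
      rw [h₂, h₁]
      group
    · rintro P Q R R' e hR e' - ⟨g, hg, hge⟩ he'
      refine ⟨g, hg, fun x => ?_⟩
      rw [he', hge]
    · intro R hRa hRr _ α hα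
      obtain ⟨hRS, T, hT⟩ := hRa
      have hp : IsPGroup p (F.autGroup R) := h R hRS
      have htop : (⊤ : Subgroup (F.autGroup R)) = T :=
        T.is_maximal' (hp.to_subgroup ⊤) le_top
      have h1 : (⟨α, hα⟩ : F.autGroup R) ∈ (T : Subgroup (F.autGroup R)) := by
        rw [← htop]
        exact Subgroup.mem_top _
      rw [hT] at h1
      exact (mem_autInducedBy_iff S R α).mp h1
  apply fusionSystem_ext
  intro P
  ext φ
  constructor
  · intro hφ
    obtain ⟨g, hg, hge⟩ := key P _ _ (isIso_ofInjective hφ)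
    exact ⟨(F.le_of_mem hφ).1, g, hg, hge⟩
  · rintro ⟨hP, g, hg, hge⟩
    exact hom_congr F (F.conj_mem hP hg : conjHom P g ∈ F.Hom P) hge

end Cfsg.Agent.S5083
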