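import Cfsg.Statements.S5085
import Cfsg.Agent.H84.FusBasic

set_option autoImplicit false
open Cfsg

namespace Cfsg.Agent.S5085

open Cfsg.FusionSystem Cfsg.Agent.H84

/-- In any fusion system, a characteristic subgroup of a subgroup that is normal in the system is itself normal in the system. -/
theorem result {Ω : Type*} [Group Ω] {S : Subgroup Ω} (F : Cfsg.FusionSystem S) (Q U : Subgroup Ω) (hQ : F.IsNormal Q) (hUQ : U ≤ Q) (hU : (U.subgroupOf Q).Characteristic) : F.IsNormal U := by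
  refine ⟨hUQ.trans hQ.1, ?_⟩
  intro P φ hφ
  obtain ⟨ψ, hψ, hψφ, hψQ⟩ := hQ.2 P φ hφ
  have hle : P ⊔ U ≤ P ⊔ Q := sup_le_sup_left hUQ P
  have hQle : Q ≤ P ⊔ Q := le_sup_right
  have hψinj := F.injective_of_mem hψ
  -- ψ maps Q into Q
  have hψmem : ∀ q : Q, ψ ⟨q, hQle q.2⟩ ∈ Q := by
    intro q
    exact (SetLike.ext_iff.mp hψQ _).mp ⟨⟨q, hQle q.2⟩, q.2, rfl⟩
  -- the induced endomorphism of Q
  let β : Q →* Q :=
    { toFun := fun q => ⟨ψ ⟨q, hQle q.2⟩, hψmem q⟩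
      map_one' := by
        apply Subtype.ext
        exact map_one ψ
      map_mul' := by
        intro a b
        apply Subtype.ext
        exact map_mul ψ ⟨a, hQle a.2⟩ ⟨b, hQle b.2⟩ }
  have hβbij : Function.Bijective β := by
    constructor
    · intro a b hab
      have h1 : ψ ⟨a, hQle a.2⟩ = ψ ⟨b, hQle b.2⟩ := congrArg (fun z : Q => (z : Ω)) hab
      have h2 := hψinj h1
      exact Subtype.ext (congrArg (fun z : ↥(P ⊔ Q) => (z : Ω)) h2)
    · intro y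
      have hy : (y : Ω) ∈ (Q.subgroupOf (P ⊔ Q)).map ψ := (SetLike.ext_iff.mp hψQ _).mpr y.2
      obtain ⟨x, hx, hxy⟩ := hy
      exact ⟨⟨x, hx⟩, Subtype.ext hxy⟩
  let α : Q ≃* Q := MulEquiv.ofBijective β hβbij
  have hα : (U.subgroupOf Q).map α.toMonoidHom = U.subgroupOf Q :=
    Subgroup.characteristic_iff_map_eq.mp hU α
  refine ⟨ψ.comp (Subgroup.inclusion hle), hom_restrict F hψ hle, ?_, ?_⟩
  · intro x
    exact hψφ x
  · ext y
    constructor
    · rintro ⟨x, hx, rfl⟩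
      have hxU : (x : Ω) ∈ U := hx
      have h1 : α ⟨x, hUQ hxU⟩ ∈ (U.subgroupOf Q).map α.toMonoidHom := ⟨⟨x, hUQ hxU⟩, hxU, rfl⟩
      exact (SetLike.ext_iff.mp hα _).mp h1
    · intro hy
      have h1 : (⟨y, hUQ hy⟩ : Q) ∈ (U.subgroupOf Q).map α.toMonoidHom :=
        (SetLike.ext_iff.mp hα _).mpr hy
      obtain ⟨x, hx, hxy⟩ := h1
      have hxU : (x : Ω) ∈ U := hx
      refine ⟨⟨x, (le_sup_right : U ≤ P ⊔ U) hxU⟩, hxU, ?_⟩
      exact congrArg (fun z : Q => (z : Ω)) hxy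

end Cfsg.Agent.S5085
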