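import Mathlib
import Cfsg.Statements.S5089
import Cfsg.Agent.Lib.Helper87.FSBasic
import Cfsg.Agent.Lib.Helper87.FSSat
import Cfsg.Agent.Lib.Helper87.FSNormal
import Cfsg.Agent.S5088

set_option autoImplicit false

namespace Cfsg.Agent.S5089

open Cfsg Cfsg.FusionSystem

/-- A saturated fusion system over a finite p-group has a nontrivial subgroup that is normal in the system (O_p(F) ≠ 1) if and only if some nontrivial abelian subgroup is strongly closed in the system. -/
theorem result {Ω : Type*} [Group Ω] {S : Subgroup Ω} [Finite S] (p : ℕ) [Fact p.Prime] (hS : IsPGroup p S) (F : Cfsg.FusionSystem S) (hF : F.IsSaturated p) : F.core ≠ ⊥ ↔ ∃ Q : Subgroup Ω, Q ≠ ⊥ ∧ IsMulCommutative Q ∧ F.StronglyClosed Q := by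
  open Cfsg.Agent.Lib.Helper87.FSBasic Cfsg.Agent.Lib.Helper87.FSSat
    Cfsg.Agent.Lib.Helper87.FSNormal in
  constructor
  · intro hcore
    have hex : ∃ Q, F.IsNormal Q ∧ Q ≠ ⊥ := by
      by_contra hcon
      push Not at hcon
      apply hcore
      unfold FusionSystem.core
      rw [sSup_eq_bot]
      exact fun Q hQ => hcon Q hQ
    obtain ⟨Q, hN, hne⟩ := hex
    have hQS : Q ≤ S := hN.1
    have hfin : Finite Q := finite_of_le hQS
    have hQp : IsPGroup p Q := hS.to_le hQS
    have hnt : Nontrivial Q := (Subgroup.nontrivial_iff_ne_bot Q).mpr hne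
    have hZ : Nontrivial (Subgroup.center Q) := hQp.center_nontrivial
    refine ⟨(Subgroup.center Q).map Q.subtype, ?_, ?_,
      stronglyClosed_of_characteristic F hN (Subgroup.center Q)⟩
    · obtain ⟨z, hz⟩ := exists_ne (1 : Subgroup.center Q)
      intro h
      have h1 : ((z : Q) : Ω) ∈ (Subgroup.center Q).map Q.subtype := ⟨z, z.2, rfl⟩
      rw [h, Subgroup.mem_bot] at h1
      exact hz (Subtype.ext (Subtype.ext h1))
    · refine ⟨⟨?_⟩⟩
      rintro ⟨_, a, ha, rfl⟩ ⟨_, b, hb, rfl⟩
      apply Subtype.ext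
      show ((a : Q) : Ω) * (b : Q) = (b : Q) * (a : Q)
      have h1 : b * a = a * b := Subgroup.mem_center_iff.mp ha b
      have h2 := congrArg (fun z : Q => (z : Ω)) h1
      exact h2.symm
  · rintro ⟨Q, hne, hcomm, hsc⟩
    have hN : F.IsNormal Q := by
      rw [Cfsg.Agent.S5088.result p hS F hF Q]
      refine ⟨1, ![⊥, Q], rfl, rfl, ?_, ?_⟩
      · rw [Fin.monotone_iff_le_succ]
        intro i
        fin_cases i
        exact bot_le
      · intro i
        fin_cases i
        refine ⟨hsc, ?_⟩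
        rw [Subgroup.commutator_le]
        intro a ha b hb
        have h1 : (⟨a, ha⟩ : Q) * ⟨b, hb⟩ = ⟨b, hb⟩ * ⟨a, ha⟩ := Std.Commutative.comm _ _
        have h2 : a * b = b * a := congrArg (fun z : Q => (z : Ω)) h1
        have h3 : a * b * a⁻¹ * b⁻¹ = 1 := by
          rw [h2]
          group
        show a * b * a⁻¹ * b⁻¹ ∈ _
        rw [h3]
        exact Subgroup.one_mem _
    intro hcore
    apply hne
    have h1 : Q ≤ F.core := le_sSup hN
    rw [hcore] at h1
    exact le_bot_iff.mp h1

end Cfsg.Agent.S5089
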