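import Cfsg.Statements.S5102
import Cfsg.Agent.H85.Sup

set_option autoImplicit false
open Cfsg

namespace Cfsg.Agent.S5102

open Cfsg.Agent.H85 in
/-- A normal p-subgroup of a finite group G is normal in the fusion system of G on a Sylow p-subgroup. -/
theorem result {G : Type*} [Group G] [Finite G] (p : ℕ) [Fact p.Prime] (S : Sylow p G) (R : Subgroup G) [R.Normal] (hR : IsPGroup p R) : (Cfsg.groupFusionSystem (S : Subgroup G)).IsNormal R := by
  have hRS : R ≤ (S : Subgroup G) := hR.le_sylow_of_normal S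
  have hnorm : ∀ (g x : G), x ∈ R → g * x * g⁻¹ ∈ R := fun g x hx =>
    (inferInstance : R.Normal).conj_mem x hx g
  refine ⟨hRS, ?_⟩
  rintro P φ ⟨hP, hφS, g, hg⟩
  have hval : ∀ x : ↥(P ⊔ R), conjHom (P ⊔ R) g x ∈ (S : Subgroup G) := by
    refine sup_all ((S : Subgroup G).comap (conjHom (P ⊔ R) g)) ?_ ?_
    · intro x
      show g * (x : G) * g⁻¹ ∈ (S : Subgroup G)
      rw [← hg x]
      exact hφS x
    · intro x
      show g * (x : G) * g⁻¹ ∈ (S : Subgroup G)
      exact hRS (hnorm g x x.2)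
  refine ⟨conjHom (P ⊔ R) g, ⟨sup_le hP hRS, hval, g, fun x => rfl⟩, fun x => ?_, ?_⟩
  · show g * (x : G) * g⁻¹ = φ x
    exact (hg x).symm
  · ext y
    constructor
    · rintro ⟨x, hx, rfl⟩
      show g * (x : G) * g⁻¹ ∈ R
      exact hnorm g x (Subgroup.mem_subgroupOf.mp hx)
    · intro hy
      have h1 : g⁻¹ * y * g ∈ R := by
        have := hnorm g⁻¹ y hy
        rwa [inv_inv] at this
      refine ⟨⟨g⁻¹ * y * g, Subgroup.mem_sup_right h1⟩, Subgroup.mem_subgroupOf.mpr h1, ?_⟩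
      show g * (g⁻¹ * y * g) * g⁻¹ = y
      group

end Cfsg.Agent.S5102
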