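import Cfsg.Statements.S5104
import Cfsg.Agent.H85.Aut

set_option autoImplicit false
open Cfsg

namespace Cfsg.Agent.S5104

open Cfsg.Agent.H85 Cfsg.FusionSystem in
/-- In a saturated fusion system over a finite p-group S, a fully centralized subgroup U with C_S(U) ≤ U is centric. -/
theorem result {Ω : Type*} [Group Ω] {S : Subgroup Ω} [Finite S] (p : ℕ) [Fact p.Prime] (hS : IsPGroup p S) (F : Cfsg.FusionSystem S) (hF : F.IsSaturated p) (U : Subgroup Ω) (hU : F.IsFullyCentralized U) (hC : Cfsg.FusionSystem.centralizerIn S U ≤ U) : F.IsCentric U := by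
  obtain ⟨Q, hUQ, hfa, hrec⟩ := hF U hU.1
  have hcard := hU.2 Q hUQ
  obtain ⟨φ, hφ, hφQ⟩ := hUQ
  obtain ⟨ψ, hψ, hψx⟩ := receptive_extend_sup F hrec hφ hφQ
  have hQlift : ∀ y ∈ Q, ∃ x : U, ψ (Subgroup.inclusion le_sup_left x) = y := by
    intro y hy
    rw [← hφQ] at hy
    obtain ⟨x, rfl⟩ := hy
    exact ⟨x, hψx x⟩
  -- C_S(Q) ≤ Q
  have hCQ : centralizerIn S Q ≤ Q := by
    have : Finite ↥(centralizerIn S Q) :=
      Finite.of_injective (Subgroup.inclusion (inf_le_left : centralizerIn S Q ≤ S))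
        (Subgroup.inclusion_injective _)
    let f : ↥(centralizerIn S U) → ↥(centralizerIn S Q) := fun c =>
      ⟨ψ ⟨c, Subgroup.mem_sup_right c.2⟩, map_centralizer_mem F hψ hQlift _ c.2⟩
    have hf : Function.Injective f := by
      intro a b hab
      have h1 : ψ ⟨a, Subgroup.mem_sup_right a.2⟩ = ψ ⟨b, Subgroup.mem_sup_right b.2⟩ :=
        congrArg Subtype.val hab
      have h2 := F.injective_of_mem hψ h1
      have h3 : ((⟨a, Subgroup.mem_sup_right a.2⟩ : ↥(U ⊔ centralizerIn S U)) : Ω) =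
          ((⟨b, Subgroup.mem_sup_right b.2⟩ : ↥(U ⊔ centralizerIn S U)) : Ω) :=
        congrArg Subtype.val h2
      exact Subtype.ext h3
    have hbij := hf.bijective_of_nat_card_le hcard
    intro d hd
    obtain ⟨c, hc⟩ := hbij.2 ⟨d, hd⟩
    have hc' : ψ ⟨c, Subgroup.mem_sup_right c.2⟩ = d := congrArg Subtype.val hc
    have hcU : (c : Ω) ∈ U := hC c.2
    have h4 := hψx ⟨c, hcU⟩
    have e : (Subgroup.inclusion le_sup_left (⟨c, hcU⟩ : U) : ↥(U ⊔ centralizerIn S U)) =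
        ⟨c, Subgroup.mem_sup_right c.2⟩ := Subtype.ext rfl
    rw [e, hc'] at h4
    rw [h4, ← hφQ]
    exact ⟨_, rfl⟩
  refine ⟨hU.1, fun R hR => ?_⟩
  have hRQ : F.IsConj R Q := isConj_trans F (isConj_symm F hR) ⟨φ, hφ, hφQ⟩
  obtain ⟨φ', hφ', hφ'Q⟩ := hRQ
  obtain ⟨ψ', hψ', hψ'x⟩ := receptive_extend_sup F hrec hφ' hφ'Q
  have hQlift' : ∀ y ∈ Q, ∃ x : R, ψ' (Subgroup.inclusion le_sup_left x) = y := by
    intro y hy
    rw [← hφ'Q] at hy
    obtain ⟨x, rfl⟩ := hy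
    exact ⟨x, hψ'x x⟩
  intro c hc
  have h1 := map_centralizer_mem F hψ' hQlift' ⟨c, Subgroup.mem_sup_right hc⟩ hc
  obtain ⟨x, hx⟩ := hQlift' _ (hCQ h1)
  have h2 := F.injective_of_mem hψ' hx
  have h3 : (x : Ω) = c := congrArg Subtype.val h2
  rw [← h3]; exact x.2

end Cfsg.Agent.S5104
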