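import Cfsg.Statements.S5105
import Cfsg.Agent.H85.Cocycle
import Cfsg.Agent.H85.Alperin

set_option autoImplicit false
open Cfsg

namespace Cfsg.Agent.S5105

open Cfsg.Agent.H85 in
/-- Model Theorem, rigidity: if G is a model of a constrained fusion system over a finite p-group S (through ι : S → G), then every automorphism of G fixing ι(S) elementwise is conjugation by ι(z) for some z in the centre of S. -/
theorem result {Ω : Type*} [Group Ω] {S : Subgroup Ω} [Finite S] (p : ℕ) [Fact p.Prime] (hS : IsPGroup p S) (F : Cfsg.FusionSystem S) (hF : F.IsConstrained p) {G : Type*} [Group G] (ι : S →* G) (hG : F.IsModel p G ι) (ψ : G ≃* G) (hψ : ∀ x : S, ψ (ι x) = ι x) : ∃ z : S, z ∈ Subgroup.center S ∧ ∀ g : G, ψ g = ι z * g * (ι z)⁻¹ := by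
  obtain ⟨hfin, ⟨hinj, -⟩, ⟨T, hT⟩, hcent⟩ := hG
  haveI := hfin
  have hQT : pCore p G ≤ (T : Subgroup G) := pCore_le_sylow T
  haveI hQn : (pCore p G).Normal := ⟨fun n hn g => pCore_conj_mem g hn⟩
  obtain ⟨A, hAdef⟩ : ∃ A : Subgroup G, A = Subgroup.centralizer ((pCore p G : Subgroup G) : Set G) := ⟨_, rfl⟩
  haveI : A.Normal := by rw [hAdef]; infer_instance
  have hAQ : A ≤ pCore p G := by rw [hAdef]; exact hcent
  have hAcomm : ∀ a ∈ A, ∀ b ∈ A, a * b = b * a := by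
    intro a ha b hb
    rw [hAdef] at ha
    exact (Subgroup.mem_centralizer_iff.mp ha b (hAQ hb)).symm
  have hAp : IsPGroup p A := T.isPGroup'.to_le (hAQ.trans hQT)
  have hψT : ∀ x ∈ (T : Subgroup G), ψ x = x := by
    intro x hx
    rw [hT] at hx
    obtain ⟨y, rfl⟩ := hx
    exact hψ y
  have hψA : ∀ g, ψ g * g⁻¹ ∈ A := by
    intro g
    rw [hAdef, Subgroup.mem_centralizer_iff]
    intro x hx
    have h1 : g⁻¹ * x * g ∈ pCore p G := by simpa using pCore_conj_mem g⁻¹ hx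
    have h2 := hψT _ (hQT h1)
    have h3 := hψT _ (hQT hx)
    rw [map_mul, map_mul, map_inv, h3] at h2
    calc x * (ψ g * g⁻¹) = ψ g * ((ψ g)⁻¹ * x * ψ g) * g⁻¹ := by group
      _ = ψ g * (g⁻¹ * x * g) * g⁻¹ := by rw [h2]
      _ = ψ g * g⁻¹ * x := by group
  obtain ⟨z, hzA, hz⟩ := aut_eq_conj_of_sylow_fixed p T A hAcomm hAp ψ hψT hψA
  have hzT : z ∈ (T : Subgroup G) := hQT (hAQ hzA)
  rw [hT] at hzT
  obtain ⟨z₀, rfl⟩ := hzT
  refine ⟨z₀, ?_, hz⟩
  rw [Subgroup.mem_center_iff]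
  intro x
  apply hinj
  rw [map_mul, map_mul]
  have h1 := hz (ι x)
  rw [hψ x] at h1
  calc ι x * ι z₀ = (ι z₀ * ι x * (ι z₀)⁻¹) * ι z₀ := by rw [← h1]
    _ = ι z₀ * ι x := by group

end Cfsg.Agent.S5105
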