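import Cfsg.Statements.S5107
import Cfsg.Agent.Lib.Helper87.FSBasic
import Cfsg.Agent.Lib.Helper87.FSSat
import Cfsg.Agent.Lib.Helper87.FSNormal
import Cfsg.Agent.S5076

set_option autoImplicit false
open Cfsg

namespace Cfsg.Agent.S5107

/-- If a Sylow p-subgroup S of a finite group G has nilpotency class at most two and its centre is strongly closed in S with respect to G, then every map of the fusion system of G on S is conjugation by an element of N_G(S), and S is the largest subgroup normal in that fusion system. -/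
theorem result {G : Type*} [Group G] [Finite G] (p : ℕ) [Fact p.Prime] (S : Sylow p G) (hcl : ⁅(S : Subgroup G), (S : Subgroup G)⁆ ≤ (S : Subgroup G) ⊓ Subgroup.centralizer ((S : Subgroup G) : Set G)) (hZ : Cfsg.IsStronglyClosed ((S : Subgroup G) ⊓ Subgroup.centralizer ((S : Subgroup G) : Set G)) (S : Subgroup G)) : (∀ (P : Subgroup G) (φ : P →* G), φ ∈ (Cfsg.groupFusionSystem (S : Subgroup G)).Hom P → ∃ g ∈ Subgroup.normalizer ((S : Subgroup G) : Set G), ∀ x : P, φ x = g * (x : G) * g⁻¹) ∧ (Cfsg.groupFusionSystem (S : Subgroup G)).core = S := by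
  open Cfsg.Agent.Lib.Helper87.FSBasic Cfsg.Agent.Lib.Helper87.FSSat
    Cfsg.Agent.Lib.Helper87.FSNormal in
  have hF := Cfsg.Agent.S5076.result p S
  have hS : IsPGroup p (S : Subgroup G) := S.isPGroup'
  have hZsc : (Cfsg.groupFusionSystem (S : Subgroup G)).StronglyClosed
      ((S : Subgroup G) ⊓ Subgroup.centralizer ((S : Subgroup G) : Set G)) := by
    refine ⟨inf_le_left, fun R hR φ hφ x => ?_⟩
    obtain ⟨-, hφS, g, hg⟩ := hφ
    have h1 := hφS x
    rw [hg x] at h1 ⊢
    exact hZ.2 x (hR x.2) g h1
  have hSsc : (Cfsg.groupFusionSystem (S : Subgroup G)).StronglyClosed (S : Subgroup G) :=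
    ⟨le_rfl, fun R hR φ hφ x => map_mem _ hφ x⟩
  have hN : (Cfsg.groupFusionSystem (S : Subgroup G)).IsNormal (S : Subgroup G) := by
    refine isNormal_of_chain hS _ hF (S : Subgroup G) hSsc 2
      (fun j => match j with
        | 0 => ⊥
        | 1 => (S : Subgroup G) ⊓ Subgroup.centralizer ((S : Subgroup G) : Set G)
        | _ + 2 => (S : Subgroup G)) rfl rfl ?_ ?_ ?_ ?_
    · intro j hj
      match j with
      | 0 =>
        intro s _
        rw [Subgroup.mem_normalizer_iff]
        intro h
        show h ∈ (⊥ : Subgroup G) ↔ s * h * s⁻¹ ∈ (⊥ : Subgroup G)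
        rw [Subgroup.mem_bot, Subgroup.mem_bot]
        constructor
        · intro hh; rw [hh]; group
        · intro hh
          have e : h = s⁻¹ * (s * h * s⁻¹) * s := by group
          rw [e, hh]; group
      | 1 => exact le_normalizer_of_stronglyClosed _ hZsc
      | k + 2 => exact Subgroup.le_normalizer
    · intro j hj
      match j with
      | 0 => exact bot_le
      | 1 => exact inf_le_left
      | k + 2 => exact le_rfl
    · intro j hj
      match j with
      | 0 =>
        show ⁅(S : Subgroup G) ⊓ Subgroup.centralizer ((S : Subgroup G) : Set G), (S : Subgroup G)⁆ ≤ ⊥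
        rw [Subgroup.commutator_le]
        intro z hz s hs
        rw [Subgroup.mem_bot, commutatorElement_def]
        have h1 := (Subgroup.mem_centralizer_iff.mp (Subgroup.mem_inf.mp hz).2) s hs
        rw [← h1]
        group
      | 1 => exact hcl
      | k + 2 => omega
    · intro j hj Y hY φ hφ _ x hx
      match j with
      | 0 =>
        have hx1 : x = 1 := Subtype.ext (Subgroup.mem_bot.mp hx)
        rw [hx1, map_one]
        exact Subgroup.mem_bot.mpr rfl
      | 1 => exact stronglyClosed_maps _ hZsc hφ x hx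
      | k + 2 => omega
  constructor
  · intro P φ hφ
    obtain ⟨ψ, hψ, hext, hmap⟩ := hN.2 P φ hφ
    obtain ⟨-, -, g, hg⟩ := hψ
    refine ⟨g, ?_, fun x => ?_⟩
    · rw [Subgroup.mem_normalizer_iff]
      intro h
      constructor
      · intro hh
        have h1 : ψ ⟨h, (le_sup_right : (S : Subgroup G) ≤ P ⊔ (S : Subgroup G)) hh⟩ ∈
            ((S : Subgroup G).subgroupOf (P ⊔ (S : Subgroup G))).map ψ :=
          ⟨_, Subgroup.mem_subgroupOf.mpr hh, rfl⟩
        rw [hmap, hg] at h1
        exact h1
      · intro hh
        rw [← hmap] at hh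
        obtain ⟨s, hs, hse⟩ := hh
        rw [hg] at hse
        have e : (s : G) = h := mul_left_cancel (mul_right_cancel hse)
        rw [← e]
        exact Subgroup.mem_subgroupOf.mp hs
    · rw [← hext x, hg]
      rfl
  · apply le_antisymm
    · exact sSup_le fun Q hQ => hQ.1
    · exact le_sSup hN

end Cfsg.Agent.S5107
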