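import Cfsg.Statements.S5122
import Cfsg.Agent.H85.GroupFS2

set_option autoImplicit false
open Cfsg

namespace Cfsg.Agent.S5122

open Cfsg.Agent.H85 Cfsg.FusionSystem in
/-- Let G be a finite group with Sylow p-subgroup S. Every subgroup P of S has a G-conjugate Q ≤ S such that N_S(Q) is a Sylow p-subgroup of N_G(Q); and for any Q ≤ S with that property, C_S(Q) is a Sylow p-subgroup of C_G(Q) and the automorphisms of Q induced by N_S(Q) form a Sylow p-subgroup of those induced by N_G(Q). -/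
theorem result {G : Type*} [Group G] [Finite G] (p : ℕ) [Fact p.Prime] (S : Sylow p G) : (∀ P : Subgroup G, P ≤ S → ∃ g : G, P.map (MulAut.conj g).toMonoidHom ≤ S ∧ (∃ R : Sylow p ↥(Subgroup.normalizer ((P.map (MulAut.conj g).toMonoidHom : Subgroup G) : Set G)), (R : Subgroup ↥(Subgroup.normalizer ((P.map (MulAut.conj g).toMonoidHom : Subgroup G) : Set G))) = (Cfsg.FusionSystem.normalizerIn (S : Subgroup G) (P.map (MulAut.conj g).toMonoidHom)).subgroupOf (Subgroup.normalizer ((P.map (MulAut.conj g).toMonoidHom : Subgroup G) : Set G)))) ∧ ∀ Q : Subgroup G, Q ≤ S → (∃ R : Sylow p ↥(Subgroup.normalizer (Q : Set G)), (R : Subgroup ↥(Subgroup.normalizer (Q : Set G))) = (Cfsg.FusionSystem.normalizerIn (S : Subgroup G) Q).subgroupOf (Subgroup.normalizer (Q : Set G))) → (∃ R : Sylow p ↥(Subgroup.centralizer (Q : Set G)), (R : Subgroup ↥(Subgroup.centralizer (Q : Set G))) = (Cfsg.FusionSystem.centralizerIn (S : Subgroup G) Q).subgroupOf (Subgroup.centralizer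 (Q : Set G))) ∧ (∃ R : Sylow p ↥(Cfsg.autInducedBy ⊤ Q), (R : Subgroup ↥(Cfsg.autInducedBy ⊤ Q)) = (Cfsg.autInducedBy (S : Subgroup G) Q).subgroupOf (Cfsg.autInducedBy ⊤ Q)) := by
  refine ⟨fun P hP => ?_, fun Q hQ hN => ⟨?_, ?_⟩⟩
  · obtain ⟨g, hg, hsyl⟩ := exists_conj_isSyl_normalizer S P hP
    exact ⟨g, hg, exists_sylow_of_isSyl hsyl⟩
  · have h1 := isSyl_of_exists_sylow inf_le_right hN
    exact exists_sylow_of_isSyl (isSyl_centralizer_of_normalizer h1)
  · obtain ⟨R₀, hR₀⟩ := hN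
    have hA : autInducedBy ⊤ Q = (Subgroup.normalizerMonoidHom Q).range := by
      ext α
      rw [mem_autInducedBy_iff_normalizer]
      constructor
      · rintro ⟨n, -, rfl⟩; exact ⟨n, rfl⟩
      · rintro ⟨n, rfl⟩; exact ⟨n, Subgroup.mem_top _, rfl⟩
    have hB : autInducedBy (S : Subgroup G) Q =
        ((normalizerIn (S : Subgroup G) Q).subgroupOf (Subgroup.normalizer (Q : Set G))).map
          (Subgroup.normalizerMonoidHom Q) := by
      ext α
      rw [mem_autInducedBy_iff_normalizer]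
      constructor
      · rintro ⟨n, hn, rfl⟩; exact ⟨n, Subgroup.mem_subgroupOf.mpr ⟨hn, n.2⟩, rfl⟩
      · rintro ⟨n, hn, rfl⟩; exact ⟨n, (Subgroup.mem_subgroupOf.mp hn).1, rfl⟩
    rw [hA, hB]
    refine ⟨R₀.mapSurjective (Subgroup.normalizerMonoidHom Q).rangeRestrict_surjective, ?_⟩
    rw [Sylow.coe_mapSurjective, hR₀]
    ext ⟨α, hα⟩
    simp only [Subgroup.mem_map, Subgroup.mem_subgroupOf]
    constructor
    · rintro ⟨n, hn, hnα⟩
      exact ⟨n, hn, congrArg Subtype.val hnα⟩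
    · rintro ⟨n, hn, hnα⟩
      exact ⟨n, hn, Subtype.ext hnα⟩

end Cfsg.Agent.S5122
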