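import Cfsg.Statements.S5123
import Cfsg.Agent.H85.GroupFS2

set_option autoImplicit false
open Cfsg

namespace Cfsg.Agent.S5123

open Cfsg.Agent.H85 Cfsg.FusionSystem Pointwise in
/-- Let G be a finite group with Sylow p-subgroup S, P, Q ≤ S and g ∈ G with gPg⁻¹ = Q, and suppose N_S(Q) is a Sylow p-subgroup of N_G(Q). Let N be the set of x ∈ N_S(P) with gxg⁻¹ ∈ N_S(Q)C_G(Q). Then some h ∈ C_G(Q) satisfies (hg)N(hg)⁻¹ ≤ S. -/
theorem result {G : Type*} [Group G] [Finite G] (p : ℕ) [Fact p.Prime] (S : Sylow p G) (P Q : Subgroup G) (hP : P ≤ S) (hQ : Q ≤ S) (g : G) (hg : P.map (MulAut.conj g).toMonoidHom = Q) (hN : (∃ R : Sylow p ↥(Subgroup.normalizer (Q : Set G)), (R : Subgroup ↥(Subgroup.normalizer (Q : Set G))) = (Cfsg.FusionSystem.normalizerIn (S : Subgroup G) Q).subgroupOf (Subgroup.normalizer (Q : Set G)))) : ∃ h ∈ Subgroup.centralizer (Q : Set G), ((Cfsg.FusionSystem.normalizerIn (S : Subgroup G) P) ⊓ (Cfsg.FusionSystem.normalizerIn (S : Subgroup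 G) Q ⊔ Subgroup.centralizer (Q : Set G)).comap (MulAut.conj g).toMonoidHom).map (MulAut.conj (h * g)).toMonoidHom ≤ S := by
  have hsyl := isSyl_of_exists_sylow inf_le_right hN
  have hNSle : normalizerIn (S : Subgroup G) Q ≤ Subgroup.normalizer (Q : Set G) := inf_le_right
  have hCle : Subgroup.centralizer (Q : Set G) ≤ Subgroup.normalizer (Q : Set G) :=
    Subgroup.centralizer_le_normalizer _
  have hX : IsSyl p (normalizerIn (S : Subgroup G) Q)
      (normalizerIn (S : Subgroup G) Q ⊔ Subgroup.centralizer (Q : Set G)) :=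
    hsyl.of_le le_sup_left (sup_le hNSle hCle)
  have hMp : IsPGroup p (((normalizerIn (S : Subgroup G) P) ⊓
      (normalizerIn (S : Subgroup G) Q ⊔ Subgroup.centralizer (Q : Set G)).comap
        (MulAut.conj g).toMonoidHom).map (MulAut.conj g).toMonoidHom) :=
    ((isPGroup_normalizerIn S.isPGroup' P).to_inf_left).map _
  have hMX : ((normalizerIn (S : Subgroup G) P) ⊓
      (normalizerIn (S : Subgroup G) Q ⊔ Subgroup.centralizer (Q : Set G)).comap
        (MulAut.conj g).toMonoidHom).map (MulAut.conj g).toMonoidHom ≤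
      normalizerIn (S : Subgroup G) Q ⊔ Subgroup.centralizer (Q : Set G) := by
    rintro _ ⟨n, hn, rfl⟩
    exact hn.2
  obtain ⟨y, hy, hyM⟩ := hX.exists_conj hMX hMp
  have hnorm : normalizerIn (S : Subgroup G) Q ≤
      Subgroup.normalizer ((Subgroup.centralizer (Q : Set G) : Subgroup G) : Set G) := by
    intro s hs k
    constructor
    · intro hk; exact conj_mem_centralizer_of_mem_normalizer (hNSle hs) hk
    · intro hk
      have := conj_mem_centralizer_of_mem_normalizer (Subgroup.inv_mem _ (hNSle hs)) hk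
      have e : s⁻¹ * (s * k * s⁻¹) * s⁻¹⁻¹ = k := by group
      rwa [e] at this
  have hy' : y ∈ ((normalizerIn (S : Subgroup G) Q : Set G) * (Subgroup.centralizer (Q : Set G) : Set G)) := by
    rw [← Subgroup.coe_mul_of_left_le_normalizer_right _ _ hnorm]
    exact hy
  obtain ⟨s, hs, c, hc, rfl⟩ := Set.mem_mul.mp hy'
  refine ⟨c, hc, ?_⟩
  rintro _ ⟨n, hn, rfl⟩
  have h1 := hyM (g * n * g⁻¹) ⟨n, hn, rfl⟩
  have h2 : s⁻¹ * (s * c * (g * n * g⁻¹) * (s * c)⁻¹) * s ∈ normalizerIn (S : Subgroup G) Q :=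
    Subgroup.mul_mem _ (Subgroup.mul_mem _ (Subgroup.inv_mem _ hs) h1) hs
  have e : s⁻¹ * (s * c * (g * n * g⁻¹) * (s * c)⁻¹) * s = c * g * n * (c * g)⁻¹ := by group
  rw [e] at h2
  exact h2.1

end Cfsg.Agent.S5123
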