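import Cfsg.Statements.S5164
import Mathlib

set_option autoImplicit false
open Cfsg

namespace Cfsg.Agent.S5164

open scoped commutatorElement Pointwise




/-- a `p`-group of permutations of fewer than `p ^ 2` points is commutative. -/
theorem comm_of_small {α : Type*} [Fintype α] {p : ℕ} [Fact p.Prime]
    (P : Subgroup (Equiv.Perm α)) (hP : IsPGroup p P) (hn : Fintype.card α < p ^ 2)
    (a b : Equiv.Perm α) (ha : a ∈ P) (hb : b ∈ P) : a * b = b * a := by
  classical
  have hp : p.Prime := Fact.out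
  have key : ∀ x : α, (⁅(⟨a, ha⟩ : P), ⟨b, hb⟩⁆ : P) ∈ MulAction.stabilizer P x := by
    intro x
    set H := MulAction.stabilizer P x with hH
    obtain ⟨k, hk⟩ := hP.index H
    have hidx : H.index = (MulAction.orbit P x).ncard := MulAction.index_stabilizer P x
    have hle : H.index ≤ Fintype.card α := by
      rw [hidx, ← Nat.card_eq_fintype_card]
      exact Set.ncard_le_card _
    have hk1 : k ≤ 1 := by
      by_contra hk2
      push Not at hk2
      have : p ^ 2 ≤ p ^ k := Nat.pow_le_pow_right hp.pos hk2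
      omega
    interval_cases k
    · have : H = ⊤ := Subgroup.index_eq_one.mp (by simpa using hk)
      rw [this]; trivial
    · have hk' : H.index = p := by simpa using hk
      obtain ⟨m, hm⟩ := IsPGroup.iff_card.mp hP
      have hm0 : m ≠ 0 := by
        rintro rfl
        have h1 : Nat.card P = 1 := by simpa using hm
        have h2 : H.index ∣ Nat.card P := Subgroup.index_dvd_card H
        rw [h1, hk'] at h2
        exact hp.one_lt.ne' (Nat.dvd_one.mp h2)
      have hnorm : H.Normal := by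
        apply Subgroup.normal_of_index_eq_minFac_card
        rw [hk', hm, Nat.pow_minFac hm0, hp.minFac_eq]
      have hcard : Nat.card (P ⧸ H) = p := hk'
      have hcyc : IsCyclic (P ⧸ H) := isCyclic_of_prime_card hcard
      let _ : CommGroup (P ⧸ H) := hcyc.commGroup
      have h3 := Abelianization.commutator_subset_ker (QuotientGroup.mk' H)
      rw [QuotientGroup.ker_mk'] at h3
      apply h3
      exact Subgroup.commutator_mem_commutator (Subgroup.mem_top _) (Subgroup.mem_top _)
  ext x
  have h1 := key x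
  rw [MulAction.mem_stabilizer_iff] at h1
  have h2 : (a * b * a⁻¹ * b⁻¹) x = x := h1
  have h3 : (a * b * a⁻¹ * b⁻¹) (b (a x)) = b (a x) := by
    have h1' := key (b (a x))
    rw [MulAction.mem_stabilizer_iff] at h1'
    exact h1'
  simp only [Equiv.Perm.mul_apply] at h3
  rw [show b⁻¹ (b (a x)) = a x from by simp, show a⁻¹ (a x) = x from by simp] at h3
  simp only [Equiv.Perm.mul_apply]
  exact h3





/-- a `p`-group of permutations, `p` odd, consists of even permutations. -/
theorem le_alternating_of_odd {α : Type*} [Fintype α] [DecidableEq α] {p : ℕ} [Fact p.Prime]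
    (hp2 : p ≠ 2) (P : Subgroup (Equiv.Perm α)) (hP : IsPGroup p P) : P ≤ alternatingGroup α := by
  have hp : p.Prime := Fact.out
  intro g hg
  rw [Equiv.Perm.mem_alternatingGroup]
  obtain ⟨k, hk⟩ := hP ⟨g, hg⟩
  have hk' : g ^ (p ^ k) = 1 := by
    have := congrArg Subtype.val hk
    simpa using this
  have h1 : (Equiv.Perm.sign g) ^ (p ^ k) = 1 := by
    rw [← map_pow, hk', map_one]
  rcases Int.units_eq_one_or (Equiv.Perm.sign g) with h | h
  · exact h
  · exfalso
    rw [h] at h1
    have hodd : Odd (p ^ k) := (hp.odd_of_ne_two hp2).pow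
    rw [Odd.neg_one_pow hodd] at h1
    exact absurd h1 (by decide)

section wreath

variable (p : ℕ) [Fact p.Prime]

/-- the base group element: `(x, y) ↦ (x, y + f x)`. -/
def baseHom : Multiplicative (ZMod p → ZMod p) →* Equiv.Perm (ZMod p × ZMod p) where
  toFun f :=
    { toFun := fun z => (z.1, z.2 + Multiplicative.toAdd f z.1)
      invFun := fun z => (z.1, z.2 - Multiplicative.toAdd f z.1)
      left_inv := fun z => by simp
      right_inv := fun z => by simp }
  map_one' := by ext z <;> simp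
  map_mul' f g := by
    ext z <;> simp [add_comm, add_left_comm]

/-- the shift: `(x, y) ↦ (x + 1, y)`. -/
def shift : Equiv.Perm (ZMod p × ZMod p) where
  toFun z := (z.1 + 1, z.2)
  invFun z := (z.1 - 1, z.2)
  left_inv z := by simp
  right_inv z := by simp

theorem shift_pow (k : ℕ) (z : ZMod p × ZMod p) : ((shift p) ^ k) z = (z.1 + k, z.2) := by
  induction k generalizing z with
  | zero => simp
  | succ k ih =>
    rw [pow_succ, Equiv.Perm.mul_apply, ih]
    show ((z.1 + 1) + (k : ZMod p), z.2) = (z.1 + ((k + 1 : ℕ) : ZMod p), z.2)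
    congr 1
    push_cast
    ring

theorem shift_pow_p : (shift p) ^ p = 1 := by
  ext z <;> simp [shift_pow]

theorem shift_conj (f : Multiplicative (ZMod p → ZMod p)) :
    shift p * baseHom p f * (shift p)⁻¹ =
      baseHom p (Multiplicative.ofAdd fun x => Multiplicative.toAdd f (x - 1)) := by
  ext z <;> simp [shift, baseHom, Equiv.Perm.inv_def, Equiv.symm]

theorem shift_conj' (f : Multiplicative (ZMod p → ZMod p)) :
    (shift p)⁻¹ * baseHom p f * shift p =
      baseHom p (Multiplicative.ofAdd fun x => Multiplicative.toAdd f (x + 1)) := by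
  ext z <;> simp [shift, baseHom, Equiv.Perm.inv_def, Equiv.symm]

/-- the wreath product `C_p ≀ C_p` as a subgroup. -/
def wreath : Subgroup (Equiv.Perm (ZMod p × ZMod p)) :=
  Subgroup.zpowers (shift p) ⊔ (baseHom p).range

theorem wreath_isPGroup : IsPGroup p (wreath p) := by
  have hp : p.Prime := Fact.out
  apply IsPGroup.to_sup_of_normal_right'
  · -- zpowers
    rintro ⟨g, hg⟩
    obtain ⟨j, rfl⟩ := Subgroup.mem_zpowers_iff.mp hg
    refine ⟨1, ?_⟩
    apply Subtype.ext
    simp only [pow_one, Subgroup.coe_pow, Subgroup.coe_one]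
    rw [← zpow_natCast, ← zpow_mul, mul_comm, zpow_mul, zpow_natCast, shift_pow_p, one_zpow]
  · -- base
    have h1 : IsPGroup p (Multiplicative (ZMod p → ZMod p)) := by
      apply IsPGroup.of_card (n := p)
      rw [Nat.card_eq_fintype_card]
      simp [ZMod.card]
    have h2 : IsPGroup p ((⊤ : Subgroup (Multiplicative (ZMod p → ZMod p))).map (baseHom p)) :=
      (h1.to_subgroup ⊤).map _
    rwa [← MonoidHom.range_eq_map] at h2
  · rw [Subgroup.zpowers_le, Subgroup.mem_normalizer_iff]
    intro h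
    constructor
    · rintro ⟨f, rfl⟩
      exact ⟨_, (shift_conj p f).symm⟩
    · rintro ⟨f, hf⟩
      refine ⟨Multiplicative.ofAdd fun x => Multiplicative.toAdd f (x + 1), ?_⟩
      rw [← shift_conj', hf]
      group

theorem wreath_not_comm : ∃ a ∈ wreath p, ∃ b ∈ wreath p, a * b ≠ b * a := by
  have hp : p.Prime := Fact.out
  refine ⟨shift p, ?_, baseHom p (Multiplicative.ofAdd fun x => x), ?_, ?_⟩
  · exact Subgroup.mem_sup_left (Subgroup.mem_zpowers _)
  · exact Subgroup.mem_sup_right ⟨_, rfl⟩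
  · intro h
    have h1 := congrArg (fun e : Equiv.Perm (ZMod p × ZMod p) => (e (0, 0)).2) h
    simp [shift, baseHom] at h1

end wreath





theorem zpowers_isPGroup {G : Type*} [Group G] {p : ℕ} (g : G) (k : ℕ) (h : g ^ (p ^ k) = 1) :
    IsPGroup p (Subgroup.zpowers g) := by
  rintro ⟨x, hx⟩
  obtain ⟨j, rfl⟩ := Subgroup.mem_zpowers_iff.mp hx
  refine ⟨k, ?_⟩
  apply Subtype.ext
  simp only [Subgroup.coe_pow, Subgroup.coe_one]
  rw [← zpow_natCast, ← zpow_mul, mul_comm, zpow_mul, zpow_natCast, h, one_zpow]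

theorem mem_normalizer_zpowers {G : Type*} [Group G] (a b : G)
    (h1 : b * a * b⁻¹ ∈ Subgroup.zpowers a) (h2 : b⁻¹ * a * b ∈ Subgroup.zpowers a) :
    b ∈ Subgroup.normalizer (Subgroup.zpowers a : Set G) := by
  rw [Subgroup.mem_normalizer_iff]
  intro h
  constructor
  · rintro ⟨j, rfl⟩
    show b * a ^ j * b⁻¹ ∈ Subgroup.zpowers a
    rw [← conj_zpow]
    exact Subgroup.zpow_mem _ h1 j
  · rintro ⟨j, hj⟩
    have hj' : a ^ j = b * h * b⁻¹ := hj
    have h3 : h = (b⁻¹ * a * b) ^ j := by
      have h4 := conj_zpow (a := b⁻¹) (b := a) (i := j)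
      rw [inv_inv] at h4
      rw [h4, hj']
      group
    rw [h3]
    exact Subgroup.zpow_mem _ h2 j

/-- the rotation `(0 1 2 3)(4 5)` -/
def rot : Equiv.Perm (Fin 6) := Equiv.swap 0 1 * Equiv.swap 1 2 * Equiv.swap 2 3 * Equiv.swap 4 5

/-- the reflection `(0 2)(4 5)` -/
def refl : Equiv.Perm (Fin 6) := Equiv.swap 0 2 * Equiv.swap 4 5

theorem rot_pow : rot ^ (2 ^ 2) = 1 := by decide
theorem refl_pow : refl ^ (2 ^ 1) = 1 := by decide
theorem refl_rot : refl * rot * refl⁻¹ = rot⁻¹ := by decide
theorem refl_rot' : refl⁻¹ * rot * refl = rot⁻¹ := by decide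
theorem rot_refl_ne : rot * refl ≠ refl * rot := by decide
theorem sign_rot : Equiv.Perm.sign rot = 1 := by decide
theorem sign_refl : Equiv.Perm.sign refl = 1 := by decide

/-- the dihedral group of order 8 inside `A_6`. -/
def dih : Subgroup (Equiv.Perm (Fin 6)) := Subgroup.zpowers refl ⊔ Subgroup.zpowers rot

theorem dih_isPGroup : IsPGroup 2 dih := by
  apply IsPGroup.to_sup_of_normal_right'
  · exact zpowers_isPGroup refl 1 refl_pow
  · exact zpowers_isPGroup rot 2 rot_pow
  · rw [Subgroup.zpowers_le]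
    apply mem_normalizer_zpowers
    · rw [refl_rot]; exact Subgroup.inv_mem _ (Subgroup.mem_zpowers _)
    · rw [refl_rot']; exact Subgroup.inv_mem _ (Subgroup.mem_zpowers _)

theorem dih_le : dih ≤ alternatingGroup (Fin 6) := by
  apply sup_le
  · rw [Subgroup.zpowers_le]; exact Equiv.Perm.mem_alternatingGroup.mpr sign_refl
  · rw [Subgroup.zpowers_le]; exact Equiv.Perm.mem_alternatingGroup.mpr sign_rot


theorem exists_nonabelian (n p : ℕ) [Fact p.Prime] (hn : 6 ≤ n) (hnp : p ^ 2 ≤ n) :
    ∃ H : Subgroup (Equiv.Perm (Fin n)), IsPGroup p H ∧ H ≤ alternatingGroup (Fin n) ∧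
      ∃ a ∈ H, ∃ b ∈ H, a * b ≠ b * a := by
  classical
  have hp : p.Prime := Fact.out
  by_cases hp2 : p = 2
  · subst hp2
    let ι : Fin 6 ↪ Fin n := Fin.castLEEmb hn
    let Φ : Equiv.Perm (Fin 6) →* Equiv.Perm (Fin n) := Equiv.Perm.extendDomainHom ι.toEquivRange
    have hΦ : Function.Injective Φ := Equiv.Perm.extendDomainHom_injective _
    refine ⟨dih.map Φ, dih_isPGroup.map Φ, ?_, Φ rot, ?_, Φ refl, ?_, ?_⟩
    · rintro _ ⟨g, hg, rfl⟩
      rw [Equiv.Perm.mem_alternatingGroup]
      have h1 : Equiv.Perm.sign (Φ g) = Equiv.Perm.sign g := Equiv.Perm.sign_extendDomain g _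
      rw [h1]
      exact Equiv.Perm.mem_alternatingGroup.mp (dih_le hg)
    · exact ⟨rot, Subgroup.mem_sup_right (Subgroup.mem_zpowers _), rfl⟩
    · exact ⟨refl, Subgroup.mem_sup_left (Subgroup.mem_zpowers _), rfl⟩
    · intro h
      rw [← map_mul, ← map_mul] at h
      exact rot_refl_ne (hΦ h)
  · have hcard : Fintype.card (ZMod p × ZMod p) ≤ Fintype.card (Fin n) := by
      rw [Fintype.card_prod, ZMod.card, Fintype.card_fin]
      calc p * p = p ^ 2 := by ring
        _ ≤ n := hnp
    obtain ⟨ι⟩ := Function.Embedding.nonempty_of_card_le hcard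
    let Φ : Equiv.Perm (ZMod p × ZMod p) →* Equiv.Perm (Fin n) :=
      Equiv.Perm.extendDomainHom ι.toEquivRange
    have hΦ : Function.Injective Φ := Equiv.Perm.extendDomainHom_injective _
    obtain ⟨a, ha, b, hb, hab⟩ := wreath_not_comm p
    have hH : IsPGroup p ((wreath p).map Φ) := (wreath_isPGroup p).map Φ
    refine ⟨(wreath p).map Φ, hH, le_alternating_of_odd hp2 _ hH, Φ a, ⟨a, ha, rfl⟩,
      Φ b, ⟨b, hb, rfl⟩, ?_⟩
    intro h
    rw [← map_mul, ← map_mul] at h
    exact hab (hΦ h)

theorem result (n p : ℕ) (hn : 6 ≤ n) [Fact p.Prime] (S : Sylow p (alternatingGroup (Fin n))) (hS : (S : Subgroup (alternatingGroup (Fin n))) ≠ ⊥) : IsMulCommutative S ↔ n < p ^ 2 := by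
  constructor
  · intro hcomm
    by_contra hlt
    push Not at hlt
    obtain ⟨H, hH, hHalt, a, ha, b, hb, hab⟩ := exists_nonabelian n p hn hlt
    let H' : Subgroup (alternatingGroup (Fin n)) := H.subgroupOf (alternatingGroup (Fin n))
    have hH' : IsPGroup p H' := hH.comap_of_injective _ (Subgroup.subtype_injective _)
    obtain ⟨Q, hQ⟩ := hH'.exists_le_sylow
    obtain ⟨g, hg⟩ := MulAction.exists_smul_eq (alternatingGroup (Fin n)) S Q
    let a' : alternatingGroup (Fin n) := ⟨a, hHalt ha⟩
    let b' : alternatingGroup (Fin n) := ⟨b, hHalt hb⟩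
    have ha' : a' ∈ Q := hQ (show a ∈ H from ha)
    have hb' : b' ∈ Q := hQ (show b ∈ H from hb)
    rw [← hg] at ha' hb'
    have key : ∀ x : alternatingGroup (Fin n), x ∈ g • S →
        g⁻¹ * x * g ∈ (S : Subgroup (alternatingGroup (Fin n))) := by
      intro x hx
      have h7 : x ∈ MulAut.conj g • (S : Subgroup (alternatingGroup (Fin n))) := by
        rw [← Sylow.coe_subgroup_smul]; exact hx
      rw [Subgroup.mem_pointwise_smul_iff_inv_smul_mem] at h7
      simpa [MulAut.smul_def, mul_assoc] using h7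
    have hc := hcomm.is_comm.comm ⟨g⁻¹ * a' * g, key a' ha'⟩ ⟨g⁻¹ * b' * g, key b' hb'⟩
    have hc' : g⁻¹ * a' * g * (g⁻¹ * b' * g) = g⁻¹ * b' * g * (g⁻¹ * a' * g) :=
      congrArg Subtype.val hc
    have hc'' : a' * b' = b' * a' := by
      have h8 : a' * b' = g * (g⁻¹ * a' * g * (g⁻¹ * b' * g)) * g⁻¹ := by group
      rw [h8, hc']
      group
    exact hab (congrArg Subtype.val hc'')
  · intro hlt
    refine ⟨⟨fun a b => ?_⟩⟩
    apply Subtype.ext
    apply Subtype.ext
    exact comm_of_small ((S : Subgroup (alternatingGroup (Fin n))).map (alternatingGroup (Fin n)).subtype)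
      (S.isPGroup'.map _) (by simpa using hlt) a b ⟨a, a.2, rfl⟩ ⟨b, b.2, rfl⟩

end Cfsg.Agent.S5164
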