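import Cfsg.Statements.S5166
import Cfsg.Agent.Lib.Helper86.M11Syl
import Cfsg.Agent.Lib.Helper86.SD16
import Cfsg.Agent.Lib.Helper86.FSSimple

set_option autoImplicit false
open Cfsg

namespace Cfsg.Agent.S5166

open Cfsg.Agent.Lib.Helper86.SD16 Cfsg.Agent.Lib.Helper86.FSSimple

/-- A finite group with a semidihedral Sylow 2-subgroup `⟨a, b⟩` of order 16 in which `a⁴` is
conjugate to `b` and `a²` to `a⁵ b` has a simple 2-fusion system. -/
theorem simple_of_sd16 {G : Type*} [Group G] [Finite G] {a b g₁ g₂ : G} (rel : Rel a b)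
    (h1 : g₁ * a ^ 4 * g₁⁻¹ = b) (h2 : g₂ * a ^ 2 * g₂⁻¹ = a ^ 5 * b) (S : Sylow 2 G)
    (hS : (S : Subgroup G) = Subgroup.closure ({a, b} : Set G)) :
    (groupFusionSystem (S : Subgroup G)).IsSimple 2 := by
  apply simple_of_aut_pGroup 2 S
  · intro hbot
    have ha : a ∈ (S : Subgroup G) := hS ▸ Rel.a_mem a b
    rw [hbot, Subgroup.mem_bot] at ha
    apply rel.a4
    rw [ha, one_pow]
  · intro T hT
    by_cases hT0 : T = ⊥
    · exact Or.inl hT0
    · right
      apply le_antisymm hT.1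
      rw [hS]
      refine rel.le_of_closed h1 h2 (hS ▸ hT.1) hT0 ?_
      intro x hx g hg
      exact stronglyClosed_conj hT hx g (hS ▸ hg)
  · intro n hn
    refine ⟨2, ?_⟩
    intro x hx
    rw [hS] at hn hx
    exact rel.pow_four_comm hn hx

theorem card_sylow (P : Sylow 2 Cfsg.Spor.M11) : Nat.card (P : Subgroup Cfsg.Spor.M11) = 16 := by
  rw [Sylow.card_eq_multiplicity, Cfsg.Agent.Lib.Helper86.M11Core.card_M11]
  have h : (7920 : ℕ) = 2 ^ 4 * 495 := by norm_num
  rw [Nat.factorization_def _ Nat.prime_two, h]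
  rw [padicValNat.mul (by norm_num) (by norm_num), padicValNat.prime_pow,
    padicValNat.eq_zero_of_not_dvd (by norm_num)]
  rfl

/-- The 2-fusion system of the Mathieu group M₁₁ (as the explicit permutation group carved out of the automorphism group of the binary Golay code) on a Sylow 2-subgroup is simple: saturated, over a nontrivial 2-group, with no normal subsystem other than the trivial one and itself. -/
theorem result (S : Sylow 2 Cfsg.Spor.M11) : (Cfsg.groupFusionSystem (S : Subgroup Cfsg.Spor.M11)).IsSimple 2 := by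
  obtain ⟨a, b, g₁, g₂, ha, hb, hg₁, hg₂, h8, h4, hb2, hba, hf1, hf2⟩ :=
    Cfsg.Agent.Lib.Helper86.M11Syl.exists_data
  -- the data inside the group `M11`
  set a' : Cfsg.Spor.M11 := ⟨a, ha⟩ with ha'
  set b' : Cfsg.Spor.M11 := ⟨b, hb⟩ with hb'
  set k₁ : Cfsg.Spor.M11 := ⟨g₁, hg₁⟩ with hk₁
  set k₂ : Cfsg.Spor.M11 := ⟨g₂, hg₂⟩ with hk₂
  have rel : Rel a' b' :=
    { a8 := Subtype.ext (by simpa [ha'] using h8)
      a4 := by
        intro h
        apply h4
        have := congrArg Subtype.val h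
        simpa [ha'] using this
      b2 := Subtype.ext (by simpa [hb'] using hb2)
      ba := Subtype.ext (by simpa [ha', hb'] using hba) }
  have e1 : k₁ * a' ^ 4 * k₁⁻¹ = b' := Subtype.ext (by simpa [ha', hb', hk₁] using hf1)
  have e2 : k₂ * a' ^ 2 * k₂⁻¹ = a' ^ 5 * b' := Subtype.ext (by simpa [ha', hb', hk₂] using hf2)
  -- a Sylow 2-subgroup equal to `⟨a, b⟩`
  obtain ⟨P, hP⟩ := rel.isPGroup.exists_le_sylow
  have hPeq : Subgroup.closure ({a', b'} : Set Cfsg.Spor.M11) = (P : Subgroup Cfsg.Spor.M11) :=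
    rel.closure_eq_of_card hP (card_sylow P)
  -- move to the given Sylow subgroup
  obtain ⟨h, rfl⟩ := MulAction.exists_smul_eq (↥Cfsg.Spor.M11) P S
  set f : Cfsg.Spor.M11 →* Cfsg.Spor.M11 := (MulAut.conj h).toMonoidHom with hf
  have hinj : Function.Injective f := (MulAut.conj h).injective
  have hSeq : ((h • P : Sylow 2 Cfsg.Spor.M11) : Subgroup Cfsg.Spor.M11) =
      Subgroup.closure ({f a', f b'} : Set Cfsg.Spor.M11) := by
    rw [← Set.image_pair, ← MonoidHom.map_closure, hPeq, Sylow.coe_subgroup_smul,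
      Subgroup.pointwise_smul_def]
    rfl
  refine simple_of_sd16 (rel.map f hinj) (g₁ := f k₁) (g₂ := f k₂) ?_ ?_ _ hSeq
  · rw [← map_pow, ← map_inv, ← map_mul, ← map_mul, e1]
  · rw [← map_pow, ← map_inv, ← map_mul, ← map_mul, e2, map_mul, map_pow]

end Cfsg.Agent.S5166
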