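import Cfsg.Statements.S5170
import Cfsg.Agent.Lib.Helper86.SylM24
import Cfsg.Agent.Lib.Helper86.TabFinal

set_option autoImplicit false
open Cfsg

namespace Cfsg.Agent.S5170

open Cfsg.Agent.Lib.Helper86.TabMathieu Cfsg.Agent.Lib.Helper86.SylM24
  Cfsg.Agent.Lib.Helper86.TabFinal

/-- The 2-fusion system of the Mathieu group M₂₄ (as the explicit permutation group of the 24 points preserving the binary Golay code) on a Sylow 2-subgroup is simple: saturated, over a nontrivial 2-group, with no normal subsystem other than the trivial one and itself. -/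
theorem result (S : Sylow 2 Cfsg.M24) : (Cfsg.groupFusionSystem (S : Subgroup Cfsg.M24)).IsSimple 2 := by
  exact simple_of_tab grpLe 10 239085 card_grp
    (by rw [Cfsg.Agent.Lib.Helper7.M24Main.card_M24]; norm_num) (by norm_num) (by norm_num)
    norm_le closed S

end Cfsg.Agent.S5170
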