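import Cfsg.Statements.S5345

set_option autoImplicit false
open Cfsg

namespace Cfsg.Agent.S5345

/-- Let D be a conjugation-invariant generating set of 3-transpositions of a finite group G and T a Sylow 2-subgroup of G. Then the members of D lying in T generate an abelian subgroup, and their number is the width of D (the largest number of pairwise commuting members of D). -/
theorem result {G : Type*} [Group G] [Finite G] {D : Set G} (hD : Cfsg.IsThreeTranspositionGroup D) (T : Sylow 2 G) : IsMulCommutative (Subgroup.closure {d : G | d ∈ D ∧ d ∈ T}) ∧ {d : G | d ∈ D ∧ d ∈ T}.ncard = Cfsg.commutingWidth D := by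
  obtain ⟨⟨hord, h23⟩, hconj, hgen⟩ := hD
  have sq : ∀ x ∈ D, x * x = 1 := by
    intro x hx
    have := hord x hx
    rw [← pow_two, ← this]; exact pow_orderOf_eq_one x
  have invD : ∀ x ∈ D, x⁻¹ = x := fun x hx => inv_eq_of_mul_eq_one_right (sq x hx)
  have hcomm : ∀ x ∈ {d : G | d ∈ D ∧ d ∈ T}, ∀ y ∈ {d : G | d ∈ D ∧ d ∈ T}, x * y = y * x := by
    rintro x ⟨hxD, hxT⟩ y ⟨hyD, hyT⟩
    have hxy : x * y ∈ (T : Subgroup G) := (T : Subgroup G).mul_mem hxT hyT
    obtain ⟨k, hk⟩ := T.isPGroup' ⟨x * y, hxy⟩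
    have hk' : (x * y) ^ (2 ^ k) = 1 := by
      have := congrArg Subtype.val hk
      simpa using this
    have h2 : (x * y) ^ 2 = 1 := by
      rcases h23 x hxD y hyD with h | h
      · exact h
      · have h1 : (x * y) ^ (Nat.gcd (2 ^ k) 3) = 1 := pow_gcd_eq_one.mpr ⟨hk', h⟩
        have hc : Nat.gcd (2 ^ k) 3 = 1 := Nat.Coprime.pow_left k (by norm_num)
        rw [hc, pow_one] at h1
        rw [h1, one_pow]
    have : x * y = (x * y)⁻¹ := by
      rw [eq_comm, inv_eq_iff_mul_eq_one, ← pow_two]; exact h2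
    rw [this, mul_inv_rev, invD x hxD, invD y hyD]
  refine ⟨Subgroup.isMulCommutative_closure hcomm, ?_⟩
  have hmem : {d : G | d ∈ D ∧ d ∈ T}.ncard ∈ {n : ℕ | ∃ E : Set G, E ⊆ D ∧ E.Finite ∧ (∀ a ∈ E, ∀ b ∈ E, Commute a b) ∧ E.ncard = n} :=
    ⟨_, fun x hx => hx.1, Set.toFinite _, fun a ha b hb => hcomm a ha b hb, rfl⟩
  unfold commutingWidth
  apply le_antisymm
  · apply le_csSup
    · refine ⟨Nat.card G, ?_⟩
      rintro n ⟨E, hED, hEfin, hEc, rfl⟩
      exact Set.ncard_le_card E
    · exact hmem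
  · apply csSup_le ⟨_, hmem⟩
    rintro n ⟨E, hED, hEfin, hEc, rfl⟩
    have hc := Subgroup.isMulCommutative_closure (k := E) (fun x hx y hy => hEc x hx y hy)
    have hsq : ∀ x ∈ Subgroup.closure E, x ^ 2 = 1 := by
      intro x hx
      induction hx using Subgroup.closure_induction with
      | mem x hx => rw [pow_two]; exact sq x (hED hx)
      | one => simp
      | mul x y hx hy ihx ihy =>
        have hxy : x * y = y * x := by
          have := hc.is_comm.comm ⟨x, hx⟩ ⟨y, hy⟩
          exact congrArg Subtype.val this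
        rw [pow_two] at ihx ihy ⊢
        calc x * y * (x * y) = x * (y * x) * y := by group
          _ = x * (x * y) * y := by rw [hxy]
          _ = (x * x) * (y * y) := by group
          _ = 1 := by rw [ihx, ihy, one_mul]
      | inv x hx ih =>
        rw [inv_pow, ih, inv_one]
    have hP : IsPGroup 2 (Subgroup.closure E) := by
      intro g
      refine ⟨1, ?_⟩
      apply Subtype.ext
      simpa using hsq g g.2
    obtain ⟨Q, hQ⟩ := hP.exists_le_sylow
    obtain ⟨g, hg⟩ := MulAction.exists_smul_eq G Q T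
    have hsub : (fun x => g * x * g⁻¹) '' E ⊆ {d : G | d ∈ D ∧ d ∈ T} := by
      rintro _ ⟨x, hx, rfl⟩
      refine ⟨hconj g x (hED hx), ?_⟩
      have hxQ : x ∈ (Q : Subgroup G) := hQ (Subgroup.subset_closure hx)
      have : g * x * g⁻¹ ∈ ((g • Q : Sylow 2 G) : Subgroup G) := by
        rw [Sylow.coe_subgroup_smul]
        have := Subgroup.smul_mem_pointwise_smul x (MulAut.conj g) (Q : Subgroup G) hxQ
        simpa [MulAut.smul_def] using this
      rw [hg] at this
      exact this
    have hinj : Function.Injective (fun x : G => g * x * g⁻¹) := by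
      intro x y hxy
      simpa using hxy
    calc E.ncard = ((fun x => g * x * g⁻¹) '' E).ncard := (Set.ncard_image_of_injective _ hinj).symm
      _ ≤ {d : G | d ∈ D ∧ d ∈ T}.ncard := Set.ncard_le_ncard hsub (Set.toFinite _)

end Cfsg.Agent.S5345
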