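import Cfsg.Statements.S5353
import Cfsg.Agent.Lib.Helper21.W3Prim

set_option autoImplicit false
open Cfsg

namespace Cfsg.Agent.S5353

/-- Let D be a conjugacy class of 3-transpositions generating the finite group G, with at least two members, such that the largest normal 2-subgroup and the largest normal 3-subgroup of G are central, and let L be a quasisimple normal subgroup with generalized Fitting subgroup of G equal to L times the centre. If L has index at most 2 then G acts primitively on D by conjugation; and if the commuting graph of D is connected then L has index at most 2. -/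
theorem result {G : Type*} [Group G] [Finite G] {D : Set G} (hD : Cfsg.IsThreeTranspositionClass D) (hD2 : ∃ a ∈ D, ∃ b ∈ D, a ≠ b) (h2 : Cfsg.pCore 2 G ≤ Subgroup.center G) (h3 : Cfsg.pCore 3 G ≤ Subgroup.center G) (L : Subgroup G) [L.Normal] (hL : Cfsg.IsQuasisimple L) (hF : Cfsg.generalizedFittingSubgroup G = L ⊔ Subgroup.center G) : (L.index ≤ 2 → Cfsg.IsPrimitiveUnderConj D) ∧ ((Cfsg.commutingGraph D).Connected → L.index ≤ 2) := by
  exact Cfsg.Agent.Lib.Helper21.W3Prim.s5353 hD hD2 h2 h3 L inferInstance hL hF

end Cfsg.Agent.S5353
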