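import Cfsg.Statements.S5355
import Cfsg.Agent.S5344

set_option autoImplicit false
open Cfsg

namespace Cfsg.Agent.S5355

open Equiv in
/-- Let D be a conjugacy class of 3-transpositions generating the finite group G, with at least two members, and d a member of D. Suppose that every member of D commuting with d commutes with exactly the same members of D as d does, and that exactly one member of D other than d commutes with d. Then G is isomorphic to the symmetric group of degree 4. -/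
theorem result {G : Type*} [Group G] [Finite G] {D : Set G} (hD : Cfsg.IsThreeTranspositionClass D) (hD2 : ∃ a ∈ D, ∃ b ∈ D, a ≠ b) {d : G} (hd : d ∈ D) (hV : {y : G | y ∈ D ∧ Commute d y} = {v : G | v ∈ D ∧ ∀ e ∈ D, Commute v e ↔ Commute d e}) (hm : {y : G | y ∈ D ∧ Commute d y}.ncard = 2) : Nonempty (G ≃* Equiv.Perm (Fin 4)) := by
  obtain ⟨hD3, ⟨d₀, hd₀, hclass⟩, hgen⟩ := hD
  have hD3' := hD3
  obtain ⟨hord, h23⟩ := hD3
  have memc : ∀ x, x ∈ conjugatesOf d₀ ↔ IsConj d₀ x := fun x => Iff.rfl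
  have hconj : ∀ g : G, ∀ x ∈ D, g * x * g⁻¹ ∈ D := by
    intro g x hx
    rw [hclass] at hx ⊢
    rw [memc] at hx ⊢
    exact hx.trans (isConj_iff.mpr ⟨g, rfl⟩)
  have htrans : ∀ x ∈ D, ∃ g : G, x = g * d * g⁻¹ := by
    intro x hx
    have hd' := hd
    rw [hclass] at hx hd'
    rw [memc] at hx hd'
    obtain ⟨g, hg⟩ := isConj_iff.mp (hd'.symm.trans hx)
    exact ⟨g, hg.symm⟩
  -- C_D(d) = {d, a}
  obtain ⟨x, y, hxy, hset⟩ := Set.ncard_eq_two.mp hm
  have hdmem : d ∈ {y : G | y ∈ D ∧ Commute d y} := ⟨hd, Commute.refl d⟩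
  obtain ⟨a, haD, hda, had, hCd⟩ : ∃ a, a ∈ D ∧ Commute d a ∧ a ≠ d ∧
      ∀ y ∈ D, Commute d y → y = d ∨ y = a := by
    have hx : x ∈ {y : G | y ∈ D ∧ Commute d y} := by rw [hset]; exact Set.mem_insert _ _
    have hy : y ∈ {y : G | y ∈ D ∧ Commute d y} := by
      rw [hset]; exact Set.mem_insert_of_mem _ rfl
    rw [hset] at hdmem
    rcases hdmem with h | h
    · refine ⟨y, hy.1, hy.2, ?_, ?_⟩
      · rw [h]; exact hxy.symm
      · intro z hz hc
        have : z ∈ ({x, y} : Set G) := by rw [← hset]; exact ⟨hz, hc⟩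
        rcases this with h' | h'
        · left; rw [h', h]
        · right; exact h'
    · rw [Set.mem_singleton_iff] at h
      refine ⟨x, hx.1, hx.2, ?_, ?_⟩
      · rw [h]; exact hxy
      · intro z hz hc
        have : z ∈ ({x, y} : Set G) := by rw [← hset]; exact ⟨hz, hc⟩
        rcases this with h' | h'
        · right; exact h'
        · left; rw [h', h]
  have haV : ∀ e ∈ D, Commute a e ↔ Commute d e := by
    have : a ∈ {v : G | v ∈ D ∧ ∀ e ∈ D, Commute v e ↔ Commute d e} := by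
      rw [← hV]; exact ⟨haD, hda⟩
    exact this.2
  -- unique partner property
  have hP : ∀ x ∈ D, ∀ p ∈ D, p ≠ x → Commute x p → ∀ y ∈ D, Commute x y → y = x ∨ y = p := by
    intro x hx p hp hpx hxp y hy hxy
    obtain ⟨g, rfl⟩ := htrans x hx
    have key : ∀ z ∈ D, Commute (g * d * g⁻¹) z → z = g * d * g⁻¹ ∨ z = g * a * g⁻¹ := by
      intro z hz hc
      have hz' : g⁻¹ * z * g ∈ D := by simpa using hconj g⁻¹ z hz
      have hc' : Commute d (g⁻¹ * z * g) := by
        have := hc.eq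
        show d * (g⁻¹ * z * g) = g⁻¹ * z * g * d
        calc d * (g⁻¹ * z * g) = g⁻¹ * ((g * d * g⁻¹) * z) * g := by group
          _ = g⁻¹ * (z * (g * d * g⁻¹)) * g := by rw [this]
          _ = g⁻¹ * z * g * d := by group
      rcases hCd _ hz' hc' with h | h
      · left; rw [← h]; group
      · right; rw [← h]; group
    rcases key p hp hxp with h | h
    · exact absurd h hpx
    · rcases key y hy hxy with h' | h'
      · left; exact h'
      · right; rw [h', h]
  -- some e in D does not commute with d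
  have hex : ∃ e ∈ D, ¬ Commute d e := by
    by_contra hcon
    push Not at hcon
    have hcen : ∀ g : G, g * d = d * g := by
      have : Subgroup.closure D ≤ Subgroup.centralizer {d} := by
        rw [Subgroup.closure_le]
        intro y hy
        rw [SetLike.mem_coe, Subgroup.mem_centralizer_iff]
        intro h hh
        rw [Set.mem_singleton_iff] at hh
        rw [hh]; exact (hcon y hy).eq
      rw [hgen] at this
      intro g
      have h1 := this (Subgroup.mem_top g)
      rw [Subgroup.mem_centralizer_iff] at h1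
      exact (h1 d rfl).symm
    obtain ⟨g, hg⟩ := htrans a haD
    apply had
    rw [hg, hcen g, mul_inv_cancel_right]
  obtain ⟨e, heD, hde⟩ := hex
  have hea : ¬ Commute e a := fun h => hde ((haV e heD).mp h.symm)
  obtain ⟨φ, hinj, h01, h12, h23'⟩ :=
    Cfsg.Agent.S5344.result hD3' hd heD haD had.symm hda hde hea
  have hφconj : ∀ σ τ : Perm (Fin 4), φ τ ∈ D → φ (σ * τ * σ⁻¹) ∈ D := by
    intro σ τ h; rw [map_mul, map_mul, map_inv]; exact hconj _ _ h
  have m01 : φ (swap 0 1) ∈ D := h01 ▸ hd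
  have m12 : φ (swap 1 2) ∈ D := h12 ▸ heD
  have m23 : φ (swap 2 3) ∈ D := h23' ▸ haD
  have m03 : φ (swap 0 3) ∈ D := by
    have : (swap 0 3 : Perm (Fin 4)) =
        (swap 0 1 * swap 2 3) * swap 1 2 * (swap 0 1 * swap 2 3)⁻¹ := by decide
    rw [this]; exact hφconj _ _ m12
  have m02 : φ (swap 0 2) ∈ D := by
    have : (swap 0 2 : Perm (Fin 4)) = swap 1 2 * swap 0 1 * (swap 1 2)⁻¹ := by decide
    rw [this]; exact hφconj _ _ m01
  have m13 : φ (swap 1 3) ∈ D := by
    have : (swap 1 3 : Perm (Fin 4)) = swap 1 2 * swap 2 3 * (swap 1 2)⁻¹ := by decide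
    rw [this]; exact hφconj _ _ m23
  have hsurj : ∀ f ∈ D, f ∈ φ.range := by
    intro f hf
    by_contra hfr
    have pair : ∀ τ τ' : Perm (Fin 4), φ τ ∈ D → φ τ' ∈ D → τ ≠ τ' → τ * τ' = τ' * τ →
        ∀ q ∈ D, q ≠ f → Commute f q → (∀ y ∈ D, Commute f y → y = f ∨ y = q) →
          φ (τ * τ') * f * (φ (τ * τ'))⁻¹ = q := by
      intro τ τ' hτ hτ' hne hcomm q hq hqf hfq hPf
      have hne' : φ τ ≠ φ τ' := fun h => hne (hinj h)
      have hc : Commute (φ τ) (φ τ') := by
        show φ τ * φ τ' = φ τ' * φ τ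
        rw [← map_mul, ← map_mul, hcomm]
      have h1 : ¬ Commute (φ τ) f := by
        intro h
        rcases hP (φ τ) hτ (φ τ') hτ' hne'.symm hc f hf h with h' | h'
        · exact hfr ⟨τ, h'.symm⟩
        · exact hfr ⟨τ', h'.symm⟩
      have h2 : ¬ Commute f (φ τ') := by
        intro h
        rcases hP (φ τ') hτ' (φ τ) hτ hne' hc.symm f hf h.symm with h' | h'
        · exact hfr ⟨τ', h'.symm⟩
        · exact hfr ⟨τ, h'.symm⟩
      obtain ⟨ψ, ψinj, ψ01, ψ12, ψ23⟩ :=
        Cfsg.Agent.S5344.result hD3' hτ hf hτ' hne' hc h1 h2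
      have hx : φ (τ * τ') * f * (φ (τ * τ'))⁻¹ =
          ψ (swap 0 1 * swap 2 3 * swap 1 2 * (swap 0 1 * swap 2 3)⁻¹) := by
        simp only [map_mul, map_inv, ψ01, ψ12, ψ23]
      have hxD : φ (τ * τ') * f * (φ (τ * τ'))⁻¹ ∈ D := hconj _ _ hf
      have hf12 : f = ψ (swap 1 2) := ψ12.symm
      have hxf : φ (τ * τ') * f * (φ (τ * τ'))⁻¹ ≠ f := by
        rw [hx]
        intro h
        have h' : ψ (swap 0 1 * swap 2 3 * swap 1 2 * (swap 0 1 * swap 2 3)⁻¹) = ψ (swap 1 2) :=
          h.trans hf12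
        have := ψinj h'
        revert this
        decide
      have hxc : Commute f (φ (τ * τ') * f * (φ (τ * τ'))⁻¹) := by
        rw [hx]
        show f * ψ _ = ψ _ * f
        have hperm : (swap 1 2 : Perm (Fin 4)) * (swap 0 1 * swap 2 3 * swap 1 2 * (swap 0 1 * swap 2 3)⁻¹)
            = (swap 0 1 * swap 2 3 * swap 1 2 * (swap 0 1 * swap 2 3)⁻¹) * swap 1 2 := by decide
        calc f * ψ (swap 0 1 * swap 2 3 * swap 1 2 * (swap 0 1 * swap 2 3)⁻¹)
            = ψ (swap 1 2) * ψ (swap 0 1 * swap 2 3 * swap 1 2 * (swap 0 1 * swap 2 3)⁻¹) := by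
              rw [ψ12]
          _ = ψ (swap 0 1 * swap 2 3 * swap 1 2 * (swap 0 1 * swap 2 3)⁻¹) * ψ (swap 1 2) := by
              rw [← map_mul, hperm, map_mul]
          _ = ψ (swap 0 1 * swap 2 3 * swap 1 2 * (swap 0 1 * swap 2 3)⁻¹) * f := by rw [ψ12]
      rcases hPf _ hxD hxc with h | h
      · exact absurd h hxf
      · exact h
    obtain ⟨g, hg⟩ := htrans f hf
    have hqD : g * a * g⁻¹ ∈ D := hconj g a haD
    have hqf : g * a * g⁻¹ ≠ f := by
      rw [hg]; intro h; apply had; simpa using h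
    have hfq : Commute f (g * a * g⁻¹) := by
      rw [hg]
      show g * d * g⁻¹ * (g * a * g⁻¹) = g * a * g⁻¹ * (g * d * g⁻¹)
      have := hda.eq
      calc g * d * g⁻¹ * (g * a * g⁻¹) = g * (d * a) * g⁻¹ := by group
        _ = g * (a * d) * g⁻¹ := by rw [this]
        _ = g * a * g⁻¹ * (g * d * g⁻¹) := by group
    have hPf := hP f hf (g * a * g⁻¹) hqD (fun h => hqf h) hfq
    have e1 := pair (swap 0 1) (swap 2 3) m01 m23 (by decide) (by decide) _ hqD hqf hfq hPf
    have e2 := pair (swap 1 2) (swap 0 3) m12 m03 (by decide) (by decide) _ hqD hqf hfq hPf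
    have e3 := pair (swap 0 2) (swap 1 3) m02 m13 (by decide) (by decide) _ hqD hqf hfq hPf
    have hz : (swap 0 2 * swap 1 3 : Perm (Fin 4)) =
        (swap 0 1 * swap 2 3) * (swap 1 2 * swap 0 3) := by decide
    have hz1 : (swap 0 1 * swap 2 3 : Perm (Fin 4)) * (swap 0 1 * swap 2 3) = 1 := by decide
    rw [hz, map_mul] at e3
    have hsq : φ (swap 0 1 * swap 2 3) * φ (swap 0 1 * swap 2 3) = 1 := by
      rw [← map_mul, hz1, map_one]
    generalize φ (swap 0 1 * swap 2 3) = u at e1 e3 hsq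
    generalize φ (swap 1 2 * swap 0 3) = v at e2 e3
    apply hqf
    calc g * a * g⁻¹ = u * v * f * (u * v)⁻¹ := e3.symm
      _ = u * (v * f * v⁻¹) * u⁻¹ := by group
      _ = u * (g * a * g⁻¹) * u⁻¹ := by rw [e2]
      _ = u * (u * f * u⁻¹) * u⁻¹ := by rw [e1]
      _ = (u * u) * f * (u * u)⁻¹ := by group
      _ = f := by rw [hsq]; group
  have hrange : φ.range = ⊤ := by
    rw [eq_top_iff, ← hgen, Subgroup.closure_le]
    exact fun f hf => hsurj f hf
  exact ⟨(MulEquiv.ofBijective φ ⟨hinj, MonoidHom.range_eq_top.mp hrange⟩).symm⟩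

end Cfsg.Agent.S5355
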