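import Mathlib
import Cfsg.Statements.S5357
import Cfsg.Agent.Lib.Helper44.OMat

set_option autoImplicit false
open Cfsg
open scoped MatrixGroups

namespace Cfsg.Agent.S5357

open Module QuadraticMap Matrix
open Cfsg.Agent.Lib.Helper44.QSpace Cfsg.Agent.Lib.Helper44.OGroup Cfsg.Agent.Lib.Helper44.OMat
open Cfsg.Agent.Lib.Helper44.Split

/-! ### Group-theoretic bookkeeping -/

theorem comm_group {G : Type*} [Group G] {a b : G} (ha : a * a = 1) (hb : b * b = 1)
    (h : a * b * a⁻¹ = b) : (a * b) ^ 2 = 1 := by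
  have ha' : a⁻¹ = a := inv_eq_of_mul_eq_one_left ha
  rw [ha'] at h
  calc (a * b) ^ 2 = (a * b * a) * b := by simp [pow_succ, mul_assoc]
    _ = 1 := by rw [h, hb]

theorem braid_group {G : Type*} [Group G] {a b : G} (ha : a * a = 1) (hb : b * b = 1)
    (h : a * b * a⁻¹ = b * a * b⁻¹) : (a * b) ^ 3 = 1 ∧ (a * b) * a * (a * b)⁻¹ = b := by
  have ha' : a⁻¹ = a := inv_eq_of_mul_eq_one_left ha
  have hb' : b⁻¹ = b := inv_eq_of_mul_eq_one_left hb
  rw [ha', hb'] at h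
  constructor
  · calc (a * b) ^ 3 = (a * b * a) * (b * a * b) := by simp [pow_succ, mul_assoc]
      _ = (a * b * a) * (a * b * a) := by rw [h]
      _ = a * b * (a * a) * b * a := by simp [mul_assoc]
      _ = a * (b * b) * a := by rw [ha]; simp [mul_assoc]
      _ = 1 := by rw [hb, mul_one, ha]
  · rw [_root_.mul_inv_rev, ha', hb']
    calc a * b * a * (b * a) = (a * b * a) * b * a := by simp [mul_assoc]
      _ = (b * a * b) * b * a := by rw [h]
      _ = b * a * (b * b) * a := by simp [mul_assoc]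
      _ = b := by rw [hb, mul_one, mul_assoc, ha, mul_one]

/-! ### Reflections in the abstract orthogonal group -/

section abstract

variable {V : Type*} [AddCommGroup V] [Module (ZMod 3) V]

theorem zmod3_sq : ∀ x : ZMod 3, x ≠ 0 → x * x = 1 := by decide

theorem two_ne : (2 : ZMod 3) ≠ 0 := by decide

theorem refl_conj (Q : QuadraticForm (ZMod 3) V) (g : O Q) (v : V) :
    g * refl Q v * g⁻¹ = refl Q (g.1 v) := Subtype.ext (conj_reflE g.2 v)

theorem refl_comm_rel (Q : QuadraticForm (ZMod 3) V) {u v : V} (h : polar Q u v = 0) :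
    refl Q u * refl Q v * (refl Q u)⁻¹ = refl Q v := by
  rw [refl_conj]
  have e : (refl Q u).1 v = v := reflE_of_orth (by rw [polar_comm]; exact h)
  rw [e]

theorem smul_aux {ε : ZMod 3} (hε2 : ε * ε = 1) (u v : V) :
    u - ε • v = (-ε) • (v - ε • u) := by
  have e4 : (-ε) • (v - ε • u) = (ε * ε) • u - ε • v := by
    rw [smul_sub, smul_smul, neg_smul, neg_mul, neg_smul]
    abel
  rw [e4, hε2, one_smul]

theorem reflE_braid (Q : QuadraticForm (ZMod 3) V) {u v : V} {c : ZMod 3} (hc : c ≠ 0)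
    (hu : Q u = c) (hv : Q v = c) (h : polar Q u v ≠ 0) :
    reflE Q v u = (-(c⁻¹ * polar Q u v)) • reflE Q u v := by
  have hε : c⁻¹ * polar Q u v ≠ 0 := mul_ne_zero (inv_ne_zero hc) h
  rw [reflE_apply, reflE_apply, hu, hv, polar_comm Q v u]
  exact smul_aux (zmod3_sq _ hε) u v

theorem refl_braid_rel (Q : QuadraticForm (ZMod 3) V) {u v : V} {c : ZMod 3} (hc : c ≠ 0)
    (hu : Q u = c) (hv : Q v = c) (h : polar Q u v ≠ 0) :
    refl Q u * refl Q v * (refl Q u)⁻¹ = refl Q v * refl Q u * (refl Q v)⁻¹ := by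
  have hε : c⁻¹ * polar Q u v ≠ 0 := mul_ne_zero (inv_ne_zero hc) h
  have key := reflE_braid Q hc hu hv h
  calc refl Q u * refl Q v * (refl Q u)⁻¹ = refl Q (reflE Q u v) := refl_conj Q (refl Q u) v
    _ = refl Q ((-(c⁻¹ * polar Q u v)) • reflE Q u v) :=
        (Subtype.ext (reflE_smul Q (neg_ne_zero.mpr hε) _)).symm
    _ = refl Q (reflE Q v u) := by rw [key]
    _ = refl Q v * refl Q u * (refl Q v)⁻¹ := (refl_conj Q (refl Q v) u).symm

theorem exists_norm [FiniteDimensional (ZMod 3) V] (Q : QuadraticForm (ZMod 3) V) (hS : Sep Q)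
    (hd : 3 ≤ finrank (ZMod 3) V) (c : ZMod 3) : ∃ x, Q x = c := by
  obtain ⟨e, he0, he⟩ := exists_singular hS hd
  obtain ⟨f, hf, hef⟩ := exists_hyp_pair hS he0 he
  refine ⟨e + c • f, ?_⟩
  rw [q_add, q_smul, he, hf, polar_smul_r, hef]
  ring

theorem exists_link [FiniteDimensional (ZMod 3) V] (Q : QuadraticForm (ZMod 3) V) (hS : Sep Q)
    (hd : 5 ≤ finrank (ZMod 3) V) {c : ZMod 3} (hc : c ≠ 0) {u v : V} (hu : Q u = c)
    (hv : Q v = c) (huv : polar Q u v = 0) :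
    ∃ w, Q w = c ∧ polar Q u w ≠ 0 ∧ polar Q v w ≠ 0 := by
  have h2c : 2 * c ≠ 0 := mul_ne_zero two_ne hc
  have huu : polar Q u u ≠ 0 := by rw [polar_self', hu]; exact h2c
  have hS₁ := sep_perp1 hS huu
  have hd₁ := finrank_perp1 (polarBilin Q) (v := u) huu
  let v₁ : perp1 (polarBilin Q) u := ⟨v, (mem_perp1 _ u v).mpr huv⟩
  have hvv : polar (res Q (perp1 (polarBilin Q) u)) v₁ v₁ ≠ 0 := by
    rw [polar_res]
    show polar Q v v ≠ 0
    rw [polar_self', hv]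
    exact h2c
  have hS₂ := sep_perp1 hS₁ hvv
  have hd₂ := finrank_perp1 (polarBilin (res Q (perp1 (polarBilin Q) u))) (v := v₁) hvv
  obtain ⟨x₂, hx₂⟩ := exists_norm _ hS₂ (by omega) (-c)
  have hQx : Q ((x₂ : perp1 (polarBilin Q) u) : V) = -c := hx₂
  have hux : polar Q u ((x₂ : perp1 (polarBilin Q) u) : V) = 0 :=
    (mem_perp1 _ u _).mp (x₂ : perp1 (polarBilin Q) u).2
  have hvx : polar Q v ((x₂ : perp1 (polarBilin Q) u) : V) = 0 :=
    (mem_perp1 _ v₁ _).mp x₂.2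
  refine ⟨u + v + ((x₂ : perp1 (polarBilin Q) u) : V), ?_, ?_, ?_⟩
  · rw [q_add, q_add, polar_add_left, hu, hv, huv, hQx, hux, hvx]
    ring
  · rw [polar_add_right, polar_add_right, polar_self', hu, huv, hux, add_zero, add_zero]
    exact h2c
  · rw [polar_add_right, polar_add_right, polar_self', hv, polar_comm Q v u, huv, hvx, zero_add,
      add_zero]
    exact h2c

end abstract

/-! ### Reflections in the isometry group of matrices -/

variable {n : ℕ}

/-- the reflection in `v` as an element of the isometry group -/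
noncomputable def ρ (Q : QuadraticForm (ZMod 3) (Fin n → ZMod 3)) (v : Fin n → ZMod 3) :
    ↥(Cfsg.isometryGroup (ZMod 3) ⇑Q) := (isoEquiv Q).symm (refl Q v)

theorem ρ_matrix (Q : QuadraticForm (ZMod 3) (Fin n → ZMod 3)) (v : Fin n → ZMod 3) :
    (((ρ Q v : ↥(Cfsg.isometryGroup (ZMod 3) ⇑Q)) : GL (Fin n) (ZMod 3)) :
      Matrix (Fin n) (Fin n) (ZMod 3)) = Cfsg.reflectionMatrix (⇑Q) v := by
  apply matrix_ext_mulVec
  intro x
  rw [reflection_mulVec]
  exact isoEquiv_symm_mulVec Q (refl Q v) x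

theorem mem_reflections_iff (Q : QuadraticForm (ZMod 3) (Fin n → ZMod 3)) (c : ZMod 3)
    (g : ↥(Cfsg.isometryGroup (ZMod 3) ⇑Q)) :
    g ∈ Cfsg.reflectionsOfNorm (⇑Q) c ↔ ∃ v, Q v = c ∧ g = ρ Q v := by
  constructor
  · rintro ⟨v, hv, h⟩
    refine ⟨v, hv, ?_⟩
    apply Subtype.ext
    apply Units.ext
    rw [h, ρ_matrix]
  · rintro ⟨v, hv, rfl⟩
    exact ⟨v, hv, ρ_matrix Q v⟩

theorem ρ_sq (Q : QuadraticForm (ZMod 3) (Fin n → ZMod 3)) (v : Fin n → ZMod 3) :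
    ρ Q v * ρ Q v = 1 := by
  unfold ρ
  rw [← map_mul, refl_mul_self, map_one]

theorem ρ_comm_rel (Q : QuadraticForm (ZMod 3) (Fin n → ZMod 3)) {u v : Fin n → ZMod 3}
    (h : polar Q u v = 0) : ρ Q u * ρ Q v * (ρ Q u)⁻¹ = ρ Q v := by
  unfold ρ
  rw [← map_inv, ← map_mul, ← map_mul, refl_comm_rel Q h]

theorem ρ_braid_rel (Q : QuadraticForm (ZMod 3) (Fin n → ZMod 3)) {u v : Fin n → ZMod 3}
    {c : ZMod 3} (hc : c ≠ 0) (hu : Q u = c) (hv : Q v = c) (h : polar Q u v ≠ 0) :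
    ρ Q u * ρ Q v * (ρ Q u)⁻¹ = ρ Q v * ρ Q u * (ρ Q v)⁻¹ := by
  unfold ρ
  rw [← map_inv, ← map_mul, ← map_mul, ← map_inv, ← map_mul, ← map_mul,
    refl_braid_rel Q hc hu hv h]

theorem ρ_conj (Q : QuadraticForm (ZMod 3) (Fin n → ZMod 3))
    (g : ↥(Cfsg.isometryGroup (ZMod 3) ⇑Q)) (v : Fin n → ZMod 3) :
    g * ρ Q v * g⁻¹ = ρ Q (((g : GL (Fin n) (ZMod 3)) : Matrix (Fin n) (Fin n) (ZMod 3)) *ᵥ v) := by
  apply (isoEquiv Q).injective
  unfold ρ
  rw [map_mul, map_mul, map_inv, MulEquiv.apply_symm_apply, MulEquiv.apply_symm_apply]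
  exact refl_conj Q (isoEquiv Q g) v

theorem ρ_ne_one (Q : QuadraticForm (ZMod 3) (Fin n → ZMod 3)) {v : Fin n → ZMod 3}
    (hv : Q v ≠ 0) : ρ Q v ≠ 1 := by
  intro h
  have h1 : refl Q v = 1 := by
    unfold ρ at h
    exact (MulEquiv.map_eq_one_iff _).mp h
  have h2 : reflE Q v v = v := by
    have h3 : (refl Q v).1 = 1 := congrArg Subtype.val h1
    show (refl Q v).1 v = v
    rw [h3]
    rfl
  rw [reflE_self hv] at h2
  have h4 : v = 0 := by
    funext i
    have hi := congrFun h2 i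
    simp only [Pi.neg_apply] at hi
    have key : ∀ a : ZMod 3, -a = a → a = 0 := by decide
    exact key _ hi
  rw [h4, map_zero] at hv
  exact hv rfl

/-- Let Q be a non-degenerate quadratic form on the n-dimensional coordinate space over the field with three elements, n ≥ 5, and c a non-zero scalar. In the subgroup of the isometry group of Q generated by the reflections in vectors v with Q(v) = c, these reflections form a single conjugacy class of 3-transpositions generating that subgroup. -/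
theorem result (n : ℕ) (hn : 5 ≤ n) (Q : QuadraticForm (ZMod 3) (Fin n → ZMod 3)) (hQ : (QuadraticMap.polarBilin Q).Nondegenerate) (c : ZMod 3) (hc : c ≠ 0) : Cfsg.IsThreeTranspositionClass {g : ↥(Cfsg.reflectionSubgroup (⇑Q) c) | (g : ↥(Cfsg.isometryGroup (ZMod 3) (⇑Q))) ∈ Cfsg.reflectionsOfNorm (⇑Q) c} := by
  have hS : Sep Q := sep_of_nondegenerate hQ
  have hfr : finrank (ZMod 3) (Fin n → ZMod 3) = n := Module.finrank_fin_fun (ZMod 3)
  -- the members of the set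
  have hmem : ∀ g : ↥(Cfsg.reflectionSubgroup (⇑Q) c),
      (g : ↥(Cfsg.isometryGroup (ZMod 3) (⇑Q))) ∈ Cfsg.reflectionsOfNorm (⇑Q) c ↔
        ∃ v, Q v = c ∧ (g : ↥(Cfsg.isometryGroup (ZMod 3) (⇑Q))) = ρ Q v :=
    fun g => mem_reflections_iff Q c _
  have hδ : ∀ v, Q v = c → ρ Q v ∈ Cfsg.reflectionSubgroup (⇑Q) c := fun v hv =>
    Subgroup.subset_closure ((mem_reflections_iff Q c _).mpr ⟨v, hv, rfl⟩)
  -- conjugacy of two reflections with non-orthogonal centres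
  have hconj1 : ∀ u v (hu : Q u = c) (hv : Q v = c), polar Q u v ≠ 0 →
      IsConj (⟨ρ Q u, hδ u hu⟩ : ↥(Cfsg.reflectionSubgroup (⇑Q) c)) ⟨ρ Q v, hδ v hv⟩ := by
    intro u v hu hv h
    rw [isConj_iff]
    refine ⟨⟨ρ Q u, hδ u hu⟩ * ⟨ρ Q v, hδ v hv⟩, Subtype.ext ?_⟩
    exact (braid_group (ρ_sq Q u) (ρ_sq Q v) (ρ_braid_rel Q hc hu hv h)).2
  have hconj : ∀ u v (hu : Q u = c) (hv : Q v = c),
      IsConj (⟨ρ Q u, hδ u hu⟩ : ↥(Cfsg.reflectionSubgroup (⇑Q) c)) ⟨ρ Q v, hδ v hv⟩ := by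
    intro u v hu hv
    by_cases h : polar Q u v = 0
    · obtain ⟨w, hw, huw, hvw⟩ := exists_link Q hS (by rw [hfr]; exact hn) hc hu hv h
      exact (hconj1 u w hu hw huw).trans
        (hconj1 w v hw hv (by rw [polar_comm]; exact hvw))
    · exact hconj1 u v hu hv h
  obtain ⟨v₀, hv₀⟩ := exists_norm Q hS (by rw [hfr]; omega) c
  refine ⟨⟨?_, ?_⟩, ⟨⟨ρ Q v₀, hδ v₀ hv₀⟩, (hmem _).mpr ⟨v₀, hv₀, rfl⟩, ?_⟩, ?_⟩
  · -- order 2
    intro d hd
    obtain ⟨v, hv, hdv⟩ := (hmem d).mp hd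
    apply orderOf_eq_prime
    · apply Subtype.ext
      rw [Subgroup.coe_pow, hdv, pow_two, ρ_sq]
      rfl
    · intro h1
      apply ρ_ne_one Q (v := v) (by rw [hv]; exact hc)
      rw [← hdv, h1]
      rfl
  · -- products
    intro d hd e he
    obtain ⟨u, hu, hdu⟩ := (hmem d).mp hd
    obtain ⟨v, hv, hev⟩ := (hmem e).mp he
    by_cases h : polar Q u v = 0
    · left
      apply Subtype.ext
      rw [Subgroup.coe_pow, Subgroup.coe_mul, hdu, hev]
      exact comm_group (ρ_sq Q u) (ρ_sq Q v) (ρ_comm_rel Q h)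
    · right
      apply Subtype.ext
      rw [Subgroup.coe_pow, Subgroup.coe_mul, hdu, hev]
      exact (braid_group (ρ_sq Q u) (ρ_sq Q v) (ρ_braid_rel Q hc hu hv h)).1
  · -- a single class
    ext g
    show _ ↔ IsConj _ g
    constructor
    · intro hg
      obtain ⟨v, hv, hgv⟩ := (hmem g).mp hg
      have e : g = ⟨ρ Q v, hδ v hv⟩ := Subtype.ext hgv
      rw [e]
      exact hconj v₀ v hv₀ hv
    · intro hg
      obtain ⟨k, hk⟩ := isConj_iff.mp hg
      refine (hmem g).mpr ⟨((k : ↥(Cfsg.isometryGroup (ZMod 3) (⇑Q))) : GL (Fin n) (ZMod 3)).1 *ᵥ v₀,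
        ?_, ?_⟩
      · exact ((k : ↥(Cfsg.isometryGroup (ZMod 3) (⇑Q))).2 v₀ v₀).trans hv₀
      · rw [← hk]
        exact ρ_conj Q (k : ↥(Cfsg.isometryGroup (ZMod 3) (⇑Q))) v₀
  · exact Subgroup.closure_closure_coe_preimage

end Cfsg.Agent.S5357
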