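import Cfsg.Statements.S5358

set_option autoImplicit false
open Cfsg
open scoped MatrixGroups

namespace Cfsg.Agent.S5358

theorem polarVec_dot (n : ℕ) (Q : QuadraticForm (ZMod 3) (Fin n → ZMod 3)) (w x : Fin n → ZMod 3) :
    dotProduct (Cfsg.polarVec (⇑Q) w) x = QuadraticMap.polar (⇑Q) w x := by
  have hx : x = ∑ i, (x i) • Pi.single (M := fun _ ↦ ZMod 3) i 1 := pi_eq_sum_univ' x
  have h1 : QuadraticMap.polar (⇑Q) w x = QuadraticMap.polarBilin Q w x := rfl
  rw [h1]
  conv_rhs => rw [hx]
  rw [map_sum]
  unfold dotProduct Cfsg.polarVec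
  apply Finset.sum_congr rfl
  intro i _
  rw [map_smul, smul_eq_mul, mul_comm]
  rfl

/-- Let Q be a non-degenerate quadratic form on the n-dimensional coordinate space over the field with three elements and u, v vectors of the same non-zero norm Q(u) = Q(v) spanning different lines (v ≠ u and v ≠ −u). Then the reflection matrices of u and v commute if and only if u and v are orthogonal for the polar form of Q. -/
theorem result (n : ℕ) (Q : QuadraticForm (ZMod 3) (Fin n → ZMod 3)) (hQ : (QuadraticMap.polarBilin Q).Nondegenerate) (u v : Fin n → ZMod 3) (hu : Q u ≠ 0) (huv : Q u = Q v) (h1 : v ≠ u) (h2 : v ≠ -u) : Commute (Cfsg.reflectionMatrix (⇑Q) u) (Cfsg.reflectionMatrix (⇑Q) v) ↔ QuadraticMap.polar (⇑Q) u v = 0 := by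
  set c : ZMod 3 := (Q u)⁻¹ with hc
  have hc0 : c ≠ 0 := inv_ne_zero hu
  set A := Matrix.vecMulVec u (Cfsg.polarVec (⇑Q) u) with hA
  set B := Matrix.vecMulVec v (Cfsg.polarVec (⇑Q) v) with hB
  set f := QuadraticMap.polar (⇑Q) u v with hf
  have hRu : Cfsg.reflectionMatrix (⇑Q) u = 1 - c • A := rfl
  have hRv : Cfsg.reflectionMatrix (⇑Q) v = 1 - c • B := by
    unfold Cfsg.reflectionMatrix
    rw [← huv]
  have hAB : A * B = f • Matrix.vecMulVec u (Cfsg.polarVec (⇑Q) v) := by
    rw [hA, hB, Matrix.vecMulVec_mul_vecMulVec, polarVec_dot, Matrix.vecMulVec_smul]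
  have hBA : B * A = f • Matrix.vecMulVec v (Cfsg.polarVec (⇑Q) u) := by
    rw [hA, hB, Matrix.vecMulVec_mul_vecMulVec, polarVec_dot, Matrix.vecMulVec_smul,
      QuadraticMap.polar_comm]
  have hcomm_iff : Commute (1 - c • A) (1 - c • B) ↔ A * B = B * A := by
    constructor
    · intro h
      have h' : (1 - c • A) * (1 - c • B) = (1 - c • B) * (1 - c • A) := h
      have e1 : (1 - c • A) * (1 - c • B) = 1 - c • A - c • B + (c * c) • (A * B) := by
        simp only [sub_mul, mul_sub, one_mul, mul_one, Matrix.smul_mul, Matrix.mul_smul, smul_smul]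
        abel
      have e2 : (1 - c • B) * (1 - c • A) = 1 - c • A - c • B + (c * c) • (B * A) := by
        simp only [sub_mul, mul_sub, one_mul, mul_one, Matrix.smul_mul, Matrix.mul_smul, smul_smul]
        abel
      rw [e1, e2] at h'
      have h'' : (c * c) • (A * B) = (c * c) • (B * A) := add_left_cancel h'
      have hcc : c * c ≠ 0 := mul_ne_zero hc0 hc0
      exact smul_right_injective _ hcc h''
    · intro h
      show (1 - c • A) * (1 - c • B) = (1 - c • B) * (1 - c • A)
      simp only [sub_mul, mul_sub, one_mul, mul_one, Matrix.smul_mul, Matrix.mul_smul, smul_smul, h]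
      abel
  rw [hRu, hRv, hcomm_iff, hAB, hBA]
  constructor
  · intro h
    by_contra hf0
    have h3 : Matrix.vecMulVec u (Cfsg.polarVec (⇑Q) v) = Matrix.vecMulVec v (Cfsg.polarVec (⇑Q) u) :=
      smul_right_injective _ hf0 h
    have h4 := congrArg (fun M => Matrix.mulVec M v) h3
    simp only [Matrix.vecMulVec_mulVec, polarVec_dot] at h4
    rw [QuadraticMap.polar_self] at h4
    -- h4 : op (2 • Q v) • u = op f • v
    have h5 : (2 * Q v) • u = f • v := by
      ext i
      have := congrFun h4 i
      simp only [Pi.smul_apply, MulOpposite.smul_eq_mul_unop, MulOpposite.unop_op, smul_eq_mul, nsmul_eq_mul] at this ⊢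
      rw [mul_comm (u i), mul_comm (v i)] at this
      simpa using this
    have hQv : Q v ≠ 0 := huv ▸ hu
    have h2Q : (2 * Q v) ≠ 0 := by
      apply mul_ne_zero _ hQv
      decide
    -- u = lam • v
    set lam := (2 * Q v)⁻¹ * f with hlam
    have h6 : u = lam • v := by
      rw [hlam, mul_smul, ← h5, smul_smul, inv_mul_cancel₀ h2Q, one_smul]
    have h7 : Q u = lam * lam * Q v := by
      rw [h6, QuadraticMap.map_smul, smul_eq_mul]
    rw [huv] at h7
    have h8 : lam * lam = 1 := by
      have : (lam * lam - 1) * Q v = 0 := by rw [sub_mul, one_mul, ← h7, sub_self]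
      rcases mul_eq_zero.mp this with h | h
      · exact sub_eq_zero.mp h
      · exact absurd h hQv
    have h9 : lam = 1 ∨ lam = -1 := by
      revert h8
      generalize lam = l
      revert l
      decide
    rcases h9 with h | h
    · apply h1
      rw [h6, h, one_smul]
    · apply h2
      rw [h6, h, neg_smul, one_smul, neg_neg]
  · intro h
    rw [h, zero_smul, zero_smul]

end Cfsg.Agent.S5358
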