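import Mathlib
import Cfsg.Statements.S5359
import Cfsg.Agent.S5357

set_option autoImplicit false
open Cfsg
open scoped MatrixGroups

namespace Cfsg.Agent.S5359

open Module QuadraticMap Matrix
open Cfsg.Agent.Lib.Helper44.QSpace Cfsg.Agent.Lib.Helper44.OGroup Cfsg.Agent.Lib.Helper44.OMat
open Cfsg.Agent.Lib.Helper44.Split Cfsg.Agent.Lib.Helper44.Spinor
open Cfsg.Agent.Lib.Helper44.CartanD Cfsg.Agent.Lib.Helper44.FinSq

universe u

section abstract

variable {V : Type u} [AddCommGroup V] [Module (ZMod 3) V]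

/-- universality in dimension at least 2 -/
theorem exists_norm2 [FiniteDimensional (ZMod 3) V] (Q : QuadraticForm (ZMod 3) V) (hS : Sep Q)
    (hd : 2 ≤ finrank (ZMod 3) V) (c : ZMod 3) : ∃ x, Q x = c := by
  obtain ⟨v₁, v₂, h1, h2, h12⟩ := exists_orth_pair S5357.two_ne hS hd
  obtain ⟨s, t, hst⟩ := exists_sq_add_sq h1 h2 c
  refine ⟨s • v₁ + t • v₂, ?_⟩
  rw [q_add, q_smul, q_smul, polar_smul_l, polar_smul_r, h12]
  linear_combination hst

/-- the generators: reflections in vectors of norm `c` -/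
def gens (Q : QuadraticForm (ZMod 3) V) (c : ZMod 3) : Set (O Q) :=
  {g | ∃ v, Q v = c ∧ g = refl Q v}

/-- the subgroup generated by the reflections in vectors of norm `c` -/
def Rc (Q : QuadraticForm (ZMod 3) V) (c : ZMod 3) : Subgroup (O Q) := Subgroup.closure (gens Q c)

theorem refl_mem (Q : QuadraticForm (ZMod 3) V) {c : ZMod 3} {v : V} (hv : Q v = c) :
    refl Q v ∈ Rc Q c := Subgroup.subset_closure ⟨v, hv, rfl⟩

theorem Rc_normal (Q : QuadraticForm (ZMod 3) V) (c : ZMod 3) : (Rc Q c).Normal := by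
  have h : Rc Q c = Subgroup.normalClosure (gens Q c) := by
    apply le_antisymm Subgroup.closure_le_normalClosure
    show Subgroup.closure (Group.conjugatesOfSet (gens Q c)) ≤ Subgroup.closure (gens Q c)
    apply Subgroup.closure_mono
    intro a ha
    obtain ⟨b, ⟨v, hv, rfl⟩, hconj⟩ := Group.mem_conjugatesOfSet_iff.mp ha
    obtain ⟨k, rfl⟩ := isConj_iff.mp hconj
    exact ⟨k.1 v, (k.2 v).trans hv, S5357.refl_conj Q k v⟩
  rw [h]
  exact Subgroup.normalClosure_normal

theorem reflE_pair_orth (Q : QuadraticForm (ZMod 3) V) {u v : V} {d : ZMod 3}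
    (hu : Q u = d) (hv : Q v = d) (huv : polar Q u v = 0) (x : V) :
    reflE Q u (reflE Q v x) = reflE Q (u + v) (reflE Q (u - v) x) := by
  have hQp : Q (u + v) = 2 * d := by rw [q_add, hu, hv, huv]; ring
  have hQm : Q (u - v) = 2 * d := by
    have h1 : u - v = u + (-1 : ZMod 3) • v := by rw [neg_one_smul, sub_eq_add_neg]
    rw [h1, q_add, q_smul, polar_smul_r, hu, hv, huv]; ring
  have horth : polar Q (u - v) (u + v) = 0 := by
    rw [polar_sub_left, polar_add_right, polar_add_right, polar_self', polar_self', hu, hv, huv,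
      polar_comm Q v u, huv]
    ring
  have e1 : reflE Q u v = v := reflE_of_orth (by rw [polar_comm]; exact huv)
  have e2 : reflE Q (u + v) (u - v) = u - v := reflE_of_orth horth
  have hk : ∀ d : ZMod 3, d⁻¹ = 2 * (2 * d)⁻¹ := by
    intro d
    rw [mul_inv, ← mul_assoc, mul_inv_cancel₀ S5357.two_ne, one_mul]
  have hL : reflE Q u (reflE Q v x) =
      x - ((2 * (2 * d)⁻¹) * polar Q x u) • u - ((2 * (2 * d)⁻¹) * polar Q x v) • v := by
    rw [reflE_apply Q v x, map_sub, map_smul, e1, reflE_apply Q u x, hu, hv, hk d]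
  have hR : reflE Q (u + v) (reflE Q (u - v) x) =
      x - ((2 * d)⁻¹ * (polar Q x u + polar Q x v)) • (u + v) -
        ((2 * d)⁻¹ * (polar Q x u - polar Q x v)) • (u - v) := by
    rw [reflE_apply Q (u - v) x, map_sub, map_smul, e2, reflE_apply Q (u + v) x, hQp, hQm,
      polar_add_right, polar_sub_right]
  rw [hL, hR]
  module

theorem refl_pair_orth (Q : QuadraticForm (ZMod 3) V) {u v : V} {d : ZMod 3}
    (hu : Q u = d) (hv : Q v = d) (huv : polar Q u v = 0) :
    refl Q u * refl Q v = refl Q (u + v) * refl Q (u - v) := by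
  apply Subtype.ext
  ext x
  exact reflE_pair_orth Q hu hv huv x

theorem exists_perp_of_orth [FiniteDimensional (ZMod 3) V] (Q : QuadraticForm (ZMod 3) V)
    (hS : Sep Q) (hd : 5 ≤ finrank (ZMod 3) V) {u v : V} (hu : Q u ≠ 0) (hv : Q v ≠ 0)
    (huv : polar Q u v = 0) (t : ZMod 3) :
    ∃ x, Q x = t ∧ polar Q u x = 0 ∧ polar Q v x = 0 := by
  have huu : polar Q u u ≠ 0 := by rw [polar_self']; exact mul_ne_zero S5357.two_ne hu
  have hS₁ := sep_perp1 hS huu
  have hd₁ := finrank_perp1 (polarBilin Q) (v := u) huu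
  let v₁ : perp1 (polarBilin Q) u := ⟨v, (mem_perp1 _ u v).mpr huv⟩
  have hvv : polar (res Q (perp1 (polarBilin Q) u)) v₁ v₁ ≠ 0 := by
    rw [polar_res]
    show polar Q v v ≠ 0
    rw [polar_self']
    exact mul_ne_zero S5357.two_ne hv
  have hS₂ := sep_perp1 hS₁ hvv
  have hd₂ := finrank_perp1 (polarBilin (res Q (perp1 (polarBilin Q) u))) (v := v₁) hvv
  obtain ⟨x₂, hx₂⟩ := S5357.exists_norm _ hS₂ (by omega) t
  exact ⟨((x₂ : perp1 (polarBilin Q) u) : V), hx₂,
    (mem_perp1 _ u _).mp (x₂ : perp1 (polarBilin Q) u).2, (mem_perp1 _ v₁ _).mp x₂.2⟩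

theorem exists_perp_both [FiniteDimensional (ZMod 3) V] (Q : QuadraticForm (ZMod 3) V)
    (hS : Sep Q) (hd : 5 ≤ finrank (ZMod 3) V) {d : ZMod 3} (hd0 : d ≠ 0) {w w' : V}
    (hw : Q w = d) (hw' : Q w' = d) :
    ∃ x, Q x = d ∧ polar Q w x = 0 ∧ polar Q w' x = 0 := by
  by_cases h : polar Q w w' = 0
  · exact exists_perp_of_orth Q hS hd (by rw [hw]; exact hd0) (by rw [hw']; exact hd0) h d
  · have hww : polar Q w w ≠ 0 := by
      rw [polar_self', hw]; exact mul_ne_zero S5357.two_ne hd0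
    obtain ⟨α, hα⟩ : ∃ α : ZMod 3, α = polar Q w w' * (2 * d)⁻¹ := ⟨_, rfl⟩
    have he_perp : polar Q w (w' - α • w) = 0 := by
      rw [polar_sub_right, polar_smul_r, polar_self', hw, hα,
        inv_mul_cancel_right₀ (mul_ne_zero S5357.two_ne hd0), sub_self]
    have hQe : Q (w' - α • w) = 0 := by
      have h1 : w' - α • w = w' + (-α) • w := by rw [neg_smul, sub_eq_add_neg]
      have h2d : 2 * d ≠ 0 := mul_ne_zero S5357.two_ne hd0
      have hinv : (2 * d)⁻¹ = 2 * d := inv_eq_of_mul_eq_one_left (S5357.zmod3_sq _ h2d)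
      rw [h1, q_add, q_smul, polar_smul_r, hw, hw', polar_comm Q w' w, hα, hinv]
      have key : ∀ b d : ZMod 3, b ≠ 0 → d ≠ 0 →
          d + (-(b * (2 * d))) * (-(b * (2 * d))) * d + (-(b * (2 * d))) * b = 0 := by
        decide
      exact key _ _ h hd0
    have hS₁ := sep_perp1 hS hww
    have hd₁ := finrank_perp1 (polarBilin Q) (v := w) hww
    by_cases he0 : w' - α • w = 0
    · obtain ⟨x₁, hx₁⟩ := S5357.exists_norm (res Q (perp1 (polarBilin Q) w)) hS₁ (by omega) d
      have hwx : polar Q w (x₁ : V) = 0 := (mem_perp1 _ w _).mp x₁.2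
      refine ⟨x₁, hx₁, hwx, ?_⟩
      have e : w' = α • w := sub_eq_zero.mp he0
      rw [e, polar_smul_l, hwx, mul_zero]
    · let e₁ : perp1 (polarBilin Q) w := ⟨w' - α • w, (mem_perp1 _ w _).mpr he_perp⟩
      have he₁0 : e₁ ≠ 0 := fun h => he0 (congrArg Subtype.val h)
      have he₁ : res Q (perp1 (polarBilin Q) w) e₁ = 0 := hQe
      obtain ⟨f₁, hf₁, hef⟩ := exists_hyp_pair hS₁ he₁0 he₁
      have hS₃ := sep_perp2 hS₁ he₁ hf₁ hef
      have hd₃ := finrank_perp2' he₁ hf₁ hef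
      obtain ⟨x₃, hx₃⟩ := exists_norm2 _ hS₃ (by omega) d
      have h2 : polar Q w ((x₃ : perp1 (polarBilin Q) w) : V) = 0 :=
        (mem_perp1 _ w _).mp (x₃ : perp1 (polarBilin Q) w).2
      have h1 : polar Q (w' - α • w) ((x₃ : perp1 (polarBilin Q) w) : V) = 0 :=
        ((mem_perp2 _ e₁ f₁ _).mp x₃.2).1
      rw [polar_sub_left, polar_smul_l, h2, mul_zero, sub_zero] at h1
      exact ⟨((x₃ : perp1 (polarBilin Q) w) : V), hx₃, h2, h1⟩

theorem pair_mem [FiniteDimensional (ZMod 3) V] (Q : QuadraticForm (ZMod 3) V) (hS : Sep Q)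
    (hd : 5 ≤ finrank (ZMod 3) V) {c : ZMod 3} (hc : c ≠ 0) {w w' : V} (hw : Q w = -c)
    (hw' : Q w' = -c) : refl Q w * refl Q w' ∈ Rc Q c := by
  have hneg : -c ≠ 0 := neg_ne_zero.mpr hc
  have orth : ∀ {a b : V}, Q a = -c → Q b = -c → polar Q a b = 0 →
      refl Q a * refl Q b ∈ Rc Q c := by
    intro a b ha hb hab
    rw [refl_pair_orth Q ha hb hab]
    apply Subgroup.mul_mem
    · apply refl_mem
      rw [q_add, ha, hb, hab]
      have key : ∀ c : ZMod 3, -c + -c + 0 = c := by decide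
      exact key c
    · apply refl_mem
      have h1 : a - b = a + (-1 : ZMod 3) • b := by rw [neg_one_smul, sub_eq_add_neg]
      rw [h1, q_add, q_smul, polar_smul_r, ha, hb, hab]
      have key : ∀ c : ZMod 3, -c + (-1) * (-1) * -c + (-1) * 0 = c := by decide
      exact key c
  obtain ⟨x, hx, hwx, hw'x⟩ := exists_perp_both Q hS hd hneg hw hw'
  have e : refl Q w * refl Q w' = (refl Q w * refl Q x) * (refl Q x * refl Q w') := by
    rw [mul_assoc, ← mul_assoc (refl Q x), refl_mul_self, one_mul]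
  rw [e]
  exact Subgroup.mul_mem _ (orth hw hx hwx) (orth hx hw' (by rw [polar_comm]; exact hw'x))

theorem all_mem [FiniteDimensional (ZMod 3) V] (Q : QuadraticForm (ZMod 3) V) (hS : Sep Q)
    (hd : 5 ≤ finrank (ZMod 3) V) {c : ZMod 3} (hc : c ≠ 0) {w₀ : V} (hw₀ : Q w₀ = -c)
    (g : O Q) : g ∈ Rc Q c ∨ g * refl Q w₀ ∈ Rc Q c := by
  have hN := Rc_normal Q c
  obtain ⟨vs, hvs, hg⟩ := cartan_dieudonne S5357.two_ne _ V Q rfl hS g.1 g.2
  have hg' : g = (vs.map (refl Q)).prod := Subtype.ext (hg.trans (coe_prod_refl Q vs).symm)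
  rw [hg']
  clear hg hg'
  induction vs with
  | nil =>
    left
    rw [List.map_nil, List.prod_nil]
    exact Subgroup.one_mem _
  | cons v vs ih =>
    have ih' := ih (fun x hx => hvs x (List.mem_cons_of_mem _ hx))
    rw [List.map_cons, List.prod_cons]
    have hv : Q v ≠ 0 := hvs v List.mem_cons_self
    have hcases : Q v = c ∨ Q v = -c := by
      have key : ∀ a c : ZMod 3, a ≠ 0 → c ≠ 0 → a = c ∨ a = -c := by decide
      exact key _ _ hv hc
    rcases hcases with hvc | hvc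
    · rcases ih' with h | h
      · left
        exact Subgroup.mul_mem _ (refl_mem Q hvc) h
      · right
        rw [mul_assoc]
        exact Subgroup.mul_mem _ (refl_mem Q hvc) h
    · have hp := pair_mem Q hS hd hc hvc hw₀
      rcases ih' with h | h
      · right
        have e : refl Q v * (vs.map (refl Q)).prod * refl Q w₀ =
            (refl Q v * refl Q w₀) *
              ((refl Q w₀)⁻¹ * (vs.map (refl Q)).prod * (refl Q w₀)⁻¹⁻¹) := by group
        rw [e]
        exact Subgroup.mul_mem _ hp (hN.conj_mem _ h _)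
      · left
        have e : refl Q v * (vs.map (refl Q)).prod =
            (refl Q v * refl Q w₀) *
              ((refl Q w₀)⁻¹ * ((vs.map (refl Q)).prod * refl Q w₀) * (refl Q w₀)⁻¹⁻¹) *
              (refl Q w₀ * refl Q w₀)⁻¹ := by group
        rw [e, refl_mul_self, inv_one, mul_one]
        exact Subgroup.mul_mem _ hp (hN.conj_mem _ h _)

theorem not_mem [FiniteDimensional (ZMod 3) V] (Q : QuadraticForm (ZMod 3) V) (hS : Sep Q)
    (hd : 1 ≤ finrank (ZMod 3) V) {c : ZMod 3} (hc : c ≠ 0) {u₀ w₀ : V} (hu₀ : Q u₀ = c)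
    (hw₀ : Q w₀ = -c) : refl Q w₀ ∉ Rc Q c := by
  obtain ⟨θ, hθ⟩ := exists_char S5357.two_ne hS hd
  have hneg : -c ≠ 0 := neg_ne_zero.mpr hc
  have hdet : ∀ v, Q v ≠ 0 → detHom Q (refl Q v) = -1 := by
    intro v hv
    have h1 := detHom_prod Q [v] (by simpa using hv)
    simpa using h1
  have hle : Rc Q c ≤ (Subgroup.zpowers (θ (refl Q u₀), (-1 : (ZMod 3)ˣ))).comap
      (θ.prod (detHom Q)) := by
    unfold Rc
    rw [Subgroup.closure_le]
    rintro _ ⟨v, hv, rfl⟩
    show (θ.prod (detHom Q)) (refl Q v) ∈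
      Subgroup.zpowers (θ (refl Q u₀), (-1 : (ZMod 3)ˣ))
    have h1 : θ (refl Q v) = θ (refl Q u₀) :=
      hom_refl_eq S5357.two_ne θ (by rw [hv]; exact hc) (by rw [hu₀]; exact hc)
        (by rw [hv, hu₀]; exact ⟨c, rfl⟩)
    have h2 : (θ.prod (detHom Q)) (refl Q v) = (θ (refl Q u₀), -1) :=
      Prod.ext h1 (hdet v (by rw [hv]; exact hc))
    rw [h2]
    exact Subgroup.mem_zpowers (θ (refl Q u₀), (-1 : (ZMod 3)ˣ))
  intro hmem
  obtain ⟨k, hk⟩ := Subgroup.mem_zpowers_iff.mp (hle hmem)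
  have hk1 : θ (refl Q u₀) ^ k = θ (refl Q w₀) := congrArg Prod.fst hk
  have hk2 : (-1 : (ZMod 3)ˣ) ^ k = -1 :=
    (congrArg Prod.snd hk).trans (hdet w₀ (by rw [hw₀]; exact hneg))
  have hodd : Odd k := by
    rcases Int.even_or_odd k with he | ho
    · exfalso
      rw [he.neg_one_zpow] at hk2
      revert hk2
      decide
    · exact ho
  have ha : θ (refl Q u₀) ^ k = θ (refl Q u₀) := by
    rcases Int.units_eq_one_or (θ (refl Q u₀)) with h | h
    · rw [h, _root_.one_zpow]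
    · rw [h, hodd.neg_one_zpow]
  apply hθ u₀ w₀ (by rw [hu₀]; exact hc) (by rw [hw₀]; exact hneg) ?_ (ha.symm.trans hk1)
  rw [hu₀, hw₀]
  have key : ∀ c r : ZMod 3, c ≠ 0 → c * -c ≠ r * r := by decide
  rintro ⟨r, hr⟩
  exact key c r hc hr

theorem index_Rc [FiniteDimensional (ZMod 3) V] (Q : QuadraticForm (ZMod 3) V) (hS : Sep Q)
    (hd : 5 ≤ finrank (ZMod 3) V) {c : ZMod 3} (hc : c ≠ 0) : (Rc Q c).index = 2 := by
  obtain ⟨u₀, hu₀⟩ := S5357.exists_norm Q hS (by omega) c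
  obtain ⟨w₀, hw₀⟩ := S5357.exists_norm Q hS (by omega) (-c)
  have hnot := not_mem Q hS (by omega) hc hu₀ hw₀
  rw [Subgroup.index_eq_two_iff]
  refine ⟨refl Q w₀, fun b => ?_⟩
  have e : refl Q w₀ = b⁻¹ * (b * refl Q w₀) := by group
  rcases all_mem Q hS hd hc hw₀ b with h | h
  · refine Or.inr ⟨h, fun h' => hnot ?_⟩
    rw [e]
    exact Subgroup.mul_mem _ (Subgroup.inv_mem _ h) h'
  · refine Or.inl ⟨h, fun h' => hnot ?_⟩
    rw [e]
    exact Subgroup.mul_mem _ (Subgroup.inv_mem _ h') h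

end abstract

theorem map_reflSubgroup {n : ℕ} (Q : QuadraticForm (ZMod 3) (Fin n → ZMod 3)) (c : ZMod 3) :
    (Cfsg.reflectionSubgroup (⇑Q) c).map ((isoEquiv Q : _ ≃* _) : _ →* _) = Rc Q c := by
  unfold Cfsg.reflectionSubgroup Rc
  rw [MonoidHom.map_closure]
  congr 1
  ext g
  constructor
  · rintro ⟨h, hh, rfl⟩
    obtain ⟨v, hv, rfl⟩ := (S5357.mem_reflections_iff Q c h).mp hh
    exact ⟨v, hv, (isoEquiv Q).apply_symm_apply _⟩
  · rintro ⟨v, hv, rfl⟩
    exact ⟨S5357.ρ Q v, (S5357.mem_reflections_iff Q c _).mpr ⟨v, hv, rfl⟩,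
      (isoEquiv Q).apply_symm_apply _⟩

/-- Let Q be a non-degenerate quadratic form on the n-dimensional coordinate space over the field with three elements, n odd and at least 5, and c a non-zero scalar. Then the subgroup of the isometry group of Q generated by the reflections in vectors of norm c has index 2 in the isometry group. -/
theorem result (n : ℕ) (hn : 5 ≤ n) (hodd : Odd n) (Q : QuadraticForm (ZMod 3) (Fin n → ZMod 3)) (hQ : (QuadraticMap.polarBilin Q).Nondegenerate) (c : ZMod 3) (hc : c ≠ 0) : (Cfsg.reflectionSubgroup (⇑Q) c).index = 2 := by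
  have _ := hodd
  have hS : Sep Q := sep_of_nondegenerate hQ
  have hfr : finrank (ZMod 3) (Fin n → ZMod 3) = n := Module.finrank_fin_fun (ZMod 3)
  rw [← Subgroup.index_map_equiv (Cfsg.reflectionSubgroup (⇑Q) c) (isoEquiv Q), map_reflSubgroup]
  exact index_Rc Q hS (by rw [hfr]; exact hn) hc

end Cfsg.Agent.S5359
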