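import Mathlib
import Cfsg.Statements.S5360
import Cfsg.Agent.S5357
import Cfsg.Agent.S5359
import Cfsg.Agent.S5353
import Cfsg.Agent.Lib.Helper5.OmegaSimple5
import Cfsg.Agent.Lib.Helper5.OmegaSimpleMat
import Cfsg.Agent.Lib.Helper5.QuasiComm
import Cfsg.Agent.Lib.Helper14.OrthIndex
import Cfsg.Agent.Lib.Helper45.OmegaCenter

set_option autoImplicit false
open scoped MatrixGroups
open Cfsg

namespace Cfsg.Agent.S5360

open Module QuadraticMap Matrix
open Cfsg.Agent.Lib.Helper44.QSpace Cfsg.Agent.Lib.Helper44.OGroup Cfsg.Agent.Lib.Helper44.OMat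
open Cfsg.Agent.Lib.Helper5.OmegaSimple Cfsg.Agent.Lib.Helper5.OmegaSimple5
open Cfsg.Agent.Lib.Helper5.OmegaSimpleMat
open Cfsg.Agent.Lib.Helper21
open scoped commutatorElement

variable {n : ℕ}

/-- `Ω` is quasisimple in dimension at least five -/
theorem quasi_omega (hn : 5 ≤ n) (Q : QuadraticForm (ZMod 3) (Fin n → ZMod 3)) (hS : Sep Q) :
    Cfsg.IsQuasisimple ↥(Cfsg.Omega (ZMod 3) ⇑Q) := by
  have hfr : finrank (ZMod 3) (Fin n → ZMod 3) = n := Module.finrank_fin_fun (ZMod 3)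
  have hgen : commutator ↥(O Q) = EG Q :=
    commutator_eq_EG_odd S5357.two_ne hS (by rw [hfr]; exact hn)
  have h1 : Cfsg.IsQuasisimple ↥(EG Q) :=
    ⟨⟨commutator_EG hS (by rw [hfr]; exact hn)⟩, simple_EG5 hS (by rw [hfr]; exact hn)⟩
  have e1 : ↥(EG Q) ≃* ↥(commutator ↥(O Q)) := MulEquiv.subgroupCongr hgen.symm
  exact Quasi.of_mulEquiv (e1.trans (omegaEquiv Q).symm) h1

/-- Let Q be a non-degenerate quadratic form on the n-dimensional coordinate space over the field with three elements, n ≥ 5, c a non-zero scalar, and R the subgroup of the isometry group generated by the reflections of norm c. Then the commutator subgroup of R is quasisimple of index at most 2, the generalized Fitting subgroup of R is the product of the centre and the commutator subgroup, and R acts primitively by conjugation on its reflections of norm c. -/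
theorem result (n : ℕ) (hn : 5 ≤ n) (Q : QuadraticForm (ZMod 3) (Fin n → ZMod 3)) (hQ : (QuadraticMap.polarBilin Q).Nondegenerate) (c : ZMod 3) (hc : c ≠ 0) : Cfsg.IsQuasisimple (commutator ↥(Cfsg.reflectionSubgroup (⇑Q) c)) ∧ (commutator ↥(Cfsg.reflectionSubgroup (⇑Q) c)).index ≤ 2 ∧ Cfsg.generalizedFittingSubgroup ↥(Cfsg.reflectionSubgroup (⇑Q) c) = Subgroup.center ↥(Cfsg.reflectionSubgroup (⇑Q) c) ⊔ commutator ↥(Cfsg.reflectionSubgroup (⇑Q) c) ∧ Cfsg.IsPrimitiveUnderConj {g : ↥(Cfsg.reflectionSubgroup (⇑Q) c) | (g : ↥(Cfsg.isometryGroup (ZMod 3) (⇑Q))) ∈ Cfsg.reflectionsOfNorm (⇑Q) c} := by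
  classical
  have hS : Sep Q := sep_of_nondegenerate hQ
  have hfr : finrank (ZMod 3) (Fin n → ZMod 3) = n := Module.finrank_fin_fun (ZMod 3)
  have hd5 : 5 ≤ finrank (ZMod 3) (Fin n → ZMod 3) := by rw [hfr]; exact hn
  obtain ⟨R, hR⟩ : ∃ R, R = Cfsg.reflectionSubgroup (⇑Q) c := ⟨_, rfl⟩
  obtain ⟨Ωm, hΩ⟩ : ∃ Ωm, Ωm = Cfsg.Omega (ZMod 3) ⇑Q := ⟨_, rfl⟩
  rw [← hR]
  have hRi : R.index = 2 := by
    rw [hR, ← Subgroup.index_map_equiv (Cfsg.reflectionSubgroup (⇑Q) c) (isoEquiv Q),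
      S5359.map_reflSubgroup]
    exact S5359.index_Rc Q hS hd5 hc
  have hRn : R.Normal := Subgroup.normal_of_index_eq_two hRi
  have hΩq : Cfsg.IsQuasisimple ↥Ωm := by
    rw [hΩ]
    exact quasi_omega hn Q hS
  have hΩR : Ωm ≤ R := by
    rw [hΩ]
    show commutator _ ≤ R
    rw [commutator_def, Subgroup.commutator_le]
    intro g _ h _
    rw [commutatorElement_def, Subgroup.mul_mem_iff_of_index_two hRi, hRn.mem_comm_iff,
      inv_mul_cancel_left, inv_mem_iff]
  have hcomm : ⁅R, R⁆ = Ωm := by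
    apply le_antisymm
    · rw [hΩ]
      exact Subgroup.commutator_mono le_top le_top
    · calc Ωm = ⁅Ωm, Ωm⁆ := (Comp.commutator_self hΩq).symm
        _ ≤ ⁅R, R⁆ := Subgroup.commutator_mono hΩR hΩR
  have hmap : (commutator ↥R).map R.subtype = Ωm := by
    rw [Subgroup.map_subtype_commutator, hcomm]
  have e : ↥(commutator ↥R) ≃* ↥Ωm :=
    ((commutator ↥R).equivMapOfInjective R.subtype R.subtype_injective).trans
      (MulEquiv.subgroupCongr hmap)
  have hq : Cfsg.IsQuasisimple ↥(commutator ↥R) := Quasi.of_mulEquiv e.symm hΩq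
  have hsub : commutator ↥R = Ωm.subgroupOf R := by
    rw [← hmap]
    exact (Subgroup.comap_map_eq_self_of_injective R.subtype_injective _).symm
  have hcard : 4 ≤ Fintype.card (Fin n) := by
    rw [Fintype.card_fin]
    omega
  have hidx : (commutator ↥R).index = 2 := by
    rw [hsub]
    have h1 := Subgroup.relIndex_mul_index hΩR
    have h2 : Ωm.index = 4 := by
      rw [hΩ]
      exact Cfsg.Agent.Lib.Helper14.OrthIndex.index_omega S5357.two_ne Q hS (by omega)
    rw [hRi, h2] at h1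
    show Ωm.relIndex R = 2
    omega
  have hC : ∀ g : ↥R, (∀ x ∈ commutator ↥R, g * x = x * g) → g ∈ Subgroup.center ↥R := by
    intro g hg
    have hz : ∀ x ∈ Cfsg.Omega (ZMod 3) ⇑Q, x * g.1 = g.1 * x := by
      intro x hx
      rw [← hΩ] at hx
      have hx' : (⟨x, hΩR hx⟩ : ↥R) ∈ commutator ↥R := by
        rw [hsub]
        exact hx
      exact (congrArg Subtype.val (hg ⟨x, hΩR hx⟩ hx')).symm
    rw [Subgroup.mem_center_iff]
    intro y
    apply Subtype.ext
    apply Subtype.ext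
    apply Units.ext
    show ((y.1 : GL (Fin n) (ZMod 3)) : Matrix (Fin n) (Fin n) (ZMod 3)) *
        ((g.1 : GL (Fin n) (ZMod 3)) : Matrix (Fin n) (Fin n) (ZMod 3)) =
      ((g.1 : GL (Fin n) (ZMod 3)) : Matrix (Fin n) (Fin n) (ZMod 3)) *
        ((y.1 : GL (Fin n) (ZMod 3)) : Matrix (Fin n) (Fin n) (ZMod 3))
    rcases Cfsg.Agent.Lib.Helper45.OmegaCenter.centralizer_odd S5357.two_ne Q hS hcard g.1 hz
      with h | h
    · rw [h, mul_one, one_mul]
    · rw [h, mul_neg, neg_mul, mul_one, one_mul]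
  refine ⟨hq, hidx.le, Cfsg.Agent.Lib.Helper5.QuasiComm.gfs_eq hq hC, ?_⟩
  have hD := S5357.result n hn Q hQ c hc
  rw [← hR] at hD
  have hD2 : ∃ a ∈ {g : ↥R | (g : ↥(Cfsg.isometryGroup (ZMod 3) (⇑Q))) ∈
      Cfsg.reflectionsOfNorm (⇑Q) c}, ∃ b ∈ {g : ↥R | (g : ↥(Cfsg.isometryGroup (ZMod 3) (⇑Q))) ∈
      Cfsg.reflectionsOfNorm (⇑Q) c}, a ≠ b := by
    obtain ⟨u, hu⟩ := S5357.exists_norm Q hS (by omega) c
    obtain ⟨x, hx, hux, -⟩ := S5359.exists_perp_both Q hS hd5 hc hu hu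
    have hmu : S5357.ρ Q u ∈ R := by
      rw [hR]
      exact Subgroup.subset_closure ((S5357.mem_reflections_iff Q c _).mpr ⟨u, hu, rfl⟩)
    have hmx : S5357.ρ Q x ∈ R := by
      rw [hR]
      exact Subgroup.subset_closure ((S5357.mem_reflections_iff Q c _).mpr ⟨x, hx, rfl⟩)
    refine ⟨⟨S5357.ρ Q u, hmu⟩, (S5357.mem_reflections_iff Q c _).mpr ⟨u, hu, rfl⟩,
      ⟨S5357.ρ Q x, hmx⟩, (S5357.mem_reflections_iff Q c _).mpr ⟨x, hx, rfl⟩, ?_⟩
    intro heq
    have h1 : S5357.ρ Q u = S5357.ρ Q x := congrArg Subtype.val heq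
    have h2 : refl Q u = refl Q x := (isoEquiv Q).symm.injective h1
    have h3 : reflE Q u u = reflE Q x u := by
      have h3' : (refl Q u).1 = (refl Q x).1 := congrArg Subtype.val h2
      exact congrArg (fun f : (Fin n → ZMod 3) ≃ₗ[ZMod 3] (Fin n → ZMod 3) => f u) h3'
    rw [reflE_self (by rw [hu]; exact hc), reflE_of_orth hux] at h3
    have h4 : u = 0 := by
      funext i
      have hi := congrFun h3 i
      simp only [Pi.neg_apply] at hi
      have key : ∀ a : ZMod 3, -a = a → a = 0 := by decide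
      exact key _ hi
    rw [h4, map_zero] at hu
    exact hc hu.symm
  exact (S5353.result hD hD2 (Cfsg.Agent.Lib.Helper5.QuasiComm.pCore_le 2 hq hC)
    (Cfsg.Agent.Lib.Helper5.QuasiComm.pCore_le 3 hq hC) (commutator ↥R) hq
    (by rw [Cfsg.Agent.Lib.Helper5.QuasiComm.gfs_eq hq hC, sup_comm])).1 hidx.le

end Cfsg.Agent.S5360
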