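import Cfsg.Statements.S5363

set_option autoImplicit false
open Cfsg

namespace Cfsg.Agent.S5363

theorem aux_pow {G : Type*} [Group G] (a b : G) (ha : a * a = 1) (i : ℕ) :
    a * (a * b) ^ i = (b * a) ^ i * a := by
  induction i with
  | zero => simp
  | succ i ih =>
    rw [pow_succ, ← mul_assoc, ih, pow_succ]
    calc (b * a) ^ i * a * (a * b) = (b * a) ^ i * ((a * a) * b) := by group
      _ = (b * a) ^ i * b := by rw [ha, one_mul]
      _ = (b * a) ^ i * (b * (a * a)) := by rw [ha, mul_one]
      _ = (b * a) ^ i * (b * a) * a := by group

theorem inv_ba {G : Type*} [Group G] (a b : G) (ha : a * a = 1) (hb : b * b = 1) :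
    (b * a)⁻¹ = a * b := by
  rw [mul_inv_rev, inv_eq_of_mul_eq_one_right ha, inv_eq_of_mul_eq_one_right hb]

/-- Let D be a conjugation-invariant set of involutions of a finite group G. Then every product of two members of D has odd order or order 2 if and only if, for every a in D and every b in D different from a and commuting with a, the members of D commuting with a b are exactly those commuting with both a and b. -/
theorem result {G : Type*} [Group G] [Finite G] {D : Set G} (hinv : ∀ d ∈ D, orderOf d = 2) (hconj : ∀ g : G, ∀ d ∈ D, g * d * g⁻¹ ∈ D) : (∀ a ∈ D, ∀ b ∈ D, Odd (orderOf (a * b)) ∨ orderOf (a * b) = 2) ↔ ∀ a ∈ D, ∀ b ∈ D, b ≠ a → Commute a b → {y : G | y ∈ D ∧ Commute (a * b) y} = {y : G | y ∈ D ∧ Commute a y} ∩ {y : G | y ∈ D ∧ Commute b y} := by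
  have sq : ∀ x ∈ D, x * x = 1 := by
    intro x hx
    have := hinv x hx
    rw [← pow_two, ← this]; exact pow_orderOf_eq_one x
  have invD : ∀ x ∈ D, x⁻¹ = x := fun x hx => inv_eq_of_mul_eq_one_right (sq x hx)
  constructor
  · intro H a ha b hb hba hab
    -- key claim
    have key : ∀ a ∈ D, ∀ b ∈ D, b ≠ a → Commute a b → ∀ y ∈ D, Commute (a * b) y → Commute a y := by
      intro a ha b hb hba hab y hy hzy
      have haa := sq a ha
      have hbb := sq b hb
      have hyy := sq y hy
      set z := a * b with hz
      have hzz : z * z = 1 := by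
        rw [hz]
        calc a * b * (a * b) = a * (b * a) * b := by group
          _ = a * (a * b) * b := by rw [hab.eq]
          _ = (a * a) * (b * b) := by group
          _ = 1 := by rw [haa, hbb, one_mul]
      have hz1 : z ≠ 1 := by
        intro h
        apply hba
        have : b = a⁻¹ := by
          rw [eq_comm, inv_eq_iff_mul_eq_one]; exact h
        rw [this, invD a ha]
      have hza : Commute z a := by
        show z * a = a * z
        rw [hz]
        calc a * b * a = a * (b * a) := by group
          _ = a * (a * b) := by rw [hab.eq]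
      have hbz : b = a * z := by
        rw [hz, ← mul_assoc, haa, one_mul]
      -- u = y * a
      have huz : Commute (y * a) z := (hzy.symm.mul_left hza.symm)
      rcases H y hy a ha with hodd | h2
      · -- odd order m
        set m := orderOf (y * a) with hm
        have hum : (y * a) ^ m = 1 := pow_orderOf_eq_one _
        have hzm : z ^ m = z := by
          obtain ⟨j, hj⟩ := hodd
          rw [hj, pow_succ, pow_mul, pow_two, hzz, one_pow, one_mul]
        have hwm : (y * b) ^ m = z := by
          rw [hbz, ← mul_assoc, huz.mul_pow, hum, one_mul, hzm]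
        rcases H y hy b hb with hodd' | h2'
        · exfalso
          apply hz1
          set n := orderOf (y * b) with hn
          have hzn : z ^ n = z := by
            obtain ⟨j, hj⟩ := hodd'
            rw [hj, pow_succ, pow_mul, pow_two, hzz, one_pow, one_mul]
          have : z ^ n = 1 := by
            rw [← hwm, ← pow_mul, mul_comm, pow_mul, hn, pow_orderOf_eq_one, one_pow]
          rw [← hzn, this]
        · -- (y*b)^2 = 1
          have hw2 : (y * b) ^ 2 = 1 := by rw [← h2']; exact pow_orderOf_eq_one _
          have hu2 : (y * a) ^ 2 = 1 := by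
            rw [hbz, ← mul_assoc, huz.mul_pow, pow_two z, hzz, mul_one] at hw2
            exact hw2
          have hu1 : y * a = 1 := by
            have hdvd : orderOf (y * a) ∣ 2 := orderOf_dvd_of_pow_eq_one hu2
            have : orderOf (y * a) = 1 := by
              rcases (Nat.dvd_prime Nat.prime_two).mp hdvd with h | h
              · exact h
              · exfalso
                rw [hm, h] at hodd
                exact absurd hodd (by decide)
            exact orderOf_eq_one_iff.mp this
          have : y = a := by
            have : y = a⁻¹ := eq_inv_of_mul_eq_one_left hu1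
            rw [this, invD a ha]
          rw [this]
      · have hu2 : (y * a) ^ 2 = 1 := by rw [← h2]; exact pow_orderOf_eq_one _
        show a * y = y * a
        have : y * a = (y * a)⁻¹ := by
          rw [eq_comm, inv_eq_iff_mul_eq_one, ← pow_two]; exact hu2
        rw [this, mul_inv_rev, invD a ha, invD y hy]
    ext y
    constructor
    · rintro ⟨hy, hzy⟩
      have h1 : Commute a y := key a ha b hb hba hab y hy hzy
      have h2 : Commute b y := by
        have hzy' : Commute (b * a) y := by rw [← hab.eq]; exact hzy
        exact key b hb a ha (Ne.symm hba) hab.symm y hy hzy'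
      exact ⟨⟨hy, h1⟩, ⟨hy, h2⟩⟩
    · rintro ⟨⟨hy, h1⟩, ⟨-, h2⟩⟩
      exact ⟨hy, h1.mul_left h2⟩
  · intro H a ha b hb
    by_contra hcon
    push Not at hcon
    obtain ⟨hnodd, hn2⟩ := hcon
    have haa := sq a ha
    have hbb := sq b hb
    set n := orderOf (a * b) with hn
    have hnpos : 0 < n := orderOf_pos _
    rw [Nat.not_odd_iff_even] at hnodd
    obtain ⟨k, hk⟩ := hnodd
    have hk2 : 2 ≤ k := by omega
    set z := (a * b) ^ k with hz
    have hz1 : z ≠ 1 := by
      apply pow_ne_one_of_lt_orderOf (by omega)
      rw [← hn]; omega
    have hzz : z * z = 1 := by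
      rw [hz, ← pow_add, ← hk, hn, pow_orderOf_eq_one]
    have hzinv : z⁻¹ = z := inv_eq_of_mul_eq_one_right hzz
    -- a * z = z * a
    have haz : a * z = z * a := by
      rw [hz, aux_pow a b haa k]
      congr 1
      rw [← inv_ba b a hbb haa, inv_pow, ← hz, hzinv]
    have hbz : b * z = z * b := by
      have h1 : b * (b * a) ^ k = (a * b) ^ k * b := aux_pow b a hbb k
      have h2 : (b * a) ^ k = z := by
        rw [← inv_ba b a hbb haa, inv_pow, ← hz, hzinv]
      rw [h2] at h1
      exact h1
    -- a * z ∈ D
    have hazD : a * z ∈ D := by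
      rcases Nat.even_or_odd k with ⟨j, hj⟩ | ⟨j, hj⟩
      · have : a * z = (b * a) ^ j * a * ((b * a) ^ j)⁻¹ := by
          rw [hz, hj, pow_add, ← mul_assoc, aux_pow a b haa j, ← inv_pow, inv_ba a b haa hbb]
        rw [this]
        exact hconj _ a ha
      · have hj' : k = j + 1 + j := by omega
        have : a * z = (b * a) ^ j * b * ((b * a) ^ j)⁻¹ := by
          rw [hz, hj', pow_add, pow_add, pow_one, ← inv_pow, inv_ba a b haa hbb]
          calc a * ((a * b) ^ j * (a * b) * (a * b) ^ j)
              = (a * (a * b) ^ j) * (a * b) * (a * b) ^ j := by group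
            _ = (b * a) ^ j * ((a * a) * b) * (a * b) ^ j := by rw [aux_pow a b haa j]; group
            _ = (b * a) ^ j * b * (a * b) ^ j := by rw [haa, one_mul]
        rw [this]
        exact hconj _ b hb
    have hne : a * z ≠ a := by
      intro h
      apply hz1
      exact mul_left_cancel (h.trans (mul_one a).symm)
    have hcomm : Commute a (a * z) := by
      show a * (a * z) = a * z * a
      rw [mul_assoc, haz]
    have hset := H a ha (a * z) hazD hne hcomm
    have hb_mem : b ∈ {y : G | y ∈ D ∧ Commute (a * (a * z)) y} := by
      refine ⟨hb, ?_⟩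
      rw [← mul_assoc, haa, one_mul]
      exact hbz.symm
    rw [hset] at hb_mem
    have hab : Commute a b := hb_mem.1.2
    have : (a * b) ^ 2 = 1 := by
      rw [pow_two]
      calc a * b * (a * b) = a * (b * a) * b := by group
        _ = a * (a * b) * b := by rw [hab.eq]
        _ = (a * a) * (b * b) := by group
        _ = 1 := by rw [haa, hbb, one_mul]
    have hdvd : n ∣ 2 := orderOf_dvd_of_pow_eq_one this
    have := Nat.le_of_dvd (by norm_num) hdvd
    omega

end Cfsg.Agent.S5363
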