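import Cfsg.Statements.S5367
import Cfsg.Agent.Lib.Helper89.Fischer2
import Cfsg.Agent.Lib.Helper89.Fischer3

set_option autoImplicit false
open Cfsg

namespace Cfsg.Agent.S5367

open Cfsg.LineSystem Cfsg.Agent.S5366 Cfsg.Agent.Lib.Helper89.Fischer

/-- Let D be a conjugation-invariant generating set of 3-transpositions of a finite group G. Then the line system on D whose lines are the triples {x, y, y x y⁻¹} for non-commuting members x, y of D is a Fischer space: two points lie on at most one line, lines have three points, and two different meeting lines generate a subspace isomorphic to the dual affine plane of order two or to the affine plane of order three. -/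
theorem result {G : Type*} [Group G] [Finite G] {D : Set G} (hD : Cfsg.IsThreeTranspositionGroup D) : Cfsg.IsFischerSpace (Cfsg.threeTranspositionLines D) := by
  have hT := tt_of hD
  refine ⟨partialLinear hT, ncard_three hT, ?_⟩
  rintro l hl m hm hne ⟨a, hal, ham⟩
  obtain ⟨b, hbl, hba⟩ := exists_ne_of_mem (ncard_three hT) hl a
  obtain ⟨d, hdm, hda⟩ := exists_ne_of_mem (ncard_three hT) hm a
  obtain ⟨hab, rfl⟩ := line_through hT hl hal hbl (Ne.symm hba)
  obtain ⟨had, rfl⟩ := line_through hT hm ham hdm (Ne.symm hda)
  have T1 := hT.tri a a.2 b b.2 hab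
  have T2 := hT.tri a a.2 d d.2 had
  have hd'm : (⟨(a : G) * d * a, hT.conj a a.2 d d.2⟩ : D) ∈ lineOf a d := by
    rw [lineOf_eq hT a d had]
    exact Or.inr (Or.inr rfl)
  have had' : a ≠ (⟨(a : G) * d * a, hT.conj a a.2 d d.2⟩ : D) := by
    intro h
    apply T2.npr
    have h' : (a : G) = (a : G) * d * a := congrArg Subtype.val h
    rw [← h']
  have h1 : d ∉ lineOf a b := fun h => hne (line_through hT hl hal h (Ne.symm hda)).2
  have e2 := line_through hT hm ham hd'm had'
  have h2 : (⟨(a : G) * d * a, hT.conj a a.2 d d.2⟩ : D) ∉ lineOf a b := by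
    intro h
    apply hne
    rw [(line_through hT hl hal h had').2, ← e2.2]
  rw [lineOf_eq hT a b hab] at h1 h2
  have n1 : (b : G) ≠ d := fun h => h1 (Or.inr (Or.inl h.symm))
  have n2 : (d : G) ≠ (a : G) * b * a := fun h => h1 (Or.inr (Or.inr h))
  have n3 : (b : G) ≠ (a : G) * d * a := fun h => h2 (Or.inr (Or.inl h.symm))
  by_cases c1 : Commute (b : G) d
  · left
    exact dual_case hT a b d hab had c1 n1
  by_cases c2 : Commute (b : G) ((a : G) * d * a)
  · left
    have h := dual_case hT a b ⟨(a : G) * d * a, hT.conj a a.2 d d.2⟩ hab e2.1 c2 n3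
    rw [← e2.2] at h
    exact h
  · right
    exact affine_case hT a b d hab had c1 c2 n2

end Cfsg.Agent.S5367
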