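import Cfsg.Statements.S5387
import Cfsg.Agent.S2088
import Cfsg.Agent.Lib.Helper8.L34Cover

set_option autoImplicit false
open Cfsg

namespace Cfsg.Agent.S5387

/-- Up to isomorphism there is at most one quasisimple group whose centre is elementary abelian of order 4 and whose central quotient is isomorphic to the projective special linear group of dimension 3 over the field with four elements: any two such groups are isomorphic. -/
theorem result {L₁ L₂ : Type*} [Group L₁] [Finite L₁] [Group L₂] [Finite L₂] (F : Type) [Field F] [Fintype F] (hF : Fintype.card F = 4) (h₁ : Cfsg.IsQuasisimple L₁) (h₂ : Cfsg.IsQuasisimple L₂) (hc₁ : Nat.card (Subgroup.center L₁) = 4) (hc₂ : Nat.card (Subgroup.center L₂) = 4) (he₁ : ∀ x ∈ Subgroup.center L₁, x * x = 1) (he₂ : ∀ x ∈ Subgroup.center L₂, x * x = 1) (e₁ : L₁ ⧸ Subgroup.center L₁ ≃* Matrix.ProjectiveSpecialLinearGroup (Fin 3) F) (e₂ : L₂ ⧸ Subgroup.center L₂ ≃* Matrix.ProjectiveSpecialLinearGroup (Fin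 3) F) : Nonempty (L₁ ≃* L₂) := by
  classical
  have hA := Cfsg.Agent.S2088.result hF
  obtain ⟨eT⟩ := Cfsg.Agent.Lib.Helper66.Hopf.equiv_T_of_hasSchurMultiplier
    (Cfsg.Agent.Lib.Helper66.Hopf.can (Matrix.ProjectiveSpecialLinearGroup (Fin 3) F))
    (Cfsg.Agent.Lib.Helper66.Hopf.can_surjective _) hA
  obtain ⟨f₁, hf₁, hk₁⟩ := Cfsg.Agent.Lib.Helper8.L34Cover.key _
    (Cfsg.Agent.Lib.Helper66.Hopf.can_surjective _) eT h₁ hc₁ he₁ e₁
  obtain ⟨f₂, hf₂, hk₂⟩ := Cfsg.Agent.Lib.Helper8.L34Cover.key _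
    (Cfsg.Agent.Lib.Helper66.Hopf.can_surjective _) eT h₂ hc₂ he₂ e₂
  have hker : f₁.ker = f₂.ker := by
    ext x
    rw [hk₁, hk₂]
  exact ⟨(QuotientGroup.quotientKerEquivOfSurjective f₁ hf₁).symm.trans
    ((QuotientGroup.quotientMulEquivOfEq hker).trans
      (QuotientGroup.quotientKerEquivOfSurjective f₂ hf₂))⟩

end Cfsg.Agent.S5387
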