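import Cfsg.Statements.S5393
import Cfsg.Agent.Lib.Helper89.GolaySub

set_option autoImplicit false
open Cfsg

namespace Cfsg.Agent.S5393

open Cfsg.Agent.Lib.Helper7.GolayBase Cfsg.Agent.Lib.Helper7.GolayCode
  Cfsg.Agent.Lib.Helper89.GolaySub

/-- The length-24 code built from the squares modulo 23 contains the all-ones word, and the code modulo the all-ones word is an irreducible module over the field with two elements for the code's automorphism group: a subspace of the code that contains the all-ones word and is invariant under every coordinate permutation preserving the code is either the span of the all-ones word or the whole code. -/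
theorem result : (fun _ : Cfsg.GolayPt => (1 : ZMod 2)) ∈ Cfsg.golayCode ∧ ∀ W : Submodule (ZMod 2) (Cfsg.GolayPt → ZMod 2), (fun _ => (1 : ZMod 2)) ∈ W → W ≤ Cfsg.golayCode → (∀ σ ∈ Cfsg.M24, ∀ w ∈ W, (fun p => w (σ.symm p)) ∈ W) → W = Submodule.span (ZMod 2) {fun _ => (1 : ZMod 2)} ∨ W = Cfsg.golayCode := by
  have h1 : (fun _ : Cfsg.GolayPt => (1 : ZMod 2)) = wd full := by
    rw [wd_full]; rfl
  refine ⟨?_, ?_⟩
  · rw [h1]
    exact wd_mem_golayCode full full_mem_codeList
  · intro W h1W hWC hW
    rcases inv_sub_code W hW hWC with h | h | h
    · exfalso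
      rw [h, Submodule.mem_bot] at h1W
      have := congrFun h1W none
      revert this
      simp
    · left; exact h
    · right; exact h

end Cfsg.Agent.S5393
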