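import Cfsg.Statements.S5394
import Cfsg.Agent.Lib.Helper86.M24Inv2

set_option autoImplicit false
open Cfsg

namespace Cfsg.Agent.S5394

open Cfsg.Agent.Lib.Helper86.M24Inv2

/-- M₂₄ has exactly two classes of involutions: those whose fixed points form an octad, and the fixed-point-free ones; both occur. -/
theorem result : (∀ g ∈ Cfsg.M24, orderOf g = 2 → (Finset.univ.filter fun p => g p = p) ∈ Cfsg.octads ∨ ∀ p, g p ≠ p) ∧ (∃ g ∈ Cfsg.M24, orderOf g = 2 ∧ (Finset.univ.filter fun p => g p = p) ∈ Cfsg.octads) ∧ (∃ g ∈ Cfsg.M24, orderOf g = 2 ∧ ∀ p, g p ≠ p) ∧ ∀ g ∈ Cfsg.M24, ∀ h ∈ Cfsg.M24, orderOf g = 2 → orderOf h = 2 → ((∀ p, g p ≠ p) ↔ (∀ p, h p ≠ p)) → ∃ k ∈ Cfsg.M24, k * g * k⁻¹ = h := by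
  refine ⟨?_, ⟨gA, gA_mem, orderOf_gA, fixedPts_gA_mem⟩, ⟨gB, gB_mem, orderOf_gB, gB_fpf⟩, ?_⟩
  · intro g hg h2
    obtain ⟨k, hk, h | h⟩ := inv_cases hg h2
    · exact Or.inl (octad_of_conj_gA hk h)
    · exact Or.inr (fpf_of_conj_gB h)
  · intro g hg h hh hg2 hh2 hiff
    obtain ⟨k₁, hk₁, h1 | h1⟩ := inv_cases hg hg2 <;> obtain ⟨k₂, hk₂, h2 | h2⟩ := inv_cases hh hh2
    · exact ⟨k₂⁻¹ * k₁, M24.mul_mem (M24.inv_mem hk₂) hk₁, conj_of_conj h1 h2⟩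
    · exfalso
      obtain ⟨p, hp⟩ := exists_fixed_of_conj_gA h1
      exact (hiff.mpr (fpf_of_conj_gB h2)) p hp
    · exfalso
      obtain ⟨p, hp⟩ := exists_fixed_of_conj_gA h2
      exact (hiff.mp (fpf_of_conj_gB h1)) p hp
    · exact ⟨k₂⁻¹ * k₁, M24.mul_mem (M24.inv_mem hk₂) hk₁, conj_of_conj h1 h2⟩

end Cfsg.Agent.S5394
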