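import Cfsg.Statements.S5395

set_option autoImplicit false
open Cfsg

namespace Cfsg.Agent.S5395

open scoped IsMulCommutative

variable {E : Type*} [Group E]

/-- the central difference map of an automorphism trivial modulo the centre -/
def lam (φ : E ≃* E) (hφ : ∀ x : E, φ x * x⁻¹ ∈ Subgroup.center E) : E →* Subgroup.center E where
  toFun x := ⟨φ x * x⁻¹, hφ x⟩
  map_one' := by
    apply Subtype.ext
    simp
  map_mul' x y := by
    apply Subtype.ext
    show φ (x * y) * (x * y)⁻¹ = (φ x * x⁻¹) * (φ y * y⁻¹)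
    have h := (Subgroup.mem_center_iff.mp (hφ y)) x⁻¹
    rw [map_mul, mul_inv_rev]
    calc φ x * φ y * (y⁻¹ * x⁻¹) = φ x * ((φ y * y⁻¹) * x⁻¹) := by group
      _ = φ x * (x⁻¹ * (φ y * y⁻¹)) := by rw [h]
      _ = (φ x * x⁻¹) * (φ y * y⁻¹) := by group

theorem lam_apply (φ : E ≃* E) (hφ : ∀ x : E, φ x * x⁻¹ ∈ Subgroup.center E) (x : E) :
    ((lam φ hφ x : Subgroup.center E) : E) = φ x * x⁻¹ := rfl

theorem conj_mem (hcomm : commutator E = Subgroup.center E) (g x : E) :
    MulAut.conj g x * x⁻¹ ∈ Subgroup.center E := by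
  rw [← hcomm, commutator_def]
  have h := Subgroup.commutator_mem_commutator (Subgroup.mem_top g) (Subgroup.mem_top x)
  rw [commutatorElement_def] at h
  simpa [MulAut.conj_apply] using h

/-- For a finite extraspecial 2-group E, an automorphism of E that induces the identity on E modulo its centre is inner (so these automorphisms form exactly the inner automorphism group, an elementary abelian 2-group of order |E|/2). -/
theorem result {E : Type*} [Group E] [Finite E] (hE : Cfsg.IsExtraspecial 2 E) (φ : E ≃* E) (hφ : ∀ x : E, φ x * x⁻¹ ∈ Subgroup.center E) : ∃ g : E, ∀ x : E, φ x = g * x * g⁻¹ := by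
  classical
  obtain ⟨⟨hp, hfrat, hcomm⟩, hcard⟩ := hE
  -- an injective character of the centre
  have hnt : Nontrivial (Subgroup.center E) := by
    rw [← Finite.one_lt_card_iff_nontrivial, hcard]
    norm_num
  obtain ⟨z, hz⟩ := exists_ne (1 : Subgroup.center E)
  have hex1 : NeZero ((Monoid.exponent (Subgroup.center E) : ℕ) : ℂ) :=
    ⟨Nat.cast_ne_zero.mpr Monoid.exponent_ne_zero_of_finite⟩
  obtain ⟨ι, hι⟩ := CommGroup.exists_apply_ne_one_of_hasEnoughRootsOfUnity
    (Subgroup.center E) ℂ hz
  have hιinj : Function.Injective ι := by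
    rw [← MonoidHom.ker_eq_bot_iff]
    have hd : Nat.card ι.ker ∣ 2 := by
      rw [← hcard]; exact Subgroup.card_subgroup_dvd_card _
    rcases (Nat.dvd_prime Nat.prime_two).1 hd with h1 | h2
    · exact Subgroup.card_eq_one.mp h1
    · exfalso
      have htop : ι.ker = ⊤ := by
        rw [← Subgroup.card_eq_iff_eq_top, h2, hcard]
      have : z ∈ ι.ker := by rw [htop]; exact Subgroup.mem_top z
      exact hι (MonoidHom.mem_ker.mp this)
  -- the hom g ↦ (x ↦ ι [g,x])
  let F : E →* (E →* ℂˣ) := MonoidHom.mk'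
    (fun g => ι.comp (lam (MulAut.conj g) (conj_mem hcomm g)))
    (by
      intro g h
      ext x
      show ((ι (lam (MulAut.conj (g * h)) (conj_mem hcomm (g * h)) x) : ℂˣ) : ℂ) =
        ((ι (lam (MulAut.conj g) (conj_mem hcomm g) x) *
          ι (lam (MulAut.conj h) (conj_mem hcomm h) x) : ℂˣ) : ℂ)
      rw [← map_mul]
      congr 2
      apply Subtype.ext
      show MulAut.conj (g * h) x * x⁻¹ = (MulAut.conj g x * x⁻¹) * (MulAut.conj h x * x⁻¹)
      have hc := (Subgroup.mem_center_iff.mp (conj_mem hcomm h x)) g⁻¹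
      simp only [MulAut.conj_apply] at hc ⊢
      calc g * h * x * (g * h)⁻¹ * x⁻¹ = g * ((h * x * h⁻¹ * x⁻¹) * x * g⁻¹ * x⁻¹) := by group
        _ = g * ((h * x * h⁻¹ * x⁻¹) * g⁻¹ * (g * x * g⁻¹ * x⁻¹)) := by group
        _ = g * (g⁻¹ * (h * x * h⁻¹ * x⁻¹) * (g * x * g⁻¹ * x⁻¹)) := by rw [hc]
        _ = (h * x * h⁻¹ * x⁻¹) * (g * x * g⁻¹ * x⁻¹) := by group
        _ = (g * x * g⁻¹ * x⁻¹) * (h * x * h⁻¹ * x⁻¹) := by
            have hc2 := (Subgroup.mem_center_iff.mp (conj_mem hcomm h x)) (g * x * g⁻¹ * x⁻¹)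
            simp only [MulAut.conj_apply] at hc2
            exact hc2.symm)
  have hFapp : ∀ g x, F g x = ι (lam (MulAut.conj g) (conj_mem hcomm g) x) := fun g x => rfl
  have hker : F.ker = Subgroup.center E := by
    ext g
    rw [MonoidHom.mem_ker, Subgroup.mem_center_iff]
    constructor
    · intro h x
      have h1 : F g x = 1 := by rw [h]; rfl
      rw [hFapp] at h1
      have h2 : lam (MulAut.conj g) (conj_mem hcomm g) x = 1 := hιinj (h1.trans (map_one ι).symm)
      have h3 := congrArg Subtype.val h2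
      rw [lam_apply] at h3
      simp only [MulAut.conj_apply, Subgroup.coe_one] at h3
      calc x * g = (g * x * g⁻¹ * x⁻¹)⁻¹ * (g * x) := by group
        _ = g * x := by rw [h3]; group
    · intro h
      ext x
      rw [hFapp]
      have : lam (MulAut.conj g) (conj_mem hcomm g) x = 1 := by
        apply Subtype.ext
        rw [lam_apply]
        simp only [MulAut.conj_apply, Subgroup.coe_one]
        rw [← h x]
        group
      rw [this, map_one]
      rfl
  -- counting
  have hex2 : NeZero ((Monoid.exponent (Abelianization E) : ℕ) : ℂ) :=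
    ⟨Nat.cast_ne_zero.mpr Monoid.exponent_ne_zero_of_finite⟩
  have hc1 : Nat.card (Abelianization E →* ℂˣ) = Nat.card (Abelianization E) :=
    CommGroup.card_monoidHom_of_hasEnoughRootsOfUnity _ ℂ
  have hc2 : Nat.card (E →* ℂˣ) = Nat.card (Abelianization E) :=
    (Nat.card_congr Abelianization.lift).trans hc1
  have hc3 : Nat.card (Abelianization E) = (Subgroup.center E).index := by
    rw [← hcomm]; rfl
  have hfin : Finite (E →* ℂˣ) := by
    apply Nat.finite_of_card_ne_zero
    rw [hc2]
    exact Nat.card_pos.ne'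
  have hrange : F.range = ⊤ := by
    rw [← Subgroup.card_eq_iff_eq_top, ← Subgroup.index_ker, hker, hc2, hc3]
  have hmem : ι.comp (lam φ hφ) ∈ F.range := by rw [hrange]; exact Subgroup.mem_top _
  obtain ⟨g, hg⟩ := hmem
  refine ⟨g, fun x => ?_⟩
  have h1 : F g x = ι (lam φ hφ x) := by rw [hg]; rfl
  rw [hFapp] at h1
  have h2 := congrArg Subtype.val (hιinj h1)
  rw [lam_apply, lam_apply, MulAut.conj_apply] at h2
  exact (mul_right_cancel h2).symm

end Cfsg.Agent.S5395
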