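import Cfsg.Statements.S5429
-- import your own Cfsg.Agent.* helpers here
import Cfsg.Agent.Lib.Helper90.Basic
import Cfsg.Agent.Lib.Helper90.Conj
import Cfsg.Agent.Lib.Helper90.Invert
import Cfsg.Agent.Lib.Helper90.ESData
import Cfsg.Agent.Lib.Helper90.ESConv
import Cfsg.Agent.Lib.Helper90.FStarES


set_option autoImplicit false
open Cfsg

namespace Cfsg.Agent.S5429

open Cfsg.Agent.Lib.Helper90 Cfsg.Agent.Lib.Helper90.ESData Cfsg.Agent.Lib.Helper90.Conj in
theorem pow4 {G : Type*} [Group G] {Q : Subgroup G} {z : G} (hE : ESD Q z) (x : G)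
    (hx : x ∈ Q) : x ^ 2 ^ 2 = 1 := by
  have e : x ^ 2 ^ 2 = (x * x) * (x * x) := by
    norm_num
    rw [pow_succ, pow_succ, pow_succ, pow_one]
    group
  rw [e]
  rcases hE.sq x hx with h | h
  · rw [h]; simp
  · rw [h]; exact hE.zz

open Cfsg.Agent.Lib.Helper90 Cfsg.Agent.Lib.Helper90.ESData Cfsg.Agent.Lib.Helper90.Conj in
theorem quot_large {G : Type*} [Group G] [Finite G] (z t s y : G) (Q Q' P : Subgroup G)
    (hE : ESD Q z) (hE2 : ESD Q' s)
    (htt : t * t = 1) (ht1 : t ≠ 1) (htz : t ≠ z)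
    (hmemP : ∀ x, x ∈ P ↔ x ∈ Q ∧ t * x = x * t)
    (htQ : t ∈ Q) (hzQ' : z ∈ Q') (hsQ : s ∈ Q) (hst : t * s = s * t)
    (hyP : y ∈ P) (hys : y * s * y⁻¹ = z * s)
    (hnc1 : ∀ c : G, c * z * c⁻¹ ≠ z * t)
    (hnc2 : ∀ c : G, c * s * c⁻¹ ≠ s * t)
    (hCP : ∀ c : G, c * z = z * c → (∀ x ∈ P, c * x * c⁻¹ = x ∨ c * x * c⁻¹ = x * t) → c ∈ Q)
    [hn : ((Subgroup.zpowers t).subgroupOf (Subgroup.centralizer ({t} : Set G))).Normal] :
    Cfsg.IsLargeExtraspecial ((P.subgroupOf (Subgroup.centralizer ({t} : Set G))).map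
      (QuotientGroup.mk' ((Subgroup.zpowers t).subgroupOf
        (Subgroup.centralizer ({t} : Set G))))) := by
  classical
  have hmemC : ∀ c : G, c ∈ Subgroup.centralizer ({t} : Set G) ↔ t * c = c * t := by
    intro c
    rw [Subgroup.mem_centralizer_iff]
    constructor
    · intro h; exact h t (Set.mem_singleton t)
    · intro h u hu; rw [Set.mem_singleton_iff] at hu; rw [hu]; exact h
  set C := Subgroup.centralizer ({t} : Set G) with hC
  set T := (Subgroup.zpowers t).subgroupOf C with hT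
  set π := QuotientGroup.mk' T with hπdef
  have hPC : P ≤ C := fun x hx => (hmemC x).mpr ((hmemP x).mp hx).2
  have hcomm_t : ∀ c : ↥C, t * (c : G) = (c : G) * t := fun c => (hmemC _).mp c.2
  have hπ1 : ∀ c : ↥C, π c = 1 ↔ (c : G) = 1 ∨ (c : G) = t := by
    intro c
    rw [hπdef, QuotientGroup.mk'_apply, QuotientGroup.eq_one_iff, hT, Subgroup.mem_subgroupOf,
      mem_zpowers_of_mul_self htt]
  have hπ : ∀ a b : ↥C, π a = π b ↔ (a : G) = b ∨ (a : G) = b * t := by
    intro a b
    have h1 : π a = π b ↔ π (b⁻¹ * a) = 1 := by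
      rw [map_mul, map_inv, inv_mul_eq_one, eq_comm]
    rw [h1, hπ1]
    have e : ((b⁻¹ * a : ↥C) : G) = (b : G)⁻¹ * (a : G) := rfl
    rw [e]
    constructor
    · rintro (h | h)
      · left
        have := congrArg (fun u => (b : G) * u) h
        simpa using this
      · right
        have := congrArg (fun u => (b : G) * u) h
        simpa using this
    · rintro (h | h)
      · left; rw [h]; simp
      · right; rw [h]; simp
  have hsurj : Function.Surjective π := QuotientGroup.mk'_surjective T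
  have hzP : z ∈ P := (hmemP z).mpr ⟨hE.zQ, hE.zc t htQ⟩
  have hsP : s ∈ P := (hmemP s).mpr ⟨hsQ, hst⟩
  have hyt : t * y = y * t := ((hmemP y).mp hyP).2
  obtain ⟨zc, hzc⟩ : ∃ zc : ↥C, (zc : G) = z := ⟨⟨z, hPC hzP⟩, rfl⟩
  obtain ⟨sc, hsc⟩ : ∃ sc : ↥C, (sc : G) = s := ⟨⟨s, hPC hsP⟩, rfl⟩
  obtain ⟨yc, hyc⟩ : ∃ yc : ↥C, (yc : G) = y := ⟨⟨y, hPC hyP⟩, rfl⟩
  have hzcP : (zc : G) ∈ P := by rw [hzc]; exact hzP
  have hscP : (sc : G) ∈ P := by rw [hsc]; exact hsP
  have hycP : (yc : G) ∈ P := by rw [hyc]; exact hyP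
  have hconj_t : ∀ c : ↥C, ∀ a : G, (c : G) * a = a * (c : G) * t →
      (c : G) * a * (c : G)⁻¹ = a * t := by
    intro c a h
    rw [h]
    calc a * (c : G) * t * (c : G)⁻¹ = a * ((c : G) * t) * (c : G)⁻¹ := by group
      _ = a * (t * (c : G)) * (c : G)⁻¹ := by rw [hcomm_t c]
      _ = a * t := by group
  have hz_comm_of : ∀ c : ↥C, π (c * zc) = π (zc * c) → (c : G) * z = z * c := by
    intro c h
    rcases (hπ _ _).mp h with h1 | h1
    · have h2 : (c : G) * (zc : G) = (zc : G) * (c : G) := h1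
      rwa [hzc] at h2
    · exfalso
      have h2 : (c : G) * (zc : G) = (zc : G) * (c : G) * t := h1
      rw [hzc] at h2
      exact hnc1 c (hconj_t c z h2)
  have hs_comm_of : ∀ c : ↥C, π (c * sc) = π (sc * c) → (c : G) * s = s * c := by
    intro c h
    rcases (hπ _ _).mp h with h1 | h1
    · have h2 : (c : G) * (sc : G) = (sc : G) * (c : G) := h1
      rwa [hsc] at h2
    · exfalso
      have h2 : (c : G) * (sc : G) = (sc : G) * (c : G) * t := h1
      rw [hsc] at h2
      exact hnc2 c (hconj_t c s h2)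
  have hmemPbar : ∀ x : ↥C, (x : G) ∈ P → π x ∈ (P.subgroupOf C).map π :=
    fun x hx => ⟨x, hx, rfl⟩
  have hzz' : π zc * π zc = 1 := by
    rw [← map_mul]
    have : zc * zc = 1 := Subtype.ext (by rw [Subgroup.coe_mul, hzc]; exact hE.zz)
    rw [this, map_one]
  have hESD : ESD ((P.subgroupOf C).map π) (π zc) := by
    refine ⟨hmemPbar zc hzcP, ?_, hzz', ?_, ?_, ?_, ?_, ?_⟩
    · intro h
      rcases (hπ1 zc).mp h with h1 | h1
      · rw [hzc] at h1; exact hE.z1 h1
      · rw [hzc] at h1; exact htz h1.symm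
    · rintro _ ⟨x, hx, rfl⟩
      rw [← map_mul, ← map_mul]
      congr 1
      apply Subtype.ext
      rw [Subgroup.coe_mul, Subgroup.coe_mul, hzc]
      exact hE.zc (x : G) ((hmemP _).mp hx).1
    · rintro _ ⟨x, hx, rfl⟩ _ ⟨x', hx', rfl⟩
      rw [← map_inv, ← map_inv, ← map_mul, ← map_mul, ← map_mul]
      rcases hE.comm (x : G) ((hmemP _).mp hx).1 (x' : G) ((hmemP _).mp hx').1 with h | h
      · left
        have : x * x' * x⁻¹ * x'⁻¹ = 1 := Subtype.ext h
        rw [this, map_one]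
      · right
        congr 1
        apply Subtype.ext
        rw [hzc]
        exact h
    · rintro _ ⟨x, hx, rfl⟩
      rw [← map_mul]
      rcases hE.sq (x : G) ((hmemP _).mp hx).1 with h | h
      · left
        have : x * x = 1 := Subtype.ext h
        rw [this, map_one]
      · right
        congr 1
        apply Subtype.ext
        rw [hzc]
        exact h
    · intro cbar hc
      obtain ⟨c, rfl⟩ := hsurj cbar
      have hcz : (c : G) * z = z * c :=
        hz_comm_of c (by rw [map_mul, map_mul]; exact hc _ (hmemPbar zc hzcP))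
      have hcx : ∀ x ∈ P, (c : G) * x * (c : G)⁻¹ = x ∨ (c : G) * x * (c : G)⁻¹ = x * t := by
        intro x hx
        have h1 := hc (π ⟨x, hPC hx⟩) (hmemPbar ⟨x, hPC hx⟩ hx)
        rw [← map_mul, ← map_mul] at h1
        rcases (hπ _ _).mp h1 with h2 | h2
        · left
          have h3 : (c : G) * x = x * c := h2
          rw [h3]; group
        · right
          have h3 : (c : G) * x = x * c * t := h2
          exact hconj_t c x h3
      have hcQ : (c : G) ∈ Q := hCP c hcz hcx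
      have hall : ∀ p ∈ Q, p * t = t * p → (c : G) * p = p * c := by
        intro p hp hpt
        have hpP : p ∈ P := (hmemP p).mpr ⟨hp, hpt.symm⟩
        rcases hcx p hpP with h | h
        · have := congrArg (fun u => u * (c : G)) h
          simpa [mul_assoc] using this
        · exfalso
          have h4 : (c : G) * p * (c : G)⁻¹ * p⁻¹ = t := by
            rw [h, hpt]; group
          rcases hE.comm c hcQ p hp with h5 | h5
          · exact ht1 (h4.symm.trans h5)
          · exact htz (h4.symm.trans h5)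
      rcases hE.double_centralizer htQ hcQ hall with h | h | h | h
      · left; exact (hπ1 c).mpr (Or.inl h)
      · right; exact (hπ c zc).mpr (Or.inl (by rw [hzc]; exact h))
      · left; exact (hπ1 c).mpr (Or.inr h)
      · right; exact (hπ c zc).mpr (Or.inr (by rw [hzc]; exact h))
    · intro nbar hnz
      obtain ⟨n, rfl⟩ := hsurj nbar
      have hnz' : (n : G) * z = z * n := hz_comm_of n (by rw [map_mul, map_mul]; exact hnz)
      rintro _ ⟨x, hx, rfl⟩
      rw [← map_inv, ← map_mul, ← map_mul]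
      apply hmemPbar
      rw [hmemP]
      exact ⟨hE.norm n hnz' x ((hmemP _).mp hx).1, hcomm_t (n * x * n⁻¹)⟩
  have hnonab : ∃ a ∈ (P.subgroupOf C).map π, ∃ b ∈ (P.subgroupOf C).map π, a * b ≠ b * a := by
    refine ⟨π yc, hmemPbar yc hycP, π sc, hmemPbar sc hscP, ?_⟩
    intro h
    rw [← map_mul, ← map_mul] at h
    rcases (hπ _ _).mp h with h1 | h1
    · have h2 : (yc : G) * (sc : G) = (sc : G) * (yc : G) := h1
      rw [hyc, hsc] at h2
      apply hE.z1
      have h3 : y * s * y⁻¹ = s := by rw [h2]; group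
      rw [hys] at h3
      simpa using h3
    · have h2 : (yc : G) * (sc : G) = (sc : G) * (yc : G) * t := h1
      have h3 := hconj_t yc _ h2
      rw [hyc, hsc] at h3
      exact hnc2 y h3
  have hodd : ∀ K : Subgroup (↥C ⧸ T), Odd (Nat.card K) →
      (P.subgroupOf C).map π ≤ Subgroup.normalizer (K : Set (↥C ⧸ T)) → K = ⊥ := by
    intro K hKodd hPK
    have hnK : ∀ x : ↥C, (x : G) ∈ P → ∀ k ∈ K, π x * k * (π x)⁻¹ ∈ K := by
      intro x hx k hk
      exact conj_mem_of_mem_normalizer (hPK (hmemPbar x hx)) hk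
    have h2el : ∀ c : ↥C, π c ∈ K → (∃ j : ℕ, (c : G) ^ 2 ^ j = 1) → π c = 1 := by
      rintro c hc ⟨j, hj⟩
      apply Basic.eq_one_of_mem_odd_of_pow_two K hKodd (π c) hc j
      rw [← map_pow]
      have : c ^ 2 ^ j = 1 := Subtype.ext (by simpa using hj)
      rw [this, map_one]
    have hO1 : ∀ k ∈ K, π zc * k = k * π zc → k = 1 := by
      intro kbar hk hzk
      obtain ⟨k, rfl⟩ := hsurj kbar
      have hkz : (k : G) * z = z * k := hz_comm_of k (by rw [map_mul, map_mul]; exact hzk.symm)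
      have hkx : ∀ x ∈ P, (k : G) * x * (k : G)⁻¹ = x ∨ (k : G) * x * (k : G)⁻¹ = x * t := by
        intro x hx
        have hxQ := ((hmemP x).mp hx).1
        have hxt := ((hmemP x).mp hx).2
        obtain ⟨xc, hxc⟩ : ∃ xc : ↥C, (xc : G) = x := ⟨⟨x, hPC hx⟩, rfl⟩
        have hxcP : (xc : G) ∈ P := by rw [hxc]; exact hx
        have hu : π (k * xc * k⁻¹ * xc⁻¹) ∈ K := by
          have e : π (k * xc * k⁻¹ * xc⁻¹) = π k * (π xc * (π k)⁻¹ * (π xc)⁻¹) := by
            simp only [map_mul, map_inv]; group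
          rw [e]
          exact K.mul_mem hk (hnK xc hxcP _ (K.inv_mem hk))
        have huQ : (k : G) * x * (k : G)⁻¹ * x⁻¹ ∈ Q :=
          Q.mul_mem (hE.norm k hkz x hxQ) (Q.inv_mem hxQ)
        have hcoe : ((k * xc * k⁻¹ * xc⁻¹ : ↥C) : G) = (k : G) * x * (k : G)⁻¹ * x⁻¹ := by
          rw [← hxc]; rfl
        have h1 := h2el _ hu ⟨2, by rw [hcoe]; exact pow4 hE _ huQ⟩
        rcases (hπ1 _).mp h1 with h2 | h2
        · left
          rw [hcoe] at h2
          have := congrArg (fun u => u * x) h2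
          simpa [mul_assoc] using this
        · right
          rw [hcoe] at h2
          have h4 : (k : G) * x * (k : G)⁻¹ = t * x := by rw [← h2]; group
          rw [h4, hxt]
      have hkQ : (k : G) ∈ Q := hCP k hkz hkx
      exact h2el k hk ⟨2, pow4 hE _ hkQ⟩
    have hzinv : ∀ k ∈ K, π zc * k * (π zc)⁻¹ = k⁻¹ :=
      Invert.inverts_of_fixed_point_free K (π zc) hzz' (hnK zc hzcP) hO1
    have hO3 : ∀ k ∈ K, π sc * k = k * π sc → k = 1 := by
      intro kbar hk hsk
      obtain ⟨k, rfl⟩ := hsurj kbar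
      have hks : (k : G) * s = s * k := hs_comm_of k (by rw [map_mul, map_mul]; exact hsk.symm)
      have huQ' : (k : G) * z * (k : G)⁻¹ * z⁻¹ ∈ Q' :=
        Q'.mul_mem (hE2.norm k hks z hzQ') (Q'.inv_mem hzQ')
      have hu : π (k * zc * k⁻¹ * zc⁻¹) = π k * π k := by
        have e1 := hzinv (π k) hk
        have e2 : π zc * (π k)⁻¹ * (π zc)⁻¹ = π k := by
          have e : π zc * (π k)⁻¹ * (π zc)⁻¹ = (π zc * π k * (π zc)⁻¹)⁻¹ := by group
          rw [e, e1, inv_inv]
        have e3 : π (k * zc * k⁻¹ * zc⁻¹) = π k * (π zc * (π k)⁻¹ * (π zc)⁻¹) := by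
          simp only [map_mul, map_inv]; group
        rw [e3, e2]
      have hcoe : ((k * zc * k⁻¹ * zc⁻¹ : ↥C) : G) = (k : G) * z * (k : G)⁻¹ * z⁻¹ := by
        rw [← hzc]; rfl
      have h1 : π (k * zc * k⁻¹ * zc⁻¹) = 1 :=
        h2el _ (by rw [hu]; exact K.mul_mem hk hk) ⟨2, by rw [hcoe]; exact pow4 hE2 _ huQ'⟩
      rw [hu] at h1
      apply Basic.eq_one_of_mem_odd_of_pow_two K hKodd (π k) hk 1
      rw [pow_one, pow_two]; exact h1
    have hss' : π sc * π sc = 1 := by
      rw [← map_mul]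
      have : sc * sc = 1 := Subtype.ext (by rw [Subgroup.coe_mul, hsc]; exact hE2.zz)
      rw [this, map_one]
    have hsinv : ∀ k ∈ K, π sc * k * (π sc)⁻¹ = k⁻¹ :=
      Invert.inverts_of_fixed_point_free K (π sc) hss' (hnK sc hscP) hO3
    rw [Subgroup.eq_bot_iff_forall]
    intro k hk
    have hl : π yc * k * (π yc)⁻¹ ∈ K := hnK yc hycP k hk
    have h1 : π sc * (π zc * (π yc * k * (π yc)⁻¹) * (π zc)⁻¹) * (π sc)⁻¹
        = π yc * k * (π yc)⁻¹ := by
      rw [hzinv _ hl]
      have e : π sc * (π yc * k * (π yc)⁻¹)⁻¹ * (π sc)⁻¹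
          = (π sc * (π yc * k * (π yc)⁻¹) * (π sc)⁻¹)⁻¹ := by group
      rw [e, hsinv _ hl, inv_inv]
    have h2 : π yc * π sc * (π yc)⁻¹ = π zc * π sc := by
      rw [← map_inv, ← map_mul, ← map_mul, ← map_mul]
      congr 1
      apply Subtype.ext
      show (yc : G) * (sc : G) * (yc : G)⁻¹ = (zc : G) * (sc : G)
      rw [hyc, hsc, hzc]
      exact hys
    have h3 : π sc * π zc = π zc * π sc := by
      rw [← map_mul, ← map_mul]
      congr 1
      apply Subtype.ext
      show (sc : G) * (zc : G) = (zc : G) * (sc : G)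
      rw [hsc, hzc]
      exact hE.zc s hsQ
    have h4 : π sc * k * (π sc)⁻¹ = k := by
      have e1 : π sc * (π zc * (π yc * k * (π yc)⁻¹) * (π zc)⁻¹) * (π sc)⁻¹
          = (π sc * π zc) * (π yc * k * (π yc)⁻¹) * (π sc * π zc)⁻¹ := by group
      rw [e1, h3, ← h2] at h1
      have e2 : (π yc * π sc * (π yc)⁻¹) * (π yc * k * (π yc)⁻¹) * (π yc * π sc * (π yc)⁻¹)⁻¹
          = π yc * (π sc * k * (π sc)⁻¹) * (π yc)⁻¹ := by group
      rw [e2] at h1
      have := congrArg (fun u => (π yc)⁻¹ * u * π yc) h1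
      simpa [mul_assoc] using this
    have h5 : k⁻¹ = k := by rw [← hsinv k hk, h4]
    apply Basic.eq_one_of_mem_odd_of_pow_two K hKodd k hk 1
    rw [pow_one, pow_two]
    calc k * k = k⁻¹ * k := by rw [h5]
      _ = 1 := inv_mul_cancel k
  exact ESConv.ESD.isLarge hESD hnonab hodd


/-- Let z be an involution of the finite group G with centralizer C whose generalized Fitting subgroup Q is extraspecial of width at least 3 (order 2^(2w+1), w ≥ 3); let g be an element of G with g z g⁻¹ in Q but outside the centre Z of Q, and t an involution lying in both Q and g Q g⁻¹ that is not conjugate to z; write P for the centralizer of t in Q and suppose that the elements of C acting trivially by conjugation on P modulo the subgroup generated by t and z are exactly the elements of Q. Then the image of P in the centralizer of t modulo the subgroup generated by t is a large extraspecial 2-subgroup there, and g z g⁻¹ is conjugate to z inside the subgroup generated by P and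 the centralizer of t in g Q g⁻¹. -/
theorem result {G : Type*} [Group G] [Finite G] (z : G) (hz : orderOf z = 2) (Q : Subgroup G) (hQC : Q ≤ Subgroup.centralizer ({z} : Set G)) (hF : (Cfsg.generalizedFittingSubgroup ↥(Subgroup.centralizer ({z} : Set G))).map (Subgroup.centralizer ({z} : Set G)).subtype = Q) (hQ : Cfsg.IsExtraspecial 2 ↥Q) (w : ℕ) (hw : 3 ≤ w) (hcard : Nat.card ↥Q = 2 ^ (2 * w + 1)) (g : G) (hgQ : g * z * g⁻¹ ∈ Q) (hgZ : g * z * g⁻¹ ∉ ((Subgroup.center ↥Q).map Q.subtype)) (t : G) (ht : orderOf t = 2) (htQ : t ∈ Q ⊓ (Q).map (MulAut.conj g).toMonoidHom) (htz : ¬ IsConj z t) (P : Subgroup G) (hP : P = Q ⊓ Subgroup.centralizer ({t} : Set G)) (hCP : ∀ c ∈ Subgroup.centralizer ({z} : Set G), (∀ x ∈ P, ∃ y ∈ Subgroup.closure ({t, z} : Set G), c * x * c⁻¹ = x * y) ↔ c ∈ Q) [hn : ((Subgroup.zpowers t).subgroupOf (Subgroup.centralizer ({t} : Set G))).Normal] : Cfsg.IsLargeExtraspecial ((P.subgroupOf (Subgroup.centralizer ({t} : Set G))).map (QuotientGroup.mk'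 ((Subgroup.zpowers t).subgroupOf (Subgroup.centralizer ({t} : Set G))))) ∧ ∃ x ∈ P ⊔ ((Q).map (MulAut.conj g).toMonoidHom ⊓ Subgroup.centralizer ({t} : Set G)), x * (g * z * g⁻¹) * x⁻¹ = z := by
  have hS := Lib.Helper90.FStarES.Setup.of_gfs hz hF hQ
  obtain ⟨z', hE0, hz'Z, -⟩ :=
    Lib.Helper90.ESData.exists_esd Q hQ hS.centralizer_eq hS.centralizer_le
  have hz' : z' = z := by
    rcases hS.center_cases hz'Z with h | h
    · exact absurd h hE0.z1
    · exact h
  rw [hz'] at hE0
  have hE2 := hE0.conj g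
  have htt : t * t = 1 := by
    have := pow_orderOf_eq_one t
    rwa [ht, pow_two] at this
  have ht1 : t ≠ 1 := by
    intro h
    rw [h, orderOf_one] at ht
    omega
  have htz' : t ≠ z := by
    intro h
    apply htz
    rw [h]
  have hsz : g * z * g⁻¹ ≠ z := by
    intro h
    apply hgZ
    rw [h]
    exact hS.z_mem_center
  have hcard9 : 9 ≤ Nat.card ↥Q := by
    rw [hcard]
    calc 9 ≤ 2 ^ 7 := by norm_num
      _ ≤ 2 ^ (2 * w + 1) := Nat.pow_le_pow_right (by norm_num) (by omega)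
  have hzQ' := hE0.mem_conj_of_conj_mem hcard9 g hgQ hsz
  have hts : t ≠ g * z * g⁻¹ := by
    intro h
    apply htz
    rw [h]
    exact isConj_iff.mpr ⟨g, rfl⟩
  obtain ⟨q0, hq0, hq0t⟩ := hE0.exists_conj htQ.1 ht1 htz'
  obtain ⟨q1, hq1, hq1t⟩ := hE2.exists_conj htQ.2 ht1 hts
  have hnc1 : ∀ c : G, c * z * c⁻¹ ≠ z * t := by
    intro c hc
    apply htz
    rw [isConj_iff]
    refine ⟨q0⁻¹ * c, ?_⟩
    calc q0⁻¹ * c * z * (q0⁻¹ * c)⁻¹ = q0⁻¹ * (c * z * c⁻¹) * q0 := by group
      _ = q0⁻¹ * (q0 * t * q0⁻¹) * q0 := by rw [hc, hq0t]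
      _ = t := by group
  have hnc2 : ∀ c : G, c * (g * z * g⁻¹) * c⁻¹ ≠ (g * z * g⁻¹) * t := by
    intro c hc
    apply htz
    rw [isConj_iff]
    refine ⟨q1⁻¹ * c * g, ?_⟩
    calc q1⁻¹ * c * g * z * (q1⁻¹ * c * g)⁻¹
        = q1⁻¹ * (c * (g * z * g⁻¹) * c⁻¹) * q1 := by group
      _ = q1⁻¹ * (q1 * t * q1⁻¹) * q1 := by rw [hc, hq1t]
      _ = t := by group
  have hmemP : ∀ x, x ∈ P ↔ x ∈ Q ∧ t * x = x * t := by
    intro x
    rw [hP, Subgroup.mem_inf, Subgroup.mem_centralizer_iff]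
    constructor
    · rintro ⟨h1, h2⟩
      exact ⟨h1, h2 t (Set.mem_singleton t)⟩
    · rintro ⟨h1, h2⟩
      refine ⟨h1, fun u hu => ?_⟩
      rw [Set.mem_singleton_iff] at hu
      rw [hu]; exact h2
  have hst : t * (g * z * g⁻¹) = (g * z * g⁻¹) * t := hE2.zc t htQ.2
  have hy : ∃ y ∈ P, y * (g * z * g⁻¹) * y⁻¹ = z * (g * z * g⁻¹) := by
    by_contra hcon
    push Not at hcon
    have hall : ∀ p ∈ Q, p * t = t * p → (g * z * g⁻¹) * p = p * (g * z * g⁻¹) := by
      intro p hp hpt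
      rcases hE0.comm p hp _ hgQ with h | h
      · have h' : p * (g * z * g⁻¹) = (g * z * g⁻¹) * p := by
          have := congrArg (fun u => u * (g * z * g⁻¹) * p) h
          simpa [mul_assoc] using this
        exact h'.symm
      · exfalso
        apply hcon p ((hmemP p).mpr ⟨hp, hpt.symm⟩)
        have := congrArg (fun u => u * (g * z * g⁻¹)) h
        simpa [mul_assoc] using this
    rcases hE0.double_centralizer htQ.1 hgQ hall with h | h | h | h
    · exact hE2.z1 h
    · exact hsz h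
    · exact hts h.symm
    · exact hnc1 g h
  obtain ⟨y, hyP, hys⟩ := hy
  have hy' : ∃ y' ∈ Q.map (MulAut.conj g).toMonoidHom, t * y' = y' * t ∧
      y' * z * y'⁻¹ = (g * z * g⁻¹) * z := by
    by_contra hcon
    push Not at hcon
    have hall : ∀ p ∈ Q.map (MulAut.conj g).toMonoidHom, p * t = t * p → z * p = p * z := by
      intro p hp hpt
      rcases hE2.comm p hp z hzQ' with h | h
      · have h' : p * z = z * p := by
          have := congrArg (fun u => u * z * p) h
          simpa [mul_assoc] using this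
        exact h'.symm
      · exfalso
        apply hcon p hp hpt.symm
        have := congrArg (fun u => u * z) h
        simpa [mul_assoc] using this
    rcases hE2.double_centralizer htQ.2 hzQ' hall with h | h | h | h
    · exact hE0.z1 h
    · exact hsz h.symm
    · exact htz' h.symm
    · apply htz
      rw [isConj_iff]
      refine ⟨q1⁻¹, ?_⟩
      rw [h, ← hq1t]; group
  obtain ⟨y', hy'Q, hy't, hy'z⟩ := hy'
  have hCP' : ∀ c : G, c * z = z * c →
      (∀ x ∈ P, c * x * c⁻¹ = x ∨ c * x * c⁻¹ = x * t) → c ∈ Q := by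
    intro c hcz hcx
    have hcC : c ∈ Subgroup.centralizer ({z} : Set G) := by
      rw [Subgroup.mem_centralizer_iff]
      intro u hu
      rw [Set.mem_singleton_iff] at hu
      rw [hu]; exact hcz.symm
    apply (hCP c hcC).mp
    intro x hx
    rcases hcx x hx with h | h
    · exact ⟨1, Subgroup.one_mem _, by rw [h, mul_one]⟩
    · exact ⟨t, Subgroup.subset_closure (Set.mem_insert t {z}), h⟩
  refine ⟨quot_large z t (g * z * g⁻¹) y Q (Q.map (MulAut.conj g).toMonoidHom) P hE0 hE2 htt ht1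
    htz' hmemP htQ.1 hzQ' hgQ hst hyP hys hnc1 hnc2 hCP', y' * y, ?_, ?_⟩
  · refine Subgroup.mul_mem _ (Subgroup.mem_sup_right ⟨hy'Q, ?_⟩) (Subgroup.mem_sup_left hyP)
    show y' ∈ Subgroup.centralizer ({t} : Set G)
    rw [Subgroup.mem_centralizer_iff]
    intro u hu
    rw [Set.mem_singleton_iff] at hu
    rw [hu]; exact hy't
  · have hy's : y' * (g * z * g⁻¹) * y'⁻¹ = g * z * g⁻¹ := by
      rw [hE2.zc y' hy'Q]; group
    calc y' * y * (g * z * g⁻¹) * (y' * y)⁻¹
        = y' * (y * (g * z * g⁻¹) * y⁻¹) * y'⁻¹ := by group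
      _ = y' * (z * (g * z * g⁻¹)) * y'⁻¹ := by rw [hys]
      _ = (y' * z * y'⁻¹) * (y' * (g * z * g⁻¹) * y'⁻¹) := by group
      _ = ((g * z * g⁻¹) * z) * (g * z * g⁻¹) := by rw [hy'z, hy's]
      _ = z * ((g * z * g⁻¹) * (g * z * g⁻¹)) := by rw [hE0.zc _ hgQ]; group
      _ = z := by rw [hE2.zz, mul_one]

end Cfsg.Agent.S5429
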