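import Cfsg.Statements.S5412
import Cfsg.Agent.S5429
import Cfsg.Agent.Lib.Helper92.MonBaby5
import Cfsg.Agent.Lib.Helper92.MonBaby6

set_option autoImplicit false
open Cfsg

namespace Cfsg.Agent.S5412

open Cfsg.Agent.Lib.Helper92.MonQ Cfsg.Agent.Lib.Helper92.MonBaby2
open Cfsg.Agent.Lib.Helper92.MonBaby5 Cfsg.Agent.Lib.Helper92.MonBaby6
open Cfsg.Agent.Lib.Helper90.ESData Cfsg.Agent.Lib.Helper90.FStarES

/-- Let G be a finite group of Monster type at the involution z with Q the extraspecial normal subgroup of order 2^25 of C = C_G(z) (so C/Q is identified with the first Conway group with Q modulo its centre the Leech lattice modulo 2, and z is not weakly closed in Q). Let t be an involution of Q not conjugate to z in G. Then the centralizer of t modulo the subgroup generated by t is a group of Baby Monster type (an involution whose centralizer D has generalized Fitting subgroup R extraspecial of order 2^23 with D/R identified with the second Conway group acting on R modulo its centre as on the vectors of the Leech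 lattice modulo 2 orthogonal to a short vector, modulo that vector; the involution not weakly closed in R). -/
theorem result {G : Type*} [Group G] [Finite G] (z : G) (Q : Subgroup (Subgroup.centralizer ({z} : Set G))) [Q.Normal] (hM : Cfsg.IsOfMonsterType z Q) (t : G) (htQ : ∃ htc : t ∈ Subgroup.centralizer ({z} : Set G), (⟨t, htc⟩ : Subgroup.centralizer ({z} : Set G)) ∈ Q) (ht2 : orderOf t = 2) (ht : ¬ IsConj z t) [hn : ((Subgroup.zpowers t).subgroupOf (Subgroup.centralizer ({t} : Set G))).Normal] : Cfsg.IsOfBabyMonsterType (↥(Subgroup.centralizer ({t} : Set G)) ⧸ (Subgroup.zpowers t).subgroupOf (Subgroup.centralizer ({t} : Set G))) := by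
  obtain ⟨htc, htQ'⟩ := htQ
  have hE := esd_of_monster hM
  have htt : t * t = 1 := by
    rw [← pow_two, ← ht2]
    exact pow_orderOf_eq_one t
  have ht1 : t ≠ 1 := by
    intro h
    rw [h, orderOf_one] at ht2
    omega
  have htz : t ≠ z := fun h => ht (by rw [h])
  have htQg : t ∈ Q.map (Subgroup.centralizer ({z} : Set G)).subtype := ⟨⟨t, htc⟩, htQ', rfl⟩
  have hzt : z * t = t * z := Subgroup.mem_centralizer_iff.mp htc z (Set.mem_singleton z)
  have hmemCt : ∀ y : G, y ∈ Subgroup.centralizer ({t} : Set G) ↔ y * t = t * y := by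
    intro y
    rw [Subgroup.mem_centralizer_iff]
    constructor
    · intro h
      exact (h t (Set.mem_singleton t)).symm
    · intro h w hw
      rw [Set.mem_singleton_iff] at hw
      rw [hw]
      exact h.symm
  -- `z` is not conjugate to `z t`
  obtain ⟨q0, hq0, hq0t⟩ := hE.exists_conj htQg ht1 htz
  have hnozt : ∀ c : G, c * z * c⁻¹ ≠ z * t := by
    intro c hc
    apply ht
    rw [isConj_iff]
    refine ⟨q0⁻¹ * c, ?_⟩
    calc q0⁻¹ * c * z * (q0⁻¹ * c)⁻¹ = q0⁻¹ * (c * z * c⁻¹) * q0 := by group
      _ = q0⁻¹ * (q0 * t * q0⁻¹) * q0 := by rw [hc, hq0t]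
      _ = t := by group
  -- the large extraspecial subgroup of the quotient
  obtain ⟨g, hgQ, hgne, htg⟩ := exists_conj_mem hM t ⟨htc, htQ'⟩ ht2 ht
  have hCP := hCP_holds hM t ⟨htc, htQ'⟩ ht2 ht
  have hF : (generalizedFittingSubgroup ↥(Subgroup.centralizer ({z} : Set G))).map
      (Subgroup.centralizer ({z} : Set G)).subtype
      = Q.map (Subgroup.centralizer ({z} : Set G)).subtype := by rw [hM.1.2.1]
  have hQes : IsExtraspecial 2 ↥(Q.map (Subgroup.centralizer ({z} : Set G)).subtype) :=
    isExtraspecial_of_mulEquiv (Q.equivMapOfInjective _ (Subgroup.subtype_injective _))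
      hM.1.2.2.1
  have hcardQg : Nat.card ↥(Q.map (Subgroup.centralizer ({z} : Set G)).subtype)
      = 2 ^ (2 * 12 + 1) := by
    rw [Subgroup.card_map_of_injective (Subgroup.subtype_injective _)]
    exact hM.1.2.2.2.1
  have hQC : Q.map (Subgroup.centralizer ({z} : Set G)).subtype
      ≤ Subgroup.centralizer ({z} : Set G) := by
    rintro _ ⟨q, -, rfl⟩
    exact q.2
  have hgZ : g * z * g⁻¹ ∉ (Subgroup.center
      ↥(Q.map (Subgroup.centralizer ({z} : Set G)).subtype)).map
      (Q.map (Subgroup.centralizer ({z} : Set G)).subtype).subtype := by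
    rintro ⟨y, hy, hyg⟩
    have hcases : g * z * g⁻¹ = 1 ∨ g * z * g⁻¹ = z := by
      apply hE.cent
      intro q hq
      have h1 := Subgroup.mem_center_iff.mp hy ⟨q, hq⟩
      rw [← hyg]
      exact (congrArg Subtype.val h1).symm
    rcases hcases with h | h
    · apply hE.z1
      have := congrArg (fun x => g⁻¹ * x * g) h
      simpa [mul_assoc] using this
    · exact hgne h
  obtain ⟨hLarge, x, hxmem, hxs⟩ := Cfsg.Agent.S5429.result z hM.1.1
    (Q.map (Subgroup.centralizer ({z} : Set G)).subtype) hQC hF hQes 12 (by norm_num) hcardQg g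
    hgQ hgZ t ht2 ⟨htQg, htg⟩ ht
    (Q.map (Subgroup.centralizer ({z} : Set G)).subtype ⊓ Subgroup.centralizer ({t} : Set G))
    rfl hCP
  have hsup : (Q.map (Subgroup.centralizer ({z} : Set G)).subtype ⊓
      Subgroup.centralizer ({t} : Set G)) ⊔
      ((Q.map (Subgroup.centralizer ({z} : Set G)).subtype).map (MulAut.conj g).toMonoidHom ⊓
        Subgroup.centralizer ({t} : Set G)) ≤ Subgroup.centralizer ({t} : Set G) :=
    sup_le inf_le_right inf_le_right
  have hxCt : x ∈ Subgroup.centralizer ({t} : Set G) := hsup hxmem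
  have hsCt : g * z * g⁻¹ ∈ Subgroup.centralizer ({t} : Set G) := by
    rw [hmemCt]
    exact ((hE.conj g).zc t htg).symm
  -- the data inside `G`
  obtain ⟨Φ0, lamG, hsurj0, hker0, l0G, l1G, l2G, l3G, l4G⟩ := monster_data hM t htc htQ' ht2 ht
  exact quot_assemble z t (Q.map (Subgroup.centralizer ({z} : Set G)).subtype) htt ht1
    (z_sq hM) (z_ne_one hM) htz hzt htQg hE.zQ hE.zc hnozt hLarge
    (card_P hM t htQg ht1 htz) ⟨x, g * z * g⁻¹, hxCt, ⟨hgQ, hsCt⟩, hxs, hgne⟩
    Φ0 hsurj0 hker0 lamG l0G l1G l2G l3G l4G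

end Cfsg.Agent.S5412
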