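import Cfsg.Statements.S5427
import Cfsg.Agent.S5421
import Cfsg.Agent.Lib.Helper90.Conj
import Cfsg.Agent.Lib.Helper90.FStarES

set_option autoImplicit false
open Cfsg

namespace Cfsg.Agent.S5427

/-- Let z be an involution of the finite group G whose centralizer C has generalized Fitting subgroup Q, an extraspecial 2-group of width at least 2 (order 2^(2w+1), w ≥ 2). Let K be a subgroup of G such that the subgroup U generated by the K-conjugates of z is abelian and C is generated by the C-conjugates of U. Suppose that either some K-conjugate of z other than z lies in Q, or some element u of U ∩ Q outside the subgroup generated by z has z in the largest normal 2-subgroup of its centralizer. Then G is simple and Q is a large extraspecial 2-subgroup of G. -/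
theorem result {G : Type*} [Group G] [Finite G] (z : G) (hz : orderOf z = 2) (Q : Subgroup G) (hQC : Q ≤ Subgroup.centralizer ({z} : Set G)) (hF : (Cfsg.generalizedFittingSubgroup ↥(Subgroup.centralizer ({z} : Set G))).map (Subgroup.centralizer ({z} : Set G)).subtype = Q) (hQ : Cfsg.IsExtraspecial 2 ↥Q) (w : ℕ) (hw : 2 ≤ w) (hcard : Nat.card ↥Q = 2 ^ (2 * w + 1)) (K U : Subgroup G) (hU : U = Subgroup.closure {x : G | ∃ k ∈ K, x = k * z * k⁻¹}) (hUab : IsMulCommutative ↥U) (hgen : Subgroup.closure {x : G | ∃ c ∈ Subgroup.centralizer ({z} : Set G), ∃ u ∈ U, x = c * u * c⁻¹} = Subgroup.centralizer ({z} : Set G)) (h3 : (∃ k ∈ K, k * z * k⁻¹ ∈ Q ∧ k * z * k⁻¹ ≠ z) ∨ ∃ u ∈ U ⊓ Q, u ∉ Subgroup.zpowers z ∧ (∃ hz' : z ∈ Subgroup.centralizer ({u} : Set G), (⟨z, hz'⟩ : ↥(Subgroup.centralizer ({u} : Set G))) ∈ Cfsg.pCore 2 ↥(Subgroup.centralizer ({u} : Set G)))) : IsSimpleGroup G ∧ Cfsg.IsLargeExtraspecial Q := by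
  have hS := Lib.Helper90.FStarES.Setup.of_gfs hz hF hQ
  have hlarge : Cfsg.IsLargeExtraspecial Q := by
    rcases h3 with ⟨k, -, hkQ, hkz⟩ | ⟨u, hu, hunz, hz', hzO⟩
    · exact hS.large_of_conj w hw hcard k hkQ hkz
    · have hU2 : ∀ x ∈ U, x * x = 1 := by
        intro x hx
        rw [hU] at hx
        induction hx using Subgroup.closure_induction with
        | mem y hy =>
          obtain ⟨k, -, rfl⟩ := hy
          have e : k * z * k⁻¹ * (k * z * k⁻¹) = k * (z * z) * k⁻¹ := by group
          rw [e, hS.zz]
          simp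
        | one => simp
        | mul x y hx hy ihx ihy =>
          rw [← hU] at hx hy
          have hc : x * y = y * x :=
            congrArg Subtype.val (hUab.is_comm.comm (⟨x, hx⟩ : ↥U) ⟨y, hy⟩)
          calc x * y * (x * y) = x * (y * x) * y := by group
            _ = x * (x * y) * y := by rw [hc]
            _ = (x * x) * (y * y) := by group
            _ = 1 := by rw [ihx, ihy, one_mul]
        | inv x _ ih =>
          have e : x⁻¹ * x⁻¹ = (x * x)⁻¹ := by group
          rw [e, ih, inv_one]
      have hu1 : u ≠ 1 := by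
        intro h
        apply hunz
        rw [h]
        exact Subgroup.one_mem _
      have hord : orderOf u = 2 := by
        have : Fact (Nat.Prime 2) := ⟨Nat.prime_two⟩
        exact orderOf_eq_prime (by rw [pow_two]; exact hU2 u hu.1) hu1
      apply Cfsg.Agent.S5421.result Q hQ hS.centralizer_eq hS.centralizer_le u hu.2 ?_ hord ?_
      · intro h
        apply hunz
        rcases hS.center_cases h with h1 | h1
        · rw [h1]; exact Subgroup.one_mem _
        · rw [h1]; exact Subgroup.mem_zpowers z
      · intro x hx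
        rcases hS.center_cases hx with h1 | h1
        · rw [h1]; exact Subgroup.one_mem _
        · rw [h1]; exact ⟨⟨z, hz'⟩, hzO, rfl⟩
  refine ⟨?_, hlarge⟩
  have hnt : Nontrivial G := ⟨⟨z, 1, hS.z1⟩⟩
  refine { exists_pair_ne := hnt.exists_pair_ne, eq_bot_or_eq_top_of_normal := ?_ }
  intro N hN
  by_cases hzN : z ∈ N
  · right
    apply hS.eq_top_of_centralizer_le N
    intro c hc
    have hcH : c ∈ Subgroup.centralizer ({z} : Set G) := by
      rw [Subgroup.mem_centralizer_iff]
      intro v hv
      rw [Set.mem_singleton_iff] at hv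
      rw [hv]; exact hc.symm
    rw [← hgen] at hcH
    have hUN : U ≤ N := by
      rw [hU, Subgroup.closure_le]
      rintro _ ⟨k, -, rfl⟩
      exact hN.conj_mem z hzN k
    have hle : Subgroup.closure {x : G | ∃ c ∈ Subgroup.centralizer ({z} : Set G), ∃ u ∈ U,
        x = c * u * c⁻¹} ≤ N := by
      rw [Subgroup.closure_le]
      rintro _ ⟨c, -, u, hu, rfl⟩
      exact hN.conj_mem u (hUN hu) c
    exact hle hcH
  · left
    exact hS.eq_bot_of_not_mem hlarge N hzN

end Cfsg.Agent.S5427
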