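import Cfsg.Statements.S5434
import Cfsg.Agent.Lib.Helper90.Basic
import Cfsg.Agent.Lib.Helper90.PGroup
import Cfsg.Agent.Lib.Helper90.Extraspecial
import Cfsg.Agent.Lib.Helper71.Fitting
import Cfsg.Agent.S0026
import Cfsg.Agent.S0027
import Cfsg.Agent.S0055

set_option autoImplicit false
open Cfsg

namespace Cfsg.Agent.S5434

open scoped commutatorElement

/-- Let Q be a large extraspecial 2-subgroup of the finite group G (extraspecial; centralizer equal to its centre; normal in the centralizer of its centre; normalizing no non-trivial subgroup of odd order), and A a non-trivial subgroup of odd order of the normalizer of Q. Then Q is the central product of the centralizer of A in Q and the commutator subgroup [Q, A] (they generate Q and commute elementwise), [Q, A] is extraspecial, and the centralizer of A in Q is either the centre of Q or extraspecial. -/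
theorem result {G : Type*} [Group G] [Finite G] (Q : Subgroup G) (hQ : Cfsg.IsLargeExtraspecial Q) (A : Subgroup G) (hA : A ≤ Subgroup.normalizer (Q : Set G)) (hAodd : Odd (Nat.card ↥A)) (hA1 : A ≠ ⊥) : (Q ⊓ Subgroup.centralizer (A : Set G)) ⊔ ⁅Q, A⁆ = Q ∧ (∀ x ∈ Q ⊓ Subgroup.centralizer (A : Set G), ∀ y ∈ ⁅Q, A⁆, x * y = y * x) ∧ Cfsg.IsExtraspecial 2 ↥⁅Q, A⁆ ∧ (Q ⊓ Subgroup.centralizer (A : Set G) = ((Subgroup.center ↥Q).map Q.subtype) ∨ Cfsg.IsExtraspecial 2 ↥(Q ⊓ Subgroup.centralizer (A : Set G))) := by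
  obtain ⟨hE, hC, hN, -⟩ := hQ
  haveI : Fact (Nat.Prime 2) := ⟨Nat.prime_two⟩
  have hQ2 : IsPGroup 2 ↥Q := hE.1.1
  obtain ⟨z, hzZ, hz1, hzQ, hzz, hzc, hZ⟩ := Lib.Helper90.Extraspecial.exists_center_gen hE
  have hcop : (Nat.card A).Coprime (Nat.card Q) := by
    obtain ⟨n, hn⟩ := IsPGroup.iff_card.mp hQ2
    rw [hn]
    exact Nat.Coprime.pow_right n (Nat.coprime_two_right.mpr hAodd)
  have hnil : Group.IsNilpotent ↥Q := hQ2.isNilpotent
  have hsolv : Group.IsSolvable ↥Q := inferInstance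
  have hPQ : ⁅Q, A⁆ ≤ Q := Cfsg.Agent.S0026.commutator_le_of_le_normalizer hA
  have hsup : ⁅Q, A⁆ ⊔ (Q ⊓ Subgroup.centralizer (A : Set G)) = Q :=
    Cfsg.Agent.S0026.result A Q hA hcop (Or.inr hsolv)
  have hPA : ⁅⁅Q, A⁆, A⁆ = ⁅Q, A⁆ := Cfsg.Agent.S0027.result A Q hA hcop (Or.inr hsolv)
  -- A centralizes z
  have hAz : ∀ a ∈ A, a * z = z * a := by
    intro a ha
    have h1 : a * z * a⁻¹ ∈ (Subgroup.center ↥Q).map Q.subtype := by
      rw [← hC, Subgroup.mem_centralizer_iff]
      intro q hq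
      have hq' : a⁻¹ * q * a ∈ Q := (Subgroup.mem_normalizer_iff''.mp (hA ha) q).mp hq
      have := hzc _ hq'
      calc q * (a * z * a⁻¹) = a * ((a⁻¹ * q * a) * z) * a⁻¹ := by simp [mul_assoc]
        _ = a * (z * (a⁻¹ * q * a)) * a⁻¹ := by rw [this]
        _ = a * z * a⁻¹ * q := by simp [mul_assoc]
    rcases hZ _ h1 with h | h
    · exfalso
      apply hz1
      have := congrArg (fun t => a⁻¹ * t * a) h
      simpa [mul_assoc] using this
    · have := congrArg (fun t => t * a) h
      simpa [mul_assoc] using this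
  have hzC : z ∈ Q ⊓ Subgroup.centralizer (A : Set G) := by
    refine ⟨hzQ, ?_⟩
    show z ∈ Subgroup.centralizer (A : Set G)
    rw [Subgroup.mem_centralizer_iff]
    intro a ha
    exact hAz a ha
  -- three subgroups lemma
  have hcomm_PC : ⁅⁅Q, A⁆, Q ⊓ Subgroup.centralizer (A : Set G)⁆ = ⊥ := by
    apply Subgroup.commutator_commutator_eq_bot_of_rotate
    · have h1 : ⁅A, Q ⊓ Subgroup.centralizer (A : Set G)⁆ = ⊥ := by
        rw [Subgroup.commutator_comm, Subgroup.commutator_eq_bot_iff_le_centralizer]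
        exact inf_le_right
      rw [h1]
      exact Subgroup.commutator_bot_left _
    · rw [Subgroup.commutator_eq_bot_iff_le_centralizer, Subgroup.commutator_le]
      intro c hc q hq
      have h1 : ⁅c, q⁆ ∈ (Subgroup.center ↥Q).map Q.subtype := by
        rw [commutatorElement_def]
        exact Lib.Helper90.Extraspecial.comm_mem_center_map hE hc.1 hq
      rw [Subgroup.mem_centralizer_iff]
      intro a ha
      rcases hZ _ h1 with h | h
      · rw [h]; simp
      · rw [h]; exact hAz a ha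
  have hPC_comm : ∀ x ∈ Q ⊓ Subgroup.centralizer (A : Set G), ∀ y ∈ ⁅Q, A⁆, x * y = y * x := by
    intro x hx y hy
    have h1 := Subgroup.commutator_eq_bot_iff_le_centralizer.mp hcomm_PC
    exact Subgroup.mem_centralizer_iff.mp (h1 hy) x hx
  -- central elements of the two factors lie in Z
  have hcenP : ∀ x ∈ ⁅Q, A⁆, (∀ y ∈ ⁅Q, A⁆, x * y = y * x) →
      x ∈ (Subgroup.center ↥Q).map Q.subtype := by
    intro x hx hxc
    rw [← hC, Subgroup.mem_centralizer_iff]
    intro q hq
    have h1 : ⁅Q, A⁆ ⊔ (Q ⊓ Subgroup.centralizer (A : Set G)) ≤ Subgroup.centralizer ({x} : Set G) := by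
      refine sup_le (fun y hy => ?_) (fun y hy => ?_)
      · rw [Subgroup.mem_centralizer_iff]
        intro w hw
        rw [Set.mem_singleton_iff] at hw
        rw [hw]; exact hxc y hy
      · rw [Subgroup.mem_centralizer_iff]
        intro w hw
        rw [Set.mem_singleton_iff] at hw
        rw [hw]; exact (hPC_comm y hy x hx).symm
    have h2 : q ∈ Subgroup.centralizer ({x} : Set G) := h1 (by rw [hsup]; exact hq)
    exact (Subgroup.mem_centralizer_iff.mp h2 x (Set.mem_singleton x)).symm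
  have hcenC : ∀ x ∈ Q ⊓ Subgroup.centralizer (A : Set G),
      (∀ y ∈ Q ⊓ Subgroup.centralizer (A : Set G), x * y = y * x) →
      x ∈ (Subgroup.center ↥Q).map Q.subtype := by
    intro x hx hxc
    rw [← hC, Subgroup.mem_centralizer_iff]
    intro q hq
    have h1 : ⁅Q, A⁆ ⊔ (Q ⊓ Subgroup.centralizer (A : Set G)) ≤ Subgroup.centralizer ({x} : Set G) := by
      refine sup_le (fun y hy => ?_) (fun y hy => ?_)
      · rw [Subgroup.mem_centralizer_iff]
        intro w hw
        rw [Set.mem_singleton_iff] at hw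
        rw [hw]; exact hPC_comm x hx y hy
      · rw [Subgroup.mem_centralizer_iff]
        intro w hw
        rw [Set.mem_singleton_iff] at hw
        rw [hw]; exact hxc y hy
    have h2 : q ∈ Subgroup.centralizer ({x} : Set G) := h1 (by rw [hsup]; exact hq)
    exact (Subgroup.mem_centralizer_iff.mp h2 x (Set.mem_singleton x)).symm
  -- [Q, A] is non-trivial
  have hPne : ⁅Q, A⁆ ≠ ⊥ := by
    intro hP
    have h1 : Q ≤ Subgroup.centralizer (A : Set G) :=
      Subgroup.commutator_eq_bot_iff_le_centralizer.mp hP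
    apply hA1
    rw [eq_bot_iff]
    intro a ha
    have h2 : a ∈ Subgroup.centralizer (Q : Set G) := by
      rw [Subgroup.mem_centralizer_iff]
      intro q hq
      exact (Subgroup.mem_centralizer_iff.mp (h1 hq) a ha).symm
    rw [hC] at h2
    exact Lib.Helper90.Basic.eq_one_of_mem_odd_of_mem_two A Q hAodd hQ2 a ha
      (Lib.Helper90.PGroup.center_map_le Q h2)
  -- z lies in [Q, A]
  have hzP : z ∈ ⁅Q, A⁆ := by
    have h1 := Lib.Helper71.Fitting.inf_centralizer_ne_bot Q ⁅Q, A⁆ hnil hPQ hPne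
      (Cfsg.Agent.S0026.le_normalizer_commutator_left Q A)
    obtain ⟨x, hx1⟩ := (Subgroup.ne_bot_iff_exists_ne_one).mp h1
    have hx' : (x : G) ∈ ⁅Q, A⁆ ⊓ Subgroup.centralizer (Q : Set G) := x.2
    have hx2 : (x : G) ∈ (Subgroup.center ↥Q).map Q.subtype := hC ▸ hx'.2
    rcases hZ _ hx2 with h | h
    · exfalso
      apply hx1
      ext
      simpa using h
    · rw [← h]; exact hx'.1
  -- [Q, A] is non-abelian
  have hPnab : ∃ x ∈ ⁅Q, A⁆, ∃ y ∈ ⁅Q, A⁆, x * y ≠ y * x := by
    by_contra hcon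
    push Not at hcon
    haveI : IsMulCommutative ↥⁅Q, A⁆ := ⟨⟨fun a b => Subtype.ext (hcon a a.2 b b.2)⟩⟩
    have hAP : A ≤ Subgroup.normalizer ((⁅Q, A⁆ : Subgroup G) : Set G) :=
      Cfsg.Agent.S0026.le_normalizer_commutator_right Q A
    have hcopP : (Nat.card A).Coprime (Nat.card ↥⁅Q, A⁆) :=
      Nat.Coprime.coprime_dvd_right (Subgroup.card_dvd_of_le hPQ) hcop
    have h1 := (Cfsg.Agent.S0055.result A ⁅Q, A⁆ hAP hcopP).1
    rw [hPA] at h1
    have h2 : z ∈ (⁅Q, A⁆ ⊓ Subgroup.centralizer (A : Set G)) ⊓ ⁅Q, A⁆ := ⟨⟨hzP, hzC.2⟩, hzP⟩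
    rw [h1] at h2
    exact hz1 (Subgroup.mem_bot.mp h2)
  refine ⟨by rw [sup_comm]; exact hsup, hPC_comm,
    Lib.Helper90.Extraspecial.isExtraspecial_of_le hE _ hPQ hcenP hPnab, ?_⟩
  by_cases hCab : ∀ x ∈ Q ⊓ Subgroup.centralizer (A : Set G),
      ∀ y ∈ Q ⊓ Subgroup.centralizer (A : Set G), x * y = y * x
  · left
    apply le_antisymm
    · intro x hx
      exact hcenC x hx (hCab x hx)
    · intro x hx
      rcases hZ x hx with h | h
      · rw [h]; exact Subgroup.one_mem _
      · rw [h]; exact hzC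
  · right
    push Not at hCab
    exact Lib.Helper90.Extraspecial.isExtraspecial_of_le hE _ inf_le_left hcenC hCab

end Cfsg.Agent.S5434
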