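import Cfsg.Statements.S5428
-- import your own Cfsg.Agent.* helpers here
import Cfsg.Agent.S0095
import Cfsg.Agent.S5434
import Cfsg.Agent.Lib.Helper90.Basic
import Cfsg.Agent.Lib.Helper90.PGroup
import Cfsg.Agent.Lib.Helper90.Count
import Cfsg.Agent.Lib.Helper90.Conj
import Cfsg.Agent.Lib.Helper90.Invert
import Cfsg.Agent.Lib.Helper90.ESData
import Cfsg.Agent.Lib.Helper90.ESConv
import Cfsg.Agent.Lib.Helper90.FStarES


set_option autoImplicit false
open Cfsg

namespace Cfsg.Agent.S5428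

open Cfsg.Agent.Lib.Helper90 Cfsg.Agent.Lib.Helper90.ESData Cfsg.Agent.Lib.Helper90.Conj in
theorem pow4 {G : Type*} [Group G] {Q : Subgroup G} {z : G} (hE : ESD Q z) (x : G)
    (hx : x ∈ Q) : x ^ 2 ^ 2 = 1 := by
  have e : x ^ 2 ^ 2 = (x * x) * (x * x) := by
    norm_num
    rw [pow_succ, pow_succ, pow_succ, pow_one]
    group
  rw [e]
  rcases hE.sq x hx with h | h
  · rw [h]; simp
  · rw [h]; exact hE.zz

open Cfsg.Agent.Lib.Helper90 in
/-- If `x` has 2-power order and commutes with the odd-order subgroup `A`, and the commutator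
of `c` and `x` lies in `A`, then the commutator is trivial. -/
theorem comm_eq_one {G : Type*} [Group G] (A : Subgroup G) (hAodd : Odd (Nat.card ↥A)) {c x : G}
    (hx : ∀ a ∈ A, a * x = x * a) (j : ℕ) (hxj : x ^ 2 ^ j = 1)
    (hcx : c * x * c⁻¹ * x⁻¹ ∈ A) : c * x * c⁻¹ * x⁻¹ = 1 := by
  apply Basic.eq_one_of_mem_odd_of_pow_two A hAodd _ hcx j
  have hcomm : Commute (c * x * c⁻¹ * x⁻¹) x := hx _ hcx
  have h1 : (c * x * c⁻¹ * x⁻¹ * x) ^ 2 ^ j = (c * x * c⁻¹ * x⁻¹) ^ 2 ^ j * x ^ 2 ^ j :=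
    hcomm.mul_pow _
  have h2 : c * x * c⁻¹ * x⁻¹ * x = c * x * c⁻¹ := by group
  rw [h2, conj_pow, hxj] at h1
  simpa using h1.symm

theorem mem_centralizer_sup {G : Type*} [Group G] {A R : Subgroup G} {c : G} :
    c ∈ Subgroup.centralizer ((A ⊔ R : Subgroup G) : Set G) ↔
      (∀ a ∈ A, a * c = c * a) ∧ (∀ r ∈ R, r * c = c * r) := by
  rw [Subgroup.mem_centralizer_iff]
  constructor
  · intro h
    exact ⟨fun a ha => h a (Subgroup.mem_sup_left ha), fun r hr => h r (Subgroup.mem_sup_right hr)⟩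
  · rintro ⟨h1, h2⟩ x hx
    have hle : A ⊔ R ≤ Subgroup.centralizer ({c} : Set G) := by
      apply sup_le
      · intro a ha
        rw [Subgroup.mem_centralizer_iff]
        intro u hu
        rw [Set.mem_singleton_iff] at hu
        rw [hu]; exact (h1 a ha).symm
      · intro a ha
        rw [Subgroup.mem_centralizer_iff]
        intro u hu
        rw [Set.mem_singleton_iff] at hu
        rw [hu]; exact (h2 a ha).symm
    have := hle hx
    rw [Subgroup.mem_centralizer_iff] at this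
    exact (this c (Set.mem_singleton c)).symm

open Cfsg.Agent.Lib.Helper90 Cfsg.Agent.Lib.Helper90.Conj in
/-- The centralizer of `A ⊔ R` lies in `Z A`, if its order is not divisible by four and its
odd core lies in `A`. -/
theorem mem_of_centralizes {G : Type*} [Group G] [Finite G] (z : G) (hzz : z * z = 1)
    (hz1 : z ≠ 1) (A R : Subgroup G)
    (hzA : ∀ a ∈ A, a * z = z * a) (hzR : z ∈ R) (hzRc : ∀ r ∈ R, r * z = z * r)
    (hO : (Cfsg.oddCore ↥(Subgroup.centralizer ((A ⊔ R : Subgroup G) : Set G))).map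
      (Subgroup.centralizer ((A ⊔ R : Subgroup G) : Set G)).subtype ≤ A)
    (h4 : ¬ 4 ∣ Nat.card ↥(Subgroup.centralizer ((A ⊔ R : Subgroup G) : Set G)))
    (c : G) (hc : c ∈ Subgroup.centralizer ((A ⊔ R : Subgroup G) : Set G)) :
    ∃ a ∈ A, c = a ∨ c = z * a := by
  classical
  have hzX : z ∈ Subgroup.centralizer ((A ⊔ R : Subgroup G) : Set G) :=
    mem_centralizer_sup.mpr ⟨hzA, hzRc⟩
  have hmemX : ∀ x : ↥(Subgroup.centralizer ((A ⊔ R : Subgroup G) : Set G)),
      (∀ r ∈ R, r * (x : G) = (x : G) * r) := fun x => (mem_centralizer_sup.mp x.2).2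
  generalize Subgroup.centralizer ((A ⊔ R : Subgroup G) : Set G) = X at hO h4 hc hzX hmemX
  obtain ⟨zX, hzX'⟩ : ∃ zX : ↥X, (zX : G) = z := ⟨⟨z, hzX⟩, rfl⟩
  have hzXc : ∀ x : ↥X, x * zX = zX * x := by
    intro x
    apply Subtype.ext
    rw [Subgroup.coe_mul, Subgroup.coe_mul, hzX']
    exact (hmemX x z hzR).symm
  have hzXzX : zX * zX = 1 := Subtype.ext (by rw [Subgroup.coe_mul, hzX']; exact hzz)
  have hzX1 : zX ≠ 1 := fun h => hz1 (by rw [← hzX', h]; rfl)
  have hNn : (Subgroup.zpowers zX).Normal := by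
    constructor
    intro n hn x
    rw [mem_zpowers_of_mul_self hzXzX] at hn ⊢
    rcases hn with h | h
    · left; rw [h]; group
    · right; rw [h, hzXc x]; group
  have hNcard : Nat.card (Subgroup.zpowers zX) = 2 := by
    rw [Nat.card_zpowers]
    have : Fact (Nat.Prime 2) := ⟨Nat.prime_two⟩
    exact orderOf_eq_prime (by rw [pow_two]; exact hzXzX) hzX1
  have hidx : Nat.card (Subgroup.zpowers zX) * (Subgroup.zpowers zX).index = Nat.card ↥X :=
    Subgroup.card_mul_index _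
  have hodd : Odd (Subgroup.zpowers zX).index := by
    rw [hNcard] at hidx
    by_contra hne
    rw [Nat.not_odd_iff_even] at hne
    obtain ⟨m, hm⟩ := hne
    apply h4
    exact ⟨m, by omega⟩
  have hcop : Nat.Coprime (Nat.card (Subgroup.zpowers zX)) (Subgroup.zpowers zX).index := by
    rw [hNcard]; exact Nat.coprime_two_left.mpr hodd
  obtain ⟨H, hH⟩ := Subgroup.exists_right_complement'_of_coprime hcop
  have hHidx : H.index = 2 := by rw [hH.index_eq_card, hNcard]
  have hHn : H.Normal := Subgroup.normal_of_index_eq_two hHidx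
  have hHcard : Nat.card H = (Subgroup.zpowers zX).index := (hH.symm.index_eq_card).symm
  have hHle : H ≤ Cfsg.oddCore ↥X := by
    apply le_sSup
    exact ⟨hHn, by rw [hHcard]; exact Nat.coprime_two_right.mpr hodd⟩
  obtain ⟨⟨⟨n, hn⟩, ⟨h, hh⟩⟩, hnh, -⟩ := (Subgroup.isComplement_iff_existsUnique.mp hH) ⟨c, hc⟩
  have hhA : (h : G) ∈ A := hO ⟨h, hHle hh, rfl⟩
  refine ⟨(h : G), hhA, ?_⟩
  have hc' : c = (n : G) * (h : G) := by
    have := congrArg Subtype.val hnh
    simpa using this.symm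
  rcases (mem_zpowers_of_mul_self hzXzX).mp hn with h1 | h1
  · left; rw [hc', h1]; simp
  · right; rw [hc', h1, hzX']

open Cfsg.Agent.Lib.Helper90 Cfsg.Agent.Lib.Helper90.ESData Cfsg.Agent.Lib.Helper90.Conj in
/-- In a large extraspecial subgroup acted on by a group `A` of odd order, a non-central element
of the centralizer of `A` is conjugate to its product with `z` under that centralizer. -/
theorem exists_conj_cent {G : Type*} [Group G] [Finite G] {Q : Subgroup G} {z : G} (hE : ESD Q z)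
    (hL : Cfsg.IsLargeExtraspecial Q) (A : Subgroup G) (hAodd : Odd (Nat.card ↥A))
    (hAz : ∀ a ∈ A, a * z = z * a) {x : G} (hxQ : x ∈ Q) (hxA : ∀ a ∈ A, a * x = x * a)
    (hx1 : x ≠ 1) (hxz : x ≠ z) :
    ∃ y ∈ Q, (∀ a ∈ A, a * y = y * a) ∧ y * x * y⁻¹ = z * x := by
  by_cases hA1 : A = ⊥
  · obtain ⟨y, hy, hyx⟩ := hE.exists_conj hxQ hx1 hxz
    refine ⟨y, hy, ?_, hyx⟩
    intro a ha
    rw [hA1, Subgroup.mem_bot] at ha
    rw [ha]; simp
  · have hAN : A ≤ Subgroup.normalizer (Q : Set G) := by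
      intro a ha
      apply mem_normalizer_of_conj (hE.norm a (hAz a ha))
      intro q hq
      have hz' : a⁻¹ * z = z * a⁻¹ := by
        have := congrArg (fun u => a⁻¹ * u * a⁻¹) (hAz a ha)
        simpa [mul_assoc] using this.symm
      have := hE.norm a⁻¹ hz' q hq
      simpa using this
    have h := (Cfsg.Agent.S5434.result Q hL A hAN hAodd hA1).2.2.2
    by_contra hcon
    push Not at hcon
    have hxR : x ∈ Q ⊓ Subgroup.centralizer (A : Set G) :=
      Subgroup.mem_inf.mpr ⟨hxQ, Subgroup.mem_centralizer_iff.mpr hxA⟩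
    have hzR : z ∈ Q ⊓ Subgroup.centralizer (A : Set G) :=
      Subgroup.mem_inf.mpr ⟨hE.zQ, Subgroup.mem_centralizer_iff.mpr hAz⟩
    rcases h with h | h
    · rw [h] at hxR
      rcases (ESConv.ESD.mem_center_map_iff hE x).mp hxR with h1 | h1
      · exact hx1 h1
      · exact hxz h1
    · have hcard2 : Nat.card (Subgroup.center ↥(Q ⊓ Subgroup.centralizer (A : Set G))) = 2 := h.2
      apply hxz
      apply PGroup.eq_of_mem_center_map hcard2 ?_ ?_ hx1 hE.z1
      · refine ⟨⟨x, hxR⟩, ?_, rfl⟩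
        rw [SetLike.mem_coe, Subgroup.mem_center_iff]
        intro y
        apply Subtype.ext
        show (y : G) * x = x * (y : G)
        have hyQ : (y : G) ∈ Q := (Subgroup.mem_inf.mp y.2).1
        have hyA : ∀ a ∈ A, a * (y : G) = (y : G) * a :=
          Subgroup.mem_centralizer_iff.mp (Subgroup.mem_inf.mp y.2).2
        rcases hE.comm (y : G) hyQ x hxQ with h1 | h1
        · have := congrArg (fun u => u * x * (y : G)) h1
          simpa [mul_assoc] using this
        · exfalso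
          apply hcon (y : G) hyQ hyA
          have := congrArg (fun u => u * x) h1
          simpa [mul_assoc] using this
      · refine ⟨⟨z, hzR⟩, ?_, rfl⟩
        rw [SetLike.mem_coe, Subgroup.mem_center_iff]
        intro y
        apply Subtype.ext
        exact hE.zc (y : G) (Subgroup.mem_inf.mp y.2).1

open Cfsg.Agent.Lib.Helper90 Cfsg.Agent.Lib.Helper90.ESData Cfsg.Agent.Lib.Helper90.Conj in
theorem quot_large2 {G : Type*} [Group G] [Finite G] (z s y : G) (Q Q' R A M : Subgroup G)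
    (hE : ESD Q z) (hE2 : ESD Q' s)
    (hAodd : Odd (Nat.card ↥A)) (hAz : ∀ a ∈ A, a * z = z * a)
    (hmemR : ∀ x, x ∈ R ↔ x ∈ Q ∧ ∀ a ∈ A, a * x = x * a)
    (hM : M = Subgroup.centralizer (A : Set G) ⊔ A)
    (hzQ' : z ∈ Q') (hsR : s ∈ R) (hyR : y ∈ R) (hys : y * s * y⁻¹ = z * s)
    (hXZA : ∀ c : G, (∀ a ∈ A, a * c = c * a) → (∀ r ∈ R, r * c = c * r) →
      ∃ a ∈ A, c = a ∨ c = z * a)
    [hn : (A.subgroupOf M).Normal] :
    Cfsg.IsLargeExtraspecial ((R.subgroupOf M).map (QuotientGroup.mk' (A.subgroupOf M))) := by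
  classical
  set T := A.subgroupOf M with hT
  set π := QuotientGroup.mk' T with hπdef
  have hCM : ∀ c : G, (∀ a ∈ A, a * c = c * a) → c ∈ M := by
    intro c hc
    rw [hM]
    apply Subgroup.mem_sup_left
    rw [Subgroup.mem_centralizer_iff]; exact hc
  have hRM : R ≤ M := fun x hx => hCM x ((hmemR x).mp hx).2
  have hdecomp : ∀ m ∈ M, ∃ c₁ a₁ : G, (∀ a ∈ A, a * c₁ = c₁ * a) ∧ a₁ ∈ A ∧ m = c₁ * a₁ := by
    intro m hm
    rw [hM] at hm
    have hc : ∀ h ∈ Subgroup.centralizer (A : Set G), ∀ k ∈ A, h * k = k * h := by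
      intro h hh k hk
      rw [Subgroup.mem_centralizer_iff] at hh
      exact (hh k hk).symm
    obtain ⟨c₁, hc₁, a₁, ha₁, rfl⟩ := (Count.mem_sup_of_commute hc).mp hm
    refine ⟨c₁, a₁, ?_, ha₁, rfl⟩
    rw [Subgroup.mem_centralizer_iff] at hc₁; exact hc₁
  have hπ1 : ∀ c : ↥M, π c = 1 ↔ (c : G) ∈ A := by
    intro c
    rw [hπdef, QuotientGroup.mk'_apply, QuotientGroup.eq_one_iff, hT, Subgroup.mem_subgroupOf]
  have hπ : ∀ a b : ↥M, π a = π b ↔ (a : G) * (b : G)⁻¹ ∈ A := by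
    intro a b
    have h1 : π a = π b ↔ π (a * b⁻¹) = 1 := by
      rw [map_mul, map_inv, mul_inv_eq_one]
    rw [h1, hπ1]
    rfl
  have hsurj : Function.Surjective π := QuotientGroup.mk'_surjective T
  have hrep : ∀ v : ↥M ⧸ T, ∃ c : ↥M, (∀ a ∈ A, a * (c : G) = (c : G) * a) ∧ π c = v := by
    intro v
    obtain ⟨m, rfl⟩ := hsurj v
    obtain ⟨c₁, a₁, hc₁, ha₁, hm⟩ := hdecomp m m.2
    refine ⟨⟨c₁, hCM c₁ hc₁⟩, hc₁, ?_⟩
    rw [hπ]
    show c₁ * (m : G)⁻¹ ∈ A
    rw [hm]
    have e : c₁ * (c₁ * a₁)⁻¹ = c₁ * a₁⁻¹ * c₁⁻¹ := by group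
    rw [e]
    have h2 : a₁⁻¹ * c₁ = c₁ * a₁⁻¹ := hc₁ a₁⁻¹ (A.inv_mem ha₁)
    rw [← h2]
    simpa using A.inv_mem ha₁
  have hzR : z ∈ R := (hmemR z).mpr ⟨hE.zQ, hAz⟩
  have hsQ : s ∈ Q := ((hmemR s).mp hsR).1
  have hsA : ∀ a ∈ A, a * s = s * a := ((hmemR s).mp hsR).2
  have hz2 : z ^ 2 ^ 1 = 1 := by rw [pow_one, pow_two]; exact hE.zz
  have hs2 : s ^ 2 ^ 1 = 1 := by rw [pow_one, pow_two]; exact hE2.zz
  have hzA : z ∉ A := fun h => hE.z1 (Basic.eq_one_of_mem_odd_of_pow_two A hAodd z h 1 hz2)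
  obtain ⟨zc, hzc⟩ : ∃ zc : ↥M, (zc : G) = z := ⟨⟨z, hRM hzR⟩, rfl⟩
  obtain ⟨sc, hsc⟩ : ∃ sc : ↥M, (sc : G) = s := ⟨⟨s, hRM hsR⟩, rfl⟩
  obtain ⟨yc, hyc⟩ : ∃ yc : ↥M, (yc : G) = y := ⟨⟨y, hRM hyR⟩, rfl⟩
  have hzcR : (zc : G) ∈ R := by rw [hzc]; exact hzR
  have hscR : (sc : G) ∈ R := by rw [hsc]; exact hsR
  have hycR : (yc : G) ∈ R := by rw [hyc]; exact hyR
  have hcomm_of : ∀ c x : ↥M, (∀ a ∈ A, a * (x : G) = (x : G) * a) →
      (∃ j : ℕ, (x : G) ^ 2 ^ j = 1) → π (c * x) = π (x * c) →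
      (c : G) * (x : G) = (x : G) * (c : G) := by
    rintro c x hxA ⟨j, hj⟩ h
    have h0 := (hπ _ _).mp h
    have e : ((c * x : ↥M) : G) * ((x * c : ↥M) : G)⁻¹
        = (c : G) * (x : G) * (c : G)⁻¹ * (x : G)⁻¹ := by
      show (c : G) * (x : G) * ((x : G) * (c : G))⁻¹ = _
      group
    rw [e] at h0
    have h1 := comm_eq_one A hAodd hxA j hj h0
    have := congrArg (fun u => u * (x : G) * (c : G)) h1
    simpa [mul_assoc] using this
  have hz_comm_of : ∀ c : ↥M, π (c * zc) = π (zc * c) → (c : G) * z = z * c := by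
    intro c h
    have := hcomm_of c zc (by rw [hzc]; exact hAz) ⟨1, by rw [hzc]; exact hz2⟩ h
    rwa [hzc] at this
  have hs_comm_of : ∀ c : ↥M, π (c * sc) = π (sc * c) → (c : G) * s = s * c := by
    intro c h
    have := hcomm_of c sc (by rw [hsc]; exact hsA) ⟨1, by rw [hsc]; exact hs2⟩ h
    rwa [hsc] at this
  have hmemRbar : ∀ x : ↥M, (x : G) ∈ R → π x ∈ (R.subgroupOf M).map π :=
    fun x hx => ⟨x, hx, rfl⟩
  have hzz' : π zc * π zc = 1 := by
    rw [← map_mul]
    have : zc * zc = 1 := Subtype.ext (by rw [Subgroup.coe_mul, hzc]; exact hE.zz)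
    rw [this, map_one]
  have hconjA : ∀ a ∈ A, z * a * z⁻¹ = a := by
    intro a ha
    rw [← hAz a ha]; group
  have hESD : ESD ((R.subgroupOf M).map π) (π zc) := by
    refine ⟨hmemRbar zc hzcR, ?_, hzz', ?_, ?_, ?_, ?_, ?_⟩
    · intro h
      have h1 := (hπ1 zc).mp h
      rw [hzc] at h1
      exact hzA h1
    · rintro _ ⟨x, hx, rfl⟩
      rw [← map_mul, ← map_mul]
      congr 1
      apply Subtype.ext
      rw [Subgroup.coe_mul, Subgroup.coe_mul, hzc]
      exact hE.zc (x : G) ((hmemR _).mp hx).1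
    · rintro _ ⟨x, hx, rfl⟩ _ ⟨x', hx', rfl⟩
      rw [← map_inv, ← map_inv, ← map_mul, ← map_mul, ← map_mul]
      rcases hE.comm (x : G) ((hmemR _).mp hx).1 (x' : G) ((hmemR _).mp hx').1 with h | h
      · left
        have : x * x' * x⁻¹ * x'⁻¹ = 1 := Subtype.ext h
        rw [this, map_one]
      · right
        congr 1
        apply Subtype.ext
        rw [hzc]
        exact h
    · rintro _ ⟨x, hx, rfl⟩
      rw [← map_mul]
      rcases hE.sq (x : G) ((hmemR _).mp hx).1 with h | h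
      · left
        have : x * x = 1 := Subtype.ext h
        rw [this, map_one]
      · right
        congr 1
        apply Subtype.ext
        rw [hzc]
        exact h
    · intro cbar hc
      obtain ⟨c, rfl⟩ := hsurj cbar
      have hcx : ∀ x ∈ R, (c : G) * x = x * (c : G) := by
        intro x hx
        have h1 := hc (π ⟨x, hRM hx⟩) (hmemRbar ⟨x, hRM hx⟩ hx)
        rw [← map_mul, ← map_mul] at h1
        exact hcomm_of c ⟨x, hRM hx⟩ ((hmemR x).mp hx).2 ⟨2, pow4 hE x ((hmemR x).mp hx).1⟩ h1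
      obtain ⟨c₁, a₁, hc₁, ha₁, hm⟩ := hdecomp c c.2
      have hc₁R : ∀ r ∈ R, r * c₁ = c₁ * r := by
        intro r hr
        have hra : a₁ * r = r * a₁ := ((hmemR r).mp hr).2 a₁ ha₁
        have hcr := hcx r hr
        rw [hm] at hcr
        have : c₁ * r * a₁ = r * c₁ * a₁ := by
          calc c₁ * r * a₁ = c₁ * (r * a₁) := by group
            _ = c₁ * (a₁ * r) := by rw [hra]
            _ = c₁ * a₁ * r := by group
            _ = r * (c₁ * a₁) := hcr
            _ = r * c₁ * a₁ := by group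
        exact (mul_right_cancel this).symm
      obtain ⟨a, ha, hca⟩ := hXZA c₁ hc₁ hc₁R
      rcases hca with h | h
      · left
        rw [hπ1, hm, h]; exact A.mul_mem ha ha₁
      · right
        rw [hπ]
        show (c : G) * (zc : G)⁻¹ ∈ A
        rw [hm, h, hzc]
        have e : z * a * a₁ * z⁻¹ = z * (a * a₁) * z⁻¹ := by group
        rw [e, hconjA _ (A.mul_mem ha ha₁)]
        exact A.mul_mem ha ha₁
    · intro nbar hnz
      obtain ⟨n, rfl⟩ := hsurj nbar
      have hnz' : (n : G) * z = z * n := hz_comm_of n (by rw [map_mul, map_mul]; exact hnz)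
      rintro _ ⟨x, hx, rfl⟩
      rw [← map_inv, ← map_mul, ← map_mul]
      apply hmemRbar
      show (n : G) * (x : G) * (n : G)⁻¹ ∈ R
      have hxA := ((hmemR _).mp hx).2
      rw [hmemR]
      refine ⟨hE.norm n hnz' x ((hmemR _).mp hx).1, ?_⟩
      obtain ⟨c₁, a₁, hc₁, ha₁, hm⟩ := hdecomp n n.2
      intro a ha
      rw [hm]
      have e : c₁ * a₁ * (x : G) * (c₁ * a₁)⁻¹ = c₁ * (x : G) * c₁⁻¹ := by
        have h1 : a₁ * (x : G) = (x : G) * a₁ := hxA a₁ ha₁
        calc c₁ * a₁ * (x : G) * (c₁ * a₁)⁻¹ = c₁ * (a₁ * (x : G)) * a₁⁻¹ * c₁⁻¹ := by group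
          _ = c₁ * ((x : G) * a₁) * a₁⁻¹ * c₁⁻¹ := by rw [h1]
          _ = c₁ * (x : G) * c₁⁻¹ := by group
      rw [e]
      have h1 : a * c₁ = c₁ * a := hc₁ a ha
      have h2 : a * (x : G) = (x : G) * a := hxA a ha
      have h3 : a * c₁⁻¹ = c₁⁻¹ * a := by
        have := congrArg (fun u => c₁⁻¹ * u * c₁⁻¹) h1
        simpa [mul_assoc] using this.symm
      calc a * (c₁ * (x : G) * c₁⁻¹) = (a * c₁) * (x : G) * c₁⁻¹ := by group
        _ = c₁ * (a * (x : G)) * c₁⁻¹ := by rw [h1]; group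
        _ = c₁ * (x : G) * (a * c₁⁻¹) := by rw [h2]; group
        _ = c₁ * (x : G) * c₁⁻¹ * a := by rw [h3]; group
  have hnonab : ∃ a ∈ (R.subgroupOf M).map π, ∃ b ∈ (R.subgroupOf M).map π, a * b ≠ b * a := by
    refine ⟨π yc, hmemRbar yc hycR, π sc, hmemRbar sc hscR, ?_⟩
    intro h
    rw [← map_mul, ← map_mul] at h
    have h2 := hs_comm_of yc h
    rw [hyc] at h2
    apply hE.z1
    have h3 : y * s * y⁻¹ = s := by rw [h2]; group
    rw [hys] at h3
    simpa using h3
  have hodd : ∀ K : Subgroup (↥M ⧸ T), Odd (Nat.card K) →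
      (R.subgroupOf M).map π ≤ Subgroup.normalizer (K : Set (↥M ⧸ T)) → K = ⊥ := by
    intro K hKodd hPK
    have hnK : ∀ x : ↥M, (x : G) ∈ R → ∀ k ∈ K, π x * k * (π x)⁻¹ ∈ K := by
      intro x hx k hk
      exact conj_mem_of_mem_normalizer (hPK (hmemRbar x hx)) hk
    have h2el : ∀ c : ↥M, π c ∈ K → (∃ j : ℕ, (c : G) ^ 2 ^ j = 1) → π c = 1 := by
      rintro c hc ⟨j, hj⟩
      apply Basic.eq_one_of_mem_odd_of_pow_two K hKodd (π c) hc j
      rw [← map_pow]
      have : c ^ 2 ^ j = 1 := Subtype.ext (by simpa using hj)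
      rw [this, map_one]
    have hO1 : ∀ k ∈ K, π zc * k = k * π zc → k = 1 := by
      intro kbar hk hzk
      obtain ⟨k, hkA, rfl⟩ := hrep kbar
      have hkz : (k : G) * z = z * k := hz_comm_of k (by rw [map_mul, map_mul]; exact hzk.symm)
      have hkx : ∀ x ∈ R, x * (k : G) = (k : G) * x := by
        intro x hx
        have hxQ := ((hmemR x).mp hx).1
        obtain ⟨xc, hxc⟩ : ∃ xc : ↥M, (xc : G) = x := ⟨⟨x, hRM hx⟩, rfl⟩
        have hxcR : (xc : G) ∈ R := by rw [hxc]; exact hx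
        have hu : π (k * xc * k⁻¹ * xc⁻¹) ∈ K := by
          have e : π (k * xc * k⁻¹ * xc⁻¹) = π k * (π xc * (π k)⁻¹ * (π xc)⁻¹) := by
            simp only [map_mul, map_inv]; group
          rw [e]
          exact K.mul_mem hk (hnK xc hxcR _ (K.inv_mem hk))
        have huQ : (k : G) * x * (k : G)⁻¹ * x⁻¹ ∈ Q :=
          Q.mul_mem (hE.norm k hkz x hxQ) (Q.inv_mem hxQ)
        have hcoe : ((k * xc * k⁻¹ * xc⁻¹ : ↥M) : G) = (k : G) * x * (k : G)⁻¹ * x⁻¹ := by
          rw [← hxc]; rfl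
        have h1 := h2el _ hu ⟨2, by rw [hcoe]; exact pow4 hE _ huQ⟩
        have h2 := (hπ1 _).mp h1
        rw [hcoe] at h2
        have h3 := Basic.eq_one_of_mem_odd_of_pow_two A hAodd _ h2 2 (pow4 hE _ huQ)
        have := congrArg (fun u => u * x * (k : G)) h3
        simpa [mul_assoc] using this.symm
      obtain ⟨a, ha, hca⟩ := hXZA k hkA hkx
      rcases hca with h | h
      · rw [hπ1, h]; exact ha
      · have h5 : π k = π zc := by
          rw [hπ]
          show (k : G) * (zc : G)⁻¹ ∈ A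
          rw [h, hzc, hconjA a ha]
          exact ha
        rw [h5]
        exact h2el zc (by rw [← h5]; exact hk) ⟨1, by rw [hzc]; exact hz2⟩
    have hzinv : ∀ k ∈ K, π zc * k * (π zc)⁻¹ = k⁻¹ :=
      Invert.inverts_of_fixed_point_free K (π zc) hzz' (hnK zc hzcR) hO1
    have hO3 : ∀ k ∈ K, π sc * k = k * π sc → k = 1 := by
      intro kbar hk hsk
      obtain ⟨k, rfl⟩ := hsurj kbar
      have hks : (k : G) * s = s * k := hs_comm_of k (by rw [map_mul, map_mul]; exact hsk.symm)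
      have huQ' : (k : G) * z * (k : G)⁻¹ * z⁻¹ ∈ Q' :=
        Q'.mul_mem (hE2.norm k hks z hzQ') (Q'.inv_mem hzQ')
      have hu : π (k * zc * k⁻¹ * zc⁻¹) = π k * π k := by
        have e1 := hzinv (π k) hk
        have e2 : π zc * (π k)⁻¹ * (π zc)⁻¹ = π k := by
          have e : π zc * (π k)⁻¹ * (π zc)⁻¹ = (π zc * π k * (π zc)⁻¹)⁻¹ := by group
          rw [e, e1, inv_inv]
        have e3 : π (k * zc * k⁻¹ * zc⁻¹) = π k * (π zc * (π k)⁻¹ * (π zc)⁻¹) := by
          simp only [map_mul, map_inv]; group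
        rw [e3, e2]
      have hcoe : ((k * zc * k⁻¹ * zc⁻¹ : ↥M) : G) = (k : G) * z * (k : G)⁻¹ * z⁻¹ := by
        rw [← hzc]; rfl
      have h1 : π (k * zc * k⁻¹ * zc⁻¹) = 1 :=
        h2el _ (by rw [hu]; exact K.mul_mem hk hk) ⟨2, by rw [hcoe]; exact pow4 hE2 _ huQ'⟩
      rw [hu] at h1
      apply Basic.eq_one_of_mem_odd_of_pow_two K hKodd (π k) hk 1
      rw [pow_one, pow_two]; exact h1
    have hss' : π sc * π sc = 1 := by
      rw [← map_mul]
      have : sc * sc = 1 := Subtype.ext (by rw [Subgroup.coe_mul, hsc]; exact hE2.zz)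
      rw [this, map_one]
    have hsinv : ∀ k ∈ K, π sc * k * (π sc)⁻¹ = k⁻¹ :=
      Invert.inverts_of_fixed_point_free K (π sc) hss' (hnK sc hscR) hO3
    rw [Subgroup.eq_bot_iff_forall]
    intro k hk
    have hl : π yc * k * (π yc)⁻¹ ∈ K := hnK yc hycR k hk
    have h1 : π sc * (π zc * (π yc * k * (π yc)⁻¹) * (π zc)⁻¹) * (π sc)⁻¹
        = π yc * k * (π yc)⁻¹ := by
      rw [hzinv _ hl]
      have e : π sc * (π yc * k * (π yc)⁻¹)⁻¹ * (π sc)⁻¹
          = (π sc * (π yc * k * (π yc)⁻¹) * (π sc)⁻¹)⁻¹ := by group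
      rw [e, hsinv _ hl, inv_inv]
    have h2 : π yc * π sc * (π yc)⁻¹ = π zc * π sc := by
      rw [← map_inv, ← map_mul, ← map_mul, ← map_mul]
      congr 1
      apply Subtype.ext
      show (yc : G) * (sc : G) * (yc : G)⁻¹ = (zc : G) * (sc : G)
      rw [hyc, hsc, hzc]
      exact hys
    have h3 : π sc * π zc = π zc * π sc := by
      rw [← map_mul, ← map_mul]
      congr 1
      apply Subtype.ext
      show (sc : G) * (zc : G) = (zc : G) * (sc : G)
      rw [hsc, hzc]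
      exact hE.zc s hsQ
    have h4 : π sc * k * (π sc)⁻¹ = k := by
      have e1 : π sc * (π zc * (π yc * k * (π yc)⁻¹) * (π zc)⁻¹) * (π sc)⁻¹
          = (π sc * π zc) * (π yc * k * (π yc)⁻¹) * (π sc * π zc)⁻¹ := by group
      rw [e1, h3, ← h2] at h1
      have e2 : (π yc * π sc * (π yc)⁻¹) * (π yc * k * (π yc)⁻¹) * (π yc * π sc * (π yc)⁻¹)⁻¹
          = π yc * (π sc * k * (π sc)⁻¹) * (π yc)⁻¹ := by group
      rw [e2] at h1
      have := congrArg (fun u => (π yc)⁻¹ * u * π yc) h1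
      simpa [mul_assoc] using this
    have h5 : k⁻¹ = k := by rw [← hsinv k hk, h4]
    apply Basic.eq_one_of_mem_odd_of_pow_two K hKodd k hk 1
    rw [pow_one, pow_two]
    calc k * k = k⁻¹ * k := by rw [h5]
      _ = 1 := inv_mul_cancel k
  exact ESConv.ESD.isLarge hESD hnonab hodd


/-- Let z be an involution of the finite group G whose centralizer C has generalized Fitting subgroup Q extraspecial (as a 2-group), let A be a subgroup of C of odd order, and let R be the centralizer of A in Q; suppose R has order at least 32, the largest normal subgroup of odd order of the centralizer of the subgroup generated by A and R lies in A, the order of that centralizer is not divisible by 4, and g is an element of G with g z g⁻¹ in R but outside the centre Z of Q. Let M be the subgroup generated by A and the centralizer of A (A is normal in it). Then: the centralizer in M of the subgroup generated by R and A, joined with A, equals the subgroup generated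 by A and Z; the image of R in M/A is a large extraspecial 2-subgroup of M/A; and g z g⁻¹ is conjugate to z inside the subgroup generated by R and the centralizer of A in g Q g⁻¹. -/
theorem result {G : Type*} [Group G] [Finite G] (z : G) (hz : orderOf z = 2) (Q : Subgroup G) (hQC : Q ≤ Subgroup.centralizer ({z} : Set G)) (hF : (Cfsg.generalizedFittingSubgroup ↥(Subgroup.centralizer ({z} : Set G))).map (Subgroup.centralizer ({z} : Set G)).subtype = Q) (hQ : Cfsg.IsExtraspecial 2 ↥Q) (A : Subgroup G) (hA : A ≤ Subgroup.centralizer ({z} : Set G)) (hAodd : Odd (Nat.card ↥A)) (R : Subgroup G) (hR : R = Q ⊓ Subgroup.centralizer (A : Set G)) (hR32 : 32 ≤ Nat.card ↥R) (hO : (Cfsg.oddCore ↥(Subgroup.centralizer ((A ⊔ R : Subgroup G) : Set G))).map (Subgroup.centralizer ((A ⊔ R : Subgroup G) : Set G)).subtype ≤ A) (h4 : ¬ 4 ∣ Nat.card ↥(Subgroup.centralizer ((A ⊔ R : Subgroup G) : Set G))) (g : G) (hgR : g * z * g⁻¹ ∈ R) (hgZ : g * z * g⁻¹ ∉ ((Subgroup.center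 ↥Q).map Q.subtype)) (M : Subgroup G) (hM : M = Subgroup.centralizer (A : Set G) ⊔ A) [hn : (A.subgroupOf M).Normal] : (M ⊓ Subgroup.centralizer ((R ⊔ A : Subgroup G) : Set G)) ⊔ A = A ⊔ ((Subgroup.center ↥Q).map Q.subtype) ∧ Cfsg.IsLargeExtraspecial ((R.subgroupOf M).map (QuotientGroup.mk' (A.subgroupOf M))) ∧ ∃ x ∈ R ⊔ ((Q).map (MulAut.conj g).toMonoidHom ⊓ Subgroup.centralizer (A : Set G)), x * (g * z * g⁻¹) * x⁻¹ = z := by
  have hS := Lib.Helper90.FStarES.Setup.of_gfs hz hF hQ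
  obtain ⟨z', hE0, hz'Z, -⟩ :=
    Lib.Helper90.ESData.exists_esd Q hQ hS.centralizer_eq hS.centralizer_le
  have hz' : z' = z := by
    rcases hS.center_cases hz'Z with h | h
    · exact absurd h hE0.z1
    · exact h
  rw [hz'] at hE0
  have hE2 := hE0.conj g
  have hAz : ∀ a ∈ A, a * z = z * a := by
    intro a ha
    have := hA ha
    rw [Subgroup.mem_centralizer_iff] at this
    exact (this z (Set.mem_singleton z)).symm
  have hmemR : ∀ x, x ∈ R ↔ x ∈ Q ∧ ∀ a ∈ A, a * x = x * a := by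
    intro x
    rw [hR, Subgroup.mem_inf, Subgroup.mem_centralizer_iff]
    rfl
  have hsQ : g * z * g⁻¹ ∈ Q := ((hmemR _).mp hgR).1
  have hsA := ((hmemR _).mp hgR).2
  have hsz : g * z * g⁻¹ ≠ z := by
    intro h
    apply hgZ
    rw [h]
    exact hS.z_mem_center
  have hzR : z ∈ R := (hmemR z).mpr ⟨hE0.zQ, hAz⟩
  have hRQ : R ≤ Q := by rw [hR]; exact inf_le_left
  have : Fact (Nat.Prime 2) := ⟨Nat.prime_two⟩
  obtain ⟨n, hn1, hcard⟩ := Cfsg.Agent.S0095.result hQ
  have hcardle : Nat.card ↥R ≤ Nat.card ↥Q := Subgroup.card_le_of_le hRQ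
  have hn2 : 2 ≤ n := by
    by_contra hlt
    have h1 : n = 1 := by omega
    rw [h1] at hcard
    norm_num at hcard
    omega
  have hlarge := hS.large_of_conj n hn2 hcard g hsQ hsz
  have hcard9 : 9 ≤ Nat.card ↥Q := by omega
  have hzQ' := hE0.mem_conj_of_conj_mem hcard9 g hsQ hsz
  obtain ⟨y, hyQ, hyA, hys⟩ := exists_conj_cent hE0 hlarge A hAodd hAz hsQ hsA hE2.z1 hsz
  have hyR : y ∈ R := (hmemR y).mpr ⟨hyQ, hyA⟩
  have hy' : ∃ y' ∈ Q.map (MulAut.conj g).toMonoidHom, (∀ a ∈ A, a * y' = y' * a) ∧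
      y' * z * y'⁻¹ = (g * z * g⁻¹) * z := by
    obtain ⟨A', hA'⟩ : ∃ A' : Subgroup G, A' = A.map (MulAut.conj g⁻¹).toMonoidHom := ⟨_, rfl⟩
    have hmemA' : ∀ x, x ∈ A' ↔ g * x * g⁻¹ ∈ A := by
      intro x
      rw [hA', Lib.Helper90.Basic.mem_map_conj_iff, inv_inv]
    have hA'odd : Odd (Nat.card ↥A') := by
      have : Nat.card ↥A' = Nat.card ↥A := by
        rw [hA']
        exact Subgroup.card_map_of_injective (MulAut.conj g⁻¹).injective
      rw [this]; exact hAodd
    have hA'z : ∀ a ∈ A', a * z = z * a := by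
      intro a ha
      have h1 := hsA _ ((hmemA' a).mp ha)
      have := congrArg (fun u => g⁻¹ * u * g) h1
      simpa [mul_assoc] using this
    obtain ⟨x, hx⟩ : ∃ x : G, x = g⁻¹ * z * g := ⟨_, rfl⟩
    have hxQ : x ∈ Q := by
      rw [hx]
      exact (Lib.Helper90.Basic.mem_map_conj_iff Q g z).mp hzQ'
    have hxA' : ∀ a ∈ A', a * x = x * a := by
      intro a ha
      have h1 := hAz _ ((hmemA' a).mp ha)
      have := congrArg (fun u => g⁻¹ * u * g) h1
      rw [hx]
      simpa [mul_assoc] using this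
    have hx1 : x ≠ 1 := by
      intro h
      apply hE0.z1
      rw [hx] at h
      have := congrArg (fun u => g * u * g⁻¹) h
      simpa [mul_assoc] using this
    have hxz : x ≠ z := by
      intro h
      apply hsz
      rw [hx] at h
      have := congrArg (fun u => g * u * g⁻¹) h
      simp only [mul_assoc] at this
      simpa [mul_assoc] using this.symm
    obtain ⟨y'', hy''Q, hy''A, hy''x⟩ :=
      exists_conj_cent hE0 hlarge A' hA'odd hA'z hxQ hxA' hx1 hxz
    refine ⟨g * y'' * g⁻¹, ?_, ?_, ?_⟩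
    · rw [Lib.Helper90.Basic.mem_map_conj_iff]
      have e : g⁻¹ * (g * y'' * g⁻¹) * g = y'' := by group
      rw [e]; exact hy''Q
    · intro a ha
      have ha' : g⁻¹ * a * g ∈ A' := by
        rw [hmemA']
        have e : g * (g⁻¹ * a * g) * g⁻¹ = a := by group
        rw [e]; exact ha
      have h1 := hy''A _ ha'
      have := congrArg (fun u => g * u * g⁻¹) h1
      simpa [mul_assoc] using this
    · rw [hx] at hy''x
      calc g * y'' * g⁻¹ * z * (g * y'' * g⁻¹)⁻¹
          = g * (y'' * (g⁻¹ * z * g) * y''⁻¹) * g⁻¹ := by group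
        _ = g * (z * (g⁻¹ * z * g)) * g⁻¹ := by rw [hy''x]
        _ = g * z * g⁻¹ * z := by group
  obtain ⟨y', hy'Q, hy'A, hy'z⟩ := hy'
  have hXZA : ∀ c : G, (∀ a ∈ A, a * c = c * a) → (∀ r ∈ R, r * c = c * r) →
      ∃ a ∈ A, c = a ∨ c = z * a := by
    intro c hcA hcR
    exact mem_of_centralizes z hE0.zz hE0.z1 A R hAz hzR (fun r hr => hE0.zc r (hRQ hr)) hO h4 c
      (mem_centralizer_sup.mpr ⟨hcA, hcR⟩)
  refine ⟨?_, quot_large2 z (g * z * g⁻¹) y Q (Q.map (MulAut.conj g).toMonoidHom) R A M hE0 hE2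
    hAodd hAz hmemR hM hzQ' hgR hyR hys hXZA, y' * y, ?_, ?_⟩
  · apply le_antisymm
    · apply sup_le _ le_sup_left
      intro c hc
      have hc2 : c ∈ Subgroup.centralizer ((R ⊔ A : Subgroup G) : Set G) :=
        (Subgroup.mem_inf.mp hc).2
      rw [sup_comm, mem_centralizer_sup] at hc2
      obtain ⟨a, ha, h | h⟩ := hXZA c hc2.1 hc2.2
      · rw [h]; exact Subgroup.mem_sup_left ha
      · rw [h]
        exact Subgroup.mul_mem _ (Subgroup.mem_sup_right hS.z_mem_center)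
          (Subgroup.mem_sup_left ha)
    · apply sup_le le_sup_right
      intro x hx
      apply Subgroup.mem_sup_left
      rcases hS.center_cases hx with h | h
      · rw [h]; exact Subgroup.one_mem _
      · rw [h]
        refine Subgroup.mem_inf.mpr ⟨?_, ?_⟩
        · rw [hM]
          apply Subgroup.mem_sup_left
          rw [Subgroup.mem_centralizer_iff]
          exact hAz
        · rw [sup_comm, mem_centralizer_sup]
          exact ⟨hAz, fun r hr => hE0.zc r (hRQ hr)⟩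
  · refine Subgroup.mul_mem _ (Subgroup.mem_sup_right (Subgroup.mem_inf.mpr ⟨hy'Q, ?_⟩))
      (Subgroup.mem_sup_left hyR)
    rw [Subgroup.mem_centralizer_iff]
    exact hy'A
  · have hy's : y' * (g * z * g⁻¹) * y'⁻¹ = g * z * g⁻¹ := by
      rw [hE2.zc y' hy'Q]; group
    calc y' * y * (g * z * g⁻¹) * (y' * y)⁻¹
        = y' * (y * (g * z * g⁻¹) * y⁻¹) * y'⁻¹ := by group
      _ = y' * (z * (g * z * g⁻¹)) * y'⁻¹ := by rw [hys]
      _ = (y' * z * y'⁻¹) * (y' * (g * z * g⁻¹) * y'⁻¹) := by group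
      _ = ((g * z * g⁻¹) * z) * (g * z * g⁻¹) := by rw [hy'z, hy's]
      _ = z * ((g * z * g⁻¹) * (g * z * g⁻¹)) := by rw [hE0.zc _ hsQ]; group
      _ = z := by rw [hE2.zz, mul_one]

end Cfsg.Agent.S5428
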