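import Cfsg.Statements.S5430
import Cfsg.Agent.Lib.Helper90.Basic
import Cfsg.Agent.Lib.Helper90.Conj
import Cfsg.Agent.Lib.Helper90.ESData
import Cfsg.Agent.Lib.Helper90.ESPair
import Cfsg.Agent.Lib.Helper90.ESPair2

set_option autoImplicit false
open Cfsg

namespace Cfsg.Agent.S5430

/-- Let Q be a large extraspecial 2-subgroup of the finite group G (extraspecial; centralizer equal to its centre; normal in the centralizer of its centre; normalizing no non-trivial subgroup of odd order) with centre generated by z, an involution, of width w ≥ 2 (order 2^(2w+1)); let g be an element outside the centralizer H of z with g z g⁻¹ in Q; write V for the subgroup generated by z and g z g⁻¹, X for the subgroup generated by Q and g Q g⁻¹, R for the subgroup generated by the centralizer of z in g Q g⁻¹ and the centralizer of g z g⁻¹ in Q, and E for the intersection of Q and g Q g⁻¹. Then R is the centralizer of V in X and is the largest normal 2-subgroup of X, and X/R is isomorphic to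 the symmetric group of degree 3; moreover the normalizer of V is the product of X and the centralizer of V in H, X is normal in it, and modulo R it is the direct product of X/R and of the centralizer of V in H modulo R. -/
theorem result {G : Type*} [Group G] [Finite G] (Q : Subgroup G) (hQ : Cfsg.IsLargeExtraspecial Q) (z : G) (hz : ((Subgroup.center ↥Q).map Q.subtype) = Subgroup.zpowers z) (hz2 : orderOf z = 2) (w : ℕ) (hw : 2 ≤ w) (hcard : Nat.card ↥Q = 2 ^ (2 * w + 1)) (g : G) (hgH : g ∉ Subgroup.centralizer ({z} : Set G)) (hgQ : g * z * g⁻¹ ∈ Q) (V X R E : Subgroup G) (hV : V = Subgroup.closure ({z, g * z * g⁻¹} : Set G)) (hX : X = Q ⊔ (Q).map (MulAut.conj g).toMonoidHom) (hR : R = ((Q).map (MulAut.conj g).toMonoidHom ⊓ Subgroup.centralizer ({z} : Set G)) ⊔ (Q ⊓ Subgroup.centralizer ({g * z * g⁻¹} : Set G))) (hE : E = Q ⊓ (Q).map (MulAut.conj g).toMonoidHom) : R = X ⊓ Subgroup.centralizer (V : Set G) ∧ R = (Cfsg.pCore 2 ↥X).map X.subtype ∧ (∃ h : (R.subgroupOf X).Normal,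 Nonempty (↥X ⧸ R.subgroupOf X ≃* Equiv.Perm (Fin 3))) ∧ Subgroup.normalizer (V : Set G) = X ⊔ (Subgroup.centralizer ({z} : Set G) ⊓ Subgroup.centralizer (V : Set G)) ∧ (∀ y ∈ Subgroup.normalizer (V : Set G), ∀ x ∈ X, y * x * y⁻¹ ∈ X) ∧ R ≤ Subgroup.centralizer ({z} : Set G) ⊓ Subgroup.centralizer (V : Set G) ∧ (∀ x ∈ X, ∀ c ∈ Subgroup.centralizer ({z} : Set G) ⊓ Subgroup.centralizer (V : Set G), x * c * x⁻¹ * c⁻¹ ∈ R) ∧ X ⊓ (Subgroup.centralizer ({z} : Set G) ⊓ Subgroup.centralizer (V : Set G)) = R := by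
  obtain ⟨hL1, hL2, hL3, -⟩ := hQ
  obtain ⟨z', hES, hzZ, hZ⟩ := Lib.Helper90.ESData.exists_esd Q hL1 hL2 hL3
  have hz1 : z ≠ 1 := by
    intro h
    rw [h, orderOf_one] at hz2
    omega
  have hzz' : z' = z := by
    have : z ∈ (Subgroup.center ↥Q).map Q.subtype := by rw [hz]; exact Subgroup.mem_zpowers z
    rcases hZ z this with h | h
    · exact absurd h hz1
    · exact h.symm
  rw [hzz'] at hES
  have hcard9 : 9 ≤ Nat.card Q := by
    rw [hcard]
    calc 9 ≤ 2 ^ 5 := by norm_num
      _ ≤ 2 ^ (2 * w + 1) := Nat.pow_le_pow_right (by norm_num) (by omega)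
  have hsz : g * z * g⁻¹ ≠ z := by
    intro h
    apply hgH
    rw [Subgroup.mem_centralizer_iff]
    intro u hu
    rw [Set.mem_singleton_iff] at hu
    rw [hu]
    have := congrArg (fun t => t * g) h
    simpa [mul_assoc] using this.symm
  have hP := Lib.Helper90.ESPair.Pair.of_conj hES hcard9 g hgQ hsz
  have hQ2 : IsPGroup 2 ↥Q := hL1.1.1
  have hQ2' : IsPGroup 2 ↥(Q.map (MulAut.conj g).toMonoidHom) := hQ2.map _
  have hV' : V = Lib.Helper90.ESPair.VV z (g * z * g⁻¹) := hV
  have hR' : R = Lib.Helper90.ESPair.RR Q (Q.map (MulAut.conj g).toMonoidHom) z (g * z * g⁻¹) := by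
    rw [hR, hP.RR_eq]
  generalize g * z * g⁻¹ = s at hP hV' hR' ⊢
  generalize Q.map (MulAut.conj g).toMonoidHom = Q' at hP hV' hR' hX hQ2' ⊢
  subst hV' hR' hX
  obtain ⟨t, y, hTY⟩ := Lib.Helper90.ESPair2.exists_TY hP
  have hCV : Subgroup.centralizer ({z} : Set G) ⊓
      Subgroup.centralizer ((Lib.Helper90.ESPair.VV z s : Subgroup G) : Set G) =
      Lib.Helper90.ESPair.CV z s := by
    apply inf_eq_right.mpr
    intro c hc
    rw [Subgroup.mem_centralizer_iff]
    intro u hu
    rw [Set.mem_singleton_iff] at hu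
    rw [hu]
    exact (Lib.Helper90.ESPair.mem_CV.mp hc).1.symm
  rw [hCV]
  refine ⟨hTY.X_inf_CV.symm, hTY.RR_eq_pCore hQ2 hQ2',
    ⟨Lib.Helper90.ESPair2.normal_RR hP, ?_⟩, hTY.normalizer_eq, ?_,
    Lib.Helper90.ESPair.RR_le_CV _ _ _ _, ?_, hTY.X_inf_CV⟩
  · exact hTY.nonempty_iso (hn := Lib.Helper90.ESPair2.normal_RR hP)
  · intro n hn x hx
    exact hTY.conj_mem_X hn hx
  · intro x hx c hc
    exact hP.comm_X_CV hx hc

end Cfsg.Agent.S5430
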