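import Cfsg.Statements.S5431
import Cfsg.Agent.Lib.Helper90.Basic
import Cfsg.Agent.Lib.Helper90.Conj
import Cfsg.Agent.Lib.Helper90.ESData
import Cfsg.Agent.Lib.Helper90.ESPair

set_option autoImplicit false
open Cfsg

namespace Cfsg.Agent.S5431

/-- Let Q be a large extraspecial 2-subgroup of the finite group G (extraspecial; centralizer equal to its centre; normal in the centralizer of its centre; normalizing no non-trivial subgroup of odd order) with centre generated by z, an involution, of width w ≥ 2 (order 2^(2w+1)); let g be an element outside the centralizer H of z with g z g⁻¹ in Q; write V for the subgroup generated by z and g z g⁻¹, X for the subgroup generated by Q and g Q g⁻¹, R for the subgroup generated by the centralizer of z in g Q g⁻¹ and the centralizer of g z g⁻¹ in Q, and E for the intersection of Q and g Q g⁻¹. Then V is the centre of R, E lies in the second centre of R, R is nilpotent of class at most 3, E and R/E are elementary abelian, R/E is the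 direct product of the images of the centralizer of g z g⁻¹ in Q and of the centralizer of z in g Q g⁻¹ (R is their product and they meet in E), and the commutator subgroup of X and E lies in V. -/
theorem result {G : Type*} [Group G] [Finite G] (Q : Subgroup G) (hQ : Cfsg.IsLargeExtraspecial Q) (z : G) (hz : ((Subgroup.center ↥Q).map Q.subtype) = Subgroup.zpowers z) (hz2 : orderOf z = 2) (w : ℕ) (hw : 2 ≤ w) (hcard : Nat.card ↥Q = 2 ^ (2 * w + 1)) (g : G) (hgH : g ∉ Subgroup.centralizer ({z} : Set G)) (hgQ : g * z * g⁻¹ ∈ Q) (V X R E : Subgroup G) (hV : V = Subgroup.closure ({z, g * z * g⁻¹} : Set G)) (hX : X = Q ⊔ (Q).map (MulAut.conj g).toMonoidHom) (hR : R = ((Q).map (MulAut.conj g).toMonoidHom ⊓ Subgroup.centralizer ({z} : Set G)) ⊔ (Q ⊓ Subgroup.centralizer ({g * z * g⁻¹} : Set G))) (hE : E = Q ⊓ (Q).map (MulAut.conj g).toMonoidHom) : (Subgroup.center ↥R).map R.subtype = V ∧ E ≤ (Subgroup.upperCentralSeries ↥R 2).map R.subtype ∧ Subgroup.upperCentralSeries ↥R 3 = ⊤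 ∧ Cfsg.IsElementaryAbelian 2 E ∧ (∀ x ∈ R, ∀ y ∈ R, x * y * x⁻¹ * y⁻¹ ∈ E ∧ x ^ 2 ∈ E) ∧ ((Q).map (MulAut.conj g).toMonoidHom ⊓ Subgroup.centralizer ({z} : Set G)) ⊓ (Q ⊓ Subgroup.centralizer ({g * z * g⁻¹} : Set G)) = E ∧ ⁅X, E⁆ ≤ V := by
  obtain ⟨hL1, hL2, hL3, -⟩ := hQ
  obtain ⟨z', hES, hzZ, hZ⟩ := Lib.Helper90.ESData.exists_esd Q hL1 hL2 hL3
  have hz1 : z ≠ 1 := by
    intro h
    rw [h, orderOf_one] at hz2
    omega
  have hzz' : z' = z := by
    have : z ∈ (Subgroup.center ↥Q).map Q.subtype := by rw [hz]; exact Subgroup.mem_zpowers z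
    rcases hZ z this with h | h
    · exact absurd h hz1
    · exact h.symm
  rw [hzz'] at hES
  have hcard9 : 9 ≤ Nat.card Q := by
    rw [hcard]
    calc 9 ≤ 2 ^ 5 := by norm_num
      _ ≤ 2 ^ (2 * w + 1) := Nat.pow_le_pow_right (by norm_num) (by omega)
  have hsz : g * z * g⁻¹ ≠ z := by
    intro h
    apply hgH
    rw [Subgroup.mem_centralizer_iff]
    intro u hu
    rw [Set.mem_singleton_iff] at hu
    rw [hu]
    have := congrArg (fun t => t * g) h
    simpa [mul_assoc] using this.symm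
  have hP := Lib.Helper90.ESPair.Pair.of_conj hES hcard9 g hgQ hsz
  have hV' : V = Lib.Helper90.ESPair.VV z (g * z * g⁻¹) := hV
  have hR' : R = Lib.Helper90.ESPair.RR Q (Q.map (MulAut.conj g).toMonoidHom) z (g * z * g⁻¹) := by
    rw [hR, hP.RR_eq]
  have hPP := hP.PP_eq
  have hPP' := hP.PP'_eq
  generalize g * z * g⁻¹ = s at hP hV' hR' hPP hPP' hE ⊢
  generalize Q.map (MulAut.conj g).toMonoidHom = Q' at hP hV' hR' hPP hPP' hE hX ⊢
  subst hV' hR' hE hX
  refine ⟨hP.center_RR, ?_, hP.Z3_RR, ⟨?_, ?_⟩, ?_, ?_, ?_⟩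
  · intro e he
    exact ⟨⟨e, hP.E_le_RR he⟩, hP.mem_Z2_of_mem_E _ he, rfl⟩
  · exact ⟨⟨fun a b => Subtype.ext (hP.E_comm a.2 b.2)⟩⟩
  · intro a ha
    rw [pow_two]
    exact hP.E_sq ha
  · intro x hx y hy
    refine ⟨hP.comm_RR hx hy, ?_⟩
    rw [pow_two]
    exact hP.sq_RR hx
  · rw [← hPP, ← hPP']
    exact hP.PP_inf_PP'
  · rw [Subgroup.commutator_le]
    intro x hx e he
    rw [commutatorElement_def]
    exact hP.comm_X_E hx he

end Cfsg.Agent.S5431
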