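import Cfsg.Statements.S5432
import Cfsg.Agent.Lib.Helper30.XSOut

set_option autoImplicit false
open Cfsg

namespace Cfsg.Agent.S5432

open Cfsg.Agent.Lib.Helper93.LargeExtra2 Cfsg.Agent.Lib.Helper30.XSCount
  Cfsg.Agent.Lib.Helper30.XSIso Cfsg.Agent.Lib.Helper30.XSModel Cfsg.Agent.Lib.Helper30.XSExt
  Cfsg.Agent.Lib.Helper30.XSAut Cfsg.Agent.Lib.Helper30.XSOut

/-- Let E be an extraspecial 2-group of order 2^(2n+1), n ≥ 1. If E contains an elementary abelian subgroup of order 2^(n+1) (plus type), then its outer automorphism group is isomorphic to the full isometry group of the hyperbolic quadratic form in dimension 2n over the field with two elements; otherwise (minus type) it is isomorphic to the full isometry group of the elliptic quadratic form in dimension 2n over that field. -/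
theorem result {E : Type*} [Group E] [Finite E] (hE : Cfsg.IsExtraspecial 2 E) (n : ℕ) (hn : 1 ≤ n) (hcard : Nat.card E = 2 ^ (2 * n + 1)) : ((∃ A : Subgroup E, Cfsg.IsElementaryAbelian 2 A ∧ Nat.card ↥A = 2 ^ (n + 1)) → Nonempty (Cfsg.Out E ≃* Cfsg.isometryGroup (ZMod 2) (Cfsg.quadFormPlus n (ZMod 2)))) ∧ ((¬ ∃ A : Subgroup E, Cfsg.IsElementaryAbelian 2 A ∧ Nat.card ↥A = 2 ^ (n + 1)) → Nonempty (Cfsg.Out E ≃* Cfsg.isometryGroup (ZMod 2) (Cfsg.quadFormMinus (n - 1) (ZMod 2) 1 1))) := by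
  obtain ⟨z, m', hz, -, hc', hSs, -, hpl⟩ := struct hE
  have hm' : m' = n := by
    have h : 2 ^ (2 * m' + 1) = 2 ^ (2 * n + 1) := by rw [← hc', ← hcard]
    have := Nat.pow_right_injective (le_refl 2) h
    omega
  subst hm'
  constructor
  · rintro ⟨A, ⟨hAc, hA2⟩, hAcard⟩
    have hS : Ssum E = 2 ^ (m' + 1) := (rank_le hz _ hc' A
      (fun a ha b hb => congrArg Subtype.val (hAc.is_comm.comm ⟨a, ha⟩ ⟨b, hb⟩)) hA2).2 hAcard
    exact out_plus hE m' hn hcard hS
  · intro hno
    have hS : Ssum E = -2 ^ (m' + 1) := by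
      rcases hSs with h | h
      · exfalso
        apply hno
        have hpos : 0 < Ssum E := by rw [h]; positivity
        obtain ⟨A, hAc, hA2, hAcard⟩ := hpl hpos
        exact ⟨A, ⟨⟨⟨fun a b => Subtype.ext (hAc a a.2 b b.2)⟩⟩, hA2⟩, hAcard⟩
      · exact h
    obtain ⟨k, rfl⟩ : ∃ k, m' = k + 1 := ⟨m' - 1, by omega⟩
    exact out_minus hE k hcard hS

end Cfsg.Agent.S5432
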