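import Cfsg.Statements.S5433
import Cfsg.Agent.Lib.Helper90.Basic
import Cfsg.Agent.Lib.Helper90.PGroup

set_option autoImplicit false
open Cfsg

namespace Cfsg.Agent.S5433

/-- Let Q be a large extraspecial 2-subgroup of the finite group G (extraspecial; centralizer equal to its centre; normal in the centralizer of its centre; normalizing no non-trivial subgroup of odd order), and L a normal subgroup of G containing Q. Then G is the product of L and the normalizer of Q. -/
theorem result {G : Type*} [Group G] [Finite G] (Q : Subgroup G) (hQ : Cfsg.IsLargeExtraspecial Q) (L : Subgroup G) [L.Normal] (hQL : Q ≤ L) : L ⊔ Subgroup.normalizer (Q : Set G) = ⊤ := by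
  obtain ⟨hE, hC, hN, -⟩ := hQ
  have hQ2 : IsPGroup 2 ↥Q := hE.1.1
  have hcard : Nat.card (Subgroup.center ↥Q) = 2 := hE.2
  haveI : Fact (Nat.Prime 2) := ⟨Nat.prime_two⟩
  -- a Sylow 2-subgroup of L containing Q
  have hQL2 : IsPGroup 2 ↥(Q.subgroupOf L) := hQ2.comap_subtype
  obtain ⟨T, hT⟩ := hQL2.exists_le_sylow
  have hfr := Sylow.normalizer_sup_eq_top T
  set T' : Subgroup G := (T : Subgroup L).map L.subtype with hT'
  have hQT' : Q ≤ T' := by
    intro q hq
    refine ⟨⟨q, hQL hq⟩, hT ?_, rfl⟩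
    exact Subgroup.mem_subgroupOf.mpr hq
  have hT'2 : IsPGroup 2 ↥T' := T.isPGroup'.map L.subtype
  obtain ⟨z0, hz0, hz01⟩ := Lib.Helper90.PGroup.exists_mem_center_map_ne_one hcard
  have hz0Q : z0 ∈ Q := Lib.Helper90.PGroup.center_map_le Q hz0
  have hT'ne : T' ≠ ⊥ := by
    intro h
    have : z0 ∈ T' := hQT' hz0Q
    rw [h, Subgroup.mem_bot] at this
    exact hz01 this
  obtain ⟨c, hcT, hc1, hcc⟩ := Lib.Helper90.PGroup.exists_central_ne_one T' hT'2 hT'ne
  -- c centralizes Q, so lies in Z
  have hcZ : c ∈ (Subgroup.center ↥Q).map Q.subtype := by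
    rw [← hC, Subgroup.mem_centralizer_iff]
    intro q hq
    exact hcc q (hQT' hq)
  have key : Subgroup.normalizer (T' : Set G) ≤ Subgroup.normalizer (Q : Set G) := by
    intro n hn
    apply hN
    -- n c n⁻¹ is central in T', nontrivial
    have hn1 : n * c * n⁻¹ ∈ T' := (Subgroup.mem_normalizer_iff.mp hn c).mp hcT
    have hn2 : n * c * n⁻¹ ∈ (Subgroup.center ↥Q).map Q.subtype := by
      rw [← hC, Subgroup.mem_centralizer_iff]
      intro q hq
      have hqT : n⁻¹ * q * n ∈ T' := (Subgroup.mem_normalizer_iff''.mp hn q).mp (hQT' hq)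
      have h1 := hcc _ hqT
      calc q * (n * c * n⁻¹) = n * ((n⁻¹ * q * n) * c) * n⁻¹ := by simp [mul_assoc]
        _ = n * (c * (n⁻¹ * q * n)) * n⁻¹ := by rw [h1]
        _ = n * c * n⁻¹ * q := by simp [mul_assoc]
    have hn3 : n * c * n⁻¹ ≠ 1 := by
      intro h
      apply hc1
      have := congrArg (fun t => n⁻¹ * t * n) h
      simpa [mul_assoc] using this
    have hn4 : n * c * n⁻¹ = c :=
      Lib.Helper90.PGroup.eq_of_mem_center_map hcard hn2 hcZ hn3 hc1
    have hn5 : n * c = c * n := by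
      have := congrArg (fun t => t * n) hn4
      simpa [mul_assoc] using this
    rw [Subgroup.mem_centralizer_iff]
    intro z hz
    by_cases hz1 : z = 1
    · subst hz1; simp
    · have : z = c := Lib.Helper90.PGroup.eq_of_mem_center_map hcard hz hcZ hz1 hc1
      subst this
      exact hn5.symm
  rw [eq_top_iff, ← hfr, sup_comm]
  exact sup_le_sup_left key L

end Cfsg.Agent.S5433
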