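import Cfsg.Statements.S5436
import Cfsg.Agent.Lib.Helper90.Conj
import Cfsg.Agent.Lib.Helper90.FStarES

set_option autoImplicit false
open Cfsg

namespace Cfsg.Agent.S5436

/-- Let z be an involution of the finite group G with centralizer H whose generalized Fitting subgroup Q is extraspecial of width at least 2 (order 2^(2w+1), w ≥ 2); suppose some conjugate of z other than z lies in Q, H/Q is a non-abelian simple group, H acts irreducibly by conjugation on Q modulo the subgroup generated by z (the only H-invariant subgroups of Q containing z are that subgroup and Q), and Q is not the subgroup generated by the conjugates of z lying in H. Then G is simple. -/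
theorem result {G : Type*} [Group G] [Finite G] (z : G) (hz : orderOf z = 2) (Q : Subgroup (Subgroup.centralizer ({z} : Set G))) [Q.Normal] (hF : Cfsg.generalizedFittingSubgroup ↥(Subgroup.centralizer ({z} : Set G)) = Q) (hQ : Cfsg.IsExtraspecial 2 ↥Q) (w : ℕ) (hw : 2 ≤ w) (hcard : Nat.card ↥Q = 2 ^ (2 * w + 1)) (hnwc : ∃ g : G, (∃ hq : g * z * g⁻¹ ∈ Subgroup.centralizer ({z} : Set G), (⟨g * z * g⁻¹, hq⟩ : Subgroup.centralizer ({z} : Set G)) ∈ Q) ∧ g * z * g⁻¹ ≠ z) (hsimp : IsSimpleGroup (↥(Subgroup.centralizer ({z} : Set G)) ⧸ Q)) (hna : ¬ IsMulCommutative (↥(Subgroup.centralizer ({z} : Set G)) ⧸ Q)) (hirr : ∀ W : Subgroup (Subgroup.centralizer ({z} : Set G)), W.Normal → W ≤ Q → (W = Q ∨ ∀ x ∈ W, (x : G) ∈ Subgroup.zpowers z)) (hwcl : Subgroup.closure {x : Subgroup.centralizer ({z} : Set G) | IsConj z (x : G)} ≠ Q) : IsSimpleGroup G := by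
  have hQ' : Cfsg.IsExtraspecial 2 ↥(Q.map (Subgroup.centralizer ({z} : Set G)).subtype) :=
    Lib.Helper90.FStarES.isExtraspecial_of_mulEquiv
      (Q.equivMapOfInjective _ (Subgroup.subtype_injective _)) hQ
  have hF' : (Cfsg.generalizedFittingSubgroup ↥(Subgroup.centralizer ({z} : Set G))).map
      (Subgroup.centralizer ({z} : Set G)).subtype =
      Q.map (Subgroup.centralizer ({z} : Set G)).subtype := by rw [hF]
  have hS := Lib.Helper90.FStarES.Setup.of_gfs hz hF' hQ'
  have hcard' : Nat.card ↥(Q.map (Subgroup.centralizer ({z} : Set G)).subtype) = 2 ^ (2 * w + 1) := by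
    rw [Subgroup.card_map_of_injective (Subgroup.subtype_injective _)]
    exact hcard
  obtain ⟨g, ⟨hq, hgQ⟩, hgz⟩ := hnwc
  have hgQ' : g * z * g⁻¹ ∈ Q.map (Subgroup.centralizer ({z} : Set G)).subtype :=
    ⟨⟨g * z * g⁻¹, hq⟩, hgQ, rfl⟩
  have hlarge := hS.large_of_conj w hw hcard' g hgQ' hgz
  have hmemH : ∀ c : G, c ∈ Subgroup.centralizer ({z} : Set G) ↔ c * z = z * c := by
    intro c
    rw [Subgroup.mem_centralizer_iff]
    constructor
    · intro h
      exact (h z (Set.mem_singleton z)).symm
    · intro h u hu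
      rw [Set.mem_singleton_iff] at hu
      rw [hu]; exact h.symm
  have hs1 : g * z * g⁻¹ ≠ 1 := by
    intro h
    apply hS.z1
    have := congrArg (fun u => g⁻¹ * u * g) h
    simpa [mul_assoc] using this
  have hsnz : g * z * g⁻¹ ∉ Subgroup.zpowers z := by
    intro h
    rcases (Lib.Helper90.Conj.mem_zpowers_of_mul_self hS.zz).mp h with h1 | h1
    · exact hs1 h1
    · exact hgz h1
  have hnt : Nontrivial G := ⟨⟨z, 1, hS.z1⟩⟩
  refine { exists_pair_ne := hnt.exists_pair_ne, eq_bot_or_eq_top_of_normal := ?_ }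
  intro N hN
  by_cases hzN : z ∈ N
  · right
    have hsN : g * z * g⁻¹ ∈ N := hN.conj_mem z hzN g
    -- Q ≤ N
    have hQN : Q ≤ N.subgroupOf (Subgroup.centralizer ({z} : Set G)) := by
      have hW : (N.subgroupOf (Subgroup.centralizer ({z} : Set G)) ⊓ Q).Normal := inferInstance
      rcases hirr _ hW inf_le_right with h1 | h1
      · rw [← h1]
        exact inf_le_left
      · exfalso
        apply hsnz
        exact h1 ⟨g * z * g⁻¹, hq⟩ ⟨Subgroup.mem_subgroupOf.mpr hsN, hgQ⟩
    have hMn : ((N.subgroupOf (Subgroup.centralizer ({z} : Set G))).map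
        (QuotientGroup.mk' Q)).Normal :=
      Subgroup.Normal.map inferInstance _ (QuotientGroup.mk'_surjective Q)
    rcases hsimp.eq_bot_or_eq_top_of_normal _ hMn with h1 | h1
    · -- N ∩ H ≤ Q: contradiction with hwcl
      exfalso
      have hNQ : N.subgroupOf (Subgroup.centralizer ({z} : Set G)) ≤ Q := by
        intro n hn
        have h2 : QuotientGroup.mk' Q n ∈ (N.subgroupOf (Subgroup.centralizer ({z} : Set G))).map
            (QuotientGroup.mk' Q) := Subgroup.mem_map_of_mem _ hn
        rw [h1, Subgroup.mem_bot] at h2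
        exact (QuotientGroup.eq_one_iff n).mp h2
      have hCn : (Subgroup.closure {x : Subgroup.centralizer ({z} : Set G) | IsConj z (x : G)}).Normal := by
        apply Lib.Helper90.FStarES.closure_normal_of_conj
        intro h x hx
        obtain ⟨c, hc⟩ := isConj_iff.mp hx
        apply isConj_iff.mpr
        refine ⟨(h : G) * c, ?_⟩
        show (h : G) * c * z * ((h : G) * c)⁻¹ = (h : G) * (x : G) * (h : G)⁻¹
        rw [← hc]
        group
      have hCle : Subgroup.closure {x : Subgroup.centralizer ({z} : Set G) | IsConj z (x : G)} ≤ Q := by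
        rw [Subgroup.closure_le]
        intro x hx
        apply hNQ
        rw [Subgroup.mem_subgroupOf]
        obtain ⟨c, hc⟩ := isConj_iff.mp hx
        rw [← hc]
        exact hN.conj_mem z hzN c
      rcases hirr _ hCn hCle with h2 | h2
      · exact hwcl h2
      · apply hsnz
        exact h2 ⟨g * z * g⁻¹, hq⟩ (Subgroup.subset_closure (isConj_iff.mpr ⟨g, rfl⟩))
    · -- H ≤ N
      apply hS.eq_top_of_centralizer_le N
      intro c hc
      have hcH : c ∈ Subgroup.centralizer ({z} : Set G) := (hmemH c).mpr hc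
      have h2 : QuotientGroup.mk' Q ⟨c, hcH⟩ ∈ (N.subgroupOf (Subgroup.centralizer ({z} : Set G))).map
          (QuotientGroup.mk' Q) := by rw [h1]; exact Subgroup.mem_top _
      obtain ⟨n, hn, hnc⟩ := h2
      have h3 : n⁻¹ * ⟨c, hcH⟩ ∈ Q := QuotientGroup.eq.mp hnc
      have h4 := Subgroup.mul_mem _ hn (hQN h3)
      rw [mul_inv_cancel_left, Subgroup.mem_subgroupOf] at h4
      exact h4
  · left
    exact hS.eq_bot_of_not_mem hlarge N hzN

end Cfsg.Agent.S5436
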