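import Cfsg.Statements.S5437
-- import your own Cfsg.Agent.* helpers here

set_option autoImplicit false
open Cfsg

namespace Cfsg.Agent.S5437

theorem mem_map_conj_iff {G : Type*} [Group G] (H : Subgroup G) (g x : G) :
    x ∈ H.map (MulAut.conj g).toMonoidHom ↔ g⁻¹ * x * g ∈ H := by
  rw [Subgroup.mem_map]
  constructor
  · rintro ⟨y, hy, rfl⟩
    simpa [MulAut.conj_apply, mul_assoc] using hy
  · intro h
    refine ⟨g⁻¹ * x * g, h, ?_⟩
    simp [MulAut.conj_apply, mul_assoc]

theorem smul_coset_eq_iff {G : Type*} [Group G] (H : Subgroup G) (x g : G) :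
    x • (g : G ⧸ H) = (g : G ⧸ H) ↔ g⁻¹ * x * g ∈ H := by
  rw [eq_comm]
  change ((g : G) : G ⧸ H) = ((x * g : G) : G ⧸ H) ↔ _
  rw [QuotientGroup.eq]
  simp [mul_assoc]

/-- Let I be a set of involutions of the finite group G closed under conjugation, and H a subgroup of G. The following are equivalent: (1) for every member x of I lying in H, the conjugates of x lying in H form a single H-class and the centralizer of x lies in H; (2) for every g outside H, no member of I lies in both H and g H g⁻¹; (3) every member of I lying in H fixes exactly one coset in the action of G on the cosets of H. -/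
theorem result {G : Type*} [Group G] [Finite G] (I : Set G) (hI : ∀ x ∈ I, orderOf x = 2) (hIc : ∀ g : G, ∀ x ∈ I, g * x * g⁻¹ ∈ I) (H : Subgroup G) : ((∀ x ∈ I, x ∈ H → (∀ g : G, g * x * g⁻¹ ∈ H → ∃ h ∈ H, h * x * h⁻¹ = g * x * g⁻¹) ∧ Subgroup.centralizer ({x} : Set G) ≤ H) ↔ (∀ g : G, g ∉ H → ∀ x ∈ I, ¬ (x ∈ H ∧ x ∈ (H : Subgroup G).map (MulAut.conj g).toMonoidHom))) ∧ ((∀ g : G, g ∉ H → ∀ x ∈ I, ¬ (x ∈ H ∧ x ∈ (H : Subgroup G).map (MulAut.conj g).toMonoidHom)) ↔ ∀ x ∈ I, x ∈ H → ∃! c : G ⧸ H, x • c = c) := by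
  refine ⟨⟨?_, ?_⟩, ⟨?_, ?_⟩⟩
  · -- (1) → (2)
    intro h1 g hg x hxI ⟨hxH, hxg⟩
    rw [mem_map_conj_iff] at hxg
    obtain ⟨hconj, hcent⟩ := h1 x hxI hxH
    have hxg' : g⁻¹ * x * g⁻¹⁻¹ ∈ H := by simpa using hxg
    obtain ⟨h, hh, hhx⟩ := hconj g⁻¹ hxg'
    -- g * h centralizes x
    have hc : g * h ∈ Subgroup.centralizer ({x} : Set G) := by
      rw [Subgroup.mem_centralizer_iff]
      intro y hy
      rw [Set.mem_singleton_iff] at hy
      subst hy
      have : g * (h * y * h⁻¹) * g⁻¹ = y := by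
        rw [hhx]; simp [mul_assoc]
      calc y * (g * h) = g * (h * y * h⁻¹) * g⁻¹ * (g * h) := by rw [this]
        _ = g * h * y := by simp [mul_assoc]
    have hgh : g * h ∈ H := hcent hc
    exact hg (by simpa using H.mul_mem hgh (H.inv_mem hh))
  · -- (2) → (1)
    intro h2 x hxI hxH
    refine ⟨?_, ?_⟩
    · intro g hgx
      by_cases hg : g ∈ H
      · exact ⟨g, hg, rfl⟩
      · exfalso
        have hg' : g⁻¹ ∉ H := fun h => hg (by simpa using H.inv_mem h)
        refine h2 g⁻¹ hg' x hxI ⟨hxH, ?_⟩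
        rw [mem_map_conj_iff]
        simpa using hgx
    · intro c hc
      by_contra hcH
      refine h2 c hcH x hxI ⟨hxH, ?_⟩
      rw [mem_map_conj_iff]
      rw [Subgroup.mem_centralizer_iff] at hc
      have := hc x (Set.mem_singleton x)
      have h3 : c⁻¹ * x * c = x := by
        rw [mul_assoc, this]; simp
      rw [h3]; exact hxH
  · -- (2) → (3)
    intro h2 x hxI hxH
    refine ⟨((1 : G) : G ⧸ H), ?_, ?_⟩
    · show x • ((1 : G) : G ⧸ H) = ((1 : G) : G ⧸ H)
      rw [smul_coset_eq_iff]; simpa using hxH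
    · intro c hc
      induction c using QuotientGroup.induction_on with
      | H g =>
        have hc' : x • (g : G ⧸ H) = (g : G ⧸ H) := hc
        rw [smul_coset_eq_iff] at hc'
        by_contra hne
        have hg : g ∉ H := by
          intro hgH
          apply hne
          rw [QuotientGroup.eq]
          simpa using H.inv_mem hgH
        refine h2 g hg x hxI ⟨hxH, ?_⟩
        rw [mem_map_conj_iff]; exact hc'
  · -- (3) → (2)
    intro h3 g hg x hxI ⟨hxH, hxg⟩
    rw [mem_map_conj_iff] at hxg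
    obtain ⟨c, _, huniq⟩ := h3 x hxI hxH
    have e1 : ((1 : G) : G ⧸ H) = c := huniq _ (by
      show x • ((1 : G) : G ⧸ H) = ((1 : G) : G ⧸ H)
      rw [smul_coset_eq_iff]; simpa using hxH)
    have e2 : ((g : G) : G ⧸ H) = c := huniq _ (by
      show x • ((g : G) : G ⧸ H) = ((g : G) : G ⧸ H)
      rw [smul_coset_eq_iff]; exact hxg)
    have e3 : ((1 : G) : G ⧸ H) = ((g : G) : G ⧸ H) := e1.trans e2.symm
    rw [QuotientGroup.eq] at e3
    exact hg (by simpa using e3)

end Cfsg.Agent.S5437
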