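import Cfsg.Statements.S5438
import Cfsg.Agent.Lib.Helper90.SylowConj
import Cfsg.Agent.Lib.Helper90.Dihedral

set_option autoImplicit false
open Cfsg

namespace Cfsg.Agent.S5438

/-- Let z be a 2-central involution of the finite group G (an involution central in some Sylow 2-subgroup) and H a subgroup containing z such that the coset H is the only coset of H fixed by z (in the action of G on the cosets of H). Then H has odd index in G, and for every 2-element x of H the conjugates of x lying in H form a single H-class. -/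
theorem result {G : Type*} [Group G] [Finite G] (z : G) (hz : Cfsg.IsTwoCentralInvolution z) (H : Subgroup G) (hzH : z ∈ H) (hfix : ∀ g : G, g⁻¹ * z * g ∈ H → g ∈ H) : Odd H.index ∧ ∀ x ∈ H, (∃ k : ℕ, orderOf x = 2 ^ k) → ∀ g : G, g * x * g⁻¹ ∈ H → ∃ h ∈ H, h * x * h⁻¹ = g * x * g⁻¹ := by
  obtain ⟨hz2, P, hzP, hzc⟩ := hz
  haveI : Fact (Nat.Prime 2) := ⟨Nat.prime_two⟩
  have hzz : z * z = 1 := Lib.Helper90.Dihedral.mul_self_of_orderOf_two hz2
  have hPH : (P : Subgroup G) ≤ H := by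
    intro s hs
    apply hfix
    have : s⁻¹ * z * s = z := by rw [mul_assoc, ← hzc s hs]; simp
    rw [this]; exact hzH
  refine ⟨?_, ?_⟩
  · have h1 : H.index ∣ (P : Subgroup G).index := Subgroup.index_dvd_of_le hPH
    have h2 : ¬ 2 ∣ (P : Subgroup G).index := P.not_dvd_index
    rw [← Nat.not_even_iff_odd, even_iff_two_dvd]
    exact fun h => h2 (h.trans h1)
  · have hc : ∀ (T : Subgroup G), IsPGroup 2 T → ∀ k ∈ H, k * z * k⁻¹ ∈ T → T ≤ H := by
      intro T hT k hk hkT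
      obtain ⟨a, ha⟩ := Lib.Helper90.SylowConj.exists_conj_le_sylow P T hT
      have h1 : a⁻¹ * (k * z * k⁻¹) * a ∈ H := hPH (ha _ hkT)
      have h2 : (k⁻¹ * a)⁻¹ * z * (k⁻¹ * a) ∈ H := by simpa [mul_assoc] using h1
      have h3 : k⁻¹ * a ∈ H := hfix _ h2
      have h4 : a ∈ H := by simpa using H.mul_mem hk h3
      intro t ht
      have h5 : a⁻¹ * t * a ∈ H := hPH (ha t ht)
      have := H.mul_mem (H.mul_mem h4 h5) (H.inv_mem h4)
      simpa [mul_assoc] using this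
    intro x hxH ⟨k, hk⟩ g hgx
    have hxk : x ^ 2 ^ k = 1 := by rw [← hk]; exact pow_orderOf_eq_one x
    have hyk : (g * x * g⁻¹) ^ 2 ^ k = 1 := by rw [conj_pow, hxk]; simp
    obtain ⟨h₁, hh₁, hx₁⟩ :=
      Lib.Helper90.SylowConj.exists_conj_mem_sylow_of_le P H hPH x hxH k hxk
    obtain ⟨h₂, hh₂, hx₂⟩ :=
      Lib.Helper90.SylowConj.exists_conj_mem_sylow_of_le P H hPH (g * x * g⁻¹) hgx k hyk
    have hz1 : (h₁ * z * h₁⁻¹) * x = x * (h₁ * z * h₁⁻¹) := by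
      have := hzc _ hx₁
      calc (h₁ * z * h₁⁻¹) * x = h₁ * (z * (h₁⁻¹ * x * h₁)) * h₁⁻¹ := by simp [mul_assoc]
        _ = h₁ * ((h₁⁻¹ * x * h₁) * z) * h₁⁻¹ := by rw [this]
        _ = x * (h₁ * z * h₁⁻¹) := by simp [mul_assoc]
    have hw : (g⁻¹ * h₂ * z * h₂⁻¹ * g) * x = x * (g⁻¹ * h₂ * z * h₂⁻¹ * g) := by
      have := hzc _ hx₂
      calc (g⁻¹ * h₂ * z * h₂⁻¹ * g) * x
          = g⁻¹ * h₂ * (z * (h₂⁻¹ * (g * x * g⁻¹) * h₂)) * h₂⁻¹ * g := by simp [mul_assoc]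
        _ = g⁻¹ * h₂ * ((h₂⁻¹ * (g * x * g⁻¹) * h₂) * z) * h₂⁻¹ * g := by rw [this]
        _ = x * (g⁻¹ * h₂ * z * h₂⁻¹ * g) := by simp [mul_assoc]
    have hz1C : h₁ * z * h₁⁻¹ ∈ Subgroup.centralizer ({x} : Set G) := by
      rw [Subgroup.mem_centralizer_iff]
      intro y hy
      rw [Set.mem_singleton_iff] at hy
      rw [hy]; exact hz1.symm
    have hwC : g⁻¹ * h₂ * z * h₂⁻¹ * g ∈ Subgroup.centralizer ({x} : Set G) := by
      rw [Subgroup.mem_centralizer_iff]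
      intro y hy
      rw [Set.mem_singleton_iff] at hy
      rw [hy]; exact hw.symm
    have hz1sq : (⟨h₁ * z * h₁⁻¹, hz1C⟩ : Subgroup.centralizer ({x} : Set G)) ^ 2 ^ 1 = 1 := by
      ext
      simp only [pow_one, pow_two, Subgroup.coe_mul, Subgroup.coe_one]
      exact Lib.Helper90.Dihedral.conj_mul_self hzz h₁
    obtain ⟨T₁, hT₁⟩ := (Lib.Helper90.SylowConj.isPGroup_zpowers
      (⟨_, hz1C⟩ : Subgroup.centralizer ({x} : Set G)) 1 hz1sq).exists_le_sylow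
    have hwsq : (⟨g⁻¹ * h₂ * z * h₂⁻¹ * g, hwC⟩ : Subgroup.centralizer ({x} : Set G)) ^ 2 ^ 1 = 1 := by
      ext
      simp only [pow_one, pow_two, Subgroup.coe_mul, Subgroup.coe_one]
      have := Lib.Helper90.Dihedral.conj_mul_self hzz (g⁻¹ * h₂)
      simpa [mul_assoc] using this
    obtain ⟨c, hc'⟩ := Lib.Helper90.SylowConj.exists_conj_mem_sylow T₁
      (⟨_, hwC⟩ : Subgroup.centralizer ({x} : Set G)) 1 hwsq
    have hT2 : IsPGroup 2 ((T₁ : Subgroup (Subgroup.centralizer ({x} : Set G))).map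
        (Subgroup.centralizer ({x} : Set G)).subtype) := T₁.isPGroup'.map _
    have hTH := hc _ hT2 h₁ hh₁ ⟨⟨_, hz1C⟩, hT₁ (Subgroup.mem_zpowers _), rfl⟩
    have h6 : (c : G)⁻¹ * (g⁻¹ * h₂ * z * h₂⁻¹ * g) * c ∈ H := hTH ⟨_, hc', by simp⟩
    have h7 : (h₂⁻¹ * g * c)⁻¹ * z * (h₂⁻¹ * g * c) ∈ H := by simpa [mul_assoc] using h6
    have h8 : h₂⁻¹ * g * c ∈ H := hfix _ h7
    have h9 : g * c ∈ H := by simpa [mul_assoc] using H.mul_mem hh₂ h8
    refine ⟨g * c, h9, ?_⟩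
    have hcx : x * c = c * x := Subgroup.mem_centralizer_iff.mp c.2 x (Set.mem_singleton x)
    calc g * c * x * (g * c)⁻¹ = g * (c * x) * (c : G)⁻¹ * g⁻¹ := by simp [mul_assoc]
      _ = g * (x * c) * (c : G)⁻¹ * g⁻¹ := by rw [hcx]
      _ = g * x * g⁻¹ := by simp [mul_assoc]

end Cfsg.Agent.S5438
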