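import Cfsg.Statements.S5439
import Cfsg.Agent.Lib.Helper90.Coset
import Cfsg.Agent.Lib.Helper90.Dihedral

set_option autoImplicit false
open Cfsg

namespace Cfsg.Agent.S5439

/-- Let I and J be two different conjugacy classes of involutions of the finite group G and H a subgroup such that every member of I ∪ J fixes exactly one coset in the action on the cosets of H, and such that for every a in I ∩ H and every b in (I ∪ J) ∩ H different from a and commuting with it, the centralizer of a b lies in H. Then H = G. -/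
theorem result {G : Type*} [Group G] [Finite G] (I J : Set G) (a₀ b₀ : G) (ha₀ : orderOf a₀ = 2) (hb₀ : orderOf b₀ = 2) (hI : I = {x | IsConj a₀ x}) (hJ : J = {x | IsConj b₀ x}) (hIJ : I ≠ J) (H : Subgroup G) (hfix : ∀ x ∈ I ∪ J, ∃! c : G ⧸ H, x • c = c) (hcent : ∀ a ∈ I, a ∈ H → ∀ b ∈ I ∪ J, b ∈ H → a ≠ b → a * b = b * a → Subgroup.centralizer ({a * b} : Set G) ≤ H) : H = ⊤ := by
  subst hI hJ
  have ha0 : a₀ * a₀ = 1 := Lib.Helper90.Dihedral.mul_self_of_orderOf_two ha₀
  have hb0 : b₀ * b₀ = 1 := Lib.Helper90.Dihedral.mul_self_of_orderOf_two hb₀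
  have hIsq : ∀ a, IsConj a₀ a → a * a = 1 := by
    intro a h
    obtain ⟨c, rfl⟩ := isConj_iff.mp h
    exact Lib.Helper90.Dihedral.conj_mul_self ha0 c
  have hJsq : ∀ b, IsConj b₀ b → b * b = 1 := by
    intro b h
    obtain ⟨c, rfl⟩ := isConj_iff.mp h
    exact Lib.Helper90.Dihedral.conj_mul_self hb0 c
  have hIconj : ∀ a, IsConj a₀ a → ∀ g : G, IsConj a₀ (g * a * g⁻¹) :=
    fun a h g => h.trans (isConj_iff.mpr ⟨g, rfl⟩)
  have hJconj : ∀ b, IsConj b₀ b → ∀ g : G, IsConj b₀ (g * b * g⁻¹) :=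
    fun b h g => h.trans (isConj_iff.mpr ⟨g, rfl⟩)
  have hnc : ∀ a b, IsConj a₀ a → IsConj b₀ b → ¬ IsConj a b := by
    intro a b ha hb hab
    apply hIJ
    have h0 : IsConj a₀ b₀ := (ha.trans hab).trans hb.symm
    ext x
    simp only [Set.mem_setOf_eq]
    exact ⟨fun h => h0.symm.trans h, fun h => h0.trans h⟩
  -- main claim
  have claim : ∀ a, IsConj a₀ a → a ∈ H → ∀ b, IsConj b₀ b → b ∈ H := by
    intro a haI haH b hbJ
    have ha2 := hIsq a haI
    have hb2 := hJsq b hbJ
    have hfa : ∃! c : G ⧸ H, a • c = c := hfix a (Or.inl haI)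
    have hcomm : ∀ y, a * y = y * a → y ∈ H := by
      intro y hy
      apply Lib.Helper90.Coset.mem_of_conj_mem_of_unique H a haH hfa y
      have : y⁻¹ * a * y = a := by rw [mul_assoc, hy]; simp
      rw [this]; exact haH
    obtain ⟨n, hn | hn⟩ := Nat.even_or_odd' (orderOf (a * b))
    · -- even order
      have hpos : 0 < orderOf (a * b) := orderOf_pos (a * b)
      have hn0 : 0 < n := by omega
      have hu2 : (a * b) ^ n * (a * b) ^ n = 1 := by
        rw [← pow_add, ← two_mul, ← hn]; exact pow_orderOf_eq_one (a * b)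
      have hu1 : (a * b) ^ n ≠ 1 := by
        intro h
        have h1 := orderOf_dvd_of_pow_eq_one h
        rw [hn] at h1
        have := Nat.le_of_dvd hn0 h1
        omega
      have hau : a * (a * b) ^ n = (a * b) ^ n * a :=
        Lib.Helper90.Dihedral.comm_of_conj_inv_of_mul_self
          (Lib.Helper90.Dihedral.conj_pow_eq_inv (Lib.Helper90.Dihedral.conj_mul_eq_inv ha2 hb2) n) hu2
      have hbu : b * (a * b) ^ n = (a * b) ^ n * b :=
        Lib.Helper90.Dihedral.comm_of_conj_inv_of_mul_self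
          (Lib.Helper90.Dihedral.conj_pow_eq_inv (Lib.Helper90.Dihedral.conj_mul_eq_inv' ha2 hb2) n) hu2
      have key : ∃ y, (IsConj a₀ y ∨ IsConj b₀ y) ∧ a * y = (a * b) ^ n := by
        obtain ⟨k, hk | hk⟩ := Nat.even_or_odd' n
        · refine ⟨((a * b) ^ k)⁻¹ * a * (a * b) ^ k, Or.inl ?_, ?_⟩
          · have := hIconj a haI ((a * b) ^ k)⁻¹
            simpa using this
          · rw [hk]; exact Lib.Helper90.Dihedral.mul_conj_even ha2 hb2 k
        · refine ⟨((a * b) ^ k)⁻¹ * b * (a * b) ^ k, Or.inr ?_, ?_⟩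
          · have := hJconj b hbJ ((a * b) ^ k)⁻¹
            simpa using this
          · rw [hk]; exact Lib.Helper90.Dihedral.mul_conj_odd ha2 hb2 k
      obtain ⟨y, hy, hay⟩ := key
      have hya : a * y = y * a := by
        have hy' : y = a * (a * b) ^ n := by
          rw [← hay, ← mul_assoc, ha2, one_mul]
        rw [hay, hy', mul_assoc, ← hau, ← mul_assoc, ha2, one_mul]
      have hyH : y ∈ H := hcomm y hya
      have hne : a ≠ y := by
        intro h
        apply hu1
        rw [← hay, ← h, ha2]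
      have hC := hcent a haI haH y hy hyH hne hya
      rw [hay] at hC
      apply hC
      rw [Subgroup.mem_centralizer_iff]
      intro h hh
      rw [Set.mem_singleton_iff] at hh
      rw [hh]
      exact hbu.symm
    · -- odd order: a and b would be conjugate
      exfalso
      apply hnc a b haI hbJ
      have h1 : (a * b) ^ (2 * n + 1) = 1 := by rw [← hn]; exact pow_orderOf_eq_one (a * b)
      have h2 := Lib.Helper90.Dihedral.conj_of_pow_odd_eq_one ha2 hb2 n h1
      refine (isConj_iff.mpr ⟨((a * b) ^ n)⁻¹, ?_⟩).symm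
      simpa using h2
  obtain ⟨g₀, hg₀⟩ := Lib.Helper90.Coset.exists_conj_mem_of_unique H a₀ (hfix a₀ (Or.inl (IsConj.refl _)))
  have ha1 : IsConj a₀ (g₀⁻¹ * a₀ * g₀) := by
    have := hIconj a₀ (IsConj.refl _) g₀⁻¹
    simpa using this
  have hJH : ∀ b, IsConj b₀ b → b ∈ H := claim _ ha1 hg₀
  rw [eq_top_iff]
  intro g _
  apply Lib.Helper90.Coset.mem_of_conj_mem_of_unique H b₀ (hJH b₀ (IsConj.refl _))
    (hfix b₀ (Or.inr (IsConj.refl _))) g
  apply hJH
  exact isConj_iff.mpr ⟨g⁻¹, by simp⟩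

end Cfsg.Agent.S5439
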