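import Cfsg.Statements.S5459
-- import your own Cfsg.Agent.* helpers here

set_option autoImplicit false
open Cfsg

namespace Cfsg.Agent.S5459

/-- conjugation by `g` maps reachable pairs of the commuting graph on a class to reachable pairs -/
theorem reach_conj {G : Type*} [Group G] (d : G) (g : G) (a b : conjugatesOf d)
    (h : (Cfsg.commutingGraph (conjugatesOf d)).Reachable a b) :
    ∀ (ha : g * (a : G) * g⁻¹ ∈ conjugatesOf d) (hb : g * (b : G) * g⁻¹ ∈ conjugatesOf d),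
      (Cfsg.commutingGraph (conjugatesOf d)).Reachable ⟨g * (a : G) * g⁻¹, ha⟩ ⟨g * (b : G) * g⁻¹, hb⟩ := by
  intro ha hb
  have hmem : ∀ x : conjugatesOf d, g * (x : G) * g⁻¹ ∈ conjugatesOf d := by
    intro x
    have hx : IsConj d (x : G) := x.2
    exact hx.trans (isConj_iff.mpr ⟨g, rfl⟩)
  let f : Cfsg.commutingGraph (conjugatesOf d) →g Cfsg.commutingGraph (conjugatesOf d) :=
    { toFun := fun x => ⟨g * (x : G) * g⁻¹, hmem x⟩
      map_rel' := by
        intro x y hxy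
        simp only [Cfsg.commutingGraph, SimpleGraph.fromRel_adj] at hxy ⊢
        refine ⟨?_, ?_⟩
        · intro heq
          apply hxy.1
          have := congrArg Subtype.val heq
          simp only at this
          apply Subtype.ext
          have h2 : g⁻¹ * (g * (x : G) * g⁻¹) * g = g⁻¹ * (g * (y : G) * g⁻¹) * g := by rw [this]
          simpa [mul_assoc] using h2
        · rcases hxy.2 with h | h
          · left
            show (g * (x : G) * g⁻¹) * (g * (y : G) * g⁻¹) = (g * (y : G) * g⁻¹) * (g * (x : G) * g⁻¹)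
            have h' : (x : G) * (y : G) = (y : G) * (x : G) := h
            calc (g * (x : G) * g⁻¹) * (g * (y : G) * g⁻¹) = g * ((x : G) * (y : G)) * g⁻¹ := by group
              _ = g * ((y : G) * (x : G)) * g⁻¹ := by rw [h']
              _ = _ := by group
          · right
            show (g * (y : G) * g⁻¹) * (g * (x : G) * g⁻¹) = (g * (x : G) * g⁻¹) * (g * (y : G) * g⁻¹)
            have h' : (y : G) * (x : G) = (x : G) * (y : G) := h
            calc (g * (y : G) * g⁻¹) * (g * (x : G) * g⁻¹) = g * ((y : G) * (x : G)) * g⁻¹ := by group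
              _ = g * ((x : G) * (y : G)) * g⁻¹ := by rw [h']
              _ = _ := by group }
  exact h.map f

theorem result {G : Type*} [Group G] [Finite G] (L : Subgroup G) [L.Normal] (hL : Cfsg.IsQuasisimple ↥L) (d : G) (hd : orderOf d = 2) (hgen : L ⊔ Subgroup.zpowers d = ⊤) (hodd : Odd (Nat.card ↥(Subgroup.center ↥L))) (hinv : ∀ c ∈ (Subgroup.center ↥L).map L.subtype, d * c * d⁻¹ = c⁻¹) [hn : ((Subgroup.center ↥L).map L.subtype).Normal] (hconn : (Cfsg.commutingGraph (conjugatesOf (QuotientGroup.mk d : G ⧸ (Subgroup.center ↥L).map L.subtype))).Connected) : (Cfsg.commutingGraph (conjugatesOf d)).Connected := by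
  classical
  set Z : Subgroup G := (Subgroup.center ↥L).map L.subtype with hZ
  have hZL : Z ≤ L := by
    rintro _ ⟨x, -, rfl⟩
    exact x.2
  have hZcomm : ∀ z ∈ Z, ∀ l ∈ L, z * l = l * z := by
    rintro _ ⟨x, hx, rfl⟩ l hl
    have h1 := Subgroup.mem_center_iff.mp hx ⟨l, hl⟩
    have h2 := congrArg Subtype.val h1
    simpa using h2.symm
  have hcard : Nat.card Z = Nat.card (Subgroup.center ↥L) :=
    Nat.card_congr ((Subgroup.center ↥L).equivMapOfInjective L.subtype L.subtype_injective).symm.toEquiv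
  have hoddZ : Odd (Nat.card Z) := hcard ▸ hodd
  have hsqrt : ∀ z ∈ Z, ∃ w ∈ Z, w ^ 2 = z := by
    intro z hz
    obtain ⟨k, hk⟩ := hoddZ
    refine ⟨z ^ (k + 1), Z.pow_mem hz _, ?_⟩
    have h1 : z ^ Nat.card Z = 1 := by
      have h0 := pow_card_eq_one' (G := Z) (x := ⟨z, hz⟩)
      have h0' := congrArg Subtype.val h0
      rw [Subgroup.coe_pow] at h0'
      exact h0'
    rw [← pow_mul]
    have h2 : (k + 1) * 2 = Nat.card Z + 1 := by omega
    rw [h2, pow_succ, h1, one_mul]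
  have hdd : d * d = 1 := by
    have h0 := pow_orderOf_eq_one d
    rw [hd, pow_two] at h0
    exact h0
  have hD : ∀ a ∈ conjugatesOf d, a * a = 1 ∧ ∀ c ∈ Z, a * c * a⁻¹ = c⁻¹ := by
    intro a ha
    obtain ⟨g, rfl⟩ := isConj_iff.mp ha
    refine ⟨?_, ?_⟩
    · rw [show g * d * g⁻¹ * (g * d * g⁻¹) = g * (d * d) * g⁻¹ by group, hdd]
      group
    · intro c hc
      have hc' : g⁻¹ * c * g ∈ Z := by
        have h0 := hn.conj_mem c hc g⁻¹
        simpa using h0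
      have h1 := hinv _ hc'
      calc g * d * g⁻¹ * c * (g * d * g⁻¹)⁻¹ = g * (d * (g⁻¹ * c * g) * d⁻¹) * g⁻¹ := by group
        _ = g * (g⁻¹ * c * g)⁻¹ * g⁻¹ := by rw [h1]
        _ = c⁻¹ := by group
  have hainv : ∀ a ∈ conjugatesOf d, a⁻¹ = a := fun a ha => inv_eq_of_mul_eq_one_left (hD a ha).1
  have hF4 : ∀ a ∈ conjugatesOf d, ∀ z ∈ Z, ∃ w ∈ Z, w * a * w⁻¹ = a * z := by
    intro a ha z hz
    obtain ⟨w, hw, hw2⟩ := hsqrt z⁻¹ (Z.inv_mem hz)
    refine ⟨w, hw, ?_⟩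
    have h3 := (hD a ha).2 w⁻¹ (Z.inv_mem hw)
    rw [inv_inv] at h3
    have h2 : w * a = a * w⁻¹ := by
      calc w * a = (a * w⁻¹ * a⁻¹) * a := by rw [h3]
        _ = a * w⁻¹ := by group
    calc w * a * w⁻¹ = a * w⁻¹ * w⁻¹ := by rw [h2]
      _ = a * (w ^ 2)⁻¹ := by group
      _ = a * z := by rw [hw2, inv_inv]
  have hdD : d ∈ conjugatesOf d := mem_conjugatesOf_self
  have hconjmem : ∀ (g : G) (a : G), a ∈ conjugatesOf d → g * a * g⁻¹ ∈ conjugatesOf d := by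
    intro g a ha
    exact (ha : IsConj d a).trans (isConj_iff.mpr ⟨g, rfl⟩)
  let N : Subgroup G :=
    { carrier := {g | (Cfsg.commutingGraph (conjugatesOf d)).Reachable ⟨d, hdD⟩ ⟨g * d * g⁻¹, hconjmem g d hdD⟩}
      one_mem' := by
        show (Cfsg.commutingGraph (conjugatesOf d)).Reachable ⟨d, hdD⟩ ⟨1 * d * 1⁻¹, hconjmem 1 d hdD⟩
        have h0 : (⟨1 * d * 1⁻¹, hconjmem 1 d hdD⟩ : conjugatesOf d) = ⟨d, hdD⟩ := Subtype.ext (by simp)
        rw [h0]
      mul_mem' := by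
        intro g h hg hh
        have h1 := reach_conj d g ⟨d, hdD⟩ ⟨h * d * h⁻¹, hconjmem h d hdD⟩ hh (hconjmem g d hdD)
          (hconjmem g _ (hconjmem h d hdD))
        have h0 : (⟨g * (h * d * h⁻¹) * g⁻¹, hconjmem g _ (hconjmem h d hdD)⟩ : conjugatesOf d)
            = ⟨g * h * d * (g * h)⁻¹, hconjmem (g * h) d hdD⟩ := Subtype.ext (by group)
        rw [h0] at h1
        exact SimpleGraph.Reachable.trans hg h1
      inv_mem' := by
        intro g hg
        have h1 := reach_conj d g⁻¹ ⟨d, hdD⟩ ⟨g * d * g⁻¹, hconjmem g d hdD⟩ hg (hconjmem g⁻¹ d hdD)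
          (hconjmem g⁻¹ _ (hconjmem g d hdD))
        have h0 : (⟨g⁻¹ * (g * d * g⁻¹) * g⁻¹⁻¹, hconjmem g⁻¹ _ (hconjmem g d hdD)⟩ : conjugatesOf d)
            = ⟨d, hdD⟩ := Subtype.ext (by group)
        rw [h0] at h1
        exact h1.symm }
  have hNmem : ∀ g : G, g ∈ N ↔ (Cfsg.commutingGraph (conjugatesOf d)).Reachable ⟨d, hdD⟩ ⟨g * d * g⁻¹, hconjmem g d hdD⟩ :=
    fun g => Iff.rfl
  -- path lifting
  have hlift : ∀ x : conjugatesOf (QuotientGroup.mk d : G ⧸ Z),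
      (Cfsg.commutingGraph (conjugatesOf (QuotientGroup.mk d : G ⧸ Z))).Reachable ⟨QuotientGroup.mk d, mem_conjugatesOf_self⟩ x →
      ∃ a : conjugatesOf d, (QuotientGroup.mk (a : G) : G ⧸ Z) = (x : G ⧸ Z) ∧
        (Cfsg.commutingGraph (conjugatesOf d)).Reachable ⟨d, hdD⟩ a := by
    intro x hx
    rw [SimpleGraph.reachable_iff_reflTransGen] at hx
    induction hx with
    | refl => exact ⟨⟨d, hdD⟩, rfl, SimpleGraph.Reachable.refl _⟩
    | @tail y y' hxy hadj ih =>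
      obtain ⟨a, ha, hreach⟩ := ih
      simp only [Cfsg.commutingGraph, SimpleGraph.fromRel_adj] at hadj
      obtain ⟨hne, hcomm⟩ := hadj
      have hcomm' : Commute (y : G ⧸ Z) (y' : G ⧸ Z) := by
        rcases hcomm with h | h
        · exact h
        · exact h.symm
      obtain ⟨gbar, hg⟩ := isConj_iff.mp (y'.2 : IsConj _ _)
      obtain ⟨g, rfl⟩ := QuotientGroup.mk_surjective gbar
      set b : G := g * d * g⁻¹ with hb
      have hbD : b ∈ conjugatesOf d := hconjmem g d hdD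
      have hby' : (QuotientGroup.mk b : G ⧸ Z) = (y' : G ⧸ Z) := by
        rw [← hg, hb]
        simp
      have haD : (a : G) ∈ conjugatesOf d := a.2
      -- z = a b a⁻¹ b⁻¹ ∈ Z
      have hz : (a : G) * b * (a : G)⁻¹ * b⁻¹ ∈ Z := by
        rw [← QuotientGroup.eq_one_iff]
        have h1 : (QuotientGroup.mk (a : G) : G ⧸ Z) * QuotientGroup.mk b = QuotientGroup.mk b * QuotientGroup.mk (a : G) := by
          rw [ha, hby']
          exact hcomm'
        simp only [QuotientGroup.mk_mul, QuotientGroup.mk_inv]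
        rw [h1]
        group
      obtain ⟨z', hz', hz'2⟩ := hsqrt _ (Z.inv_mem hz)
      obtain ⟨w, hw, hwb⟩ := hF4 b hbD z' hz'
      have hb'D : b * z' ∈ conjugatesOf d := by
        rw [← hwb]
        exact hconjmem w b hbD
      have hb'y' : (QuotientGroup.mk (b * z') : G ⧸ Z) = (y' : G ⧸ Z) := by
        rw [QuotientGroup.mk_mul, (QuotientGroup.eq_one_iff z').mpr hz', mul_one, hby']
      refine ⟨⟨b * z', hb'D⟩, hb'y', hreach.trans (SimpleGraph.Adj.reachable ?_)⟩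
      simp only [Cfsg.commutingGraph, SimpleGraph.fromRel_adj]
      refine ⟨?_, Or.inl ?_⟩
      · intro heq
        apply hne
        apply Subtype.ext
        rw [← ha, ← hb'y']
        have := congrArg Subtype.val heq
        simp only at this
        rw [this]
      · show (a : G) * (b * z') = (b * z') * (a : G)
        -- a b z' a⁻¹ = (a b a⁻¹) (a z' a⁻¹) = (z b) z'⁻¹ where z = a b a⁻¹ b⁻¹
        have h1 := (hD (a : G) haD).2 z' hz'
        have h2 := (hD b hbD).2 _ hz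
        have h3 : z' * z' = ((a : G) * b * (a : G)⁻¹ * b⁻¹)⁻¹ := by rw [← hz'2, pow_two]
        have h4 : (a : G) * (b * z') * (a : G)⁻¹ = b * z' := by
          calc (a : G) * (b * z') * (a : G)⁻¹
              = ((a : G) * b * (a : G)⁻¹ * b⁻¹) * b * ((a : G) * z' * (a : G)⁻¹) := by group
            _ = b * (b⁻¹ * ((a : G) * b * (a : G)⁻¹ * b⁻¹) * b) * z'⁻¹ := by rw [h1]; group
            _ = b * (b * ((a : G) * b * (a : G)⁻¹ * b⁻¹) * b⁻¹) * z'⁻¹ := by
                rw [hainv b hbD]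
            _ = b * ((a : G) * b * (a : G)⁻¹ * b⁻¹)⁻¹ * z'⁻¹ := by rw [h2]
            _ = b * (z' * z') * z'⁻¹ := by rw [h3]
            _ = b * z' := by group
        calc (a : G) * (b * z') = ((a : G) * (b * z') * (a : G)⁻¹) * (a : G) := by group
          _ = (b * z') * (a : G) := by rw [h4]
  -- G = Z N
  have hZN : ∀ g : G, ∃ w ∈ Z, ∃ n ∈ N, g = w * n := by
    intro g
    have hx := hconn.preconnected ⟨QuotientGroup.mk d, mem_conjugatesOf_self⟩
      ⟨QuotientGroup.mk (g * d * g⁻¹), by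
        rw [QuotientGroup.mk_mul, QuotientGroup.mk_mul, QuotientGroup.mk_inv]
        exact isConj_iff.mpr ⟨QuotientGroup.mk g, rfl⟩⟩
    obtain ⟨a, ha, hreach⟩ := hlift _ hx
    simp only at ha
    have haD : (a : G) ∈ conjugatesOf d := a.2
    have hz : (a : G)⁻¹ * (g * d * g⁻¹) ∈ Z := QuotientGroup.eq.mp ha
    obtain ⟨w, hw, hwa⟩ := hF4 (a : G) haD _ hz
    obtain ⟨h, hh⟩ := isConj_iff.mp (haD : IsConj d (a : G))
    have hhN : h ∈ N := by
      rw [hNmem]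
      have h0 : (⟨h * d * h⁻¹, hconjmem h d hdD⟩ : conjugatesOf d) = a := Subtype.ext hh
      rw [h0]
      exact hreach
    have hc : ((w * h)⁻¹ * g) * d * ((w * h)⁻¹ * g)⁻¹ = d := by
      have h1 : g * d * g⁻¹ = w * (h * d * h⁻¹) * w⁻¹ := by
        rw [hh, hwa]
        group
      calc ((w * h)⁻¹ * g) * d * ((w * h)⁻¹ * g)⁻¹ = (w * h)⁻¹ * (g * d * g⁻¹) * (w * h) := by group
        _ = (w * h)⁻¹ * (w * (h * d * h⁻¹) * w⁻¹) * (w * h) := by rw [h1]
        _ = d := by group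
    have hcN : (w * h)⁻¹ * g ∈ N := by
      rw [hNmem]
      have h0 : (⟨((w * h)⁻¹ * g) * d * ((w * h)⁻¹ * g)⁻¹, hconjmem _ d hdD⟩ : conjugatesOf d) = ⟨d, hdD⟩ :=
        Subtype.ext hc
      rw [h0]
    refine ⟨w, hw, h * ((w * h)⁻¹ * g), N.mul_mem hhN hcN, by group⟩
  -- L ≤ N
  have hLN : L ≤ N := by
    have hperf : commutator ↥L = ⊤ := hL.1.commutator_eq_top
    have hle : commutator ↥L ≤ N.subgroupOf L := by
      rw [commutator_def, Subgroup.commutator_le]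
      intro l₁ _ l₂ _
      rw [Subgroup.mem_subgroupOf]
      obtain ⟨w₁, hw₁, n₁, hn₁, e₁⟩ := hZN (l₁ : G)
      obtain ⟨w₂, hw₂, n₂, hn₂, e₂⟩ := hZN (l₂ : G)
      have hn₁L : n₁ ∈ L := by
        have : n₁ = w₁⁻¹ * (l₁ : G) := by rw [e₁]; group
        rw [this]
        exact L.mul_mem (L.inv_mem (hZL hw₁)) l₁.2
      have hn₂L : n₂ ∈ L := by
        have : n₂ = w₂⁻¹ * (l₂ : G) := by rw [e₂]; group
        rw [this]
        exact L.mul_mem (L.inv_mem (hZL hw₂)) l₂.2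
      rw [commutatorElement_def]
      have hcomm : ((l₁ * l₂ * l₁⁻¹ * l₂⁻¹ : ↥L) : G) = n₁ * n₂ * n₁⁻¹ * n₂⁻¹ := by
        push_cast
        rw [e₁, e₂]
        have c1 := hZcomm w₁ hw₁
        have c2 := hZcomm w₂ hw₂
        have a1 : w₁ * n₁ * (w₂ * n₂) * (w₁ * n₁)⁻¹ * (w₂ * n₂)⁻¹
            = w₁ * (n₁ * w₂) * (n₂ * n₁⁻¹) * w₁⁻¹ * (n₂⁻¹ * w₂⁻¹) := by group
        rw [a1, ← c2 n₁ hn₁L]
        have a2 : w₁ * (w₂ * n₁) * (n₂ * n₁⁻¹) * w₁⁻¹ * (n₂⁻¹ * w₂⁻¹)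
            = w₁ * (w₂ * (n₁ * n₂ * n₁⁻¹)) * w₁⁻¹ * (n₂⁻¹ * w₂⁻¹) := by group
        rw [a2, c2 _ (L.mul_mem (L.mul_mem hn₁L hn₂L) (L.inv_mem hn₁L))]
        have a3 : w₁ * (n₁ * n₂ * n₁⁻¹ * w₂) * w₁⁻¹ * (n₂⁻¹ * w₂⁻¹)
            = w₁ * (n₁ * n₂ * n₁⁻¹) * (w₂ * w₁⁻¹) * (n₂⁻¹ * w₂⁻¹) := by group
        rw [a3, c1 _ (L.mul_mem (L.mul_mem hn₁L hn₂L) (L.inv_mem hn₁L))]
        have a4 : n₁ * n₂ * n₁⁻¹ * w₁ * (w₂ * w₁⁻¹) * (n₂⁻¹ * w₂⁻¹)
            = n₁ * n₂ * n₁⁻¹ * (w₁ * w₂ * w₁⁻¹ * n₂⁻¹) * w₂⁻¹ := by group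
        rw [a4, c1 w₂ (hZL hw₂)]
        have a5 : n₁ * n₂ * n₁⁻¹ * (w₂ * w₁ * w₁⁻¹ * n₂⁻¹) * w₂⁻¹
            = n₁ * n₂ * n₁⁻¹ * (w₂ * n₂⁻¹) * w₂⁻¹ := by group
        rw [a5, c2 _ (L.inv_mem hn₂L)]
        group
      rw [hcomm]
      exact N.mul_mem (N.mul_mem (N.mul_mem hn₁ hn₂) (N.inv_mem hn₁)) (N.inv_mem hn₂)
    rw [hperf] at hle
    intro l hl
    have := hle (Subgroup.mem_top (⟨l, hl⟩ : ↥L))
    rwa [Subgroup.mem_subgroupOf] at this
  have hdN : d ∈ N := by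
    rw [hNmem]
    have h0 : (⟨d * d * d⁻¹, hconjmem d d hdD⟩ : conjugatesOf d) = ⟨d, hdD⟩ := Subtype.ext (by group)
    rw [h0]
  have hNtop : N = ⊤ := by
    rw [eq_top_iff, ← hgen]
    exact sup_le hLN ((Subgroup.zpowers_le).mpr hdN)
  have hall : ∀ a : conjugatesOf d, (Cfsg.commutingGraph (conjugatesOf d)).Reachable ⟨d, hdD⟩ a := by
    intro a
    obtain ⟨g, hg⟩ := isConj_iff.mp (a.2 : IsConj d (a : G))
    have hgN : g ∈ N := hNtop ▸ Subgroup.mem_top g
    rw [hNmem] at hgN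
    have h0 : (⟨g * d * g⁻¹, hconjmem g d hdD⟩ : conjugatesOf d) = a := Subtype.ext hg
    rw [h0] at hgN
    exact hgN
  have : Nonempty (conjugatesOf d) := ⟨⟨d, hdD⟩⟩
  exact ⟨fun a b => (hall a).symm.trans (hall b)⟩

end Cfsg.Agent.S5459
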