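import Cfsg.Statements.S5541

set_option autoImplicit false
open Cfsg

namespace Cfsg.Agent.S5541

theorem rho_inv {H : Type*} [Group H] {U : Type*} [AddCommGroup U] [Module ℝ U]
    (ρ : Representation ℝ H U) (g : H) (v : U) : ρ g (ρ g⁻¹ v) = v := by
  have : ρ g (ρ g⁻¹ v) = (ρ g * ρ g⁻¹) v := rfl
  rw [this, ← map_mul, mul_inv_cancel, map_one]
  rfl

theorem sepLeft {H : Type*} [Group H] {U : Type*} [AddCommGroup U] [Module ℝ U]
    (ρ : Representation ℝ H U)
    (hirr : ∀ W : Submodule ℝ U, (∀ g : H, W.map (ρ g) ≤ W) → W = ⊥ ∨ W = ⊤)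
    (B : LinearMap.BilinForm ℝ U) (hB0 : B ≠ 0)
    (hBi : ∀ (g : H) (u v : U), B (ρ g u) (ρ g v) = B u v) : B.SeparatingLeft := by
  have hW : ∀ g : H, (LinearMap.ker B).map (ρ g) ≤ LinearMap.ker B := by
    intro g x hx
    obtain ⟨w, hw, rfl⟩ := Submodule.mem_map.mp hx
    have hw' : B w = 0 := LinearMap.mem_ker.mp hw
    rw [LinearMap.mem_ker]
    apply LinearMap.ext
    intro v
    have h1 : B (ρ g w) (ρ g (ρ g⁻¹ v)) = B w (ρ g⁻¹ v) := hBi g w (ρ g⁻¹ v)
    rw [rho_inv, hw'] at h1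
    rw [h1]
    rfl
  rcases hirr _ hW with h | h
  · exact LinearMap.separatingLeft_iff_ker_eq_bot.mpr h
  · exfalso
    apply hB0
    apply LinearMap.ext
    intro u
    have : u ∈ LinearMap.ker B := by rw [h]; trivial
    rw [LinearMap.mem_ker] at this
    rw [this]
    rfl

/-- For an irreducible real representation with an invariant symmetric form: a unique-up-to-scalar equivariant product exists and is commutative iff a unique-up-to-scalar invariant trilinear form exists and is symmetric. -/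
theorem result {H : Type*} [Group H] {U : Type*} [AddCommGroup U] [Module ℝ U] [FiniteDimensional ℝ U] (ρ : Representation ℝ H U) (hirr : ∀ W : Submodule ℝ U, (∀ g : H, W.map (ρ g) ≤ W) → W = ⊥ ∨ W = ⊤) (B : LinearMap.BilinForm ℝ U) (hB0 : B ≠ 0) (hBs : ∀ u v, B u v = B v u) (hBi : ∀ (g : H) (u v : U), B (ρ g u) (ρ g v) = B u v) : (∃ m : U →ₗ[ℝ] U →ₗ[ℝ] U, m ≠ 0 ∧ (∀ u v, m u v = m v u) ∧ (∀ (g : H) (u v : U), m (ρ g u) (ρ g v) = ρ g (m u v)) ∧ ∀ m' : U →ₗ[ℝ] U →ₗ[ℝ] U, (∀ (g : H) (u v : U), m' (ρ g u) (ρ g v) = ρ g (m' u v)) → ∃ c : ℝ, m' = c • m) ↔ (∃ t : U →ₗ[ℝ] U →ₗ[ℝ] U →ₗ[ℝ] ℝ, t ≠ 0 ∧ (∀ u v w, t u v w = t v u w ∧ t u v w = t u w v) ∧ (∀ (g : H) (u v w : U), t (ρ g u) (ρ g v) (ρ g w) = t u v w) ∧ ∀ t' : U →ₗ[ℝ] U →ₗ[ℝ] U →ₗ[ℝ] ℝ, (∀ (g : H) (u v w : U), t' (ρ g u) (ρ g v) (ρ g w) = t' u v w) → ∃ c : ℝ, t' = c • t) := by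
  have hsep : B.SeparatingLeft := sepLeft ρ hirr B hB0 hBi
  have hnd : B.Nondegenerate :=
    ⟨hsep, fun y hy => hsep y (fun x => by rw [hBs]; exact hy x)⟩
  have hinj : ∀ x y : U, (∀ w, B x w = B y w) → x = y := by
    intro x y h
    have := hsep (x - y) (fun w => by rw [map_sub, LinearMap.sub_apply, h w, sub_self])
    exact sub_eq_zero.mp this
  have hinv : ∀ (g : H) (v : U), ρ g (ρ g⁻¹ v) = v := rho_inv ρ
  have toT_equiv : ∀ m : U →ₗ[ℝ] U →ₗ[ℝ] U,
      (∀ (g : H) (u v : U), m (ρ g u) (ρ g v) = ρ g (m u v)) →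
      ∀ (g : H) (u v w : U), (m.compr₂ B) (ρ g u) (ρ g v) (ρ g w) = (m.compr₂ B) u v w := by
    intro m hm g u v w
    simp only [LinearMap.compr₂_apply]
    rw [hm, hBi]
  have toM_spec : ∀ (t : U →ₗ[ℝ] U →ₗ[ℝ] U →ₗ[ℝ] ℝ) (u v w : U),
      B ((t.compr₂ (B.toDual hnd).symm.toLinearMap) u v) w = t u v w := by
    intro t u v w
    simp only [LinearMap.compr₂_apply, LinearEquiv.coe_coe]
    exact LinearMap.BilinForm.apply_toDual_symm_apply _ _
  have toM_equiv : ∀ t : U →ₗ[ℝ] U →ₗ[ℝ] U →ₗ[ℝ] ℝ,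
      (∀ (g : H) (u v w : U), t (ρ g u) (ρ g v) (ρ g w) = t u v w) →
      ∀ (g : H) (u v : U), (t.compr₂ (B.toDual hnd).symm.toLinearMap) (ρ g u) (ρ g v)
        = ρ g ((t.compr₂ (B.toDual hnd).symm.toLinearMap) u v) := by
    intro t ht g u v
    apply hinj
    intro w
    rw [toM_spec]
    have h1 : t (ρ g u) (ρ g v) w = t u v (ρ g⁻¹ w) := by
      conv_lhs => rw [← hinv g w]
      exact ht g u v _
    rw [h1]
    conv_rhs => rw [← hinv g w]
    rw [hBi, toM_spec]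
  constructor
  · rintro ⟨m, hm0, hmc, hme, hmu⟩
    obtain ⟨t, ht⟩ : ∃ t : U →ₗ[ℝ] U →ₗ[ℝ] U →ₗ[ℝ] ℝ, t = m.compr₂ B := ⟨_, rfl⟩
    have ht_apply : ∀ u v w, t u v w = B (m u v) w := by
      intro u v w; rw [ht]; rfl
    have ht0 : t ≠ 0 := by
      intro h
      apply hm0
      apply LinearMap.ext; intro u
      apply LinearMap.ext; intro v
      apply hinj
      intro w
      rw [← ht_apply, h]
      simp
    have hte : ∀ (g : H) (u v w : U), t (ρ g u) (ρ g v) (ρ g w) = t u v w := by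
      rw [ht]; exact toT_equiv m hme
    have htu : ∀ t' : U →ₗ[ℝ] U →ₗ[ℝ] U →ₗ[ℝ] ℝ,
        (∀ (g : H) (u v w : U), t' (ρ g u) (ρ g v) (ρ g w) = t' u v w) → ∃ c : ℝ, t' = c • t := by
      intro t' ht'
      obtain ⟨c, hc⟩ := hmu _ (toM_equiv t' ht')
      refine ⟨c, ?_⟩
      apply LinearMap.ext; intro u
      apply LinearMap.ext; intro v
      apply LinearMap.ext; intro w
      rw [← toM_spec t' u v w, hc]
      simp [ht_apply]
    refine ⟨t, ht0, ?_, hte, htu⟩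
    have hs1 : ∀ u v w, t u v w = t v u w := by
      intro u v w; rw [ht_apply, ht_apply, hmc]
    obtain ⟨c, hc⟩ := htu ((LinearMap.lflip (R₀ := ℝ) : (U →ₗ[ℝ] U →ₗ[ℝ] ℝ) ≃ₗ[ℝ] (U →ₗ[ℝ] U →ₗ[ℝ] ℝ)).toLinearMap ∘ₗ t)
      (by
        intro g u v w
        simp only [LinearMap.comp_apply, LinearEquiv.coe_coe, LinearMap.lflip_apply]
        exact hte g u w v)
    have hc' : ∀ u v w, t u w v = c * t u v w := by
      intro u v w
      have := congrArg (fun f : U →ₗ[ℝ] U →ₗ[ℝ] U →ₗ[ℝ] ℝ => f u v w) hc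
      simpa using this
    have hex : ∃ u v w, t u v w ≠ 0 := by
      by_contra h
      apply ht0
      apply LinearMap.ext; intro u
      apply LinearMap.ext; intro v
      apply LinearMap.ext; intro w
      by_contra h'
      exact h ⟨u, v, w, h'⟩
    obtain ⟨u₀, v₀, w₀, h0⟩ := hex
    have hcc : c * c = 1 := by
      have h1 := hc' u₀ v₀ w₀
      have h2 := hc' u₀ w₀ v₀
      rw [h1] at h2
      have : (c * c - 1) * t u₀ v₀ w₀ = 0 := by linarith
      rcases mul_eq_zero.mp this with h | h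
      · linarith
      · exact absurd h h0
    have hc1 : c = 1 ∨ c = -1 := by
      have : (c - 1) * (c + 1) = 0 := by ring_nf; linarith
      rcases mul_eq_zero.mp this with h | h
      · left; linarith
      · right; linarith
    intro u v w
    refine ⟨hs1 u v w, ?_⟩
    rcases hc1 with rfl | rfl
    · have := hc' u v w; linarith
    · exfalso
      apply h0
      have e1 := hc' u₀ v₀ w₀
      have e2 := hs1 u₀ w₀ v₀
      have e3 := hc' w₀ v₀ u₀
      have e4 := hs1 w₀ v₀ u₀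
      have e5 := hc' v₀ u₀ w₀
      have e6 := hs1 v₀ u₀ w₀
      linarith
  · rintro ⟨t, ht0, hts, hte, htu⟩
    refine ⟨t.compr₂ (B.toDual hnd).symm.toLinearMap, ?_, ?_, toM_equiv t hte, ?_⟩
    · intro h
      apply ht0
      apply LinearMap.ext; intro u
      apply LinearMap.ext; intro v
      apply LinearMap.ext; intro w
      rw [← toM_spec t u v w, h]
      simp
    · intro u v
      apply hinj
      intro w
      rw [toM_spec, toM_spec]
      exact (hts u v w).1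
    · intro m' hm'
      obtain ⟨c, hc⟩ := htu _ (toT_equiv m' hm')
      refine ⟨c, ?_⟩
      apply LinearMap.ext; intro u
      apply LinearMap.ext; intro v
      apply hinj
      intro w
      have h1 : B (m' u v) w = (m'.compr₂ B) u v w := rfl
      rw [h1, hc]
      simp only [LinearMap.smul_apply, map_smul, smul_eq_mul]
      rw [toM_spec]

end Cfsg.Agent.S5541
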