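import Cfsg.Statements.S5543

set_option autoImplicit false
open Cfsg

namespace Cfsg.Agent.S5543

open Cfsg.Axial

theorem law_quarter : monsterLaw (1 / 4 : ℝ) (1 / 32) (1 / 4) (1 / 4) = {1, 0} := by
  unfold monsterLaw
  rw [if_neg (by norm_num), if_neg (by norm_num), if_pos (by norm_num)]

theorem eigenSum_pair {V : Type*} [AddCommGroup V] [Module ℝ V] (mul : V →ₗ[ℝ] V →ₗ[ℝ] V) (a : V) :
    eigenSum mul a ({1, 0} : Set ℝ) = eigen mul a 1 ⊔ eigen mul a 0 := by
  unfold eigenSum
  rw [iSup_insert, iSup_singleton]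

/-- A quarter-eigenvector lying in the sum of the one- and zero-eigenspaces vanishes. -/
theorem quarter_zero {V : Type*} [AddCommGroup V] [Module ℝ V] (mul : V →ₗ[ℝ] V →ₗ[ℝ] V) (a w : V)
    (hw : mul a w = (1 / 4 : ℝ) • w) (hmem : w ∈ eigen mul a 1 ⊔ eigen mul a 0) : w = 0 := by
  rw [Submodule.mem_sup] at hmem
  obtain ⟨p, hp, q, hq, hpq⟩ := hmem
  have hp' : mul a p = p := by
    have := Module.End.mem_eigenspace_iff.mp hp
    simpa using this
  have hq' : mul a q = 0 := by
    have := Module.End.mem_eigenspace_iff.mp hq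
    simpa using this
  -- a w = p
  have h1 : mul a w = p := by
    rw [← hpq, map_add, hp', hq', add_zero]
  -- p = (1/4) w
  have h2 : p = (1 / 4 : ℝ) • w := by rw [← h1, hw]
  -- apply a again: p = (1/4) p
  have h3 : p = (1 / 4 : ℝ) • p := by
    have : mul a p = (1 / 4 : ℝ) • mul a w := by
      conv_lhs => rw [h2]
      rw [map_smul]
    rw [hp', h1] at this
    exact this
  have hp0 : p = 0 := by
    have h4 : (3 / 4 : ℝ) • p = 0 := by
      have : (3 / 4 : ℝ) • p = p - (1 / 4 : ℝ) • p := by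
        rw [show (3 / 4 : ℝ) = 1 - 1 / 4 by norm_num, sub_smul, one_smul]
      rw [this, ← h3, sub_self]
    rcases smul_eq_zero.mp h4 with h | h
    · norm_num at h
    · exact h
  rw [hp0] at h2
  have h5 : (1 / 4 : ℝ) • w = 0 := h2.symm
  rcases smul_eq_zero.mp h5 with h | h
  · norm_num at h
  · exact h

/-- Majorana setting: an elementary abelian 2-group of Majorana involutions whose axes pairwise generate 2A-type subalgebras (third axis = axis of the product) has order ≤ 4. -/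
theorem result {V : Type*} [AddCommGroup V] [Module ℝ V] [FiniteDimensional ℝ V] (mul : V →ₗ[ℝ] V →ₗ[ℝ] V) (B : LinearMap.BilinForm ℝ V) (hV : Cfsg.Axial.IsMajoranaAmbient mul B) (X : Subgroup (V ≃ₗ[ℝ] V)) (hX : ∀ x ∈ X, x * x = 1) (ax : (V ≃ₗ[ℝ] V) → V) (hax : ∀ x ∈ X, x ≠ 1 → Cfsg.Axial.IsMajoranaPair mul B x (ax x)) (h1 : ∀ x ∈ X, x ≠ 1 → B (ax x) (ax x) = 1) (h2A : ∀ x ∈ X, ∀ y ∈ X, x ≠ 1 → y ≠ 1 → x ≠ y → mul (ax x) (ax y) = (1 / 8 : ℝ) • (ax x + ax y - ax (x * y))) : Nat.card ↥X ≤ 4 := by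
  classical
  by_contra hcard
  rw [not_le] at hcard
  have hfin : Finite X := Nat.finite_of_card_ne_zero (by omega)
  have := Fintype.ofFinite X
  rw [Nat.card_eq_fintype_card] at hcard
  have hpick : ∀ s : Finset X, s.card ≤ 4 → ∃ z : X, z ∉ s := by
    intro s hs
    by_contra h
    rw [not_exists] at h
    have : s = Finset.univ := Finset.eq_univ_iff_forall.mpr (fun z => not_not.mp (h z))
    rw [this, Finset.card_univ] at hs
    omega
  -- group facts
  have hinv : ∀ u ∈ X, u⁻¹ = u := fun u hu => inv_eq_of_mul_eq_one_left (hX u hu)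
  have hcomm : ∀ u ∈ X, ∀ v ∈ X, u * v = v * u := by
    intro u hu v hv
    have h := hX (u * v) (X.mul_mem hu hv)
    have h' : u * v = (u * v)⁻¹ := (inv_eq_of_mul_eq_one_left h).symm
    rw [h', mul_inv_rev, hinv u hu, hinv v hv]
  have hcancel : ∀ u ∈ X, ∀ v : V ≃ₗ[ℝ] V, u * (u * v) = v := by
    intro u hu v
    rw [← mul_assoc, hX u hu, one_mul]
  -- choose x, y, z
  obtain ⟨⟨x, hxX⟩, hx⟩ := hpick {1} (by simp)
  have hx1 : x ≠ 1 := by
    intro h; apply hx; simp [h]
  obtain ⟨⟨y, hyX⟩, hy⟩ := hpick {1, ⟨x, hxX⟩} (le_trans (Finset.card_insert_le _ _) (by simp))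
  have hy1 : y ≠ 1 := by
    intro h; apply hy; simp [h]
  have hyx : y ≠ x := by
    intro h; apply hy; simp [h]
  obtain ⟨⟨z, hzX⟩, hz⟩ := hpick {1, ⟨x, hxX⟩, ⟨y, hyX⟩, ⟨x * y, X.mul_mem hxX hyX⟩}
    (le_trans (Finset.card_insert_le _ _) (Nat.succ_le_succ (le_trans (Finset.card_insert_le _ _)
      (Nat.succ_le_succ (le_trans (Finset.card_insert_le _ _) (by simp))))))
  have hz1 : z ≠ 1 := by
    intro h; apply hz; simp [h]
  have hzx : z ≠ x := by
    intro h; apply hz; simp [h]
  have hzy : z ≠ y := by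
    intro h; apply hz; simp [h]
  have hzxy : z ≠ x * y := by
    intro h; apply hz; simp [h]
  -- the eigenvector lemma
  have heig : ∀ u ∈ X, ∀ v ∈ X, u ≠ 1 → v ≠ 1 → u ≠ v →
      mul (ax u) (ax v - ax (u * v)) = (1 / 4 : ℝ) • (ax v - ax (u * v)) := by
    intro u hu v hv hu1 hv1 huv
    have huvX : u * v ∈ X := X.mul_mem hu hv
    have huv1 : u * v ≠ 1 := by
      intro h
      apply huv
      have : u * (u * v) = u * 1 := by rw [h]
      rw [hcancel u hu, mul_one] at this
      exact this.symm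
    have hne : u ≠ u * v := by
      intro h
      apply hv1
      have : u * u = u * (u * v) := by rw [← h]
      rw [hcancel u hu, hX u hu] at this
      exact this.symm
    have e1 := h2A u hu v hv hu1 hv1 huv
    have e2 := h2A u hu (u * v) huvX hu1 huv1 hne
    rw [hcancel u hu] at e2
    rw [map_sub, e1, e2]
    module
  obtain ⟨g, hg⟩ : ∃ g : V ≃ₗ[ℝ] V, g = y * z := ⟨_, rfl⟩
  have hgX : g ∈ X := hg ▸ X.mul_mem hyX hzX
  have hg1 : g ≠ 1 := by
    intro h
    apply hzy
    have : y * (y * z) = y * 1 := by rw [← hg, h]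
    rw [hcancel y hyX, mul_one] at this
    exact this
  have hxg : x ≠ g := by
    intro h
    apply hzxy
    have : y * x = y * (y * z) := by rw [h, hg]
    rw [hcancel y hyX, hcomm y hyX x hxX] at this
    exact this.symm
  have hxgX : x * g ∈ X := X.mul_mem hxX hgX
  have hxg1 : x * g ≠ 1 := by
    intro h
    apply hxg
    have : x * (x * g) = x * 1 := by rw [h]
    rw [hcancel x hxX, mul_one] at this
    exact this.symm
  have hxzX : x * z ∈ X := X.mul_mem hxX hzX
  have hxyX : x * y ∈ X := X.mul_mem hxX hyX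
  have hxz1 : x * z ≠ 1 := by
    intro h
    apply hzx
    have : x * (x * z) = x * 1 := by rw [h]
    rw [hcancel x hxX, mul_one] at this
    exact this
  have hxy1 : x * y ≠ 1 := by
    intro h
    apply hyx
    have : x * (x * y) = x * 1 := by rw [h]
    rw [hcancel x hxX, mul_one] at this
    exact this
  -- the three eigenvectors
  have hu1 := heig x hxX y hyX hx1 hy1 (Ne.symm hyx)
  have hu2 := heig x hxX z hzX hx1 hz1 (Ne.symm hzx)
  have hu3 := heig x hxX g hgX hx1 hg1 hxg
  -- product of the first two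
  have p1 := h2A y hyX z hzX hy1 hz1 (Ne.symm hzy)
  have p2 := h2A y hyX (x * z) hxzX hy1 hxz1 (by
    intro h
    apply hzxy
    have : x * y = x * (x * z) := by rw [h]
    rw [hcancel x hxX] at this
    exact this.symm)
  have p3 := h2A (x * y) hxyX z hzX hxy1 hz1 (Ne.symm hzxy)
  have p4 := h2A (x * y) hxyX (x * z) hxzX hxy1 hxz1 (by
    intro h
    apply hzy
    have : x * (x * y) = x * (x * z) := by rw [h]
    rw [hcancel x hxX, hcancel x hxX] at this
    exact this.symm)
  have g2 : y * (x * z) = x * g := by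
    rw [hg, ← mul_assoc, hcomm y hyX x hxX, mul_assoc]
  have g3 : x * y * z = x * g := by rw [hg, mul_assoc]
  have g4 : x * y * (x * z) = g := by
    rw [hg, mul_assoc, ← mul_assoc y x z, hcomm y hyX x hxX, mul_assoc, hcancel x hxX]
  rw [← hg] at p1
  rw [g2] at p2
  rw [g3] at p3
  rw [g4] at p4
  have hprod : mul (ax y - ax (x * y)) (ax z - ax (x * z)) = (-(1 / 4 : ℝ)) • (ax g - ax (x * g)) := by
    simp only [map_sub, LinearMap.sub_apply, p1, p2, p3, p4]
    module
  -- fusion law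
  obtain ⟨_, _, ⟨⟨hax0, hidem, _, hfus⟩, _⟩, _⟩ := hax x hxX hx1
  have hS : (1 / 4 : ℝ) ∈ majoranaSpectrum := by
    unfold majoranaSpectrum; simp
  have hm1 : ax y - ax (x * y) ∈ eigen mul (ax x) (1 / 4) := Module.End.mem_eigenspace_iff.mpr hu1
  have hm2 : ax z - ax (x * z) ∈ eigen mul (ax x) (1 / 4) := Module.End.mem_eigenspace_iff.mpr hu2
  have hf := hfus (1 / 4) hS (1 / 4) hS _ hm1 _ hm2
  rw [law_quarter, eigenSum_pair, hprod] at hf
  have hw : mul (ax x) ((-(1 / 4 : ℝ)) • (ax g - ax (x * g))) = (1 / 4 : ℝ) • ((-(1 / 4 : ℝ)) • (ax g - ax (x * g))) := by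
    rw [map_smul, hu3, smul_comm]
  have hzero := quarter_zero mul (ax x) _ hw hf
  have heq : ax g = ax (x * g) := by
    rcases smul_eq_zero.mp hzero with h | h
    · norm_num at h
    · exact sub_eq_zero.mp h
  -- contradiction from norms
  have hne' : g ≠ x * g := by
    intro h
    apply hx1
    have : g * g = x * g * g := by rw [← h]
    rw [mul_assoc, hX g hgX, mul_one] at this
    exact this.symm
  have q := h2A g hgX (x * g) hxgX hg1 hxg1 hne'
  have g5 : g * (x * g) = x := by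
    rw [← mul_assoc, hcomm g hgX x hxX, mul_assoc, hX g hgX, mul_one]
  rw [g5, ← heq] at q
  obtain ⟨_, _, ⟨⟨_, hidemg, _, _⟩, _⟩, _⟩ := hax g hgX hg1
  rw [hidemg] at q
  have hax_eq : ax x = (-6 : ℝ) • ax g := by
    have : (8 : ℝ) • ax g = (8 : ℝ) • ((1 / 8 : ℝ) • (ax g + ax g - ax x)) := by rw [← q]
    rw [smul_smul] at this
    norm_num at this
    have h3 : ax x = ax g + ax g - (8 : ℝ) • ax g := by
      rw [this]; abel
    rw [h3]; module
  have n1 := h1 x hxX hx1
  have n2 := h1 g hgX hg1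
  rw [hax_eq] at n1
  simp only [map_smul, LinearMap.smul_apply, smul_eq_mul, n2] at n1
  norm_num at n1

end Cfsg.Agent.S5543
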