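import Cfsg.Statements.S5545

set_option autoImplicit false
open Cfsg

namespace Cfsg.Agent.S5545

open Cfsg.Axial

section

variable {V : Type*} [AddCommGroup V] [Module ℝ V]

theorem mem_eigen_iff (mul : V →ₗ[ℝ] V →ₗ[ℝ] V) (a v : V) (c : ℝ) :
    v ∈ eigen mul a c ↔ mul a v = c • v :=
  Module.End.mem_eigenspace_iff

theorem eigen_conj (mul : V →ₗ[ℝ] V →ₗ[ℝ] V) (σ : V ≃ₗ[ℝ] V)
    (hσ : ∀ u v, σ (mul u v) = mul (σ u) (σ v)) (a : V) (c : ℝ) :
    eigen mul (σ a) c = (eigen mul a c).map σ.toLinearMap := by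
  ext v
  rw [Submodule.mem_map]
  constructor
  · intro hv
    refine ⟨σ.symm v, ?_, by simp⟩
    rw [mem_eigen_iff] at hv ⊢
    apply σ.injective
    rw [hσ, map_smul, σ.apply_symm_apply, hv]
  · rintro ⟨y, hy, rfl⟩
    rw [mem_eigen_iff] at hy ⊢
    show mul (σ a) (σ y) = c • σ y
    rw [← hσ, hy, map_smul]

theorem eigenSum_conj (mul : V →ₗ[ℝ] V →ₗ[ℝ] V) (σ : V ≃ₗ[ℝ] V)
    (hσ : ∀ u v, σ (mul u v) = mul (σ u) (σ v)) (a : V) (S : Set ℝ) :
    eigenSum mul (σ a) S = (eigenSum mul a S).map σ.toLinearMap := by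
  unfold eigenSum
  simp only [Submodule.map_iSup, eigen_conj mul σ hσ]

theorem pair_conj (mul : V →ₗ[ℝ] V →ₗ[ℝ] V) (B : LinearMap.BilinForm ℝ V) (μ σ : V ≃ₗ[ℝ] V) (a : V)
    (h : IsMajoranaPair mul B μ a)
    (hσm : ∀ u v, σ (mul u v) = mul (σ u) (σ v)) (hcomm : μ * σ = σ * μ) :
    IsMajoranaPair mul B μ (σ a) := by
  obtain ⟨hm, hB, ⟨⟨ha0, hidem, htop, hfus⟩, hprim⟩, hmiy1, hmiy2⟩ := h
  have hc : ∀ v, μ (σ v) = σ (μ v) := fun v => by
    have := congrArg (fun f : V ≃ₗ[ℝ] V => f v) hcomm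
    simpa using this
  refine ⟨hm, hB, ⟨⟨?_, ?_, ?_, ?_⟩, ?_⟩, ?_, ?_⟩
  · intro h0
    apply ha0
    exact σ.map_eq_zero_iff.mp h0
  · rw [← hσm, hidem]
  · rw [eigenSum_conj mul σ hσm, htop, Submodule.map_top, LinearMap.range_eq_top]
    exact σ.surjective
  · intro c hc' d hd u hu v hv
    rw [eigen_conj mul σ hσm] at hu hv
    obtain ⟨u', hu', rfl⟩ := Submodule.mem_map.mp hu
    obtain ⟨v', hv', rfl⟩ := Submodule.mem_map.mp hv
    rw [eigenSum_conj mul σ hσm]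
    exact Submodule.mem_map.mpr ⟨mul u' v', hfus c hc' d hd u' hu' v' hv', hσm u' v'⟩
  · rw [eigen_conj mul σ hσm, hprim, Submodule.map_span, Set.image_singleton]
    rfl
  · intro v hv
    rw [eigenSum_conj mul σ hσm] at hv
    obtain ⟨v', hv', rfl⟩ := Submodule.mem_map.mp hv
    have h1 : μ v' = v' := hmiy1 v' hv'
    show μ (σ v') = σ v'
    rw [hc, h1]
  · intro v hv
    rw [eigen_conj mul σ hσm] at hv
    obtain ⟨v', hv', rfl⟩ := Submodule.mem_map.mp hv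
    have h1 : μ v' = -v' := hmiy2 v' hv'
    show μ (σ v') = -σ v'
    rw [hc, h1, map_neg]

theorem decomp (mul : V →ₗ[ℝ] V →ₗ[ℝ] V) (B : LinearMap.BilinForm ℝ V) (μ : V ≃ₗ[ℝ] V) (a b : V)
    (h : IsMajoranaPair mul B μ a) (hfix : μ b = b) :
    ∃ (l : ℝ) (β γ : V), b = l • a + β + γ ∧ mul a β = 0 ∧ mul a γ = (1 / 4 : ℝ) • γ := by
  obtain ⟨hm, hB, ⟨⟨ha0, hidem, htop, hfus⟩, hprim⟩, hmiy1, hmiy2⟩ := h
  have hb : b ∈ eigenSum mul a majoranaSpectrum := by rw [htop]; trivial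
  have hsplit : eigenSum mul a majoranaSpectrum =
      eigen mul a 1 ⊔ (eigen mul a 0 ⊔ (eigen mul a (1 / 4) ⊔ eigen mul a (1 / 32))) := by
    unfold eigenSum majoranaSpectrum
    rw [iSup_insert, iSup_insert, iSup_insert, iSup_singleton]
  rw [hsplit] at hb
  obtain ⟨p, hp, x1, hx1, hpx⟩ := Submodule.mem_sup.mp hb
  obtain ⟨q, hq, x2, hx2, hqx⟩ := Submodule.mem_sup.mp hx1
  obtain ⟨r, hr, s, hs, hrs⟩ := Submodule.mem_sup.mp hx2
  have hle : ∀ c ∈ ({1, 0, 1 / 4} : Set ℝ), eigen mul a c ≤ eigenSum mul a {1, 0, 1 / 4} :=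
    fun c hc => le_biSup (fun c => eigen mul a c) hc
  have hp' : μ p = p := hmiy1 p (hle 1 (by simp) hp)
  have hq' : μ q = q := hmiy1 q (hle 0 (by simp) hq)
  have hr' : μ r = r := hmiy1 r (hle (1 / 4) (by simp) hr)
  have hs' : μ s = -s := hmiy2 s hs
  have hbe : b = p + (q + (r + s)) := by rw [hrs, hqx, hpx]
  have hs0 : s = 0 := by
    have h1 : μ b = p + (q + (r - s)) := by
      rw [hbe, map_add, map_add, map_add, hp', hq', hr', hs']
      abel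
    rw [hfix, hbe] at h1
    have h2 : s = -s := by
      have h3 : r + s = r - s := add_left_cancel (add_left_cancel h1)
      rw [sub_eq_add_neg] at h3
      exact add_left_cancel h3
    have h5 : (2 : ℝ) • s = 0 := by
      rw [two_smul]
      nth_rewrite 2 [h2]
      abel
    rcases smul_eq_zero.mp h5 with h | h
    · norm_num at h
    · exact h
  rw [hprim] at hp
  obtain ⟨l, rfl⟩ := Submodule.mem_span_singleton.mp hp
  refine ⟨l, q, r, ?_, ?_, ?_⟩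
  · rw [hbe, hs0]; abel
  · have := (mem_eigen_iff mul a q 0).mp hq
    rw [this, zero_smul]
  · exact (mem_eigen_iff mul a r (1 / 4)).mp hr

theorem law00 : monsterLaw (1 / 4 : ℝ) (1 / 32) 0 0 = {0} := by
  unfold monsterLaw
  rw [if_neg (by norm_num), if_neg (by norm_num), if_neg (by norm_num), if_neg (by norm_num),
    if_pos rfl]

theorem law04 : monsterLaw (1 / 4 : ℝ) (1 / 32) 0 (1 / 4) = {1 / 4} := by
  unfold monsterLaw
  rw [if_neg (by norm_num), if_neg (by norm_num), if_neg (by norm_num), if_pos (by norm_num)]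

theorem law44 : monsterLaw (1 / 4 : ℝ) (1 / 32) (1 / 4) (1 / 4) = {1, 0} := by
  unfold monsterLaw
  rw [if_neg (by norm_num), if_neg (by norm_num), if_pos (by norm_num)]

theorem eigenSum_single (mul : V →ₗ[ℝ] V →ₗ[ℝ] V) (a : V) (c : ℝ) :
    eigenSum mul a ({c} : Set ℝ) = eigen mul a c := by
  unfold eigenSum
  rw [iSup_singleton]

theorem eigenSum_pair (mul : V →ₗ[ℝ] V →ₗ[ℝ] V) (a : V) :
    eigenSum mul a ({1, 0} : Set ℝ) = eigen mul a 1 ⊔ eigen mul a 0 := by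
  unfold eigenSum
  rw [iSup_insert, iSup_singleton]

theorem key (mul : V →ₗ[ℝ] V →ₗ[ℝ] V) (B : LinearMap.BilinForm ℝ V)
    (hV : IsMajoranaAmbient mul B) (μ : V ≃ₗ[ℝ] V) (a b : V)
    (h : IsMajoranaPair mul B μ a) (hn : B a a = 1) (hb : mul b b = b) (hfix : μ b = b) :
    ∃ β γ : V, b = (B a b) • a + β + γ ∧ mul a β = 0 ∧ mul a γ = (1 / 4 : ℝ) • γ ∧
      mul a (mul β β) = 0 ∧ mul β γ = ((2 - B a b) / 4) • γ ∧
      mul γ γ = (B a b * (1 - B a b)) • a + β - mul β β ∧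
      B a β = 0 ∧ B a γ = 0 := by
  obtain ⟨l, β, γ, hdec, hβ, hγ⟩ := decomp mul B μ a b h hfix
  obtain ⟨hcm, hBs, hpos, hassoc, hnorton⟩ := hV
  obtain ⟨hm, hBμ, ⟨⟨ha0, hidem, htop, hfus⟩, hprim⟩, hmiy1, hmiy2⟩ := h
  have hBaβ : B a β = 0 := by
    have := hassoc a a β
    rw [hβ, hidem] at this
    simpa using this.symm
  have hBaγ : B a γ = 0 := by
    have := hassoc a a γ
    rw [hγ, hidem, map_smul, smul_eq_mul] at this
    linarith
  have hl : B a b = l := by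
    rw [hdec, map_add, map_add, map_smul, hn, hBaβ, hBaγ]
    simp
  have hS0 : (0 : ℝ) ∈ majoranaSpectrum := by unfold majoranaSpectrum; simp
  have hS4 : (1 / 4 : ℝ) ∈ majoranaSpectrum := by unfold majoranaSpectrum; simp
  have hβm : β ∈ eigen mul a 0 := (mem_eigen_iff mul a β 0).mpr (by rw [hβ, zero_smul])
  have hγm : γ ∈ eigen mul a (1 / 4) := (mem_eigen_iff mul a γ (1 / 4)).mpr hγ
  have f1 := hfus 0 hS0 0 hS0 β hβm β hβm
  have f2 := hfus 0 hS0 (1 / 4) hS4 β hβm γ hγm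
  have f3 := hfus (1 / 4) hS4 (1 / 4) hS4 γ hγm γ hγm
  rw [law00, eigenSum_single] at f1
  rw [law04, eigenSum_single] at f2
  rw [law44, eigenSum_pair, hprim] at f3
  have hδ : mul a (mul β β) = 0 := by
    have := (mem_eigen_iff mul a _ 0).mp f1
    rw [this, zero_smul]
  have hβγ4 : mul a (mul β γ) = (1 / 4 : ℝ) • mul β γ := (mem_eigen_iff mul a _ (1 / 4)).mp f2
  obtain ⟨p, hp, ε, hε, hpε⟩ := Submodule.mem_sup.mp f3
  obtain ⟨κ, rfl⟩ := Submodule.mem_span_singleton.mp hp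
  have hε0 : mul a ε = 0 := by
    have := (mem_eigen_iff mul a _ 0).mp hε
    rw [this, zero_smul]
  have hβa : mul β a = 0 := by rw [hcm, hβ]
  have hγa : mul γ a = (1 / 4 : ℝ) • γ := by rw [hcm, hγ]
  have hγβ : mul γ β = mul β γ := hcm γ β
  have E0 : mul (l • a + β + γ) (l • a + β + γ) = l • a + β + γ := by
    rw [← hdec]; exact hb
  simp only [map_add, map_smul, LinearMap.add_apply, LinearMap.smul_apply, hidem, hβ, hγ, hβa, hγa,
    hγβ, ← hpε] at E0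
  have E1 := congrArg (mul a) E0
  simp only [map_add, map_smul, hidem, hβ, hγ, hδ, hβγ4, hε0, smul_zero, add_zero, zero_add] at E1
  have E2 := congrArg (mul a) E1
  simp only [map_add, map_smul, hidem, hβ, hγ, hδ, hβγ4, hε0, smul_zero, add_zero, zero_add] at E2
  have hβγ : mul β γ = ((2 - l) / 4) • γ := by
    linear_combination (norm := module) (8 / 3 : ℝ) • E1 - (8 / 3 : ℝ) • E2
  rw [hβγ] at E0 E1
  have hκ : κ = l * (1 - l) := by
    have h1 : (l * l + κ - l) • a = 0 := by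
      linear_combination (norm := module) E1
    rcases smul_eq_zero.mp h1 with h | h
    · linarith
    · exact absurd h ha0
  have hγγ : mul γ γ = (l * (1 - l)) • a + β - mul β β := by
    rw [← hpε, hκ]
    rw [hκ] at E0
    linear_combination (norm := module) E0
  refine ⟨β, γ, ?_, hβ, hγ, hδ, ?_, ?_, hBaβ, hBaγ⟩
  · rw [hl]; exact hdec
  · rw [hl]; exact hβγ
  · rw [hl]; exact hγγ

end

/-- Majorana setting: commuting Majorana involutions with distinct axes generate a 2B algebra (a₀∘a₁ = 0, orthogonal) or a 2A algebra (⟨a₀,a₁⟩ = 1/8, third idempotent a₂ = a₀ + a₁ − 8a₀∘a₁ with the 2A products). -/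
theorem result {V : Type*} [AddCommGroup V] [Module ℝ V] [FiniteDimensional ℝ V] (mul : V →ₗ[ℝ] V →ₗ[ℝ] V) (B : LinearMap.BilinForm ℝ V) (hV : Cfsg.Axial.IsMajoranaAmbient mul B) (μ₀ μ₁ : V ≃ₗ[ℝ] V) (a₀ a₁ : V) (h₀ : Cfsg.Axial.IsMajoranaPair mul B μ₀ a₀) (h₁ : Cfsg.Axial.IsMajoranaPair mul B μ₁ a₁) (hu₀ : ∀ a : V, Cfsg.Axial.IsMajoranaPair mul B μ₀ a → a = a₀) (hu₁ : ∀ a : V, Cfsg.Axial.IsMajoranaPair mul B μ₁ a → a = a₁) (hn₀ : B a₀ a₀ = 1) (hn₁ : B a₁ a₁ = 1) (hc : μ₀ * μ₁ = μ₁ * μ₀) (hne : a₀ ≠ a₁) : (B a₀ a₁ = 0 ∧ mul a₀ a₁ = 0) ∨ (B a₀ a₁ = 1 / 8 ∧ mul (a₀ + a₁ - (8 : ℝ) • mul a₀ a₁) (a₀ + a₁ - (8 : ℝ) • mul a₀ a₁) = a₀ + a₁ - (8 : ℝ) • mul a₀ a₁ ∧ mul a₀ (a₀ + a₁ - (8 : ℝ) • mul a₀ a₁) = (1 / 8 : ℝ) • (a₀ + (a₀ + a₁ - (8 : ℝ) • mul a₀ a₁) - a₁) ∧ mul a₁ (a₀ + a₁ - (8 : ℝ) • mul a₀ a₁) = (1 / 8 : ℝ) • (a₁ + (a₀ + a₁ - (8 : ℝ) • mul a₀ a₁) - a₀)) := by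
  have hV' := hV
  obtain ⟨hcm, hBs, hpos, hassoc, hnorton⟩ := hV
  have hμ₀m := h₀.1
  have hμ₁m := h₁.1
  have hidem₀ : mul a₀ a₀ = a₀ := h₀.2.2.1.1.2.1
  have hidem₁ : mul a₁ a₁ = a₁ := h₁.2.2.1.1.2.1
  have hfix0 : μ₁ a₀ = a₀ := hu₀ _ (pair_conj mul B μ₀ μ₁ a₀ h₀ hμ₁m hc)
  have hfix1 : μ₀ a₁ = a₁ := hu₁ _ (pair_conj mul B μ₁ μ₀ a₁ h₁ hμ₀m hc.symm)
  obtain ⟨β, γ, hdec, hβ, hγ, hδ, hβγ, hγγ, hBaβ, hBaγ⟩ :=
    key mul B hV' μ₁ a₁ a₀ h₁ hn₁ hidem₀ hfix0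
  obtain ⟨β', γ', hdec', hβ', hγ', hδ', hβγ', hγγ', hBbβ', hBbγ'⟩ :=
    key mul B hV' μ₀ a₀ a₁ h₀ hn₀ hidem₁ hfix1
  have hl' : B a₀ a₁ = B a₁ a₀ := hBs a₀ a₁
  rw [hl'] at hdec' hβγ' hγγ'
  rw [hl']
  obtain ⟨l, hl⟩ : ∃ l : ℝ, l = B a₁ a₀ := ⟨_, rfl⟩
  rw [← hl] at hdec hβγ hγγ hdec' hβγ' hγγ'
  rw [← hl]
  have hab : mul a₁ a₀ = l • a₁ + (1 / 4 : ℝ) • γ := by
    conv_lhs => rw [hdec]
    simp only [map_add, map_smul, hidem₁, hβ, hγ, add_zero]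
  have hba : mul a₀ a₁ = l • a₀ + (1 / 4 : ℝ) • γ' := by
    conv_lhs => rw [hdec']
    simp only [map_add, map_smul, hidem₀, hβ', hγ', add_zero]
  have hγ'eq : γ' = (4 * l * (1 - l)) • a₁ - (4 * l) • β + (1 - 4 * l) • γ := by
    have h1 : l • a₁ + (1 / 4 : ℝ) • γ = l • a₀ + (1 / 4 : ℝ) • γ' := by rw [← hab, ← hba, hcm]
    linear_combination (norm := module) (-4 : ℝ) • h1 + (-4 * l) • hdec
  have hβ'eq : β' = (1 - 4 * l + 3 * l ^ 2) • a₁ + (3 * l) • β + (3 * l - 1) • γ := by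
    linear_combination (norm := module) (-1 : ℝ) • hdec' + (-l) • hdec + (-1 : ℝ) • hγ'eq
  have hBγβ : B γ β = 0 := by
    have h1 := hassoc γ a₁ β
    rw [hβ, hcm γ a₁, hγ] at h1
    simp only [map_zero, map_smul, LinearMap.smul_apply, smul_eq_mul] at h1
    linarith
  have hBγγ : B γ γ = 4 * l * (1 - l) := by
    have h1 := hassoc a₁ γ γ
    have h2 := hassoc a₁ β β
    rw [hβ] at h2
    simp only [map_zero, LinearMap.zero_apply] at h2
    rw [hγγ, hγ] at h1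
    simp only [map_add, map_sub, map_smul, smul_eq_mul, LinearMap.smul_apply, hn₁, hBaβ, h2] at h1
    linarith
  have hE : B a₁ (mul β' γ') = ((2 - l) / 4) * B a₁ γ' := by
    rw [hβγ']; simp
  have hE2 : B a₁ (mul β' γ') = B (mul a₁ β') γ' := hassoc a₁ β' γ'
  have hmulaβ' : mul a₁ β' = (1 - 4 * l + 3 * l ^ 2) • a₁ + ((3 * l - 1) / 4) • γ := by
    rw [hβ'eq]
    simp only [map_add, map_smul, hidem₁, hβ, hγ]
    module
  have hBaγ' : B a₁ γ' = 4 * l * (1 - l) := by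
    rw [hγ'eq]
    simp only [map_add, map_sub, map_smul, smul_eq_mul, hn₁, hBaβ, hBaγ]
    ring
  have hBγa : B γ a₁ = 0 := by rw [hBs]; exact hBaγ
  have hpoly : l * (1 - l) * (1 - 8 * l) = 0 := by
    rw [hE2, hmulaβ', hBaγ'] at hE
    rw [hγ'eq] at hE
    simp only [map_add, map_sub, map_smul, smul_eq_mul, LinearMap.add_apply, LinearMap.smul_apply,
      hn₁, hBaβ, hBaγ, hBγa, hBγβ, hBγγ] at hE
    linear_combination hE
  have hcases : l = 0 ∨ l = 1 ∨ l = 1 / 8 := by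
    rcases mul_eq_zero.mp hpoly with h | h
    · rcases mul_eq_zero.mp h with h | h
      · left; exact h
      · right; left; linarith
    · right; right; linarith
  rcases hcases with h0 | h1 | h8
  · left
    refine ⟨h0, ?_⟩
    have hγ0 : γ = 0 := by
      by_contra hne0
      have := hpos γ hne0
      rw [hBγγ, h0] at this
      simp at this
    rw [hcm, hab, h0, hγ0]
    simp
  · exfalso
    apply hne
    by_contra hne'
    have hsub : a₀ - a₁ ≠ 0 := sub_ne_zero.mpr hne'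
    have := hpos _ hsub
    simp only [map_sub, LinearMap.sub_apply, hn₀, hn₁, hl', ← hl, h1] at this
    linarith
  · right
    rw [h8] at hab hba hdec hβγ hγγ
    obtain ⟨P, hP⟩ : ∃ P : V, P = mul a₀ a₁ := ⟨_, rfl⟩
    have hP' : mul a₁ a₀ = P := by rw [hP, hcm]
    rw [← hP] at hba
    rw [hP'] at hab
    have hP0 : mul a₀ P = (3 / 32 : ℝ) • a₀ + (1 / 4 : ℝ) • P := by
      have h1 : mul a₀ P = (1 / 8 : ℝ) • a₀ + (1 / 16 : ℝ) • γ' := by
        rw [hba]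
        simp only [map_add, map_smul, hidem₀, hγ']
        module
      rw [h1]
      linear_combination (norm := module) (-1 / 4 : ℝ) • hba
    have hP1 : mul a₁ P = (3 / 32 : ℝ) • a₁ + (1 / 4 : ℝ) • P := by
      have h1 : mul a₁ P = (1 / 8 : ℝ) • a₁ + (1 / 16 : ℝ) • γ := by
        rw [hab]
        simp only [map_add, map_smul, hidem₁, hγ]
        module
      rw [h1]
      linear_combination (norm := module) (-1 / 4 : ℝ) • hab
    rw [← hP]
    refine ⟨h8, ?_, ?_, ?_⟩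
    · have hc_eq : a₀ + a₁ - (8 : ℝ) • P = (1 / 8 : ℝ) • a₁ + β - γ := by
        linear_combination (norm := module) hdec - (8 : ℝ) • hab
      have hβa : mul β a₁ = 0 := by rw [hcm, hβ]
      have hγa : mul γ a₁ = (1 / 4 : ℝ) • γ := by rw [hcm, hγ]
      have hγβ : mul γ β = mul β γ := hcm γ β
      rw [hc_eq]
      simp only [map_add, map_sub, map_smul, LinearMap.add_apply, LinearMap.sub_apply,
        LinearMap.smul_apply, hidem₁, hβ, hγ, hβa, hγa, hγβ, hβγ, hγγ]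
      module
    · simp only [map_add, map_sub, map_smul, hidem₀, hP0, ← hP]
      module
    · simp only [map_add, map_sub, map_smul, hidem₁, hP1, hP']
      module

end Cfsg.Agent.S5545
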