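import Cfsg.Statements.S5548
import Cfsg.Agent.Lib.Helper89.GolayCover

set_option autoImplicit false
open Cfsg

namespace Cfsg.Agent.S5548

open Cfsg.Agent.Lib.Helper7.GolayBase Cfsg.Agent.Lib.Helper7.GolayCode
  Cfsg.Agent.Lib.Helper89.GolaySub Cfsg.Agent.Lib.Helper89.GolayCover
open scoped Pointwise

variable (W : Submodule (ZMod 2) (GolayPt → ZMod 2))

/-- From a word outside the code: a word of the form `c + e_a + e_b`, `c` in the code. -/
theorem exists_pair_mod (hW : ∀ σ ∈ M24, ∀ w ∈ W, (fun p => w (σ.symm p)) ∈ W)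
    (w : GolayPt → ZMod 2) (hwW : w ∈ W) (hwC : w ∉ golayCode) :
    ∃ a b : GolayPt, a ≠ b ∧ ∃ c ∈ golayCode, c + (ind {a} + ind {b}) ∈ W := by
  obtain ⟨s, hs4, hsC⟩ := exists_leader w
  have hs0 : s ≠ ∅ := by
    rintro rfl
    rw [ind_empty, sub_zero] at hsC
    exact hwC hsC
  obtain ⟨p, hp⟩ := Finset.nonempty_iff_ne_empty.mpr hs0
  have hq : ∃ q, q ∉ s := by
    by_contra h
    push Not at h
    have : s = Finset.univ := Finset.eq_univ_iff_forall.mpr h
    rw [this, Finset.card_univ, card_pt] at hs4
    omega
  obtain ⟨q, hq⟩ := hq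
  have hpt : p ∉ s.erase p := Finset.notMem_erase p s
  have hqt : q ∉ s.erase p := fun h => hq (Finset.mem_of_mem_erase h)
  have hst : insert p (s.erase p) = s := Finset.insert_erase hp
  have hpq : p ≠ q := fun h => hq (h ▸ hp)
  have hcard : (s.erase p).card + 1 = s.card := Finset.card_erase_add_one hp
  obtain ⟨g, hg, hmap⟩ := exists_map_lists ((s.erase p).toList ++ [p]) ((s.erase p).toList ++ [q])
    (by
      rw [List.nodup_append]
      refine ⟨Finset.nodup_toList _, List.nodup_singleton _, ?_⟩
      intro x hx y hy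
      rw [List.mem_singleton] at hy
      rw [Finset.mem_toList] at hx
      rintro rfl
      rw [hy] at hx
      exact hpt hx)
    (by
      rw [List.nodup_append]
      refine ⟨Finset.nodup_toList _, List.nodup_singleton _, ?_⟩
      intro x hx y hy
      rw [List.mem_singleton] at hy
      rw [Finset.mem_toList] at hx
      rintro rfl
      rw [hy] at hx
      exact hqt hx)
    (by simp)
    (by rw [List.length_append, Finset.length_toList, List.length_singleton]; omega)
  rw [List.map_append] at hmap
  obtain ⟨h1, h2⟩ := List.append_inj hmap (by simp)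
  have hfix : ∀ x ∈ s.erase p, g x = x :=
    fun x hx => map_eq_self g _ h1 x (Finset.mem_toList.mpr hx)
  have hgp : g p = q := by simpa using h2
  have hgs : g • s = insert q (s.erase p) := by
    conv_lhs => rw [← hst]
    rw [Finset.smul_finset_insert, smul_eq_of_fix hfix]
    congr 1
  obtain ⟨c, hcdef⟩ : ∃ c, c = w - ind s := ⟨_, rfl⟩
  have hc : c ∈ golayCode := by rw [hcdef]; exact hsC
  have hw : w = c + (ind {p} + ind (s.erase p)) := by
    rw [← ind_insert hpt, hst, hcdef, sub_add_cancel]
  have hgw : (fun x => w (g.symm x)) =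
      (fun x => c (g.symm x)) + (ind {q} + ind (s.erase p)) := by
    have h6 : w = c + ind s := by rw [hcdef, sub_add_cancel]
    rw [← ind_insert hqt, ← hgs, ← act_ind, ← act_add, ← h6]
  refine ⟨p, q, hpq, c + (fun x => c (g.symm x)),
    golayCode.add_mem hc (act_mem_code hg hc), ?_⟩
  have h3 := W.add_mem hwW (hW g hg w hwW)
  rw [hgw] at h3
  rw [hw] at h3
  have h5 : ∀ c c' P Q T : GolayPt → ZMod 2,
      (c + (P + T)) + (c' + (Q + T)) = (c + c') + (P + Q) + (T + T) := by
    intro c c' P Q T; abel
  rw [h5, add_self_word, add_zero] at h3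
  exact h3

theorem nodup2 {a b : GolayPt} (hab : a ≠ b) : [a, b].Nodup := by
  simp [hab]

theorem nodup4 {a b c d : GolayPt} (hab : a ≠ b) (hac : a ≠ c) (had : a ≠ d) (hbc : b ≠ c)
    (hbd : b ≠ d) (hcd : c ≠ d) : [a, b, c, d].Nodup := by
  simp [hab, hac, had, hbc, hbd, hcd]

theorem support_val {c : GolayPt → ZMod 2} {x : GolayPt} (hx : x ∈ support₂ c) : c x = 1 := by
  simp only [support₂, Finset.mem_filter, Finset.mem_univ, true_and] at hx
  rcases zmod2_cases (c x) with h | h
  · exact absurd h hx
  · exact h

theorem not_support_val {c : GolayPt → ZMod 2} {x : GolayPt} (hx : x ∉ support₂ c) : c x = 0 := by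
  simp only [support₂, Finset.mem_filter, Finset.mem_univ, true_and, not_not] at hx
  exact hx

/-- If `W` meets the code in at most the span of the all-ones word, a word `c + e_a + e_b`
of `W` gives a word `e_a' + e_b'` of `W`. -/
theorem exists_pair (hW : ∀ σ ∈ M24, ∀ w ∈ W, (fun p => w (σ.symm p)) ∈ W)
    (hU : ∀ u ∈ W, u ∈ golayCode → u = 0 ∨ u = 1) {a b : GolayPt} (hab : a ≠ b)
    {c : GolayPt → ZMod 2} (hc : c ∈ golayCode) (hcW : c + (ind {a} + ind {b}) ∈ W) :
    ∃ a' b' : GolayPt, a' ≠ b' ∧ ind {a'} + ind {b'} ∈ W := by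
  have key : ∀ g ∈ M24, g a = a →
      c + (fun x => c (g.symm x)) + (ind {b} + ind {g b}) ∈ W := by
    intro g hg hga
    have h3 := W.add_mem hcW (hW g hg _ hcW)
    have h4 : (fun x => (c + (ind {a} + ind {b})) (g.symm x)) =
        (fun x => c (g.symm x)) + (ind {a} + ind {g b}) := by
      rw [act_add, act_add, act_ind_single, act_ind_single, hga]
    rw [h4] at h3
    have h5 : ∀ c c' P Q T : GolayPt → ZMod 2,
        (c + (T + P)) + (c' + (T + Q)) = (c + c') + (P + Q) + (T + T) := by
      intro c c' P Q T; abel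
    rw [h5, add_self_word, add_zero] at h3
    exact h3
  have hc01 : c = 0 ∨ c = 1 := by
    by_contra hne
    push Not at hne
    obtain ⟨hc0, hc1⟩ := hne
    obtain ⟨m, hm, rfl⟩ := (mem_golayCode_iff c).mp hc
    have hpop : popc m = 8 ∨ popc m = 12 ∨ popc m = 16 := by
      rcases weights m hm with h | h | h | h | h
      · exfalso; apply hc0; rw [weight_zero m hm h, wd_zero]
      · exact Or.inl h
      · exact Or.inr (Or.inl h)
      · exact Or.inr (Or.inr h)
      · exfalso; apply hc1; rw [weight_full m hm h, wd_full]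
    have hcard : (support₂ (wd m)).card = popc m := by rw [support_wd, card_mk]
    have hA : 1 < (support₂ (wd m) \ {a, b}).card := by
      have h1 := Finset.le_card_sdiff ({a, b} : Finset GolayPt) (support₂ (wd m))
      have h2 : ({a, b} : Finset GolayPt).card ≤ 2 := Finset.card_le_two
      omega
    have hB : 0 < ((support₂ (wd m))ᶜ \ {a, b}).card := by
      have h1 := Finset.le_card_sdiff ({a, b} : Finset GolayPt) (support₂ (wd m))ᶜ
      have h2 : ({a, b} : Finset GolayPt).card ≤ 2 := Finset.card_le_two
      have h3 : ((support₂ (wd m))ᶜ).card = 24 - popc m := by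
        rw [Finset.card_compl, card_pt, hcard]
      omega
    obtain ⟨x, hx, z, hz, hxz⟩ := Finset.one_lt_card.mp hA
    obtain ⟨y, hy⟩ := Finset.card_pos.mp hB
    simp only [Finset.mem_sdiff, Finset.mem_insert, Finset.mem_singleton, not_or,
      Finset.mem_compl] at hx hz hy
    obtain ⟨hxs, hxa, hxb⟩ := hx
    obtain ⟨hzs, hza, hzb⟩ := hz
    obtain ⟨hys, hya, hyb⟩ := hy
    have hxy : x ≠ y := fun h => hys (h ▸ hxs)
    obtain ⟨g, hg, hmap⟩ := exists_map_lists [a, b, x, z] [a, b, x, y]
      (nodup4 hab (Ne.symm hxa) (Ne.symm hza) (Ne.symm hxb) (Ne.symm hzb) hxz)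
      (nodup4 hab (Ne.symm hxa) (Ne.symm hya) (Ne.symm hxb) (Ne.symm hyb) hxy) rfl
      (by norm_num)
    simp only [List.map_cons, List.map_nil, List.cons.injEq, and_true] at hmap
    obtain ⟨hga, hgb, hgx, hgz⟩ := hmap
    have h1 := key g hg hga
    rw [hgb, add_self_word, add_zero] at h1
    have hsx : g.symm x = x := by rw [Equiv.symm_apply_eq]; exact hgx.symm
    have hsy : g.symm y = z := by rw [Equiv.symm_apply_eq]; exact hgz.symm
    rcases hU _ h1 (golayCode.add_mem hc (act_mem_code hg hc)) with h | h
    · have h2 := congrFun h y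
      simp only [Pi.add_apply, Pi.zero_apply, hsy] at h2
      rw [not_support_val hys, support_val hzs] at h2
      revert h2; decide
    · have h2 := congrFun h x
      simp only [Pi.add_apply, Pi.one_apply, hsx] at h2
      rw [support_val hxs] at h2
      revert h2; decide
  rcases hc01 with rfl | rfl
  · exact ⟨a, b, hab, by rwa [zero_add] at hcW⟩
  · have hq : ∃ q, q ∉ ({a, b} : Finset GolayPt) := by
      by_contra h
      push Not at h
      have h1 : ({a, b} : Finset GolayPt) = Finset.univ := Finset.eq_univ_iff_forall.mpr h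
      have h2 : ({a, b} : Finset GolayPt).card ≤ 2 := Finset.card_le_two
      rw [h1, Finset.card_univ, card_pt] at h2
      omega
    obtain ⟨q, hq⟩ := hq
    simp only [Finset.mem_insert, Finset.mem_singleton, not_or] at hq
    obtain ⟨g, hg, hmap⟩ := exists_map_lists [a, b] [a, q]
      (nodup2 hab) (nodup2 (Ne.symm hq.1)) rfl (by norm_num)
    simp only [List.map_cons, List.map_nil, List.cons.injEq, and_true] at hmap
    obtain ⟨hga, hgb⟩ := hmap
    have h1 := key g hg hga
    rw [hgb] at h1
    have h2 : (fun x => (1 : GolayPt → ZMod 2) (g.symm x)) = 1 := rfl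
    rw [h2, one_add_one_word, zero_add] at h1
    exact ⟨b, q, fun h => hq.2 h.symm, h1⟩

/-- An invariant subspace containing a word of weight two contains all even-weight words. -/
theorem even_le (hW : ∀ σ ∈ M24, ∀ w ∈ W, (fun p => w (σ.symm p)) ∈ W)
    {a b : GolayPt} (hab : a ≠ b) (h : ind {a} + ind {b} ∈ W) :
    ∀ w : GolayPt → ZMod 2, ∑ p, w p = 0 → w ∈ W := by
  have hall : ∀ a' b' : GolayPt, ind {a'} + ind {b'} ∈ W := by
    intro a' b'
    by_cases hab' : a' = b'
    · rw [hab', add_self_word]; exact W.zero_mem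
    · obtain ⟨g, hg, hmap⟩ := exists_map_lists [a, b] [a', b']
        (by simp; tauto) (by simp; tauto) rfl (by simp)
      simp only [List.map_cons, List.map_nil, List.cons.injEq, and_true] at hmap
      obtain ⟨hga, hgb⟩ := hmap
      have h1 := hW g hg _ h
      rw [act_add, act_ind_single, act_ind_single, hga, hgb] at h1
      exact h1
  intro w hw
  have hdec : w = ∑ p, w p • (ind {p} + ind {none}) := by
    funext q
    rw [Finset.sum_apply]
    simp only [Pi.smul_apply, Pi.add_apply, smul_eq_mul, mul_add, Finset.sum_add_distrib,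
      ind_single_apply]
    rw [← Finset.sum_mul, hw, zero_mul, add_zero]
    simp
  rw [hdec]
  exact W.sum_mem (fun p _ => W.smul_mem _ (hall p none))

/-- For the automorphism group of the length-24 binary Golay code of the definitions (the Mathieu group of degree 24) acting on binary words of length 24 by permuting coordinates, the only invariant subspaces of the space of all words are: zero, the span of the all-ones word, the code itself, the even-weight words, and the whole space. (So the permutation module has a unique composition series.) -/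
theorem result (W : Submodule (ZMod 2) (Cfsg.GolayPt → ZMod 2)) (hW : ∀ σ ∈ Cfsg.M24, ∀ w ∈ W, (fun p => w (σ.symm p)) ∈ W) : W = ⊥ ∨ W = Submodule.span (ZMod 2) {fun _ => (1 : ZMod 2)} ∨ W = Cfsg.golayCode ∨ (W : Set (Cfsg.GolayPt → ZMod 2)) = {w | ∑ p, w p = 0} ∨ W = ⊤ := by
  by_cases hWC : W ≤ golayCode
  · rcases inv_sub_code W hW hWC with h | h | h
    · exact Or.inl h
    · exact Or.inr (Or.inl h)
    · exact Or.inr (Or.inr (Or.inl h))
  · right; right; right
    obtain ⟨w, hwW, hwC⟩ := SetLike.not_le_iff_exists.mp hWC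
    obtain ⟨a, b, hab, c, hc, hcW⟩ := exists_pair_mod W hW w hwW hwC
    have hpair : ∃ a' b' : GolayPt, a' ≠ b' ∧ ind {a'} + ind {b'} ∈ W := by
      have hUinv : ∀ σ ∈ M24, ∀ u ∈ W ⊓ golayCode, (fun p => u (σ.symm p)) ∈ W ⊓ golayCode :=
        fun σ hσ u hu => ⟨hW σ hσ u hu.1, act_mem_code hσ hu.2⟩
      rcases inv_sub_code (W ⊓ golayCode) hUinv inf_le_right with h | h | h
      · apply exists_pair W hW _ hab hc hcW
        intro u huW huC
        have h1 : u ∈ W ⊓ golayCode := ⟨huW, huC⟩
        rw [h, Submodule.mem_bot] at h1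
        exact Or.inl h1
      · apply exists_pair W hW _ hab hc hcW
        intro u huW huC
        have h1 : u ∈ W ⊓ golayCode := ⟨huW, huC⟩
        rw [h, Submodule.mem_span_singleton] at h1
        obtain ⟨r, rfl⟩ := h1
        rcases zmod2_cases r with rfl | rfl
        · left; rw [zero_smul]
        · right; rw [one_smul]; rfl
      · have hcW' : c ∈ W := by
          have h1 : c ∈ W ⊓ golayCode := by rw [h]; exact hc
          exact h1.1
        refine ⟨a, b, hab, ?_⟩
        have h2 := W.sub_mem hcW hcW'
        rwa [add_sub_cancel_left] at h2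
    obtain ⟨a', b', hab', hp⟩ := hpair
    have hE := even_le W hW hab' hp
    by_cases hall : ∀ v ∈ W, ∑ p, v p = 0
    · left
      exact Set.ext fun v => ⟨fun hv => hall v hv, fun hv => hE v hv⟩
    · right
      push Not at hall
      obtain ⟨v, hvW, hv⟩ := hall
      rw [eq_top_iff]
      intro u _
      by_cases hu : ∑ p, u p = 0
      · exact hE u hu
      · have hu1 : ∑ p, u p = 1 := by
          rcases zmod2_cases (∑ p, u p) with h | h
          · exact absurd h hu
          · exact h
        have hv1 : ∑ p, v p = 1 := by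
          rcases zmod2_cases (∑ p, v p) with h | h
          · exact absurd h hv
          · exact h
        have h1 : ∑ p, (u + v) p = 0 := by
          simp only [Pi.add_apply, Finset.sum_add_distrib]
          rw [hu1, hv1]; decide
        have h2 := W.add_mem (hE _ h1) hvW
        rwa [add_assoc, add_self_word, add_zero] at h2

end Cfsg.Agent.S5548
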