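import Cfsg.Statements.S5550
import Cfsg.Agent.Lib.Helper27.Oct
import Cfsg.Agent.Lib.Helper27.Dod
import Cfsg.Agent.Lib.Helper27.Coset

set_option autoImplicit false
open scoped Pointwise
open Cfsg

namespace Cfsg.Agent.S5550

open Cfsg.Agent.Lib.Helper27.Bits Cfsg.Agent.Lib.Helper27.Golay Cfsg.Agent.Lib.Helper27.M24
  Cfsg.Agent.Lib.Helper27.Cert Cfsg.Agent.Lib.Helper27.Trans Cfsg.Agent.Lib.Helper27.Fast
  Cfsg.Agent.Lib.Helper27.Coset

/-- the action of a permutation of the points on words -/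
def pw (σ : Equiv.Perm GolayPt) (w : GolayPt → ZMod 2) : GolayPt → ZMod 2 := fun p => w (σ.symm p)

theorem support_pw (σ : Equiv.Perm GolayPt) (w : GolayPt → ZMod 2) :
    support₂ (pw σ w) = σ • support₂ w := by
  ext p
  rw [← Finset.inv_smul_mem_iff]
  unfold support₂ pw
  rw [Finset.mem_filter, Finset.mem_filter]
  simp only [Finset.mem_univ, true_and]
  rfl

theorem pw_mul (σ τ : Equiv.Perm GolayPt) (w : GolayPt → ZMod 2) :
    pw (σ * τ) w = pw σ (pw τ w) := rfl

theorem pw_sub (σ : Equiv.Perm GolayPt) (w w' : GolayPt → ZMod 2) :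
    pw σ (w - w') = pw σ w - pw σ w' := rfl

theorem mem_code_iff (w : GolayPt → ZMod 2) :
    w ∈ golayCode ↔ support₂ w ∈ supports (golayCode : Set (GolayPt → ZMod 2)) := by
  constructor
  · intro h
    exact ⟨w, h, rfl⟩
  · rintro ⟨w', h, e⟩
    rw [← support₂_injective e]
    exact h

theorem pw_mem_iff {σ : Equiv.Perm GolayPt} (hσ : σ ∈ M24) (w : GolayPt → ZMod 2) :
    pw σ w ∈ golayCode ↔ w ∈ golayCode := by
  rw [mem_code_iff, mem_code_iff w, support_pw, supports_smul_iff hσ]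

theorem pw_wordOf {T : ℕ} (hT : validT T = true) (m : ℕ) :
    pw (gperm T) (wordOf m) = wordOf (pull T m) := by
  apply support₂_injective
  rw [support_pw, support_wordOf, support_wordOf, gperm_smul hT]

theorem syn_lt {m : ℕ} (hm : m < 2 ^ 24) : syn m < 4096 := by
  unfold syn
  rw [Nat.shiftRight_eq_div_pow]
  have h : m ^^^ cw (m % 4096) < 2 ^ 24 := Nat.xor_lt_two_pow hm (cw_lt _)
  have e1 : (2 : ℕ) ^ 24 = 16777216 := by norm_num
  have e2 : (2 : ℕ) ^ 12 = 4096 := by norm_num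
  rw [e1] at h
  rw [e2]
  omega

/-- a mask is a codeword iff its coset number vanishes -/
theorem wordOf_mem_syn {m : ℕ} (hm : m < 2 ^ 24) : wordOf m ∈ golayCode ↔ syn m = 0 := by
  rw [wordOf_mem_iff hm, enc_eq_cw (Nat.mod_lt _ (by norm_num)), syn_eq_zero_iff]

/-- tables of the group of the code map codewords to codewords -/
theorem pull_cw {T : ℕ} (hT : inM24 T = true) {c : ℕ} (hc : c < 4096) :
    ∃ c' < 4096, pull T (cw c) = cw c' := by
  have h := pull_enc_mem hT c
  rw [wordOf_mem_iff (pull_lt _ _), enc_eq_cw hc] at h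
  exact ⟨pull T (cw c) % 4096, Nat.mod_lt _ (by norm_num),
    by rw [← enc_eq_cw (Nat.mod_lt _ (by norm_num))]; exact h⟩

/-- the coset number of the image of a mask depends only on its coset number -/
theorem syn_pull {T : ℕ} (hT : inM24 T = true) (b : ℕ) :
    syn (pull T (syn b * 4096)) = syn (pull T b) := by
  obtain ⟨c', hc', e⟩ := pull_cw hT (Nat.mod_lt b (by norm_num : 4096 > 0))
  rw [← rep_eq, pull_xor, e, syn_xor_cw _ hc']

/-- some lane of `G` moves the coset `k` -/
noncomputable def movesOK (G : ℕ) : Bool :=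
  allB 4096 (fun k => Nat.beq k 0 ||
    !allB 16 (fun d => Nat.beq (syn (pull (tget G 120 d) (k * 4096))) k))

theorem movesB : movesOK Cfsg.Agent.Lib.Helper27.Oct.GB = true := by decide +kernel

theorem movesM : movesOK Cfsg.Agent.Lib.Helper27.Dod.GM = true := by decide +kernel

/-- the claim for words fixed by the stabiliser of the set `A` -/
def Claim (A : Finset GolayPt) : Prop :=
  ∀ w : GolayPt → ZMod 2, w ∉ golayCode → ∃ σ ∈ M24, σ • A = A ∧ pw σ w - w ∉ golayCode

theorem claim_of_cert {G a : ℕ} (hG : gensOK G [a] = true) (hm : movesOK G = true) :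
    Claim (fsOf a) := by
  intro w hw
  obtain ⟨b, hb, rfl⟩ := exists_wordOf w
  have hk : syn b ≠ 0 := fun h => hw ((wordOf_mem_syn hb).mpr h)
  have h1 := (allB_iff _ _).mp hm (syn b) (syn_lt hb)
  rw [Bool.or_eq_true] at h1
  rcases h1 with h1 | h1
  · exact absurd (Nat.eq_of_beq_eq_true h1) hk
  · have h2 : ∃ d < 16,
        ¬ (Nat.beq (syn (pull (tget G 120 d) (syn b * 4096))) (syn b) = true) := by
      by_contra hcon
      have h : ∀ d < 16, Nat.beq (syn (pull (tget G 120 d) (syn b * 4096))) (syn b) = true :=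
        fun d hd => by_contra (fun hh => hcon ⟨d, hd, hh⟩)
      rw [← allB_iff] at h
      rw [h] at h1
      exact absurd h1 (by decide)
    obtain ⟨d, hd, h3⟩ := h2
    have h4 := (allB_iff _ _).mp hG d hd
    rw [Bool.and_eq_true] at h4
    obtain ⟨hv, hmem⟩ := gensOK_spec hG d hd
    refine ⟨gperm (tget G 120 d), hmem.1, hmem.2 a (by simp), ?_⟩
    rw [pw_wordOf hv]
    have e : wordOf (pull (tget G 120 d) b) - wordOf b = wordOf (pull (tget G 120 d) b ^^^ b) := by
      rw [wordOf_xor]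
      funext p
      simp only [Pi.sub_apply, Pi.add_apply]
      exact CharTwo.sub_eq_add _ _
    rw [e, wordOf_mem_syn (Nat.xor_lt_two_pow (pull_lt _ _) hb)]
    intro h5
    apply h3
    rw [syn_pull h4.1]
    have h6 : syn (pull (tget G 120 d) b) = syn b := by
      rw [same_coset_iff]
      exact ⟨_, Nat.mod_lt _ (by norm_num), (syn_eq_zero_iff _).mp h5⟩
    rw [h6]
    exact Nat.beq_refl _

theorem claim_smul {A : Finset GolayPt} (h : Claim A) {g : Equiv.Perm GolayPt} (hg : g ∈ M24) :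
    Claim (g • A) := by
  intro w hw
  have hw' : pw g⁻¹ w ∉ golayCode := fun h' => hw ((pw_mem_iff (M24.inv_mem hg) w).mp h')
  obtain ⟨σ, hσ, hA, hn⟩ := h _ hw'
  refine ⟨g * σ * g⁻¹, M24.mul_mem (M24.mul_mem hg hσ) (M24.inv_mem hg), ?_, ?_⟩
  · rw [mul_smul, mul_smul, inv_smul_smul, hA]
  · intro h'
    have e : pw (g * σ * g⁻¹) w - w = pw g (pw σ (pw g⁻¹ w) - pw g⁻¹ w) := by
      rw [pw_sub, ← pw_mul g g⁻¹ w, mul_inv_cancel]
      rfl
    rw [e, pw_mem_iff hg] at h'
    exact hn h'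

theorem claim_empty : Claim ∅ := by
  intro w hw
  obtain ⟨σ, hσ, -, hn⟩ := claim_of_cert Cfsg.Agent.Lib.Helper27.Oct.gB movesB w hw
  exact ⟨σ, hσ, Finset.smul_finset_empty _, hn⟩

theorem claim_univ : Claim Finset.univ := by
  intro w hw
  obtain ⟨σ, hσ, -, hn⟩ := claim_of_cert Cfsg.Agent.Lib.Helper27.Oct.gB movesB w hw
  exact ⟨σ, hσ, Finset.smul_finset_univ, hn⟩

theorem claim_compl {A : Finset GolayPt} (h : Claim Aᶜ) : Claim A := by
  intro w hw
  obtain ⟨σ, hσ, hA, hn⟩ := h w hw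
  refine ⟨σ, hσ, ?_, hn⟩
  have e : σ • Aᶜ = (σ • A)ᶜ := by
    rw [Finset.compl_eq_univ_sdiff, Finset.compl_eq_univ_sdiff, Finset.smul_finset_sdiff,
      Finset.smul_finset_univ]
  rw [e] at hA
  exact compl_injective hA

theorem fsOf_compl (m : ℕ) : fsOf (m ^^^ 16777215) = (fsOf m)ᶜ := by
  ext p
  rw [Finset.mem_compl, mem_setOf, mem_setOf, Nat.testBit_xor]
  have h1 : (16777215 : ℕ).testBit (idx p) = true := by
    have h2 : (16777215 : ℕ) = 2 ^ 24 - 1 := by norm_num
    rw [h2, Nat.testBit_two_pow_sub_one]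
    exact decide_eq_true (idx_lt p)
  rw [h1]
  cases m.testBit (idx p) <;> simp

/-- the weights of the codewords -/
def wtOK (c : ℕ) : Bool :=
  (Nat.beq (pcF (cw c)) 0 && Nat.beq (cw c) 0) || (Nat.beq (pcF (cw c)) 8 ||
    (Nat.beq (pcF (cw c)) 12 || ((Nat.beq (pcF (cw c)) 24 && Nat.beq (cw c) 16777215) ||
      (Nat.beq (pcF (cw c ^^^ 16777215)) 8 &&
        Nat.beq (cw ((cw c ^^^ 16777215) % 4096)) (cw c ^^^ 16777215)))))

theorem wts : allB 4096 wtOK = true := by decide +kernel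

theorem claim_code {s : Finset GolayPt} (hs : s ∈ supports (golayCode : Set (GolayPt → ZMod 2))) :
    Claim s := by
  obtain ⟨c, hc, rfl⟩ := (mem_supports_cw s).mp hs
  have h := (allB_iff _ _).mp wts c hc
  unfold wtOK at h
  simp only [Bool.or_eq_true, Bool.and_eq_true] at h
  rcases h with ⟨-, h⟩ | h | h | ⟨-, h⟩ | ⟨h1, h2⟩
  · rw [Nat.eq_of_beq_eq_true h, setOf_zero]
    exact claim_empty
  · have ho : fsOf (cw c) ∈ octads := (mem_octads_cw _).mpr ⟨c, hc, rfl, Nat.eq_of_beq_eq_true h⟩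
    obtain ⟨g, hg, e⟩ := Cfsg.Agent.Lib.Helper27.Oct.octad_trans _ ho
    rw [← e]
    exact claim_smul (claim_of_cert Cfsg.Agent.Lib.Helper27.Oct.gB movesB) hg
  · have ho : fsOf (cw c) ∈ dodecads :=
      (mem_dodecads_cw _).mpr ⟨c, hc, rfl, Nat.eq_of_beq_eq_true h⟩
    obtain ⟨g, hg, e⟩ := Cfsg.Agent.Lib.Helper27.Dod.dodecad_trans _ ho
    rw [← e]
    exact claim_smul (claim_of_cert Cfsg.Agent.Lib.Helper27.Dod.gM movesM) hg
  · rw [Nat.eq_of_beq_eq_true h]
    have e : fsOf 16777215 = Finset.univ := by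
      have := fsOf_compl 0
      rw [setOf_zero, Nat.zero_xor] at this
      rw [this, Finset.compl_empty]
    rw [e]
    exact claim_univ
  · apply claim_compl
    rw [← fsOf_compl]
    have ho : fsOf (cw c ^^^ 16777215) ∈ octads :=
      (mem_octads_cw _).mpr ⟨(cw c ^^^ 16777215) % 4096, Nat.mod_lt _ (by norm_num),
        by rw [Nat.eq_of_beq_eq_true h2],
        by rw [Nat.eq_of_beq_eq_true h2]; exact Nat.eq_of_beq_eq_true h1⟩
    obtain ⟨g, hg, e⟩ := Cfsg.Agent.Lib.Helper27.Oct.octad_trans _ ho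
    rw [← e]
    exact claim_smul (claim_of_cert Cfsg.Agent.Lib.Helper27.Oct.gB movesB) hg

/-- Let u be a word of the length-24 binary Golay code of the definitions (possibly zero or all-ones) and w any binary word of length 24 outside the code. Then some automorphism of the code (a coordinate permutation preserving it) fixes u but moves w to a word not congruent to w modulo the code: the stabilizer of a codeword fixes no non-zero element of the quotient of the space of all words by the code. -/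
theorem result (u : (Cfsg.GolayPt → ZMod 2)) (hu : u ∈ Cfsg.golayCode) (w : (Cfsg.GolayPt → ZMod 2)) (hw : w ∉ Cfsg.golayCode) : ∃ σ ∈ Cfsg.M24, (fun p => u (σ.symm p)) = u ∧ (fun p => w (σ.symm p)) - w ∉ Cfsg.golayCode := by
  obtain ⟨σ, hσ, hs, hn⟩ := claim_code ((mem_code_iff u).mp hu) w hw
  refine ⟨σ, hσ, ?_, hn⟩
  apply support₂_injective
  show support₂ (pw σ u) = support₂ u
  rw [support_pw, hs]

end Cfsg.Agent.S5550
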