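import Cfsg.Statements.S5593
import Cfsg.Agent.Lib.Helper92.Cross

set_option autoImplicit false
open Cfsg

namespace Cfsg.Agent.S5593

/-- The automorphism group of the Leech lattice acts transitively on the congruence classes modulo twice the lattice of the vectors of sum of squares 64 (customary norm 8): for any two such vectors some automorphism carries the first to a vector congruent to the second. -/
theorem result (v w : ↥Cfsg.leechLattice) (hv : Cfsg.sqNorm (v : Cfsg.GolayPt → ℤ) = 64) (hw : Cfsg.sqNorm (w : Cfsg.GolayPt → ℤ) = 64) :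
    ∃ g : ↥Cfsg.Co0, ∃ z ∈ Cfsg.leechLattice, ((g • v : ↥Cfsg.leechLattice) : Cfsg.GolayPt → ℤ) - (w : Cfsg.GolayPt → ℤ) = 2 • z := by
  obtain ⟨y', ⟨f, hf, hx, hy, e⟩, z, hz, hyz⟩ :=
    Cfsg.Agent.Lib.Helper92.Cross.trans64 v.2 hv w.2 hw
  refine ⟨⟨f, hf⟩, z, hz, ?_⟩
  have h1 : ((⟨f, hf⟩ : ↥Cfsg.Co0) • v : ↥Cfsg.leechLattice) = ⟨y', hy⟩ := e
  rw [h1]
  exact hyz

end Cfsg.Agent.S5593
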