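-- Statement S5594: Co0 does not split over its centre.
import Cfsg.Statements.S5594
import Cfsg.Agent.Lib.Helper93.Monomial
import Cfsg.Agent.S0372
import Cfsg.Prelude.Def_Spor_Conway
import Cfsg.Prelude.Def_Spor_Mathieu

set_option autoImplicit false
open Cfsg

namespace Cfsg.Agent.S5594

open Cfsg.Agent.Lib.Helper93.Monomial Cfsg.Agent.Lib.Helper92.LeechCore Cfsg.Spor
open scoped Pointwise

theorem squareDodecad_mem :
    squareDodecad ∈ supports (golayCode : Set (GolayPt → ZMod 2)) :=
  ⟨qrWord 0, Submodule.subset_span (Or.inl ⟨0, rfl⟩), rfl⟩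

theorem projInv_swap : ∀ i : GolayPt, (i ∈ squareDodecad ↔ ¬ projInv.symm i ∈ squareDodecad) := by
  unfold squareDodecad support₂
  decide +kernel

theorem projInv_invol : ∀ i : GolayPt, projInv.symm (projInv.symm i) = i := by
  decide +kernel

/-- The monomial element whose square is negation. -/
def gEl : Equiv.Perm leechLattice :=
  monoEquiv projInv Cfsg.Agent.S0372.result squareDodecad squareDodecad_mem

theorem gEl_sq : gEl * gEl = negEquiv := by
  ext v i
  show signedPerm projInv squareDodecad (signedPerm projInv squareDodecad v) i = -(v : GolayPt → ℤ) i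
  have h1 := projInv_swap i
  have h2 := projInv_invol i
  unfold signedPerm
  simp only [h2]
  by_cases hi : i ∈ squareDodecad
  · have hi' : ¬ projInv.symm i ∈ squareDodecad := h1.mp hi
    simp [hi, hi']
  · have hi' : projInv.symm i ∈ squareDodecad := by
      by_contra h
      exact hi (h1.mpr h)
    simp [hi, hi']

theorem negEquiv_ne_one : negEquiv ≠ 1 := by
  intro h
  have h1 : negEquiv Spor.leechU = Spor.leechU := by rw [h]; rfl
  have h2 := congrArg (fun v : leechLattice => (v : GolayPt → ℤ) none) h1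
  simp only [negEquiv_apply] at h2
  have h3 : ((Spor.leechU : leechLattice) : GolayPt → ℤ) none = 4 := by decide
  rw [Pi.neg_apply, h3] at h2
  omega

/-- Co0 = Aut(Λ) does not split over ⟨−1⟩. -/
theorem result :
    ∃ n : ↥Cfsg.Co0, (∀ v : ↥Cfsg.leechLattice, ((n • v : ↥Cfsg.leechLattice) : Cfsg.GolayPt → ℤ) = -(v : Cfsg.GolayPt → ℤ)) ∧
    ∀ K : Subgroup ↥Cfsg.Co0, ¬ (Subgroup.zpowers n).IsComplement' K := by
  refine ⟨⟨negEquiv, negEquiv_mem_Co0⟩, fun v => rfl, fun K hK => ?_⟩
  set n : Co0 := ⟨negEquiv, negEquiv_mem_Co0⟩ with hn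
  set g : Co0 := ⟨gEl, monoEquiv_mem_Co0 _ _ _ _⟩ with hg
  have hgg : g * g = n := Subtype.ext gEl_sq
  have hn2 : n * n = 1 := by
    apply Subtype.ext
    ext v i
    show (-(-(v : GolayPt → ℤ))) i = (v : GolayPt → ℤ) i
    rw [neg_neg]
  have hncomm : ∀ k : Co0, n * k = k * n := by
    intro k
    apply Subtype.ext
    apply Equiv.ext
    intro v
    show (negEquiv ((k : Equiv.Perm leechLattice) v) : leechLattice)
      = (k : Equiv.Perm leechLattice) (negEquiv v)
    have hadd := k.2.1
    have e1 : (k : Equiv.Perm leechLattice) (negEquiv v) + (k : Equiv.Perm leechLattice) v = 0 := by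
      rw [← hadd]
      have : negEquiv v + v = 0 := neg_add_cancel v
      rw [this]
      have h0 := hadd 0 0
      rw [add_zero] at h0
      exact (add_eq_left.mp h0.symm)
    have e2 : negEquiv ((k : Equiv.Perm leechLattice) v) = -((k : Equiv.Perm leechLattice) v) := rfl
    rw [e2]
    exact (eq_neg_of_add_eq_zero_left e1).symm
  -- decompose g
  have hmem : g ∈ (Subgroup.zpowers n : Set Co0) * (K : Set Co0) := by
    rw [hK.mul_eq]
    exact Set.mem_univ g
  obtain ⟨h, hh, k, hk, hhk⟩ := hmem
  have hh' : h = 1 ∨ h = n := by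
    obtain ⟨j, rfl⟩ := Subgroup.mem_zpowers_iff.mp hh
    rcases Int.emod_two_eq_zero_or_one j with hj | hj
    · left
      obtain ⟨t, rfl⟩ : ∃ t, j = 2 * t := ⟨j / 2, by omega⟩
      rw [zpow_mul, zpow_two, hn2, one_zpow]
    · right
      obtain ⟨t, rfl⟩ : ∃ t, j = 2 * t + 1 := ⟨j / 2, by omega⟩
      rw [zpow_add, zpow_mul, zpow_two, hn2, one_zpow, one_mul, zpow_one]
  have hh2 : h * h = 1 := by
    rcases hh' with rfl | rfl
    · exact one_mul 1
    · exact hn2
  have hhcomm : h * k = k * h := by
    rcases hh' with rfl | rfl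
    · rw [one_mul, mul_one]
    · exact hncomm k
  have hkk : k * k = n := by
    rw [← hgg, ← hhk]
    symm
    have : h * k * (h * k) = (h * h) * (k * k) := by
      calc h * k * (h * k) = h * (k * h) * k := by simp only [mul_assoc]
        _ = h * (h * k) * k := by rw [hhcomm]
        _ = (h * h) * (k * k) := by simp only [mul_assoc]
    show h * k * (h * k) = k * k
    rw [this, hh2, one_mul]
  have hnK : n ∈ K := hkk ▸ K.mul_mem hk hk
  have hnbot : n ∈ Subgroup.zpowers n ⊓ K := ⟨Subgroup.mem_zpowers n, hnK⟩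
  rw [hK.disjoint.eq_bot, Subgroup.mem_bot] at hnbot
  apply negEquiv_ne_one
  exact congrArg Subtype.val hnbot

end Cfsg.Agent.S5594
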