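import Cfsg.Statements.S5599
import Cfsg.Agent.Lib.Helper7.MathieuSimple
import Cfsg.Agent.Lib.Helper7.S5599Aux

set_option autoImplicit false
open scoped Pointwise
open Cfsg

namespace Cfsg.Agent.S5599

/-- In the automorphism group of the length-24 code, the two-point Mathieu group (permutations of the code's group fixing the extra point and the residue 0) has index 2 in the setwise stabiliser of that pair of points, and an element of the code's group interchanging the two points normalises the two-point group and induces on it, by conjugation, an automorphism that is not inner. -/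
theorem result (g : Equiv.Perm Cfsg.GolayPt) (hg : g ∈ Cfsg.M24) (h₁ : g none = some 0) (h₂ : g (some 0) = none) : Cfsg.Spor.M22.relIndex (Cfsg.M24 ⊓ MulAction.stabilizer (Equiv.Perm Cfsg.GolayPt) ({none, some 0} : Finset Cfsg.GolayPt)) = 2 ∧ (∀ x ∈ Cfsg.Spor.M22, g * x * g⁻¹ ∈ Cfsg.Spor.M22) ∧ ¬ ∃ h ∈ Cfsg.Spor.M22, ∀ x ∈ Cfsg.Spor.M22, g * x * g⁻¹ = h * x * h⁻¹ := by

  classical
  have hM23 : ∀ x : Equiv.Perm Cfsg.GolayPt, x ∈ Cfsg.Spor.M22 ↔
      x ∈ Cfsg.M24 ∧ x none = none ∧ x (some 0) = some 0 := by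
    intro x
    constructor
    · rintro ⟨⟨hx1, hx2⟩, hx3⟩
      exact ⟨hx1, hx2, hx3⟩
    · rintro ⟨hx1, hx2, hx3⟩
      exact ⟨⟨hx1, hx2⟩, hx3⟩
  have hgi1 : g⁻¹ none = some 0 := by
    rw [Equiv.Perm.inv_eq_iff_eq]; exact h₂.symm
  have hgi2 : g⁻¹ (some 0) = none := by
    rw [Equiv.Perm.inv_eq_iff_eq]; exact h₁.symm
  have hne : (none : Cfsg.GolayPt) ≠ some 0 := by simp
  -- elements of the pair stabiliser
  have hpair : ∀ b : Equiv.Perm Cfsg.GolayPt,
      b ∈ MulAction.stabilizer (Equiv.Perm Cfsg.GolayPt) ({none, some 0} : Finset Cfsg.GolayPt) ↔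
      (b none = none ∧ b (some 0) = some 0) ∨ (b none = some 0 ∧ b (some 0) = none) := by
    intro b
    rw [MulAction.mem_stabilizer_iff]
    constructor
    · intro hb
      have hb1 : b none ∈ ({none, some 0} : Finset Cfsg.GolayPt) := by
        rw [← hb]
        exact Finset.smul_mem_smul_finset (by simp)
      have hb2 : b (some 0) ∈ ({none, some 0} : Finset Cfsg.GolayPt) := by
        rw [← hb]
        exact Finset.smul_mem_smul_finset (by simp)
      rw [Finset.mem_insert, Finset.mem_singleton] at hb1 hb2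
      rcases hb1 with hb1 | hb1 <;> rcases hb2 with hb2 | hb2
      · exact absurd (b.injective (hb1.trans hb2.symm)) hne
      · exact Or.inl ⟨hb1, hb2⟩
      · exact Or.inr ⟨hb1, hb2⟩
      · exact absurd (b.injective (hb1.trans hb2.symm)) hne
    · intro hb
      ext y
      rw [Finset.mem_smul_finset]
      constructor
      · rintro ⟨z, hz, rfl⟩
        rw [Finset.mem_insert, Finset.mem_singleton] at hz ⊢
        rcases hb with ⟨hb1, hb2⟩ | ⟨hb1, hb2⟩ <;> rcases hz with rfl | rfl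
        · exact Or.inl hb1
        · exact Or.inr hb2
        · exact Or.inr hb1
        · exact Or.inl hb2
      · intro hy
        rw [Finset.mem_insert, Finset.mem_singleton] at hy
        rcases hb with ⟨hb1, hb2⟩ | ⟨hb1, hb2⟩ <;> rcases hy with rfl | rfl
        · exact ⟨none, by simp, hb1⟩
        · exact ⟨some 0, by simp, hb2⟩
        · exact ⟨some 0, by simp, hb2⟩
        · exact ⟨none, by simp, hb1⟩
  refine ⟨?_, ?_, ?_⟩
  · unfold Subgroup.relIndex
    rw [Subgroup.index_eq_two_iff]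
    have hgK : g ∈ Cfsg.M24 ⊓ MulAction.stabilizer (Equiv.Perm Cfsg.GolayPt)
        ({none, some 0} : Finset Cfsg.GolayPt) :=
      ⟨hg, (hpair g).mpr (Or.inr ⟨h₁, h₂⟩)⟩
    refine ⟨⟨g, hgK⟩, ?_⟩
    rintro ⟨b, hbM, hbS⟩
    rw [Subgroup.mem_subgroupOf, Subgroup.mem_subgroupOf]
    show Xor' (b * g ∈ Cfsg.Spor.M22) (b ∈ Cfsg.Spor.M22)
    rw [hM23, hM23]
    rcases (hpair b).mp hbS with ⟨hb1, hb2⟩ | ⟨hb1, hb2⟩
    · refine Or.inr ⟨⟨hbM, hb1, hb2⟩, ?_⟩
      rintro ⟨-, h, -⟩
      rw [Equiv.Perm.mul_apply, h₁, hb2] at h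
      exact hne h.symm
    · refine Or.inl ⟨⟨Subgroup.mul_mem _ hbM hg, ?_, ?_⟩, ?_⟩
      · rw [Equiv.Perm.mul_apply, h₁, hb2]
      · rw [Equiv.Perm.mul_apply, h₂, hb1]
      · rintro ⟨-, h, -⟩
        rw [hb1] at h
        exact hne h.symm
  · intro x hx
    rw [hM23] at hx ⊢
    refine ⟨Subgroup.mul_mem _ (Subgroup.mul_mem _ hg hx.1) (Subgroup.inv_mem _ hg), ?_, ?_⟩
    · rw [Equiv.Perm.mul_apply, Equiv.Perm.mul_apply, hgi1, hx.2.2, h₂]
    · rw [Equiv.Perm.mul_apply, Equiv.Perm.mul_apply, hgi2, hx.2.1, h₁]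
  · rintro ⟨h, hh, hconj⟩
    rw [hM23] at hh
    obtain ⟨hhM, hh1, hh2⟩ := hh
    have hhi1 : h⁻¹ none = none := by
      rw [Equiv.Perm.inv_eq_iff_eq]; exact hh1.symm
    have hhi2 : h⁻¹ (some 0) = some 0 := by
      rw [Equiv.Perm.inv_eq_iff_eq]; exact hh2.symm
    set c : Equiv.Perm Cfsg.GolayPt := h⁻¹ * g with hc
    have hcM : c ∈ Cfsg.M24 := Subgroup.mul_mem _ (Subgroup.inv_mem _ hhM) hg
    have hc1 : c none = some 0 := by
      rw [hc, Equiv.Perm.mul_apply, h₁, hhi2]
    have hc2 : c (some 0) = none := by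
      rw [hc, Equiv.Perm.mul_apply, h₂, hhi1]
    have hcomm : ∀ x ∈ Cfsg.Spor.M22, c * x = x * c := by
      intro x hx
      have := hconj x hx
      rw [hc]
      have h3 : h⁻¹ * (g * x * g⁻¹) * g = h⁻¹ * (h * x * h⁻¹) * g := by rw [this]
      simpa [mul_assoc] using h3
    have hfix : ∀ y : Cfsg.GolayPt, y ≠ none → y ≠ some 0 → c y = y := by
      intro y hy1 hy2
      by_contra hcy
      have hy'1 : c y ≠ none := by
        intro h
        exact hy2 (c.injective (h.trans hc2.symm))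
      have hy'2 : c y ≠ some 0 := by
        intro h
        exact hy1 (c.injective (h.trans hc1.symm))
      -- a fifth point
      obtain ⟨z, hz⟩ : ∃ z : Cfsg.GolayPt, z ∉ ({none, some 0, y, c y} : Finset Cfsg.GolayPt) := by
        by_contra hcon
        simp only [not_exists, not_not] at hcon
        have hsub : (Finset.univ : Finset Cfsg.GolayPt) ⊆ {none, some 0, y, c y} :=
          fun z _ => hcon z
        have hcard := Finset.card_le_card hsub
        rw [Finset.card_univ, Cfsg.Agent.Lib.Helper7.MathieuSimple.card_golayPt] at hcard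
        have h4 : ({none, some 0, y, c y} : Finset Cfsg.GolayPt).card ≤ 4 :=
          Finset.card_le_four
        omega
      simp only [Finset.mem_insert, Finset.mem_singleton, not_or] at hz
      obtain ⟨hz1, hz2, hz3, hz4⟩ := hz
      haveI := Cfsg.Agent.Lib.Helper7.MathieuSimple.m24_four
      obtain ⟨x, hx1, hx2, hx3, hx4⟩ :=
        Cfsg.Agent.Lib.Helper7.SimpleOn.four_of_multiply (G := Cfsg.M24)
          none (some 0) y (c y) none (some 0) y z hne (Ne.symm hy1) (Ne.symm hy'1)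
          (Ne.symm hy2) (Ne.symm hy'2) (Ne.symm hcy) hne (Ne.symm hy1) (Ne.symm hz1)
          (Ne.symm hy2) (Ne.symm hz2) (Ne.symm hz3)
      have hxM : (x : Equiv.Perm Cfsg.GolayPt) ∈ Cfsg.Spor.M22 := by
        rw [hM23]
        exact ⟨x.2, hx1, hx2⟩
      have := congrArg (fun e : Equiv.Perm Cfsg.GolayPt => e y) (hcomm _ hxM)
      simp only [Equiv.Perm.mul_apply] at this
      have hx3' : (x : Equiv.Perm Cfsg.GolayPt) y = y := hx3
      have hx4' : (x : Equiv.Perm Cfsg.GolayPt) (c y) = z := hx4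
      rw [hx3', hx4'] at this
      exact hz4 this.symm
    have hcswap : c = Equiv.swap none (some 0) := by
      ext y
      by_cases hy1 : y = none
      · subst hy1; rw [hc1, Equiv.swap_apply_left]
      · by_cases hy2 : y = some 0
        · subst hy2; rw [hc2, Equiv.swap_apply_right]
        · rw [hfix y hy1 hy2, Equiv.swap_apply_of_ne_of_ne hy1 hy2]
    rw [hcswap] at hcM
    have hmem := Cfsg.Agent.Lib.Helper7.M24Mem.smul_mem_supports hcM
      (Cfsg.Agent.Lib.Helper7.GolayCode.mk_mem_supports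
        (c := Cfsg.Agent.Lib.Helper7.M12Core.d0) (Cfsg.Agent.Lib.Helper7.S5599Aux.d0_code))
    rw [Cfsg.Agent.Lib.Helper7.S5599Aux.swap_smul,
      Cfsg.Agent.Lib.Helper7.GolayCode.mem_supports_iff] at hmem
    obtain ⟨c', hc', hmk⟩ := hmem
    have := Cfsg.Agent.Lib.Helper7.GolayBase.mk_injOn
      (Cfsg.Agent.Lib.Helper7.GolayCode.codeList_lt c' hc') (by norm_num) hmk
    rw [this] at hc'
    exact Cfsg.Agent.Lib.Helper7.S5599Aux.not_code hc'

end Cfsg.Agent.S5599
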