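-- Statement S5601: two classes of subgroups of order 3
import Cfsg.Statements.S5601
import Cfsg.Agent.Lib.Helper93.OrbOct
import Cfsg.Agent.Lib.Helper93.ClassCount
set_option autoImplicit false
open scoped Pointwise
open Cfsg

namespace Cfsg.Agent.S5601

open Cfsg.Agent.Lib.Helper27.Bits Cfsg.Agent.Lib.Helper27.Golay Cfsg.Agent.Lib.Helper27.M24
  Cfsg.Agent.Lib.Helper27.Cert Cfsg.Agent.Lib.Helper27.Trans Cfsg.Agent.Lib.Helper27.Fast
  Cfsg.Agent.Lib.Helper93.Fam Cfsg.Agent.Lib.Helper93.Sext Cfsg.Agent.Lib.Helper93.Trio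
  Cfsg.Agent.Lib.Helper93.OrbTools Cfsg.Agent.Lib.Helper93.OrbOct
open Cfsg.Agent.Lib.Helper93.NForm Cfsg.Agent.Lib.Helper93.Classes Cfsg.Agent.Lib.Helper93.ClassCount


theorem cb3A : cubeB C3A = true := by decide +kernel
theorem cb3B : cubeB C3B = true := by decide +kernel

theorem gperm_cube {C : ℕ} (hv : validT C = true) (h : cubeB C = true) :
    gperm C * gperm C * gperm C = 1 := by
  apply inv_injective
  refine Equiv.ext fun p => ?_
  rw [mul_inv_rev, mul_inv_rev, inv_one]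
  show (gperm C)⁻¹ ((gperm C)⁻¹ ((gperm C)⁻¹ p)) = p
  rw [gperm_inv_apply hv p, gperm_inv_pt hv (validT_lt hv _ (idx_lt p)),
    gperm_inv_pt hv (validT_lt hv _ (validT_lt hv _ (idx_lt p))),
    Nat.eq_of_beq_eq_true ((allB_iff _ _).mp h (idx p) (idx_lt p)), pt_idx]

/-- the fixed points of a subgroup -/
def fixSet (X : Subgroup ↥M24) : Set GolayPt :=
  {p : GolayPt | ∀ x ∈ X, ((x : ↥M24) : Equiv.Perm GolayPt) p = p}

theorem ncard_fixSet (x : ↥M24) :
    (fixSet (Subgroup.zpowers x)).ncard =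
      (Finset.univ.filter fun p => (x : Equiv.Perm GolayPt) p = p).card := by
  have h : fixSet (Subgroup.zpowers x) =
      ((Finset.univ.filter fun p => (x : Equiv.Perm GolayPt) p = p : Finset GolayPt) :
        Set GolayPt) := by
    ext p
    simp only [fixSet, Set.mem_ofPred_eq, Finset.coe_filter, Finset.mem_univ, true_and]
    constructor
    · intro h
      exact h x (Subgroup.mem_zpowers x)
    · intro h y hy
      obtain ⟨k, rfl⟩ := Subgroup.mem_zpowers_iff.mp hy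
      rw [Subgroup.coe_zpow]
      exact Equiv.Perm.zpow_apply_eq_self_of_apply_eq_self h k
  rw [h, Set.ncard_coe_finset]

/-- a subgroup of order 3 is generated by an element of order 3 -/
theorem gen3 (X : Subgroup ↥M24) (hX : Nat.card X = 3) :
    ∃ x : ↥M24, orderOf x = 3 ∧ X = Subgroup.zpowers x := by
  have hfin : Finite X := Nat.finite_of_card_ne_zero (by rw [hX]; norm_num)
  have hne : X ≠ ⊥ := by
    rintro rfl
    rw [Subgroup.card_bot] at hX
    exact absurd hX (by norm_num)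
  obtain ⟨x, hx, hx1⟩ := (Subgroup.ne_bot_iff_exists_ne_one (H := X)).mp hne |>.imp
    (fun a ha => ha) |> fun ⟨a, ha⟩ => (⟨a.1, a.2, fun h => ha (Subtype.ext h)⟩ :
      ∃ x : ↥M24, x ∈ X ∧ x ≠ 1)
  have hdvd : orderOf x ∣ 3 := by
    rw [← hX]
    exact Subgroup.orderOf_dvd_natCard X hx
  have ho : orderOf x = 3 := by
    rcases (Nat.dvd_prime Nat.prime_three).mp hdvd with h | h
    · exact absurd (orderOf_eq_one_iff.mp h) hx1
    · exact h
  refine ⟨x, ho, ?_⟩
  symm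
  apply Subgroup.eq_of_le_of_card_ge (Subgroup.zpowers_le.mpr hx)
  rw [Nat.card_zpowers, ho, hX]

/-- the two classes of elements of order 3 -/
theorem class3 (x : ↥M24) (ho : orderOf x = 3) :
    (∃ d ∈ M24, d * (x : Equiv.Perm GolayPt) * d⁻¹ = gperm C3A) ∨
      (∃ d ∈ M24, d * (x : Equiv.Perm GolayPt) * d⁻¹ = gperm C3B) := by
  have hcb : x * x * x = 1 := by rw [← pow_three', ← ho]; exact pow_orderOf_eq_one x
  have hcb' : (x : Equiv.Perm GolayPt) * x * x = 1 := congrArg Subtype.val hcb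
  have hne : (x : Equiv.Perm GolayPt) ≠ 1 := by
    intro h
    have : x = 1 := Subtype.ext h
    rw [this, orderOf_one] at ho
    exact absurd ho (by norm_num)
  exact ord3_cases x.2 hcb' hne

theorem fix_of_conj {x : ↥M24} {d : Equiv.Perm GolayPt} {C : ℕ} (hC : inM24 C = true)
    (e : d * (x : Equiv.Perm GolayPt) * d⁻¹ = gperm C) :
    (fixSet (Subgroup.zpowers x)).ncard = fixN C := by
  rw [ncard_fixSet, card_fix_conj e, card_fix_gperm (inM24_valid hC)]

/-- conjugating a cyclic subgroup -/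
theorem conj_zpowers (k x : ↥M24) :
    MulAut.conj k • Subgroup.zpowers x = Subgroup.zpowers (k * x * k⁻¹) := by
  have h : MulAut.conj k • Subgroup.zpowers x =
      (Subgroup.zpowers x).map (MulAut.conj k).toMonoidHom := rfl
  rw [h, MonoidHom.map_zpowers]
  rfl

theorem conj_of_same {x y : ↥M24} {d e : Equiv.Perm GolayPt} (hd : d ∈ M24) (he : e ∈ M24)
    {C : ℕ} (h1 : d * (x : Equiv.Perm GolayPt) * d⁻¹ = gperm C)
    (h2 : e * (y : Equiv.Perm GolayPt) * e⁻¹ = gperm C) :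
    ∃ k : ↥M24, MulAut.conj k • Subgroup.zpowers x = Subgroup.zpowers y := by
  refine ⟨(⟨e, he⟩ : ↥M24)⁻¹ * ⟨d, hd⟩, ?_⟩
  rw [conj_zpowers]
  congr 1
  apply Subtype.ext
  show e⁻¹ * d * (x : Equiv.Perm GolayPt) * (e⁻¹ * d)⁻¹ = y
  have e3 : e⁻¹ * d * (x : Equiv.Perm GolayPt) * (e⁻¹ * d)⁻¹ =
      e⁻¹ * (d * (x : Equiv.Perm GolayPt) * d⁻¹) * e := by group
  rw [e3, h1, ← h2]
  group

/-- a subgroup of order 3 from a table of order 3 -/
theorem exists_of_table {C : ℕ} (hC : inM24 C = true) (hcb : cubeB C = true) (n : ℕ)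
    (hn : fixN C = n) (hn24 : n ≠ 24) :
    ∃ X : Subgroup ↥M24, Nat.card X = 3 ∧ (fixSet X).ncard = n := by
  have hv := inM24_valid hC
  have hne : gperm C ≠ 1 := by
    intro h
    have h24 : (Finset.univ.filter fun p => gperm C p = p).card = 24 := by
      rw [h]
      simp only [Equiv.Perm.coe_one, id_eq, Finset.filter_true_of_mem, Finset.mem_univ,
        implies_true, Finset.card_univ]
      decide
    rw [card_fix_gperm hv, hn] at h24
    exact hn24 h24
  have hne' : (⟨gperm C, gperm_mem_M24 hC⟩ : ↥M24) ≠ 1 := fun h => hne (congrArg Subtype.val h)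
  have ho : orderOf (⟨gperm C, gperm_mem_M24 hC⟩ : ↥M24) = 3 := by
    have : Fact (Nat.Prime 3) := ⟨Nat.prime_three⟩
    refine orderOf_eq_prime ?_ hne'
    apply Subtype.ext
    rw [pow_three']
    exact gperm_cube hv hcb
  refine ⟨Subgroup.zpowers ⟨gperm C, gperm_mem_M24 hC⟩, by rw [Nat.card_zpowers, ho], ?_⟩
  rw [ncard_fixSet, card_fix_gperm hv, hn]

/-- The group of the length-24 code has exactly two conjugacy classes of subgroups of order 3: a subgroup of order 3 fixes either exactly 6 of the 24 points or none of them, both cases occur, and two subgroups of order 3 with the same number of fixed points are conjugate. -/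
theorem result : (∀ X : Subgroup ↥Cfsg.M24, Nat.card X = 3 → {p : Cfsg.GolayPt | ∀ x ∈ X, ((x : ↥Cfsg.M24) : Equiv.Perm Cfsg.GolayPt) p = p}.ncard = 6 ∨ {p : Cfsg.GolayPt | ∀ x ∈ X, ((x : ↥Cfsg.M24) : Equiv.Perm Cfsg.GolayPt) p = p}.ncard = 0) ∧ (∃ X : Subgroup ↥Cfsg.M24, Nat.card X = 3 ∧ {p : Cfsg.GolayPt | ∀ x ∈ X, ((x : ↥Cfsg.M24) : Equiv.Perm Cfsg.GolayPt) p = p}.ncard = 6) ∧ (∃ X : Subgroup ↥Cfsg.M24, Nat.card X = 3 ∧ {p : Cfsg.GolayPt | ∀ x ∈ X, ((x : ↥Cfsg.M24) : Equiv.Perm Cfsg.GolayPt) p = p}.ncard = 0) ∧ ∀ X Y : Subgroup ↥Cfsg.M24, Nat.card X = 3 → Nat.card Y = 3 → {p : Cfsg.GolayPt | ∀ x ∈ X, ((x : ↥Cfsg.M24) : Equiv.Perm Cfsg.GolayPt) p = p}.ncard = {p : Cfsg.GolayPt | ∀ x ∈ Y, ((x : ↥Cfsg.M24) : Equiv.Perm Cfsg.GolayPt) p = p}.ncard → ∃ k : ↥Cfsg.M24, MulAut.conj k • X = Y := by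
  refine ⟨?_, ?_, ?_, ?_⟩
  · intro X hX
    obtain ⟨x, ho, rfl⟩ := gen3 X hX
    rcases class3 x ho with ⟨d, _, e⟩ | ⟨d, _, e⟩
    · left
      exact (fix_of_conj vC3A e).trans fix3A
    · right
      exact (fix_of_conj vC3B e).trans fix3B
  · exact exists_of_table vC3A cb3A 6 fix3A (by norm_num)
  · exact exists_of_table vC3B cb3B 0 fix3B (by norm_num)
  · intro X Y hX hY h
    obtain ⟨x, hox, rfl⟩ := gen3 X hX
    obtain ⟨y, hoy, rfl⟩ := gen3 Y hY
    have h' : (fixSet (Subgroup.zpowers x)).ncard = (fixSet (Subgroup.zpowers y)).ncard := h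
    rcases class3 x hox with ⟨d, hd, e1⟩ | ⟨d, hd, e1⟩ <;>
      rcases class3 y hoy with ⟨e, he, e2⟩ | ⟨e, he, e2⟩
    · exact conj_of_same hd he e1 e2
    · exfalso
      rw [fix_of_conj vC3A e1, fix_of_conj vC3B e2, fix3A, fix3B] at h'
      exact absurd h' (by norm_num)
    · exfalso
      rw [fix_of_conj vC3B e1, fix_of_conj vC3A e2, fix3A, fix3B] at h'
      exact absurd h' (by norm_num)
    · exact conj_of_same hd he e1 e2

end Cfsg.Agent.S5601
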