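-- Statement S5603: sextets and trios fixed by a fixed-point-free element of order 3
import Cfsg.Statements.S5603
import Cfsg.Agent.Lib.Helper93.OrbOct
import Cfsg.Agent.Lib.Helper93.ClassCount
set_option autoImplicit false
open scoped Pointwise
open Cfsg

namespace Cfsg.Agent.S5603

open Cfsg.Agent.Lib.Helper27.Bits Cfsg.Agent.Lib.Helper27.Golay Cfsg.Agent.Lib.Helper27.M24
  Cfsg.Agent.Lib.Helper27.Cert Cfsg.Agent.Lib.Helper27.Trans Cfsg.Agent.Lib.Helper27.Fast
  Cfsg.Agent.Lib.Helper93.Fam Cfsg.Agent.Lib.Helper93.Sext Cfsg.Agent.Lib.Helper93.Trio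
  Cfsg.Agent.Lib.Helper93.OrbTools Cfsg.Agent.Lib.Helper93.OrbOct
open Cfsg.Agent.Lib.Helper93.NForm Cfsg.Agent.Lib.Helper93.Classes Cfsg.Agent.Lib.Helper93.ClassCount


theorem nT : countB 3795 (fun c => true && sameL ((trioRep c).map (pullU C3B)) (trioRep c)) = 15 := by
  decide +kernel

theorem nS : countB 1771 (fun c => true && sameL ((sextRep c).map (pullU C3B)) (sextRep c)) = 7 := by
  decide +kernel

/-- A fixed-point-free element of order 3 of the group of the length-24 code maps to themselves exactly 7 sextets and exactly 15 trios. -/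
theorem result (g : Equiv.Perm Cfsg.GolayPt) (hg : g ∈ Cfsg.M24) (h₃ : orderOf g = 3) (h₀ : ∀ p, g p ≠ p) : {S : Finset (Finset Cfsg.GolayPt) | S ∈ Cfsg.sextets ∧ g • S = S}.ncard = 7 ∧ {T : Finset (Finset Cfsg.GolayPt) | T ∈ Cfsg.trios ∧ g • T = T}.ncard = 15 := by
  have hcb : g * g * g = 1 := by rw [← pow_three', ← h₃]; exact pow_orderOf_eq_one g
  have hne : g ≠ 1 := by
    rintro rfl
    rw [orderOf_one] at h₃
    exact absurd h₃ (by norm_num)
  have h0 : (Finset.univ.filter fun p => g p = p).card = 0 := by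
    rw [Finset.card_eq_zero, Finset.filter_eq_empty_iff]
    exact fun p _ => h₀ p
  rcases ord3_cases hg hcb hne with ⟨d, hd, e⟩ | ⟨d, hd, e⟩
  · exfalso
    have h := card_fix_conj e
    rw [h0, card_fix_gperm (inM24_valid vC3A), fix3A] at h
    exact absurd h (by norm_num)
  · obtain ⟨_, h2, h3, _⟩ := counts_conj hd (inM24_valid vC3B) e
    exact ⟨h3.trans nS, h2.trans nT⟩

end Cfsg.Agent.S5603
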