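import Cfsg.Statements.S5604
import Cfsg.Agent.Lib.Helper86.Nor7
import Cfsg.Agent.Lib.Helper86.SubTransfer
import Cfsg.Agent.Lib.Helper86.SylowSimple

set_option autoImplicit false
open scoped Pointwise
open Cfsg

namespace Cfsg.Agent.S5604

open Cfsg.Agent.Lib.Helper86.TabGrp Cfsg.Agent.Lib.Helper86.CenTab
  Cfsg.Agent.Lib.Helper86.NormTab Cfsg.Agent.Lib.Helper86.Nor7Data
  Cfsg.Agent.Lib.Helper86.Nor7 Cfsg.Agent.Lib.Helper86.SubTransfer
  Cfsg.Agent.Lib.Helper86.SylowSimple

/-- A subgroup of order 7 of the group of the length-24 code has normaliser of order 126 = 3·42 and centraliser of order 42, the centraliser being non-abelian, and the normaliser stabilises a trio. -/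
theorem result (S : Subgroup ↥Cfsg.M24) (hS : Nat.card S = 7) : Nat.card ↥(Subgroup.normalizer (S : Set ↥Cfsg.M24)) = 126 ∧ Nat.card ↥(Subgroup.centralizer (S : Set ↥Cfsg.M24)) = 42 ∧ (∃ x ∈ Subgroup.centralizer (S : Set ↥Cfsg.M24), ∃ y ∈ Subgroup.centralizer (S : Set ↥Cfsg.M24), x * y ≠ y * x) ∧ ∃ T ∈ Cfsg.trios, ∀ n ∈ Subgroup.normalizer (S : Set ↥Cfsg.M24), ((n : ↥Cfsg.M24) : Equiv.Perm Cfsg.GolayPt) • T = T := by
  have : Fact (Nat.Prime 7) := ⟨by norm_num⟩
  have hle : Subgroup.zpowers sg ≤ M24 := by rw [Subgroup.zpowers_le]; exact sg_mem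
  have hfac : (Nat.card ↥M24).factorization 7 = 1 :=
    factorization_of_card 7 1 34974720 _
      (by rw [Cfsg.Agent.Lib.Helper7.M24Main.card_M24]; norm_num) (by norm_num)
  have hc₀ : Nat.card ((Subgroup.zpowers sg).subgroupOf M24) =
      7 ^ (Nat.card ↥M24).factorization 7 := by
    rw [hfac, pow_one, card_subgroupOf hle, card_zpowers]
  have hcS : Nat.card S = 7 ^ (Nat.card ↥M24).factorization 7 := by rw [hfac, pow_one, hS]
  obtain ⟨k, hk⟩ := exists_conj_of_card 7 ((Subgroup.zpowers sg).subgroupOf M24) hc₀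
    (Sylow.ofCard S hcS)
  have hSk : S = ((Subgroup.zpowers sg).subgroupOf M24).map (MulAut.conj k).toMonoidHom := hk
  have hN : Subgroup.normalizer (S : Set ↥M24) =
      (Subgroup.normalizer (((Subgroup.zpowers sg).subgroupOf M24 : Subgroup ↥M24) :
        Set ↥M24)).map (MulAut.conj k).toMonoidHom := by
    rw [hSk]
    exact (Subgroup.map_equiv_normalizer_eq _ (MulAut.conj k)).symm
  have hC : Subgroup.centralizer (S : Set ↥M24) =
      (Subgroup.centralizer (((Subgroup.zpowers sg).subgroupOf M24 : Subgroup ↥M24) :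
        Set ↥M24)).map (MulAut.conj k).toMonoidHom := by
    rw [hSk]
    exact centralizer_map_equiv _ (MulAut.conj k)
  have hinj : Function.Injective (MulAut.conj k).toMonoidHom := (MulAut.conj k).injective
  refine ⟨?_, ?_, ?_, ?_⟩
  · rw [hN, Subgroup.card_map_of_injective hinj, card_normalizer_subgroupOf hle]
    exact card_Nor
  · rw [hC, Subgroup.card_map_of_injective hinj, card_centralizer_subgroupOf hle,
      centralizer_zpowers]
    exact card_Cen
  · obtain ⟨x, hx, y, hy, hxy⟩ := noncomm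
    have hx' : (⟨x, (mem_Cen.mp hx).1⟩ : ↥M24) ∈ Subgroup.centralizer
        (((Subgroup.zpowers sg).subgroupOf M24 : Subgroup ↥M24) : Set ↥M24) := by
      rw [mem_centralizer_subgroupOf hle, centralizer_zpowers]
      exact hx.2
    have hy' : (⟨y, (mem_Cen.mp hy).1⟩ : ↥M24) ∈ Subgroup.centralizer
        (((Subgroup.zpowers sg).subgroupOf M24 : Subgroup ↥M24) : Set ↥M24) := by
      rw [mem_centralizer_subgroupOf hle, centralizer_zpowers]
      exact hy.2
    refine ⟨(MulAut.conj k).toMonoidHom ⟨x, (mem_Cen.mp hx).1⟩, ?_,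
      (MulAut.conj k).toMonoidHom ⟨y, (mem_Cen.mp hy).1⟩, ?_, ?_⟩
    · rw [hC]; exact Subgroup.mem_map_of_mem _ hx'
    · rw [hC]; exact Subgroup.mem_map_of_mem _ hy'
    · intro h
      rw [← map_mul, ← map_mul] at h
      have h1 := hinj h
      exact hxy (congrArg Subtype.val h1)
  · refine ⟨(k : Equiv.Perm GolayPt) • T0, smul_mem_trios k.2 T0_mem, ?_⟩
    intro n hn
    rw [hN] at hn
    obtain ⟨n₀, hn₀, rfl⟩ := hn
    have h1 : (n₀ : Equiv.Perm GolayPt) ∈ Nor sg :=
      ⟨n₀.2, (mem_normalizer_subgroupOf hle n₀).mp hn₀⟩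
    have h2 := smul_T0 h1
    show ((k : Equiv.Perm GolayPt) * (n₀ : Equiv.Perm GolayPt) * (k : Equiv.Perm GolayPt)⁻¹) •
      ((k : Equiv.Perm GolayPt) • T0) = (k : Equiv.Perm GolayPt) • T0
    rw [smul_smul, inv_mul_cancel_right, ← smul_smul, h2]

end Cfsg.Agent.S5604
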