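-- Statement S5605: octads, trios, sextets fixed by an involution with 8 fixed points
import Cfsg.Statements.S5605
import Cfsg.Agent.Lib.Helper93.OrbOct
import Cfsg.Agent.Lib.Helper93.ClassCount
set_option autoImplicit false
open scoped Pointwise
open Cfsg

namespace Cfsg.Agent.S5605

open Cfsg.Agent.Lib.Helper27.Bits Cfsg.Agent.Lib.Helper27.Golay Cfsg.Agent.Lib.Helper27.M24
  Cfsg.Agent.Lib.Helper27.Cert Cfsg.Agent.Lib.Helper27.Trans Cfsg.Agent.Lib.Helper27.Fast
  Cfsg.Agent.Lib.Helper93.Fam Cfsg.Agent.Lib.Helper93.Sext Cfsg.Agent.Lib.Helper93.Trio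
  Cfsg.Agent.Lib.Helper93.OrbTools Cfsg.Agent.Lib.Helper93.OrbOct
open Cfsg.Agent.Lib.Helper93.NForm Cfsg.Agent.Lib.Helper93.Classes Cfsg.Agent.Lib.Helper93.ClassCount


theorem nO : countB 4096 (fun c => Nat.beq (pcF (cw c)) 8 && Nat.beq (pullU C2A (cw c)) (cw c)) = 71 := by
  decide +kernel

theorem nT : countB 3795 (fun c => true && sameL ((trioRep c).map (pullU C2A)) (trioRep c)) = 99 := by
  decide +kernel

theorem nS : countB 1771 (fun c => true && sameL ((sextRep c).map (pullU C2A)) (sextRep c)) = 91 := by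
  decide +kernel

/-- An involution of the group of the length-24 code with exactly 8 fixed points maps to themselves exactly 71 octads, exactly 99 trios and exactly 91 sextets. -/
theorem result (g : Equiv.Perm Cfsg.GolayPt) (hg : g ∈ Cfsg.M24) (h₂ : orderOf g = 2) (h₈ : (Finset.univ.filter fun p => g p = p).card = 8) : {o : Finset Cfsg.GolayPt | o ∈ Cfsg.octads ∧ g • o = o}.ncard = 71 ∧ {T : Finset (Finset Cfsg.GolayPt) | T ∈ Cfsg.trios ∧ g • T = T}.ncard = 99 ∧ {S : Finset (Finset Cfsg.GolayPt) | S ∈ Cfsg.sextets ∧ g • S = S}.ncard = 91 := by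
  have hsq : g * g = 1 := by rw [← pow_two, ← h₂]; exact pow_orderOf_eq_one g
  have hne : g ≠ 1 := by
    rintro rfl
    rw [orderOf_one] at h₂
    exact absurd h₂ (by norm_num)
  rcases inv_cases hg hsq hne with ⟨d, hd, e⟩ | ⟨d, hd, e⟩
  · obtain ⟨h1, h2, h3, _⟩ := counts_conj hd (inM24_valid vC2A) e
    exact ⟨h1.trans nO, h2.trans nT, h3.trans nS⟩
  · exfalso
    have h := card_fix_conj e
    rw [h₈, card_fix_gperm (inM24_valid vC2B), fix2B] at h
    exact absurd h (by norm_num)

end Cfsg.Agent.S5605
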