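import Cfsg.Statements.S5607
import Cfsg.Agent.Lib.Helper86.CenB

set_option autoImplicit false
open scoped Pointwise
open Cfsg

namespace Cfsg.Agent.S5607

open Cfsg Cfsg.Agent.Lib.Helper86.M24Inv2 Cfsg.Agent.Lib.Helper86.CenTab
  Cfsg.Agent.Lib.Helper86.CenB

/-- For a fixed-point-free involution t of the group of the length-24 code: its centraliser in that group has order 7680, is transitive on the 24 points, and is contained, together with t, in the stabiliser of some sextet. -/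
theorem result (t : Equiv.Perm Cfsg.GolayPt) (ht : t ∈ Cfsg.M24) (h₂ : orderOf t = 2) (h₀ : ∀ p, t p ≠ p) : Nat.card {c : Equiv.Perm Cfsg.GolayPt // c ∈ Cfsg.M24 ∧ c * t = t * c} = 7680 ∧ (∀ p q : Cfsg.GolayPt, ∃ c ∈ Cfsg.M24, c * t = t * c ∧ c p = q) ∧ ∃ S ∈ Cfsg.sextets, t • S = S ∧ ∀ c ∈ Cfsg.M24, c * t = t * c → c • S = S := by
  obtain ⟨k, hk, hkt⟩ := conj_gB_of_fpf ht h₂ h₀
  have key : ∀ c ∈ M24, c * t = t * c → c • (k⁻¹ • S0) = k⁻¹ • S0 := by
    intro c hc hct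
    have h1 := smul_S0 (mem_Cen_conj hk hkt hc hct)
    rw [smul_smul]
    have e : c * k⁻¹ = k⁻¹ * (k * c * k⁻¹) := by group
    rw [e, ← smul_smul, h1]
  refine ⟨?_, ?_, k⁻¹ • S0, smul_mem_sextets (M24.inv_mem hk) S0_mem, ?_, key⟩
  · rw [card_Cen_conj hk hkt, card_CenB]
  · intro p q
    obtain ⟨c, hc, hcp⟩ := trans_CenB (k p) (k q)
    obtain ⟨h1, h2⟩ := conj_mem_Cen hk hkt hc
    refine ⟨k⁻¹ * c * k, h1, h2, ?_⟩
    show k⁻¹ (c (k p)) = q
    rw [hcp]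
    simp
  · exact key t ht rfl

end Cfsg.Agent.S5607
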