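import Cfsg.Statements.S5608
import Cfsg.Agent.Lib.Helper86.Ord3

set_option autoImplicit false
open scoped Pointwise
open Cfsg

namespace Cfsg.Agent.S5608

open Cfsg.Agent.Lib.Helper86.M24Inv2 Cfsg.Agent.Lib.Helper86.CenTab
  Cfsg.Agent.Lib.Helper86.CenB Cfsg.Agent.Lib.Helper86.Ord3

/-- In the group of the length-24 code, if an element of order 3 commutes with an involution then either the first has six fixed points and the second eight, or both are fixed-point-free. -/
theorem result (x s : Equiv.Perm Cfsg.GolayPt) (hx : x ∈ Cfsg.M24) (hs : s ∈ Cfsg.M24) (h₃ : orderOf x = 3) (h₂ : orderOf s = 2) (hc : Commute x s) : ((Finset.univ.filter fun p => x p = p).card = 6 ∧ (Finset.univ.filter fun p => s p = p).card = 8) ∨ ((Finset.univ.filter fun p => x p = p).card = 0 ∧ (Finset.univ.filter fun p => s p = p).card = 0) := by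
  have hc' : x * s = s * x := hc.eq
  obtain ⟨k, hk, h | h⟩ := inv_cases hs h₂
  · left
    have hx' : k * x * k⁻¹ ∈ M24 := M24.mul_mem (M24.mul_mem hk hx) (M24.inv_mem hk)
    have h3' : orderOf (k * x * k⁻¹) = 3 := by rw [orderOf_conj', h₃]
    have hcomm : (k * x * k⁻¹) * gA = gA * (k * x * k⁻¹) := by
      rw [← h]
      have e1 : k * x * k⁻¹ * (k * s * k⁻¹) = k * (x * s) * k⁻¹ := by group
      have e2 : k * s * k⁻¹ * (k * x * k⁻¹) = k * (s * x) * k⁻¹ := by group
      rw [e1, e2, hc']
    have hinv : ∀ p, (k * x * k⁻¹) p ∈ fixedPts gA ↔ p ∈ fixedPts gA := by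
      intro p
      rw [mem_fixedPts, mem_fixedPts]
      have e := congrArg (fun f : Equiv.Perm GolayPt => f p) hcomm
      simp only [Equiv.Perm.mul_apply] at e
      constructor
      · intro h1
        have h2 : (k * x * k⁻¹) (gA p) = (k * x * k⁻¹) p := by
          simp only [Equiv.Perm.mul_apply]
          rw [e]
          simpa only [Equiv.Perm.mul_apply] using h1
        exact (k * x * k⁻¹).injective h2
      · intro h1
        have h2 : gA ((k * x * k⁻¹) p) = (k * x * k⁻¹) (gA p) := by
          simp only [Equiv.Perm.mul_apply]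
          exact e.symm
        rw [h2, h1]
    have : Fact (Nat.Prime 3) := ⟨by norm_num⟩
    obtain ⟨p, -, hp⟩ := exists_fixed_of_not_dvd (k * x * k⁻¹) 3 1
      (by rw [pow_one, ← h3', pow_orderOf_eq_one]) (fixedPts gA) hinv
      (by rw [card_fixedPts_gA]; norm_num)
    have h6 : (fixedPts (k * x * k⁻¹)).card = 6 := by
      rcases ord3_fix hx' h3' with h1 | h1
      · exact h1
      · exfalso
        have : p ∈ fixedPts (k * x * k⁻¹) := mem_fixedPts.mpr hp
        rw [h1] at this
        exact absurd this (Finset.notMem_empty p)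
    refine ⟨?_, card_of_conj_gA h⟩
    have := card_fixedPts_of_conj (k := k) (g := x) rfl
    rw [h6] at this
    exact this
  · right
    have hx' : k * x * k⁻¹ ∈ Cen gB := mem_Cen_conj hk h hx hc'
    have h3' : orderOf (k * x * k⁻¹) = 3 := by rw [orderOf_conj', h₃]
    have h1 := ord3_cenB hx' h3'
    constructor
    · have e : fixedPts x = k⁻¹ • fixedPts (k * x * k⁻¹) := fixedPts_of_conj rfl
      rw [h1, Finset.smul_finset_empty] at e
      show (fixedPts x).card = 0
      rw [e, Finset.card_empty]
    · have e : fixedPts s = k⁻¹ • fixedPts gB := fixedPts_of_conj h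
      rw [fixedPts_gB, Finset.smul_finset_empty] at e
      show (fixedPts s).card = 0
      rw [e, Finset.card_empty]

end Cfsg.Agent.S5608
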