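import Cfsg.Statements.S5609
import Cfsg.Agent.Lib.Helper27.Sub3
import Cfsg.Agent.Lib.Helper27.Oct
import Cfsg.Agent.S1556

set_option autoImplicit false
open scoped Pointwise
open Cfsg

namespace Cfsg.Agent.S5609

open Cfsg.Agent.Lib.Helper27.Bits Cfsg.Agent.Lib.Helper27.Golay Cfsg.Agent.Lib.Helper27.M24
  Cfsg.Agent.Lib.Helper27.Cert Cfsg.Agent.Lib.Helper27.Trans Cfsg.Agent.Lib.Helper27.Fast
  Cfsg.Agent.Lib.Helper27.Oct Cfsg.Agent.Lib.Helper27.Coset Cfsg.Agent.Lib.Helper27.Sub3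

/-- an octad meeting the standard one in four points -/
def r4 : ℕ := 0x293e
/-- an octad disjoint from the standard one and from `r4` -/
def a4 : ℕ := 0x7b4200
/-- an octad meeting the standard one in two points -/
def r2 : ℕ := 0x7b42
/-- an octad disjoint from the standard one -/
def a2 : ℕ := 0xf6840
/-- an octad disjoint from `a2` and from `r2` -/
def b2 : ℕ := 0x50803d

theorem inter_cases : allB 4096 (fun c => !(Nat.beq (pcF (cw c)) 8) || (Nat.beq (cw c) m0 ||
    (Nat.beq (pcF (m0 &&& cw c)) 0 || (Nat.beq (pcF (m0 &&& cw c)) 2 ||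
      Nat.beq (pcF (m0 &&& cw c)) 4)))) = true := by decide +kernel

theorem no2 : allB 4096 (fun c => !(Nat.beq (pcF (cw c)) 8 &&
    (Nat.beq (pcF (m0 &&& cw c)) 0 && Nat.beq (pcF (cw c &&& r2)) 0))) = true := by decide +kernel

/-- a common disjoint octad -/
def A4 (o o' : Finset GolayPt) : Prop := ∃ a ∈ octads, Disjoint o a ∧ Disjoint a o'

/-- a chain of two disjoint octads in between -/
def A2 (o o' : Finset GolayPt) : Prop :=
  ∃ a ∈ octads, ∃ b ∈ octads, Disjoint o a ∧ Disjoint a b ∧ Disjoint b o'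

theorem disj_smul (g : Equiv.Perm GolayPt) (A B : Finset GolayPt) :
    Disjoint (g • A) (g • B) ↔ Disjoint A B := by
  rw [Finset.disjoint_iff_inter_eq_empty, Finset.disjoint_iff_inter_eq_empty,
    ← Finset.smul_finset_inter, Finset.smul_finset_eq_empty]

theorem A4_smul {g : Equiv.Perm GolayPt} (hg : g ∈ M24) (o o' : Finset GolayPt) :
    A4 (g • o) (g • o') ↔ A4 o o' := by
  constructor
  · rintro ⟨a, ha, h1, h2⟩
    refine ⟨g⁻¹ • a, (octads_smul_iff (M24.inv_mem hg) a).mpr ha, ?_, ?_⟩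
    · rw [← disj_smul g, smul_inv_smul]; exact h1
    · rw [← disj_smul g, smul_inv_smul]; exact h2
  · rintro ⟨a, ha, h1, h2⟩
    exact ⟨g • a, (octads_smul_iff hg a).mpr ha, (disj_smul g _ _).mpr h1, (disj_smul g _ _).mpr h2⟩

theorem A2_smul {g : Equiv.Perm GolayPt} (hg : g ∈ M24) (o o' : Finset GolayPt)
    (h : A2 o o') : A2 (g • o) (g • o') := by
  obtain ⟨a, ha, b, hb, h1, h2, h3⟩ := h
  exact ⟨g • a, (octads_smul_iff hg a).mpr ha, g • b, (octads_smul_iff hg b).mpr hb,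
    (disj_smul g _ _).mpr h1, (disj_smul g _ _).mpr h2, (disj_smul g _ _).mpr h3⟩

theorem oct_of_mask (m : ℕ) (h1 : cw (m % 4096) = m) (h2 : pcF m = 8) : fsOf m ∈ octads :=
  (mem_octads_cw _).mpr ⟨m % 4096, Nat.mod_lt _ (by norm_num), by rw [h1], by rw [h1]; exact h2⟩

theorem base4 : A4 (fsOf m0) (fsOf r4) :=
  ⟨fsOf a4, oct_of_mask a4 (by decide +kernel) (by decide +kernel),
    (disjoint_iff_pcF _ _).mpr (by decide +kernel), (disjoint_iff_pcF _ _).mpr (by decide +kernel)⟩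

theorem base2 : A2 (fsOf m0) (fsOf r2) :=
  ⟨fsOf a2, oct_of_mask a2 (by decide +kernel) (by decide +kernel),
    fsOf b2, oct_of_mask b2 (by decide +kernel) (by decide +kernel),
    (disjoint_iff_pcF _ _).mpr (by decide +kernel), (disjoint_iff_pcF _ _).mpr (by decide +kernel),
    (disjoint_iff_pcF _ _).mpr (by decide +kernel)⟩

theorem base2' : ¬ A4 (fsOf m0) (fsOf r2) := by
  rintro ⟨a, ha, h1, h2⟩
  obtain ⟨c, hc, rfl, hpc⟩ := (mem_octads_cw a).mp ha
  have h := (allB_iff _ _).mp no2 c hc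
  rw [(disjoint_iff_pcF _ _).mp h1, (disjoint_iff_pcF _ _).mp h2, hpc] at h
  simp at h

theorem card_octad {o : Finset GolayPt} (ho : o ∈ octads) : o.card = 8 := by
  obtain ⟨c, hc, rfl, hpc⟩ := (mem_octads_cw o).mp ho
  rw [card_setOf_F, hpc]

/-- the three relative positions of two distinct octads -/
theorem key (o o' : Finset GolayPt) (ho : o ∈ octads) (ho' : o' ∈ octads) (hne : o ≠ o') :
    (o ∩ o').card = 0 ∨ ((o ∩ o').card = 4 ∧ A4 o o') ∨
      ((o ∩ o').card = 2 ∧ A2 o o' ∧ ¬ A4 o o') := by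
  obtain ⟨g, hg, rfl⟩ := octad_trans o ho
  have ho'' : g⁻¹ • o' ∈ octads := (octads_smul_iff (M24.inv_mem hg) o').mpr ho'
  have hcard : (g • fsOf m0 ∩ o').card = (fsOf m0 ∩ g⁻¹ • o').card := by
    rw [← Finset.card_smul_finset g (fsOf m0 ∩ g⁻¹ • o'), Finset.smul_finset_inter, smul_inv_smul]
  obtain ⟨c, hc, hcc, hpc⟩ := (mem_octads_cw _).mp ho''
  have hne' : cw c ≠ m0 := by
    intro h
    apply hne
    rw [h] at hcc
    rw [← hcc, smul_inv_smul]
  have h := (allB_iff _ _).mp inter_cases c hc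
  rw [hpc] at h
  simp only [Nat.beq_refl, Bool.not_true, Bool.false_or, Bool.or_eq_true, Nat.beq_eq] at h
  have hk : (fsOf m0 ∩ g⁻¹ • o').card = pcF (m0 &&& cw c) := by
    rw [hcc, ← setOf_and, card_setOf_F]
  have e' : g • (g⁻¹ • o') = o' := smul_inv_smul g o'
  rcases h with h | h | h | h
  · exact absurd h hne'
  · left
    rw [hcard, hk, h]
  · right; right
    obtain ⟨k, hk1, hk2, hk3⟩ := Cfsg.Agent.S1556.result (fsOf m0) (fsOf r2) (g⁻¹ • o')
      (oct_of_mask m0 (by decide +kernel) (by decide +kernel))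
      (oct_of_mask r2 (by decide +kernel) (by decide +kernel)) ho''
      (by rw [hk, h, ← setOf_and, card_setOf_F]; decide +kernel)
    have e1 : (g * k) • fsOf m0 = g • fsOf m0 := by rw [mul_smul, hk2]
    have e2 : (g * k) • fsOf r2 = o' := by rw [mul_smul, hk3, e']
    refine ⟨by rw [hcard, hk, h], ?_, ?_⟩
    · have := A2_smul (M24.mul_mem hg hk1) _ _ base2
      rw [e1, e2] at this
      exact this
    · intro hA
      rw [← e1, ← e2, A4_smul (M24.mul_mem hg hk1)] at hA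
      exact base2' hA
  · right; left
    obtain ⟨k, hk1, hk2, hk3⟩ := Cfsg.Agent.S1556.result (fsOf m0) (fsOf r4) (g⁻¹ • o')
      (oct_of_mask m0 (by decide +kernel) (by decide +kernel))
      (oct_of_mask r4 (by decide +kernel) (by decide +kernel)) ho''
      (by rw [hk, h, ← setOf_and, card_setOf_F]; decide +kernel)
    have e1 : (g * k) • fsOf m0 = g • fsOf m0 := by rw [mul_smul, hk2]
    have e2 : (g * k) • fsOf r4 = o' := by rw [mul_smul, hk3, e']
    refine ⟨by rw [hcard, hk, h], ?_⟩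
    have := (A4_smul (M24.mul_mem hg hk1) _ _).mpr base4
    rw [e1, e2] at this
    exact this

theorem adj_iff (o o' : Finset GolayPt) (ho : o ∈ octads) (ho' : o' ∈ octads) :
    (blockGraph octads).Adj ⟨o, ho⟩ ⟨o', ho'⟩ ↔ Disjoint o o' := by
  unfold blockGraph
  rw [SimpleGraph.fromRel_adj]
  constructor
  · rintro ⟨_, h | h⟩
    · exact h
    · exact h.symm
  · intro h
    refine ⟨?_, Or.inl h⟩
    intro he
    have he' : o = o' := congrArg Subtype.val he
    rw [← he', disjoint_self] at h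
    have := card_octad ho
    rw [show o = ∅ from h] at this
    simp at this

theorem disj_iff_card (o o' : Finset GolayPt) : Disjoint o o' ↔ (o ∩ o').card = 0 := by
  rw [Finset.disjoint_iff_inter_eq_empty, Finset.card_eq_zero]

theorem reach (o o' : Finset GolayPt) (ho : o ∈ octads) (ho' : o' ∈ octads) :
    (blockGraph octads).Reachable ⟨o, ho⟩ ⟨o', ho'⟩ := by
  by_cases hne : o = o'
  · subst hne
    exact SimpleGraph.Reachable.refl _
  · rcases key o o' ho ho' hne with h | ⟨_, a, ha, h1, h2⟩ | ⟨_, ⟨a, ha, b, hb, h1, h2, h3⟩, _⟩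
    · exact ((adj_iff o o' ho ho').mpr ((disj_iff_card _ _).mpr h)).reachable
    · exact (((adj_iff o a ho ha).mpr h1).reachable).trans (((adj_iff a o' ha ho').mpr h2).reachable)
    · exact ((((adj_iff o a ho ha).mpr h1).reachable).trans
        (((adj_iff a b ha hb).mpr h2).reachable)).trans (((adj_iff b o' hb ho').mpr h3).reachable)

theorem not_A4_of_dist (o o' : Finset GolayPt) (ho : o ∈ octads) (ho' : o' ∈ octads)
    (hA : ¬ A4 o o') : (blockGraph octads).dist ⟨o, ho⟩ ⟨o', ho'⟩ ≠ 2 := by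
  intro h2
  have hr := reach o o' ho ho'
  have he : (blockGraph octads).edist ⟨o, ho⟩ ⟨o', ho'⟩ = 2 := by
    rw [← hr.coe_dist_eq_edist, h2]
    rfl
  obtain ⟨_, _, ⟨w, hw⟩⟩ := SimpleGraph.edist_eq_two_iff.mp he
  rw [SimpleGraph.mem_commonNeighbors] at hw
  apply hA
  refine ⟨w.1, w.2, (adj_iff o w.1 ho w.2).mp hw.1, ((adj_iff o' w.1 ho' w.2).mp hw.2).symm⟩

theorem dist_two (o o' : Finset GolayPt) (ho : o ∈ octads) (ho' : o' ∈ octads) (hne : o ≠ o')
    (hn : ¬ Disjoint o o') (hA : A4 o o') : (blockGraph octads).dist ⟨o, ho⟩ ⟨o', ho'⟩ = 2 := by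
  have hr := reach o o' ho ho'
  obtain ⟨a, ha, h1, h2⟩ := hA
  have he : (blockGraph octads).edist ⟨o, ho⟩ ⟨o', ho'⟩ = 2 := by
    rw [SimpleGraph.edist_eq_two_iff]
    refine ⟨fun h => hne (congrArg Subtype.val h), fun h => hn ((adj_iff o o' ho ho').mp h),
      ⟨⟨a, ha⟩, ?_⟩⟩
    rw [SimpleGraph.mem_commonNeighbors]
    exact ⟨(adj_iff o a ho ha).mpr h1, (adj_iff o' a ho' ha).mpr h2.symm⟩
  rw [← hr.coe_dist_eq_edist] at he
  exact_mod_cast he

theorem dist_three (o o' : Finset GolayPt) (ho : o ∈ octads) (ho' : o' ∈ octads) (hne : o ≠ o')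
    (hn : ¬ Disjoint o o') (hA2 : A2 o o') (hA : ¬ A4 o o') :
    (blockGraph octads).dist ⟨o, ho⟩ ⟨o', ho'⟩ = 3 := by
  have hr := reach o o' ho ho'
  obtain ⟨a, ha, b, hb, h1, h2, h3⟩ := hA2
  have hle := SimpleGraph.dist_le (SimpleGraph.Walk.cons ((adj_iff o a ho ha).mpr h1)
    (SimpleGraph.Walk.cons ((adj_iff a b ha hb).mpr h2)
      (SimpleGraph.Walk.cons ((adj_iff b o' hb ho').mpr h3) SimpleGraph.Walk.nil)))
  simp only [SimpleGraph.Walk.length_cons, SimpleGraph.Walk.length_nil] at hle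
  have h0 : (blockGraph octads).dist ⟨o, ho⟩ ⟨o', ho'⟩ ≠ 0 := by
    intro h
    exact hne (congrArg Subtype.val (hr.dist_eq_zero_iff.mp h))
  have h1' : (blockGraph octads).dist ⟨o, ho⟩ ⟨o', ho'⟩ ≠ 1 := by
    intro h
    exact hn ((adj_iff o o' ho ho').mp (SimpleGraph.dist_eq_one_iff_adj.mp h))
  have h2' := not_A4_of_dist o o' ho ho' hA
  omega

/-- In the graph on the 759 octads of the length-24 code in which two octads are adjacent when they are disjoint, the graph is connected (of diameter 3) and two distinct octads are at distance 1, 2 or 3 exactly when they meet in 0, 4 or 2 points respectively. -/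
theorem result (o o' : Finset Cfsg.GolayPt) (ho : o ∈ Cfsg.octads) (ho' : o' ∈ Cfsg.octads) (hne : o ≠ o') : (Cfsg.blockGraph Cfsg.octads).Connected ∧ ((Cfsg.blockGraph Cfsg.octads).dist ⟨o, ho⟩ ⟨o', ho'⟩ = 1 ↔ (o ∩ o').card = 0) ∧ ((Cfsg.blockGraph Cfsg.octads).dist ⟨o, ho⟩ ⟨o', ho'⟩ = 2 ↔ (o ∩ o').card = 4) ∧ ((Cfsg.blockGraph Cfsg.octads).dist ⟨o, ho⟩ ⟨o', ho'⟩ = 3 ↔ (o ∩ o').card = 2) := by
  have hcon : (blockGraph octads).Connected := by
    haveI : Nonempty ↥octads := ⟨⟨o, ho⟩⟩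
    refine SimpleGraph.Connected.mk ?_
    rintro ⟨a, ha⟩ ⟨b, hb⟩
    exact reach a b ha hb
  have hk := key o o' ho ho' hne
  have d1 : (blockGraph octads).dist ⟨o, ho⟩ ⟨o', ho'⟩ = 1 ↔ (o ∩ o').card = 0 := by
    rw [SimpleGraph.dist_eq_one_iff_adj, adj_iff, disj_iff_card]
  refine ⟨hcon, d1, ?_, ?_⟩
  · constructor
    · intro h
      rcases hk with h0 | ⟨h4, _⟩ | ⟨_, _, hA⟩
      · rw [d1.mpr h0] at h
        omega
      · exact h4
      · exact absurd h (not_A4_of_dist o o' ho ho' hA)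
    · intro h
      rcases hk with h0 | ⟨h4, hA⟩ | ⟨h2, _, _⟩
      · omega
      · exact dist_two o o' ho ho' hne (by rw [disj_iff_card]; omega) hA
      · omega
  · constructor
    · intro h
      rcases hk with h0 | ⟨h4, hA⟩ | ⟨h2, _, _⟩
      · rw [d1.mpr h0] at h
        omega
      · rw [dist_two o o' ho ho' hne (by rw [disj_iff_card]; omega) hA] at h
        omega
      · exact h2
    · intro h
      rcases hk with h0 | ⟨h4, _⟩ | ⟨h2, hA2, hA⟩
      · omega
      · omega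
      · exact dist_three o o' ho ho' hne (by rw [disj_iff_card]; omega) hA2 hA

end Cfsg.Agent.S5609
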