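-- Statement S5614: the joint stabiliser of two octads meeting in two points is Sym(6)
import Cfsg.Statements.S5614
import Cfsg.Agent.Lib.Helper93.OrbOct
import Cfsg.Agent.S5613
import Cfsg.Agent.Lib.Helper93.Rigid
set_option autoImplicit false
open scoped Pointwise
open Cfsg

namespace Cfsg.Agent.S5614

open Cfsg.Agent.Lib.Helper27.Bits Cfsg.Agent.Lib.Helper27.Golay Cfsg.Agent.Lib.Helper27.M24
  Cfsg.Agent.Lib.Helper27.Cert Cfsg.Agent.Lib.Helper27.Trans Cfsg.Agent.Lib.Helper27.Fast
  Cfsg.Agent.Lib.Helper93.Fam Cfsg.Agent.Lib.Helper93.Sext Cfsg.Agent.Lib.Helper93.Trio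
  Cfsg.Agent.Lib.Helper93.OrbTools Cfsg.Agent.Lib.Helper93.OrbOct
open Cfsg.Agent.Lib.Helper27.Oct Cfsg.Agent.Lib.Helper93.OrbCard Cfsg.Agent.Lib.Helper93.Rigid


/-- the standard octad meeting the octad `m0` in two points -/
def R2 : ℕ := 31554

/-- the sets known to be mapped onto themselves -/
def L0 : List ℕ := [1, 4, 8, 16, 128, 1024, 5279, 31554, 16777215]

/-- code words found one after the other to be mapped onto themselves -/
def STEPS : List (ℕ × List (ℕ × ℕ)) := [(7, [(31554, 2), (8, 0), (16, 0), (128, 0), (1024, 0), (5279, 4)]),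
  (11, [(31554, 2), (4, 0), (16, 0), (128, 0), (1024, 0), (5279, 4)]),
  (19, [(31554, 2), (4, 0), (8, 0), (128, 0), (1024, 0), (5279, 4)]),
  (129, [(31554, 0), (16777215, 8), (4, 0), (8, 0), (16, 0), (1024, 0)]),
  (22, [(14254209, 0), (14716939, 2), (5902343, 4), (1413139, 4)]),
  (76, [(5279, 2), (31554, 2), (14716939, 2), (1413139, 2), (14254209, 2), (8, 1), (5902343, 4)]),
  (276, [(5279, 2), (31554, 2), (14716939, 2), (1413139, 2), (14254209, 2), (16, 1), (5902343, 4)]),
  (524, [(16777215, 8), (5279, 2), (5902343, 2), (1413139, 2), (4, 1), (14716939, 4), (14254209, 4)]),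
  (1, [(16777215, 8), (5279, 2), (7479572, 2), (14716939, 4), (14254209, 4), (421910, 4), (5652556, 4)])]

theorem cert : certR STEPS L0 = true := by decide +kernel

theorem R2_oct : fsOf R2 ∈ octads := isCw_octad (by decide +kernel) (by decide +kernel)

theorem R2_inter : (fsOf m0 ∩ fsOf R2).card = 2 := by
  rw [← setOf_and, card_setOf_F]
  decide +kernel

theorem mem_diff {i : ℕ} (hi : i < 24) (h1 : m0.testBit i = true) (h2 : R2.testBit i = false) :
    pt i ∈ fsOf m0 \ fsOf R2 := by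
  rw [Finset.mem_sdiff, mem_setOf_pt hi, mem_setOf_pt hi]
  exact ⟨h1, by rw [h2]; exact Bool.false_ne_true⟩

/-- rigidity for the standard pair of octads -/
theorem std_rigid {g : Equiv.Perm GolayPt} (hg : g ∈ M24) (h1 : g • fsOf m0 = fsOf m0)
    (h2 : g • fsOf R2 = fsOf R2) (hp : ∀ x ∈ fsOf m0 \ fsOf R2, g x = x) : g = 1 := by
  refine rigid hg STEPS L0 ?_ cert
  intro m hm
  simp only [L0, List.mem_cons, List.not_mem_nil, or_false] at hm
  rcases hm with rfl | rfl | rfl | rfl | rfl | rfl | rfl | rfl | rfl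
  · exact Fx_pow g (i := 0) (by norm_num) (hp _ (mem_diff (by norm_num) (by decide) (by decide)))
  · exact Fx_pow g (i := 2) (by norm_num) (hp _ (mem_diff (by norm_num) (by decide) (by decide)))
  · exact Fx_pow g (i := 3) (by norm_num) (hp _ (mem_diff (by norm_num) (by decide) (by decide)))
  · exact Fx_pow g (i := 4) (by norm_num) (hp _ (mem_diff (by norm_num) (by decide) (by decide)))
  · exact Fx_pow g (i := 7) (by norm_num) (hp _ (mem_diff (by norm_num) (by decide) (by decide)))
  · exact Fx_pow g (i := 10) (by norm_num) (hp _ (mem_diff (by norm_num) (by decide) (by decide)))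
  · exact h1
  · exact h2
  · exact Fx_full g

theorem smul_mem_iff {g : Equiv.Perm GolayPt} {s : Finset GolayPt} (h : g • s = s) (x : GolayPt) :
    g x ∈ s ↔ x ∈ s := by
  conv_lhs => rw [← h]
  rw [← Equiv.Perm.smul_def]
  exact Finset.smul_mem_smul_finset_iff g

/-- an element of the joint stabiliser fixing the six points of `o \ o'` is trivial -/
theorem inj_gen (o o' : Finset GolayPt) (ho : o ∈ octads) (ho' : o' ∈ octads)
    (h₂ : (o ∩ o').card = 2) {g : Equiv.Perm GolayPt} (hg : g ∈ M24) (h1 : g • o = o)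
    (h2 : g • o' = o') (hp : ∀ x ∈ o \ o', g x = x) : g = 1 := by
  obtain ⟨a, ha, rfl⟩ := octad_trans o ho
  have hX : a⁻¹ • o' ∈ octads := smul_mem_octads (M24.inv_mem ha) ho'
  have hc : (fsOf m0 ∩ a⁻¹ • o').card = 2 := by
    rw [← Finset.card_smul_finset a (fsOf m0 ∩ a⁻¹ • o'), Finset.smul_finset_inter, smul_inv_smul]
    exact h₂
  obtain ⟨b, hb, hb1, hb2⟩ := Cfsg.Agent.S5613.htr (fsOf R2) R2_oct (a⁻¹ • o') hX (by
    rw [Cfsg.Agent.S5613.invO_eq, Cfsg.Agent.S5613.invO_eq, hc, R2_inter])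
  have e1 : (a * b) • fsOf m0 = a • fsOf m0 := by rw [mul_smul, hb1]
  have e2 : (a * b) • fsOf R2 = o' := by rw [mul_smul, hb2, smul_inv_smul]
  have hab : a * b ∈ M24 := M24.mul_mem ha hb
  have key : (a * b)⁻¹ * g * (a * b) = 1 := by
    refine std_rigid (M24.mul_mem (M24.mul_mem (M24.inv_mem hab) hg) hab) ?_ ?_ ?_
    · rw [mul_smul, mul_smul, e1, h1, ← e1, inv_smul_smul]
    · rw [mul_smul, mul_smul, e2, h2, ← e2, inv_smul_smul]
    · intro x hx
      have hx' : (a * b) x ∈ a • fsOf m0 \ o' := by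
        rw [← e1, ← e2, ← Finset.smul_finset_sdiff, ← Equiv.Perm.smul_def]
        exact Finset.smul_mem_smul_finset hx
      have := hp _ hx'
      change (a * b)⁻¹ (g ((a * b) x)) = x
      rw [this]
      exact Equiv.symm_apply_apply (a * b) x
  have : g = (a * b) * ((a * b)⁻¹ * g * (a * b)) * (a * b)⁻¹ := by group
  rw [this, key]
  group

/-- In the group of the length-24 code, the joint stabiliser of two octads meeting in exactly two points is isomorphic to the symmetric group of degree 6. -/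
theorem result (o o' : Finset Cfsg.GolayPt) (ho : o ∈ Cfsg.octads) (ho' : o' ∈ Cfsg.octads) (h₂ : (o ∩ o').card = 2) : Nonempty (↥(MulAction.stabilizer Cfsg.M24 o ⊓ MulAction.stabilizer Cfsg.M24 o') ≃* Equiv.Perm (Fin 6)) := by
  classical
  set J := MulAction.stabilizer Cfsg.M24 o ⊓ MulAction.stabilizer Cfsg.M24 o' with hJ
  have hst : ∀ g : ↥J, ((g : ↥M24) : Equiv.Perm GolayPt) • o = o ∧
      ((g : ↥M24) : Equiv.Perm GolayPt) • o' = o' := by
    intro g
    have h : (g : ↥M24) ∈ MulAction.stabilizer Cfsg.M24 o ⊓ MulAction.stabilizer Cfsg.M24 o' := g.2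
    rw [Subgroup.mem_inf, MulAction.mem_stabilizer_iff, MulAction.mem_stabilizer_iff] at h
    exact ⟨h.1, h.2⟩
  have hmem : ∀ (g : ↥J) (x : GolayPt),
      ((g : ↥M24) : Equiv.Perm GolayPt) x ∈ o \ o' ↔ x ∈ o \ o' := by
    intro g x
    rw [Finset.mem_sdiff, Finset.mem_sdiff, smul_mem_iff (hst g).1, smul_mem_iff (hst g).2]
  let f : ↥J →* Equiv.Perm ↥(o \ o') :=
    { toFun := fun g => Equiv.Perm.subtypePerm ((g : ↥M24) : Equiv.Perm GolayPt) (hmem g)
      map_one' := by ext x; rfl
      map_mul' := fun a b => by ext x; rfl }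
  have hinj : Function.Injective f := by
    rw [injective_iff_map_eq_one]
    intro g hg
    have h1 : ((g : ↥M24) : Equiv.Perm GolayPt) = 1 := by
      refine inj_gen o o' ho ho' h₂ (g : ↥M24).2 (hst g).1 (hst g).2 ?_
      intro x hx
      have := congrArg (fun σ : Equiv.Perm ↥(o \ o') => ((σ ⟨x, hx⟩ : ↥(o \ o')) : GolayPt)) hg
      exact this
    exact Subtype.ext (Subtype.ext h1)
  have h6 : (o \ o').card = 6 := by
    rw [Finset.card_sdiff, Finset.inter_comm, h₂, ho.2]
  have hc6 : Nat.card ↥(o \ o') = 6 := by rw [Nat.card_eq_fintype_card, Fintype.card_coe, h6]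
  have hcard : Nat.card ↥J = Nat.card (Equiv.Perm ↥(o \ o')) := by
    rw [Nat.card_perm, hc6, (Cfsg.Agent.S5613.result o o' ho ho').2.2 h₂]
    rfl
  have hbij : Function.Bijective f := (Nat.bijective_iff_injective_and_card f).mpr ⟨hinj, hcard⟩
  exact ⟨(MulEquiv.ofBijective f hbij).trans (Finset.equivFinOfCardEq h6).permCongrHom⟩

end Cfsg.Agent.S5614
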