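import Cfsg.Statements.S5620
import Cfsg.Agent.Lib.Helper7.M11Twist

set_option autoImplicit false
open scoped Pointwise
open Cfsg

namespace Cfsg.Agent.S5620

/-- Inside the stabiliser of the dodecad of squares (a Mathieu group of degree 12), the stabiliser of the residue 0 (a point of the dodecad) and the stabiliser of the extra point (a point outside the dodecad) are isomorphic but not conjugate; conjugation by a suitable element of the code's group that maps the dodecad of squares onto its complement carries the first onto the second. -/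
theorem result : Nonempty (↥(Cfsg.Spor.M12 ⊓ MulAction.stabilizer (Equiv.Perm Cfsg.GolayPt) (none : Cfsg.GolayPt)) ≃* ↥Cfsg.Spor.M11) ∧ (¬ ∃ k ∈ Cfsg.Spor.M12, MulAut.conj k • Cfsg.Spor.M11 = Cfsg.Spor.M12 ⊓ MulAction.stabilizer (Equiv.Perm Cfsg.GolayPt) (none : Cfsg.GolayPt)) ∧ ∃ g ∈ Cfsg.M24, g • Cfsg.Spor.squareDodecad = Finset.univ \ Cfsg.Spor.squareDodecad ∧ MulAut.conj g • Cfsg.Spor.M11 = Cfsg.Spor.M12 ⊓ MulAction.stabilizer (Equiv.Perm Cfsg.GolayPt) (none : Cfsg.GolayPt) := by
  exact Cfsg.Agent.Lib.Helper7.M11Twist.two_classes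

end Cfsg.Agent.S5620
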