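import Cfsg.Statements.S5625
import Cfsg.Agent.Lib.Helper8.S5824

set_option autoImplicit false
open Cfsg

namespace Cfsg.Agent.S5625

open Finset Cfsg.Agent.Lib.Helper8.Steiner Cfsg.Agent.Lib.Helper8.S5824

/-- In any Steiner system S(5, 8, 24) and for any set Y of three points, the blocks meeting Y in exactly 3, 2, 1 and 0 points number 21, 168, 360 and 210 respectively (so there are 759 blocks in all). -/
theorem result (α : Type*) [Fintype α] [DecidableEq α] (hα : Fintype.card α = 24) (B : Set (Finset α)) (hB : Cfsg.IsSteinerSystem 5 8 B) (Y : Finset α) (hY : Y.card = 3) : {b : Finset α | b ∈ B ∧ (b ∩ Y).card = 3}.ncard = 21 ∧ {b : Finset α | b ∈ B ∧ (b ∩ Y).card = 2}.ncard = 168 ∧ {b : Finset α | b ∈ B ∧ (b ∩ Y).card = 1}.ncard = 360 ∧ {b : Finset α | b ∈ B ∧ (b ∩ Y).card = 0}.ncard = 210 := by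
  classical
  have hle : ∀ d : Finset α, (d ∩ Y).card ≤ 3 := fun d => by
    rw [← hY]; exact card_le_card inter_subset_right
  have conv : ∀ n : ℕ, {b : Finset α | b ∈ B ∧ (b ∩ Y).card = n}.ncard
      = ((blocks B).filter (fun b => (b ∩ Y).card = n)).card := by
    intro n
    have e : {b : Finset α | b ∈ B ∧ (b ∩ Y).card = n}
        = ((blocks B).filter (fun b => (b ∩ Y).card = n) : Set (Finset α)) := by
      ext c
      simp
    rw [e, Set.ncard_coe_finset]
  have h1 := m1 hα hB Y
  have h2 := m2 hα hB Y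
  have h3 := m3 hα hB Y
  have h0 := card_blocks hα hB
  rw [hY] at h1 h2 h3
  have c32 : Nat.choose 3 2 = 3 := by decide
  have c33 : Nat.choose 3 3 = 1 := by decide
  rw [c32] at h2
  rw [c33] at h3
  have p3 : ∀ d ∈ blocks B, (if (d ∩ Y).card = 3 then 1 else 0) = (d ∩ Y).card.choose 3 := by
    intro d _
    have := hle d
    interval_cases h : (d ∩ Y).card <;> decide
  have p2 : ∀ d ∈ blocks B, (if (d ∩ Y).card = 2 then 1 else 0) + 3 * (d ∩ Y).card.choose 3
      = (d ∩ Y).card.choose 2 := by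
    intro d _
    have := hle d
    interval_cases h : (d ∩ Y).card <;> decide
  have p1 : ∀ d ∈ blocks B, (if (d ∩ Y).card = 1 then 1 else 0) + 2 * (d ∩ Y).card.choose 2
      = (d ∩ Y).card + 3 * (d ∩ Y).card.choose 3 := by
    intro d _
    have := hle d
    interval_cases h : (d ∩ Y).card <;> decide
  have p0 : ∀ d ∈ blocks B, (if (d ∩ Y).card = 0 then 1 else 0) + (d ∩ Y).card
        + (d ∩ Y).card.choose 3
      = 1 + (d ∩ Y).card.choose 2 := by
    intro d _
    have := hle d
    interval_cases h : (d ∩ Y).card <;> decide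
  have s3 := Finset.sum_congr rfl p3
  have s2 := Finset.sum_congr rfl p2
  have s1 := Finset.sum_congr rfl p1
  have s0 := Finset.sum_congr rfl p0
  rw [sum_boole, h3] at s3
  rw [sum_add_distrib, ← mul_sum, sum_boole, h3, h2] at s2
  rw [sum_add_distrib, sum_add_distrib, ← mul_sum, ← mul_sum, sum_boole, h3, h2, h1] at s1
  rw [sum_add_distrib, sum_add_distrib, sum_add_distrib, sum_boole, h3, h2, h1, sum_const, h0]
    at s0
  simp only [Nat.cast_id, smul_eq_mul] at s0 s1 s2 s3
  rw [conv, conv, conv, conv]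
  refine ⟨?_, ?_, ?_, ?_⟩ <;> omega

end Cfsg.Agent.S5625
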