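import Cfsg.Statements.S5627
import Cfsg.Agent.Lib.Helper8.Plane4

set_option autoImplicit false
open Cfsg

namespace Cfsg.Agent.S5627

/-- In a projective plane of order 4 (a Steiner system S(2, 5, 21)), call a set of points independent when no line meets it in more than two points. There are exactly 2520 independent 4-sets and exactly 168 independent 6-sets (hyperovals), and every independent 4-set lies in exactly one hyperoval. -/
theorem result {α : Type*} [Fintype α] [DecidableEq α] (hα : Fintype.card α = 21) (L : Set (Finset α)) (hL : Cfsg.IsSteinerSystem 2 5 L) : {S : Finset α | (S.card = 4 ∧ ∀ l ∈ L, (l ∩ S).card ≤ 2)}.ncard = 2520 ∧ {H : Finset α | (H.card = 6 ∧ ∀ l ∈ L, (l ∩ H).card ≤ 2)}.ncard = 168 ∧ ∀ S : Finset α, (S.card = 4 ∧ ∀ l ∈ L, (l ∩ S).card ≤ 2) → ∃! H : Finset α, (H.card = 6 ∧ ∀ l ∈ L, (l ∩ H).card ≤ 2) ∧ S ⊆ H := by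
  have e4 : {S : Finset α | (S.card = 4 ∧ ∀ l ∈ L, (l ∩ S).card ≤ 2)}
      = ↑(Cfsg.Agent.Lib.Helper8.Plane4.arcs L 4) := by
    ext S
    rw [Set.mem_ofPred_eq, Finset.mem_coe, Cfsg.Agent.Lib.Helper8.Plane4.mem_arcs]
  have e6 : {H : Finset α | (H.card = 6 ∧ ∀ l ∈ L, (l ∩ H).card ≤ 2)}
      = ↑(Cfsg.Agent.Lib.Helper8.Plane4.arcs L 6) := by
    ext S
    rw [Set.mem_ofPred_eq, Finset.mem_coe, Cfsg.Agent.Lib.Helper8.Plane4.mem_arcs]
  refine ⟨?_, ?_, ?_⟩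
  · rw [e4, Set.ncard_coe_finset]
    exact Cfsg.Agent.Lib.Helper8.Plane4.card_arcs4 hα hL
  · rw [e6, Set.ncard_coe_finset]
    exact Cfsg.Agent.Lib.Helper8.Plane4.card_arcs6 hα hL
  · intro S hS
    have hS' : S ∈ Cfsg.Agent.Lib.Helper8.Plane4.arcs L 4 :=
      Cfsg.Agent.Lib.Helper8.Plane4.mem_arcs.2 hS
    refine ⟨S ∪ Cfsg.Agent.Lib.Helper8.Plane4.nuc L S,
      ⟨Cfsg.Agent.Lib.Helper8.Plane4.mem_arcs.1
        (Cfsg.Agent.Lib.Helper8.Plane4.arc_union hα hL hS'), Finset.subset_union_left⟩, ?_⟩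
    rintro H ⟨hH, hSH⟩
    exact Cfsg.Agent.Lib.Helper8.Plane4.unique_oval hα hL hS'
      (Cfsg.Agent.Lib.Helper8.Plane4.mem_arcs.2 hH) hSH

end Cfsg.Agent.S5627
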