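import Cfsg.Statements.S5628
import Cfsg.Agent.Lib.Helper8.Plane4Model

set_option autoImplicit false
open Cfsg

namespace Cfsg.Agent.S5628

open scoped Pointwise

open Finset Cfsg.Agent.Lib.Helper8.Plane4Model in
theorem aut_line {α : Type*} [DecidableEq α] {L : Set (Finset α)} {g : Equiv.Perm α}
    (hg : g ∈ Cfsg.setSystemAut L) {l : Finset α} (hl : l ∈ L) : l.image g ∈ L := by
  rw [MulAction.mem_stabilizer_iff] at hg
  have h := Set.smul_mem_smul_set (a := g) hl
  rw [hg] at h
  exact h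

theorem exists_ne2 : ∀ j0 : Fin 6, ∃ i1 : Fin 6, i1 ≠ 0 ∧ i1 ≠ j0 := by decide

open Finset Cfsg.Agent.Lib.Helper8.Plane4Model in
theorem aut_unique {α : Type*} [Fintype α] [DecidableEq α] {L : Set (Finset α)} {e : Fin 6 → α}
    (F : Frame L e) {g g' : Equiv.Perm α} (hg : g ∈ Cfsg.setSystemAut L)
    (hg' : g' ∈ Cfsg.setSystemAut L) (h : ∀ i, g (e i) = g' (e i)) (x : α) : g x = g' x := by
  by_cases hx : ∃ i, e i = x
  · obtain ⟨i, rfl⟩ := hx
    exact h i
  have hp : ∀ i, e i ≠ x := not_exists.1 hx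
  obtain ⟨j0, hj0, l, hl, hxl, h0l, hj0l⟩ := R_exists F hp 0
  obtain ⟨i1, h10, h1j⟩ := exists_ne2 j0
  obtain ⟨j1, hj1, m, hm, hxm, h1m, hj1m⟩ := R_exists F hp i1
  have hlm : l ≠ m := by
    rintro rfl
    obtain ⟨j, -, -, huniq⟩ := secant_other F hl h0l
    rcases huniq i1 h1m with h1 | h1
    · exact h10 h1
    rcases huniq j0 hj0l with h2 | h2
    · exact hj0 h2
    exact h1j (h1.trans h2.symm)
  have e1 : l.image g = l.image g' :=
    line_eq F.st (aut_line hg hl) (aut_line hg' hl) (g.injective.ne (F.inj.ne hj0.symm))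
      (mem_image_of_mem _ h0l) (mem_image_of_mem _ hj0l)
      (by rw [h 0]; exact mem_image_of_mem _ h0l) (by rw [h j0]; exact mem_image_of_mem _ hj0l)
  have e2 : m.image g = m.image g' :=
    line_eq F.st (aut_line hg hm) (aut_line hg' hm) (g.injective.ne (F.inj.ne hj1.symm))
      (mem_image_of_mem _ h1m) (mem_image_of_mem _ hj1m)
      (by rw [h i1]; exact mem_image_of_mem _ h1m) (by rw [h j1]; exact mem_image_of_mem _ hj1m)
  by_contra hne
  have e3 : l.image g = m.image g :=
    line_eq F.st (aut_line hg hl) (aut_line hg hm) hne (mem_image_of_mem _ hxl)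
      (by rw [e1]; exact mem_image_of_mem _ hxl) (mem_image_of_mem _ hxm)
      (by rw [e2]; exact mem_image_of_mem _ hxm)
  exact hlm (Finset.image_injective g.injective e3)

/-- In a projective plane of order 4 (a Steiner system S(2, 5, 21)), every permutation of the six points of a hyperoval (a 6-set met by no line in more than two points) is the restriction of exactly one automorphism of the plane. In particular the stabiliser of a hyperoval in the automorphism group is isomorphic to the symmetric group of degree 6 acting faithfully on the hyperoval. -/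
theorem result {α : Type*} [Fintype α] [DecidableEq α] (hα : Fintype.card α = 21) (L : Set (Finset α)) (hL : Cfsg.IsSteinerSystem 2 5 L) (H : Finset α) (hH : (H.card = 6 ∧ ∀ l ∈ L, (l ∩ H).card ≤ 2)) (σ : Equiv.Perm ↥H) : ∃! g : Equiv.Perm α, g ∈ Cfsg.setSystemAut L ∧ ∀ p : ↥H, g p = σ p := by
  classical
  let e0 : Fin 6 ≃ H := (Finset.equivFinOfCardEq hH.1).symm
  obtain ⟨F1, himg⟩ := Cfsg.Agent.Lib.Helper8.Plane4Model.exists_frame hα hL H hH.2 e0
  obtain ⟨F2, -⟩ := Cfsg.Agent.Lib.Helper8.Plane4Model.exists_frame hα hL H hH.2 (e0.trans σ)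
  obtain ⟨φ1, h1e, h1L, -⟩ := Cfsg.Agent.Lib.Helper8.Plane4Model.exists_iso F1
  obtain ⟨φ2, h2e, h2L, -⟩ := Cfsg.Agent.Lib.Helper8.Plane4Model.exists_iso F2
  have hLL := Cfsg.Agent.Lib.Helper8.Plane4Model.iso_of_model φ1 φ2 h1L h2L
  have hmem : φ1.trans φ2.symm ∈ Cfsg.setSystemAut L := by
    rw [MulAction.mem_stabilizer_iff]
    exact hLL
  have hext : ∀ p : ↥H, (φ1.trans φ2.symm) p = σ p := by
    intro p
    have hp : p = e0 (e0.symm p) := by simp
    rw [hp]
    simp only [Equiv.trans_apply]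
    rw [h1e, Equiv.symm_apply_eq]
    exact (h2e _).symm
  refine ⟨φ1.trans φ2.symm, ⟨hmem, hext⟩, ?_⟩
  rintro g ⟨hg, hgH⟩
  ext x
  exact aut_unique F1 hg hmem (fun i => by rw [hgH (e0 i), hext (e0 i)]) x

end Cfsg.Agent.S5628
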