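-- Statement S5631: subspace stabilisers are maximal in SL_n (via transvections).
import Cfsg.Statements.S5631
import Cfsg.Agent.Lib.Helper94.Tv2

set_option autoImplicit false
open Cfsg

namespace Cfsg.Agent.S5631

open scoped Matrix
open Cfsg.Agent.Lib.Helper94.Basic Cfsg.Agent.Lib.Helper94.GLAux Cfsg.Agent.Lib.Helper94.Tv
  Cfsg.Agent.Lib.Helper94.Tv2

section Aux

variable {ι : Type} [Fintype ι] [DecidableEq ι] {F : Type*} [Field F]

/-- Main step: a subgroup containing the stabiliser of `W` in `SL` and an element moving `W`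
contains the special linear group. -/
lemma max_aux [Nontrivial ι] (W : Submodule F (ι → F))
    (M : Subgroup (Matrix.GeneralLinearGroup ι F))
    (hHM : Cfsg.Geo.subspaceStabilizer W ⊓ Cfsg.Geo.specialLinear ι F ≤ M)
    (g : Matrix.GeneralLinearGroup ι F) (hgM : g ∈ M) (hg : g ∉ Cfsg.Geo.subspaceStabilizer W) :
    Cfsg.Geo.specialLinear ι F ≤ M := by
  -- transvections of the two kinds lie in M
  have hF1 : ∀ (ψ : Module.Dual F (ι → F)) (a : ι → F) (h : ψ a = 0), a ∈ W → gtv ψ a h ∈ M :=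
    fun ψ a h ha => hHM (Subgroup.mem_inf.mpr ⟨gtv_mem_stab_of_mem W ψ a h ha, gtv_mem_SL _ _ _⟩)
  have hF2 : ∀ (ψ : Module.Dual F (ι → F)) (a : ι → F) (h : ψ a = 0), (∀ v ∈ W, ψ v = 0) →
      gtv ψ a h ∈ M :=
    fun ψ a h hψ => hHM (Subgroup.mem_inf.mpr ⟨gtv_mem_stab_of_vanish W ψ a h hψ, gtv_mem_SL _ _ _⟩)
  -- the image of W under g
  set W' : Submodule F (ι → F) := W.map (Matrix.toLin' (g : Matrix ι ι F)) with hW'
  have hmemW' : ∀ x, x ∈ W' ↔ ((g⁻¹ : Matrix.GeneralLinearGroup ι F) : Matrix ι ι F) *ᵥ x ∈ W := by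
    intro x
    constructor
    · rintro ⟨y, hy, rfl⟩
      rw [Matrix.toLin'_apply, gl_inv_mulVec]
      exact hy
    · intro hx
      refine ⟨_, hx, ?_⟩
      rw [Matrix.toLin'_apply, gl_mulVec_inv]
  have hG1 : ∀ (ψ : Module.Dual F (ι → F)) (a : ι → F) (h : ψ a = 0), a ∈ W' → gtv ψ a h ∈ M := by
    intro ψ a h ha
    rw [gtv_conj' g ψ (((g⁻¹ : Matrix.GeneralLinearGroup ι F) : Matrix ι ι F) *ᵥ a) a
      (gl_mulVec_inv g a) h]
    exact M.mul_mem (M.mul_mem hgM (hF1 _ _ _ ((hmemW' a).mp ha))) (M.inv_mem hgM)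
  have hG2 : ∀ (ψ : Module.Dual F (ι → F)) (a : ι → F) (h : ψ a = 0), (∀ v ∈ W', ψ v = 0) →
      gtv ψ a h ∈ M := by
    intro ψ a h hψ
    rw [gtv_conj' g ψ (((g⁻¹ : Matrix.GeneralLinearGroup ι F) : Matrix ι ι F) *ᵥ a) a
      (gl_mulVec_inv g a) h]
    refine M.mul_mem (M.mul_mem hgM (hF2 _ _ _ ?_)) (M.inv_mem hgM)
    intro v hv
    rw [LinearMap.comp_apply]
    exact hψ _ (Submodule.mem_map_of_mem hv)
  -- W' differs from W
  have hne : ¬ (W ≤ W') := by
    intro hle
    have hfin : Module.finrank F W' ≤ Module.finrank F W := Submodule.finrank_map_le _ _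
    have heq : W = W' := Submodule.eq_of_le_of_finrank_le hle hfin
    apply hg
    rw [mem_subspaceStabilizer_iff]
    intro v
    constructor
    · intro hv
      rw [heq, ← Matrix.toLin'_apply]
      exact Submodule.mem_map_of_mem hv
    · intro hv
      rw [heq] at hv
      have h1 := (hmemW' _).mp hv
      rwa [gl_inv_mulVec] at h1
  obtain ⟨w0, hw0, hw0'⟩ := SetLike.not_le_iff_exists.mp hne
  -- every vector is the image of a vector of W under an element of M
  have hS : ∀ u : ι → F, ∃ T ∈ M, ∃ w ∈ W, (T : Matrix ι ι F) *ᵥ w = u := by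
    intro u
    by_cases hu : u ∈ W' ⊔ Submodule.span F {w0}
    · obtain ⟨w', hw', z, hz, rfl⟩ := Submodule.mem_sup.mp hu
      obtain ⟨c, rfl⟩ := Submodule.mem_span_singleton.mp hz
      by_cases hc : c = 0
      · refine ⟨g, hgM, _, (hmemW' w').mp hw', ?_⟩
        rw [gl_mulVec_inv, hc, zero_smul, add_zero]
      · have h2 : w0 ∉ Submodule.span F {c⁻¹ • w'} := by
          intro hmem
          apply hw0'
          have h3 : Submodule.span F {c⁻¹ • w'} ≤ W' := by
            rw [Submodule.span_singleton_le_iff_mem]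
            exact W'.smul_mem _ hw'
          exact h3 hmem
        obtain ⟨ψ, hψ1, hψ0⟩ := exists_dual_one h2
        have hψa : ψ (c⁻¹ • w') = 0 := hψ0 _ (Submodule.mem_span_singleton_self _)
        refine ⟨gtv ψ (c⁻¹ • w') hψa, hG1 _ _ _ (W'.smul_mem _ hw'), c • w0, W.smul_mem _ hw0, ?_⟩
        rw [gtv_mulVec, map_smul, hψ1, smul_eq_mul, mul_one, smul_smul, mul_inv_cancel₀ hc,
          one_smul, add_comm]
    · have h2 : w0 ∉ W' ⊔ Submodule.span F {u - w0} := by
        intro hmem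
        obtain ⟨w', hw', z, hz, hsum⟩ := Submodule.mem_sup.mp hmem
        obtain ⟨c, rfl⟩ := Submodule.mem_span_singleton.mp hz
        by_cases hc : c = 0
        · rw [hc, zero_smul, add_zero] at hsum
          rw [← hsum] at hw0'
          exact hw0' hw'
        · apply hu
          have h3 : u = (-c⁻¹) • w' + (c⁻¹ * (1 + c)) • w0 := by
            have h5 : c • (u - w0) = w0 - w' := eq_sub_of_add_eq' hsum
            have h4 : c • u = w0 + c • w0 - w' := by
              have h6 : c • u = c • (u - w0) + c • w0 := by rw [smul_sub]; abel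
              rw [h6, h5]; abel
            calc u = c⁻¹ • (c • u) := by rw [smul_smul, inv_mul_cancel₀ hc, one_smul]
              _ = (-c⁻¹) • w' + (c⁻¹ * (1 + c)) • w0 := by
                rw [h4]
                module
          rw [h3]
          exact Submodule.add_mem _ (Submodule.mem_sup_left (W'.smul_mem _ hw'))
            (Submodule.mem_sup_right (Submodule.smul_mem _ _ (Submodule.mem_span_singleton_self _)))
      obtain ⟨ψ, hψ1, hψ0⟩ := exists_dual_one h2
      have hψa : ψ (u - w0) = 0 :=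
        hψ0 _ (Submodule.mem_sup_right (Submodule.mem_span_singleton_self _))
      refine ⟨gtv ψ (u - w0) hψa, hG2 _ _ _ (fun v hv => hψ0 v (Submodule.mem_sup_left hv)), w0, hw0,
        ?_⟩
      rw [gtv_mulVec, hψ1, one_smul]
      abel
  apply specialLinear_le_of_tv
  intro φ u h
  obtain ⟨T, hT, w, hw, hTw⟩ := hS u
  rw [gtv_conj' T φ w u hTw h]
  exact M.mul_mem (M.mul_mem hT (hF1 _ _ _ hw)) (M.inv_mem hT)

end Aux

theorem result {F : Type*} [Field F] [Fintype F] (n : ℕ) (hn : 13 ≤ n) (W : Submodule F (Fin n → F)) (hW0 : W ≠ ⊥) (hW1 : W ≠ ⊤) : Cfsg.Geo.IsMaximalIn (Cfsg.Geo.specialLinear (Fin n) F) (Cfsg.Geo.subspaceStabilizer W ⊓ Cfsg.Geo.specialLinear (Fin n) F) := by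
  have : Nontrivial (Fin n) := Fin.nontrivial_iff_two_le.mpr (by omega)
  refine ⟨?_, ?_⟩
  · rw [SetLike.lt_iff_le_and_exists]
    refine ⟨inf_le_right, ?_⟩
    obtain ⟨g, hg1, hg2⟩ := exists_SL_not_stab W hW0 hW1
    exact ⟨g, hg1, fun h => hg2 (Subgroup.mem_inf.mp h).1⟩
  · intro M hHM hMG
    by_cases hMH : M ≤ Cfsg.Geo.subspaceStabilizer W ⊓ Cfsg.Geo.specialLinear (Fin n) F
    · left
      exact le_antisymm hMH hHM
    · right
      obtain ⟨g, hgM, hgH⟩ := SetLike.not_le_iff_exists.mp hMH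
      have hg : g ∉ Cfsg.Geo.subspaceStabilizer W :=
        fun h => hgH (Subgroup.mem_inf.mpr ⟨h, hMG hgM⟩)
      exact le_antisymm hMG (max_aux W M hHM g hgM hg)

end Cfsg.Agent.S5631
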