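-- Statement S5632: the stabiliser of a flag pair is not maximal in SL_n.
import Cfsg.Statements.S5632
import Cfsg.Agent.Lib.Helper94.Tv2

set_option autoImplicit false
open Cfsg

namespace Cfsg.Agent.S5632

open scoped Matrix
open Cfsg.Agent.Lib.Helper94.Basic Cfsg.Agent.Lib.Helper94.GLAux Cfsg.Agent.Lib.Helper94.Tv
  Cfsg.Agent.Lib.Helper94.Tv2

theorem result {F : Type*} [Field F] [Fintype F] (n : ℕ) (W U : Submodule F (Fin n → F)) (hW0 : W ≠ ⊥) (hWU : W < U) (hdim : Module.finrank F W + Module.finrank F U = n) : ∃ K : Subgroup (Matrix.GeneralLinearGroup (Fin n) F), Cfsg.Geo.subspaceStabilizer W ⊓ Cfsg.Geo.subspaceStabilizer U ⊓ Cfsg.Geo.specialLinear (Fin n) F < K ∧ K < Cfsg.Geo.specialLinear (Fin n) F := by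
  have hU1 : U ≠ ⊤ := by
    intro h
    rw [h, finrank_top, Module.finrank_fintype_fun_eq_card, Fintype.card_fin] at hdim
    have h1 : Module.finrank F W = 0 := by omega
    exact hW0 (Submodule.finrank_eq_zero.mp h1)
  have hW1 : W ≠ ⊤ := by
    intro h
    rw [h] at hWU
    exact not_top_lt hWU
  refine ⟨Cfsg.Geo.subspaceStabilizer W ⊓ Cfsg.Geo.specialLinear (Fin n) F, ?_, ?_⟩
  · rw [SetLike.lt_iff_le_and_exists]
    refine ⟨?_, ?_⟩
    · intro g hg
      obtain ⟨hg1, hg2⟩ := Subgroup.mem_inf.mp hg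
      exact Subgroup.mem_inf.mpr ⟨(Subgroup.mem_inf.mp hg1).1, hg2⟩
    · -- a transvection fixing W pointwise and moving U
      obtain ⟨u0, hu0U, hu0W⟩ := SetLike.exists_of_lt hWU
      have h1 : ∃ a, a ∉ U := by
        by_contra hcon
        push_neg at hcon
        exact hU1 (eq_top_iff.mpr (fun x _ => hcon x))
      obtain ⟨a, ha⟩ := h1
      have h2 : u0 ∉ W ⊔ Submodule.span F {a} := by
        intro hmem
        obtain ⟨w, hw, z, hz, hsum⟩ := Submodule.mem_sup.mp hmem
        obtain ⟨c, rfl⟩ := Submodule.mem_span_singleton.mp hz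
        by_cases hc : c = 0
        · rw [hc, zero_smul, add_zero] at hsum
          rw [← hsum] at hu0W
          exact hu0W hw
        · apply ha
          have h3 : c • a = u0 - w := eq_sub_of_add_eq' hsum
          have h4 : a = c⁻¹ • (u0 - w) := by
            rw [← h3, smul_smul, inv_mul_cancel₀ hc, one_smul]
          rw [h4]
          exact U.smul_mem _ (U.sub_mem hu0U (hWU.le hw))
      obtain ⟨ψ, hψ1, hψ0⟩ := exists_dual_one h2
      have hψa : ψ a = 0 := hψ0 _ (Submodule.mem_sup_right (Submodule.mem_span_singleton_self _))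
      refine ⟨gtv ψ a hψa, Subgroup.mem_inf.mpr ⟨gtv_mem_stab_of_vanish W ψ a hψa
        (fun v hv => hψ0 v (Submodule.mem_sup_left hv)), gtv_mem_SL _ _ _⟩, ?_⟩
      intro hmem
      have hstabU := (Subgroup.mem_inf.mp (Subgroup.mem_inf.mp hmem).1).2
      rw [mem_subspaceStabilizer_iff] at hstabU
      have h5 := (hstabU u0).mp hu0U
      rw [gtv_mulVec, hψ1, one_smul] at h5
      apply ha
      have h6 := U.sub_mem h5 hu0U
      simpa using h6
  · rw [SetLike.lt_iff_le_and_exists]
    refine ⟨inf_le_right, ?_⟩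
    obtain ⟨g, hg1, hg2⟩ := exists_SL_not_stab W hW0 hW1
    exact ⟨g, hg1, fun h => hg2 (Subgroup.mem_inf.mp h).1⟩

end Cfsg.Agent.S5632
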