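-- Statement S5633: the stabiliser of a complementary pair is not maximal in SL_n.
import Cfsg.Statements.S5633
import Cfsg.Agent.Lib.Helper94.Tv2

set_option autoImplicit false
open Cfsg

namespace Cfsg.Agent.S5633

open scoped Matrix
open Cfsg.Agent.Lib.Helper94.Basic Cfsg.Agent.Lib.Helper94.GLAux Cfsg.Agent.Lib.Helper94.Tv
  Cfsg.Agent.Lib.Helper94.Tv2

theorem result {F : Type*} [Field F] [Fintype F] (n : ℕ) (W U : Submodule F (Fin n → F)) (hW0 : W ≠ ⊥) (hWU : W ⊓ U = ⊥) (hWU' : W ⊔ U = ⊤) (hdim : Module.finrank F W < Module.finrank F U) : ∃ K : Subgroup (Matrix.GeneralLinearGroup (Fin n) F), Cfsg.Geo.subspaceStabilizer W ⊓ Cfsg.Geo.subspaceStabilizer U ⊓ Cfsg.Geo.specialLinear (Fin n) F < K ∧ K < Cfsg.Geo.specialLinear (Fin n) F := by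
  have hU0 : U ≠ ⊥ := by
    intro h
    rw [h, finrank_bot] at hdim
    omega
  have hW1 : W ≠ ⊤ := by
    intro h
    rw [h, top_inf_eq] at hWU
    exact hU0 hWU
  refine ⟨Cfsg.Geo.subspaceStabilizer W ⊓ Cfsg.Geo.specialLinear (Fin n) F, ?_, ?_⟩
  · rw [SetLike.lt_iff_le_and_exists]
    refine ⟨?_, ?_⟩
    · intro g hg
      obtain ⟨hg1, hg2⟩ := Subgroup.mem_inf.mp hg
      exact Subgroup.mem_inf.mpr ⟨(Subgroup.mem_inf.mp hg1).1, hg2⟩
    · -- a transvection along a vector of W moving U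
      obtain ⟨a, haW, ha0⟩ := Submodule.exists_mem_ne_zero_of_ne_bot hW0
      obtain ⟨u0, hu0U, hu00⟩ := Submodule.exists_mem_ne_zero_of_ne_bot hU0
      have haU : a ∉ U := by
        intro h
        have h1 : a ∈ W ⊓ U := Submodule.mem_inf.mpr ⟨haW, h⟩
        rw [hWU] at h1
        exact ha0 ((Submodule.mem_bot F).mp h1)
      have h2 : u0 ∉ Submodule.span F {a} := by
        intro hmem
        have h3 : Submodule.span F {a} ≤ W := by
          rw [Submodule.span_singleton_le_iff_mem]; exact haW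
        have h1 : u0 ∈ W ⊓ U := Submodule.mem_inf.mpr ⟨h3 hmem, hu0U⟩
        rw [hWU] at h1
        exact hu00 ((Submodule.mem_bot F).mp h1)
      obtain ⟨ψ, hψ1, hψ0⟩ := exists_dual_one h2
      have hψa : ψ a = 0 := hψ0 _ (Submodule.mem_span_singleton_self _)
      refine ⟨gtv ψ a hψa, Subgroup.mem_inf.mpr ⟨gtv_mem_stab_of_mem W ψ a hψa haW,
        gtv_mem_SL _ _ _⟩, ?_⟩
      intro hmem
      have hstabU := (Subgroup.mem_inf.mp (Subgroup.mem_inf.mp hmem).1).2
      rw [mem_subspaceStabilizer_iff] at hstabU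
      have h5 := (hstabU u0).mp hu0U
      rw [gtv_mulVec, hψ1, one_smul] at h5
      apply haU
      have h6 := U.sub_mem h5 hu0U
      simpa using h6
  · rw [SetLike.lt_iff_le_and_exists]
    refine ⟨inf_le_right, ?_⟩
    obtain ⟨g, hg1, hg2⟩ := exists_SL_not_stab W hW0 hW1
    exact ⟨g, hg1, fun h => hg2 (Subgroup.mem_inf.mp h).1⟩

end Cfsg.Agent.S5633
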