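import Cfsg.Statements.S5635
import Cfsg.Agent.Lib.Helper37.DecompCases
import Cfsg.Agent.Lib.Helper37.FrameApply

set_option autoImplicit false
open Cfsg

namespace Cfsg.Agent.S5635

/-- For a finite field F with q elements and n ≥ 13, let D be a decomposition of F^n into t ≥ 2 independent subspaces of equal dimension m spanning F^n, where m = 1 and q ≤ 4, or m = 2 and q = 2. Then the elements of SL_n(F) permuting the members of D form a subgroup that is not maximal: some subgroup lies strictly between it and SL_n(F). -/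
theorem result {F : Type*} [Field F] [Fintype F] (n : ℕ) (hn : 13 ≤ n) {t : ℕ} (m : ℕ) (D : Fin t → Submodule F (Fin n → F)) (hD : Cfsg.Geo.IsMDecomposition m D) (h : (m = 1 ∧ Fintype.card F ≤ 4) ∨ (m = 2 ∧ Fintype.card F = 2)) : ∃ K : Subgroup (Matrix.GeneralLinearGroup (Fin n) F), Cfsg.Geo.decompositionStabilizer D ⊓ Cfsg.Geo.specialLinear (Fin n) F < K ∧ K < Cfsg.Geo.specialLinear (Fin n) F := by
  have hcard := Cfsg.Agent.Lib.Helper37.FrameApply.card_index D hD
  rw [Fintype.card_fin] at hcard
  rcases h with ⟨rfl, hq⟩ | ⟨rfl, hq⟩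
  · obtain ⟨φ, h1, h2, h3⟩ := Cfsg.Agent.Lib.Helper37.DecompCases.case_one (F := F) (t := t)
      (by omega) hq
    exact Cfsg.Agent.Lib.Helper37.DecompWt.decomp_between D hD φ h1 h2 h3
  · obtain ⟨φ, h1, h2, h3⟩ := Cfsg.Agent.Lib.Helper37.DecompCases.case_two (F := F) (t := t)
      (by omega) hq
    exact Cfsg.Agent.Lib.Helper37.DecompWt.decomp_between D hD φ h1 h2 h3

end Cfsg.Agent.S5635
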