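-- Statement S5642: the similarity group of a symplectic form is maximal in SL_n (via transvections).
import Cfsg.Statements.S5642
import Cfsg.Agent.Lib.Helper94.SympAbs

set_option autoImplicit false
open Cfsg

namespace Cfsg.Agent.S5642

open scoped Matrix
open Cfsg.Agent.Lib.Helper94.Basic Cfsg.Agent.Lib.Helper94.GLAux Cfsg.Agent.Lib.Helper94.Tv
  Cfsg.Agent.Lib.Helper94.SympAbs

section Aux

variable {ι : Type} [Fintype ι] [DecidableEq ι] {F : Type*} [Field F]
variable {f : (ι → F) → (ι → F) → F}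

/-- A linear bijection preserving orthogonality is a similarity. -/
lemma simil_of_orth [Nonempty ι] (hf : Cfsg.Geo.IsSymplecticForm f)
    (k : Matrix.GeneralLinearGroup ι F)
    (h : ∀ v x, f x v = 0 → f ((k : Matrix ι ι F) *ᵥ x) ((k : Matrix ι ι F) *ᵥ v) = 0) :
    k ∈ Cfsg.Geo.similarityGroup f := by
  have step1 : ∀ v, ∃ c : F, v ≠ 0 →
      ∀ x, f ((k : Matrix ι ι F) *ᵥ x) ((k : Matrix ι ι F) *ᵥ v) = c * f x v := by
    intro v
    by_cases hv : v = 0
    · exact ⟨0, fun h => absurd hv h⟩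
    · obtain ⟨x0, hx0⟩ := (hf.nondegenerate v hv).1
      refine ⟨(f x0 v)⁻¹ * f ((k : Matrix ι ι F) *ᵥ x0) ((k : Matrix ι ι F) *ᵥ v), fun _ x => ?_⟩
      have h1 : f (x - (f x v * (f x0 v)⁻¹) • x0) v = 0 := by
        rw [bil_sub_left hf.bilinear, hf.bilinear.smul_left, mul_assoc, inv_mul_cancel₀ hx0,
          mul_one, sub_self]
      have h2 := h v _ h1
      rw [Matrix.mulVec_sub, Matrix.mulVec_smul, bil_sub_left hf.bilinear,
        hf.bilinear.smul_left] at h2
      linear_combination h2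
  choose c hc using step1
  have step2 : ∀ x v, x ≠ 0 → v ≠ 0 → f x v ≠ 0 → c x = c v := by
    intro x v hx hv hxv
    have h1 := hc v hv x
    have h2 := hc x hx v
    rw [hf.skew ((k : Matrix ι ι F) *ᵥ v) ((k : Matrix ι ι F) *ᵥ x), hf.skew v x] at h2
    have h3 : (c x - c v) * f x v = 0 := by linear_combination h2 + h1
    rcases mul_eq_zero.mp h3 with h4 | h4
    · exact sub_eq_zero.mp h4
    · exact absurd h4 hxv
  have step3 : ∀ v w, v ≠ 0 → w ≠ 0 → c v = c w := by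
    intro v w hv hw
    obtain ⟨z, hz1, hz2⟩ := exists_both_ne hf v w hv hw
    have hz : z ≠ 0 := by
      intro hz
      rw [hz, bil_zero_left hf.bilinear] at hz1
      exact hz1 rfl
    rw [← step2 z v hz hv hz1, ← step2 z w hz hw hz2]
  obtain ⟨i0⟩ := ‹Nonempty ι›
  have hv0 : (Pi.single i0 (1 : F) : ι → F) ≠ 0 := by
    intro h0
    have := congrFun h0 i0
    simp at this
  have hkv0 : (k : Matrix ι ι F) *ᵥ (Pi.single i0 (1 : F) : ι → F) ≠ 0 := by
    intro h0
    apply hv0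
    apply gl_mulVec_injective k
    simp only [h0, Matrix.mulVec_zero]
  have hc0 : c (Pi.single i0 (1 : F)) ≠ 0 := by
    obtain ⟨y, hy⟩ := (hf.nondegenerate _ hkv0).1
    rw [← gl_mulVec_inv k y, hc _ hv0] at hy
    exact left_ne_zero_of_mul hy
  refine ⟨Units.mk0 _ hc0, fun u v => ?_⟩
  by_cases hv : v = 0
  · subst hv
    simp [Matrix.mulVec_zero, bil_zero_right hf.bilinear]
  · rw [hc v hv u, step3 v _ hv hv0]
    rfl

/-- Main step: a subgroup containing the symplectic similarities of determinant one and a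
non-similarity contains the special linear group. -/
lemma max_aux [Nontrivial ι] (hf : Cfsg.Geo.IsSymplecticForm f)
    (M : Subgroup (Matrix.GeneralLinearGroup ι F))
    (hHM : Cfsg.Geo.similarityGroup f ⊓ Cfsg.Geo.specialLinear ι F ≤ M)
    (g : Matrix.GeneralLinearGroup ι F) (hgM : g ∈ M) (hg : g ∉ Cfsg.Geo.similarityGroup f) :
    Cfsg.Geo.specialLinear ι F ≤ M := by
  have hst : ∀ a c, st hf a c ∈ M := fun a c =>
    hHM (Subgroup.mem_inf.mpr ⟨st_mem_similarity hf a c, st_mem_SL hf a c⟩)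
  have hginv : g⁻¹ ∉ Cfsg.Geo.similarityGroup f := fun h =>
    hg (by simpa using (Cfsg.Geo.similarityGroup f).inv_mem h)
  have hex : ¬ ∀ v x, f x v = 0 → f (((g⁻¹ : Matrix.GeneralLinearGroup ι F) : Matrix ι ι F) *ᵥ x)
      (((g⁻¹ : Matrix.GeneralLinearGroup ι F) : Matrix ι ι F) *ᵥ v) = 0 :=
    fun h => hginv (simil_of_orth hf g⁻¹ h)
  push_neg at hex
  obtain ⟨w, b, hbw, hne⟩ := hex
  set v := ((g⁻¹ : Matrix.GeneralLinearGroup ι F) : Matrix ι ι F) *ᵥ w with hvdef
  have hgv : (g : Matrix ι ι F) *ᵥ v = w := gl_mulVec_inv g w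
  have hw0 : w ≠ 0 := by
    intro h
    apply hne
    rw [hvdef, h]
    simp [Matrix.mulVec_zero, bil_zero_right hf.bilinear]
  have hwb : f w b = 0 := by rw [hf.skew, hbw, neg_zero]
  -- the functional of the conjugated transvection
  set φ0 : Module.Dual F (ι → F) :=
    (fR hf.bilinear v) ∘ₗ Matrix.toLin' ((g⁻¹ : Matrix.GeneralLinearGroup ι F) : Matrix ι ι F)
    with hφ0def
  have hφ0 : ∀ x, φ0 x = f (((g⁻¹ : Matrix.GeneralLinearGroup ι F) : Matrix ι ι F) *ᵥ x) v := by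
    intro x
    simp [hφ0def, Matrix.toLin'_apply]
  have hφ0w : φ0 w = 0 := by rw [hφ0, ← hvdef, hf.alternating]
  have hφ0b : φ0 b ≠ 0 := by rw [hφ0]; exact hne
  have hτ : gtv φ0 w hφ0w ∈ M := by
    have h1 : g * st hf v 1 * g⁻¹ ∈ M := M.mul_mem (M.mul_mem hgM (hst v 1)) (M.inv_mem hgM)
    have h2 : g * st hf v 1 * g⁻¹ = gtv φ0 w hφ0w := by
      apply gl_ext
      intro x
      rw [Units.val_mul, Units.val_mul, ← Matrix.mulVec_mulVec, ← Matrix.mulVec_mulVec, st_mulVec,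
        gtv_mulVec, Matrix.mulVec_add, Matrix.mulVec_smul, gl_mulVec_inv, hgv, hφ0, one_mul]
    rwa [h2] at h1
  -- functionals whose transvection along w lies in M
  have Padd : ∀ φ ψ : Module.Dual F (ι → F), (∃ h : φ w = 0, gtv φ w h ∈ M) →
      (∃ h : ψ w = 0, gtv ψ w h ∈ M) → ∃ h : (φ + ψ) w = 0, gtv (φ + ψ) w h ∈ M := by
    rintro φ ψ ⟨h1, h2⟩ ⟨h3, h4⟩
    refine ⟨by simp [h1, h3], ?_⟩
    rw [← gtv_mul φ ψ w h1 h3]
    exact M.mul_mem h2 h4
  have Pneg : ∀ φ : Module.Dual F (ι → F), (∃ h : φ w = 0, gtv φ w h ∈ M) →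
      ∃ h : (-φ) w = 0, gtv (-φ) w h ∈ M := by
    rintro φ ⟨h1, h2⟩
    refine ⟨by simp [h1], ?_⟩
    rw [← gtv_inv φ w h1]
    exact M.inv_mem h2
  have Pconj : ∀ (φ : Module.Dual F (ι → F)) (a : ι → F) (c : F), (∃ h : φ w = 0, gtv φ w h ∈ M) →
      f w a = 0 → ∃ h : (φ - (c * φ a) • fR hf.bilinear a) w = 0,
        gtv (φ - (c * φ a) • fR hf.bilinear a) w h ∈ M := by
    rintro φ a c ⟨h1, h2⟩ hwa
    have hfix : ((st hf a c : Matrix.GeneralLinearGroup ι F) : Matrix ι ι F) *ᵥ w = w := by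
      rw [st_mulVec, hwa]; simp
    have h0 : (φ - (c * φ a) • fR hf.bilinear a) w = 0 := by simp [h1, hwa]
    refine ⟨h0, ?_⟩
    have h3 : st hf a c * gtv φ w h1 * (st hf a c)⁻¹ ∈ M :=
      M.mul_mem (M.mul_mem (hst a c) h2) (M.inv_mem (hst a c))
    have h4 : st hf a c * gtv φ w h1 * (st hf a c)⁻¹ =
        gtv (φ - (c * φ a) • fR hf.bilinear a) w h0 := by
      apply gl_ext
      intro x
      rw [st_inv, Units.val_mul, Units.val_mul, ← Matrix.mulVec_mulVec, ← Matrix.mulVec_mulVec]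
      simp only [st_mulVec, gtv_mulVec, hf.bilinear.add_left, hf.bilinear.smul_left, hf.alternating,
        map_add, map_smul, LinearMap.sub_apply, LinearMap.smul_apply, fR_apply, smul_eq_mul,
        mul_zero, add_zero, hwa, h1]
      module
    rwa [h4] at h3
  have P0 : ∃ h : φ0 w = 0, gtv φ0 w h ∈ M := ⟨hφ0w, hτ⟩
  have Psmul : ∀ (a : ι → F) (c : F), f w a = 0 →
      ∃ h : ((c * φ0 a) • fR hf.bilinear a) w = 0, gtv ((c * φ0 a) • fR hf.bilinear a) w h ∈ M := by
    intro a c hwa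
    have h1 := Padd _ _ P0 (Pneg _ (Pconj φ0 a c P0 hwa))
    have h2 : φ0 + -(φ0 - (c * φ0 a) • fR hf.bilinear a) = (c * φ0 a) • fR hf.bilinear a := by abel
    rwa [h2] at h1
  have PfR : ∀ a : ι → F, f w a = 0 →
      ∃ h : (fR hf.bilinear a) w = 0, gtv (fR hf.bilinear a) w h ∈ M := by
    have key : ∀ a : ι → F, f w a = 0 → φ0 a ≠ 0 →
        ∃ h : (fR hf.bilinear a) w = 0, gtv (fR hf.bilinear a) w h ∈ M := by
      intro a hwa ha
      have h1 := Psmul a (φ0 a)⁻¹ hwa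
      rwa [inv_mul_cancel₀ ha, one_smul] at h1
    intro a hwa
    by_cases ha : φ0 a = 0
    · have h1 := key (a + b) (by rw [hf.bilinear.add_right, hwa, hwb, add_zero])
        (by rw [map_add, ha, zero_add]; exact hφ0b)
      have h2 := key b hwb hφ0b
      have h3 := Padd _ _ h1 (Pneg _ h2)
      rwa [fR_add, add_neg_cancel_right] at h3
    · exact key a hwa ha
  -- all transvections f(·, a') w' lie in M
  have C : ∀ (w' a' : ι → F), w' ≠ 0 → ∀ h : (fR hf.bilinear a') w' = 0,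
      gtv (fR hf.bilinear a') w' h ∈ M := by
    intro w' a' hw' h
    obtain ⟨k, hkM, hkiso, hkw⟩ := exists_map hf w w' hw0 hw'
    have hk := hkM M hst
    have hwa : f w (((k⁻¹ : Matrix.GeneralLinearGroup ι F) : Matrix ι ι F) *ᵥ a') = 0 := by
      rw [← hkiso, hkw, gl_mulVec_inv]
      exact h
    obtain ⟨h1, h2⟩ := PfR _ hwa
    have h3 : k * gtv (fR hf.bilinear (((k⁻¹ : Matrix.GeneralLinearGroup ι F) : Matrix ι ι F) *ᵥ a'))
        w h1 * k⁻¹ ∈ M := M.mul_mem (M.mul_mem hk h2) (M.inv_mem hk)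
    have h4 : k * gtv (fR hf.bilinear (((k⁻¹ : Matrix.GeneralLinearGroup ι F) : Matrix ι ι F) *ᵥ a'))
        w h1 * k⁻¹ = gtv (fR hf.bilinear a') w' h := by
      apply gl_ext
      intro x
      rw [Units.val_mul, Units.val_mul, ← Matrix.mulVec_mulVec, ← Matrix.mulVec_mulVec, gtv_mulVec,
        Matrix.mulVec_add, Matrix.mulVec_smul, gl_mulVec_inv, hkw, gtv_mulVec, fR_apply, fR_apply,
        ← hkiso, gl_mulVec_inv, gl_mulVec_inv]
    rwa [h4] at h3
  apply specialLinear_le_of_tv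
  intro φ w' h
  by_cases hw' : w' = 0
  · subst hw'
    have h1 : gtv φ 0 h = 1 := by
      apply gl_ext
      intro x
      simp
    rw [h1]
    exact M.one_mem
  · obtain ⟨a', ha'⟩ := exists_rep hf φ
    have hφ : φ = fR hf.bilinear a' := LinearMap.ext (fun x => by simp [ha'])
    subst hφ
    exact C w' a' hw' h

/-- Some element of the special linear group is not a similarity. -/
lemma exists_not_similarity [Nonempty ι] (hcard : 2 < Fintype.card ι)
    (hf : Cfsg.Geo.IsSymplecticForm f) :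
    ∃ g ∈ Cfsg.Geo.specialLinear ι F, g ∉ Cfsg.Geo.similarityGroup f := by
  obtain ⟨i0⟩ := ‹Nonempty ι›
  have hx0 : (Pi.single i0 (1 : F) : ι → F) ≠ 0 := by
    intro h0
    have := congrFun h0 i0
    simp at this
  obtain ⟨w, hw⟩ := (hf.nondegenerate _ hx0).2
  have hker : LinearMap.ker ((fLeft hf.bilinear (Pi.single i0 (1 : F))).prod
      (fLeft hf.bilinear w)) ≠ ⊥ := by
    apply LinearMap.ker_ne_bot_of_finrank_lt
    rw [Module.finrank_prod, Module.finrank_self, Module.finrank_fintype_fun_eq_card]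
    exact hcard
  obtain ⟨a, ha, ha0⟩ := Submodule.exists_mem_ne_zero_of_ne_bot hker
  have ha' : f (Pi.single i0 (1 : F)) a = 0 ∧ f w a = 0 := by
    simpa [LinearMap.mem_ker, LinearMap.prod_apply, Pi.prod, Prod.ext_iff] using ha
  obtain ⟨hx0a, hwa⟩ := ha'
  obtain ⟨y, hy⟩ := (hf.nondegenerate a ha0).1
  refine ⟨gtv (fR hf.bilinear a) w (by simpa using hwa), gtv_mem_SL _ _ _, ?_⟩
  rintro ⟨c, hc⟩
  have h1 := hc (Pi.single i0 (1 : F)) w
  have h2 := hc (Pi.single i0 (1 : F)) y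
  simp only [gtv_mulVec, fR_apply, hx0a, hwa, zero_smul, add_zero] at h1 h2
  rw [hf.bilinear.add_right, hf.bilinear.smul_right] at h2
  have hc1 : (c : F) = 1 := by
    have h3 : ((c : F) - 1) * f (Pi.single i0 (1 : F)) w = 0 := by linear_combination -h1
    rcases mul_eq_zero.mp h3 with h4 | h4
    · exact sub_eq_zero.mp h4
    · exact absurd h4 hw
  rw [hc1, one_mul] at h2
  have h5 : f y a * f (Pi.single i0 (1 : F)) w = 0 := by linear_combination h2
  exact (mul_ne_zero hy hw) h5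

end Aux

theorem result {F : Type*} [Field F] [Fintype F] (n : ℕ) (hn : 13 ≤ n) (f : (Fin n → F) → (Fin n → F) → F) (hf : Cfsg.Geo.IsSymplecticForm f) : Cfsg.Geo.IsMaximalIn (Cfsg.Geo.specialLinear (Fin n) F) (Cfsg.Geo.similarityGroup f ⊓ Cfsg.Geo.specialLinear (Fin n) F) := by
  have : Nontrivial (Fin n) := Fin.nontrivial_iff_two_le.mpr (by omega)
  have : Nonempty (Fin n) := ⟨⟨0, by omega⟩⟩
  refine ⟨?_, ?_⟩
  · rw [SetLike.lt_iff_le_and_exists]
    refine ⟨inf_le_right, ?_⟩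
    obtain ⟨g, hg1, hg2⟩ := exists_not_similarity (ι := Fin n) (by simp; omega) hf
    exact ⟨g, hg1, fun h => hg2 (Subgroup.mem_inf.mp h).1⟩
  · intro M hHM hMG
    by_cases hMH : M ≤ Cfsg.Geo.similarityGroup f ⊓ Cfsg.Geo.specialLinear (Fin n) F
    · left
      exact le_antisymm hMH hHM
    · right
      obtain ⟨g, hgM, hgH⟩ := SetLike.not_le_iff_exists.mp hMH
      have hg : g ∉ Cfsg.Geo.similarityGroup f := fun h => hgH (Subgroup.mem_inf.mpr ⟨h, hMG hgM⟩)
      exact le_antisymm hMG (max_aux hf M hHM g hgM hg)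

end Cfsg.Agent.S5642
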