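-- Statement S5643: the similarity group of a unitary form is maximal in SL_n (via transvections).
import Cfsg.Statements.S5643
import Cfsg.Agent.Lib.Helper94.UnitAbs

set_option autoImplicit false
open Cfsg

namespace Cfsg.Agent.S5643

open scoped Matrix
open Cfsg.Agent.Lib.Helper94.Basic Cfsg.Agent.Lib.Helper94.GLAux Cfsg.Agent.Lib.Helper94.Tv
  Cfsg.Agent.Lib.Helper94.UnitAbs

section Aux

variable {ι : Type} [Fintype ι] [DecidableEq ι] {F : Type*} [Field F]
variable {σ : F ≃+* F} {f : (ι → F) → (ι → F) → F}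

/-- The transvection `x ↦ x + f(x, z) w` lies in `M`. -/
def T (hf : Cfsg.Geo.IsUnitaryForm σ f) (M : Subgroup (Matrix.GeneralLinearGroup ι F))
    (w z : ι → F) : Prop :=
  ∃ h : f w z = 0, utv hf w z h ∈ M

lemma T_perp (hf : Cfsg.Geo.IsUnitaryForm σ f) {M : Subgroup (Matrix.GeneralLinearGroup ι F)}
    {w z : ι → F} (h : T hf M w z) : f w z = 0 := h.1

lemma T_add_z (hf : Cfsg.Geo.IsUnitaryForm σ f) {M : Subgroup (Matrix.GeneralLinearGroup ι F)}
    {w z z' : ι → F} (h : T hf M w z) (h' : T hf M w z') : T hf M w (z + z') := by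
  obtain ⟨h1, h2⟩ := h
  obtain ⟨h1', h2'⟩ := h'
  refine ⟨by rw [add_right hf, h1, h1', add_zero], ?_⟩
  rw [← utv_mul_z hf w z z' h1 h1']
  exact M.mul_mem h2 h2'

lemma T_neg_z (hf : Cfsg.Geo.IsUnitaryForm σ f) {M : Subgroup (Matrix.GeneralLinearGroup ι F)}
    {w z : ι → F} (h : T hf M w z) : T hf M w (-z) := by
  obtain ⟨h1, h2⟩ := h
  refine ⟨by rw [neg_right hf, h1, neg_zero], ?_⟩
  rw [← utv_inv hf w z h1]
  exact M.inv_mem h2

lemma T_add_w (hf : Cfsg.Geo.IsUnitaryForm σ f) {M : Subgroup (Matrix.GeneralLinearGroup ι F)}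
    {w w' z : ι → F} (h : T hf M w z) (h' : T hf M w' z) : T hf M (w + w') z := by
  obtain ⟨h1, h2⟩ := h
  obtain ⟨h1', h2'⟩ := h'
  refine ⟨by rw [hf.add_left, h1, h1', add_zero], ?_⟩
  rw [← utv_mul_w hf w w' z h1 h1']
  exact M.mul_mem h2 h2'

lemma T_zero_w (hf : Cfsg.Geo.IsUnitaryForm σ f) (M : Subgroup (Matrix.GeneralLinearGroup ι F))
    (z : ι → F) : T hf M 0 z := by
  refine ⟨zero_left hf z, ?_⟩
  rw [utv_zero_w hf z]
  exact M.one_mem

lemma T_zero_z (hf : Cfsg.Geo.IsUnitaryForm σ f) (M : Subgroup (Matrix.GeneralLinearGroup ι F))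
    (w : ι → F) : T hf M w 0 := by
  refine ⟨zero_right hf w, ?_⟩
  rw [utv_zero_z hf w]
  exact M.one_mem

lemma T_comm (hf : Cfsg.Geo.IsUnitaryForm σ f) {M : Subgroup (Matrix.GeneralLinearGroup ι F)}
    {w1 z1 w2 z2 : ι → F} (h : T hf M w1 z1) (h' : T hf M w2 z2) (h12 : f w1 z2 = 0) :
    T hf M w1 (f z1 w2 • z2) := by
  obtain ⟨h1, h2⟩ := h
  obtain ⟨h1', h2'⟩ := h'
  refine ⟨by rw [smul_right hf, h12, mul_zero], ?_⟩
  have key := utv_comm hf w1 z1 w2 z2 h1 h1' h12
  have h3 : utv hf w1 (f z1 w2 • z2) (by rw [smul_right hf, h12, mul_zero]) =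
      (utv hf w1 z1 h1 * utv hf w2 z2 h1') * (utv hf w2 z2 h1' * utv hf w1 z1 h1)⁻¹ := by
    rw [key]
    group
  rw [h3]
  exact M.mul_mem (M.mul_mem h2 h2') (M.inv_mem (M.mul_mem h2' h2))

lemma T_iso (hf : Cfsg.Geo.IsUnitaryForm σ f) {M : Subgroup (Matrix.GeneralLinearGroup ι F)}
    (hHM : Cfsg.Geo.similarityGroup f ⊓ Cfsg.Geo.specialLinear ι F ≤ M) (w : ι → F)
    (hw : f w w = 0) (κ : F) (hκ : σ κ = -κ) : T hf M w (κ • w) :=
  ⟨by rw [smul_right hf, hw, mul_zero],
    hHM (Subgroup.mem_inf.mpr ⟨utv_mem_similarity hf w κ hw hκ, utv_mem_SL hf _ _ _⟩)⟩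

/-- Conjugating a transvection of `M` by an element of `M`. -/
lemma T_conj (hf : Cfsg.Geo.IsUnitaryForm σ f) {M : Subgroup (Matrix.GeneralLinearGroup ι F)}
    (g : Matrix.GeneralLinearGroup ι F) (hg : g ∈ M) {w z : ι → F} (h : T hf M w z) :
    ∃ z', (∀ x, f ((g : Matrix ι ι F) *ᵥ x) z' = f x z) ∧ T hf M ((g : Matrix ι ι F) *ᵥ w) z' := by
  obtain ⟨h1, h2⟩ := h
  obtain ⟨z', hz'⟩ := exists_rep hf ((fR hf z) ∘ₗ
    Matrix.toLin' ((g⁻¹ : Matrix.GeneralLinearGroup ι F) : Matrix ι ι F))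
  have hz'' : ∀ x, f ((g : Matrix ι ι F) *ᵥ x) z' = f x z := by
    intro x
    have := hz' ((g : Matrix ι ι F) *ᵥ x)
    simp only [LinearMap.comp_apply, Matrix.toLin'_apply, gl_inv_mulVec, fR_apply] at this
    exact this.symm
  have hperp : f ((g : Matrix ι ι F) *ᵥ w) z' = 0 := by rw [hz'' w, h1]
  refine ⟨z', hz'', hperp, ?_⟩
  have h3 : utv hf ((g : Matrix ι ι F) *ᵥ w) z' hperp = g * utv hf w z h1 * g⁻¹ := by
    apply gl_ext
    intro x
    rw [Units.val_mul, Units.val_mul, ← Matrix.mulVec_mulVec, ← Matrix.mulVec_mulVec]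
    simp only [utv_mulVec, Matrix.mulVec_add, Matrix.mulVec_smul, gl_mulVec_inv]
    have h4 := hz'' (((g⁻¹ : Matrix.GeneralLinearGroup ι F) : Matrix ι ι F) *ᵥ x)
    rw [gl_mulVec_inv] at h4
    rw [h4]
  rw [h3]
  exact M.mul_mem (M.mul_mem hg h2) (M.inv_mem hg)

lemma perp_span_singleton (hf : Cfsg.Geo.IsUnitaryForm σ f) (x u : ι → F) (h : f x u = 0) :
    ∀ u' ∈ Submodule.span F {u}, f x u' = 0 := by
  intro u' hu'
  obtain ⟨c, rfl⟩ := Submodule.mem_span_singleton.mp hu'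
  rw [smul_right hf, h, mul_zero]

lemma finrank_span_singleton_le (u : ι → F) : Module.finrank F (Submodule.span F {u}) ≤ 1 := by
  have := finrank_span_le_card (R := F) ({u} : Set (ι → F))
  simpa using this

end Aux

section Main

variable {ι : Type} [Fintype ι] [DecidableEq ι] {F : Type*} [Field F] [Fintype F]
variable {σ : F ≃+* F} {f : (ι → F) → (ι → F) → F}

/-- If some transvection of `M` with isotropic centre `u` is not a unitary one, then all
transvections with centre `u` lie in `M`. -/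
lemma stepB (hf : Cfsg.Geo.IsUnitaryForm σ f) (hcard : 13 ≤ Fintype.card ι)
    (M : Subgroup (Matrix.GeneralLinearGroup ι F))
    (hHM : Cfsg.Geo.similarityGroup f ⊓ Cfsg.Geo.specialLinear ι F ≤ M)
    (u : ι → F) (z0 : ι → F) (hz0 : T hf M u z0)
    (hz0' : z0 ∉ Submodule.span F {u}) : ∀ z, f u z = 0 → T hf M u z := by
  classical
  obtain ⟨κ₀, hκ₀, hκ₀'⟩ := exists_skew_ne hf
  obtain ⟨θ, hθ⟩ := exists_tr_ne hf
  have hz0u : f z0 u = 0 := (eq_zero_comm hf _ _).mp (T_perp hf hz0)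
  -- (ii): propagation of coefficients
  have prop : ∀ (a : F) (y y' : ι → F), T hf M u (a • y) → f y' y' = 0 → f u y' = 0 →
      ∀ κ : F, σ κ = -κ → T hf M u ((a * f y y' * κ) • y') := by
    intro a y y' hT hy' huy' κ hκ
    have h1 := T_comm hf hT (T_iso hf hHM y' hy' κ hκ) (by rw [smul_right hf, huy', mul_zero])
    rw [hf.smul_left, smul_smul] at h1
    exact h1
  -- an isotropic y orthogonal to u with f z0 y ≠ 0
  obtain ⟨v, hv, hz0v⟩ := exists_perp_ne hf (Submodule.span F {u}) z0 hz0'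
  have huv : f u v = 0 := hv u (Submodule.mem_span_singleton_self u)
  have hvu : f v u = 0 := (eq_zero_comm hf _ _).mp huv
  have hfr := finrank_span_singleton_le (F := F) u
  obtain ⟨y1, y2, hy1, hy2, hy11, hy22, hvy⟩ := iso_sum hf (Submodule.span F {u}) (by omega) v
    (perp_span_singleton hf v u hvu)
  have hex : ∃ y, f y y = 0 ∧ f y u = 0 ∧ f z0 y ≠ 0 := by
    by_cases h1 : f z0 y1 = 0
    · refine ⟨y2, hy22, hy2 u (Submodule.mem_span_singleton_self u), ?_⟩
      intro h2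
      apply hz0v
      rw [hvy, add_right hf, h1, h2, add_zero]
    · exact ⟨y1, hy11, hy1 u (Submodule.mem_span_singleton_self u), h1⟩
  obtain ⟨y, hyy, hyu, hz0y⟩ := hex
  have huy : f u y = 0 := (eq_zero_comm hf _ _).mp hyu
  have hy_not : y ∉ Submodule.span F {u} := by
    intro h
    obtain ⟨c, rfl⟩ := Submodule.mem_span_singleton.mp h
    apply hz0y
    rw [smul_right hf, hz0u, mul_zero]
  -- T u (a0 • y)
  have hTy : T hf M u ((f z0 y * κ₀) • y) := by
    have h1 := T_comm hf hz0 (T_iso hf hHM y hyy κ₀ hκ₀') (by rw [smul_right hf, huy, mul_zero])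
    rw [smul_smul] at h1
    exact h1
  have ha0 : f z0 y * κ₀ ≠ 0 := mul_ne_zero hz0y hκ₀
  -- hyperbolic partner y' of y orthogonal to u
  obtain ⟨r, hr, hyr⟩ := exists_perp_ne hf (Submodule.span F {u}) y hy_not
  have hur : f u r = 0 := hr u (Submodule.mem_span_singleton_self u)
  obtain ⟨d, hd⟩ := adjust_iso hf y r hyy hyr
  obtain ⟨y', hy'⟩ : ∃ y', y' = σ ((f y r)⁻¹) • (r + d • y) := ⟨_, rfl⟩
  have hy'y' : f y' y' = 0 := by
    rw [hy', hf.smul_left, smul_right hf, hd]; simp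
  have huy' : f u y' = 0 := by
    rw [hy', smul_right hf, add_right hf, smul_right hf, hur, huy]; simp
  have hyy' : f y y' = 1 := by
    rw [hy', smul_right hf, add_right hf, smul_right hf, hyy, hf.involutive]
    field_simp
    ring
  have hy'y : f y' y = 1 := by rw [hf.herm, hyy', map_one]
  -- x orthogonal to u, y, y' with prescribed norm
  have hfr3 : Module.finrank F (Submodule.span F ((({u, y, y'} : Finset (ι → F)) : Set (ι → F))))
      ≤ 3 := by
    have h1 : Module.finrank F (Submodule.span F ((({u, y, y'} : Finset (ι → F)) : Set (ι → F))))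
        ≤ ({u, y, y'} : Finset (ι → F)).card := finrank_span_finset_le_card (R := F) _
    have h2 : ({u, y, y'} : Finset (ι → F)).card ≤ 3 := Finset.card_le_three
    omega
  have hfix : σ (-(θ + σ θ)) = -(θ + σ θ) := by
    rw [map_neg, map_add, hf.involutive]; ring
  obtain ⟨x, hx, hxx⟩ := exists_norm_perp hf
    (Submodule.span F ((({u, y, y'} : Finset (ι → F)) : Set (ι → F)))) (by omega) (-(θ + σ θ)) hfix
  have hxu : f x u = 0 := hx u (Submodule.subset_span (by simp))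
  have hxy : f x y = 0 := hx y (Submodule.subset_span (by simp))
  have hxy' : f x y' = 0 := hx y' (Submodule.subset_span (by simp))
  have hux : f u x = 0 := (eq_zero_comm hf _ _).mp hxu
  have hyx : f y x = 0 := (eq_zero_comm hf _ _).mp hxy
  have hy'x : f y' x = 0 := (eq_zero_comm hf _ _).mp hxy'
  obtain ⟨y'', hy''⟩ : ∃ y'', y'' = σ θ • y + y' + x := ⟨_, rfl⟩
  have hy''y'' : f y'' y'' = 0 := by
    rw [hy'']
    simp only [hf.add_left, add_right hf, hf.smul_left, smul_right hf, hyy, hyy', hy'y, hy'y',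
      hxy, hyx, hxy', hy'x, hxx, hf.involutive]
    ring
  have huy'' : f u y'' = 0 := by
    rw [hy'']
    simp only [add_right hf, smul_right hf, huy, huy', hux]
    ring
  have hyy'' : f y y'' = 1 := by
    rw [hy'']
    simp only [add_right hf, smul_right hf, hyy, hyy', hyx]
    ring
  have hy'y'' : f y' y'' = θ := by
    rw [hy'']
    simp only [add_right hf, smul_right hf, hy'y, hy'y', hy'x, hf.involutive]
    ring
  have hy''y : f y'' y = 1 := by rw [hf.herm, hyy'', map_one]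
  -- the coefficient group of y''
  let A : AddSubgroup F :=
    { carrier := {a | T hf M u (a • y'')}
      add_mem' := by
        intro a b ha hb
        simp only [Set.mem_ofPred_eq] at ha hb ⊢
        rw [add_smul]
        exact T_add_z hf ha hb
      zero_mem' := by
        simp only [Set.mem_ofPred_eq]
        rw [zero_smul]
        exact T_zero_z hf M u
      neg_mem' := by
        intro a ha
        simp only [Set.mem_ofPred_eq] at ha ⊢
        rw [neg_smul]
        exact T_neg_z hf ha }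
  have hA : ∀ b : F, T hf M u (b • y'') := by
    intro b
    have hb : b ∈ A := by
      apply two_dim hf A (f z0 y * κ₀) θ ha0 hθ
      · intro κ hκ
        have h1 := prop _ y y'' hTy hy''y'' huy'' κ hκ
        rw [hyy'', mul_one] at h1
        exact h1
      · intro κ₁ κ₂ hκ₁ hκ₂
        have h1 := prop _ y y' hTy hy'y' huy' κ₁ hκ₁
        rw [hyy', mul_one] at h1
        have h2 := prop _ y' y'' h1 hy''y'' huy'' κ₂ hκ₂
        rw [hy'y''] at h2
        exact h2
    exact hb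
  -- isotropic vectors not orthogonal to y''
  have hB6 : ∀ y3 : ι → F, f y3 y3 = 0 → f u y3 = 0 → f y'' y3 ≠ 0 → T hf M u y3 := by
    intro y3 h33 hu3 h3
    have h1 := prop _ y'' y3 (hA (1 / (f y'' y3 * κ₀))) h33 hu3 κ₀ hκ₀'
    have h2 : 1 / (f y'' y3 * κ₀) * f y'' y3 * κ₀ = 1 := by
      field_simp
    rw [h2, one_smul] at h1
    exact h1
  have hB7 : ∀ x1 : ι → F, f u x1 = 0 → f y'' x1 ≠ 0 → T hf M u x1 := by
    intro x1 hu1 h1
    obtain ⟨d1, hd1⟩ := adjust_iso hf y'' x1 hy''y'' h1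
    have h2 : T hf M u (x1 + d1 • y'') := by
      apply hB6 _ hd1
      · rw [add_right hf, smul_right hf, hu1, huy'']; simp
      · rw [add_right hf, smul_right hf, hy''y'', mul_zero, add_zero]; exact h1
    have h3 := T_add_z hf h2 (hA (-d1))
    have h4 : x1 + d1 • y'' + (-d1) • y'' = x1 := by
      rw [neg_smul]; abel
    rwa [h4] at h3
  intro z hz
  by_cases hzy : f y'' z = 0
  · have h1 : T hf M u (z - y) := by
      apply hB7
      · rw [sub_right hf, hz, huy, sub_zero]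
      · rw [sub_right hf, hzy, hy''y]; simp
    have h2 : T hf M u y := by
      apply hB7 _ huy
      rw [hy''y]; exact one_ne_zero
    have h3 := T_add_z hf h1 h2
    rwa [sub_add_cancel] at h3
  · exact hB7 z hz hzy

lemma finrank_span_pair_le (u v : ι → F) :
    Module.finrank F (Submodule.span F ({u, v} : Set (ι → F))) ≤ 2 := by
  rw [Submodule.span_insert]
  have h1 := Submodule.finrank_add_le_finrank_add_finrank (Submodule.span F {u})
    (Submodule.span F {v})
  have h2 := finrank_span_singleton_le (F := F) u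
  have h3 := finrank_span_singleton_le (F := F) v
  omega

/-- Goodness passes to non-orthogonal isotropic vectors. -/
lemma good_of_good (hf : Cfsg.Geo.IsUnitaryForm σ f) (hcard : 13 ≤ Fintype.card ι)
    (M : Subgroup (Matrix.GeneralLinearGroup ι F))
    (hHM : Cfsg.Geo.similarityGroup f ⊓ Cfsg.Geo.specialLinear ι F ≤ M)
    (u : ι → F) (hgood : ∀ z, f u z = 0 → T hf M u z) (u1 : ι → F) (hu1 : f u1 u1 = 0)
    (h : f u1 u ≠ 0) : ∀ z, f u1 z = 0 → T hf M u1 z := by
  classical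
  obtain ⟨κ₀, hκ₀, hκ₀'⟩ := exists_skew_ne hf
  have hfr := finrank_span_pair_le (F := F) u u1
  obtain ⟨y1, y2, hy1, hy2, hy12⟩ := exists_pair_perp hf
    (Submodule.span F ({u, u1} : Set (ι → F))) (by omega)
  have hy1u : f y1 u = 0 := hy1 u (Submodule.subset_span (by simp))
  have hy1u1 : f y1 u1 = 0 := hy1 u1 (Submodule.subset_span (by simp))
  have huy1 : f u y1 = 0 := (eq_zero_comm hf _ _).mp hy1u
  have hu1y1 : f u1 y1 = 0 := (eq_zero_comm hf _ _).mp hy1u1
  have hy1ne : y1 ≠ 0 := by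
    intro h0
    apply hy12
    rw [h0, zero_left hf]
  have h1 := T_comm hf (T_iso hf hHM u1 hu1 κ₀ hκ₀') (hgood y1 huy1) hu1y1
  apply stepB hf hcard M hHM u1 _ h1
  intro hmem
  obtain ⟨c, hc⟩ := Submodule.mem_span_singleton.mp hmem
  have h2 : f (κ₀ • u1) u ≠ 0 := by
    rw [hf.smul_left]; exact mul_ne_zero hκ₀ h
  have h3 := congrArg (fun t => f t u) hc
  simp only [hf.smul_left, hy1u, mul_zero] at h3
  rcases mul_eq_zero.mp h3 with h4 | h4
  · rw [h4, zero_smul] at hc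
    rcases smul_eq_zero.mp hc.symm with h5 | h5
    · exact h2 h5
    · exact hy1ne h5
  · exact h h4

/-- A vector not orthogonal to two given nonzero vectors. -/
lemma exists_both_ne (hf : Cfsg.Geo.IsUnitaryForm σ f) (v w : ι → F) (hv : v ≠ 0) (hw : w ≠ 0) :
    ∃ z, f z v ≠ 0 ∧ f z w ≠ 0 := by
  obtain ⟨z1, hz1⟩ := (hf.nondegenerate v hv).1
  obtain ⟨z2, hz2⟩ := (hf.nondegenerate w hw).1
  by_cases h1 : f z1 w = 0
  · by_cases h2 : f z2 v = 0
    · refine ⟨z1 + z2, ?_, ?_⟩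
      · rw [hf.add_left, h2, add_zero]; exact hz1
      · rw [hf.add_left, h1, zero_add]; exact hz2
    · exact ⟨z2, h2, hz2⟩
  · exact ⟨z1, hz1, h1⟩

/-- An isotropic vector not orthogonal to two given orthogonal nonzero isotropic vectors. -/
lemma exists_iso_both (hf : Cfsg.Geo.IsUnitaryForm σ f) (u u1 : ι → F) (hu : u ≠ 0) (hu1 : u1 ≠ 0)
    (huu : f u u = 0) (h : f u1 u = 0) :
    ∃ u2, f u2 u2 = 0 ∧ f u2 u ≠ 0 ∧ f u1 u2 ≠ 0 := by
  obtain ⟨v, hvu, hvu1⟩ := exists_both_ne hf u u1 hu hu1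
  have huv : f u v ≠ 0 := fun h0 => hvu ((eq_zero_comm hf _ _).mp h0)
  obtain ⟨d, hd⟩ := adjust_iso hf u v huu huv
  refine ⟨v + d • u, hd, ?_, ?_⟩
  · rw [hf.add_left, hf.smul_left, huu, mul_zero, add_zero]; exact hvu
  · rw [add_right hf, smul_right hf, h, mul_zero, add_zero]
    exact fun h0 => hvu1 ((eq_zero_comm hf _ _).mp h0)

lemma all_good (hf : Cfsg.Geo.IsUnitaryForm σ f) (hcard : 13 ≤ Fintype.card ι)
    (M : Subgroup (Matrix.GeneralLinearGroup ι F))
    (hHM : Cfsg.Geo.similarityGroup f ⊓ Cfsg.Geo.specialLinear ι F ≤ M)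
    (u : ι → F) (hu : u ≠ 0) (huu : f u u = 0) (hgood : ∀ z, f u z = 0 → T hf M u z)
    (u1 : ι → F) (hu1 : u1 ≠ 0) (hu1u1 : f u1 u1 = 0) : ∀ z, f u1 z = 0 → T hf M u1 z := by
  by_cases h : f u1 u = 0
  · obtain ⟨u2, h22, h2u, h12⟩ := exists_iso_both hf u u1 hu hu1 huu h
    have hg2 := good_of_good hf hcard M hHM u hgood u2 h22 h2u
    exact good_of_good hf hcard M hHM u2 hg2 u1 hu1u1 h12
  · exact good_of_good hf hcard M hHM u hgood u1 hu1u1 h

/-- Step A: an element of `M` that is not a similarity produces a non-unitary transvection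
with isotropic centre. -/
lemma exists_good (hf : Cfsg.Geo.IsUnitaryForm σ f) (hcard : 13 ≤ Fintype.card ι)
    (M : Subgroup (Matrix.GeneralLinearGroup ι F))
    (hHM : Cfsg.Geo.similarityGroup f ⊓ Cfsg.Geo.specialLinear ι F ≤ M)
    (g : Matrix.GeneralLinearGroup ι F) (hgM : g ∈ M) (hg : g ∉ Cfsg.Geo.similarityGroup f) :
    ∃ u z0, u ≠ 0 ∧ T hf M u z0 ∧ z0 ∉ Submodule.span F {u} := by
  classical
  by_contra hcon
  push Not at hcon
  apply hg
  obtain ⟨κ₀, hκ₀, hκ₀'⟩ := exists_skew_ne hf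
  have hσκ : σ κ₀ ≠ 0 := by rw [hκ₀']; exact neg_ne_zero.mpr hκ₀
  -- Claim S
  have S : ∀ w0 : ι → F, ∃ μ : F, w0 ≠ 0 → f w0 w0 = 0 →
      (μ ≠ 0 ∧ ∀ x, f ((g : Matrix ι ι F) *ᵥ x) ((g : Matrix ι ι F) *ᵥ w0) = μ * f x w0) := by
    intro w0
    by_cases hw0 : w0 = 0
    · exact ⟨0, fun h => absurd hw0 h⟩
    by_cases hw00 : f w0 w0 = 0
    swap
    · exact ⟨0, fun _ h => absurd h hw00⟩
    obtain ⟨z', hz', hT⟩ := T_conj hf g hgM (T_iso hf hHM w0 hw00 κ₀ hκ₀')
    have hw1 : (g : Matrix ι ι F) *ᵥ w0 ≠ 0 := by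
      intro h0
      apply hw0
      have h1 := gl_inv_mulVec g w0
      rw [h0, Matrix.mulVec_zero] at h1
      exact h1.symm
    have hz'ne : z' ≠ 0 := by
      intro h0
      obtain ⟨x0, hx0⟩ := (hf.nondegenerate w0 hw0).1
      have h1 := hz' x0
      rw [h0, zero_right hf, smul_right hf] at h1
      exact (mul_ne_zero hσκ hx0) h1.symm
    have hperp : f ((g : Matrix ι ι F) *ᵥ w0) z' = 0 := T_perp hf hT
    by_cases hiso : f ((g : Matrix ι ι F) *ᵥ w0) ((g : Matrix ι ι F) *ᵥ w0) = 0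
    · -- isotropic image: z' is a multiple of g w0
      have hmem := hcon _ z' hw1 hT
      obtain ⟨c, hc⟩ := Submodule.mem_span_singleton.mp hmem
      have hc0 : c ≠ 0 := by
        intro h0
        apply hz'ne
        rw [← hc, h0, zero_smul]
      have hσc : σ c ≠ 0 := by
        intro h0
        apply hc0
        have := congrArg σ h0
        rwa [hf.involutive, map_zero] at this
      refine ⟨σ κ₀ / σ c, fun _ _ => ⟨div_ne_zero hσκ hσc, fun x => ?_⟩⟩
      have h1 := hz' x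
      rw [← hc, smul_right hf, smul_right hf] at h1
      field_simp
      linear_combination h1
    · -- non-isotropic image: contradiction
      exfalso
      have hfr := finrank_span_pair_le (F := F) ((g : Matrix ι ι F) *ᵥ w0) z'
      have hfix : σ (-(f ((g : Matrix ι ι F) *ᵥ w0) ((g : Matrix ι ι F) *ᵥ w0))) =
          -(f ((g : Matrix ι ι F) *ᵥ w0) ((g : Matrix ι ι F) *ᵥ w0)) := by
        rw [map_neg, self_fixed hf]
      obtain ⟨y, hy, hyy⟩ := exists_norm_perp hf
        (Submodule.span F ({(g : Matrix ι ι F) *ᵥ w0, z'} : Set (ι → F))) (by omega) _ hfix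
      have hyw1 : f y ((g : Matrix ι ι F) *ᵥ w0) = 0 := hy _ (Submodule.subset_span (by simp))
      have hyz' : f y z' = 0 := hy _ (Submodule.subset_span (by simp))
      have hw1y : f ((g : Matrix ι ι F) *ᵥ w0) y = 0 := (eq_zero_comm hf _ _).mp hyw1
      obtain ⟨u0, hu0⟩ : ∃ u0, u0 = (g : Matrix ι ι F) *ᵥ w0 + y := ⟨_, rfl⟩
      have hu0u0 : f u0 u0 = 0 := by
        rw [hu0, hf.add_left, add_right hf, add_right hf, hyw1, hw1y, hyy]; ring
      have hu0z' : f u0 z' = 0 := by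
        rw [hu0, hf.add_left, hperp, hyz', add_zero]
      have hu0w1 : f u0 ((g : Matrix ι ι F) *ᵥ w0) ≠ 0 := by
        rw [hu0, hf.add_left, hyw1, add_zero]; exact hiso
      have hu0ne : u0 ≠ 0 := by
        intro h0
        apply hu0w1
        rw [h0, zero_left hf]
      have h1 := T_comm hf (T_iso hf hHM u0 hu0u0 κ₀ hκ₀') hT hu0z'
      have hmem := hcon u0 _ hu0ne h1
      obtain ⟨c, hc⟩ := Submodule.mem_span_singleton.mp hmem
      have h2 := congrArg (fun t => f ((g : Matrix ι ι F) *ᵥ w0) t) hc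
      simp only [smul_right hf, hperp, mul_zero] at h2
      have hw1u0 : f ((g : Matrix ι ι F) *ᵥ w0) u0 ≠ 0 :=
        fun h0 => hu0w1 ((eq_zero_comm hf _ _).mp h0)
      rcases mul_eq_zero.mp h2 with h3 | h3
      · have hc0 : c = 0 := by
          have := congrArg σ h3
          rwa [hf.involutive, map_zero] at this
        rw [hc0, zero_smul] at hc
        rcases smul_eq_zero.mp hc.symm with h5 | h5
        · rw [hf.smul_left] at h5
          exact (mul_ne_zero hκ₀ hu0w1) h5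
        · exact hz'ne h5
      · exact hw1u0 h3
  choose μ hμ using S
  -- μ agrees on non-orthogonal isotropic vectors
  have S2 : ∀ w0 w0' : ι → F, w0 ≠ 0 → w0' ≠ 0 → f w0 w0 = 0 → f w0' w0' = 0 → f w0 w0' ≠ 0 →
      μ w0 = μ w0' := by
    intro w0 w0' hw0 hw0' h00 h00' hne
    have hne' : f w0' w0 ≠ 0 := fun h0 => hne ((eq_zero_comm hf _ _).mp h0)
    obtain ⟨w2, hw2⟩ : ∃ w2, w2 = w0 + (κ₀ / f w0' w0) • w0' := ⟨_, rfl⟩
    have h22 : f w2 w2 = 0 := by
      rw [hw2, norm_add_smul hf, h00, h00', ← map_mul, div_mul_cancel₀ _ hne', hκ₀']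
      ring
    have hc0 : κ₀ / f w0' w0 ≠ 0 := div_ne_zero hκ₀ hne'
    have hσc0 : σ (κ₀ / f w0' w0) ≠ 0 := by
      intro h0
      apply hc0
      have := congrArg σ h0
      rwa [hf.involutive, map_zero] at this
    have hw2ne : w2 ≠ 0 := by
      intro h0
      have h1 : f w2 w0 = κ₀ := by
        rw [hw2, hf.add_left, hf.smul_left, h00, zero_add, div_mul_cancel₀ _ hne']
      rw [h0, zero_left hf] at h1
      exact hκ₀ h1.symm
    obtain ⟨-, e0⟩ := hμ w0 hw0 h00
    obtain ⟨-, e0'⟩ := hμ w0' hw0' h00'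
    obtain ⟨-, e2⟩ := hμ w2 hw2ne h22
    have key : ∀ x, μ w0 * f x w0 + σ (κ₀ / f w0' w0) * (μ w0' * f x w0') =
        μ w2 * (f x w0 + σ (κ₀ / f w0' w0) * f x w0') := by
      intro x
      have h1 := e2 x
      have hg2 : (g : Matrix ι ι F) *ᵥ w2 = (g : Matrix ι ι F) *ᵥ w0 +
          (κ₀ / f w0' w0) • (g : Matrix ι ι F) *ᵥ w0' := by
        rw [hw2, Matrix.mulVec_add, Matrix.mulVec_smul]
      have hf2 : f x w2 = f x w0 + σ (κ₀ / f w0' w0) * f x w0' := by
        rw [hw2, add_right hf, smul_right hf]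
      rw [hg2, add_right hf, smul_right hf, e0 x, e0' x, hf2] at h1
      exact h1
    have k1 := key w0
    have k2 := key w0'
    rw [h00] at k1
    rw [h00'] at k2
    have hA : μ w0' = μ w2 := by
      have h3 : σ (κ₀ / f w0' w0) * f w0 w0' * (μ w0' - μ w2) = 0 := by linear_combination k1
      rcases mul_eq_zero.mp h3 with h4 | h4
      · exact absurd h4 (mul_ne_zero hσc0 hne)
      · exact sub_eq_zero.mp h4
    have hB : μ w0 = μ w2 := by
      have h3 : f w0' w0 * (μ w0 - μ w2) = 0 := by linear_combination k2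
      rcases mul_eq_zero.mp h3 with h4 | h4
      · exact absurd h4 hne'
      · exact sub_eq_zero.mp h4
    rw [hA, hB]
  have S3 : ∀ w0 w0' : ι → F, w0 ≠ 0 → w0' ≠ 0 → f w0 w0 = 0 → f w0' w0' = 0 →
      μ w0 = μ w0' := by
    intro w0 w0' hw0 hw0' h00 h00'
    by_cases hne : f w0 w0' = 0
    · have hne' : f w0' w0 = 0 := (eq_zero_comm hf _ _).mp hne
      obtain ⟨w2, h22, h2a, h2b⟩ := exists_iso_both hf w0 w0' hw0 hw0' h00 hne'
      have hw2ne : w2 ≠ 0 := by
        intro h0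
        apply h2a
        rw [h0, zero_left hf]
      have h2a' : f w0 w2 ≠ 0 := fun h0 => h2a ((eq_zero_comm hf _ _).mp h0)
      have h2b' : f w2 w0' ≠ 0 := fun h0 => h2b ((eq_zero_comm hf _ _).mp h0)
      rw [S2 w0 w2 hw0 hw2ne h00 h22 h2a', S2 w2 w0' hw2ne hw0' h22 h00' h2b']
    · exact S2 w0 w0' hw0 hw0' h00 h00' hne
  -- conclusion
  have hbot : Module.finrank F (⊥ : Submodule F (ι → F)) = 0 := finrank_bot F (ι → F)
  obtain ⟨ws, ws2, -, -, hws, -, hws12⟩ := exists_hyp_perp hf (⊥ : Submodule F (ι → F))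
    (by omega)
  have hwsne : ws ≠ 0 := by
    intro h0
    rw [h0, zero_left hf] at hws12
    exact zero_ne_one hws12
  obtain ⟨hμs, -⟩ := hμ ws hwsne hws
  refine ⟨Units.mk0 (μ ws) hμs, fun x y => ?_⟩
  rw [Units.val_mk0]
  obtain ⟨y1, y2, -, -, h11, h22, hy⟩ := iso_sum hf (⊥ : Submodule F (ι → F)) (by omega) y
    (fun u hu => by rw [(Submodule.mem_bot F).mp hu, zero_right hf])
  have hpart : ∀ y' : ι → F, f y' y' = 0 →
      f ((g : Matrix ι ι F) *ᵥ x) ((g : Matrix ι ι F) *ᵥ y') = μ ws * f x y' := by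
    intro y' hy'
    by_cases h0 : y' = 0
    · rw [h0, Matrix.mulVec_zero, zero_right hf, zero_right hf, mul_zero]
    · obtain ⟨-, e⟩ := hμ y' h0 hy'
      rw [e x, S3 y' ws h0 hwsne hy' hws]
  rw [hy, Matrix.mulVec_add, add_right hf, add_right hf, hpart y1 h11, hpart y2 h22]
  ring

/-- The maximality argument. -/
lemma max_aux [Nontrivial ι] (hf : Cfsg.Geo.IsUnitaryForm σ f) (hcard : 13 ≤ Fintype.card ι)
    (M : Subgroup (Matrix.GeneralLinearGroup ι F))
    (hHM : Cfsg.Geo.similarityGroup f ⊓ Cfsg.Geo.specialLinear ι F ≤ M)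
    (g : Matrix.GeneralLinearGroup ι F) (hgM : g ∈ M) (hg : g ∉ Cfsg.Geo.similarityGroup f) :
    Cfsg.Geo.specialLinear ι F ≤ M := by
  obtain ⟨u, z0, hu, hT, hz0⟩ := exists_good hf hcard M hHM g hgM hg
  -- u might not be isotropic: reduce to an isotropic centre
  have hgu := stepB hf hcard M hHM u z0 hT hz0
  have hbot : Module.finrank F (⊥ : Submodule F (ι → F)) = 0 := finrank_bot F (ι → F)
  have hex : ∃ u', u' ≠ 0 ∧ f u' u' = 0 ∧ ∀ z, f u' z = 0 → T hf M u' z := by
    obtain ⟨x, hx⟩ := (hf.nondegenerate u hu).1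
    obtain ⟨y1, y2, -, -, h11, h22, hy⟩ := iso_sum hf (⊥ : Submodule F (ι → F)) (by omega) x
      (fun u hu => by rw [(Submodule.mem_bot F).mp hu, zero_right hf])
    have hex2 : ∃ u1, f u1 u1 = 0 ∧ f u1 u ≠ 0 := by
      by_cases h1 : f y1 u = 0
      · refine ⟨y2, h22, fun h2 => hx ?_⟩
        rw [hy, hf.add_left, h1, h2, add_zero]
      · exact ⟨y1, h11, h1⟩
    obtain ⟨u1, h1, h2⟩ := hex2
    refine ⟨u1, ?_, h1, good_of_good hf hcard M hHM u hgu u1 h1 h2⟩
    intro h0
    apply h2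
    rw [h0, zero_left hf]
  obtain ⟨u', hu', hu'u', hgood⟩ := hex
  have hall := all_good hf hcard M hHM u' hu' hu'u' hgood
  have hT : ∀ w z : ι → F, f w z = 0 → T hf M w z := by
    intro w z hwz
    have hfr := finrank_span_singleton_le (F := F) z
    obtain ⟨w1, w2, hw1, hw2, h11, h22, hw⟩ := iso_sum hf (Submodule.span F {z}) (by omega) w
      (perp_span_singleton hf w z hwz)
    have hpart : ∀ w' : ι → F, f w' w' = 0 → f w' z = 0 → T hf M w' z := by
      intro w' h1 h2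
      by_cases h0 : w' = 0
      · rw [h0]; exact T_zero_w hf M z
      · exact hall w' h0 h1 z h2
    rw [hw]
    exact T_add_w hf (hpart w1 h11 (hw1 z (Submodule.mem_span_singleton_self z)))
      (hpart w2 h22 (hw2 z (Submodule.mem_span_singleton_self z)))
  apply specialLinear_le_of_tv M
  intro φ w h
  obtain ⟨z, hz, e⟩ := gtv_eq_utv hf φ w h
  rw [e]
  obtain ⟨h1, h2⟩ := hT w z hz
  exact h2

/-- Some element of the special linear group is not a similarity. -/
lemma exists_not_similarity (hf : Cfsg.Geo.IsUnitaryForm σ f) (hcard : 13 ≤ Fintype.card ι) :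
    ∃ g ∈ Cfsg.Geo.specialLinear ι F, g ∉ Cfsg.Geo.similarityGroup f := by
  have hbot : Module.finrank F (⊥ : Submodule F (ι → F)) = 0 := finrank_bot F (ι → F)
  obtain ⟨y1, y2, -, -, h11, h22, h12⟩ := exists_hyp_perp hf (⊥ : Submodule F (ι → F))
    (by omega)
  have hfr := finrank_span_pair_le (F := F) y1 y2
  obtain ⟨z, z2, hz, -, hzz2⟩ := exists_pair_perp hf
    (Submodule.span F ({y1, y2} : Set (ι → F))) (by omega)
  have hzy1 : f z y1 = 0 := hz y1 (Submodule.subset_span (by simp))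
  have hzy2 : f z y2 = 0 := hz y2 (Submodule.subset_span (by simp))
  have hy1z : f y1 z = 0 := (eq_zero_comm hf _ _).mp hzy1
  have hy2z : f y2 z = 0 := (eq_zero_comm hf _ _).mp hzy2
  have hzne : z ≠ 0 := by
    intro h0
    apply hzz2
    rw [h0, zero_left hf]
  obtain ⟨x, hx⟩ := (hf.nondegenerate z hzne).1
  refine ⟨utv hf y1 z hy1z, utv_mem_SL hf _ _ _, ?_⟩
  rintro ⟨c, hc⟩
  have e1 := hc y1 y2
  have e2 := hc x y2
  simp only [utv_mulVec, hy1z, hy2z, zero_smul, add_zero, h12, mul_one] at e1 e2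
  rw [hf.add_left, hf.smul_left, h12, mul_one, ← e1, one_mul] at e2
  apply hx
  linear_combination e2

end Main

theorem result {F : Type*} [Field F] [Fintype F] (n : ℕ) (hn : 13 ≤ n) (σ : F ≃+* F) (f : (Fin n → F) → (Fin n → F) → F) (hf : Cfsg.Geo.IsUnitaryForm σ f) : Cfsg.Geo.IsMaximalIn (Cfsg.Geo.specialLinear (Fin n) F) (Cfsg.Geo.similarityGroup f ⊓ Cfsg.Geo.specialLinear (Fin n) F) := by
  have : Nontrivial (Fin n) := Fin.nontrivial_iff_two_le.mpr (by omega)
  have hcard : 13 ≤ Fintype.card (Fin n) := by simpa using hn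
  refine ⟨?_, ?_⟩
  · rw [SetLike.lt_iff_le_and_exists]
    refine ⟨inf_le_right, ?_⟩
    obtain ⟨g, hg1, hg2⟩ := exists_not_similarity (ι := Fin n) hf hcard
    exact ⟨g, hg1, fun h => hg2 (Subgroup.mem_inf.mp h).1⟩
  · intro M hHM hMG
    by_cases hMH : M ≤ Cfsg.Geo.similarityGroup f ⊓ Cfsg.Geo.specialLinear (Fin n) F
    · left
      exact le_antisymm hMH hHM
    · right
      obtain ⟨g, hgM, hgH⟩ := SetLike.not_le_iff_exists.mp hMH
      have hg : g ∉ Cfsg.Geo.similarityGroup f := fun h => hgH (Subgroup.mem_inf.mpr ⟨h, hMG hgM⟩)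
      exact le_antisymm hMG (max_aux hf hcard M hHM g hgM hg)

end Cfsg.Agent.S5643
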