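-- Statement S5644: the similarity group of a quadratic form (q odd) is maximal in SL_n.
import Cfsg.Statements.S5644
import Cfsg.Agent.Lib.Helper94.QuadAbs

set_option autoImplicit false
open Cfsg

namespace Cfsg.Agent.S5644

open scoped Matrix
open Cfsg.Agent.Lib.Helper94.Basic Cfsg.Agent.Lib.Helper94.GLAux Cfsg.Agent.Lib.Helper94.Tv
  Cfsg.Agent.Lib.Helper94.SympAbs Cfsg.Agent.Lib.Helper94.QuadAbs

section Aux

variable {ι : Type} [Fintype ι] [DecidableEq ι] {F : Type*} [Field F]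
variable {Q : (ι → F) → F}

/-- The transvection `x ↦ x + B(x, z) w` lies in `M`. -/
def T (hQ : Cfsg.Geo.IsNondegenerateQuadraticForm Q) (M : Subgroup (Matrix.GeneralLinearGroup ι F))
    (w z : ι → F) : Prop :=
  ∃ h : QuadraticMap.polar Q w z = 0, qtv hQ w z h ∈ M

lemma T_perp (hQ : Cfsg.Geo.IsNondegenerateQuadraticForm Q)
    {M : Subgroup (Matrix.GeneralLinearGroup ι F)} {w z : ι → F} (h : T hQ M w z) :
    QuadraticMap.polar Q w z = 0 := h.1

lemma T_add_z (hQ : Cfsg.Geo.IsNondegenerateQuadraticForm Q)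
    {M : Subgroup (Matrix.GeneralLinearGroup ι F)} {w z z' : ι → F} (h : T hQ M w z)
    (h' : T hQ M w z') : T hQ M w (z + z') := by
  obtain ⟨h1, h2⟩ := h
  obtain ⟨h1', h2'⟩ := h'
  refine ⟨by rw [hQ.polar_bilinear.add_right, h1, h1', add_zero], ?_⟩
  rw [← qtv_mul_z hQ w z z' h1 h1']
  exact M.mul_mem h2 h2'

lemma T_neg_z (hQ : Cfsg.Geo.IsNondegenerateQuadraticForm Q)
    {M : Subgroup (Matrix.GeneralLinearGroup ι F)} {w z : ι → F} (h : T hQ M w z) :
    T hQ M w (-z) := by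
  obtain ⟨h1, h2⟩ := h
  refine ⟨by rw [bil_neg_right hQ.polar_bilinear, h1, neg_zero], ?_⟩
  rw [← qtv_inv hQ w z h1]
  exact M.inv_mem h2

lemma T_add_w (hQ : Cfsg.Geo.IsNondegenerateQuadraticForm Q)
    {M : Subgroup (Matrix.GeneralLinearGroup ι F)} {w w' z : ι → F} (h : T hQ M w z)
    (h' : T hQ M w' z) : T hQ M (w + w') z := by
  obtain ⟨h1, h2⟩ := h
  obtain ⟨h1', h2'⟩ := h'
  refine ⟨by rw [hQ.polar_bilinear.add_left, h1, h1', add_zero], ?_⟩
  rw [← qtv_mul_w hQ w w' z h1 h1']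
  exact M.mul_mem h2 h2'

lemma T_zero_w (hQ : Cfsg.Geo.IsNondegenerateQuadraticForm Q)
    (M : Subgroup (Matrix.GeneralLinearGroup ι F)) (z : ι → F) : T hQ M 0 z := by
  refine ⟨bil_zero_left hQ.polar_bilinear z, ?_⟩
  rw [qtv_zero_w hQ z]
  exact M.one_mem

lemma T_zero_z (hQ : Cfsg.Geo.IsNondegenerateQuadraticForm Q)
    (M : Subgroup (Matrix.GeneralLinearGroup ι F)) (w : ι → F) : T hQ M w 0 := by
  refine ⟨bil_zero_right hQ.polar_bilinear w, ?_⟩
  rw [qtv_zero_z hQ w]
  exact M.one_mem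

/-- The transvections with fixed centre `w` form an additive subgroup. -/
def SW (hQ : Cfsg.Geo.IsNondegenerateQuadraticForm Q)
    (M : Subgroup (Matrix.GeneralLinearGroup ι F)) (w : ι → F) : AddSubgroup (ι → F) where
  carrier := {z | T hQ M w z}
  add_mem' := fun ha hb => T_add_z hQ ha hb
  zero_mem' := T_zero_z hQ M w
  neg_mem' := fun ha => T_neg_z hQ ha

/-- The transvections with fixed functional `B(·, z)` form an additive subgroup. -/
def RZ (hQ : Cfsg.Geo.IsNondegenerateQuadraticForm Q)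
    (M : Subgroup (Matrix.GeneralLinearGroup ι F)) (z : ι → F) : AddSubgroup (ι → F) where
  carrier := {w | T hQ M w z}
  add_mem' := fun ha hb => T_add_w hQ ha hb
  zero_mem' := T_zero_w hQ M z
  neg_mem' := by
    intro w hw
    obtain ⟨h1, h2⟩ := hw
    refine ⟨by rw [bil_neg_left hQ.polar_bilinear, h1, neg_zero], ?_⟩
    have h3 : qtv hQ (-w) z (by rw [bil_neg_left hQ.polar_bilinear, h1, neg_zero]) =
        (qtv hQ w z h1)⁻¹ := by
      rw [qtv_inv]
      apply gl_ext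
      intro x
      simp only [qtv_mulVec, bil_neg_right hQ.polar_bilinear]
      module
    rw [h3]
    exact M.inv_mem h2

/-- Conjugating by an isometry in `M`. -/
lemma T_isom (hQ : Cfsg.Geo.IsNondegenerateQuadraticForm Q)
    {M : Subgroup (Matrix.GeneralLinearGroup ι F)} (k : Matrix.GeneralLinearGroup ι F)
    (hkM : k ∈ M) (hk : ∀ v, Q ((k : Matrix ι ι F) *ᵥ v) = Q v) {w z : ι → F}
    (h : T hQ M w z) : T hQ M ((k : Matrix ι ι F) *ᵥ w) ((k : Matrix ι ι F) *ᵥ z) := by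
  obtain ⟨h1, h2⟩ := h
  refine ⟨by rw [polar_of_isom k hk, h1], ?_⟩
  rw [← qtv_conj hQ k hk w z h1]
  exact M.mul_mem (M.mul_mem hkM h2) (M.inv_mem hkM)

end Aux

section Main

variable {ι : Type} [Fintype ι] [DecidableEq ι] {F : Type*} [Field F] [Fintype F]
variable {Q : (ι → F) → F}

lemma perp_span_pair (hQ : Cfsg.Geo.IsNondegenerateQuadraticForm Q) (c z x : ι → F)
    (h1 : QuadraticMap.polar Q c x = 0) (h2 : QuadraticMap.polar Q z x = 0) :
    ∀ u ∈ Submodule.span F ({c, z} : Set (ι → F)), QuadraticMap.polar Q u x = 0 := by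
  intro u hu
  obtain ⟨α, β, rfl⟩ := Submodule.mem_span_pair.mp hu
  rw [hQ.polar_bilinear.add_left, hQ.polar_bilinear.smul_left, hQ.polar_bilinear.smul_left, h1, h2]
  simp

/-- The spanning lemma: an additive subgroup of `c^⊥`, stable under the reflections fixing `c`
and containing a vector outside `F c`, is all of `c^⊥`. -/
lemma span_lemma (hQ : Cfsg.Geo.IsNondegenerateQuadraticForm Q) (h2F : (2 : F) ≠ 0)
    (hcard : 13 ≤ Fintype.card ι) (c : ι → F) (S : AddSubgroup (ι → F))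
    (hS1 : ∀ v ∈ S, QuadraticMap.polar Q c v = 0)
    (hS2 : ∀ v ∈ S, ∀ (u : ι → F) (hu : Q u ≠ 0), QuadraticMap.polar Q u c = 0 →
      ((refl hQ u hu : Matrix.GeneralLinearGroup ι F) : Matrix ι ι F) *ᵥ v ∈ S)
    (z : ι → F) (hz : z ∈ S) (hzc : z ∉ Submodule.span F {c}) :
    ∀ v, QuadraticMap.polar Q c v = 0 → v ∈ S := by
  have hbl := hQ.polar_bilinear
  -- (1)
  have step1 : ∀ v ∈ S, ∀ u : ι → F, Q u ≠ 0 → QuadraticMap.polar Q u c = 0 →
      (QuadraticMap.polar Q v u * (Q u)⁻¹) • u ∈ S := by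
    intro v hv u hu huc
    have h1 := hS2 v hv u hu huc
    rw [refl_mulVec] at h1
    have h2 := S.sub_mem hv h1
    have h3 : v - (v - (QuadraticMap.polar Q v u * (Q u)⁻¹) • u) =
        (QuadraticMap.polar Q v u * (Q u)⁻¹) • u := by abel
    rwa [h3] at h2
  -- (2) Claim L
  have claimL : ∀ z ∈ S, ∀ u2 : ι → F, Q u2 = 0 → QuadraticMap.polar Q c u2 = 0 →
      QuadraticMap.polar Q z u2 = 0 → z ∉ Submodule.span F ({c, u2} : Set (ι → F)) →
      ∀ t : F, t • u2 ∈ S := by
    intro z hz u2 hu2 hcu2 hzu2 hzn t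
    obtain ⟨r, hr, hzr⟩ := exists_perp_ne hQ _ z hzn
    have hcr : QuadraticMap.polar Q c r = 0 := hr c (Submodule.subset_span (by simp))
    have hu2r : QuadraticMap.polar Q u2 r = 0 := hr u2 (Submodule.subset_span (by simp))
    have hex : ∃ u1, Q u1 ≠ 0 ∧ QuadraticMap.polar Q c u1 = 0 ∧ QuadraticMap.polar Q u2 u1 = 0 ∧
        QuadraticMap.polar Q z u1 ≠ 0 := by
      by_cases hQr : Q r = 0
      · have hfr := finrank_span_quad_le (F := F) c u2 z r
        obtain ⟨x, hx, hQx⟩ := exists_nonsing_perp hQ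
          (Submodule.span F ({c, u2, z, r} : Set (ι → F))) (by omega)
        have hcx : QuadraticMap.polar Q c x = 0 := hx c (Submodule.subset_span (by simp))
        have hu2x : QuadraticMap.polar Q u2 x = 0 := hx u2 (Submodule.subset_span (by simp))
        have hzx : QuadraticMap.polar Q z x = 0 := hx z (Submodule.subset_span (by simp))
        have hrx : QuadraticMap.polar Q r x = 0 := hx r (Submodule.subset_span (by simp))
        refine ⟨r + x, ?_, ?_, ?_, ?_⟩
        · rw [Q_add Q, hQr, hrx]; simpa using hQx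
        · rw [hbl.add_right, hcr, hcx, add_zero]
        · rw [hbl.add_right, hu2r, hu2x, add_zero]
        · rw [hbl.add_right, hzx, add_zero]; exact hzr
      · exact ⟨r, hQr, hcr, hu2r, hzr⟩
    obtain ⟨u1, hQu1, hcu1, hu2u1, hzu1⟩ := hex
    have hu1c : QuadraticMap.polar Q u1 c = 0 := by rw [B_comm]; exact hcu1
    have hu1u2 : QuadraticMap.polar Q u1 u2 = 0 := by rw [B_comm]; exact hu2u1
    have hu2c : QuadraticMap.polar Q u2 c = 0 := by rw [B_comm]; exact hcu2
    obtain ⟨s, hs⟩ : ∃ s : F, s = t * Q u1 / QuadraticMap.polar Q z u1 := ⟨_, rfl⟩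
    have hQu : Q (u1 + s • u2) = Q u1 := by
      rw [Q_add_smul hQ, hu1u2, hu2]; ring
    have hQu' : Q (u1 + s • u2) ≠ 0 := by rw [hQu]; exact hQu1
    have h1 := step1 z hz (u1 + s • u2) hQu' (by
      rw [hbl.add_left, hbl.smul_left, hu1c, hu2c]; simp)
    have h2 := step1 z hz u1 hQu1 hu1c
    rw [hQu, hbl.add_right, hbl.smul_right, hzu2, mul_zero, add_zero] at h1
    have h3 := S.sub_mem h1 h2
    have h4 : (QuadraticMap.polar Q z u1 * (Q u1)⁻¹) • (u1 + s • u2) -
        (QuadraticMap.polar Q z u1 * (Q u1)⁻¹) • u1 = t • u2 := by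
      rw [smul_add, add_sub_cancel_left, smul_smul, hs]
      congr 1
      field_simp
    rwa [h4] at h3
  -- (3) Claim P
  have claimP : ∀ z ∈ S, z ∉ Submodule.span F {c} → ∀ v, QuadraticMap.polar Q c v = 0 →
      QuadraticMap.polar Q z v = 0 → v ∈ S := by
    intro z hz hzc v hcv hzv
    have hcz : QuadraticMap.polar Q c z = 0 := hS1 z hz
    have hfr := finrank_span_pair_le (F := F) c z
    -- good singular vectors
    have good : ∀ s : ι → F, Q s = 0 → QuadraticMap.polar Q c s = 0 →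
        QuadraticMap.polar Q z s = 0 → s ∉ Submodule.span F ({c, z} : Set (ι → F)) → s ∈ S := by
      intro s hQs hcs hzs hsn
      have h1 : z ∉ Submodule.span F ({c, s} : Set (ι → F)) := by
        intro hmem
        obtain ⟨α, β, hαβ⟩ := Submodule.mem_span_pair.mp hmem
        by_cases hβ : β = 0
        · apply hzc
          rw [hβ, zero_smul, add_zero] at hαβ
          rw [← hαβ]
          exact Submodule.smul_mem _ _ (Submodule.mem_span_singleton_self c)
        · apply hsn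
          have h2 : s = (-(α / β)) • c + (1 / β) • z := by
            rw [← hαβ, smul_add, smul_smul, smul_smul, ← add_assoc, ← add_smul]
            have e1 : -(α / β) + 1 / β * α = 0 := by field_simp; ring
            have e2 : 1 / β * β = 1 := by field_simp
            rw [e1, e2, zero_smul, zero_add, one_smul]
          rw [h2]
          exact Submodule.add_mem _
            (Submodule.smul_mem _ _ (Submodule.subset_span (by simp)))
            (Submodule.smul_mem _ _ (Submodule.subset_span (by simp)))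
      have h3 := claimL z hz s hQs hcs hzs h1 1
      rwa [one_smul] at h3
    have all : ∀ s : ι → F, Q s = 0 → QuadraticMap.polar Q c s = 0 →
        QuadraticMap.polar Q z s = 0 → s ∈ S := by
      intro s hQs hcs hzs
      by_cases hsn : s ∈ Submodule.span F ({c, z} : Set (ι → F))
      · have hfr3 := finrank_span_triple_le (F := F) c z s
        obtain ⟨y1, y2, hy1, hy2, h11, h22, h12⟩ := exists_hyp_perp hQ
          (Submodule.span F ({c, z, s} : Set (ι → F))) (by omega)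
        have hcy1 : QuadraticMap.polar Q c y1 = 0 := hy1 c (Submodule.subset_span (by simp))
        have hzy1 : QuadraticMap.polar Q z y1 = 0 := hy1 z (Submodule.subset_span (by simp))
        have hsy1 : QuadraticMap.polar Q s y1 = 0 := hy1 s (Submodule.subset_span (by simp))
        have hcy2 : QuadraticMap.polar Q c y2 = 0 := hy2 c (Submodule.subset_span (by simp))
        have hzy2 : QuadraticMap.polar Q z y2 = 0 := hy2 z (Submodule.subset_span (by simp))
        have hy1n : y1 ∉ Submodule.span F ({c, z} : Set (ι → F)) := by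
          intro hmem
          have h0 := perp_span_pair hQ c z y2 hcy2 hzy2 y1 hmem
          rw [h12] at h0
          exact one_ne_zero h0
        have hg1 := good y1 h11 hcy1 hzy1 hy1n
        have hg2 : s + y1 ∈ S := by
          apply good
          · rw [Q_add Q, hQs, h11, hsy1]; ring
          · rw [hbl.add_right, hcs, hcy1, add_zero]
          · rw [hbl.add_right, hzs, hzy1, add_zero]
          · intro hmem
            apply hy1n
            have := Submodule.sub_mem _ hmem hsn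
            rwa [add_sub_cancel_left] at this
        have h5 := S.sub_mem hg2 hg1
        rwa [add_sub_cancel_right] at h5
      · exact good s hQs hcs hzs hsn
    obtain ⟨s1, s2, hs1, hs2, h11, h22, hv⟩ := sing_sum hQ h2F
      (Submodule.span F ({c, z} : Set (ι → F))) (by omega) v
      (perp_span_pair hQ c z v hcv hzv)
    rw [hv]
    exact S.add_mem
      (all s1 h11 (hs1 c (Submodule.subset_span (by simp))) (hs1 z (Submodule.subset_span (by simp))))
      (all s2 h22 (hs2 c (Submodule.subset_span (by simp))) (hs2 z (Submodule.subset_span (by simp))))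
  -- (4)
  have hcz : QuadraticMap.polar Q c z = 0 := hS1 z hz
  have hfr := finrank_span_pair_le (F := F) c z
  obtain ⟨y1, y2, hy1, hy2, h11, h22, h12⟩ := exists_hyp_perp hQ
    (Submodule.span F ({c, z} : Set (ι → F))) (by omega)
  have hcy1 : QuadraticMap.polar Q c y1 = 0 := hy1 c (Submodule.subset_span (by simp))
  have hzy1 : QuadraticMap.polar Q z y1 = 0 := hy1 z (Submodule.subset_span (by simp))
  have hcy2 : QuadraticMap.polar Q c y2 = 0 := hy2 c (Submodule.subset_span (by simp))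
  have hzy2 : QuadraticMap.polar Q z y2 = 0 := hy2 z (Submodule.subset_span (by simp))
  have hy1n : y1 ∉ Submodule.span F ({c, z} : Set (ι → F)) := by
    intro hmem
    have h0 := perp_span_pair hQ c z y2 hcy2 hzy2 y1 hmem
    rw [h12] at h0
    exact one_ne_zero h0
  have hy1S : y1 ∈ S := claimP z hz hzc y1 hcy1 hzy1
  have hy1c : y1 ∉ Submodule.span F {c} := by
    intro hmem
    apply hy1n
    obtain ⟨α, rfl⟩ := Submodule.mem_span_singleton.mp hmem
    exact Submodule.smul_mem _ _ (Submodule.subset_span (by simp))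
  have hzn : z ∉ Submodule.span F ({c, y1} : Set (ι → F)) := by
    intro hmem
    obtain ⟨α, β, hαβ⟩ := Submodule.mem_span_pair.mp hmem
    have h0 : QuadraticMap.polar Q z y2 = β := by
      rw [← hαβ, hbl.add_left, hbl.smul_left, hbl.smul_left, hcy2, h12]; ring
    rw [hzy2] at h0
    apply hzc
    rw [← hαβ, ← h0, zero_smul, add_zero]
    exact Submodule.smul_mem _ _ (Submodule.mem_span_singleton_self c)
  obtain ⟨r, hr, hzr⟩ := exists_perp_ne hQ _ z hzn
  have hcr : QuadraticMap.polar Q c r = 0 := hr c (Submodule.subset_span (by simp))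
  have hy1r : QuadraticMap.polar Q y1 r = 0 := hr y1 (Submodule.subset_span (by simp))
  intro v hcv
  have hv2 : (QuadraticMap.polar Q z v / QuadraticMap.polar Q z r) • r ∈ S := by
    apply claimP y1 hy1S hy1c
    · rw [hbl.smul_right, hcr, mul_zero]
    · rw [hbl.smul_right, hy1r, mul_zero]
  have hv1 : v - (QuadraticMap.polar Q z v / QuadraticMap.polar Q z r) • r ∈ S := by
    apply claimP z hz hzc
    · rw [bil_sub_right hbl, hbl.smul_right, hcv, hcr]; ring
    · rw [bil_sub_right hbl, hbl.smul_right]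
      field_simp
      ring
  have h5 := S.add_mem hv1 hv2
  rwa [sub_add_cancel] at h5

/-- A product of two reflections lies in `M`. -/
lemma rr_mem (hQ : Cfsg.Geo.IsNondegenerateQuadraticForm Q)
    {M : Subgroup (Matrix.GeneralLinearGroup ι F)}
    (hHM : Cfsg.Geo.quadSimilarityGroup Q ⊓ Cfsg.Geo.specialLinear ι F ≤ M)
    (a b : ι → F) (ha : Q a ≠ 0) (hb : Q b ≠ 0) : refl hQ a ha * refl hQ b hb ∈ M :=
  hHM (refl_mul_refl_mem hQ a b ha hb)

lemma rr_isom (hQ : Cfsg.Geo.IsNondegenerateQuadraticForm Q) (a b : ι → F) (ha : Q a ≠ 0)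
    (hb : Q b ≠ 0) (v : ι → F) :
    Q (((refl hQ a ha * refl hQ b hb : Matrix.GeneralLinearGroup ι F) : Matrix ι ι F) *ᵥ v) =
      Q v := by
  rw [Units.val_mul, ← Matrix.mulVec_mulVec, refl_isom hQ, refl_isom hQ]

/-- Reflections fixing the centre act on the transvections with that centre. -/
lemma T_refl_z (hQ : Cfsg.Geo.IsNondegenerateQuadraticForm Q) (hcard : 13 ≤ Fintype.card ι)
    {M : Subgroup (Matrix.GeneralLinearGroup ι F)}
    (hHM : Cfsg.Geo.quadSimilarityGroup Q ⊓ Cfsg.Geo.specialLinear ι F ≤ M)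
    {w z : ι → F} (h : T hQ M w z) (u : ι → F) (hu : Q u ≠ 0)
    (huw : QuadraticMap.polar Q u w = 0) :
    T hQ M w (((refl hQ u hu : Matrix.GeneralLinearGroup ι F) : Matrix ι ι F) *ᵥ z) := by
  have hfr := finrank_span_triple_le (F := F) w z u
  obtain ⟨y, hy, hQy⟩ := exists_nonsing_perp hQ
    (Submodule.span F ({w, z, u} : Set (ι → F))) (by omega)
  have hwy : QuadraticMap.polar Q w y = 0 := hy w (Submodule.subset_span (by simp))
  have hzy : QuadraticMap.polar Q z y = 0 := hy z (Submodule.subset_span (by simp))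
  have h1 := T_isom hQ _ (rr_mem hQ hHM u y hu hQy) (rr_isom hQ u y hu hQy) h
  rw [Units.val_mul, ← Matrix.mulVec_mulVec, ← Matrix.mulVec_mulVec, refl_fix hQ y hQy w hwy,
    refl_fix hQ y hQy z hzy, refl_fix hQ u hu w (by rw [B_comm]; exact huw)] at h1
  exact h1

lemma T_refl_w (hQ : Cfsg.Geo.IsNondegenerateQuadraticForm Q) (hcard : 13 ≤ Fintype.card ι)
    {M : Subgroup (Matrix.GeneralLinearGroup ι F)}
    (hHM : Cfsg.Geo.quadSimilarityGroup Q ⊓ Cfsg.Geo.specialLinear ι F ≤ M)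
    {w z : ι → F} (h : T hQ M w z) (u : ι → F) (hu : Q u ≠ 0)
    (huz : QuadraticMap.polar Q u z = 0) :
    T hQ M (((refl hQ u hu : Matrix.GeneralLinearGroup ι F) : Matrix ι ι F) *ᵥ w) z := by
  have hfr := finrank_span_triple_le (F := F) w z u
  obtain ⟨y, hy, hQy⟩ := exists_nonsing_perp hQ
    (Submodule.span F ({w, z, u} : Set (ι → F))) (by omega)
  have hwy : QuadraticMap.polar Q w y = 0 := hy w (Submodule.subset_span (by simp))
  have hzy : QuadraticMap.polar Q z y = 0 := hy z (Submodule.subset_span (by simp))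
  have h1 := T_isom hQ _ (rr_mem hQ hHM u y hu hQy) (rr_isom hQ u y hu hQy) h
  rw [Units.val_mul, ← Matrix.mulVec_mulVec, ← Matrix.mulVec_mulVec, refl_fix hQ y hQy w hwy,
    refl_fix hQ y hQy z hzy, refl_fix hQ u hu z (by rw [B_comm]; exact huz)] at h1
  exact h1

/-- From one transvection with independent centre and axis vector, all with the same centre. -/
lemma spanW (hQ : Cfsg.Geo.IsNondegenerateQuadraticForm Q) (h2F : (2 : F) ≠ 0)
    (hcard : 13 ≤ Fintype.card ι) {M : Subgroup (Matrix.GeneralLinearGroup ι F)}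
    (hHM : Cfsg.Geo.quadSimilarityGroup Q ⊓ Cfsg.Geo.specialLinear ι F ≤ M)
    (w z0 : ι → F) (h : T hQ M w z0) (hz0 : z0 ∉ Submodule.span F {w}) :
    ∀ z, QuadraticMap.polar Q w z = 0 → T hQ M w z :=
  span_lemma hQ h2F hcard w (SW hQ M w) (fun _ hv => T_perp hQ hv)
    (fun _ hv u hu huw => T_refl_z hQ hcard hHM hv u hu huw) z0 h hz0

lemma spanZ (hQ : Cfsg.Geo.IsNondegenerateQuadraticForm Q) (h2F : (2 : F) ≠ 0)
    (hcard : 13 ≤ Fintype.card ι) {M : Subgroup (Matrix.GeneralLinearGroup ι F)}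
    (hHM : Cfsg.Geo.quadSimilarityGroup Q ⊓ Cfsg.Geo.specialLinear ι F ≤ M)
    (z w0 : ι → F) (h : T hQ M w0 z) (hw0 : w0 ∉ Submodule.span F {z}) :
    ∀ w, QuadraticMap.polar Q w z = 0 → T hQ M w z := by
  intro w hw
  exact span_lemma hQ h2F hcard z (RZ hQ M z)
    (fun _ hv => by rw [B_comm]; exact T_perp hQ hv)
    (fun _ hv u hu huz => T_refl_w hQ hcard hHM hv u hu huz) w0 h hw0 w
    (by rw [B_comm]; exact hw)

/-- From one transvection with independent centre and axis vector, all transvections. -/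
lemma all_of_one (hQ : Cfsg.Geo.IsNondegenerateQuadraticForm Q) (h2F : (2 : F) ≠ 0)
    (hcard : 13 ≤ Fintype.card ι) {M : Subgroup (Matrix.GeneralLinearGroup ι F)}
    (hHM : Cfsg.Geo.quadSimilarityGroup Q ⊓ Cfsg.Geo.specialLinear ι F ≤ M)
    (w0 z0 : ι → F) (hw0 : w0 ≠ 0) (h : T hQ M w0 z0) (hz0 : z0 ∉ Submodule.span F {w0}) :
    ∀ w z, QuadraticMap.polar Q w z = 0 → T hQ M w z := by
  have hbl := hQ.polar_bilinear
  intro w z hwz
  by_cases hw : w = 0
  · rw [hw]; exact T_zero_w hQ M z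
  have hfr := finrank_span_pair_le (F := F) w0 w
  obtain ⟨y1, y2, hy1, hy2, h11, h22, h12⟩ := exists_hyp_perp hQ
    (Submodule.span F ({w0, w} : Set (ι → F))) (by omega)
  have hw0y1 : QuadraticMap.polar Q w0 y1 = 0 := hy1 w0 (Submodule.subset_span (by simp))
  have hwy1 : QuadraticMap.polar Q w y1 = 0 := hy1 w (Submodule.subset_span (by simp))
  have hw0y2 : QuadraticMap.polar Q w0 y2 = 0 := hy2 w0 (Submodule.subset_span (by simp))
  have hwy2 : QuadraticMap.polar Q w y2 = 0 := hy2 w (Submodule.subset_span (by simp))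
  have hy1ne : y1 ≠ 0 := by
    intro h0
    rw [h0, bil_zero_left hbl] at h12
    exact zero_ne_one h12
  -- y1 is not a multiple of w0 or of w
  have hn1 : y1 ∉ Submodule.span F {w0} := by
    intro hmem
    obtain ⟨α, rfl⟩ := Submodule.mem_span_singleton.mp hmem
    rw [hbl.smul_left, hw0y2, mul_zero] at h12
    exact zero_ne_one h12
  have hn2 : y1 ∉ Submodule.span F {w} := by
    intro hmem
    obtain ⟨α, rfl⟩ := Submodule.mem_span_singleton.mp hmem
    rw [hbl.smul_left, hwy2, mul_zero] at h12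
    exact zero_ne_one h12
  have hn3 : w0 ∉ Submodule.span F {y1} := by
    intro hmem
    obtain ⟨α, hα⟩ := Submodule.mem_span_singleton.mp hmem
    by_cases hα0 : α = 0
    · rw [hα0, zero_smul] at hα
      exact hw0 hα.symm
    · apply hn1
      have : y1 = α⁻¹ • w0 := by rw [← hα, smul_smul, inv_mul_cancel₀ hα0, one_smul]
      rw [this]
      exact Submodule.smul_mem _ _ (Submodule.mem_span_singleton_self w0)
  have t1 : T hQ M w0 y1 := spanW hQ h2F hcard hHM w0 z0 h hz0 y1 hw0y1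
  have t2 : T hQ M w y1 := spanZ hQ h2F hcard hHM y1 w0 t1 hn3 w hwy1
  exact spanW hQ h2F hcard hHM w y1 t2 hn2 z hwz

lemma exists_both_ne (hQ : Cfsg.Geo.IsNondegenerateQuadraticForm Q) (v w : ι → F) (hv : v ≠ 0)
    (hw : w ≠ 0) : ∃ z, QuadraticMap.polar Q z v ≠ 0 ∧ QuadraticMap.polar Q z w ≠ 0 := by
  have hbl := hQ.polar_bilinear
  obtain ⟨z1, hz1⟩ := (hQ.nondegenerate v hv).1
  obtain ⟨z2, hz2⟩ := (hQ.nondegenerate w hw).1
  by_cases h1 : QuadraticMap.polar Q z1 w = 0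
  · by_cases h2 : QuadraticMap.polar Q z2 v = 0
    · refine ⟨z1 + z2, ?_, ?_⟩
      · rw [hbl.add_left, h2, add_zero]; exact hz1
      · rw [hbl.add_left, h1, zero_add]; exact hz2
    · exact ⟨z2, h2, hz2⟩
  · exact ⟨z1, hz1, h1⟩

/-- A linear bijection preserving orthogonality is a similarity (odd characteristic). -/
lemma simil_of_orth [Nonempty ι] (hQ : Cfsg.Geo.IsNondegenerateQuadraticForm Q) (h2F : (2 : F) ≠ 0)
    (k : Matrix.GeneralLinearGroup ι F)
    (h : ∀ v x, QuadraticMap.polar Q x v = 0 →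
      QuadraticMap.polar Q ((k : Matrix ι ι F) *ᵥ x) ((k : Matrix ι ι F) *ᵥ v) = 0) :
    k ∈ Cfsg.Geo.quadSimilarityGroup Q := by
  have hbl := hQ.polar_bilinear
  have step1 : ∀ v, ∃ c : F, v ≠ 0 →
      ∀ x, QuadraticMap.polar Q ((k : Matrix ι ι F) *ᵥ x) ((k : Matrix ι ι F) *ᵥ v) =
        c * QuadraticMap.polar Q x v := by
    intro v
    by_cases hv : v = 0
    · exact ⟨0, fun h => absurd hv h⟩
    · obtain ⟨x0, hx0⟩ := (hQ.nondegenerate v hv).1
      refine ⟨(QuadraticMap.polar Q x0 v)⁻¹ *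
        QuadraticMap.polar Q ((k : Matrix ι ι F) *ᵥ x0) ((k : Matrix ι ι F) *ᵥ v), fun _ x => ?_⟩
      have h1 : QuadraticMap.polar Q
          (x - (QuadraticMap.polar Q x v * (QuadraticMap.polar Q x0 v)⁻¹) • x0) v = 0 := by
        rw [bil_sub_left hbl, hbl.smul_left, mul_assoc, inv_mul_cancel₀ hx0, mul_one, sub_self]
      have h2 := h v _ h1
      rw [Matrix.mulVec_sub, Matrix.mulVec_smul, bil_sub_left hbl, hbl.smul_left] at h2
      linear_combination h2
  choose c hc using step1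
  have step2 : ∀ x v, x ≠ 0 → v ≠ 0 → QuadraticMap.polar Q x v ≠ 0 → c x = c v := by
    intro x v hx hv hxv
    have h1 := hc v hv x
    have h2 := hc x hx v
    rw [B_comm Q ((k : Matrix ι ι F) *ᵥ v) ((k : Matrix ι ι F) *ᵥ x), B_comm Q v x] at h2
    have h3 : (c x - c v) * QuadraticMap.polar Q x v = 0 := by linear_combination h1 - h2
    rcases mul_eq_zero.mp h3 with h4 | h4
    · exact sub_eq_zero.mp h4
    · exact absurd h4 hxv
  have step3 : ∀ v w, v ≠ 0 → w ≠ 0 → c v = c w := by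
    intro v w hv hw
    obtain ⟨z, hz1, hz2⟩ := exists_both_ne hQ v w hv hw
    have hz : z ≠ 0 := by
      intro hz
      rw [hz, bil_zero_left hbl] at hz1
      exact hz1 rfl
    rw [← step2 z v hz hv hz1, ← step2 z w hz hw hz2]
  obtain ⟨i0⟩ := ‹Nonempty ι›
  have hv0 : (Pi.single i0 (1 : F) : ι → F) ≠ 0 := by
    intro h0
    have := congrFun h0 i0
    simp at this
  have hkv0 : (k : Matrix ι ι F) *ᵥ (Pi.single i0 (1 : F) : ι → F) ≠ 0 := by
    intro h0
    apply hv0
    apply gl_mulVec_injective k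
    simp only [h0, Matrix.mulVec_zero]
  have hc0 : c (Pi.single i0 (1 : F)) ≠ 0 := by
    obtain ⟨y, hy⟩ := (hQ.nondegenerate _ hkv0).1
    rw [← gl_mulVec_inv k y, hc _ hv0] at hy
    exact left_ne_zero_of_mul hy
  refine ⟨Units.mk0 _ hc0, fun v => ?_⟩
  rw [Units.val_mk0]
  by_cases hv : v = 0
  · subst hv
    simp [Matrix.mulVec_zero, Q_zero hQ]
  · have h1 := hc v hv v
    rw [B_self hQ, B_self hQ, step3 v _ hv hv0] at h1
    have h2 : (2 : F) * (Q ((k : Matrix ι ι F) *ᵥ v) - c (Pi.single i0 1) * Q v) = 0 := by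
      linear_combination h1
    rcases mul_eq_zero.mp h2 with h3 | h3
    · exact absurd h3 h2F
    · exact sub_eq_zero.mp h3

/-- The pullback of a nondegenerate quadratic form along an invertible matrix. -/
lemma pullback_nondeg (hQ : Cfsg.Geo.IsNondegenerateQuadraticForm Q)
    (g : Matrix.GeneralLinearGroup ι F) :
    Cfsg.Geo.IsNondegenerateQuadraticForm (fun x => Q ((g : Matrix ι ι F) *ᵥ x)) := by
  have hbl := hQ.polar_bilinear
  have hpol : ∀ x y, QuadraticMap.polar (fun x => Q ((g : Matrix ι ι F) *ᵥ x)) x y =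
      QuadraticMap.polar Q ((g : Matrix ι ι F) *ᵥ x) ((g : Matrix ι ι F) *ᵥ y) := by
    intro x y
    simp only [QuadraticMap.polar, Matrix.mulVec_add]
  refine ⟨fun c v => ?_, ⟨?_, ?_, ?_, ?_⟩, ?_⟩
  · show Q ((g : Matrix ι ι F) *ᵥ (c • v)) = c ^ 2 * Q ((g : Matrix ι ι F) *ᵥ v)
    rw [Matrix.mulVec_smul, hQ.smul]
  · intro x y v
    rw [hpol, hpol, hpol, Matrix.mulVec_add, hbl.add_left]
  · intro c x v
    rw [hpol, hpol, Matrix.mulVec_smul, hbl.smul_left]
  · intro v x y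
    rw [hpol, hpol, hpol, Matrix.mulVec_add, hbl.add_right]
  · intro c v x
    rw [hpol, hpol, Matrix.mulVec_smul, hbl.smul_right]
  · intro v hv
    have hgv : (g : Matrix ι ι F) *ᵥ v ≠ 0 := by
      intro h0
      apply hv
      apply gl_mulVec_injective g
      simp only [h0, Matrix.mulVec_zero]
    obtain ⟨⟨x, hx⟩, ⟨y, hy⟩⟩ := hQ.nondegenerate _ hgv
    refine ⟨⟨((g⁻¹ : Matrix.GeneralLinearGroup ι F) : Matrix ι ι F) *ᵥ x, ?_⟩,
      ⟨((g⁻¹ : Matrix.GeneralLinearGroup ι F) : Matrix ι ι F) *ᵥ y, ?_⟩⟩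
    · rw [hpol, gl_mulVec_inv]; exact hx
    · rw [hpol, gl_mulVec_inv]; exact hy

lemma polar_pullback (g : Matrix.GeneralLinearGroup ι F) (x y : ι → F) :
    QuadraticMap.polar (fun x => Q ((g : Matrix ι ι F) *ᵥ x)) x y =
      QuadraticMap.polar Q ((g : Matrix ι ι F) *ᵥ x) ((g : Matrix ι ι F) *ᵥ y) := by
  simp only [QuadraticMap.polar, Matrix.mulVec_add]

lemma refl_mul_self (hQ : Cfsg.Geo.IsNondegenerateQuadraticForm Q) (a : ι → F) (ha : Q a ≠ 0) :
    refl hQ a ha * refl hQ a ha = 1 := by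
  have h := mul_inv_cancel (refl hQ a ha)
  rwa [refl_inv] at h

/-- The transvection produced by a suitable configuration. -/
lemma tv_of_config (hQ : Cfsg.Geo.IsNondegenerateQuadraticForm Q) (h2F : (2 : F) ≠ 0)
    {M : Subgroup (Matrix.GeneralLinearGroup ι F)}
    (hHM : Cfsg.Geo.quadSimilarityGroup Q ⊓ Cfsg.Geo.specialLinear ι F ≤ M)
    (g : Matrix.GeneralLinearGroup ι F) (hgM : g ∈ M) (a b e0 s0 : ι → F)
    (hQa : Q a ≠ 0) (hQb : Q b ≠ 0) (hab : QuadraticMap.polar Q a b = 0)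
    (he0a : QuadraticMap.polar Q e0 a = 0) (he0b : QuadraticMap.polar Q e0 b = 0)
    (hs0a : QuadraticMap.polar Q s0 a = 0) (hs0b : QuadraticMap.polar Q s0 b = 0)
    (hQe : Q ((g : Matrix ι ι F) *ᵥ e0) ≠ 0) (hQs : Q ((g : Matrix ι ι F) *ᵥ s0) ≠ 0)
    (hsa : QuadraticMap.polar Q ((g : Matrix ι ι F) *ᵥ s0) ((g : Matrix ι ι F) *ᵥ a) = 0)
    (hsb : QuadraticMap.polar Q ((g : Matrix ι ι F) *ᵥ s0) ((g : Matrix ι ι F) *ᵥ b) = 0)
    (hes : QuadraticMap.polar Q ((g : Matrix ι ι F) *ᵥ e0) ((g : Matrix ι ι F) *ᵥ s0) = 0)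
    (hea : QuadraticMap.polar Q ((g : Matrix ι ι F) *ᵥ e0) ((g : Matrix ι ι F) *ᵥ a) ≠ 0) :
    ∃ w0 z0, w0 ≠ 0 ∧ T hQ M w0 z0 ∧ z0 ∉ Submodule.span F {w0} := by
  have hbl := hQ.polar_bilinear
  obtain ⟨e, he⟩ : ∃ e, e = (g : Matrix ι ι F) *ᵥ e0 := ⟨_, rfl⟩
  obtain ⟨s, hs⟩ : ∃ s, s = (g : Matrix ι ι F) *ᵥ s0 := ⟨_, rfl⟩
  rw [← he] at hQe hes hea
  rw [← hs] at hQs hsa hsb hes
  obtain ⟨X, hX⟩ : ∃ X, X = g * (refl hQ a hQa * refl hQ b hQb) * g⁻¹ := ⟨_, rfl⟩
  obtain ⟨Xi, hXi⟩ : ∃ Xi, Xi = g * (refl hQ b hQb * refl hQ a hQa) * g⁻¹ := ⟨_, rfl⟩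
  have hXXi : X * Xi = 1 := by
    rw [hX, hXi]
    have h1 : g * (refl hQ a hQa * refl hQ b hQb) * g⁻¹ *
        (g * (refl hQ b hQb * refl hQ a hQa) * g⁻¹) =
        g * (refl hQ a hQa * (refl hQ b hQb * refl hQ b hQb) * refl hQ a hQa) * g⁻¹ := by group
    rw [h1, refl_mul_self, mul_one, refl_mul_self, mul_one, mul_inv_cancel]
  have hXM : X ∈ M := by
    rw [hX]
    exact M.mul_mem (M.mul_mem hgM (rr_mem hQ hHM a b hQa hQb)) (M.inv_mem hgM)
  have hXiM : Xi ∈ M := by
    rw [hXi]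
    exact M.mul_mem (M.mul_mem hgM (rr_mem hQ hHM b a hQb hQa)) (M.inv_mem hgM)
  -- action of X and Xi
  have hXfix : ∀ v0 : ι → F, QuadraticMap.polar Q v0 a = 0 → QuadraticMap.polar Q v0 b = 0 →
      (X : Matrix ι ι F) *ᵥ ((g : Matrix ι ι F) *ᵥ v0) = (g : Matrix ι ι F) *ᵥ v0 := by
    intro v0 h1 h2
    rw [hX, Units.val_mul, Units.val_mul, Units.val_mul, ← Matrix.mulVec_mulVec,
      ← Matrix.mulVec_mulVec, ← Matrix.mulVec_mulVec, gl_inv_mulVec, refl_fix hQ b hQb v0 h2,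
      refl_fix hQ a hQa v0 h1]
  have hXe : (X : Matrix ι ι F) *ᵥ e = e := by rw [he]; exact hXfix e0 he0a he0b
  have hXs : (X : Matrix ι ι F) *ᵥ s = s := by rw [hs]; exact hXfix s0 hs0a hs0b
  have hXiy : ∀ y : ι → F, ∃ α β : F, (Xi : Matrix ι ι F) *ᵥ y =
      y - α • ((g : Matrix ι ι F) *ᵥ a) - β • ((g : Matrix ι ι F) *ᵥ b) ∧
      (y = (g : Matrix ι ι F) *ᵥ a → α = 2 ∧ β = 0) := by
    intro y
    obtain ⟨y', hy'⟩ : ∃ y', y' = ((g⁻¹ : Matrix.GeneralLinearGroup ι F) : Matrix ι ι F) *ᵥ y :=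
      ⟨_, rfl⟩
    refine ⟨QuadraticMap.polar Q y' a * (Q a)⁻¹, QuadraticMap.polar Q y' b * (Q b)⁻¹, ?_, ?_⟩
    · rw [hXi, Units.val_mul, Units.val_mul, Units.val_mul, ← Matrix.mulVec_mulVec,
        ← Matrix.mulVec_mulVec, ← Matrix.mulVec_mulVec, ← hy', refl_mulVec hQ a hQa,
        refl_mulVec hQ b hQb, bil_sub_left hbl, hbl.smul_left, hab, mul_zero, sub_zero,
        Matrix.mulVec_sub, Matrix.mulVec_sub, Matrix.mulVec_smul, Matrix.mulVec_smul, hy',
        gl_mulVec_inv]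
    · intro hy
      rw [hy, gl_inv_mulVec] at hy'
      rw [hy', B_self hQ, hab]
      constructor
      · field_simp
      · simp
  have hXiXy : ∀ y : ι → F, (X : Matrix ι ι F) *ᵥ ((Xi : Matrix ι ι F) *ᵥ y) = y := by
    intro y
    rw [Matrix.mulVec_mulVec, ← Units.val_mul, hXXi, Units.val_one, Matrix.one_mulVec]
  have hXie : (Xi : Matrix ι ι F) *ᵥ e = e := by
    have h1 := hXiXy e
    have h2 : (X : Matrix ι ι F) *ᵥ ((Xi : Matrix ι ι F) *ᵥ e) = (X : Matrix ι ι F) *ᵥ e := by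
      rw [h1, hXe]
    exact gl_mulVec_injective X h2
  -- the functional
  obtain ⟨φ, hφ⟩ : ∃ φ : Module.Dual F (ι → F), φ = (Q e)⁻¹ •
      ((fR hbl e) ∘ₗ Matrix.toLin' (Xi : Matrix ι ι F) - fR hbl e) := ⟨_, rfl⟩
  have hφy : ∀ y, φ y = (Q e)⁻¹ * (QuadraticMap.polar Q ((Xi : Matrix ι ι F) *ᵥ y) e -
      QuadraticMap.polar Q y e) := by
    intro y
    rw [hφ]
    simp [Matrix.toLin'_apply]
  have hφe : φ e = 0 := by
    rw [hφy, hXie, sub_self, mul_zero]
  have hφa : φ ((g : Matrix ι ι F) *ᵥ a) ≠ 0 := by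
    obtain ⟨α, β, h1, h2⟩ := hXiy ((g : Matrix ι ι F) *ᵥ a)
    obtain ⟨hα, hβ⟩ := h2 rfl
    rw [hφy, h1, hα, hβ, zero_smul, sub_zero, bil_sub_left hbl, hbl.smul_left, B_comm Q _ e]
    have h3 : (Q e)⁻¹ * (QuadraticMap.polar Q e ((g : Matrix ι ι F) *ᵥ a) -
        2 * QuadraticMap.polar Q e ((g : Matrix ι ι F) *ᵥ a) -
        QuadraticMap.polar Q e ((g : Matrix ι ι F) *ᵥ a)) =
        -(2 * (Q e)⁻¹ * QuadraticMap.polar Q e ((g : Matrix ι ι F) *ᵥ a)) := by ring
    rw [h3]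
    exact neg_ne_zero.mpr (mul_ne_zero (mul_ne_zero h2F (inv_ne_zero hQe)) hea)
  -- the element of M
  obtain ⟨m, hm⟩ : ∃ m, m = (refl hQ e hQe * refl hQ s hQs) * X *
      (refl hQ s hQs * refl hQ e hQe) * Xi := ⟨_, rfl⟩
  have hmM : m ∈ M := by
    rw [hm]
    exact M.mul_mem (M.mul_mem (M.mul_mem (rr_mem hQ hHM e s hQe hQs) hXM)
      (rr_mem hQ hHM s e hQs hQe)) hXiM
  have hse : QuadraticMap.polar Q s e = 0 := by rw [B_comm]; exact hes
  have hmy : ∀ y, (m : Matrix ι ι F) *ᵥ y = y + φ y • e := by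
    intro y
    obtain ⟨α, β, h1, -⟩ := hXiy y
    obtain ⟨y1, hy1⟩ : ∃ y1, y1 = (Xi : Matrix ι ι F) *ᵥ y := ⟨_, rfl⟩
    have hy1s : QuadraticMap.polar Q y1 s = QuadraticMap.polar Q y s := by
      have hga_s : QuadraticMap.polar Q ((g : Matrix ι ι F) *ᵥ a) s = 0 := by
        rw [B_comm]; exact hsa
      have hgb_s : QuadraticMap.polar Q ((g : Matrix ι ι F) *ᵥ b) s = 0 := by
        rw [B_comm]; exact hsb
      rw [hy1, h1, bil_sub_left hbl, bil_sub_left hbl, hbl.smul_left, hbl.smul_left,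
        hga_s, hgb_s]
      ring
    obtain ⟨c1, hc1⟩ : ∃ c1, c1 = QuadraticMap.polar Q y1 e * (Q e)⁻¹ := ⟨_, rfl⟩
    obtain ⟨c2, hc2⟩ : ∃ c2, c2 = QuadraticMap.polar Q y s * (Q s)⁻¹ := ⟨_, rfl⟩
    have st1 : ((refl hQ e hQe : Matrix.GeneralLinearGroup ι F) : Matrix ι ι F) *ᵥ y1 =
        y1 - c1 • e := by
      rw [refl_mulVec, hc1]
    have st2 : ((refl hQ s hQs : Matrix.GeneralLinearGroup ι F) : Matrix ι ι F) *ᵥ (y1 - c1 • e) =
        y1 - c1 • e - c2 • s := by
      rw [refl_mulVec, bil_sub_left hbl, hbl.smul_left, hes, mul_zero, sub_zero, hy1s, hc2]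
    have st3 : (X : Matrix ι ι F) *ᵥ (y1 - c1 • e - c2 • s) = y - c1 • e - c2 • s := by
      rw [Matrix.mulVec_sub, Matrix.mulVec_sub, Matrix.mulVec_smul, Matrix.mulVec_smul, hXe, hXs,
        hy1, hXiXy]
    have st4 : ((refl hQ s hQs : Matrix.GeneralLinearGroup ι F) : Matrix ι ι F) *ᵥ
        (y - c1 • e - c2 • s) = y - c1 • e := by
      rw [refl_mulVec, bil_sub_left hbl, bil_sub_left hbl, hbl.smul_left, hbl.smul_left, hes,
        B_self hQ]
      have hk : (QuadraticMap.polar Q y s - c1 * 0 - c2 * (2 * Q s)) * (Q s)⁻¹ = -c2 := by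
        rw [hc2]
        field_simp
        ring
      rw [hk]
      module
    have st5 : ((refl hQ e hQe : Matrix.GeneralLinearGroup ι F) : Matrix ι ι F) *ᵥ
        (y - c1 • e) = y + φ y • e := by
      rw [refl_mulVec, bil_sub_left hbl, hbl.smul_left, B_self hQ, hφy, ← hy1]
      have hk : (QuadraticMap.polar Q y e - c1 * (2 * Q e)) * (Q e)⁻¹ =
          QuadraticMap.polar Q y e * (Q e)⁻¹ - 2 * c1 := by
        field_simp
      rw [hk, hc1]
      module
    rw [hm]
    simp only [Units.val_mul, ← Matrix.mulVec_mulVec]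
    rw [← hy1, st1, st2, st3, st4, st5]
  obtain ⟨z0, hz0, hz0φ, hz0e⟩ := gtv_eq_qtv hQ φ e hφe
  have hmeq : m = gtv φ e hφe := by
    apply gl_ext
    intro y
    rw [hmy, gtv_mulVec]
  refine ⟨e, z0, ?_, ⟨hz0, ?_⟩, ?_⟩
  · intro h0
    apply hQe
    rw [h0, Q_zero hQ]
  · rw [← hz0e, ← hmeq]
    exact hmM
  · intro hmem
    obtain ⟨c, hc⟩ := Submodule.mem_span_singleton.mp hmem
    have h1 := hz0φ e
    rw [hφe, ← hc, hbl.smul_right, B_self hQ] at h1
    have hc0 : c = 0 := by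
      rcases mul_eq_zero.mp h1.symm with h2 | h2
      · exact h2
      · exact absurd h2 (mul_ne_zero h2F hQe)
    apply hφa
    rw [hz0φ, ← hc, hc0, zero_smul, bil_zero_right hbl]

lemma finrank_span_five_le (u v w x y : ι → F) :
    Module.finrank F (Submodule.span F ({u, v, w, x, y} : Set (ι → F))) ≤ 5 := by
  rw [Submodule.span_insert]
  have h1 := Submodule.finrank_add_le_finrank_add_finrank (Submodule.span F {u})
    (Submodule.span F ({v, w, x, y} : Set (ι → F)))
  have h2 := finrank_span_singleton_le (F := F) u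
  have h3 := finrank_span_quad_le (F := F) v w x y
  omega

/-- An element of `M` that is not a similarity produces a transvection in `M`. -/
lemma exists_tv [Nonempty ι] (hQ : Cfsg.Geo.IsNondegenerateQuadraticForm Q) (h2F : (2 : F) ≠ 0)
    (hcard : 13 ≤ Fintype.card ι) {M : Subgroup (Matrix.GeneralLinearGroup ι F)}
    (hHM : Cfsg.Geo.quadSimilarityGroup Q ⊓ Cfsg.Geo.specialLinear ι F ≤ M)
    (g : Matrix.GeneralLinearGroup ι F) (hgM : g ∈ M)
    (hg : g ∉ Cfsg.Geo.quadSimilarityGroup Q) :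
    ∃ w0 z0, w0 ≠ 0 ∧ T hQ M w0 z0 ∧ z0 ∉ Submodule.span F {w0} := by
  have hbl := hQ.polar_bilinear
  have h1 : ∃ v x, QuadraticMap.polar Q x v = 0 ∧
      QuadraticMap.polar Q ((g : Matrix ι ι F) *ᵥ x) ((g : Matrix ι ι F) *ᵥ v) ≠ 0 := by
    by_contra hcon
    push Not at hcon
    exact hg (simil_of_orth hQ h2F g hcon)
  obtain ⟨v, x, hxv, hgxv⟩ := h1
  -- a nonsingular `a` and `z ⊥ a` with `B(g z, g a) ≠ 0`
  have h2 : ∃ a z, Q a ≠ 0 ∧ QuadraticMap.polar Q z a = 0 ∧
      QuadraticMap.polar Q ((g : Matrix ι ι F) *ᵥ z) ((g : Matrix ι ι F) *ᵥ a) ≠ 0 := by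
    by_cases hQv : Q v = 0
    · have hfr := finrank_span_pair_le (F := F) x v
      obtain ⟨y, hy, hQy⟩ := exists_nonsing_perp hQ
        (Submodule.span F ({x, v} : Set (ι → F))) (by omega)
      have hxy : QuadraticMap.polar Q x y = 0 := hy x (Submodule.subset_span (by simp))
      have hvy : QuadraticMap.polar Q v y = 0 := hy v (Submodule.subset_span (by simp))
      by_cases h3 : QuadraticMap.polar Q ((g : Matrix ι ι F) *ᵥ x) ((g : Matrix ι ι F) *ᵥ y) = 0
      · refine ⟨v + y, x, ?_, ?_, ?_⟩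
        · rw [Q_add Q, hQv, hvy]; simpa using hQy
        · rw [hbl.add_right, hxv, hxy, add_zero]
        · rw [Matrix.mulVec_add, hbl.add_right, h3, add_zero]; exact hgxv
      · exact ⟨y, x, hQy, hxy, h3⟩
    · exact ⟨v, x, hQv, hxv, hgxv⟩
  obtain ⟨a, z, hQa, hza, hgza⟩ := h2
  have hfr2 := finrank_span_pair_le (F := F) a z
  obtain ⟨b, hb, hQb⟩ := exists_nonsing_perp hQ
    (Submodule.span F ({a, z} : Set (ι → F))) (by omega)
  have hab : QuadraticMap.polar Q a b = 0 := hb a (Submodule.subset_span (by simp))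
  have hzb : QuadraticMap.polar Q z b = 0 := hb z (Submodule.subset_span (by simp))
  -- the pulled back form
  have hQ'' := pullback_nondeg hQ g
  obtain ⟨a', ha'⟩ := exists_rep hQ'' (fR hbl a)
  obtain ⟨b', hb'⟩ := exists_rep hQ'' (fR hbl b)
  simp only [fR_apply, polar_pullback] at ha' hb'
  -- e0
  have he0 : ∃ e0, QuadraticMap.polar Q e0 a = 0 ∧ QuadraticMap.polar Q e0 b = 0 ∧
      Q ((g : Matrix ι ι F) *ᵥ e0) ≠ 0 ∧
      QuadraticMap.polar Q ((g : Matrix ι ι F) *ᵥ e0) ((g : Matrix ι ι F) *ᵥ a) ≠ 0 := by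
    by_cases hQz : Q ((g : Matrix ι ι F) *ᵥ z) = 0
    · have hfr4 := finrank_span_quad_le (F := F) a' b' a z
      obtain ⟨s', hs', hQs'⟩ := exists_nonsing_perp hQ''
        (Submodule.span F ({a', b', a, z} : Set (ι → F))) (by omega)
      simp only [polar_pullback] at hs'
      have h1 := hs' a' (Submodule.subset_span (by simp))
      have h2 := hs' b' (Submodule.subset_span (by simp))
      have h3 := hs' a (Submodule.subset_span (by simp))
      have h4 := hs' z (Submodule.subset_span (by simp))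
      rw [B_comm] at h1 h2
      rw [← ha'] at h1
      rw [← hb'] at h2
      refine ⟨z + s', ?_, ?_, ?_, ?_⟩
      · rw [hbl.add_left, hza, h1, add_zero]
      · rw [hbl.add_left, hzb, h2, add_zero]
      · rw [Matrix.mulVec_add, Q_add Q, hQz, h4]; simpa using hQs'
      · have h3' : QuadraticMap.polar Q ((g : Matrix ι ι F) *ᵥ s') ((g : Matrix ι ι F) *ᵥ a) = 0 := by
          rw [B_comm]; exact h3
        rw [Matrix.mulVec_add, hbl.add_left, h3', add_zero]
        exact hgza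
    · exact ⟨z, hza, hzb, hQz, hgza⟩
  obtain ⟨e0, he0a, he0b, hQe, hgea⟩ := he0
  have hfr5 := finrank_span_five_le (F := F) a' b' a b e0
  obtain ⟨s0, hs0, hQs0⟩ := exists_nonsing_perp hQ''
    (Submodule.span F ({a', b', a, b, e0} : Set (ι → F))) (by omega)
  simp only [polar_pullback] at hs0
  have k1 := hs0 a' (Submodule.subset_span (by simp))
  have k2 := hs0 b' (Submodule.subset_span (by simp))
  have k3 := hs0 a (Submodule.subset_span (by simp))
  have k4 := hs0 b (Submodule.subset_span (by simp))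
  have k5 := hs0 e0 (Submodule.subset_span (by simp))
  rw [B_comm] at k1 k2 k3 k4
  rw [← ha'] at k1
  rw [← hb'] at k2
  exact tv_of_config hQ h2F hHM g hgM a b e0 s0 hQa hQb hab he0a he0b k1 k2 hQe hQs0 k3 k4 k5 hgea

/-- The maximality argument. -/
lemma max_aux [Nontrivial ι] (hQ : Cfsg.Geo.IsNondegenerateQuadraticForm Q) (h2F : (2 : F) ≠ 0)
    (hcard : 13 ≤ Fintype.card ι) (M : Subgroup (Matrix.GeneralLinearGroup ι F))
    (hHM : Cfsg.Geo.quadSimilarityGroup Q ⊓ Cfsg.Geo.specialLinear ι F ≤ M)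
    (g : Matrix.GeneralLinearGroup ι F) (hgM : g ∈ M)
    (hg : g ∉ Cfsg.Geo.quadSimilarityGroup Q) :
    Cfsg.Geo.specialLinear ι F ≤ M := by
  obtain ⟨w0, z0, hw0, hT, hz0⟩ := exists_tv hQ h2F hcard hHM g hgM hg
  have hall := all_of_one hQ h2F hcard hHM w0 z0 hw0 hT hz0
  apply specialLinear_le_of_tv M
  intro φ w h
  obtain ⟨z, hz, -, e⟩ := gtv_eq_qtv hQ φ w h
  rw [e]
  obtain ⟨h1, h2⟩ := hall w z hz
  exact h2

/-- Some element of the special linear group is not a similarity. -/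
lemma exists_not_similarity (hQ : Cfsg.Geo.IsNondegenerateQuadraticForm Q) (h2F : (2 : F) ≠ 0)
    (hcard : 13 ≤ Fintype.card ι) :
    ∃ g ∈ Cfsg.Geo.specialLinear ι F, g ∉ Cfsg.Geo.quadSimilarityGroup Q := by
  have hbl := hQ.polar_bilinear
  have hbot : Module.finrank F (⊥ : Submodule F (ι → F)) = 0 := finrank_bot F (ι → F)
  obtain ⟨y1, y2, -, -, h11, h22, h12⟩ := exists_hyp_perp hQ (⊥ : Submodule F (ι → F))
    (by omega)
  have hfr := finrank_span_pair_le (F := F) y1 y2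
  obtain ⟨z, hz, hQz⟩ := exists_nonsing_perp hQ
    (Submodule.span F ({y1, y2} : Set (ι → F))) (by omega)
  have hy1z : QuadraticMap.polar Q y1 z = 0 := hz y1 (Submodule.subset_span (by simp))
  have hy2z : QuadraticMap.polar Q y2 z = 0 := hz y2 (Submodule.subset_span (by simp))
  refine ⟨qtv hQ y1 z hy1z, qtv_mem_SL hQ _ _ _, ?_⟩
  rintro ⟨c, hc⟩
  have e1 := hc y2
  have e2 := hc (y2 + z)
  simp only [qtv_mulVec, hy2z, zero_smul, add_zero, h22, mul_zero] at e1
  rw [qtv_mulVec, hbl.add_left, hy2z, zero_add, B_self hQ, Q_add_smul hQ, Q_add Q, h22, hy2z, h11,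
    hbl.add_left, B_comm Q y2 y1, h12, B_comm Q z y1, hy1z] at e2
  -- e2 : 0 + Q z + 0 + 2 * Q z * (1 + 0) + (2 * Q z)^2 * 0 = c * (0 + Q z + 0)
  have e3 := hc z
  rw [qtv_mulVec, B_self hQ, Q_add_smul hQ, h11, B_comm Q z y1, hy1z] at e3
  -- e3 : Q z + ... = c * Q z
  have hc1 : (c : F) = 1 := by
    have h5 : ((c : F) - 1) * Q z = 0 := by linear_combination -e3
    rcases mul_eq_zero.mp h5 with h6 | h6
    · exact sub_eq_zero.mp h6
    · exact absurd h6 hQz
  rw [hc1] at e2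
  have h7 : (2 : F) * Q z = 0 := by linear_combination e2
  rcases mul_eq_zero.mp h7 with h8 | h8
  · exact h2F h8
  · exact hQz h8

end Main

/-- For a finite field F of odd order and n ≥ 13, let Q be a non-degenerate quadratic form on F^n (its polar form is non-degenerate). Then the elements of SL_n(F) that are similarities of Q (Q(gv) = c Q(v) for a non-zero scalar c depending on g) form a maximal subgroup of SL_n(F). -/
theorem result {F : Type*} [Field F] [Fintype F] (n : ℕ) (hn : 13 ≤ n) (hodd : Odd (Fintype.card F)) (Q : (Fin n → F) → F) (hQ : Cfsg.Geo.IsNondegenerateQuadraticForm Q) : Cfsg.Geo.IsMaximalIn (Cfsg.Geo.specialLinear (Fin n) F) (Cfsg.Geo.quadSimilarityGroup Q ⊓ Cfsg.Geo.specialLinear (Fin n) F) := by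
  have : Nontrivial (Fin n) := Fin.nontrivial_iff_two_le.mpr (by omega)
  have : Nonempty (Fin n) := ⟨⟨0, by omega⟩⟩
  have hcard : 13 ≤ Fintype.card (Fin n) := by simpa using hn
  have h2F : (2 : F) ≠ 0 := by
    intro h2
    have hch : CharP F 2 := by
      refine (CharP.charP_iff_prime_eq_zero Nat.prime_two).mpr ?_
      exact_mod_cast h2
    have h3 := FiniteField.even_card_of_char_two (F := F) (ringChar.eq F 2)
    rcases hodd with ⟨k, hk⟩
    omega
  refine ⟨?_, ?_⟩
  · rw [SetLike.lt_iff_le_and_exists]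
    refine ⟨inf_le_right, ?_⟩
    obtain ⟨g, hg1, hg2⟩ := exists_not_similarity (ι := Fin n) hQ h2F hcard
    exact ⟨g, hg1, fun h => hg2 (Subgroup.mem_inf.mp h).1⟩
  · intro M hHM hMG
    by_cases hMH : M ≤ Cfsg.Geo.quadSimilarityGroup Q ⊓ Cfsg.Geo.specialLinear (Fin n) F
    · left
      exact le_antisymm hMH hHM
    · right
      obtain ⟨g, hgM, hgH⟩ := SetLike.not_le_iff_exists.mp hMH
      have hg : g ∉ Cfsg.Geo.quadSimilarityGroup Q :=
        fun h => hgH (Subgroup.mem_inf.mpr ⟨h, hMG hgM⟩)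
      exact le_antisymm hMG (max_aux hQ h2F hcard M hHM g hgM hg)

end Cfsg.Agent.S5644
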