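import Cfsg.Statements.S5645
import Cfsg.Agent.Lib.Helper94.Basic
import Cfsg.Agent.Lib.Helper94.GLAux
import Cfsg.Agent.Lib.Helper94.Tv
import Cfsg.Agent.Lib.Helper94.SympAbs
import Cfsg.Agent.Lib.Helper94.SympGen
import Cfsg.Agent.Lib.Helper94.SympStd
import Cfsg.Agent.Lib.Helper94.SympBlock

set_option autoImplicit false
open Cfsg

namespace Cfsg.Agent.S5645

open scoped Matrix
open Cfsg.Agent.Lib.Helper94.Basic Cfsg.Agent.Lib.Helper94.GLAux Cfsg.Agent.Lib.Helper94.Tv
  Cfsg.Agent.Lib.Helper94.SympAbs Cfsg.Agent.Lib.Helper94.SympGen Cfsg.Agent.Lib.Helper94.SympStd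
  Cfsg.Agent.Lib.Helper94.SympBlock

section Aux

variable {ι : Type} [Fintype ι] [DecidableEq ι] {F : Type*} [Field F]
variable {f : (ι → F) → (ι → F) → F}

/-- The Siegel-type element `x ↦ x + f(x,z) w + f(x,w) z` for `f z w = 0`. -/
lemma siegel_mulVec (hf : Cfsg.Geo.IsSymplecticForm f) (w z : ι → F) (hzw : f z w = 0)
    (x : ι → F) :
    ((st hf (z + w) 1 * st hf z (-1) * st hf w (-1) : Matrix.GeneralLinearGroup ι F) :
      Matrix ι ι F) *ᵥ x = x + f x z • w + f x w • z := by
  have hwz : f w z = 0 := by rw [hf.skew, hzw, neg_zero]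
  rw [Units.val_mul, Units.val_mul, ← Matrix.mulVec_mulVec, ← Matrix.mulVec_mulVec, st_mulVec,
    st_mulVec, st_mulVec]
  simp only [hf.bilinear.add_left, hf.bilinear.add_right, hf.bilinear.smul_left, hwz, hzw,
    hf.alternating]
  module

theorem max_aux (hf : Cfsg.Geo.IsSymplecticForm f) (W : Submodule F (ι → F)) (hW0 : W ≠ ⊥)
    (hW : Cfsg.Geo.IsTotallySingularFor f W)
    (Sp : Subgroup (Matrix.GeneralLinearGroup ι F))
    (hSp : ∀ g : Matrix.GeneralLinearGroup ι F, g ∈ Sp ↔
      ∀ x y, f ((g : Matrix ι ι F) *ᵥ x) ((g : Matrix ι ι F) *ᵥ y) = f x y) :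
    Cfsg.Geo.IsMaximalIn Sp (Cfsg.Geo.subspaceStabilizer W ⊓ Sp) := by
  have hstSp : ∀ a c, st hf a c ∈ Sp := fun a c => (hSp _).mpr (st_isom hf a c)
  obtain ⟨w0, hw0, hw00⟩ := Submodule.exists_mem_ne_zero_of_ne_bot hW0
  have hWperp : ∀ w ∈ W, w ∈ perp hf.bilinear W := fun w hw u hu => hW u hu w hw
  -- double perp
  have hdp : ∀ x, (∀ d ∈ perp hf.bilinear W, f x d = 0) → x ∈ W := by
    intro x hx
    by_contra hxW
    obtain ⟨r, hr, hxr⟩ := exists_perp_ne hf W x hxW
    exact hxr (hx r hr)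
  constructor
  · rw [SetLike.lt_iff_le_and_exists]
    obtain ⟨x, hx⟩ := (hf.nondegenerate w0 hw00).2
    refine ⟨inf_le_right, st hf x 1, hstSp _ _, ?_⟩
    rintro ⟨hstab, -⟩
    have h1 := ((mem_subspaceStabilizer_iff W _).mp hstab w0).mp hw0
    rw [st_mulVec, one_mul] at h1
    have h2 : f w0 x • x ∈ W := by
      have := W.sub_mem h1 hw0
      simpa using this
    have h3 : x ∈ W := by
      have := W.smul_mem (f w0 x)⁻¹ h2
      rwa [smul_smul, inv_mul_cancel₀ hx, one_smul] at this
    exact hx (hW w0 hw0 x h3)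
  · intro M hHM hMS
    by_cases hMH : M ≤ Cfsg.Geo.subspaceStabilizer W ⊓ Sp
    · left; exact le_antisymm hMH hHM
    right
    apply le_antisymm hMS
    obtain ⟨g, hgM, hgH⟩ := SetLike.not_le_iff_exists.mp hMH
    have hMiso : ∀ g ∈ M, ∀ x y, f ((g : Matrix ι ι F) *ᵥ x) ((g : Matrix ι ι F) *ᵥ y) = f x y :=
      fun g hg => (hSp g).mp (hMS hg)
    have hPT : ∀ a ∈ perp hf.bilinear W, a ∈ tvSet hf M := by
      intro a ha c
      refine hHM ⟨mem_stab_of_forall _ W ?_, hstSp a c⟩
      intro w hw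
      rw [st_fix hf a c w (ha w hw)]
      exact hw
    -- Claim A
    have hA : ∀ a ∈ tvSet hf M, ∀ d ∈ perp hf.bilinear W, a + d ∈ tvSet hf M := by
      intro a ha d hd
      by_cases haP : a ∈ perp hf.bilinear W
      · exact hPT _ (Submodule.add_mem _ haP hd)
      have hex : ∃ w1 ∈ W, f w1 a ≠ 0 := by
        by_contra hcon
        push Not at hcon
        exact haP hcon
      obtain ⟨w1, hw1, hw1a⟩ := hex
      have haw1 : f a w1 ≠ 0 := by rw [hf.skew]; exact neg_ne_zero.mpr hw1a
      by_cases had : f a d = 0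
      · have t1 := tvSet_hyp hf M hMiso ha (hPT w1 (hWperp w1 hw1)) haw1 1
        have hdw : d - w1 ∈ perp hf.bilinear W := Submodule.sub_mem _ hd (hWperp w1 hw1)
        have hne : f (a + (1 : F) • w1) (d - w1) ≠ 0 := by
          rw [one_smul, hf.bilinear.add_left, bil_sub_right hf.bilinear, bil_sub_right hf.bilinear,
            had, hd w1 hw1, hf.alternating]
          simpa using haw1
        have t2 := tvSet_hyp hf M hMiso t1 (hPT _ hdw) hne 1
        have e : a + (1 : F) • w1 + (1 : F) • (d - w1) = a + d := by module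
        rwa [e] at t2
      · have t1 := tvSet_hyp hf M hMiso ha (hPT d hd) had 1
        rwa [one_smul] at t1
    -- Claim B
    have hB : ∀ a ∈ tvSet hf M, ∀ a' ∈ tvSet hf M, a + a' ∈ tvSet hf M := by
      intro a ha a' ha'
      by_cases ha'P : a' ∈ perp hf.bilinear W
      · exact hA a ha a' ha'P
      by_cases haP : a ∈ perp hf.bilinear W
      · rw [add_comm]; exact hA a' ha' a haP
      by_cases haa : f a a' = 0
      · have hex : ∃ w1 ∈ W, f w1 a ≠ 0 := by
          by_contra hcon
          push Not at hcon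
          exact haP hcon
        obtain ⟨w1, hw1, hw1a⟩ := hex
        have haw1 : f a w1 ≠ 0 := by rw [hf.skew]; exact neg_ne_zero.mpr hw1a
        have t1 := hA a' ha' w1 (hWperp w1 hw1)
        have hne : f a (a' + w1) ≠ 0 := by
          rw [hf.bilinear.add_right, haa, zero_add]; exact haw1
        have t2 := tvSet_hyp hf M hMiso ha t1 hne 1
        have t3 := hA _ t2 (-w1) (Submodule.neg_mem _ (hWperp w1 hw1))
        have e : a + (1 : F) • (a' + w1) + -w1 = a + a' := by module
        rwa [e] at t3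
      · have t1 := tvSet_hyp hf M hMiso ha ha' haa 1
        rwa [one_smul] at t1
    -- Claim C
    have hC : ∃ a ∈ tvSet hf M, a ∉ perp hf.bilinear W := by
      by_contra hcon
      push Not at hcon
      apply hgH
      refine ⟨mem_stab_of_forall g W ?_, hMS hgM⟩
      intro w hw
      apply hdp
      intro d hd
      have h1 : ((g⁻¹ : Matrix.GeneralLinearGroup ι F) : Matrix ι ι F) *ᵥ d ∈ perp hf.bilinear W :=
        hcon _ (tvSet_map hf M hMiso (M.inv_mem hgM) (hPT d hd))
      have h2 := hMiso g hgM w (((g⁻¹ : Matrix.GeneralLinearGroup ι F) : Matrix ι ι F) *ᵥ d)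
      rw [gl_mulVec_inv] at h2
      rw [h2]
      exact h1 w hw
    obtain ⟨a, haT, haP⟩ := hC
    have hex : ∃ w1 ∈ W, f w1 a ≠ 0 := by
      by_contra hcon
      push Not at hcon
      exact haP hcon
    obtain ⟨w1, hw1, hw1a⟩ := hex
    -- T as a submodule
    let Ts : Submodule F (ι → F) :=
      { carrier := tvSet hf M
        add_mem' := fun {x y} hx hy => hB x hx y hy
        zero_mem' := tvSet_zero hf M
        smul_mem' := fun c x hx => tvSet_smul hf M hx c }
    have hall : ∀ v, v ∈ tvSet hf M := by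
      intro v
      by_contra hv
      have hv' : v ∉ Ts := hv
      obtain ⟨r, hr, hvr⟩ := exists_perp_ne hf Ts v hv'
      have hr0 : r ≠ 0 := by
        intro h
        rw [h] at hvr
        exact hvr (bil_zero_right hf.bilinear v)
      have hrW : r ∈ W := by
        apply hdp
        intro d hd
        rw [hf.skew, hr d (hPT d hd), neg_zero]
      have hrs : r ∉ Submodule.span F {w1} := by
        intro hmem
        obtain ⟨l, hl⟩ := Submodule.mem_span_singleton.mp hmem
        have h1 := hr a haT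
        rw [← hl, hf.bilinear.smul_right] at h1
        have hl0 : l ≠ 0 := by
          intro h0
          rw [h0, zero_smul] at hl
          exact hr0 hl.symm
        have haw1 : f a w1 ≠ 0 := by rw [hf.skew]; exact neg_ne_zero.mpr hw1a
        exact (mul_ne_zero hl0 haw1) h1
      obtain ⟨z, hz, hrz⟩ := exists_perp_ne hf _ r hrs
      have hw1z : f w1 z = 0 := hz w1 (Submodule.mem_span_singleton_self w1)
      have hzw1 : f z w1 = 0 := by rw [hf.skew, hw1z, neg_zero]
      obtain ⟨τ, hτ⟩ : ∃ τ : Matrix.GeneralLinearGroup ι F,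
          τ = st hf (z + w1) 1 * st hf z (-1) * st hf w1 (-1) := ⟨_, rfl⟩
      have hτv : ∀ x, (τ : Matrix ι ι F) *ᵥ x = x + f x z • w1 + f x w1 • z := by
        intro x
        rw [hτ]
        exact siegel_mulVec hf w1 z hzw1 x
      have hτH : τ ∈ Cfsg.Geo.subspaceStabilizer W ⊓ Sp := by
        refine ⟨mem_stab_of_forall _ W ?_, ?_⟩
        · intro x hx
          rw [hτv, hW x hx w1 hw1, zero_smul, add_zero]
          exact W.add_mem hx (W.smul_mem _ hw1)
        · rw [hτ]
          exact Sp.mul_mem (Sp.mul_mem (hstSp _ _) (hstSp _ _)) (hstSp _ _)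
      have hτM := hHM hτH
      have h1 := tvSet_map hf M hMiso (M.inv_mem hτM) haT
      have h2 := hr _ h1
      have h3 := hMiso τ hτM (((τ⁻¹ : Matrix.GeneralLinearGroup ι F) : Matrix ι ι F) *ᵥ a) r
      rw [gl_mulVec_inv, h2, hτv, hW r hrW w1 hw1, zero_smul, add_zero,
        hf.bilinear.add_right, hr a haT, zero_add, hf.bilinear.smul_right] at h3
      have haw1 : f a w1 ≠ 0 := by rw [hf.skew]; exact neg_ne_zero.mpr hw1a
      exact (mul_ne_zero hrz haw1) h3
    intro k' hk'
    exact mem_of_tvSet_univ hf M hall k' ((hSp k').mp hk')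

end Aux

/-- For a finite field F and m ≥ 7, in the symplectic group Sp_2m(F) of the standard alternating form on F^(2m) (as a subgroup of GL_2m(F)), the stabiliser of any non-zero subspace on which the form vanishes identically is a maximal subgroup. -/
theorem result {F : Type*} [Field F] [Fintype F] (m : ℕ) (hm : 7 ≤ m) (W : Submodule F (Fin m ⊕ Fin m → F)) (hW0 : W ≠ ⊥) (hW : Cfsg.Geo.IsTotallySingularFor (Cfsg.sympForm m F) W) : Cfsg.Geo.IsMaximalIn (Cfsg.spGL m F) (Cfsg.Geo.subspaceStabilizer W ⊓ Cfsg.spGL m F) := by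
  apply max_aux (sympForm_isSymplectic (F := F) (m := m)) W hW0 hW
  intro g
  exact mem_spGL_iff g

end Cfsg.Agent.S5645
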