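import Cfsg.Statements.S5646
import Cfsg.Agent.Lib.Helper94.Basic
import Cfsg.Agent.Lib.Helper94.GLAux
import Cfsg.Agent.Lib.Helper94.Tv
import Cfsg.Agent.Lib.Helper94.SympAbs
import Cfsg.Agent.Lib.Helper94.SympGen
import Cfsg.Agent.Lib.Helper94.SympStd
import Cfsg.Agent.Lib.Helper94.SympBlock

set_option autoImplicit false
open Cfsg

namespace Cfsg.Agent.S5646

open scoped Matrix
open Cfsg.Agent.Lib.Helper94.Basic Cfsg.Agent.Lib.Helper94.GLAux Cfsg.Agent.Lib.Helper94.Tv
  Cfsg.Agent.Lib.Helper94.SympAbs Cfsg.Agent.Lib.Helper94.SympGen Cfsg.Agent.Lib.Helper94.SympStd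
  Cfsg.Agent.Lib.Helper94.SympBlock

section Aux

variable {ι : Type} [Fintype ι] [DecidableEq ι] {F : Type*} [Field F]
variable {f : (ι → F) → (ι → F) → F}

lemma st_mem_stab_of_mem (hf : Cfsg.Geo.IsSymplecticForm f) (W : Submodule F (ι → F))
    (a : ι → F) (ha : a ∈ W) (c : F) : st hf a c ∈ Cfsg.Geo.subspaceStabilizer W := by
  apply mem_stab_of_forall
  intro w hw
  rw [st_mulVec]
  exact W.add_mem hw (W.smul_mem _ ha)

lemma st_mem_stab_of_perp (hf : Cfsg.Geo.IsSymplecticForm f) (W : Submodule F (ι → F))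
    (a : ι → F) (ha : a ∈ perp hf.bilinear W) (c : F) :
    st hf a c ∈ Cfsg.Geo.subspaceStabilizer W := by
  apply mem_stab_of_forall
  intro w hw
  rw [st_fix hf a c w (ha w hw)]
  exact hw

theorem max_aux (hf : Cfsg.Geo.IsSymplecticForm f) (W : Submodule F (ι → F)) (hW0 : W ≠ ⊥)
    (hW : Cfsg.Geo.IsNondegenerateOn f W) (hdim : 2 * Module.finrank F W < Fintype.card ι)
    (Sp : Subgroup (Matrix.GeneralLinearGroup ι F))
    (hSp : ∀ g : Matrix.GeneralLinearGroup ι F, g ∈ Sp ↔
      ∀ x y, f ((g : Matrix ι ι F) *ᵥ x) ((g : Matrix ι ι F) *ᵥ y) = f x y) :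
    Cfsg.Geo.IsMaximalIn Sp (Cfsg.Geo.subspaceStabilizer W ⊓ Sp) := by
  have hU := perp_nondegenerate hf W hW
  have hstSp : ∀ a c, st hf a c ∈ Sp := fun a c => (hSp _).mpr (st_isom hf a c)
  -- dimension of the complement
  have hdimU : Module.finrank F W < Module.finrank F (perp hf.bilinear W) := by
    have htop : (⊤ : Submodule F (ι → F)) ≤ W ⊔ perp hf.bilinear W := by
      intro v _
      obtain ⟨w, hw, u, hu, rfl⟩ := exists_decomp hf W hW v
      exact Submodule.add_mem_sup hw hu
    have h1 := Submodule.finrank_mono htop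
    have h2 := Submodule.finrank_add_le_finrank_add_finrank W (perp hf.bilinear W)
    rw [finrank_top, Module.finrank_fintype_fun_eq_card] at h1
    omega
  have hUne : perp hf.bilinear W ≠ ⊥ := by
    intro h
    rw [h] at hdimU
    simp at hdimU
  obtain ⟨w0, hw0, hw00⟩ := Submodule.exists_mem_ne_zero_of_ne_bot hW0
  obtain ⟨u0, hu0, hu00⟩ := Submodule.exists_mem_ne_zero_of_ne_bot hUne
  constructor
  · rw [SetLike.lt_iff_le_and_exists]
    refine ⟨inf_le_right, st hf (w0 + u0) 1, hstSp _ _, ?_⟩
    rintro ⟨hstab, -⟩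
    obtain ⟨x, hx, hxw⟩ := (hW w0 hw0 hw00).1
    have h1 := ((mem_subspaceStabilizer_iff W _).mp hstab x).mp hx
    rw [st_mulVec, hf.bilinear.add_right, hu0 x hx, add_zero, one_mul] at h1
    have h2 : f x w0 • (w0 + u0) ∈ W := by
      have := W.sub_mem h1 hx
      simpa using this
    have h3 : w0 + u0 ∈ W := by
      have := W.smul_mem (f x w0)⁻¹ h2
      rwa [smul_smul, inv_mul_cancel₀ hxw, one_smul] at this
    have h4 : u0 ∈ W := by
      have := W.sub_mem h3 hw0
      simpa using this
    exact hu00 (inf_perp hf W hW u0 h4 hu0)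
  · intro M hHM hMS
    by_cases hMH : M ≤ Cfsg.Geo.subspaceStabilizer W ⊓ Sp
    · left; exact le_antisymm hMH hHM
    right
    apply le_antisymm hMS
    obtain ⟨g, hgM, hgH⟩ := SetLike.not_le_iff_exists.mp hMH
    have hMiso : ∀ g ∈ M, ∀ x y, f ((g : Matrix ι ι F) *ᵥ x) ((g : Matrix ι ι F) *ᵥ y) = f x y :=
      fun g hg => (hSp g).mp (hMS hg)
    have hWT : ∀ a ∈ W, a ∈ tvSet hf M := fun a ha c =>
      hHM ⟨st_mem_stab_of_mem hf W a ha c, hstSp a c⟩
    have hUT : ∀ a ∈ perp hf.bilinear W, a ∈ tvSet hf M := fun a ha c =>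
      hHM ⟨st_mem_stab_of_perp hf W a ha c, hstSp a c⟩
    have hall : ∀ a, a ∈ tvSet hf M := by
      by_cases hmix : ∃ w ∈ W, ∃ u ∈ perp hf.bilinear W, w ≠ 0 ∧ u ≠ 0 ∧ w + u ∈ tvSet hf M
      · obtain ⟨w, hw, u, hu, hw0', hu0', hwu⟩ := hmix
        intro v
        obtain ⟨w', hw', u', hu', rfl⟩ := exists_decomp hf W hW v
        by_cases hw'0 : w' = 0
        · rw [hw'0, zero_add]; exact hUT u' hu'
        by_cases hu'0 : u' = 0
        · rw [hu'0, add_zero]; exact hWT w' hw'
        obtain ⟨h1, h1M, h1w, h1fix⟩ := exists_map_in hf W hW w w' hw hw' hw0' hw'0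
        obtain ⟨h2, h2M, h2u, h2fix⟩ := exists_map_in hf (perp hf.bilinear W) hU u u' hu hu' hu0' hu'0
        have h1mem : h1 ∈ M := h1M M (fun a ha c => hWT a ha c)
        have h2mem : h2 ∈ M := h2M M (fun a ha c => hUT a ha c)
        have e1 : (h1 : Matrix ι ι F) *ᵥ (w + u) = w' + u := by
          rw [Matrix.mulVec_add, h1w, h1fix u (fun y hy => by rw [hf.skew, hu y hy, neg_zero])]
        have e2 : (h2 : Matrix ι ι F) *ᵥ (w' + u) = w' + u' := by
          rw [Matrix.mulVec_add, h2u, h2fix w' (fun y hy => hy w' hw')]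
        have t1 := tvSet_map hf M hMiso h1mem hwu
        rw [e1] at t1
        have t2 := tvSet_map hf M hMiso h2mem t1
        rwa [e2] at t2
      · exfalso
        have hsub : ∀ a ∈ tvSet hf M, a ∈ W ∨ a ∈ perp hf.bilinear W := by
          intro a ha
          obtain ⟨w, hw, u, hu, rfl⟩ := exists_decomp hf W hW a
          by_cases hw0' : w = 0
          · right; rw [hw0', zero_add]; exact hu
          by_cases hu0' : u = 0
          · left; rw [hu0', add_zero]; exact hw
          exact absurd ⟨w, hw, u, hu, hw0', hu0', ha⟩ hmix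
        have hgT : ∀ a ∈ tvSet hf M, (g : Matrix ι ι F) *ᵥ a ∈ W ∨
            (g : Matrix ι ι F) *ᵥ a ∈ perp hf.bilinear W :=
          fun a ha => hsub _ (tvSet_map hf M hMiso hgM ha)
        -- g maps U into U
        have hgU : ∀ u ∈ perp hf.bilinear W, (g : Matrix ι ι F) *ᵥ u ∈ perp hf.bilinear W := by
          by_contra hcon
          push Not at hcon
          obtain ⟨u1, hu1, hgu1⟩ := hcon
          have hgu1W : (g : Matrix ι ι F) *ᵥ u1 ∈ W := (hgT u1 (hUT u1 hu1)).resolve_right hgu1
          have hallW : ∀ u ∈ perp hf.bilinear W, (g : Matrix ι ι F) *ᵥ u ∈ W := by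
            intro u hu
            by_contra hguW
            have hguU := (hgT u (hUT u hu)).resolve_left hguW
            have hsum := hgT (u + u1) (hUT _ (Submodule.add_mem _ hu hu1))
            rw [Matrix.mulVec_add] at hsum
            rcases hsum with h | h
            · apply hguW
              have := W.sub_mem h hgu1W
              simpa using this
            · apply hgu1
              have := (perp hf.bilinear W).sub_mem h hguU
              simpa using this
          have hmap : (perp hf.bilinear W).map (Matrix.toLin' (g : Matrix ι ι F)) ≤ W := by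
            rintro _ ⟨u, hu, rfl⟩
            rw [Matrix.toLin'_apply]
            exact hallW u hu
          have hinj : Function.Injective (Matrix.toLin' (g : Matrix ι ι F)) := by
            intro x y hxy
            rw [Matrix.toLin'_apply, Matrix.toLin'_apply] at hxy
            exact gl_mulVec_injective g hxy
          have h1 := Submodule.finrank_mono hmap
          rw [← (Submodule.equivMapOfInjective _ hinj (perp hf.bilinear W)).finrank_eq] at h1
          omega
        have hmapU := map_eq_of_forall_mem g _ _ hgU le_rfl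
        apply hgH
        refine ⟨mem_stab_of_forall g W ?_, hMS hgM⟩
        intro w hw
        by_contra hgw
        have hgwU := (hgT w (hWT w hw)).resolve_left hgw
        rw [← hmapU] at hgwU
        obtain ⟨u, hu, hug⟩ := hgwU
        rw [Matrix.toLin'_apply] at hug
        have huw : u = w := gl_mulVec_injective g hug
        rw [huw] at hu
        have hw0' := inf_perp hf W hW w hw hu
        apply hgw
        rw [hw0', Matrix.mulVec_zero]
        exact W.zero_mem
    intro k hk
    exact mem_of_tvSet_univ hf M hall k ((hSp k).mp hk)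

end Aux

/-- For a finite field F and m ≥ 7, in the symplectic group Sp_2m(F) of the standard alternating form on F^(2m), the stabiliser of any non-zero subspace W on which the form is non-degenerate and with dim W < m is a maximal subgroup. -/
theorem result {F : Type*} [Field F] [Fintype F] (m : ℕ) (hm : 7 ≤ m) (W : Submodule F (Fin m ⊕ Fin m → F)) (hW0 : W ≠ ⊥) (hW : Cfsg.Geo.IsNondegenerateOn (Cfsg.sympForm m F) W) (hdim : Module.finrank F W < m) : Cfsg.Geo.IsMaximalIn (Cfsg.spGL m F) (Cfsg.Geo.subspaceStabilizer W ⊓ Cfsg.spGL m F) := by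
  apply max_aux (sympForm_isSymplectic (F := F) (m := m)) W hW0 hW
  · simp only [Fintype.card_sum, Fintype.card_fin]; omega
  · intro g
    exact mem_spGL_iff g

end Cfsg.Agent.S5646
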