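import Cfsg.Statements.S5647
import Cfsg.Agent.Lib.Helper94.Basic
import Cfsg.Agent.Lib.Helper94.GLAux
import Cfsg.Agent.Lib.Helper94.Tv
import Cfsg.Agent.Lib.Helper94.SympAbs
import Cfsg.Agent.Lib.Helper94.SympGen
import Cfsg.Agent.Lib.Helper94.SympStd
import Cfsg.Agent.Lib.Helper94.SympBlock
import Cfsg.Agent.Lib.Helper94.SympSwap

set_option autoImplicit false
open Cfsg

namespace Cfsg.Agent.S5647

open scoped Matrix
open Cfsg.Agent.Lib.Helper94.Basic Cfsg.Agent.Lib.Helper94.GLAux Cfsg.Agent.Lib.Helper94.Tv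
  Cfsg.Agent.Lib.Helper94.SympAbs Cfsg.Agent.Lib.Helper94.SympGen Cfsg.Agent.Lib.Helper94.SympStd
  Cfsg.Agent.Lib.Helper94.SympBlock Cfsg.Agent.Lib.Helper94.SympSwap

section Aux

variable {ι : Type} [Fintype ι] [DecidableEq ι] {F : Type*} [Field F]
variable {f : (ι → F) → (ι → F) → F} {t k : ℕ} {D : Fin t → Submodule F (ι → F)}

lemma block_unique (hD : Cfsg.Geo.IsNondegenerateMDecomposition f k D) {j l : Fin t} {x : ι → F}
    (hx : x ∈ D j) (hx0 : x ≠ 0) (hxl : x ∈ D l) : j = l := by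
  by_contra hjl
  obtain ⟨d, hd, hdx⟩ := (hD.nondegenerate j x hx hx0).1
  exact hdx (hD.orthogonal j l hjl d hd x hxl)

lemma block_ne_bot (hD : Cfsg.Geo.IsNondegenerateMDecomposition f k D) (i : Fin t) : D i ≠ ⊥ := by
  intro h
  have h1 := hD.decomp.finrank_eq i
  rw [h] at h1
  have h2 := hD.decomp.pos
  simp at h1
  omega

lemma st_mem_decomp (hf : Cfsg.Geo.IsSymplecticForm f)
    (hD : Cfsg.Geo.IsNondegenerateMDecomposition f k D) (j : Fin t) (a : ι → F) (ha : a ∈ D j)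
    (c : F) : st hf a c ∈ Cfsg.Geo.decompositionStabilizer D := by
  refine ⟨1, fun i => ?_⟩
  apply map_eq_of_forall_mem
  · intro w hw
    rw [Equiv.Perm.one_apply]
    by_cases hij : i = j
    · subst hij
      rw [st_mulVec]
      exact (D i).add_mem hw ((D i).smul_mem _ ha)
    · rw [st_fix hf a c w (hD.orthogonal i j hij w hw a ha)]
      exact hw
  · rw [Equiv.Perm.one_apply]

lemma eq_zero_of_perp_all (hf : Cfsg.Geo.IsSymplecticForm f)
    (hD : Cfsg.Geo.IsNondegenerateMDecomposition f k D) (v : ι → F)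
    (h : ∀ i, ∀ d ∈ D i, f d v = 0) : v = 0 := by
  by_contra hv
  obtain ⟨x, hx⟩ := (hf.nondegenerate v hv).1
  apply hx
  have hxtop : x ∈ iSup D := by rw [hD.decomp.iSup_eq_top]; trivial
  exact Submodule.iSup_induction D (motive := fun y => f y v = 0) hxtop (fun i y hy => h i y hy)
    (bil_zero_left hf.bilinear v)
    (fun y z hy hz => by rw [hf.bilinear.add_left, hy, hz, add_zero])

lemma exists_family (hD : Cfsg.Geo.IsNondegenerateMDecomposition f k D) (v : ι → F) :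
    ∃ c : Fin t → (ι → F), (∀ i, c i ∈ D i) ∧ ∑ i, c i = v := by
  have hv : v ∈ iSup D := by rw [hD.decomp.iSup_eq_top]; trivial
  refine Submodule.iSup_induction D
    (motive := fun y => ∃ c : Fin t → (ι → F), (∀ i, c i ∈ D i) ∧ ∑ i, c i = y) hv ?_ ?_ ?_
  · intro i y hy
    refine ⟨Pi.single i y, fun j => ?_, Fintype.sum_pi_single' i y⟩
    by_cases hji : j = i
    · subst hji
      rw [Pi.single_eq_same]
      exact hy
    · rw [Pi.single_eq_of_ne hji]
      exact (D j).zero_mem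
  · exact ⟨0, fun i => (D i).zero_mem, by simp⟩
  · rintro y z ⟨c, hc, rfl⟩ ⟨c', hc', rfl⟩
    exact ⟨c + c', fun i => (D i).add_mem (hc i) (hc' i), by simp [Finset.sum_add_distrib]⟩

/-- An isometry outside the stabiliser maps some block vector to a vector in no block. -/
lemma exists_mixed (hf : Cfsg.Geo.IsSymplecticForm f)
    (hD : Cfsg.Geo.IsNondegenerateMDecomposition f k D) (g : Matrix.GeneralLinearGroup ι F)
    (hgn : g ∉ Cfsg.Geo.decompositionStabilizer D) :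
    ∃ i, ∃ a ∈ D i, ∀ j, (g : Matrix ι ι F) *ᵥ a ∉ D j := by
  by_contra hcon
  push Not at hcon
  apply hgn
  have hinjg : Function.Injective (Matrix.toLin' (g : Matrix ι ι F)) := by
    intro x y hxy
    rw [Matrix.toLin'_apply, Matrix.toLin'_apply] at hxy
    exact gl_mulVec_injective g hxy
  have key : ∀ i, ∃ j, ∀ a ∈ D i, (g : Matrix ι ι F) *ᵥ a ∈ D j := by
    intro i
    obtain ⟨a0, ha0, ha00⟩ := Submodule.exists_mem_ne_zero_of_ne_bot (block_ne_bot hD i)
    obtain ⟨j, hj⟩ := hcon i a0 ha0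
    refine ⟨j, fun a ha => ?_⟩
    have hga0 : (g : Matrix ι ι F) *ᵥ a0 ≠ 0 := by
      intro h0
      apply ha00
      apply gl_mulVec_injective g
      show (g : Matrix ι ι F) *ᵥ a0 = (g : Matrix ι ι F) *ᵥ 0
      rw [h0, Matrix.mulVec_zero]
    obtain ⟨d, hd, hdg⟩ := (hD.nondegenerate j _ hj hga0).1
    by_contra hgaj
    obtain ⟨j', hj'⟩ := hcon i a ha
    have hjj' : j' ≠ j := fun h => hgaj (h ▸ hj')
    obtain ⟨j'', hj''⟩ := hcon i (a + a0) ((D i).add_mem ha ha0)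
    rw [Matrix.mulVec_add] at hj''
    have h1 : f d ((g : Matrix ι ι F) *ᵥ a) = 0 := hD.orthogonal j j' (Ne.symm hjj') d hd _ hj'
    have h2 : f d ((g : Matrix ι ι F) *ᵥ a + (g : Matrix ι ι F) *ᵥ a0) ≠ 0 := by
      rw [hf.bilinear.add_right, h1, zero_add]; exact hdg
    have hj''j : j'' = j := by
      by_contra hne
      exact h2 (hD.orthogonal j j'' (Ne.symm hne) d hd _ hj'')
    apply hgaj
    rw [hj''j] at hj''
    have := (D j).sub_mem hj'' hj
    simpa using this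
  choose σ hσ using key
  have hmap : ∀ i, (D i).map (Matrix.toLin' (g : Matrix ι ι F)) = D (σ i) := fun i =>
    map_eq_of_forall_mem g _ _ (hσ i) (by rw [hD.decomp.finrank_eq, hD.decomp.finrank_eq])
  have hinj : Function.Injective σ := by
    intro i i' h
    have h1 : (D i).map (Matrix.toLin' (g : Matrix ι ι F))
        = (D i').map (Matrix.toLin' (g : Matrix ι ι F)) := by rw [hmap, hmap, h]
    have h2 : D i = D i' := Submodule.map_injective_of_injective hinjg h1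
    obtain ⟨a0, ha0, ha00⟩ := Submodule.exists_mem_ne_zero_of_ne_bot (block_ne_bot hD i)
    exact block_unique hD ha0 ha00 (h2 ▸ ha0)
  have hbij : Function.Bijective σ := Finite.injective_iff_bijective.mp hinj
  exact ⟨Equiv.ofBijective σ hbij, fun i => by rw [hmap]; rfl⟩

/-- A vector in no block has two non-zero block components. -/
lemma exists_two (hf : Cfsg.Geo.IsSymplecticForm f)
    (hD : Cfsg.Geo.IsNondegenerateMDecomposition f k D) (a : ι → F) (ha : ∀ j, a ∉ D j) :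
    ∃ j0 j1, j0 ≠ j1 ∧ ∃ x ∈ D j0, ∃ y ∈ D j1, x ≠ 0 ∧ y ≠ 0 ∧
      (∀ d ∈ D j0, f d (a - x - y) = 0) ∧ (∀ d ∈ D j1, f d (a - x - y) = 0) := by
  have h2 := hD.decomp.two_le
  have ha0 : a ≠ 0 := by
    intro h
    apply ha ⟨0, by omega⟩
    rw [h]
    exact Submodule.zero_mem _
  have hex0 : ∃ j0, ∃ d ∈ D j0, f d a ≠ 0 := by
    by_contra hcon
    push Not at hcon
    exact ha0 (eq_zero_of_perp_all hf hD a hcon)
  obtain ⟨j0, d0, hd0, hd0a⟩ := hex0
  obtain ⟨x, hx, hxp⟩ := exists_proj hf (D j0) (hD.nondegenerate j0) a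
  have hx0 : x ≠ 0 := by
    intro h
    rw [h, sub_zero] at hxp
    exact hd0a (hxp d0 hd0)
  have hax : a - x ≠ 0 := by
    intro h
    apply ha j0
    rw [sub_eq_zero.mp h]
    exact hx
  have hex1 : ∃ j1, ∃ d ∈ D j1, f d (a - x) ≠ 0 := by
    by_contra hcon
    push Not at hcon
    exact hax (eq_zero_of_perp_all hf hD _ hcon)
  obtain ⟨j1, d1, hd1, hd1a⟩ := hex1
  have h01 : j0 ≠ j1 := by
    intro h
    rw [← h] at hd1
    exact hd1a (hxp d1 hd1)
  obtain ⟨y, hy, hyp⟩ := exists_proj hf (D j1) (hD.nondegenerate j1) (a - x)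
  have hy0 : y ≠ 0 := by
    intro h
    rw [h, sub_zero] at hyp
    exact hd1a (hyp d1 hd1)
  refine ⟨j0, j1, h01, x, hx, y, hy, hx0, hy0, ?_, hyp⟩
  intro d hd
  rw [bil_sub_right hf.bilinear, hxp d hd, hD.orthogonal j0 j1 h01 d hd y hy, sub_zero]

/-- A second vector of the block orthogonal to `y`, different from `0` and `y`. -/
lemma exists_perp_other (hf : Cfsg.Geo.IsSymplecticForm f)
    (hD : Cfsg.Geo.IsNondegenerateMDecomposition f k D)
    (hex : (∃ l : F, l ≠ 0 ∧ l ≠ 1) ∨ 3 ≤ k) (j : Fin t) (y : ι → F) (hy : y ∈ D j) (hy0 : y ≠ 0) :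
    ∃ y1 ∈ D j, f y y1 = 0 ∧ y1 ≠ 0 ∧ y1 ≠ y := by
  rcases hex with ⟨l, hl0, hl1⟩ | hk
  · refine ⟨l • y, (D j).smul_mem _ hy, ?_, smul_ne_zero hl0 hy0, ?_⟩
    · rw [hf.bilinear.smul_right, hf.alternating, mul_zero]
    · intro h
      have h1 : (l - 1) • y = 0 := by rw [sub_smul, h, one_smul, sub_self]
      rcases smul_eq_zero.mp h1 with h2 | h2
      · exact hl1 (sub_eq_zero.mp h2)
      · exact hy0 h2
  · have h1 : ¬ (D j ⊓ LinearMap.ker (fLeft hf.bilinear y) ≤ Submodule.span F {y}) := by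
      intro hle
      have h2 := Submodule.finrank_mono hle
      have h3 := Submodule.finrank_sup_add_finrank_inf_eq (D j) (LinearMap.ker (fLeft hf.bilinear y))
      have h4 := LinearMap.finrank_range_add_finrank_ker (fLeft hf.bilinear y)
      have h5 : Module.finrank F (LinearMap.range (fLeft hf.bilinear y)) ≤ 1 := by
        have := Submodule.finrank_le (LinearMap.range (fLeft hf.bilinear y))
        simpa using this
      have h6 : Module.finrank F (Submodule.span F {y}) ≤ 1 := by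
        have := finrank_span_le_card (R := F) ({y} : Set (ι → F))
        simpa using this
      have h7 := Submodule.finrank_le (D j ⊔ LinearMap.ker (fLeft hf.bilinear y))
      have h8 := hD.decomp.finrank_eq j
      omega
    obtain ⟨y1, hy1, hy1'⟩ := SetLike.not_le_iff_exists.mp h1
    refine ⟨y1, hy1.1, ?_, ?_, ?_⟩
    · have h : fLeft hf.bilinear y y1 = 0 := LinearMap.mem_ker.mp hy1.2
      exact h
    · intro h
      apply hy1'
      rw [h]
      exact Submodule.zero_mem _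
    · intro h
      apply hy1'
      rw [h]
      exact Submodule.mem_span_singleton_self y

/-- From a transvection vector with two non-zero block components, all vectors with exactly
these two components. -/
lemma pair_of_mixed (hf : Cfsg.Geo.IsSymplecticForm f)
    (hD : Cfsg.Geo.IsNondegenerateMDecomposition f k D)
    (hex : (∃ l : F, l ≠ 0 ∧ l ≠ 1) ∨ 3 ≤ k)
    (M : Subgroup (Matrix.GeneralLinearGroup ι F))
    (hMiso : ∀ g ∈ M, ∀ x y, f ((g : Matrix ι ι F) *ᵥ x) ((g : Matrix ι ι F) *ᵥ y) = f x y)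
    (hblk : ∀ j, ∀ a ∈ D j, a ∈ tvSet hf M)
    {j0 j1 : Fin t} (h01 : j0 ≠ j1) (a x y : ι → F) (hx : x ∈ D j0) (hy : y ∈ D j1)
    (hx0 : x ≠ 0) (hy0 : y ≠ 0) (hz0 : ∀ d ∈ D j0, f d (a - x - y) = 0)
    (hz1 : ∀ d ∈ D j1, f d (a - x - y) = 0) (haT : a ∈ tvSet hf M) :
    ∀ x' ∈ D j0, ∀ y' ∈ D j1, x' ≠ 0 → y' ≠ 0 → x' + y' ∈ tvSet hf M := by
  obtain ⟨x1, hx1, hxx1⟩ := (hD.nondegenerate j0 x hx hx0).2
  have hx10 : x1 ≠ 0 := by
    intro h
    rw [h] at hxx1
    exact hxx1 (bil_zero_right hf.bilinear x)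
  obtain ⟨y1, hy1, hyy1, hy10, hy1y⟩ := exists_perp_other hf hD hex j1 y hy hy0
  obtain ⟨g0, g0M, g0x, g0fix⟩ := exists_map_in hf (D j0) (hD.nondegenerate j0) x x1 hx hx1 hx0 hx10
  obtain ⟨g1, g1M, g1y, g1fix⟩ := exists_map_in hf (D j1) (hD.nondegenerate j1) y y1 hy hy1 hy0 hy10
  have g0mem : g0 ∈ M := g0M M (fun b hb c => hblk j0 b hb c)
  have g1mem : g1 ∈ M := g1M M (fun b hb c => hblk j1 b hb c)
  obtain ⟨z, hz⟩ : ∃ z, z = a - x - y := ⟨_, rfl⟩
  rw [← hz] at hz0 hz1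
  have ha_eq : a = x + y + z := by rw [hz]; abel
  have hzd0 : ∀ d ∈ D j0, f z d = 0 := fun d hd => by rw [hf.skew, hz0 d hd, neg_zero]
  have hzd1 : ∀ d ∈ D j1, f z d = 0 := fun d hd => by rw [hf.skew, hz1 d hd, neg_zero]
  have o01 : ∀ u ∈ D j0, ∀ v ∈ D j1, f u v = 0 := hD.orthogonal j0 j1 h01
  have o10 : ∀ u ∈ D j1, ∀ v ∈ D j0, f u v = 0 := hD.orthogonal j1 j0 (Ne.symm h01)
  have e0 : (g0 : Matrix ι ι F) *ᵥ a = x1 + y + z := by
    rw [ha_eq, Matrix.mulVec_add, Matrix.mulVec_add, g0x, g0fix y (fun d hd => o10 y hy d hd),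
      g0fix z hzd0]
  have e1 : (g1 : Matrix ι ι F) *ᵥ (x1 + y + z) = x1 + y1 + z := by
    rw [Matrix.mulVec_add, Matrix.mulVec_add, g1y, g1fix x1 (fun d hd => o01 x1 hx1 d hd),
      g1fix z hzd1]
  have t0 := tvSet_map hf M hMiso g0mem haT
  rw [e0] at t0
  have t1 := tvSet_map hf M hMiso g1mem t0
  rw [e1] at t1
  have hval : f a (x1 + y1 + z) = f x x1 := by
    rw [ha_eq]
    simp only [hf.bilinear.add_left, hf.bilinear.add_right, hf.alternating, o01 x hx y1 hy1,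
      o10 y hy x1 hx1, hyy1, hz0 x hx, hz1 y hy, hzd0 x1 hx1, hzd1 y1 hy1]
    ring
  have t2 := tvSet_hyp hf M hMiso haT t1 (by rw [hval]; exact hxx1) (-1)
  have e2 : a + (-1 : F) • (x1 + y1 + z) = (x - x1) + (y - y1) := by
    rw [ha_eq]; module
  rw [e2] at t2
  have hxd : x - x1 ≠ 0 := by
    intro h
    rw [sub_eq_zero.mp h] at hxx1
    exact hxx1 (hf.alternating x1)
  have hyd : y - y1 ≠ 0 := fun h => hy1y (sub_eq_zero.mp h).symm
  intro x' hx' y' hy' hx'0 hy'0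
  obtain ⟨k0, k0M, k0x, k0fix⟩ := exists_map_in hf (D j0) (hD.nondegenerate j0) (x - x1) x'
    ((D j0).sub_mem hx hx1) hx' hxd hx'0
  obtain ⟨k1, k1M, k1y, k1fix⟩ := exists_map_in hf (D j1) (hD.nondegenerate j1) (y - y1) y'
    ((D j1).sub_mem hy hy1) hy' hyd hy'0
  have k0mem : k0 ∈ M := k0M M (fun b hb c => hblk j0 b hb c)
  have k1mem : k1 ∈ M := k1M M (fun b hb c => hblk j1 b hb c)
  have e3 : (k0 : Matrix ι ι F) *ᵥ ((x - x1) + (y - y1)) = x' + (y - y1) := by
    rw [Matrix.mulVec_add, k0x, k0fix (y - y1) (fun d hd => o10 _ ((D j1).sub_mem hy hy1) d hd)]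
  have e4 : (k1 : Matrix ι ι F) *ᵥ (x' + (y - y1)) = x' + y' := by
    rw [Matrix.mulVec_add, k1y, k1fix x' (fun d hd => o01 x' hx' d hd)]
  have t3 := tvSet_map hf M hMiso k0mem t2
  rw [e3] at t3
  have t4 := tvSet_map hf M hMiso k1mem t3
  rwa [e4] at t4

/-- An isometry in the stabiliser swapping two blocks and fixing the others pointwise. -/
lemma swap_mem (hf : Cfsg.Geo.IsSymplecticForm f)
    (hD : Cfsg.Geo.IsNondegenerateMDecomposition f k D) (j j' : Fin t) (hjj' : j ≠ j') :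
    ∃ h : Matrix.GeneralLinearGroup ι F, h ∈ Cfsg.Geo.decompositionStabilizer D ∧
      (∀ x y, f ((h : Matrix ι ι F) *ᵥ x) ((h : Matrix ι ι F) *ᵥ y) = f x y) ∧
      (∀ a ∈ D j, (h : Matrix ι ι F) *ᵥ a ∈ D j') ∧ (∀ b ∈ D j', (h : Matrix ι ι F) *ᵥ b ∈ D j) ∧
      (∀ i, i ≠ j → i ≠ j' → ∀ x ∈ D i, (h : Matrix ι ι F) *ᵥ x = x) := by
  obtain ⟨h, hiso, hA, hB, hfix⟩ := exists_swap hf k (D j) (D j') (hD.decomp.finrank_eq j)
    (hD.decomp.finrank_eq j') (hD.nondegenerate j) (hD.nondegenerate j') (hD.orthogonal j j' hjj')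
  have hfix' : ∀ i, i ≠ j → i ≠ j' → ∀ x ∈ D i, (h : Matrix ι ι F) *ᵥ x = x := by
    intro i hij hij' x hx
    exact hfix x (fun a ha => hD.orthogonal i j hij x hx a ha)
      (fun b hb => hD.orthogonal i j' hij' x hx b hb)
  refine ⟨h, ⟨Equiv.swap j j', fun i => ?_⟩, hiso, hA, hB, hfix'⟩
  apply map_eq_of_forall_mem
  · intro w hw
    by_cases hij : i = j
    · subst hij
      rw [Equiv.swap_apply_left]
      exact hA w hw
    by_cases hij' : i = j'
    · subst hij'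
      rw [Equiv.swap_apply_right]
      exact hB w hw
    rw [Equiv.swap_apply_of_ne_of_ne hij hij', hfix' i hij hij' w hw]
    exact hw
  · rw [hD.decomp.finrank_eq, hD.decomp.finrank_eq]

lemma E_step (hf : Cfsg.Geo.IsSymplecticForm f)
    (hD : Cfsg.Geo.IsNondegenerateMDecomposition f k D)
    (M : Subgroup (Matrix.GeneralLinearGroup ι F))
    (hMiso : ∀ g ∈ M, ∀ x y, f ((g : Matrix ι ι F) *ᵥ x) ((g : Matrix ι ι F) *ᵥ y) = f x y)
    (hHM : ∀ h : Matrix.GeneralLinearGroup ι F, h ∈ Cfsg.Geo.decompositionStabilizer D →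
      (∀ x y, f ((h : Matrix ι ι F) *ᵥ x) ((h : Matrix ι ι F) *ᵥ y) = f x y) → h ∈ M)
    {a b c : Fin t} (hab : a ≠ b) (hca : c ≠ a) (hcb : c ≠ b)
    (hE : ∀ x ∈ D a, ∀ y ∈ D b, x ≠ 0 → y ≠ 0 → x + y ∈ tvSet hf M) :
    ∀ x ∈ D c, ∀ y ∈ D b, x ≠ 0 → y ≠ 0 → x + y ∈ tvSet hf M := by
  obtain ⟨h, hstab, hiso, hac, hca', hfix⟩ := swap_mem hf hD a c (Ne.symm hca)
  intro x hx y hy hx0 hy0
  have hhx0 : (h : Matrix ι ι F) *ᵥ x ≠ 0 := by
    intro h0
    apply hx0
    apply gl_mulVec_injective h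
    show (h : Matrix ι ι F) *ᵥ x = (h : Matrix ι ι F) *ᵥ 0
    rw [h0, Matrix.mulVec_zero]
  have h1 := hE _ (hca' x hx) y hy hhx0 hy0
  have hmem : h⁻¹ ∈ M := M.inv_mem (hHM h hstab hiso)
  have h2 := tvSet_map hf M hMiso hmem h1
  have hy' : (h : Matrix ι ι F) *ᵥ y = y := hfix b (Ne.symm hab) (Ne.symm hcb) y hy
  have e : ((h⁻¹ : Matrix.GeneralLinearGroup ι F) : Matrix ι ι F) *ᵥ ((h : Matrix ι ι F) *ᵥ x + y)
      = x + y := by
    rw [Matrix.mulVec_add, gl_inv_mulVec]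
    conv_lhs => rw [← hy', gl_inv_mulVec]
  rwa [e] at h2

lemma E_symm (hf : Cfsg.Geo.IsSymplecticForm f) (M : Subgroup (Matrix.GeneralLinearGroup ι F))
    {a b : Fin t} (hE : ∀ x ∈ D a, ∀ y ∈ D b, x ≠ 0 → y ≠ 0 → x + y ∈ tvSet hf M) :
    ∀ x ∈ D b, ∀ y ∈ D a, x ≠ 0 → y ≠ 0 → x + y ∈ tvSet hf M := by
  intro x hx y hy hx0 hy0
  rw [add_comm]
  exact hE y hy x hx hy0 hx0

lemma E_all (hf : Cfsg.Geo.IsSymplecticForm f)
    (hD : Cfsg.Geo.IsNondegenerateMDecomposition f k D)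
    (M : Subgroup (Matrix.GeneralLinearGroup ι F))
    (hMiso : ∀ g ∈ M, ∀ x y, f ((g : Matrix ι ι F) *ᵥ x) ((g : Matrix ι ι F) *ᵥ y) = f x y)
    (hHM : ∀ h : Matrix.GeneralLinearGroup ι F, h ∈ Cfsg.Geo.decompositionStabilizer D →
      (∀ x y, f ((h : Matrix ι ι F) *ᵥ x) ((h : Matrix ι ι F) *ᵥ y) = f x y) → h ∈ M)
    {j l : Fin t} (hjl : j ≠ l)
    (hE : ∀ x ∈ D j, ∀ y ∈ D l, x ≠ 0 → y ≠ 0 → x + y ∈ tvSet hf M) :
    ∀ p q : Fin t, p ≠ q → ∀ x ∈ D p, ∀ y ∈ D q, x ≠ 0 → y ≠ 0 → x + y ∈ tvSet hf M := by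
  have s1 : ∀ p : Fin t, ∃ l' : Fin t, l' ≠ p ∧
      ∀ x ∈ D p, ∀ y ∈ D l', x ≠ 0 → y ≠ 0 → x + y ∈ tvSet hf M := by
    intro p
    by_cases hpj : p = j
    · subst hpj
      exact ⟨l, Ne.symm hjl, hE⟩
    by_cases hpl : p = l
    · subst hpl
      exact ⟨j, hjl, E_symm hf M hE⟩
    · exact ⟨l, Ne.symm hpl, E_step hf hD M hMiso hHM hjl hpj hpl hE⟩
  intro p q hpq
  obtain ⟨l', hl'p, hEpl'⟩ := s1 p
  by_cases hql' : q = l'
  · subst hql'
    exact hEpl'
  · exact E_symm hf M (E_step hf hD M hMiso hHM hl'p hql' (Ne.symm hpq) (E_symm hf M hEpl'))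

/-- All sums of block vectors are transvection vectors. -/
lemma all_mem (hf : Cfsg.Geo.IsSymplecticForm f)
    (hD : Cfsg.Geo.IsNondegenerateMDecomposition f k D)
    (M : Subgroup (Matrix.GeneralLinearGroup ι F))
    (hMiso : ∀ g ∈ M, ∀ x y, f ((g : Matrix ι ι F) *ᵥ x) ((g : Matrix ι ι F) *ᵥ y) = f x y)
    (hblk : ∀ j, ∀ a ∈ D j, a ∈ tvSet hf M)
    (hE : ∀ p q : Fin t, p ≠ q → ∀ x ∈ D p, ∀ y ∈ D q, x ≠ 0 → y ≠ 0 → x + y ∈ tvSet hf M) :
    ∀ (S : Finset (Fin t)) (c : Fin t → (ι → F)), (∀ i, c i ∈ D i) →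
      ∑ i ∈ S, c i ∈ tvSet hf M := by
  intro S
  induction S using Finset.induction_on with
  | empty =>
    intro c _
    rw [Finset.sum_empty]
    exact tvSet_zero hf M
  | insert l S hl ih =>
    intro c hc
    rw [Finset.sum_insert hl]
    by_cases hcl : c l = 0
    · rw [hcl, zero_add]
      exact ih c hc
    by_cases hw : ∑ i ∈ S, c i = 0
    · rw [hw, add_zero]
      exact hblk l _ (hc l)
    obtain ⟨j, hjS, hcj⟩ : ∃ j ∈ S, c j ≠ 0 := by
      by_contra h
      push Not at h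
      exact hw (Finset.sum_eq_zero h)
    have hjl : j ≠ l := fun h => hl (h ▸ hjS)
    obtain ⟨x, hx, hcx⟩ := (hD.nondegenerate j (c j) (hc j) hcj).2
    have hx0 : x ≠ 0 := by
      intro h
      rw [h] at hcx
      exact hcx (bil_zero_right hf.bilinear _)
    have hc' : ∀ i, Function.update c j (c j - x) i ∈ D i := by
      intro i
      by_cases hij : i = j
      · subst hij
        rw [Function.update_self]
        exact (D i).sub_mem (hc i) hx
      · rw [Function.update_of_ne hij]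
        exact hc i
    have hsum' : ∑ i ∈ S, Function.update c j (c j - x) i = ∑ i ∈ S, c i - x := by
      rw [Finset.sum_update_of_mem hjS, Finset.sdiff_singleton_eq_erase,
        ← Finset.add_sum_erase S c hjS]
      abel
    have hIH := ih _ hc'
    rw [hsum'] at hIH
    have hb := hE j l hjl x hx (c l) (hc l) hx0 hcl
    have hfw : f (∑ i ∈ S, c i) x = f (c j) x := by
      have h1 : f (∑ i ∈ S, c i) x = ∑ i ∈ S, f (c i) x := map_sum (fR hf.bilinear x) c S
      rw [h1, Finset.sum_eq_single j]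
      · intro i _ hij
        exact hD.orthogonal i j hij _ (hc i) x hx
      · intro h
        exact absurd hjS h
    have hfl : f (∑ i ∈ S, c i) (c l) = 0 := by
      have h1 : f (∑ i ∈ S, c i) (c l) = ∑ i ∈ S, f (c i) (c l) :=
        map_sum (fR hf.bilinear (c l)) c S
      rw [h1]
      apply Finset.sum_eq_zero
      intro i hi
      exact hD.orthogonal i l (fun h => hl (h ▸ hi)) _ (hc i) _ (hc l)
    have hne : f (∑ i ∈ S, c i - x) (x + c l) ≠ 0 := by
      rw [bil_sub_left hf.bilinear, hf.bilinear.add_right, hf.bilinear.add_right, hfw, hfl,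
        hf.alternating, hD.orthogonal j l hjl x hx _ (hc l)]
      simpa using hcx
    have hfin := tvSet_hyp hf M hMiso hIH hb hne 1
    have e : ∑ i ∈ S, c i - x + (1 : F) • (x + c l) = c l + ∑ i ∈ S, c i := by
      module
    rwa [e] at hfin

theorem max_aux (hf : Cfsg.Geo.IsSymplecticForm f)
    (hD : Cfsg.Geo.IsNondegenerateMDecomposition f k D)
    (hex : (∃ l : F, l ≠ 0 ∧ l ≠ 1) ∨ 3 ≤ k)
    (Sp : Subgroup (Matrix.GeneralLinearGroup ι F))
    (hSp : ∀ g : Matrix.GeneralLinearGroup ι F, g ∈ Sp ↔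
      ∀ x y, f ((g : Matrix ι ι F) *ᵥ x) ((g : Matrix ι ι F) *ᵥ y) = f x y) :
    Cfsg.Geo.IsMaximalIn Sp (Cfsg.Geo.decompositionStabilizer D ⊓ Sp) := by
  have hstSp : ∀ a c, st hf a c ∈ Sp := fun a c => (hSp _).mpr (st_isom hf a c)
  have h2 := hD.decomp.two_le
  constructor
  · rw [SetLike.lt_iff_le_and_exists]
    obtain ⟨x, hx, hx0⟩ := Submodule.exists_mem_ne_zero_of_ne_bot
      (block_ne_bot hD (⟨0, by omega⟩ : Fin t))
    obtain ⟨y, hy, hy0⟩ := Submodule.exists_mem_ne_zero_of_ne_bot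
      (block_ne_bot hD (⟨1, by omega⟩ : Fin t))
    have h01 : (⟨0, by omega⟩ : Fin t) ≠ ⟨1, by omega⟩ := by
      intro h
      have := congrArg Fin.val h
      simp at this
    refine ⟨inf_le_right, st hf (x + y) 1, hstSp _ _, ?_⟩
    rintro ⟨⟨σ, hσ⟩, -⟩
    obtain ⟨x0, hx0m, hx0x⟩ := (hD.nondegenerate _ x hx hx0).1
    have hmem : ((st hf (x + y) 1 : Matrix.GeneralLinearGroup ι F) : Matrix ι ι F) *ᵥ x0
        ∈ D (σ ⟨0, by omega⟩) := by
      rw [← hσ, ← Matrix.toLin'_apply]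
      exact Submodule.mem_map_of_mem hx0m
    rw [st_mulVec, hf.bilinear.add_right, hD.orthogonal _ _ h01 x0 hx0m y hy, add_zero,
      one_mul] at hmem
    -- the vector is u + w with u in block 0 and w in block 1, both non-zero
    have hu : x0 + f x0 x • x ∈ D (⟨0, by omega⟩ : Fin t) :=
      Submodule.add_mem _ hx0m (Submodule.smul_mem _ _ hx)
    have hu0 : x0 + f x0 x • x ≠ 0 := by
      intro h
      have h1 : f (x0 + f x0 x • x) x = f x0 x := by
        rw [hf.bilinear.add_left, hf.bilinear.smul_left, hf.alternating, mul_zero, add_zero]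
      rw [h, bil_zero_left hf.bilinear] at h1
      exact hx0x h1.symm
    have hw : f x0 x • y ∈ D (⟨1, by omega⟩ : Fin t) := Submodule.smul_mem _ _ hy
    have hw0 : f x0 x • y ≠ 0 := smul_ne_zero hx0x hy0
    have hsplit : x0 + f x0 x • (x + y) = (x0 + f x0 x • x) + f x0 x • y := by module
    rw [hsplit] at hmem
    by_cases hj : σ ⟨0, by omega⟩ = ⟨0, by omega⟩
    · rw [hj] at hmem
      have hw' : f x0 x • y ∈ D (⟨0, by omega⟩ : Fin t) := by
        have := Submodule.sub_mem _ hmem hu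
        simpa using this
      exact h01 (block_unique hD hw hw0 hw').symm
    · obtain ⟨d, hd, hdu⟩ := (hD.nondegenerate _ _ hu hu0).1
      have h1 : f d ((x0 + f x0 x • x) + f x0 x • y) = 0 :=
        hD.orthogonal _ _ (Ne.symm hj) d hd _ hmem
      rw [hf.bilinear.add_right, hD.orthogonal _ _ h01 d hd _ hw, add_zero] at h1
      exact hdu h1
  · intro M hHM hMS
    by_cases hMH : M ≤ Cfsg.Geo.decompositionStabilizer D ⊓ Sp
    · left; exact le_antisymm hMH hHM
    right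
    apply le_antisymm hMS
    obtain ⟨g, hgM, hgH⟩ := SetLike.not_le_iff_exists.mp hMH
    have hMiso : ∀ g ∈ M, ∀ x y, f ((g : Matrix ι ι F) *ᵥ x) ((g : Matrix ι ι F) *ᵥ y) = f x y :=
      fun g hg => (hSp g).mp (hMS hg)
    have hblk : ∀ j, ∀ a ∈ D j, a ∈ tvSet hf M := fun j a ha c =>
      hHM ⟨st_mem_decomp hf hD j a ha c, hstSp a c⟩
    have hHM' : ∀ h : Matrix.GeneralLinearGroup ι F, h ∈ Cfsg.Geo.decompositionStabilizer D →
        (∀ x y, f ((h : Matrix ι ι F) *ᵥ x) ((h : Matrix ι ι F) *ᵥ y) = f x y) → h ∈ M :=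
      fun h hs hi => hHM ⟨hs, (hSp h).mpr hi⟩
    have hgn : g ∉ Cfsg.Geo.decompositionStabilizer D := fun h => hgH ⟨h, hMS hgM⟩
    obtain ⟨i, a0, ha0, hmix⟩ := exists_mixed hf hD g hgn
    have haT : (g : Matrix ι ι F) *ᵥ a0 ∈ tvSet hf M := tvSet_map hf M hMiso hgM (hblk i a0 ha0)
    obtain ⟨j0, j1, h01, x, hx, y, hy, hx0, hy0, hz0, hz1⟩ := exists_two hf hD _ hmix
    have hE0 := pair_of_mixed hf hD hex M hMiso hblk h01 _ x y hx hy hx0 hy0 hz0 hz1 haT
    have hE := E_all hf hD M hMiso hHM' h01 hE0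
    have hall := all_mem hf hD M hMiso hblk hE
    intro k' hk'
    apply mem_of_tvSet_univ hf M _ k' ((hSp k').mp hk')
    intro v
    obtain ⟨c, hc, rfl⟩ := exists_family hD v
    exact hall Finset.univ c hc

end Aux

/-- For a finite field F with q elements and m ≥ 7, let D be a decomposition of F^(2m) into t ≥ 2 pairwise orthogonal subspaces of equal dimension k on each of which the standard alternating form is non-degenerate, spanning F^(2m). Unless k = 2 and q = 2, the elements of Sp_2m(F) permuting the members of D form a maximal subgroup of Sp_2m(F). -/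
theorem result {F : Type*} [Field F] [Fintype F] (m : ℕ) (hm : 7 ≤ m) {t : ℕ} (k : ℕ) (D : Fin t → Submodule F (Fin m ⊕ Fin m → F)) (hD : Cfsg.Geo.IsNondegenerateMDecomposition (Cfsg.sympForm m F) k D) (hex : ¬ (k = 2 ∧ Fintype.card F = 2)) : Cfsg.Geo.IsMaximalIn (Cfsg.spGL m F) (Cfsg.Geo.decompositionStabilizer D ⊓ Cfsg.spGL m F) := by
  classical
  have hf := sympForm_isSymplectic (F := F) (m := m)
  apply max_aux hf hD
  · by_cases hq : Fintype.card F = 2
    · right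
      have hk2 : k ≠ 2 := fun h => hex ⟨h, hq⟩
      have hk0 := hD.decomp.pos
      have hk1 : k ≠ 1 := by
        intro hk1
        have h2 := hD.decomp.two_le
        obtain ⟨y, hy, hy0⟩ := Submodule.exists_mem_ne_zero_of_ne_bot
          (block_ne_bot hD (⟨0, by omega⟩ : Fin t))
        obtain ⟨x, hx, hxy⟩ := (hD.nondegenerate _ y hy hy0).1
        have hfr := hD.decomp.finrank_eq (⟨0, by omega⟩ : Fin t)
        rw [hk1] at hfr
        have hy0' : (⟨y, hy⟩ : D (⟨0, by omega⟩ : Fin t)) ≠ 0 := by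
          intro h
          exact hy0 (congrArg Subtype.val h)
        obtain ⟨c, hc⟩ := (finrank_eq_one_iff_of_nonzero' _ hy0').mp hfr ⟨x, hx⟩
        have hc' : c • y = x := congrArg Subtype.val hc
        rw [← hc', hf.bilinear.smul_left, hf.alternating, mul_zero] at hxy
        exact hxy rfl
      omega
    · left
      by_contra hcon
      push Not at hcon
      apply hq
      have hsub : (Finset.univ : Finset F) ⊆ {0, 1} := by
        intro l _
        by_cases hl : l = 0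
        · simp [hl]
        · simp [hcon l hl]
      have h1 := Finset.card_le_card hsub
      have h2 : ({0, 1} : Finset F).card ≤ 2 := Finset.card_le_two
      have h3 : 1 < Fintype.card F := Fintype.one_lt_card
      rw [Finset.card_univ] at h1
      omega
  · intro g
    exact mem_spGL_iff g

end Cfsg.Agent.S5647
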