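-- Statement S5648: Sp_2(2) wr S_m is not maximal in Sp_2m(2) (it lies in an orthogonal group).
import Cfsg.Statements.S5648
import Cfsg.Agent.Lib.Helper94.Basic

set_option autoImplicit false
open Cfsg

namespace Cfsg.Agent.S5648

open scoped Matrix
open Cfsg.Agent.Lib.Helper94.Basic

section Aux

variable {F : Type*} [Field F] [Fintype F] {m : ℕ}

lemma zero_or_one (hq : Fintype.card F = 2) (a : F) : a = 0 ∨ a = 1 := by
  classical
  have h : ({0, 1} : Finset F) = Finset.univ := by
    apply Finset.eq_univ_of_card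
    rw [Finset.card_pair zero_ne_one, hq]
  have h1 := Finset.mem_univ a
  rw [← h] at h1
  simpa using h1

lemma two_eq_zero (hq : Fintype.card F = 2) : (2 : F) = 0 := by
  rcases zero_or_one hq (2 : F) with h | h
  · exact h
  · exfalso
    have h1 : (1 : F) = 0 := by linear_combination h
    exact one_ne_zero h1

/-- The quadratic form: the number (mod 2) of members of `D` on which `f(v, ·)` does not vanish. -/
noncomputable def Qf {t : ℕ} (D : Fin t → Submodule F (Fin m ⊕ Fin m → F)) (v : Fin m ⊕ Fin m → F) : F :=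
  open Classical in ∑ i, if ∀ x ∈ D i, sympForm m F v x = 0 then (0 : F) else 1

lemma Qf_invariant {t : ℕ} (D : Fin t → Submodule F (Fin m ⊕ Fin m → F))
    (g : Matrix.GeneralLinearGroup (Fin m ⊕ Fin m) F)
    (hg : g ∈ Cfsg.Geo.decompositionStabilizer D) (hs : g ∈ Cfsg.spGL m F) (v : Fin m ⊕ Fin m → F) :
    Qf D ((g : Matrix _ _ F) *ᵥ v) = Qf D v := by
  classical
  obtain ⟨σ, hσ⟩ := hg
  rw [mem_spGL_iff] at hs
  unfold Qf
  rw [← Equiv.sum_comp σ]
  apply Finset.sum_congr rfl
  intro i _
  have key : (∀ x ∈ D (σ i), sympForm m F ((g : Matrix _ _ F) *ᵥ v) x = 0) ↔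
      (∀ x ∈ D i, sympForm m F v x = 0) := by
    constructor
    · intro h x hx
      have h1 := h ((g : Matrix _ _ F) *ᵥ x) (by
        rw [← hσ i, ← Matrix.toLin'_apply]
        exact Submodule.mem_map_of_mem hx)
      rwa [hs] at h1
    · intro h x hx
      rw [← hσ i] at hx
      obtain ⟨y, hy, rfl⟩ := hx
      rw [Matrix.toLin'_apply, hs]
      exact h y hy
  simp only [key]

lemma exists_basis (hq : Fintype.card F = 2) {t : ℕ} (D : Fin t → Submodule F (Fin m ⊕ Fin m → F))
    (hD : Cfsg.Geo.IsNondegenerateMDecomposition (Cfsg.sympForm m F) 2 D) :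
    ∃ e f : Fin t → (Fin m ⊕ Fin m → F), (∀ i, e i ∈ D i) ∧ (∀ i, f i ∈ D i) ∧
      (∀ i, sympForm m F (e i) (f i) = 1) ∧
      (∀ i, ∀ x ∈ D i, ∃ a b : F, x = a • e i + b • f i) := by
  have key : ∀ i, ∃ e f : (Fin m ⊕ Fin m → F), e ∈ D i ∧ f ∈ D i ∧ sympForm m F e f = 1 ∧
      (∀ x ∈ D i, ∃ a b : F, x = a • e + b • f) := by
    intro i
    have hne : D i ≠ ⊥ := by
      intro h
      have h2 := hD.decomp.finrank_eq i
      rw [h] at h2
      simp at h2
    obtain ⟨e, he, he0⟩ := Submodule.exists_mem_ne_zero_of_ne_bot hne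
    obtain ⟨f, hf, hef⟩ := (hD.nondegenerate i e he he0).2
    have hef1 : sympForm m F e f = 1 := (zero_or_one hq _).resolve_left hef
    refine ⟨e, f, he, hf, hef1, ?_⟩
    have hli : LinearIndependent F ![e, f] := by
      rw [LinearIndependent.pair_iff]
      intro a b hab
      have h1 : sympForm m F e (a • e + b • f) = 0 := by rw [hab]; simp
      have h2 : sympForm m F (a • e + b • f) f = 0 := by rw [hab]; simp
      rw [sympForm_add_right, sympForm_smul_right, sympForm_smul_right, sympForm_self, hef1] at h1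
      rw [sympForm_add_left, sympForm_smul_left, sympForm_smul_left, sympForm_self, hef1] at h2
      constructor
      · simpa using h2
      · simpa using h1
    have hspan : Submodule.span F {e, f} = D i := by
      apply Submodule.eq_of_le_of_finrank_eq
      · rw [Submodule.span_le]
        intro x hx
        rcases hx with rfl | rfl
        · exact he
        · exact hf
      · have h3 := finrank_span_eq_card hli
        have h4 : Set.range ![e, f] = {e, f} := by
          ext x; simp [eq_comm, or_comm]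
        rw [h4] at h3
        rw [h3, hD.decomp.finrank_eq i]
        simp
    intro x hx
    rw [← hspan, Submodule.mem_span_pair] at hx
    obtain ⟨a, b, rfl⟩ := hx
    exact ⟨a, b, rfl⟩
  choose e f h1 h2 h3 h4 using key
  exact ⟨e, f, h1, h2, h3, h4⟩

/-- The formula for `Qf` in terms of the bases. -/
lemma Qf_eq (hq : Fintype.card F = 2) {t : ℕ} (D : Fin t → Submodule F (Fin m ⊕ Fin m → F))
    (e f : Fin t → (Fin m ⊕ Fin m → F))
    (he : ∀ i, e i ∈ D i) (hf : ∀ i, f i ∈ D i)
    (hsp : ∀ i, ∀ x ∈ D i, ∃ a b : F, x = a • e i + b • f i) (v : Fin m ⊕ Fin m → F) :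
    Qf D v = ∑ i, (sympForm m F v (e i) + sympForm m F v (f i)
      + sympForm m F v (e i) * sympForm m F v (f i)) := by
  classical
  unfold Qf
  apply Finset.sum_congr rfl
  intro i _
  have h2 := two_eq_zero hq
  by_cases h : ∀ x ∈ D i, sympForm m F v x = 0
  · rw [if_pos h, h _ (he i), h _ (hf i)]
    simp
  · rw [if_neg h]
    have h' : ¬ (sympForm m F v (e i) = 0 ∧ sympForm m F v (f i) = 0) := by
      rintro ⟨h1, h3⟩
      apply h
      intro x hx
      obtain ⟨a, b, rfl⟩ := hsp i x hx
      rw [sympForm_add_right, sympForm_smul_right, sympForm_smul_right, h1, h3]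
      simp
    rcases zero_or_one hq (sympForm m F v (e i)) with h1 | h1 <;>
      rcases zero_or_one hq (sympForm m F v (f i)) with h3 | h3
    · exact absurd ⟨h1, h3⟩ h'
    · rw [h1, h3]; simp
    · rw [h1, h3]; simp
    · rw [h1, h3]; linear_combination -h2

/-- Expansion of the form in the symplectic basis. -/
lemma form_expansion (hq : Fintype.card F = 2) {t : ℕ} (D : Fin t → Submodule F (Fin m ⊕ Fin m → F))
    (hD : Cfsg.Geo.IsNondegenerateMDecomposition (Cfsg.sympForm m F) 2 D)
    (e f : Fin t → (Fin m ⊕ Fin m → F))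
    (he : ∀ i, e i ∈ D i) (hf : ∀ i, f i ∈ D i) (hef : ∀ i, sympForm m F (e i) (f i) = 1)
    (hsp : ∀ i, ∀ x ∈ D i, ∃ a b : F, x = a • e i + b • f i) (x y : Fin m ⊕ Fin m → F) :
    ∑ i, (sympForm m F x (e i) * sympForm m F y (f i) + sympForm m F y (e i) * sympForm m F x (f i))
      = sympForm m F x y := by
  have h2 := two_eq_zero hq
  have hx : x ∈ ⨆ i, D i := by rw [hD.decomp.iSup_eq_top]; trivial
  have hy : y ∈ ⨆ i, D i := by rw [hD.decomp.iSup_eq_top]; trivial
  revert y
  refine Submodule.iSup_induction D (motive := fun x => ∀ y, y ∈ ⨆ i, D i →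
    ∑ i, (sympForm m F x (e i) * sympForm m F y (f i) + sympForm m F y (e i) * sympForm m F x (f i))
      = sympForm m F x y) hx ?_ ?_ ?_
  · intro j x hxj y hy
    refine Submodule.iSup_induction D (motive := fun y =>
      ∑ i, (sympForm m F x (e i) * sympForm m F y (f i) + sympForm m F y (e i) * sympForm m F x (f i))
        = sympForm m F x y) hy ?_ ?_ ?_
    · intro l y hyl
      by_cases hjl : j = l
      · subst hjl
        rw [Finset.sum_eq_single j]
        · obtain ⟨a, b, rfl⟩ := hsp j x hxj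
          obtain ⟨c, d, rfl⟩ := hsp j y hyl
          simp only [sympForm_add_left, sympForm_add_right, sympForm_smul_left, sympForm_smul_right,
            sympForm_self, hef j]
          rw [sympForm_skew (f j) (e j), hef j]
          linear_combination (-(a * d)) * h2
        · intro i _ hij
          rw [hD.orthogonal j i (Ne.symm hij) x hxj (e i) (he i),
            hD.orthogonal j i (Ne.symm hij) x hxj (f i) (hf i)]
          simp
        · intro h; exact absurd (Finset.mem_univ j) h
      · rw [hD.orthogonal j l hjl x hxj y hyl]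
        apply Finset.sum_eq_zero
        intro i _
        by_cases hij : i = j
        · subst hij
          rw [hD.orthogonal l i (Ne.symm hjl) y hyl (e i) (he i),
            hD.orthogonal l i (Ne.symm hjl) y hyl (f i) (hf i)]
          simp
        · rw [hD.orthogonal j i (Ne.symm hij) x hxj (e i) (he i),
            hD.orthogonal j i (Ne.symm hij) x hxj (f i) (hf i)]
          simp
    · simp
    · intro y y' hy hy'
      simp only [sympForm_add_left, sympForm_add_right]
      rw [← hy, ← hy', ← Finset.sum_add_distrib]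
      apply Finset.sum_congr rfl
      intro i _
      ring
  · intro y _
    simp
  · intro x x' hx hx' y hy
    simp only [sympForm_add_left, sympForm_add_right]
    rw [← hx y hy, ← hx' y hy, ← Finset.sum_add_distrib]
    apply Finset.sum_congr rfl
    intro i _
    ring

/-- The polar identity for `Qf`. -/
lemma Qf_add (hq : Fintype.card F = 2) {t : ℕ} (D : Fin t → Submodule F (Fin m ⊕ Fin m → F))
    (hD : Cfsg.Geo.IsNondegenerateMDecomposition (Cfsg.sympForm m F) 2 D)
    (x y : Fin m ⊕ Fin m → F) :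
    Qf D (x + y) = Qf D x + Qf D y + sympForm m F x y := by
  obtain ⟨e, f, he, hf, hef, hsp⟩ := exists_basis hq D hD
  rw [Qf_eq hq D e f he hf hsp, Qf_eq hq D e f he hf hsp, Qf_eq hq D e f he hf hsp,
    ← form_expansion hq D hD e f he hf hef hsp x y, ← Finset.sum_add_distrib,
    ← Finset.sum_add_distrib]
  apply Finset.sum_congr rfl
  intro i _
  simp only [sympForm_add_left]
  ring

/-- `Qf` takes the value 1 on the non-zero vectors of each member. -/
lemma Qf_of_mem {t : ℕ} (D : Fin t → Submodule F (Fin m ⊕ Fin m → F))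
    (hD : Cfsg.Geo.IsNondegenerateMDecomposition (Cfsg.sympForm m F) 2 D)
    (j : Fin t) (x : Fin m ⊕ Fin m → F) (hx : x ∈ D j) (hx0 : x ≠ 0) : Qf D x = 1 := by
  classical
  unfold Qf
  rw [Finset.sum_eq_single j]
  · rw [if_neg]
    intro h
    obtain ⟨y, hy, hxy⟩ := (hD.nondegenerate j x hx hx0).2
    exact hxy (h y hy)
  · intro i _ hij
    rw [if_pos]
    intro y hy
    exact hD.orthogonal j i (Ne.symm hij) x hx y hy
  · intro h; exact absurd (Finset.mem_univ j) h

lemma card_index {t : ℕ} (D : Fin t → Submodule F (Fin m ⊕ Fin m → F))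
    (hD : Cfsg.Geo.IsNondegenerateMDecomposition (Cfsg.sympForm m F) 2 D) : t = m := by
  classical
  have hint := DirectSum.isInternal_submodule_of_iSupIndep_of_iSup_eq_top hD.decomp.indep
    hD.decomp.iSup_eq_top
  have h1 := (LinearEquiv.ofBijective (DirectSum.coeLinearMap D) hint).finrank_eq
  rw [Module.finrank_directSum] at h1
  simp only [hD.decomp.finrank_eq, Finset.sum_const, Finset.card_univ, Fintype.card_fin,
    smul_eq_mul, Module.finrank_fintype_fun_eq_card, Fintype.card_sum] at h1
  omega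

lemma Qf_tv (hq : Fintype.card F = 2) {t : ℕ} (D : Fin t → Submodule F (Fin m ⊕ Fin m → F))
    (hD : Cfsg.Geo.IsNondegenerateMDecomposition (Cfsg.sympForm m F) 2 D)
    (w : Fin m ⊕ Fin m → F) (hw : Qf D w = 1) (v : Fin m ⊕ Fin m → F) :
    Qf D (((sympTv w 1 : Matrix.GeneralLinearGroup (Fin m ⊕ Fin m) F) : Matrix _ _ F) *ᵥ v)
      = Qf D v := by
  have h2 := two_eq_zero hq
  rw [sympTv_mulVec, one_mul]
  rcases zero_or_one hq (sympForm m F v w) with h | h
  · rw [h]; simp
  · rw [h, one_smul, Qf_add hq D hD, hw, h]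
    linear_combination h2

end Aux

theorem result {F : Type*} [Field F] [Fintype F] (m : ℕ) (hm : 7 ≤ m) (hq : Fintype.card F = 2) {t : ℕ} (D : Fin t → Submodule F (Fin m ⊕ Fin m → F)) (hD : Cfsg.Geo.IsNondegenerateMDecomposition (Cfsg.sympForm m F) 2 D) : ∃ K : Subgroup (Matrix.GeneralLinearGroup (Fin m ⊕ Fin m) F), Cfsg.Geo.decompositionStabilizer D ⊓ Cfsg.spGL m F < K ∧ K < Cfsg.spGL m F := by
  have h2 := two_eq_zero hq
  have hneg : (-1 : F) = 1 := by linear_combination -h2
  have htm := card_index D hD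
  subst htm
  obtain ⟨e, f, he, hf, hef, hsp⟩ := exists_basis hq D hD
  have hfe : ∀ i, sympForm t F (f i) (e i) = 1 := by
    intro i
    rw [sympForm_skew, hef i, hneg]
  have he0 : ∀ i, e i ≠ 0 := by
    intro i h
    have h1 := hef i
    rw [h] at h1
    simp at h1
  -- three distinct indices
  let i0 : Fin t := ⟨0, by omega⟩
  let i1 : Fin t := ⟨1, by omega⟩
  let i2 : Fin t := ⟨2, by omega⟩
  have h01 : i0 ≠ i1 := by simp [i0, i1, Fin.ext_iff]
  have h02 : i0 ≠ i2 := by simp [i0, i2, Fin.ext_iff]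
  have h12 : i1 ≠ i2 := by simp [i1, i2, Fin.ext_iff]
  have hQe : ∀ i, Qf D (e i) = 1 := fun i => Qf_of_mem D hD i (e i) (he i) (he0 i)
  -- the vectors
  have hw' : Qf D (e i0 + e i1) = 0 := by
    rw [Qf_add hq D hD, hQe, hQe, hD.orthogonal i0 i1 h01 _ (he i0) _ (he i1)]
    linear_combination h2
  have hw : Qf D (e i0 + e i1 + e i2) = 1 := by
    rw [Qf_add hq D hD, hw', hQe, sympForm_add_left, hD.orthogonal i0 i2 h02 _ (he i0) _ (he i2),
      hD.orthogonal i1 i2 h12 _ (he i1) _ (he i2)]
    simp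
  refine ⟨Cfsg.isometryGroup F (Qf D) ⊓ Cfsg.spGL t F, ?_, ?_⟩
  · rw [SetLike.lt_iff_le_and_exists]
    refine ⟨?_, ?_⟩
    · intro g hg
      exact Subgroup.mem_inf.mpr
        ⟨(mem_isometryGroup_iff _ _).mpr (Qf_invariant D g hg.1 hg.2), hg.2⟩
    · refine ⟨sympTv (e i0 + e i1 + e i2) 1, Subgroup.mem_inf.mpr
        ⟨(mem_isometryGroup_iff _ _).mpr (Qf_tv hq D hD _ hw), sympTv_mem_spGL _ _⟩, ?_⟩
      · rintro ⟨⟨σ, hσ⟩, -⟩
        have h3 : ((sympTv (e i0 + e i1 + e i2) 1 : Matrix.GeneralLinearGroup (Fin t ⊕ Fin t) F) :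
            Matrix _ _ F) *ᵥ (f i0) ∈ D (σ i0) := by
          rw [← hσ i0, ← Matrix.toLin'_apply]
          exact Submodule.mem_map_of_mem (hf i0)
        rw [sympTv_mulVec, one_mul, sympForm_add_right, sympForm_add_right, hfe,
          hD.orthogonal i0 i1 h01 _ (hf i0) _ (he i1), hD.orthogonal i0 i2 h02 _ (hf i0) _ (he i2),
          add_zero, add_zero, one_smul] at h3
        -- choose l among i1, i2 different from σ i0
        have key : ∀ l, l ≠ i0 → (l = i1 ∨ l = i2) → σ i0 ≠ l → False := by
          intro l hl0 hl hσl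
          have h4 := hD.orthogonal (σ i0) l hσl _ h3 _ (hf l)
          rw [sympForm_add_left, sympForm_add_left, sympForm_add_left] at h4
          rcases hl with hl | hl
          · rw [hl] at h4
            rw [hD.orthogonal i0 i1 h01 _ (hf i0) _ (hf i1), hD.orthogonal i0 i1 h01 _ (he i0) _ (hf i1),
              hef, hD.orthogonal i2 i1 (Ne.symm h12) _ (he i2) _ (hf i1)] at h4
            simp at h4
          · rw [hl] at h4
            rw [hD.orthogonal i0 i2 h02 _ (hf i0) _ (hf i2), hD.orthogonal i0 i2 h02 _ (he i0) _ (hf i2),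
              hef, hD.orthogonal i1 i2 h12 _ (he i1) _ (hf i2)] at h4
            simp at h4
        by_cases hσ1 : σ i0 = i1
        · exact key i2 (Ne.symm h02) (Or.inr rfl) (by rw [hσ1]; exact h12)
        · exact key i1 (Ne.symm h01) (Or.inl rfl) hσ1
  · rw [SetLike.lt_iff_le_and_exists]
    refine ⟨inf_le_right, sympTv (e i0 + e i1) 1, sympTv_mem_spGL _ _, ?_⟩
    intro hK
    have hiso := (mem_isometryGroup_iff _ _).mp (Subgroup.mem_inf.mp hK).1
    have h3 := hiso (f i0)
    rw [sympTv_mulVec, one_mul, sympForm_add_right, hfe,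
      hD.orthogonal i0 i1 h01 _ (hf i0) _ (he i1), add_zero, one_smul, Qf_add hq D hD, hw',
      sympForm_add_right, hfe, hD.orthogonal i0 i1 h01 _ (hf i0) _ (he i1)] at h3
    have h5 : (1 : F) = 0 := by linear_combination h3
    exact one_ne_zero h5

end Cfsg.Agent.S5648
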