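import Cfsg.Statements.S5649
import Cfsg.Agent.Lib.Helper94.Basic
import Cfsg.Agent.Lib.Helper94.GLAux
import Cfsg.Agent.Lib.Helper94.Tv
import Cfsg.Agent.Lib.Helper94.SympAbs
import Cfsg.Agent.Lib.Helper94.SympGen
import Cfsg.Agent.Lib.Helper94.SympStd
import Cfsg.Agent.Lib.Helper94.SympBlock
import Cfsg.Agent.Lib.Helper94.SympRoot

set_option autoImplicit false
open Cfsg

namespace Cfsg.Agent.S5649

open scoped Matrix
open Cfsg.Agent.Lib.Helper94.Basic Cfsg.Agent.Lib.Helper94.GLAux Cfsg.Agent.Lib.Helper94.Tv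
  Cfsg.Agent.Lib.Helper94.SympAbs Cfsg.Agent.Lib.Helper94.SympGen Cfsg.Agent.Lib.Helper94.SympStd
  Cfsg.Agent.Lib.Helper94.SympBlock Cfsg.Agent.Lib.Helper94.SympRoot

section Main

variable {ι : Type} [Fintype ι] [DecidableEq ι] {F : Type*} [Field F]
variable {f : (ι → F) → (ι → F) → F}

/-- The pairs whose short root elements all lie in `K`. -/
def PP (hf : Cfsg.Geo.IsSymplecticForm f) (K : Subgroup (Matrix.GeneralLinearGroup ι F))
    (a b : ι → F) : Prop := ∀ c : F, ss hf a b c ∈ K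

lemma PP_symm (hf : Cfsg.Geo.IsSymplecticForm f) (K : Subgroup (Matrix.GeneralLinearGroup ι F))
    {a b : ι → F} (h : PP hf K a b) : PP hf K b a := by
  intro c
  rw [← ss_comm]
  exact h c

lemma PP_map (hf : Cfsg.Geo.IsSymplecticForm f) (K : Subgroup (Matrix.GeneralLinearGroup ι F))
    (hK : ∀ g ∈ K, ∀ x y, f ((g : Matrix ι ι F) *ᵥ x) ((g : Matrix ι ι F) *ᵥ y) = f x y)
    {g : Matrix.GeneralLinearGroup ι F} (hg : g ∈ K) {a b : ι → F} (hab : f a b = 0)
    (h : PP hf K a b) : PP hf K ((g : Matrix ι ι F) *ᵥ a) ((g : Matrix ι ι F) *ᵥ b) := by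
  intro c
  rw [← ss_conj hf g (hK g hg) a b hab c]
  exact K.mul_mem (K.mul_mem hg (h c)) (K.inv_mem hg)

/-- Two pairs with a common vector and non-orthogonal partners give transvections. -/
lemma tv_of_PP (hf : Cfsg.Geo.IsSymplecticForm f) (h2 : (2 : F) ≠ 0)
    (K : Subgroup (Matrix.GeneralLinearGroup ι F)) (a b b' : ι → F) (hab : f a b = 0)
    (hab' : f a b' = 0) (hbb : f b' b ≠ 0) (h1 : PP hf K a b) (h1' : PP hf K a b') :
    a ∈ tvSet hf K := by
  intro d
  have key := ss_mul_ss hf a b b' hab hab' (d / (2 * f b' b)) 1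
  have e : 2 * (d / (2 * f b' b)) * 1 * f b' b = d := by field_simp
  rw [e] at key
  have e2 : st hf a d = (ss hf a b (d / (2 * f b' b)) * ss hf a b' 1) *
      (ss hf a b' 1 * ss hf a b (d / (2 * f b' b)))⁻¹ := by
    rw [key]; group
  rw [e2]
  exact K.mul_mem (K.mul_mem (h1 _) (h1' _)) (K.inv_mem (K.mul_mem (h1' _) (h1 _)))

/-- If `x ∈ X` is not a transvection vector, its partners all lie in `Y`. -/
lemma PP_subset (hf : Cfsg.Geo.IsSymplecticForm f) (h2 : (2 : F) ≠ 0)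
    {X Y : Submodule F (ι → F)} (hL : LagPair f X Y)
    (K : Subgroup (Matrix.GeneralLinearGroup ι F))
    (hXY : ∀ x ∈ X, ∀ y ∈ Y, f x y = 0 → PP hf K x y)
    (x : ι → F) (hx : x ∈ X) (hxt : x ∉ tvSet hf K) (z : ι → F) (hxz : f x z = 0)
    (hz : PP hf K x z) : z ∈ Y := by
  obtain ⟨zx, hzx, zy, hzy, e⟩ := hL.sum z
  have hxzy : f x zy = 0 := by
    have h := hxz
    rw [e, hf.bilinear.add_right, hL.isoX x hx zx hzx, zero_add] at h
    exact h
  have hspan : zx ∈ Submodule.span F {x} := by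
    by_contra hn
    obtain ⟨y, hy, hxy, hzxy⟩ := hL.exists_sep hf x zx hx hzx hn
    apply hxt
    have hzy' : f z y ≠ 0 := by
      rw [e, hf.bilinear.add_left, hL.isoY zy hzy y hy, add_zero]
      exact hzxy
    exact tv_of_PP hf h2 K x y z hxy hxz hzy' (hXY x hx y hy hxy) hz
  obtain ⟨l, hl⟩ := Submodule.mem_span_singleton.mp hspan
  have hl0 : l = 0 := by
    by_contra hl0
    apply hxt
    intro d
    have key := ss_add_self hf x zy hxzy l (d / (2 * l))
    have e2 : 2 * (d / (2 * l)) * l = d := by field_simp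
    rw [e2, hl, ← e] at key
    have e3 : st hf x d = ss hf x z (d / (2 * l)) * (ss hf x zy (d / (2 * l)))⁻¹ := by
      rw [key]; group
    rw [e3]
    exact K.mul_mem (hz _) (K.inv_mem (hXY x hx zy hzy hxzy _))
  rw [e, ← hl, hl0, zero_smul, zero_add]
  exact hzy

/-- Propagation: an element of `K` mapping one non-zero vector of `X` into `X'` maps `X` into
`X'` and `Y` into `Y'`. -/
lemma good_prop (hf : Cfsg.Geo.IsSymplecticForm f) (K : Subgroup (Matrix.GeneralLinearGroup ι F))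
    (hK : ∀ g ∈ K, ∀ x y, f ((g : Matrix ι ι F) *ᵥ x) ((g : Matrix ι ι F) *ᵥ y) = f x y)
    {X Y X' Y' : Submodule F (ι → F)}
    (hXY : ∀ x ∈ X, ∀ y ∈ Y, f x y = 0 → PP hf K x y)
    (hX' : ∀ x' ∈ X', x' ≠ 0 → ∀ z, f x' z = 0 → PP hf K x' z → z ∈ Y')
    (hY' : ∀ y' ∈ Y', y' ≠ 0 → ∀ z, f y' z = 0 → PP hf K y' z → z ∈ X')
    (hE1 : ∀ x ∈ X, ∀ x' ∈ X, ∃ y ∈ Y, y ≠ 0 ∧ f x y = 0 ∧ f x' y = 0)
    (hE2 : ∀ y ∈ Y, ∃ x ∈ X, x ≠ 0 ∧ f x y = 0)
    (g : Matrix.GeneralLinearGroup ι F) (hg : g ∈ K) (x0 : ι → F) (hx0 : x0 ∈ X) (hx00 : x0 ≠ 0)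
    (hgx0 : (g : Matrix ι ι F) *ᵥ x0 ∈ X') :
    (∀ x ∈ X, (g : Matrix ι ι F) *ᵥ x ∈ X') ∧ (∀ y ∈ Y, (g : Matrix ι ι F) *ᵥ y ∈ Y') := by
  have hinj : ∀ v : ι → F, v ≠ 0 → (g : Matrix ι ι F) *ᵥ v ≠ 0 := by
    intro v hv h
    apply hv
    apply gl_mulVec_injective g
    simp only [h, Matrix.mulVec_zero]
  have step1 : ∀ x ∈ X, x ≠ 0 → (g : Matrix ι ι F) *ᵥ x ∈ X' → ∀ y ∈ Y, f x y = 0 →
      (g : Matrix ι ι F) *ᵥ y ∈ Y' := by
    intro x hx hx0 hgx y hy hxy
    exact hX' _ hgx (hinj x hx0) _ (by rw [hK g hg, hxy]) (PP_map hf K hK hg hxy (hXY x hx y hy hxy))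
  have step2 : ∀ y ∈ Y, y ≠ 0 → (g : Matrix ι ι F) *ᵥ y ∈ Y' → ∀ x ∈ X, f x y = 0 →
      (g : Matrix ι ι F) *ᵥ x ∈ X' := by
    intro y hy hy0 hgy x hx hxy
    have hyx : f y x = 0 := by rw [hf.skew, hxy, neg_zero]
    exact hY' _ hgy (hinj y hy0) _ (by rw [hK g hg, hyx])
      (PP_map hf K hK hg hyx (PP_symm hf K (hXY x hx y hy hxy)))
  have all1 : ∀ x ∈ X, (g : Matrix ι ι F) *ᵥ x ∈ X' := by
    intro x hx
    obtain ⟨y, hy, hy0, h1, h2⟩ := hE1 x0 hx0 x hx
    exact step2 y hy hy0 (step1 x0 hx0 hx00 hgx0 y hy h1) x hx h2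
  refine ⟨all1, ?_⟩
  intro y hy
  obtain ⟨x, hx, hx0, hxy⟩ := hE2 y hy
  exact step1 x hx hx0 (all1 x hx) y hy hxy

/-- The abstract maximality statement. -/
theorem max_aux (hf : Cfsg.Geo.IsSymplecticForm f) (h2 : (2 : F) ≠ 0)
    {U W : Submodule F (ι → F)} (hL : LagPair f U W)
    (hU3 : 3 ≤ Module.finrank F U) (hW3 : 3 ≤ Module.finrank F W)
    (Sp H : Subgroup (Matrix.GeneralLinearGroup ι F))
    (hSp : ∀ g : Matrix.GeneralLinearGroup ι F, g ∈ Sp ↔
      ∀ x y, f ((g : Matrix ι ι F) *ᵥ x) ((g : Matrix ι ι F) *ᵥ y) = f x y)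
    (hH : ∀ g : Matrix.GeneralLinearGroup ι F, g ∈ H ↔ g ∈ Sp ∧
      (((∀ u ∈ U, (g : Matrix ι ι F) *ᵥ u ∈ U) ∧ (∀ w ∈ W, (g : Matrix ι ι F) *ᵥ w ∈ W)) ∨
       ((∀ u ∈ U, (g : Matrix ι ι F) *ᵥ u ∈ W) ∧ (∀ w ∈ W, (g : Matrix ι ι F) *ᵥ w ∈ U)))) :
    Cfsg.Geo.IsMaximalIn Sp H := by
  have hstSp : ∀ a c, st hf a c ∈ Sp := fun a c => (hSp _).mpr (st_isom hf a c)
  have hHSp : H ≤ Sp := fun g hg => ((hH g).mp hg).1
  obtain ⟨u0, hu0, hu00, -, -⟩ := exists_ker2 hf.bilinear U hU3 0 0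
  constructor
  · rw [SetLike.lt_iff_le_and_exists]
    refine ⟨hHSp, st hf u0 1, hstSp _ _, ?_⟩
    intro hmem
    obtain ⟨-, hcase⟩ := (hH _).mp hmem
    rcases hcase with ⟨-, hWW⟩ | ⟨hUW, -⟩
    · obtain ⟨w, hw, huw⟩ := hL.exists_ne hf u0 hu0 hu00
      have h1 := hWW w hw
      rw [st_mulVec, one_mul] at h1
      have h3 : f w u0 • u0 ∈ W := by
        have := W.sub_mem h1 hw
        simpa using this
      have hwu : f w u0 ≠ 0 := by rw [hf.skew]; exact neg_ne_zero.mpr huw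
      have h4 : u0 ∈ W := by
        have := W.smul_mem (f w u0)⁻¹ h3
        rwa [smul_smul, inv_mul_cancel₀ hwu, one_smul] at this
      exact hu00 (hL.inter hf u0 hu0 h4)
    · have h1 := hUW u0 hu0
      rw [st_mulVec, hf.alternating, mul_zero, zero_smul, add_zero] at h1
      exact hu00 (hL.inter hf u0 hu0 h1)
  · intro M hHM hMS
    by_cases hMH : M ≤ H
    · left; exact le_antisymm hMH hHM
    right
    apply le_antisymm hMS
    obtain ⟨g, hgM, hgH⟩ := SetLike.not_le_iff_exists.mp hMH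
    have hMiso : ∀ g ∈ M, ∀ x y, f ((g : Matrix ι ι F) *ᵥ x) ((g : Matrix ι ι F) *ᵥ y) = f x y :=
      fun g hg => (hSp g).mp (hMS hg)
    -- short root elements of H
    have hP1 : ∀ u ∈ U, ∀ w ∈ W, f u w = 0 → PP hf M u w := by
      intro u hu w hw huw c
      apply hHM
      rw [hH]
      refine ⟨(hSp _).mpr (ss_isom hf u w c), Or.inl ⟨?_, ?_⟩⟩
      · intro x hx
        rw [ss_mulVec hf u w huw, hL.isoX x hx u hu, mul_zero, zero_smul, add_zero]
        exact U.add_mem hx (U.smul_mem _ hu)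
      · intro x hx
        rw [ss_mulVec hf u w huw, hL.isoY x hx w hw, mul_zero, zero_smul, add_zero]
        exact W.add_mem hx (W.smul_mem _ hw)
    have hP1' : ∀ w ∈ W, ∀ u ∈ U, f w u = 0 → PP hf M w u := by
      intro w hw u hu hwu
      exact PP_symm hf M (hP1 u hu w hw (by rw [hf.skew, hwu, neg_zero]))
    -- the swap
    obtain ⟨J, Jiso, JU, JW⟩ := hL.exists_swap hf
    have hJM : J ∈ M := hHM ((hH J).mpr ⟨(hSp J).mpr Jiso, Or.inr ⟨JU, JW⟩⟩)
    -- existence facts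
    have hE1 : ∀ x ∈ U, ∀ x' ∈ U, ∃ y ∈ W, y ≠ 0 ∧ f x y = 0 ∧ f x' y = 0 := by
      intro x _ x' _
      obtain ⟨y, hy, hy0, h1, h1'⟩ := exists_ker2 hf.bilinear W hW3 x x'
      exact ⟨y, hy, hy0, by rw [hf.skew, h1, neg_zero], by rw [hf.skew, h1', neg_zero]⟩
    have hE2 : ∀ y ∈ W, ∃ x ∈ U, x ≠ 0 ∧ f x y = 0 := by
      intro y _
      obtain ⟨x, hx, hx0, h1, -⟩ := exists_ker2 hf.bilinear U hU3 y y
      exact ⟨x, hx, hx0, h1⟩
    have hE1' : ∀ x ∈ W, ∀ x' ∈ W, ∃ y ∈ U, y ≠ 0 ∧ f x y = 0 ∧ f x' y = 0 := by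
      intro x _ x' _
      obtain ⟨y, hy, hy0, h1, h1'⟩ := exists_ker2 hf.bilinear U hU3 x x'
      exact ⟨y, hy, hy0, by rw [hf.skew, h1, neg_zero], by rw [hf.skew, h1', neg_zero]⟩
    have hE2' : ∀ y ∈ U, ∃ x ∈ W, x ≠ 0 ∧ f x y = 0 := by
      intro y _
      obtain ⟨x, hx, hx0, h1, -⟩ := exists_ker2 hf.bilinear W hW3 y y
      exact ⟨x, hx, hx0, h1⟩
    -- Claim 1: a transvection vector in U
    have claim1 : ∃ x0 ∈ U, x0 ≠ 0 ∧ x0 ∈ tvSet hf M := by
      by_contra hcon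
      push Not at hcon
      have hnoU : ∀ x ∈ U, x ≠ 0 → x ∉ tvSet hf M := hcon
      have hnoW : ∀ w ∈ W, w ≠ 0 → w ∉ tvSet hf M := by
        intro w hw hw0 hwt
        have h1 := tvSet_map hf M hMiso hJM hwt
        refine hnoU _ (JW w hw) ?_ h1
        intro h0
        apply hw0
        apply gl_mulVec_injective J
        simp only [h0, Matrix.mulVec_zero]
      have hXa : ∀ u ∈ U, u ≠ 0 → ∀ z, f u z = 0 → PP hf M u z → z ∈ W :=
        fun u hu hu0 z huz hz => PP_subset hf h2 hL M hP1 u hu (hnoU u hu hu0) z huz hz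
      have hXb : ∀ w ∈ W, w ≠ 0 → ∀ z, f w z = 0 → PP hf M w z → z ∈ U :=
        fun w hw hw0 z hwz hz => PP_subset hf h2 hL.symm M hP1' w hw (hnoW w hw hw0) z hwz hz
      have c1 : ∀ k ∈ M, ∀ x ∈ U, x ≠ 0 → (k : Matrix ι ι F) *ᵥ x ∈ U →
          (∀ x ∈ U, (k : Matrix ι ι F) *ᵥ x ∈ U) ∧ (∀ y ∈ W, (k : Matrix ι ι F) *ᵥ y ∈ W) :=
        fun k hk x hx hx0 hkx => good_prop hf M hMiso hP1 hXa hXb hE1 hE2 k hk x hx hx0 hkx
      have c2 : ∀ k ∈ M, ∀ x ∈ W, x ≠ 0 → (k : Matrix ι ι F) *ᵥ x ∈ U →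
          (∀ x ∈ W, (k : Matrix ι ι F) *ᵥ x ∈ U) ∧ (∀ y ∈ U, (k : Matrix ι ι F) *ᵥ y ∈ W) :=
        fun k hk x hx hx0 hkx => good_prop hf M hMiso hP1' hXa hXb hE1' hE2' k hk x hx hx0 hkx
      have hgU : ∀ u ∈ U, u ≠ 0 → (g : Matrix ι ι F) *ᵥ u ∉ U := by
        intro u hu hu0 hgu
        obtain ⟨h1, h2'⟩ := c1 g hgM u hu hu0 hgu
        exact hgH ((hH g).mpr ⟨hMS hgM, Or.inl ⟨h1, h2'⟩⟩)
      have hgW : ∀ w ∈ W, w ≠ 0 → (g : Matrix ι ι F) *ᵥ w ∉ U := by
        intro w hw hw0 hgw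
        obtain ⟨h1, h2'⟩ := c2 g hgM w hw hw0 hgw
        exact hgH ((hH g).mpr ⟨hMS hgM, Or.inr ⟨h2', h1⟩⟩)
      -- inner lemma
      have inner : ∀ w ∈ W, w ≠ 0 → f u0 w = 0 → ∃ l : F, l ≠ 0 ∧
          (g : Matrix ι ι F) *ᵥ (w - l • u0) ∈ U := by
        intro w hw hw0 huw
        have hab : f ((g : Matrix ι ι F) *ᵥ u0) ((g : Matrix ι ι F) *ᵥ w) = 0 := by
          rw [hMiso g hgM, huw]
        have hg' : ss hf ((g : Matrix ι ι F) *ᵥ u0) ((g : Matrix ι ι F) *ᵥ w) 1 ∈ M :=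
          PP_map hf M hMiso hgM huw (hP1 u0 hu0 w hw huw) 1
        have haU : (g : Matrix ι ι F) *ᵥ u0 ∉ U := hgU u0 hu0 hu00
        have hbU : (g : Matrix ι ι F) *ᵥ w ∉ U := hgW w hw hw0
        have hgoal : ∀ l : F, (g : Matrix ι ι F) *ᵥ (w - l • u0)
            = (g : Matrix ι ι F) *ᵥ w - l • (g : Matrix ι ι F) *ᵥ u0 := by
          intro l
          rw [Matrix.mulVec_sub, Matrix.mulVec_smul]
        simp only [hgoal]
        generalize (g : Matrix ι ι F) *ᵥ u0 = a at hab hg' haU ⊢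
        generalize (g : Matrix ι ι F) *ᵥ w = b at hab hg' hbU ⊢
        obtain ⟨x, hx, hx0, hxa, hxb⟩ := exists_ker2 hf.bilinear U hU3 a b
        have hfixx : ((ss hf a b 1 : Matrix.GeneralLinearGroup ι F) : Matrix ι ι F) *ᵥ x ∈ U := by
          rw [ss_mulVec hf a b hab, hxa, hxb]
          simpa using hx
        obtain ⟨hUU, -⟩ := c1 _ hg' x hx hx0 hfixx
        have hcomb : ∀ x ∈ U, f x b • a + f x a • b ∈ U := by
          intro x hx
          have h1 := hUU x hx
          rw [ss_mulVec hf a b hab, one_mul, one_mul, add_assoc] at h1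
          have := U.sub_mem h1 hx
          simpa using this
        have hex : ∃ x0 ∈ U, f x0 a ≠ 0 := by
          by_contra hc
          push Not at hc
          exact haU (hL.symm.perp_mem hf a hc)
        obtain ⟨x0, hx0U, hx0a⟩ := hex
        have hprop : ∀ x ∈ U, f x0 a * f x b = f x a * f x0 b := by
          intro x hx
          have hx' : f x0 a • x - f x a • x0 ∈ U := U.sub_mem (U.smul_mem _ hx) (U.smul_mem _ hx0U)
          have h1 := hcomb _ hx'
          have h3 : f (f x0 a • x - f x a • x0) a = 0 := by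
            rw [bil_sub_left hf.bilinear, hf.bilinear.smul_left, hf.bilinear.smul_left]; ring
          rw [h3, zero_smul, add_zero] at h1
          by_contra hne
          have h4 : f (f x0 a • x - f x a • x0) b ≠ 0 := by
            rw [bil_sub_left hf.bilinear, hf.bilinear.smul_left, hf.bilinear.smul_left]
            intro h5
            apply hne
            linear_combination h5
          apply haU
          have := U.smul_mem (f (f x0 a • x - f x a • x0) b)⁻¹ h1
          rwa [smul_smul, inv_mul_cancel₀ h4, one_smul] at this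
        refine ⟨f x0 b / f x0 a, ?_, ?_⟩
        · intro h0
          have h0' : f x0 b = 0 := by
            rcases div_eq_zero_iff.mp h0 with h | h
            · exact h
            · exact absurd h hx0a
          apply hbU
          apply hL.symm.perp_mem hf b
          intro x hx
          have h1 := hprop x hx
          rw [h0', mul_zero] at h1
          rcases mul_eq_zero.mp h1 with h | h
          · exact absurd h hx0a
          · exact h
        · apply hL.symm.perp_mem hf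
          intro x hx
          rw [bil_sub_right hf.bilinear, hf.bilinear.smul_right]
          have h1 := hprop x hx
          field_simp
          linear_combination h1
      -- two independent partners
      obtain ⟨w1, hw1, hw10, hw1u, -⟩ := exists_ker2 hf.bilinear W hW3 u0 u0
      obtain ⟨x1, hx1, hw1x1⟩ := hL.symm.exists_ne hf w1 hw1 hw10
      obtain ⟨w2, hw2, hw20, hw2u, hw2x1⟩ := exists_ker2 hf.bilinear W hW3 u0 x1
      have huw1 : f u0 w1 = 0 := by rw [hf.skew, hw1u, neg_zero]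
      have huw2 : f u0 w2 = 0 := by rw [hf.skew, hw2u, neg_zero]
      obtain ⟨l1, hl1, hm1⟩ := inner w1 hw1 hw10 huw1
      obtain ⟨l2, hl2, hm2⟩ := inner w2 hw2 hw20 huw2
      have hm3 : (g : Matrix ι ι F) *ᵥ (l2 • w1 - l1 • w2) ∈ U := by
        have h1 := U.sub_mem (U.smul_mem l2 hm1) (U.smul_mem l1 hm2)
        rw [← Matrix.mulVec_smul, ← Matrix.mulVec_smul, ← Matrix.mulVec_sub] at h1
        have e : l2 • (w1 - l1 • u0) - l1 • (w2 - l2 • u0) = l2 • w1 - l1 • w2 := by module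
        rwa [e] at h1
      have hz : l2 • w1 - l1 • w2 = 0 := by
        by_contra hne
        exact hgW _ (W.sub_mem (W.smul_mem _ hw1) (W.smul_mem _ hw2)) hne hm3
      have h5 : f (l2 • w1 - l1 • w2) x1 = 0 := by rw [hz, bil_zero_left hf.bilinear]
      rw [bil_sub_left hf.bilinear, hf.bilinear.smul_left, hf.bilinear.smul_left, hw2x1, mul_zero,
        sub_zero] at h5
      rcases mul_eq_zero.mp h5 with h | h
      · exact hl2 h
      · exact hw1x1 h
    -- Claim 2: every vector is a transvection vector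
    obtain ⟨x0, hx0U, hx00, hx0t⟩ := claim1
    have hUt : ∀ u ∈ U, u ∈ tvSet hf M := by
      intro u hu
      by_cases hsp : u ∈ Submodule.span F {x0}
      · obtain ⟨l, rfl⟩ := Submodule.mem_span_singleton.mp hsp
        exact tvSet_smul hf M hx0t l
      · have hn : x0 ∉ Submodule.span F {u - x0} := by
          intro hmem
          obtain ⟨l, hl⟩ := Submodule.mem_span_singleton.mp hmem
          by_cases hl0 : l = 0
          · rw [hl0, zero_smul] at hl
            exact hx00 hl.symm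
          · apply hsp
            rw [Submodule.mem_span_singleton]
            refine ⟨1 + l⁻¹, ?_⟩
            have h6 : u - x0 = l⁻¹ • x0 := by
              conv_rhs => rw [← hl]
              rw [smul_smul, inv_mul_cancel₀ hl0, one_smul]
            have h7 : u = x0 + l⁻¹ • x0 := by rw [← h6]; abel
            conv_rhs => rw [h7]
            module
        obtain ⟨y, hy, huy, hxy⟩ := hL.exists_sep hf (u - x0) x0 (U.sub_mem hu hx0U) hx0U hn
        have hk := hP1 (u - x0) (U.sub_mem hu hx0U) y hy huy (f x0 y)⁻¹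
        have h1 := tvSet_map hf M hMiso hk hx0t
        rw [ss_mulVec hf _ _ huy, inv_mul_cancel₀ hxy, hL.isoX x0 hx0U _ (U.sub_mem hu hx0U),
          mul_zero, zero_smul, add_zero, one_smul] at h1
        have e : x0 + (u - x0) = u := by abel
        rwa [e] at h1
    have hWt : ∀ w ∈ W, w ∈ tvSet hf M := by
      intro w hw
      have h1 := tvSet_map hf M hMiso (M.inv_mem hJM) (hUt _ (JW w hw))
      rwa [gl_inv_mulVec] at h1
    have hall : ∀ v, v ∈ tvSet hf M := by
      intro v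
      obtain ⟨u, hu, w, hw, rfl⟩ := hL.sum v
      by_cases huw : f u w = 0
      · by_cases hw0 : w = 0
        · rw [hw0, add_zero]; exact hUt u hu
        · obtain ⟨u'', hu'', hwu''⟩ := hL.symm.exists_ne hf w hw hw0
          have h1 : f (u + u'') w ≠ 0 := by
            rw [hf.bilinear.add_left, huw, zero_add, hf.skew]
            exact neg_ne_zero.mpr hwu''
          have h3 := tvSet_hyp hf M hMiso (hUt _ (U.add_mem hu hu'')) (hWt w hw) h1 1
          have h4 : f (u + u'' + (1 : F) • w) u'' ≠ 0 := by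
            rw [hf.bilinear.add_left, hL.isoX _ (U.add_mem hu hu'') _ hu'', zero_add,
              hf.bilinear.smul_left, one_mul]
            exact hwu''
          have h5 := tvSet_hyp hf M hMiso h3 (hUt _ hu'') h4 (-1)
          have e : u + u'' + (1 : F) • w + (-1 : F) • u'' = u + w := by module
          rwa [e] at h5
      · have h3 := tvSet_hyp hf M hMiso (hUt u hu) (hWt w hw) huw 1
        rwa [one_smul] at h3
    intro k hk
    exact mem_of_tvSet_univ hf M hall k ((hSp k).mp hk)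

end Main

/-- For a finite field F of odd order and m ≥ 7, let D be a decomposition of F^(2m) into two complementary subspaces of dimension m on each of which the standard alternating form vanishes identically. Then the elements of Sp_2m(F) preserving or interchanging the two subspaces form a maximal subgroup of Sp_2m(F). -/
theorem result {F : Type*} [Field F] [Fintype F] (m : ℕ) (hm : 7 ≤ m) (hodd : Odd (Fintype.card F)) (D : Fin 2 → Submodule F (Fin m ⊕ Fin m → F)) (hD : Cfsg.Geo.IsMDecomposition m D) (hts : ∀ i, Cfsg.Geo.IsTotallySingularFor (Cfsg.sympForm m F) (D i)) : Cfsg.Geo.IsMaximalIn (Cfsg.spGL m F) (Cfsg.Geo.decompositionStabilizer D ⊓ Cfsg.spGL m F) := by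
  classical
  have hf := sympForm_isSymplectic (F := F) (m := m)
  have h2F : (2 : F) ≠ 0 := by
    intro h2
    have hch : CharP F 2 := by
      refine (CharP.charP_iff_prime_eq_zero Nat.prime_two).mpr ?_
      exact_mod_cast h2
    have h3 := FiniteField.even_card_of_char_two (F := F) (ringChar.eq F 2)
    rcases hodd with ⟨k, hk⟩
    omega
  have hL : LagPair (Cfsg.sympForm m F) (D 0) (D 1) := by
    refine ⟨hts 0, hts 1, ?_⟩
    intro v
    have htop : (⊤ : Submodule F (Fin m ⊕ Fin m → F)) ≤ D 0 ⊔ D 1 := by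
      rw [← hD.iSup_eq_top]
      apply iSup_le
      exact Fin.forall_fin_two.mpr ⟨le_sup_left, le_sup_right⟩
    obtain ⟨x, hx, y, hy, e⟩ := Submodule.mem_sup.mp (htop (Submodule.mem_top : v ∈ ⊤))
    exact ⟨x, hx, y, hy, e.symm⟩
  have hU := hD.finrank_eq 0
  have hW := hD.finrank_eq 1
  apply max_aux hf h2F hL (by omega) (by omega) (Cfsg.spGL m F) _ (fun g => mem_spGL_iff g)
  intro g
  rw [Subgroup.mem_inf, mem_decompositionStabilizer_iff]
  constructor
  · rintro ⟨⟨σ, hσ⟩, hg⟩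
    refine ⟨hg, ?_⟩
    have hmem : ∀ i, ∀ x ∈ D i, (g : Matrix _ _ F) *ᵥ x ∈ D (σ i) := by
      intro i x hx
      rw [← hσ i, ← Matrix.toLin'_apply]
      exact Submodule.mem_map_of_mem hx
    by_cases h0 : σ 0 = 0
    · left
      have h1 : σ 1 = 1 := by
        apply Fin.eq_one_of_ne_zero
        intro h
        have := σ.injective (h.trans h0.symm)
        simp at this
      refine ⟨fun u hu => ?_, fun w hw => ?_⟩
      · have := hmem 0 u hu
        rwa [h0] at this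
      · have := hmem 1 w hw
        rwa [h1] at this
    · right
      have h0' : σ 0 = 1 := Fin.eq_one_of_ne_zero _ h0
      have h1 : σ 1 = 0 := by
        by_contra hne
        have h1' : σ 1 = 1 := Fin.eq_one_of_ne_zero _ hne
        have := σ.injective (h0'.trans h1'.symm)
        simp at this
      refine ⟨fun u hu => ?_, fun w hw => ?_⟩
      · have := hmem 0 u hu
        rwa [h0'] at this
      · have := hmem 1 w hw
        rwa [h1] at this
  · rintro ⟨hg, hcase⟩
    refine ⟨?_, hg⟩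
    rcases hcase with ⟨hUU, hWW⟩ | ⟨hUW, hWU⟩
    · refine ⟨1, Fin.forall_fin_two.mpr ⟨?_, ?_⟩⟩
      · exact map_eq_of_forall_mem g _ _ hUU le_rfl
      · exact map_eq_of_forall_mem g _ _ hWW le_rfl
    · refine ⟨Equiv.swap 0 1, Fin.forall_fin_two.mpr ⟨?_, ?_⟩⟩
      · rw [Equiv.swap_apply_left]
        exact map_eq_of_forall_mem g _ _ hUW (by rw [hU, hW])
      · rw [Equiv.swap_apply_right]
        exact map_eq_of_forall_mem g _ _ hWU (by rw [hU, hW])

end Cfsg.Agent.S5649
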