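import Cfsg.Statements.S5650
import Cfsg.Agent.Lib.Helper94.SfSp4
import Cfsg.Agent.Lib.Helper94.SubfieldConj
import Cfsg.Agent.Lib.Helper94.SympStd

set_option autoImplicit false
open Cfsg

namespace Cfsg.Agent.S5650

open scoped Matrix
open Cfsg.Agent.Lib.Helper94.Basic Cfsg.Agent.Lib.Helper94.GLAux
  Cfsg.Agent.Lib.Helper94.SubfieldRat Cfsg.Agent.Lib.Helper94.SubfieldConj
  Cfsg.Agent.Lib.Helper94.SympStd Cfsg.Agent.Lib.Helper94.SfSp1
  Cfsg.Agent.Lib.Helper94.SfSp4

/-- Pulling back a symplectic form along an invertible matrix and scaling it. -/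
theorem pull_symp {ι : Type} [Fintype ι] [DecidableEq ι] {F : Type*} [Field F]
    {f : (ι → F) → (ι → F) → F} (hf : Cfsg.Geo.IsSymplecticForm f)
    (P : Matrix.GeneralLinearGroup ι F) (ζ : F) (hζ : ζ ≠ 0) :
    Cfsg.Geo.IsSymplecticForm
      (fun u v => ζ * f ((P : Matrix ι ι F) *ᵥ u) ((P : Matrix ι ι F) *ᵥ v)) where
  bilinear :=
    { add_left := fun x y v => by
        simp only [Matrix.mulVec_add, hf.bilinear.add_left]
        ring
      smul_left := fun c x v => by
        simp only [Matrix.mulVec_smul, hf.bilinear.smul_left]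
        ring
      add_right := fun v x y => by
        simp only [Matrix.mulVec_add, hf.bilinear.add_right]
        ring
      smul_right := fun c v x => by
        simp only [Matrix.mulVec_smul, hf.bilinear.smul_right]
        ring }
  skew := fun v w => by
    show ζ * f _ _ = -(ζ * f _ _)
    rw [hf.skew]
    ring
  alternating := fun v => by
    show ζ * f _ _ = 0
    rw [hf.alternating, mul_zero]
  nondegenerate := by
    intro v hv
    have hPv : (P : Matrix ι ι F) *ᵥ v ≠ 0 := by
      intro h0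
      apply hv
      apply gl_mulVec_injective P
      show (P : Matrix ι ι F) *ᵥ v = (P : Matrix ι ι F) *ᵥ 0
      rw [h0, Matrix.mulVec_zero]
    obtain ⟨⟨x, hx⟩, ⟨y, hy⟩⟩ := hf.nondegenerate _ hPv
    refine ⟨⟨((P⁻¹ : Matrix.GeneralLinearGroup ι F) : Matrix ι ι F) *ᵥ x, ?_⟩,
      ⟨((P⁻¹ : Matrix.GeneralLinearGroup ι F) : Matrix ι ι F) *ᵥ y, ?_⟩⟩
    · show ζ * f _ _ ≠ 0
      rw [gl_mulVec_inv]
      exact mul_ne_zero hζ hx
    · show ζ * f _ _ ≠ 0
      rw [gl_mulVec_inv]
      exact mul_ne_zero hζ hy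

/-- For a finite field F, a subfield F₀ with |F| = |F₀| ^ r for a prime r, and m ≥ 7, let P be an invertible matrix and ζ a non-zero scalar such that ζ times the standard alternating form takes values in F₀ on the F₀-span of the columns of P. Then the elements of Sp_2m(F) lying in the subfield group of P (the conjugate by P of the product of GL_2m(F₀) with the scalars) form a maximal subgroup of Sp_2m(F). -/
theorem result {F : Type*} [Field F] [Fintype F] (m : ℕ) (hm : 7 ≤ m) (F₀ : Subfield F) (r : ℕ) (hr : r.Prime) (hcard : Fintype.card F = Nat.card F₀ ^ r) (P : Matrix.GeneralLinearGroup (Fin m ⊕ Fin m) F) (ζ : F) (hζ : ζ ≠ 0) (hP : Cfsg.Geo.IsFormRationalStructure (Cfsg.sympForm m F) F₀ ζ P) : Cfsg.Geo.IsMaximalIn (Cfsg.spGL m F) (Cfsg.Geo.subfieldSubgroup F₀ P ⊓ Cfsg.spGL m F) := by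
  have hS := sympForm_isSymplectic (F := F) (m := m)
  have hf' := pull_symp hS P ζ hζ
  have hR : RatS (fun u v => ζ * Cfsg.sympForm m F
      ((P : Matrix (Fin m ⊕ Fin m) (Fin m ⊕ Fin m) F) *ᵥ u)
      ((P : Matrix (Fin m ⊕ Fin m) (Fin m ⊕ Fin m) F) *ᵥ v)) F₀ :=
    fun u v => hP (up F₀ u) (up F₀ v) (fun i => (u i).2) (fun i => (v i).2)
  apply subfield_reduce F₀ P _ ((Cfsg.spGL m F).comap (MulAut.conj P).toMonoidHom)
  · intro g
    rfl
  · apply maximal hf' hR r hr hcard
      (by rw [Fintype.card_sum, Fintype.card_fin]; omega)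
    intro g
    have e : g ∈ (Cfsg.spGL m F).comap (MulAut.conj P).toMonoidHom ↔
        P * g * P⁻¹ ∈ Cfsg.spGL m F := Iff.rfl
    rw [e, mem_spGL_iff, conj_isom_iff]
    constructor
    · intro h x y
      show ζ * _ = ζ * _
      rw [h x y]
    · intro h x y
      exact mul_left_cancel₀ hζ (h x y)

end Cfsg.Agent.S5650
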