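import Cfsg.Statements.S5652
import Cfsg.Agent.Lib.Helper94.Basic
import Cfsg.Agent.Lib.Helper94.GLAux
import Cfsg.Agent.Lib.Helper94.Tv
import Cfsg.Agent.Lib.Helper94.SympAbs
import Cfsg.Agent.Lib.Helper94.SympGen
import Cfsg.Agent.Lib.Helper94.SympStd

set_option autoImplicit false
open Cfsg

namespace Cfsg.Agent.S5652

open scoped Matrix
open Cfsg.Agent.Lib.Helper94.Basic Cfsg.Agent.Lib.Helper94.GLAux Cfsg.Agent.Lib.Helper94.Tv
  Cfsg.Agent.Lib.Helper94.SympAbs Cfsg.Agent.Lib.Helper94.SympGen Cfsg.Agent.Lib.Helper94.SympStd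

section Aux

variable {F : Type*} [Field F] {m : ℕ} [CharP F 2]
variable {Q : (Fin m ⊕ Fin m → F) → F}

lemma f_symm (u v : Fin m ⊕ Fin m → F) : Cfsg.sympForm m F u v = Cfsg.sympForm m F v u := by
  rw [sympForm_skew, CharTwo.neg_eq]

lemma vec_add_self (s : Fin m ⊕ Fin m → F) : s + s = 0 := by
  funext i
  exact CharTwo.add_self_eq_zero _

lemma Q_add (hpol : ∀ u v, QuadraticMap.polar Q u v = Cfsg.sympForm m F u v)
    (u v : Fin m ⊕ Fin m → F) : Q (u + v) = Q u + Q v + Cfsg.sympForm m F u v := by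
  rw [← hpol u v]
  unfold QuadraticMap.polar
  ring

lemma Q_zero (hsm : ∀ (c : F) (v : Fin m ⊕ Fin m → F), Q (c • v) = c ^ 2 * Q v) : Q 0 = 0 := by
  have h := hsm 0 0
  simpa using h

lemma Q_tv (hpol : ∀ u v, QuadraticMap.polar Q u v = Cfsg.sympForm m F u v)
    (hsm : ∀ (c : F) (v : Fin m ⊕ Fin m → F), Q (c • v) = c ^ 2 * Q v)
    (a : Fin m ⊕ Fin m → F) (c : F) (x : Fin m ⊕ Fin m → F) :
    Q (((sympTv a c : Matrix.GeneralLinearGroup (Fin m ⊕ Fin m) F) : Matrix _ _ F) *ᵥ x)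
      = Q x + c * Cfsg.sympForm m F x a ^ 2 * (c * Q a + 1) := by
  rw [sympTv_mulVec, Q_add hpol, hsm, sympForm_smul_right]
  ring

lemma tv_mem_H (hpol : ∀ u v, QuadraticMap.polar Q u v = Cfsg.sympForm m F u v)
    (hsm : ∀ (c : F) (v : Fin m ⊕ Fin m → F), Q (c • v) = c ^ 2 * Q v)
    (a : Fin m ⊕ Fin m → F) (ha : Q a ≠ 0) :
    sympTv a (Q a)⁻¹ ∈ Cfsg.Geo.quadSimilarityGroup Q ⊓ Cfsg.spGL m F := by
  refine ⟨⟨1, fun v => ?_⟩, sympTv_mem_spGL a _⟩
  rw [Q_tv hpol hsm, inv_mul_cancel₀ ha, Units.val_one, one_mul]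
  have h2 : (1 : F) + 1 = 0 := CharTwo.add_self_eq_zero 1
  rw [h2, mul_zero, add_zero]

end Aux

section Main

variable {F : Type*} [Field F] {m : ℕ} [CharP F 2]
variable {Q : (Fin m ⊕ Fin m → F) → F}

/-- A vector orthogonal to two given ones with prescribed value of `Q`. -/
lemma exists_perp_val (hpol : ∀ u v, QuadraticMap.polar Q u v = Cfsg.sympForm m F u v)
    (hsm : ∀ (c : F) (v : Fin m ⊕ Fin m → F), Q (c • v) = c ^ 2 * Q v)
    (hsq : ∀ a : F, IsSquare a) (hm5 : 5 ≤ Fintype.card (Fin m ⊕ Fin m))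
    (u1 u2 : Fin m ⊕ Fin m → F) (τ : F) :
    ∃ y, Cfsg.sympForm m F y u1 = 0 ∧ Cfsg.sympForm m F y u2 = 0 ∧ Q y = τ := by
  obtain ⟨y1, y2, h11, h12, h21, h22, hne⟩ :=
    exists_hyp_perp2 (sympForm_isSymplectic (F := F) (m := m)) hm5 u1 u2
  by_cases hq1 : Q y1 = 0
  · by_cases hq2 : Q y2 = 0
    · refine ⟨y1 + (τ / Cfsg.sympForm m F y1 y2) • y2, ?_, ?_, ?_⟩
      · rw [sympForm_add_left, sympForm_smul_left, h11, h21]; ring
      · rw [sympForm_add_left, sympForm_smul_left, h12, h22]; ring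
      · rw [Q_add hpol, hsm, hq1, hq2, sympForm_smul_right]
        field_simp
        ring
    · obtain ⟨r, hr⟩ := hsq (τ / Q y2)
      refine ⟨r • y2, ?_, ?_, ?_⟩
      · rw [sympForm_smul_left, h21, mul_zero]
      · rw [sympForm_smul_left, h22, mul_zero]
      · rw [hsm, pow_two, ← hr]
        field_simp
  · obtain ⟨r, hr⟩ := hsq (τ / Q y1)
    refine ⟨r • y1, ?_, ?_, ?_⟩
    · rw [sympForm_smul_left, h11, mul_zero]
    · rw [sympForm_smul_left, h12, mul_zero]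
    · rw [hsm, pow_two, ← hr]
      field_simp

/-- A singular vector not orthogonal to a given nonzero vector. -/
lemma exists_sing_ne (hpol : ∀ u v, QuadraticMap.polar Q u v = Cfsg.sympForm m F u v)
    (hsm : ∀ (c : F) (v : Fin m ⊕ Fin m → F), Q (c • v) = c ^ 2 * Q v)
    (hsq : ∀ a : F, IsSquare a) (hm5 : 5 ≤ Fintype.card (Fin m ⊕ Fin m))
    (a : Fin m ⊕ Fin m → F) (ha : a ≠ 0) :
    ∃ s, Q s = 0 ∧ Cfsg.sympForm m F s a ≠ 0 := by
  obtain ⟨z, hz⟩ := ((sympForm_isSymplectic (F := F) (m := m)).nondegenerate a ha).1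
  obtain ⟨y, hy1, hy2, hy3⟩ := exists_perp_val hpol hsm hsq hm5 z a (Q z)
  refine ⟨z + y, ?_, ?_⟩
  · rw [Q_add hpol, hy3, f_symm, hy1, add_zero]
    exact CharTwo.add_self_eq_zero _
  · rw [sympForm_add_left, hy2, add_zero]
    exact hz

/-- Step 1: a nonsingular vector whose `Q`-value is changed. -/
lemma exists_bad (hpol : ∀ u v, QuadraticMap.polar Q u v = Cfsg.sympForm m F u v)
    (hsm : ∀ (c : F) (v : Fin m ⊕ Fin m → F), Q (c • v) = c ^ 2 * Q v)
    (hsq : ∀ a : F, IsSquare a) (hm5 : 5 ≤ Fintype.card (Fin m ⊕ Fin m))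
    (g : Matrix.GeneralLinearGroup (Fin m ⊕ Fin m) F) (hg : g ∈ Cfsg.spGL m F)
    (v : Fin m ⊕ Fin m → F) (hv : Q ((g : Matrix _ _ F) *ᵥ v) ≠ Q v) :
    ∃ a, Q a ≠ 0 ∧ Q ((g : Matrix _ _ F) *ᵥ a) ≠ Q a := by
  rw [mem_spGL_iff] at hg
  by_cases hv0 : Q v = 0
  · obtain ⟨y, hy1, -, hy3⟩ := exists_perp_val hpol hsm hsq hm5 v v 1
    by_cases hy : Q ((g : Matrix _ _ F) *ᵥ y) = Q y
    · refine ⟨y + v, ?_, ?_⟩
      · rw [Q_add hpol, hy3, hv0, hy1]; simp
      · rw [Matrix.mulVec_add, Q_add hpol, Q_add hpol, hg, hy, hv0, hy1, hy3]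
        intro h
        apply hv
        rw [hv0]
        have h2 : (1 : F) + Q ((g : Matrix _ _ F) *ᵥ v) + 0 = 1 + 0 + 0 := h
        have h3 : Q ((g : Matrix _ _ F) *ᵥ v) = 0 := by
          have h4 : (1 : F) + Q ((g : Matrix _ _ F) *ᵥ v) = 1 + 0 := by
            simpa using h2
          exact add_left_cancel h4
        exact h3
    · exact ⟨y, by rw [hy3]; exact one_ne_zero, hy⟩
  · exact ⟨v, hv0, hv⟩

/-- The group of `Q`-isometries in `Sp` maps a singular vector to a non-orthogonal singular one. -/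
lemma H_trans1 (hpol : ∀ u v, QuadraticMap.polar Q u v = Cfsg.sympForm m F u v)
    (hsm : ∀ (c : F) (v : Fin m ⊕ Fin m → F), Q (c • v) = c ^ 2 * Q v)
    (s s' : Fin m ⊕ Fin m → F) (hs : Q s = 0) (hs' : Q s' = 0)
    (hne : Cfsg.sympForm m F s s' ≠ 0) :
    ∃ h : Matrix.GeneralLinearGroup (Fin m ⊕ Fin m) F,
      h ∈ Cfsg.Geo.quadSimilarityGroup Q ⊓ Cfsg.spGL m F ∧ (h : Matrix _ _ F) *ᵥ s = s' := by
  have hq : Q (s + s') = Cfsg.sympForm m F s s' := by
    rw [Q_add hpol, hs, hs']; ring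
  have hq0 : Q (s + s') ≠ 0 := by rw [hq]; exact hne
  refine ⟨sympTv (s + s') (Q (s + s'))⁻¹, tv_mem_H hpol hsm _ hq0, ?_⟩
  rw [sympTv_mulVec, hq, sympForm_add_right, sympForm_self, zero_add, inv_mul_cancel₀ hne, one_smul,
    ← add_assoc, vec_add_self, zero_add]

lemma H_trans (hpol : ∀ u v, QuadraticMap.polar Q u v = Cfsg.sympForm m F u v)
    (hsm : ∀ (c : F) (v : Fin m ⊕ Fin m → F), Q (c • v) = c ^ 2 * Q v)
    (s s' : Fin m ⊕ Fin m → F) (hs : Q s = 0) (hs' : Q s' = 0) (hs0 : s ≠ 0) (hs0' : s' ≠ 0) :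
    ∃ h : Matrix.GeneralLinearGroup (Fin m ⊕ Fin m) F,
      h ∈ Cfsg.Geo.quadSimilarityGroup Q ⊓ Cfsg.spGL m F ∧ (h : Matrix _ _ F) *ᵥ s = s' := by
  by_cases hne : Cfsg.sympForm m F s s' = 0
  · obtain ⟨z, hz1, hz2⟩ := exists_both_ne (sympForm_isSymplectic (F := F) (m := m)) s s' hs0 hs0'
    have hq : Q (z + (Q z / Cfsg.sympForm m F z s) • s) = 0 := by
      rw [Q_add hpol, hsm, hs, sympForm_smul_right, mul_zero, add_zero, div_mul_cancel₀ _ hz1]
      exact CharTwo.add_self_eq_zero _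
    have h1 : Cfsg.sympForm m F s (z + (Q z / Cfsg.sympForm m F z s) • s) ≠ 0 := by
      rw [sympForm_add_right, sympForm_smul_right, sympForm_self, mul_zero, add_zero, f_symm]
      exact hz1
    have h2 : Cfsg.sympForm m F (z + (Q z / Cfsg.sympForm m F z s) • s) s' ≠ 0 := by
      rw [sympForm_add_left, sympForm_smul_left, hne, mul_zero, add_zero]
      exact hz2
    obtain ⟨k1, hk1, hk1'⟩ := H_trans1 hpol hsm _ _ hs hq h1
    obtain ⟨k2, hk2, hk2'⟩ := H_trans1 hpol hsm _ _ hq hs' h2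
    refine ⟨k2 * k1, Subgroup.mul_mem _ hk2 hk1, ?_⟩
    rw [Units.val_mul, ← Matrix.mulVec_mulVec, hk1', hk2']
  · exact H_trans1 hpol hsm s s' hs hs' hne

/-- Step 2: a transvection along a singular vector. -/
lemma exists_sing_tv (hpol : ∀ u v, QuadraticMap.polar Q u v = Cfsg.sympForm m F u v)
    (hsm : ∀ (c : F) (v : Fin m ⊕ Fin m → F), Q (c • v) = c ^ 2 * Q v)
    (hsq : ∀ a : F, IsSquare a) (hm5 : 5 ≤ Fintype.card (Fin m ⊕ Fin m))
    (M : Subgroup (Matrix.GeneralLinearGroup (Fin m ⊕ Fin m) F))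
    (hHM : Cfsg.Geo.quadSimilarityGroup Q ⊓ Cfsg.spGL m F ≤ M)
    (b : Fin m ⊕ Fin m → F) (c : F) (hb : b ≠ 0) (hc : c ≠ 0) (hcb : c * Q b ≠ 1)
    (hM : sympTv b c ∈ M) :
    ∃ (s : Fin m ⊕ Fin m → F) (d : F), s ≠ 0 ∧ Q s = 0 ∧ d ≠ 0 ∧ sympTv s d ∈ M := by
  by_cases hqb : Q b = 0
  · exact ⟨b, c, hb, hqb, hc, hM⟩
  · have hμ : c * (c * Q b + 1) ≠ 0 := by
      apply mul_ne_zero hc
      intro h
      apply hcb
      have h2 : c * Q b + 1 + 1 = 0 + 1 := by rw [h]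
      rw [add_assoc, CharTwo.add_self_eq_zero, add_zero, zero_add] at h2
      exact h2
    obtain ⟨x1, hx1⟩ := ((sympForm_isSymplectic (F := F) (m := m)).nondegenerate b hb).1
    set x0 := (Cfsg.sympForm m F x1 b)⁻¹ • x1 with hx0def
    have hx0 : Cfsg.sympForm m F x0 b = 1 := by
      rw [hx0def, sympForm_smul_left, inv_mul_cancel₀ hx1]
    obtain ⟨y, hy1, hy2, hy3⟩ := exists_perp_val hpol hsm hsq hm5 x0 b (c * (c * Q b + 1) + Q x0)
    have hxb : Cfsg.sympForm m F (x0 + y) b = 1 := by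
      rw [sympForm_add_left, hx0, hy2, add_zero]
    have hqx : Q (x0 + y) = c * (c * Q b + 1) := by
      rw [Q_add hpol, hy3, f_symm, hy1, add_zero, add_comm (c * (c * Q b + 1)), ← add_assoc,
        CharTwo.add_self_eq_zero, zero_add]
    have hqx0 : Q (x0 + y) ≠ 0 := by rw [hqx]; exact hμ
    refine ⟨((sympTv b c : Matrix.GeneralLinearGroup (Fin m ⊕ Fin m) F) : Matrix _ _ F) *ᵥ (x0 + y),
      (Q (x0 + y))⁻¹, ?_, ?_, inv_ne_zero hqx0, ?_⟩
    · intro h0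
      have h1 : Cfsg.sympForm m F
          (((sympTv b c : Matrix.GeneralLinearGroup (Fin m ⊕ Fin m) F) : Matrix _ _ F) *ᵥ (x0 + y)) b
          = 1 := by
        rw [sympTv_mulVec, sympForm_add_left, sympForm_smul_left, sympForm_self, hxb]; ring
      rw [h0, sympForm_zero_left] at h1
      exact zero_ne_one h1
    · rw [Q_tv hpol hsm, hxb, hqx]
      have : c * (c * Q b + 1) + c * 1 ^ 2 * (c * Q b + 1) = (c * (c * Q b + 1)) + (c * (c * Q b + 1)) := by
        ring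
      rw [this]
      exact CharTwo.add_self_eq_zero _
    · rw [← sympTv_conj _ (sympTv_mem_spGL b c)]
      exact M.mul_mem (M.mul_mem hM (hHM (tv_mem_H hpol hsm _ hqx0))) (M.inv_mem hM)

lemma sympTv_c0 (a : Fin m ⊕ Fin m → F) : sympTv a (0 : F) = 1 := by
  apply gl_ext
  intro x
  rw [sympTv_mulVec]
  simp

/-- Step 3: all transvections along singular vectors. -/
lemma all_sing (hpol : ∀ u v, QuadraticMap.polar Q u v = Cfsg.sympForm m F u v)
    (hsm : ∀ (c : F) (v : Fin m ⊕ Fin m → F), Q (c • v) = c ^ 2 * Q v)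
    (hsq : ∀ a : F, IsSquare a)
    (M : Subgroup (Matrix.GeneralLinearGroup (Fin m ⊕ Fin m) F))
    (hHM : Cfsg.Geo.quadSimilarityGroup Q ⊓ Cfsg.spGL m F ≤ M)
    (s : Fin m ⊕ Fin m → F) (d : F) (hs0 : s ≠ 0) (hs : Q s = 0) (hd : d ≠ 0)
    (hM : sympTv s d ∈ M) (s' : Fin m ⊕ Fin m → F) (hs' : Q s' = 0) (e : F) :
    sympTv s' e ∈ M := by
  by_cases hs0' : s' = 0
  · rw [hs0', sympTv_zero]; exact M.one_mem
  by_cases he : e = 0
  · rw [he, sympTv_c0]; exact M.one_mem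
  obtain ⟨l, hl⟩ := hsq (e / d)
  have hl0 : l ≠ 0 := by
    intro h0
    rw [h0, mul_zero] at hl
    exact (div_ne_zero he hd) hl
  have hls : Q (l • s') = 0 := by rw [hsm, hs', mul_zero]
  have hls0 : l • s' ≠ 0 := smul_ne_zero hl0 hs0'
  obtain ⟨h, hh, hhs⟩ := H_trans hpol hsm s (l • s') hs hls hs0 hls0
  have h1 : sympTv s' e = h * sympTv s d * h⁻¹ := by
    rw [sympTv_conj h hh.2, hhs, sympTv_smul, pow_two, ← hl, div_mul_cancel₀ _ hd]
  rw [h1]
  exact M.mul_mem (M.mul_mem (hHM hh) hM) (M.inv_mem (hHM hh))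

/-- Step 4: all transvections. -/
lemma all_tv (hpol : ∀ u v, QuadraticMap.polar Q u v = Cfsg.sympForm m F u v)
    (hsm : ∀ (c : F) (v : Fin m ⊕ Fin m → F), Q (c • v) = c ^ 2 * Q v)
    (hsq : ∀ a : F, IsSquare a) (hm5 : 5 ≤ Fintype.card (Fin m ⊕ Fin m))
    (M : Subgroup (Matrix.GeneralLinearGroup (Fin m ⊕ Fin m) F))
    (hM : ∀ (s : Fin m ⊕ Fin m → F), Q s = 0 → ∀ e : F, sympTv s e ∈ M)
    (a : Fin m ⊕ Fin m → F) (c : F) : sympTv a c ∈ M := by
  by_cases hqa : Q a = 0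
  · exact hM a hqa c
  have ha0 : a ≠ 0 := by
    intro h0
    rw [h0] at hqa
    exact hqa (Q_zero hsm)
  obtain ⟨s, hs, hsa⟩ := exists_sing_ne hpol hsm hsq hm5 a ha0
  have hq' : Q (a + (Q a / Cfsg.sympForm m F a s) • s) = 0 := by
    have hsa' : Cfsg.sympForm m F a s ≠ 0 := by rw [f_symm]; exact hsa
    rw [Q_add hpol, hsm, hs, sympForm_smul_right, mul_zero, add_zero, div_mul_cancel₀ _ hsa']
    exact CharTwo.add_self_eq_zero _
  have hsa' : Cfsg.sympForm m F a s ≠ 0 := by rw [f_symm]; exact hsa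
  have hmap : ((sympTv s (Q a / Cfsg.sympForm m F a s / Cfsg.sympForm m F a s) :
      Matrix.GeneralLinearGroup (Fin m ⊕ Fin m) F) : Matrix _ _ F) *ᵥ
      (a + (Q a / Cfsg.sympForm m F a s) • s) = a := by
    rw [sympTv_mulVec, sympForm_add_left, sympForm_smul_left, sympForm_self, mul_zero, add_zero,
      div_mul_cancel₀ _ hsa', add_assoc, ← add_smul, CharTwo.add_self_eq_zero, zero_smul, add_zero]
  have h1 : sympTv a c = sympTv s (Q a / Cfsg.sympForm m F a s / Cfsg.sympForm m F a s) *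
      sympTv (a + (Q a / Cfsg.sympForm m F a s) • s) c *
      (sympTv s (Q a / Cfsg.sympForm m F a s / Cfsg.sympForm m F a s))⁻¹ := by
    rw [sympTv_conj _ (sympTv_mem_spGL _ _), hmap]
  rw [h1]
  exact M.mul_mem (M.mul_mem (hM s hs _) (hM _ hq' c)) (M.inv_mem (hM s hs _))

end Main

/-- For a finite field F of characteristic two and m ≥ 7, let Q be a non-degenerate quadratic form on F^(2m) whose polar form is the standard alternating form. Then the elements of Sp_2m(F) that are similarities of Q (they are exactly the isometries of Q) form a maximal subgroup of Sp_2m(F). -/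
theorem result {F : Type*} [Field F] [Fintype F] (m : ℕ) (hm : 7 ≤ m) (heven : ¬ Odd (Fintype.card F)) (Q : (Fin m ⊕ Fin m → F) → F) (hQ : Cfsg.Geo.IsNondegenerateQuadraticForm Q) (hpol : ∀ u v, QuadraticMap.polar Q u v = Cfsg.sympForm m F u v) : Cfsg.Geo.IsMaximalIn (Cfsg.spGL m F) (Cfsg.Geo.quadSimilarityGroup Q ⊓ Cfsg.spGL m F) := by
  have hchar : ringChar F = 2 := by
    rw [FiniteField.even_card_iff_char_two]
    rcases Nat.mod_two_eq_zero_or_one (Fintype.card F) with h | h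
    · exact h
    · exact absurd (Nat.odd_iff.mpr h) heven
  have : CharP F 2 := ringChar.of_eq hchar
  have hsq : ∀ a : F, IsSquare a := FiniteField.isSquare_of_char_two hchar
  have hm5 : 5 ≤ Fintype.card (Fin m ⊕ Fin m) := by
    simp only [Fintype.card_sum, Fintype.card_fin]; omega
  have hsm := hQ.smul
  constructor
  · rw [SetLike.lt_iff_le_and_exists]
    refine ⟨inf_le_right, ?_⟩
    have hne : (fun _ => 1 : Fin m ⊕ Fin m → F) ≠ 0 := by
      intro h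
      have := congrFun h (Sum.inl ⟨0, by omega⟩)
      simp at this
    obtain ⟨s0, hs0, hs0'⟩ := exists_sing_ne hpol hsm hsq hm5 _ hne
    have hs00 : s0 ≠ 0 := by
      intro h
      rw [h, sympForm_zero_left] at hs0'
      exact hs0' rfl
    obtain ⟨x, hx, hx'⟩ := exists_sing_ne hpol hsm hsq hm5 s0 hs00
    refine ⟨sympTv s0 1, sympTv_mem_spGL _ _, ?_⟩
    rintro ⟨⟨c, hc⟩, -⟩
    have h1 := hc x
    rw [Q_tv hpol hsm, hx, hs0] at h1
    simp at h1
    exact hx' h1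
  · intro M hHM hMS
    by_cases hMH : M ≤ Cfsg.Geo.quadSimilarityGroup Q ⊓ Cfsg.spGL m F
    · left; exact le_antisymm hMH hHM
    · right
      apply le_antisymm hMS
      obtain ⟨g, hgM, hgH⟩ := SetLike.not_le_iff_exists.mp hMH
      have hgS := hMS hgM
      have hex : ∃ v, Q ((g : Matrix _ _ F) *ᵥ v) ≠ Q v := by
        by_contra hcon
        push Not at hcon
        exact hgH ⟨⟨1, fun v => by rw [hcon v]; simp⟩, hgS⟩
      obtain ⟨v, hv⟩ := hex
      obtain ⟨a, ha, hga⟩ := exists_bad hpol hsm hsq hm5 g hgS v hv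
      have ha0 : a ≠ 0 := by
        intro h0
        rw [h0] at ha
        exact ha (Q_zero hsm)
      have hb0 : (g : Matrix (Fin m ⊕ Fin m) (Fin m ⊕ Fin m) F) *ᵥ a ≠ 0 := by
        intro h0
        apply ha0
        apply gl_mulVec_injective g
        show (g : Matrix (Fin m ⊕ Fin m) (Fin m ⊕ Fin m) F) *ᵥ a
          = (g : Matrix (Fin m ⊕ Fin m) (Fin m ⊕ Fin m) F) *ᵥ 0
        rw [h0]; simp
      have htM : sympTv ((g : Matrix _ _ F) *ᵥ a) (Q a)⁻¹ ∈ M := by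
        rw [← sympTv_conj g hgS]
        exact M.mul_mem (M.mul_mem hgM (hHM (tv_mem_H hpol hsm a ha))) (M.inv_mem hgM)
      have hcb : (Q a)⁻¹ * Q ((g : Matrix _ _ F) *ᵥ a) ≠ 1 := by
        intro h
        apply hga
        field_simp at h
        exact h
      obtain ⟨s, d, hs0, hs, hd, hsM⟩ := exists_sing_tv hpol hsm hsq hm5 M hHM _ _ hb0
        (inv_ne_zero ha) hcb htM
      apply spGL_le_of_sympTv
      exact all_tv hpol hsm hsq hm5 M (all_sing hpol hsm hsq M hHM s d hs0 hs hd hsM)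

end Cfsg.Agent.S5652
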