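import Cfsg.Statements.S5653
import Mathlib
import Cfsg.Agent.S0751
import Cfsg.Agent.S0781
import Cfsg.Agent.S0837
import Cfsg.Agent.Lib.Helper45.GUCard
import Cfsg.Agent.Lib.Helper45.SUCard
import Cfsg.Agent.Lib.Helper94.Basic
import Cfsg.Agent.Lib.Helper94.GLAux
import Cfsg.Agent.Lib.Helper94.Tv
import Cfsg.Agent.Lib.Helper94.SympBlock
import Cfsg.Agent.Lib.Helper94.Herm2
import Cfsg.Agent.Lib.Helper94.HermStd
import Cfsg.Agent.Lib.Helper94.UnitAbs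
import Cfsg.Agent.Lib.Helper94.UnitGen
import Cfsg.Agent.Lib.Helper94.UnitRoot

set_option autoImplicit false
open Cfsg

namespace Cfsg.Agent.S5653

open Cfsg.Agent.Lib.Helper94.UnitAbs Cfsg.Agent.Lib.Helper94.UnitGen
  Cfsg.Agent.Lib.Helper94.UnitRoot

open Matrix Cfsg.Agent.S0837

section
variable {F : Type*} [Field F] {n : ℕ}

/-- the stabiliser of a totally isotropic subspace `W` in `SU` is transitive (up to scalars) on
the isotropic vectors outside `W^⊥` -/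
theorem ptrans [Fintype F] {q : ℕ} (hF : Fintype.card F = q ^ 2) (W : Submodule F (Fin n → F))
    (hW : ∀ u ∈ W, ∀ v ∈ W, Cfsg.hermForm n F q u v = 0) (a v : Fin n → F)
    (haa : Cfsg.hermForm n F q a a = 0) (hvv : Cfsg.hermForm n F q v v = 0)
    (ha : ∃ w ∈ W, Cfsg.hermForm n F q w a ≠ 0) (hv : ∃ w ∈ W, Cfsg.hermForm n F q w v ≠ 0) :
    ∃ G : Matrix (Fin n) (Fin n) F, G.det = 1 ∧
      (∀ x y, Cfsg.hermForm n F q (G *ᵥ x) (G *ᵥ y) = Cfsg.hermForm n F q x y) ∧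
      (∀ w ∈ W, G *ᵥ w ∈ W) ∧ ∃ c : F, c ≠ 0 ∧ G *ᵥ a = c • v := by
  classical
  obtain ⟨σ, hσ, hσ2⟩ := Cfsg.Agent.Lib.Helper45.GUCard.exists_conj hF
  have hσne := sigma_ne hF σ hσ
  have hS := Bh_symm σ hσ2 n
  have hnd := Bh_nondeg σ n
  have hW' : ∀ u ∈ W, ∀ v ∈ W, Bh σ n u v = 0 := fun u hu v hv => by
    rw [Bh_herm σ hσ]
    exact hW v hv u hu
  have haa' : Bh σ n a a = 0 := by
    rw [Bh_herm σ hσ]
    exact haa
  have hvv' : Bh σ n v v = 0 := by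
    rw [Bh_herm σ hσ]
    exact hvv
  have hz : ∃ z ∈ W, Bh σ n a z ≠ 0 ∧ Bh σ n v z ≠ 0 := by
    obtain ⟨w₁, hw₁, h1⟩ := ha
    obtain ⟨w₂, hw₂, h2⟩ := hv
    rw [← Bh_herm σ hσ] at h1 h2
    by_cases h3 : Bh σ n v w₁ = 0
    · by_cases h4 : Bh σ n a w₂ = 0
      · refine ⟨w₁ + w₂, W.add_mem hw₁ hw₂, ?_, ?_⟩
        · rw [map_add, h4, add_zero]
          exact h1
        · rw [map_add, h3, zero_add]
          exact h2
      · exact ⟨w₂, hw₂, h4, h2⟩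
    · exact ⟨w₁, hw₁, h1, h3⟩
  obtain ⟨z₀, hz₀W, hz₀a, hz₀v⟩ := hz
  obtain ⟨z, hzdef⟩ : ∃ z : Fin n → F, z = (Bh σ n v z₀)⁻¹ • z₀ := ⟨_, rfl⟩
  have hzW : z ∈ W := by
    rw [hzdef]
    exact W.smul_mem _ hz₀W
  have hvz : Bh σ n v z = 1 := by
    rw [hzdef, LinearMap.map_smul, smul_eq_mul, inv_mul_cancel₀ hz₀v]
  have haz : Bh σ n a z ≠ 0 := by
    rw [hzdef, LinearMap.map_smul, smul_eq_mul]
    exact mul_ne_zero (inv_ne_zero hz₀v) hz₀a
  have hzv : Bh σ n z v = 1 := by rw [← hS.eq, hvz, map_one]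
  have hza : Bh σ n z a ≠ 0 := by
    rw [← hS.eq]
    exact (map_ne_zero σ).2 haz
  have hzz : Bh σ n z z = 0 := hW' z hzW z hzW
  have hexp : ∀ (x₁ x₂ y₁ y₂ : Fin n → F) (s s' : F), Bh σ n (x₁ + s • y₁) (x₂ + s' • y₂) =
      Bh σ n x₁ x₂ + s' * Bh σ n x₁ y₂ + σ s * Bh σ n y₁ x₂ + σ s * s' * Bh σ n y₁ y₂ := by
    intro x₁ x₂ y₁ y₂ s s'
    simp only [map_add, map_smulₛₗ, LinearMap.add_apply, LinearMap.smul_apply, smul_eq_mul,
      RingHom.id_apply]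
    ring
  obtain ⟨t, ht⟩ : ∃ t : F, t = Bh σ n z a := ⟨_, rfl⟩
  have ht0 : t ≠ 0 := by
    rw [ht]
    exact hza
  obtain ⟨u₀, hu₀⟩ : ∃ u₀ : Fin n → F, u₀ = v - a + Bh σ n v a • z := ⟨_, rfl⟩
  obtain ⟨φ, hφ⟩ : ∃ φ : (Fin n → F) →ₗ[F] (Fin n → F),
      ∀ x, φ x = x + (Bh σ n a x - Bh σ n v x) • z + (t⁻¹ * Bh σ n z x) • u₀ :=
    ⟨LinearMap.id + (Bh σ n a - Bh σ n v).smulRight z + (t⁻¹ • Bh σ n z).smulRight u₀, fun x => by
      simp [LinearMap.smulRight_apply]⟩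
  have hφW : ∀ w ∈ W, φ w = w + (Bh σ n a w - Bh σ n v w) • z := by
    intro w hw
    rw [hφ, hW' z hzW w hw, mul_zero, zero_smul, add_zero]
  have hφa : φ a = v := by
    rw [hφ, haa', ← ht, inv_mul_cancel₀ ht0, one_smul, hu₀]
    module
  have hψW : ∀ w ∈ W, φ w ∈ W := fun w hw => by
    rw [hφW w hw]
    exact W.add_mem hw (W.smul_mem _ hzW)
  have hψv : ∀ w ∈ W, Bh σ n v (φ w) = Bh σ n a w := by
    intro w hw
    rw [hφW w hw, map_add, LinearMap.map_smul, hvz, smul_eq_mul, mul_one]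
    ring
  have hψv' : ∀ w ∈ W, Bh σ n (φ w) v = Bh σ n w a := by
    intro w hw
    rw [← hS.eq, hψv w hw, hS.eq]
  obtain ⟨X, hX⟩ : ∃ X : Submodule F (Fin n → F), X = W ⊔ Submodule.span F {a} := ⟨_, rfl⟩
  have hXmem : ∀ x ∈ X, ∃ w ∈ W, ∃ s : F, x = w + s • a := by
    intro x hx
    rw [hX] at hx
    obtain ⟨w, hw, y, hy, rfl⟩ := Submodule.mem_sup.1 hx
    obtain ⟨s, rfl⟩ := Submodule.mem_span_singleton.1 hy
    exact ⟨w, hw, s, rfl⟩
  have hφX : ∀ w ∈ W, ∀ s : F, φ (w + s • a) = φ w + s • v := by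
    intro w hw s
    rw [map_add, LinearMap.map_smul, hφa]
  have hiso : ∀ x ∈ X, ∀ y ∈ X, Bh σ n (φ x) (φ y) = Bh σ n x y := by
    intro x hx y hy
    obtain ⟨w, hw, s, rfl⟩ := hXmem x hx
    obtain ⟨w', hw', s', rfl⟩ := hXmem y hy
    rw [hφX w hw, hφX w' hw', hexp, hexp, hW' _ (hψW w hw) _ (hψW w' hw'), hψv' w hw,
      hψv w' hw', hvv', hW' w hw w' hw', haa']
  have hinj : ∀ x ∈ X, φ x = 0 → x = 0 := by
    intro x hx h0
    obtain ⟨w, hw, s, rfl⟩ := hXmem x hx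
    rw [hφX w hw] at h0
    have hs : s = 0 := by
      have h1 := congrArg (Bh σ n z) h0
      rw [map_add, LinearMap.map_smul, hW' z hzW _ (hψW w hw), hzv, map_zero, zero_add,
        smul_eq_mul, mul_one] at h1
      exact h1
    rw [hs, zero_smul, add_zero] at h0 ⊢
    have h2 : Bh σ n a w = 0 := by rw [← hψv w hw, h0, map_zero]
    rw [hφW w hw, h2, zero_sub] at h0
    have h3 := congrArg (Bh σ n a) h0
    rw [map_add, LinearMap.map_smul, h2, map_zero, zero_add, smul_eq_mul] at h3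
    have h4 : Bh σ n v w = 0 := by
      rcases mul_eq_zero.1 h3 with h | h
      · exact neg_eq_zero.1 h
      · exact absurd h haz
    rw [h4, neg_zero, zero_smul, add_zero] at h0
    exact h0
  obtain ⟨g, hgB, hg⟩ := Cfsg.Agent.S0751.witt_aux σ hσne hσ2 (Bh σ n) hS hnd _ X rfl φ hiso hinj
  obtain ⟨G₀, hG₀⟩ : ∃ M : Matrix (Fin n) (Fin n) F, M = LinearMap.toMatrix' g.toLinearMap :=
    ⟨_, rfl⟩
  have hG₀v : ∀ x, G₀ *ᵥ x = g x := by
    intro x
    rw [hG₀, ← Matrix.toLin'_apply, Matrix.toLin'_toMatrix']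
    rfl
  have hG₀p : ∀ u v, Cfsg.hermForm n F q (G₀ *ᵥ u) (G₀ *ᵥ v) = Cfsg.hermForm n F q u v := by
    intro u v
    rw [← Bh_herm σ hσ, ← Bh_herm σ hσ, hG₀v, hG₀v, hgB]
  have hD := Cfsg.Agent.Lib.Helper45.SUCard.det_mul_det_pow σ hσ G₀ hG₀p
  obtain ⟨D, hDdef⟩ : ∃ D : F, D = G₀.det := ⟨_, rfl⟩
  rw [← hDdef, ← hσ] at hD
  have hD0 : D ≠ 0 := left_ne_zero_of_mul_eq_one hD
  have hlam : ∃ l : F, l ≠ 0 ∧ σ l = D * l := by
    by_cases h1 : 1 + σ D = 0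
    · have hD1 : D = -1 := by
        have h2 : σ D = -1 := by linear_combination h1
        rw [h2] at hD
        linear_combination -hD
      have hy : ∃ y : F, σ y ≠ y := by
        by_contra hno
        push Not at hno
        exact hσne (RingHom.ext hno)
      obtain ⟨y, hy⟩ := hy
      refine ⟨y - σ y, sub_ne_zero.2 (Ne.symm hy), ?_⟩
      rw [map_sub, hσ2, hD1]
      ring
    · refine ⟨1 + σ D, h1, ?_⟩
      rw [map_add, map_one, hσ2, mul_add, mul_one, hD]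
      ring
  obtain ⟨l, hl0, hl⟩ := hlam
  have hσl0 : σ l ≠ 0 := (map_ne_zero σ).2 hl0
  obtain ⟨p, hp⟩ : ∃ p : F, p = l - 1 := ⟨_, rfl⟩
  obtain ⟨p', hp'⟩ : ∃ p' : F, p' = (σ l)⁻¹ - 1 := ⟨_, rfl⟩
  obtain ⟨Y₁, hY₁def⟩ : ∃ Y₁ : Matrix (Fin n) (Fin n) F,
      Y₁ = 1 + Matrix.vecMulVec (p • z) (fun j => σ (v j)) := ⟨_, rfl⟩
  obtain ⟨Y₂, hY₂def⟩ : ∃ Y₂ : Matrix (Fin n) (Fin n) F,
      Y₂ = 1 + Matrix.vecMulVec (p' • v) (fun j => σ (z j)) := ⟨_, rfl⟩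
  have hY₁ : ∀ x, Y₁ *ᵥ x = x + Bh σ n v x • (p • z) := by
    intro x
    rw [hY₁def, Cfsg.Agent.S0781.rank_one_mulVec, Cfsg.Agent.S0781.dot_sigma]
  have hY₂ : ∀ x, Y₂ *ᵥ x = x + Bh σ n z x • (p' • v) := by
    intro x
    rw [hY₂def, Cfsg.Agent.S0781.rank_one_mulVec, Cfsg.Agent.S0781.dot_sigma]
  have hY₁det : Y₁.det = l := by
    rw [hY₁def, Cfsg.Agent.S0781.det_rank_one, Cfsg.Agent.S0781.dot_sigma, LinearMap.map_smul,
      hvz, smul_eq_mul, mul_one, hp]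
    ring
  have hY₂det : Y₂.det = (σ l)⁻¹ := by
    rw [hY₂def, Cfsg.Agent.S0781.det_rank_one, Cfsg.Agent.S0781.dot_sigma, LinearMap.map_smul,
      hzv, smul_eq_mul, mul_one, hp']
    ring
  obtain ⟨Y, hYdef⟩ : ∃ Y : Matrix (Fin n) (Fin n) F, Y = Y₁ * Y₂ := ⟨_, rfl⟩
  have hY : ∀ x, Y *ᵥ x = x + (p * Bh σ n v x) • z + (p' * Bh σ n z x) • v := by
    intro x
    rw [hYdef, ← Matrix.mulVec_mulVec, hY₂, hY₁, map_add, LinearMap.map_smul,
      LinearMap.map_smul, hvv']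
    module
  have hYp : ∀ x y, Bh σ n (Y *ᵥ x) (Y *ᵥ y) = Bh σ n x y := by
    intro x y
    obtain ⟨a1, ha1⟩ : ∃ a1 : F, a1 = Bh σ n v x := ⟨_, rfl⟩
    obtain ⟨a2, ha2⟩ : ∃ a2 : F, a2 = Bh σ n z x := ⟨_, rfl⟩
    obtain ⟨b1, hb1⟩ : ∃ b1 : F, b1 = Bh σ n v y := ⟨_, rfl⟩
    obtain ⟨b2, hb2⟩ : ∃ b2 : F, b2 = Bh σ n z y := ⟨_, rfl⟩
    have hx1 : Bh σ n x v = σ a1 := by rw [ha1, hS.eq]
    have hx2 : Bh σ n x z = σ a2 := by rw [ha2, hS.eq]
    have e1 : (1 + σ p) * (1 + p') = 1 := by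
      rw [hp, hp', map_sub, map_one]
      field_simp
      ring
    have e2 : (1 + p) * (1 + σ p') = 1 := by
      rw [hp, hp', map_sub, map_one, map_inv₀, hσ2]
      field_simp
      ring
    rw [hY, hY, ← ha1, ← ha2, ← hb1, ← hb2]
    simp only [map_add, map_smulₛₗ, LinearMap.add_apply, LinearMap.smul_apply, smul_eq_mul,
      RingHom.id_apply, map_mul, hx1, hx2, ← hb1, ← hb2, hzz, hvv', hzv, hvz]
    linear_combination (σ a1 * b2) * e1 + (σ a2 * b1) * e2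
  have hYW : ∀ w ∈ W, Y *ᵥ w ∈ W := by
    intro w hw
    rw [hY, hW' z hzW w hw, mul_zero, zero_smul, add_zero]
    exact W.add_mem hw (W.smul_mem _ hzW)
  have hWX : ∀ w ∈ W, w ∈ X := fun w hw => by
    rw [hX]
    exact Submodule.mem_sup_left hw
  have haX : a ∈ X := by
    rw [hX]
    exact Submodule.mem_sup_right (Submodule.mem_span_singleton_self a)
  refine ⟨Y * G₀, ?_, ?_, ?_, (σ l)⁻¹, inv_ne_zero hσl0, ?_⟩
  · rw [Matrix.det_mul, hYdef, Matrix.det_mul, hY₁det, hY₂det, ← hDdef, hl]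
    field_simp
  · intro x y
    rw [← Bh_herm σ hσ, ← Bh_herm σ hσ, ← Matrix.mulVec_mulVec, ← Matrix.mulVec_mulVec, hYp,
      hG₀v, hG₀v, hgB]
  · intro w hw
    rw [← Matrix.mulVec_mulVec, hG₀v, hg w (hWX w hw)]
    exact hYW _ (hψW w hw)
  · rw [← Matrix.mulVec_mulVec, hG₀v, hg a haX, hφa, hY, hvv', mul_zero, zero_smul, add_zero,
      hzv, mul_one, hp']
    module

end

/-- Let F be the field with q² elements and n ≥ 13, and let SU_n(q) be the group of matrices of determinant one preserving the standard unitary form Σ u_i v_i^q on F^n (the intersection of the unitary group GU_n with the kernel of the determinant). The elements of SU_n(q) stabilising a non-zero subspace on which the form vanishes identically form a maximal subgroup of SU_n(q). -/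
theorem result {F : Type*} [Field F] [Fintype F] (n q : ℕ) (hF : Fintype.card F = q ^ 2) (hn : 13 ≤ n) (W : Submodule F (Fin n → F)) (hW0 : W ≠ ⊥) (hW : Cfsg.Geo.IsTotallySingularFor (Cfsg.hermForm n F q) W) : Cfsg.Geo.IsMaximalIn (Cfsg.GU n F q ⊓ Cfsg.Geo.specialLinear (Fin n) F) (Cfsg.Geo.subspaceStabilizer W ⊓ (Cfsg.GU n F q ⊓ Cfsg.Geo.specialLinear (Fin n) F)) := by
  classical
  have hf := Cfsg.Agent.Lib.Helper94.HermStd.hermForm_isUnitary (n := n) hF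
  have hcard : 9 ≤ Fintype.card (Fin n) := by
    rw [Fintype.card_fin]
    omega
  have hmemS : ∀ g : Matrix.GeneralLinearGroup (Fin n) F,
      g ∈ Cfsg.GU n F q ⊓ Cfsg.Geo.specialLinear (Fin n) F ↔
      (∀ x y, Cfsg.hermForm n F q ((g : Matrix (Fin n) (Fin n) F) *ᵥ x)
        ((g : Matrix (Fin n) (Fin n) F) *ᵥ y) = Cfsg.hermForm n F q x y) ∧
      (g : Matrix (Fin n) (Fin n) F).det = 1 := by
    intro g
    rw [Subgroup.mem_inf, Cfsg.Agent.Lib.Helper94.Herm2.mem_GU_iff,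
      Cfsg.Agent.Lib.Helper94.GLAux.mem_specialLinear_iff]
  have hutS : ∀ a κ, ut hf a κ ∈ Cfsg.GU n F q ⊓ Cfsg.Geo.specialLinear (Fin n) F := fun a κ =>
    (hmemS _).2 ⟨ut_isom hf a κ,
      (Cfsg.Agent.Lib.Helper94.GLAux.mem_specialLinear_iff _).1 (ut_mem_SL hf a κ)⟩
  have hutP : ∀ a, (∀ w ∈ W, Cfsg.hermForm n F q w a = 0) → ∀ κ,
      ut hf a κ ∈ Cfsg.Geo.subspaceStabilizer W ⊓
        (Cfsg.GU n F q ⊓ Cfsg.Geo.specialLinear (Fin n) F) := by
    intro a haW κ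
    refine ⟨Cfsg.Agent.Lib.Helper94.SympBlock.mem_stab_of_forall _ W ?_, hutS a κ⟩
    intro w hw
    rw [ut_fix hf a κ w (haW w hw)]
    exact hw
  obtain ⟨w0, hw0, hw00⟩ := Submodule.exists_mem_ne_zero_of_ne_bot hW0
  constructor
  · rw [SetLike.lt_iff_le_and_exists]
    obtain ⟨x', hx'⟩ := (hf.nondegenerate w0 hw00).2
    obtain ⟨d, hd⟩ := adjust_iso hf w0 x' (hW w0 hw0 w0 hw0) hx'
    obtain ⟨x, hxdef⟩ : ∃ x : Fin n → F, x = x' + d • w0 := ⟨_, rfl⟩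
    rw [← hxdef] at hd
    have hw0x : Cfsg.hermForm n F q w0 x ≠ 0 := by
      rw [hxdef, add_right hf, smul_right hf, hW w0 hw0 w0 hw0, mul_zero, add_zero]
      exact hx'
    obtain ⟨κ, hκ0, hκ⟩ := exists_skew_ne hf
    refine ⟨inf_le_right, ut hf x κ, hutS x κ, ?_⟩
    rintro ⟨hstab, -⟩
    have h1 := ((Cfsg.Agent.Lib.Helper94.Basic.mem_subspaceStabilizer_iff W _).mp hstab w0).mp hw0
    rw [ut_mulVec hf x κ hd hκ] at h1
    have h2 : (κ * Cfsg.hermForm n F q w0 x) • x ∈ W := by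
      have h3 := W.sub_mem h1 hw0
      rwa [add_sub_cancel_left] at h3
    have h3 : x ∈ W := by
      have h4 := W.smul_mem (κ * Cfsg.hermForm n F q w0 x)⁻¹ h2
      rwa [smul_smul, inv_mul_cancel₀ (mul_ne_zero hκ0 hw0x), one_smul] at h4
    exact hw0x (hW w0 hw0 x h3)
  · intro M hHM hMS
    by_cases hMH : M ≤ Cfsg.Geo.subspaceStabilizer W ⊓
        (Cfsg.GU n F q ⊓ Cfsg.Geo.specialLinear (Fin n) F)
    · left
      exact le_antisymm hMH hHM
    right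
    apply le_antisymm hMS
    obtain ⟨g, hgM, hgH⟩ := SetLike.not_le_iff_exists.mp hMH
    have hMiso : ∀ g ∈ M, ∀ x y, Cfsg.hermForm n F q ((g : Matrix (Fin n) (Fin n) F) *ᵥ x)
        ((g : Matrix (Fin n) (Fin n) F) *ᵥ y) = Cfsg.hermForm n F q x y :=
      fun g hg => ((hmemS g).1 (hMS hg)).1
    have hPT : ∀ a, Cfsg.hermForm n F q a a = 0 → (∀ w ∈ W, Cfsg.hermForm n F q w a = 0) →
        a ∈ utSet hf M := fun a haa haW => ⟨haa, fun κ => hHM (hutP a haW κ)⟩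
    -- a transvection centre outside `W^⊥`
    have hC : ∃ a ∈ utSet hf M, ∃ w ∈ W, Cfsg.hermForm n F q w a ≠ 0 := by
      by_contra hcon
      push Not at hcon
      apply hgH
      refine ⟨Cfsg.Agent.Lib.Helper94.SympBlock.mem_stab_of_forall g W ?_, hMS hgM⟩
      intro w hw
      obtain ⟨x, hxdef⟩ : ∃ x : Fin n → F, x = (g : Matrix (Fin n) (Fin n) F) *ᵥ w := ⟨_, rfl⟩
      rw [← hxdef]
      have hxx : Cfsg.hermForm n F q x x = 0 := by
        rw [hxdef, hMiso g hgM]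
        exact hW w hw w hw
      have hxd : ∀ d, Cfsg.hermForm n F q d d = 0 → (∀ u ∈ W, Cfsg.hermForm n F q u d = 0) →
          Cfsg.hermForm n F q x d = 0 := by
        intro d hdd hdW
        have h1 := hcon _ (utSet_map hf M hMiso (M.inv_mem hgM) (hPT d hdd hdW)) w hw
        have h2 := hMiso g hgM w (((g⁻¹ : Matrix.GeneralLinearGroup (Fin n) F) :
          Matrix (Fin n) (Fin n) F) *ᵥ d)
        rw [Cfsg.Agent.Lib.Helper94.GLAux.gl_mulVec_inv, ← hxdef] at h2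
        rw [h2]
        exact h1
      have hxW : ∀ u ∈ W, Cfsg.hermForm n F q u x = 0 := by
        intro u hu
        rw [eq_zero_comm hf]
        exact hxd u (hW u hu u hu) (fun u' hu' => hW u' hu' u hu)
      by_contra hxnW
      obtain ⟨r, hr, hxr⟩ := exists_perp_ne hf W x hxnW
      obtain ⟨d, hd⟩ := adjust_iso hf x r hxx hxr
      apply hxr
      have h3 := hxd (r + d • x) hd (fun u hu => by
        rw [add_right hf, smul_right hf, hr u hu, hxW u hu, mul_zero, add_zero])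
      rw [add_right hf, smul_right hf, hxx, mul_zero, add_zero] at h3
      exact h3
    obtain ⟨a, haT, w₁, hw₁, hw₁a⟩ := hC
    have hall : ∀ v, Cfsg.hermForm n F q v v = 0 → v ∈ utSet hf M := by
      intro v hvv
      by_cases hvW : ∀ w ∈ W, Cfsg.hermForm n F q w v = 0
      · exact hPT v hvv hvW
      · push Not at hvW
        obtain ⟨G, hGdet, hGp, hGW, c, hc0, hGa⟩ := ptrans hF W hW a v haT.1 hvv
          ⟨w₁, hw₁, hw₁a⟩ hvW
        obtain ⟨G', hG'⟩ : ∃ G' : Matrix.GeneralLinearGroup (Fin n) F,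
            (G' : Matrix (Fin n) (Fin n) F) = G :=
          ⟨Matrix.GeneralLinearGroup.mkOfDetNeZero G (by rw [hGdet]; exact one_ne_zero), rfl⟩
        have hG'M : G' ∈ M := by
          apply hHM
          refine ⟨Cfsg.Agent.Lib.Helper94.SympBlock.mem_stab_of_forall G' W ?_, (hmemS G').2 ?_⟩
          · intro w hw
            rw [hG']
            exact hGW w hw
          · rw [hG']
            exact ⟨hGp, hGdet⟩
        have h1 := utSet_map hf M hMiso hG'M haT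
        rw [hG', hGa] at h1
        have h2 := utSet_smul hf M h1 c⁻¹
        rwa [smul_smul, inv_mul_cancel₀ hc0, one_smul] at h2
    intro k' hk'
    exact mem_of_utSet_univ hf hcard M hall k' ((hmemS k').1 hk').1 ((hmemS k').1 hk').2

end Cfsg.Agent.S5653
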