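import Cfsg.Statements.S5654
import Mathlib
import Cfsg.Agent.S0751
import Cfsg.Agent.S0780
import Cfsg.Agent.S0837
import Cfsg.Agent.Lib.Helper45.GUCard
import Cfsg.Agent.Lib.Helper45.SUCard
import Cfsg.Agent.Lib.Helper94.Basic
import Cfsg.Agent.Lib.Helper94.GLAux
import Cfsg.Agent.Lib.Helper94.Tv
import Cfsg.Agent.Lib.Helper94.Tv2
import Cfsg.Agent.Lib.Helper94.SympBlock
import Cfsg.Agent.Lib.Helper94.Herm2
import Cfsg.Agent.Lib.Helper94.HermStd
import Cfsg.Agent.Lib.Helper94.QuadAbs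
import Cfsg.Agent.Lib.Helper94.UnitAbs
import Cfsg.Agent.Lib.Helper94.UnitGen
import Cfsg.Agent.Lib.Helper94.UnitRoot

set_option autoImplicit false
open Cfsg

namespace Cfsg.Agent.S5654

open Cfsg.Agent.Lib.Helper94.UnitAbs Cfsg.Agent.Lib.Helper94.UnitGen
  Cfsg.Agent.Lib.Helper94.UnitRoot
open Cfsg.Agent.Lib.Helper94.QuadAbs (finrank_sup_span_singleton_le)
open Matrix Cfsg.Agent.S0837

section abs

variable {ι : Type} [Fintype ι] [DecidableEq ι] {F : Type*} [Field F]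
variable {σ : F ≃+* F} {f : (ι → F) → (ι → F) → F}

/-- the orthogonal of a subspace -/
def perpS (hf : Cfsg.Geo.IsUnitaryForm σ f) (W : Submodule F (ι → F)) : Submodule F (ι → F) where
  carrier := {u | ∀ x ∈ W, f x u = 0}
  add_mem' := by
    intro a b ha hb x hx
    rw [add_right hf, ha x hx, hb x hx, add_zero]
  zero_mem' := fun x _ => zero_right hf x
  smul_mem' := by
    intro c a ha x hx
    rw [smul_right hf, ha x hx, mul_zero]

theorem mem_perpS (hf : Cfsg.Geo.IsUnitaryForm σ f) (W : Submodule F (ι → F)) (u : ι → F) :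
    u ∈ perpS hf W ↔ ∀ x ∈ W, f x u = 0 := Iff.rfl

theorem perp_inf (hf : Cfsg.Geo.IsUnitaryForm σ f) (W : Submodule F (ι → F))
    (hWnd : Cfsg.Geo.IsNondegenerateOn f W) (u : ι → F) (huW : u ∈ W)
    (hu : ∀ x ∈ W, f x u = 0) : u = 0 := by
  by_contra h0
  obtain ⟨⟨x, hx, hxu⟩, -⟩ := hWnd u huW h0
  exact hxu (hu x hx)

theorem finrank_perp (hf : Cfsg.Geo.IsUnitaryForm σ f) (W : Submodule F (ι → F)) :
    Fintype.card ι ≤ Module.finrank F W + Module.finrank F (perpS hf W) := by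
  obtain ⟨b, -⟩ : ∃ b : Module.Basis (Fin (Module.finrank F W)) F W, b = b :=
    ⟨Module.finBasis F W, rfl⟩
  obtain ⟨Ψ, hΨ⟩ : ∃ Ψ : (ι → F) →ₗ[F] (Fin (Module.finrank F W) → F),
    Ψ = LinearMap.pi (fun i => fR hf ((b i : W) : ι → F)) := ⟨_, rfl⟩
  have h3 := LinearMap.finrank_range_add_finrank_ker Ψ
  have h4 : Module.finrank F (LinearMap.range Ψ) ≤ Module.finrank F W := by
    have := Submodule.finrank_le (LinearMap.range Ψ)
    simpa using this
  rw [Module.finrank_fintype_fun_eq_card] at h3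
  have h5 : LinearMap.ker Ψ ≤ perpS hf W := by
    intro y hy
    rw [LinearMap.mem_ker] at hy
    have h5 : ∀ i, f y ((b i : W) : ι → F) = 0 := by
      intro i
      have := congrFun hy i
      simpa [hΨ] using this
    intro u hu
    rw [eq_zero_comm hf]
    have h6 : u = ∑ i, (b.repr ⟨u, hu⟩ i) • ((b i : W) : ι → F) := by
      have h7 := b.sum_repr ⟨u, hu⟩
      have h8 := congrArg (Subtype.val) h7
      simp only [Submodule.coe_sum, Submodule.coe_smul] at h8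
      exact h8.symm
    rw [← mem_perpR hf, h6]
    exact Submodule.sum_mem _ (fun i _ => Submodule.smul_mem _ _ ((mem_perpR hf _ _).mpr (h5 i)))
  have h6 := Submodule.finrank_mono h5
  omega

theorem decomp (hf : Cfsg.Geo.IsUnitaryForm σ f) (W : Submodule F (ι → F))
    (hWnd : Cfsg.Geo.IsNondegenerateOn f W) (x : ι → F) :
    ∃ w ∈ W, ∃ u, (∀ y ∈ W, f y u = 0) ∧ x = w + u := by
  have h1 := finrank_perp hf W
  have h2 : W ⊓ perpS hf W = ⊥ := by
    rw [eq_bot_iff]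
    rintro u ⟨huW, hu⟩
    exact (Submodule.mem_bot F).2 (perp_inf hf W hWnd u huW hu)
  have h3 := Submodule.finrank_sup_add_finrank_inf_eq W (perpS hf W)
  rw [h2, finrank_bot, add_zero] at h3
  have h4 : W ⊔ perpS hf W = ⊤ := by
    apply Submodule.eq_top_of_finrank_eq
    rw [Module.finrank_fintype_fun_eq_card]
    have h5 := Submodule.finrank_le (W ⊔ perpS hf W)
    rw [Module.finrank_fintype_fun_eq_card] at h5
    omega
  have h5 : x ∈ W ⊔ perpS hf W := by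
    rw [h4]
    trivial
  obtain ⟨w, hw, u, hu, rfl⟩ := Submodule.mem_sup.1 h5
  exact ⟨w, hw, u, hu, rfl⟩

theorem split (hf : Cfsg.Geo.IsUnitaryForm σ f) (W : Submodule F (ι → F))
    (x x' y y' : ι → F) (hx : x ∈ W) (hx' : x' ∈ W) (hy : ∀ z ∈ W, f z y = 0)
    (hy' : ∀ z ∈ W, f z y' = 0) : f (x + y) (x' + y') = f x x' + f y y' := by
  rw [hf.add_left, add_right hf, add_right hf, hy' x hx, (eq_zero_comm hf _ _).1 (hy x' hx')]
  ring

variable [Fintype F]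

/-- prescribed norms on the orthogonal of `W + ⟨u⟩` -/
theorem exists_norm_perp2 (hf : Cfsg.Geo.IsUnitaryForm σ f) (W : Submodule F (ι → F))
    (hWnd : Cfsg.Geo.IsNondegenerateOn f W) (hcard : Module.finrank F W + 2 < Fintype.card ι)
    (u : ι → F) (huW : ∀ x ∈ W, f x u = 0) (hu0 : u ≠ 0) (r : F) (hr : σ r = r) :
    ∃ y, (∀ x ∈ W, f x y = 0) ∧ f y u = 0 ∧ f y y = r := by
  have huW' : ∀ x ∈ W, f u x = 0 := fun x hx => (eq_zero_comm hf _ _).1 (huW x hx)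
  have hunW : u ∉ W := fun h => hu0 (perp_inf hf W hWnd u h huW)
  have hu₂ : ∃ u₂, (∀ x ∈ W, f x u₂ = 0) ∧
      ((f u u ≠ 0 ∧ u₂ = 0) ∨ (f u u = 0 ∧ f u u₂ ≠ 0)) := by
    by_cases huu : f u u = 0
    · obtain ⟨r', hr', hur'⟩ := exists_perp_ne hf W u hunW
      exact ⟨r', hr', Or.inr ⟨huu, hur'⟩⟩
    · exact ⟨0, fun x _ => zero_right hf x, Or.inl ⟨huu, rfl⟩⟩
  obtain ⟨u₂, hu₂W, hcase⟩ := hu₂
  have hu₂W' : ∀ x ∈ W, f u₂ x = 0 := fun x hx => (eq_zero_comm hf _ _).1 (hu₂W x hx)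
  obtain ⟨S, hS⟩ : ∃ S : Submodule F (ι → F),
      S = W ⊔ Submodule.span F {u} ⊔ Submodule.span F {u₂} := ⟨_, rfl⟩
  have hSfr : Module.finrank F S < Fintype.card ι := by
    have h1 := finrank_sup_span_singleton_le W u
    have h2 := finrank_sup_span_singleton_le (W ⊔ Submodule.span F {u}) u₂
    rw [hS]
    omega
  have hSmem : ∀ s ∈ S, ∃ w ∈ W, ∃ c d : F, s = w + c • u + d • u₂ := by
    intro s hs
    rw [hS] at hs
    obtain ⟨s₁, hs₁, s₂, hs₂, rfl⟩ := Submodule.mem_sup.1 hs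
    obtain ⟨w, hw, s₃, hs₃, rfl⟩ := Submodule.mem_sup.1 hs₁
    obtain ⟨c, rfl⟩ := Submodule.mem_span_singleton.1 hs₃
    obtain ⟨d, rfl⟩ := Submodule.mem_span_singleton.1 hs₂
    exact ⟨w, hw, c, d, rfl⟩
  have hWS : ∀ x ∈ W, x ∈ S := fun x hx => by
    rw [hS]
    exact Submodule.mem_sup_left (Submodule.mem_sup_left hx)
  have huS : u ∈ S := by
    rw [hS]
    exact Submodule.mem_sup_left (Submodule.mem_sup_right (Submodule.mem_span_singleton_self u))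
  have hu₂S : u₂ ∈ S := by
    rw [hS]
    exact Submodule.mem_sup_right (Submodule.mem_span_singleton_self u₂)
  have hnd : ∀ s ∈ S, (∀ s' ∈ S, f s s' = 0) → s = 0 := by
    intro s hs hperp
    obtain ⟨w, hw, c, d, rfl⟩ := hSmem s hs
    have hexp : ∀ y, f (w + c • u + d • u₂) y = f w y + c * f u y + d * f u₂ y := by
      intro y
      rw [hf.add_left, hf.add_left, hf.smul_left, hf.smul_left]
    have hw0 : w = 0 := by
      by_contra hw0
      obtain ⟨-, ⟨x, hx, hwx⟩⟩ := hWnd w hw hw0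
      have h1 := hperp x (hWS x hx)
      rw [hexp, huW' x hx, hu₂W' x hx, mul_zero, mul_zero, add_zero, add_zero] at h1
      exact hwx h1
    have h1 := hperp u huS
    have h2 := hperp u₂ hu₂S
    rw [hexp, hw0, zero_left hf, zero_add] at h1 h2
    rcases hcase with ⟨huu, hu₂0⟩ | ⟨huu, huu₂⟩
    · rw [hu₂0, zero_left hf, mul_zero, add_zero] at h1
      have hc : c = 0 := by
        rcases mul_eq_zero.1 h1 with h | h
        · exact h
        · exact absurd h huu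
      rw [hw0, hc, hu₂0]
      simp
    · have hu₂u : f u₂ u ≠ 0 := fun h => huu₂ ((eq_zero_comm hf _ _).1 h)
      rw [huu, mul_zero, zero_add] at h1
      have hd : d = 0 := by
        rcases mul_eq_zero.1 h1 with h | h
        · exact h
        · exact absurd h hu₂u
      rw [hd, zero_mul, add_zero] at h2
      have hc : c = 0 := by
        rcases mul_eq_zero.1 h2 with h | h
        · exact h
        · exact absurd h huu₂
      rw [hw0, hc, hd]
      simp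
  obtain ⟨z, hzS, hzz⟩ := Cfsg.Agent.S0780.exists_norm_perp' hf S hSfr hnd r hr
  exact ⟨z, fun x hx => (eq_zero_comm hf _ _).1 (hzS x (hWS x hx)), hzS u huS, hzz⟩

/-- every vector of `W^⊥` is a sum of two isotropic vectors of `W^⊥` -/
theorem sum2 (hf : Cfsg.Geo.IsUnitaryForm σ f) (W : Submodule F (ι → F))
    (hWnd : Cfsg.Geo.IsNondegenerateOn f W) (hcard : Module.finrank F W + 2 < Fintype.card ι)
    (x : ι → F) (hx : ∀ y ∈ W, f y x = 0) :
    ∃ y₁ y₂, (∀ y ∈ W, f y y₁ = 0) ∧ (∀ y ∈ W, f y y₂ = 0) ∧ f y₁ y₁ = 0 ∧ f y₂ y₂ = 0 ∧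
      x = y₁ + y₂ := by
  by_cases hxx : f x x = 0
  · exact ⟨x, 0, hx, fun y _ => zero_right hf y, hxx, zero_left hf 0, (add_zero x).symm⟩
  · have hx0 : x ≠ 0 := by
      rintro rfl
      exact hxx (zero_left hf 0)
    obtain ⟨y, hyW, hyx, hyy⟩ := exists_norm_perp2 hf W hWnd hcard x hx hx0 (-(f x x))
      (by rw [map_neg, self_fixed hf])
    have hxy : f x y = 0 := (eq_zero_comm hf _ _).1 hyx
    obtain ⟨θ, hθ⟩ := tr_surj hf 1 (map_one σ)
    refine ⟨θ • (x + y), σ θ • x - θ • y, ?_, ?_, ?_, ?_, ?_⟩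
    · intro w hw
      rw [smul_right hf, add_right hf, hx w hw, hyW w hw]
      simp
    · intro w hw
      rw [sub_right hf, smul_right hf, smul_right hf, hx w hw, hyW w hw]
      simp
    · simp only [hf.smul_left, smul_right hf, hf.add_left, add_right hf, hxy, hyx, hyy]
      ring
    · simp only [sub_left hf, sub_right hf, hf.smul_left, smul_right hf, hxy, hyx, hyy,
        hf.involutive]
      ring
    · have h1 : θ • (x + y) + (σ θ • x - θ • y) = (θ + σ θ) • x := by module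
      rw [h1, hθ, one_smul]

end abs

section mat
variable {F : Type*} [Field F] [Fintype F] {n q : ℕ}

/-- an isometry fixing `A` pointwise and moving `b` to `b₁` -/
theorem move_mat (hF : Fintype.card F = q ^ 2) (A : Submodule F (Fin n → F))
    (b b₁ : Fin n → F) (hb : ∀ x ∈ A, Cfsg.hermForm n F q x b = 0)
    (hb₁ : ∀ x ∈ A, Cfsg.hermForm n F q x b₁ = 0) (hbA : b ∉ A) (hb₁A : b₁ ∉ A)
    (hnorm : Cfsg.hermForm n F q b b = Cfsg.hermForm n F q b₁ b₁) :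
    ∃ G : Matrix (Fin n) (Fin n) F,
      (∀ x y, Cfsg.hermForm n F q (G *ᵥ x) (G *ᵥ y) = Cfsg.hermForm n F q x y) ∧
      (∀ x ∈ A, G *ᵥ x = x) ∧ G *ᵥ b = b₁ := by
  classical
  obtain ⟨σ, hσ, hσ2⟩ := Cfsg.Agent.Lib.Helper45.GUCard.exists_conj hF
  have hσne := sigma_ne hF σ hσ
  have hS := Bh_symm σ hσ2 n
  have hnd := Bh_nondeg σ n
  have hb' : ∀ x ∈ A, Bh σ n b x = 0 := fun x hx => by
    rw [Bh_herm σ hσ]
    exact hb x hx
  have hb'' : ∀ x ∈ A, Bh σ n x b = 0 := fun x hx => by rw [← hS.eq, hb' x hx, map_zero]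
  have hb₁' : ∀ x ∈ A, Bh σ n b₁ x = 0 := fun x hx => by
    rw [Bh_herm σ hσ]
    exact hb₁ x hx
  have hb₁'' : ∀ x ∈ A, Bh σ n x b₁ = 0 := fun x hx => by rw [← hS.eq, hb₁' x hx, map_zero]
  have hnorm' : Bh σ n b b = Bh σ n b₁ b₁ := by
    rw [Bh_herm σ hσ, Bh_herm σ hσ]
    exact hnorm
  obtain ⟨ψ, hψ1, hψ0⟩ := Cfsg.Agent.Lib.Helper94.Tv2.exists_dual_one hbA
  obtain ⟨φ, hφ⟩ : ∃ φ : (Fin n → F) →ₗ[F] (Fin n → F), ∀ x, φ x = x + ψ x • (b₁ - b) :=
    ⟨LinearMap.id + ψ.smulRight (b₁ - b), fun x => by simp [LinearMap.smulRight_apply]⟩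
  obtain ⟨X, hX⟩ : ∃ X : Submodule F (Fin n → F), X = A ⊔ Submodule.span F {b} := ⟨_, rfl⟩
  have hXmem : ∀ x ∈ X, ∃ α ∈ A, ∃ s : F, x = α + s • b := by
    intro x hx
    rw [hX] at hx
    obtain ⟨w, hw, y, hy, rfl⟩ := Submodule.mem_sup.1 hx
    obtain ⟨s, rfl⟩ := Submodule.mem_span_singleton.1 hy
    exact ⟨w, hw, s, rfl⟩
  have hφX : ∀ α ∈ A, ∀ s : F, φ (α + s • b) = α + s • b₁ := by
    intro α hα s
    rw [hφ, map_add, hψ0 α hα, map_smul, hψ1, smul_eq_mul, mul_one, zero_add]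
    module
  have hexp : ∀ (x₁ x₂ y₁ y₂ : Fin n → F) (s s' : F), Bh σ n (x₁ + s • y₁) (x₂ + s' • y₂) =
      Bh σ n x₁ x₂ + s' * Bh σ n x₁ y₂ + σ s * Bh σ n y₁ x₂ + σ s * s' * Bh σ n y₁ y₂ := by
    intro x₁ x₂ y₁ y₂ s s'
    simp only [map_add, map_smulₛₗ, LinearMap.add_apply, LinearMap.smul_apply, smul_eq_mul,
      RingHom.id_apply]
    ring
  have hiso : ∀ x ∈ X, ∀ y ∈ X, Bh σ n (φ x) (φ y) = Bh σ n x y := by
    intro x hx y hy
    obtain ⟨α, hα, s, rfl⟩ := hXmem x hx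
    obtain ⟨α', hα', s', rfl⟩ := hXmem y hy
    rw [hφX α hα, hφX α' hα', hexp, hexp, hb₁'' α hα, hb₁' α' hα', hb'' α hα, hb' α' hα', hnorm']
  have hinj : ∀ x ∈ X, φ x = 0 → x = 0 := by
    intro x hx h0
    obtain ⟨α, hα, s, rfl⟩ := hXmem x hx
    rw [hφX α hα] at h0
    have hs : s = 0 := by
      by_contra hs
      apply hb₁A
      have h1 : b₁ = (-s⁻¹) • α := by
        have h2 : s • b₁ = -α := by
          rw [eq_neg_iff_add_eq_zero, add_comm]
          exact h0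
        rw [neg_smul, ← smul_neg, ← h2, smul_smul, inv_mul_cancel₀ hs, one_smul]
      rw [h1]
      exact A.smul_mem _ hα
    rw [hs, zero_smul, add_zero] at h0 ⊢
    exact h0
  obtain ⟨g, hgB, hg⟩ := Cfsg.Agent.S0751.witt_aux σ hσne hσ2 (Bh σ n) hS hnd _ X rfl φ hiso hinj
  obtain ⟨G₀, hG₀⟩ : ∃ M : Matrix (Fin n) (Fin n) F, M = LinearMap.toMatrix' g.toLinearMap :=
    ⟨_, rfl⟩
  have hG₀v : ∀ x, G₀ *ᵥ x = g x := by
    intro x
    rw [hG₀, ← Matrix.toLin'_apply, Matrix.toLin'_toMatrix']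
    rfl
  refine ⟨G₀, ?_, ?_, ?_⟩
  · intro u v
    rw [← Bh_herm σ hσ, ← Bh_herm σ hσ, hG₀v, hG₀v, hgB]
  · intro x hx
    have hxX : x ∈ X := by
      rw [hX]
      exact Submodule.mem_sup_left hx
    rw [hG₀v, hg x hxX, hφ, hψ0 x hx, zero_smul, add_zero]
  · have hbX : b ∈ X := by
      rw [hX]
      exact Submodule.mem_sup_right (Submodule.mem_span_singleton_self b)
    rw [hG₀v, hg b hbX, hφ, hψ1, one_smul]
    abel

/-- the stabiliser of a non-degenerate `W` in `SU` is transitive up to scalars on the isotropic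
vectors `w + u` of a given type -/
theorem ntrans (hF : Fintype.card F = q ^ 2) (hn : 13 ≤ n) (W : Submodule F (Fin n → F))
    (hWnd : Cfsg.Geo.IsNondegenerateOn (Cfsg.hermForm n F q) W)
    (hdim : 2 * Module.finrank F W < n)
    (w u w' u' : Fin n → F) (hw : w ∈ W) (hw' : w' ∈ W)
    (hu : ∀ x ∈ W, Cfsg.hermForm n F q x u = 0) (hu' : ∀ x ∈ W, Cfsg.hermForm n F q x u' = 0)
    (hw0 : w ≠ 0) (hw'0 : w' ≠ 0) (hu0 : u ≠ 0) (hu'0 : u' ≠ 0)
    (ha : Cfsg.hermForm n F q (w + u) (w + u) = 0)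
    (hv : Cfsg.hermForm n F q (w' + u') (w' + u') = 0)
    (htype : Cfsg.hermForm n F q w w = 0 ↔ Cfsg.hermForm n F q w' w' = 0) :
    ∃ h : Matrix.GeneralLinearGroup (Fin n) F,
      h ∈ Cfsg.Geo.subspaceStabilizer W ⊓ (Cfsg.GU n F q ⊓ Cfsg.Geo.specialLinear (Fin n) F) ∧
      ∃ c : F, c ≠ 0 ∧ (h : Matrix (Fin n) (Fin n) F) *ᵥ (w + u) = c • (w' + u') := by
  classical
  have hf := Cfsg.Agent.Lib.Helper94.HermStd.hermForm_isUnitary (n := n) hF
  obtain ⟨σ, hσdef⟩ : ∃ σ : F ≃+* F, σ = Cfsg.Agent.Lib.Helper94.HermStd.frobQ hF := ⟨_, rfl⟩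
  rw [← hσdef] at hf
  have hσq : ∀ x, σ x = x ^ q := fun x => by rw [hσdef]; rfl
  obtain ⟨f, hfdef⟩ : ∃ f : (Fin n → F) → (Fin n → F) → F, f = Cfsg.hermForm n F q := ⟨_, rfl⟩
  rw [← hfdef] at hf hWnd hu hu' ha hv htype
  have hk2 : Module.finrank F W + 2 < Fintype.card (Fin n) := by
    rw [Fintype.card_fin]
    omega
  have hu2 : ∀ x ∈ W, f u x = 0 := fun x hx => (eq_zero_comm hf _ _).1 (hu x hx)
  have hu'2 : ∀ x ∈ W, f u' x = 0 := fun x hx => (eq_zero_comm hf _ _).1 (hu' x hx)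
  obtain ⟨t, ht⟩ : ∃ t : F, t = f w w := ⟨_, rfl⟩
  obtain ⟨t', ht'⟩ : ∃ t' : F, t' = f w' w' := ⟨_, rfl⟩
  have hσt : σ t = t := by rw [ht, self_fixed hf]
  have hσt' : σ t' = t' := by rw [ht', self_fixed hf]
  have huu : f u u = -t := by
    rw [split hf W w w u u hw hw hu hu, ← ht] at ha
    linear_combination ha
  have hu'u' : f u' u' = -t' := by
    rw [split hf W w' w' u' u' hw' hw' hu' hu', ← ht'] at hv
    linear_combination hv
  rw [← ht, ← ht'] at htype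
  have hc : ∃ c : F, c ≠ 0 ∧ c * σ c * t' = t := by
    by_cases ht'0 : t' = 0
    · refine ⟨1, one_ne_zero, ?_⟩
      rw [ht'0, htype.2 ht'0, mul_zero]
    · have ht0 : t ≠ 0 := fun h => ht'0 (htype.1 h)
      obtain ⟨c, hc⟩ := norm_surj hf (t / t') (by rw [map_div₀, hσt, hσt'])
      refine ⟨c, ?_, ?_⟩
      · rintro rfl
        rw [zero_mul] at hc
        exact div_ne_zero ht0 ht'0 hc.symm
      · rw [hc, div_mul_cancel₀ _ ht'0]
  obtain ⟨c, hc0, hc⟩ := hc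
  have hcw'0 : c • w' ≠ 0 := smul_ne_zero hc0 hw'0
  have hcu'0 : c • u' ≠ 0 := smul_ne_zero hc0 hu'0
  have hcw'W : c • w' ∈ W := W.smul_mem c hw'
  have hcu' : ∀ x ∈ W, f x (c • u') = 0 := fun x hx => by
    rw [smul_right hf, hu' x hx, mul_zero]
  -- first move: fix `W^⊥`, move `w` to `c • w'`
  obtain ⟨G₂, hG₂p, hG₂U, hG₂w⟩ := move_mat hF (perpS hf W) w (c • w')
    (fun x hx => by
      have h1 := (eq_zero_comm hf _ _).1 (hx w hw)
      rw [hfdef] at h1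
      exact h1)
    (fun x hx => by
      have h1 := (eq_zero_comm hf _ _).1 (hx (c • w') hcw'W)
      rw [hfdef] at h1
      exact h1)
    (fun h => hw0 (perp_inf hf W hWnd w hw h))
    (fun h => hcw'0 (perp_inf hf W hWnd (c • w') hcw'W h))
    (by
      rw [← hfdef, hf.smul_left, smul_right hf, ← ht, ← ht']
      linear_combination -hc)
  -- second move: fix `W`, move `u` to `c • u'`
  obtain ⟨G₁, hG₁p, hG₁W, hG₁u⟩ := move_mat hF W u (c • u')
    (fun x hx => by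
      have h1 := hu x hx
      rw [hfdef] at h1
      exact h1)
    (fun x hx => by
      have h1 := hcu' x hx
      rw [hfdef] at h1
      exact h1)
    (fun h => hu0 (perp_inf hf W hWnd u h hu))
    (fun h => hcu'0 (perp_inf hf W hWnd (c • u') h hcu'))
    (by
      rw [← hfdef, hf.smul_left, smul_right hf, huu, hu'u']
      linear_combination hc)
  rw [← hfdef] at hG₂p hG₁p
  have hG₂W : ∀ x ∈ W, G₂ *ᵥ x ∈ W := by
    intro x hx
    by_contra hxW
    obtain ⟨r, hr, hxr⟩ := exists_perp_ne hf W _ hxW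
    apply hxr
    rw [← hG₂U r hr, hG₂p]
    exact hr x hx
  obtain ⟨G₀, hG₀⟩ : ∃ G₀ : Matrix (Fin n) (Fin n) F, G₀ = G₁ * G₂ := ⟨_, rfl⟩
  have hG₀p : ∀ x y, f (G₀ *ᵥ x) (G₀ *ᵥ y) = f x y := by
    intro x y
    rw [hG₀, ← Matrix.mulVec_mulVec, ← Matrix.mulVec_mulVec, hG₁p, hG₂p]
  have hG₀W : ∀ x ∈ W, G₀ *ᵥ x ∈ W := by
    intro x hx
    rw [hG₀, ← Matrix.mulVec_mulVec, hG₁W _ (hG₂W x hx)]
    exact hG₂W x hx
  have hG₀a : G₀ *ᵥ (w + u) = c • (w' + u') := by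
    rw [hG₀, ← Matrix.mulVec_mulVec, Matrix.mulVec_add, hG₂w, hG₂U u hu, Matrix.mulVec_add,
      hG₁W _ hcw'W, hG₁u, smul_add]
  have hD := Cfsg.Agent.Lib.Helper45.SUCard.det_mul_det_pow
    (Cfsg.Agent.Lib.Helper94.HermStd.frobHom hF) (fun x => rfl) G₀ (by
      intro x y
      have h1 := hG₀p x y
      rw [hfdef] at h1
      exact h1)
  obtain ⟨D, hDdef⟩ : ∃ D : F, D = G₀.det := ⟨_, rfl⟩
  rw [← hDdef] at hD
  have hD0 : D ≠ 0 := left_ne_zero_of_mul_eq_one hD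
  obtain ⟨y, hyW, hyu', hyy⟩ := exists_norm_perp2 hf W hWnd hk2 u' hu' hu'0 1 (map_one σ)
  have hyy0 : f y y ≠ 0 := by
    rw [hyy]
    exact one_ne_zero
  have hl : D⁻¹ * σ D⁻¹ = 1 := by
    rw [hσq, inv_pow, ← mul_inv, hD, inv_one]
  obtain ⟨G₀', hG₀'⟩ : ∃ G₀' : Matrix.GeneralLinearGroup (Fin n) F,
      (G₀' : Matrix (Fin n) (Fin n) F) = G₀ :=
    ⟨Matrix.GeneralLinearGroup.mkOfDetNeZero G₀ (by rw [← hDdef]; exact hD0), rfl⟩
  refine ⟨qr hf y D⁻¹ * G₀', Subgroup.mem_inf.2 ⟨?_, Subgroup.mem_inf.2 ⟨?_, ?_⟩⟩, c, hc0, ?_⟩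
  · apply Cfsg.Agent.Lib.Helper94.SympBlock.mem_stab_of_forall
    intro x hx
    rw [Units.val_mul, ← Matrix.mulVec_mulVec, hG₀', qr_fix hf y D⁻¹ _ (hyW _ (hG₀W x hx))]
    exact hG₀W x hx
  · rw [Cfsg.Agent.Lib.Helper94.Herm2.mem_GU_iff]
    intro x y
    rw [Units.val_mul, ← Matrix.mulVec_mulVec, ← Matrix.mulVec_mulVec, hG₀', ← hfdef,
      qr_isom hf, hG₀p]
  · rw [Cfsg.Agent.Lib.Helper94.GLAux.mem_specialLinear_iff, Units.val_mul, Matrix.det_mul,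
      qr_det hf y D⁻¹ hyy0 hl, hG₀', ← hDdef, inv_mul_cancel₀ hD0]
  · rw [Units.val_mul, ← Matrix.mulVec_mulVec, hG₀', hG₀a]
    apply qr_fix hf y D⁻¹
    rw [hf.smul_left, hf.add_left, hyW w' hw', (eq_zero_comm hf _ _).1 hyu']
    ring

end mat

section abs2

variable {ι : Type} [Fintype ι] [DecidableEq ι] {F : Type*} [Field F] [Fintype F]
variable {σ : F ≃+* F} {f : (ι → F) → (ι → F) → F}

/-- an isotropic partner inside `W` -/
theorem partner_in (hf : Cfsg.Geo.IsUnitaryForm σ f) (W : Submodule F (ι → F))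
    (hWnd : Cfsg.Geo.IsNondegenerateOn f W) (w : ι → F) (hw : w ∈ W) (hw0 : w ≠ 0)
    (hww : f w w = 0) : ∃ e ∈ W, f e e = 0 ∧ f e w = 1 := by
  obtain ⟨⟨x, hx, hxw⟩, -⟩ := hWnd w hw hw0
  obtain ⟨e₀, he₀⟩ : ∃ e₀ : ι → F, e₀ = (f x w)⁻¹ • x := ⟨_, rfl⟩
  have he₀w : f e₀ w = 1 := by rw [he₀, hf.smul_left, inv_mul_cancel₀ hxw]
  have hwe₀ : f w e₀ ≠ 0 := by
    intro h
    rw [(eq_zero_comm hf _ _).1 h] at he₀w
    exact zero_ne_one he₀w
  obtain ⟨d, hd⟩ := adjust_iso hf w e₀ hww hwe₀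
  refine ⟨e₀ + d • w, W.add_mem (by rw [he₀]; exact W.smul_mem _ hx) (W.smul_mem _ hw), hd, ?_⟩
  rw [hf.add_left, hf.smul_left, hww, mul_zero, add_zero, he₀w]

/-- an isotropic partner inside `W^⊥` -/
theorem partner_out (hf : Cfsg.Geo.IsUnitaryForm σ f) (W : Submodule F (ι → F))
    (hWnd : Cfsg.Geo.IsNondegenerateOn f W) (u : ι → F) (hu : ∀ x ∈ W, f x u = 0) (hu0 : u ≠ 0)
    (huu : f u u = 0) : ∃ e, (∀ x ∈ W, f x e = 0) ∧ f e e = 0 ∧ f e u = 1 := by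
  have hunW : u ∉ W := fun h => hu0 (perp_inf hf W hWnd u h hu)
  obtain ⟨r, hr, hur⟩ := exists_perp_ne hf W u hunW
  have hru : f r u ≠ 0 := fun h => hur ((eq_zero_comm hf _ _).1 h)
  obtain ⟨e₀, he₀⟩ : ∃ e₀ : ι → F, e₀ = (f r u)⁻¹ • r := ⟨_, rfl⟩
  have he₀w : f e₀ u = 1 := by rw [he₀, hf.smul_left, inv_mul_cancel₀ hru]
  have hwe₀ : f u e₀ ≠ 0 := by
    intro h
    rw [(eq_zero_comm hf _ _).1 h] at he₀w
    exact zero_ne_one he₀w
  obtain ⟨d, hd⟩ := adjust_iso hf u e₀ huu hwe₀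
  refine ⟨e₀ + d • u, ?_, hd, ?_⟩
  · intro x hx
    rw [add_right hf, smul_right hf, he₀, smul_right hf, hr x hx, hu x hx]
    simp
  · rw [hf.add_left, hf.smul_left, huu, mul_zero, add_zero, he₀w]

/-- a vector with both components isotropic is a sum of two vectors with anisotropic components
spanning a hyperbolic line -/
theorem hyp_10 (hf : Cfsg.Geo.IsUnitaryForm σ f) (W : Submodule F (ι → F))
    (hWnd : Cfsg.Geo.IsNondegenerateOn f W) (hcard : Module.finrank F W + 2 < Fintype.card ι)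
    (w' u' : ι → F) (hw' : w' ∈ W) (hu' : ∀ x ∈ W, f x u' = 0) (hw'0 : w' ≠ 0) (hu'0 : u' ≠ 0)
    (hw'w' : f w' w' = 0) (hu'u' : f u' u' = 0) :
    ∃ w₁ u₁ w₂ u₂ : ι → F, w₁ ∈ W ∧ w₂ ∈ W ∧ (∀ x ∈ W, f x u₁ = 0) ∧ (∀ x ∈ W, f x u₂ = 0) ∧
      f w₁ w₁ ≠ 0 ∧ f w₂ w₂ ≠ 0 ∧ f (w₁ + u₁) (w₁ + u₁) = 0 ∧ f (w₂ + u₂) (w₂ + u₂) = 0 ∧
      f (w₁ + u₁) (w₂ + u₂) ≠ 0 ∧ (w₁ + u₁) + (w₂ + u₂) = w' + u' := by
  obtain ⟨e₂, he₂W, he₂e₂, he₂w'⟩ := partner_in hf W hWnd w' hw' hw'0 hw'w'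
  obtain ⟨e₂', he₂'W, he₂'e₂', he₂'u'⟩ := partner_out hf W hWnd u' hu' hu'0 hu'u'
  have he₂'0 : e₂' ≠ 0 := by
    rintro rfl
    rw [zero_left hf] at he₂'u'
    exact zero_ne_one he₂'u'
  obtain ⟨z, hzW, hze₂', hzz⟩ := exists_norm_perp2 hf W hWnd hcard e₂' he₂'W he₂'0 (-1)
    (by rw [map_neg, map_one])
  obtain ⟨θ, hθ⟩ := tr_surj hf 1 (map_one σ)
  obtain ⟨κ, hκ0, hκ⟩ := exists_skew_ne hf
  have hw'e₂ : f w' e₂ = 1 := by rw [hf.herm, he₂w', map_one]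
  have hu'e₂' : f u' e₂' = 1 := by rw [hf.herm, he₂'u', map_one]
  have he₂'z : f e₂' z = 0 := (eq_zero_comm hf _ _).1 hze₂'
  obtain ⟨y', hy'⟩ : ∃ y' : F, y' = κ - 1 - f z u' := ⟨_, rfl⟩
  obtain ⟨w₂, hw₂⟩ : ∃ w₂ : ι → F, w₂ = θ • w' + e₂ := ⟨_, rfl⟩
  obtain ⟨u₂, hu₂⟩ : ∃ u₂ : ι → F, u₂ = y' • e₂' + z := ⟨_, rfl⟩
  have hw₂W : w₂ ∈ W := by
    rw [hw₂]
    exact W.add_mem (W.smul_mem _ hw') he₂W
  have hu₂W : ∀ x ∈ W, f x u₂ = 0 := by
    intro x hx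
    rw [hu₂, add_right hf, smul_right hf, he₂'W x hx, hzW x hx]
    simp
  have hu₁W : ∀ x ∈ W, f x (u' - u₂) = 0 := by
    intro x hx
    rw [sub_right hf, hu' x hx, hu₂W x hx, sub_zero]
  have n1 : f w₂ w₂ = 1 := by
    rw [hw₂]
    simp only [hf.add_left, add_right hf, hf.smul_left, smul_right hf, hw'w', he₂e₂, he₂w', hw'e₂]
    linear_combination hθ
  have n2 : f u₂ u₂ = -1 := by
    rw [hu₂]
    simp only [hf.add_left, add_right hf, hf.smul_left, smul_right hf, he₂'e₂', he₂'z, hze₂', hzz]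
    ring
  have n3 : f w₂ w' = 1 := by
    rw [hw₂, hf.add_left, hf.smul_left, hw'w', he₂w']
    ring
  have n3' : f w' w₂ = 1 := by rw [hf.herm, n3, map_one]
  have n4 : f u₂ u' = κ - 1 := by
    rw [hu₂, hf.add_left, hf.smul_left, he₂'u', hy']
    ring
  have n4' : f u' u₂ = -κ - 1 := by rw [hf.herm, n4, map_sub, map_one, hκ]
  have n5 : f (w' - w₂) (w' - w₂) = -1 := by
    simp only [sub_left hf, sub_right hf, hw'w', n3, n3', n1]
    ring
  have n6 : f (u' - u₂) (u' - u₂) = 1 := by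
    simp only [sub_left hf, sub_right hf, hu'u', n4, n4', n2]
    ring
  refine ⟨w' - w₂, u' - u₂, w₂, u₂, W.sub_mem hw' hw₂W, hw₂W, hu₁W, hu₂W, ?_, ?_, ?_, ?_, ?_, ?_⟩
  · rw [n5]
    exact neg_ne_zero.2 one_ne_zero
  · rw [n1]
    exact one_ne_zero
  · rw [split hf W _ _ _ _ (W.sub_mem hw' hw₂W) (W.sub_mem hw' hw₂W) hu₁W hu₁W, n5, n6]
    ring
  · rw [split hf W _ _ _ _ hw₂W hw₂W hu₂W hu₂W, n1, n2]
    ring
  · rw [split hf W _ _ _ _ (W.sub_mem hw' hw₂W) hw₂W hu₁W hu₂W, sub_left hf, sub_left hf, n3',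
      n1, n4', n2]
    intro h
    apply hκ0
    linear_combination -h
  · abel

/-- from a vector with both components isotropic to one with anisotropic components -/
theorem hyp_01 (hf : Cfsg.Geo.IsUnitaryForm σ f) (W : Submodule F (ι → F))
    (hWnd : Cfsg.Geo.IsNondegenerateOn f W) (w u : ι → F) (hw : w ∈ W)
    (hu : ∀ x ∈ W, f x u = 0) (hw0 : w ≠ 0) (hu0 : u ≠ 0) (hww : f w w = 0) (huu : f u u = 0) :
    ∃ (w₂ u₂ : ι → F) (μ : F), w₂ ∈ W ∧ (∀ x ∈ W, f x u₂ = 0) ∧ w₂ ≠ 0 ∧ u₂ ≠ 0 ∧ f w₂ w₂ = 0 ∧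
      f u₂ u₂ = 0 ∧ f (w + u) (w₂ + u₂) ≠ 0 ∧ f (w + μ • w₂) (w + μ • w₂) ≠ 0 ∧
      f ((w + μ • w₂) + (u + μ • u₂)) ((w + μ • w₂) + (u + μ • u₂)) = 0 := by
  obtain ⟨e₂, he₂W, he₂e₂, he₂w⟩ := partner_in hf W hWnd w hw hw0 hww
  obtain ⟨e₂', he₂'W, he₂'e₂', he₂'u⟩ := partner_out hf W hWnd u hu hu0 huu
  have he₂0 : e₂ ≠ 0 := by
    rintro rfl
    rw [zero_left hf] at he₂w
    exact zero_ne_one he₂w
  have he₂'0 : e₂' ≠ 0 := by
    rintro rfl
    rw [zero_left hf] at he₂'u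
    exact zero_ne_one he₂'u
  obtain ⟨θ, hθ⟩ := tr_surj hf 1 (map_one σ)
  obtain ⟨κ, hκ0, hκ⟩ := exists_skew_ne hf
  have hθ0 : θ ≠ 0 := by
    rintro rfl
    rw [map_zero, add_zero] at hθ
    exact zero_ne_one hθ
  obtain ⟨β, hβ⟩ : ∃ β : F, β = κ / θ - 1 := ⟨_, rfl⟩
  have hθβ : θ * β = κ - θ := by
    rw [hβ]
    field_simp
  have hβ0 : β ≠ 0 := by
    intro h
    rw [h, mul_zero] at hθβ
    have h1 : κ = θ := by linear_combination -hθβ
    rw [← h1, hκ] at hθ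
    simp at hθ
  have hσθβ : σ θ * σ β = -κ - σ θ := by rw [← map_mul, hθβ, map_sub, hκ]
  have hwe₂ : f w e₂ = 1 := by rw [hf.herm, he₂w, map_one]
  have hue₂' : f u e₂' = 1 := by rw [hf.herm, he₂'u, map_one]
  have hu₂W : ∀ x ∈ W, f x (β • e₂') = 0 := fun x hx => by
    rw [smul_right hf, he₂'W x hx, mul_zero]
  have hpW : ∀ x ∈ W, f x (u + θ • β • e₂') = 0 := fun x hx => by
    rw [add_right hf, smul_right hf, hu x hx, hu₂W x hx, mul_zero, add_zero]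
  have h1 : f (w + θ • e₂) (w + θ • e₂) = 1 := by
    simp only [hf.add_left, add_right hf, hf.smul_left, smul_right hf, hww, he₂e₂, he₂w, hwe₂]
    linear_combination hθ
  have h2 : f (u + θ • β • e₂') (u + θ • β • e₂') = -1 := by
    simp only [hf.add_left, add_right hf, hf.smul_left, smul_right hf, huu, he₂'e₂', he₂'u, hue₂']
    linear_combination hθβ + hσθβ - hθ
  refine ⟨e₂, β • e₂', θ, he₂W, hu₂W, he₂0, smul_ne_zero hβ0 he₂'0, he₂e₂, ?_, ?_, ?_, ?_⟩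
  · rw [hf.smul_left, smul_right hf, he₂'e₂']
    ring
  · rw [split hf W _ _ _ _ hw he₂W hu hu₂W, hwe₂, smul_right hf, hue₂']
    intro h
    have h3 : σ θ * (1 + σ β * 1) = 0 := by rw [h, mul_zero]
    have h4 : κ = 0 := by linear_combination hσθβ - h3
    exact hκ0 h4
  · rw [h1]
    exact one_ne_zero
  · rw [split hf W _ _ _ _ (W.add_mem hw (W.smul_mem _ he₂W)) (W.add_mem hw (W.smul_mem _ he₂W))
      hpW hpW, h1, h2]
    ring

end abs2

/-- Let F be the field with q² elements and n ≥ 13. In SU_n(q) (determinant-one isometries of the standard unitary form on F^n) the stabiliser of a non-zero subspace W on which the form is non-degenerate and with 2 dim W < n is a maximal subgroup. -/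
theorem result {F : Type*} [Field F] [Fintype F] (n q : ℕ) (hF : Fintype.card F = q ^ 2) (hn : 13 ≤ n) (W : Submodule F (Fin n → F)) (hW0 : W ≠ ⊥) (hW : Cfsg.Geo.IsNondegenerateOn (Cfsg.hermForm n F q) W) (hdim : 2 * Module.finrank F W < n) : Cfsg.Geo.IsMaximalIn (Cfsg.GU n F q ⊓ Cfsg.Geo.specialLinear (Fin n) F) (Cfsg.Geo.subspaceStabilizer W ⊓ (Cfsg.GU n F q ⊓ Cfsg.Geo.specialLinear (Fin n) F)) := by
  classical
  have hf := Cfsg.Agent.Lib.Helper94.HermStd.hermForm_isUnitary (n := n) hF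
  have hcard : 9 ≤ Fintype.card (Fin n) := by
    rw [Fintype.card_fin]
    omega
  have hk2 : Module.finrank F W + 2 < Fintype.card (Fin n) := by
    rw [Fintype.card_fin]
    omega
  have hmemS : ∀ g : Matrix.GeneralLinearGroup (Fin n) F,
      g ∈ Cfsg.GU n F q ⊓ Cfsg.Geo.specialLinear (Fin n) F ↔
      (∀ x y, Cfsg.hermForm n F q ((g : Matrix (Fin n) (Fin n) F) *ᵥ x) ((g : Matrix (Fin n) (Fin n) F) *ᵥ y) = Cfsg.hermForm n F q x y) ∧ (g : Matrix (Fin n) (Fin n) F).det = 1 := by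
    intro g
    rw [Subgroup.mem_inf, Cfsg.Agent.Lib.Helper94.Herm2.mem_GU_iff,
      Cfsg.Agent.Lib.Helper94.GLAux.mem_specialLinear_iff]
  have hutS : ∀ a κ, ut hf a κ ∈ Cfsg.GU n F q ⊓ Cfsg.Geo.specialLinear (Fin n) F := fun a κ =>
    (hmemS _).2 ⟨ut_isom hf a κ,
      (Cfsg.Agent.Lib.Helper94.GLAux.mem_specialLinear_iff _).1 (ut_mem_SL hf a κ)⟩
  have hutPU : ∀ a, (∀ w ∈ W, Cfsg.hermForm n F q w a = 0) → ∀ κ, ut hf a κ ∈ Cfsg.Geo.subspaceStabilizer W ⊓ (Cfsg.GU n F q ⊓ Cfsg.Geo.specialLinear (Fin n) F) := by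
    intro a haW κ
    refine ⟨Cfsg.Agent.Lib.Helper94.SympBlock.mem_stab_of_forall _ W ?_, hutS a κ⟩
    intro w hw
    rw [ut_fix hf a κ w (haW w hw)]
    exact hw
  have hutPW : ∀ a ∈ W, ∀ κ, ut hf a κ ∈ Cfsg.Geo.subspaceStabilizer W ⊓ (Cfsg.GU n F q ⊓ Cfsg.Geo.specialLinear (Fin n) F) := by
    intro a haW κ
    refine ⟨Cfsg.Agent.Lib.Helper94.SympBlock.mem_stab_of_forall _ W ?_, hutS a κ⟩
    intro x hx
    by_cases h : Cfsg.hermForm n F q a a = 0 ∧ Cfsg.Agent.Lib.Helper94.HermStd.frobQ hF κ = -κ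
    · rw [ut_mulVec hf a κ h.1 h.2]
      exact W.add_mem hx (W.smul_mem _ haW)
    · rw [ut_not hf a κ h, Units.val_one, Matrix.one_mulVec]
      exact hx
  obtain ⟨w0, hw0, hw00⟩ := Submodule.exists_mem_ne_zero_of_ne_bot hW0
  have hnd' : ∀ u ∈ W, (∀ u' ∈ W, Cfsg.hermForm n F q u u' = 0) → u = 0 := by
    intro u hu h
    by_contra h0
    obtain ⟨-, ⟨x, hx, hux⟩⟩ := hW u hu h0
    exact hux (h x hx)
  have hmix : ∃ w ∈ W, ∃ u, (∀ x ∈ W, Cfsg.hermForm n F q x u = 0) ∧ w ≠ 0 ∧ u ≠ 0 ∧ Cfsg.hermForm n F q (w + u) (w + u) = 0 := by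
    obtain ⟨z₁, hz₁W, hz₁⟩ := Cfsg.Agent.S0780.exists_norm_perp' hf W (by omega) hnd' 1
      (map_one _)
    have hz₁W' : ∀ x ∈ W, Cfsg.hermForm n F q x z₁ = 0 := fun x hx => (eq_zero_comm hf _ _).1 (hz₁W x hx)
    have hz₁0 : z₁ ≠ 0 := by
      rintro rfl
      rw [zero_left hf] at hz₁
      exact zero_ne_one hz₁
    obtain ⟨z₂, hz₂W, hz₂z₁, hz₂⟩ := exists_norm_perp2 hf W hW hk2 z₁ hz₁W' hz₁0
      (-(Cfsg.hermForm n F q w0 w0) - 1) (by rw [map_sub, map_neg, self_fixed hf, map_one])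
    have hz₁z₂ : Cfsg.hermForm n F q z₁ z₂ = 0 := (eq_zero_comm hf _ _).1 hz₂z₁
    have huW : ∀ x ∈ W, Cfsg.hermForm n F q x (z₁ + z₂) = 0 := fun x hx => by
      rw [add_right hf, hz₁W' x hx, hz₂W x hx, add_zero]
    have huu : Cfsg.hermForm n F q (z₁ + z₂) (z₁ + z₂) = -(Cfsg.hermForm n F q w0 w0) := by
      rw [hf.add_left, add_right hf, add_right hf, hz₁, hz₁z₂, hz₂z₁, hz₂]
      ring
    refine ⟨w0, hw0, z₁ + z₂, huW, hw00, ?_, ?_⟩
    · intro h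
      have h1 : z₂ = -z₁ := by
        rw [eq_neg_iff_add_eq_zero, add_comm]
        exact h
      rw [h1, neg_left hf, hz₁] at hz₂z₁
      exact one_ne_zero (neg_eq_zero.1 hz₂z₁)
    · rw [split hf W _ _ _ _ hw0 hw0 huW huW, huu]
      ring
  constructor
  · rw [SetLike.lt_iff_le_and_exists]
    obtain ⟨w, hw, u, huW, hw0', hu0, hiso⟩ := hmix
    obtain ⟨⟨x, hx, hxw⟩, -⟩ := hW w hw hw0'
    obtain ⟨κ, hκ0, hκ⟩ := exists_skew_ne hf
    refine ⟨inf_le_right, ut hf (w + u) κ, hutS _ κ, ?_⟩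
    rintro ⟨hstab, -⟩
    have h1 := ((Cfsg.Agent.Lib.Helper94.Basic.mem_subspaceStabilizer_iff W _).mp hstab x).mp hx
    rw [ut_mulVec hf _ κ hiso hκ] at h1
    have hxa : Cfsg.hermForm n F q x (w + u) ≠ 0 := by
      rw [add_right hf, huW x hx, add_zero]
      exact hxw
    have h2 : (κ * Cfsg.hermForm n F q x (w + u)) • (w + u) ∈ W := by
      have h3 := W.sub_mem h1 hx
      rwa [add_sub_cancel_left] at h3
    have h3 : w + u ∈ W := by
      have h4 := W.smul_mem (κ * Cfsg.hermForm n F q x (w + u))⁻¹ h2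
      rwa [smul_smul, inv_mul_cancel₀ (mul_ne_zero hκ0 hxa), one_smul] at h4
    have h4 : u ∈ W := by
      have h5 := W.sub_mem h3 hw
      rwa [add_sub_cancel_left] at h5
    exact hu0 (perp_inf hf W hW u h4 huW)
  · intro M hHM hMS
    by_cases hMH : M ≤ Cfsg.Geo.subspaceStabilizer W ⊓ (Cfsg.GU n F q ⊓ Cfsg.Geo.specialLinear (Fin n) F)
    · left
      exact le_antisymm hMH hHM
    right
    apply le_antisymm hMS
    obtain ⟨g, hgM, hgH⟩ := SetLike.not_le_iff_exists.mp hMH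
    have hMiso : ∀ g ∈ M, ∀ x y, Cfsg.hermForm n F q ((g : Matrix (Fin n) (Fin n) F) *ᵥ x) ((g : Matrix (Fin n) (Fin n) F) *ᵥ y) = Cfsg.hermForm n F q x y :=
      fun g hg => ((hmemS g).1 (hMS hg)).1
    have hTW : ∀ a ∈ W, Cfsg.hermForm n F q a a = 0 → a ∈ utSet hf M :=
      fun a haW haa => ⟨haa, fun κ => hHM (hutPW a haW κ)⟩
    have hTU : ∀ a, (∀ x ∈ W, Cfsg.hermForm n F q x a = 0) → Cfsg.hermForm n F q a a = 0 → a ∈ utSet hf M :=
      fun a haW haa => ⟨haa, fun κ => hHM (hutPU a haW κ)⟩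
    have htr : ∀ w u w' u' : Fin n → F, w ∈ W → w' ∈ W → (∀ x ∈ W, Cfsg.hermForm n F q x u = 0) →
        (∀ x ∈ W, Cfsg.hermForm n F q x u' = 0) → w ≠ 0 → w' ≠ 0 → u ≠ 0 → u' ≠ 0 →
        Cfsg.hermForm n F q (w' + u') (w' + u') = 0 → (Cfsg.hermForm n F q w w = 0 ↔ Cfsg.hermForm n F q w' w' = 0) → w + u ∈ utSet hf M → w' + u' ∈ utSet hf M := by
      intro w u w' u' hw hw' hu hu' hw0 hw'0 hu0 hu'0 hv htype haT
      obtain ⟨h, hhP, c, hc0, hha⟩ := ntrans hF hn W hW hdim w u w' u' hw hw' hu hu' hw0 hw'0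
        hu0 hu'0 haT.1 hv htype
      have h1 := utSet_map hf M hMiso (hHM hhP) haT
      rw [hha] at h1
      have h2 := utSet_smul hf M h1 c⁻¹
      rwa [smul_smul, inv_mul_cancel₀ hc0, one_smul] at h2
    have hC : ∃ a ∈ utSet hf M, a ∉ W ∧ ¬ (∀ x ∈ W, Cfsg.hermForm n F q x a = 0) := by
      by_contra hcon
      push Not at hcon
      apply hgH
      have hgd : ∀ d, (∀ x ∈ W, Cfsg.hermForm n F q x d = 0) → Cfsg.hermForm n F q d d = 0 → (g : Matrix (Fin n) (Fin n) F) *ᵥ d ∈ utSet hf M :=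
        fun d hdW hdd => utSet_map hf M hMiso hgM (hTU d hdW hdd)
      have hS : ∀ d d', (∀ x ∈ W, Cfsg.hermForm n F q x d = 0) → Cfsg.hermForm n F q d d = 0 → (∀ x ∈ W, Cfsg.hermForm n F q x d' = 0) → Cfsg.hermForm n F q d' d' = 0 →
          Cfsg.hermForm n F q d d' ≠ 0 → (g : Matrix (Fin n) (Fin n) F) *ᵥ d' ∈ W → (g : Matrix (Fin n) (Fin n) F) *ᵥ d ∈ W := by
        intro d d' hdW hdd hd'W hd'd' hdd' hgd'
        by_contra hgdW
        have h1 := hcon _ (hgd d hdW hdd) hgdW ((g : Matrix (Fin n) (Fin n) F) *ᵥ d') hgd'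
        rw [hMiso g hgM] at h1
        exact hdd' ((eq_zero_comm hf _ _).1 h1)
      have hcases : (∀ d, (∀ x ∈ W, Cfsg.hermForm n F q x d = 0) → Cfsg.hermForm n F q d d = 0 → ∀ x ∈ W, Cfsg.hermForm n F q x ((g : Matrix (Fin n) (Fin n) F) *ᵥ d) = 0) ∨
          (∀ d, (∀ x ∈ W, Cfsg.hermForm n F q x d = 0) → Cfsg.hermForm n F q d d = 0 → (g : Matrix (Fin n) (Fin n) F) *ᵥ d ∈ W) := by
        by_cases hallU : ∀ d, (∀ x ∈ W, Cfsg.hermForm n F q x d = 0) → Cfsg.hermForm n F q d d = 0 → ∀ x ∈ W, Cfsg.hermForm n F q x ((g : Matrix (Fin n) (Fin n) F) *ᵥ d) = 0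
        · exact Or.inl hallU
        · right
          push Not at hallU
          obtain ⟨d₀, hd₀W, hd₀d₀, x₀, hx₀, hx₀d₀⟩ := hallU
          have hgd₀W : (g : Matrix (Fin n) (Fin n) F) *ᵥ d₀ ∈ W := by
            by_contra hno
            exact hx₀d₀ (hcon _ (hgd d₀ hd₀W hd₀d₀) hno x₀ hx₀)
          have hd₀0 : d₀ ≠ 0 := by
            rintro rfl
            rw [Matrix.mulVec_zero, zero_right hf] at hx₀d₀
            exact hx₀d₀ rfl
          intro d hdW hdd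
          by_cases hd0 : d = 0
          · rw [hd0, Matrix.mulVec_zero]
            exact W.zero_mem
          by_cases hdd₀ : Cfsg.hermForm n F q d d₀ = 0
          · have hd₀nW : d₀ ∉ W := fun h => hd₀0 (perp_inf hf W hW d₀ h hd₀W)
            have hdnW : d ∉ W := fun h => hd0 (perp_inf hf W hW d h hdW)
            obtain ⟨x₁, hx₁W, hx₁⟩ := exists_perp_ne hf W d₀ hd₀nW
            obtain ⟨x₂, hx₂W, hx₂⟩ := exists_perp_ne hf W d hdnW
            have hx : ∃ x, (∀ y ∈ W, Cfsg.hermForm n F q y x = 0) ∧ Cfsg.hermForm n F q d₀ x ≠ 0 ∧ Cfsg.hermForm n F q d x ≠ 0 := by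
              by_cases h3 : Cfsg.hermForm n F q d x₁ = 0
              · by_cases h4 : Cfsg.hermForm n F q d₀ x₂ = 0
                · refine ⟨x₁ + x₂, fun y hy => by
                    rw [add_right hf, hx₁W y hy, hx₂W y hy, add_zero], ?_, ?_⟩
                  · rw [add_right hf, h4, add_zero]
                    exact hx₁
                  · rw [add_right hf, h3, zero_add]
                    exact hx₂
                · exact ⟨x₂, hx₂W, h4, hx₂⟩
              · exact ⟨x₁, hx₁W, hx₁, h3⟩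
            obtain ⟨x, hxW, hd₀x, hdx⟩ := hx
            obtain ⟨e, he⟩ := adjust_iso hf d₀ x hd₀d₀ hd₀x
            have hd'W : ∀ y ∈ W, Cfsg.hermForm n F q y (x + e • d₀) = 0 := fun y hy => by
              rw [add_right hf, smul_right hf, hxW y hy, hd₀W y hy, mul_zero, add_zero]
            have h5 : Cfsg.hermForm n F q (x + e • d₀) d₀ ≠ 0 := by
              rw [hf.add_left, hf.smul_left, hd₀d₀, mul_zero, add_zero]
              exact fun h => hd₀x ((eq_zero_comm hf _ _).1 h)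
            have h6 : Cfsg.hermForm n F q d (x + e • d₀) ≠ 0 := by
              rw [add_right hf, smul_right hf, hdd₀, mul_zero, add_zero]
              exact hdx
            exact hS d (x + e • d₀) hdW hdd hd'W he h6
              (hS (x + e • d₀) d₀ hd'W he hd₀W hd₀d₀ h5 hgd₀W)
          · exact hS d d₀ hdW hdd hd₀W hd₀d₀ hdd₀ hgd₀W
      rcases hcases with hU | hWc
      · have hgU : ∀ x, (∀ y ∈ W, Cfsg.hermForm n F q y x = 0) → ∀ y ∈ W, Cfsg.hermForm n F q y ((g : Matrix (Fin n) (Fin n) F) *ᵥ x) = 0 := by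
          intro x hx
          obtain ⟨y₁, y₂, hy₁W, hy₂W, hy₁, hy₂, rfl⟩ := sum2 hf W hW hk2 x hx
          intro y hy
          rw [Matrix.mulVec_add, add_right hf, hU y₁ hy₁W hy₁ y hy, hU y₂ hy₂W hy₂ y hy, add_zero]
        have hgstabU : g ∈ Cfsg.Geo.subspaceStabilizer (perpS hf W) :=
          Cfsg.Agent.Lib.Helper94.SympBlock.mem_stab_of_forall g (perpS hf W)
            (fun x hx => hgU x hx)
        refine ⟨Cfsg.Agent.Lib.Helper94.SympBlock.mem_stab_of_forall g W ?_, hMS hgM⟩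
        intro w hw
        by_contra hgw
        obtain ⟨r, hr, hgwr⟩ := exists_perp_ne hf W _ hgw
        apply hgwr
        have h1 : ((g⁻¹ : Matrix.GeneralLinearGroup (Fin n) F) : Matrix (Fin n) (Fin n) F) *ᵥ r ∈ perpS hf W := by
          rw [(Cfsg.Agent.Lib.Helper94.Basic.mem_subspaceStabilizer_iff (perpS hf W) g).1 hgstabU,
            Cfsg.Agent.Lib.Helper94.GLAux.gl_mulVec_inv]
          exact hr
        have h2 := hMiso g hgM w (((g⁻¹ : Matrix.GeneralLinearGroup (Fin n) F) : Matrix (Fin n) (Fin n) F) *ᵥ r)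
        rw [Cfsg.Agent.Lib.Helper94.GLAux.gl_mulVec_inv] at h2
        rw [h2]
        exact h1 w hw
      · exfalso
        have hgU : ∀ x ∈ perpS hf W, (g : Matrix (Fin n) (Fin n) F) *ᵥ x ∈ W := by
          intro x hx
          obtain ⟨y₁, y₂, hy₁W, hy₂W, hy₁, hy₂, rfl⟩ := sum2 hf W hW hk2 x hx
          rw [Matrix.mulVec_add]
          exact W.add_mem (hWc y₁ hy₁W hy₁) (hWc y₂ hy₂W hy₂)
        have hinj : Function.Injective (Matrix.toLin' (g : Matrix (Fin n) (Fin n) F)) := by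
          intro x y hxy
          rw [Matrix.toLin'_apply, Matrix.toLin'_apply] at hxy
          exact Cfsg.Agent.Lib.Helper94.GLAux.gl_mulVec_injective g hxy
        have hle : (perpS hf W).map (Matrix.toLin' (g : Matrix (Fin n) (Fin n) F)) ≤ W := by
          rintro _ ⟨x, hx, rfl⟩
          rw [Matrix.toLin'_apply]
          exact hgU x hx
        have h1 := Submodule.finrank_mono hle
        have h2 := (Submodule.equivMapOfInjective _ hinj (perpS hf W)).finrank_eq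
        have h3 := finrank_perp hf W
        rw [Fintype.card_fin] at h3
        omega
    obtain ⟨a, haT, haW, haU⟩ := hC
    obtain ⟨w, hw, u, hu, rfl⟩ := decomp hf W hW a
    have hw0' : w ≠ 0 := by
      rintro rfl
      apply haU
      intro x hx
      rw [zero_add]
      exact hu x hx
    have hu0 : u ≠ 0 := by
      rintro rfl
      apply haW
      rw [add_zero]
      exact hw
    have huu : Cfsg.hermForm n F q u u = -Cfsg.hermForm n F q w w := by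
      have h := haT.1
      rw [split hf W _ _ _ _ hw hw hu hu] at h
      linear_combination h
    have aux1 : ∀ w₁ u₁, w₁ ∈ W → (∀ x ∈ W, Cfsg.hermForm n F q x u₁ = 0) → Cfsg.hermForm n F q w₁ w₁ ≠ 0 → w₁ + u₁ ∈ utSet hf M →
        ∀ w' u', w' ∈ W → (∀ x ∈ W, Cfsg.hermForm n F q x u' = 0) → Cfsg.hermForm n F q w' w' ≠ 0 → Cfsg.hermForm n F q (w' + u') (w' + u') = 0 →
        w' + u' ∈ utSet hf M := by
      intro w₁ u₁ hw₁ hu₁ hw₁w₁ h₁T w' u' hw' hu' hw'w' hv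
      have e1 : Cfsg.hermForm n F q u₁ u₁ = -Cfsg.hermForm n F q w₁ w₁ := by
        have h := h₁T.1
        rw [split hf W _ _ _ _ hw₁ hw₁ hu₁ hu₁] at h
        linear_combination h
      have e2 : Cfsg.hermForm n F q u' u' = -Cfsg.hermForm n F q w' w' := by
        have h := hv
        rw [split hf W _ _ _ _ hw' hw' hu' hu'] at h
        linear_combination h
      refine htr w₁ u₁ w' u' hw₁ hw' hu₁ hu' ?_ ?_ ?_ ?_ hv
        ⟨fun h => absurd h hw₁w₁, fun h => absurd h hw'w'⟩ h₁T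
      · rintro rfl
        exact hw₁w₁ (zero_left hf 0)
      · rintro rfl
        exact hw'w' (zero_left hf 0)
      · rintro rfl
        rw [zero_left hf] at e1
        exact hw₁w₁ (neg_eq_zero.1 e1.symm)
      · rintro rfl
        rw [zero_left hf] at e2
        exact hw'w' (neg_eq_zero.1 e2.symm)
    have hT : (∀ w' u', w' ∈ W → (∀ x ∈ W, Cfsg.hermForm n F q x u' = 0) → Cfsg.hermForm n F q w' w' ≠ 0 →
        Cfsg.hermForm n F q (w' + u') (w' + u') = 0 → w' + u' ∈ utSet hf M) ∧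
        (∀ w' u', w' ∈ W → (∀ x ∈ W, Cfsg.hermForm n F q x u' = 0) → w' ≠ 0 → u' ≠ 0 → Cfsg.hermForm n F q w' w' = 0 →
        Cfsg.hermForm n F q u' u' = 0 → w' + u' ∈ utSet hf M) := by
      by_cases hww : Cfsg.hermForm n F q w w = 0
      · have h0 : ∀ w' u', w' ∈ W → (∀ x ∈ W, Cfsg.hermForm n F q x u' = 0) → w' ≠ 0 → u' ≠ 0 → Cfsg.hermForm n F q w' w' = 0 →
            Cfsg.hermForm n F q u' u' = 0 → w' + u' ∈ utSet hf M := by
          intro w' u' hw' hu' hw'0 hu'0 hw'w' hu'u'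
          refine htr w u w' u' hw hw' hu hu' hw0' hw'0 hu0 hu'0 ?_
            ⟨fun _ => hw'w', fun _ => hww⟩ haT
          rw [split hf W _ _ _ _ hw' hw' hu' hu', hw'w', hu'u', add_zero]
        refine ⟨?_, h0⟩
        obtain ⟨w₂, u₂, μ, hw₂, hu₂, hw₂0, hu₂0, hw₂w₂, hu₂u₂, hne, hn1, hiso1⟩ :=
          hyp_01 hf W hW w u hw hu hw0' hu0 hww (by rw [huu, hww, neg_zero])
        have h2T := h0 w₂ u₂ hw₂ hu₂ hw₂0 hu₂0 hw₂w₂ hu₂u₂
        have e : w + u + μ • (w₂ + u₂) = (w + μ • w₂) + (u + μ • u₂) := by module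
        have h3T := utSet_hyp hf M hMiso haT h2T hne μ (by rw [e]; exact hiso1)
        rw [e] at h3T
        exact aux1 (w + μ • w₂) (u + μ • u₂) (W.add_mem hw (W.smul_mem _ hw₂))
          (fun x hx => by rw [add_right hf, smul_right hf, hu x hx, hu₂ x hx, mul_zero, add_zero])
          hn1 h3T
      · have h1 := aux1 w u hw hu hww haT
        refine ⟨h1, ?_⟩
        intro w' u' hw' hu' hw'0 hu'0 hw'w' hu'u'
        obtain ⟨w₁, u₁, w₂, u₂, hw₁, hw₂, hu₁, hu₂, hn1, hn2, hi1, hi2, hne, hsum⟩ :=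
          hyp_10 hf W hW hk2 w' u' hw' hu' hw'0 hu'0 hw'w' hu'u'
        have h1T := h1 w₁ u₁ hw₁ hu₁ hn1 hi1
        have h2T := h1 w₂ u₂ hw₂ hu₂ hn2 hi2
        have h3T := utSet_hyp hf M hMiso h1T h2T hne 1 (by
          rw [one_smul, hsum, split hf W _ _ _ _ hw' hw' hu' hu', hw'w', hu'u', add_zero])
        rwa [one_smul, hsum] at h3T
    obtain ⟨hT1, hT0⟩ := hT
    have hall : ∀ v, Cfsg.hermForm n F q v v = 0 → v ∈ utSet hf M := by
      intro v hvv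
      obtain ⟨w', hw', u', hu', rfl⟩ := decomp hf W hW v
      by_cases hw'0 : w' = 0
      · rw [hw'0, zero_add] at hvv ⊢
        exact hTU u' hu' hvv
      by_cases hu'0 : u' = 0
      · rw [hu'0, add_zero] at hvv ⊢
        exact hTW w' hw' hvv
      by_cases hw'w' : Cfsg.hermForm n F q w' w' = 0
      · refine hT0 w' u' hw' hu' hw'0 hu'0 hw'w' ?_
        have h := hvv
        rw [split hf W _ _ _ _ hw' hw' hu' hu', hw'w', zero_add] at h
        exact h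
      · exact hT1 w' u' hw' hu' hw'w' hvv
    intro k' hk'
    exact mem_of_utSet_univ hf hcard M hall k' ((hmemS k').1 hk').1 ((hmemS k').1 hk').2

end Cfsg.Agent.S5654
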