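import Cfsg.Statements.S5657
import Cfsg.Agent.Lib.Helper94.Basic
import Cfsg.Agent.Lib.Helper94.GLAux
import Cfsg.Agent.Lib.Helper94.Tv
import Cfsg.Agent.Lib.Helper94.SympAbs
import Cfsg.Agent.Lib.Helper94.SympGen
import Cfsg.Agent.Lib.Helper94.SympBlock
import Cfsg.Agent.Lib.Helper94.Herm2
import Cfsg.Agent.Lib.Helper94.HermStd
import Cfsg.Agent.Lib.Helper94.UnitAbs
import Cfsg.Agent.Lib.Helper94.UnitGen
import Cfsg.Agent.Lib.Helper94.UnitRoot

set_option autoImplicit false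
open Cfsg

namespace Cfsg.Agent.S5657

open scoped Matrix
open Cfsg.Agent.Lib.Helper94.Basic Cfsg.Agent.Lib.Helper94.GLAux Cfsg.Agent.Lib.Helper94.Tv
  Cfsg.Agent.Lib.Helper94.UnitAbs Cfsg.Agent.Lib.Helper94.UnitGen
  Cfsg.Agent.Lib.Helper94.UnitRoot Cfsg.Agent.Lib.Helper94.HermStd
open Cfsg.Agent.Lib.Helper94.SympBlock (map_eq_of_forall_mem)
open Cfsg.Agent.Lib.Helper94.Herm2 (mem_GU_iff)

section Main

variable {ι : Type} [Fintype ι] [DecidableEq ι] {F : Type*} [Field F]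
variable {σ : F ≃+* F} {f : (ι → F) → (ι → F) → F}

/-- The pairs whose short root elements all lie in `K`. -/
def PP (hf : Cfsg.Geo.IsUnitaryForm σ f) (K : Subgroup (Matrix.GeneralLinearGroup ι F))
    (a b : ι → F) : Prop := ∀ c : F, su hf a b c ∈ K

lemma PP_symm (hf : Cfsg.Geo.IsUnitaryForm σ f) (K : Subgroup (Matrix.GeneralLinearGroup ι F))
    {a b : ι → F} (h : PP hf K a b) : PP hf K b a := by
  intro c
  rw [su_symm hf a b c]
  exact h _

lemma PP_map (hf : Cfsg.Geo.IsUnitaryForm σ f) (K : Subgroup (Matrix.GeneralLinearGroup ι F))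
    (hK : ∀ g ∈ K, ∀ x y, f ((g : Matrix ι ι F) *ᵥ x) ((g : Matrix ι ι F) *ᵥ y) = f x y)
    {g : Matrix.GeneralLinearGroup ι F} (hg : g ∈ K) {a b : ι → F}
    (h : PP hf K a b) : PP hf K ((g : Matrix ι ι F) *ᵥ a) ((g : Matrix ι ι F) *ᵥ b) := by
  intro c
  rw [← su_conj hf g (hK g hg) a b c]
  exact K.mul_mem (K.mul_mem hg (h c)) (K.inv_mem hg)

/-- Two pairs with a common vector and non-orthogonal partners give transvections. -/
lemma tv_of_PP (hf : Cfsg.Geo.IsUnitaryForm σ f)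
    (K : Subgroup (Matrix.GeneralLinearGroup ι F)) (a b b' : ι → F) (ha : f a a = 0)
    (hb : f b b = 0) (hb' : f b' b' = 0) (hab : f a b = 0)
    (hab' : f a b' = 0) (hbb : f b b' ≠ 0) (h1 : PP hf K a b) (h1' : PP hf K a b') :
    a ∈ utSet hf K := by
  refine ⟨ha, fun κ => ?_⟩
  by_cases hκ : σ κ = -κ
  · obtain ⟨z, hz⟩ := skew_surj hf κ hκ
    have key := su_mul_su hf a b b' ha hb hb' hab hab' 1 (z / f b b')
    have hbb2 : f b' b ≠ 0 := fun h => hbb ((eq_zero_comm hf _ _).mp h)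
    have e : z / f b b' * σ 1 * f b b' - 1 * σ (z / f b b') * f b' b = κ := by
      rw [map_one, map_div₀, herm' hf b b']
      field_simp
      exact hz
    rw [e] at key
    have e2 : ut hf a κ = (su hf a b 1 * su hf a b' (z / f b b')) *
        (su hf a b' (z / f b b') * su hf a b 1)⁻¹ := by
      rw [key]; group
    rw [e2]
    exact K.mul_mem (K.mul_mem (h1 _) (h1' _)) (K.inv_mem (K.mul_mem (h1' _) (h1 _)))
  · rw [ut_not hf _ _ (fun h => hκ h.2)]
    exact K.one_mem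

/-- If `x ∈ X` is not a transvection vector, its isotropic partners all lie in `Y`. -/
lemma PP_subset (hf : Cfsg.Geo.IsUnitaryForm σ f)
    {X Y : Submodule F (ι → F)} (hL : ULag f X Y)
    (K : Subgroup (Matrix.GeneralLinearGroup ι F))
    (hXY : ∀ x ∈ X, ∀ y ∈ Y, f x y = 0 → PP hf K x y)
    (x : ι → F) (hx : x ∈ X) (hxt : x ∉ utSet hf K) (z : ι → F) (hzz : f z z = 0)
    (hxz : f x z = 0) (hz : PP hf K x z) : z ∈ Y := by
  have hxx : f x x = 0 := hL.isoX x hx x hx
  obtain ⟨zx, hzx, zy, hzy, e⟩ := hL.sum z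
  have hxzy : f x zy = 0 := by
    have h := hxz
    rw [e, add_right hf, hL.isoX x hx zx hzx, zero_add] at h
    exact h
  have hzyzy : f zy zy = 0 := hL.isoY zy hzy zy hzy
  have hspan : zx ∈ Submodule.span F {x} := by
    by_contra hn
    obtain ⟨y, hy, hxy, hzxy⟩ := hL.exists_sep hf x zx hx hzx hn
    apply hxt
    have hyz : f y z ≠ 0 := by
      rw [e, add_right hf, hL.isoY y hy zy hzy, add_zero]
      exact fun h => hzxy ((eq_zero_comm hf _ _).mp h)
    exact tv_of_PP hf K x y z hxx (hL.isoY y hy y hy) hzz hxy hxz hyz (hXY x hx y hy hxy) hz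
  obtain ⟨l, hl⟩ := Submodule.mem_span_singleton.mp hspan
  have hl0 : l = 0 := by
    by_contra hl0
    apply hxt
    refine ⟨hxx, fun κ => ?_⟩
    by_cases hκ : σ κ = -κ
    · obtain ⟨z', hz'⟩ := skew_surj hf κ hκ
      have hσl : σ l ≠ 0 := by
        intro h
        apply hl0
        have := congrArg σ h
        rwa [hf.involutive, map_zero] at this
      have key := su_add_self hf x zy hxx hzyzy hxzy l (z' / σ l)
      have e2 : z' / σ l * σ l - σ (z' / σ l) * l = κ := by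
        rw [map_div₀, hf.involutive]
        field_simp
        exact hz'
      rw [e2, hl, ← e] at key
      have e3 : ut hf x κ = su hf x z (z' / σ l) * (su hf x zy (z' / σ l))⁻¹ := by
        rw [key]; group
      rw [e3]
      exact K.mul_mem (hz _) (K.inv_mem (hXY x hx zy hzy hxzy _))
    · rw [ut_not hf _ _ (fun h => hκ h.2)]
      exact K.one_mem
  rw [e, ← hl, hl0, zero_smul, zero_add]
  exact hzy

/-- Propagation: an element of `K` mapping one non-zero vector of `X` into `X'` maps `X` into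
`X'` and `Y` into `Y'`. -/
lemma good_prop (hf : Cfsg.Geo.IsUnitaryForm σ f) (K : Subgroup (Matrix.GeneralLinearGroup ι F))
    (hK : ∀ g ∈ K, ∀ x y, f ((g : Matrix ι ι F) *ᵥ x) ((g : Matrix ι ι F) *ᵥ y) = f x y)
    {X Y X' Y' : Submodule F (ι → F)}
    (hiX : ∀ x ∈ X, ∀ x' ∈ X, f x x' = 0) (hiY : ∀ y ∈ Y, ∀ y' ∈ Y, f y y' = 0)
    (hXY : ∀ x ∈ X, ∀ y ∈ Y, f x y = 0 → PP hf K x y)
    (hX' : ∀ x' ∈ X', x' ≠ 0 → ∀ z, f z z = 0 → f x' z = 0 → PP hf K x' z → z ∈ Y')
    (hY' : ∀ y' ∈ Y', y' ≠ 0 → ∀ z, f z z = 0 → f y' z = 0 → PP hf K y' z → z ∈ X')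
    (hE1 : ∀ x ∈ X, ∀ x' ∈ X, ∃ y ∈ Y, y ≠ 0 ∧ f x y = 0 ∧ f x' y = 0)
    (hE2 : ∀ y ∈ Y, ∃ x ∈ X, x ≠ 0 ∧ f x y = 0)
    (g : Matrix.GeneralLinearGroup ι F) (hg : g ∈ K) (x0 : ι → F) (hx0 : x0 ∈ X) (hx00 : x0 ≠ 0)
    (hgx0 : (g : Matrix ι ι F) *ᵥ x0 ∈ X') :
    (∀ x ∈ X, (g : Matrix ι ι F) *ᵥ x ∈ X') ∧ (∀ y ∈ Y, (g : Matrix ι ι F) *ᵥ y ∈ Y') := by
  have hinj : ∀ v : ι → F, v ≠ 0 → (g : Matrix ι ι F) *ᵥ v ≠ 0 := by
    intro v hv h
    apply hv
    apply gl_mulVec_injective g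
    simp only [h, Matrix.mulVec_zero]
  have step1 : ∀ x ∈ X, x ≠ 0 → (g : Matrix ι ι F) *ᵥ x ∈ X' → ∀ y ∈ Y, f x y = 0 →
      (g : Matrix ι ι F) *ᵥ y ∈ Y' := by
    intro x hx hx0 hgx y hy hxy
    exact hX' _ hgx (hinj x hx0) _ (by rw [hK g hg, hiY y hy y hy]) (by rw [hK g hg, hxy])
      (PP_map hf K hK hg (hXY x hx y hy hxy))
  have step2 : ∀ y ∈ Y, y ≠ 0 → (g : Matrix ι ι F) *ᵥ y ∈ Y' → ∀ x ∈ X, f x y = 0 →
      (g : Matrix ι ι F) *ᵥ x ∈ X' := by
    intro y hy hy0 hgy x hx hxy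
    have hyx : f y x = 0 := (eq_zero_comm hf _ _).mp hxy
    exact hY' _ hgy (hinj y hy0) _ (by rw [hK g hg, hiX x hx x hx]) (by rw [hK g hg, hyx])
      (PP_map hf K hK hg (PP_symm hf K (hXY x hx y hy hxy)))
  have all1 : ∀ x ∈ X, (g : Matrix ι ι F) *ᵥ x ∈ X' := by
    intro x hx
    obtain ⟨y, hy, hy0, h1, h2⟩ := hE1 x0 hx0 x hx
    exact step2 y hy hy0 (step1 x0 hx0 hx00 hgx0 y hy h1) x hx h2
  refine ⟨all1, ?_⟩
  intro y hy
  obtain ⟨x, hx, hx0, hxy⟩ := hE2 y hy
  exact step1 x hx hx0 (all1 x hx) y hy hxy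

/-- The abstract maximality statement. -/
theorem max_aux [Fintype F] (hf : Cfsg.Geo.IsUnitaryForm σ f) (hcard : 9 ≤ Fintype.card ι)
    {U W : Submodule F (ι → F)} (hL : ULag f U W)
    (hU3 : 3 ≤ Module.finrank F U) (hW3 : 3 ≤ Module.finrank F W)
    (SU H : Subgroup (Matrix.GeneralLinearGroup ι F))
    (hSU : ∀ g : Matrix.GeneralLinearGroup ι F, g ∈ SU ↔
      (∀ x y, f ((g : Matrix ι ι F) *ᵥ x) ((g : Matrix ι ι F) *ᵥ y) = f x y) ∧
        (g : Matrix ι ι F).det = 1)
    (hH : ∀ g : Matrix.GeneralLinearGroup ι F, g ∈ H ↔ g ∈ SU ∧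
      (((∀ u ∈ U, (g : Matrix ι ι F) *ᵥ u ∈ U) ∧ (∀ w ∈ W, (g : Matrix ι ι F) *ᵥ w ∈ W)) ∨
       ((∀ u ∈ U, (g : Matrix ι ι F) *ᵥ u ∈ W) ∧ (∀ w ∈ W, (g : Matrix ι ι F) *ᵥ w ∈ U)))) :
    Cfsg.Geo.IsMaximalIn SU H := by
  have hutSU : ∀ a κ, ut hf a κ ∈ SU := fun a κ =>
    (hSU _).mpr ⟨ut_isom hf a κ, (mem_specialLinear_iff _).mp (ut_mem_SL hf a κ)⟩
  have hHSU : H ≤ SU := fun g hg => ((hH g).mp hg).1
  obtain ⟨u0, hu0, hu00, -, -⟩ := exists_ker2 hf U hU3 0 0
  have hκ0 := skew0_ne hf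
  have hκ0s := skew0_skew hf
  constructor
  · rw [SetLike.lt_iff_le_and_exists]
    refine ⟨hHSU, ut hf u0 (skew0 hf), hutSU _ _, ?_⟩
    intro hmem
    obtain ⟨-, hcase⟩ := (hH _).mp hmem
    have hu0u0 : f u0 u0 = 0 := hL.isoX u0 hu0 u0 hu0
    rcases hcase with ⟨-, hWW⟩ | ⟨hUW, -⟩
    · obtain ⟨w, hw, huw⟩ := hL.exists_ne hf u0 hu0 hu00
      have h1 := hWW w hw
      rw [ut_mulVec hf _ _ hu0u0 hκ0s] at h1
      have h3 : (skew0 hf * f w u0) • u0 ∈ W := by
        have := W.sub_mem h1 hw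
        simpa using this
      have hwu : f w u0 ≠ 0 := fun h => huw ((eq_zero_comm hf _ _).mp h)
      have h4 : u0 ∈ W := by
        have := W.smul_mem (skew0 hf * f w u0)⁻¹ h3
        rwa [smul_smul, inv_mul_cancel₀ (mul_ne_zero hκ0 hwu), one_smul] at this
      exact hu00 (hL.inter hf u0 hu0 h4)
    · have h1 := hUW u0 hu0
      rw [ut_mulVec hf _ _ hu0u0 hκ0s, hu0u0, mul_zero, zero_smul, add_zero] at h1
      exact hu00 (hL.inter hf u0 hu0 h1)
  · intro M hHM hMS
    by_cases hMH : M ≤ H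
    · left; exact le_antisymm hMH hHM
    right
    apply le_antisymm hMS
    obtain ⟨g, hgM, hgH⟩ := SetLike.not_le_iff_exists.mp hMH
    have hMiso : ∀ g ∈ M, ∀ x y, f ((g : Matrix ι ι F) *ᵥ x) ((g : Matrix ι ι F) *ᵥ y) = f x y :=
      fun g hg => ((hSU g).mp (hMS hg)).1
    -- short root elements of H
    have hP1 : ∀ u ∈ U, ∀ w ∈ W, f u w = 0 → PP hf M u w := by
      intro u hu w hw huw c
      apply hHM
      rw [hH]
      have huu : f u u = 0 := hL.isoX u hu u hu
      have hww : f w w = 0 := hL.isoY w hw w hw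
      refine ⟨(hSU _).mpr ⟨su_isom hf u w c, (mem_specialLinear_iff _).mp (su_mem_SL hf u w c)⟩,
        Or.inl ⟨?_, ?_⟩⟩
      · intro x hx
        rw [su_mulVec hf u w huu hww huw, hL.isoX x hx u hu, mul_zero, zero_smul, sub_zero]
        exact U.add_mem hx (U.smul_mem _ hu)
      · intro x hx
        rw [su_mulVec hf u w huu hww huw, hL.isoY x hx w hw, mul_zero, zero_smul, add_zero]
        exact W.sub_mem hx (W.smul_mem _ hw)
    have hP1' : ∀ w ∈ W, ∀ u ∈ U, f w u = 0 → PP hf M w u := by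
      intro w hw u hu hwu
      exact PP_symm hf M (hP1 u hu w hw ((eq_zero_comm hf _ _).mp hwu))
    -- the swap
    obtain ⟨J, JM, Jiso, JU, JW⟩ := hL.exists_swap hf
    have hJM : J ∈ M := hHM ((hH J).mpr ⟨JM SU hutSU, Or.inr ⟨JU, JW⟩⟩)
    -- existence facts
    have hE1 : ∀ x ∈ U, ∀ x' ∈ U, ∃ y ∈ W, y ≠ 0 ∧ f x y = 0 ∧ f x' y = 0 := by
      intro x _ x' _
      obtain ⟨y, hy, hy0, h1, h1'⟩ := exists_ker2 hf W hW3 x x'
      exact ⟨y, hy, hy0, (eq_zero_comm hf _ _).mp h1, (eq_zero_comm hf _ _).mp h1'⟩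
    have hE2 : ∀ y ∈ W, ∃ x ∈ U, x ≠ 0 ∧ f x y = 0 := by
      intro y _
      obtain ⟨x, hx, hx0, h1, -⟩ := exists_ker2 hf U hU3 y y
      exact ⟨x, hx, hx0, h1⟩
    have hE1' : ∀ x ∈ W, ∀ x' ∈ W, ∃ y ∈ U, y ≠ 0 ∧ f x y = 0 ∧ f x' y = 0 := by
      intro x _ x' _
      obtain ⟨y, hy, hy0, h1, h1'⟩ := exists_ker2 hf U hU3 x x'
      exact ⟨y, hy, hy0, (eq_zero_comm hf _ _).mp h1, (eq_zero_comm hf _ _).mp h1'⟩
    have hE2' : ∀ y ∈ U, ∃ x ∈ W, x ≠ 0 ∧ f x y = 0 := by
      intro y _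
      obtain ⟨x, hx, hx0, h1, -⟩ := exists_ker2 hf W hW3 y y
      exact ⟨x, hx, hx0, h1⟩
    -- Claim 1: a transvection vector in U
    have claim1 : ∃ x0 ∈ U, x0 ≠ 0 ∧ x0 ∈ utSet hf M := by
      by_contra hcon
      push Not at hcon
      have hnoU : ∀ x ∈ U, x ≠ 0 → x ∉ utSet hf M := hcon
      have hnoW : ∀ w ∈ W, w ≠ 0 → w ∉ utSet hf M := by
        intro w hw hw0 hwt
        have h1 := utSet_map hf M hMiso hJM hwt
        refine hnoU _ (JW w hw) ?_ h1
        intro h0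
        apply hw0
        apply gl_mulVec_injective J
        simp only [h0, Matrix.mulVec_zero]
      have hXa : ∀ u ∈ U, u ≠ 0 → ∀ z, f z z = 0 → f u z = 0 → PP hf M u z → z ∈ W :=
        fun u hu hu0 z hzz huz hz => PP_subset hf hL M hP1 u hu (hnoU u hu hu0) z hzz huz hz
      have hXb : ∀ w ∈ W, w ≠ 0 → ∀ z, f z z = 0 → f w z = 0 → PP hf M w z → z ∈ U :=
        fun w hw hw0 z hzz hwz hz =>
          PP_subset hf hL.symm M hP1' w hw (hnoW w hw hw0) z hzz hwz hz
      have c1 : ∀ k ∈ M, ∀ x ∈ U, x ≠ 0 → (k : Matrix ι ι F) *ᵥ x ∈ U →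
          (∀ x ∈ U, (k : Matrix ι ι F) *ᵥ x ∈ U) ∧ (∀ y ∈ W, (k : Matrix ι ι F) *ᵥ y ∈ W) :=
        fun k hk x hx hx0 hkx =>
          good_prop hf M hMiso hL.isoX hL.isoY hP1 hXa hXb hE1 hE2 k hk x hx hx0 hkx
      have c2 : ∀ k ∈ M, ∀ x ∈ W, x ≠ 0 → (k : Matrix ι ι F) *ᵥ x ∈ U →
          (∀ x ∈ W, (k : Matrix ι ι F) *ᵥ x ∈ U) ∧ (∀ y ∈ U, (k : Matrix ι ι F) *ᵥ y ∈ W) :=
        fun k hk x hx hx0 hkx =>
          good_prop hf M hMiso hL.isoY hL.isoX hP1' hXa hXb hE1' hE2' k hk x hx hx0 hkx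
      have hgU : ∀ u ∈ U, u ≠ 0 → (g : Matrix ι ι F) *ᵥ u ∉ U := by
        intro u hu hu0 hgu
        obtain ⟨h1, h2'⟩ := c1 g hgM u hu hu0 hgu
        exact hgH ((hH g).mpr ⟨hMS hgM, Or.inl ⟨h1, h2'⟩⟩)
      have hgW : ∀ w ∈ W, w ≠ 0 → (g : Matrix ι ι F) *ᵥ w ∉ U := by
        intro w hw hw0 hgw
        obtain ⟨h1, h2'⟩ := c2 g hgM w hw hw0 hgw
        exact hgH ((hH g).mpr ⟨hMS hgM, Or.inr ⟨h2', h1⟩⟩)
      -- inner lemma
      have inner : ∀ w ∈ W, w ≠ 0 → f u0 w = 0 → ∃ l : F, l ≠ 0 ∧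
          (g : Matrix ι ι F) *ᵥ (w - l • u0) ∈ U := by
        intro w hw hw0 huw
        have hab : f ((g : Matrix ι ι F) *ᵥ u0) ((g : Matrix ι ι F) *ᵥ w) = 0 := by
          rw [hMiso g hgM, huw]
        have haa : f ((g : Matrix ι ι F) *ᵥ u0) ((g : Matrix ι ι F) *ᵥ u0) = 0 := by
          rw [hMiso g hgM, hL.isoX u0 hu0 u0 hu0]
        have hbb : f ((g : Matrix ι ι F) *ᵥ w) ((g : Matrix ι ι F) *ᵥ w) = 0 := by
          rw [hMiso g hgM, hL.isoY w hw w hw]
        have hg' : su hf ((g : Matrix ι ι F) *ᵥ u0) ((g : Matrix ι ι F) *ᵥ w) 1 ∈ M :=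
          PP_map hf M hMiso hgM (hP1 u0 hu0 w hw huw) 1
        have haU : (g : Matrix ι ι F) *ᵥ u0 ∉ U := hgU u0 hu0 hu00
        have hbU : (g : Matrix ι ι F) *ᵥ w ∉ U := hgW w hw hw0
        have hgoal : ∀ l : F, (g : Matrix ι ι F) *ᵥ (w - l • u0)
            = (g : Matrix ι ι F) *ᵥ w - l • (g : Matrix ι ι F) *ᵥ u0 := by
          intro l
          rw [Matrix.mulVec_sub, Matrix.mulVec_smul]
        simp only [hgoal]
        generalize (g : Matrix ι ι F) *ᵥ u0 = a at hab haa hg' haU ⊢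
        generalize (g : Matrix ι ι F) *ᵥ w = b at hab hbb hg' hbU ⊢
        obtain ⟨x, hx, hx0, hxa, hxb⟩ := exists_ker2 hf U hU3 a b
        have hfixx : ((su hf a b 1 : Matrix.GeneralLinearGroup ι F) : Matrix ι ι F) *ᵥ x ∈ U := by
          rw [su_mulVec hf a b haa hbb hab, hxa, hxb]
          simpa using hx
        obtain ⟨hUU, -⟩ := c1 _ hg' x hx hx0 hfixx
        have hcomb : ∀ x ∈ U, f x b • a - f x a • b ∈ U := by
          intro x hx
          have h1 := hUU x hx
          rw [su_mulVec hf a b haa hbb hab, map_one, one_mul, one_mul, add_sub_assoc] at h1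
          have := U.sub_mem h1 hx
          simpa using this
        have hex : ∃ x0 ∈ U, f x0 a ≠ 0 := by
          by_contra hc
          push Not at hc
          exact haU (hL.symm.perp_mem hf a hc)
        obtain ⟨x0, hx0U, hx0a⟩ := hex
        have hprop : ∀ x ∈ U, f x0 a * f x b = f x a * f x0 b := by
          intro x hx
          have hx' : f x0 a • x - f x a • x0 ∈ U := U.sub_mem (U.smul_mem _ hx) (U.smul_mem _ hx0U)
          have h1 := hcomb _ hx'
          have h3 : f (f x0 a • x - f x a • x0) a = 0 := by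
            rw [sub_left hf, hf.smul_left, hf.smul_left]; ring
          rw [h3, zero_smul, sub_zero] at h1
          by_contra hne
          have h4 : f (f x0 a • x - f x a • x0) b ≠ 0 := by
            rw [sub_left hf, hf.smul_left, hf.smul_left]
            intro h5
            apply hne
            linear_combination h5
          apply haU
          have := U.smul_mem (f (f x0 a • x - f x a • x0) b)⁻¹ h1
          rwa [smul_smul, inv_mul_cancel₀ h4, one_smul] at this
        refine ⟨σ (f x0 b / f x0 a), ?_, ?_⟩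
        · intro h0
          have h0'' : f x0 b / f x0 a = 0 := by
            have := congrArg σ h0
            rwa [hf.involutive, map_zero] at this
          have h0' : f x0 b = 0 := by
            rcases div_eq_zero_iff.mp h0'' with h | h
            · exact h
            · exact absurd h hx0a
          apply hbU
          apply hL.symm.perp_mem hf b
          intro x hx
          have h1 := hprop x hx
          rw [h0', mul_zero] at h1
          rcases mul_eq_zero.mp h1 with h | h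
          · exact absurd h hx0a
          · exact h
        · apply hL.symm.perp_mem hf
          intro x hx
          rw [sub_right hf, smul_right hf, hf.involutive]
          have h1 := hprop x hx
          field_simp
          linear_combination h1
      -- two independent partners
      obtain ⟨w1, hw1, hw10, hw1u, -⟩ := exists_ker2 hf W hW3 u0 u0
      obtain ⟨x1, hx1, hw1x1⟩ := hL.symm.exists_ne hf w1 hw1 hw10
      obtain ⟨w2, hw2, hw20, hw2u, hw2x1⟩ := exists_ker2 hf W hW3 u0 x1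
      have huw1 : f u0 w1 = 0 := (eq_zero_comm hf _ _).mp hw1u
      have huw2 : f u0 w2 = 0 := (eq_zero_comm hf _ _).mp hw2u
      obtain ⟨l1, hl1, hm1⟩ := inner w1 hw1 hw10 huw1
      obtain ⟨l2, hl2, hm2⟩ := inner w2 hw2 hw20 huw2
      have hm3 : (g : Matrix ι ι F) *ᵥ (l2 • w1 - l1 • w2) ∈ U := by
        have h1 := U.sub_mem (U.smul_mem l2 hm1) (U.smul_mem l1 hm2)
        rw [← Matrix.mulVec_smul, ← Matrix.mulVec_smul, ← Matrix.mulVec_sub] at h1
        have e : l2 • (w1 - l1 • u0) - l1 • (w2 - l2 • u0) = l2 • w1 - l1 • w2 := by module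
        rwa [e] at h1
      have hz : l2 • w1 - l1 • w2 = 0 := by
        by_contra hne
        exact hgW _ (W.sub_mem (W.smul_mem _ hw1) (W.smul_mem _ hw2)) hne hm3
      have h5 : f (l2 • w1 - l1 • w2) x1 = 0 := by rw [hz, zero_left hf]
      rw [sub_left hf, hf.smul_left, hf.smul_left, hw2x1, mul_zero, sub_zero] at h5
      rcases mul_eq_zero.mp h5 with h | h
      · exact hl2 h
      · exact hw1x1 h
    -- Claim 2: every isotropic vector is a transvection vector
    obtain ⟨x0, hx0U, hx00, hx0t⟩ := claim1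
    have hUt : ∀ u ∈ U, u ∈ utSet hf M := by
      intro u hu
      by_cases hsp : u ∈ Submodule.span F {x0}
      · obtain ⟨l, rfl⟩ := Submodule.mem_span_singleton.mp hsp
        exact utSet_smul hf M hx0t l
      · have hn : x0 ∉ Submodule.span F {u - x0} := by
          intro hmem
          obtain ⟨l, hl⟩ := Submodule.mem_span_singleton.mp hmem
          by_cases hl0 : l = 0
          · rw [hl0, zero_smul] at hl
            exact hx00 hl.symm
          · apply hsp
            rw [Submodule.mem_span_singleton]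
            refine ⟨1 + l⁻¹, ?_⟩
            have h6 : u - x0 = l⁻¹ • x0 := by
              conv_rhs => rw [← hl]
              rw [smul_smul, inv_mul_cancel₀ hl0, one_smul]
            have h7 : u = x0 + l⁻¹ • x0 := by rw [← h6]; abel
            conv_rhs => rw [h7]
            module
        obtain ⟨y, hy, huy, hxy⟩ := hL.exists_sep hf (u - x0) x0 (U.sub_mem hu hx0U) hx0U hn
        have hd : f (u - x0) (u - x0) = 0 :=
          hL.isoX _ (U.sub_mem hu hx0U) _ (U.sub_mem hu hx0U)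
        have hk := hP1 (u - x0) (U.sub_mem hu hx0U) y hy huy (f x0 y)⁻¹
        have h1 := utSet_map hf M hMiso hk hx0t
        rw [su_mulVec hf _ _ hd (hL.isoY y hy y hy) huy, inv_mul_cancel₀ hxy,
          hL.isoX x0 hx0U _ (U.sub_mem hu hx0U), mul_zero, zero_smul, sub_zero, one_smul] at h1
        have e : x0 + (u - x0) = u := by abel
        rwa [e] at h1
    have hWt : ∀ w ∈ W, w ∈ utSet hf M := by
      intro w hw
      have h1 := utSet_map hf M hMiso (M.inv_mem hJM) (hUt _ (JW w hw))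
      rwa [gl_inv_mulVec] at h1
    have hall : ∀ v, f v v = 0 → v ∈ utSet hf M := by
      intro v hv
      obtain ⟨u, hu, w, hw, rfl⟩ := hL.sum v
      by_cases huw : f u w = 0
      · by_cases hw0 : w = 0
        · rw [hw0, add_zero]; exact hUt u hu
        · obtain ⟨u1, hu1, hwu1⟩ := hL.symm.exists_ne hf w hw hw0
          have hu1w : f u1 w ≠ 0 := fun h => hwu1 ((eq_zero_comm hf _ _).mp h)
          obtain ⟨u'', hu''def⟩ : ∃ u'', u'' = (skew0 hf / f u1 w) • u1 := ⟨_, rfl⟩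
          have hu'' : u'' ∈ U := by rw [hu''def]; exact U.smul_mem _ hu1
          have hu''w : f u'' w = skew0 hf := by
            rw [hu''def, hf.smul_left, div_mul_cancel₀ _ hu1w]
          have hwu'' : f w u'' = -skew0 hf := by
            rw [hf.herm, hu''w, hκ0s]
          have h1 : f (u + u'') w ≠ 0 := by
            rw [hf.add_left, huw, zero_add, hu''w]
            exact hκ0
          have hiso1 : f (u + u'' + (1 : F) • w) (u + u'' + (1 : F) • w) = 0 := by
            have hwu : f w u = 0 := (eq_zero_comm hf _ _).mp huw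
            rw [one_smul]
            simp only [hf.add_left, add_right hf, hL.isoX u hu u hu, hL.isoX u hu u'' hu'',
              hL.isoX u'' hu'' u hu, hL.isoX u'' hu'' u'' hu'', hL.isoY w hw w hw, huw, hwu,
              hu''w, hwu'']
            ring
          have h3 := utSet_hyp hf M hMiso (hUt _ (U.add_mem hu hu'')) (hWt w hw) h1 1 hiso1
          have h4 : f (u + u'' + (1 : F) • w) u'' ≠ 0 := by
            rw [hf.add_left, hL.isoX _ (U.add_mem hu hu'') _ hu'', zero_add,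
              hf.smul_left, one_mul, hwu'']
            exact neg_ne_zero.mpr hκ0
          have e : u + u'' + (1 : F) • w + (-1 : F) • u'' = u + w := by module
          have h5 := utSet_hyp hf M hMiso h3 (hUt _ hu'') h4 (-1) (by rw [e]; exact hv)
          rwa [e] at h5
      · have h3 := utSet_hyp hf M hMiso (hUt u hu) (hWt w hw) huw 1 (by rw [one_smul]; exact hv)
        rwa [one_smul] at h3
    intro k hk
    exact mem_of_utSet_univ hf hcard M hall k ((hSU k).mp hk).1 ((hSU k).mp hk).2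

end Main

/-- Let F be the field with q² elements and n = 2k ≥ 13. Let D be a decomposition of F^n into two complementary subspaces of dimension k on each of which the standard unitary form vanishes identically. Then the elements of SU_n(q) preserving or interchanging the two subspaces form a maximal subgroup of SU_n(q). -/
theorem result {F : Type*} [Field F] [Fintype F] (n q : ℕ) (hF : Fintype.card F = q ^ 2) (hn : 13 ≤ n) (k : ℕ) (hk : 2 * k = n) (D : Fin 2 → Submodule F (Fin n → F)) (hD : Cfsg.Geo.IsMDecomposition k D) (hts : ∀ i, Cfsg.Geo.IsTotallySingularFor (Cfsg.hermForm n F q) (D i)) : Cfsg.Geo.IsMaximalIn (Cfsg.GU n F q ⊓ Cfsg.Geo.specialLinear (Fin n) F) (Cfsg.Geo.decompositionStabilizer D ⊓ (Cfsg.GU n F q ⊓ Cfsg.Geo.specialLinear (Fin n) F)) := by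
  classical
  have hf := hermForm_isUnitary (n := n) hF
  have hcard : 9 ≤ Fintype.card (Fin n) := by simp; omega
  have hL : ULag (Cfsg.hermForm n F q) (D 0) (D 1) := by
    refine ⟨hts 0, hts 1, ?_⟩
    intro v
    have htop : (⊤ : Submodule F (Fin n → F)) ≤ D 0 ⊔ D 1 := by
      rw [← hD.iSup_eq_top]
      apply iSup_le
      exact Fin.forall_fin_two.mpr ⟨le_sup_left, le_sup_right⟩
    obtain ⟨x, hx, y, hy, e⟩ := Submodule.mem_sup.mp (htop (Submodule.mem_top : v ∈ ⊤))
    exact ⟨x, hx, y, hy, e.symm⟩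
  have hU := hD.finrank_eq 0
  have hW := hD.finrank_eq 1
  apply max_aux hf hcard hL (by omega) (by omega) (Cfsg.GU n F q ⊓ Cfsg.Geo.specialLinear (Fin n) F) _
    (fun g => by rw [Subgroup.mem_inf, mem_GU_iff, mem_specialLinear_iff])
  intro g
  rw [Subgroup.mem_inf, mem_decompositionStabilizer_iff]
  constructor
  · rintro ⟨⟨τ, hτ⟩, hg⟩
    refine ⟨hg, ?_⟩
    have hmem : ∀ i, ∀ x ∈ D i, (g : Matrix _ _ F) *ᵥ x ∈ D (τ i) := by
      intro i x hx
      rw [← hτ i, ← Matrix.toLin'_apply]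
      exact Submodule.mem_map_of_mem hx
    by_cases h0 : τ 0 = 0
    · left
      have h1 : τ 1 = 1 := by
        apply Fin.eq_one_of_ne_zero
        intro h
        have := τ.injective (h.trans h0.symm)
        simp at this
      refine ⟨fun u hu => ?_, fun w hw => ?_⟩
      · have := hmem 0 u hu
        rwa [h0] at this
      · have := hmem 1 w hw
        rwa [h1] at this
    · right
      have h0' : τ 0 = 1 := Fin.eq_one_of_ne_zero _ h0
      have h1 : τ 1 = 0 := by
        by_contra hne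
        have h1' : τ 1 = 1 := Fin.eq_one_of_ne_zero _ hne
        have := τ.injective (h0'.trans h1'.symm)
        simp at this
      refine ⟨fun u hu => ?_, fun w hw => ?_⟩
      · have := hmem 0 u hu
        rwa [h0'] at this
      · have := hmem 1 w hw
        rwa [h1] at this
  · rintro ⟨hg, hcase⟩
    refine ⟨?_, hg⟩
    rcases hcase with ⟨hUU, hWW⟩ | ⟨hUW, hWU⟩
    · refine ⟨1, Fin.forall_fin_two.mpr ⟨?_, ?_⟩⟩
      · exact map_eq_of_forall_mem g _ _ hUU le_rfl
      · exact map_eq_of_forall_mem g _ _ hWW le_rfl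
    · refine ⟨Equiv.swap 0 1, Fin.forall_fin_two.mpr ⟨?_, ?_⟩⟩
      · rw [Equiv.swap_apply_left]
        exact map_eq_of_forall_mem g _ _ hUW (by rw [hU, hW])
      · rw [Equiv.swap_apply_right]
        exact map_eq_of_forall_mem g _ _ hWU (by rw [hU, hW])

end Cfsg.Agent.S5657
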