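import Cfsg.Statements.S5658
import Cfsg.Agent.Lib.Helper94.SfU7
import Cfsg.Agent.Lib.Helper94.SubfieldConj
import Cfsg.Agent.Lib.Helper94.HermStd
import Cfsg.Agent.Lib.Helper94.Herm2

set_option autoImplicit false
open Cfsg

namespace Cfsg.Agent.S5658

open scoped Matrix
open Cfsg.Agent.Lib.Helper94.Basic Cfsg.Agent.Lib.Helper94.GLAux
  Cfsg.Agent.Lib.Helper94.HermStd Cfsg.Agent.Lib.Helper94.SubfieldRat
  Cfsg.Agent.Lib.Helper94.SubfieldConj Cfsg.Agent.Lib.Helper94.SfU7
open Cfsg.Agent.Lib.Helper94.Herm2 (mem_GU_iff)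

/-- Let F be the field with q² elements, n ≥ 13, and F₀ a subfield with |F| = |F₀| ^ r for an odd prime r. Let P be an invertible matrix such that the standard unitary form takes values in F₀ on the F₀-span of the columns of P. Then the elements of SU_n(q) lying in the subfield group of P (the conjugate by P of the product of GL_n(F₀) with the scalars) form a maximal subgroup of SU_n(q). -/
theorem result {F : Type*} [Field F] [Fintype F] (n q : ℕ) (hF : Fintype.card F = q ^ 2) (hn : 13 ≤ n) (F₀ : Subfield F) (r : ℕ) (hr : r.Prime) (hro : Odd r) (hcard : Fintype.card F = Nat.card F₀ ^ r) (P : Matrix.GeneralLinearGroup (Fin n) F) (hP : Cfsg.Geo.IsFormRationalStructure (Cfsg.hermForm n F q) F₀ 1 P) : Cfsg.Geo.IsMaximalIn (Cfsg.GU n F q ⊓ Cfsg.Geo.specialLinear (Fin n) F) (Cfsg.Geo.subfieldSubgroup F₀ P ⊓ (Cfsg.GU n F q ⊓ Cfsg.Geo.specialLinear (Fin n) F)) := by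
  have hU := hermForm_isUnitary (n := n) hF
  have hf' := pull_unitary hU P
  apply subfield_reduce F₀ P _
    ((Cfsg.GU n F q ⊓ Cfsg.Geo.specialLinear (Fin n) F).comap (MulAut.conj P).toMonoidHom)
  · intro g
    rfl
  · apply maximalU_odd hf' F₀ _ _ r hr hro hcard (by rw [Fintype.card_fin]; omega)
    · intro g
      have e : g ∈ (Cfsg.GU n F q ⊓ Cfsg.Geo.specialLinear (Fin n) F).comap
          (MulAut.conj P).toMonoidHom ↔ P * g * P⁻¹ ∈ Cfsg.GU n F q ∧
            P * g * P⁻¹ ∈ Cfsg.Geo.specialLinear (Fin n) F := Iff.rfl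
      rw [e, mem_GU_iff, mem_specialLinear_iff, conj_isom_iff, conj_det]
    · intro x y
      have h := hP (up F₀ x) (up F₀ y) (fun i => (x i).2) (fun i => (y i).2)
      rwa [one_mul] at h
    · intro c hc
      rw [frobQ_apply]
      exact F₀.pow_mem hc q

end Cfsg.Agent.S5658
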