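import Cfsg.Statements.S5660
import Cfsg.Agent.Lib.Helper94.SubfieldSp
import Cfsg.Agent.Lib.Helper94.SubfieldConj
import Cfsg.Agent.Lib.Helper94.HermStd
import Cfsg.Agent.Lib.Helper94.Herm2

set_option autoImplicit false
open Cfsg

namespace Cfsg.Agent.S5660

open scoped Matrix
open Cfsg.Agent.Lib.Helper94.Basic Cfsg.Agent.Lib.Helper94.GLAux
  Cfsg.Agent.Lib.Helper94.HermStd Cfsg.Agent.Lib.Helper94.SubfieldRat
  Cfsg.Agent.Lib.Helper94.SubfieldConj Cfsg.Agent.Lib.Helper94.SubfieldSp
open Cfsg.Agent.Lib.Helper94.Herm2 (mem_GU_iff)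

/-- Let F be the field with q² elements, n ≥ 13 even, and F₀ the subfield with q elements. Let ζ be a non-zero element with ζ + ζ^q = 0 and P an invertible matrix such that ζ times the standard unitary form takes values in F₀ on the F₀-span of the columns of P and the form vanishes on every pair (u, u) of that span (so ζ times the form restricts to a non-degenerate alternating form there). Then the elements of SU_n(q) lying in the subfield group of P form a maximal subgroup of SU_n(q). -/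
theorem result {F : Type*} [Field F] [Fintype F] (n q : ℕ) (hF : Fintype.card F = q ^ 2) (hn : 13 ≤ n) (heven : Even n) (F₀ : Subfield F) (hcard : Fintype.card F = Nat.card F₀ ^ 2) (ζ : F) (hζ0 : ζ ≠ 0) (hζ : ζ + ζ ^ q = 0) (P : Matrix.GeneralLinearGroup (Fin n) F) (hP : Cfsg.Geo.IsFormRationalStructure (Cfsg.hermForm n F q) F₀ ζ P) (halt : ∀ u : Fin n → F, (∀ i, u i ∈ F₀) → Cfsg.hermForm n F q (Matrix.mulVec (P : Matrix (Fin n) (Fin n) F) u) (Matrix.mulVec (P : Matrix (Fin n) (Fin n) F) u) = 0) : Cfsg.Geo.IsMaximalIn (Cfsg.GU n F q ⊓ Cfsg.Geo.specialLinear (Fin n) F) (Cfsg.Geo.subfieldSubgroup F₀ P ⊓ (Cfsg.GU n F q ⊓ Cfsg.Geo.specialLinear (Fin n) F)) := by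
  have hU := hermForm_isUnitary (n := n) hF
  have hq : Nat.card F₀ = q := by
    have h := hF.symm.trans hcard
    exact (Nat.pow_left_injective (by norm_num : 2 ≠ 0) h).symm
  have hfix : ∀ x : F, x ∈ F₀ ↔ frobQ hF x = x := fun x => by
    rw [frobQ_apply]
    exact mem_subfield_iff_pow F₀ q hq x
  have hf' := pull_unitary hU P
  have hR : RatSymp (frobQ hF)
      (fun u v => Cfsg.hermForm n F q ((P : Matrix (Fin n) (Fin n) F) *ᵥ u)
        ((P : Matrix (Fin n) (Fin n) F) *ᵥ v)) F₀ ζ :=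
    { fix := hfix
      ne := hζ0
      skew := by
        rw [frobQ_apply]
        exact eq_neg_of_add_eq_zero_right hζ
      rat := fun u v => hP (up F₀ u) (up F₀ v) (fun i => (u i).2) (fun i => (v i).2)
      alt := fun u => halt (up F₀ u) (fun i => (u i).2) }
  apply subfield_reduce F₀ P _
    ((Cfsg.GU n F q ⊓ Cfsg.Geo.specialLinear (Fin n) F).comap (MulAut.conj P).toMonoidHom)
  · intro g
    rfl
  · apply maximal hf' (by rw [Fintype.card_fin]; omega) hR
    intro g
    have e : g ∈ (Cfsg.GU n F q ⊓ Cfsg.Geo.specialLinear (Fin n) F).comap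
        (MulAut.conj P).toMonoidHom ↔ P * g * P⁻¹ ∈ Cfsg.GU n F q ∧
          P * g * P⁻¹ ∈ Cfsg.Geo.specialLinear (Fin n) F := Iff.rfl
    rw [e, mem_GU_iff, mem_specialLinear_iff, conj_isom_iff, conj_det]

end Cfsg.Agent.S5660
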