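import Cfsg.Statements.S5664
import Mathlib
import Cfsg.Agent.Lib.Helper40.SFTop
import Cfsg.Agent.Lib.Helper77.SFSPREAD
import Cfsg.Agent.Lib.Helper29.SFSTART
import Cfsg.Agent.Lib.Helper11.SFSEP
import Cfsg.Agent.Lib.Helper30.SFREDUCE
import Cfsg.Agent.Lib.Helper39.SFFIELD
import Cfsg.Agent.Lib.Helper77.SFNF
import Cfsg.Agent.Lib.Helper16.SFCOMMB
import Cfsg.Agent.Lib.Helper11.SFCOMMA
import Cfsg.Agent.Lib.Helper65.SFTVODD
import Cfsg.Agent.Lib.Helper65.SFORBIT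
import Cfsg.Agent.Lib.Helper95.SFTVBIG
import Cfsg.Agent.Lib.Helper51.SFTVEVEN1
import Cfsg.Agent.Lib.Helper11.SFHUA
import Cfsg.Agent.Lib.Helper29.SFTRANS
import Cfsg.Agent.Lib.Helper82.SFALLTV

set_option autoImplicit false
open Cfsg

namespace Cfsg.Agent.S5664

/-- For a finite field F and m ≥ 7, let K be a subfield of the algebra of 2m × 2m matrices over F containing the scalars, of prime degree r over F, whose elements k are self-adjoint for the standard alternating form f on F^(2m) (f(k u, v) = f(u, k v)) and satisfy f(k v, v) = 0 for all v. Then the elements of Sp_2m(F) normalising K form a maximal subgroup of Sp_2m(F). -/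
theorem result {F : Type*} [Field F] [Fintype F] (m : ℕ) (hm : 7 ≤ m) (r : ℕ) (hr : r.Prime) (K : Subalgebra F (Matrix (Fin m ⊕ Fin m) (Fin m ⊕ Fin m) F)) (hK : Cfsg.Geo.IsFieldSubalgebra r K) (hsa : Cfsg.Geo.IsSelfAdjointFor (Cfsg.sympForm m F) K) (halt : ∀ k ∈ K, ∀ v : (Fin m ⊕ Fin m → F), Cfsg.sympForm m F (Matrix.mulVec k v) v = 0) : Cfsg.Geo.IsMaximalIn (Cfsg.spGL m F) (Cfsg.Geo.subalgebraNormalizer K ⊓ Cfsg.spGL m F) := by
  exact Cfsg.Agent.Lib.Helper40.SFTop.top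
    (Cfsg.Agent.Lib.Helper40.SFAbs.abs_main
      Cfsg.Agent.Lib.Helper77.SFSPREAD.main
      (Cfsg.Agent.Lib.Helper29.SFSTART.main Cfsg.Agent.Lib.Helper11.SFSEP.main)
      (Cfsg.Agent.Lib.Helper30.SFREDUCE.main Cfsg.Agent.Lib.Helper39.SFFIELD.main)
      Cfsg.Agent.Lib.Helper77.SFNF.main
      (Cfsg.Agent.Lib.Helper16.SFCOMMB.main Cfsg.Agent.Lib.Helper11.SFCOMMA.main)
      (Cfsg.Agent.Lib.Helper65.SFTVODD.main Cfsg.Agent.Lib.Helper65.SFORBIT.main)
      (Cfsg.Agent.Lib.Helper95.SFTVBIG.main Cfsg.Agent.Lib.Helper65.SFORBIT.main)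
      (Cfsg.Agent.Lib.Helper51.SFTVEVEN1.main Cfsg.Agent.Lib.Helper65.SFORBIT.main Cfsg.Agent.Lib.Helper11.SFHUA.main
        Cfsg.Agent.Lib.Helper29.SFTRANS.main)
      (Cfsg.Agent.Lib.Helper82.SFALLTV.main Cfsg.Agent.Lib.Helper29.SFTRANS.main))
    m hm r hr K hK hsa halt

end Cfsg.Agent.S5664
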