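import Cfsg.Statements.S5674
import Cfsg.Agent.Lib.Helper94.OrthPara
import Cfsg.Agent.Lib.Helper44.NegPairs

set_option autoImplicit false
open Cfsg

namespace Cfsg.Agent.S5674

open Cfsg.Agent.Lib.Helper94.OrthPara

/-- Let F be a finite field of odd order, m ≥ 6, Q the standard quadratic form x₀² + Σ x_i y_i on F^(2m+1) and Ω the commutator subgroup of its isometry group inside GL_(2m+1)(F). The elements of Ω stabilising a non-zero subspace on which Q vanishes form a maximal subgroup of Ω. -/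
theorem result {F : Type*} [Field F] [Fintype F] (hodd : Odd (Fintype.card F)) (m : ℕ) (hm : 6 ≤ m) (W : Submodule F (Unit ⊕ (Fin m ⊕ Fin m) → F)) (hW0 : W ≠ ⊥) (hW : Cfsg.Geo.IsTotallySingularQuad (Cfsg.quadFormOdd m F) W) : Cfsg.Geo.IsMaximalIn (Cfsg.Geo.omegaGL (Cfsg.quadFormOdd m F)) (Cfsg.Geo.subspaceStabilizer W ⊓ Cfsg.Geo.omegaGL (Cfsg.quadFormOdd m F)) := by
  have h2 : (2 : F) ≠ 0 := Cfsg.Agent.Lib.Helper44.FinSq.two_ne_zero_of_odd_card hodd
  have hQ : Cfsg.Geo.IsNondegenerateQuadraticForm (Cfsg.quadFormOdd m F) :=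
    nondeg_of_sep (Cfsg.Agent.Lib.Helper44.NegPairs.oddQ m F)
      (Cfsg.Agent.Lib.Helper44.NegPairs.sep_oddQ h2 m)
  have hc : Fintype.card (Unit ⊕ (Fin m ⊕ Fin m)) = 2 * m + 1 := by
    simp [Fintype.card_sum]
    omega
  apply parabolic_maximal hQ (by rw [hc]; omega) W hW0 hW
  intro U _ _ h
  rw [hc] at h
  omega

end Cfsg.Agent.S5674
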