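import Cfsg.Statements.S5675
import Cfsg.Agent.Lib.Helper94.OrthND
import Cfsg.Agent.Lib.Helper94.OrthPara
import Cfsg.Agent.Lib.Helper44.NegPairs

set_option autoImplicit false
open Cfsg

namespace Cfsg.Agent.S5675

open Cfsg.Agent.Lib.Helper94.OrthND Cfsg.Agent.Lib.Helper94.OrthPara

/-- Let F be a finite field of odd order q, m ≥ 6, Q the standard quadratic form on F^(2m+1) and Ω the commutator subgroup of its isometry group. Let W be a non-zero subspace of even dimension on which the polar form of Q is non-degenerate; exclude the case q = 3, dim W = 2 with Q vanishing on some line of W (a plus-type plane). Then the elements of Ω stabilising W (equivalently, stabilising its orthogonal complement, of odd dimension) form a maximal subgroup of Ω. -/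
theorem result {F : Type*} [Field F] [Fintype F] (hodd : Odd (Fintype.card F)) (m : ℕ) (hm : 6 ≤ m) (W : Submodule F (Unit ⊕ (Fin m ⊕ Fin m) → F)) (hW0 : W ≠ ⊥) (hev : Even (Module.finrank F W)) (hW : Cfsg.Geo.IsNondegenerateOn (QuadraticMap.polar (Cfsg.quadFormOdd m F)) W) (hex : ¬ (Fintype.card F = 3 ∧ Module.finrank F W = 2 ∧ Cfsg.Geo.IsPlusTypeOn (Cfsg.quadFormOdd m F) W)) : Cfsg.Geo.IsMaximalIn (Cfsg.Geo.omegaGL (Cfsg.quadFormOdd m F)) (Cfsg.Geo.subspaceStabilizer W ⊓ Cfsg.Geo.omegaGL (Cfsg.quadFormOdd m F)) := by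
  have h2 : (2 : F) ≠ 0 := Cfsg.Agent.Lib.Helper44.FinSq.two_ne_zero_of_odd_card hodd
  have hQ : Cfsg.Geo.IsNondegenerateQuadraticForm (Cfsg.quadFormOdd m F) :=
    nondeg_of_sep (Cfsg.Agent.Lib.Helper44.NegPairs.oddQ m F)
      (Cfsg.Agent.Lib.Helper44.NegPairs.sep_oddQ h2 m)
  have hc : Fintype.card (Unit ⊕ (Fin m ⊕ Fin m)) = 2 * m + 1 := by
    simp [Fintype.card_sum]
    omega
  obtain ⟨r, hr⟩ := hev
  have hW1 : W ≠ ⊤ := by
    intro h
    rw [h, finrank_top, Module.finrank_fintype_fun_eq_card, hc] at hr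
    omega
  apply nondeg_maximal' hQ (by rw [hc]; omega) W hW hW0 hW1
  · intro h
    rw [hc] at h
    omega
  · rintro ⟨hq, U, hU2, hUnd, hUplus, hU | ⟨-, hU⟩⟩
    · subst hU
      apply hex
      refine ⟨?_, hU2, hUplus⟩
      obtain ⟨t, ht⟩ := hodd
      have h1 : 1 < Fintype.card F := Fintype.one_lt_card
      omega
    · rw [hc] at hU
      omega

end Cfsg.Agent.S5675
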