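-- Statement S5676: the stabiliser of a plus-type plane in Ω_{2m+1}(3) is not maximal.
import Cfsg.Statements.S5676
import Cfsg.Agent.Lib.Helper37.PlanePlus

set_option autoImplicit false
open Cfsg

namespace Cfsg.Agent.S5676

open Module QuadraticMap Cfsg.Agent.Lib.Helper37.PlanePlus

/-- `quadFormOdd` as a quadratic form. -/
noncomputable def qOdd (m : ℕ) (F : Type*) [Field F] :
    QuadraticForm F (Unit ⊕ (Fin m ⊕ Fin m) → F) :=
  QuadraticMap.proj (Sum.inl ()) (Sum.inl ())
    + ∑ i : Fin m, QuadraticMap.proj (Sum.inr (Sum.inl i)) (Sum.inr (Sum.inr i))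

theorem qOdd_coe (m : ℕ) (F : Type*) [Field F] : ⇑(qOdd m F) = Cfsg.quadFormOdd m F := by
  funext v
  simp [qOdd, Cfsg.quadFormOdd, pow_two]

/-- vectors supported on the first half of the hyperbolic coordinates -/
def embX {m : ℕ} {F : Type*} [Field F] (c : Fin m → F) : Unit ⊕ (Fin m ⊕ Fin m) → F :=
  Sum.elim (fun _ => 0) (Sum.elim c (fun _ => 0))

theorem embX_add {m : ℕ} {F : Type*} [Field F] (c d : Fin m → F) :
    embX (c + d) = embX c + embX d := by
  funext j
  rcases j with _ | j | j <;> simp [embX]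

theorem embX_smul {m : ℕ} {F : Type*} [Field F] (a : F) (c : Fin m → F) :
    embX (a • c) = a • embX c := by
  funext j
  rcases j with _ | j | j <;> simp [embX]

theorem qOdd_embX {m : ℕ} {F : Type*} [Field F] (c : Fin m → F) : qOdd m F (embX c) = 0 := by
  rw [qOdd_coe]
  simp [Cfsg.quadFormOdd, embX]

theorem embX_injective {m : ℕ} {F : Type*} [Field F] {c : Fin m → F} (h : embX c = 0) : c = 0 := by
  funext i
  have := congrFun h (Sum.inr (Sum.inl i))
  simpa [embX] using this

theorem exists_singular {F : Type*} [Field F] (m : ℕ) (hm : 3 ≤ m)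
    (W : Submodule F (Unit ⊕ (Fin m ⊕ Fin m) → F)) (hdim : finrank F W = 2) :
    ∃ u : Unit ⊕ (Fin m ⊕ Fin m) → F, u ≠ 0 ∧ qOdd m F u = 0 ∧
      ∀ w ∈ W, polar (qOdd m F) u w = 0 := by
  let Φ : (Fin m → F) →ₗ[F] (W →ₗ[F] F) :=
    LinearMap.mk₂ F (fun c (w : W) => polar (qOdd m F) (embX c) (w : Unit ⊕ (Fin m ⊕ Fin m) → F))
      (fun c d w => by rw [embX_add, polar_add_left])
      (fun a c w => by rw [embX_smul, polar_smul_left])
      (fun c w w' => by rw [Submodule.coe_add, polar_add_right])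
      (fun a c w => by rw [Submodule.coe_smul, polar_smul_right])
  have hlt : finrank F (W →ₗ[F] F) < finrank F (Fin m → F) := by
    rw [Module.finrank_linearMap_self, hdim, Module.finrank_fintype_fun_eq_card, Fintype.card_fin]
    omega
  have hker := LinearMap.ker_ne_bot_of_finrank_lt (f := Φ) hlt
  obtain ⟨c, hc, hc0⟩ := (Submodule.ne_bot_iff _).mp hker
  refine ⟨embX c, fun h => hc0 (embX_injective h), qOdd_embX c, fun w hw => ?_⟩
  have h1 : Φ c = 0 := hc
  have h2 := congrArg (fun f : W →ₗ[F] F => f ⟨w, hw⟩) h1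
  exact h2

/-- Let F be the field with 3 elements, m ≥ 6, Q the standard quadratic form on F^(2m+1) and Ω the commutator subgroup of its isometry group. Let W be a 2-dimensional subspace on which the polar form is non-degenerate and which contains a line on which Q vanishes. Then the elements of Ω stabilising W form a subgroup that is not maximal: some subgroup lies strictly between it and Ω. -/
theorem result {F : Type*} [Field F] [Fintype F] (hq : Fintype.card F = 3) (m : ℕ) (hm : 6 ≤ m) (W : Submodule F (Unit ⊕ (Fin m ⊕ Fin m) → F)) (hdim : Module.finrank F W = 2) (hW : Cfsg.Geo.IsNondegenerateOn (QuadraticMap.polar (Cfsg.quadFormOdd m F)) W) (hplus : Cfsg.Geo.IsPlusTypeOn (Cfsg.quadFormOdd m F) W) : ∃ K : Subgroup (Matrix.GeneralLinearGroup (Unit ⊕ (Fin m ⊕ Fin m)) F), Cfsg.Geo.subspaceStabilizer W ⊓ Cfsg.Geo.omegaGL (Cfsg.quadFormOdd m F) < K ∧ K < Cfsg.Geo.omegaGL (Cfsg.quadFormOdd m F) := by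
  rw [← qOdd_coe] at hW hplus ⊢
  exact plane_not_maximal hq (qOdd m F) W hdim hW hplus (exists_singular m (by omega) W hdim)

end Cfsg.Agent.S5676
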