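import Cfsg.Statements.S5677
import Cfsg.Agent.Lib.Helper94.OrthBlk6
import Cfsg.Agent.Lib.Helper94.OrthPara
import Cfsg.Agent.Lib.Helper44.NegPairs
import Cfsg.Agent.Lib.Helper37.FrameApply

set_option autoImplicit false
open Cfsg

namespace Cfsg.Agent.S5677

open Cfsg.Agent.Lib.Helper94.OrthND Cfsg.Agent.Lib.Helper94.OrthPara
  Cfsg.Agent.Lib.Helper94.OrthBlk6

/-- Let F be a finite field of odd order q, m ≥ 6, Q the standard quadratic form on F^(2m+1) and Ω the commutator subgroup of its isometry group. Let D be a decomposition of F^(2m+1) into t ≥ 2 pairwise orthogonal, pairwise Q-isometric subspaces of equal dimension k > 1 on which the polar form is non-degenerate. Unless q = 3 and k = 3, the elements of Ω permuting the members of D form a maximal subgroup of Ω. -/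
theorem result {F : Type*} [Field F] [Fintype F] (hodd : Odd (Fintype.card F)) (m : ℕ) (hm : 6 ≤ m) {t : ℕ} (k : ℕ) (hk : 1 < k) (D : Fin t → Submodule F (Unit ⊕ (Fin m ⊕ Fin m) → F)) (hD : Cfsg.Geo.IsOrthogonalMDecomposition (Cfsg.quadFormOdd m F) k D) (hex : ¬ (Fintype.card F = 3 ∧ k = 3)) : Cfsg.Geo.IsMaximalIn (Cfsg.Geo.omegaGL (Cfsg.quadFormOdd m F)) (Cfsg.Geo.decompositionStabilizer D ⊓ Cfsg.Geo.omegaGL (Cfsg.quadFormOdd m F)) := by
  have h2 : (2 : F) ≠ 0 := Cfsg.Agent.Lib.Helper44.FinSq.two_ne_zero_of_odd_card hodd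
  have hQ : Cfsg.Geo.IsNondegenerateQuadraticForm (Cfsg.quadFormOdd m F) :=
    nondeg_of_sep (Cfsg.Agent.Lib.Helper44.NegPairs.oddQ m F)
      (Cfsg.Agent.Lib.Helper44.NegPairs.sep_oddQ h2 m)
  have hc : Fintype.card (Unit ⊕ (Fin m ⊕ Fin m)) = 2 * m + 1 := by
    simp [Fintype.card_sum]
    omega
  have htk : t * k = 2 * m + 1 := by
    rw [← hc]
    exact Cfsg.Agent.Lib.Helper37.FrameApply.card_index D hD.decomp.decomp
  have ht2 := hD.decomp.decomp.two_le
  have hkodd : k % 2 = 1 := by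
    rcases Nat.even_or_odd k with ⟨r, hr⟩ | ⟨r, hr⟩
    · exfalso
      rw [hr] at htk
      have e : t * (r + r) = 2 * (t * r) := by ring
      omega
    · omega
  have htodd : t % 2 = 1 := by
    rcases Nat.even_or_odd t with ⟨r, hr⟩ | ⟨r, hr⟩
    · exfalso
      rw [hr] at htk
      have e : (r + r) * k = 2 * (r * k) := by ring
      omega
    · omega
  have hk3 : 3 ≤ k := by omega
  have ht3 : 3 ≤ t := by omega
  have hq : 5 ≤ Fintype.card F ∨ 5 ≤ k := by
    by_cases hq3 : Fintype.card F = 3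
    · right
      have hk3' : k ≠ 3 := fun h => hex ⟨hq3, h⟩
      omega
    · left
      obtain ⟨r, hr⟩ := hodd
      have h1 : 1 < Fintype.card F := Fintype.one_lt_card
      omega
  exact decomp_maximal hQ h2 (by rw [hc]; omega) hD hk3 ht3 hq

end Cfsg.Agent.S5677
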