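import Cfsg.Statements.S5683
import Cfsg.Agent.Lib.Helper94.SfOrth6
import Cfsg.Agent.Lib.Helper94.SfOrth7
import Cfsg.Agent.Lib.Helper94.OrthPara
import Cfsg.Agent.Lib.Helper44.NegPairs

set_option autoImplicit false
open Cfsg

namespace Cfsg.Agent.S5683

open Cfsg.Agent.Lib.Helper94.OrthPara Cfsg.Agent.Lib.Helper94.SfOrth6
  Cfsg.Agent.Lib.Helper94.SfOrth7

/-- Let F be a finite field of odd order, m ≥ 6, Q the standard quadratic form on F^(2m+1) and Ω the commutator subgroup of its isometry group. Let F₀ be a subfield with |F| = |F₀| ^ r for a prime r and P an invertible matrix such that Q takes values in F₀ on the F₀-span of the columns of P. Then the elements of Ω lying in the subfield group of P (the conjugate by P of the product of GL_(2m+1)(F₀) with the scalars) form a maximal subgroup of Ω. -/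
theorem result {F : Type*} [Field F] [Fintype F] (hodd : Odd (Fintype.card F)) (m : ℕ) (hm : 6 ≤ m) (F₀ : Subfield F) (r : ℕ) (hr : r.Prime) (hcard : Fintype.card F = Nat.card F₀ ^ r) (P : Matrix.GeneralLinearGroup (Unit ⊕ (Fin m ⊕ Fin m)) F) (hP : Cfsg.Geo.IsQuadFormRationalStructure (Cfsg.quadFormOdd m F) F₀ P) : Cfsg.Geo.IsMaximalIn (Cfsg.Geo.omegaGL (Cfsg.quadFormOdd m F)) (Cfsg.Geo.subfieldSubgroup F₀ P ⊓ Cfsg.Geo.omegaGL (Cfsg.quadFormOdd m F)) := by
  have h2 : (2 : F) ≠ 0 := Cfsg.Agent.Lib.Helper44.FinSq.two_ne_zero_of_odd_card hodd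
  have hQ : Cfsg.Geo.IsNondegenerateQuadraticForm (Cfsg.quadFormOdd m F) :=
    nondeg_of_sep (Cfsg.Agent.Lib.Helper44.NegPairs.oddQ m F)
      (Cfsg.Agent.Lib.Helper44.NegPairs.sep_oddQ h2 m)
  have hc : Fintype.card (Unit ⊕ (Fin m ⊕ Fin m)) = 2 * m + 1 := by
    simp [Fintype.card_sum]
    omega
  have hP' : Cfsg.Geo.IsQuadFormRationalStructure
      (fun v => (1 : F) * Cfsg.quadFormOdd m F v) F₀ P := by
    intro u hu
    have := hP u hu
    simpa using this
  apply maximal_pull P (one_ne_zero : (1 : F) ≠ 0)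
  exact maximalQ_odd (pullQ_nd hQ P one_ne_zero) (pullQ_rat hP') r hr hcard
    (by rw [hc]; omega) h2

end Cfsg.Agent.S5683
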