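import Cfsg.Statements.S5690
import Cfsg.Agent.Lib.Helper37.PlaneTwo

set_option autoImplicit false
open Cfsg

namespace Cfsg.Agent.S5690

open Module QuadraticMap Cfsg.Agent.Lib.Helper37.PlanePlus Cfsg.Agent.Lib.Helper37.PlaneTwo
open Cfsg.Agent.Lib.Helper44.QSpace

/-- The stabiliser in `Ω` of a plus-type plane is not maximal over the fields with two or three
elements (dimension at least 5). -/
theorem plane_not_maximal_small {F : Type*} [Field F] [Fintype F] {ι : Type} [Fintype ι]
    [DecidableEq ι] (hn : 5 ≤ Fintype.card ι) (Qf : QuadraticForm F (ι → F)) (hS : Sep Qf)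
    (hq : Fintype.card F ≤ 3) (W : Submodule F (ι → F)) (hdim : finrank F W = 2)
    (hW : Cfsg.Geo.IsNondegenerateOn (polar ⇑Qf) W) (hplus : Cfsg.Geo.IsPlusTypeOn ⇑Qf W) :
    ∃ K : Subgroup (Matrix.GeneralLinearGroup ι F),
      Cfsg.Geo.subspaceStabilizer W ⊓ Cfsg.Geo.omegaGL ⇑Qf < K ∧ K < Cfsg.Geo.omegaGL ⇑Qf := by
  classical
  obtain ⟨s, t, hsW, htW, hQs, hQt, hst, hWspan⟩ := exists_hyp_basis Qf W hdim hW hplus
  obtain ⟨e, f, he0, hQe, hQf, hef, hse, hte, hsf, htf⟩ := exists_perp_hyp Qf hS hn hQs hQt hst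
  have hWe : ∀ w ∈ W, polar Qf w e = 0 := by
    intro w hw
    obtain ⟨α, β, rfl⟩ := hWspan w hw
    rw [polar_add_left, polar_smul_l, polar_smul_l, hse, hte]
    ring
  have hWf : ∀ w ∈ W, polar Qf w f = 0 := by
    intro w hw
    obtain ⟨α, β, rfl⟩ := hWspan w hw
    rw [polar_add_left, polar_smul_l, polar_smul_l, hsf, htf]
    ring
  have h1 : 1 < Fintype.card F := Fintype.one_lt_card
  have hq' : Fintype.card F = 2 ∨ Fintype.card F = 3 := by omega
  rcases hq' with hq2 | hq3
  · exact plane_not_maximal_two hq2 Qf W hdim hW hplus ⟨e, f, he0, hQe, hQf, hef, hWe, hWf⟩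
  · refine plane_not_maximal hq3 Qf W hdim hW hplus ⟨e, he0, hQe, fun w hw => ?_⟩
    rw [polar_comm]
    exact hWe w hw

/-- Let F be a finite field with q elements, n ≥ 13 even, Q a non-degenerate quadratic form on F^n (of either type), and Ω the commutator subgroup of the isometry group of Q, viewed inside GL_n(F). Suppose q ≤ 3 and W is a plane on which the polar form is non-degenerate and which contains a line on which Q vanishes. Then the elements of Ω stabilising W form a subgroup that is not maximal: some subgroup lies strictly between it and Ω. -/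
theorem result {F : Type*} [Field F] [Fintype F] {n : ℕ} (hn : 13 ≤ n) (heven : Even n) (Q : (Fin n → F) → F) (hQ : Cfsg.Geo.IsNondegenerateQuadraticForm Q) (hq : Fintype.card F ≤ 3) (W : Submodule F (Fin n → F)) (hdim : Module.finrank F W = 2) (hW : Cfsg.Geo.IsNondegenerateOn (QuadraticMap.polar Q) W) (hWp : Cfsg.Geo.IsPlusTypeOn Q W) : ∃ K : Subgroup (Matrix.GeneralLinearGroup (Fin n) F), Cfsg.Geo.subspaceStabilizer W ⊓ Cfsg.Geo.omegaGL Q < K ∧ K < Cfsg.Geo.omegaGL Q := by
  have hn' : 5 ≤ Fintype.card (Fin n) := by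
    rw [Fintype.card_fin]
    omega
  exact plane_not_maximal_small hn' (toQF Q hQ) (toQF_sep Q hQ) hq W hdim hW hWp

end Cfsg.Agent.S5690
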