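import Cfsg.Statements.S5693
import Cfsg.Agent.Lib.Helper37.DecOdd
import Cfsg.Agent.Lib.Helper37.DecTwo
import Cfsg.Agent.Lib.Helper37.DecFour

set_option autoImplicit false
open Cfsg

namespace Cfsg.Agent.S5693

/-- Let F be a finite field with q elements, n ≥ 13 even, Q a non-degenerate quadratic form on F^n of plus type (some subspace of dimension n/2 is totally singular), and Ω the commutator subgroup of the isometry group of Q, viewed inside GL_n(F). Let D be a decomposition of F^n into t ≥ 2 pairwise orthogonal, pairwise Q-isometric subspaces of equal dimension k on which the polar form is non-degenerate (with, for even k, all members of plus type or t even; for odd k, q odd and square discriminant), in one of the cases: k = 2 with q = 3; k = 2 with plus-type members and q ∈ {2, 4, 5}; k = 3 with q = 3; k = 4 with plus-type members and q = 2. Then the elements of Ω permuting the members of D form a subgroup that is not maximal: some subgroup lies strictly between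 it and Ω. -/
theorem result {F : Type*} [Field F] [Fintype F] {n : ℕ} (hn : 13 ≤ n) (heven : Even n) (Q : (Fin n → F) → F) (hQ : Cfsg.Geo.IsNondegenerateQuadraticForm Q) (hplus : Cfsg.Geo.IsPlusTypeOn Q ⊤) {t : ℕ} (k : ℕ) (D : Fin t → Submodule F (Fin n → F)) (hD : Cfsg.Geo.IsOrthogonalMDecomposition Q k D) (hke : Even k → ((∀ i, Cfsg.Geo.IsPlusTypeOn Q (D i)) ∨ Even t)) (hko : Odd k → (Odd (Fintype.card F) ∧ Cfsg.Geo.HasSquareDiscriminant Q)) (hcase : ((k = 2 ∧ (Fintype.card F = 3 ∨ ((∀ i, Cfsg.Geo.IsPlusTypeOn Q (D i)) ∧ (Fintype.card F = 2 ∨ Fintype.card F = 4 ∨ Fintype.card F = 5)))) ∨ (k = 3 ∧ Fintype.card F = 3) ∨ (k = 4 ∧ Fintype.card F = 2 ∧ ∀ i, Cfsg.Geo.IsPlusTypeOn Q (D i)))) : ∃ K : Subgroup (Matrix.GeneralLinearGroup (Fin n) F), Cfsg.Geo.decompositionStabilizer D ⊓ Cfsg.Geo.omegaGL Q < K ∧ K < Cfsg.Geo.omegaGL Q := by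
  have hn' : Fintype.card (Fin n) = n := Fintype.card_fin n
  have hS := Cfsg.Agent.Lib.Helper37.PlaneTwo.toQF_sep Q hQ
  rcases hcase with ⟨rfl, h⟩ | ⟨rfl, hq⟩ | ⟨rfl, hq, hpl⟩
  · rcases h with hq | ⟨hpl, hq | hq | hq⟩
    · by_cases han : ∀ i, ∀ w ∈ D i, Q w = 0 → w = 0
      · exact Cfsg.Agent.Lib.Helper37.FrameApply.orth2_not_maximal hq
          (Cfsg.Agent.Lib.Helper37.PlaneTwo.toQF Q hQ) D hD.decomp han (by rw [hn']; omega)
      · push Not at han
        obtain ⟨i₀, w₀, hw₀, hQw₀, hw₀0⟩ := han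
        have hpl : ∀ i, Cfsg.Geo.IsPlusTypeOn Q (D i) := by
          intro i
          obtain ⟨e, he⟩ := hD.isometric i₀ i
          have hne : ((e ⟨w₀, hw₀⟩ : D i) : Fin n → F) ≠ 0 := by
            intro h
            have h1 : e ⟨w₀, hw₀⟩ = 0 := Subtype.ext h
            have h2 := (LinearEquiv.map_eq_zero_iff e).mp h1
            exact hw₀0 (congrArg Subtype.val h2)
          refine ⟨Submodule.span F {((e ⟨w₀, hw₀⟩ : D i) : Fin n → F)}, ?_, ?_, ?_⟩
          · exact (Submodule.span_singleton_le_iff_mem _ _).mpr (e ⟨w₀, hw₀⟩).2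
          · intro x hx
            obtain ⟨c, rfl⟩ := Submodule.mem_span_singleton.mp hx
            rw [hQ.smul, he, hQw₀, mul_zero]
          · rw [finrank_span_singleton hne, hD.decomp.decomp.finrank_eq]
        exact Cfsg.Agent.Lib.Helper37.DecOdd.plus2_three_not_maximal hq
          (Cfsg.Agent.Lib.Helper37.PlaneTwo.toQF Q hQ) D hD.decomp hpl (by rw [hn']; omega)
    · exact Cfsg.Agent.Lib.Helper37.DecTwo.plus2_two_not_maximal hq
        (Cfsg.Agent.Lib.Helper37.PlaneTwo.toQF Q hQ) hS D hD.decomp hpl (by rw [hn']; omega)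
    · exact Cfsg.Agent.Lib.Helper37.DecTwo.plus2_four_not_maximal hq
        (Cfsg.Agent.Lib.Helper37.PlaneTwo.toQF Q hQ) hS D hD.decomp hpl (by rw [hn']; omega)
    · exact Cfsg.Agent.Lib.Helper37.DecOdd.plus2_five_not_maximal hq
        (Cfsg.Agent.Lib.Helper37.PlaneTwo.toQF Q hQ) D hD.decomp hpl (by rw [hn']; omega)
  · exact Cfsg.Agent.Lib.Helper37.FrameApply.orth3_not_maximal hq
      (Cfsg.Agent.Lib.Helper37.PlaneTwo.toQF Q hQ) D hD (by rw [hn']; omega)
  · exact Cfsg.Agent.Lib.Helper37.DecFour.plus4_two_not_maximal hq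
      (Cfsg.Agent.Lib.Helper37.PlaneTwo.toQF Q hQ) hS D hD.decomp hpl (by rw [hn']; omega)

end Cfsg.Agent.S5693
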