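import Cfsg.Statements.S5697
import Cfsg.Agent.Lib.Helper94.OrthLagSwap

set_option autoImplicit false
open Cfsg

namespace Cfsg.Agent.S5697

open Module
open Cfsg.Agent.Lib.Helper94.OrthND2 Cfsg.Agent.Lib.Helper94.OrthLag
  Cfsg.Agent.Lib.Helper94.OrthLagSwap

/-- Let F be a finite field with q elements, n ≥ 13 even, Q a non-degenerate quadratic form on F^n of plus type (some subspace of dimension n/2 is totally singular), and Ω the commutator subgroup of the isometry group of Q, viewed inside GL_n(F). Suppose n/2 is even and let D be a decomposition of F^n into two complementary subspaces of dimension n/2 on each of which Q vanishes. Then the elements of Ω preserving or interchanging the two subspaces form a maximal subgroup of Ω. -/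
theorem result {F : Type*} [Field F] [Fintype F] {n : ℕ} (hn : 13 ≤ n) (heven : Even n) (Q : (Fin n → F) → F) (hQ : Cfsg.Geo.IsNondegenerateQuadraticForm Q) (hplus : Cfsg.Geo.IsPlusTypeOn Q ⊤) (k : ℕ) (hk : 2 * k = n) (hke : Even k) (D : Fin 2 → Submodule F (Fin n → F)) (hD : Cfsg.Geo.IsMDecomposition k D) (hts : ∀ i, Cfsg.Geo.IsTotallySingularQuad Q (D i)) : Cfsg.Geo.IsMaximalIn (Cfsg.Geo.omegaGL Q) (Cfsg.Geo.decompositionStabilizer D ⊓ Cfsg.Geo.omegaGL Q) := by
  have h13 : 13 ≤ Fintype.card (Fin n) := by rw [Fintype.card_fin]; exact hn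
  have h5 : 5 ≤ Fintype.card (Fin n) := by omega
  have hfr0 := hD.finrank_eq 0
  have hfr1 := hD.finrank_eq 1
  have hfin : ∀ i : Fin 2, i = 0 ∨ i = 1 := by decide
  have hp : TSPair Q (D 0) (D 1) := by
    refine ⟨hts 0, hts 1, fun v => ?_⟩
    have hle : iSup D ≤ D 0 ⊔ D 1 := by
      apply iSup_le
      intro i
      rcases hfin i with rfl | rfl
      · exact le_sup_left
      · exact le_sup_right
    have hv : v ∈ D 0 ⊔ D 1 := hle (by rw [hD.iSup_eq_top]; exact Submodule.mem_top)
    obtain ⟨x, hx, y, hy, hxy⟩ := Submodule.mem_sup.mp hv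
    exact ⟨x, hx, y, hy, hxy.symm⟩
  obtain ⟨j, hj⟩ := hke
  obtain ⟨s, hsΩ, hsX, hsY, -⟩ := exists_swap hQ h5 j (D 0) (D 1) (by rw [hfr0]; omega)
    (hts 0) (hts 1)
    (fun x hx hx0 => by
      obtain ⟨y, hy, hxy⟩ := hp.partner hQ hx hx0
      exact ⟨y, hy, by rw [hxy]; exact one_ne_zero⟩)
    (fun y hy hy0 => by
      obtain ⟨x, hx, hxy⟩ := hp.symm.partner hQ hy hy0
      exact ⟨x, hx, by rw [hxy]; exact one_ne_zero⟩)
  apply lag_maximal hQ h13 (D 0) (D 1) hp (by omega) (by omega) _ ?_ s hsΩ hsX hsY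
  intro g
  constructor
  · rintro ⟨⟨σ, hσ⟩, hgΩ⟩
    refine ⟨hgΩ, ?_⟩
    have hmem : ∀ i, ∀ v ∈ D i, (g : Matrix (Fin n) (Fin n) F).mulVec v ∈ D (σ i) :=
      fun i v hv => by rw [← hσ i]; exact ⟨v, hv, Matrix.toLin'_apply _ _⟩
    rcases hfin (σ 0) with h0 | h0
    · have h1 : σ 1 = 1 := by
        rcases hfin (σ 1) with h1 | h1
        · exfalso
          have := σ.injective (h0.trans h1.symm)
          exact absurd this (by decide)
        · exact h1
      left
      exact ⟨fun x hx => by have := hmem 0 x hx; rwa [h0] at this,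
        fun y hy => by have := hmem 1 y hy; rwa [h1] at this⟩
    · have h1 : σ 1 = 0 := by
        rcases hfin (σ 1) with h1 | h1
        · exact h1
        · exfalso
          have := σ.injective (h0.trans h1.symm)
          exact absurd this (by decide)
      right
      exact ⟨fun x hx => by have := hmem 0 x hx; rwa [h0] at this,
        fun y hy => by have := hmem 1 y hy; rwa [h1] at this⟩
  · rintro ⟨hgΩ, hst | hsw⟩
    · refine ⟨⟨1, fun i => ?_⟩, hgΩ⟩
      rw [Equiv.Perm.one_apply]
      rcases hfin i with rfl | rfl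
      · exact map_eq_of_stab g _ hst.1
      · exact map_eq_of_stab g _ hst.2
    · refine ⟨⟨Equiv.swap 0 1, fun i => ?_⟩, hgΩ⟩
      rcases hfin i with rfl | rfl
      · rw [Equiv.swap_apply_left]
        apply Submodule.eq_of_le_of_finrank_eq
        · rintro _ ⟨v, hv, rfl⟩
          rw [Matrix.toLin'_apply]
          exact hsw.1 v hv
        · rw [finrank_map_toLin, hfr0, hfr1]
      · rw [Equiv.swap_apply_right]
        apply Submodule.eq_of_le_of_finrank_eq
        · rintro _ ⟨v, hv, rfl⟩
          rw [Matrix.toLin'_apply]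
          exact hsw.2 v hv
        · rw [finrank_map_toLin, hfr0, hfr1]

end Cfsg.Agent.S5697
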