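import Cfsg.Statements.S5698
import Cfsg.Agent.Lib.Helper37.TwoFam

set_option autoImplicit false
open Cfsg

namespace Cfsg.Agent.S5698

/-- Let F be a finite field with q elements, n ≥ 13 even, Q a non-degenerate quadratic form on F^n of plus type (some subspace of dimension n/2 is totally singular), and Ω the commutator subgroup of the isometry group of Q, viewed inside GL_n(F). Suppose n/2 is odd and let D be a decomposition of F^n into two complementary subspaces of dimension n/2 on each of which Q vanishes. Then the elements of Ω preserving or interchanging the two subspaces form a subgroup that is not maximal: some subgroup lies strictly between it and Ω. -/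
theorem result {F : Type*} [Field F] [Fintype F] {n : ℕ} (hn : 13 ≤ n) (heven : Even n) (Q : (Fin n → F) → F) (hQ : Cfsg.Geo.IsNondegenerateQuadraticForm Q) (hplus : Cfsg.Geo.IsPlusTypeOn Q ⊤) (k : ℕ) (hk : 2 * k = n) (hko : Odd k) (D : Fin 2 → Submodule F (Fin n → F)) (hD : Cfsg.Geo.IsMDecomposition k D) (hts : ∀ i, Cfsg.Geo.IsTotallySingularQuad Q (D i)) : ∃ K : Subgroup (Matrix.GeneralLinearGroup (Fin n) F), Cfsg.Geo.decompositionStabilizer D ⊓ Cfsg.Geo.omegaGL Q < K ∧ K < Cfsg.Geo.omegaGL Q := by
  have hcard : Fintype.card (Fin n) = n := Fintype.card_fin n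
  exact Cfsg.Agent.Lib.Helper37.TwoFam.pair_not_maximal
    (Cfsg.Agent.Lib.Helper37.PlaneTwo.toQF Q hQ) (Cfsg.Agent.Lib.Helper37.PlaneTwo.toQF_sep Q hQ)
    (by rw [hcard]; omega) k (by rw [hcard]; exact hk) hko D hD hts

end Cfsg.Agent.S5698
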