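import Cfsg.Statements.S5699
import Cfsg.Agent.Lib.Helper94.OrthND2

set_option autoImplicit false
open Cfsg

namespace Cfsg.Agent.S5699

open Module
open Cfsg.Agent.Lib.Helper94.OrthND Cfsg.Agent.Lib.Helper94.OrthND2 Cfsg.Agent.Lib.Helper94.OrthRel
  Cfsg.Agent.Lib.Helper94.OrthSiegel

/-- Let F be a finite field with q elements, n ≥ 13 even, Q a non-degenerate quadratic form on F^n (of either type), and Ω the commutator subgroup of the isometry group of Q, viewed inside GL_n(F). Let D be a decomposition of F^n into two orthogonal subspaces of odd dimension n/2 on which the polar form is non-degenerate and which are not Q-isometric to each other. Then the elements of Ω permuting (necessarily fixing) the two subspaces form a maximal subgroup of Ω. -/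
theorem result {F : Type*} [Field F] [Fintype F] {n : ℕ} (hn : 13 ≤ n) (heven : Even n) (Q : (Fin n → F) → F) (hQ : Cfsg.Geo.IsNondegenerateQuadraticForm Q) (k : ℕ) (hk : 2 * k = n) (hko : Odd k) (D : Fin 2 → Submodule F (Fin n → F)) (hD : Cfsg.Geo.IsNondegenerateMDecomposition (QuadraticMap.polar Q) k D) (hni : ¬ Cfsg.Geo.AreIsometricFor Q (D 0) (D 1)) : Cfsg.Geo.IsMaximalIn (Cfsg.Geo.omegaGL Q) (Cfsg.Geo.decompositionStabilizer D ⊓ Cfsg.Geo.omegaGL Q) := by
  have h13 : 13 ≤ Fintype.card (Fin n) := by rw [Fintype.card_fin]; exact hn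
  have hW := hD.nondegenerate 0
  have hp := opair_perp hQ (D 0) hW
  have hfr := hp.finrank_add
  rw [Fintype.card_fin, hD.decomp.finrank_eq 0] at hfr
  have hle : D 1 ≤ perpS hQ (D 0) := by
    intro v hv w hw
    exact hD.orthogonal 0 1 (by decide) w hw v hv
  have hD1 : D 1 = perpS hQ (D 0) :=
    Submodule.eq_of_le_of_finrank_eq hle (by rw [hD.decomp.finrank_eq 1]; omega)
  have hp' : OPair Q (D 0) (D 1) := by rw [hD1]; exact hp
  have hstab : Cfsg.Geo.decompositionStabilizer D ⊓ Cfsg.Geo.omegaGL Q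
      = Cfsg.Geo.subspaceStabilizer (D 0) ⊓ Cfsg.Geo.omegaGL Q := by
    apply le_antisymm
    · rintro g ⟨⟨σ, hσ⟩, hgΩ⟩
      refine mem_H_of' hgΩ ?_
      by_cases h0 : σ 0 = 0
      · intro v hv
        have h1 := hσ 0
        rw [h0] at h1
        rw [← h1]
        exact ⟨v, hv, Matrix.toLin'_apply _ _⟩
      · exfalso
        have h1 : σ 0 = 1 := Fin.eq_one_of_ne_zero _ h0
        apply hni
        have h2 := hσ 0
        rw [h1] at h2
        exact isometric_of_map g (omegaGL_isom hgΩ) _ _ h2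
    · intro g hg
      have hs := H_stab hQ hp' hg
      refine ⟨⟨1, fun i => ?_⟩, hg.2⟩
      rw [Equiv.Perm.one_apply]
      by_cases hi : i = 0
      · subst hi
        exact map_eq_of_stab g _ hs.1
      · have hi1 : i = 1 := Fin.eq_one_of_ne_zero _ hi
        subst hi1
        exact map_eq_of_stab g _ hs.2
  rw [hstab]
  apply nondeg_maximal hQ h13 (D 0) (D 1) hp' ?_ ?_ ?_ ?_
  · intro h
    have h1 := hD.decomp.finrank_eq 0
    rw [h, finrank_bot] at h1
    omega
  · rw [hD.decomp.finrank_eq 1]; omega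
  · rintro ⟨g, hgΩ, hg⟩
    apply hni
    have hle2 : (D 1).map (Matrix.toLin' (g : Matrix (Fin n) (Fin n) F)) ≤ D 0 := by
      rintro _ ⟨v, hv, rfl⟩
      rw [Matrix.toLin'_apply]
      exact hg v hv
    have heq : (D 1).map (Matrix.toLin' (g : Matrix (Fin n) (Fin n) F)) = D 0 :=
      Submodule.eq_of_le_of_finrank_eq hle2
        (by rw [finrank_map_toLin, hD.decomp.finrank_eq 1, hD.decomp.finrank_eq 0])
    exact isometric_symm (isometric_of_map g (omegaGL_isom hgΩ) _ _ heq)
  · rintro ⟨-, h2, -⟩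
    rw [hD.decomp.finrank_eq 0] at h2
    omega

end Cfsg.Agent.S5699
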