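import Cfsg.Statements.S5876
import Mathlib

set_option autoImplicit false
open Cfsg

namespace Cfsg.Agent.S5876

open Module
open scoped commutatorElement Pointwise

section Abstract

variable {F : Type*} [Field F] {V : Type*} [AddCommGroup V] [Module F V]
variable {G : Type*} [Group G] (ρ : G →* Module.End F V)

/-- The fixed space of `g`. -/
def fixS (g : G) : Submodule F V := Module.End.eigenspace (ρ g) 1

lemma mem_fixS {g : G} {v : V} : v ∈ fixS ρ g ↔ ρ g v = v := by
  simp [fixS]

lemma rho_mul_apply (g h : G) (v : V) : ρ (g * h) v = ρ g (ρ h v) := by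
  rw [map_mul, Module.End.mul_apply]

lemma rho_one_apply (v : V) : ρ 1 v = v := by
  rw [map_one, Module.End.one_apply]

lemma rho_inv_apply (g : G) (v : V) : ρ g⁻¹ (ρ g v) = v := by
  rw [← rho_mul_apply, inv_mul_cancel, rho_one_apply]

lemma rho_apply_inv (g : G) (v : V) : ρ g (ρ g⁻¹ v) = v := by
  rw [← rho_mul_apply, mul_inv_cancel, rho_one_apply]

lemma rho_injective (g : G) : Function.Injective (ρ g) := by
  intro u v h
  have := congrArg (ρ g⁻¹) h
  simpa [rho_inv_apply] using this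

/-- The linear equivalence given by `g`. -/
def rhoE (g : G) : V ≃ₗ[F] V :=
  LinearEquiv.ofLinearMap (ρ g) (ρ g⁻¹)
    (LinearMap.ext fun v => by simp)
    (LinearMap.ext fun v => by simp)

lemma rhoE_coe (g : G) : ((rhoE ρ g : V ≃ₗ[F] V) : V →ₗ[F] V) = ρ g := rfl

lemma fixS_conj (x g : G) : fixS ρ (x * g * x⁻¹) = (fixS ρ g).map (ρ x) := by
  ext v
  simp only [mem_fixS, Submodule.mem_map, rho_mul_apply]
  constructor
  · intro h
    refine ⟨ρ x⁻¹ v, ?_, rho_apply_inv ρ x v⟩
    have := congrArg (ρ x⁻¹) h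
    simpa [rho_inv_apply] using this
  · rintro ⟨w, hw, rfl⟩
    rw [rho_inv_apply, hw]

lemma fixS_inv (g : G) : fixS ρ g⁻¹ = fixS ρ g := by
  ext v
  simp only [mem_fixS]
  constructor
  · intro h
    have := congrArg (ρ g) h
    rw [rho_apply_inv] at this
    exact this.symm
  · intro h
    have := congrArg (ρ g⁻¹) h
    rw [rho_inv_apply] at this
    exact this.symm

lemma fixS_inf_le (g h : G) : fixS ρ g ⊓ fixS ρ h ≤ fixS ρ (g * h) := by
  intro v hv
  rw [Submodule.mem_inf, mem_fixS, mem_fixS] at hv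
  rw [mem_fixS, rho_mul_apply, hv.2, hv.1]

/-- The dimension of the fixed space. -/
noncomputable def dfix (g : G) : ℕ := finrank F (fixS ρ g)

lemma dfix_conj (x g : G) : dfix ρ (x * g * x⁻¹) = dfix ρ g := by
  unfold dfix
  rw [fixS_conj, ← rhoE_coe, LinearEquiv.finrank_map_eq]

lemma dfix_inv (g : G) : dfix ρ g⁻¹ = dfix ρ g := by
  unfold dfix
  rw [fixS_inv]

section FD

variable [FiniteDimensional F V]

lemma dfix_mul (g h : G) : dfix ρ g + dfix ρ h ≤ finrank F V + dfix ρ (g * h) := by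
  unfold dfix
  have h1 := Submodule.finrank_sup_add_finrank_inf_eq (fixS ρ g) (fixS ρ h)
  have h2 : finrank F ↥(fixS ρ g ⊔ fixS ρ h) ≤ finrank F V := Submodule.finrank_le _
  have h3 : finrank F ↥(fixS ρ g ⊓ fixS ρ h) ≤ finrank F ↥(fixS ρ (g * h)) :=
    Submodule.finrank_mono (fixS_inf_le ρ g h)
  omega

lemma dfix_comm (g b : G) : 2 * dfix ρ g ≤ finrank F V + dfix ρ ⁅g, b⁆ := by
  have h1 := dfix_mul ρ g (b * g⁻¹ * b⁻¹)
  rw [dfix_conj, dfix_inv] at h1
  have h2 : g * (b * g⁻¹ * b⁻¹) = ⁅g, b⁆ := by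
    rw [commutatorElement_def]; group
  rw [h2] at h1
  omega

lemma exists_fixed_of_dfix_pos {g : G} (h : 0 < dfix ρ g) : ∃ v : V, v ≠ 0 ∧ ρ g v = v := by
  unfold dfix at h
  rw [Module.finrank_pos_iff_exists_ne_zero] at h
  obtain ⟨⟨v, hv⟩, hne⟩ := h
  refine ⟨v, ?_, (mem_fixS ρ).mp hv⟩
  intro h0
  apply hne
  ext
  exact h0

/-- The common fixed space of the conjugates `x * a * x⁻¹`, `x ∈ S`. -/
def IS (a : G) (S : Set G) : Submodule F V where
  carrier := {v | ∀ x ∈ S, ρ (x * a * x⁻¹) v = v}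
  add_mem' := by
    intro u v hu hv x hx
    rw [map_add, hu x hx, hv x hx]
  zero_mem' := by
    intro x _
    rw [map_zero]
  smul_mem' := by
    intro c v hv x hx
    rw [map_smul, hv x hx]

lemma mem_IS {a : G} {S : Set G} {v : V} :
    v ∈ IS ρ a S ↔ ∀ x ∈ S, ρ (x * a * x⁻¹) v = v := Iff.rfl

lemma IS_smul_iff (a y : G) (S : Set G) (v : V) :
    ρ y v ∈ IS ρ a (y • S) ↔ v ∈ IS ρ a S := by
  rw [mem_IS, mem_IS]
  constructor
  · intro h x hx
    have h1 := h (y * x) (Set.smul_mem_smul_set hx)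
    have h2 : y * x * a * (y * x)⁻¹ = y * (x * a * x⁻¹) * y⁻¹ := by group
    rw [h2, rho_mul_apply, rho_mul_apply, rho_inv_apply] at h1
    exact rho_injective ρ y h1
  · intro h x hx
    obtain ⟨z, hz, rfl⟩ := hx
    have h2 : y • z * a * (y • z)⁻¹ = y * (z * a * z⁻¹) * y⁻¹ := by
      rw [smul_eq_mul]; group
    rw [h2, rho_mul_apply, rho_mul_apply, rho_inv_apply, h z hz]

lemma IS_smul (a y : G) (S : Set G) : IS ρ a (y • S) = (IS ρ a S).map (ρ y) := by
  ext v
  rw [Submodule.mem_map]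
  constructor
  · intro h
    refine ⟨ρ y⁻¹ v, ?_, rho_apply_inv ρ y v⟩
    rw [← IS_smul_iff ρ a y S, rho_apply_inv]
    exact h
  · rintro ⟨w, hw, rfl⟩
    exact (IS_smul_iff ρ a y S w).mpr hw

lemma maximal_smul (a y : G) {S : Set G} (hS : Maximal (fun T : Set G => IS ρ a T ≠ ⊥) S) :
    Maximal (fun T : Set G => IS ρ a T ≠ ⊥) (y • S) := by
  have hne : ∀ (z : G) (T : Set G), IS ρ a T ≠ ⊥ → IS ρ a (z • T) ≠ ⊥ := by
    intro z T hT
    rw [Ne, Submodule.eq_bot_iff] at hT ⊢
    push Not at hT ⊢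
    obtain ⟨v, hv, hv0⟩ := hT
    refine ⟨ρ z v, (IS_smul_iff ρ a z T v).mpr hv, ?_⟩
    intro h0
    apply hv0
    apply rho_injective ρ z
    rw [h0, map_zero]
  refine ⟨hne y S hS.1, ?_⟩
  intro T hT hle
  have h1 : S ≤ y⁻¹ • T := by
    intro x hx
    rw [Set.mem_smul_set_iff_inv_smul_mem, inv_inv]
    exact hle (Set.smul_mem_smul_set hx)
  have h2 := hS.2 (hne y⁻¹ T hT) h1
  intro x hx
  rw [Set.mem_smul_set_iff_inv_smul_mem]
  exact h2 (Set.smul_mem_smul_set hx)

lemma indep_aux (a : G) (hab : ∀ x y : G, Commute (x * a * x⁻¹) (y * a * y⁻¹))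
    {ι : Type*} (T : ι → Set G) (hinj : Function.Injective T)
    (hmax : ∀ i, Maximal (fun S : Set G => IS ρ a S ≠ ⊥) (T i)) :
    ∀ (s : Finset ι) (f : ι → V), (∀ i ∈ s, f i ∈ IS ρ a (T i)) → ∑ i ∈ s, f i = 0 →
      ∀ i ∈ s, f i = 0 := by
  classical
  intro s
  induction s using Finset.strongInduction with
  | H s ih =>
    intro f hf hsum
    have key : ∀ i₀ ∈ s, ∀ i₁ ∈ s, i₁ ≠ i₀ → f i₁ = 0 := by
      intro i₀ hi₀ i₁ hi₁ hne
      have hex : ∃ x ∈ T i₀, x ∉ T i₁ := by
        by_contra hcon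
        push Not at hcon
        have h1 : T i₁ ≤ T i₀ := (hmax i₀).2 (hmax i₁).1 hcon
        exact hne (hinj (le_antisymm h1 hcon))
      obtain ⟨x, hx0, hx1⟩ := hex
      have hbot : IS ρ a (insert x (T i₁)) = ⊥ := by
        by_contra hne'
        exact hx1 ((hmax i₁).2 hne' (Set.subset_insert x (T i₁)) (Set.mem_insert x (T i₁)))
      have h0 : ρ (x * a * x⁻¹) (f i₀) - f i₀ = 0 := by
        rw [sub_eq_zero]
        exact hf i₀ hi₀ x hx0
      have hf' : ∀ i ∈ s.erase i₀, ρ (x * a * x⁻¹) (f i) - f i ∈ IS ρ a (T i) := by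
        intro i hi
        have hi' := Finset.mem_of_mem_erase hi
        refine Submodule.sub_mem _ ?_ (hf i hi')
        intro z hz
        rw [← rho_mul_apply, (hab z x).eq, rho_mul_apply, hf i hi' z hz]
      have hsum' : ∑ i ∈ s.erase i₀, (ρ (x * a * x⁻¹) (f i) - f i) = 0 := by
        have h1 : ∑ i ∈ s, (ρ (x * a * x⁻¹) (f i) - f i) = 0 := by
          rw [Finset.sum_sub_distrib, ← map_sum, hsum, map_zero, sub_zero]
        rw [← Finset.add_sum_erase s _ hi₀, h0, zero_add] at h1
        exact h1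
      have h3 := ih (s.erase i₀) (Finset.erase_ssubset hi₀) _ hf' hsum' i₁
        (Finset.mem_erase.mpr ⟨hne, hi₁⟩)
      have hmem : f i₁ ∈ IS ρ a (insert x (T i₁)) := by
        intro z hz
        rcases Set.mem_insert_iff.mp hz with rfl | hz
        · exact sub_eq_zero.mp h3
        · exact hf i₁ hi₁ z hz
      rw [hbot] at hmem
      simpa using hmem
    intro i hi
    by_cases h : ∃ i₁ ∈ s, i₁ ≠ i
    · obtain ⟨i₁, hi₁, hne⟩ := h
      exact key i₁ hi₁ i hi hne.symm
    · push Not at h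
      have h1 : ∑ j ∈ s, f j = f i := by
        apply Finset.sum_eq_single_of_mem i hi
        intro b hb hbne
        exact absurd (h b hb) hbne
      rw [h1] at hsum
      exact hsum

/-- Irreducibility of the action. -/
def Irr : Prop := ∀ W : Submodule F V, (∀ g : G, W.map (ρ g) ≤ W) → W = ⊥ ∨ W = ⊤

/-- Primitivity of the action. -/
def Prim : Prop := ∀ (m t : ℕ) (D : Fin t → Submodule F V), 2 ≤ t → 0 < m →
  (∀ i, finrank F (D i) = m) → iSupIndep D → iSup D = ⊤ →
  ¬ ∀ g : G, ∃ σ : Equiv.Perm (Fin t), ∀ i, (D i).map (ρ g) = D (σ i)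

lemma prim_general (hprim : Prim ρ) {κ : Type*} [Fintype κ] (D : κ → Submodule F V) (m : ℕ)
    (h2 : 2 ≤ Fintype.card κ) (hm : 0 < m) (hfr : ∀ i, finrank F (D i) = m)
    (hind : iSupIndep D) (hsup : iSup D = ⊤)
    (hstab : ∀ g : G, ∃ σ : Equiv.Perm κ, ∀ i, (D i).map (ρ g) = D (σ i)) : False := by
  classical
  let e := Fintype.equivFin κ
  apply hprim m (Fintype.card κ) (D ∘ e.symm) h2 hm (fun i => hfr _)
    (hind.comp e.symm.injective)
  · rw [← hsup]
    exact e.symm.iSup_comp (g := D)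
  · intro g
    obtain ⟨σ, hσ⟩ := hstab g
    refine ⟨e.symm.trans (σ.trans e), fun i => ?_⟩
    simp [hσ]

lemma abelian_normal_fpf [Finite G] (hirr : Irr ρ) (hprim : Prim ρ)
    (hfaith : ∀ g : G, ρ g = 1 → g = 1)
    (A : Subgroup G) [hAn : A.Normal] (hA : ∀ x ∈ A, ∀ y ∈ A, x * y = y * x) {a : G}
    (ha : a ∈ A) {v₀ : V} (hv₀ : v₀ ≠ 0) (hfix : ρ a v₀ = v₀) : a = 1 := by
  classical
  have hab : ∀ x y : G, Commute (x * a * x⁻¹) (y * a * y⁻¹) := fun x y =>
    hA _ (hAn.conj_mem a ha x) _ (hAn.conj_mem a ha y)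
  have hP0 : IS ρ a (∅ : Set G) ≠ ⊥ := by
    intro h
    have h1 : v₀ ∈ IS ρ a (∅ : Set G) := fun x hx => absurd hx (Set.notMem_empty x)
    rw [h] at h1
    exact hv₀ (by simpa using h1)
  obtain ⟨S, -, hS⟩ := Finite.exists_le_maximal (p := fun T : Set G => IS ρ a T ≠ ⊥) hP0
  let κ := Set.range (fun y : G => y • S)
  have : Fintype κ := Fintype.ofFinite κ
  let D : κ → Submodule F V := fun T => IS ρ a T.1
  have hS0 : S ∈ Set.range (fun y : G => y • S) := ⟨1, by simp⟩
  have hmaxT : ∀ T : κ, Maximal (fun T : Set G => IS ρ a T ≠ ⊥) T.1 := by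
    rintro ⟨_, y, rfl⟩
    exact maximal_smul ρ a y hS
  have hind : iSupIndep D := by
    rw [iSupIndep_iff_finsetSum_eq_zero_imp_eq_zero]
    exact indep_aux ρ a hab (fun T : κ => T.1) Subtype.val_injective hmaxT
  have hm : 0 < finrank F (IS ρ a S) := by
    have h1 := hS.1
    rw [Nat.pos_iff_ne_zero, Ne, Submodule.finrank_eq_zero]
    exact h1
  have hfr : ∀ T : κ, finrank F (D T) = finrank F (IS ρ a S) := by
    rintro ⟨_, y, rfl⟩
    show finrank F (IS ρ a (y • S)) = _
    rw [IS_smul, ← rhoE_coe, LinearEquiv.finrank_map_eq]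
  have hstab : ∀ g : G, ∃ σ : Equiv.Perm κ, ∀ T, (D T).map (ρ g) = D (σ T) := by
    intro g
    have hmem : ∀ (z : G) (T : κ), z • T.1 ∈ Set.range (fun y : G => y • S) := by
      rintro z ⟨_, y, rfl⟩
      exact ⟨z * y, by simp [mul_smul]⟩
    refine ⟨⟨fun T => ⟨g • T.1, hmem g T⟩, fun T => ⟨g⁻¹ • T.1, hmem g⁻¹ T⟩, ?_, ?_⟩, ?_⟩
    · intro T
      apply Subtype.ext
      simp
    · intro T
      apply Subtype.ext
      simp
    · intro T
      exact (IS_smul ρ a g T.1).symm
  have hsup : iSup D = ⊤ := by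
    have hinv : ∀ g : G, (iSup D).map (ρ g) ≤ iSup D := by
      intro g
      rw [Submodule.map_iSup]
      apply iSup_le
      intro T
      obtain ⟨σ, hσ⟩ := hstab g
      rw [hσ T]
      exact le_iSup D (σ T)
    rcases hirr (iSup D) hinv with h | h
    · exfalso
      have h1 : D ⟨S, hS0⟩ ≤ iSup D := le_iSup D ⟨S, hS0⟩
      rw [h, le_bot_iff] at h1
      exact hS.1 h1
    · exact h
  have hcard : Fintype.card κ < 2 := by
    by_contra h
    push Not at h
    exact prim_general ρ hprim D _ h hm hfr hind hsup hstab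
  have hsub : ∀ T : κ, T = ⟨S, hS0⟩ := by
    have h1 : Fintype.card κ ≤ 1 := by omega
    rw [Fintype.card_le_one_iff] at h1
    intro T
    exact h1 T _
  have htop : IS ρ a S = ⊤ := by
    rw [← hsup]
    apply le_antisymm
    · exact le_iSup D ⟨S, hS0⟩
    · apply iSup_le
      intro T
      rw [hsub T]
  apply hfaith
  have h1 : (1 : G) ∈ S := by
    by_contra h1
    have hbot : IS ρ a (insert 1 S) = ⊥ := by
      by_contra hne'
      exact h1 (hS.2 hne' (Set.subset_insert 1 S) (Set.mem_insert 1 S))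
    have h2 : v₀ ∈ IS ρ a (insert 1 S) := by
      intro z hz
      rcases Set.mem_insert_iff.mp hz with rfl | hz
      · simpa using hfix
      · have h3 : v₀ ∈ IS ρ a S := by
          rw [htop]
          trivial
        exact h3 z hz
    rw [hbot] at h2
    exact hv₀ (by simpa using h2)
  ext v
  have h3 : v ∈ IS ρ a S := by
    rw [htop]
    trivial
  simpa using h3 1 h1

/-- The derived chain of the normal closure of `g`. -/
def chainN (g : G) : ℕ → Subgroup G
  | 0 => Subgroup.normalClosure {g}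
  | (i + 1) => ⁅chainN g i, chainN g i⁆

theorem abstract_main [Finite G] (hsol : Group.IsSolvable G) (hirr : Irr ρ) (hprim : Prim ρ)
    (hfaith : ∀ g : G, ρ g = 1 → g = 1) (g : G) (hg : g ≠ 1) :
    4 * dfix ρ g ≤ 3 * finrank F V := by
  by_contra hlt
  push Not at hlt
  -- elements of abelian normal subgroups with positive fixed dimension are trivial
  have key : ∀ (A : Subgroup G), A.Normal → (∀ x ∈ A, ∀ y ∈ A, x * y = y * x) →
      ∀ a ∈ A, 0 < dfix ρ a → a = 1 := by
    intro A hAn hA a ha hpos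
    obtain ⟨v₀, hv₀, hfix⟩ := exists_fixed_of_dfix_pos ρ hpos
    exact abelian_normal_fpf ρ hirr hprim hfaith A hA ha hv₀ hfix
  -- g centralizes every normal subgroup of class at most two
  have stepC : ∀ (B : Subgroup G), B.Normal → ⁅B, B⁆ ≤ Subgroup.centralizer (B : Set G) →
      g ∈ Subgroup.centralizer (B : Set G) := by
    intro B hBn hcl
    have := hBn
    have hZn : (B ⊓ Subgroup.centralizer (B : Set G)).Normal := Subgroup.normal_inf_normal _ _
    have hZab : ∀ x ∈ B ⊓ Subgroup.centralizer (B : Set G),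
        ∀ y ∈ B ⊓ Subgroup.centralizer (B : Set G), x * y = y * x := by
      intro x hx y hy
      exact (Subgroup.mem_centralizer_iff.mp hy.2 x hx.1)
    rw [Subgroup.mem_centralizer_iff]
    intro b hb
    have hh : ⁅g, b⁆ ∈ B := by
      rw [commutatorElement_def]
      exact B.mul_mem (hBn.conj_mem b hb g) (B.inv_mem hb)
    have dh := dfix_comm ρ g b
    have hk : ∀ b' ∈ B, ⁅⁅g, b⁆, b'⁆ = 1 := by
      intro b' hb'
      have hkm : ⁅⁅g, b⁆, b'⁆ ∈ ⁅B, B⁆ := Subgroup.commutator_mem_commutator hh hb'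
      have hkB : ⁅⁅g, b⁆, b'⁆ ∈ B := Subgroup.commutator_le_left B B hkm
      have dk := dfix_comm ρ ⁅g, b⁆ b'
      exact key _ hZn hZab _ ⟨hkB, hcl hkm⟩ (by omega)
    have hhc : ⁅g, b⁆ ∈ Subgroup.centralizer (B : Set G) := by
      rw [Subgroup.mem_centralizer_iff]
      intro b' hb'
      exact ((commutatorElement_eq_one_iff_commute.mp (hk b' hb')).eq).symm
    have h1 : ⁅g, b⁆ = 1 := key _ hZn hZab _ ⟨hh, hhc⟩ (by omega)
    exact ((commutatorElement_eq_one_iff_commute.mp h1).eq).symm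
  -- the derived chain of the normal closure of g
  have hN0 : chainN g 0 = Subgroup.normalClosure {g} := rfl
  have hNs : ∀ i, chainN g (i + 1) = ⁅chainN g i, chainN g i⁆ := fun i => rfl
  have hNn : ∀ i, (chainN g i).Normal := by
    intro i
    induction i with
    | zero => rw [hN0]; infer_instance
    | succ i ih =>
      rw [hNs]
      exact @Subgroup.commutator_normal G _ _ _ ih ih
  have hNle : ∀ i, chainN g i ≤ chainN g 0 := by
    intro i
    induction i with
    | zero => exact le_rfl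
    | succ i ih =>
      rw [hNs]
      have := hNn i
      exact (Subgroup.commutator_le_left (chainN g i) (chainN g i)).trans ih
  have hNd : ∀ i, chainN g i ≤ derivedSeries G i := by
    intro i
    induction i with
    | zero => rw [derivedSeries_zero]; exact le_top
    | succ i ih =>
      rw [hNs, derivedSeries_succ]
      exact Subgroup.commutator_mono ih ih
  have hgN : g ∈ chainN g 0 := Subgroup.subset_normalClosure (Set.mem_singleton g)
  have hN0c : ∀ (B : Subgroup G), B.Normal → ⁅B, B⁆ ≤ Subgroup.centralizer (B : Set G) →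
      chainN g 0 ≤ Subgroup.centralizer (B : Set G) := by
    intro B hBn hcl
    have := hBn
    apply Subgroup.normalClosure_le_normal
    intro x hx
    rw [Set.mem_singleton_iff] at hx
    rw [hx]
    exact stepC B hBn hcl
  have hab : ∀ i, chainN g (i + 1) = ⊥ → chainN g i ≤ Subgroup.centralizer (chainN g i : Set G) := by
    intro i h
    rw [hNs] at h
    exact Subgroup.commutator_eq_bot_iff_le_centralizer.mp h
  have step : ∀ i, chainN g (i + 2) = ⊥ → chainN g (i + 1) = ⊥ := by
    intro i h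
    have h1 : chainN g 0 ≤ Subgroup.centralizer (chainN g (i + 1) : Set G) := by
      apply hN0c _ (hNn (i + 1))
      have h2 : ⁅chainN g (i + 1), chainN g (i + 1)⁆ = ⊥ := h
      rw [h2]
      exact bot_le
    have h2 : chainN g i ≤ Subgroup.centralizer (chainN g (i + 1) : Set G) := (hNle i).trans h1
    have h3 : ⁅chainN g i, chainN g i⁆ ≤ Subgroup.centralizer (chainN g i : Set G) := by
      rw [← hNs]
      exact Subgroup.le_centralizer_iff.mp h2
    have h4 : chainN g 0 ≤ Subgroup.centralizer (chainN g i : Set G) := hN0c _ (hNn i) h3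
    rw [hNs]
    exact Subgroup.commutator_eq_bot_iff_le_centralizer.mpr ((hNle i).trans h4)
  obtain ⟨k, hk⟩ := (Group.isSolvable_def G).mp hsol
  have hNk : chainN g k = ⊥ := by
    have h1 := hNd k
    rw [hk] at h1
    exact le_bot_iff.mp h1
  have hN1 : chainN g 1 = ⊥ := by
    have h1 : ∀ j, chainN g (j + 1) = ⊥ → chainN g 1 = ⊥ := by
      intro j
      induction j with
      | zero => exact id
      | succ j ih => exact fun h => ih (step j h)
    rcases k with _ | k
    · rw [hNs, hNk]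
      exact Subgroup.commutator_bot_left _
    · exact h1 k hNk
  have hN0ab : ∀ x ∈ chainN g 0, ∀ y ∈ chainN g 0, x * y = y * x := by
    intro x hx y hy
    exact (Subgroup.mem_centralizer_iff.mp (hab 0 hN1 hy) x hx)
  have hpos : 0 < dfix ρ g := by
    have := Submodule.finrank_le (fixS ρ g)
    unfold dfix at hlt ⊢
    omega
  exact hg (key (chainN g 0) (hNn 0) hN0ab g hgN hpos)

end FD

end Abstract

/-- The matrix action of a subgroup of the general linear group. -/
def rhoG {F : Type*} [Field F] {n : ℕ} (G : Subgroup (Matrix.GeneralLinearGroup (Fin n) F)) :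
    G →* Module.End F (Fin n → F) where
  toFun g := Matrix.toLin' ((g : Matrix.GeneralLinearGroup (Fin n) F) : Matrix (Fin n) (Fin n) F)
  map_one' := by
    simp only [OneMemClass.coe_one, Units.val_one, Matrix.toLin'_one]
    rfl
  map_mul' := by
    intro a b
    simp only [Subgroup.coe_mul, Units.val_mul, Matrix.toLin'_mul]
    rfl

/-- Fixed-point spaces in primitive soluble linear groups. Let F be a finite field and G a soluble subgroup of GL_n(F) that acts irreducibly on F^n and primitively (G preserves no decomposition of F^n into two or more independent subspaces of equal dimension). Then every non-identity element g of G has fixed-point space {v : g v = v} of dimension at most 3n/4. -/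
theorem result {F : Type*} [Field F] [Fintype F] {n : ℕ} (G : Subgroup (Matrix.GeneralLinearGroup (Fin n) F)) (hsol : IsSolvable G) (hirr : Cfsg.Geo.ActsIrreducibly (Cfsg.Geo.matrixSet G)) (hprim : ∀ (m t : ℕ) (D : Fin t → Submodule F (Fin n → F)), 2 ≤ t → Cfsg.Geo.IsMDecomposition m D → ¬ G ≤ Cfsg.Geo.decompositionStabilizer D) (g : Matrix.GeneralLinearGroup (Fin n) F) (hg : g ∈ G) (hg1 : g ≠ 1) :
    4 * Module.finrank F (Module.End.eigenspace (Matrix.toLin' (g : Matrix (Fin n) (Fin n) F)) 1) ≤ 3 * n := by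
  have hfin : Finite G := inferInstance
  have hI : Irr (rhoG G) := by
    intro W hW
    apply hirr W
    rintro s ⟨x, hx, rfl⟩
    exact hW ⟨x, hx⟩
  have hP : Prim (rhoG G) := by
    intro m t D h2 hm hfr hind hsup hstab
    apply hprim m t D h2 ⟨h2, hm, hfr, hind, hsup⟩
    intro x hx
    obtain ⟨σ, hσ⟩ := hstab ⟨x, hx⟩
    exact ⟨σ, hσ⟩
  have hfaith : ∀ x : G, rhoG G x = 1 → x = 1 := by
    intro x hx
    have h1 : Matrix.toLin' ((x : Matrix.GeneralLinearGroup (Fin n) F) : Matrix (Fin n) (Fin n) F)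
        = Matrix.toLin' (1 : Matrix (Fin n) (Fin n) F) := by
      rw [Matrix.toLin'_one]
      exact hx
    have h2 := Matrix.toLin'.injective h1
    apply Subtype.ext
    apply Units.ext
    exact h2
  have hne : (⟨g, hg⟩ : G) ≠ 1 := by
    intro h
    apply hg1
    exact congrArg Subtype.val h
  have key := abstract_main (rhoG G) hsol hI hP hfaith ⟨g, hg⟩ hne
  rw [Module.finrank_fin_fun] at key
  exact key

end Cfsg.Agent.S5876
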