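import Cfsg.Statements.S5877
import Cfsg.Agent.Lib.Helper24.ExStmt
import Cfsg.Agent.Lib.Helper24.ExINN
import Cfsg.Agent.Lib.Helper51.ExBASA
import Cfsg.Agent.Lib.Helper51.ExBASB
import Cfsg.Agent.Lib.Helper51.ExHALF
import Cfsg.Agent.Lib.Helper59.ExEIG
import Cfsg.Agent.Lib.Helper37.ExKEY
import Cfsg.Agent.Lib.Helper37.ExSHIFT
import Cfsg.Agent.Lib.Helper33.ExSYMP
import Cfsg.Agent.Lib.Helper97.ExCASEB
import Cfsg.Agent.Lib.Helper97.ExTWO
import Cfsg.Agent.Lib.Helper90.ExQUAD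
import Cfsg.Agent.Lib.Helper95.ExCLAIMC

set_option autoImplicit false
open Cfsg

namespace Cfsg.Agent.S5877

/-- Eigenspaces of elements normalising an absolutely irreducible extraspecial group. Let F be a finite field, r a prime, and R ≤ GL_n(F) an absolutely irreducible extraspecial r-group (an r-group whose centre equals its derived subgroup and has order r) of exponent r or 4. Let g ∈ GL_n(F) normalise the product of R with the scalar matrices, have prime order ϖ and not be scalar, and let W be the eigenspace of g for any c ∈ F (W may be the zero subspace). Then dim W ≤ 3n/4 if ϖ = 2, dim W ≤ 2n/3 if ϖ = 3, and dim W ≤ n/2 if ϖ > 3; moreover if ϖ = 3 and 3 does not divide n then dim W ≤ n/2. -/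
theorem result {F : Type*} [Field F] [Fintype F] {n r ϖ : ℕ} (R : Subgroup (Matrix.GeneralLinearGroup (Fin n) F)) (hr : r.Prime) (hR : IsPGroup r R) (hZ : Nat.card (Subgroup.center R) = r) (hext : commutator R = Subgroup.center R) (hexp : Monoid.exponent R = r ∨ Monoid.exponent R = 4) (hirr : Cfsg.Geo.ActsAbsolutelyIrreducibly (Cfsg.Geo.matrixSet R)) (g : Matrix.GeneralLinearGroup (Fin n) F) (hg : g ∈ Cfsg.Geo.subgroupNormalizer (R ⊔ Cfsg.Geo.scalars (Fin n) F)) (hϖ : ϖ.Prime) (hord : orderOf g = ϖ) (hns : g ∉ Cfsg.Geo.scalars (Fin n) F) (c : F) :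
    (ϖ = 2 → 4 * Module.finrank F (Module.End.eigenspace (Matrix.toLin' (g : Matrix (Fin n) (Fin n) F)) c) ≤ 3 * n) ∧
    (ϖ = 3 → 3 * Module.finrank F (Module.End.eigenspace (Matrix.toLin' (g : Matrix (Fin n) (Fin n) F)) c) ≤ 2 * n) ∧
    (3 < ϖ → 2 * Module.finrank F (Module.End.eigenspace (Matrix.toLin' (g : Matrix (Fin n) (Fin n) F)) c) ≤ n) ∧
    (ϖ = 3 → ¬ 3 ∣ n → 2 * Module.finrank F (Module.End.eigenspace (Matrix.toLin' (g : Matrix (Fin n) (Fin n) F)) c) ≤ n) := by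
  have hA := Cfsg.Agent.Lib.Helper51.ExBASA.main
  have hB := Cfsg.Agent.Lib.Helper51.ExBASB.main
  have hEig := Cfsg.Agent.Lib.Helper59.ExEIG.main hA
  have hInn := Cfsg.Agent.Lib.Helper24.ExINN.main hA
  have hKey := Cfsg.Agent.Lib.Helper37.ExKEY.main hA
  have hHalf := Cfsg.Agent.Lib.Helper51.ExHALF.main
  have hCB := Cfsg.Agent.Lib.Helper97.ExCASEB.main hA hEig hInn hKey
    Cfsg.Agent.Lib.Helper33.ExSYMP.main
  have hTwo := Cfsg.Agent.Lib.Helper97.ExTWO.main hA hB hEig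
  have hQuad := Cfsg.Agent.Lib.Helper90.ExQUAD.main hA hB hEig
  have hC := Cfsg.Agent.Lib.Helper95.ExCLAIMC.main hA hB hInn
  exact Cfsg.Agent.Lib.Helper24.ExStmt.thm_of hB hEig hInn hKey hHalf hCB
    Cfsg.Agent.Lib.Helper37.ExSHIFT.main hTwo hQuad hC R hr hR hZ hext hexp hirr g hg hϖ hord hns c

end Cfsg.Agent.S5877
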