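import Cfsg.Statements.S5942
import Cfsg.Agent.Lib.Helper98.SL2Field

set_option autoImplicit false
open Cfsg

namespace Cfsg.Agent.S5942

open Matrix MatrixGroups
open Cfsg.Agent.Lib.Helper98.SL2Sub Cfsg.Agent.Lib.Helper98.SL2Field

/-- the common core: a subfield of prime index `r` with more than two elements, in which
squares detect membership, gives a maximal subgroup of `PSL(2, F)` isomorphic to `PSL(2, K)` -/
theorem core {F K : Type*} [Field F] [Fintype F] [Field K] [Fintype K] (q r : ℕ)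
    (hK : Fintype.card K = q) (hF : Fintype.card F = q ^ r) (hq3 : 2 < q) (hr : r.Prime)
    (hsq : ∀ ι : K →+* F, ∀ x : F, x ^ 2 ∈ ι.fieldRange → x ∈ ι.fieldRange) :
    ∃ H : Subgroup (Matrix.ProjectiveSpecialLinearGroup (Fin 2) F), IsCoatom H ∧
      Nonempty (H ≃* Matrix.ProjectiveSpecialLinearGroup (Fin 2) K) := by
  classical
  have hF' : Nat.card F = Nat.card K ^ r := by
    rw [Nat.card_eq_fintype_card, Nat.card_eq_fintype_card, hK, hF]
  obtain ⟨ι⟩ := exists_ringHom r hF'
  set k := ι.fieldRange with hk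
  have hkc : Nat.card k = q := by
    have e : K ≃ k := Equiv.ofBijective (fun x => ⟨ι x, x, rfl⟩)
      ⟨fun x y h => ι.injective (congrArg Subtype.val h), fun ⟨y, x, hx⟩ => ⟨x, Subtype.ext hx⟩⟩
    rw [← Nat.card_congr e, Nat.card_eq_fintype_card, hK]
  have hcard : Nat.card F = Nat.card k ^ r := by
    rw [hkc, Nat.card_eq_fintype_card, hF]
  have hb := hb_of_card k (by omega)
  have hgen := hgen_of_prime k r hr hcard
  have hex : ∃ x, x ∉ k := by
    by_contra h
    push Not at h
    have h1 : Nat.card k = Nat.card F := Nat.card_congr (Equiv.subtypeUnivEquiv h)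
    rw [hkc, Nat.card_eq_fintype_card, hF] at h1
    have h2 : q ^ 2 ≤ q ^ r := Nat.pow_le_pow_right (by omega) hr.two_le
    nlinarith
  refine ⟨(Sk k).map (QuotientGroup.mk' (Subgroup.center SL(2, F))), ?_, ⟨pslIso ι⟩⟩
  apply isCoatom_map _ (QuotientGroup.mk'_surjective _)
  · rw [QuotientGroup.ker_mk']; exact center_le_Sk k
  · obtain ⟨x, hx⟩ := hex
    exact ⟨Sk_ne_top k x hx, fun K' hlt =>
      eq_top_of_not_le k hb (hsq ι) hgen K' hlt.le hlt.not_ge⟩

/-- Let K and F be finite fields of odd characteristic with #F = (#K)^r for an odd prime r. Then PSL_2(F) has a maximal subgroup isomorphic to PSL_2(K). -/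
theorem result {F K : Type*} [Field F] [Fintype F] [Field K] [Fintype K] (q r : ℕ) (hK : Fintype.card K = q) (hF : Fintype.card F = q ^ r) (hq : Odd q) (hr : r.Prime) (hr2 : r ≠ 2) : ∃ H : Subgroup (Matrix.ProjectiveSpecialLinearGroup (Fin 2) F), IsCoatom H ∧ Nonempty (H ≃* Matrix.ProjectiveSpecialLinearGroup (Fin 2) K) := by
  have hq2 : 2 ≤ q := by rw [← hK]; exact Fintype.one_lt_card
  have hq3 : 2 < q := by
    rcases hq with ⟨m, hm⟩
    omega
  refine core q r hK hF hq3 hr ?_
  intro ι
  have hkc : Nat.card ι.fieldRange = q := by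
    have e : K ≃ ι.fieldRange := Equiv.ofBijective (fun x => ⟨ι x, x, rfl⟩)
      ⟨fun x y h => ι.injective (congrArg Subtype.val h), fun ⟨y, x, hx⟩ => ⟨x, Subtype.ext hx⟩⟩
    rw [← Nat.card_congr e, Nat.card_eq_fintype_card, hK]
  exact hsq_of_odd ι.fieldRange r hr hr2 (by rw [hkc, Nat.card_eq_fintype_card, hF])

end Cfsg.Agent.S5942
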