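import Cfsg.Statements.S5943
import Cfsg.Agent.S5942

set_option autoImplicit false
open Cfsg

namespace Cfsg.Agent.S5943

open Cfsg.Agent.Lib.Helper98.SL2Sub Cfsg.Agent.Lib.Helper98.SL2Field

/-- Let K and F be finite fields of characteristic 2 with #K = q > 2 and #F = q^r for a prime r. Then PSL_2(F) has a maximal subgroup isomorphic to PSL_2(K) (which equals PGL_2(K) in characteristic 2). -/
theorem result {F K : Type*} [Field F] [Fintype F] [Field K] [Fintype K] (q r : ℕ) (hK : Fintype.card K = q) (hF : Fintype.card F = q ^ r) (hq : Even q) (hq2 : q ≠ 2) (hr : r.Prime) : ∃ H : Subgroup (Matrix.ProjectiveSpecialLinearGroup (Fin 2) F), IsCoatom H ∧ Nonempty (H ≃* Matrix.ProjectiveSpecialLinearGroup (Fin 2) K) := by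
  have hq2' : 2 ≤ q := by rw [← hK]; exact Fintype.one_lt_card
  have hq3 : 2 < q := by omega
  refine Cfsg.Agent.S5942.core q r hK hF hq3 hr ?_
  intro ι
  have h2 : (2 : F) = 0 := by
    have hev : Fintype.card F % 2 = 0 := by
      rw [hF]
      exact Nat.even_iff.1 ((Nat.even_pow.2 ⟨hq, hr.ne_zero⟩))
    have hch : ringChar F = 2 := FiniteField.even_card_iff_char_two.2 hev
    have := ringChar.spec F (2 : ℕ)
    have h3 : ((2 : ℕ) : F) = 0 := by rw [this, hch]
    simpa using h3
  exact hsq_of_two ι.fieldRange h2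

end Cfsg.Agent.S5943
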