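import Cfsg.Statements.S5944

set_option autoImplicit false
open Cfsg

namespace Cfsg.Agent.S5944

/-- For n ≠ 4, every proper subgroup of the symmetric group S_n other than the alternating group A_n has index at least n. -/
theorem result (n : ℕ) (hn : n ≠ 4) (H : Subgroup (Equiv.Perm (Fin n))) (hH : H ≠ ⊤) (hA : H ≠ alternatingGroup (Fin n)) : n ≤ H.index := by
  have h0 : H.index ≠ 0 := Subgroup.index_ne_zero_of_finite
  have h1 : H.index ≠ 1 := fun h => hH (Subgroup.index_eq_one.mp h)
  have h2 : H.index ≠ 2 := fun h => hA (Equiv.Perm.eq_alternatingGroup_of_index_eq_two h)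
  by_contra hlt
  push Not at hlt
  have hn5 : 5 ≤ n := by omega
  -- the normal core
  have hK : Nontrivial H.normalCore := by
    by_contra hK
    rw [Subgroup.nontrivial_iff_ne_bot, not_not] at hK
    rw [Subgroup.normalCore_eq_ker] at hK
    have hinj : Function.Injective (MulAction.toPermHom (Equiv.Perm (Fin n)) (Equiv.Perm (Fin n) ⧸ H)) :=
      (MonoidHom.ker_eq_bot_iff _).mp hK
    have hcard := Nat.card_le_card_of_injective _ hinj
    rw [Nat.card_perm, Nat.card_perm, Nat.card_fin] at hcard
    have hidx : Nat.card (Equiv.Perm (Fin n) ⧸ H) = H.index := rfl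
    rw [hidx] at hcard
    have : (H.index).factorial ≤ (n - 1).factorial := Nat.factorial_le (by omega)
    have h3 : (n - 1).factorial < n.factorial := by
      have : n = (n - 1) + 1 := by omega
      rw [this, Nat.factorial_succ]
      simp only [Nat.add_sub_cancel]
      have hpos : 0 < (n - 1).factorial := Nat.factorial_pos _
      nlinarith
    omega
  have hle : alternatingGroup (Fin n) ≤ H :=
    (Equiv.Perm.alternatingGroup_le_of_normal (by simpa using hn5) hK).trans (Subgroup.normalCore_le H)
  have hdvd : H.index ∣ (alternatingGroup (Fin n)).index := Subgroup.index_dvd_of_le hle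
  have : Nontrivial (Fin n) := Fin.nontrivial_iff_two_le.mpr (by omega)
  rw [alternatingGroup.index_eq_two] at hdvd
  have := Nat.le_of_dvd (by norm_num) hdvd
  omega

end Cfsg.Agent.S5944
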