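import Cfsg.Statements.S5945
import Cfsg.Agent.Lib.Helper99.S6Swaps

set_option autoImplicit false
open Cfsg

namespace Cfsg.Agent.S5945

open Equiv Cfsg.Agent.Lib.Helper99.S6Swaps

abbrev G := Perm (Fin 6)


lemma card_centralizer_aut (γ : G ≃* G) (x : G) :
    Nat.card (Subgroup.centralizer {γ x}) = Nat.card (Subgroup.centralizer {x}) := by
  symm
  refine Nat.card_congr (γ.toEquiv.subtypeEquiv ?_)
  intro g
  simp only [Subgroup.mem_centralizer_singleton_iff, MulEquiv.toEquiv_eq_coe,
    EquivLike.coe_coe]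
  rw [← map_mul, ← map_mul]
  exact γ.injective.eq_iff.symm

lemma cycleType_aut (γ : G ≃* G) :
    (γ (swap 0 1)).cycleType = {2} ∨ (γ (swap 0 1)).cycleType = {2, 2, 2} := by
  have hsw : (swap (0 : Fin 6) 1).IsSwap := ⟨0, 1, by decide, rfl⟩
  have ho : orderOf (γ (swap 0 1)) = 2 := by
    rw [MulEquiv.orderOf_eq]; exact hsw.orderOf
  obtain ⟨n, hn⟩ := Equiv.Perm.cycleType_prime_order (σ := γ (swap 0 1)) (by rw [ho]; norm_num)
  rw [ho] at hn
  have hle := Equiv.Perm.sum_cycleType_le (γ (swap 0 1))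
  rw [hn] at hle
  simp at hle
  have hn2 : n = 0 ∨ n = 1 ∨ n = 2 := by omega
  rcases hn2 with rfl | rfl | rfl
  · left; rw [hn]; rfl
  · exfalso
    have h1 := Equiv.Perm.nat_card_centralizer (γ (swap 0 1))
    have h2 := Equiv.Perm.nat_card_centralizer (swap (0 : Fin 6) 1)
    rw [card_centralizer_aut, h2, hn] at h1
    rw [Equiv.Perm.isSwap_iff_cycleType.mp hsw] at h1
    revert h1
    decide
  · right; rw [hn]; rfl



/-- the subgroup `α⁻¹(Stab a)` -/
def S (α : G ≃* G) (a : Fin 6) : Subgroup G := (MulAction.stabilizer G a).comap α.toMonoidHom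

lemma mem_S (α : G ≃* G) (a : Fin 6) (g : G) : g ∈ S α a ↔ α g a = a := by
  simp [S, MulAction.mem_stabilizer_iff]

lemma S_inner (α : G ≃* G) (π : G) (h : ∀ g, α g = π * g * π⁻¹) (a : Fin 6) :
    S α a = MulAction.stabilizer G (π⁻¹ a) := by
  ext g
  rw [mem_S, h, MulAction.mem_stabilizer_iff]
  simp only [Perm.smul_def, Perm.mul_apply]
  constructor
  · intro hg
    have := congrArg (π⁻¹ : G) hg
    simpa using this
  · intro hg
    rw [hg]; simp

lemma S_conj (α β : G ≃* G) (σ κ : G) (h : ∀ g, σ * α g * σ⁻¹ = β (κ * g * κ⁻¹)) (a : Fin 6) :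
    S α a = S β ((β κ)⁻¹ (σ a)) := by
  ext g
  rw [mem_S, mem_S]
  have h1 : β g = (β κ)⁻¹ * (σ * α g * σ⁻¹) * β κ := by
    rw [h, map_mul, map_mul, map_inv]; group
  rw [h1]
  simp [Perm.mul_apply]

lemma exists_conj (α β : G ≃* G) (h : (α (swap 0 1)).cycleType = (β (swap 0 1)).cycleType) :
    ∃ σ κ : G, ∀ g, σ * α g * σ⁻¹ = β (κ * g * κ⁻¹) := by
  obtain ⟨σ, hσ⟩ := isConj_iff.mp (Equiv.Perm.isConj_iff_cycleType_eq.mpr h)
  let γ : G ≃* G := α.trans ((MulAut.conj σ).trans β.symm)
  have hγ : γ (swap 0 1) = swap 0 1 := by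
    simp only [γ, MulEquiv.trans_apply, MulAut.conj_apply, hσ, MulEquiv.symm_apply_apply]
  obtain ⟨κ, hκ⟩ := inner_of_swap γ (by rw [hγ]; exact ⟨0, 1, by decide, rfl⟩)
  refine ⟨σ, κ, fun g => ?_⟩
  have := hκ g
  simp only [γ, MulEquiv.trans_apply, MulAut.conj_apply] at this
  rw [← this, MulEquiv.apply_symm_apply]



lemma core_inj (H : Subgroup G) (hH : H.index = 6) :
    Function.Injective (MulAction.toPermHom G (G ⧸ H)) := by
  rw [← MonoidHom.ker_eq_bot_iff, ← Subgroup.normalCore_eq_ker]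
  by_contra hK
  have hK' : Nontrivial H.normalCore := (Subgroup.nontrivial_iff_ne_bot _).mpr hK
  have hle : alternatingGroup (Fin 6) ≤ H :=
    (Equiv.Perm.alternatingGroup_le_of_normal (by simp) hK').trans (Subgroup.normalCore_le H)
  have hdvd : H.index ∣ (alternatingGroup (Fin 6)).index := Subgroup.index_dvd_of_le hle
  rw [alternatingGroup.index_eq_two, hH] at hdvd
  omega

lemma exists_S (H : Subgroup G) (hH : H.index = 6) : ∃ (α : G ≃* G) (a : Fin 6), H = S α a := by
  have hinj := core_inj H hH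
  have hcard : Nat.card (G ⧸ H) = 6 := hH
  have hbij : Function.Bijective (MulAction.toPermHom G (G ⧸ H)) := by
    apply Function.Injective.bijective_of_nat_card_le hinj
    rw [Nat.card_perm, Nat.card_perm, hcard, Nat.card_fin]
  have : Finite (G ⧸ H) := Nat.finite_of_card_ne_zero (by rw [hcard]; norm_num)
  let b : G ⧸ H ≃ Fin 6 := Finite.equivFinOfCardEq hcard
  let α : G ≃* G := (MulEquiv.ofBijective _ hbij).trans b.permCongrHom
  refine ⟨α, b (QuotientGroup.mk 1), ?_⟩
  ext g
  rw [mem_S]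
  have h1 : α g (b (QuotientGroup.mk 1)) = b (g • (QuotientGroup.mk 1 : G ⧸ H)) := by
    simp [α, Equiv.permCongrHom]
  rw [h1, b.injective.eq_iff, MulAction.Quotient.smul_mk, QuotientGroup.eq]
  simp

lemma index_stab (a : Fin 6) : (MulAction.stabilizer G a).index = 6 := by
  rw [MulAction.index_stabilizer_of_transitive]
  simp

lemma index_S (α : G ≃* G) (a : Fin 6) : (S α a).index = 6 := by
  rw [S, Subgroup.index_comap_of_surjective _ α.surjective, index_stab]

lemma stab_inj {a b : Fin 6} (h : MulAction.stabilizer G a = MulAction.stabilizer G b) : a = b := by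
  by_contra hab
  have hex : ∀ a b : Fin 6, ∃ c : Fin 6, c ≠ a ∧ c ≠ b := by decide
  obtain ⟨c, hca, hcb⟩ := hex a b
  have h1 : swap b c ∈ MulAction.stabilizer G a := by
    rw [MulAction.mem_stabilizer_iff, Perm.smul_def]
    exact swap_apply_of_ne_of_ne hab hca.symm
  rw [h, MulAction.mem_stabilizer_iff, Perm.smul_def, swap_apply_left] at h1
  exact hcb h1

lemma stab_equiv (a : Fin 6) : Nonempty (MulAction.stabilizer G a ≃* Perm (Fin 5)) := by
  have hr : (Equiv.Perm.ofSubtype : Perm {x : Fin 6 // x ≠ a} →* G).range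
      = MulAction.stabilizer G a := by
    ext f
    rw [MulAction.mem_stabilizer_iff, Perm.smul_def]
    constructor
    · rintro ⟨g, rfl⟩
      exact Equiv.Perm.ofSubtype_apply_of_not_mem g (by simp)
    · intro hf
      refine ⟨f.subtypePerm (fun x => ?_), ?_⟩
      · constructor
        · intro hx hxa
          apply hx
          rw [hxa, hf]
        · intro hx hfx
          apply hx
          rw [← hf] at hfx
          exact f.injective hfx
      · apply Equiv.Perm.ofSubtype_subtypePerm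
        intro x hx
        by_contra hxa
        exact hx (by rw [hxa, hf])
  have e1 : Perm {x : Fin 6 // x ≠ a} ≃* (Equiv.Perm.ofSubtype : Perm {x : Fin 6 // x ≠ a} →* G).range :=
    MonoidHom.ofInjective Equiv.Perm.ofSubtype_injective
  have e2 := MulEquiv.subgroupCongr hr
  have e3 : Perm {x : Fin 6 // x ≠ a} ≃* Perm (Fin 5) := (finSuccAboveEquiv a).symm.permCongrHom
  exact ⟨(e1.trans e2).symm.trans e3⟩

lemma S_equiv (α : G ≃* G) (a : Fin 6) : Nonempty (S α a ≃* Perm (Fin 5)) := by
  obtain ⟨e⟩ := stab_equiv a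
  have h : (S α a).map α.toMonoidHom = MulAction.stabilizer G a := by
    rw [S, Subgroup.map_comap_eq_self_of_surjective α.surjective]
  exact ⟨((α.subgroupMap (S α a)).trans (MulEquiv.subgroupCongr h)).trans e⟩



lemma card_sylow5 : Nat.card (Sylow 5 (Perm (Fin 5))) = 6 := by
  have : Fact (Nat.Prime 5) := ⟨by norm_num⟩
  obtain ⟨P⟩ : Nonempty (Sylow 5 (Perm (Fin 5))) := inferInstance
  have hmod := card_sylow_modEq_one 5 (Perm (Fin 5))
  have hdvd := Sylow.card_dvd_index P
  have hcard : Nat.card (Perm (Fin 5)) = 120 := by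
    rw [Nat.card_perm, Nat.card_fin]; rfl
  have hmul := Subgroup.card_mul_index (P : Subgroup (Perm (Fin 5)))
  rw [hcard] at hmul
  have hnd := Sylow.not_dvd_index P
  obtain ⟨n, hn⟩ := (IsPGroup.iff_card.mp P.isPGroup')
  -- the order of P is 5
  have hP5 : Nat.card P = 5 := by
    rw [hn] at hmul ⊢
    rcases n with _ | _ | n
    · exfalso; apply hnd; rw [pow_zero, one_mul] at hmul; rw [hmul]; norm_num
    · rfl
    · exfalso
      have : 25 ∣ 120 := ⟨5 ^ n * (P : Subgroup (Perm (Fin 5))).index, by rw [← hmul]; ring⟩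
      omega
  have hidx : (P : Subgroup (Perm (Fin 5))).index = 24 := by
    rw [hP5] at hmul; omega
  rw [hidx] at hdvd
  have hle : Nat.card (Sylow 5 (Perm (Fin 5))) ≤ 24 := Nat.le_of_dvd (by norm_num) hdvd
  -- not 1
  have hne1 : Nat.card (Sylow 5 (Perm (Fin 5))) ≠ 1 := by
    intro h1
    have : Subsingleton (Sylow 5 (Perm (Fin 5))) := by
      have : Finite (Sylow 5 (Perm (Fin 5))) := inferInstance
      exact (Nat.card_eq_one_iff_unique.mp h1).1
    have hnormal := Sylow.normal_of_subsingleton P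
    have hnt : Nontrivial (P : Subgroup (Perm (Fin 5))) := by
      rw [← Finite.one_lt_card_iff_nontrivial, hP5]; norm_num
    have hA := Equiv.Perm.alternatingGroup_le_of_normal (α := Fin 5) (by simp) hnt
    have hc := Subgroup.card_le_of_le hA
    rw [nat_card_alternatingGroup, hP5, Nat.card_fin] at hc
    revert hc; decide
  have hmod' : Nat.card (Sylow 5 (Perm (Fin 5))) % 5 = 1 := hmod
  clear hmod hmul hnd hn hP5 hidx hcard
  generalize Nat.card (Sylow 5 (Perm (Fin 5))) = k at *
  interval_cases k <;> omega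

lemma exists_transitive :
    ∃ H : Subgroup G, H.index = 6 ∧ ∀ a : Fin 6, H ≠ MulAction.stabilizer G a := by
  have : Fact (Nat.Prime 5) := ⟨by norm_num⟩
  have hΩ : Nat.card (Sylow 5 (Perm (Fin 5))) = 6 := card_sylow5
  have hfin : Finite (Sylow 5 (Perm (Fin 5))) := inferInstance
  let e : Sylow 5 (Perm (Fin 5)) ≃ Fin 6 := Finite.equivFinOfCardEq hΩ
  let ψ : Perm (Fin 5) →* Perm (Sylow 5 (Perm (Fin 5))) :=
    MulAction.toPermHom (Perm (Fin 5)) (Sylow 5 (Perm (Fin 5)))
  have hψ : Function.Injective ψ := by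
    rw [← MonoidHom.ker_eq_bot_iff]
    by_contra hK
    have hK' : Nontrivial ψ.ker := (Subgroup.nontrivial_iff_ne_bot _).mpr hK
    have hA := Equiv.Perm.alternatingGroup_le_of_normal (α := Fin 5) (by simp) hK'
    obtain ⟨P⟩ : Nonempty (Sylow 5 (Perm (Fin 5))) := inferInstance
    have hst : ψ.ker ≤ MulAction.stabilizer (Perm (Fin 5)) P := by
      intro g hg
      rw [MulAction.mem_stabilizer_iff]
      have h1 : ψ g = 1 := hg
      have h2 := congrArg (fun f : Perm (Sylow 5 (Perm (Fin 5))) => f P) h1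
      simpa [ψ] using h2
    have h1 : (MulAction.stabilizer (Perm (Fin 5)) P).index ∣ (alternatingGroup (Fin 5)).index :=
      Subgroup.index_dvd_of_le (hA.trans hst)
    rw [MulAction.index_stabilizer_of_transitive, hΩ, alternatingGroup.index_eq_two] at h1
    omega
  let ψ' : Perm (Fin 5) →* G := (e.permCongrHom : Perm (Sylow 5 (Perm (Fin 5))) ≃* G).toMonoidHom.comp ψ
  have hψ' : Function.Injective ψ' := e.permCongrHom.injective.comp hψ
  refine ⟨ψ'.range, ?_, ?_⟩
  · have hc : Nat.card ψ'.range = 120 := by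
      rw [← Nat.card_congr (MonoidHom.ofInjective hψ').toEquiv, Nat.card_perm, Nat.card_fin]; rfl
    have hmul := Subgroup.card_mul_index ψ'.range
    rw [hc, Nat.card_perm, Nat.card_fin] at hmul
    have h720 : Nat.factorial 6 = 720 := rfl
    omega
  · intro a h
    have hex : ∀ a : Fin 6, ∃ b : Fin 6, b ≠ a := by decide
    obtain ⟨b, hb⟩ := hex a
    obtain ⟨s, hs⟩ := MulAction.exists_smul_eq (Perm (Fin 5)) (e.symm a) (e.symm b)
    have hmem : ψ' s ∈ ψ'.range := ⟨s, rfl⟩
    rw [h, MulAction.mem_stabilizer_iff, Perm.smul_def] at hmem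
    have h2 : ψ' s a = b := by
      simp [ψ', Equiv.permCongrHom, ψ, hs]
    exact hb (by rw [← h2, hmem])

/-- The symmetric group S_6 has exactly 12 subgroups of index 6; each of them is isomorphic to S_5, and at least one of them is not the stabilizer of any point. -/
theorem result : Nat.card {H : Subgroup (Equiv.Perm (Fin 6)) // H.index = 6} = 12 ∧ (∀ H : Subgroup (Equiv.Perm (Fin 6)), H.index = 6 → Nonempty (H ≃* Equiv.Perm (Fin 5))) ∧ ∃ H : Subgroup (Equiv.Perm (Fin 6)), H.index = 6 ∧ ∀ a : Fin 6, H ≠ MulAction.stabilizer (Equiv.Perm (Fin 6)) a := by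
  refine ⟨?_, ?_, exists_transitive⟩
  · obtain ⟨H₀, hH₀, hH₀ne⟩ := exists_transitive
    obtain ⟨α₀, a₀, hα₀⟩ := exists_S H₀ hH₀
    have hα₀t : (α₀ (swap 0 1)).cycleType = {2, 2, 2} := by
      rcases cycleType_aut α₀ with h | h
      · exfalso
        obtain ⟨π, hπ⟩ := inner_of_swap α₀ (Equiv.Perm.isSwap_iff_cycleType.mpr h)
        exact hH₀ne (π⁻¹ a₀) (by rw [hα₀, S_inner α₀ π hπ])
      · exact h
    let f : Fin 6 ⊕ Fin 6 → {H : Subgroup G // H.index = 6} :=
      Sum.elim (fun a => ⟨MulAction.stabilizer G a, index_stab a⟩) (fun a => ⟨S α₀ a, index_S α₀ a⟩)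
    have hne : ∀ a b : Fin 6, MulAction.stabilizer G a ≠ S α₀ b := by
      intro a b h
      have hex : ∀ a : Fin 6, ∃ c d : Fin 6, c ≠ d ∧ c ≠ a ∧ d ≠ a := by decide
      obtain ⟨c, d, hcd, hca, hda⟩ := hex a
      have h1 : swap c d ∈ MulAction.stabilizer G a := by
        rw [MulAction.mem_stabilizer_iff, Perm.smul_def]
        exact swap_apply_of_ne_of_ne hca.symm hda.symm
      rw [h, mem_S] at h1
      have hct : (α₀ (swap c d)).cycleType = {2, 2, 2} := by
        rw [← hα₀t]
        apply Equiv.Perm.isConj_iff_cycleType_eq.mp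
        obtain ⟨k, hk⟩ := isConj_iff.mp (Equiv.Perm.isConj_swap hcd (show (0 : Fin 6) ≠ 1 by decide))
        exact isConj_iff.mpr ⟨α₀ k, by rw [← hk, map_mul, map_mul, map_inv]⟩
      have hsupp : (α₀ (swap c d)).support.card = 6 := by
        rw [← Equiv.Perm.sum_cycleType, hct]; rfl
      have hu : (α₀ (swap c d)).support = Finset.univ :=
        Finset.eq_univ_of_card _ (by simpa using hsupp)
      have hb : b ∈ (α₀ (swap c d)).support := by rw [hu]; exact Finset.mem_univ _
      exact (Equiv.Perm.mem_support.mp hb) h1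
    have hinj : Function.Injective f := by
      rintro (a | a) (b | b) h
      · simp only [f, Sum.elim_inl, Subtype.mk.injEq] at h
        rw [stab_inj h]
      · simp only [f, Sum.elim_inl, Sum.elim_inr, Subtype.mk.injEq] at h
        exact (hne a b h).elim
      · simp only [f, Sum.elim_inl, Sum.elim_inr, Subtype.mk.injEq] at h
        exact (hne b a h.symm).elim
      · simp only [f, Sum.elim_inr, Subtype.mk.injEq] at h
        have h' := Subgroup.comap_injective α₀.surjective h
        rw [stab_inj h']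
    have hsurj : Function.Surjective f := by
      rintro ⟨H, hH⟩
      obtain ⟨α, a, rfl⟩ := exists_S H hH
      rcases cycleType_aut α with h | h
      · obtain ⟨π, hπ⟩ := inner_of_swap α (Equiv.Perm.isSwap_iff_cycleType.mpr h)
        exact ⟨Sum.inl (π⁻¹ a), Subtype.ext (S_inner α π hπ a).symm⟩
      · obtain ⟨σ, κ, hσκ⟩ := exists_conj α α₀ (by rw [h, hα₀t])
        exact ⟨Sum.inr _, Subtype.ext (S_conj α α₀ σ κ hσκ a).symm⟩
    rw [← Nat.card_eq_of_bijective f ⟨hinj, hsurj⟩]
    simp
  · intro H hH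
    obtain ⟨α, a, rfl⟩ := exists_S H hH
    exact S_equiv α a

end Cfsg.Agent.S5945
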