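import Cfsg.Statements.S5949
import Mathlib
import Cfsg.Agent.Lib.Helper40.SubspCount
import Cfsg.Agent.Lib.Helper40.PrimeFix

set_option autoImplicit false
open scoped MatrixGroups
open Cfsg

namespace Cfsg.Agent.S5949

/-- Elements of prime order of PSL_n(q) with no fixed `m`-space. Here `T = PSL_n(F)` for a field `F` with `q = p^f` elements (`n ≥ 2`, `(n, q) ≠ (2, 2), (2, 3)`); an element of `T` of prime order `r` is represented by a matrix `x` of determinant 1 with `x^r` scalar and `x` not scalar; `i` denotes the multiplicative order of `q` modulo `r` (when `r ≠ p`), and `(a)_r` the `r`-part of `a`. Let `1 ≤ m ≤ n/2` and let `r` be a prime dividing the number of `m`-dimensional subspaces of `F^n`. Then every element of `T` of order `r` fixes some `m`-dimensional subspace (the action on `m`-spaces is `r`-elusive) if and only if `r ≠ p` and either (i) `i = 1` and (`r ∣ m`, or `(q−1)_r ≥ (n)_r` where in addition `q ≡ 1 (mod 4)` is required when `r = 2` and `n` is even), or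 (ii) `2 ≤ i ≤ m` and `n mod i ≥ m mod i`. -/
theorem result {F : Type*} [Field F] [Fintype F] {p : ℕ} [Fact p.Prime] [CharP F p] {q : ℕ} (hq : Fintype.card F = q)
    (n m : ℕ) (hn : 2 ≤ n) (hT : (n, q) ≠ (2, 2) ∧ (n, q) ≠ (2, 3)) (hm : 1 ≤ m) (hmn : 2 * m ≤ n)
    (r : ℕ) [Fact r.Prime] (hrΩ : r ∣ Nat.card {W : Submodule F (Fin n → F) // Module.finrank F ↥W = m}) :
    (∀ x : Matrix.SpecialLinearGroup (Fin n) F,
      (∃ c : F, ((x ^ r : Matrix.SpecialLinearGroup (Fin n) F) : Matrix (Fin n) (Fin n) F) = c • (1 : Matrix (Fin n) (Fin n) F)) →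
      (∀ c : F, (x : Matrix (Fin n) (Fin n) F) ≠ c • (1 : Matrix (Fin n) (Fin n) F)) →
      ∃ W : Submodule F (Fin n → F), Module.finrank F ↥W = m ∧ W.map (Matrix.toLin' (x : Matrix (Fin n) (Fin n) F)) ≤ W) ↔
    (r ≠ p ∧
      ((orderOf (q : ZMod r) = 1 ∧ (r ∣ m ∨ (padicValNat r n ≤ padicValNat r (q - 1) ∧ (r = 2 → Even n → q % 4 = 1)))) ∨
       (2 ≤ orderOf (q : ZMod r) ∧ orderOf (q : ZMod r) ≤ m ∧ m % orderOf (q : ZMod r) ≤ n % orderOf (q : ZMod r)))) := by
  classical
  subst hq
  have hr : r.Prime := Fact.out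
  obtain ⟨hrp, hin, hmod⟩ := Cfsg.Agent.Lib.Helper40.SubspCount.order_facts_subspaces (p := p)
    n m (by omega) r hrΩ
  have hr0 : (r : F) ≠ 0 := Cfsg.Agent.Lib.Helper40.PrimeFix.cast_ne_zero' (p := p) r hrp
  have hnd : ¬ r ∣ Fintype.card F := Cfsg.Agent.Lib.Helper40.PrimeFix.not_dvd_card (p := p) r hrp
  have hi1 : 0 < orderOf ((Fintype.card F : ℕ) : ZMod r) :=
    Cfsg.Agent.Lib.Helper40.CycloVal.order_pos _ r hnd
  obtain ⟨i, hi⟩ : ∃ i, i = orderOf ((Fintype.card F : ℕ) : ZMod r) := ⟨_, rfl⟩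
  rw [← hi] at hin hmod hi1 ⊢
  constructor
  · intro H
    refine ⟨hrp, ?_⟩
    by_cases hi1' : i = 1
    · left
      refine ⟨hi1', ?_⟩
      by_contra hcon
      rw [not_or] at hcon
      have hrq : r ∣ Fintype.card F - 1 := by
        rw [← Cfsg.Agent.Lib.Helper40.RootPow.order_eq_one_iff, ← hi]
        exact hi1'
      obtain ⟨c, A, hnA, hnp, hdet⟩ := Cfsg.Agent.Lib.Helper40.RootPow.exists_nonpower r hrq n
        (by omega) hcon.2
      subst hnA
      have hc0 : c ≠ 0 := by
        rintro rfl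
        exact hnp 0 (zero_pow hr.ne_zero)
      obtain ⟨x, hdetx, hxr⟩ := Cfsg.Agent.Lib.Helper40.PrimeFix.exists_bad p r c A hc0 hdet
      obtain ⟨W, hW, hfix⟩ := H ⟨x, hdetx⟩ ⟨c, hxr⟩ (by
        intro d hd
        apply hnp d
        have hd' : x = d • (1 : Matrix (Fin (r * A)) (Fin (r * A)) F) := hd
        have h1 : (d ^ r) • (1 : Matrix (Fin (r * A)) (Fin (r * A)) F) = c • 1 := by
          rw [← hxr, hd', _root_.smul_pow, one_pow]
        have h0 : 0 < r * A := by omega
        have h2 := congrFun (congrFun h1 ⟨0, h0⟩) ⟨0, h0⟩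
        simpa using h2)
      obtain ⟨A', hA', hcp, hfixiff, -⟩ :=
        Cfsg.Agent.Lib.Helper40.PrimeFix.structure_of_nonpower r hr0 x c hnp hxr
      obtain ⟨j, hj, hjm⟩ := (hfixiff m).mp ⟨W, hW, hfix⟩
      exact hcon.1 ⟨j, hjm.symm⟩
    · right
      have hi2 : 2 ≤ i := by omega
      obtain ⟨x, hdet, hxr, hns, hfixiff, -⟩ :=
        Cfsg.Agent.Lib.Helper40.PrimeFix.exists_big (p := p) r hrp i hi hi2 n hin
      obtain ⟨W, hW, hfix⟩ := H ⟨x, hdet⟩ ⟨1, by rw [one_smul]; exact hxr⟩ hns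
      obtain ⟨l, j, hl, hj, hlm⟩ := (hfixiff m).mp ⟨W, hW, hfix⟩
      have hj1 : 1 ≤ j := by
        rcases j with _ | j
        · rw [mul_zero] at hlm
          omega
        · omega
      have hlt : n % i < i := Nat.mod_lt _ (by omega)
      have hml : m % i = l := by
        rw [← hlm, Nat.add_mul_mod_self_left]
        exact Nat.mod_eq_of_lt (by omega)
      refine ⟨hi2, ?_, by omega⟩
      calc i = i * 1 := (mul_one i).symm
        _ ≤ i * j := Nat.mul_le_mul_left i hj1
        _ ≤ m := by omega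
  · rintro ⟨-, hcond⟩ x ⟨c, hxc⟩ hns
    by_cases hpow : ∃ d, d ^ r = c
    · obtain ⟨d, rfl⟩ := hpow
      have hd0 : d ≠ 0 := by
        rintro rfl
        rw [zero_pow hr.ne_zero, zero_smul] at hxc
        have h1 := congrArg Matrix.det hxc
        have : Nonempty (Fin n) := ⟨⟨0, by omega⟩⟩
        rw [Matrix.det_zero, Matrix.SpecialLinearGroup.det_coe] at h1
        exact one_ne_zero h1
      have hxc' : (x : Matrix (Fin n) (Fin n) F) ^ r = (d ^ r) • 1 := by
        rw [← hxc]
        rfl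
      obtain ⟨E, A, hEA, hA1, hfixiff, -⟩ :=
        Cfsg.Agent.Lib.Helper40.PrimeFix.structure_of_power (p := p) r hrp i hi
          (x : Matrix (Fin n) (Fin n) F) d hd0 hxc'
      apply (hfixiff m).mpr
      rcases hcond with ⟨hi', -⟩ | ⟨hi2, him, hmod'⟩
      · rw [hi'] at hEA ⊢
        by_cases hmE : m ≤ E
        · exact ⟨m, 0, hmE, Nat.zero_le _, by omega⟩
        · exact ⟨E, m - E, le_rfl, by omega, by omega⟩
      · have hA1' := hA1 hi2 hns
        have hdm := Nat.div_add_mod m i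
        have hdn := Nat.div_add_mod n i
        by_cases hA2 : m / i ≤ A
        · refine ⟨m % i, m / i, ?_, hA2, by omega⟩
          have h1 : n % i = E % i := by
            rw [← hEA, Nat.add_mul_mod_self_left]
          have h2 := Nat.mod_le E i
          omega
        · have h1 : i * (A + 1) ≤ i * (m / i) := Nat.mul_le_mul_left i (by omega)
          have h2 : i * (m / i) ≤ m := Nat.mul_div_le m i
          have h3 : i * (A + 1) = i * A + i := by ring
          exact ⟨m - i * A, A, by omega, le_rfl, by omega⟩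
    · push Not at hpow
      have hxc' : (x : Matrix (Fin n) (Fin n) F) ^ r = c • 1 := by
        rw [← hxc]
        rfl
      obtain ⟨A, hA, hcp, hfixiff, -⟩ :=
        Cfsg.Agent.Lib.Helper40.PrimeFix.structure_of_nonpower r hr0
          (x : Matrix (Fin n) (Fin n) F) c hpow hxc'
      apply (hfixiff m).mpr
      rcases hcond with ⟨hi', hrm | hval⟩ | ⟨hi2, him, hmod'⟩
      · obtain ⟨j, rfl⟩ := hrm
        refine ⟨j, ?_, rfl⟩
        have h1 : r * j ≤ r * A := by omega
        exact Nat.le_of_mul_le_mul_left h1 hr.pos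
      · exact absurd hval (Cfsg.Agent.Lib.Helper40.PrimeFix.nonpower_arith r hr0 (by omega)
          (x : Matrix (Fin n) (Fin n) F) x.2 c hpow hxc')
      · exfalso
        have hrq : ¬ r ∣ Fintype.card F - 1 := by
          rw [← Cfsg.Agent.Lib.Helper40.RootPow.order_eq_one_iff, ← hi]
          omega
        obtain ⟨d, hd⟩ := Cfsg.Agent.Lib.Helper40.RootPow.exists_root r hr hrq c
        exact hpow d hd

end Cfsg.Agent.S5949
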