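import Cfsg.Statements.S5950
import Mathlib
import Cfsg.Agent.Lib.Helper40.ComplCount
import Cfsg.Agent.Lib.Helper40.JordanSplit
import Cfsg.Agent.Lib.Helper40.PrimeFix
import Cfsg.Agent.S5949

set_option autoImplicit false
open scoped MatrixGroups
open Cfsg

namespace Cfsg.Agent.S5950

/-- Elements of prime order of PSL_n(q) fixing no decomposition `F^n = U ⊕ W` with `dim U = m`. Here `T = PSL_n(F)` for a field `F` with `q = p^f` elements (`n ≥ 2`, `(n, q) ≠ (2, 2), (2, 3)`); an element of `T` of prime order `r` is represented by a matrix `x` of determinant 1 with `x^r` scalar and `x` not scalar; `i` denotes the multiplicative order of `q` modulo `r` (when `r ≠ p`), and `(a)_r` the `r`-part of `a`. Let `n ≥ 3`, `1 ≤ m < n/2`, and let `r` be a prime dividing the number of such decompositions (unordered pairs `{U, W}` of complementary subspaces with `dim U = m`; since `m ≠ n − m` these are the ordered pairs with `dim U = m`). Then every element of `T` of order `r` fixes such a pair (fixes both `U` and `W` for some complementary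 `U, W` with `dim U = m`) if and only if one of: (i) `r = p > 2` and every partition of `n` into parts of size at most `p` contains, as a sub-multiset, a partition of `m`; (ii) `r = p = 2` and `n` is odd or `m` is even; (iii) `r ≠ p`, `i = 1`, and `r ∣ m` or `(q−1)_r ≥ (n)_r` (with `q ≡ 1 (mod 4)` required when `r = 2` and `n` is even); (iv) `r ≠ p`, `2 ≤ i ≤ m` and `n mod i ≥ m mod i`. -/
theorem result {F : Type*} [Field F] [Fintype F] {p : ℕ} [Fact p.Prime] [CharP F p] {q : ℕ} (hq : Fintype.card F = q)
    (n m : ℕ) (hn : 3 ≤ n) (hm : 1 ≤ m) (hmn : 2 * m < n)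
    (r : ℕ) [Fact r.Prime]
    (hrΩ : r ∣ Nat.card {P : Submodule F (Fin n → F) × Submodule F (Fin n → F) // IsCompl P.1 P.2 ∧ Module.finrank F ↥P.1 = m}) :
    (∀ x : Matrix.SpecialLinearGroup (Fin n) F,
      (∃ c : F, ((x ^ r : Matrix.SpecialLinearGroup (Fin n) F) : Matrix (Fin n) (Fin n) F) = c • (1 : Matrix (Fin n) (Fin n) F)) →
      (∀ c : F, (x : Matrix (Fin n) (Fin n) F) ≠ c • (1 : Matrix (Fin n) (Fin n) F)) →
      ∃ U W : Submodule F (Fin n → F), IsCompl U W ∧ Module.finrank F ↥U = m ∧
        U.map (Matrix.toLin' (x : Matrix (Fin n) (Fin n) F)) ≤ U ∧ W.map (Matrix.toLin' (x : Matrix (Fin n) (Fin n) F)) ≤ W) ↔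
    ((r = p ∧ 2 < p ∧ (∀ μ : Multiset ℕ, (∀ a ∈ μ, 0 < a ∧ a ≤ p) → μ.sum = n → ∃ ν : Multiset ℕ, ν ≤ μ ∧ ν.sum = m)) ∨
     (r = p ∧ p = 2 ∧ (Odd n ∨ Even m)) ∨
     (r ≠ p ∧
      ((orderOf (q : ZMod r) = 1 ∧ (r ∣ m ∨ (padicValNat r n ≤ padicValNat r (q - 1) ∧ (r = 2 → Even n → q % 4 = 1)))) ∨
       (2 ≤ orderOf (q : ZMod r) ∧ orderOf (q : ZMod r) ≤ m ∧ m % orderOf (q : ZMod r) ≤ n % orderOf (q : ZMod r))))) := by
  classical
  subst hq
  have hr : r.Prime := Fact.out
  have hpp : p.Prime := Fact.out
  have hne : Nonempty (Fin n) := ⟨⟨0, by omega⟩⟩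
  by_cases hrp : r = p
  · have hpr : p = r := hrp.symm
    subst hpr
    have hpq : ¬ p ∣ Fintype.card F - 1 := by
      intro h
      have h1 : p ∣ Fintype.card F := by
        rw [← CharP.cast_eq_zero_iff F p]
        exact FiniteField.cast_card_eq_zero F
      have h2 := Nat.dvd_sub h1 h
      have h3 : 1 ≤ Fintype.card F := Fintype.card_pos
      have h4 : Fintype.card F - (Fintype.card F - 1) = 1 := by omega
      rw [h4] at h2
      exact hpp.one_lt.ne' (Nat.dvd_one.mp h2)
    have hmain : (∀ x : Matrix.SpecialLinearGroup (Fin n) F,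
        (∃ c : F, ((x ^ p : Matrix.SpecialLinearGroup (Fin n) F) : Matrix (Fin n) (Fin n) F) =
          c • (1 : Matrix (Fin n) (Fin n) F)) →
        (∀ c : F, (x : Matrix (Fin n) (Fin n) F) ≠ c • (1 : Matrix (Fin n) (Fin n) F)) →
        ∃ U W : Submodule F (Fin n → F), IsCompl U W ∧ Module.finrank F ↥U = m ∧
          U.map (Matrix.toLin' (x : Matrix (Fin n) (Fin n) F)) ≤ U ∧
          W.map (Matrix.toLin' (x : Matrix (Fin n) (Fin n) F)) ≤ W) ↔
        (∀ μ : Multiset ℕ, (∀ a ∈ μ, 0 < a ∧ a ≤ p) → μ.sum = n →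
          ∃ ν : Multiset ℕ, ν ≤ μ ∧ ν.sum = m) := by
      constructor
      · intro H μ hμ hsum
        by_cases hbig : ∃ a ∈ μ, 2 ≤ a
        · obtain ⟨A, hAp, hA0, hsplit⟩ :=
            Cfsg.Agent.Lib.Helper40.JordanSplit.exists_nilpotent_of_type (F := F) p μ hμ hsum hbig
          have hxp : (1 + A) ^ p = 1 := by
            rw [add_pow_char_of_commute p (Commute.one_left A), one_pow, hAp, add_zero]
          have hdet : (1 + A).det = 1 := by
            have h1 : (1 + A).det ^ p = 1 := by
              rw [← Matrix.det_pow, hxp, Matrix.det_one]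
            have h2 : ((1 + A).det - 1) ^ p = 0 := by
              rw [sub_pow_char, h1, one_pow, sub_self]
            exact sub_eq_zero.mp ((pow_eq_zero_iff hpp.ne_zero).mp h2)
          obtain ⟨U, W, hc, hUm, hU, hW⟩ := H ⟨1 + A, hdet⟩ ⟨1, by rw [one_smul]; exact hxp⟩ (by
            intro c hc
            have hc' : 1 + A = c • (1 : Matrix (Fin n) (Fin n) F) := hc
            have hA : A = (c - 1) • (1 : Matrix (Fin n) (Fin n) F) := by
              rw [sub_smul, one_smul, ← hc']
              abel
            have h1 := hAp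
            rw [hA, _root_.smul_pow, one_pow] at h1
            have h2 := congrFun (congrFun h1 ⟨0, by omega⟩) ⟨0, by omega⟩
            rw [Matrix.smul_apply, Matrix.one_apply_eq, Matrix.zero_apply, smul_eq_mul, mul_one]
              at h2
            have h3 : c - 1 = 0 := (pow_eq_zero_iff hpp.ne_zero).mp h2
            apply hA0
            rw [hA, h3, zero_smul])
          have hinv : ∀ (X : Submodule F (Fin n → F)), X.map (Matrix.toLin' (1 + A)) ≤ X →
              ∀ u ∈ X, Matrix.toLin' A u ∈ X := by
            intro X hX u hu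
            have h1 : Matrix.toLin' (1 + A) u ∈ X := hX (Submodule.mem_map_of_mem hu)
            rw [map_add, Matrix.toLin'_one, LinearMap.add_apply, LinearMap.id_apply] at h1
            have h2 := X.sub_mem h1 hu
            rwa [add_sub_cancel_left] at h2
          obtain ⟨ν, hν, hνs⟩ := hsplit U W hc (hinv U hU) (hinv W hW)
          exact ⟨ν, hν, by rw [hνs, hUm]⟩
        · push Not at hbig
          have hone : ∀ a ∈ μ, a = 1 := fun a ha => by
            have h1 := (hμ a ha).1
            have h2 := hbig a ha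
            omega
          have hcard : Multiset.card μ = n := by
            have h1 : μ.sum = Multiset.card μ := by
              conv_lhs => rw [Multiset.eq_replicate_card.mpr hone]
              rw [Multiset.sum_replicate, smul_eq_mul, mul_one]
            omega
          obtain ⟨ν, hν, hνc⟩ := Cfsg.Agent.Lib.Helper40.InvDims.exists_le_card μ m (by omega)
          refine ⟨ν, hν, ?_⟩
          conv_lhs => rw [Multiset.eq_replicate_card.mpr
            (fun a ha => hone a (Multiset.mem_of_le hν ha))]
          rw [Multiset.sum_replicate, hνc, smul_eq_mul, mul_one]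
      · intro hcond x ⟨c, hxc⟩ hns
        obtain ⟨d, hd⟩ := Cfsg.Agent.Lib.Helper40.RootPow.exists_root p hpp hpq c
        subst hd
        have hd0 : d ≠ 0 := by
          rintro rfl
          rw [zero_pow hpp.ne_zero, zero_smul] at hxc
          have h1 := congrArg Matrix.det hxc
          rw [Matrix.det_zero, Matrix.SpecialLinearGroup.det_coe] at h1
          exact one_ne_zero h1
        have hxc' : (x : Matrix (Fin n) (Fin n) F) ^ p = (d ^ p) • 1 := by
          rw [← hxc]
          rfl
        obtain ⟨A, hA⟩ : ∃ A : Matrix (Fin n) (Fin n) F,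
            A = d⁻¹ • (x : Matrix (Fin n) (Fin n) F) - 1 := ⟨_, rfl⟩
        have hx'p : (d⁻¹ • (x : Matrix (Fin n) (Fin n) F)) ^ p = 1 := by
          rw [_root_.smul_pow, hxc', smul_smul, inv_pow, inv_mul_cancel₀ (pow_ne_zero p hd0),
            one_smul]
        have hAp : A ^ p = 0 := by
          rw [hA, sub_pow_char_of_commute p (Commute.one_right _), hx'p, one_pow, sub_self]
        obtain ⟨U, W, hc, hUm, hU, hW⟩ :=
          Cfsg.Agent.Lib.Helper40.JordanSplit.exists_pair_of_nilpotent A p m hAp hcond
        have hinv : ∀ X : Submodule F (Fin n → F), (∀ u ∈ X, Matrix.toLin' A u ∈ X) →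
            X.map (Matrix.toLin' (x : Matrix (Fin n) (Fin n) F)) ≤ X := by
          intro X hX
          rw [← Cfsg.Agent.Lib.Helper40.PrimeFix.fix_smul (x : Matrix (Fin n) (Fin n) F) d⁻¹
            (inv_ne_zero hd0) X]
          have h1 : d⁻¹ • (x : Matrix (Fin n) (Fin n) F) = 1 + A := by
            rw [hA]
            abel
          rw [h1, Submodule.map_le_iff_le_comap]
          intro u hu
          show Matrix.toLin' (1 + A) u ∈ X
          rw [map_add, Matrix.toLin'_one, LinearMap.add_apply, LinearMap.id_apply]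
          exact X.add_mem hu (hX u hu)
        exact ⟨U, W, hc, hUm, hinv U hU, hinv W hW⟩
    rw [hmain]
    constructor
    · intro hcond
      by_cases hp2 : p = 2
      · right
        left
        refine ⟨rfl, hp2, ?_⟩
        by_contra hcon
        rw [not_or] at hcon
        have hne : Even n := Nat.not_odd_iff_even.mp hcon.1
        obtain ⟨a, ha⟩ := hne
        obtain ⟨ν, hν, hνs⟩ := hcond (Multiset.replicate a 2) (by
          intro b hb
          rw [Multiset.eq_of_mem_replicate hb, hp2]
          omega) (by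
          rw [Multiset.sum_replicate, smul_eq_mul]
          omega)
        apply hcon.2
        have hs : ν.sum = 2 * Multiset.card ν := by
          conv_lhs => rw [Multiset.eq_replicate_card.mpr
            (fun b hb => Multiset.eq_of_mem_replicate (Multiset.mem_of_le hν hb))]
          rw [Multiset.sum_replicate, smul_eq_mul, mul_comm]
        rw [← hνs, hs]
        exact even_two.mul_right _
      · left
        exact ⟨rfl, by have := hpp.two_le; omega, hcond⟩
    · rintro (⟨-, hp2, hcond⟩ | ⟨-, hp2, hpar⟩ | ⟨hne', -⟩)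
      · exact hcond
      · intro μ hμ hsum
        obtain ⟨M2, hM2⟩ : ∃ M2, M2 = μ.filter (fun a => a = 2) := ⟨_, rfl⟩
        obtain ⟨M1, hM1⟩ : ∃ M1, M1 = μ.filter (fun a => ¬ a = 2) := ⟨_, rfl⟩
        have hadd : M2 + M1 = μ := by
          rw [hM2, hM1]
          exact Multiset.filter_add_not _ _
        have h2 : ∀ a ∈ M2, a = 2 := fun a ha => by
          rw [hM2] at ha
          exact (Multiset.mem_filter.mp ha).2
        have h1 : ∀ a ∈ M1, a = 1 := fun a ha => by
          rw [hM1] at ha
          obtain ⟨ha1, ha2⟩ := Multiset.mem_filter.mp ha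
          have h3 := hμ a ha1
          omega
        have hsum2 : ∀ X : Multiset ℕ, (∀ a ∈ X, a = 2) → X.sum = 2 * Multiset.card X := by
          intro X hX
          conv_lhs => rw [Multiset.eq_replicate_card.mpr hX]
          rw [Multiset.sum_replicate, smul_eq_mul, mul_comm]
        have hsum1 : ∀ X : Multiset ℕ, (∀ a ∈ X, a = 1) → X.sum = Multiset.card X := by
          intro X hX
          conv_lhs => rw [Multiset.eq_replicate_card.mpr hX]
          rw [Multiset.sum_replicate, smul_eq_mul, mul_one]
        have hn' : 2 * Multiset.card M2 + Multiset.card M1 = n := by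
          rw [← hsum, ← hadd, Multiset.sum_add, hsum2 M2 h2, hsum1 M1 h1]
        obtain ⟨j, l, hj, hl, hjl⟩ : ∃ j l, j ≤ Multiset.card M2 ∧ l ≤ Multiset.card M1 ∧
            2 * j + l = m := by
          by_cases hA : m / 2 ≤ Multiset.card M2
          · refine ⟨m / 2, m % 2, hA, ?_, by omega⟩
            rcases hpar with hodd | hev
            · obtain ⟨t, ht⟩ := hodd
              omega
            · obtain ⟨t, ht⟩ := hev
              omega
          · exact ⟨Multiset.card M2, m - 2 * Multiset.card M2, le_rfl, by omega, by omega⟩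
        obtain ⟨A, hA, hAc⟩ := Cfsg.Agent.Lib.Helper40.InvDims.exists_le_card M2 j hj
        obtain ⟨B, hB, hBc⟩ := Cfsg.Agent.Lib.Helper40.InvDims.exists_le_card M1 l hl
        refine ⟨A + B, by rw [← hadd]; exact add_le_add hA hB, ?_⟩
        rw [Multiset.sum_add, hsum2 A (fun a ha => h2 a (Multiset.mem_of_le hA ha)),
          hsum1 B (fun a ha => h1 a (Multiset.mem_of_le hB ha)), hAc, hBc, hjl]
      · exact absurd rfl hne'
  · have hrq : ¬ r ∣ Fintype.card F :=
      Cfsg.Agent.Lib.Helper40.PrimeFix.not_dvd_card (p := p) r hrp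
    have hrΩ' : r ∣ Nat.card {W : Submodule F (Fin n → F) // Module.finrank F ↥W = m} :=
      Cfsg.Agent.Lib.Helper40.ComplCount.dvd_card_subspaces m r hr hrq hrΩ
    have h49 := Cfsg.Agent.S5949.result (F := F) (p := p) rfl n m (by omega)
      ⟨fun h => by rw [Prod.mk.injEq] at h; omega, fun h => by rw [Prod.mk.injEq] at h; omega⟩
      hm (by omega) r hrΩ'
    have hr0 : (r : F) ≠ 0 := Cfsg.Agent.Lib.Helper40.PrimeFix.cast_ne_zero' (p := p) r hrp
    have hL : (∀ x : Matrix.SpecialLinearGroup (Fin n) F,
        (∃ c : F, ((x ^ r : Matrix.SpecialLinearGroup (Fin n) F) : Matrix (Fin n) (Fin n) F) =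
          c • (1 : Matrix (Fin n) (Fin n) F)) →
        (∀ c : F, (x : Matrix (Fin n) (Fin n) F) ≠ c • (1 : Matrix (Fin n) (Fin n) F)) →
        ∃ U W : Submodule F (Fin n → F), IsCompl U W ∧ Module.finrank F ↥U = m ∧
          U.map (Matrix.toLin' (x : Matrix (Fin n) (Fin n) F)) ≤ U ∧
          W.map (Matrix.toLin' (x : Matrix (Fin n) (Fin n) F)) ≤ W) ↔
        (∀ x : Matrix.SpecialLinearGroup (Fin n) F,
        (∃ c : F, ((x ^ r : Matrix.SpecialLinearGroup (Fin n) F) : Matrix (Fin n) (Fin n) F) =
          c • (1 : Matrix (Fin n) (Fin n) F)) →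
        (∀ c : F, (x : Matrix (Fin n) (Fin n) F) ≠ c • (1 : Matrix (Fin n) (Fin n) F)) →
        ∃ W : Submodule F (Fin n → F), Module.finrank F ↥W = m ∧
          W.map (Matrix.toLin' (x : Matrix (Fin n) (Fin n) F)) ≤ W) := by
      constructor
      · intro H x hx hns
        obtain ⟨U, W, hc, hUm, hU, hW⟩ := H x hx hns
        exact ⟨U, hUm, hU⟩
      · intro H x hx hns
        obtain ⟨U, hUm, hU⟩ := H x hx hns
        obtain ⟨c, hxc⟩ := hx
        have hc0 : c ≠ 0 := by
          rintro rfl
          rw [zero_smul] at hxc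
          have h1 := congrArg Matrix.det hxc
          rw [Matrix.det_zero, Matrix.SpecialLinearGroup.det_coe] at h1
          exact one_ne_zero h1
        have hxc' : (x : Matrix (Fin n) (Fin n) F) ^ r = c • 1 := by
          rw [← hxc]
          rfl
        have hs := Cfsg.Agent.Lib.Helper40.InvDims.isSemisimple_of_pow_eq_smul
          (x : Matrix (Fin n) (Fin n) F) r c hc0 hr0 hxc'
        obtain ⟨W, hW, hc⟩ := (Module.End.isSemisimple_iff.mp hs) U
          ((Cfsg.Agent.Lib.Helper40.InvDims.map_le_iff _ U).mp hU)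
        exact ⟨U, W, hc, hUm, hU, (Cfsg.Agent.Lib.Helper40.InvDims.map_le_iff _ W).mpr hW⟩
    rw [hL, h49]
    constructor
    · intro h
      right
      right
      exact h
    · rintro (⟨h, -⟩ | ⟨h, -⟩ | h)
      · exact absurd h hrp
      · exact absurd h hrp
      · exact h

end Cfsg.Agent.S5950
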