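import Cfsg.Statements.S5951
import Mathlib
import Cfsg.Agent.Lib.Helper40.SubspCount
import Cfsg.Agent.Lib.Helper40.PrimeFix

set_option autoImplicit false
open scoped MatrixGroups
open Cfsg

namespace Cfsg.Agent.S5951

/-- Elements of prime order of PSL_n(q) fixing no pair of subspaces `U < W` with `dim U = m`, `dim W = n − m`. Here `T = PSL_n(F)` for a field `F` with `q = p^f` elements (`n ≥ 2`, `(n, q) ≠ (2, 2), (2, 3)`); an element of `T` of prime order `r` is represented by a matrix `x` of determinant 1 with `x^r` scalar and `x` not scalar; `i` denotes the multiplicative order of `q` modulo `r` (when `r ≠ p`), and `(a)_r` the `r`-part of `a`. Let `1 ≤ m < n/2` and let `r` be a prime dividing the number of such pairs. Then every element of `T` of order `r` fixes such a pair (both `U` and `W`) if and only if `r ≠ p` and either (i) `i = 1` and (`r ∣ m`, or `(q−1)_r ≥ (n)_r` with `q ≡ 1 (mod 4)` required when `r = 2` and `n` is even), or (ii) `2 ≤ i ≤ m` and `n mod i ≥ 2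 (m mod i)`. -/
theorem result {F : Type*} [Field F] [Fintype F] {p : ℕ} [Fact p.Prime] [CharP F p] {q : ℕ} (hq : Fintype.card F = q)
    (n m : ℕ) (hn : 2 ≤ n) (hT : (n, q) ≠ (2, 2) ∧ (n, q) ≠ (2, 3)) (hm : 1 ≤ m) (hmn : 2 * m < n)
    (r : ℕ) [Fact r.Prime]
    (hrΩ : r ∣ Nat.card {P : Submodule F (Fin n → F) × Submodule F (Fin n → F) //
        P.1 ≤ P.2 ∧ Module.finrank F ↥P.1 = m ∧ Module.finrank F ↥P.2 = n - m}) :
    (∀ x : Matrix.SpecialLinearGroup (Fin n) F,
      (∃ c : F, ((x ^ r : Matrix.SpecialLinearGroup (Fin n) F) : Matrix (Fin n) (Fin n) F) = c • (1 : Matrix (Fin n) (Fin n) F)) →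
      (∀ c : F, (x : Matrix (Fin n) (Fin n) F) ≠ c • (1 : Matrix (Fin n) (Fin n) F)) →
      ∃ U W : Submodule F (Fin n → F), U ≤ W ∧ Module.finrank F ↥U = m ∧ Module.finrank F ↥W = n - m ∧
        U.map (Matrix.toLin' (x : Matrix (Fin n) (Fin n) F)) ≤ U ∧ W.map (Matrix.toLin' (x : Matrix (Fin n) (Fin n) F)) ≤ W) ↔
    (r ≠ p ∧
      ((orderOf (q : ZMod r) = 1 ∧ (r ∣ m ∨ (padicValNat r n ≤ padicValNat r (q - 1) ∧ (r = 2 → Even n → q % 4 = 1)))) ∨
       (2 ≤ orderOf (q : ZMod r) ∧ orderOf (q : ZMod r) ≤ m ∧ 2 * (m % orderOf (q : ZMod r)) ≤ n % orderOf (q : ZMod r)))) := by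
  classical
  subst hq
  have hr : r.Prime := Fact.out
  obtain ⟨hrp, hin, hmod⟩ := Cfsg.Agent.Lib.Helper40.SubspCount.order_facts_flags (p := p)
    n m (by omega) r hrΩ
  have hr0 : (r : F) ≠ 0 := Cfsg.Agent.Lib.Helper40.PrimeFix.cast_ne_zero' (p := p) r hrp
  have hnd : ¬ r ∣ Fintype.card F := Cfsg.Agent.Lib.Helper40.PrimeFix.not_dvd_card (p := p) r hrp
  have hi1 : 0 < orderOf ((Fintype.card F : ℕ) : ZMod r) :=
    Cfsg.Agent.Lib.Helper40.CycloVal.order_pos _ r hnd
  obtain ⟨i, hi⟩ : ∃ i, i = orderOf ((Fintype.card F : ℕ) : ZMod r) := ⟨_, rfl⟩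
  rw [← hi] at hin hmod hi1 ⊢
  have hmn' : m ≤ n := by omega
  constructor
  · intro H
    refine ⟨hrp, ?_⟩
    by_cases hi1' : i = 1
    · left
      refine ⟨hi1', ?_⟩
      by_contra hcon
      rw [not_or] at hcon
      have hrq : r ∣ Fintype.card F - 1 := by
        rw [← Cfsg.Agent.Lib.Helper40.RootPow.order_eq_one_iff, ← hi]
        exact hi1'
      obtain ⟨c, A, hnA, hnp, hdet⟩ := Cfsg.Agent.Lib.Helper40.RootPow.exists_nonpower r hrq n
        (by omega) hcon.2
      subst hnA
      have hc0 : c ≠ 0 := by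
        rintro rfl
        exact hnp 0 (zero_pow hr.ne_zero)
      obtain ⟨x, hdetx, hxr⟩ := Cfsg.Agent.Lib.Helper40.PrimeFix.exists_bad p r c A hc0 hdet
      obtain ⟨U, W, hUW, hU, hW, hfixU, hfixW⟩ := H ⟨x, hdetx⟩ ⟨c, hxr⟩ (by
        intro d hd
        apply hnp d
        have hd' : x = d • (1 : Matrix (Fin (r * A)) (Fin (r * A)) F) := hd
        have h1 : (d ^ r) • (1 : Matrix (Fin (r * A)) (Fin (r * A)) F) = c • 1 := by
          rw [← hxr, hd', _root_.smul_pow, one_pow]
        have h0 : 0 < r * A := by omega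
        have h2 := congrFun (congrFun h1 ⟨0, h0⟩) ⟨0, h0⟩
        simpa using h2)
      obtain ⟨A', hA', hcp, -, hflagiff⟩ :=
        Cfsg.Agent.Lib.Helper40.PrimeFix.structure_of_nonpower r hr0 x c hnp hxr
      obtain ⟨j₁, j₂, hj, hjm, -⟩ := (hflagiff m hmn').mp ⟨U, W, hUW, hU, hW, hfixU, hfixW⟩
      exact hcon.1 ⟨j₁, hjm.symm⟩
    · right
      have hi2 : 2 ≤ i := by omega
      obtain ⟨x, hdet, hxr, hns, -, hflagiff⟩ :=
        Cfsg.Agent.Lib.Helper40.PrimeFix.exists_big (p := p) r hrp i hi hi2 n hin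
      obtain ⟨U, W, hUW, hU, hW, hfixU, hfixW⟩ :=
        H ⟨x, hdet⟩ ⟨1, by rw [one_smul]; exact hxr⟩ hns
      obtain ⟨l₁, j₁, l₂, j₂, hl, hj, hlm₁, hlm₂⟩ :=
        (hflagiff m hmn').mp ⟨U, W, hUW, hU, hW, hfixU, hfixW⟩
      have hlt : n % i < i := Nat.mod_lt _ (by omega)
      have hml₁ : m % i = l₁ := by
        rw [← hlm₁, Nat.add_mul_mod_self_left]
        exact Nat.mod_eq_of_lt (by omega)
      have hml₂ : m % i = l₂ := by
        rw [← hlm₂, Nat.add_mul_mod_self_left]
        exact Nat.mod_eq_of_lt (by omega)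
      have hj1 : 1 ≤ j₁ := by
        rcases j₁ with _ | j
        · rw [mul_zero] at hlm₁
          omega
        · omega
      refine ⟨hi2, ?_, by omega⟩
      calc i = i * 1 := (mul_one i).symm
        _ ≤ i * j₁ := Nat.mul_le_mul_left i hj1
        _ ≤ m := by omega
  · rintro ⟨-, hcond⟩ x ⟨c, hxc⟩ hns
    by_cases hpow : ∃ d, d ^ r = c
    · obtain ⟨d, rfl⟩ := hpow
      have hd0 : d ≠ 0 := by
        rintro rfl
        rw [zero_pow hr.ne_zero, zero_smul] at hxc
        have h1 := congrArg Matrix.det hxc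
        have : Nonempty (Fin n) := ⟨⟨0, by omega⟩⟩
        rw [Matrix.det_zero, Matrix.SpecialLinearGroup.det_coe] at h1
        exact one_ne_zero h1
      have hxc' : (x : Matrix (Fin n) (Fin n) F) ^ r = (d ^ r) • 1 := by
        rw [← hxc]
        rfl
      obtain ⟨E, A, hEA, hA1, -, hflagiff⟩ :=
        Cfsg.Agent.Lib.Helper40.PrimeFix.structure_of_power (p := p) r hrp i hi
          (x : Matrix (Fin n) (Fin n) F) d hd0 hxc'
      apply (hflagiff m hmn').mpr
      rcases hcond with ⟨hi', -⟩ | ⟨hi2, him, hmod'⟩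
      · rw [hi'] at hEA ⊢
        by_cases hmE : 2 * m ≤ E
        · exact ⟨m, 0, m, 0, by omega, by omega, by omega, by omega⟩
        · by_cases hmE' : m ≤ E
          · exact ⟨m, 0, E - m, 2 * m - E, by omega, by omega, by omega, by omega⟩
          · exact ⟨E, m - E, 0, m, by omega, by omega, by omega, by omega⟩
      · have hA1' := hA1 hi2 hns
        have hdm := Nat.div_add_mod m i
        have hdn := Nat.div_add_mod n i
        have hEi : n % i = E % i := by
          rw [← hEA, Nat.add_mul_mod_self_left]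
        have hEle := Nat.mod_le E i
        have hit : i * (m / i) ≤ m := Nat.mul_div_le m i
        by_cases hA2 : 2 * (m / i) ≤ A
        · exact ⟨m % i, m / i, m % i, m / i, by omega, by omega, by omega, by omega⟩
        · by_cases hA3 : m / i ≤ A
          · have h1 : i * (A - m / i) = i * A - i * (m / i) := Nat.mul_sub _ _ _
            have h2 : i * (m / i) ≤ i * A := Nat.mul_le_mul_left i hA3
            have h3 : i * (A - m / i) ≤ i * (m / i) := Nat.mul_le_mul_left i (by omega)
            exact ⟨m % i, m / i, m - i * (A - m / i), A - m / i, by omega, by omega, by omega,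
              by omega⟩
          · have h1 : i * A ≤ i * (m / i) := Nat.mul_le_mul_left i (by omega)
            exact ⟨m - i * A, A, m, 0, by omega, by omega, by omega, by omega⟩
    · push Not at hpow
      have hxc' : (x : Matrix (Fin n) (Fin n) F) ^ r = c • 1 := by
        rw [← hxc]
        rfl
      obtain ⟨A, hA, hcp, -, hflagiff⟩ :=
        Cfsg.Agent.Lib.Helper40.PrimeFix.structure_of_nonpower r hr0
          (x : Matrix (Fin n) (Fin n) F) c hpow hxc'
      apply (hflagiff m hmn').mpr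
      rcases hcond with ⟨hi', hrm | hval⟩ | ⟨hi2, him, hmod'⟩
      · obtain ⟨j, rfl⟩ := hrm
        refine ⟨j, j, ?_, rfl, rfl⟩
        have h1 : r * (j + j) ≤ r * A := by
          rw [Nat.mul_add]
          omega
        exact Nat.le_of_mul_le_mul_left h1 hr.pos
      · exact absurd hval (Cfsg.Agent.Lib.Helper40.PrimeFix.nonpower_arith r hr0 (by omega)
          (x : Matrix (Fin n) (Fin n) F) x.2 c hpow hxc')
      · exfalso
        have hrq : ¬ r ∣ Fintype.card F - 1 := by
          rw [← Cfsg.Agent.Lib.Helper40.RootPow.order_eq_one_iff, ← hi]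
          omega
        obtain ⟨d, hd⟩ := Cfsg.Agent.Lib.Helper40.RootPow.exists_root r hr hrq c
        exact hpow d hd

end Cfsg.Agent.S5951
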