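import Cfsg.Statements.S5952

set_option autoImplicit false
open Cfsg

namespace Cfsg.Agent.S5952

variable {F V : Type*} [Field F] [AddCommGroup V] [Module F V]

lemma step [FiniteDimensional F V] (f : V →ₗ[F] V) {a : ℕ} (P Q W : Submodule F V) (hPQ : Disjoint P Q)
    (hP : P.map f ≤ P) (hQ : Q.map f ≤ Q) (hW : W.map f ≤ W)
    (hQa : Module.finrank F Q = a)
    (hQirr : ∀ W' : Submodule F V, W' ≤ Q → W'.map f ≤ W' → W' = ⊥ ∨ W' = Q)
    (hWle : W ≤ P ⊔ Q) :
    Module.finrank F W = Module.finrank F ↥(W ⊓ P) ∨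
      Module.finrank F W = Module.finrank F ↥(W ⊓ P) + a := by
  have hQ'inv : ((W ⊔ P) ⊓ Q).map f ≤ (W ⊔ P) ⊓ Q := by
    refine le_trans (Submodule.map_inf_le f) ?_
    refine inf_le_inf ?_ hQ
    rw [Submodule.map_sup]
    exact sup_le_sup hW hP
  have h1 : W ⊔ P = P ⊔ (W ⊔ P) ⊓ Q := by
    have h := sup_inf_assoc_of_le Q (le_sup_right : P ≤ W ⊔ P)
    rw [inf_eq_right.mpr (sup_le hWle le_sup_left)] at h
    rw [inf_comm (W ⊔ P) Q]; exact h
  have h2 : P ⊓ ((W ⊔ P) ⊓ Q) = ⊥ := by
    apply le_bot_iff.mp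
    calc P ⊓ ((W ⊔ P) ⊓ Q) ≤ P ⊓ Q := inf_le_inf_left _ inf_le_right
      _ = ⊥ := hPQ.eq_bot
  have e1 := Submodule.finrank_sup_add_finrank_inf_eq W P
  have e2 := Submodule.finrank_sup_add_finrank_inf_eq P ((W ⊔ P) ⊓ Q)
  rw [h2, finrank_bot, add_zero] at e2
  rw [h1, e2] at e1
  rcases hQirr _ inf_le_right hQ'inv with h | h
  · left; rw [h, finrank_bot] at e1; omega
  · right; rw [h, hQa] at e1; omega

lemma exists_sub_finrank (E : Submodule F V) (l : ℕ) (hl : l ≤ Module.finrank F E) :
    ∃ E' : Submodule F V, E' ≤ E ∧ Module.finrank F E' = l := by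
  obtain ⟨g, hg⟩ := exists_linearIndependent_of_le_finrank hl
  refine ⟨Submodule.span F (Set.range (fun i => (g i : V))), ?_, ?_⟩
  · rw [Submodule.span_le]
    rintro _ ⟨i, rfl⟩
    exact (g i).2
  · have hli : LinearIndependent F (fun i => (g i : V)) :=
      hg.map' E.subtype (Submodule.ker_subtype E)
    rw [finrank_span_eq_card hli]
    simp

/-- Which dimensions of invariant subspaces a semisimple linear map has. Let `V` be a finite-dimensional vector space over a field `F` and `f` an invertible semisimple linear map of `V`. Suppose `V` is the internal direct sum of the fixed space `C_V(f)` (the eigenspace for 1) and subspaces `U_1, …, U_s`, each `f`-invariant of dimension `a ≥ 1` on which `f` acts irreducibly (no `f`-invariant subspaces other than 0 and `U_j`). Let `0 < m < dim V` and `ℓ = m mod a`. Then `f` leaves some `m`-dimensional subspace invariant if and only if `dim C_V(f) ≥ m`, or `a ≤ m` and `dim C_V(f) ≥ ℓ`. -/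
theorem result {F V : Type*} [Field F] [AddCommGroup V] [Module F V]
    [FiniteDimensional F V] (f : V →ₗ[F] V) (hf : Function.Bijective f) (hss : Module.End.IsSemisimple f)
    {s a : ℕ} (ha : 1 ≤ a) (U : Fin s → Submodule F V)
    (hUinv : ∀ j, (U j).map f ≤ U j) (hUdim : ∀ j, Module.finrank F ↥(U j) = a)
    (hUirr : ∀ j, ∀ W : Submodule F V, W ≤ U j → W.map f ≤ W → W = ⊥ ∨ W = U j)
    (hdec : DirectSum.IsInternal (fun o : Option (Fin s) => o.elim (Module.End.eigenspace f 1) U))
    (m : ℕ) (hm : 0 < m) (hmV : m < Module.finrank F V) :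
    (∃ W : Submodule F V, Module.finrank F ↥W = m ∧ W.map f ≤ W) ↔
    (m ≤ Module.finrank F ↥(Module.End.eigenspace f 1) ∨
      (a ≤ m ∧ m % a ≤ Module.finrank F ↥(Module.End.eigenspace f 1))) := by
  classical
  set E := Module.End.eigenspace f 1 with hE
  have hind := hdec.submodule_iSupIndep
  have htop := hdec.submodule_iSup_eq_top
  -- invariance of subspaces of E
  have hEinv : ∀ E' : Submodule F V, E' ≤ E → E'.map f ≤ E' := by
    intro E' hE'
    rintro _ ⟨x, hx, rfl⟩
    have : f x = x := by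
      have := hE' hx
      rw [hE, Module.End.mem_eigenspace_iff] at this
      simpa using this
    rw [this]; exact hx
  -- disjointness
  have hdisj : ∀ (S : Finset (Fin s)) (j : Fin s), j ∉ S →
      Disjoint (E ⊔ ⨆ i ∈ S, U i) (U j) := by
    intro S j hj
    have h := (hind (some j)).symm
    refine h.mono_left ?_
    refine sup_le ?_ (iSup₂_le fun i hi => ?_)
    · exact le_iSup₂_of_le none (by simp) le_rfl
    · exact le_iSup₂_of_le (some i) (by intro h; rw [Option.some.injEq] at h; exact hj (h ▸ hi)) le_rfl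
  have hTinv : ∀ (S : Finset (Fin s)) (E' : Submodule F V), E' ≤ E →
      (E' ⊔ ⨆ i ∈ S, U i).map f ≤ E' ⊔ ⨆ i ∈ S, U i := by
    intro S E' hE'
    rw [Submodule.map_sup]
    refine sup_le_sup (hEinv E' hE') ?_
    simp only [Submodule.map_iSup]
    exact iSup₂_mono fun i _ => hUinv i
  -- dimension formula
  have hdim : ∀ (S : Finset (Fin s)) (E' : Submodule F V), E' ≤ E →
      Module.finrank F ↥(E' ⊔ ⨆ i ∈ S, U i) = Module.finrank F E' + a * S.card := by
    intro S E' hE'
    induction S using Finset.induction_on with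
    | empty =>
      have h0 : E' ⊔ ⨆ i ∈ (∅ : Finset (Fin s)), U i = E' := by simp
      rw [h0]; simp
    | insert j S hj ih =>
      rw [Finset.iSup_insert, sup_left_comm, sup_comm]
      have hd : Disjoint (E' ⊔ ⨆ i ∈ S, U i) (U j) :=
        (hdisj S j hj).mono_left (sup_le_sup_right hE' _)
      have e := Submodule.finrank_sup_add_finrank_inf_eq (E' ⊔ ⨆ i ∈ S, U i) (U j)
      rw [hd.eq_bot, finrank_bot, add_zero, ih, hUdim] at e
      rw [e, Finset.card_insert_of_notMem hj]
      ring
  have htop' : E ⊔ ⨆ i ∈ (Finset.univ : Finset (Fin s)), U i = ⊤ := by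
    rw [← htop, iSup_option]
    simp
  have hV : Module.finrank F V = Module.finrank F E + a * s := by
    have := hdim Finset.univ E le_rfl
    rw [htop', finrank_top] at this
    simpa using this
  constructor
  · rintro ⟨W, hWm, hWinv⟩
    -- key: every invariant W ≤ T_S has finrank = finrank (W ⊓ E) + a * k
    have key : ∀ (S : Finset (Fin s)) (W : Submodule F V), W.map f ≤ W →
        W ≤ E ⊔ ⨆ i ∈ S, U i → ∃ k, Module.finrank F W = Module.finrank F ↥(W ⊓ E) + a * k := by
      intro S
      induction S using Finset.induction_on with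
      | empty =>
        intro W _ hW
        refine ⟨0, ?_⟩
        have : W ⊓ E = W := inf_eq_left.mpr (by simpa using hW)
        rw [this]; simp
      | insert j S hj ih =>
        intro W hWinv hW
        rw [Finset.iSup_insert, sup_left_comm, sup_comm] at hW
        have hWT : (W ⊓ (E ⊔ ⨆ i ∈ S, U i)).map f ≤ W ⊓ (E ⊔ ⨆ i ∈ S, U i) :=
          le_trans (Submodule.map_inf_le f) (inf_le_inf hWinv (hTinv S E le_rfl))
        obtain ⟨k, hk⟩ := ih (W ⊓ (E ⊔ ⨆ i ∈ S, U i)) hWT inf_le_right
        have hWE : W ⊓ (E ⊔ ⨆ i ∈ S, U i) ⊓ E = W ⊓ E := by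
          rw [inf_assoc, inf_eq_right.mpr (le_sup_left : E ≤ E ⊔ ⨆ i ∈ S, U i)]
        rw [hWE] at hk
        rcases step f (E ⊔ ⨆ i ∈ S, U i) (U j) W (hdisj S j hj) (hTinv S E le_rfl) (hUinv j) hWinv
          (hUdim j) (hUirr j) hW with h | h
        · exact ⟨k, by rw [h, hk]⟩
        · exact ⟨k + 1, by rw [h, hk]; ring⟩
    obtain ⟨k, hk⟩ := key Finset.univ W hWinv (by rw [htop']; exact le_top)
    have hle : Module.finrank F ↥(W ⊓ E) ≤ Module.finrank F E :=
      Submodule.finrank_mono inf_le_right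
    rw [hWm] at hk
    rcases Nat.eq_zero_or_pos k with hk0 | hk0
    · left; subst hk0; omega
    · right
      refine ⟨?_, ?_⟩
      · have : a ≤ a * k := Nat.le_mul_of_pos_right a hk0
        omega
      · rw [hk, Nat.add_mul_mod_self_left]
        exact (Nat.mod_le _ _).trans hle
  · intro h
    -- choose k' and l
    obtain ⟨k, l, hkl, hks, hle⟩ : ∃ k l : ℕ, m = l + a * k ∧ k ≤ s ∧ l ≤ Module.finrank F E := by
      rcases h with h | ⟨h1, h2⟩
      · exact ⟨0, m, by simp, Nat.zero_le _, h⟩
      · by_cases hks : m / a ≤ s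
        · exact ⟨m / a, m % a, by rw [add_comm]; exact (Nat.div_add_mod m a).symm, hks, h2⟩
        · refine ⟨s, m - a * s, ?_, le_rfl, ?_⟩
          · have : a * s ≤ m := by
              have h3 : a * s ≤ a * (m / a) := Nat.mul_le_mul_left a (by omega)
              have h4 : a * (m / a) ≤ m := Nat.mul_div_le m a
              omega
            omega
          · omega
    obtain ⟨S, hS⟩ : ∃ S : Finset (Fin s), S.card = k := by
      obtain ⟨S, _, hS⟩ := Finset.exists_subset_card_eq (s := (Finset.univ : Finset (Fin s))) (n := k) (by simpa using hks)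
      exact ⟨S, hS⟩
    obtain ⟨E', hE', hE'l⟩ := exists_sub_finrank E l hle
    refine ⟨E' ⊔ ⨆ i ∈ S, U i, ?_, hTinv S E' hE'⟩
    rw [hdim S E' hE', hE'l, hS, hkl]

end Cfsg.Agent.S5952
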