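import Cfsg.Statements.S5953
import Mathlib
import Cfsg.Agent.Lib.Helper40.TSemi

set_option autoImplicit false
open scoped MatrixGroups
open Cfsg

namespace Cfsg.Agent.S5953

/-- Elements of prime order of PSU_n(q) with no fixed totally isotropic `m`-space. Here `T = PSU_n(q)` (`n ≥ 3`, `(n, q) ≠ (3, 2)`), realised through the matrices of determinant 1 over the field `F` with `q²` elements preserving the Hermitian form `h(u, v) = Σ u_i v_i^q`; an element of `T` of prime order `r` is such a matrix `x` with `x^r` scalar and `x` not scalar. For `r ≠ p` let `i` be the multiplicative order of `q` modulo `r`, `b = i/2` for `i` even and `b = i` for `i` odd, `c = i, i/2, 2i` according as `i ≡ 0, 2 (mod 4)` or `i` odd, and write `k = n mod c`, `ℓ = m mod b`, `ℓ' = m mod c`, `n' = ⌊n/b⌋`, `m' = ⌊m/b⌋`, `s = (r−1)/b`; `(a)_r` is the `r`-part of `a`. Let `1 ≤ m ≤ n/2` and let `r` be a prime dividing the number of totally isotropic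 `m`-spaces. Then every element of `T` of order `r` fixes a totally isotropic `m`-space if and only if either (i) `r = 2`, `p ≠ 2`, and (`m < n/2` or `(q+1)_2 ≤ (n)_2`); or (ii) `r ≠ p`, `r > 2`, `b ≤ m`, `k ≥ 2ℓ`, and either `i ≢ 2 (mod 4)`, or `i ≡ 2 (mod 4)`, `n' − 2m' ≥ s` and (`i > 2`, or `i = 2` and (`r ∣ m` or `(q+1)_r ≥ (n)_r`)). -/
theorem result {F : Type*} [Field F] [Fintype F] {p : ℕ} [Fact p.Prime] [CharP F p] {q : ℕ} (hq : Fintype.card F = q ^ 2)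
    (n m : ℕ) (hn : 3 ≤ n) (hT : (n, q) ≠ (3, 2)) (hm : 1 ≤ m) (hmn : 2 * m ≤ n)
    (r : ℕ) [Fact r.Prime]
    (hrΩ : r ∣ Nat.card {W : Submodule F (Fin n → F) // Module.finrank F ↥W = m ∧ (∀ u ∈ W, ∀ v ∈ W, Cfsg.hermForm n F q u v = 0)})
    (i b c : ℕ) (hi : i = orderOf (q : ZMod r)) (hb : b = if Even i then i / 2 else i)
    (hc : c = if i % 4 = 0 then i else if i % 4 = 2 then i / 2 else 2 * i) :
    (∀ x : Matrix.SpecialLinearGroup (Fin n) F, x ∈ Cfsg.SU n F q →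
      (∃ z : F, ((x ^ r : Matrix.SpecialLinearGroup (Fin n) F) : Matrix (Fin n) (Fin n) F) = z • (1 : Matrix (Fin n) (Fin n) F)) →
      (∀ z : F, (x : Matrix (Fin n) (Fin n) F) ≠ z • (1 : Matrix (Fin n) (Fin n) F)) →
      ∃ W : Submodule F (Fin n → F), Module.finrank F ↥W = m ∧ (∀ u ∈ W, ∀ v ∈ W, Cfsg.hermForm n F q u v = 0) ∧
        W.map (Matrix.toLin' (x : Matrix (Fin n) (Fin n) F)) ≤ W) ↔
    ((r = 2 ∧ p ≠ 2 ∧ (2 * m < n ∨ padicValNat 2 (q + 1) ≤ padicValNat 2 n)) ∨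
     (r ≠ p ∧ 2 < r ∧ b ≤ m ∧ 2 * (m % b) ≤ n % c ∧
       (i % 4 ≠ 2 ∨ (i % 4 = 2 ∧ (r - 1) / b + 2 * (m / b) ≤ n / b ∧
         (2 < i ∨ (i = 2 ∧ (r ∣ m ∨ padicValNat r n ≤ padicValNat r (q + 1)))))))) := by
  classical
  obtain ⟨φ, hφq, hφ, l, hl⟩ := Cfsg.Agent.Lib.Helper40.HermAdj.exists_phi hq
  have hr : r.Prime := Fact.out
  have hcnt := Cfsg.Agent.Lib.Helper40.TCount.exists_dvd_of_dvd_card_ti hq n m r hr hrΩ
  have hTI : ∀ W : Submodule F (Fin n → F),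
      (∀ u ∈ W, ∀ v ∈ W, Cfsg.hermForm n F q u v = 0) ↔
        Cfsg.Agent.Lib.Helper40.TGeo.TI φ W := by
    intro W
    unfold Cfsg.Agent.Lib.Helper40.TGeo.TI
    simp only [Cfsg.Agent.Lib.Helper40.HCount.herm_hB φ hφq]
  rw [← Cfsg.Agent.Lib.Helper40.TSemi.main (p := p) hq φ hφq hφ l hl n m hn hm hmn r hcnt i b c
    hi hb hc]
  constructor
  · intro H A hA hdet hz hns
    obtain ⟨us, hus⟩ : ∃ us : Matrix.SpecialLinearGroup (Fin n) F,
        (us : Matrix (Fin n) (Fin n) F) = A := ⟨⟨A, hdet⟩, rfl⟩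
    have husm : us ∈ Cfsg.SU n F q := by
      have h1 : ∀ u v, Cfsg.hermForm n F q (Matrix.mulVec (us : Matrix (Fin n) (Fin n) F) u)
          (Matrix.mulVec (us : Matrix (Fin n) (Fin n) F) v) = Cfsg.hermForm n F q u v := by
        rw [Cfsg.Agent.Lib.Helper40.HermAdj.preserves_iff φ hφq, hus]
        exact hA
      exact h1
    obtain ⟨W, hW1, hW2, hW3⟩ := H us husm
      (by
        obtain ⟨z, hz⟩ := hz
        refine ⟨z, ?_⟩
        rw [Matrix.SpecialLinearGroup.coe_pow, hus]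
        exact hz)
      (by
        intro z
        rw [hus]
        exact hns z)
    rw [hus] at hW3
    exact ⟨W, hW1, (hTI W).mp hW2, hW3⟩
  · intro H x hx hz hns
    have hA : Cfsg.Agent.Lib.Helper40.HermAdj.adj φ (x : Matrix (Fin n) (Fin n) F) *
        (x : Matrix (Fin n) (Fin n) F) = 1 :=
      (Cfsg.Agent.Lib.Helper40.HermAdj.preserves_iff φ hφq _).mp hx
    obtain ⟨W, hW1, hW2, hW3⟩ := H (x : Matrix (Fin n) (Fin n) F) hA x.2
      (by
        obtain ⟨z, hz⟩ := hz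
        refine ⟨z, ?_⟩
        rw [← Matrix.SpecialLinearGroup.coe_pow]
        exact hz)
      hns
    exact ⟨W, hW1, (hTI W).mpr hW2, hW3⟩

end Cfsg.Agent.S5953
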