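import Cfsg.Statements.S5954
import Mathlib
import Cfsg.Agent.Lib.Helper40.HMain

set_option autoImplicit false
open scoped MatrixGroups
open Cfsg

namespace Cfsg.Agent.S5954

/-- Elements of prime order of PSU_n(q) with no fixed nondegenerate `m`-space. Here `T = PSU_n(q)` (`n ≥ 3`, `(n, q) ≠ (3, 2)`), realised through the matrices of determinant 1 over the field `F` with `q²` elements preserving the Hermitian form `h(u, v) = Σ u_i v_i^q`; an element of `T` of prime order `r` is such a matrix `x` with `x^r` scalar and `x` not scalar. For `r ≠ p` let `i` be the multiplicative order of `q` modulo `r`, `b = i/2` for `i` even and `b = i` for `i` odd, `c = i, i/2, 2i` according as `i ≡ 0, 2 (mod 4)` or `i` odd, and write `k = n mod c`, `ℓ = m mod b`, `ℓ' = m mod c`, `n' = ⌊n/b⌋`, `m' = ⌊m/b⌋`, `s = (r−1)/b`; `(a)_r` is the `r`-part of `a`. Let `1 ≤ m < n/2` and let `r` be a prime dividing the number of nondegenerate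 `m`-spaces. Then every element of `T` of order `r` fixes a nondegenerate `m`-space if and only if one of: (i) `r = p > 2` and every partition of `n` into parts of size at most `p` contains (as a sub-multiset) a partition of `m`; (ii) `r = p = 2` and (`n` is odd or `m` is even); (iii) `r = 2 ≠ p` and (`n` is odd, or `m` is even, or `(q+1)_2 ≥ (n)_2` and `q ≡ 3 (mod 4)`); (iv) `r ≠ p`, `r > 2`, and either `i ≠ 2`, `c ≤ m` and `k ≥ ℓ'`, or `i = 2` and (`r ∣ m` or `(q+1)_r ≥ (n)_r`). -/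
theorem result {F : Type*} [Field F] [Fintype F] {p : ℕ} [Fact p.Prime] [CharP F p] {q : ℕ} (hq : Fintype.card F = q ^ 2)
    (n m : ℕ) (hn : 3 ≤ n) (hT : (n, q) ≠ (3, 2)) (hm : 1 ≤ m) (hmn : 2 * m < n)
    (r : ℕ) [Fact r.Prime]
    (hrΩ : r ∣ Nat.card {W : Submodule F (Fin n → F) // Module.finrank F ↥W = m ∧ (∀ u ∈ W, u ≠ 0 → ∃ v ∈ W, Cfsg.hermForm n F q u v ≠ 0)})
    (i b c : ℕ) (hi : i = orderOf (q : ZMod r)) (hb : b = if Even i then i / 2 else i)
    (hc : c = if i % 4 = 0 then i else if i % 4 = 2 then i / 2 else 2 * i) :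
    (∀ x : Matrix.SpecialLinearGroup (Fin n) F, x ∈ Cfsg.SU n F q →
      (∃ z : F, ((x ^ r : Matrix.SpecialLinearGroup (Fin n) F) : Matrix (Fin n) (Fin n) F) = z • (1 : Matrix (Fin n) (Fin n) F)) →
      (∀ z : F, (x : Matrix (Fin n) (Fin n) F) ≠ z • (1 : Matrix (Fin n) (Fin n) F)) →
      ∃ W : Submodule F (Fin n → F), Module.finrank F ↥W = m ∧ (∀ u ∈ W, u ≠ 0 → ∃ v ∈ W, Cfsg.hermForm n F q u v ≠ 0) ∧
        W.map (Matrix.toLin' (x : Matrix (Fin n) (Fin n) F)) ≤ W) ↔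
    ((r = p ∧ 2 < p ∧ (∀ μ : Multiset ℕ, (∀ a ∈ μ, 0 < a ∧ a ≤ p) → μ.sum = n → ∃ ν : Multiset ℕ, ν ≤ μ ∧ ν.sum = m)) ∨
     (r = p ∧ p = 2 ∧ (Odd n ∨ Even m)) ∨
     (r = 2 ∧ p ≠ 2 ∧ (Odd n ∨ Even m ∨ (padicValNat 2 n ≤ padicValNat 2 (q + 1) ∧ q % 4 = 3))) ∨
     (r ≠ p ∧ 2 < r ∧ ((i ≠ 2 ∧ c ≤ m ∧ m % c ≤ n % c) ∨ (i = 2 ∧ (r ∣ m ∨ padicValNat r n ≤ padicValNat r (q + 1)))))) := by
  classical
  obtain ⟨φ, hφq, hφ, l, hl⟩ := Cfsg.Agent.Lib.Helper40.HermAdj.exists_phi hq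
  have hr : r.Prime := Fact.out
  have hcnt := Cfsg.Agent.Lib.Helper40.HCount.exists_dvd_of_dvd_card_nd hq n m r hr hrΩ
  have hND : ∀ W : Submodule F (Fin n → F),
      (∀ u ∈ W, u ≠ 0 → ∃ v ∈ W, Cfsg.hermForm n F q u v ≠ 0) ↔
        Cfsg.Agent.Lib.Helper40.HGeo.ND φ W := by
    intro W
    unfold Cfsg.Agent.Lib.Helper40.HGeo.ND
    simp only [Cfsg.Agent.Lib.Helper40.HCount.herm_hB φ hφq]
  rw [← Cfsg.Agent.Lib.Helper40.HMain.main (p := p) hq φ hφq hφ l hl n m hn hmn r hcnt i c hi hc]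
  constructor
  · intro H A hA hdet hz hns
    obtain ⟨us, hus⟩ : ∃ us : Matrix.SpecialLinearGroup (Fin n) F,
        (us : Matrix (Fin n) (Fin n) F) = A := ⟨⟨A, hdet⟩, rfl⟩
    have husm : us ∈ Cfsg.SU n F q := by
      have h1 : ∀ u v, Cfsg.hermForm n F q (Matrix.mulVec (us : Matrix (Fin n) (Fin n) F) u)
          (Matrix.mulVec (us : Matrix (Fin n) (Fin n) F) v) = Cfsg.hermForm n F q u v := by
        rw [Cfsg.Agent.Lib.Helper40.HermAdj.preserves_iff φ hφq, hus]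
        exact hA
      exact h1
    obtain ⟨W, hW1, hW2, hW3⟩ := H us husm
      (by
        obtain ⟨z, hz⟩ := hz
        refine ⟨z, ?_⟩
        rw [Matrix.SpecialLinearGroup.coe_pow, hus]
        exact hz)
      (by
        intro z
        rw [hus]
        exact hns z)
    rw [hus] at hW3
    exact ⟨W, hW1, (hND W).mp hW2, hW3⟩
  · intro H x hx hz hns
    have hA : Cfsg.Agent.Lib.Helper40.HermAdj.adj φ (x : Matrix (Fin n) (Fin n) F) *
        (x : Matrix (Fin n) (Fin n) F) = 1 :=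
      (Cfsg.Agent.Lib.Helper40.HermAdj.preserves_iff φ hφq _).mp hx
    obtain ⟨W, hW1, hW2, hW3⟩ := H (x : Matrix (Fin n) (Fin n) F) hA x.2
      (by
        obtain ⟨z, hz⟩ := hz
        refine ⟨z, ?_⟩
        rw [← Matrix.SpecialLinearGroup.coe_pow]
        exact hz)
      hns
    exact ⟨W, hW1, (hND W).mpr hW2, hW3⟩

end Cfsg.Agent.S5954
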