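import Cfsg.Statements.S5955
import Mathlib
import Cfsg.Agent.Lib.Helper40.TICount
import Cfsg.Agent.Lib.Helper40.SpElt
import Cfsg.Agent.Lib.Helper40.SpPoly
import Cfsg.Agent.Lib.Helper40.CycloVal
import Cfsg.Agent.Lib.Helper40.PrimeFix

set_option autoImplicit false
open scoped MatrixGroups
open Cfsg

namespace Cfsg.Agent.S5955

/-- Elements of prime order of PSp_n(q) with no fixed totally isotropic `m`-space. Here `T = PSp_n(q)` with `n = 2d ≥ 4`, `(n, q) ≠ (4, 2)`, realised through the symplectic matrices over the field `F` with `q` elements (preserving the standard alternating form); an element of `T` of prime order `r` is such a matrix `x` with `x^r` scalar and `x` not scalar. For `r ≠ p` let `i` be the multiplicative order of `q` modulo `r`, `c = i` for `i` even and `c = 2i` for `i` odd, and write `k = n mod c`, `ℓ = m mod i`, `ℓ' = m mod c`, `n' = ⌊n/i⌋`, `m' = ⌊m/i⌋`, `t = (r−1)/i`. Let `1 ≤ m ≤ n/2` and let `r` be a prime dividing the number of totally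 isotropic `m`-spaces. Then every element of `T` of order `r` fixes a totally isotropic `m`-space if and only if either (i) `r = 2 ≠ p` and (`m` is even or `q ≡ 1 (mod 4)`); or (ii) `r ≠ p`, `r > 2`, `i ≤ m`, `k ≥ 2ℓ`, and (`i` is odd or `n' − 2m' ≥ t`). -/
theorem result {F : Type*} [Field F] [Fintype F] {p : ℕ} [Fact p.Prime] [CharP F p] {q : ℕ} (hq : Fintype.card F = q)
    (d m : ℕ) (hd : 2 ≤ d) (hT : (d, q) ≠ (2, 2)) (hm : 1 ≤ m) (hmd : m ≤ d)
    (r : ℕ) [Fact r.Prime]
    (hrΩ : r ∣ Nat.card {W : Submodule F (Fin d ⊕ Fin d → F) // Module.finrank F ↥W = m ∧ (∀ u ∈ W, ∀ v ∈ W, Cfsg.sympForm d F u v = 0)})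
    (i c : ℕ) (hi : i = orderOf (q : ZMod r)) (hc : c = if Even i then i else 2 * i) :
    (∀ x : ↥(Matrix.symplecticGroup (Fin d) F),
      (∃ z : F, ((x ^ r : ↥(Matrix.symplecticGroup (Fin d) F)) : Matrix (Fin d ⊕ Fin d) (Fin d ⊕ Fin d) F) = z • (1 : Matrix (Fin d ⊕ Fin d) (Fin d ⊕ Fin d) F)) →
      (∀ z : F, (x : Matrix (Fin d ⊕ Fin d) (Fin d ⊕ Fin d) F) ≠ z • (1 : Matrix (Fin d ⊕ Fin d) (Fin d ⊕ Fin d) F)) →
      ∃ W : Submodule F (Fin d ⊕ Fin d → F), Module.finrank F ↥W = m ∧ (∀ u ∈ W, ∀ v ∈ W, Cfsg.sympForm d F u v = 0) ∧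
        W.map (Matrix.toLin' (x : Matrix (Fin d ⊕ Fin d) (Fin d ⊕ Fin d) F)) ≤ W) ↔
    ((r = 2 ∧ p ≠ 2 ∧ (Even m ∨ q % 4 = 1)) ∨
     (r ≠ p ∧ 2 < r ∧ i ≤ m ∧ 2 * (m % i) ≤ (2 * d) % c ∧ (Odd i ∨ (r - 1) / i + 2 * (m / i) ≤ (2 * d) / i))) := by
  classical
  subst hq
  have hpp : p.Prime := Fact.out
  have hr : r.Prime := Fact.out
  have hd1 : 1 ≤ d := by omega
  have hq1 : 1 ≤ Fintype.card F := Fintype.card_pos
  obtain ⟨j₀, hj₀, hdvd⟩ :=
    Cfsg.Agent.Lib.Helper40.TICount.exists_dvd_of_dvd_card_ti d m hmd r hr hrΩ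
  have hrq : ¬ r ∣ Fintype.card F := by
    intro h
    have h1 : r ∣ Fintype.card F ^ (2 * (d - j₀)) := dvd_pow h (by omega)
    have h2 : 1 ≤ Fintype.card F ^ (2 * (d - j₀)) := Nat.one_le_pow _ _ hq1
    have h3 : r ∣ 1 := by
      have h4 := Nat.dvd_sub h1 hdvd
      have h5 : Fintype.card F ^ (2 * (d - j₀)) - (Fintype.card F ^ (2 * (d - j₀)) - 1) = 1 := by
        omega
      rwa [h5] at h4
    exact hr.one_lt.ne' (Nat.dvd_one.mp h3)
  have hrp : r ≠ p := by
    intro h
    apply hrq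
    obtain ⟨k, hk1, hk⟩ := FiniteField.card F p
    rw [hk, h]
    exact dvd_pow_self p k.ne_zero
  have hidvd : i ∣ 2 * (d - j₀) := by
    rw [hi]
    exact (Cfsg.Agent.Lib.Helper40.CycloVal.dvd_pow_sub_one_iff (Fintype.card F) r hq1 _).mp hdvd
  have hipos : 0 < i := by
    rw [hi]
    exact Cfsg.Agent.Lib.Helper40.CycloVal.order_pos (Fintype.card F) r hrq
  by_cases hr2 : r = 2
  · subst hr2
    have hp2 : p ≠ 2 := fun h => hrp h.symm
    refine Iff.trans (Cfsg.Agent.Lib.Helper40.SpElt.lhs_iff_two hp2 hd1 m hmd) ?_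
    constructor
    · intro h
      left
      exact ⟨rfl, hp2, h⟩
    · rintro (⟨-, -, h⟩ | ⟨-, h, -⟩)
      · exact h
      · omega
  · have h2r : 2 < r := by
      have := hr.two_le
      omega
    obtain ⟨t, ht⟩ : ∃ t, t * i = r - 1 := by
      have h1 := Cfsg.Agent.Lib.Helper40.PrimeFix.order_dvd (F := F) (p := p) r hrp
      rw [← hi] at h1
      obtain ⟨t, ht⟩ := h1
      exact ⟨t, by rw [ht, mul_comm]⟩
    have htdiv : (r - 1) / i = t := by
      rw [← ht]
      exact Nat.mul_div_cancel _ hipos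
    obtain ⟨T, hTcard, hLT, hT, hTstar, hTs, hTdvd⟩ :=
      Cfsg.Agent.Lib.Helper40.SpElt.cyclo_star_facts (F := F) (p := p) r i t hr hr2 hrp hi ht
    refine Iff.trans (Cfsg.Agent.Lib.Helper40.SpElt.lhs_iff hd1 r hr hr2 hrp T hLT hTdvd m) ?_
    have htpos : 0 < t := by
      rcases Nat.eq_zero_or_pos t with h | h
      · rw [h, zero_mul] at ht
        omega
      · exact h
    have hTne : T.Nonempty := by
      rw [← Finset.card_pos, hTcard]
      exact htpos
    obtain ⟨P₀, hP₀⟩ := hTne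
    have hTi : ∀ P ∈ T, Irreducible P ∧ P.Monic := fun P hP => ⟨(hT P hP).1, (hT P hP).2.1⟩
    rw [htdiv]
    have hdj : 1 ≤ d - j₀ := by omega
    by_cases hie : Even i
    · have hc' : c = i := by rw [hc, if_pos hie]
      have hfix : ∀ P ∈ T, Cfsg.Agent.Lib.Helper40.SpTI.pstar P = P :=
        fun P hP => (hTstar P hP).mpr hie
      have hid : i ≤ 2 * d := by
        have := Nat.le_of_dvd (by omega) hidvd
        omega
      have hk2m : (2 * d) % i < 2 * m := by
        obtain ⟨s, hs⟩ := hidvd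
        have h1 : 2 * d = 2 * j₀ + i * s := by omega
        rw [h1, Nat.add_mul_mod_self_left]
        have := Nat.mod_le (2 * j₀) i
        omega
      constructor
      · intro H
        right
        have h1 := Cfsg.Agent.Lib.Helper40.SpPoly.crit_mod T i hT hLT d m i P₀ (hT P₀ hP₀).2.1
          (hfix P₀ hP₀) (Cfsg.Agent.Lib.Helper40.SpPoly.nf_single_sub T hTi P₀ hP₀)
          (hT P₀ hP₀).2.2.1 hipos (by omega) hie hid H
        have him : i ≤ m := by
          by_contra hlt
          push Not at hlt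
          rw [Nat.mod_eq_of_lt hlt] at h1
          omega
        have h2 := Cfsg.Agent.Lib.Helper40.SpPoly.crit_count T i hipos hT hLT hfix hie d m him hid
          ⟨P₀, hP₀⟩ H
        refine ⟨hrp, h2r, him, ?_, Or.inr ?_⟩
        · rw [hc']
          exact h1
        · rw [← hTcard]
          exact h2
      · rintro (⟨h, -⟩ | ⟨-, -, him, h1, h2⟩)
        · exact absurd h hr2
        · rw [hc'] at h1
          rcases h2 with h2 | h2
          · exact absurd hie (Nat.not_even_iff_odd.mpr h2)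
          · intro χ hχ
            exact Cfsg.Agent.Lib.Helper40.SpPoly.hasD_of_even T i hT hLT hfix d m h1
              (by rw [hTcard]; exact h2) χ hχ
    · have hio : Odd i := Nat.not_even_iff_odd.mp hie
      have hc' : c = 2 * i := by rw [hc, if_neg hie]
      have hfp : ∀ P ∈ T, Cfsg.Agent.Lib.Helper40.SpTI.pstar P ≠ P :=
        fun P hP h => hie ((hTstar P hP).mp h)
      have hidvd' : i ∣ d - j₀ :=
        Nat.Coprime.dvd_of_dvd_mul_left (Nat.Coprime.symm (Nat.coprime_two_left.mpr hio)) hidvd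
      have hid : 2 * i ≤ 2 * d := by
        have := Nat.le_of_dvd (by omega) hidvd'
        omega
      have hk2m : (2 * d) % (2 * i) < 2 * m := by
        obtain ⟨s, hs⟩ := hidvd'
        have h0 : 2 * i * s = 2 * (i * s) := by ring
        have h1 : 2 * d = 2 * j₀ + 2 * i * s := by omega
        rw [h1, Nat.add_mul_mod_self_left]
        have := Nat.mod_le (2 * j₀) (2 * i)
        omega
      constructor
      · intro H
        right
        have hP₀m := (hT P₀ hP₀).2.1
        have hP₀0 := (hT P₀ hP₀).2.2.2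
        have hsm : (Cfsg.Agent.Lib.Helper40.SpTI.pstar P₀).Monic :=
          Cfsg.Agent.Lib.Helper40.SpPoly.pstar_monic P₀ hP₀0
        have h1 := Cfsg.Agent.Lib.Helper40.SpPoly.crit_mod T i hT hLT d m (2 * i)
          (P₀ * Cfsg.Agent.Lib.Helper40.SpTI.pstar P₀) (hP₀m.mul hsm)
          (by rw [Cfsg.Agent.Lib.Helper40.SpPoly.pstar_mul,
            Cfsg.Agent.Lib.Helper40.SpPoly.pstar_pstar P₀ hP₀m hP₀0, mul_comm])
          (Cfsg.Agent.Lib.Helper40.SpPoly.nf_pair_sub T hTi P₀ _ hP₀ (hTs P₀ hP₀))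
          (by rw [hP₀m.natDegree_mul hsm, Cfsg.Agent.Lib.Helper40.SpPoly.pstar_natDegree P₀ hP₀0,
            (hT P₀ hP₀).2.2.1]; ring)
          (by omega) le_rfl (even_two_mul i) hid H
        have him : i ≤ m := by
          by_contra hlt
          push Not at hlt
          rw [Nat.mod_eq_of_lt hlt] at h1
          omega
        refine ⟨hrp, h2r, him, ?_, Or.inl hio⟩
        rw [hc']
        exact h1
      · rintro (⟨h, -⟩ | ⟨-, -, him, h1, -⟩)
        · exact absurd h hr2
        · rw [hc'] at h1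
          intro χ hχ
          exact Cfsg.Agent.Lib.Helper40.SpPoly.hasD_of_odd T i hT hLT hfp d m hmd h1 χ hχ

end Cfsg.Agent.S5955
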