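import Cfsg.Statements.S5956
import Mathlib
import Cfsg.Agent.Lib.Helper40.NDPeel
import Cfsg.Agent.Lib.Helper40.NDUnip
import Cfsg.Agent.Lib.Helper40.NDCount
import Cfsg.Agent.Lib.Helper40.NDSemi
import Cfsg.Agent.Lib.Helper40.CycloVal
import Cfsg.Agent.Lib.Helper40.PrimeFix

set_option autoImplicit false
open scoped MatrixGroups
open Cfsg

namespace Cfsg.Agent.S5956

/-- Elements of prime order of PSp_n(q) with no fixed nondegenerate `m`-space. Here `T = PSp_n(q)` with `n = 2d ≥ 4`, `(n, q) ≠ (4, 2)`, realised through the symplectic matrices over the field `F` with `q` elements (preserving the standard alternating form); an element of `T` of prime order `r` is such a matrix `x` with `x^r` scalar and `x` not scalar. For `r ≠ p` let `i` be the multiplicative order of `q` modulo `r`, `c = i` for `i` even and `c = 2i` for `i` odd, and write `k = n mod c`, `ℓ = m mod i`, `ℓ' = m mod c`, `n' = ⌊n/i⌋`, `m' = ⌊m/i⌋`, `t = (r−1)/i`. Let `m` be even with `2 ≤ m < n/2` and let `r` be a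 prime dividing the number of nondegenerate `m`-spaces. Then every element of `T` of order `r` fixes a nondegenerate `m`-space if and only if one of: (i) `r = p > 2` and every partition of `n` into parts of size at most `p` in which every odd part has even multiplicity contains (as a sub-multiset) a partition of `m` in which every odd part has even multiplicity; (ii) `r = p = 2` and (`n ≡ 2 (mod 4)` or `m ≡ 0 (mod 4)`); (iii) `r = 2 ≠ p`; (iv) `r ≠ p`, `r > 2`, `c ≤ m` and `k ≥ ℓ'`. -/
theorem result {F : Type*} [Field F] [Fintype F] {p : ℕ} [Fact p.Prime] [CharP F p] {q : ℕ} (hq : Fintype.card F = q)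
    (d m : ℕ) (hd : 2 ≤ d) (hT : (d, q) ≠ (2, 2)) (hm : 2 ≤ m) (hme : Even m) (hmd : m < d)
    (r : ℕ) [Fact r.Prime]
    (hrΩ : r ∣ Nat.card {W : Submodule F (Fin d ⊕ Fin d → F) // Module.finrank F ↥W = m ∧ (∀ u ∈ W, u ≠ 0 → ∃ v ∈ W, Cfsg.sympForm d F u v ≠ 0)})
    (i c : ℕ) (hi : i = orderOf (q : ZMod r)) (hc : c = if Even i then i else 2 * i) :
    (∀ x : ↥(Matrix.symplecticGroup (Fin d) F),
      (∃ z : F, ((x ^ r : ↥(Matrix.symplecticGroup (Fin d) F)) : Matrix (Fin d ⊕ Fin d) (Fin d ⊕ Fin d) F) = z • (1 : Matrix (Fin d ⊕ Fin d) (Fin d ⊕ Fin d) F)) →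
      (∀ z : F, (x : Matrix (Fin d ⊕ Fin d) (Fin d ⊕ Fin d) F) ≠ z • (1 : Matrix (Fin d ⊕ Fin d) (Fin d ⊕ Fin d) F)) →
      ∃ W : Submodule F (Fin d ⊕ Fin d → F), Module.finrank F ↥W = m ∧ (∀ u ∈ W, u ≠ 0 → ∃ v ∈ W, Cfsg.sympForm d F u v ≠ 0) ∧
        W.map (Matrix.toLin' (x : Matrix (Fin d ⊕ Fin d) (Fin d ⊕ Fin d) F)) ≤ W) ↔
    ((r = p ∧ 2 < p ∧ (∀ μ : Multiset ℕ, (∀ a ∈ μ, 0 < a ∧ a ≤ p) → (∀ a : ℕ, Odd a → Even (μ.count a)) → μ.sum = 2 * d →
        ∃ ν : Multiset ℕ, ν ≤ μ ∧ ν.sum = m ∧ ∀ a : ℕ, Odd a → Even (ν.count a))) ∨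
     (r = p ∧ p = 2 ∧ ((2 * d) % 4 = 2 ∨ m % 4 = 0)) ∨
     (r = 2 ∧ p ≠ 2) ∨
     (r ≠ p ∧ 2 < r ∧ c ≤ m ∧ m % c ≤ (2 * d) % c)) := by
  classical
  subst hq
  have hpp : p.Prime := Fact.out
  have hr : r.Prime := Fact.out
  have hd1 : 1 ≤ d := by omega
  have hq1 : 1 ≤ Fintype.card F := Fintype.card_pos
  obtain ⟨m', hm'⟩ := hme
  have hme : Even m := ⟨m', hm'⟩
  have hm2 : m = 2 * m' := by omega
  have hm2d : m ≤ 2 * d := by omega
  by_cases hrp : r = p
  · by_cases hp2 : p = 2
    · -- r = p = 2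
      have hr2 : r = 2 := hrp.trans hp2
      have h2F : (2 : F) = 0 := by
        have h := CharP.cast_eq_zero F p
        rw [hp2] at h
        exact_mod_cast h
      constructor
      · intro H
        right
        left
        refine ⟨hrp, hp2, ?_⟩
        by_contra hcon
        push Not at hcon
        have hde : Even d := ⟨d / 2, by omega⟩
        obtain ⟨A, hAmem, hA2, hAns, hAbad⟩ :=
          Cfsg.Agent.Lib.Helper40.NDUnip.exists_bad_invol h2F d hd1 hde
        obtain ⟨W, hW1, hW2, hW3⟩ := H ⟨A, hAmem⟩ ⟨1, by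
          show A ^ r = (1 : F) • 1
          rw [hr2, hA2, one_smul]⟩ hAns
        have h4 := hAbad W hW2 hW3
        rw [hW1] at h4
        omega
      · rintro (⟨-, h, -⟩ | ⟨-, -, hcond⟩ | ⟨-, h⟩ | ⟨h, -⟩)
        · omega
        · intro x hxz _
          obtain ⟨z, hz⟩ := hxz
          have hz' : (x : Matrix (Fin d ⊕ Fin d) (Fin d ⊕ Fin d) F) ^ r = z • 1 := hz
          rw [hr2] at hz'
          exact Cfsg.Agent.Lib.Helper40.NDUnip.invol_fix' h2F hd1 m hm2d hme hcond _ x.2 z hz'
        · exact absurd hp2 h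
        · exact absurd hrp h
    · -- r = p odd
      have h2F : (2 : F) ≠ 0 := by
        have h : ((2 : ℕ) : F) ≠ 0 := by
          rw [Ne, CharP.cast_eq_zero_iff F p]
          intro h
          exact hp2 ((Nat.prime_dvd_prime_iff_eq hpp Nat.prime_two).mp h)
        exact_mod_cast h
      have h2p : 2 < p := by
        have := hpp.two_le
        omega
      constructor
      · intro H
        left
        refine ⟨hrp, h2p, ?_⟩
        intro μ hμ1 hμ2 hμsum
        refine Cfsg.Agent.Lib.Helper40.NDUnip.unip_core (F := F) (p := p) hd1 m hme hm2d ?_ μ hμ1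
          hμ2 hμsum
        intro A hAmem hAp hAns
        exact H ⟨A, hAmem⟩ ⟨1, by
          show A ^ r = (1 : F) • 1
          rw [hrp, hAp, one_smul]⟩ hAns
      · rintro (⟨-, -, hpart⟩ | ⟨-, h, -⟩ | ⟨h1, -⟩ | ⟨h, -⟩)
        · intro x hxz _
          obtain ⟨z, hz⟩ := hxz
          have hz' : (x : Matrix (Fin d ⊕ Fin d) (Fin d ⊕ Fin d) F) ^ r = z • 1 := hz
          rw [hrp] at hz'
          exact Cfsg.Agent.Lib.Helper40.NDUnip.unip_fix (p := p) h2F hd1 m hpart _ x.2 z hz'
        · exact absurd h hp2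
        · exact absurd (hrp.symm.trans h1) hp2
        · exact absurd hrp h
  · by_cases hr2 : r = 2
    · -- r = 2 ≠ p
      subst hr2
      have hp2 : p ≠ 2 := fun h => hrp h.symm
      constructor
      · intro _
        right
        right
        left
        exact ⟨rfl, hp2⟩
      · intro _ x hxz _
        exact Cfsg.Agent.Lib.Helper40.NDSemi.nd_two hp2 hd1 m hme hm2d x hxz
    · -- r odd, r ≠ p
      have h2r : 2 < r := by
        have := hr.two_le
        omega
      have hrq : ¬ r ∣ Fintype.card F := by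
        intro h
        obtain ⟨k, hk1, hk⟩ := FiniteField.card F p
        rw [hk] at h
        exact hrp ((Nat.prime_dvd_prime_iff_eq hr hpp).mp (hr.dvd_of_dvd_pow h))
      have hrΩ' : r ∣ Nat.card {W : Submodule F (Fin d ⊕ Fin d → F) //
          Module.finrank F ↥W = 2 * m' ∧
            (∀ u ∈ W, u ≠ 0 → ∃ v ∈ W, Cfsg.sympForm d F u v ≠ 0)} := by
        rw [← hm2]
        exact hrΩ
      obtain ⟨j₀, hj₀, hdvd⟩ :=
        Cfsg.Agent.Lib.Helper40.NDCount.exists_dvd_of_dvd_card_nd d m' r hr hrq hrΩ'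
      have hidvd : i ∣ 2 * d - 2 * j₀ := by
        rw [hi]
        exact (Cfsg.Agent.Lib.Helper40.CycloVal.dvd_pow_sub_one_iff (Fintype.card F) r hq1 _).mp
          hdvd
      have hipos : 0 < i := by
        rw [hi]
        exact Cfsg.Agent.Lib.Helper40.CycloVal.order_pos (Fintype.card F) r hrq
      obtain ⟨t, ht⟩ : ∃ t, t * i = r - 1 := by
        have h1 := Cfsg.Agent.Lib.Helper40.PrimeFix.order_dvd (F := F) (p := p) r hrp
        rw [← hi] at h1
        obtain ⟨t, ht⟩ := h1
        exact ⟨t, by rw [ht, mul_comm]⟩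
      obtain ⟨T, hTcard, hLT, hT, hTstar, hTs, hTdvd⟩ :=
        Cfsg.Agent.Lib.Helper40.SpElt.cyclo_star_facts (F := F) (p := p) r i t hr hr2 hrp hi ht
      have htpos : 0 < t := by
        rcases Nat.eq_zero_or_pos t with h | h
        · rw [h, zero_mul] at ht
          omega
        · exact h
      have hTne : T.Nonempty := by
        rw [← Finset.card_pos, hTcard]
        exact htpos
      have hcdvd : c ∣ 2 * d - 2 * j₀ := by
        by_cases hie : Even i
        · rw [hc, if_pos hie]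
          exact hidvd
        · rw [hc, if_neg hie]
          have hio : Odd i := Nat.not_even_iff_odd.mp hie
          have h1 : 2 * d - 2 * j₀ = 2 * (d - j₀) := by omega
          rw [h1] at hidvd ⊢
          have h2 : i ∣ d - j₀ :=
            Nat.Coprime.dvd_of_dvd_mul_left (Nat.Coprime.symm (Nat.coprime_two_left.mpr hio))
              hidvd
          exact Nat.mul_dvd_mul_left 2 h2
      have hc2d : c ≤ 2 * d := by
        have := Nat.le_of_dvd (by omega) hcdvd
        omega
      have hlt : (2 * d) % c < m := by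
        obtain ⟨s, hs⟩ := hcdvd
        have h1 : 2 * d = 2 * j₀ + c * s := by omega
        rw [h1, Nat.add_mul_mod_self_left]
        have := Nat.mod_le (2 * j₀) c
        omega
      refine Iff.trans (Cfsg.Agent.Lib.Helper40.NDSemi.nd_odd hd1 r hr hr2 hrp T i hipos hT hLT
        hTs hTstar hTdvd hTne c hc m hme hm2d hc2d hlt) ?_
      constructor
      · rintro ⟨h1, h2⟩
        right
        right
        right
        exact ⟨hrp, h2r, h1, h2⟩
      · rintro (⟨h, -⟩ | ⟨h, -⟩ | ⟨h, -⟩ | ⟨-, -, h1, h2⟩)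
        · exact absurd h hrp
        · exact absurd h hrp
        · exact absurd h hr2
        · exact ⟨h1, h2⟩

end Cfsg.Agent.S5956
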