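import Cfsg.Statements.S5960
import Cfsg.Agent.Lib.Helper37.SympDecomp
import Cfsg.Agent.Lib.Helper13.SympMat

set_option autoImplicit false
open scoped MatrixGroups
open Cfsg

namespace Cfsg.Agent.S5960

/-- Involutions of PSp_n(q) and imprimitive subgroups. Here `T = PSp_n(q)`, `n = 2d ≥ 4`, `(n, q) ≠ (4, 2)`, realised through the symplectic matrices over the field `F` with `q` elements and the standard alternating form; `n = a·t` with `a` even and `t ≥ 2`, and Ω is the (nonempty) set of orthogonal decompositions of `F^n` into `t` nondegenerate subspaces of dimension `a` (unordered; counted as ordered ones divided by `t!`), whose stabilizers are the imprimitive subgroups of type Sp_a(q) ≀ S_t (maximality is not assumed); an element of `T` of prime order `r` (a symplectic matrix `x` with `x^r` scalar, `x` not scalar) fixes a point of Ω when it permutes the summands of some such decomposition. If the number of such decompositions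 is even, then every involution of `T` stabilizes one of them (the action is 2-elusive). -/
theorem result {F : Type*} [Field F] [Fintype F] {p : ℕ} [Fact p.Prime] [CharP F p] {q : ℕ} (hq : Fintype.card F = q)
    (d : ℕ) (hd : 2 ≤ d) (hT : (d, q) ≠ (2, 2))
    (a t : ℕ) (hat : 2 * d = a * t) (ha : 2 ≤ a) (hae : Even a) (ht : 2 ≤ t) (hΩ : 2 ∣ Nat.card {D : Fin t → Submodule F (Fin d ⊕ Fin d → F) // (Cfsg.Geo.IsMDecomposition a D ∧ (∀ j, ∀ u ∈ D j, u ≠ 0 → ∃ v ∈ D j, Cfsg.sympForm d F u v ≠ 0) ∧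
          (∀ j j', j ≠ j' → ∀ u ∈ D j, ∀ v ∈ D j', Cfsg.sympForm d F u v = 0))} / Nat.factorial t)
    (x : ↥(Matrix.symplecticGroup (Fin d) F))
    (hx1 : ∃ z : F, ((x ^ 2 : ↥(Matrix.symplecticGroup (Fin d) F)) : Matrix (Fin d ⊕ Fin d) (Fin d ⊕ Fin d) F) = z • (1 : Matrix (Fin d ⊕ Fin d) (Fin d ⊕ Fin d) F))
    (hx2 : ∀ z : F, (x : Matrix (Fin d ⊕ Fin d) (Fin d ⊕ Fin d) F) ≠ z • (1 : Matrix (Fin d ⊕ Fin d) (Fin d ⊕ Fin d) F)) :
    ∃ D : Fin t → Submodule F (Fin d ⊕ Fin d → F), (Cfsg.Geo.IsMDecomposition a D ∧ (∀ j, ∀ u ∈ D j, u ≠ 0 → ∃ v ∈ D j, Cfsg.sympForm d F u v ≠ 0) ∧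
          (∀ j j', j ≠ j' → ∀ u ∈ D j, ∀ v ∈ D j', Cfsg.sympForm d F u v = 0)) ∧
        ∃ σ : Equiv.Perm (Fin t), ∀ j, (D j).map (Matrix.toLin' (x : Matrix (Fin d ⊕ Fin d) (Fin d ⊕ Fin d) F)) = D (σ j) := by
  classical
  obtain ⟨A, hA⟩ : ∃ A : Matrix (Fin d ⊕ Fin d) (Fin d ⊕ Fin d) F,
      A = (x : Matrix (Fin d ⊕ Fin d) (Fin d ⊕ Fin d) F) := ⟨_, rfl⟩
  have hAmem : A ∈ Matrix.symplecticGroup (Fin d) F := by rw [hA]; exact x.2
  have hiso := (Cfsg.Agent.Lib.Helper13.SympMat.mem_symp_iff d A).mp hAmem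
  obtain ⟨z, hz⟩ := hx1
  have hAA : A * A = z • (1 : Matrix (Fin d ⊕ Fin d) (Fin d ⊕ Fin d) F) := by
    rw [← hz, hA, pow_two]
    rfl
  have hAAv : ∀ v : Fin d ⊕ Fin d → F, A.mulVec (A.mulVec v) = z • v := by
    intro v
    rw [Matrix.mulVec_mulVec, hAA, Matrix.smul_mulVec, Matrix.one_mulVec]
  have hnd := Cfsg.Agent.Lib.Helper13.SympMat.form_nondeg (F := F) d
  have halt := Cfsg.Agent.Lib.Helper13.SympMat.form_alt (F := F) d
  have hndr : ∀ v : Fin d ⊕ Fin d → F, v ≠ 0 →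
      ∃ w, Cfsg.Agent.Lib.Helper13.SympMat.form d F w v ≠ 0 := by
    intro v hv
    by_contra hcon
    push Not at hcon
    exact hv (hnd.2 v hcon)
  have hz0 : z ≠ 0 := by
    obtain ⟨v₀, hv₀⟩ : ∃ v₀ : Fin d ⊕ Fin d → F, v₀ ≠ 0 := by
      refine ⟨Pi.single (Sum.inl ⟨0, by omega⟩) 1, ?_⟩
      intro h
      have := congrFun h (Sum.inl ⟨0, by omega⟩)
      rw [Pi.single_eq_same] at this
      exact one_ne_zero this
    obtain ⟨w, hw⟩ := hndr v₀ hv₀
    have h1 := (hiso (A.mulVec w) (A.mulVec v₀)).trans (hiso w v₀)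
    rw [hAAv, hAAv, map_smul, map_smul, LinearMap.smul_apply, smul_eq_mul, smul_eq_mul]
      at h1
    intro h
    rw [h, zero_mul] at h1
    exact hw h1.symm
  have hx' : ∀ u v, Cfsg.Agent.Lib.Helper13.SympMat.form d F (Matrix.toLin' A u)
      (Matrix.toLin' A v) = Cfsg.Agent.Lib.Helper13.SympMat.form d F u v := by
    intro u v
    rw [Matrix.toLin'_apply, Matrix.toLin'_apply]
    exact hiso u v
  have hxx : ∀ v : Fin d ⊕ Fin d → F, Matrix.toLin' A (Matrix.toLin' A v) = z • v := by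
    intro v
    rw [Matrix.toLin'_apply, Matrix.toLin'_apply, hAAv]
  obtain ⟨a', rfl⟩ := hae
  have hfr : Module.finrank F (Fin d ⊕ Fin d → F) = 2 * a' * t := by
    rw [Module.finrank_fintype_fun_eq_card, Fintype.card_sum, Fintype.card_fin]
    have : 2 * a' * t = (a' + a') * t := by ring
    omega
  obtain ⟨D, h1, h2, h3, h4, h5, σ, h6⟩ :=
    Cfsg.Agent.Lib.Helper37.SympDecomp.exists_orth_decomp
      (Cfsg.Agent.Lib.Helper13.SympMat.form d F) halt hndr (Matrix.toLin' A) hx' hz0 hxx a' t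
      (by omega) hfr
  rw [← hA]
  refine ⟨D, ⟨⟨ht, by omega, fun k => by rw [h1]; ring, h2, h3⟩, ?_, ?_⟩, σ, h6⟩
  · intro j u hu hu0
    obtain ⟨v, hv, hv'⟩ := h4 j u hu hu0
    refine ⟨v, hv, ?_⟩
    rw [← Cfsg.Agent.Lib.Helper13.SympMat.form_apply]
    exact hv'
  · intro j j' hjj' u hu v hv
    rw [← Cfsg.Agent.Lib.Helper13.SympMat.form_apply]
    exact h5 j j' hjj' u hu v hv

end Cfsg.Agent.S5960
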