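import Cfsg.Statements.S5961
import Mathlib
import Cfsg.Agent.Lib.Helper40.ODModel
import Cfsg.Agent.Lib.Helper40.ODCount
import Cfsg.Agent.Lib.Helper40.ODNec
import Cfsg.Agent.Lib.Helper5.SpCard
import Cfsg.Agent.Lib.Helper40.CycloVal
import Cfsg.Agent.Lib.Helper40.PrimeFix
import Cfsg.Agent.Lib.Helper40.SpElt

set_option autoImplicit false
open scoped MatrixGroups
open Cfsg

namespace Cfsg.Agent.S5961

/-- Elements of odd prime order of PSp_n(q) and imprimitive subgroups. Here `T = PSp_n(q)`, `n = 2d ≥ 4`, `(n, q) ≠ (4, 2)`, realised through the symplectic matrices over the field `F` with `q` elements and the standard alternating form; `n = a·t` with `a` even and `t ≥ 2`, and Ω is the (nonempty) set of orthogonal decompositions of `F^n` into `t` nondegenerate subspaces of dimension `a` (unordered; counted as ordered ones divided by `t!`), whose stabilizers are the imprimitive subgroups of type Sp_a(q) ≀ S_t (maximality is not assumed);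 an element of `T` of prime order `r` (a symplectic matrix `x` with `x^r` scalar, `x` not scalar) fixes a point of Ω when it permutes the summands of some such decomposition. Let `r ≠ p` be an odd prime dividing the number of such decompositions, let `i` be the multiplicative order of `q` modulo `r`, `c = i` if `i` is even and `c = 2i` if `i` is odd, and write `k = n mod c`, `ℓ = a mod c`. Then every element of `T` of order `r` stabilizes such a decomposition if and only if `c ≤ a` and `k = t·ℓ`. -/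
theorem result {F : Type*} [Field F] [Fintype F] {p : ℕ} [Fact p.Prime] [CharP F p] {q : ℕ} (hq : Fintype.card F = q)
    (d : ℕ) (hd : 2 ≤ d) (hT : (d, q) ≠ (2, 2))
    (a t : ℕ) (hat : 2 * d = a * t) (ha : 2 ≤ a) (hae : Even a) (ht : 2 ≤ t)
    (r : ℕ) [Fact r.Prime] (hr2 : r ≠ 2) (hrp : r ≠ p) (hΩ : r ∣ Nat.card {D : Fin t → Submodule F (Fin d ⊕ Fin d → F) // (Cfsg.Geo.IsMDecomposition a D ∧ (∀ j, ∀ u ∈ D j, u ≠ 0 → ∃ v ∈ D j, Cfsg.sympForm d F u v ≠ 0) ∧
          (∀ j j', j ≠ j' → ∀ u ∈ D j, ∀ v ∈ D j', Cfsg.sympForm d F u v = 0))} / Nat.factorial t)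
    (i c : ℕ) (hi : i = orderOf (q : ZMod r)) (hc : c = if Even i then i else 2 * i) :
    (∀ x : ↥(Matrix.symplecticGroup (Fin d) F),
      (∃ z : F, ((x ^ r : ↥(Matrix.symplecticGroup (Fin d) F)) : Matrix (Fin d ⊕ Fin d) (Fin d ⊕ Fin d) F) = z • (1 : Matrix (Fin d ⊕ Fin d) (Fin d ⊕ Fin d) F)) →
      (∀ z : F, (x : Matrix (Fin d ⊕ Fin d) (Fin d ⊕ Fin d) F) ≠ z • (1 : Matrix (Fin d ⊕ Fin d) (Fin d ⊕ Fin d) F)) →
      ∃ D : Fin t → Submodule F (Fin d ⊕ Fin d → F), (Cfsg.Geo.IsMDecomposition a D ∧ (∀ j, ∀ u ∈ D j, u ≠ 0 → ∃ v ∈ D j, Cfsg.sympForm d F u v ≠ 0) ∧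
          (∀ j j', j ≠ j' → ∀ u ∈ D j, ∀ v ∈ D j', Cfsg.sympForm d F u v = 0)) ∧
        ∃ σ : Equiv.Perm (Fin t), ∀ j, (D j).map (Matrix.toLin' (x : Matrix (Fin d ⊕ Fin d) (Fin d ⊕ Fin d) F)) = D (σ j)) ↔
    (c ≤ a ∧ (2 * d) % c = t * (a % c)) := by
  classical
  subst hq
  have hpp : p.Prime := Fact.out
  have hr : r.Prime := Fact.out
  have hd1 : 1 ≤ d := by omega
  have hq1 : 1 ≤ Fintype.card F := Fintype.card_pos
  obtain ⟨m, hm⟩ := hae
  have ha2 : a = 2 * m := by omega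
  subst ha2
  have hm1 : 1 ≤ m := by omega
  have hdt : d = m * t := by
    have h1 : 2 * d = 2 * (m * t) := by
      rw [hat]
      ring
    omega
  have hrF : ((r : ℕ) : F) ≠ 0 := by
    rw [Ne, CharP.cast_eq_zero_iff F p]
    intro h
    exact hrp ((Nat.prime_dvd_prime_iff_eq hpp hr).mp h).symm
  have hrq : ¬ r ∣ Fintype.card F := by
    intro h
    obtain ⟨k, hk1, hk⟩ := FiniteField.card F p
    rw [hk] at h
    exact hrp ((Nat.prime_dvd_prime_iff_eq hr hpp).mp (hr.dvd_of_dvd_pow h))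
  have hipos : 0 < i := by
    rw [hi]
    exact Cfsg.Agent.Lib.Helper40.CycloVal.order_pos (Fintype.card F) r hrq
  obtain ⟨t', ht'⟩ : ∃ t', t' * i = r - 1 := by
    have h1 := Cfsg.Agent.Lib.Helper40.PrimeFix.order_dvd (F := F) (p := p) r hrp
    rw [← hi] at h1
    obtain ⟨t', ht'⟩ := h1
    exact ⟨t', by rw [ht', mul_comm]⟩
  obtain ⟨T, hTcard, hLT, hT', hTstar, hTs, hTdvd⟩ :=
    Cfsg.Agent.Lib.Helper40.SpElt.cyclo_star_facts (F := F) (p := p) r i t' hr hr2 hrp hi ht'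
  have ht'pos : 0 < t' := by
    rcases Nat.eq_zero_or_pos t' with h | h
    · rw [h, zero_mul] at ht'
      have := hr.two_le
      omega
    · exact h
  have hTne : T.Nonempty := by
    rw [← Finset.card_pos, hTcard]
    exact ht'pos
  have hpred : ∀ D : Fin t → Submodule F (Fin d ⊕ Fin d → F),
      (Cfsg.Geo.IsMDecomposition (2 * m) D ∧
        (∀ j, ∀ u ∈ D j, u ≠ 0 → ∃ v ∈ D j, Cfsg.sympForm d F u v ≠ 0) ∧
        (∀ j j', j ≠ j' → ∀ u ∈ D j, ∀ v ∈ D j', Cfsg.sympForm d F u v = 0)) ↔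
      Cfsg.Agent.Lib.Helper40.ODModel.ODec (2 * m)
        (1 : Matrix (Fin d ⊕ Fin d) (Fin d ⊕ Fin d) F) D := by
    intro D
    constructor
    · rintro ⟨h1, h2, h3⟩
      refine ⟨h1.finrank_eq, h1.indep, h1.iSup_eq_top, h2, h3, ?_⟩
      intro j
      rw [Matrix.toLin'_one, Submodule.map_id]
    · rintro ⟨h1, h2, h3, h4, h5, -⟩
      exact ⟨⟨ht, by omega, h1, h2, h3⟩, h4, h5⟩
  have hcr : c ≤ r - 1 := by
    by_cases hie : Even i
    · rw [hc, if_pos hie]
      have h1 : i ∣ r - 1 := ⟨t', by rw [← ht', mul_comm]⟩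
      exact Nat.le_of_dvd (by have := hr.two_le; omega) h1
    · rw [hc, if_neg hie]
      have hrodd : Odd r := hr.odd_of_ne_two hr2
      have hev : Even (t' * i) := by
        rw [ht']
        obtain ⟨k, hk⟩ := hrodd
        exact ⟨k, by omega⟩
      have ht'e : Even t' := by
        rcases Nat.even_mul.mp hev with h | h
        · exact h
        · exact absurd h hie
      obtain ⟨s, hs⟩ := ht'e
      have h2 : 2 * i ≤ t' * i := Nat.mul_le_mul_right i (by omega)
      omega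
  have hc2d : c ≤ 2 * d := by
    have hΩ' : r ∣ Nat.card {D : Fin t → Submodule F (Fin d ⊕ Fin d → F) //
        Cfsg.Agent.Lib.Helper40.ODModel.ODec (2 * m)
          (1 : Matrix (Fin d ⊕ Fin d) (Fin d ⊕ Fin d) F) D} / Nat.factorial t := by
      rw [← Nat.card_congr (Equiv.subtypeEquivRight hpred)]
      exact hΩ
    have hsp := Cfsg.Agent.Lib.Helper40.ODCount.dvd_card_sp (F := F) d m t hm1 hdt r hΩ'
    rw [Cfsg.Agent.Lib.Helper5.SpCard.card_symplectic] at hsp
    rcases (Nat.Prime.dvd_mul hr).mp hsp with h | h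
    · exact absurd (hr.dvd_of_dvd_pow h) hrq
    · obtain ⟨j, hj, hdvd⟩ := (Prime.dvd_finsetProd_iff hr.prime _).mp h
      have hjd : j < d := Finset.mem_range.mp hj
      have hidvd : i ∣ 2 * (j + 1) := by
        rw [hi]
        exact (Cfsg.Agent.Lib.Helper40.CycloVal.dvd_pow_sub_one_iff (Fintype.card F) r hq1 _).mp
          hdvd
      have hcdvd : c ∣ 2 * (j + 1) := by
        by_cases hie : Even i
        · rw [hc, if_pos hie]
          exact hidvd
        · rw [hc, if_neg hie]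
          have hio : Odd i := Nat.not_even_iff_odd.mp hie
          have h2 : i ∣ j + 1 :=
            Nat.Coprime.dvd_of_dvd_mul_left (Nat.Coprime.symm (Nat.coprime_two_left.mpr hio))
              hidvd
          exact Nat.mul_dvd_mul_left 2 h2
      have h3 := Nat.le_of_dvd (by omega) hcdvd
      omega
  constructor
  · intro H
    have Hnec : ∀ x : Matrix (Fin d ⊕ Fin d) (Fin d ⊕ Fin d) F,
        x ∈ Matrix.symplecticGroup (Fin d) F → x ^ r = 1 → (∀ z : F, x ≠ z • 1) →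
        ∃ D : Fin t → Submodule F (Fin d ⊕ Fin d → F),
          Cfsg.Agent.Lib.Helper40.ODModel.ODec (2 * m)
            (1 : Matrix (Fin d ⊕ Fin d) (Fin d ⊕ Fin d) F) D ∧
          ∃ σ : Equiv.Perm (Fin t), ∀ j, (D j).map (Matrix.toLin' x) = D (σ j) := by
      intro x hx hxr hxs
      obtain ⟨D, hD, σ, hσ⟩ := H ⟨x, hx⟩ ⟨1, by
        show x ^ r = (1 : F) • 1
        rw [hxr, one_smul]⟩ hxs
      exact ⟨D, (hpred D).mp hD, σ, hσ⟩
    exact Cfsg.Agent.Lib.Helper40.ODNec.nec hd1 r hr hr2 hrp T i hipos hT' hLT hTs hTstar hTdvd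
      hTne c hc hcr m t hm1 hdt hc2d Hnec
  · rintro ⟨hca, hmod⟩ x hxz hxs
    obtain ⟨z, hz⟩ := hxz
    have hz' : (x : Matrix (Fin d ⊕ Fin d) (Fin d ⊕ Fin d) F) ^ r = z • 1 := hz
    have hz2 : z * z = 1 := by
      apply Cfsg.Agent.Lib.Helper40.SpElt.scalar_sq hd1 z
      rw [← hz]
      exact (x ^ r).2
    have hz0 : z ≠ 0 := by
      intro h0
      rw [h0, zero_mul] at hz2
      exact zero_ne_one hz2
    obtain ⟨y, hy⟩ : ∃ y : Matrix (Fin d ⊕ Fin d) (Fin d ⊕ Fin d) F,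
        y = z • (x : Matrix (Fin d ⊕ Fin d) (Fin d ⊕ Fin d) F) := ⟨_, rfl⟩
    have hymem : y ∈ Matrix.symplecticGroup (Fin d) F := by
      rw [SymplecticGroup.mem_iff, hy, Matrix.transpose_smul, Matrix.smul_mul,
        Matrix.smul_mul, Matrix.mul_smul, smul_smul, hz2, one_smul]
      exact SymplecticGroup.mem_iff.mp x.2
    obtain ⟨k, hk⟩ := hr.odd_of_ne_two hr2
    have hyr : y ^ r = 1 := by
      rw [hy, _root_.smul_pow, hz', smul_smul, ← pow_succ, hk]
      have h1 : z ^ (2 * k + 1 + 1) = 1 := by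
        rw [show 2 * k + 1 + 1 = 2 * (k + 1) by ring, pow_mul, pow_two, hz2, one_pow]
      rw [h1, one_smul]
    obtain ⟨D, hD⟩ := Cfsg.Agent.Lib.Helper40.ODModel.exists_odec (p := p) r hr hrp T i hipos hT'
      hLT hTstar hTdvd c hc m t d y hymem hyr hdt hmod
    obtain ⟨h1, h2, h3, h4, h5, h6⟩ := hD
    refine ⟨D, ⟨⟨ht, by omega, h1, h2, h3⟩, h4, h5⟩, 1, ?_⟩
    intro j
    rw [Equiv.Perm.coe_one, id_eq]
    apply Submodule.eq_of_le_of_finrank_eq
    · intro w hw
      obtain ⟨w', hw', rfl⟩ := Submodule.mem_map.mp hw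
      have h7 : Matrix.toLin' y w' ∈ D j := h6 j (Submodule.mem_map.mpr ⟨w', hw', rfl⟩)
      have h8 : Matrix.toLin' (x : Matrix (Fin d ⊕ Fin d) (Fin d ⊕ Fin d) F) w' =
          z⁻¹ • Matrix.toLin' y w' := by
        rw [hy, map_smul, LinearMap.smul_apply, smul_smul, inv_mul_cancel₀ hz0, one_smul]
      rw [h8]
      exact (D j).smul_mem _ h7
    · have hcoe : ((Cfsg.Agent.Lib.Helper13.SympMat.Φ d x :
          (Fin d ⊕ Fin d → F) ≃ₗ[F] (Fin d ⊕ Fin d → F)) :
          (Fin d ⊕ Fin d → F) →ₗ[F] (Fin d ⊕ Fin d → F)) =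
          Matrix.toLin' (x : Matrix (Fin d ⊕ Fin d) (Fin d ⊕ Fin d) F) := by
        apply LinearMap.ext
        intro v
        rw [LinearEquiv.coe_coe, Cfsg.Agent.Lib.Helper13.SympMat.Φ_apply, Matrix.toLin'_apply]
      rw [← hcoe, LinearEquiv.finrank_map_eq]

end Cfsg.Agent.S5961
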