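import Cfsg.Statements.S5962
import Cfsg.Agent.Lib.Helper37.SympInv
import Cfsg.Agent.Lib.Helper13.SympMat

set_option autoImplicit false
open scoped MatrixGroups
open Cfsg

namespace Cfsg.Agent.S5962

/-- Involutions of PSp_n(q), q odd, and the subgroups GL_{n/2}(q).2. Here `T = PSp_n(q)`, `n = 2d ≥ 4`, `q` odd, realised through the symplectic matrices over the field `F` with `q` elements; Ω is the set of unordered pairs `{U, W}` of complementary totally isotropic `d`-spaces (`F^n = U ⊕ W`), whose stabilizers are the subgroups of type GL_d(q).2 (maximal except in some small cases; maximality is not assumed); an element of `T` of prime order `r` (a symplectic matrix `x` with `x^r` scalar, `x` not scalar) fixes such a pair when it fixes or interchanges `U` and `W`. If the number of such pairs is even, every involution of `T` fixes one of them (the action is 2-elusive). -/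
theorem result {F : Type*} [Field F] [Fintype F] {p : ℕ} [Fact p.Prime] [CharP F p] {q : ℕ} (hq : Fintype.card F = q)
    (d : ℕ) (hd : 2 ≤ d) (hT : (d, q) ≠ (2, 2)) (hodd : Odd q)
    (hΩ : 2 ∣ Nat.card {P : Submodule F (Fin d ⊕ Fin d → F) × Submodule F (Fin d ⊕ Fin d → F) // IsCompl P.1 P.2 ∧ (∀ u ∈ P.1, ∀ v ∈ P.1, Cfsg.sympForm d F u v = 0) ∧ (∀ u ∈ P.2, ∀ v ∈ P.2, Cfsg.sympForm d F u v = 0)} / 2)
    (x : ↥(Matrix.symplecticGroup (Fin d) F))
    (hx1 : ∃ z : F, ((x ^ 2 : ↥(Matrix.symplecticGroup (Fin d) F)) : Matrix (Fin d ⊕ Fin d) (Fin d ⊕ Fin d) F) = z • (1 : Matrix (Fin d ⊕ Fin d) (Fin d ⊕ Fin d) F))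
    (hx2 : ∀ z : F, (x : Matrix (Fin d ⊕ Fin d) (Fin d ⊕ Fin d) F) ≠ z • (1 : Matrix (Fin d ⊕ Fin d) (Fin d ⊕ Fin d) F)) :
    ∃ U W : Submodule F (Fin d ⊕ Fin d → F), IsCompl U W ∧ (∀ u ∈ U, ∀ v ∈ U, Cfsg.sympForm d F u v = 0) ∧ (∀ u ∈ W, ∀ v ∈ W, Cfsg.sympForm d F u v = 0) ∧
        ((U.map (Matrix.toLin' (x : Matrix (Fin d ⊕ Fin d) (Fin d ⊕ Fin d) F)) = U ∧ W.map (Matrix.toLin' (x : Matrix (Fin d ⊕ Fin d) (Fin d ⊕ Fin d) F)) = W) ∨
         (U.map (Matrix.toLin' (x : Matrix (Fin d ⊕ Fin d) (Fin d ⊕ Fin d) F)) = W ∧ W.map (Matrix.toLin' (x : Matrix (Fin d ⊕ Fin d) (Fin d ⊕ Fin d) F)) = U)) := by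
  classical
  obtain ⟨A, hA⟩ : ∃ A : Matrix (Fin d ⊕ Fin d) (Fin d ⊕ Fin d) F,
      A = (x : Matrix (Fin d ⊕ Fin d) (Fin d ⊕ Fin d) F) := ⟨_, rfl⟩
  have hAmem : A ∈ Matrix.symplecticGroup (Fin d) F := by rw [hA]; exact x.2
  have hiso := (Cfsg.Agent.Lib.Helper13.SympMat.mem_symp_iff d A).mp hAmem
  obtain ⟨z, hz⟩ := hx1
  have hAA : A * A = z • (1 : Matrix (Fin d ⊕ Fin d) (Fin d ⊕ Fin d) F) := by
    rw [← hz, hA, pow_two]
    rfl
  have hAAv : ∀ v : Fin d ⊕ Fin d → F, A.mulVec (A.mulVec v) = z • v := by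
    intro v
    rw [Matrix.mulVec_mulVec, hAA, Matrix.smul_mulVec, Matrix.one_mulVec]
  -- characteristic not two
  have h2 : (2 : F) ≠ 0 := by
    intro h
    obtain ⟨k, hk⟩ := hodd
    have h1 := Nat.cast_card_eq_zero F
    rw [hq, hk] at h1
    push_cast at h1
    rw [h, zero_mul, zero_add] at h1
    exact one_ne_zero h1
  have hnd := Cfsg.Agent.Lib.Helper13.SympMat.form_nondeg (F := F) d
  have halt := Cfsg.Agent.Lib.Helper13.SympMat.form_alt (F := F) d
  have hndr : ∀ v : Fin d ⊕ Fin d → F, v ≠ 0 →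
      ∃ w, Cfsg.Agent.Lib.Helper13.SympMat.form d F w v ≠ 0 := by
    intro v hv
    by_contra hcon
    push Not at hcon
    exact hv (hnd.2 v hcon)
  -- `z = ±1`
  have hzz : z = 1 ∨ z = -1 := by
    obtain ⟨v₀, hv₀⟩ : ∃ v₀ : Fin d ⊕ Fin d → F, v₀ ≠ 0 := by
      refine ⟨Pi.single (Sum.inl ⟨0, by omega⟩) 1, ?_⟩
      intro h
      have := congrFun h (Sum.inl ⟨0, by omega⟩)
      rw [Pi.single_eq_same] at this
      exact one_ne_zero this
    obtain ⟨w, hw⟩ := hndr v₀ hv₀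
    have h1 := (hiso (A.mulVec w) (A.mulVec v₀)).trans (hiso w v₀)
    rw [hAAv, hAAv, map_smul, map_smul, LinearMap.smul_apply, smul_eq_mul, smul_eq_mul]
      at h1
    have h3 : (z - 1) * (z + 1) = 0 := by
      have : (z * z - 1) * Cfsg.Agent.Lib.Helper13.SympMat.form d F w v₀ = 0 := by
        linear_combination h1
      rcases mul_eq_zero.mp this with h | h
      · linear_combination h
      · exact absurd h hw
    rcases mul_eq_zero.mp h3 with h | h
    · left; linear_combination h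
    · right; linear_combination h
  have hx' : ∀ u v, Cfsg.Agent.Lib.Helper13.SympMat.form d F (Matrix.toLin' A u)
      (Matrix.toLin' A v) = Cfsg.Agent.Lib.Helper13.SympMat.form d F u v := by
    intro u v
    rw [Matrix.toLin'_apply, Matrix.toLin'_apply]
    exact hiso u v
  have hndT : ∀ v ∈ (⊤ : Submodule F (Fin d ⊕ Fin d → F)), v ≠ 0 →
      ∃ w ∈ (⊤ : Submodule F (Fin d ⊕ Fin d → F)),
        Cfsg.Agent.Lib.Helper13.SympMat.form d F w v ≠ 0 := by
    intro v _ hv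
    obtain ⟨w, hw⟩ := hndr v hv
    exact ⟨w, trivial, hw⟩
  have hz0 : z ≠ 0 := by
    rcases hzz with rfl | rfl
    · exact one_ne_zero
    · exact neg_ne_zero.mpr one_ne_zero
  -- from elementwise statements to images
  have hmap : ∀ U W : Submodule F (Fin d ⊕ Fin d → F), (∀ u ∈ U, Matrix.toLin' A u ∈ W) →
      (∀ w ∈ W, Matrix.toLin' A w ∈ U) → U.map (Matrix.toLin' A) = W := by
    intro U W h1 h2'
    apply le_antisymm
    · rintro _ ⟨u, hu, rfl⟩
      exact h1 u hu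
    · intro w hw
      refine ⟨z⁻¹ • Matrix.toLin' A w, U.smul_mem _ (h2' w hw), ?_⟩
      rw [map_smul, Matrix.toLin'_apply, Matrix.toLin'_apply, hAAv, smul_smul,
        inv_mul_cancel₀ hz0, one_smul]
  rw [← hA]
  rcases hzz with rfl | rfl
  · obtain ⟨U, W, hinf, hsup, hU, hW, hxU, hxW⟩ :=
      Cfsg.Agent.Lib.Helper37.SympInv.exists_pair_one h2
        (Cfsg.Agent.Lib.Helper13.SympMat.form d F) halt (Matrix.toLin' A) hx'
        (fun v => by rw [Matrix.toLin'_apply, Matrix.toLin'_apply, hAAv, one_smul])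
        _ ⊤ rfl (fun y _ => trivial) hndT
    refine ⟨U, W, IsCompl.of_eq hinf hsup, ?_, ?_, Or.inl ⟨hmap U U hxU hxU, hmap W W hxW hxW⟩⟩
    · intro u hu v hv
      rw [← Cfsg.Agent.Lib.Helper13.SympMat.form_apply]
      exact hU u hu v hv
    · intro u hu v hv
      rw [← Cfsg.Agent.Lib.Helper13.SympMat.form_apply]
      exact hW u hu v hv
  · obtain ⟨U, W, hinf, hsup, hU, hW, hxU, hxW⟩ :=
      Cfsg.Agent.Lib.Helper37.SympInv.exists_pair_neg h2
        (Cfsg.Agent.Lib.Helper13.SympMat.form d F) halt (Matrix.toLin' A) hx'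
        (fun v => by rw [Matrix.toLin'_apply, Matrix.toLin'_apply, hAAv, neg_one_smul])
        _ ⊤ rfl (fun y _ => trivial) hndT
    refine ⟨U, W, IsCompl.of_eq hinf hsup, ?_, ?_, Or.inr ⟨hmap U W hxU hxW, hmap W U hxW hxU⟩⟩
    · intro u hu v hv
      rw [← Cfsg.Agent.Lib.Helper13.SympMat.form_apply]
      exact hU u hu v hv
    · intro u hu v hv
      rw [← Cfsg.Agent.Lib.Helper13.SympMat.form_apply]
      exact hW u hu v hv

end Cfsg.Agent.S5962
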