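import Cfsg.Statements.S5966
import Cfsg.Agent.S5964
import Cfsg.Agent.Lib.Helper37.CubeUnip
import Cfsg.Agent.Lib.Helper37.PairDet
import Cfsg.Agent.Lib.Helper37.QuadRoot

set_option autoImplicit false
open scoped MatrixGroups
open Cfsg

namespace Cfsg.Agent.S5966

open Module Cfsg.Agent.Lib.Helper37.CubeUnip Cfsg.Agent.Lib.Helper37.PairDet

theorem two_ne_zero3 {F : Type*} [Field F] [CharP F 3] : (2 : F) ≠ 0 := by
  intro h2
  have h3 : (3 : F) = 0 := three_eq_zero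
  have : (1 : F) = 0 := by linear_combination h3 - h2
  exact one_ne_zero this

theorem sum_pow_mod_two (q₀ : ℕ) (hq₀ : q₀ % 2 = 1) (k : ℕ) :
    (∑ t ∈ Finset.range k, q₀ ^ t) % 2 = k % 2 := by
  induction k with
  | zero => simp
  | succ k ih =>
    rw [Finset.sum_range_succ, Nat.add_mod, ih, Nat.pow_mod, hq₀, one_pow]
    omega

/-- A subfield of odd index contains a non-square of the big field. -/
theorem exists_nonsq_subfield {F : Type*} [Field F] [Fintype F] (h2 : (2 : F) ≠ 0)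
    (F₀ : Subfield F) (q₀ k : ℕ) (hF₀ : Nat.card ↥F₀ = q₀) (hqk : Fintype.card F = q₀ ^ k)
    (hk : k % 2 = 1) : ∃ t₀ ∈ F₀, ∀ c : F, c * c ≠ t₀ := by
  classical
  have hchar := Cfsg.Agent.Lib.Helper37.NonsqPow.ringChar_ne_two h2
  have hodd := FiniteField.odd_card_of_char_ne_two hchar
  let _ : Fintype ↥F₀ := Fintype.ofFinite _
  have hq₀ : Fintype.card ↥F₀ = q₀ := by rw [← Nat.card_eq_fintype_card, hF₀]
  have h2' : (2 : F₀) ≠ 0 := by
    intro h
    apply h2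
    have h' : ((1 : F₀) + 1 : F₀) = 0 := by rw [one_add_one_eq_two]; exact h
    have := congrArg Subtype.val h'
    rw [← one_add_one_eq_two]
    exact this
  have hchar₀ := Cfsg.Agent.Lib.Helper37.NonsqPow.ringChar_ne_two h2'
  obtain ⟨t, ht⟩ := FiniteField.exists_nonsquare hchar₀
  have ht0 : t ≠ 0 := by
    rintro rfl
    exact ht ⟨0, by simp⟩
  have h1 : t ^ (Fintype.card ↥F₀ / 2) = -1 := by
    rcases FiniteField.pow_dichotomy hchar₀ ht0 with h | h
    · exact absurd ((FiniteField.isSquare_iff hchar₀ ht0).mpr h) ht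
    · exact h
  have h3 : (t : F) ^ (q₀ / 2) = -1 := by
    have := congrArg Subtype.val h1
    rw [hq₀] at this
    simpa using this
  have hq₀odd : q₀ % 2 = 1 := by
    rw [hqk] at hodd
    by_contra hne
    have he : q₀ % 2 = 0 := by omega
    have h4 : (q₀ ^ k) % 2 = 0 := by
      rw [Nat.pow_mod, he]
      have : k ≠ 0 := by omega
      simp [this]
    omega
  obtain ⟨S, hS⟩ : ∃ S, S = ∑ t ∈ Finset.range k, q₀ ^ t := ⟨_, rfl⟩
  have hSodd : S % 2 = 1 := by rw [hS, sum_pow_mod_two q₀ hq₀odd k, hk]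
  have hgeom := Cfsg.Agent.Lib.Helper37.SubfieldIndex.geom (q₀ - 1) k
  have hq₀1 : q₀ - 1 + 1 = q₀ := by omega
  rw [hq₀1, ← hS] at hgeom
  have h4 : Fintype.card F / 2 = (q₀ / 2) * S := by
    rw [hqk, ← hgeom]
    obtain ⟨w, hw⟩ : ∃ w, q₀ = 2 * w + 1 := ⟨q₀ / 2, by omega⟩
    rw [hw]
    have e1 : 2 * w + 1 - 1 = 2 * w := by omega
    have e2 : (2 * w + 1) / 2 = w := by omega
    have e3 : 2 * w * S + 1 = 2 * (w * S) + 1 := by ring
    rw [e1, e2, e3]
    omega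
  refine ⟨(t : F), t.2, ?_⟩
  intro c hc
  have hsq : IsSquare (t : F) := ⟨c, hc.symm⟩
  have ht0' : (t : F) ≠ 0 := fun h => ht0 (Subtype.ext h)
  rw [FiniteField.isSquare_iff hchar ht0', h4, pow_mul, h3,
    Odd.neg_one_pow (Nat.odd_iff.mpr hSodd)] at hsq
  apply h2
  linear_combination -hsq

/-- The subfield subgroup contains elements of every determinant in the subfield. -/
theorem exists_mem_det {F : Type*} [Field F] {n : ℕ} (hn : 0 < n) (F₀ : Subfield F) (t₀ : F)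
    (ht : t₀ ∈ F₀) (h0 : t₀ ≠ 0) :
    ∃ b ∈ Cfsg.Geo.subfieldSubgroup F₀ (1 : GL (Fin n) F),
      (b : Matrix (Fin n) (Fin n) F).det = t₀ := by
  classical
  obtain ⟨M, hM⟩ : ∃ M : Matrix (Fin n) (Fin n) F,
      M = Matrix.diagonal (fun i => if i = ⟨0, hn⟩ then t₀ else 1) := ⟨_, rfl⟩
  have hdet : M.det = t₀ := by
    rw [hM, Matrix.det_diagonal, Finset.prod_ite_eq' Finset.univ (⟨0, hn⟩ : Fin n) (fun _ => t₀)]
    simp
  have hMF : ∀ i j, M i j ∈ F₀ := by
    intro i j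
    rw [hM, Matrix.diagonal_apply]
    split_ifs
    · exact ht
    · exact one_mem _
    · exact zero_mem _
  obtain ⟨g₀, hg₀⟩ := exists_gl_of_det F₀ M hMF (by rw [hdet]; exact h0)
  refine ⟨Matrix.GeneralLinearGroup.map (F₀.subtype : F₀ →+* F) g₀, ?_, by rw [hg₀, hdet]⟩
  exact Cfsg.Agent.S5964.mem_B F₀ _ g₀ 1 one_ne_zero (by rw [one_smul])

/-- Solving the determinant condition by block scaling. -/
theorem det_solver {F : Type*} [Field F] [Fintype F] [CharP F 3] (F₀ : Subfield F)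
    (k q₀ n : ℕ) (hF₀ : Nat.card ↥F₀ = q₀) (hqk : Fintype.card F = q₀ ^ k) (hn : 0 < n)
    (hcond : Odd n ∨ (Even n ∧ k % 2 = 1))
    {ι : Type} [Fintype ι] (κ : ι → ℕ) (hpos : ∀ i, 0 < κ i) (hle : ∀ i, κ i ≤ 3)
    (hsum : ∑ i, κ i = n) (δ : F) :
    ∃ t₀ ∈ F₀, t₀ ≠ 0 ∧ ∃ (i₀ : ι) (a : F), δ = t₀ * a ^ (κ i₀) := by
  classical
  by_cases h1 : ∃ i₀, κ i₀ = 1
  · obtain ⟨i₀, hi₀⟩ := h1
    exact ⟨1, one_mem _, one_ne_zero, i₀, δ, by rw [hi₀, pow_one, one_mul]⟩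
  by_cases h3 : ∃ i₀, κ i₀ = 3
  · obtain ⟨i₀, hi₀⟩ := h3
    obtain ⟨a, ha⟩ := cube_surj δ
    exact ⟨1, one_mem _, one_ne_zero, i₀, a, by rw [hi₀, ha, one_mul]⟩
  push Not at h1 h3
  have h2 : ∀ i, κ i = 2 := by
    intro i
    have := hpos i
    have := hle i
    have := h1 i
    have := h3 i
    omega
  have hn2 : n = 2 * Fintype.card ι := by
    rw [← hsum, Finset.sum_congr rfl (fun i _ => h2 i)]
    simp [mul_comm]
  have hι : Nonempty ι := by
    by_contra hne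
    rw [not_nonempty_iff] at hne
    rw [Fintype.card_eq_zero] at hn2
    omega
  obtain ⟨i₀⟩ := hι
  have hk : k % 2 = 1 := by
    rcases hcond with h | h
    · rw [Nat.odd_iff] at h
      omega
    · exact h.2
  by_cases hsq : ∃ r : F, r * r = δ
  · obtain ⟨r, hr⟩ := hsq
    exact ⟨1, one_mem _, one_ne_zero, i₀, r, by rw [h2, one_mul, pow_two, hr]⟩
  · push Not at hsq
    have h2F := two_ne_zero3 (F := F)
    obtain ⟨t₀, ht₀, hns⟩ := exists_nonsq_subfield h2F F₀ q₀ k hF₀ hqk hk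
    obtain ⟨β, hβ⟩ := Cfsg.Agent.Lib.Helper37.QuadRoot.exists_ratio h2F t₀ δ hns hsq
    refine ⟨t₀, ht₀, ?_, i₀, β, ?_⟩
    · rintro rfl
      exact hns 0 (mul_zero 0)
    · rw [h2, ← hβ]
      ring

theorem cube_one_add {F : Type*} [Field F] [CharP F 3] {n : ℕ} (M : Matrix (Fin n) (Fin n) F)
    (hMM : M * M = 0) : (1 + M) ^ 3 = 1 := by
  have h3 : (3 : F) = 0 := three_eq_zero
  have e : (1 + M) ^ 3 = 1 + (M + M + M) + (M * M + M * M + M * M) + M * M * M := by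
    rw [pow_succ, pow_two]
    simp only [add_mul, mul_add, mul_one, one_mul]
    abel
  have hadd : M + M + M = (3 : F) • M := by
    rw [show (3 : F) = 1 + 1 + 1 by norm_num, add_smul, add_smul, one_smul]
  rw [e, hMM, hadd, h3]
  simp

/-- Sufficiency. -/
theorem conj_of_hyp {F : Type*} [Field F] [Fintype F] [CharP F 3] (n : ℕ) (hn : 2 ≤ n)
    (F₀ : Subfield F) (k q₀ : ℕ) (hF₀ : Nat.card ↥F₀ = q₀) (hqk : Fintype.card F = q₀ ^ k)
    (hcond : Odd n ∨ (Even n ∧ k % 2 = 1))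
    (x : Matrix.SpecialLinearGroup (Fin n) F) (z : F)
    (hz : ((x ^ 3 : Matrix.SpecialLinearGroup (Fin n) F) : Matrix (Fin n) (Fin n) F) =
      z • (1 : Matrix (Fin n) (Fin n) F)) :
    ∃ P : Matrix.SpecialLinearGroup (Fin n) F, P⁻¹ * x * P ∈
      ((Cfsg.Geo.subfieldSubgroup F₀ 1).comap (Matrix.SpecialLinearGroup.toGL :
        Matrix.SpecialLinearGroup (Fin n) F →* GL (Fin n) F)) := by
  classical
  obtain ⟨A, hA⟩ : ∃ A : Matrix (Fin n) (Fin n) F, A = (x : Matrix (Fin n) (Fin n) F) :=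
    ⟨_, rfl⟩
  have hA3 : A ^ 3 = z • (1 : Matrix (Fin n) (Fin n) F) := by
    rw [← hz, hA, Matrix.SpecialLinearGroup.coe_pow]
  have hdet : A.det = 1 := by rw [hA]; exact x.2
  have h3 : (3 : F) = 0 := three_eq_zero
  obtain ⟨c, hc⟩ := cube_surj z
  have hc0 : c ≠ 0 := by
    rintro rfl
    have hz0 : z = 0 := by rw [← hc]; simp
    rw [hz0, zero_smul] at hA3
    have h1 := congrArg Matrix.det hA3
    have : Nonempty (Fin n) := ⟨⟨0, by omega⟩⟩
    rw [Matrix.det_pow, hdet, Matrix.det_zero] at h1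
    simp at h1
  obtain ⟨Y, hY⟩ : ∃ Y : Matrix (Fin n) (Fin n) F, Y = c⁻¹ • A := ⟨_, rfl⟩
  have hY3 : Y ^ 3 = 1 := by
    rw [hY, smul_pow, hA3, smul_smul, ← hc]
    have : c⁻¹ ^ 3 * c ^ 3 = 1 := by field_simp
    rw [this, one_smul]
  have hYYY : Y * Y * Y = 1 := by rw [← hY3, pow_succ, pow_two]
  obtain ⟨Nm, hNm⟩ : ∃ Nm : Matrix (Fin n) (Fin n) F, Nm = Y - 1 := ⟨_, rfl⟩
  have hNm3 : Nm ^ 3 = 0 := by
    have e : (Y - 1) ^ 3 = Y * Y * Y - 1 - ((Y * Y - Y) + (Y * Y - Y) + (Y * Y - Y)) := by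
      rw [pow_succ, pow_two]
      simp only [sub_mul, mul_sub, mul_one, one_mul]
      abel
    have hadd : ∀ M : Matrix (Fin n) (Fin n) F, M + M + M = 0 := by
      intro M
      have : M + M + M = (3 : F) • M := by
        rw [show (3 : F) = 1 + 1 + 1 by norm_num, add_smul, add_smul, one_smul]
      rw [this, h3, zero_smul]
    rw [hNm, e, hadd, hYYY, sub_self, sub_zero]
  obtain ⟨ι, _, κ, v, hpos, hJ⟩ :=
    Cfsg.Agent.Lib.Helper95.NilJordan.exists_jordan_mat Nm ⟨3, hNm3⟩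
  have hle : ∀ i, κ i ≤ 3 :=
    (Cfsg.Agent.Lib.Helper95.NilJordan.mat_pow_eq_zero_iff Nm hJ 3).mp hNm3
  have hsum : ∑ i, κ i = n := Cfsg.Agent.Lib.Helper95.NilJordan.sum_eq_card Nm hJ
  obtain ⟨Q, M, hM01, hQM⟩ := exists_zero_one_conj Nm hJ
  have hQdet : (Q : Matrix (Fin n) (Fin n) F).det ≠ 0 :=
    (Matrix.GeneralLinearGroup.det Q).ne_zero
  have hAN : A = c • (1 + Nm) := by
    rw [hNm, hY, add_sub_cancel, smul_smul, mul_inv_cancel₀ hc0, one_smul]
  have hconj : (Q : Matrix (Fin n) (Fin n) F) * A *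
      ((Q⁻¹ : GL (Fin n) F) : Matrix (Fin n) (Fin n) F) = c • (1 + M) := by
    have h1 : (Q : Matrix (Fin n) (Fin n) F) * A =
        c • ((1 + M) * (Q : Matrix (Fin n) (Fin n) F)) := by
      rw [hAN, Matrix.mul_smul, Matrix.mul_add, Matrix.mul_one, hQM, Matrix.add_mul,
        Matrix.one_mul]
    rw [h1, Matrix.smul_mul, Matrix.mul_assoc, ← Units.val_mul, mul_inv_cancel, Units.val_one,
      Matrix.mul_one]
  have hM1F : ∀ i j, (1 + M) i j ∈ F₀ := by
    intro i j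
    rw [Matrix.add_apply, Matrix.one_apply]
    apply add_mem
    · split_ifs
      · exact one_mem _
      · exact zero_mem _
    · rcases hM01 i j with h | h
      · rw [h]
        exact zero_mem _
      · rw [h]
        exact one_mem _
  have hM1det : (1 + M).det ≠ 0 := by
    intro h0
    have h1 := congrArg Matrix.det hconj
    rw [Matrix.det_smul, h0, mul_zero, Matrix.det_mul, Matrix.det_mul, hdet, mul_one,
      ← Matrix.det_mul, ← Units.val_mul, mul_inv_cancel, Units.val_one, Matrix.det_one] at h1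
    exact one_ne_zero h1
  obtain ⟨g₀, hg₀⟩ := exists_gl_of_det F₀ (1 + M) hM1F hM1det
  have hQmem : Q * Matrix.SpecialLinearGroup.toGL x * Q⁻¹ ∈
      Cfsg.Geo.subfieldSubgroup F₀ (1 : GL (Fin n) F) := by
    apply Cfsg.Agent.S5964.mem_B F₀ _ g₀ c hc0
    rw [hg₀, Units.val_mul, Units.val_mul]
    show (Q : Matrix (Fin n) (Fin n) F) * (x : Matrix (Fin n) (Fin n) F) *
      ((Q⁻¹ : GL (Fin n) F) : Matrix (Fin n) (Fin n) F) = c • (1 + M)
    rw [← hA]
    exact hconj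
  obtain ⟨t₀, ht₀, ht₀0, i₀, a, ha⟩ := det_solver F₀ k q₀ n hF₀ hqk (by omega) hcond κ hpos hle
    hsum ((Q : Matrix (Fin n) (Fin n) F).det)⁻¹
  obtain ⟨b, hb, hbdet⟩ := exists_mem_det (n := n) (by omega) F₀ t₀ ht₀ ht₀0
  obtain ⟨C, hCN, hCdet⟩ := exists_comm_det_pow Nm hJ i₀ a
  apply sl_conj_of_comm x (Cfsg.Geo.subfieldSubgroup F₀ 1) (b * Q) ?_ C ?_ ?_
  · have e : b * Q * Matrix.SpecialLinearGroup.toGL x * (b * Q)⁻¹ =
        b * (Q * Matrix.SpecialLinearGroup.toGL x * Q⁻¹) * b⁻¹ := by group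
    rw [e]
    exact mul_mem (mul_mem hb hQmem) (inv_mem hb)
  · rw [← hA, hAN, Matrix.mul_smul, Matrix.smul_mul, Matrix.mul_add, Matrix.add_mul,
      Matrix.mul_one, Matrix.one_mul, hCN]
  · rw [Units.val_mul, Matrix.det_mul, hbdet, hCdet, mul_assoc, mul_comm _ (a ^ κ i₀),
      ← mul_assoc, ← ha, inv_mul_cancel₀ hQdet]

/-- Necessity: a unipotent element with all Jordan blocks of size two and non-square
discriminant is not conjugate into the subfield subgroup of index two. -/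
theorem exists_bad {F : Type*} [Field F] [Fintype F] [CharP F 3] (m : ℕ) (hm : 0 < m)
    (F₀ : Subfield F) (q₀ : ℕ) (hF₀ : Nat.card ↥F₀ = q₀) (hqk : Fintype.card F = q₀ ^ 2) :
    ∃ x : Matrix.SpecialLinearGroup (Fin (m + m)) F,
      (∃ z : F, ((x ^ 3 : Matrix.SpecialLinearGroup (Fin (m + m)) F) :
        Matrix (Fin (m + m)) (Fin (m + m)) F) =
          z • (1 : Matrix (Fin (m + m)) (Fin (m + m)) F)) ∧
      (∀ z : F, (x : Matrix (Fin (m + m)) (Fin (m + m)) F) ≠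
        z • (1 : Matrix (Fin (m + m)) (Fin (m + m)) F)) ∧
      ¬ ∃ P : Matrix.SpecialLinearGroup (Fin (m + m)) F, P⁻¹ * x * P ∈
        ((Cfsg.Geo.subfieldSubgroup F₀ 1).comap (Matrix.SpecialLinearGroup.toGL :
          Matrix.SpecialLinearGroup (Fin (m + m)) F →* GL (Fin (m + m)) F)) := by
  classical
  have h2 := two_ne_zero3 (F := F)
  have h3 : (3 : F) = 0 := three_eq_zero
  have hchar := Cfsg.Agent.Lib.Helper37.NonsqPow.ringChar_ne_two h2
  obtain ⟨ω, hω⟩ := FiniteField.exists_nonsquare hchar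
  have hω0 : ω ≠ 0 := by
    rintro rfl
    exact hω ⟨0, by simp⟩
  obtain ⟨e, he⟩ : ∃ e : Fin m ⊕ Fin m ≃ Fin (m + m), e = finSumFinEquiv := ⟨_, rfl⟩
  obtain ⟨E, hE⟩ : ∃ E : Basis (Fin m ⊕ Fin m) F (Fin (m + m) → F),
      ∀ j, E j = Pi.single (e j) 1 :=
    ⟨(Pi.basisFun F (Fin (m + m))).reindex e.symm, fun j => by
      rw [Basis.reindex_apply, Equiv.symm_symm, Pi.basisFun_apply]⟩
  obtain ⟨k₀⟩ : Nonempty (Fin m) := ⟨⟨0, hm⟩⟩
  obtain ⟨d, hd⟩ : ∃ d : Fin m → F, d = fun k => if k = k₀ then ω else 1 := ⟨_, rfl⟩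
  obtain ⟨L, hL1, hL2⟩ : ∃ L : (Fin (m + m) → F) →ₗ[F] (Fin (m + m) → F),
      (∀ k, L (E (Sum.inl k)) = d k • E (Sum.inr k)) ∧ (∀ k, L (E (Sum.inr k)) = 0) :=
    ⟨E.constr F (Sum.elim (fun k => d k • E (Sum.inr k)) 0),
      fun k => by rw [Basis.constr_basis, Sum.elim_inl],
      fun k => by rw [Basis.constr_basis, Sum.elim_inr]; rfl⟩
  obtain ⟨Tω, hTω1, hTω2⟩ : ∃ Tω : (Fin (m + m) → F) →ₗ[F] (Fin (m + m) → F),
      (∀ k, Tω (E (Sum.inl k)) = E (Sum.inl k)) ∧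
      (∀ k, Tω (E (Sum.inr k)) = d k • E (Sum.inr k)) :=
    ⟨E.constr F (Sum.elim (fun k => E (Sum.inl k)) (fun k => d k • E (Sum.inr k))),
      fun k => by rw [Basis.constr_basis, Sum.elim_inl],
      fun k => by rw [Basis.constr_basis, Sum.elim_inr]⟩
  have hTωdet : LinearMap.det Tω = ω := by
    rw [det_of_diag E (Sum.elim (fun _ => 1) d) Tω (by
      rintro (k | k)
      · rw [hTω1, Sum.elim_inl, one_smul]
      · rw [hTω2, Sum.elim_inr]), Fintype.prod_sum_type]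
    simp only [Sum.elim_inl, Sum.elim_inr, Finset.prod_const_one, one_mul]
    rw [hd, Finset.prod_ite_eq' Finset.univ k₀ (fun _ => ω)]
    simp
  have hLL : L ∘ₗ L = 0 := by
    apply E.ext
    rintro (k | k)
    · rw [LinearMap.comp_apply, hL1, map_smul, hL2, smul_zero, LinearMap.zero_apply]
    · rw [LinearMap.comp_apply, hL2, map_zero, LinearMap.zero_apply]
  obtain ⟨Mω, hMω⟩ : ∃ Mω : Matrix (Fin (m + m)) (Fin (m + m)) F,
      Mω = LinearMap.toMatrix' L := ⟨_, rfl⟩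
  have hMM : Mω * Mω = 0 := by
    rw [hMω, ← LinearMap.toMatrix'_comp, hLL, map_zero]
  have hlin : Matrix.toLin' Mω = L := by rw [hMω, Matrix.toLin'_toMatrix']
  have hcube := cube_one_add Mω hMM
  have hdet : (1 + Mω).det = 1 := by
    have h1 := congrArg Matrix.det hcube
    rw [Matrix.det_pow, Matrix.det_one] at h1
    exact cube_inj (by rw [h1, one_pow])
  obtain ⟨x, hx⟩ : ∃ x : Matrix.SpecialLinearGroup (Fin (m + m)) F,
      (x : Matrix (Fin (m + m)) (Fin (m + m)) F) = 1 + Mω := ⟨⟨1 + Mω, hdet⟩, rfl⟩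
  refine ⟨x, ⟨1, ?_⟩, ?_, ?_⟩
  · rw [Matrix.SpecialLinearGroup.coe_pow, hx, hcube, one_smul]
  · intro z hz
    rw [hx] at hz
    have h1 : Mω = (z - 1) • (1 : Matrix (Fin (m + m)) (Fin (m + m)) F) := by
      rw [sub_smul, one_smul, ← hz, add_sub_cancel_left]
    have h4 : (z - 1) * (z - 1) = 0 := by
      have h5 := hMM
      rw [h1, Matrix.smul_mul, Matrix.mul_smul, Matrix.one_mul, smul_smul] at h5
      have h6 := congrFun (congrFun h5 (e (Sum.inl k₀))) (e (Sum.inl k₀))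
      simpa using h6
    have h5 : z - 1 = 0 := mul_self_eq_zero.mp h4
    rw [h5, zero_smul] at h1
    have h6 : L (E (Sum.inl k₀)) = 0 := by
      rw [← hlin, h1, map_zero, LinearMap.zero_apply]
    rw [hL1, hd] at h6
    simp only [if_true] at h6
    rcases smul_eq_zero.mp h6 with h | h
    · exact hω0 h
    · exact E.ne_zero _ h
  · rintro ⟨P, hP⟩
    rw [Subgroup.mem_comap] at hP
    obtain ⟨A₀, σ, hσ0, hA₀, hval⟩ := Cfsg.Agent.S5964.of_mem_B F₀ _ hP
    obtain ⟨Pv, hPv⟩ : ∃ Pv : Matrix (Fin (m + m)) (Fin (m + m)) F,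
        Pv = ((P⁻¹ : Matrix.SpecialLinearGroup (Fin (m + m)) F) :
          Matrix (Fin (m + m)) (Fin (m + m)) F) := ⟨_, rfl⟩
    obtain ⟨Pm, hPm⟩ : ∃ Pm : Matrix (Fin (m + m)) (Fin (m + m)) F,
        Pm = (P : Matrix (Fin (m + m)) (Fin (m + m)) F) := ⟨_, rfl⟩
    have hPvPm : Pv * Pm = 1 := by
      rw [hPv, hPm, ← Matrix.SpecialLinearGroup.coe_mul, inv_mul_cancel,
        Matrix.SpecialLinearGroup.coe_one]
    have hPmPv : Pm * Pv = 1 := by
      rw [hPv, hPm, ← Matrix.SpecialLinearGroup.coe_mul, mul_inv_cancel,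
        Matrix.SpecialLinearGroup.coe_one]
    have hval' : Pv * (1 + Mω) * Pm = σ • A₀ := by
      rw [← hval, hPv, hPm, ← hx]
      rfl
    obtain ⟨N₁, hN₁⟩ : ∃ N₁ : Matrix (Fin (m + m)) (Fin (m + m)) F, N₁ = Pv * Mω * Pm :=
      ⟨_, rfl⟩
    have hσA : σ • A₀ = 1 + N₁ := by
      rw [← hval', hN₁, Matrix.mul_add, Matrix.mul_one, Matrix.add_mul, hPvPm]
    have hN₁N₁ : N₁ * N₁ = 0 := by
      rw [hN₁]
      calc Pv * Mω * Pm * (Pv * Mω * Pm) = Pv * Mω * (Pm * Pv) * Mω * Pm := by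
            simp only [Matrix.mul_assoc]
        _ = 0 := by
            rw [hPmPv, Matrix.mul_one, Matrix.mul_assoc Pv Mω Mω, hMM, Matrix.mul_zero,
              Matrix.zero_mul]
    have hcube₁ := cube_one_add N₁ hN₁N₁
    rw [← hσA, smul_pow] at hcube₁
    have hA₀3 : ∀ i j, (A₀ ^ 3) i j ∈ F₀ := by
      have hmul : ∀ X Y : Matrix (Fin (m + m)) (Fin (m + m)) F, (∀ i j, X i j ∈ F₀) →
          (∀ i j, Y i j ∈ F₀) → ∀ i j, (X * Y) i j ∈ F₀ := by
        intro X Y hX hY i j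
        rw [Matrix.mul_apply]
        exact sum_mem (fun l _ => mul_mem (hX i l) (hY l j))
      rw [pow_succ, pow_two]
      exact hmul _ _ (hmul _ _ hA₀ hA₀) hA₀
    have hσ3 : σ ^ 3 * (A₀ ^ 3) (e (Sum.inl k₀)) (e (Sum.inl k₀)) = 1 := by
      have := congrFun (congrFun hcube₁ (e (Sum.inl k₀))) (e (Sum.inl k₀))
      simpa using this
    have hσmem : σ ∈ F₀ := by
      apply cube_mem F₀
      have : σ ^ 3 = ((A₀ ^ 3) (e (Sum.inl k₀)) (e (Sum.inl k₀)))⁻¹ :=
        eq_inv_of_mul_eq_one_left hσ3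
      rw [this]
      exact inv_mem (hA₀3 _ _)
    have hN₁F : ∀ i j, N₁ i j ∈ F₀ := by
      intro i j
      have : N₁ = σ • A₀ - 1 := by rw [hσA, add_sub_cancel_left]
      rw [this, Matrix.sub_apply, Matrix.smul_apply, Matrix.one_apply, smul_eq_mul]
      apply sub_mem (mul_mem hσmem (hA₀ i j))
      split_ifs
      · exact one_mem _
      · exact zero_mem _
    obtain ⟨T₁, hT₁⟩ : ∃ T₁ : (Fin (m + m) → F) →ₗ[F] (Fin (m + m) → F),
        T₁ = Matrix.toLin' Pv ∘ₗ Tω := ⟨_, rfl⟩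
    have hT₁det : LinearMap.det T₁ = ω := by
      rw [hT₁, LinearMap.det_comp, LinearMap.det_toLin', hTωdet, hPv]
      have : ((P⁻¹ : Matrix.SpecialLinearGroup (Fin (m + m)) F) :
          Matrix (Fin (m + m)) (Fin (m + m)) F).det = 1 := (P⁻¹).2
      rw [this, one_mul]
    have hkey : ∀ w, Matrix.toLin' N₁ (T₁ w) = Matrix.toLin' Pv (L (Tω w)) := by
      intro w
      rw [hT₁, LinearMap.comp_apply, ← hlin, Matrix.toLin'_apply, Matrix.toLin'_apply,
        Matrix.toLin'_apply, Matrix.toLin'_apply, Matrix.mulVec_mulVec, Matrix.mulVec_mulVec,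
        hN₁]
      congr 1
      rw [Matrix.mul_assoc, hPmPv, Matrix.mul_one]
    have hT₁1 : ∀ k, Matrix.toLin' N₁ (T₁ (Pi.single (e (Sum.inl k)) 1)) =
        T₁ (Pi.single (e (Sum.inr k)) 1) := by
      intro k
      rw [hkey, ← hE, ← hE, hTω1, hL1, hT₁, LinearMap.comp_apply, hTω2]
    have hT₁2 : ∀ k, Matrix.toLin' N₁ (T₁ (Pi.single (e (Sum.inr k)) 1)) = 0 := by
      intro k
      rw [hkey, ← hE, hTω2, map_smul, hL2, smul_zero, map_zero]
    obtain ⟨T₀, hT₀det, hT₀mem, hT₀1, hT₀2⟩ := exists_adapted_rational F₀ e N₁ hN₁F hN₁N₁ T₁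
      (by rw [hT₁det]; exact hω0) hT₁1 hT₁2
    obtain ⟨s, hs⟩ := det_adapted E (Matrix.toLin' N₁) T₀ T₁
      (fun k => by rw [hE, hE]; exact hT₀1 k) (fun k => by rw [hE]; exact hT₀2 k)
      (fun k => by rw [hE, hE]; exact hT₁1 k) (fun k => by rw [hE]; exact hT₁2 k) hT₀det
    obtain ⟨r, hr⟩ := Cfsg.Agent.S5964.subfield_sq h2 F₀ q₀ hF₀ hqk _ hT₀mem
    apply hω
    exact ⟨r * s, by rw [← hT₁det, hs, hr]; ring⟩

/-- Elements of order 3 of PSL_n(q) in characteristic 3 and subfield subgroups. Here `T = PSL_n(F)` for a field `F` with `q` elements, `q` a power of 3 (`n ≥ 2`, `(n, q) ≠ (2, 2), (2, 3)`), `F₀` is the subfield with `q₀` elements where `q = q₀^k` for a prime `k`, and `H` is the subgroup of matrices of determinant 1 lying in the subfield group of `F₀` (invertible matrices over `F₀` times scalars) — a maximal subgroup of type GL_n(q₀) (the case `n = 2`, `q₀ = 2` is excluded); Ω is the set of `T`-conjugates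 of `H` (cosets of `H`), so an element of `T` of prime order `r` (a matrix `x` of determinant 1 with `x^r` scalar, `x` not scalar) fixes a point of Ω when some conjugate of `x` by a matrix of determinant 1 lies in `H`. Suppose 3 divides the index of `H`. Then every element of `T` of order 3 is conjugate in `T` into `H` if and only if `n` is odd, or `n` is even and `k > 2`. -/
theorem result {F : Type*} [Field F] [Fintype F] [CharP F 3] {q : ℕ} (hq : Fintype.card F = q)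
    (n : ℕ) (hn : 2 ≤ n) (hT : (n, q) ≠ (2, 3))
    (F₀ : Subfield F) (k q₀ : ℕ) (hk : k.Prime) (hF₀ : Nat.card ↥F₀ = q₀) (hqk : q = q₀ ^ k) (hC5 : ¬ (n = 2 ∧ q₀ = 2)) (hΩ : 3 ∣ ((Cfsg.Geo.subfieldSubgroup F₀ 1).comap (Matrix.SpecialLinearGroup.toGL : Matrix.SpecialLinearGroup (Fin n) F →* GL (Fin n) F)).index) :
    (∀ x : Matrix.SpecialLinearGroup (Fin n) F,
      (∃ z : F, ((x ^ 3 : Matrix.SpecialLinearGroup (Fin n) F) : Matrix (Fin n) (Fin n) F) = z • (1 : Matrix (Fin n) (Fin n) F)) →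
      (∀ z : F, (x : Matrix (Fin n) (Fin n) F) ≠ z • (1 : Matrix (Fin n) (Fin n) F)) →
      ∃ P : Matrix.SpecialLinearGroup (Fin n) F, P⁻¹ * x * P ∈ ((Cfsg.Geo.subfieldSubgroup F₀ 1).comap (Matrix.SpecialLinearGroup.toGL : Matrix.SpecialLinearGroup (Fin n) F →* GL (Fin n) F))) ↔
    (Odd n ∨ (Even n ∧ 2 < k)) := by
  have hcard : Fintype.card F = q₀ ^ k := by rw [hq, hqk]
  constructor
  · intro hyp
    by_contra hR
    push Not at hR
    obtain ⟨hodd, hk2⟩ := hR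
    have heven : Even n := Nat.not_odd_iff_even.mp hodd
    have hk' : k = 2 := by
      have := hk.two_le
      have := hk2 heven
      omega
    obtain ⟨m, rfl⟩ : ∃ m, n = m + m := heven
    subst hk'
    obtain ⟨x, hx3, hxns, hbad⟩ := exists_bad m (by omega) F₀ q₀ hF₀ hcard
    exact hbad (hyp x hx3 hxns)
  · intro hR x hx _
    obtain ⟨z, hz⟩ := hx
    have hcond : Odd n ∨ (Even n ∧ k % 2 = 1) := by
      rcases hR with h | ⟨h1, h2⟩
      · exact Or.inl h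
      · refine Or.inr ⟨h1, ?_⟩
        rcases hk.eq_two_or_odd with h | h
        · omega
        · exact h
    exact conj_of_hyp n hn F₀ k q₀ hF₀ hcard hcond x z hz

end Cfsg.Agent.S5966
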