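import Cfsg.Statements.S5967
import Cfsg.Agent.Lib.Helper37.InvConj
import Cfsg.Agent.Lib.Helper37.NegOnePow
import Cfsg.Agent.Lib.Helper37.PairForm
import Cfsg.Agent.Lib.Helper37.InvPairs
import Cfsg.Agent.Lib.Helper40.SympConj

set_option autoImplicit false
open scoped MatrixGroups
open Cfsg

namespace Cfsg.Agent.S5967

/-- The form as a bilinear form. -/
theorem exists_bilin {F : Type*} [Field F] {n : ℕ} (f : (Fin n → F) → (Fin n → F) → F)
    (hf : Cfsg.Geo.IsSymplecticForm f) :
    ∃ Bf : LinearMap.BilinForm F (Fin n → F), (∀ u v, Bf u v = f u v) ∧ Bf.IsAlt ∧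
      (∀ u, (∀ v, Bf u v = 0) → u = 0) := by
  refine ⟨LinearMap.mk₂ F f hf.bilinear.add_left (fun c x v => by
    rw [hf.bilinear.smul_left, smul_eq_mul]) hf.bilinear.add_right (fun c v x => by
    rw [hf.bilinear.smul_right, smul_eq_mul]), fun u v => rfl, fun u => hf.alternating u, ?_⟩
  intro u hu
  by_contra hne
  obtain ⟨w, hw⟩ := (hf.nondegenerate u hne).2
  exact hw (hu w)

/-- Sufficiency: if the 2-part of `q - 1` is at most that of `n`, every involution is conjugate
into the similarity group. -/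
theorem conj_of_le {F : Type*} [Field F] [Fintype F] (n : ℕ) (hn : 4 ≤ n) (he : Even n)
    (f : (Fin n → F) → (Fin n → F) → F) (hf : Cfsg.Geo.IsSymplecticForm f)
    (hle : padicValNat 2 (Fintype.card F - 1) ≤ padicValNat 2 n)
    (x : Matrix.SpecialLinearGroup (Fin n) F) (z : F)
    (hz : ((x ^ 2 : Matrix.SpecialLinearGroup (Fin n) F) : Matrix (Fin n) (Fin n) F) =
      z • (1 : Matrix (Fin n) (Fin n) F)) :
    ∃ P : Matrix.SpecialLinearGroup (Fin n) F, P⁻¹ * x * P ∈
      ((Cfsg.Geo.similarityGroup f).comap (Matrix.SpecialLinearGroup.toGL :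
        Matrix.SpecialLinearGroup (Fin n) F →* GL (Fin n) F)) := by
  classical
  obtain ⟨A, hA⟩ : ∃ A : Matrix (Fin n) (Fin n) F, A = (x : Matrix (Fin n) (Fin n) F) :=
    ⟨_, rfl⟩
  have hAA : A * A = z • (1 : Matrix (Fin n) (Fin n) F) := by
    rw [← hz, hA, pow_two]
    rfl
  have hdet : A.det = 1 := by rw [hA]; exact x.2
  have hz0 : z ≠ 0 := by
    intro h0
    rw [h0, zero_smul] at hAA
    have h1 := congrArg Matrix.det hAA
    have : Nonempty (Fin n) := ⟨⟨0, by omega⟩⟩
    rw [Matrix.det_mul, hdet, Matrix.det_zero] at h1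
    simp at h1
  have hxx : ∀ v : Fin n → F, Matrix.toLin' A (Matrix.toLin' A v) = z • v := by
    intro v
    rw [Matrix.toLin'_apply, Matrix.toLin'_apply, Matrix.mulVec_mulVec, hAA, Matrix.smul_mulVec,
      Matrix.one_mulVec]
  have hfr : Module.finrank F (Fin n → F) = n := by
    rw [Module.finrank_fintype_fun_eq_card, Fintype.card_fin]
  -- the basis of pairs
  obtain ⟨K, hK, B, l, hl0, hB⟩ : ∃ (K : Type) (_ : Fintype K) (B : Module.Basis (K ⊕ K) F (Fin n → F))
      (l : F), l ≠ 0 ∧ ∀ k, ∃ α β γ δ : F,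
      Matrix.toLin' A (B (Sum.inl k)) = α • B (Sum.inl k) + β • B (Sum.inr k) ∧
      Matrix.toLin' A (B (Sum.inr k)) = γ • B (Sum.inl k) + δ • B (Sum.inr k) ∧
      α * δ - β * γ = l := by
    by_cases h2 : (2 : F) = 0
    · obtain ⟨K, hK, B, hB⟩ := Cfsg.Agent.Lib.Helper37.InvPairs.mono_pairs (Matrix.toLin' A) hxx
        (by rw [hfr]; exact he) (by
          intro a b ha hb
          have h3 : (a - b) * (a - b) = 0 := by
            linear_combination ha + hb + (z - a * b) * h2
          have h4 : a = b := sub_eq_zero.mp (mul_self_eq_zero.mp h3)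
          rw [h4, hb]
          linear_combination z * h2)
      exact ⟨K, hK, B, -z, neg_ne_zero.mpr hz0, hB⟩
    · by_cases hsq : ∃ c : F, z = c * c
      · obtain ⟨c, hc⟩ := hsq
        have hc0 : c ≠ 0 := by
          rintro rfl
          rw [mul_zero] at hc
          exact hz0 hc
        have hno : c ^ n ≠ -1 := by
          intro h3
          have := Cfsg.Agent.Lib.Helper37.NegOnePow.padic_lt_of_pow_eq_neg_one h2 n (by omega) c h3
          omega
        obtain ⟨K, hK, B, hB⟩ := Cfsg.Agent.Lib.Helper37.InvPairs.eigen_pairs h2 he A c hc0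
          (by rw [hAA, hc]) hdet hno
        exact ⟨K, hK, B, c * c, mul_ne_zero hc0 hc0, hB⟩
      · obtain ⟨K, hK, B, hB⟩ := Cfsg.Agent.Lib.Helper37.InvPairs.mono_pairs (Matrix.toLin' A)
          hxx (by rw [hfr]; exact he) (by
            intro a b ha hb
            exact absurd ⟨a, ha.symm⟩ hsq)
        exact ⟨K, hK, B, -z, neg_ne_zero.mpr hz0, hB⟩
  obtain ⟨g, hgalt, hgnd, hgx⟩ :=
    Cfsg.Agent.Lib.Helper37.PairForm.exists_form B (Matrix.toLin' A) l hB
  obtain ⟨Bf, hBf, hBfalt, hBfnd⟩ := exists_bilin f hf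
  obtain ⟨c, hc⟩ := Cfsg.Agent.Lib.Helper40.SympConj.alt_iso Bf g hBfalt hgalt hBfnd hgnd
  -- the conjugating matrix
  obtain ⟨Q, hQ1, hQ2⟩ : ∃ Q : GL (Fin n) F,
      (∀ u, (Q : Matrix (Fin n) (Fin n) F).mulVec u = c u) ∧
      (∀ u, ((Q⁻¹ : GL (Fin n) F) : Matrix (Fin n) (Fin n) F).mulVec u = c.symm u) := by
    refine ⟨⟨LinearMap.toMatrix' (c : (Fin n → F) →ₗ[F] (Fin n → F)),
      LinearMap.toMatrix' (c.symm : (Fin n → F) →ₗ[F] (Fin n → F)), ?_, ?_⟩, ?_, ?_⟩
    · rw [← LinearMap.toMatrix'_comp]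
      simp
    · rw [← LinearMap.toMatrix'_comp]
      simp
    · intro u
      show (LinearMap.toMatrix' (c : (Fin n → F) →ₗ[F] (Fin n → F))).mulVec u = c u
      rw [← Matrix.toLin'_apply, Matrix.toLin'_toMatrix']
      rfl
    · intro u
      show (LinearMap.toMatrix' (c.symm : (Fin n → F) →ₗ[F] (Fin n → F))).mulVec u = c.symm u
      rw [← Matrix.toLin'_apply, Matrix.toLin'_toMatrix']
      rfl
  apply Cfsg.Agent.Lib.Helper37.InvConj.exists_sl_conj (by omega) x (z := z) (by rw [← hA]; exact hAA)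
    (Cfsg.Geo.similarityGroup f) Q
  refine ⟨Units.mk0 l hl0, ?_⟩
  intro u v
  have hmat : ((Q * Matrix.SpecialLinearGroup.toGL x * Q⁻¹ : GL (Fin n) F) :
      Matrix (Fin n) (Fin n) F) = (Q : Matrix (Fin n) (Fin n) F) * A *
        ((Q⁻¹ : GL (Fin n) F) : Matrix (Fin n) (Fin n) F) := by
    rw [Units.val_mul, Units.val_mul, hA]
    rfl
  have hmv : ∀ w : Fin n → F, ((Q * Matrix.SpecialLinearGroup.toGL x * Q⁻¹ : GL (Fin n) F) :
      Matrix (Fin n) (Fin n) F).mulVec w = c (Matrix.toLin' A (c.symm w)) := by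
    intro w
    rw [hmat, ← Matrix.mulVec_mulVec, ← Matrix.mulVec_mulVec, hQ1, hQ2, Matrix.toLin'_apply]
  rw [hmv, hmv, ← hBf, ← hc, hgx, hc, LinearEquiv.apply_symm_apply, LinearEquiv.apply_symm_apply,
    hBf]
  rfl

/-- Necessity: if the 2-part of `n` is smaller than that of `q - 1`, some involution is not
conjugate into the similarity group. -/
theorem exists_bad {F : Type*} [Field F] [Fintype F] (n : ℕ) (hn : 4 ≤ n) (he : Even n)
    (f : (Fin n → F) → (Fin n → F) → F) (hf : Cfsg.Geo.IsSymplecticForm f)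
    (hlt : padicValNat 2 n < padicValNat 2 (Fintype.card F - 1)) :
    ∃ x : Matrix.SpecialLinearGroup (Fin n) F,
      (∃ z : F, ((x ^ 2 : Matrix.SpecialLinearGroup (Fin n) F) : Matrix (Fin n) (Fin n) F) =
        z • (1 : Matrix (Fin n) (Fin n) F)) ∧
      (∀ z : F, (x : Matrix (Fin n) (Fin n) F) ≠ z • (1 : Matrix (Fin n) (Fin n) F)) ∧
      ¬ ∃ P : Matrix.SpecialLinearGroup (Fin n) F, P⁻¹ * x * P ∈
        ((Cfsg.Geo.similarityGroup f).comap (Matrix.SpecialLinearGroup.toGL :
          Matrix.SpecialLinearGroup (Fin n) F →* GL (Fin n) F)) := by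
  classical
  obtain ⟨c, hc⟩ := Cfsg.Agent.Lib.Helper37.NegOnePow.exists_pow_eq_neg_one (F := F) n (by omega) hlt
  have h2 : (2 : F) ≠ 0 := by
    intro h2
    have hchar : ringChar F = 2 := by
      have : CharP F 2 := by
        apply CharTwo.of_one_ne_zero_of_two_eq_zero one_ne_zero
        exact_mod_cast h2
      exact ringChar.eq F 2
    have heven := FiniteField.even_card_iff_char_two.mp hchar
    have hpos : 0 < padicValNat 2 (Fintype.card F - 1) := by omega
    have hdvd : 2 ∣ Fintype.card F - 1 := dvd_of_one_le_padicValNat hpos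
    have := Fintype.card_pos (α := F)
    omega
  have hc0 : c ≠ 0 := by
    rintro rfl
    rw [zero_pow (by omega)] at hc
    exact neg_ne_zero.mpr one_ne_zero hc.symm
  obtain ⟨Bf, hBf, hBfalt, hBfnd⟩ := exists_bilin f hf
  obtain ⟨m, rfl⟩ : ∃ m, n = m + 1 := ⟨n - 1, by omega⟩
  obtain ⟨dv, hdv⟩ : ∃ dv : Fin (m + 1) → F, dv = fun i => if i = 0 then c else -c := ⟨_, rfl⟩
  have hdv0 : dv 0 = c := by rw [hdv]; simp
  have hdvs : ∀ i : Fin (m + 1), i ≠ 0 → dv i = -c := by
    intro i hi
    rw [hdv]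
    simp [hi]
  have hmodd : Odd m := by
    obtain ⟨r, hr⟩ := he
    exact ⟨r - 1, by omega⟩
  have hdet : (Matrix.diagonal dv).det = 1 := by
    rw [Matrix.det_diagonal, Fin.prod_univ_succ, hdv0]
    have : ∀ i : Fin m, dv i.succ = -c := fun i => hdvs _ (Fin.succ_ne_zero i)
    rw [Finset.prod_congr rfl (fun i _ => this i), Finset.prod_const, Finset.card_univ,
      Fintype.card_fin, hmodd.neg_pow]
    rw [pow_succ] at hc
    linear_combination -hc
  have hsq : ∀ i, dv i * dv i = c * c := by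
    intro i
    by_cases hi : i = 0
    · rw [hi, hdv0]
    · rw [hdvs i hi]
      ring
  obtain ⟨xs, hxs⟩ : ∃ xs : Matrix.SpecialLinearGroup (Fin (m + 1)) F,
      (xs : Matrix (Fin (m + 1)) (Fin (m + 1)) F) = Matrix.diagonal dv := ⟨⟨_, hdet⟩, rfl⟩
  refine ⟨xs, ⟨c * c, ?_⟩, ?_, ?_⟩
  · rw [pow_two]
    show (xs : Matrix (Fin (m + 1)) (Fin (m + 1)) F) * (xs : Matrix (Fin (m + 1)) (Fin (m + 1)) F)
      = _
    rw [hxs, Matrix.diagonal_mul_diagonal, Matrix.smul_one_eq_diagonal]
    congr 1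
    funext i
    exact hsq i
  · intro z hz
    have hz' : Matrix.diagonal dv = z • (1 : Matrix (Fin (m + 1)) (Fin (m + 1)) F) := by
      rw [← hxs]
      exact hz
    have h0 := congrFun (congrFun hz' 0) 0
    have h1 := congrFun (congrFun hz' ⟨1, by omega⟩) ⟨1, by omega⟩
    rw [Matrix.diagonal_apply_eq, Matrix.smul_apply, Matrix.one_apply_eq, smul_eq_mul, mul_one]
      at h0 h1
    rw [hdv0] at h0
    rw [hdvs _ (by intro h; have := congrArg Fin.val h; simp at this)] at h1
    apply h2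
    have : (2 : F) * c = 0 := by linear_combination h0 - h1
    rcases mul_eq_zero.mp this with h | h
    · exact h
    · exact absurd h hc0
  · rintro ⟨P, hP⟩
    rw [Subgroup.mem_comap] at hP
    obtain ⟨μ, hμ⟩ := hP
    obtain ⟨Pm, hPm⟩ : ∃ Pm : Matrix (Fin (m + 1)) (Fin (m + 1)) F, Pm = (P : Matrix _ _ F) :=
      ⟨_, rfl⟩
    obtain ⟨Pi', hPi'⟩ : ∃ Pi' : Matrix (Fin (m + 1)) (Fin (m + 1)) F,
        Pi' = ((P⁻¹ : Matrix.SpecialLinearGroup (Fin (m + 1)) F) : Matrix _ _ F) := ⟨_, rfl⟩
    have hPP : Pm * Pi' = 1 := by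
      rw [hPm, hPi', ← Matrix.SpecialLinearGroup.coe_mul, mul_inv_cancel]
      rfl
    have hPP' : Pi' * Pm = 1 := by
      rw [hPm, hPi', ← Matrix.SpecialLinearGroup.coe_mul, inv_mul_cancel]
      rfl
    have hmat : ((Matrix.SpecialLinearGroup.toGL
        (P⁻¹ * xs * P) : GL (Fin (m + 1)) F) :
        Matrix (Fin (m + 1)) (Fin (m + 1)) F) = Pi' * Matrix.diagonal dv * Pm := by
      rw [hPm, hPi', ← hxs]
      rfl
    rw [hmat] at hμ
    obtain ⟨w, hw⟩ : ∃ w : Fin (m + 1) → (Fin (m + 1) → F),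
        w = fun i => Pi'.mulVec (Pi.single i 1) := ⟨_, rfl⟩
    have hyw : ∀ i, (Pi' * Matrix.diagonal dv * Pm).mulVec (w i) = dv i • w i := by
      intro i
      rw [hw]
      simp only
      rw [Matrix.mulVec_mulVec, Matrix.mul_assoc, Matrix.mul_assoc, hPP, Matrix.mul_one,
        ← Matrix.mulVec_mulVec, Matrix.diagonal_mulVec_single, mul_one, ← Matrix.mulVec_smul]
      congr 1
      rw [← Pi.single_smul, smul_eq_mul, mul_one]
    have hspan : ∀ u : Fin (m + 1) → F, u = ∑ j, (Pm.mulVec u) j • w j := by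
      intro u
      have h1 : Pm.mulVec u = ∑ j, (Pm.mulVec u) j • Pi.single j (1 : F) := by
        conv_lhs => rw [pi_eq_sum_univ' (Pm.mulVec u)]
      have h3 : u = Pi'.mulVec (Pm.mulVec u) := by
        rw [Matrix.mulVec_mulVec, hPP', Matrix.one_mulVec]
      conv_lhs => rw [h3, h1]
      rw [Matrix.mulVec_sum]
      apply Finset.sum_congr rfl
      intro j _
      rw [Matrix.mulVec_smul, hw]
    have hfw : ∀ i j, Bf (w i) (w j) ≠ 0 → dv i * dv j = (μ : F) := by
      intro i j h
      have h1 := hμ (w i) (w j)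
      rw [hyw, hyw, ← hBf, ← hBf, map_smul, map_smul, LinearMap.smul_apply, smul_eq_mul,
        smul_eq_mul] at h1
      have h3 : (dv i * dv j - (μ : F)) * Bf (w i) (w j) = 0 := by linear_combination h1
      rcases mul_eq_zero.mp h3 with h4 | h4
      · exact sub_eq_zero.mp h4
      · exact absurd h4 h
    have hrad : ∀ v : Fin (m + 1) → F, (∀ j, Bf v (w j) = 0) → v = 0 := by
      intro v hv
      apply hBfnd
      intro u
      rw [hspan u, map_sum]
      apply Finset.sum_eq_zero
      intro j _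
      rw [map_smul, hv, smul_zero]
    have hwinj : ∀ t : Fin (m + 1) → F, Pi'.mulVec t = 0 → t = 0 := by
      intro t ht
      have := congrArg Pm.mulVec ht
      rw [Matrix.mulVec_mulVec, hPP, Matrix.one_mulVec, Matrix.mulVec_zero] at this
      exact this
    have hskew : ∀ u v, Bf u v = - Bf v u := by
      intro u v
      rw [hBf, hBf]
      exact hf.skew u v
    have h01 : (⟨1, by omega⟩ : Fin (m + 1)) ≠ 0 := by
      intro h; have := congrArg Fin.val h; simp at this
    have h02 : (⟨2, by omega⟩ : Fin (m + 1)) ≠ 0 := by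
      intro h; have := congrArg Fin.val h; simp at this
    have h12 : (⟨1, by omega⟩ : Fin (m + 1)) ≠ ⟨2, by omega⟩ := by
      intro h; have := congrArg Fin.val h; simp at this
    by_cases hμc : (μ : F) = c * c
    · have hw0 : w 0 = 0 := by
        apply hrad
        intro j
        by_contra hne
        have h1 := hfw 0 j hne
        by_cases hj : j = 0
        · rw [hj] at hne
          exact hne (hBfalt (w 0))
        · rw [hdv0, hdvs j hj, hμc] at h1
          have : (2 : F) * (c * c) = 0 := by linear_combination -h1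
          rcases mul_eq_zero.mp this with h | h
          · exact h2 h
          · exact mul_ne_zero hc0 hc0 h
      rw [hw] at hw0
      have := hwinj _ hw0
      have := congrFun this 0
      simp at this
    · have hzero : ∀ i j : Fin (m + 1), i ≠ 0 → j ≠ 0 → Bf (w i) (w j) = 0 := by
        intro i j hi hj
        by_contra hne
        have h1 := hfw i j hne
        rw [hdvs i hi, hdvs j hj] at h1
        apply hμc
        rw [← h1]
        ring
      obtain ⟨a, b, hab, hab0⟩ : ∃ a b : F, (a ≠ 0 ∨ b ≠ 0) ∧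
          a * Bf (w 0) (w ⟨1, by omega⟩) - b * Bf (w 0) (w ⟨2, by omega⟩) = 0 := by
        by_cases h : Bf (w 0) (w ⟨1, by omega⟩) = 0
        · exact ⟨1, 0, Or.inl one_ne_zero, by rw [h]; ring⟩
        · exact ⟨Bf (w 0) (w ⟨2, by omega⟩), Bf (w 0) (w ⟨1, by omega⟩), Or.inr h, by ring⟩
      have hv0 : a • w ⟨1, by omega⟩ - b • w ⟨2, by omega⟩ = 0 := by
        apply hrad
        intro j
        by_cases hj : j = 0
        · rw [hj, hskew, map_sub, map_smul, map_smul, smul_eq_mul, smul_eq_mul, hab0, neg_zero]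
        · rw [map_sub, map_smul, map_smul, LinearMap.sub_apply, LinearMap.smul_apply,
            LinearMap.smul_apply, hzero _ j h01 hj, hzero _ j h02 hj, smul_zero, smul_zero,
            sub_zero]
      have ht : a • Pi.single (⟨1, by omega⟩ : Fin (m + 1)) (1 : F) -
          b • Pi.single (⟨2, by omega⟩ : Fin (m + 1)) (1 : F) = 0 := by
        apply hwinj
        rw [Matrix.mulVec_sub, Matrix.mulVec_smul, Matrix.mulVec_smul]
        rw [hw] at hv0
        exact hv0
      have ht1 := congrFun ht ⟨1, by omega⟩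
      have ht2 := congrFun ht ⟨2, by omega⟩
      simp only [Pi.sub_apply, Pi.smul_apply, Pi.single_eq_same, Pi.single_eq_of_ne h12,
        Pi.single_eq_of_ne h12.symm, smul_eq_mul, mul_one, mul_zero, sub_zero, zero_sub,
        Pi.zero_apply] at ht1 ht2
      rcases hab with h | h
      · exact h ht1
      · exact h (neg_eq_zero.mp ht2)

/-- Involutions of PSL_n(q) and the symplectic-type subgroups. Here `T = PSL_n(F)` for a field `F` with `q` elements, `n ≥ 4` even, `f` is a nondegenerate alternating form on `F^n`, and `H` is the subgroup of matrices of determinant 1 preserving `f` up to a scalar — a maximal subgroup of type Sp_n(q); Ω is the set of `T`-conjugates of `H` (cosets of `H`), so an element of `T` of prime order `r` (a matrix `x` of determinant 1 with `x^r` scalar, `x` not scalar) fixes a point of Ω when some conjugate of `x` by a matrix of determinant 1 preserves `f` up to a scalar. Suppose the index of `H` is even. Then every involution of `T` is conjugate in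 `T` into `H` if and only if `(q − 1)_2 ≤ (n)_2`. -/
theorem result {F : Type*} [Field F] [Fintype F] {p : ℕ} [Fact p.Prime] [CharP F p] {q : ℕ} (hq : Fintype.card F = q)
    (n : ℕ) (hn : 4 ≤ n) (he : Even n) (f : (Fin n → F) → (Fin n → F) → F) (hf : Cfsg.Geo.IsSymplecticForm f)
    (hΩ : 2 ∣ ((Cfsg.Geo.similarityGroup f).comap (Matrix.SpecialLinearGroup.toGL : Matrix.SpecialLinearGroup (Fin n) F →* GL (Fin n) F)).index) :
    (∀ x : Matrix.SpecialLinearGroup (Fin n) F,
      (∃ z : F, ((x ^ 2 : Matrix.SpecialLinearGroup (Fin n) F) : Matrix (Fin n) (Fin n) F) = z • (1 : Matrix (Fin n) (Fin n) F)) →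
      (∀ z : F, (x : Matrix (Fin n) (Fin n) F) ≠ z • (1 : Matrix (Fin n) (Fin n) F)) →
      ∃ P : Matrix.SpecialLinearGroup (Fin n) F, P⁻¹ * x * P ∈ ((Cfsg.Geo.similarityGroup f).comap (Matrix.SpecialLinearGroup.toGL : Matrix.SpecialLinearGroup (Fin n) F →* GL (Fin n) F))) ↔
    padicValNat 2 (q - 1) ≤ padicValNat 2 n := by
  subst hq
  constructor
  · intro hall
    by_contra hcon
    push Not at hcon
    obtain ⟨x, hx1, hx2, hx3⟩ := exists_bad n hn he f hf hcon
    exact hx3 (hall x hx1 hx2)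
  · intro hle x hx1 hx2
    obtain ⟨z, hz⟩ := hx1
    exact conj_of_le n hn he f hf hle x z hz

end Cfsg.Agent.S5967
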