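import Cfsg.Statements.S5968
import Mathlib
import Cfsg.Agent.Lib.Helper40.GSpCrit
import Cfsg.Agent.Lib.Helper40.PrimeElts
import Cfsg.Agent.Lib.Helper40.GSpIndex

set_option autoImplicit false
open scoped MatrixGroups
open Cfsg

namespace Cfsg.Agent.S5968

/-- Derangements of odd prime order of PSL_n(q) on the cosets of a symplectic-type subgroup. Here `T = PSL_n(F)` for a field `F` with `q` elements, `n ≥ 4` even, `f` is a nondegenerate alternating form on `F^n`, and `H` is the subgroup of matrices of determinant 1 preserving `f` up to a scalar — a maximal subgroup of type Sp_n(q); Ω is the set of `T`-conjugates of `H` (cosets of `H`), so an element of `T` of prime order `r` (a matrix `x` of determinant 1 with `x^r` scalar, `x` not scalar) fixes a point of Ω when some conjugate of `x` by a matrix of determinant 1 preserves `f` up to a scalar. For every odd prime `r` dividing the index of `H`, with `(n, r) ≠ (6, 3)`, there is an element of `T` of order `r` with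 no conjugate in `H`. (For `n = 6`, `r = 3` this can fail: when `(q − 1)_3 = 3` every element of order 3 is conjugate into `H`.) -/
theorem result {F : Type*} [Field F] [Fintype F] {p : ℕ} [Fact p.Prime] [CharP F p] {q : ℕ} (hq : Fintype.card F = q)
    (n : ℕ) (hn : 4 ≤ n) (he : Even n) (f : (Fin n → F) → (Fin n → F) → F) (hf : Cfsg.Geo.IsSymplecticForm f)
    (r : ℕ) [Fact r.Prime] (hr2 : r ≠ 2) (hgap : ¬ (n = 6 ∧ r = 3)) (hΩ : r ∣ ((Cfsg.Geo.similarityGroup f).comap (Matrix.SpecialLinearGroup.toGL : Matrix.SpecialLinearGroup (Fin n) F →* GL (Fin n) F)).index) :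
    ∃ x : Matrix.SpecialLinearGroup (Fin n) F,
      (∃ z : F, ((x ^ r : Matrix.SpecialLinearGroup (Fin n) F) : Matrix (Fin n) (Fin n) F) = z • (1 : Matrix (Fin n) (Fin n) F)) ∧
      (∀ z : F, (x : Matrix (Fin n) (Fin n) F) ≠ z • (1 : Matrix (Fin n) (Fin n) F)) ∧
      ∀ P : Matrix.SpecialLinearGroup (Fin n) F, P⁻¹ * x * P ∉ ((Cfsg.Geo.similarityGroup f).comap (Matrix.SpecialLinearGroup.toGL : Matrix.SpecialLinearGroup (Fin n) F →* GL (Fin n) F)) := by
  classical
  subst hq
  have hp : p.Prime := Fact.out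
  have hr : r.Prime := Fact.out
  have hrodd : Odd r := hr.odd_of_ne_two hr2
  have hne : Nonempty (Fin n) := ⟨⟨0, by omega⟩⟩
  -- wrap-up: a matrix violating the criterion gives the derangement
  have wrap : ∀ x₀ : Matrix (Fin n) (Fin n) F, x₀.det = 1 → x₀ ^ r = 1 →
      (∀ z : F, x₀ ≠ z • (1 : Matrix (Fin n) (Fin n) F)) →
      (∀ ν : F, ν ^ r = 1 →
        Even (((x₀ - ν • (1 : Matrix (Fin n) (Fin n) F)) *
          (x₀ - ν • (1 : Matrix (Fin n) (Fin n) F))).rank) →
        (∀ a : F, a ≠ 0 → (x₀ - (ν * a) • (1 : Matrix (Fin n) (Fin n) F)).rank =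
          (x₀ - (ν * a⁻¹) • (1 : Matrix (Fin n) (Fin n) F)).rank) → False) →
      ∃ x : Matrix.SpecialLinearGroup (Fin n) F,
        (∃ z : F, ((x ^ r : Matrix.SpecialLinearGroup (Fin n) F) : Matrix (Fin n) (Fin n) F) = z • (1 : Matrix (Fin n) (Fin n) F)) ∧
        (∀ z : F, (x : Matrix (Fin n) (Fin n) F) ≠ z • (1 : Matrix (Fin n) (Fin n) F)) ∧
        ∀ P : Matrix.SpecialLinearGroup (Fin n) F, P⁻¹ * x * P ∉ ((Cfsg.Geo.similarityGroup f).comap (Matrix.SpecialLinearGroup.toGL : Matrix.SpecialLinearGroup (Fin n) F →* GL (Fin n) F)) := by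
    intro x₀ hdet hx hns hno
    obtain ⟨xs, hxs⟩ : ∃ xs : Matrix.SpecialLinearGroup (Fin n) F,
        (xs : Matrix (Fin n) (Fin n) F) = x₀ := ⟨⟨x₀, hdet⟩, rfl⟩
    refine ⟨xs, ⟨1, ?_⟩, ?_, ?_⟩
    · rw [Matrix.SpecialLinearGroup.coe_pow, one_smul, hxs]
      exact hx
    · rw [hxs]
      exact hns
    · intro P hP
      rw [Subgroup.mem_comap, map_mul, map_mul, map_inv] at hP
      obtain ⟨ν, h1, h2, h3⟩ := Cfsg.Agent.Lib.Helper40.GSpCrit.crit f hf r hrodd x₀ hx
        (Matrix.SpecialLinearGroup.toGL P) (Matrix.SpecialLinearGroup.toGL xs) hxs hP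
      exact hno ν h1 h2 h3
  -- the index
  obtain ⟨m, hm⟩ := he
  obtain ⟨j, hj⟩ : ∃ j, m = j + 1 := ⟨m - 1, by omega⟩
  subst hj
  subst hm
  have hidx := Cfsg.Agent.Lib.Helper40.GSpIndex.index_dvd j f hf
  have hrR := hΩ.trans hidx
  obtain ⟨k, hk, hrk⟩ := (Prime.dvd_finsetProd_iff hr.prime _).mp hrR
  rw [Finset.mem_range] at hk
  have hq1 : 1 ≤ Fintype.card F := Fintype.card_pos
  have hcases : r = p ∨ (r ≠ p ∧ r ∣ Fintype.card F ^ (2 * k + 3) - 1) := by
    by_cases hrp : r = p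
    · exact Or.inl hrp
    · refine Or.inr ⟨hrp, ?_⟩
      rcases (Nat.Prime.dvd_mul hr).mp hrk with h1 | h1
      · exfalso
        have h2 := hr.dvd_of_dvd_pow h1
        obtain ⟨e, -, he⟩ := FiniteField.card F p
        rw [he] at h2
        exact hrp ((Nat.prime_dvd_prime_iff_eq hr hp).mp (hr.dvd_of_dvd_pow h2))
      · exact h1
  rcases hcases with hrp | ⟨hrp, hdvd⟩
  · -- unipotent case
    subst hrp
    obtain ⟨x₀, hdet, hx, hns, hrk1⟩ :=
      Cfsg.Agent.Lib.Helper40.PrimeElts.unip_elt (F := F) r hr2 (j + 1 + (j + 1)) (by omega)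
    apply wrap x₀ hdet hx hns
    intro ν hν hev _
    have hν1 : ν = 1 := by
      have h1 : frobenius F r ν = frobenius F r 1 := by
        rw [frobenius_def, frobenius_def, hν, one_pow]
      exact frobenius_inj F r h1
    rw [hν1, one_smul, hrk1] at hev
    exact absurd hev (by decide)
  · obtain ⟨i, hi⟩ : ∃ i, i = orderOf ((Fintype.card F : ℕ) : ZMod r) := ⟨_, rfl⟩
    have hidvd : i ∣ 2 * k + 3 := by
      rw [hi]
      exact (Cfsg.Agent.Lib.Helper40.CycloVal.dvd_pow_sub_one_iff (Fintype.card F) r hq1 _).mp hdvd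
    have hiodd : Odd i := by
      have h1 : Odd (2 * k + 3) := ⟨k + 1, by ring⟩
      exact Odd.of_dvd_nat h1 hidvd
    have hile : i ≤ 2 * k + 3 := Nat.le_of_dvd (by omega) hidvd
    by_cases hi1 : i = 1
    · -- diagonal case
      have hrq : r ∣ Fintype.card F - 1 := by
        have h1 := (Cfsg.Agent.Lib.Helper40.CycloVal.dvd_pow_sub_one_iff (Fintype.card F) r hq1 1).mpr
          (by rw [← hi, hi1])
        rw [pow_one] at h1
        exact h1
      have hcu : Nat.card Fˣ = Fintype.card F - 1 := by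
        rw [Nat.card_eq_fintype_card, Fintype.card_units]
      obtain ⟨y, hy⟩ := exists_prime_orderOf_dvd_card' (G := Fˣ) r (by rw [hcu]; exact hrq)
      obtain ⟨x₀, hdet, hx, hns, hno⟩ := Cfsg.Agent.Lib.Helper40.PrimeElts.diag_elt r hr hr2
        (j + 1 + (j + 1)) hn ⟨j + 1, rfl⟩ hgap (y : F) (by rw [orderOf_units]; exact hy)
      exact wrap x₀ hdet hx hns hno
    · -- irreducible block
      have hi2 : 2 ≤ i := by
        obtain ⟨a, ha⟩ := hiodd
        omega
      obtain ⟨x₀, hdet, hx, hns, hrk1⟩ := Cfsg.Agent.Lib.Helper40.PrimeElts.block_elt (F := F) p r hr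
        hrp i hi hi2 (j + 1 + (j + 1)) (by omega)
      apply wrap x₀ hdet hx hns
      intro ν hν hev _
      have hν1 : ν = 1 :=
        Cfsg.Agent.Lib.Helper40.PrimeElts.root_trivial r hr (by rw [← hi]; exact hi1) ν hν
      rw [hν1, one_smul, hrk1] at hev
      exact (Nat.not_even_iff_odd.mpr hiodd) hev

end Cfsg.Agent.S5968
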