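import Cfsg.Statements.S5969
import Cfsg.Agent.Lib.Helper37.InvConj
import Cfsg.Agent.Lib.Helper37.NegOnePow
import Cfsg.Agent.Lib.Helper37.NonsqPow
import Cfsg.Agent.Lib.Helper37.QuadGen
import Cfsg.Agent.Lib.Helper37.QuadConj
import Cfsg.Agent.Lib.Helper37.QuadRoot

set_option autoImplicit false
open scoped MatrixGroups
open Cfsg

namespace Cfsg.Agent.S5969

/-- A scalar multiple of `1 + u wᵀ` of determinant 1 whose square is scalar. -/
theorem mk_bad {F : Type*} [Field F] (n : ℕ) (s : F) (u w : Fin n → F)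
    (hdet : s ^ n * (1 + w ⬝ᵥ u) = 1) (hsq : 2 + w ⬝ᵥ u = 0) :
    ∃ x : Matrix.SpecialLinearGroup (Fin n) F,
      (x : Matrix (Fin n) (Fin n) F) = s • (1 + Matrix.vecMulVec u w) ∧
      ((x ^ 2 : Matrix.SpecialLinearGroup (Fin n) F) : Matrix (Fin n) (Fin n) F) =
        (s * s) • (1 : Matrix (Fin n) (Fin n) F) := by
  have hd : (s • (1 + Matrix.vecMulVec u w)).det = 1 := by
    rw [Matrix.det_smul, Fintype.card_fin, Matrix.vecMulVec_eq Unit,
      Matrix.det_one_add_replicateCol_mul_replicateRow, hdet]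
  obtain ⟨xs, hxs⟩ : ∃ xs : Matrix.SpecialLinearGroup (Fin n) F,
      (xs : Matrix (Fin n) (Fin n) F) = s • (1 + Matrix.vecMulVec u w) := ⟨⟨_, hd⟩, rfl⟩
  refine ⟨xs, hxs, ?_⟩
  rw [pow_two]
  show (xs : Matrix (Fin n) (Fin n) F) * (xs : Matrix (Fin n) (Fin n) F) = _
  rw [hxs, Matrix.smul_mul, Matrix.mul_smul, smul_smul]
  congr 1
  have hwu : w ⬝ᵥ u = -2 := by linear_combination hsq
  have hNN : Matrix.vecMulVec u w * Matrix.vecMulVec u w = (-2 : F) • Matrix.vecMulVec u w := by
    rw [Matrix.vecMulVec_mul_vecMulVec, Matrix.vecMulVec_smul, hwu]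
  rw [Matrix.add_mul, Matrix.one_mul, Matrix.mul_add, Matrix.mul_one, hNN]
  module

/-- A non-scalar involution modulo scalars of the form `s (1 + N)` with `N` of rank one. -/
theorem exists_bad {F : Type*} [Field F] [Fintype F] (n : ℕ) (hn : 3 ≤ n)
    (h : (2 : F) = 0 ∨ padicValNat 2 n < padicValNat 2 (Fintype.card F - 1)) :
    ∃ x : Matrix.SpecialLinearGroup (Fin n) F,
      (∃ z : F, ((x ^ 2 : Matrix.SpecialLinearGroup (Fin n) F) : Matrix (Fin n) (Fin n) F) =
        z • (1 : Matrix (Fin n) (Fin n) F)) ∧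
      (∀ z : F, (x : Matrix (Fin n) (Fin n) F) ≠ z • (1 : Matrix (Fin n) (Fin n) F)) ∧
      ∃ (s : F) (u w : Fin n → F), Matrix.vecMulVec u w ≠ 0 ∧
        (x : Matrix (Fin n) (Fin n) F) = s • (1 + Matrix.vecMulVec u w) := by
  classical
  obtain ⟨i₀, i₁, h01⟩ : ∃ i₀ i₁ : Fin n, i₀ ≠ i₁ :=
    ⟨⟨0, by omega⟩, ⟨1, by omega⟩, by intro h; have := congrArg Fin.val h; simp at this⟩
  by_cases h2 : (2 : F) = 0
  · have hwu : (Pi.single i₁ (1 : F) : Fin n → F) ⬝ᵥ (Pi.single i₀ (1 : F) : Fin n → F) = 0 := by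
      rw [single_dotProduct, Pi.single_eq_of_ne (Ne.symm h01), mul_zero]
    obtain ⟨x, hx, hx2⟩ := mk_bad n (1 : F) (Pi.single i₀ 1) (Pi.single i₁ 1)
      (by rw [hwu, one_pow, add_zero, mul_one]) (by rw [hwu, add_zero, h2])
    have hent : Matrix.vecMulVec (Pi.single i₀ (1 : F) : Fin n → F) (Pi.single i₁ (1 : F))
        i₀ i₁ = 1 := by
      rw [Matrix.vecMulVec_apply, Pi.single_eq_same, Pi.single_eq_same, mul_one]
    refine ⟨x, ⟨_, hx2⟩, ?_, 1, _, _, ?_, hx⟩
    · intro z hz
      rw [hx] at hz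
      have := congrFun (congrFun hz i₀) i₁
      rw [Matrix.smul_apply, Matrix.add_apply, hent, Matrix.one_apply_ne h01, Matrix.smul_apply,
        Matrix.one_apply_ne h01] at this
      simp at this
    · intro h0
      have := congrFun (congrFun h0 i₀) i₁
      rw [hent] at this
      simp at this
  · have hlt : padicValNat 2 n < padicValNat 2 (Fintype.card F - 1) := by
      rcases h with h | h
      · exact absurd h h2
      · exact h
    obtain ⟨c, hc⟩ := Cfsg.Agent.Lib.Helper37.NegOnePow.exists_pow_eq_neg_one (F := F) n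
      (by omega) hlt
    have hc0 : c ≠ 0 := by
      rintro rfl
      rw [zero_pow (by omega)] at hc
      exact neg_ne_zero.mpr one_ne_zero hc.symm
    have hwu : (Pi.single i₀ (1 : F) : Fin n → F) ⬝ᵥ (Pi.single i₀ (-2 : F) : Fin n → F) =
        -2 := by
      rw [single_dotProduct, Pi.single_eq_same, one_mul]
    obtain ⟨x, hx, hx2⟩ := mk_bad n c (Pi.single i₀ (-2)) (Pi.single i₀ 1)
      (by rw [hwu, hc]; ring) (by rw [hwu]; ring)
    have hent0 : Matrix.vecMulVec (Pi.single i₀ (-2 : F) : Fin n → F) (Pi.single i₀ (1 : F))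
        i₀ i₀ = -2 := by
      rw [Matrix.vecMulVec_apply, Pi.single_eq_same, Pi.single_eq_same, mul_one]
    have hent1 : Matrix.vecMulVec (Pi.single i₀ (-2 : F) : Fin n → F) (Pi.single i₀ (1 : F))
        i₁ i₁ = 0 := by
      rw [Matrix.vecMulVec_apply, Pi.single_eq_of_ne (Ne.symm h01), zero_mul]
    refine ⟨x, ⟨_, hx2⟩, ?_, c, _, _, ?_, hx⟩
    · intro z hz
      rw [hx] at hz
      have e0 := congrFun (congrFun hz i₀) i₀
      have e1 := congrFun (congrFun hz i₁) i₁
      rw [Matrix.smul_apply, Matrix.add_apply, hent0, Matrix.one_apply_eq, Matrix.smul_apply,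
        Matrix.one_apply_eq, smul_eq_mul, smul_eq_mul] at e0
      rw [Matrix.smul_apply, Matrix.add_apply, hent1, Matrix.one_apply_eq, Matrix.smul_apply,
        Matrix.one_apply_eq, smul_eq_mul, smul_eq_mul] at e1
      have h3 : (2 : F) * c = 0 := by linear_combination e1 - e0
      rcases mul_eq_zero.mp h3 with h | h
      · exact h2 h
      · exact hc0 h
    · intro h0
      have := congrFun (congrFun h0 i₀) i₀
      rw [hent0] at this
      apply h2
      simpa using this

/-- Involutions of PSL_n(q) and extension-field subgroups of degree 2. Here `T = PSL_n(F)` for a field `F` with `q = p^f` elements (`n ≥ 2`, `(n, q) ≠ (2, 2), (2, 3)`), `k` is a prime dividing `n`, `K` is a subalgebra of the `n × n` matrices that is a field of degree `k` over `F` (an extension-field structure F_{q^k} on `F^n`), and `H` is the subgroup of matrices of determinant 1 normalizing `K` — a subgroup of type GL_{n/k}(q^k) (maximal except in some small cases; maximality is not assumed);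 Ω is the set of cosets of `H` in `T`, so an element of `T` of prime order `r` (a matrix `x` of determinant 1 with `x^r` scalar, `x` not scalar) fixes a point of Ω when some conjugate of `x` by a matrix of determinant 1 normalizes `K`. Take `k = 2` and suppose the index of `H` is even. Then every involution of `T` is conjugate in `T` into `H` if and only if `n = 2`, or `q` is odd and `(q − 1)_2 ≤ (n)_2`. -/
theorem result {F : Type*} [Field F] [Fintype F] {p : ℕ} [Fact p.Prime] [CharP F p] {q : ℕ} (hq : Fintype.card F = q)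
    (n : ℕ) (hn : 2 ≤ n) (hT : (n, q) ≠ (2, 2) ∧ (n, q) ≠ (2, 3))
    (k : ℕ) (hk : k.Prime) (hkn : k ∣ n) (K : Subalgebra F (Matrix (Fin n) (Fin n) F)) (hK : Cfsg.Geo.IsFieldSubalgebra k K) (hk2 : k = 2) (hΩ : 2 ∣ ((Cfsg.Geo.subalgebraNormalizer K).comap (Matrix.SpecialLinearGroup.toGL : Matrix.SpecialLinearGroup (Fin n) F →* GL (Fin n) F)).index) :
    (∀ x : Matrix.SpecialLinearGroup (Fin n) F,
      (∃ z : F, ((x ^ 2 : Matrix.SpecialLinearGroup (Fin n) F) : Matrix (Fin n) (Fin n) F) = z • (1 : Matrix (Fin n) (Fin n) F)) →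
      (∀ z : F, (x : Matrix (Fin n) (Fin n) F) ≠ z • (1 : Matrix (Fin n) (Fin n) F)) →
      ∃ P : Matrix.SpecialLinearGroup (Fin n) F, P⁻¹ * x * P ∈ ((Cfsg.Geo.subalgebraNormalizer K).comap (Matrix.SpecialLinearGroup.toGL : Matrix.SpecialLinearGroup (Fin n) F →* GL (Fin n) F))) ↔
    (n = 2 ∨ (Odd q ∧ padicValNat 2 (q - 1) ≤ padicValNat 2 n)) := by
  classical
  subst hk2
  subst hq
  have hn0 : 0 < n := by omega
  have heven : Even n := even_iff_two_dvd.mpr hkn
  constructor
  · intro hall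
    by_contra hcon
    push Not at hcon
    obtain ⟨hn2, himp⟩ := hcon
    have hn3 : 3 ≤ n := by omega
    have hbad : (2 : F) = 0 ∨ padicValNat 2 n < padicValNat 2 (Fintype.card F - 1) := by
      by_cases h2 : (2 : F) = 0
      · exact Or.inl h2
      · right
        apply himp
        have := FiniteField.odd_card_of_char_ne_two
          (Cfsg.Agent.Lib.Helper37.NonsqPow.ringChar_ne_two h2)
        exact Nat.odd_iff.mpr this
    obtain ⟨x, hx2, hxns, s, u, w, hN, hxm⟩ := exists_bad n hn3 hbad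
    obtain ⟨P, hP⟩ := hall x hx2 hxns
    rw [Subgroup.mem_comap] at hP
    obtain ⟨Pm, hPm⟩ : ∃ Pm : Matrix (Fin n) (Fin n) F, Pm = (P : Matrix _ _ F) := ⟨_, rfl⟩
    obtain ⟨Pi', hPi'⟩ : ∃ Pi' : Matrix (Fin n) (Fin n) F,
        Pi' = ((P⁻¹ : Matrix.SpecialLinearGroup (Fin n) F) : Matrix _ _ F) := ⟨_, rfl⟩
    have hPP : Pm * Pi' = 1 := by
      rw [hPm, hPi', ← Matrix.SpecialLinearGroup.coe_mul, mul_inv_cancel]
      rfl
    have hPP' : Pi' * Pm = 1 := by
      rw [hPm, hPi', ← Matrix.SpecialLinearGroup.coe_mul, inv_mul_cancel]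
      rfl
    have hmat : ((Matrix.SpecialLinearGroup.toGL (P⁻¹ * x * P) : GL (Fin n) F) :
        Matrix (Fin n) (Fin n) F) = Pi' * (x : Matrix (Fin n) (Fin n) F) * Pm := by
      rw [hPm, hPi']
      rfl
    have e : Matrix.vecMulVec (Pi'.mulVec u) (Matrix.vecMul w Pm) =
        Pi' * Matrix.vecMulVec u w * Pm := by
      rw [Matrix.mul_vecMulVec, Matrix.vecMulVec_mul]
    refine Cfsg.Agent.Lib.Helper37.QuadGen.not_mem_normalizer hn3 K hK _ s (Pi'.mulVec u)
      (Matrix.vecMul w Pm) ?_ ?_ hP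
    · intro h0
      apply hN
      rw [e] at h0
      calc Matrix.vecMulVec u w = (Pm * Pi') * Matrix.vecMulVec u w * (Pm * Pi') := by
            rw [hPP, Matrix.one_mul, Matrix.mul_one]
        _ = Pm * (Pi' * Matrix.vecMulVec u w * Pm) * Pi' := by simp only [Matrix.mul_assoc]
        _ = 0 := by rw [h0, Matrix.mul_zero, Matrix.zero_mul]
    · rw [hmat, hxm, e, Matrix.mul_smul, Matrix.smul_mul, Matrix.mul_add, Matrix.add_mul,
        Matrix.mul_one, hPP']
  · intro hcond x hx2 hxns
    obtain ⟨z, hz⟩ := hx2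
    obtain ⟨A, hA⟩ : ∃ A : Matrix (Fin n) (Fin n) F, A = (x : Matrix (Fin n) (Fin n) F) :=
      ⟨_, rfl⟩
    have hAA : A * A = z • (1 : Matrix (Fin n) (Fin n) F) := by
      rw [← hz, hA, pow_two]
      rfl
    have hdet : A.det = 1 := by rw [hA]; exact x.2
    obtain ⟨J, a, b, hJK, hJJ, hmem, hirr, hJns⟩ :=
      Cfsg.Agent.Lib.Helper37.QuadGen.exists_gen hn0 K hK
    have hcond' : n = 2 ∨
        ((2 : F) ≠ 0 ∧ padicValNat 2 (Fintype.card F - 1) ≤ padicValNat 2 n) := by
      rcases hcond with h | ⟨hodd, hle⟩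
      · exact Or.inl h
      · refine Or.inr ⟨?_, hle⟩
        intro h2
        have hchar : ringChar F = 2 := by
          have : CharP F 2 := by
            apply CharTwo.of_one_ne_zero_of_two_eq_zero one_ne_zero
            exact_mod_cast h2
          exact ringChar.eq F 2
        have h3 := FiniteField.even_card_iff_char_two.mp hchar
        have h4 := Nat.odd_iff.mp hodd
        omega
    obtain ⟨J', hJ'J', hAJ'⟩ := Cfsg.Agent.Lib.Helper37.QuadRoot.exists_root hn heven A z hAA
      hdet (by rw [hA]; exact hxns) a b hirr hcond'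
    obtain ⟨T, hT⟩ := Cfsg.Agent.Lib.Helper37.QuadConj.exists_conj J J' a b hJJ hJ'J' hirr
    apply Cfsg.Agent.Lib.Helper37.InvConj.exists_sl_conj hn0 x (z := z)
      (by rw [← hA]; exact hAA) (Cfsg.Geo.subalgebraNormalizer K) T
    apply Cfsg.Agent.Lib.Helper37.QuadGen.mem_normalizer K J a hJK hmem
    obtain ⟨Tm, hTm⟩ : ∃ Tm : Matrix (Fin n) (Fin n) F, Tm = (T : Matrix (Fin n) (Fin n) F) :=
      ⟨_, rfl⟩
    obtain ⟨Ti, hTi⟩ : ∃ Ti : Matrix (Fin n) (Fin n) F,
        Ti = ((T⁻¹ : GL (Fin n) F) : Matrix (Fin n) (Fin n) F) := ⟨_, rfl⟩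
    have hTT : Tm * Ti = 1 := by
      rw [hTm, hTi, ← Units.val_mul, mul_inv_cancel]
      rfl
    have hTT' : Ti * Tm = 1 := by
      rw [hTm, hTi, ← Units.val_mul, inv_mul_cancel]
      rfl
    have hmat : ((T * Matrix.SpecialLinearGroup.toGL x * T⁻¹ : GL (Fin n) F) :
        Matrix (Fin n) (Fin n) F) = Tm * A * Ti := by
      rw [Units.val_mul, Units.val_mul, hA, hTm, hTi]
      rfl
    rw [hmat]
    rw [← hTm] at hT
    have hJTi : Ti * J = J' * Ti := by
      calc Ti * J = Ti * J * (Tm * Ti) := by rw [hTT, Matrix.mul_one]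
        _ = Ti * (J * Tm) * Ti := by simp only [Matrix.mul_assoc]
        _ = Ti * (Tm * J') * Ti := by rw [hT]
        _ = J' * Ti := by rw [← Matrix.mul_assoc Ti Tm, hTT', Matrix.one_mul]
    rcases hAJ' with h | h
    · left
      calc Tm * A * Ti * J = Tm * A * (Ti * J) := by simp only [Matrix.mul_assoc]
        _ = Tm * (A * J') * Ti := by rw [hJTi]; simp only [Matrix.mul_assoc]
        _ = Tm * (J' * A) * Ti := by rw [h]
        _ = (Tm * J') * A * Ti := by simp only [Matrix.mul_assoc]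
        _ = J * (Tm * A * Ti) := by rw [hT]; simp only [Matrix.mul_assoc]
    · right
      calc Tm * A * Ti * J = Tm * A * (Ti * J) := by simp only [Matrix.mul_assoc]
        _ = Tm * (A * J') * Ti := by rw [hJTi]; simp only [Matrix.mul_assoc]
        _ = Tm * ((a • 1 - J') * A) * Ti := by rw [h]
        _ = (a • Tm - Tm * J') * A * Ti := by
            simp only [Matrix.mul_sub, Matrix.sub_mul, Matrix.mul_smul, Matrix.smul_mul,
              Matrix.mul_one, Matrix.one_mul, Matrix.mul_assoc]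
        _ = (a • 1 - J) * (Tm * A * Ti) := by
            rw [hT]
            simp only [Matrix.mul_sub, Matrix.sub_mul, Matrix.mul_smul, Matrix.smul_mul,
              Matrix.mul_one, Matrix.one_mul, Matrix.mul_assoc]

end Cfsg.Agent.S5969
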