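import Cfsg.Statements.S5970
import Cfsg.Agent.Lib.Helper37.SingerD

set_option autoImplicit false
open scoped MatrixGroups
open Cfsg

namespace Cfsg.Agent.S5970

open Module Cfsg.Agent.Lib.Helper37.SingerD

/-- If `q` does not have order `n - 1` modulo the prime `n ≥ 5`, some element of order `n` of
`PSL_n(q)` is not conjugate into the normalizer of a Singer cycle. -/
theorem exists_bad {F : Type*} [Field F] [Fintype F] {p : ℕ} [Fact p.Prime] [CharP F p] {n : ℕ}
    [Fact n.Prime] (hn5 : 5 ≤ n) (hnp : n ≠ p)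
    (K : Subalgebra F (Matrix (Fin n) (Fin n) F)) (hK : Cfsg.Geo.IsFieldSubalgebra n K)
    (hord : orderOf (Fintype.card F : ZMod n) ≠ n - 1) :
    ∃ x : Matrix.SpecialLinearGroup (Fin n) F,
      ((x ^ n : Matrix.SpecialLinearGroup (Fin n) F) : Matrix (Fin n) (Fin n) F) =
        (1 : F) • (1 : Matrix (Fin n) (Fin n) F) ∧
      (∀ z : F, (x : Matrix (Fin n) (Fin n) F) ≠ z • (1 : Matrix (Fin n) (Fin n) F)) ∧
      ¬ ∃ P : Matrix.SpecialLinearGroup (Fin n) F, P⁻¹ * x * P ∈
        (Cfsg.Geo.subalgebraNormalizer K).comap (Matrix.SpecialLinearGroup.toGL :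
          Matrix.SpecialLinearGroup (Fin n) F →* GL (Fin n) F) := by
  classical
  have hnprime : n.Prime := Fact.out
  have hpprime : p.Prime := Fact.out
  obtain ⟨q, hq⟩ : ∃ q, q = Fintype.card F := ⟨_, rfl⟩
  rw [← hq] at hord
  have hq2 : 2 ≤ q := by
    rw [hq]
    exact Fintype.one_lt_card
  obtain ⟨f, -, hqf⟩ := FiniteField.card F p
  have hq0 : (q : ZMod n) ≠ 0 := by
    intro h0
    rw [ZMod.natCast_eq_zero_iff, hq, hqf] at h0
    have h1 := hnprime.dvd_of_dvd_pow h0
    exact hnp ((Nat.prime_dvd_prime_iff_eq hnprime hpprime).mp h1)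
  have hfermat : (q : ZMod n) ^ (n - 1) = 1 := ZMod.pow_card_sub_one_eq_one hq0
  obtain ⟨i, hi⟩ : ∃ i, i = orderOf (q : ZMod n) := ⟨_, rfl⟩
  rw [← hi] at hord
  have hidvd : i ∣ n - 1 := by
    rw [hi]
    exact orderOf_dvd_of_pow_eq_one hfermat
  have hipos : 0 < i := Nat.pos_of_dvd_of_pos hidvd (by omega)
  have h2i : 2 * i ≤ n - 1 := by
    obtain ⟨c, hc⟩ := hidvd
    have hc2 : 2 ≤ c := by
      rcases c with _ | _ | c
      · omega
      · omega
      · omega
    calc 2 * i ≤ c * i := Nat.mul_le_mul_right i hc2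
      _ = n - 1 := by rw [hc, mul_comm]
  have hcardU : Nat.card Fˣ = q - 1 := by
    rw [Nat.card_units, Nat.card_eq_fintype_card, ← hq]
  by_cases hi1 : i = 1
  · -- `n ∣ q - 1`
    have hq1 : (q : ZMod n) = 1 := by
      rw [hi1] at hi
      exact orderOf_eq_one_iff.mp hi.symm
    have hdvd : n ∣ q - 1 := by
      rw [← ZMod.natCast_eq_zero_iff, Nat.cast_sub (by omega), hq1, Nat.cast_one, sub_self]
    obtain ⟨ζ, hζ⟩ := exists_prime_orderOf_dvd_card' (G := Fˣ) n (by rw [hcardU]; exact hdvd)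
    have hζn : ζ ^ n = 1 := by
      rw [← hζ]
      exact pow_orderOf_eq_one ζ
    have hζ1 : ζ ≠ 1 := by
      rintro rfl
      rw [orderOf_one] at hζ
      omega
    obtain ⟨A, hA⟩ : ∃ A : Matrix (Fin 2) (Fin 2) F,
        A = Matrix.diagonal ![(ζ : F), ((ζ⁻¹ : Fˣ) : F)] := ⟨_, rfl⟩
    refine exists_bad_of_small K hK 2 (by omega) A n ?_ ?_ ?_
    · rw [hA, Matrix.diagonal_pow, ← Matrix.diagonal_one]
      congr 1
      funext j
      fin_cases j
      · show (ζ : F) ^ n = 1
        rw [← Units.val_pow_eq_pow_val, hζn, Units.val_one]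
      · show ((ζ⁻¹ : Fˣ) : F) ^ n = 1
        rw [← Units.val_pow_eq_pow_val, inv_pow, hζn, inv_one, Units.val_one]
    · intro h1
      have h2 := congrFun (congrFun h1 0) 0
      rw [hA] at h2
      simp only [Matrix.diagonal_apply_eq, Matrix.cons_val_zero, Matrix.one_apply_eq] at h2
      exact hζ1 (Units.ext h2)
    · rw [hA, Matrix.det_diagonal, Fin.prod_univ_two]
      show (ζ : F) * ((ζ⁻¹ : Fˣ) : F) = 1
      rw [← Units.val_mul, mul_inv_cancel, Units.val_one]
  · -- `2 ≤ i`
    have hi2 : 2 ≤ i := by omega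
    have hq1 : ¬ n ∣ q - 1 := by
      intro hdvd
      have h1 : ((q - 1 : ℕ) : ZMod n) = 0 := (ZMod.natCast_eq_zero_iff _ _).mpr hdvd
      have h2 : (q : ZMod n) = 1 := by
        have e : q = q - 1 + 1 := by omega
        rw [e, Nat.cast_add, h1, zero_add, Nat.cast_one]
      rw [h2, orderOf_one] at hi
      exact hi1 hi
    have hqi : n ∣ q ^ i - 1 := by
      rw [← ZMod.natCast_eq_zero_iff, Nat.cast_sub (Nat.one_le_pow _ _ (by omega)), Nat.cast_pow,
        hi, pow_orderOf_eq_one, Nat.cast_one, sub_self]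
    have hGL : n ∣ Nat.card (GL (Fin i) F) := by
      rw [Matrix.card_GL_field, ← hq]
      have h1 : (q ^ i - q ^ ((⟨0, hipos⟩ : Fin i) : ℕ)) ∣ ∏ j : Fin i, (q ^ i - q ^ (j : ℕ)) :=
        Finset.dvd_prod_of_mem _ (Finset.mem_univ _)
      have h2 : q ^ i - q ^ ((⟨0, hipos⟩ : Fin i) : ℕ) = q ^ i - 1 := by
        show q ^ i - q ^ 0 = q ^ i - 1
        rw [pow_zero]
      rw [h2] at h1
      exact hqi.trans h1
    obtain ⟨y₀, hy₀⟩ := exists_prime_orderOf_dvd_card' (G := GL (Fin i) F) n hGL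
    have hy₀n : y₀ ^ n = 1 := by
      rw [← hy₀]
      exact pow_orderOf_eq_one y₀
    have hy₀1 : y₀ ≠ 1 := by
      rintro rfl
      rw [orderOf_one] at hy₀
      omega
    refine exists_bad_of_small K hK i (by omega) (y₀ : Matrix (Fin i) (Fin i) F) n ?_ ?_ ?_
    · rw [← Units.val_pow_eq_pow_val, hy₀n, Units.val_one]
    · intro h1
      exact hy₀1 (Units.ext h1)
    · obtain ⟨d, hd⟩ : ∃ d : Fˣ, d = Matrix.GeneralLinearGroup.det y₀ := ⟨_, rfl⟩
      have hdn : d ^ n = 1 := by
        rw [hd, ← map_pow, hy₀n, map_one]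
      have h1 : orderOf d ∣ n := orderOf_dvd_of_pow_eq_one hdn
      have h2 : orderOf d ∣ q - 1 := by
        rw [← hcardU]
        exact orderOf_dvd_natCard d
      have h3 : orderOf d = 1 := by
        rcases (Nat.dvd_prime hnprime).mp h1 with h | h
        · exact h
        · rw [h] at h2
          exact absurd h2 hq1
      have h4 : d = 1 := orderOf_eq_one_iff.mp h3
      have h5 : (d : F) = (y₀ : Matrix (Fin i) (Fin i) F).det := by
        rw [hd]
        rfl
      rw [← h5, h4, Units.val_one]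

/-- Elements of order `n` of PSL_n(q), `n` prime, and the normalizer of a Singer cycle. Here `T = PSL_n(F)` for a field `F` with `q = p^f` elements (`n ≥ 2`, `(n, q) ≠ (2, 2), (2, 3)`), `k` is a prime dividing `n`, `K` is a subalgebra of the `n × n` matrices that is a field of degree `k` over `F` (an extension-field structure F_{q^k} on `F^n`), and `H` is the subgroup of matrices of determinant 1 normalizing `K` — a subgroup of type GL_{n/k}(q^k) (maximal except in some small cases; maximality is not assumed); Ω is the set of cosets of `H` in `T`, so an element of `T` of prime order `r` (a matrix `x` of determinant 1 with `x^r` scalar, `x` not scalar) fixes a point of Ω when some conjugate of `x` by a matrix of determinant 1 normalizes `K`. Take `k = n > 3` prime with `n ≠ p` (so `H` is the normalizer of a Singer cycle), and suppose `n` divides the index of `H`. Then every element of `T` of order `n` is conjugate in `T` into `H` if and only if the multiplicative order of `q`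 modulo `n` is `n − 1`. -/
theorem result {F : Type*} [Field F] [Fintype F] {p : ℕ} [Fact p.Prime] [CharP F p] {q : ℕ} (hq : Fintype.card F = q)
    (n : ℕ) (hn : 2 ≤ n) (hT : (n, q) ≠ (2, 2) ∧ (n, q) ≠ (2, 3))
    (k : ℕ) (hk : k.Prime) (hkn : k ∣ n) (K : Subalgebra F (Matrix (Fin n) (Fin n) F)) (hK : Cfsg.Geo.IsFieldSubalgebra k K) (hkn' : k = n) (hn3 : 3 < n) (hnp : n ≠ p) (hΩ : n ∣ ((Cfsg.Geo.subalgebraNormalizer K).comap (Matrix.SpecialLinearGroup.toGL : Matrix.SpecialLinearGroup (Fin n) F →* GL (Fin n) F)).index) :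
    (∀ x : Matrix.SpecialLinearGroup (Fin n) F,
      (∃ z : F, ((x ^ n : Matrix.SpecialLinearGroup (Fin n) F) : Matrix (Fin n) (Fin n) F) = z • (1 : Matrix (Fin n) (Fin n) F)) →
      (∀ z : F, (x : Matrix (Fin n) (Fin n) F) ≠ z • (1 : Matrix (Fin n) (Fin n) F)) →
      ∃ P : Matrix.SpecialLinearGroup (Fin n) F, P⁻¹ * x * P ∈ ((Cfsg.Geo.subalgebraNormalizer K).comap (Matrix.SpecialLinearGroup.toGL : Matrix.SpecialLinearGroup (Fin n) F →* GL (Fin n) F))) ↔
    orderOf (q : ZMod n) = n - 1 := by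
  subst hkn'
  subst hq
  have : Fact k.Prime := ⟨hk⟩
  have h5 : 5 ≤ k := by
    by_contra hlt
    have h4 : k = 4 := by omega
    rw [h4] at hk
    exact absurd hk (by norm_num)
  constructor
  · intro hyp
    by_contra hord
    obtain ⟨x, hx1, hx2, hx3⟩ := exists_bad h5 hnp K hK hord
    exact hx3 (hyp x ⟨1, hx1⟩ hx2)
  · intro hord x hx hns
    obtain ⟨z, hz⟩ := hx
    exact conj_into_normalizer (by omega) hnp hord K hK x z hz hns

end Cfsg.Agent.S5970
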