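import Cfsg.Statements.S5971
import Cfsg.Agent.S5966
import Cfsg.Agent.Lib.Helper37.SingerD
import Cfsg.Agent.Lib.Helper37.SingerE

set_option autoImplicit false
open scoped MatrixGroups
open Cfsg

namespace Cfsg.Agent.S5971

open Module Cfsg.Agent.Lib.Helper37.SingerA Cfsg.Agent.Lib.Helper37.SingerB
  Cfsg.Agent.Lib.Helper37.SingerD Cfsg.Agent.Lib.Helper37.SingerE

open scoped Matrix

theorem orderOf_two_zmod3 (q : ℕ) (h : q % 3 = 2) : orderOf ((q : ℕ) : ZMod 3) = 2 := by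
  have e : ((q : ℕ) : ZMod 3) = 2 := by
    rw [← ZMod.natCast_mod, h]
    decide
  rw [e]
  have h1 : (2 : ZMod 3) ^ 2 = 1 := by decide
  have h2 : (2 : ZMod 3) ≠ 1 := by decide
  haveI : Fact (Nat.Prime 2) := ⟨Nat.prime_two⟩
  exact orderOf_eq_prime h1 h2

/-- In characteristic 3, a transvection of `SL_3` is not conjugate into the normalizer of a
Singer cycle. -/
theorem exists_bad_unip {F : Type*} [Field F] [CharP F 3]
    (K : Subalgebra F (Matrix (Fin 3) (Fin 3) F)) (hK : Cfsg.Geo.IsFieldSubalgebra 3 K) :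
    ∃ x : Matrix.SpecialLinearGroup (Fin 3) F,
      ((x ^ 3 : Matrix.SpecialLinearGroup (Fin 3) F) : Matrix (Fin 3) (Fin 3) F) =
        (1 : F) • (1 : Matrix (Fin 3) (Fin 3) F) ∧
      (∀ z : F, (x : Matrix (Fin 3) (Fin 3) F) ≠ z • (1 : Matrix (Fin 3) (Fin 3) F)) ∧
      ¬ ∃ P : Matrix.SpecialLinearGroup (Fin 3) F, P⁻¹ * x * P ∈
        (Cfsg.Geo.subalgebraNormalizer K).comap (Matrix.SpecialLinearGroup.toGL :
          Matrix.SpecialLinearGroup (Fin 3) F →* GL (Fin 3) F) := by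
  classical
  obtain ⟨N, hN⟩ : ∃ N : Matrix (Fin 3) (Fin 3) F, N = !![0, 1, 0; 0, 0, 0; 0, 0, 0] :=
    ⟨_, rfl⟩
  have hNN : N * N = 0 := by
    rw [hN]
    ext i j
    fin_cases i <;> fin_cases j <;> simp [Matrix.mul_apply, Fin.sum_univ_three]
  have hN0 : N *ᵥ Pi.single 0 1 = 0 := by
    rw [hN]
    ext i
    fin_cases i <;> simp [Matrix.mulVec, dotProduct, Fin.sum_univ_three]
  have hN2 : N *ᵥ Pi.single 2 1 = 0 := by
    rw [hN]
    ext i
    fin_cases i <;> simp [Matrix.mulVec, dotProduct, Fin.sum_univ_three]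
  have hN01 : N 0 1 = 1 := by
    rw [hN]
    simp
  obtain ⟨X, hX⟩ : ∃ X : Matrix (Fin 3) (Fin 3) F, X = 1 + N := ⟨_, rfl⟩
  have hX3 : X ^ 3 = 1 := by
    rw [hX]
    exact Cfsg.Agent.S5966.cube_one_add N hNN
  have hXdet : X.det = 1 := by
    apply Cfsg.Agent.Lib.Helper37.CubeUnip.cube_inj
    rw [one_pow, ← Matrix.det_pow, hX3, Matrix.det_one]
  have hXns : ∀ z : F, X ≠ z • (1 : Matrix (Fin 3) (Fin 3) F) := by
    intro z hz
    have h1 := congrFun (congrFun hz 0) 1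
    rw [hX, Matrix.add_apply, hN01, Matrix.smul_apply,
      Matrix.one_apply_ne (by decide : (0 : Fin 3) ≠ 1), smul_zero, zero_add] at h1
    exact one_ne_zero h1
  obtain ⟨x, hx⟩ : ∃ x : Matrix.SpecialLinearGroup (Fin 3) F,
      (x : Matrix (Fin 3) (Fin 3) F) = X := ⟨⟨X, hXdet⟩, rfl⟩
  refine ⟨x, ?_, ?_, ?_⟩
  · rw [Matrix.SpecialLinearGroup.coe_pow, hx, hX3, one_smul]
  · rw [hx]
    exact hXns
  · apply not_conj_of_cols K hK x 1 0 2 (by decide) ?_ ?_ (by rw [hx]; exact hXns)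
    · rw [hx, hX, Matrix.add_mulVec, Matrix.one_mulVec, hN0, add_zero, one_smul]
    · rw [hx, hX, Matrix.add_mulVec, Matrix.one_mulVec, hN2, add_zero, one_smul]

/-- When `9 ∣ q - 1`, some element of order 3 of `PSL_3(q)` is not conjugate into the
normalizer of a Singer cycle. -/
theorem exists_bad_diag {F : Type*} [Field F] [Fintype F]
    (K : Subalgebra F (Matrix (Fin 3) (Fin 3) F)) (hK : Cfsg.Geo.IsFieldSubalgebra 3 K)
    (h9 : 9 ∣ Fintype.card F - 1) :
    ∃ x : Matrix.SpecialLinearGroup (Fin 3) F,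
      (∃ z : F, ((x ^ 3 : Matrix.SpecialLinearGroup (Fin 3) F) : Matrix (Fin 3) (Fin 3) F) =
        z • (1 : Matrix (Fin 3) (Fin 3) F)) ∧
      (∀ z : F, (x : Matrix (Fin 3) (Fin 3) F) ≠ z • (1 : Matrix (Fin 3) (Fin 3) F)) ∧
      ¬ ∃ P : Matrix.SpecialLinearGroup (Fin 3) F, P⁻¹ * x * P ∈
        (Cfsg.Geo.subalgebraNormalizer K).comap (Matrix.SpecialLinearGroup.toGL :
          Matrix.SpecialLinearGroup (Fin 3) F →* GL (Fin 3) F) := by
  classical
  obtain ⟨μ, hμ9, hμ3⟩ := exists_ninth_root h9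
  have hμ0 : μ ≠ 0 := by
    rintro rfl
    simp at hμ9
  obtain ⟨d, hd⟩ : ∃ d : Fin 3 → F, d = ![μ, μ, μ ^ 7] := ⟨_, rfl⟩
  have hd0 : d 0 = μ := by rw [hd]; rfl
  have hd1 : d 1 = μ := by rw [hd]; rfl
  have hd2 : d 2 = μ ^ 7 := by rw [hd]; rfl
  obtain ⟨X, hX⟩ : ∃ X : Matrix (Fin 3) (Fin 3) F, X = Matrix.diagonal d := ⟨_, rfl⟩
  have hXdet : X.det = 1 := by
    rw [hX, Matrix.det_diagonal, Fin.prod_univ_three, hd0, hd1, hd2]
    linear_combination hμ9
  have hX3 : X ^ 3 = (μ ^ 3) • (1 : Matrix (Fin 3) (Fin 3) F) := by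
    rw [hX, Matrix.diagonal_pow, Matrix.smul_one_eq_diagonal]
    congr 1
    funext j
    fin_cases j
    · show d 0 ^ 3 = μ ^ 3
      rw [hd0]
    · show d 1 ^ 3 = μ ^ 3
      rw [hd1]
    · show d 2 ^ 3 = μ ^ 3
      rw [hd2]
      linear_combination (μ ^ 12 + μ ^ 3) * hμ9
  have hXns : ∀ z : F, X ≠ z • (1 : Matrix (Fin 3) (Fin 3) F) := by
    intro z hz
    have h0 := congrFun (congrFun hz 0) 0
    have h2 := congrFun (congrFun hz 2) 2
    rw [hX, Matrix.diagonal_apply_eq, Matrix.smul_apply, Matrix.one_apply_eq, smul_eq_mul,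
      mul_one] at h0 h2
    rw [hd0] at h0
    rw [hd2, ← h0] at h2
    apply hμ3
    have h6 : μ ^ 6 = 1 := by
      apply mul_left_cancel₀ hμ0
      linear_combination h2
    linear_combination hμ9 - μ ^ 3 * h6
  obtain ⟨x, hx⟩ : ∃ x : Matrix.SpecialLinearGroup (Fin 3) F,
      (x : Matrix (Fin 3) (Fin 3) F) = X := ⟨⟨X, hXdet⟩, rfl⟩
  refine ⟨x, ⟨μ ^ 3, ?_⟩, ?_, ?_⟩
  · rw [Matrix.SpecialLinearGroup.coe_pow, hx, hX3]
  · rw [hx]
    exact hXns
  · apply not_conj_of_cols K hK x μ 0 1 (by decide) ?_ ?_ (by rw [hx]; exact hXns)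
    · rw [hx, hX, Matrix.diagonal_mulVec_single, hd0, mul_one]
      ext i
      rw [Pi.smul_apply, Pi.single_apply, Pi.single_apply]
      split_ifs <;> simp
    · rw [hx, hX, Matrix.diagonal_mulVec_single, hd1, mul_one]
      ext i
      rw [Pi.smul_apply, Pi.single_apply, Pi.single_apply]
      split_ifs <;> simp

/-- When `q ≡ 2, 5 (mod 9)`, the index of the normalizer of a Singer cycle in `SL_3(q)` is
prime to 3. -/
theorem index_not_dvd {F : Type*} [Field F] [Fintype F] {p : ℕ} [Fact p.Prime] [CharP F p]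
    (K : Subalgebra F (Matrix (Fin 3) (Fin 3) F)) (hK : Cfsg.Geo.IsFieldSubalgebra 3 K)
    (hq : Fintype.card F % 9 = 2 ∨ Fintype.card F % 9 = 5) :
    ¬ 3 ∣ ((Cfsg.Geo.subalgebraNormalizer K).comap (Matrix.SpecialLinearGroup.toGL :
      Matrix.SpecialLinearGroup (Fin 3) F →* GL (Fin 3) F)).index := by
  classical
  intro hΩ
  have : Fact (Nat.Prime 3) := ⟨Nat.prime_three⟩
  obtain ⟨q, hq'⟩ : ∃ q, q = Fintype.card F := ⟨_, rfl⟩
  rw [← hq'] at hq
  have hcardU : Nat.card Fˣ = q - 1 := by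
    rw [Nat.card_units, Nat.card_eq_fintype_card, ← hq']
  obtain ⟨G, hG3, hGK, hG1⟩ := exists_frob (by norm_num) K hK
  have hdet3 : G.det ^ 3 = 1 := by
    rw [← Matrix.det_pow, hG3, Matrix.det_one]
  have hdet0 : G.det ≠ 0 := by
    intro h0
    rw [h0] at hdet3
    simp at hdet3
  have hdet : G.det = 1 := by
    have h1 : (Units.mk0 G.det hdet0) ^ 3 = 1 := by
      apply Units.ext
      rw [Units.val_pow_eq_pow_val, Units.val_mk0, hdet3, Units.val_one]
    have h2 : orderOf (Units.mk0 G.det hdet0) ∣ 3 := orderOf_dvd_of_pow_eq_one h1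
    have h3 : orderOf (Units.mk0 G.det hdet0) ∣ q - 1 := by
      rw [← hcardU]
      exact orderOf_dvd_natCard _
    have h4 : orderOf (Units.mk0 G.det hdet0) = 1 := by
      rcases (Nat.dvd_prime Nat.prime_three).mp h2 with h | h
      · exact h
      · rw [h] at h3
        omega
    have h5 := orderOf_eq_one_iff.mp h4
    have h6 := congrArg Units.val h5
    rw [Units.val_mk0, Units.val_one] at h6
    exact h6
  obtain ⟨Gs, hGs⟩ : ∃ Gs : Matrix.SpecialLinearGroup (Fin 3) F,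
      (Gs : Matrix (Fin 3) (Fin 3) F) = G := ⟨⟨G, hdet⟩, rfl⟩
  have hGs3 : Gs ^ 3 = 1 := by
    apply Subtype.ext
    show ((Gs ^ 3 : Matrix.SpecialLinearGroup (Fin 3) F) : Matrix (Fin 3) (Fin 3) F) =
      ((1 : Matrix.SpecialLinearGroup (Fin 3) F) : Matrix (Fin 3) (Fin 3) F)
    rw [Matrix.SpecialLinearGroup.coe_pow, hGs, hG3, Matrix.SpecialLinearGroup.coe_one]
  have hGs1 : Gs ≠ 1 := by
    intro h1
    apply hG1
    rw [← hGs, h1, Matrix.SpecialLinearGroup.coe_one]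
  obtain ⟨H, hH⟩ : ∃ H : Subgroup (Matrix.SpecialLinearGroup (Fin 3) F),
      H = (Cfsg.Geo.subalgebraNormalizer K).comap (Matrix.SpecialLinearGroup.toGL :
        Matrix.SpecialLinearGroup (Fin 3) F →* GL (Fin 3) F) := ⟨_, rfl⟩
  rw [← hH] at hΩ
  have hmem : Gs ∈ H := by
    rw [hH, Subgroup.mem_comap]
    apply frob_mem_normalizer (by norm_num) (by norm_num) K hK
    show ∀ b ∈ K, (Gs : Matrix (Fin 3) (Fin 3) F) * b =
      b ^ Fintype.card F * (Gs : Matrix (Fin 3) (Fin 3) F)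
    rw [hGs]
    exact hGK
  have hord : orderOf (⟨Gs, hmem⟩ : ↥H) = 3 := by
    apply orderOf_eq_prime
    · apply Subtype.ext
      show Gs ^ 3 = 1
      exact hGs3
    · intro h1
      exact hGs1 (congrArg Subtype.val h1)
  have h3H : 3 ∣ Nat.card ↥H := by
    have h1 := orderOf_dvd_natCard (⟨Gs, hmem⟩ : ↥H)
    rw [hord] at h1
    exact h1
  have h9 : 9 ∣ Nat.card (Matrix.SpecialLinearGroup (Fin 3) F) := by
    rw [← Subgroup.card_mul_index H]
    exact Nat.mul_dvd_mul h3H hΩ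
  have h9' : 9 ∣ Nat.card (GL (Fin 3) F) :=
    h9.trans (Subgroup.card_dvd_of_injective
      (Matrix.SpecialLinearGroup.toGL : Matrix.SpecialLinearGroup (Fin 3) F →* GL (Fin 3) F)
      Matrix.SpecialLinearGroup.toGL_injective)
  rw [Matrix.card_GL_field, ← hq'] at h9'
  exact nine_not_dvd q hq h9'

/-- When `q ≡ 4, 7 (mod 9)`, every element of order 3 of `PSL_3(q)` is conjugate into the
normalizer of a Singer cycle. -/
theorem conj_of_mod {F : Type*} [Field F] [Fintype F] {p : ℕ} [Fact p.Prime] [CharP F p]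
    (hq : Fintype.card F % 9 = 4 ∨ Fintype.card F % 9 = 7)
    (K : Subalgebra F (Matrix (Fin 3) (Fin 3) F)) (hK : Cfsg.Geo.IsFieldSubalgebra 3 K)
    (x : Matrix.SpecialLinearGroup (Fin 3) F) (z : F)
    (hz : ((x ^ 3 : Matrix.SpecialLinearGroup (Fin 3) F) : Matrix (Fin 3) (Fin 3) F) =
      z • (1 : Matrix (Fin 3) (Fin 3) F))
    (hns : ∀ z : F, (x : Matrix (Fin 3) (Fin 3) F) ≠ z • (1 : Matrix (Fin 3) (Fin 3) F)) :
    ∃ P : Matrix.SpecialLinearGroup (Fin 3) F, P⁻¹ * x * P ∈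
      (Cfsg.Geo.subalgebraNormalizer K).comap (Matrix.SpecialLinearGroup.toGL :
        Matrix.SpecialLinearGroup (Fin 3) F →* GL (Fin 3) F) := by
  classical
  have : Fact (Nat.Prime 3) := ⟨Nat.prime_three⟩
  obtain ⟨q, hq'⟩ : ∃ q, q = Fintype.card F := ⟨_, rfl⟩
  rw [← hq'] at hq
  have hcardU : Nat.card Fˣ = q - 1 := by
    rw [Nat.card_units, Nat.card_eq_fintype_card, ← hq']
  have h3q : 3 ∣ q - 1 := by omega
  have h9q : ¬ 9 ∣ q - 1 := by omega
  obtain ⟨A, hA⟩ : ∃ A : Matrix (Fin 3) (Fin 3) F, A = (x : Matrix (Fin 3) (Fin 3) F) :=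
    ⟨_, rfl⟩
  rw [← hA] at hns
  have hA3 : A ^ 3 = z • (1 : Matrix (Fin 3) (Fin 3) F) := by
    rw [← hz, hA, Matrix.SpecialLinearGroup.coe_pow]
  have hdet : A.det = 1 := by
    rw [hA]
    exact x.2
  have hz3 : z ^ 3 = 1 := by
    have h1 := congrArg Matrix.det hA3
    rw [Matrix.det_pow, hdet, one_pow, Matrix.det_smul, Matrix.det_one, Fintype.card_fin,
      mul_one] at h1
    exact h1.symm
  have hno9 : ∀ c : F, c ^ 9 = 1 → c ^ 3 = 1 := by
    intro c hc
    have hc0 : c ≠ 0 := by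
      rintro rfl
      simp at hc
    have h1 : (Units.mk0 c hc0) ^ 9 = 1 := by
      apply Units.ext
      rw [Units.val_pow_eq_pow_val, Units.val_mk0, hc, Units.val_one]
    have h2 : orderOf (Units.mk0 c hc0) ∣ 3 ^ 2 := by
      have e9 : (3 : ℕ) ^ 2 = 9 := by norm_num
      rw [e9]
      exact orderOf_dvd_of_pow_eq_one h1
    have h3 : orderOf (Units.mk0 c hc0) ∣ q - 1 := by
      rw [← hcardU]
      exact orderOf_dvd_natCard _
    have h4 : orderOf (Units.mk0 c hc0) ∣ 3 := by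
      obtain ⟨m, hm, hm'⟩ := (Nat.dvd_prime_pow Nat.prime_three).mp h2
      interval_cases m
      · rw [hm']
        norm_num
      · rw [hm']
        norm_num
      · rw [hm'] at h3
        norm_num at h3
        exact absurd h3 h9q
    have h5 := orderOf_dvd_iff_pow_eq_one.mp h4
    have h6 := congrArg Units.val h5
    rw [Units.val_pow_eq_pow_val, Units.val_mk0, Units.val_one] at h6
    exact h6
  obtain ⟨c₀, c₁, c₂, hch, hdetc, heig⟩ := ch3 A
  have hc₀ : c₀ = -1 := by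
    rw [hdet] at hdetc
    linear_combination hdetc
  have hrel : c₂ • A ^ 2 + c₁ • A = (1 - z) • (1 : Matrix (Fin 3) (Fin 3) F) := by
    rw [hA3, hc₀, neg_smul, one_smul] at hch
    rw [sub_smul, one_smul]
    calc c₂ • A ^ 2 + c₁ • A
        = (z • (1 : Matrix (Fin 3) (Fin 3) F) + c₂ • A ^ 2 + c₁ • A + -1) +
            (1 - z • (1 : Matrix (Fin 3) (Fin 3) F)) := by abel
      _ = 1 - z • (1 : Matrix (Fin 3) (Fin 3) F) := by rw [hch, zero_add]
  have hone : (1 : Matrix (Fin 3) (Fin 3) F) ≠ 0 := one_ne_zero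
  have hz1 : z = 1 := by
    by_contra hz1
    have hncube : ∀ c : F, c ^ 3 ≠ z := by
      intro c hc
      apply hz1
      rw [← hc]
      apply hno9
      rw [← hz3, ← hc]
      ring
    by_cases hc2 : c₂ = 0
    · rw [hc2, zero_smul, zero_add] at hrel
      by_cases hc1 : c₁ = 0
      · rw [hc1, zero_smul] at hrel
        rcases smul_eq_zero.mp hrel.symm with h' | h'
        · apply hz1
          linear_combination -h'
        · exact hone h'
      · apply hns (c₁⁻¹ * (1 - z))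
        rw [mul_smul, ← hrel, smul_smul, inv_mul_cancel₀ hc1, one_smul]
    · obtain ⟨a, ha⟩ : ∃ a : F, a = -c₁ / c₂ := ⟨_, rfl⟩
      obtain ⟨b, hb⟩ : ∃ b : F, b = (1 - z) / c₂ := ⟨_, rfl⟩
      have hA2 : A ^ 2 = a • A + b • (1 : Matrix (Fin 3) (Fin 3) F) := by
        have e1 : A ^ 2 = c₂⁻¹ • (c₂ • A ^ 2 + c₁ • A) + (-c₁ / c₂) • A := by
          rw [smul_add, smul_smul, smul_smul, inv_mul_cancel₀ hc2, one_smul, add_assoc,
            ← add_smul]
          have e0 : c₂⁻¹ * c₁ + -c₁ / c₂ = 0 := by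
            field_simp
            ring
          rw [e0, zero_smul, add_zero]
        rw [e1, hrel, smul_smul, ha, hb, add_comm]
        congr 2
        field_simp
      have hA3' : A ^ 3 = (a ^ 2 + b) • A + (a * b) • (1 : Matrix (Fin 3) (Fin 3) F) := by
        have e : A ^ 3 = A ^ 2 * A := pow_succ A 2
        rw [e, hA2, add_mul, Matrix.smul_mul, Matrix.smul_mul, Matrix.one_mul, ← pow_two, hA2,
          smul_add, smul_smul, smul_smul, add_smul, pow_two]
        abel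
      rw [hA3] at hA3'
      have h1 : (a ^ 2 + b) • A = (z - a * b) • (1 : Matrix (Fin 3) (Fin 3) F) := by
        rw [sub_smul, hA3']
        abel
      by_cases hab : a ^ 2 + b = 0
      · rw [hab, zero_smul] at h1
        rcases smul_eq_zero.mp h1.symm with h' | h'
        · apply hncube (-a)
          linear_combination -h' - a * hab
        · exact hone h'
      · apply hns ((a ^ 2 + b)⁻¹ * (z - a * b))
        rw [mul_smul, ← h1, smul_smul, inv_mul_cancel₀ hab, one_smul]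
  rw [hz1, sub_self, zero_smul] at hrel
  rw [hz1, one_smul] at hA3
  have hA0 : A ≠ 0 := by
    intro h0
    apply hns 0
    rw [h0, zero_smul]
  have hc₂ : c₂ = 0 := by
    by_contra hc2
    obtain ⟨t, ht⟩ : ∃ t : F, t = -c₁ / c₂ := ⟨_, rfl⟩
    have hA2 : A ^ 2 = t • A := by
      have e1 : A ^ 2 = c₂⁻¹ • (c₂ • A ^ 2 + c₁ • A) + (-c₁ / c₂) • A := by
        rw [smul_add, smul_smul, smul_smul, inv_mul_cancel₀ hc2, one_smul, add_assoc,
          ← add_smul]
        have e0 : c₂⁻¹ * c₁ + -c₁ / c₂ = 0 := by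
          field_simp
          ring
        rw [e0, zero_smul, add_zero]
      rw [e1, hrel, smul_zero, zero_add, ht]
    have hA3' : A ^ 3 = (t ^ 2) • A := by
      have e : A ^ 3 = A ^ 2 * A := pow_succ A 2
      rw [e, hA2, Matrix.smul_mul, ← pow_two, hA2, smul_smul, pow_two]
    rw [hA3] at hA3'
    by_cases ht0 : t ^ 2 = 0
    · rw [ht0, zero_smul] at hA3'
      exact hone hA3'
    · apply hns ((t ^ 2)⁻¹)
      rw [hA3', smul_smul, inv_mul_cancel₀ ht0, one_smul]
  have hc₁ : c₁ = 0 := by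
    rw [hc₂, zero_smul, zero_add] at hrel
    rcases smul_eq_zero.mp hrel with h' | h'
    · exact h'
    · exact absurd h' hA0
  have heigA : ∀ ρ : F, ρ ^ 3 = 1 → ∃ v : Fin 3 → F, v ≠ 0 ∧ A *ᵥ v = ρ • v := by
    intro ρ hρ
    apply heig
    rw [hc₂, hc₁, hc₀]
    linear_combination hρ
  -- the Frobenius matrix
  obtain ⟨G, hG3, hGK, hG1⟩ := exists_frob (by norm_num) K hK
  obtain ⟨d₀, d₁, d₂, hchG, -, heigG'⟩ := ch3 G
  have hindep := frob_indep (by norm_num) K hK G hG3 hGK (1 + d₀) d₁ d₂ (by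
    rw [hG3] at hchG
    rw [add_smul, one_smul, ← hchG]
    abel)
  obtain ⟨hd₀, hd₁, hd₂⟩ := hindep
  have heigG : ∀ ρ : F, ρ ^ 3 = 1 → ∃ v : Fin 3 → F, v ≠ 0 ∧ G *ᵥ v = ρ • v := by
    intro ρ hρ
    apply heigG'
    rw [hd₂, hd₁]
    linear_combination hρ + hd₀
  -- a primitive cube root of unity
  obtain ⟨ω, hω⟩ := exists_prime_orderOf_dvd_card' (G := Fˣ) 3 (by rw [hcardU]; exact h3q)
  obtain ⟨w, hw⟩ : ∃ w : F, w = (ω : F) := ⟨_, rfl⟩
  have hw3 : w ^ 3 = 1 := by
    rw [hw, ← Units.val_pow_eq_pow_val, ← hω, pow_orderOf_eq_one, Units.val_one]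
  have hw1 : w ≠ 1 := by
    intro h1
    have h2 : ω = 1 := by
      apply Units.ext
      rw [← hw, h1, Units.val_one]
    rw [h2, orderOf_one] at hω
    omega
  have hw0 : w ≠ 0 := by
    rintro rfl
    simp at hw3
  have hw2 : w ^ 2 ≠ 1 := by
    intro h2
    apply hw1
    linear_combination hw3 - w * h2
  have hww2 : w ≠ w ^ 2 := by
    intro h2
    apply hw1
    apply mul_left_cancel₀ hw0
    linear_combination -h2
  obtain ⟨ρ, hρ⟩ : ∃ ρ : Fin 3 → F, ρ = ![1, w, w ^ 2] := ⟨_, rfl⟩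
  have hρ0 : ρ 0 = 1 := by rw [hρ]; rfl
  have hρ1 : ρ 1 = w := by rw [hρ]; rfl
  have hρ2 : ρ 2 = w ^ 2 := by rw [hρ]; rfl
  have hρ3 : ∀ i, ρ i ^ 3 = 1 := by
    intro i
    fin_cases i
    · show ρ 0 ^ 3 = 1
      rw [hρ0, one_pow]
    · show ρ 1 ^ 3 = 1
      rw [hρ1, hw3]
    · show ρ 2 ^ 3 = 1
      rw [hρ2]
      linear_combination (w ^ 3 + 1) * hw3
  have hρinj : Function.Injective ρ := by
    intro i j hij
    fin_cases i <;> fin_cases j
    · rfl
    · exfalso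
      change ρ 0 = ρ 1 at hij
      rw [hρ0, hρ1] at hij
      exact hw1 hij.symm
    · exfalso
      change ρ 0 = ρ 2 at hij
      rw [hρ0, hρ2] at hij
      exact hw2 hij.symm
    · exfalso
      change ρ 1 = ρ 0 at hij
      rw [hρ0, hρ1] at hij
      exact hw1 hij
    · rfl
    · exfalso
      change ρ 1 = ρ 2 at hij
      rw [hρ1, hρ2] at hij
      exact hww2 hij
    · exfalso
      change ρ 2 = ρ 0 at hij
      rw [hρ0, hρ2] at hij
      exact hw2 hij
    · exfalso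
      change ρ 2 = ρ 1 at hij
      rw [hρ1, hρ2] at hij
      exact hww2 hij.symm
    · rfl
  obtain ⟨Q, hQA, hQC⟩ := exists_conj_of_eigen A G ρ hρinj (fun i => heigA (ρ i) (hρ3 i))
    (fun i => heigG (ρ i) (hρ3 i))
  obtain ⟨C, hCA, hCdet⟩ := hQC ((Q : Matrix (Fin 3) (Fin 3) F).det)⁻¹
  have hQdet : (Q : Matrix (Fin 3) (Fin 3) F).det ≠ 0 :=
    (Matrix.GeneralLinearGroup.det Q).ne_zero
  obtain ⟨Gu, hGu⟩ : ∃ Gu : GL (Fin 3) F, (Gu : Matrix (Fin 3) (Fin 3) F) = G := by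
    refine ⟨⟨G, G ^ 2, ?_, ?_⟩, rfl⟩
    · rw [← hG3]
      exact (pow_succ' G 2).symm
    · rw [← hG3]
      exact (pow_succ G 2).symm
  have hGumem : Gu ∈ Cfsg.Geo.subalgebraNormalizer K := by
    apply frob_mem_normalizer (by norm_num) (by norm_num) K hK Gu
    rw [hGu]
    exact hGK
  apply Cfsg.Agent.Lib.Helper37.CubeUnip.sl_conj_of_comm x (Cfsg.Geo.subalgebraNormalizer K) Q
    ?_ C ?_ ?_
  · have e : Q * Matrix.SpecialLinearGroup.toGL x * Q⁻¹ = Gu := by
      apply Units.ext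
      rw [hGu, Units.val_mul, Units.val_mul]
      show (Q : Matrix (Fin 3) (Fin 3) F) * (x : Matrix (Fin 3) (Fin 3) F) *
        ((Q⁻¹ : GL (Fin 3) F) : Matrix (Fin 3) (Fin 3) F) = G
      rw [← hA, hQA, Matrix.mul_assoc, ← Units.val_mul, mul_inv_cancel, Units.val_one,
        Matrix.mul_one]
    rw [e]
    exact hGumem
  · rw [← hA]
    exact hCA
  · rw [hCdet, mul_inv_cancel₀ hQdet]

/-- Elements of order 3 of PSL_3(q) and the normalizer of a Singer cycle. Here `T = PSL_n(F)` for a field `F` with `q = p^f` elements (`n ≥ 2`, `(n, q) ≠ (2, 2), (2, 3)`), `k` is a prime dividing `n`, `K` is a subalgebra of the `n × n` matrices that is a field of degree `k` over `F` (an extension-field structure F_{q^k} on `F^n`), and `H` is the subgroup of matrices of determinant 1 normalizing `K` — a subgroup of type GL_{n/k}(q^k) (maximal except in some small cases; maximality is not assumed); Ω is the set of cosets of `H` in `T`, so an element of `T`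 of prime order `r` (a matrix `x` of determinant 1 with `x^r` scalar, `x` not scalar) fixes a point of Ω when some conjugate of `x` by a matrix of determinant 1 normalizes `K`. Take `n = k = 3` and suppose 3 divides the index of `H`. Then every element of `T` of order 3 is conjugate in `T` into `H` if and only if `q ≡ 4, 7` or `8 (mod 9)`. -/
theorem result {F : Type*} [Field F] [Fintype F] {p : ℕ} [Fact p.Prime] [CharP F p] {q : ℕ} (hq : Fintype.card F = q)
    (n : ℕ) (hn : n = 3) (k : ℕ) (hk : k.Prime) (hkn : k ∣ n) (K : Subalgebra F (Matrix (Fin n) (Fin n) F)) (hK : Cfsg.Geo.IsFieldSubalgebra k K) (hk3 : k = 3) (hΩ : 3 ∣ ((Cfsg.Geo.subalgebraNormalizer K).comap (Matrix.SpecialLinearGroup.toGL : Matrix.SpecialLinearGroup (Fin n) F →* GL (Fin n) F)).index) :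
    (∀ x : Matrix.SpecialLinearGroup (Fin n) F,
      (∃ z : F, ((x ^ 3 : Matrix.SpecialLinearGroup (Fin n) F) : Matrix (Fin n) (Fin n) F) = z • (1 : Matrix (Fin n) (Fin n) F)) →
      (∀ z : F, (x : Matrix (Fin n) (Fin n) F) ≠ z • (1 : Matrix (Fin n) (Fin n) F)) →
      ∃ P : Matrix.SpecialLinearGroup (Fin n) F, P⁻¹ * x * P ∈ ((Cfsg.Geo.subalgebraNormalizer K).comap (Matrix.SpecialLinearGroup.toGL : Matrix.SpecialLinearGroup (Fin n) F →* GL (Fin n) F))) ↔
    (q % 9 = 4 ∨ q % 9 = 7 ∨ q % 9 = 8) := by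
  subst hn
  subst hk3
  subst hq
  have hpprime : p.Prime := Fact.out
  constructor
  · intro hyp
    by_contra hcon
    have hcases : 3 ∣ Fintype.card F ∨ Fintype.card F % 9 = 1 ∨
        (Fintype.card F % 9 = 2 ∨ Fintype.card F % 9 = 5) := by omega
    rcases hcases with h3 | h1 | h25
    · obtain ⟨f, -, hqf⟩ := FiniteField.card F p
      have hp3 : p = 3 := by
        rw [hqf] at h3
        exact ((Nat.prime_dvd_prime_iff_eq Nat.prime_three hpprime).mp
          (Nat.prime_three.dvd_of_dvd_pow h3)).symm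
      subst hp3
      obtain ⟨x, hx1, hx2, hx3⟩ := exists_bad_unip K hK
      exact hx3 (hyp x ⟨1, hx1⟩ hx2)
    · have hcard := Fintype.one_lt_card (α := F)
      obtain ⟨x, hx1, hx2, hx3⟩ := exists_bad_diag K hK (by omega)
      exact hx3 (hyp x hx1 hx2)
    · exact index_not_dvd K hK h25 hΩ
  · intro hmod x hx hns
    obtain ⟨z, hz⟩ := hx
    rcases hmod with h | h | h
    · exact conj_of_mod (Or.inl h) K hK x z hz hns
    · exact conj_of_mod (Or.inr h) K hK x z hz hns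
    · obtain ⟨f, -, hqf⟩ := FiniteField.card F p
      have hnp : 3 ≠ p := by
        intro hp3
        rw [← hp3] at hqf
        have hdvd : 3 ∣ Fintype.card F := by
          rw [hqf]
          exact dvd_pow_self 3 f.ne_zero
        omega
      have hord : orderOf ((Fintype.card F : ℕ) : ZMod 3) = 3 - 1 :=
        orderOf_two_zmod3 _ (by omega)
      have : Fact (Nat.Prime 3) := ⟨Nat.prime_three⟩
      exact conj_into_normalizer (by norm_num) hnp hord K hK x z hz hns

end Cfsg.Agent.S5971
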