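import Cfsg.Statements.S5975
import Mathlib
import Cfsg.Agent.Lib.Helper40.KStr
import Cfsg.Agent.Lib.Helper40.KWit
import Cfsg.Agent.Lib.Helper40.KOdd
import Cfsg.Agent.Lib.Helper40.FExtIdx
import Cfsg.Agent.Lib.Helper5.SpCard

set_option autoImplicit false
open scoped MatrixGroups
open scoped Matrix
open Cfsg

namespace Cfsg.Agent.S5975

/-- Elements of prime order of PSp_n(q) and the field-extension subgroups of type Sp_{n/k}(q^k). Here `T = PSp_{2d}(F)` for a field `F` with `q` elements (`d ≥ 2`, `(d, q) ≠ (2, 2)`), realised through the matrices preserving the standard alternating form `f`; `k` is a prime and `K` is a subalgebra of the `2d × 2d` matrices that is a field of degree `k` over `F` whose elements are self-adjoint for `f` and satisfy `f(a v, v) = 0` (so `F^{2d}` becomes a vector space over `K ≅ F_{q^k}` on which `f` is the trace of a `K`-bilinear alternating form); `H` is the subgroup of `T` normalizing `K` — the symplectic maps that are `K`-linear or `K`-semilinear, a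 subgroup of type Sp_{2d/k}(q^k) (maximality is not assumed). Ω is the set of cosets of `H` in `T`, so an element of `T` of prime order `r` (`x ∈ T` with `x^r` scalar, `x` not scalar) fixes a point of Ω exactly when some `T`-conjugate of `x` normalizes `K`. Let `r` be a prime dividing the index of `H`. Then every element of `T` of order `r` fixes a point of Ω if and only if `r = 2`, `d = 2`, `k = 2` and `q` is odd. -/
theorem result {F : Type*} [Field F] [Fintype F] {p : ℕ} [Fact p.Prime] [CharP F p] {q : ℕ} (hq : Fintype.card F = q)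
    (d : ℕ) (hd : 2 ≤ d) (hT : (d, q) ≠ (2, 2)) (k : ℕ) (hk : k.Prime)
    (K : Subalgebra F (Matrix (Fin d ⊕ Fin d) (Fin d ⊕ Fin d) F)) (hK : Cfsg.Geo.IsFieldSubalgebra k K)
    (hKf : Cfsg.Geo.IsSelfAdjointFor (Cfsg.sympForm d F) K) (hKalt : ∀ a ∈ K, ∀ v : Fin d ⊕ Fin d → F, Cfsg.sympForm d F (a *ᵥ v) v = 0)
    (r : ℕ) [Fact r.Prime]
    (hΩ : r ∣ (Cfsg.Geo.subalgebraNormalizer K).relIndex (Cfsg.spGL d F)) :
    (∀ x ∈ Cfsg.spGL d F, (∃ z : F, ((x ^ r : GL (Fin d ⊕ Fin d) F) : Matrix (Fin d ⊕ Fin d) (Fin d ⊕ Fin d) F) = z • (1 : Matrix (Fin d ⊕ Fin d) (Fin d ⊕ Fin d) F)) →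
      (∀ z : F, (x : Matrix (Fin d ⊕ Fin d) (Fin d ⊕ Fin d) F) ≠ z • (1 : Matrix (Fin d ⊕ Fin d) (Fin d ⊕ Fin d) F)) →
      ∃ g ∈ Cfsg.spGL d F, g⁻¹ * x * g ∈ Cfsg.Geo.subalgebraNormalizer K) ↔
    (r = 2 ∧ d = 2 ∧ k = 2 ∧ Odd q) := by
  classical
  have hr : r.Prime := Fact.out
  have hpp : p.Prime := Fact.out
  have hd1 : 1 ≤ d := by omega
  have hq2 : 2 ≤ q := by
    rw [← hq]
    exact Fintype.one_lt_card
  obtain ⟨L, instL, instA, ι, hιK, hKι, hinj, hfr⟩ :=
    Cfsg.Agent.Lib.Helper40.KStr.exists_field k hk.two_le K hK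
  have : FiniteDimensional F L := Module.finite_of_finrank_pos (by rw [hfr]; exact hk.pos)
  have : Finite L := Module.finite_of_finite F
  have hsa : ∀ a u v, Cfsg.sympForm d F (ι a *ᵥ u) v = Cfsg.sympForm d F u (ι a *ᵥ v) :=
    fun a u v => hKf (ι a) (hιK a) u v
  have halt : ∀ a v, Cfsg.sympForm d F (ι a *ᵥ v) v = 0 := fun a v => hKalt (ι a) (hιK a) v
  have hsadj : ∀ a, Cfsg.Agent.Lib.Helper40.SympConj.sadj (ι a) = ι a :=
    fun a => (Cfsg.Agent.Lib.Helper40.FExt.adj_eq_sadj (ι a) (ι a) (hsa a)).symm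
  have hconj : ∀ (x S Si : Matrix (Fin d ⊕ Fin d) (Fin d ⊕ Fin d) F), S * Si = 1 → Si * S = 1 →
      Cfsg.Agent.Lib.Helper40.SympConj.sadj S * S = 1 →
      Cfsg.Agent.Lib.Helper40.SympConj.sadj (Si * x * S) =
        Si * Cfsg.Agent.Lib.Helper40.SympConj.sadj x * S ∧
      (∀ n : ℕ, (Si * x * S) ^ n = Si * x ^ n * S) ∧
      (Si * x * S).charpoly = x.charpoly := by
    intro x S Si hSSi hSiS hS
    have hsS : Cfsg.Agent.Lib.Helper40.SympConj.sadj S = Si := by
      calc Cfsg.Agent.Lib.Helper40.SympConj.sadj S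
          = Cfsg.Agent.Lib.Helper40.SympConj.sadj S * (S * Si) := by rw [hSSi, Matrix.mul_one]
        _ = Si := by rw [← Matrix.mul_assoc, hS, Matrix.one_mul]
    have hsSi : Cfsg.Agent.Lib.Helper40.SympConj.sadj Si = S := by
      rw [← hsS, Cfsg.Agent.Lib.Helper40.SympConj.sadj_sadj]
    refine ⟨?_, ?_, ?_⟩
    · rw [Cfsg.Agent.Lib.Helper40.SympConj.sadj_mul, Cfsg.Agent.Lib.Helper40.SympConj.sadj_mul,
        hsS, hsSi, Matrix.mul_assoc]
    · intro n
      induction n with
      | zero => rw [pow_zero, pow_zero, Matrix.mul_one, hSiS]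
      | succ n ih =>
        rw [pow_succ, ih, pow_succ]
        calc Si * x ^ n * S * (Si * x * S) = Si * x ^ n * (S * Si) * x * S := by
              simp only [Matrix.mul_assoc]
          _ = Si * (x ^ n * x) * S := by
              rw [hSSi, Matrix.mul_one]
              simp only [Matrix.mul_assoc]
    · rw [Matrix.charpoly_mul_comm, ← Matrix.mul_assoc, hSSi, Matrix.one_mul]
  have hsymp : ∀ (x S Si : Matrix (Fin d ⊕ Fin d) (Fin d ⊕ Fin d) F), S * Si = 1 → Si * S = 1 →
      Cfsg.Agent.Lib.Helper40.SympConj.sadj S * S = 1 →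
      Cfsg.Agent.Lib.Helper40.SympConj.sadj x * x = 1 →
      Cfsg.Agent.Lib.Helper40.SympConj.sadj (Si * x * S) * (Si * x * S) = 1 := by
    intro x S Si hSSi hSiS hS hxs
    rw [(hconj x S Si hSSi hSiS hS).1]
    calc Si * Cfsg.Agent.Lib.Helper40.SympConj.sadj x * S * (Si * x * S)
        = Si * (Cfsg.Agent.Lib.Helper40.SympConj.sadj x * (S * Si) * x) * S := by
          simp only [Matrix.mul_assoc]
      _ = 1 := by rw [hSSi, Matrix.mul_one, hxs, Matrix.mul_one, hSiS]
  constructor
  · intro hall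
    have happly : ∀ x : Matrix (Fin d ⊕ Fin d) (Fin d ⊕ Fin d) F,
        Cfsg.Agent.Lib.Helper40.SympConj.sadj x * x = 1 → (∃ z : F, x ^ r = z • 1) →
        (∀ z : F, x ≠ z • 1) →
        ∃ (G : GL (Fin d ⊕ Fin d) F) (S Si : Matrix (Fin d ⊕ Fin d) (Fin d ⊕ Fin d) F),
          G ∈ Cfsg.Geo.subalgebraNormalizer K ∧ G.val = Si * x * S ∧ S * Si = 1 ∧ Si * S = 1 ∧
          Cfsg.Agent.Lib.Helper40.SympConj.sadj S * S = 1 := by
      intro x hx hz hns
      obtain ⟨xg, hxg⟩ : ∃ xg : GL (Fin d ⊕ Fin d) F, xg.val = x :=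
        ⟨⟨x, Cfsg.Agent.Lib.Helper40.SympConj.sadj x, mul_eq_one_comm.mp hx, hx⟩, rfl⟩
      have hxmem : xg ∈ Cfsg.spGL d F :=
        (Cfsg.Agent.Lib.Helper40.FExt.mem_spGL_iff xg).mpr (by rw [hxg]; exact hx)
      obtain ⟨z, hz⟩ := hz
      obtain ⟨g, hg, hgN⟩ := hall xg hxmem
        ⟨z, by rw [Units.val_pow_eq_pow_val, hxg]; exact hz⟩
        (by intro z; rw [hxg]; exact hns z)
      exact ⟨g⁻¹ * xg * g, g.val, (g⁻¹).val, hgN, by rw [Units.val_mul, Units.val_mul, hxg],
        Units.mul_inv g, Units.inv_mul g, (Cfsg.Agent.Lib.Helper40.FExt.mem_spGL_iff g).mp hg⟩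
    by_cases hrp : r = p
    · exfalso
      subst hrp
      obtain ⟨v, u, hv, hu, hxs, hxp, hxns⟩ :=
        Cfsg.Agent.Lib.Helper40.KWit.transv_witness' (F := F) (p := r) hd1
      obtain ⟨G, S, Si, hG, hGv, hSSi, hSiS, hS⟩ :=
        happly _ hxs ⟨1, by rw [hxp, one_smul]⟩ hxns
      have hy : G.val = 1 + Matrix.vecMulVec (Si *ᵥ v) (Matrix.vecMul u S) := by
        rw [hGv, Matrix.mul_add, Matrix.add_mul, Matrix.mul_one, hSiS, Matrix.mul_vecMulVec,
          Matrix.vecMulVec_mul]
      have hv' : Si *ᵥ v ≠ 0 := by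
        intro h
        apply hv
        calc v = (S * Si) *ᵥ v := by rw [hSSi, Matrix.one_mulVec]
          _ = 0 := by rw [← Matrix.mulVec_mulVec, h, Matrix.mulVec_zero]
      have hu' : Matrix.vecMul u S ≠ 0 := by
        intro h
        apply hu
        calc u = Matrix.vecMul u (S * Si) := by rw [hSSi, Matrix.vecMul_one]
          _ = 0 := by rw [← Matrix.vecMul_vecMul, h, Matrix.zero_vecMul]
      have hn : 3 ≤ Fintype.card (Fin d ⊕ Fin d) := by
        rw [Fintype.card_sum, Fintype.card_fin]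
        omega
      have hsc := Cfsg.Agent.Lib.Helper40.KWit.transv_no_norm hn K
        (fun x hx hx0 => by
          obtain ⟨y, -, hy⟩ := hK.inv x hx hx0
          exact ⟨y, hy⟩)
        (Si *ᵥ v) (Matrix.vecMul u S) hv' hu' (G⁻¹).val
        (by rw [← hy]; exact Units.mul_inv G)
        (fun a ha => by rw [← hy]; exact (hG a).mp ha)
      have h1 : ∀ w : L, ∃ c : F, c • (1 : L) = w := by
        intro a
        obtain ⟨l, hl⟩ := hsc (ι a) (hιK a)
        refine ⟨l, hinj ?_⟩
        rw [hl, map_smul, map_one]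
      have h2 : Module.finrank F L = 1 :=
        (finrank_eq_one_iff_of_nonzero' (1 : L) one_ne_zero).mpr h1
      rw [hfr] at h2
      exact hk.one_lt.ne' h2
    · have hrq : ¬ r ∣ q := by
        obtain ⟨n, -, hn⟩ := FiniteField.card F p
        rw [hq] at hn
        intro h
        rw [hn] at h
        exact hrp ((Nat.prime_dvd_prime_iff_eq hr hpp).mp (hr.dvd_of_dvd_pow h))
      by_cases hr2 : r = 2
      · have hqodd : Odd q := by
          rw [← Nat.not_even_iff_odd]
          intro he
          exact hrq (hr2 ▸ even_iff_two_dvd.mp he)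
        have h2 : (2 : F) ≠ 0 := Cfsg.Agent.Lib.Helper40.FExt.two_ne_zero_of hq hqodd
        by_contra hcon
        obtain ⟨x, hxs, hxx, hxns, w₁, w₂, hw⟩ :=
          Cfsg.Agent.Lib.Helper40.KWit.invol_witness h2 hd
        obtain ⟨G, S, Si, hG, hGv, hSSi, hSiS, hS⟩ :=
          happly x hxs ⟨1, by rw [hr2, pow_two, hxx, one_smul]⟩ hxns
        obtain ⟨hsy, hpow, -⟩ := hconj x S Si hSSi hSiS hS
        have hyy : G.val * G.val = 1 := by
          rw [← pow_two, hGv, hpow, pow_two, hxx, Matrix.mul_one, hSiS]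
        have hys : Cfsg.Agent.Lib.Helper40.SympConj.sadj G.val * G.val = 1 := by
          rw [hGv]
          exact hsymp x S Si hSSi hSiS hS hxs
        have hGi : (G⁻¹).val = G.val := by
          calc (G⁻¹).val = (G⁻¹).val * (G.val * G.val) := by rw [hyy, Matrix.mul_one]
            _ = G.val := by rw [← Matrix.mul_assoc, Units.inv_mul, Matrix.one_mul]
        have hy1 : G.val ≠ 1 := by
          intro h
          apply hxns 1
          rw [one_smul]
          calc x = (S * Si) * x * (S * Si) := by rw [hSSi, Matrix.one_mul, Matrix.mul_one]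
            _ = S * (Si * x * S) * Si := by simp only [Matrix.mul_assoc]
            _ = 1 := by rw [← hGv, h, Matrix.mul_one, hSSi]
        have hw' : ∀ v, ∃ s t : F, G.val *ᵥ v - v = s • (Si *ᵥ w₁) + t • (Si *ᵥ w₂) := by
          intro v
          obtain ⟨s, t, hst⟩ := hw (S *ᵥ v)
          refine ⟨s, t, ?_⟩
          have h3 : G.val *ᵥ v - v = Si *ᵥ (x *ᵥ (S *ᵥ v) - S *ᵥ v) := by
            rw [Matrix.mulVec_sub, Matrix.mulVec_mulVec, Matrix.mulVec_mulVec,
              Matrix.mulVec_mulVec, hSiS, Matrix.one_mulVec, hGv, Matrix.mul_assoc]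
          rw [h3, hst, Matrix.mulVec_add, Matrix.mulVec_smul, Matrix.mulVec_smul]
        have hd2 := Cfsg.Agent.Lib.Helper40.KWit.invol_no_norm h2 k hk.two_le K hK hKf hKalt
          G.val hys hyy hy1 _ _ hw' (fun a ha => by
            have h3 := (hG a).mp ha
            rw [hGi] at h3
            exact h3)
        have hd2' : d = 2 := by omega
        have hk4 : k ∣ 2 * d := by
          have h3 := Cfsg.Agent.Lib.Helper40.KStr.dvd_finrank ι
            (⊤ : Submodule F (Fin d ⊕ Fin d → F)) (fun a w _ => Submodule.mem_top)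
          rw [hfr, finrank_top, Module.finrank_fintype_fun_eq_card, Fintype.card_sum,
            Fintype.card_fin] at h3
          rw [two_mul]
          exact h3
        have hk2 : k = 2 := by
          rw [hd2'] at hk4
          have h3 : k ∣ 2 := by
            rcases (Nat.Prime.dvd_mul hk).mp hk4 with h | h <;> exact h
          exact (Nat.prime_dvd_prime_iff_eq hk Nat.prime_two).mp h3
        exact hcon ⟨hr2, hd2', hk2, hqodd⟩
      · exfalso
        obtain ⟨a₁, ha₁⟩ := Algebra.trace_surjective F L (1 : F)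
        have hτ : Algebra.trace F L ≠ 0 := by
          intro h
          rw [h] at ha₁
          simp at ha₁
        obtain ⟨m, Φ, hΦ, hf⟩ :=
          Cfsg.Agent.Lib.Helper40.KStr.exists_coords ι hsa halt (Algebra.trace F L) hτ
        have hdm : d = k * m := by
          have h3 := LinearEquiv.finrank_eq Φ
          rw [Module.finrank_fintype_fun_eq_card, Fintype.card_sum, Fintype.card_fin,
            Module.finrank_pi_fintype, Finset.sum_const, Finset.card_univ, Fintype.card_sum,
            Fintype.card_fin, smul_eq_mul, hfr] at h3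
          have h5 : (m + m) * k = k * m + k * m := by ring
          omega
        have hcd := Cfsg.Agent.Lib.Helper40.KStr.card_dvd K Φ ι hKι hΦ (Algebra.trace F L) hf
        have : Fintype L := Fintype.ofFinite L
        have hcL : Fintype.card L = q ^ k := by
          rw [Module.card_eq_pow_finrank (K := F) (V := L), hfr, hq]
        have hcS : Nat.card (Matrix.symplecticGroup (Fin m) L) = (q ^ k) ^ (m ^ 2) *
            ∏ i ∈ Finset.range m, ((q ^ k) ^ (2 * (i + 1)) - 1) := by
          rw [← hcL]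
          exact Cfsg.Agent.Lib.Helper5.SpCard.card_symplectic m
        have h2' := Subgroup.relIndex_mul_relIndex (⊥ : Subgroup (GL (Fin d ⊕ Fin d) F))
          (Cfsg.Geo.subalgebraNormalizer K ⊓ Cfsg.spGL d F) (Cfsg.spGL d F) bot_le inf_le_right
        rw [Subgroup.relIndex_bot_left, Subgroup.relIndex_bot_left,
          Subgroup.inf_relIndex_right] at h2'
        have hidx : Nat.card (Matrix.symplecticGroup (Fin m) L) * r ∣
            Nat.card ↥(Cfsg.spGL d F) := by
          rw [← h2']
          exact mul_dvd_mul hcd hΩ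
        rw [hcS, Cfsg.Agent.Lib.Helper40.FExtIdx.card_spGL d, hq] at hidx
        obtain ⟨j, hj1, hjd, hkj, hrj⟩ :=
          Cfsg.Agent.Lib.Helper40.KOdd.idx_arith q d k m r hq2 hk.one_lt.le hdm hr hrq hidx
        have hkd : k ≤ d := by
          rcases Nat.eq_zero_or_pos m with h | h
          · subst h
            omega
          · calc k = k * 1 := (mul_one k).symm
              _ ≤ k * m := Nat.mul_le_mul_left k h
              _ = d := hdm.symm
        obtain ⟨x, hxs, hxr, hxns, hcontra⟩ :=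
          Cfsg.Agent.Lib.Helper40.KOdd.odd_main hq hd1 r hr2 hrp k hk hkd j hj1 hjd hkj hrj hfr
            ι hinj hsadj
        obtain ⟨G, S, Si, hG, hGv, hSSi, hSiS, hS⟩ :=
          happly x hxs ⟨1, by rw [hxr, one_smul]⟩ hxns
        obtain ⟨hsy, hpow, hcp⟩ := hconj x S Si hSSi hSiS hS
        apply hcontra G.val
        · rw [hGv]
          exact hsymp x S Si hSSi hSiS hS hxs
        · rw [hGv, hpow, hxr, Matrix.mul_one, hSiS]
        · rw [hGv, hcp]
        · exact Cfsg.Agent.Lib.Helper40.KOdd.norm_of_mem K ι hιK hKι G hG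
  · rintro ⟨hr2, hd2, hk2, hqodd⟩
    subst hr2
    subst hd2
    subst hk2
    intro x hx hz hxns
    obtain ⟨z, hz⟩ := hz
    have h2 : (2 : F) ≠ 0 := Cfsg.Agent.Lib.Helper40.FExt.two_ne_zero_of hq hqodd
    have hxs := (Cfsg.Agent.Lib.Helper40.FExt.mem_spGL_iff x).mp hx
    have hxx : x.val * x.val = z • 1 := by
      rw [← pow_two, ← Units.val_pow_eq_pow_val]
      exact hz
    have hzz : z * z = 1 := by
      have h3 : Cfsg.Agent.Lib.Helper40.SympConj.sadj (x.val * x.val) * (x.val * x.val) = 1 := by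
        rw [Cfsg.Agent.Lib.Helper40.SympConj.sadj_mul]
        calc Cfsg.Agent.Lib.Helper40.SympConj.sadj x.val *
              Cfsg.Agent.Lib.Helper40.SympConj.sadj x.val * (x.val * x.val)
            = Cfsg.Agent.Lib.Helper40.SympConj.sadj x.val *
              (Cfsg.Agent.Lib.Helper40.SympConj.sadj x.val * x.val) * x.val := by
              simp only [Matrix.mul_assoc]
          _ = 1 := by rw [hxs, Matrix.mul_one, hxs]
      rw [hxx, Cfsg.Agent.Lib.Helper40.SympConj.sadj_smul,
        Cfsg.Agent.Lib.Helper40.SympConj.sadj_one, Matrix.smul_mul, Matrix.mul_smul,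
        Matrix.one_mul, smul_smul] at h3
      have h4 := congrFun (congrFun h3 (Sum.inl 0)) (Sum.inl 0)
      simpa using h4
    have hz' : z = 1 ∨ z = -1 := by
      have h3 : (z - 1) * (z + 1) = 0 := by linear_combination hzz
      rcases mul_eq_zero.mp h3 with h | h
      · left
        exact sub_eq_zero.mp h
      · right
        exact eq_neg_of_add_eq_zero_left h
    have hxx' : x.val * x.val = 1 ∨ x.val * x.val = -1 := by
      rcases hz' with h | h
      · left
        rw [hxx, h, one_smul]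
      · right
        rw [hxx, h, neg_smul, one_smul]
    obtain ⟨S, Si, hSi, hSSi, hSiS, hn1, hn2⟩ :=
      Cfsg.Agent.Lib.Helper40.KOdd.back_dir h2 hfr ι hsa halt x.val hxs hxx' hxns
    refine ⟨⟨Si, S, hSiS, hSSi⟩, (Cfsg.Agent.Lib.Helper40.FExt.mem_spGL_iff _).mpr hSi, ?_⟩
    apply Cfsg.Agent.Lib.Helper40.KOdd.mem_normalizer_of K ι hιK hKι
    · exact hn1
    · exact hn2

end Cfsg.Agent.S5975
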