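import Cfsg.Statements.S5976
import Mathlib
import Cfsg.Agent.Lib.Helper40.FExt
import Cfsg.Agent.Lib.Helper40.FExtIdx
import Cfsg.Agent.Lib.Helper40.FExtTwo
import Cfsg.Agent.Lib.Helper40.FExtOdd

set_option autoImplicit false
open scoped MatrixGroups
open Cfsg

namespace Cfsg.Agent.S5976

/-- Elements of prime order of PSp_n(q), q odd, and the subgroups of type GU_{n/2}(q). Here `T = PSp_{2d}(F)` for a field `F` with `q` elements, `q` odd, `d ≥ 2`, realised through the matrices preserving the standard alternating form `f`; `K` is a subalgebra of the `2d × 2d` matrices that is a field of degree 2 over `F`, closed under taking adjoints for `f` but not consisting of self-adjoint elements (so `F^{2d}` becomes a `d`-dimensional space over `K ≅ F_{q²}` on which `f` is the trace of a multiple of a non-degenerate hermitian form); `H` is the subgroup of `T` normalizing `K` — the symplectic maps that are `K`-linear or `K`-semilinear, a subgroup of type GU_d(q) (maximality is not assumed). Ω is the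 set of cosets of `H` in `T`, so an element of `T` of prime order `r` (`x ∈ T` with `x^r` scalar, `x` not scalar) fixes a point of Ω exactly when some `T`-conjugate of `x` normalizes `K`. Let `r` be a prime dividing the index of `H`. Then every element of `T` of order `r` fixes a point of Ω if and only if `r = 2`. -/
theorem result {F : Type*} [Field F] [Fintype F] {p : ℕ} [Fact p.Prime] [CharP F p] {q : ℕ} (hq : Fintype.card F = q)
    (hodd : Odd q) (d : ℕ) (hd : 2 ≤ d)
    (K : Subalgebra F (Matrix (Fin d ⊕ Fin d) (Fin d ⊕ Fin d) F)) (hK : Cfsg.Geo.IsFieldSubalgebra 2 K)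
    (hKf : Cfsg.Geo.IsAdjointClosedFor (Cfsg.sympForm d F) K) (hKns : ¬ Cfsg.Geo.IsSelfAdjointFor (Cfsg.sympForm d F) K)
    (r : ℕ) [Fact r.Prime]
    (hΩ : r ∣ (Cfsg.Geo.subalgebraNormalizer K).relIndex (Cfsg.spGL d F)) :
    (∀ x ∈ Cfsg.spGL d F, (∃ z : F, ((x ^ r : GL (Fin d ⊕ Fin d) F) : Matrix (Fin d ⊕ Fin d) (Fin d ⊕ Fin d) F) = z • (1 : Matrix (Fin d ⊕ Fin d) (Fin d ⊕ Fin d) F)) →
      (∀ z : F, (x : Matrix (Fin d ⊕ Fin d) (Fin d ⊕ Fin d) F) ≠ z • (1 : Matrix (Fin d ⊕ Fin d) (Fin d ⊕ Fin d) F)) →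
      ∃ g ∈ Cfsg.spGL d F, g⁻¹ * x * g ∈ Cfsg.Geo.subalgebraNormalizer K) ↔ r = 2 := by
  classical
  have h2 : (2 : F) ≠ 0 := Cfsg.Agent.Lib.Helper40.FExt.two_ne_zero_of hq hodd
  obtain ⟨J, l, hJs, hJJ, hl, hKJ, hind⟩ :=
    Cfsg.Agent.Lib.Helper40.FExt.struct_K h2 K hK hKf hKns
  have hl0 : l ≠ 0 := by
    rintro rfl
    exact hl ⟨0, by rw [mul_zero]⟩
  have hd1 : 1 ≤ d := by omega
  constructor
  · intro hall
    by_contra hr2
    have hidx := Cfsg.Agent.Lib.Helper40.FExtIdx.idx_dvd K J hKJ r hΩ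
    rw [Cfsg.Agent.Lib.Helper40.FExtIdx.card_comm hq hodd J l hl hJJ hJs,
      Cfsg.Agent.Lib.Helper40.FExtIdx.card_spGL d, hq] at hidx
    have hq2 : 2 ≤ q := by
      rw [← hq]
      exact Fintype.one_lt_card
    have hr : r.Prime := Fact.out
    have hcase := Cfsg.Agent.Lib.Helper40.FExtIdx.arith q d r hq2 hr hidx
    have hcase' : r = p ∨
        ∃ j < d, r ∣ (if Even j then q ^ (j + 1) - 1 else q ^ (j + 1) + 1) := by
      rcases hcase with h | h
      · left
        obtain ⟨n, -, hn⟩ := FiniteField.card F p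
        rw [hq] at hn
        rw [hn] at h
        exact (Nat.prime_dvd_prime_iff_eq hr Fact.out).mp (hr.dvd_of_dvd_pow h)
      · right
        exact h
    obtain ⟨x, hx, hxr, hxns, hxJ⟩ :=
      Cfsg.Agent.Lib.Helper40.FExtOdd.odd_witness hq hodd hd1 r hr2 hcase'
    obtain ⟨xg, hxg⟩ : ∃ xg : GL (Fin d ⊕ Fin d) F, xg.val = x :=
      ⟨⟨x, Cfsg.Agent.Lib.Helper40.SympConj.sadj x, mul_eq_one_comm.mp hx, hx⟩, rfl⟩
    have hxmem : xg ∈ Cfsg.spGL d F :=
      (Cfsg.Agent.Lib.Helper40.FExt.mem_spGL_iff xg).mpr (by rw [hxg]; exact hx)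
    obtain ⟨g, hg, hgN⟩ := hall xg hxmem
      ⟨1, by rw [Units.val_pow_eq_pow_val, hxg, hxr, one_smul]⟩
      (by intro z; rw [hxg]; exact hxns z)
    have hgs := (Cfsg.Agent.Lib.Helper40.FExt.mem_spGL_iff g).mp hg
    have hy := Cfsg.Agent.Lib.Helper40.FExt.normalizer_comm h2 K J l hJJ hl hKJ hind
      (g⁻¹ * xg * g) hgN
    simp only [Units.val_mul, hxg] at hy
    obtain ⟨J', hJ'⟩ : ∃ J', J' = g.val * J * (g⁻¹).val := ⟨_, rfl⟩
    have hgi : Cfsg.Agent.Lib.Helper40.SympConj.sadj g.val = (g⁻¹).val := by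
      calc Cfsg.Agent.Lib.Helper40.SympConj.sadj g.val
          = Cfsg.Agent.Lib.Helper40.SympConj.sadj g.val * (g.val * (g⁻¹).val) := by
            rw [Units.mul_inv, Matrix.mul_one]
        _ = (g⁻¹).val := by rw [← Matrix.mul_assoc, hgs, Matrix.one_mul]
    have hgi' : Cfsg.Agent.Lib.Helper40.SympConj.sadj (g⁻¹).val = g.val := by
      rw [← hgi, Cfsg.Agent.Lib.Helper40.SympConj.sadj_sadj]
    have hJ'J' : J' * J' = l • 1 := by
      rw [hJ']
      calc g.val * J * (g⁻¹).val * (g.val * J * (g⁻¹).val)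
          = g.val * J * ((g⁻¹).val * g.val) * J * (g⁻¹).val := by simp only [Matrix.mul_assoc]
        _ = g.val * (J * J) * (g⁻¹).val := by
            rw [Units.inv_mul, Matrix.mul_one]
            simp only [Matrix.mul_assoc]
        _ = l • 1 := by
            rw [hJJ, Matrix.mul_smul, Matrix.smul_mul, Matrix.mul_one, Units.mul_inv]
    have hJ's : Cfsg.Agent.Lib.Helper40.SympConj.sadj J' = -J' := by
      rw [hJ', Cfsg.Agent.Lib.Helper40.SympConj.sadj_mul,
        Cfsg.Agent.Lib.Helper40.SympConj.sadj_mul, hgi', hgi, hJs, Matrix.neg_mul, Matrix.mul_neg,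
        Matrix.mul_assoc]
    have key : ∀ ε : F, (g⁻¹).val * x * g.val * J = ε • (J * ((g⁻¹).val * x * g.val)) →
        x * J' = ε • (J' * x) := by
      intro ε h
      rw [hJ']
      calc x * (g.val * J * (g⁻¹).val)
          = (g.val * (g⁻¹).val) * x * (g.val * J * (g⁻¹).val) := by
            rw [Units.mul_inv, Matrix.one_mul]
        _ = g.val * (((g⁻¹).val * x * g.val) * J) * (g⁻¹).val := by
            simp only [Matrix.mul_assoc]
        _ = g.val * (ε • (J * ((g⁻¹).val * x * g.val))) * (g⁻¹).val := by rw [h]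
        _ = ε • (g.val * J * (g⁻¹).val * x * (g.val * (g⁻¹).val)) := by
            rw [Matrix.mul_smul, Matrix.smul_mul]
            simp only [Matrix.mul_assoc]
        _ = ε • (g.val * J * (g⁻¹).val * x) := by rw [Units.mul_inv, Matrix.mul_one]
    rcases hy with hy | hy
    · have h3 := key 1 (by rw [one_smul]; exact hy)
      rw [one_smul] at h3
      exact hxJ J' l hl hJ'J' hJ's h3
    · have h3 := key (-1) (by rw [neg_smul, one_smul]; exact hy)
      rw [neg_smul, one_smul] at h3
      have h4 : ∀ k : ℕ, x ^ k * J' = (-1 : F) ^ k • (J' * x ^ k) := by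
        intro k
        induction k with
        | zero => simp
        | succ k ih =>
          calc x ^ (k + 1) * J' = x ^ k * (x * J') := by rw [pow_succ, Matrix.mul_assoc]
            _ = -((x ^ k * J') * x) := by rw [h3, Matrix.mul_neg, Matrix.mul_assoc]
            _ = -(((-1 : F) ^ k • (J' * x ^ k)) * x) := by rw [ih]
            _ = (-1 : F) ^ (k + 1) • (J' * x ^ (k + 1)) := by
                rw [Matrix.smul_mul, Matrix.mul_assoc, ← pow_succ, pow_succ (-1 : F), mul_neg_one,
                  neg_smul]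
      have h5 := h4 r
      rw [hxr, Matrix.one_mul, Matrix.mul_one, Odd.neg_one_pow (hr.odd_of_ne_two hr2), neg_smul,
        one_smul] at h5
      have h6 : (2 : F) • J' = 0 := by
        rw [two_smul]
        nth_rewrite 1 [h5]
        exact neg_add_cancel J'
      rcases smul_eq_zero.mp h6 with h | h
      · exact h2 h
      · rw [h, Matrix.mul_zero] at hJ'J'
        have h7 := hind l 0 (by rw [zero_smul, add_zero]; exact hJ'J'.symm)
        exact hl0 h7.1
  · intro hr2
    subst hr2
    intro x hx hz hxns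
    obtain ⟨z, hz⟩ := hz
    have hxs := (Cfsg.Agent.Lib.Helper40.FExt.mem_spGL_iff x).mp hx
    have hxx : x.val * x.val = z • 1 := by
      rw [← pow_two, ← Units.val_pow_eq_pow_val]
      exact hz
    have hzz : z * z = 1 := by
      have h3 : Cfsg.Agent.Lib.Helper40.SympConj.sadj (x.val * x.val) * (x.val * x.val) = 1 := by
        rw [Cfsg.Agent.Lib.Helper40.SympConj.sadj_mul]
        calc Cfsg.Agent.Lib.Helper40.SympConj.sadj x.val *
              Cfsg.Agent.Lib.Helper40.SympConj.sadj x.val * (x.val * x.val)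
            = Cfsg.Agent.Lib.Helper40.SympConj.sadj x.val *
              (Cfsg.Agent.Lib.Helper40.SympConj.sadj x.val * x.val) * x.val := by
              simp only [Matrix.mul_assoc]
          _ = 1 := by rw [hxs, Matrix.mul_one, hxs]
      rw [hxx, Cfsg.Agent.Lib.Helper40.SympConj.sadj_smul,
        Cfsg.Agent.Lib.Helper40.SympConj.sadj_one, Matrix.smul_mul, Matrix.mul_smul,
        Matrix.one_mul, smul_smul] at h3
      have h4 := hind (z * z - 1) 0 (by rw [zero_smul, add_zero, sub_smul, h3, one_smul, sub_self])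
      exact sub_eq_zero.mp h4.1
    have hz' : z = 1 ∨ z = -1 := by
      have h3 : (z - 1) * (z + 1) = 0 := by linear_combination hzz
      rcases mul_eq_zero.mp h3 with h | h
      · left
        exact sub_eq_zero.mp h
      · right
        exact eq_neg_of_add_eq_zero_left h
    have hxx' : x.val * x.val = 1 ∨ x.val * x.val = -1 := by
      rcases hz' with h | h
      · left
        rw [hxx, h, one_smul]
      · right
        rw [hxx, h, neg_smul, one_smul]
    obtain ⟨h, hi, hh, hhhi, hhih, hcomm⟩ :=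
      Cfsg.Agent.Lib.Helper40.FExtTwo.two_dir hq hodd J l hl hJJ hJs x.val hxs hxx'
    refine ⟨⟨h, hi, hhhi, hhih⟩, (Cfsg.Agent.Lib.Helper40.FExt.mem_spGL_iff _).mpr hh, ?_⟩
    rcases hcomm with hc | hc
    · apply Cfsg.Agent.Lib.Helper40.FExt.mem_normalizer K J hKJ _ 1 one_ne_zero
      rw [one_smul]
      exact hc
    · apply Cfsg.Agent.Lib.Helper40.FExt.mem_normalizer K J hKJ _ (-1) (neg_ne_zero.mpr one_ne_zero)
      rw [neg_smul, one_smul]
      exact hc

end Cfsg.Agent.S5976
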