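import Cfsg.Statements.S5983
import Cfsg.Agent.Lib.Helper44.SpQ5

set_option autoImplicit false
open scoped MatrixGroups
open Cfsg

namespace Cfsg.Agent.S5983




/-- Elements of prime order of PSp_n(q), q even, and the subgroups of orthogonal type. Here `T = Sp_{2d}(F)` for a field `F` of characteristic 2 with `q` elements (`d ≥ 2`, `(d, q) ≠ (2, 2)`), realised as the invertible matrices preserving the standard alternating form; `Q` is a non-degenerate quadratic form on `F^{2d}` whose polar form is that alternating form, and `H` is the subgroup of `T` preserving `Q` up to a scalar (equivalently preserving `Q`) — a subgroup of type O^±_{2d}(q) (maximality is not assumed); `Q` is of plus type when `F^{2d}` contains a `d`-dimensional subspace on which `Q` vanishes, of minus type otherwise. Ω is the set of cosets of `H` in `T`, so an element of `T` of prime order `r` (`x ∈ T` with `x^r` scalar, `x` not scalar) fixes a point of Ω exactly when some `T`-conjugate of `x` preserves `Q`. Let `r` be a prime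 dividing the index of `H`. Then every element of `T` of order `r` fixes a point of Ω if and only if `r = 2` and either `Q` is of plus type or `d` is odd. -/
theorem result {F : Type*} [Field F] [Fintype F] {p : ℕ} [Fact p.Prime] [CharP F p] {q : ℕ} (hq : Fintype.card F = q)
    (hp : p = 2) (d : ℕ) (hd : 2 ≤ d) (hT : (d, q) ≠ (2, 2)) (Q : (Fin d ⊕ Fin d → F) → F) (hQ : Cfsg.Geo.IsNondegenerateQuadraticForm Q)
    (hQf : ∀ u v, QuadraticMap.polar Q u v = Cfsg.sympForm d F u v)
    (r : ℕ) [Fact r.Prime]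
    (hΩ : r ∣ (Cfsg.Geo.quadSimilarityGroup Q).relIndex (Cfsg.spGL d F)) :
    (∀ x ∈ Cfsg.spGL d F, (∃ z : F, ((x ^ r : GL (Fin d ⊕ Fin d) F) : Matrix (Fin d ⊕ Fin d) (Fin d ⊕ Fin d) F) = z • (1 : Matrix (Fin d ⊕ Fin d) (Fin d ⊕ Fin d) F)) →
      (∀ z : F, (x : Matrix (Fin d ⊕ Fin d) (Fin d ⊕ Fin d) F) ≠ z • (1 : Matrix (Fin d ⊕ Fin d) (Fin d ⊕ Fin d) F)) →
      ∃ g ∈ Cfsg.spGL d F, g⁻¹ * x * g ∈ Cfsg.Geo.quadSimilarityGroup Q) ↔
    (r = 2 ∧ (Cfsg.Geo.IsPlusTypeOn Q ⊤ ∨ Odd d)) := by
  subst hp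
  exact Cfsg.Agent.Lib.Helper44.SpQ5.main d hd Q hQ hQf r hΩ

end Cfsg.Agent.S5983
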