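import Cfsg.Statements.S5984
import Mathlib
import Cfsg.Agent.Lib.Helper40.PPElts
import Cfsg.Agent.Lib.Helper40.PPIndex

set_option autoImplicit false
open scoped MatrixGroups
open Cfsg

namespace Cfsg.Agent.S5984

/-- Elements of prime order of PSU_n(q) and the stabilizers of pairs of complementary totally singular subspaces. Here `T = PSU_n(q)` is realised through `SU_n(q)`, the matrices of determinant 1 over the field `F` with `q²` elements preserving the hermitian form `Σ uᵢ vᵢ^q`, with `n ≥ 4` even; `D` is a pair of complementary subspaces of dimension `n/2` on each of which the form vanishes identically, and `H` is the subgroup of `SU_n(q)` fixing or interchanging the two members — a subgroup of type GL_{n/2}(q²).2 (maximality is not assumed). Ω is the set of cosets of `H`, so an element of `T` of prime order `r` (`x ∈ SU_n(q)` with `x^r` scalar, `x` not scalar) fixes a point of Ω exactly when some `SU_n(q)`-conjugate of `x` lies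 in `H`. Let `r` be a prime dividing the index of `H`. Then every element of `T` of order `r` fixes a point of Ω if and only if `r = 2`, `q` is odd and `(q + 1)_2 ≤ (n)_2` (2-parts). -/
theorem result {F : Type*} [Field F] [Fintype F] {p : ℕ} [Fact p.Prime] [CharP F p] {q : ℕ} (hq : Fintype.card F = q ^ 2)
    (n : ℕ) (hn : 4 ≤ n) (he : Even n) (D : Fin 2 → Submodule F (Fin n → F)) (hD : Cfsg.Geo.IsMDecomposition (n / 2) D)
    (hDs : ∀ i, Cfsg.Geo.IsTotallySingularFor (Cfsg.hermForm n F q) (D i))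
    (r : ℕ) [Fact r.Prime]
    (hΩ : r ∣ (Cfsg.Geo.decompositionStabilizer D).relIndex (Cfsg.GU n F q ⊓ Cfsg.Geo.specialLinear (Fin n) F)) :
    (∀ x ∈ Cfsg.GU n F q ⊓ Cfsg.Geo.specialLinear (Fin n) F, (∃ z : F, ((x ^ r : GL (Fin n) F) : Matrix (Fin n) (Fin n) F) = z • (1 : Matrix (Fin n) (Fin n) F)) →
      (∀ z : F, (x : Matrix (Fin n) (Fin n) F) ≠ z • (1 : Matrix (Fin n) (Fin n) F)) →
      ∃ g ∈ Cfsg.GU n F q ⊓ Cfsg.Geo.specialLinear (Fin n) F, g⁻¹ * x * g ∈ Cfsg.Geo.decompositionStabilizer D) ↔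
    (r = 2 ∧ Odd q ∧ padicValNat 2 (q + 1) ≤ padicValNat 2 n) := by
  classical
  have hr : r.Prime := Fact.out
  have hp : p.Prime := Fact.out
  obtain ⟨φ, hφq, hφ, l, hl⟩ := Cfsg.Agent.Lib.Helper40.HermAdj.exists_phi hq
  obtain ⟨m, hm⟩ := he
  subst hm
  have hm2 : 2 ≤ m := by omega
  have hdiv : (m + m) / 2 = m := by omega
  have hfin : ∀ i, Module.finrank F (D i) = m := fun i => by rw [hD.finrank_eq i, hdiv]
  have hTI : ∀ i, Cfsg.Agent.Lib.Helper40.TGeo.TI φ (D i) := by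
    intro i u hu v hv
    rw [← Cfsg.Agent.Lib.Helper40.HCount.herm_hB φ hφq]
    exact hDs i u hu v hv
  have hsup : D 0 ⊔ D 1 = ⊤ := by
    rw [← hD.iSup_eq_top]
    apply le_antisymm
    · exact sup_le (le_iSup D 0) (le_iSup D 1)
    · apply iSup_le
      intro i
      fin_cases i
      · exact le_sup_left
      · exact le_sup_right
  have hinf : D 0 ⊓ D 1 = ⊥ :=
    (hD.indep.pairwiseDisjoint (by decide : (0 : Fin 2) ≠ 1)).eq_bot
  obtain ⟨G, hG, hD0, hD1⟩ := Cfsg.Agent.Lib.Helper40.PPFrame.exists_frame φ hφ (D 0) (D 1)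
    (hfin 0) (hfin 1) (hTI 0) (hTI 1) hsup
  have hmem : ∀ x : GL (Fin (m + m)) F,
      x ∈ Cfsg.GU (m + m) F q ⊓ Cfsg.Geo.specialLinear (Fin (m + m)) F ↔
      Cfsg.Agent.Lib.Helper40.HermAdj.adj φ (x : Matrix (Fin (m + m)) (Fin (m + m)) F) *
          (x : Matrix (Fin (m + m)) (Fin (m + m)) F) = 1 ∧
        (x : Matrix (Fin (m + m)) (Fin (m + m)) F).det = 1 := by
    intro x
    rw [Subgroup.mem_inf]
    constructor
    · rintro ⟨h1, h2⟩
      refine ⟨(Cfsg.Agent.Lib.Helper40.HermAdj.preserves_iff φ hφq _).mp h1, ?_⟩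
      have h3 : Matrix.GeneralLinearGroup.det x = 1 := MonoidHom.mem_ker.mp h2
      have h4 := congrArg Units.val h3
      rwa [Matrix.GeneralLinearGroup.val_det_apply, Units.val_one] at h4
    · rintro ⟨h1, h2⟩
      refine ⟨(Cfsg.Agent.Lib.Helper40.HermAdj.preserves_iff φ hφq _).mpr h1, ?_⟩
      apply MonoidHom.mem_ker.mpr
      apply Units.ext
      rw [Matrix.GeneralLinearGroup.val_det_apply, Units.val_one]
      exact h2
  constructor
  · intro H
    have hidx : ¬ r ∣ q → ∃ t < m, r ∣ q ^ (2 * t + 1) + 1 := fun hrq =>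
      Cfsg.Agent.Lib.Helper40.PPIndex.dvd_of_dvd_index hq φ hφq hφ (by omega) D G hG hD0 hD1 r
        hr hrq hΩ
    obtain ⟨w, hw, hw0⟩ : ∃ w ∈ D 0, w ≠ 0 := by
      have hpos : 0 < Module.finrank F (D 0) := by
        rw [hfin 0]
        omega
      rw [Module.finrank_pos_iff_exists_ne_zero] at hpos
      obtain ⟨w, hw⟩ := hpos
      exact ⟨w.1, w.2, fun h => hw (Subtype.ext h)⟩
    have hww : Cfsg.Agent.Lib.Helper40.UnitDet.hB φ w w = 0 := hTI 0 w hw w hw
    have key := Cfsg.Agent.Lib.Helper40.PPElts.nec hq φ hφq hφ l hl hp hm2 r hr hidx w hw0 hww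
      (by
        intro x hx hdet hz hns
        have hxu : x * Cfsg.Agent.Lib.Helper40.HermAdj.adj φ x = 1 := mul_eq_one_comm.mp hx
        obtain ⟨X, hX⟩ : ∃ X : GL (Fin (m + m)) F,
            (X : Matrix (Fin (m + m)) (Fin (m + m)) F) = x :=
          ⟨⟨x, Cfsg.Agent.Lib.Helper40.HermAdj.adj φ x, hxu, hx⟩, rfl⟩
        have hXmem : X ∈ Cfsg.GU (m + m) F q ⊓ Cfsg.Geo.specialLinear (Fin (m + m)) F :=
          (hmem X).mpr (by rw [hX]; exact ⟨hx, hdet⟩)
        obtain ⟨g, hg, hgs⟩ := H X hXmem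
          (by
            obtain ⟨z, hz⟩ := hz
            exact ⟨z, by rw [Units.val_pow_eq_pow_val, hX]; exact hz⟩)
          (by rw [hX]; exact hns)
        obtain ⟨σ, hσ⟩ : ∃ σ : Equiv.Perm (Fin 2), ∀ i,
            (D i).map (Matrix.toLin' ((g⁻¹ * X * g : GL (Fin (m + m)) F) :
              Matrix (Fin (m + m)) (Fin (m + m)) F)) = D (σ i) := hgs
        obtain ⟨hg1, hg2⟩ := (hmem g).mp hg
        have hval : ((g⁻¹ * X * g : GL (Fin (m + m)) F) :
              Matrix (Fin (m + m)) (Fin (m + m)) F) =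
            ((g⁻¹ : GL (Fin (m + m)) F) : Matrix (Fin (m + m)) (Fin (m + m)) F) * x *
              (g : Matrix (Fin (m + m)) (Fin (m + m)) F) := by
          rw [Units.val_mul, Units.val_mul, hX]
        rw [hval] at hσ
        have hcases : ∀ a b : Fin 2, a ≠ b → (a = 0 ∧ b = 1) ∨ (a = 1 ∧ b = 0) := by decide
        apply Cfsg.Agent.Lib.Helper40.PPElts.pairStab_of_conj φ hφ m (D 0) (D 1) (hfin 0)
          (hfin 1) (hTI 0) (hTI 1) hinf x (g : Matrix (Fin (m + m)) (Fin (m + m)) F)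
          ((g⁻¹ : GL (Fin (m + m)) F) : Matrix (Fin (m + m)) (Fin (m + m)) F) hg1
          (Units.mul_inv g)
        rcases hcases (σ 0) (σ 1) (σ.injective.ne (by decide)) with ⟨h0, h1⟩ | ⟨h0, h1⟩
        · left
          exact ⟨by rw [hσ 0, h0], by rw [hσ 1, h1]⟩
        · right
          exact ⟨by rw [hσ 0, h0], by rw [hσ 1, h1]⟩)
    obtain ⟨h1, h2, h3⟩ := key
    exact ⟨h1, Nat.odd_iff.mpr h2, h3⟩
  · rintro ⟨hr2, hqodd, hv⟩ x hx ⟨z, hz⟩ _
    obtain ⟨hx1, hx2⟩ := (hmem x).mp hx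
    have hp2 : p ≠ 2 := by
      intro hp2
      have hpq : p ∣ q := by
        obtain ⟨f, -, hf⟩ := FiniteField.card F p
        have h1 : p ∣ q ^ 2 := by
          rw [← hq, hf]
          exact dvd_pow_self p (PNat.ne_zero f)
        exact hp.dvd_of_dvd_pow h1
      rw [hp2] at hpq
      exact (Nat.not_even_iff_odd.mpr hqodd) (even_iff_two_dvd.mpr hpq)
    rw [hr2] at hz
    have hz' : (x : Matrix (Fin (m + m)) (Fin (m + m)) F) ^ 2 =
        z • (1 : Matrix (Fin (m + m)) (Fin (m + m)) F) := by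
      rw [← Units.val_pow_eq_pow_val]
      exact hz
    obtain ⟨g, hg1, hg2, hgD0, hgD1⟩ := Cfsg.Agent.Lib.Helper40.PPElts.suff hq φ hφq hφ l hl hp2
      (by omega) hv G hG (D 0) (D 1) hD0 hD1 (x : Matrix (Fin (m + m)) (Fin (m + m)) F) hx1 hx2
      z hz'
    have hgu : g * Cfsg.Agent.Lib.Helper40.HermAdj.adj φ g = 1 := mul_eq_one_comm.mp hg1
    obtain ⟨g', hg', hg'i⟩ : ∃ g' : GL (Fin (m + m)) F,
        (g' : Matrix (Fin (m + m)) (Fin (m + m)) F) = g ∧
        ((g'⁻¹ : GL (Fin (m + m)) F) : Matrix (Fin (m + m)) (Fin (m + m)) F) =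
          Cfsg.Agent.Lib.Helper40.HermAdj.adj φ g :=
      ⟨⟨g, Cfsg.Agent.Lib.Helper40.HermAdj.adj φ g, hgu, hg1⟩, rfl, rfl⟩
    refine ⟨g', (hmem g').mpr (by rw [hg']; exact ⟨hg1, hg2⟩), ?_⟩
    show ∃ σ : Equiv.Perm (Fin 2), ∀ i,
      (D i).map (Matrix.toLin' ((g'⁻¹ * x * g' : GL (Fin (m + m)) F) :
        Matrix (Fin (m + m)) (Fin (m + m)) F)) = D (σ i)
    refine ⟨1, ?_⟩
    intro i
    rw [Units.val_mul, Units.val_mul, hg', hg'i, Equiv.Perm.coe_one, id_eq]
    fin_cases i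
    · exact hgD0
    · exact hgD1

end Cfsg.Agent.S5984
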