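import Cfsg.Statements.S5994
-- import your own Cfsg.Agent.* helpers here
import Cfsg.Agent.Lib.Helper95.JOrthE
import Cfsg.Agent.Lib.Helper44.NegPairs

set_option autoImplicit false
open scoped MatrixGroups
open Cfsg

namespace Cfsg.Agent.S5994

/-- A necessary condition for every element of order p of PΩ⁻_n(q), q odd, to fix an elliptic `m`-space. Here `T = PΩ⁻_n(F)`, `n = 2d ≥ 8`, realised through `Ω⁻_n(q)`, the commutator subgroup of the isometry group of `Q = Σ_{i<d−1} xᵢyᵢ + z₁² + a z₁z₂ + b z₂²` with `z₁² + a z₁z₂ + b z₂²` anisotropic, over the field `F` with `q` elements; an element of `T` of prime order `r` is an element `x` of `Ω⁻_n(q)` with `x^r` scalar and `x` not scalar; `q` is odd; a nondegenerate `m`-space (even `m`) is a subspace on which the polar form of `Q` is nondegenerate; it is hyperbolic if it contains an `m/2`-dimensional subspace on which `Q` vanishes, elliptic otherwise. Let `m` be even with `2 ≤ m ≤ n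 − 2` and suppose `p` divides the number of elliptic `m`-spaces. If every element of `T` of order `p` fixes some elliptic `m`-space, then `n ≡ m (mod 4)` and every partition of `n` into parts of size at most `p` in which every even part has even multiplicity contains (as a sub-multiset) a partition of `m` in which every even part has even multiplicity. -/
theorem result {F : Type*} [Field F] [Fintype F] {p : ℕ} [Fact p.Prime] [CharP F p] {q : ℕ} (hq : Fintype.card F = q) (hqodd : Odd q)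
    (d m : ℕ) (hd : 4 ≤ d) (hm : 2 ≤ m) (hme : Even m) (hmn : m + 2 ≤ 2 * d) (a b : F) (hab : ∀ x y : F, x ^ 2 + a * x * y + b * y ^ 2 = 0 → x = 0 ∧ y = 0)
    (hpΩ : p ∣ Nat.card {W : Submodule F ((Fin (d - 1) ⊕ Fin (d - 1)) ⊕ Fin 2 → F) // Module.finrank F ↥W = m ∧ Cfsg.Geo.IsNondegenerateOn (QuadraticMap.polar (Cfsg.quadFormMinus (d - 1) F a b)) W ∧ ¬ Cfsg.Geo.IsPlusTypeOn (Cfsg.quadFormMinus (d - 1) F a b) W}) :
    (∀ x : GL ((Fin (d - 1) ⊕ Fin (d - 1)) ⊕ Fin 2) F, x ∈ Cfsg.Geo.omegaGL (Cfsg.quadFormMinus (d - 1) F a b) →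
      (∃ z : F, ((x ^ p : GL ((Fin (d - 1) ⊕ Fin (d - 1)) ⊕ Fin 2) F) : Matrix ((Fin (d - 1) ⊕ Fin (d - 1)) ⊕ Fin 2) ((Fin (d - 1) ⊕ Fin (d - 1)) ⊕ Fin 2) F) = z • (1 : Matrix ((Fin (d - 1) ⊕ Fin (d - 1)) ⊕ Fin 2) ((Fin (d - 1) ⊕ Fin (d - 1)) ⊕ Fin 2) F)) →
      (∀ z : F, (x : Matrix ((Fin (d - 1) ⊕ Fin (d - 1)) ⊕ Fin 2) ((Fin (d - 1) ⊕ Fin (d - 1)) ⊕ Fin 2) F) ≠ z • (1 : Matrix ((Fin (d - 1) ⊕ Fin (d - 1)) ⊕ Fin 2) ((Fin (d - 1) ⊕ Fin (d - 1)) ⊕ Fin 2) F)) →
      ∃ W : Submodule F ((Fin (d - 1) ⊕ Fin (d - 1)) ⊕ Fin 2 → F), (Module.finrank F ↥W = m ∧ Cfsg.Geo.IsNondegenerateOn (QuadraticMap.polar (Cfsg.quadFormMinus (d - 1) F a b)) W ∧ ¬ Cfsg.Geo.IsPlusTypeOn (Cfsg.quadFormMinus (d - 1) F a b) W) ∧ W.map (Matrix.toLin' (x : Matrix ((Fin (d - 1) ⊕ Fin (d - 1)) ⊕ Fin 2) ((Fin (d - 1) ⊕ Fin (d - 1)) ⊕ Fin 2) F)) ≤ W) →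
    ((2 * d) % 4 = m % 4 ∧ (∀ μ : Multiset ℕ, (∀ e ∈ μ, 0 < e ∧ e ≤ p) → (∀ e : ℕ, Even e → Even (μ.count e)) → μ.sum = 2 * d →
        ∃ ν : Multiset ℕ, ν ≤ μ ∧ ν.sum = m ∧ ∀ e : ℕ, Even e → Even (ν.count e))) := by
  classical
  intro H
  have hp : p.Prime := Fact.out
  have h2 : (2 : F) ≠ 0 :=
    Cfsg.Agent.Lib.Helper95.JOrth.two_ne_zero_of_odd_card (by rw [hq]; exact hqodd)
  have hpodd : Odd p := Cfsg.Agent.Lib.Helper95.JOrth.odd_char_of_two_ne_zero (F := F) h2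
  have hp3 : 3 ≤ p := by
    obtain ⟨r, hr⟩ := hpodd
    have := hp.two_le
    omega
  have hcard : Fintype.card ((Fin (d - 1) ⊕ Fin (d - 1)) ⊕ Fin 2) = 2 * d := by
    rw [Fintype.card_sum, Fintype.card_sum, Fintype.card_fin, Fintype.card_fin]; omega
  haveI : Nonempty ((Fin (d - 1) ⊕ Fin (d - 1)) ⊕ Fin 2) := ⟨Sum.inr 0⟩
  have hcore : ∀ μ' : Multiset ℕ, (∀ e ∈ μ', 0 < e ∧ e ≤ p) →
      (∀ e, Even e → Even (μ'.count e)) → μ'.sum = 2 * d → (∃ s ∈ μ', Odd s) →
      ∃ ν : Multiset ℕ, ν ≤ μ' ∧ ν.sum = m ∧ (∀ e, Even e → Even (ν.count e)) ∧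
        ((∀ b ∈ ν, b = 2) → (∃ b ∈ μ', b ≠ 1) → False) := by
    intro μ' h1 h2' h3 h4
    obtain ⟨ν, hle, hs, hpar, hplus⟩ := Cfsg.Agent.Lib.Helper95.JOrth.core h2
      (Cfsg.Agent.Lib.Helper44.NegPairs.minusQ (d - 1) F a b)
      (Cfsg.Agent.Lib.Helper44.NegPairs.sep_minusQ h2 (d - 1) a b hab)
      (by rw [hcard]; omega) m (by rw [hcard]; omega)
      (fun W => ¬ Cfsg.Geo.IsPlusTypeOn (Cfsg.quadFormMinus (d - 1) F a b) W)
      (fun x hx hxp hx1 => H x hx
        (Cfsg.Agent.Lib.Helper95.JOrth.pow_scalar_of_pow_eq_one x hxp)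
        (Cfsg.Agent.Lib.Helper95.JOrth.nonscalar_of_ne_one x hxp hx1))
      μ' h1 h2' (by rw [h3, hcard]) h4
    refine ⟨ν, hle, hs, hpar, fun hb hμ1 => ?_⟩
    obtain ⟨W, hW1, hW2⟩ := hplus hb hμ1
    exact hW1 hW2
  have hA : ∀ μ' : Multiset ℕ, (∀ e ∈ μ', 0 < e ∧ e ≤ p) →
      (∀ e, Even e → Even (μ'.count e)) → μ'.sum = 2 * d → (∃ s ∈ μ', Odd s) →
      ∃ ν : Multiset ℕ, ν ≤ μ' ∧ ν.sum = m ∧ ∀ e, Even e → Even (ν.count e) := by
    intro μ' h1 h2' h3 h4
    obtain ⟨ν, hle, hs, hpar, -⟩ := hcore μ' h1 h2' h3 h4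
    exact ⟨ν, hle, hs, hpar⟩
  refine ⟨?_, ?_⟩
  · rcases Nat.even_or_odd d with hde | hdo
    · obtain ⟨ν, hle, hs, hpar, -⟩ := hcore (3 ::ₘ 1 ::ₘ Multiset.replicate (d - 2) 2) (by
        intro e he
        rw [Multiset.mem_cons, Multiset.mem_cons] at he
        rcases he with rfl | rfl | he
        · omega
        · omega
        · rw [Multiset.eq_of_mem_replicate he]; omega) (by
        intro e he
        rw [Multiset.count_cons_of_ne (by rintro rfl; exact absurd he (by decide)),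
          Multiset.count_cons_of_ne (by rintro rfl; exact absurd he (by decide)),
          Multiset.count_replicate]
        split_ifs
        · obtain ⟨r, hr⟩ := hde
          exact ⟨r - 1, by omega⟩
        · exact Even.zero) (by
        rw [Multiset.sum_cons, Multiset.sum_cons, Multiset.sum_replicate, smul_eq_mul]; omega)
        ⟨3, Multiset.mem_cons_self _ _, by decide⟩
      obtain ⟨b₁, b₂, k, hb₁, hb₂, hsum, hcnt, -⟩ :=
        Cfsg.Agent.Lib.Helper95.JOrth.sub_two_odd ν 3 1 (d - 2) (by norm_num) (by norm_num) hle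
      have hk := hpar 2 even_two
      rw [hcnt] at hk
      obtain ⟨r, hr⟩ := hk
      obtain ⟨r', hr'⟩ := hme
      obtain ⟨r'', hr''⟩ := hde
      rw [hs] at hsum
      interval_cases b₁ <;> interval_cases b₂ <;> omega
    · obtain ⟨ν, hle, hs, hpar, hplus⟩ := hcore (1 ::ₘ 1 ::ₘ Multiset.replicate (d - 1) 2) (by
        intro e he
        rw [Multiset.mem_cons, Multiset.mem_cons] at he
        rcases he with rfl | rfl | he
        · omega
        · omega
        · rw [Multiset.eq_of_mem_replicate he]; omega) (by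
        intro e he
        rw [Multiset.count_cons_of_ne (by rintro rfl; exact absurd he (by decide)),
          Multiset.count_cons_of_ne (by rintro rfl; exact absurd he (by decide)),
          Multiset.count_replicate]
        split_ifs
        · obtain ⟨r, hr⟩ := hdo
          exact ⟨r, by omega⟩
        · exact Even.zero) (by
        rw [Multiset.sum_cons, Multiset.sum_cons, Multiset.sum_replicate, smul_eq_mul]; omega)
        ⟨1, Multiset.mem_cons_self _ _, by decide⟩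
      obtain ⟨b₁, b₂, k, hb₁, hb₂, hsum, hcnt, hall⟩ :=
        Cfsg.Agent.Lib.Helper95.JOrth.sub_two_odd ν 1 1 (d - 1) (by norm_num) (by norm_num) hle
      have hk := hpar 2 even_two
      rw [hcnt] at hk
      rw [hs] at hsum
      by_cases hb : b₁ = 0 ∧ b₂ = 0
      · exfalso
        exact hplus (hall hb.1 hb.2) ⟨2, Multiset.mem_cons_of_mem (Multiset.mem_cons_of_mem
          (Multiset.mem_replicate.mpr ⟨by omega, rfl⟩)), by norm_num⟩
      · obtain ⟨r, hr⟩ := hk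
        obtain ⟨r', hr'⟩ := hme
        obtain ⟨r'', hr''⟩ := hdo
        interval_cases b₁ <;> interval_cases b₂ <;> omega
  · intro μ hμ hev hsum
    by_cases hodd : ∃ s ∈ μ, Odd s
    · exact hA μ hμ hev hsum hodd
    · push_neg at hodd
      refine Cfsg.Agent.Lib.Helper95.JOrth.replace_even p m hpodd hme μ hμ hev ?_
        (fun s hs => Nat.not_odd_iff_even.mp (hodd s hs))
        (fun μ' a b c e => hA μ' a b (c.trans hsum) e)
      rintro rfl
      rw [Multiset.sum_zero] at hsum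
      omega

end Cfsg.Agent.S5994
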