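import Cfsg.Statements.S5995
-- import your own Cfsg.Agent.* helpers here
import Cfsg.Agent.Lib.Helper95.JOrthE
import Cfsg.Agent.Lib.Helper44.NegPairs

set_option autoImplicit false
open scoped MatrixGroups
open Cfsg

namespace Cfsg.Agent.S5995

/-- A necessary condition for every element of order p of Ω_n(q), nq odd, to fix a hyperbolic `m`-space. Here `T = Ω_n(F)`, `n = 2d+1 ≥ 7`, `q` odd, realised as the commutator subgroup of the isometry group of `Q = x₀² + Σ xᵢyᵢ` over the field `F` with `q` elements (trivial centre, so its elements of prime order `r` are used directly); a nondegenerate `m`-space (even `m`) is a subspace on which the polar form of `Q` is nondegenerate; it is hyperbolic if it contains an `m/2`-dimensional subspace on which `Q` vanishes, elliptic otherwise. Let `m` be even with `2 ≤ m ≤ n − 1` and suppose `p` divides the number of hyperbolic `m`-spaces. If every element of `T` of order `p` fixes some hyperbolic `m`-space, then `m ≡ 0 (mod 4)` and every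 partition of `n` into parts of size at most `p` in which every even part has even multiplicity contains (as a sub-multiset) a partition of `m` in which every even part has even multiplicity. -/
theorem result {F : Type*} [Field F] [Fintype F] {p : ℕ} [Fact p.Prime] [CharP F p] {q : ℕ} (hq : Fintype.card F = q) (hqodd : Odd q)
    (d m : ℕ) (hd : 3 ≤ d) (hm : 2 ≤ m) (hme : Even m) (hmn : m ≤ 2 * d)
    (hpΩ : p ∣ Nat.card {W : Submodule F (Unit ⊕ (Fin d ⊕ Fin d) → F) // Module.finrank F ↥W = m ∧ Cfsg.Geo.IsNondegenerateOn (QuadraticMap.polar (Cfsg.quadFormOdd d F)) W ∧ Cfsg.Geo.IsPlusTypeOn (Cfsg.quadFormOdd d F) W}) :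
    (∀ x : GL (Unit ⊕ (Fin d ⊕ Fin d)) F, x ∈ Cfsg.Geo.omegaGL (Cfsg.quadFormOdd d F) → orderOf x = p →
      ∃ W : Submodule F (Unit ⊕ (Fin d ⊕ Fin d) → F), (Module.finrank F ↥W = m ∧ Cfsg.Geo.IsNondegenerateOn (QuadraticMap.polar (Cfsg.quadFormOdd d F)) W ∧ Cfsg.Geo.IsPlusTypeOn (Cfsg.quadFormOdd d F) W) ∧ W.map (Matrix.toLin' (x : Matrix (Unit ⊕ (Fin d ⊕ Fin d)) (Unit ⊕ (Fin d ⊕ Fin d)) F)) ≤ W) →
    (m % 4 = 0 ∧ (∀ μ : Multiset ℕ, (∀ e ∈ μ, 0 < e ∧ e ≤ p) → (∀ e : ℕ, Even e → Even (μ.count e)) → μ.sum = 2 * d + 1 →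
        ∃ ν : Multiset ℕ, ν ≤ μ ∧ ν.sum = m ∧ ∀ e : ℕ, Even e → Even (ν.count e))) := by
  classical
  intro H
  have hp : p.Prime := Fact.out
  have h2 : (2 : F) ≠ 0 :=
    Cfsg.Agent.Lib.Helper95.JOrth.two_ne_zero_of_odd_card (by rw [hq]; exact hqodd)
  have hpodd : Odd p := Cfsg.Agent.Lib.Helper95.JOrth.odd_char_of_two_ne_zero (F := F) h2
  have hp3 : 3 ≤ p := by
    obtain ⟨r, hr⟩ := hpodd
    have := hp.two_le
    omega
  have hcard : Fintype.card (Unit ⊕ (Fin d ⊕ Fin d)) = 2 * d + 1 := by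
    rw [Fintype.card_sum, Fintype.card_sum, Fintype.card_fin, Fintype.card_unit]; ring
  have hA : ∀ μ' : Multiset ℕ, (∀ e ∈ μ', 0 < e ∧ e ≤ p) →
      (∀ e, Even e → Even (μ'.count e)) → μ'.sum = 2 * d + 1 →
      ∃ ν : Multiset ℕ, ν ≤ μ' ∧ ν.sum = m ∧ ∀ e, Even e → Even (ν.count e) := by
    intro μ' h1 h2' h3
    have h4 : ∃ s ∈ μ', Odd s := by
      by_contra hcon
      push_neg at hcon
      have hev : Even μ'.sum := even_iff_two_dvd.mpr (Multiset.dvd_sum (fun s hs =>
        even_iff_two_dvd.mp (Nat.not_odd_iff_even.mp (hcon s hs))))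
      rw [h3] at hev
      obtain ⟨r, hr⟩ := hev
      omega
    obtain ⟨ν, hle, hs, hpar, -⟩ := Cfsg.Agent.Lib.Helper95.JOrth.core h2
      (Cfsg.Agent.Lib.Helper44.NegPairs.oddQ d F)
      (Cfsg.Agent.Lib.Helper44.NegPairs.sep_oddQ h2 d)
      (by rw [hcard]; omega) m (by rw [hcard]; omega)
      (fun W => Cfsg.Geo.IsPlusTypeOn (Cfsg.quadFormOdd d F) W)
      (fun x hx hxp hx1 => H x hx (orderOf_eq_prime hxp hx1))
      μ' h1 h2' (by rw [h3, hcard]) h4
    exact ⟨ν, hle, hs, hpar⟩
  refine ⟨?_, hA⟩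
  rcases Nat.even_or_odd d with hde | hdo
  · obtain ⟨ν, hle, hs, hpar⟩ := hA (1 ::ₘ Multiset.replicate d 2) (by
      intro e he
      rw [Multiset.mem_cons] at he
      rcases he with rfl | he
      · omega
      · rw [Multiset.eq_of_mem_replicate he]; omega) (by
      intro e he
      rw [Multiset.count_cons_of_ne (by rintro rfl; exact absurd he (by decide)),
        Multiset.count_replicate]
      split_ifs
      · exact hde
      · exact Even.zero) (by
      rw [Multiset.sum_cons, Multiset.sum_replicate, smul_eq_mul]; ring)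
    obtain ⟨b, k, hb, hsum, hcnt⟩ :=
      Cfsg.Agent.Lib.Helper95.JOrth.sub_one_odd ν 1 d (by norm_num) hle
    have hk := hpar 2 even_two
    rw [hcnt] at hk
    obtain ⟨r, hr⟩ := hk
    obtain ⟨r', hr'⟩ := hme
    rw [hs] at hsum
    omega
  · obtain ⟨ν, hle, hs, hpar⟩ := hA (3 ::ₘ Multiset.replicate (d - 1) 2) (by
      intro e he
      rw [Multiset.mem_cons] at he
      rcases he with rfl | he
      · omega
      · rw [Multiset.eq_of_mem_replicate he]; omega) (by
      intro e he
      rw [Multiset.count_cons_of_ne (by rintro rfl; exact absurd he (by decide)),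
        Multiset.count_replicate]
      split_ifs
      · obtain ⟨r, hr⟩ := hdo
        exact ⟨r, by omega⟩
      · exact Even.zero) (by
      rw [Multiset.sum_cons, Multiset.sum_replicate, smul_eq_mul]; omega)
    obtain ⟨b, k, hb, hsum, hcnt⟩ :=
      Cfsg.Agent.Lib.Helper95.JOrth.sub_one_odd ν 3 (d - 1) (by norm_num) hle
    have hk := hpar 2 even_two
    rw [hcnt] at hk
    obtain ⟨r, hr⟩ := hk
    obtain ⟨r', hr'⟩ := hme
    rw [hs] at hsum
    omega

end Cfsg.Agent.S5995
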