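import Cfsg.Statements.S5996
-- import your own Cfsg.Agent.* helpers here
import Cfsg.Agent.Lib.Helper95.JOrthE
import Cfsg.Agent.Lib.Helper44.NegPairs

set_option autoImplicit false
open scoped MatrixGroups
open Cfsg

namespace Cfsg.Agent.S5996

/-- A necessary condition for every element of order p of PΩ⁺_n(q), q odd, to fix a hyperbolic `m`-space. Here `T = PΩ⁺_n(F)`, `n = 2d ≥ 8`, realised through `Ω⁺_n(q)`, the commutator subgroup of the isometry group of `Q = Σ xᵢyᵢ` over the field `F` with `q` elements; an element of `T` of prime order `r` is an element `x` of `Ω⁺_n(q)` with `x^r` scalar and `x` not scalar; `q` is odd; a nondegenerate `m`-space (even `m`) is a subspace on which the polar form of `Q` is nondegenerate; it is hyperbolic if it contains an `m/2`-dimensional subspace on which `Q` vanishes, elliptic otherwise. Let `m` be even with `2 ≤ m < n/2` and suppose `p` divides the number of hyperbolic `m`-spaces. If every element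 of `T` of order `p` fixes some hyperbolic `m`-space, then every partition of `n` into parts of size at most `p` in which every even part has even multiplicity contains (as a sub-multiset) a partition of `m` in which every even part has even multiplicity. -/
theorem result {F : Type*} [Field F] [Fintype F] {p : ℕ} [Fact p.Prime] [CharP F p] {q : ℕ} (hq : Fintype.card F = q) (hqodd : Odd q)
    (d m : ℕ) (hd : 4 ≤ d) (hm : 2 ≤ m) (hme : Even m) (hmd : m < d)
    (hpΩ : p ∣ Nat.card {W : Submodule F (Fin d ⊕ Fin d → F) // Module.finrank F ↥W = m ∧ Cfsg.Geo.IsNondegenerateOn (QuadraticMap.polar (Cfsg.quadFormPlus d F)) W ∧ Cfsg.Geo.IsPlusTypeOn (Cfsg.quadFormPlus d F) W}) :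
    (∀ x : GL (Fin d ⊕ Fin d) F, x ∈ Cfsg.Geo.omegaGL (Cfsg.quadFormPlus d F) →
      (∃ z : F, ((x ^ p : GL (Fin d ⊕ Fin d) F) : Matrix (Fin d ⊕ Fin d) (Fin d ⊕ Fin d) F) = z • (1 : Matrix (Fin d ⊕ Fin d) (Fin d ⊕ Fin d) F)) →
      (∀ z : F, (x : Matrix (Fin d ⊕ Fin d) (Fin d ⊕ Fin d) F) ≠ z • (1 : Matrix (Fin d ⊕ Fin d) (Fin d ⊕ Fin d) F)) →
      ∃ W : Submodule F (Fin d ⊕ Fin d → F), (Module.finrank F ↥W = m ∧ Cfsg.Geo.IsNondegenerateOn (QuadraticMap.polar (Cfsg.quadFormPlus d F)) W ∧ Cfsg.Geo.IsPlusTypeOn (Cfsg.quadFormPlus d F) W) ∧ W.map (Matrix.toLin' (x : Matrix (Fin d ⊕ Fin d) (Fin d ⊕ Fin d) F)) ≤ W) →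
    (∀ μ : Multiset ℕ, (∀ e ∈ μ, 0 < e ∧ e ≤ p) → (∀ e : ℕ, Even e → Even (μ.count e)) → μ.sum = 2 * d →
        ∃ ν : Multiset ℕ, ν ≤ μ ∧ ν.sum = m ∧ ∀ e : ℕ, Even e → Even (ν.count e)) := by
  classical
  intro H μ hμ hev hsum
  have hp : p.Prime := Fact.out
  have h2 : (2 : F) ≠ 0 :=
    Cfsg.Agent.Lib.Helper95.JOrth.two_ne_zero_of_odd_card (by rw [hq]; exact hqodd)
  have hpodd : Odd p := Cfsg.Agent.Lib.Helper95.JOrth.odd_char_of_two_ne_zero (F := F) h2
  have hcard : Fintype.card (Fin d ⊕ Fin d) = 2 * d := by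
    rw [Fintype.card_sum, Fintype.card_fin]; ring
  haveI : Nonempty (Fin d ⊕ Fin d) := ⟨Sum.inl ⟨0, by omega⟩⟩
  have hA : ∀ μ' : Multiset ℕ, (∀ e ∈ μ', 0 < e ∧ e ≤ p) →
      (∀ e, Even e → Even (μ'.count e)) → μ'.sum = 2 * d → (∃ s ∈ μ', Odd s) →
      ∃ ν : Multiset ℕ, ν ≤ μ' ∧ ν.sum = m ∧ ∀ e, Even e → Even (ν.count e) := by
    intro μ' h1 h2' h3 h4
    obtain ⟨ν, hle, hs, hpar, -⟩ := Cfsg.Agent.Lib.Helper95.JOrth.core h2
      (Cfsg.Agent.Lib.Helper44.NegPairs.plusQ d F) (Cfsg.Agent.Lib.Helper44.NegPairs.sep_plusQ d)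
      (by rw [hcard]; omega) m (by rw [hcard]; omega)
      (fun W => Cfsg.Geo.IsPlusTypeOn (Cfsg.quadFormPlus d F) W)
      (fun x hx hxp hx1 => H x hx
        (Cfsg.Agent.Lib.Helper95.JOrth.pow_scalar_of_pow_eq_one x hxp)
        (Cfsg.Agent.Lib.Helper95.JOrth.nonscalar_of_ne_one x hxp hx1))
      μ' h1 h2' (by rw [h3, hcard]) h4
    exact ⟨ν, hle, hs, hpar⟩
  by_cases hodd : ∃ s ∈ μ, Odd s
  · exact hA μ hμ hev hsum hodd
  · push_neg at hodd
    refine Cfsg.Agent.Lib.Helper95.JOrth.replace_even p m hpodd hme μ hμ hev ?_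
      (fun s hs => Nat.not_odd_iff_even.mp (hodd s hs))
      (fun μ' a b c e => hA μ' a b (c.trans hsum) e)
    rintro rfl
    rw [Multiset.sum_zero] at hsum
    omega

end Cfsg.Agent.S5996
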