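import Cfsg.Statements.S5998
import Cfsg.Agent.Lib.Helper37.Heis3A
import Cfsg.Agent.Lib.Helper37.Heis3B
import Cfsg.Agent.Lib.Helper37.Heis3C

set_option autoImplicit false
open scoped MatrixGroups
open Cfsg

namespace Cfsg.Agent.S5998

/-- Elements of prime order of PSL_3(p), p ≡ 1 (mod 3), and the normalizer of an extraspecial subgroup of order 27. Here `T = PSL_3(F)` for the field `F` with `p` elements, `p` a prime with `p ≡ 1 (mod 3)`; `R` is a non-abelian subgroup of GL_3(F) of order 27 and exponent 3 (an extraspecial group 3^{1+2}, acting absolutely irreducibly), and `H` is the subgroup of matrices of determinant 1 normalizing `R` — a subgroup of type 3^{1+2}.Sp₂(3) (maximality is not assumed). Ω is the set of cosets of `H` in `T`, so an element of `T` of prime order `r` (a matrix `x` of determinant 1 with `x^r` scalar, `x` not scalar) fixes a point of Ω exactly when some conjugate of `x` by a matrix of determinant 1 normalizes `R`. Let `r` be a prime dividing the index of `H`. Then every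 element of `T` of order `r` fixes a point of Ω if and only if `r = 2`, or `r = 3` and `p ≡ 1 (mod 9)`. -/
theorem result {F : Type*} [Field F] [Fintype F] {p : ℕ} [Fact p.Prime] [CharP F p] (hF : Fintype.card F = p) (hp3 : p % 3 = 1)
    (R : Subgroup (GL (Fin 3) F)) (hR : Nat.card R = 27) (hRe : Monoid.exponent R = 3) (hRna : ¬ IsMulCommutative R)
    (r : ℕ) [Fact r.Prime]
    (hΩ : r ∣ (Cfsg.Geo.subgroupNormalizer R).relIndex (Cfsg.Geo.specialLinear (Fin 3) F)) :
    (∀ x ∈ Cfsg.Geo.specialLinear (Fin 3) F, (∃ z : F, ((x ^ r : GL (Fin 3) F) : Matrix (Fin 3) (Fin 3) F) = z • (1 : Matrix (Fin 3) (Fin 3) F)) →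
      (∀ z : F, (x : Matrix (Fin 3) (Fin 3) F) ≠ z • (1 : Matrix (Fin 3) (Fin 3) F)) →
      ∃ g ∈ Cfsg.Geo.specialLinear (Fin 3) F, g⁻¹ * x * g ∈ Cfsg.Geo.subgroupNormalizer R) ↔ (r = 2 ∨ (r = 3 ∧ p % 9 = 1)) := by
  classical
  have hpp : p.Prime := Fact.out
  have hrp : r.Prime := Fact.out
  have h2 : (2 : F) ≠ 0 := by
    intro h
    have h' : ((2 : ℕ) : F) = 0 := by exact_mod_cast h
    rw [CharP.cast_eq_zero_iff F p] at h'
    have h4 := Nat.le_of_dvd (by norm_num) h'
    have h5 := hpp.two_le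
    omega
  have h3 : (3 : F) ≠ 0 := by
    intro h
    have h' : ((3 : ℕ) : F) = 0 := by exact_mod_cast h
    rw [CharP.cast_eq_zero_iff F p] at h'
    have h4 := Nat.le_of_dvd (by norm_num) h'
    have h5 := hpp.two_le
    omega
  have h3dvd : 3 ∣ Nat.card Fˣ := by
    rw [Nat.card_units, Nat.card_eq_fintype_card, hF]
    omega
  have : Fact (Nat.Prime 3) := ⟨by norm_num⟩
  obtain ⟨w, hw⟩ := exists_prime_orderOf_dvd_card' (G := Fˣ) 3 h3dvd
  have hw3' : w ^ 3 = 1 := by
    have h4 := pow_orderOf_eq_one w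
    rw [hw] at h4
    exact h4
  have hw3 : (w : F) ^ 3 = 1 := by
    rw [← Units.val_pow_eq_pow_val, hw3', Units.val_one]
  have hw1 : (w : F) ≠ 1 := by
    intro h
    have h4 : w = 1 := Units.ext h
    rw [h4, orderOf_one] at hw
    norm_num at hw
  have hω : (w : F) ^ 2 + (w : F) + 1 = 0 := by
    have hf : ((w : F) - 1) * ((w : F) ^ 2 + (w : F) + 1) = 0 := by linear_combination hw3
    rcases mul_eq_zero.mp hf with h | h
    · exact absurd (sub_eq_zero.mp h) hw1
    · exact h
  obtain ⟨g, h, ζ, B, S⟩ := Cfsg.Agent.Lib.Helper37.Heis3B.exists_std h3 (w : F) hω R hR hRe hRna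
  by_cases hr2 : r = 2
  · subst hr2
    constructor
    · intro _
      left
      rfl
    · intro _ x hx hx2 hxns
      exact Cfsg.Agent.Lib.Helper37.Heis3C.conj_two h2 S x hx hx2 hxns
  by_cases hr3 : r = 3
  · subst hr3
    by_cases hp9 : p % 9 = 1
    · constructor
      · intro _
        right
        exact ⟨rfl, hp9⟩
      · intro _ x hx hx3 _
        have h9 : 9 ∣ Fintype.card F - 1 := by
          rw [hF]
          omega
        exact Cfsg.Agent.Lib.Helper37.Heis3C.conj_three h3 h9 S x hx hx3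
    · exact absurd hΩ (Cfsg.Agent.Lib.Helper37.Heis3C.not_three_dvd hF hp3 hp9 S)
  · have hr5 := Cfsg.Agent.Lib.Helper37.Heis3A.five_le_of_prime hrp hr2 hr3
    constructor
    · intro hall
      exact absurd hall (Cfsg.Agent.Lib.Helper37.Heis3C.exists_bad_of_ge_five h3 S r hr5 hΩ)
    · rintro (h | ⟨h, _⟩)
      · exact absurd h hr2
      · exact absurd h hr3

end Cfsg.Agent.S5998
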