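import Cfsg.Statements.S5999
import Cfsg.Agent.Lib.Helper37.Heis3A
import Cfsg.Agent.Lib.Helper37.Heis3B
import Cfsg.Agent.Lib.Helper37.Heis3C
import Cfsg.Agent.Lib.Helper37.Heis3U

set_option autoImplicit false
open scoped MatrixGroups
open Cfsg

namespace Cfsg.Agent.S5999

/-- Elements of prime order of PSU_3(p), p ≡ 2 (mod 3), and the normalizer of an extraspecial subgroup of order 27. Here `T = PSU_3(p)` for a prime `p ≥ 5` with `p ≡ 2 (mod 3)`, realised through `SU_3(p)`, the matrices of determinant 1 over the field `F` with `p²` elements preserving the hermitian form `Σ uᵢvᵢ^p`; `R` is a non-abelian subgroup of order 27 and exponent 3 of the full unitary group of that form (an extraspecial group 3^{1+2}, acting absolutely irreducibly), and `H` is the subgroup of `SU_3(p)` normalizing `R` — a subgroup of type 3^{1+2}.Sp₂(3) (maximality is not assumed). Ω is the set of cosets of `H`, so an element of `T` of prime order `r` (`x ∈ SU_3(p)` with `x^r` scalar, `x`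 not scalar) fixes a point of Ω exactly when some `SU_3(p)`-conjugate of `x` normalizes `R`. Let `r` be a prime dividing the index of `H`. Then every element of `T` of order `r` fixes a point of Ω if and only if `r = 2`, or `r = 3` and `p ≡ 8 (mod 9)`. -/
theorem result {F : Type*} [Field F] [Fintype F] {p : ℕ} [Fact p.Prime] [CharP F p] (hF : Fintype.card F = p ^ 2) (hp : 5 ≤ p) (hp3 : p % 3 = 2)
    (R : Subgroup (GL (Fin 3) F)) (hRU : R ≤ Cfsg.GU 3 F p) (hR : Nat.card R = 27) (hRe : Monoid.exponent R = 3) (hRna : ¬ IsMulCommutative R)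
    (r : ℕ) [Fact r.Prime]
    (hΩ : r ∣ (Cfsg.Geo.subgroupNormalizer R).relIndex (Cfsg.GU 3 F p ⊓ Cfsg.Geo.specialLinear (Fin 3) F)) :
    (∀ x ∈ Cfsg.GU 3 F p ⊓ Cfsg.Geo.specialLinear (Fin 3) F, (∃ z : F, ((x ^ r : GL (Fin 3) F) : Matrix (Fin 3) (Fin 3) F) = z • (1 : Matrix (Fin 3) (Fin 3) F)) →
      (∀ z : F, (x : Matrix (Fin 3) (Fin 3) F) ≠ z • (1 : Matrix (Fin 3) (Fin 3) F)) →
      ∃ g ∈ Cfsg.GU 3 F p ⊓ Cfsg.Geo.specialLinear (Fin 3) F, g⁻¹ * x * g ∈ Cfsg.Geo.subgroupNormalizer R) ↔ (r = 2 ∨ (r = 3 ∧ p % 9 = 8)) := by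
  classical
  have hpp : p.Prime := Fact.out
  have hrp : r.Prime := Fact.out
  have h2 : (2 : F) ≠ 0 := by
    intro h
    have h' : ((2 : ℕ) : F) = 0 := by exact_mod_cast h
    rw [CharP.cast_eq_zero_iff F p] at h'
    have h4 := Nat.le_of_dvd (by norm_num) h'
    omega
  have h3 : (3 : F) ≠ 0 := by
    intro h
    have h' : ((3 : ℕ) : F) = 0 := by exact_mod_cast h
    rw [CharP.cast_eq_zero_iff F p] at h'
    have h4 := Nat.le_of_dvd (by norm_num) h'
    omega
  have h3dvd : 3 ∣ Nat.card Fˣ := by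
    rw [Nat.card_units, Nat.card_eq_fintype_card, hF]
    obtain ⟨k, hk⟩ : ∃ k, p = 3 * k + 2 := ⟨p / 3, by omega⟩
    have e : p ^ 2 - 1 = 3 * (3 * k ^ 2 + 4 * k + 1) := by
      apply Nat.sub_eq_of_eq_add
      rw [hk]
      ring
    rw [e]
    exact dvd_mul_right _ _
  have : Fact (Nat.Prime 3) := ⟨by norm_num⟩
  obtain ⟨w, hw⟩ := exists_prime_orderOf_dvd_card' (G := Fˣ) 3 h3dvd
  have hw3' : w ^ 3 = 1 := by
    have h4 := pow_orderOf_eq_one w
    rw [hw] at h4
    exact h4
  have hw3 : (w : F) ^ 3 = 1 := by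
    rw [← Units.val_pow_eq_pow_val, hw3', Units.val_one]
  have hw1 : (w : F) ≠ 1 := by
    intro h
    have h4 : w = 1 := Units.ext h
    rw [h4, orderOf_one] at hw
    norm_num at hw
  have hω : (w : F) ^ 2 + (w : F) + 1 = 0 := by
    have hf : ((w : F) - 1) * ((w : F) ^ 2 + (w : F) + 1) = 0 := by linear_combination hw3
    rcases mul_eq_zero.mp hf with h | h
    · exact absurd (sub_eq_zero.mp h) hw1
    · exact h
  obtain ⟨g, h, ζ, B, S⟩ := Cfsg.Agent.Lib.Helper37.Heis3B.exists_std h3 (w : F) hω R hR hRe hRna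
  by_cases hr2 : r = 2
  · subst hr2
    constructor
    · intro _
      left
      rfl
    · intro _ x hx hx2 hxns
      have hx6 : x ^ (2 * 3) = 1 :=
        Cfsg.Agent.Lib.Helper37.Heis3U.pow_eq_one_of_scalar x hx.2 2 hx2
      have h6 : (((2 * 3 : ℕ)) : F) ≠ 0 := by
        have e : (((2 * 3 : ℕ)) : F) = 2 * 3 := by norm_num
        rw [e]
        exact mul_ne_zero h2 h3
      exact Cfsg.Agent.Lib.Helper37.Heis3U.exists_conj_SU h3 S hF hp3 hRU x hx (2 * 3) h6 hx6
        (Cfsg.Agent.Lib.Helper37.Heis3C.conj_two h2 S x hx.2 hx2 hxns)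
  by_cases hr3 : r = 3
  · subst hr3
    by_cases hp9 : p % 9 = 8
    · constructor
      · intro _
        right
        exact ⟨rfl, hp9⟩
      · intro _ x hx hx3 _
        have h9 : 9 ∣ Fintype.card F - 1 := by
          rw [hF]
          obtain ⟨k, hk⟩ : ∃ k, p = 9 * k + 8 := ⟨p / 9, by omega⟩
          have e : p ^ 2 - 1 = 9 * (9 * k ^ 2 + 16 * k + 7) := by
            apply Nat.sub_eq_of_eq_add
            rw [hk]
            ring
          rw [e]
          exact dvd_mul_right _ _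
        have hx9 : x ^ (3 * 3) = 1 :=
          Cfsg.Agent.Lib.Helper37.Heis3U.pow_eq_one_of_scalar x hx.2 3 hx3
        have h9' : (((3 * 3 : ℕ)) : F) ≠ 0 := by
          have e : (((3 * 3 : ℕ)) : F) = 3 * 3 := by norm_num
          rw [e]
          exact mul_ne_zero h3 h3
        exact Cfsg.Agent.Lib.Helper37.Heis3U.exists_conj_SU h3 S hF hp3 hRU x hx (3 * 3) h9' hx9
          (Cfsg.Agent.Lib.Helper37.Heis3C.conj_three h3 h9 S x hx.2 hx3)
    · exfalso
      have hq3 : p ^ 2 % 3 = 1 := by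
        rw [Nat.pow_mod, hp3]
      have hq9 : p ^ 2 % 9 ≠ 1 := by
        have h4 : p % 9 = 2 ∨ p % 9 = 5 := by omega
        rcases h4 with h4 | h4
        · rw [Nat.pow_mod, h4]
          norm_num
        · rw [Nat.pow_mod, h4]
          norm_num
      exact Cfsg.Agent.Lib.Helper37.Heis3U.not_three_dvd_sub hF hq3 hq9 S _ inf_le_right
        (le_inf hRU (Cfsg.Agent.Lib.Helper37.Heis3B.le_SL S)) hΩ
  · have hr5 := Cfsg.Agent.Lib.Helper37.Heis3A.five_le_of_prime hrp hr2 hr3
    constructor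
    · intro hall
      exact absurd hall (Cfsg.Agent.Lib.Helper37.Heis3U.exists_bad_of_ge_five_sub h3 S _
        inf_le_right r hr5 hΩ)
    · rintro (h | ⟨h, _⟩)
      · exact absurd h hr2
      · exact absurd h hr3

end Cfsg.Agent.S5999
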