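import Cfsg.Statements.S6000
import Cfsg.Agent.Lib.Helper37.Heis3A
import Cfsg.Agent.Lib.Helper37.Pauli4A
import Cfsg.Agent.Lib.Helper37.Pauli4E

set_option autoImplicit false
open scoped MatrixGroups
open Cfsg

namespace Cfsg.Agent.S6000

/-- Elements of prime order of PSL_4(p), p ≡ 1 (mod 4), and the normalizer of a 2-group of symplectic type of order 2⁶. Here `T = PSL_4(F)` for the field `F` with `p` elements, `p` a prime with `p ≡ 1 (mod 4)`; `R` is an absolutely irreducible subgroup of GL_4(F) of order 2⁶ that is a 2-group of symplectic type of exponent 4 with centre of order 4 (the central product of the scalars of order 4 with an extraspecial group 2^{1+4}), and `H` is the subgroup of matrices of determinant 1 normalizing `R` — a subgroup of type 2⁴.Sp₄(2) (maximality is not assumed). Ω is the set of cosets of `H` in `T`, so an element of `T` of prime order `r` (a matrix `x` of determinant 1 with `x^r` scalar, `x` not scalar) fixes a point of Ω exactly when some conjugate of `x` by a matrix of determinant 1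 normalizes `R`. Let `r` be a prime dividing the index of `H`. Then every element of `T` of order `r` fixes a point of Ω if and only if `r = 2`, or `r = 3` and `p ≡ 2 (mod 3)`, or `r = 5` and `p ≡ ±2 (mod 5)` (`p` has multiplicative order 4 modulo 5). -/
theorem result {F : Type*} [Field F] [Fintype F] {p : ℕ} [Fact p.Prime] [CharP F p] (hF : Fintype.card F = p) (hp4 : p % 4 = 1)
    (R : Subgroup (GL (Fin 4) F)) (hR : Cfsg.Geo.IsLinearSymplecticTypeData 2 R) (hR6 : Nat.card R = 2 ^ 6)
    (r : ℕ) [Fact r.Prime]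
    (hΩ : r ∣ (Cfsg.Geo.subgroupNormalizer R).relIndex (Cfsg.Geo.specialLinear (Fin 4) F)) :
    (∀ x ∈ Cfsg.Geo.specialLinear (Fin 4) F, (∃ z : F, ((x ^ r : GL (Fin 4) F) : Matrix (Fin 4) (Fin 4) F) = z • (1 : Matrix (Fin 4) (Fin 4) F)) →
      (∀ z : F, (x : Matrix (Fin 4) (Fin 4) F) ≠ z • (1 : Matrix (Fin 4) (Fin 4) F)) →
      ∃ g ∈ Cfsg.Geo.specialLinear (Fin 4) F, g⁻¹ * x * g ∈ Cfsg.Geo.subgroupNormalizer R) ↔ (r = 2 ∨ (r = 3 ∧ p % 3 = 2) ∨ (r = 5 ∧ orderOf (p : ZMod 5) = 4)) := by
  classical
  have hpp : p.Prime := Fact.out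
  have hrp : r.Prime := Fact.out
  have hp5le : 5 ≤ p := by
    have := hpp.two_le
    omega
  have h2 : (2 : F) ≠ 0 := by
    have h := Cfsg.Agent.Lib.Helper37.Pauli4E.natCast_ne_zero_of_lt (F := F) (p := p) 2
      (by norm_num) (by omega)
    exact_mod_cast h
  have h3 : (3 : F) ≠ 0 := by
    have h := Cfsg.Agent.Lib.Helper37.Pauli4E.natCast_ne_zero_of_lt (F := F) (p := p) 3
      (by norm_num) (by omega)
    exact_mod_cast h
  obtain ⟨p', e, hne, hmin, hcase⟩ := hR.field
  have hz : Nat.card (Subgroup.center R) = 4 := by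
    rcases hcase with ⟨hodd, -⟩ | ⟨-, -, hz, -⟩ | ⟨-, -, hcard, -⟩
    · exact absurd hodd (by decide)
    · exact hz
    · simp at hcard
  obtain ⟨i, P⟩ := Cfsg.Agent.Lib.Helper37.Pauli4A.exists_pdata R h2 hR.symplecticType
    hR.absIrred hR6 hz
  by_cases hr2 : r = 2
  · subst hr2
    constructor
    · intro _
      left
      rfl
    · intro _ x hx hx2 _
      exact Cfsg.Agent.Lib.Helper37.Pauli4E.conj_two P h3 x hx hx2
  by_cases hr3 : r = 3
  · subst hr3
    by_cases hp3 : p % 3 = 2
    · constructor
      · intro _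
        right
        left
        exact ⟨rfl, hp3⟩
      · intro _ x _ hx3 _
        have hω := Cfsg.Agent.Lib.Helper37.Pauli4E.no_omega hF hp3 h3
        have hroot : ∀ z : F, z ≠ 0 → ∃ d : F, d ^ 3 = z := fun z hz0 =>
          Cfsg.Agent.Lib.Helper37.Pauli4E.exists_root_of_coprime 3
            (by rw [hF]; exact Cfsg.Agent.Lib.Helper37.Pauli4E.coprime_pred_three hp3) z hz0
        exact Cfsg.Agent.Lib.Helper37.Pauli4E.conj_three P h3 hω hroot x hx3
    · have hp31 : p % 3 = 1 := by
        have h0 : p % 3 ≠ 0 := by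
          intro h0
          have h3p : 3 ∣ p := Nat.dvd_of_mod_eq_zero h0
          have h4 := (Nat.prime_dvd_prime_iff_eq (by norm_num) hpp).mp h3p
          omega
        omega
      obtain ⟨ω, hω⟩ := Cfsg.Agent.Lib.Helper37.Pauli4E.exists_omega (F := F) hF hp31
      constructor
      · intro hall
        exact absurd hall (Cfsg.Agent.Lib.Helper37.Pauli4E.bad_three P h3 ω hω)
      · rintro (h | ⟨-, h⟩ | ⟨h, -⟩)
        · exact absurd h (by norm_num)
        · exact absurd h hp3
        · exact absurd h (by norm_num)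
  by_cases hr5 : r = 5
  · subst hr5
    by_cases ho : orderOf (p : ZMod 5) = 4
    · constructor
      · intro _
        right
        right
        exact ⟨rfl, ho⟩
      · intro _ x _ hx5 _
        have hmod := (Cfsg.Agent.Lib.Helper37.Pauli4E.order_mod_five p).1 ho
        have hp5 : p ≠ 5 := by
          intro h
          rw [h] at hmod
          omega
        have h5 : (5 : F) ≠ 0 := Cfsg.Agent.Lib.Helper37.Pauli4E.five_ne_zero (p := p) hpp hp5
        have hirr := Cfsg.Agent.Lib.Helper37.Pauli4E.cyc5_irreducible (F := F) hF ho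
        have hroot : ∀ z : F, z ≠ 0 → ∃ d : F, d ^ 5 = z := fun z hz0 =>
          Cfsg.Agent.Lib.Helper37.Pauli4E.exists_root_of_coprime 5
            (by rw [hF]; exact Cfsg.Agent.Lib.Helper37.Pauli4E.coprime_pred_five hmod) z hz0
        exact Cfsg.Agent.Lib.Helper37.Pauli4E.conj_five P h3 h5 hirr hroot x hx5
    · have hmod : ¬ (p % 5 = 2 ∨ p % 5 = 3) := fun h =>
        ho ((Cfsg.Agent.Lib.Helper37.Pauli4E.order_mod_five p).2 h)
      constructor
      · intro hall
        by_cases hp5 : p = 5
        · have h5 : (5 : F) = 0 := by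
            have h := CharP.cast_eq_zero F p
            rw [hp5] at h
            exact_mod_cast h
          exact absurd hall (Cfsg.Agent.Lib.Helper37.Pauli4E.bad_five_char P h3 h5)
        · have hp5' : p % 5 = 1 ∨ p % 5 = 4 := by
            have h0 : p % 5 ≠ 0 := by
              intro h0
              have h5p : 5 ∣ p := Nat.dvd_of_mod_eq_zero h0
              exact hp5 ((Nat.prime_dvd_prime_iff_eq (by norm_num) hpp).mp h5p).symm
            omega
          have h5 : (5 : F) ≠ 0 := Cfsg.Agent.Lib.Helper37.Pauli4E.five_ne_zero (p := p) hpp hp5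
          obtain ⟨t, ht⟩ := Cfsg.Agent.Lib.Helper37.Pauli4E.exists_golden (F := F) hp4 h2 hp5'
          exact absurd hall (Cfsg.Agent.Lib.Helper37.Pauli4E.bad_five P h5 t ht)
      · rintro (h | ⟨h, -⟩ | ⟨-, h⟩)
        · exact absurd h (by norm_num)
        · exact absurd h (by norm_num)
        · exact absurd h ho
  · have hr7 := Cfsg.Agent.Lib.Helper37.Pauli4E.seven_le_of_prime hrp hr2 hr3 hr5
    constructor
    · intro hall
      exact absurd hall (Cfsg.Agent.Lib.Helper37.Pauli4E.bad_ge_seven P r hr7 hΩ)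
    · rintro (h | ⟨h, -⟩ | ⟨h, -⟩)
      · exact absurd h hr2
      · exact absurd h hr3
      · exact absurd h hr5

end Cfsg.Agent.S6000
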