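import Cfsg.Statements.S6001
import Cfsg.Agent.Lib.Helper40.HermAdj
import Cfsg.Agent.Lib.Helper37.Pauli4A
import Cfsg.Agent.Lib.Helper37.Pauli4E
import Cfsg.Agent.Lib.Helper37.Pauli4G
import Cfsg.Agent.Lib.Helper37.Pauli4H

set_option autoImplicit false
open scoped MatrixGroups
open Cfsg

namespace Cfsg.Agent.S6001

/-- Elements of prime order of PSU_4(p), p ≡ 3 (mod 4), and the normalizer of a 2-group of symplectic type of order 2⁶. Here `T = PSU_4(p)` for a prime `p ≡ 3 (mod 4)`, realised through `SU_4(p)`, the matrices of determinant 1 over the field `F` with `p²` elements preserving the hermitian form `f = Σ uᵢvᵢ^p`; `R` is an absolutely irreducible subgroup of the full unitary group of `f` of order 2⁶ that is a 2-group of symplectic type of exponent 4 with centre of order 4, and `H` is the subgroup of `SU_4(p)` normalizing `R` — a subgroup of type 2⁴.Sp₄(2) (maximality is not assumed). Ω is the set of cosets of `H`, so an element of `T` of prime order `r` (`x ∈ SU_4(p)` with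 `x^r` scalar, `x` not scalar) fixes a point of Ω exactly when some `SU_4(p)`-conjugate of `x` normalizes `R`. Let `r` be a prime dividing the index of `H`. Then every element of `T` of order `r` fixes a point of Ω if and only if `r = 2`, or `r = 3` and `p ≡ 1 (mod 3)`, or `r = 5` and `p ≡ ±2 (mod 5)` (`p` has multiplicative order 4 modulo 5). -/
theorem result {F : Type*} [Field F] [Fintype F] {p : ℕ} [Fact p.Prime] [CharP F p] (hF : Fintype.card F = p ^ 2) (hp4 : p % 4 = 3)
    (R : Subgroup (GL (Fin 4) F)) (hRs : Cfsg.Geo.IsSymplecticTypeGroup 2 R) (hRi : Cfsg.Geo.ActsAbsolutelyIrreducibly (Cfsg.Geo.matrixSet R))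
    (hRU : R ≤ Cfsg.GU 4 F p) (hR6 : Nat.card R = 2 ^ 6) (hRZ : Nat.card (Subgroup.center R) = 4)
    (r : ℕ) [Fact r.Prime]
    (hΩ : r ∣ (Cfsg.Geo.subgroupNormalizer R).relIndex (Cfsg.GU 4 F p ⊓ Cfsg.Geo.specialLinear (Fin 4) F)) :
    (∀ x ∈ Cfsg.GU 4 F p ⊓ Cfsg.Geo.specialLinear (Fin 4) F, (∃ z : F, ((x ^ r : GL (Fin 4) F) : Matrix (Fin 4) (Fin 4) F) = z • (1 : Matrix (Fin 4) (Fin 4) F)) →
      (∀ z : F, (x : Matrix (Fin 4) (Fin 4) F) ≠ z • (1 : Matrix (Fin 4) (Fin 4) F)) →
      ∃ g ∈ Cfsg.GU 4 F p ⊓ Cfsg.Geo.specialLinear (Fin 4) F, g⁻¹ * x * g ∈ Cfsg.Geo.subgroupNormalizer R) ↔ (r = 2 ∨ (r = 3 ∧ p % 3 = 1) ∨ (r = 5 ∧ orderOf (p : ZMod 5) = 4)) := by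
  classical
  have hpp : p.Prime := Fact.out
  have hrp : r.Prime := Fact.out
  have hp3le : 3 ≤ p := by
    have := hpp.two_le
    omega
  have h2 : (2 : F) ≠ 0 := by
    have h := Cfsg.Agent.Lib.Helper37.Pauli4E.natCast_ne_zero_of_lt (F := F) (p := p) 2
      (by norm_num) (by omega)
    exact_mod_cast h
  obtain ⟨φ, hφ, hφ2, l, hl⟩ := Cfsg.Agent.Lib.Helper40.HermAdj.exists_phi hF
  obtain ⟨i, P⟩ := Cfsg.Agent.Lib.Helper37.Pauli4A.exists_pdata R h2 hRs hRi hR6 hRZ
  have hRU' : ∀ a ∈ R, Cfsg.Agent.Lib.Helper40.HermAdj.adj φ (a : Matrix (Fin 4) (Fin 4) F) *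
      (a : Matrix (Fin 4) (Fin 4) F) = 1 :=
    fun a ha => (Cfsg.Agent.Lib.Helper40.HermAdj.mem_GU_iff φ hφ a).1 (hRU ha)
  have hφi := Cfsg.Agent.Lib.Helper37.Pauli4G.phi_i P φ hRU'
  by_cases hr2 : r = 2
  · subst hr2
    constructor
    · intro _
      left
      rfl
    · intro _ x hx hx2 _
      exact Cfsg.Agent.Lib.Helper37.Pauli4G.conj_two_U hF hp4 P φ hφ hφ2 l hl hRU x hx hx2
  by_cases hr3 : r = 3
  · subst hr3
    by_cases hp3 : p % 3 = 1
    · constructor
      · intro _
        right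
        left
        exact ⟨rfl, hp3⟩
      · intro _ x hx hx3 _
        exact Cfsg.Agent.Lib.Helper37.Pauli4G.conj_three_U hF hp3 P φ hφ hφ2 l hl hRU x hx hx3
    · constructor
      · intro hall
        by_cases hp30 : p % 3 = 0
        · have h3p : 3 ∣ p := Nat.dvd_of_mod_eq_zero hp30
          have hp3eq : p = 3 := ((Nat.prime_dvd_prime_iff_eq (by norm_num) hpp).mp h3p).symm
          have h3 : (3 : F) = 0 := by
            have h := CharP.cast_eq_zero F p
            rw [hp3eq] at h
            exact_mod_cast h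
          exact absurd hall (Cfsg.Agent.Lib.Helper37.Pauli4H.bad_three_char P φ hφ hφi h3)
        · have hp32 : p % 3 = 2 := by omega
          have h3 : (3 : F) ≠ 0 := by
            have h := Cfsg.Agent.Lib.Helper37.Pauli4E.natCast_ne_zero_of_lt (F := F) (p := p) 3
              (by norm_num) (by omega)
            exact_mod_cast h
          obtain ⟨ω, hω⟩ := Cfsg.Agent.Lib.Helper37.Pauli4G.exists_omega_sq (F := F) hF hp30
          have hω3 : ω ^ 3 = 1 := by linear_combination (ω - 1) * hω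
          have hφω := Cfsg.Agent.Lib.Helper37.Pauli4G.phi_omega_two φ hφ hp32 ω hω3
          exact absurd hall (Cfsg.Agent.Lib.Helper37.Pauli4H.bad_three_U P φ hφ h3 ω hω hφω)
      · rintro (h | ⟨-, h⟩ | ⟨h, -⟩)
        · exact absurd h (by norm_num)
        · exact absurd h hp3
        · exact absurd h (by norm_num)
  by_cases hr5 : r = 5
  · subst hr5
    by_cases ho : orderOf (p : ZMod 5) = 4
    · constructor
      · intro _
        right
        right
        exact ⟨rfl, ho⟩
      · intro _ x hx hx5 _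
        have hmod := (Cfsg.Agent.Lib.Helper37.Pauli4E.order_mod_five p).1 ho
        exact Cfsg.Agent.Lib.Helper37.Pauli4G.conj_five_U hF hp4 hmod P φ hφ hφ2 l hl hRU x hx
          hx5
    · have hmod : ¬ (p % 5 = 2 ∨ p % 5 = 3) := fun h =>
        ho ((Cfsg.Agent.Lib.Helper37.Pauli4E.order_mod_five p).2 h)
      constructor
      · intro hall
        have hp5 : p ≠ 5 := by
          intro h
          rw [h] at hp4
          omega
        have hp5' : p % 5 = 1 ∨ p % 5 = 4 := by
          have h0 : p % 5 ≠ 0 := by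
            intro h0
            have h5p : 5 ∣ p := Nat.dvd_of_mod_eq_zero h0
            exact hp5 ((Nat.prime_dvd_prime_iff_eq (by norm_num) hpp).mp h5p).symm
          omega
        exact absurd hall (Cfsg.Agent.Lib.Helper37.Pauli4H.bad_five_U P φ hφ hp4 hp5')
      · rintro (h | ⟨h, -⟩ | ⟨-, h⟩)
        · exact absurd h (by norm_num)
        · exact absurd h (by norm_num)
        · exact absurd h ho
  · have hr7 := Cfsg.Agent.Lib.Helper37.Pauli4E.seven_le_of_prime hrp hr2 hr3 hr5
    constructor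
    · intro hall
      exact absurd hall (Cfsg.Agent.Lib.Helper37.Pauli4H.bad_ge_seven_sub P
        (Cfsg.GU 4 F p ⊓ Cfsg.Geo.specialLinear (Fin 4) F) inf_le_right r hr7 hΩ)
    · rintro (h | ⟨h, -⟩ | ⟨h, -⟩)
      · exact absurd h hr2
      · exact absurd h hr3
      · exact absurd h hr5

end Cfsg.Agent.S6001
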