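import Cfsg.Statements.S6002
import Cfsg.Agent.Lib.Helper37.Pauli4E
import Cfsg.Agent.Lib.Helper37.Pauli5A
import Cfsg.Agent.Lib.Helper37.Pauli5E

set_option autoImplicit false
open scoped MatrixGroups
open Cfsg

namespace Cfsg.Agent.S6002

/-- Elements of prime order of PSp_4(p), p odd, and the normalizer of an extraspecial 2-group of order 2⁵ of minus type. Here `T = PSp_4(F)` for the field `F` with `p` elements, `p` an odd prime, realised through the matrices preserving the standard alternating form `f`; `R` is an absolutely irreducible subgroup of `T` (it preserves `f`) that is a 2-group of symplectic type of exponent 4, order 2⁵ and centre of order 2, of minus type (no elementary abelian subgroup of order 2³), and `H` is the subgroup of `T` normalizing `R` — a subgroup of type 2^{1+4}.O₄⁻(2) (maximality is not assumed). Ω is the set of cosets of `H` in `T`, so an element of `T` of prime order `r` (`x ∈ T` with `x^r` scalar, `x` not scalar) fixes a point of Ω exactly when some `T`-conjugate of `x`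 normalizes `R`. Let `r` be a prime dividing the index of `H`. Then every element of `T` of order `r` fixes a point of Ω if and only if `r = 2`, or `r = 5` and `p` has multiplicative order 4 modulo 5. -/
theorem result {F : Type*} [Field F] [Fintype F] {p : ℕ} [Fact p.Prime] [CharP F p] (hF : Fintype.card F = p) (hodd : Odd p)
    (R : Subgroup (GL (Fin 2 ⊕ Fin 2) F)) (hRs : Cfsg.Geo.IsSymplecticTypeGroup 2 R) (hRi : Cfsg.Geo.ActsAbsolutelyIrreducibly (Cfsg.Geo.matrixSet R))
    (hRf : R ≤ Cfsg.spGL 2 F) (hR5 : Nat.card R = 2 ^ 5) (hRZ : Nat.card (Subgroup.center R) = 2) (hRm : Cfsg.Geo.IsOfMinusType 2 R)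
    (r : ℕ) [Fact r.Prime]
    (hΩ : r ∣ (Cfsg.Geo.subgroupNormalizer R).relIndex (Cfsg.spGL 2 F)) :
    (∀ x ∈ Cfsg.spGL 2 F, (∃ z : F, ((x ^ r : GL (Fin 2 ⊕ Fin 2) F) : Matrix (Fin 2 ⊕ Fin 2) (Fin 2 ⊕ Fin 2) F) = z • (1 : Matrix (Fin 2 ⊕ Fin 2) (Fin 2 ⊕ Fin 2) F)) →
      (∀ z : F, (x : Matrix (Fin 2 ⊕ Fin 2) (Fin 2 ⊕ Fin 2) F) ≠ z • (1 : Matrix (Fin 2 ⊕ Fin 2) (Fin 2 ⊕ Fin 2) F)) →
      ∃ g ∈ Cfsg.spGL 2 F, g⁻¹ * x * g ∈ Cfsg.Geo.subgroupNormalizer R) ↔ (r = 2 ∨ (r = 5 ∧ orderOf (p : ZMod 5) = 4)) := by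
  classical
  have hpp : p.Prime := Fact.out
  have hrp : r.Prime := Fact.out
  have hp2 : p ≠ 2 := by
    intro h
    rw [h] at hodd
    exact absurd hodd (by decide)
  have hp3le : 3 ≤ p := by
    have := hpp.two_le
    omega
  have h2 : (2 : F) ≠ 0 := by
    have h := Cfsg.Agent.Lib.Helper37.Pauli4E.natCast_ne_zero_of_lt (F := F) (p := p) 2
      (by norm_num) (by omega)
    exact_mod_cast h
  have P := Cfsg.Agent.Lib.Helper37.Pauli5A.exists_qdata R h2 hRs hRi hR5 hRZ
  by_cases hr2 : r = 2
  · subst hr2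
    constructor
    · intro _
      left
      rfl
    · intro _ x hx hx2 hns
      exact Cfsg.Agent.Lib.Helper37.Pauli5E.good_two P hRf x hx hx2 hns
  by_cases hr3 : r = 3
  · subst hr3
    constructor
    · intro hall
      by_cases h3 : (3 : F) = 0
      · exact absurd hall (Cfsg.Agent.Lib.Helper37.Pauli5E.bad_char P 3 (by norm_num)
          (by exact_mod_cast h3))
      · exact absurd hall (Cfsg.Agent.Lib.Helper37.Pauli5E.bad_three P hRf h3)
    · rintro (h | ⟨h, -⟩)
      · exact absurd h (by norm_num)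
      · exact absurd h (by norm_num)
  by_cases hr5 : r = 5
  · subst hr5
    by_cases ho : orderOf (p : ZMod 5) = 4
    · constructor
      · intro _
        right
        exact ⟨rfl, ho⟩
      · intro _ x hx hx5 hns
        exact Cfsg.Agent.Lib.Helper37.Pauli5E.good_five hF ho P hRf x hx hx5 hns
    · have hmod : ¬ (p % 5 = 2 ∨ p % 5 = 3) := fun h =>
        ho ((Cfsg.Agent.Lib.Helper37.Pauli4E.order_mod_five p).2 h)
      constructor
      · intro hall
        by_cases h0 : p % 5 = 0
        · have h5p : 5 ∣ p := Nat.dvd_of_mod_eq_zero h0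
          have hp5eq : p = 5 := ((Nat.prime_dvd_prime_iff_eq (by norm_num) hpp).mp h5p).symm
          have h5 : ((5 : ℕ) : F) = 0 := by
            have h := CharP.cast_eq_zero F p
            rw [hp5eq] at h
            exact h
          exact absurd hall (Cfsg.Agent.Lib.Helper37.Pauli5E.bad_char P 5 (by norm_num) h5)
        · have hp5' : p % 5 = 1 ∨ p % 5 = 4 := by omega
          exact absurd hall (Cfsg.Agent.Lib.Helper37.Pauli5E.bad_five P hp2 hp5')
      · rintro (h | ⟨-, h⟩)
        · exact absurd h (by norm_num)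
        · exact absurd h ho
  · have hr7 := Cfsg.Agent.Lib.Helper37.Pauli4E.seven_le_of_prime hrp hr2 hr3 hr5
    constructor
    · intro hall
      exact absurd hall (Cfsg.Agent.Lib.Helper37.Pauli5E.bad_ge_seven P r hr7 hΩ)
    · rintro (h | ⟨h, -⟩)
      · exact absurd h hr2
      · exact absurd h hr5

end Cfsg.Agent.S6002
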